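import Cfsg.Statements.S2947
import Mathlib
import Cfsg.Agent.Lib.Basic.PCore
-- import your own Cfsg.Agent.* helpers here

set_option autoImplicit false
open Cfsg

namespace Cfsg.Agent.S2947


section Helpers

variable {G : Type*} [Group G] [Finite G]

omit [Finite G] in
theorem conj_mem_pCoreOf_of_map_eq {M : Subgroup G} [Finite M] {g : G}
    (hg : M.map (MulAut.conj g).toMonoidHom = M) {x : G} (hx : x ∈ Cfsg.pCoreOf 2 M) :
    g * x * g⁻¹ ∈ Cfsg.pCoreOf 2 M := by
  have hfact : Fact (Nat.Prime 2) := ⟨Nat.prime_two⟩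
  set Q : Subgroup G := Cfsg.pCoreOf 2 M with hQ
  have hQle : Q ≤ M := by
    rintro _ ⟨y, -, rfl⟩
    exact y.2
  have hQp : IsPGroup 2 Q := (Cfsg.Agent.Lib.Basic.PCore.pCore_isPGroup 2).map M.subtype
  have hQconj : ∀ d ∈ M, ∀ y ∈ Q, d * y * d⁻¹ ∈ Q := by
    rintro d hd _ ⟨y, hy, rfl⟩
    have := (Cfsg.Agent.Lib.Basic.PCore.pCore_normal 2 M).conj_mem y hy ⟨d, hd⟩
    exact ⟨_, this, rfl⟩
  set Q' : Subgroup G := Q.map (MulAut.conj g).toMonoidHom with hQ'
  have hQ'le : Q' ≤ M := by
    rw [← hg]
    exact Subgroup.map_mono hQle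
  have hN : (Q'.subgroupOf M).Normal := by
    constructor
    intro n hn c
    rw [Subgroup.mem_subgroupOf] at hn ⊢
    obtain ⟨y, hy, hyn⟩ := hn
    have hc : (c : G) ∈ M.map (MulAut.conj g).toMonoidHom := by rw [hg]; exact c.2
    obtain ⟨d, hd, hdc⟩ := hc
    refine ⟨d * y * d⁻¹, hQconj d hd y hy, ?_⟩
    simp only [MulEquiv.coe_toMonoidHom, MulAut.conj_apply] at hyn hdc ⊢
    push_cast
    rw [← hyn, ← hdc]
    group
  have hp : IsPGroup 2 (Q'.subgroupOf M) :=
    (hQp.map (MulAut.conj g).toMonoidHom).comap_of_injective M.subtype M.subtype_injective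
  have hle := Cfsg.Agent.Lib.Basic.PCore.le_pCore hN hp
  have hmem : g * x * g⁻¹ ∈ Q' := ⟨x, hx, rfl⟩
  have h2 : (⟨g * x * g⁻¹, hQ'le hmem⟩ : M) ∈ Q'.subgroupOf M := by
    rw [Subgroup.mem_subgroupOf]; exact hmem
  exact ⟨_, hle h2, rfl⟩

/-- In a strongly embedded subgroup, normalizers of nontrivial 2-subgroups stay inside. -/
theorem normalizer_le_of_se {M : Subgroup G} (hM : Cfsg.IsStronglyEmbedded M) {U : Subgroup G}
    (hU : IsPGroup 2 U) (hU1 : U ≠ ⊥) (hUM : U ≤ M) : Subgroup.normalizer (U : Set G) ≤ M := by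
  intro g hg
  by_contra hgM
  have hodd := hM.2.2 g hgM
  have hle : U ≤ M ⊓ M.map (MulAut.conj g).toMonoidHom := by
    refine le_inf hUM ?_
    intro u hu
    have hfix : g⁻¹ * u * g ∈ U := by
      have := (Subgroup.mem_normalizer_iff.mp (inv_mem hg) u).mp hu
      simpa using this
    exact ⟨_, hUM hfix, by simp [mul_assoc]⟩
  have hd := Subgroup.card_dvd_of_le hle
  obtain ⟨k, hk⟩ := IsPGroup.iff_card.mp hU
  have hk0 : k ≠ 0 := by
    rintro rfl
    rw [pow_zero] at hk
    exact hU1 ((Subgroup.card_eq_one).mp hk)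
  have h2 : 2 ∣ Nat.card U := by
    rw [hk]
    exact dvd_pow_self 2 hk0
  have h3 := h2.trans hd
  rw [Nat.odd_iff] at hodd
  omega

/-- A 2-subgroup meeting a strongly embedded subgroup nontrivially lies inside. -/
theorem le_of_inf_ne_bot {M : Subgroup G} (hM : Cfsg.IsStronglyEmbedded M) {R : Subgroup G}
    (hR : IsPGroup 2 R) (hne : R ⊓ M ≠ ⊥) : R ≤ M := by
  by_contra hnot
  have hfact : Fact (Nat.Prime 2) := ⟨Nat.prime_two⟩
  have hnil : Group.IsNilpotent R := hR.isNilpotent
  have hH : (R ⊓ M).subgroupOf R < ⊤ := by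
    rw [lt_top_iff_ne_top]
    intro htop
    apply hnot
    intro r hr
    have : (⟨r, hr⟩ : R) ∈ (R ⊓ M).subgroupOf R := by rw [htop]; trivial
    exact (Subgroup.mem_subgroupOf.mp this).2
  have hlt := (Group.normalizerCondition_of_isNilpotent (G := R)) _ hH
  obtain ⟨r, hr, hr2⟩ := SetLike.exists_of_lt hlt
  apply hr2
  rw [Subgroup.mem_subgroupOf]
  refine ⟨r.2, ?_⟩
  have hUp : IsPGroup 2 (R ⊓ M : Subgroup G) := hR.to_le inf_le_left
  refine normalizer_le_of_se hM hUp hne inf_le_right ?_
  rw [Subgroup.mem_normalizer_iff]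
  intro z
  constructor
  · intro hz
    have hz' : (⟨z, hz.1⟩ : R) ∈ (R ⊓ M).subgroupOf R := Subgroup.mem_subgroupOf.mpr hz
    have := (Subgroup.mem_normalizer_iff.mp hr _).mp hz'
    exact Subgroup.mem_subgroupOf.mp this
  · intro hz
    have hzR : z ∈ R := by
      have h1 := R.mul_mem (R.mul_mem (R.inv_mem r.2) hz.1) r.2
      simpa [mul_assoc] using h1
    have hz' : r * (⟨z, hzR⟩ : R) * r⁻¹ ∈ (R ⊓ M).subgroupOf R := Subgroup.mem_subgroupOf.mpr hz
    have := (Subgroup.mem_normalizer_iff.mp hr _).mpr hz'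
    exact Subgroup.mem_subgroupOf.mp this

end Helpers

/-- Let G be a finite group of characteristic 2 type in which every 2-local subgroup is solvable and the centralizer of Ω₁(Z(S)) lies in N_G(S) for every Sylow 2-subgroup S; suppose O₂(G) = 1, fix a Sylow 2-subgroup S and a 2-local subgroup M containing N_G(J(S)) (J the Thompson subgroup generated by the elementary abelian 2-subgroups of largest order). Then M is strongly embedded in G (a proper subgroup of even order whose intersection with each conjugate by an element outside M has odd order) if and only if no nontrivial 2-subgroup of M lies in a 2-local subgroup of G not contained in M. -/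
theorem result {G : Type*} [Group G] [Finite G] (hL : Cfsg.IsCharacteristicTwoType G) (hN : ∀ N : Subgroup G, Cfsg.IsTwoLocal N → Group.IsSolvable ↥N)
    (hZ : ∀ S : Sylow 2 G, Subgroup.centralizer (Cfsg.omegaCenterOf (S : Subgroup G) : Set G) ≤ Subgroup.normalizer ((S : Subgroup G) : Set G)) (hO : Cfsg.pCore 2 G = ⊥) (S : Sylow 2 G) (M : Subgroup G) (hM : Cfsg.IsTwoLocal M)
    (hMJ : Subgroup.normalizer (Cfsg.thompsonSubgroupOf 2 (S : Subgroup G) : Set G) ≤ M) :
    Cfsg.IsStronglyEmbedded M ↔ Cfsg.straddlingTwoSubgroups M = ∅ := by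
  classical
  have hfact : Fact (Nat.Prime 2) := ⟨Nat.prime_two⟩
  obtain ⟨R, hRp, hR1, hMR⟩ := hM
  have hRM : R ≤ M := by rw [hMR]; exact Subgroup.le_normalizer
  constructor
  · intro hSE
    rw [Set.eq_empty_iff_forall_notMem]
    rintro T ⟨hT2, hT1, hTM, L, ⟨P, hP2, hP1, hLP⟩, hTL, hLM⟩
    apply hLM
    rw [hLP]
    have hTN : T ≤ Subgroup.normalizer (P : Set G) := hLP ▸ hTL
    have hsup : IsPGroup 2 (T ⊔ P : Subgroup G) := hT2.to_sup_of_normal_right' hP2 hTN
    have hne : (T ⊔ P) ⊓ M ≠ ⊥ := by
      intro hbot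
      apply hT1
      rw [eq_bot_iff, ← hbot]
      exact le_inf le_sup_left hTM
    have h1 := le_of_inf_ne_bot hSE hsup hne
    exact normalizer_le_of_se hSE hP2 hP1 (le_sup_right.trans h1)
  · intro hEmpty
    have hno : ∀ T : Subgroup G, IsPGroup 2 T → T ≠ ⊥ → T ≤ M → ∀ L : Subgroup G, Cfsg.IsTwoLocal L → T ≤ L → L ≤ M := by
      intro T h1 h2 h3 L h4 h5
      by_contra h6
      have : T ∈ Cfsg.straddlingTwoSubgroups M := ⟨h1, h2, h3, L, h4, h5, h6⟩
      rw [hEmpty] at this
      exact this
    refine ⟨?_, ?_, ?_⟩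
    · -- M ≠ ⊤
      intro htop
      have hnorm : R.Normal := by
        rw [← Subgroup.normalizer_eq_top_iff, ← hMR]
        exact htop
      have := Cfsg.Agent.Lib.Basic.PCore.le_pCore hnorm hRp
      rw [hO] at this
      exact hR1 (eq_bot_iff.mpr this)
    · obtain ⟨k, hk⟩ := IsPGroup.iff_card.mp hRp
      have hk0 : k ≠ 0 := by
        rintro rfl
        rw [pow_zero] at hk
        exact hR1 ((Subgroup.card_eq_one).mp hk)
      have h2 : 2 ∣ Nat.card R := by
        rw [hk]
        exact dvd_pow_self 2 hk0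
      exact even_iff_two_dvd.mpr (h2.trans (Subgroup.card_dvd_of_le hRM))
    · intro g hgM
      by_contra hnotodd
      rw [Nat.not_odd_iff_even, even_iff_two_dvd] at hnotodd
      obtain ⟨t, ht⟩ := exists_prime_orderOf_dvd_card' 2 hnotodd
      have ht' : orderOf (t : G) = 2 := by
        rw [← ht]; exact Subgroup.orderOf_coe t
      have hTp : IsPGroup 2 (Subgroup.zpowers (t : G)) := by
        apply IsPGroup.of_card (n := 1)
        rw [Nat.card_zpowers, ht', pow_one]
      have hT1 : Subgroup.zpowers (t : G) ≠ ⊥ := by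
        intro h
        rw [Subgroup.zpowers_eq_bot] at h
        rw [h, orderOf_one] at ht'
        omega
      have hTM : Subgroup.zpowers (t : G) ≤ M := by
        rw [Subgroup.zpowers_le]; exact t.2.1
      have hTMg : Subgroup.zpowers (t : G) ≤ M.map (MulAut.conj g).toMonoidHom := by
        rw [Subgroup.zpowers_le]; exact t.2.2
      have hLocal : Cfsg.IsTwoLocal (M.map (MulAut.conj g).toMonoidHom) := by
        refine ⟨R.map (MulAut.conj g).toMonoidHom, hRp.map _, ?_, ?_⟩
        · intro h
          apply hR1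
          rw [Subgroup.map_eq_bot_iff_of_injective _ (MulAut.conj g).injective] at h
          exact h
        · rw [hMR]
          ext y
          rw [Subgroup.mem_map_equiv, Subgroup.mem_normalizer_iff, Subgroup.mem_normalizer_iff]
          constructor
          · intro h z
            have h1 := h (g⁻¹ * z * g)
            simp only [MulAut.conj_symm_apply, SetLike.mem_coe] at h1
            rw [Subgroup.mem_map_equiv, MulAut.conj_symm_apply]
            rw [Subgroup.mem_map_equiv, MulAut.conj_symm_apply]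
            simp only [mul_assoc, mul_inv_cancel_left, mul_inv_rev, inv_inv] at h1 ⊢
            exact h1
          · intro h z
            have h1 := h (g * z * g⁻¹)
            rw [Subgroup.mem_map_equiv, MulAut.conj_symm_apply] at h1
            rw [Subgroup.mem_map_equiv, MulAut.conj_symm_apply] at h1
            simp only [MulAut.conj_symm_apply]
            simp only [mul_assoc, mul_inv_cancel_left, mul_inv_rev, inv_inv, inv_mul_cancel_left, inv_mul_cancel, mul_one] at h1 ⊢
            exact h1
      have hle := hno _ hTp hT1 hTM _ hLocal hTMg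
      have hcard : Nat.card M ≤ Nat.card (M.map (MulAut.conj g).toMonoidHom) := by
        exact le_of_eq (Nat.card_congr (M.equivMapOfInjective (MulAut.conj g).toMonoidHom (MulAut.conj g).injective).toEquiv)
      have hgmap : M.map (MulAut.conj g).toMonoidHom = M :=
        Subgroup.eq_of_le_of_card_ge hle hcard
      -- g normalizes O₂(M)
      set Q : Subgroup G := Cfsg.pCoreOf 2 M with hQ
      have hRQ : R ≤ Q := by
        have hn : (R.subgroupOf M).Normal := by
          constructor
          intro n hn c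
          rw [Subgroup.mem_subgroupOf] at hn ⊢
          have hc : (c : G) ∈ Subgroup.normalizer (R : Set G) := hMR ▸ c.2
          exact (Subgroup.mem_normalizer_iff.mp hc _).mp hn
        have hp : IsPGroup 2 (R.subgroupOf M) := hRp.comap_of_injective M.subtype M.subtype_injective
        have hle2 := Cfsg.Agent.Lib.Basic.PCore.le_pCore hn hp
        intro r hr
        have hr' : (⟨r, hRM hr⟩ : M) ∈ R.subgroupOf M := Subgroup.mem_subgroupOf.mpr hr
        exact ⟨_, hle2 hr', rfl⟩
      have hQ1 : Q ≠ ⊥ := by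
        intro h
        rw [h] at hRQ
        exact hR1 (eq_bot_iff.mpr hRQ)
      have hQp : IsPGroup 2 Q := (Cfsg.Agent.Lib.Basic.PCore.pCore_isPGroup 2).map M.subtype
      have hgN : g ∈ Subgroup.normalizer (Q : Set G) := by
        rw [Subgroup.mem_normalizer_iff]
        intro z
        refine ⟨fun hz => conj_mem_pCoreOf_of_map_eq hgmap hz, fun hz => ?_⟩
        have hinv : M.map (MulAut.conj g⁻¹).toMonoidHom = M := by
          conv_lhs => rw [← hgmap]
          rw [Subgroup.map_map]
          convert Subgroup.map_id M using 2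
          ext x
          simp [mul_assoc]
        have := conj_mem_pCoreOf_of_map_eq hinv hz
        simpa [mul_assoc] using this
      have hMN : M ≤ Subgroup.normalizer (Q : Set G) := by
        intro m hm
        rw [Subgroup.mem_normalizer_iff]
        intro z
        constructor
        · rintro ⟨y, hy, rfl⟩
          have := (Cfsg.Agent.Lib.Basic.PCore.pCore_normal 2 M).conj_mem y hy ⟨m, hm⟩
          exact ⟨_, this, rfl⟩
        · intro hz
          obtain ⟨y, hy, hyz⟩ := hz
          have := (Cfsg.Agent.Lib.Basic.PCore.pCore_normal 2 M).conj_mem y hy ⟨m, hm⟩⁻¹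
          refine ⟨_, this, ?_⟩
          simp only [Subgroup.subtype_apply] at hyz ⊢
          push_cast
          rw [hyz]
          group
      have hLocal2 : Cfsg.IsTwoLocal (Subgroup.normalizer (Q : Set G)) := ⟨Q, hQp, hQ1, rfl⟩
      exact hgM (hno R hRp hR1 hRM _ hLocal2 (hRM.trans hMN) hgN)

end Cfsg.Agent.S2947
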