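import Cfsg.Statements.S2949
import Mathlib
import Cfsg.Agent.Lib.Amalgam.JGen

set_option autoImplicit false
open Cfsg

namespace Cfsg.Agent.S2949

open Cfsg.Agent.Lib.PGroup.ThompsonG Cfsg.Agent.Lib.Amalgam.JComp Cfsg.Agent.Lib.Amalgam.JLocal
open Cfsg.Agent.Lib.Amalgam.JZero Cfsg.Agent.Lib.Amalgam.JMax Cfsg.Agent.Lib.Amalgam.JGen
open Cfsg.Agent.Lib.Amalgam.JExist

/-- Let G be a finite group of characteristic 2 type in which every 2-local subgroup is solvable and the centralizer of Ω₁(Z(S)) lies in N_G(S) for every Sylow 2-subgroup S; suppose O₂(G) = 1, fix a Sylow 2-subgroup S and a 2-local subgroup M containing N_G(J(S)) (J the Thompson subgroup generated by the elementary abelian 2-subgroups of largest order). For every T maximal (for the order of a largest elementary abelian subgroup, then the order of J(T), then the order of T) among the nontrivial 2-subgroups of M lying in a 2-local subgroup not inside M, there is a J(T)-component K not contained in M with J(T) the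 Thompson subgroup of every Sylow 2-subgroup of N_G(W_K) containing J(T), and O₂(⟨K, T⟩) ≠ 1. -/
theorem result {G : Type*} [Group G] [Finite G] (hL : Cfsg.IsCharacteristicTwoType G) (hN : ∀ N : Subgroup G, Cfsg.IsTwoLocal N → Group.IsSolvable ↥N)
    (hZ : ∀ S : Sylow 2 G, Subgroup.centralizer (Cfsg.omegaCenterOf (S : Subgroup G) : Set G) ≤ Subgroup.normalizer ((S : Subgroup G) : Set G)) (hO : Cfsg.pCore 2 G = ⊥) (S : Sylow 2 G) (M : Subgroup G) (hM : Cfsg.IsTwoLocal M)
    (hMJ : Subgroup.normalizer (Cfsg.thompsonSubgroupOf 2 (S : Subgroup G) : Set G) ≤ M) (T : Subgroup G) (hT : T ∈ Cfsg.maxStraddlingTwoSubgroups M) :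
    (Cfsg.jComponentsOutside M T).Nonempty := by
  obtain ⟨-, -, -, L, hL2, hTL, hLM⟩ := hT.1
  have hLT := sylow_of_le hL S hMJ hT hL2 hLM hTL
  have hS := Cfsg.Agent.Lib.Amalgam.JMain.lSetup_of hZ hLT
  obtain ⟨F, hF⟩ := Cfsg.Agent.Lib.Amalgam.JMain.exists_family hN hZ (T_ne_bot hT) hLT
  have hNJ := normalizer_J_le hT S hMJ
  have hgen := L_le_gen hS hF hLT.2.1
  -- some component is not in `M`
  have hex : ∃ K ∈ comps T L F, ¬ K ≤ M := by
    by_contra hcon
    push Not at hcon
    exact hLM (hgen.trans (sup_le (sSup_le hcon) (inf_le_right.trans hNJ)))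
  obtain ⟨K, hK, hKM⟩ := hex
  have hKJ := comps_isJ hK
  have hKL := comps_le hK
  refine ⟨K, ⟨hKJ, ?_⟩, hKM, ?_⟩
  · intro R hJR hR
    have hNM : ¬ Subgroup.normalizer (Cfsg.wOf K : Set G) ≤ M :=
      fun h => hKM ((le_sup_left.trans (sup_le_w hKJ)).trans h)
    exact (straddle hL S hMJ hT (twoLocal_w hKJ) hNM hR hJR).1.symm
  · intro hbot
    have hle : Cfsg.pCoreOf 2 L ≤ Cfsg.pCoreOf 2 (K ⊔ T) := by
      have hPT := pCoreOf_le_of_sylow hS.syl
      refine le_pCoreOf (hPT.trans le_sup_right) (IsPGroup.to_le hS.syl.2.1 hPT) ?_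
      intro l hl q hq
      exact conj_mem_core ((sup_le hKL hTL) hl) hq
    rw [hbot, le_bot_iff] at hle
    exact Cfsg.Agent.Lib.Amalgam.JMain.core_ne_bot (T_ne_bot hT) hLT.2.2 hle

end Cfsg.Agent.S2949
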