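import Cfsg.Statements.S0352
import Mathlib
import Cfsg.Agent.Lib.BasicSteiner.Count
-- import your own Cfsg.Agent.* helpers here

set_option autoImplicit false
open Cfsg

namespace Cfsg.Agent.S0352

/-- In a Steiner system S(5, 8, 24), two distinct blocks intersect in 0, 2 or 4 points. -/
theorem result {α : Type*} [Fintype α] [DecidableEq α] (hα : Fintype.card α = 24) {B : Set (Finset α)} (hB : Cfsg.IsSteinerSystem 5 8 B) {b c : Finset α} (hb : b ∈ B) (hc : c ∈ B) (hbc : b ≠ c) : (b ∩ c).card = 0 ∨ (b ∩ c).card = 2 ∨ (b ∩ c).card = 4 := by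
  classical
  open Cfsg.Agent.Lib.BasicSteiner.Count in
  have hK : ∀ c ∈ blocks B, (c ∩ b).card < 9 := by
    intro c hc
    have h1 : (c ∩ b).card ≤ c.card := Finset.card_le_card Finset.inter_subset_left
    rw [hB.1 c (mem_blocks.mp hc)] at h1
    omega
  have hb8 : b.card = 8 := hB.1 b hb
  open Cfsg.Agent.Lib.BasicSteiner.Count in
  have heq : ∀ j lam : ℕ, j ≤ 5 → 0 < (8 - j).choose (5 - j) →
      lam * (8 - j).choose (5 - j) = (24 - j).choose (5 - j) →
      ∑ i ∈ Finset.range 9, ((blocks B).filter (fun c => (c ∩ b).card = i)).card * i.choose j =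
        (8).choose j * lam := by
    intro j lam hj hpos hlam
    rw [← sum_choose_fiberwise B b j 9 hK, sum_choose_inter_eq hB b j lam hj hpos (by rw [hα]; exact hlam), hb8]
  open Cfsg.Agent.Lib.BasicSteiner.Count in
  have hbig : ∀ c ∈ blocks B, 5 ≤ (c ∩ b).card → c = b := by
    intro c hc h
    exact eq_of_card_inter_ge hB (mem_blocks.mp hc) hb h
  open Cfsg.Agent.Lib.BasicSteiner.Count in
  have hzero : ∀ i, 5 ≤ i → i ≠ 8 → ((blocks B).filter (fun c => (c ∩ b).card = i)).card = 0 := by
    intro i hi hi8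
    rw [Finset.card_eq_zero, Finset.filter_eq_empty_iff]
    intro c hc hci
    have := hbig c hc (by omega)
    subst this
    rw [Finset.inter_self, hb8] at hci
    omega
  open Cfsg.Agent.Lib.BasicSteiner.Count in
  have hone : ((blocks B).filter (fun c => (c ∩ b).card = 8)).card = 1 := by
    rw [Finset.card_eq_one]
    refine ⟨b, ?_⟩
    ext c
    simp only [Finset.mem_filter, Finset.mem_singleton]
    constructor
    · rintro ⟨hc, hci⟩
      exact hbig c hc (by omega)
    · rintro rfl
      exact ⟨mem_blocks.mpr hb, by rw [Finset.inter_self, hb8]⟩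
  have e0 := heq 0 759 (by norm_num) (by decide) (by decide)
  have e1 := heq 1 253 (by norm_num) (by decide) (by decide)
  have e2 := heq 2 77 (by norm_num) (by decide) (by decide)
  have e3 := heq 3 21 (by norm_num) (by decide) (by decide)
  have e4 := heq 4 5 (by norm_num) (by decide) (by decide)
  have z5 := hzero 5 (by norm_num) (by norm_num)
  have z6 := hzero 6 (by norm_num) (by norm_num)
  have z7 := hzero 7 (by norm_num) (by norm_num)
  simp only [Finset.sum_range_succ, Finset.sum_range_zero, z5, z6, z7, hone] at e0 e1 e2 e3 e4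
  open Cfsg.Agent.Lib.BasicSteiner.Count in
  have hcB : c ∈ blocks B := mem_blocks.mpr hc
  have hcb : (c ∩ b).card = (b ∩ c).card := by rw [Finset.inter_comm]
  rw [← hcb]
  have hle : (c ∩ b).card ≤ 4 := by
    by_contra hcon
    exact hbc (hbig c hcB (by omega)).symm
  open Cfsg.Agent.Lib.BasicSteiner.Count in
  have hmem : ∀ i, (c ∩ b).card = i → ((blocks B).filter (fun c => (c ∩ b).card = i)).card ≠ 0 := by
    intro i hi
    exact Finset.card_ne_zero.mpr ⟨c, Finset.mem_filter.mpr ⟨hcB, hi⟩⟩
  open Cfsg.Agent.Lib.BasicSteiner.Count in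
  have h1 := hmem 1
  open Cfsg.Agent.Lib.BasicSteiner.Count in
  have h3 := hmem 3
  open Cfsg.Agent.Lib.BasicSteiner.Count in
  generalize ((blocks B).filter (fun c => (c ∩ b).card = 0)).card = x0 at *
  open Cfsg.Agent.Lib.BasicSteiner.Count in
  generalize ((blocks B).filter (fun c => (c ∩ b).card = 1)).card = x1 at *
  open Cfsg.Agent.Lib.BasicSteiner.Count in
  generalize ((blocks B).filter (fun c => (c ∩ b).card = 2)).card = x2 at *
  open Cfsg.Agent.Lib.BasicSteiner.Count in
  generalize ((blocks B).filter (fun c => (c ∩ b).card = 3)).card = x3 at *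
  open Cfsg.Agent.Lib.BasicSteiner.Count in
  generalize ((blocks B).filter (fun c => (c ∩ b).card = 4)).card = x4 at *
  norm_num [Nat.choose] at e0 e1 e2 e3 e4
  have hx1 : x1 = 0 := by omega
  have hx3 : x3 = 0 := by omega
  have hne1 : (c ∩ b).card ≠ 1 := fun h => h1 h hx1
  have hne3 : (c ∩ b).card ≠ 3 := fun h => h3 h hx3
  omega

end Cfsg.Agent.S0352
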