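import Cfsg.Statements.S0356
import Mathlib

set_option autoImplicit false
open Pointwise
open Cfsg

namespace Cfsg.Agent.S0356

/-- In a Steiner system S(3, 6, 22), two distinct blocks intersect in 0 or 2 points. -/
theorem result {α : Type*} [Fintype α] [DecidableEq α] (hα : Fintype.card α = 22) {B : Set (Finset α)} (hB : Cfsg.IsSteinerSystem 3 6 B) {b c : Finset α} (hb : b ∈ B) (hc : c ∈ B) (hbc : b ≠ c) : (b ∩ c).card = 0 ∨ (b ∩ c).card = 2 := by
  classical
  obtain ⟨hcard, huniq⟩ := hB
  have key : ∀ d ∈ B, ∀ e ∈ B, ∀ s : Finset α, s.card = 3 → s ⊆ d → s ⊆ e → d = e := by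
    intro d hd e he s hs hsd hse
    exact (huniq s hs).unique ⟨hd, hsd⟩ ⟨he, hse⟩
  have hle : (b ∩ c).card ≤ 2 := by
    by_contra h
    push Not at h
    obtain ⟨s, hs, hcards⟩ := Finset.exists_subset_card_eq (show 3 ≤ (b ∩ c).card by omega)
    exact hbc (key b hb c hc s hcards (hs.trans Finset.inter_subset_left)
      (hs.trans Finset.inter_subset_right))
  have hne1 : (b ∩ c).card ≠ 1 := by
    intro h1
    obtain ⟨x, hx⟩ := Finset.card_eq_one.mp h1
    have hxbc : x ∈ b ∩ c := by rw [hx]; exact Finset.mem_singleton_self x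
    have hxb : x ∈ b := (Finset.mem_inter.mp hxbc).1
    have hxc : x ∈ c := (Finset.mem_inter.mp hxbc).2
    have hb6 : b.card = 6 := hcard b hb
    have hc6 : c.card = 6 := hcard c hc
    obtain ⟨p, hp⟩ : (b.erase x).Nonempty := by
      rw [← Finset.card_pos, Finset.card_erase_of_mem hxb]; omega
    have hpb : p ∈ b := Finset.mem_of_mem_erase hp
    have hpx : p ≠ x := Finset.ne_of_mem_erase hp
    have hpc : p ∉ c := by
      intro hpc
      have : p ∈ b ∩ c := Finset.mem_inter.mpr ⟨hpb, hpc⟩
      rw [hx] at this
      exact hpx (Finset.mem_singleton.mp this)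
    have hex : ∀ y : α, ∃ d : Finset α, y ∈ c.erase x → (d ∈ B ∧ x ∈ d ∧ p ∈ d ∧ y ∈ d) := by
      intro y
      by_cases hy : y ∈ c.erase x
      · have hyx : y ≠ x := Finset.ne_of_mem_erase hy
        have hyc : y ∈ c := Finset.mem_of_mem_erase hy
        have hyp : y ≠ p := fun h => hpc (h ▸ hyc)
        have hs : ({x, p, y} : Finset α).card = 3 := by
          rw [Finset.card_eq_three]
          exact ⟨x, p, y, hpx.symm, hyx.symm, hyp.symm, rfl⟩
        obtain ⟨d, ⟨hd, hsd⟩, -⟩ := huniq _ hs
        refine ⟨d, fun _ => ⟨hd, hsd (by simp), hsd (by simp), hsd (by simp)⟩⟩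
      · exact ⟨∅, fun h => absurd h hy⟩
    choose φ hφ using hex
    have hinj : Set.InjOn φ (c.erase x : Finset α) := by
      intro y hy y' hy' hyy
      by_contra hne
      have hy1 := hφ y hy
      have hy2 := hφ y' hy'
      rw [← hyy] at hy2
      have hyx : y ≠ x := Finset.ne_of_mem_erase (Finset.mem_coe.mp hy)
      have hyc : y ∈ c := Finset.mem_of_mem_erase (Finset.mem_coe.mp hy)
      have hyx' : y' ≠ x := Finset.ne_of_mem_erase (Finset.mem_coe.mp hy')
      have hyc' : y' ∈ c := Finset.mem_of_mem_erase (Finset.mem_coe.mp hy')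
      have hs : ({x, y, y'} : Finset α).card = 3 := by
        rw [Finset.card_eq_three]
        exact ⟨x, y, y', hyx.symm, hyx'.symm, hne, rfl⟩
      have hdc : φ y = c := by
        apply key (φ y) hy1.1 c hc _ hs
        · intro z hz
          simp only [Finset.mem_insert, Finset.mem_singleton] at hz
          rcases hz with rfl | rfl | rfl
          · exact hy1.2.1
          · exact hy1.2.2.2
          · exact hy2.2.2.2
        · intro z hz
          simp only [Finset.mem_insert, Finset.mem_singleton] at hz
          rcases hz with rfl | rfl | rfl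
          · exact hxc
          · exact hyc
          · exact hyc'
      exact hpc (hdc ▸ hy1.2.2.1)
    set F : Finset (Finset α) := insert b ((c.erase x).image φ) with hF
    have hbF : b ∉ (c.erase x).image φ := by
      intro hbi
      obtain ⟨y, hy, hyb⟩ := Finset.mem_image.mp hbi
      have hyy := hφ y hy
      rw [hyb] at hyy
      have hyx : y ≠ x := Finset.ne_of_mem_erase hy
      have hyc : y ∈ c := Finset.mem_of_mem_erase hy
      have : y ∈ b ∩ c := Finset.mem_inter.mpr ⟨hyy.2.2.2, hyc⟩
      rw [hx] at this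
      exact hyx (Finset.mem_singleton.mp this)
    have hFcard : F.card = 6 := by
      rw [hF, Finset.card_insert_of_notMem hbF, Finset.card_image_of_injOn hinj,
        Finset.card_erase_of_mem hxc]
      omega
    have hFprop : ∀ d ∈ F, d ∈ B ∧ x ∈ d ∧ p ∈ d := by
      intro d hd
      rw [hF, Finset.mem_insert] at hd
      rcases hd with rfl | hd
      · exact ⟨hb, hxb, hpb⟩
      · obtain ⟨y, hy, rfl⟩ := Finset.mem_image.mp hd
        have := hφ y hy
        exact ⟨this.1, this.2.1, this.2.2.1⟩
    let g : Finset α → Finset α := fun d => (d.erase x).erase p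
    have hgcard : ∀ d ∈ F, (g d).card = 4 := by
      intro d hd
      obtain ⟨hdB, hxd, hpd⟩ := hFprop d hd
      have hd6 := hcard d hdB
      have h1 : p ∈ d.erase x := Finset.mem_erase.mpr ⟨hpx, hpd⟩
      simp only [g]
      rw [Finset.card_erase_of_mem h1, Finset.card_erase_of_mem hxd]
      omega
    have hgdisj : ∀ d ∈ F, ∀ e ∈ F, d ≠ e → Disjoint (g d) (g e) := by
      intro d hd e he hde
      rw [Finset.disjoint_left]
      intro z hzd hze
      simp only [g, Finset.mem_erase] at hzd hze
      obtain ⟨hzp, hzx, hzdd⟩ := hzd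
      obtain ⟨-, -, hzee⟩ := hze
      obtain ⟨hdB, hxd, hpd⟩ := hFprop d hd
      obtain ⟨heB, hxe, hpe⟩ := hFprop e he
      have hs : ({x, p, z} : Finset α).card = 3 := by
        rw [Finset.card_eq_three]
        exact ⟨x, p, z, hpx.symm, hzx.symm, hzp.symm, rfl⟩
      apply hde
      apply key d hdB e heB _ hs
      · intro w hw
        simp only [Finset.mem_insert, Finset.mem_singleton] at hw
        rcases hw with rfl | rfl | rfl <;> assumption
      · intro w hw
        simp only [Finset.mem_insert, Finset.mem_singleton] at hw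
        rcases hw with rfl | rfl | rfl <;> assumption
    have hcardU : (F.biUnion g).card = 24 := by
      rw [Finset.card_biUnion (fun d hd e he hde => hgdisj d hd e he hde)]
      rw [Finset.sum_congr rfl hgcard, Finset.sum_const, hFcard]
      rfl
    have hsub : F.biUnion g ⊆ ((Finset.univ : Finset α).erase x).erase p := by
      intro z hz
      obtain ⟨d, -, hz⟩ := Finset.mem_biUnion.mp hz
      simp only [g, Finset.mem_erase] at hz
      simp only [Finset.mem_erase, Finset.mem_univ, and_true]
      exact ⟨hz.1, hz.2.1⟩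
    have := Finset.card_le_card hsub
    rw [hcardU, Finset.card_erase_of_mem (Finset.mem_erase.mpr ⟨hpx, Finset.mem_univ p⟩),
      Finset.card_erase_of_mem (Finset.mem_univ x), Finset.card_univ, hα] at this
    omega
  omega

end Cfsg.Agent.S0356
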