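import Cfsg.Statements.S1595
import Mathlib
import Cfsg.Agent.Lib.BasicSteiner.Count

set_option autoImplicit false
open Cfsg

namespace Cfsg.Agent.S1595

open Cfsg.Agent.Lib.BasicSteiner.Count Finset

variable {α : Type*} [Fintype α] [DecidableEq α]

/-- The number of blocks meeting `b` exactly in `T`. -/
noncomputable def exactCount (B : Set (Finset α)) (b T : Finset α) : ℕ :=
  ((blocks B).filter (fun c => b ∩ c = T)).card

theorem through (B : Set (Finset α)) (b s : Finset α) (hs : s ⊆ b) :
    ((blocks B).filter (fun c => s ⊆ c)).card =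
      ∑ T ∈ b.powerset.filter (fun T => s ⊆ T), exactCount B b T := by
  classical
  rw [Finset.card_eq_sum_card_fiberwise (f := fun c => b ∩ c)
    (t := b.powerset.filter (fun T => s ⊆ T))]
  · refine sum_congr rfl fun T hT => ?_
    unfold exactCount
    congr 1
    ext c
    simp only [mem_filter, mem_powerset] at hT ⊢
    constructor
    · rintro ⟨⟨h1, -⟩, h3⟩
      exact ⟨h1, h3⟩
    · rintro ⟨h1, h3⟩
      refine ⟨⟨h1, ?_⟩, h3⟩
      have : T ⊆ c := by
        rw [← h3]
        exact inter_subset_right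
      exact hT.2.trans this
  · intro c hc
    have hc' := (mem_filter.mp (mem_coe.mp hc)).2
    simp only [coe_filter, Set.mem_setOf_eq, mem_powerset]
    exact ⟨inter_subset_left, subset_inter hs hc'⟩

theorem sum_by_size (B : Set (Finset α)) (b s : Finset α) (hs : s ⊆ b) (g : ℕ → ℕ)
    (hg : ∀ T, T ⊆ b → s ⊆ T → T ≠ s → exactCount B b T = g T.card) :
    ∑ T ∈ b.powerset.filter (fun T => s ⊆ T), exactCount B b T =
      exactCount B b s +
        ∑ i ∈ (range (b.card + 1)).filter (fun i => s.card < i),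
          (b.card - s.card).choose (i - s.card) * g i := by
  classical
  have hsP : s ∈ b.powerset.filter (fun T => s ⊆ T) := by
    simp [hs]
  rw [← Finset.add_sum_erase _ _ hsP]
  congr 1
  have h1 : ∑ T ∈ (b.powerset.filter (fun T => s ⊆ T)).erase s, exactCount B b T =
      ∑ T ∈ (b.powerset.filter (fun T => s ⊆ T)).erase s, g T.card := by
    refine sum_congr rfl fun T hT => ?_
    simp only [mem_erase, mem_filter, mem_powerset] at hT
    exact hg T hT.2.1 hT.2.2 hT.1
  rw [h1]
  rw [← sum_fiberwise_of_maps_to (s := (b.powerset.filter (fun T => s ⊆ T)).erase s)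
    (t := (range (b.card + 1)).filter (fun i => s.card < i)) (g := fun T => T.card)
    (f := fun T => g T.card)]
  · refine sum_congr rfl fun i hi => ?_
    simp only [mem_filter, mem_range] at hi
    have h2 : ((b.powerset.filter (fun T => s ⊆ T)).erase s).filter (fun T => T.card = i) =
        (b.powersetCard i).filter (fun T => s ⊆ T) := by
      ext T
      simp only [mem_filter, mem_erase, mem_powerset, mem_powersetCard]
      constructor
      · rintro ⟨⟨-, h3, h4⟩, h5⟩
        exact ⟨⟨h3, h5⟩, h4⟩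
      · rintro ⟨⟨h3, h5⟩, h4⟩
        refine ⟨⟨?_, h3, h4⟩, h5⟩
        rintro rfl
        omega
    rw [h2]
    have h3 := card_between hs i (le_of_lt hi.2)
    have h4 : ∀ T ∈ (b.powersetCard i).filter (fun T => s ⊆ T), g T.card = g i := by
      intro T hT
      simp only [mem_filter, mem_powersetCard] at hT
      rw [hT.1.2]
    rw [sum_congr rfl h4, sum_const, smul_eq_mul, h3]
  · intro T hT
    simp only [mem_erase, mem_filter, mem_powerset] at hT
    simp only [mem_filter, mem_range]
    refine ⟨Nat.lt_succ_of_le (card_le_card hT.2.1), ?_⟩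
    exact card_lt_card (Finset.ssubset_iff_subset_ne.mpr ⟨hT.2.2, Ne.symm hT.1⟩)

/-- The values of the exact counts, by the size of the subset. -/
def gVal : ℕ → ℕ
  | 6 => 1
  | 5 => 0
  | 4 => 3
  | 3 => 2
  | 2 => 3
  | 1 => 0
  | _ => 0

theorem exact_eq {B : Set (Finset α)} (hα : Fintype.card α = 12) (hB : Cfsg.IsSteinerSystem 5 6 B)
    {b : Finset α} (hb : b ∈ B) {m lam : ℕ} (hm : 1 ≤ m) (hm4 : m ≤ 4)
    (hlam : lam * (6 - m).choose (5 - m) = (12 - m).choose (5 - m))
    (hval : lam = gVal m + ∑ i ∈ (range 7).filter (fun i => m < i),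
      (6 - m).choose (i - m) * gVal i)
    (hind : ∀ T, T ⊆ b → m < T.card → exactCount B b T = gVal T.card) :
    ∀ s, s ⊆ b → s.card = m → exactCount B b s = gVal m := by
  classical
  intro s hs hsm
  have hb6 : b.card = 6 := hB.1 b hb
  have h1 := card_blocks_through hB s (by omega)
  rw [hα, hsm] at h1
  have hpos : 0 < (6 - m).choose (5 - m) := Nat.choose_pos (by omega)
  have h2 : ((blocks B).filter (fun c => s ⊆ c)).card = lam := by
    rw [← hlam] at h1
    exact Nat.eq_of_mul_eq_mul_right hpos h1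
  have h3 := through B b s hs
  have h4 := sum_by_size B b s hs gVal (fun T hT hsT hne => hind T hT (by
    rw [← hsm]
    exact card_lt_card (Finset.ssubset_iff_subset_ne.mpr ⟨hsT, Ne.symm hne⟩)))
  rw [hb6, hsm] at h4
  have h5 : lam = exactCount B b s + ∑ i ∈ (range 7).filter (fun i => m < i),
      (6 - m).choose (i - m) * gVal i := by
    rw [← h2, h3]
    exact h4
  omega

theorem six_eq {B : Set (Finset α)} (hB : Cfsg.IsSteinerSystem 5 6 B)
    {b : Finset α} (hb : b ∈ B) {c : Finset α} (hc : c ∈ B) (h : 5 ≤ (b ∩ c).card) : b = c :=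
  eq_of_card_inter_ge hB hb hc h

theorem result_aux {B : Set (Finset α)} (hα : Fintype.card α = 12) (hB : Cfsg.IsSteinerSystem 5 6 B)
    {b : Finset α} (hb : b ∈ B) : ∀ T, T ⊆ b → 1 ≤ T.card → exactCount B b T = gVal T.card := by
  classical
  have hb6 : b.card = 6 := hB.1 b hb
  have hle : ∀ T, T ⊆ b → T.card ≤ 6 := fun T hT => hb6 ▸ card_le_card hT
  have h6 : ∀ T, T ⊆ b → T.card = 6 → exactCount B b T = gVal 6 := by
    intro T hT hc
    have hTb : T = b := eq_of_subset_of_card_le hT (by omega)
    subst hTb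
    unfold exactCount
    rw [show gVal 6 = 1 from rfl, card_eq_one]
    refine ⟨T, ?_⟩
    ext c
    simp only [mem_filter, mem_singleton, mem_blocks]
    constructor
    · rintro ⟨h1, h2⟩
      have : T ⊆ c := by
        rw [← h2]
        exact inter_subset_right
      exact (six_eq hB hb h1 (by rw [h2]; omega)).symm
    · rintro rfl
      exact ⟨hb, inter_self _⟩
  have h5 : ∀ T, T ⊆ b → T.card = 5 → exactCount B b T = gVal 5 := by
    intro T hT hc
    unfold exactCount
    rw [show gVal 5 = 0 from rfl, card_eq_zero, filter_eq_empty_iff]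
    intro c hcb h2
    rw [mem_blocks] at hcb
    have := six_eq hB hb hcb (by rw [h2]; omega)
    subst this
    rw [inter_self] at h2
    subst h2
    omega
  have h4 : ∀ T, T ⊆ b → T.card = 4 → exactCount B b T = gVal 4 := by
    refine exact_eq hα hB hb (lam := 4) (by norm_num) (by norm_num) (by decide) (by decide) ?_
    intro T hT hlt
    have := hle T hT
    have hc : T.card = 5 ∨ T.card = 6 := by omega
    rcases hc with hc | hc
    · rw [hc]; exact h5 T hT hc
    · rw [hc]; exact h6 T hT hc
  have h3 : ∀ T, T ⊆ b → T.card = 3 → exactCount B b T = gVal 3 := by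
    refine exact_eq hα hB hb (lam := 12) (by norm_num) (by norm_num) (by decide) (by decide) ?_
    intro T hT hlt
    have := hle T hT
    have hc : T.card = 4 ∨ T.card = 5 ∨ T.card = 6 := by omega
    rcases hc with hc | hc | hc
    · rw [hc]; exact h4 T hT hc
    · rw [hc]; exact h5 T hT hc
    · rw [hc]; exact h6 T hT hc
  have h2 : ∀ T, T ⊆ b → T.card = 2 → exactCount B b T = gVal 2 := by
    refine exact_eq hα hB hb (lam := 30) (by norm_num) (by norm_num) (by decide) (by decide) ?_
    intro T hT hlt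
    have := hle T hT
    have hc : T.card = 3 ∨ T.card = 4 ∨ T.card = 5 ∨ T.card = 6 := by omega
    rcases hc with hc | hc | hc | hc
    · rw [hc]; exact h3 T hT hc
    · rw [hc]; exact h4 T hT hc
    · rw [hc]; exact h5 T hT hc
    · rw [hc]; exact h6 T hT hc
  have h1 : ∀ T, T ⊆ b → T.card = 1 → exactCount B b T = gVal 1 := by
    refine exact_eq hα hB hb (lam := 66) (by norm_num) (by norm_num) (by decide) (by decide) ?_
    intro T hT hlt
    have := hle T hT
    have hc : T.card = 2 ∨ T.card = 3 ∨ T.card = 4 ∨ T.card = 5 ∨ T.card = 6 := by omega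
    rcases hc with hc | hc | hc | hc | hc
    · rw [hc]; exact h2 T hT hc
    · rw [hc]; exact h3 T hT hc
    · rw [hc]; exact h4 T hT hc
    · rw [hc]; exact h5 T hT hc
    · rw [hc]; exact h6 T hT hc
  intro T hT hpos
  have := hle T hT
  have hc : T.card = 1 ∨ T.card = 2 ∨ T.card = 3 ∨ T.card = 4 ∨ T.card = 5 ∨ T.card = 6 := by omega
  rcases hc with hc | hc | hc | hc | hc | hc
  · rw [hc]; exact h1 T hT hc
  · rw [hc]; exact h2 T hT hc
  · rw [hc]; exact h3 T hT hc
  · rw [hc]; exact h4 T hT hc
  · rw [hc]; exact h5 T hT hc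
  · rw [hc]; exact h6 T hT hc

theorem ncard_eq (B : Set (Finset α)) (b s : Finset α) :
    {c : Finset α | c ∈ B ∧ b ∩ c = s}.ncard = exactCount B b s := by
  classical
  unfold exactCount
  rw [← Set.ncard_coe_finset]
  congr 1
  ext c
  simp [mem_blocks]

/-- Leech triangle of S(5, 6, 12): blocks meet in 0, 2, 3 or 4 points, and a block is met exactly in a given 2-, 3- or 4-subset by 3, 2, 3 blocks respectively. -/
theorem result {α : Type*} [Fintype α] [DecidableEq α] (hα : Fintype.card α = 12) {B : Set (Finset α)} (hB : Cfsg.IsSteinerSystem 5 6 B) (b : Finset α) (hb : b ∈ B) : (∀ c ∈ B, c ≠ b → (b ∩ c).card = 0 ∨ (b ∩ c).card = 2 ∨ (b ∩ c).card = 3 ∨ (b ∩ c).card = 4) ∧ ∀ s ⊆ b, (s.card = 2 → {c : Finset α | c ∈ B ∧ b ∩ c = s}.ncard = 3) ∧ (s.card = 3 → {c : Finset α | c ∈ B ∧ b ∩ c = s}.ncard = 2) ∧ (s.card = 4 → {c : Finset α | c ∈ B ∧ b ∩ c = s}.ncard = 3) := by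
  classical
  have hall := result_aux hα hB hb
  have hb6 : b.card = 6 := hB.1 b hb
  refine ⟨?_, ?_⟩
  · intro c hc hne
    have hle : (b ∩ c).card ≤ 6 := hb6 ▸ card_le_card inter_subset_left
    have h5 : (b ∩ c).card < 5 := by
      by_contra hcon
      exact hne (six_eq hB hb hc (by omega)).symm
    have h1 : (b ∩ c).card ≠ 1 := by
      intro h
      have h0 := hall (b ∩ c) inter_subset_left (by omega)
      rw [h, show gVal 1 = 0 from rfl] at h0
      unfold exactCount at h0
      rw [card_eq_zero, filter_eq_empty_iff] at h0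
      exact h0 (mem_blocks.mpr hc) rfl
    omega
  · intro s hs
    refine ⟨fun h => ?_, fun h => ?_, fun h => ?_⟩
    · rw [ncard_eq, hall s hs (by omega), h]; rfl
    · rw [ncard_eq, hall s hs (by omega), h]; rfl
    · rw [ncard_eq, hall s hs (by omega), h]; rfl

end Cfsg.Agent.S1595
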