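import Cfsg.Statements.S0351
import Mathlib
-- import your own Cfsg.Agent.* helpers here

set_option autoImplicit false
open Cfsg

namespace Cfsg.Agent.S0351

/-- Derived design: removing a point p from the blocks through p of an S(t+1, k+1, v) yields an S(t, k, v-1) on the points other than p. -/
theorem result {α : Type*} [Fintype α] [DecidableEq α] {t k : ℕ} {B : Set (Finset α)} (hB : Cfsg.IsSteinerSystem (t + 1) (k + 1) B) (p : α) : Cfsg.IsSteinerSystem t k {b' : Finset {a : α // a ≠ p} | ∃ b ∈ B, p ∈ b ∧ b' = Finset.subtype (fun a => a ≠ p) b} := by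
  classical
  obtain ⟨h1, h2⟩ := hB
  refine ⟨?_, ?_⟩
  · rintro _ ⟨b, hb, hp, rfl⟩
    have hcard := h1 b hb
    rw [Finset.card_subtype]
    have : b.filter (fun a => a ≠ p) = b.erase p := by
      ext a; simp [Finset.mem_erase, and_comm]
    rw [this, Finset.card_erase_of_mem hp, hcard]
    simp
  · intro s hs
    -- lift s to a (t+1)-subset of α containing p
    set s' : Finset α := insert p (s.map (Function.Embedding.subtype _)) with hs'
    have hpn : p ∉ s.map (Function.Embedding.subtype (fun a : α => a ≠ p)) := by
      simp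
    have hcard : s'.card = t + 1 := by
      rw [hs', Finset.card_insert_of_notMem hpn, Finset.card_map, hs]
    obtain ⟨b, ⟨hbB, hsb⟩, huniq⟩ := h2 s' hcard
    have hpb : p ∈ b := hsb (Finset.mem_insert_self _ _)
    refine ⟨Finset.subtype (fun a => a ≠ p) b, ⟨⟨b, hbB, hpb, rfl⟩, ?_⟩, ?_⟩
    · intro a ha
      rw [Finset.mem_subtype]
      apply hsb
      rw [hs', Finset.mem_insert]
      right
      exact Finset.mem_map.mpr ⟨a, ha, rfl⟩
    · rintro b' ⟨⟨c, hcB, hpc, rfl⟩, hsc⟩
      have : c = b := by
        apply huniq
        refine ⟨hcB, ?_⟩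
        intro a ha
        rw [hs', Finset.mem_insert] at ha
        rcases ha with rfl | ha
        · exact hpc
        · obtain ⟨a', ha', rfl⟩ := Finset.mem_map.mp ha
          have := hsc ha'
          rw [Finset.mem_subtype] at this
          exact this
      rw [this]

end Cfsg.Agent.S0351
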