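import Cfsg.Statements.S0359
import Cfsg.Agent.Lib.Compute.Golay
-- import your own Cfsg.Agent.* helpers here

set_option autoImplicit false
open Cfsg

namespace Cfsg.Agent.S0359

open Cfsg.Agent.Lib.Compute.Golay in
theorem pop_code : ∀ m ∈ codeMasks, pop m = 0 ∨ pop m = 8 ∨ pop m = 12 ∨ pop m = 16 ∨ pop m = 24 := by
  intro m hm
  have h : codeMasks.all (fun m => pop m == 0 || pop m == 8 || pop m == 12 || pop m == 16 || pop m == 24) = true := by
    decide +kernel
  have := List.all_eq_true.mp h m hm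
  simpa [or_assoc] using this

/-- The weight of every word of the length-24 code is one of 0, 8, 12, 16, 24. -/
theorem result (w : Cfsg.GolayPt → ZMod 2) (hw : w ∈ Cfsg.golayCode) : hammingNorm w = 0 ∨ hammingNorm w = 8 ∨ hammingNorm w = 12 ∨ hammingNorm w = 16 ∨ hammingNorm w = 24 := by
  obtain ⟨m, hm, rfl⟩ := Cfsg.Agent.Lib.Compute.Golay.exists_mask_of_mem_code hw
  have h : hammingNorm (Cfsg.Agent.Lib.Compute.Golay.maskWord m) = Cfsg.Agent.Lib.Compute.Golay.pop m := by
    rw [← Cfsg.Agent.Lib.Compute.Golay.card_maskSupport, ← Cfsg.Agent.Lib.Compute.Golay.support_maskWord]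
    rfl
  rw [h]
  exact pop_code m hm

end Cfsg.Agent.S0359
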