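import Cfsg.Statements.S0969
import Mathlib
import Cfsg.Agent.Lib.Blocks.Laradji
-- import your own Cfsg.Agent.* helpers here

set_option autoImplicit false
open Cfsg

namespace Cfsg.Agent.S0969

/-- Let D be a central p-subgroup of the finite group G and χ an irreducible character with the exponent of p in χ(1) equal to the exponent of p in the index of D; fix a maximal ideal M of the algebraic integers containing p. Then D is a defect group of the block of χ, and χ g = 0 whenever the p-part of g does not lie in D. -/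
theorem result {G : Type*} [Group G] [Finite G] (p : ℕ) [Fact p.Prime] (M : Ideal Cfsg.AlgInt) (hM : Cfsg.IsPModular p M) (D : Subgroup G) (hD : IsPGroup p D) (hDZ : D ≤ Subgroup.center G) (χ : Cfsg.IrrCharacter G) (hdeg : (Cfsg.charDegree (χ : G → ℂ)).factorization p = D.index.factorization p) : Cfsg.IsDefectGroup p M (Cfsg.blockOf M (χ : G → ℂ)) D ∧ ∀ g x : G, Cfsg.IsPPart p g x → x ∉ D → (χ : G → ℂ) g = 0 := by
  classical
  letI := Fintype.ofFinite G
  letI : Fintype D := Fintype.ofFinite D
  haveI := Cfsg.Agent.Lib.Blocks.Local.isPrime_of_isPModular hM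
  refine ⟨Cfsg.Agent.Lib.Blocks.Laradji.laradji_defect hM hD hDZ hdeg, fun g x hgx hxD => ?_⟩
  have hidx0 : D.index ≠ 0 := Subgroup.index_ne_zero_of_finite
  have hdegc : ((Cfsg.charDegree (χ : G → ℂ) : ℕ) : ℂ) = (χ : G → ℂ) 1 :=
    Cfsg.Agent.Lib.Char.Values.IsCharacter.charDegree_cast
      (Cfsg.Agent.Lib.Char.Values.IsIrrCharacter.isCharacter χ.2)
  have h10 := Cfsg.Agent.Lib.Char.Ortho.irr_apply_one_ne_zero χ.2
  have hdeg0 : Cfsg.charDegree (χ : G → ℂ) ≠ 0 := by
    intro h
    apply h10
    rw [← hdegc, h]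
    simp
  have hu : Cfsg.MemLocalRing M ((χ : G → ℂ) 1 / (D.index : ℂ)) := by
    rw [← hdegc]
    exact Cfsg.Agent.Lib.Blocks.Laradji.memLocalRing_natCast_div hM hidx0 hdeg0 hdeg.symm.le
  exact Cfsg.Agent.Lib.Blocks.Laradji.laradji_vanish hM hDZ hu hgx hxD

end Cfsg.Agent.S0969
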