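import Cfsg.Statements.S4717
import Mathlib
import Cfsg.Agent.Lib.Blocks.CenBlocks
-- import your own Cfsg.Agent.* helpers here

set_option autoImplicit false
open Cfsg

namespace Cfsg.Agent.S4717

open Cfsg.Agent.Lib.Blocks.Local Cfsg.Agent.Lib.Blocks.Central Cfsg.Agent.Lib.Blocks.Osima
  Cfsg.Agent.Lib.Blocks.Sections Cfsg.Agent.Lib.Blocks.Principal Cfsg.Agent.Lib.Blocks.PrincipalCen
  Cfsg.Agent.Lib.Blocks.CenBlocks Cfsg.Agent.Lib.Blocks.DefectSupport

/-- Let p be a prime, M a maximal ideal of the algebraic integers containing p, and r a natural number; say that a finite group X has deficiency class r when X has no non-principal p-block of defect ≥ r. If G has deficiency class r then so does the centralizer of every p-element of G; conversely, if r > 0 and the centralizer of every element of order p has deficiency class r, then G has deficiency class r. -/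
theorem result {G : Type*} [Group G] [Finite G] (p : ℕ) [Fact p.Prime] (M : Ideal Cfsg.AlgInt) (hM : Cfsg.IsPModular p M) (r : ℕ) : ((∀ B' : Set (Cfsg.IrrCharacter G), Cfsg.IsPBlock M B' → B' ≠ Cfsg.principalBlock M G → Cfsg.blockDefect p B' < r) → ∀ y : G, (∃ k : ℕ, orderOf y = p ^ k) → (∀ B' : Set (Cfsg.IrrCharacter ↥(Subgroup.centralizer ({y} : Set G))), Cfsg.IsPBlock M B' → B' ≠ Cfsg.principalBlock M ↥(Subgroup.centralizer ({y} : Set G)) → Cfsg.blockDefect p B' < r)) ∧ (0 < r → (∀ y : G, orderOf y = p → (∀ B' : Set (Cfsg.IrrCharacter ↥(Subgroup.centralizer ({y} : Set G))), Cfsg.IsPBlock M B' → B' ≠ Cfsg.principalBlock M ↥(Subgroup.centralizer ({y} : Set G)) → Cfsg.blockDefect p B' < r)) → (∀ B' : Set (Cfsg.IrrCharacter G), Cfsg.IsPBlock M B' → B' ≠ Cfsg.principalBlock M G → Cfsg.blockDefect p B' < r)) := by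
  classical
  cases nonempty_fintype G
  haveI := isPrime_of_isPModular hM
  have hprinc : ∀ (y : G) (k : ℕ), orderOf y = p ^ k → ∀ (χ₀ : IrrCharacter G) (ξ : IrrCharacter (Cen y)),
      ξ ∈ inducers (Cen y) M (χ₀ : G → ℂ) → blockOf M (ξ : Cen y → ℂ) = principalBlock M (Cen y) →
      blockOf M (χ₀ : G → ℂ) = principalBlock M G := by
    intro y k hy χ₀ ξ hξ hb
    haveI : Fintype (Cen y) := Fintype.ofFinite _
    have h1 : ξ ∈ principalBlock M (Cen y) := by
      rw [← hb]
      exact mem_blockOf_self ξ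
    rw [← inducers_trivChar hM hy] at h1
    have hsame : SameBlock M (χ₀ : G → ℂ) ((trivChar G : IrrCharacter G) : G → ℂ) := by
      intro g
      have := memLocalIdeal_sub (h1 g) (hξ g)
      convert this using 1
      ring
    have h2 : χ₀ ∈ blockOf M ((trivChar G : IrrCharacter G) : G → ℂ) := sameBlock_symm hsame
    rw [principalBlock_eq]
    exact blockOf_eq_of_mem h2
  refine ⟨?_, ?_⟩
  · rintro hdef y ⟨k, hy⟩ b hb hbne
    haveI : Fintype (Cen y) := Fintype.ofFinite _
    obtain ⟨ψ, rfl⟩ := id hb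
    obtain ⟨χ₁, hχ₁⟩ := exists_inducer hM hy ψ
    have hne : blockOf M (χ₁ : G → ℂ) ≠ principalBlock M G := by
      intro h
      apply hbne
      have h0 : χ₁ ∈ blockOf M ((trivChar G : IrrCharacter G) : G → ℂ) := by
        rw [← principalBlock_eq, ← h]
        exact mem_blockOf_self χ₁
      have h1 : ψ ∈ inducers (Cen y) M ((trivChar G : IrrCharacter G) : G → ℂ) := by
        rw [inducers_congr (Cen y) h0]
        exact hχ₁
      rw [inducers_trivChar hM hy] at h1
      rw [principalBlock_eq] at h1 ⊢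
      exact blockOf_eq_of_mem h1
    have hind : IsInducedBlock M (Cen y) (blockOf M (ψ : Cen y → ℂ)) (blockOf M (χ₁ : G → ℂ)) := by
      refine ⟨⟨ψ, rfl⟩, ⟨χ₁, rfl⟩, fun ξ hξ χ hχ g => ?_⟩
      have h1 := inducers_closed (Cen y) _ ψ hχ₁ hξ g
      have h2 := memLocalIdeal_add h1 (hχ g)
      convert h2 using 1
      ring
    exact lt_of_le_of_lt (blockDefect_le_of_isInducedBlock hM (Cen y) hind) (hdef _ ⟨χ₁, rfl⟩ hne)
  · intro hr hdef B' hB' hne
    by_contra hcon
    push Not at hcon
    obtain ⟨χ₀, rfl⟩ := id hB'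
    obtain ⟨g₀, hg₀⟩ := exists_isDefectClass (M := M) hB'
    obtain ⟨S⟩ : Nonempty (Sylow p (Subgroup.centralizer ({g₀} : Set G))) := inferInstance
    set D := (S : Subgroup (Subgroup.centralizer ({g₀} : Set G))).map (Subgroup.centralizer ({g₀} : Set G)).subtype with hDdef
    have hD : IsDefectGroup p M (blockOf M (χ₀ : G → ℂ)) D := ⟨g₀, hg₀, S, rfl⟩
    have hcard := Cfsg.Agent.S0908.result p M hM _ hB' D hD
    have hDp : IsPGroup p D := by
      rw [IsPGroup.iff_card]
      exact ⟨_, hcard⟩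
    have hpos : 0 < blockDefect p (blockOf M (χ₀ : G → ℂ)) := lt_of_lt_of_le hr hcon
    have hne1 : Nat.card D ≠ 1 := by
      rw [hcard]
      exact (Nat.one_lt_pow hpos.ne' (Fact.out : p.Prime).one_lt).ne'
    obtain ⟨y, hyD, hy, hycomm⟩ := exists_central_order_p hDp hne1
    have hy' : orderOf y = p ^ 1 := by rw [hy, pow_one]
    haveI : Fintype (Cen y) := Fintype.ofFinite _
    have hmemCen : ∀ z : G, Commute z y → z ∈ Cen y := by
      intro z hz
      rw [Subgroup.mem_centralizer_iff]
      intro u hu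
      rw [Set.mem_singleton_iff.mp hu]
      exact hz.symm
    have hDg : ∀ z ∈ D, Commute z g₀ := by
      intro z hz
      obtain ⟨t, _, rfl⟩ := hz
      have := (Subgroup.mem_centralizer_iff.mp t.2) g₀ rfl
      exact this.symm
    have hg₀y : g₀ ∈ Cen y := hmemCen _ (hDg y hyD).symm
    let h₀ : Cen y := ⟨g₀, hg₀y⟩
    have h1 := memLocalIdeal_blockCoeff_sub_inducers hM hy' χ₀ h₀
    have h2 : ¬ MemLocalIdeal M (blockCoeff (inducers (Cen y) M (χ₀ : G → ℂ)) h₀) := by
      intro h
      exact hg₀.2.1 (by simpa using memLocalIdeal_add h1 h)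
    obtain ⟨ξ, hξ, hξ'⟩ := exists_block_of_closed (inducers_closed (Cen y) _) h2
    have hbξ : IsPBlock M (blockOf M (ξ : Cen y → ℂ)) := ⟨ξ, rfl⟩
    have h3 := (support_blockCoeff hM hbξ hξ').2
    have hDH : D ≤ Cen y := fun z hz => hmemCen z (hycomm z hz)
    have hle : (D.subgroupOf (Cen y)) ≤ Subgroup.centralizer ({h₀} : Set (Cen y)) := by
      intro z hz
      rw [Subgroup.mem_centralizer_iff]
      intro u hu
      rw [Set.mem_singleton_iff.mp hu]
      apply Subtype.ext
      exact (hDg z hz).symm.eq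
    have h4 : Nat.card D ∣ Nat.card (Subgroup.centralizer ({h₀} : Set (Cen y))) := by
      have := Subgroup.card_dvd_of_le hle
      rwa [show Nat.card (D.subgroupOf (Cen y)) = Nat.card D from
        Nat.card_congr (Subgroup.subgroupOfEquivOfLe hDH).toEquiv] at this
    rw [hcard] at h4
    have h5 : blockDefect p (blockOf M (χ₀ : G → ℂ)) ≤ (Nat.card (Subgroup.centralizer ({h₀} : Set (Cen y)))).factorization p :=
      ((Fact.out : p.Prime).pow_dvd_iff_le_factorization Nat.card_pos.ne').mp h4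
    by_cases hprincξ : blockOf M (ξ : Cen y → ℂ) = principalBlock M (Cen y)
    · exact hne (hprinc y 1 hy' χ₀ ξ hξ hprincξ)
    · have h6 := hdef y hy _ hbξ hprincξ
      omega

end Cfsg.Agent.S4717
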