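import Cfsg.Statements.S0833
import Mathlib
import Cfsg.Agent.Lib.Linalg.Forms
-- import your own Cfsg.Agent.* helpers here

set_option autoImplicit false
open Cfsg

namespace Cfsg.Agent.S0833

open TensorProduct in
theorem tmul_tmul {F U W : Type*} [Field F] [AddCommGroup U] [Module F U] [AddCommGroup W] [Module F W]
    (B₁ : LinearMap.BilinForm F U) (B₂ : LinearMap.BilinForm F W) (a c : U) (b d : W) :
    (B₁.tmul B₂) (a ⊗ₜ[F] b) (c ⊗ₜ[F] d) = B₂ b d * B₁ a c := rfl

open TensorProduct in
theorem sepLeft {F U W : Type*} [Field F] [AddCommGroup U] [Module F U] [FiniteDimensional F U]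
    [AddCommGroup W] [Module F W] [FiniteDimensional F W]
    (B₁ : LinearMap.BilinForm F U) (B₂ : LinearMap.BilinForm F W)
    (h₁ : B₁.Nondegenerate) (h₂ : B₂.Nondegenerate) : (B₁.tmul B₂).SeparatingLeft := by
  classical
  intro x hx
  let b₁ := Module.finBasis F U
  let b₂ := Module.finBasis F W
  let d₁ := B₁.dualBasis h₁ b₁
  let d₂ := B₂.dualBasis h₂ b₂
  let d := d₁.tensorProduct d₂
  have key : ∀ p, d.repr x p = 0 := by
    intro p
    have h := hx (b₁ p.1 ⊗ₜ[F] b₂ p.2)
    rw [← d.sum_repr x, map_sum, LinearMap.sum_apply] at h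
    rw [Finset.sum_eq_single p] at h
    · simp only [map_smul, LinearMap.smul_apply, smul_eq_mul] at h
      have e : (B₁.tmul B₂) (d p) (b₁ p.1 ⊗ₜ[F] b₂ p.2) = 1 := by
        rw [show d p = d₁ p.1 ⊗ₜ[F] d₂ p.2 from Module.Basis.tensorProduct_apply' _ _ _, tmul_tmul,
          LinearMap.BilinForm.apply_dualBasis_left, LinearMap.BilinForm.apply_dualBasis_left]
        simp
      rw [e, mul_one] at h
      exact h
    · intro q _ hq
      simp only [map_smul, LinearMap.smul_apply, smul_eq_mul]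
      have e : (B₁.tmul B₂) (d q) (b₁ p.1 ⊗ₜ[F] b₂ p.2) = 0 := by
        rw [show d q = d₁ q.1 ⊗ₜ[F] d₂ q.2 from Module.Basis.tensorProduct_apply' _ _ _, tmul_tmul,
          LinearMap.BilinForm.apply_dualBasis_left, LinearMap.BilinForm.apply_dualBasis_left]
        by_cases h1 : p.1 = q.1
        · by_cases h2 : p.2 = q.2
          · exact absurd (Prod.ext h1 h2).symm hq
          · simp [h2]
        · simp [h1]
      rw [e, mul_zero]
    · intro h; exact absurd (Finset.mem_univ p) h
  rw [← d.sum_repr x]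
  exact Finset.sum_eq_zero fun p _ => by rw [key p, zero_smul]

open TensorProduct in
theorem tmul_symm {F U W : Type*} [Field F] [AddCommGroup U] [Module F U] [AddCommGroup W] [Module F W]
    (B₁ : LinearMap.BilinForm F U) (B₂ : LinearMap.BilinForm F W) (hA₁ : B₁.IsAlt) (hA₂ : B₂.IsAlt) :
    (B₁.tmul B₂).IsSymm := by
  rw [LinearMap.isSymm_iff_eq_flip]
  apply TensorProduct.ext'
  intro a b
  apply TensorProduct.ext'
  intro c d
  change B₂ b d * B₁ a c = B₂ d b * B₁ c a
  rw [← hA₁.neg_eq c a, ← hA₂.neg_eq d b, neg_mul_neg]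
  

/-- If B₁, B₂ are non-degenerate alternating forms on U (dim 2k) and W (dim 2l), then B₁ ⊗ B₂ on U ⊗ W is symmetric, non-degenerate, and vanishes identically on some subspace of dimension 2kl (half of dim U ⊗ W). -/
theorem result {F U W : Type*} [Field F] [Fintype F] [AddCommGroup U] [Module F U] [FiniteDimensional F U] [AddCommGroup W] [Module F W] [FiniteDimensional F W] (B₁ : LinearMap.BilinForm F U) (B₂ : LinearMap.BilinForm F W) (h₁ : B₁.Nondegenerate) (h₂ : B₂.Nondegenerate) (hA₁ : B₁.IsAlt) (hA₂ : B₂.IsAlt) (k l : ℕ) (hU : Module.finrank F U = 2 * k) (hW : Module.finrank F W = 2 * l) : (B₁.tmul B₂).IsSymm ∧ (B₁.tmul B₂).Nondegenerate ∧ (∃ X : Submodule F (TensorProduct F U W), Module.finrank F X = 2 * k * l ∧ ∀ x ∈ X, ∀ y ∈ X, (B₁.tmul B₂) x y = 0) := by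
  classical
  have hsymm := tmul_symm B₁ B₂ hA₁ hA₂
  have hsep := sepLeft B₁ B₂ h₁ h₂
  refine ⟨hsymm, ⟨hsep, ?_⟩, ?_⟩
  · intro y hy
    exact hsep y fun x => (hsymm.eq y x).trans (hy x)
  obtain ⟨m, r, b, hb1, hb2, hb3, hb4⟩ := Cfsg.Agent.Lib.Linalg.Forms.exists_symplectic_basis B₁ hA₁
  have hr : r = 0 := by
    by_contra hr
    have hr' : 0 < r := Nat.pos_of_ne_zero hr
    have := h₁.1 (b (.inr ⟨0, hr'⟩)) (hb4 _)
    exact b.ne_zero _ this
  subst hr
  have hm : m = k := by
    have := Module.finrank_eq_card_basis b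
    simp at this
    omega
  subst hm
  let c := Module.finBasis F W
  let d := b.tensorProduct c
  let ι := Fin m × Fin (Module.finrank F W)
  let f : ι → ((Fin m ⊕ Fin m) ⊕ Fin 0) × Fin (Module.finrank F W) := fun p => (Sum.inl (Sum.inl p.1), p.2)
  have hf : Function.Injective f := by
    rintro ⟨a, a'⟩ ⟨e, e'⟩ h
    simp only [f, Prod.mk.injEq, Sum.inl.injEq] at h
    exact Prod.ext h.1 h.2
  have hli : LinearIndependent F (d ∘ f) := d.linearIndependent.comp f hf
  refine ⟨Submodule.span F (Set.range (d ∘ f)), ?_, ?_⟩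
  · rw [finrank_span_eq_card hli]
    simp only [ι, Fintype.card_prod, Fintype.card_fin]
    rw [hW]; ring
  · have gen : ∀ p q : ι, (B₁.tmul B₂) ((d ∘ f) p) ((d ∘ f) q) = 0 := by
      intro p q
      change (B₁.tmul B₂) (d (f p)) (d (f q)) = 0
      have e : ∀ p : ι, d (f p) = TensorProduct.tmul F (b (.inl (.inl p.1))) (c p.2) :=
        fun p => Module.Basis.tensorProduct_apply' _ _ _
      rw [e, e, tmul_tmul, hb2, mul_zero]
    intro x hx y hy
    induction hx using Submodule.span_induction with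
    | mem x hx =>
      obtain ⟨p, rfl⟩ := hx
      induction hy using Submodule.span_induction with
      | mem y hy => obtain ⟨q, rfl⟩ := hy; exact gen p q
      | zero => simp
      | add u v _ _ hu hv => rw [map_add, hu, hv, add_zero]
      | smul a u _ hu => rw [map_smul, hu, smul_zero]
    | zero => simp
    | add u v _ _ hu hv => rw [map_add, LinearMap.add_apply, hu, hv, add_zero]
    | smul a u _ hu => rw [map_smul, LinearMap.smul_apply, hu, smul_zero]

end Cfsg.Agent.S0833
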