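import Cfsg.Statements.S0756
import Mathlib
-- import your own Cfsg.Agent.* helpers here

set_option autoImplicit false
open Cfsg

namespace Cfsg.Agent.S0756

open Module LinearMap

universe u v

variable {F : Type u} [Field F] [Finite F]

/-- In a finite field of odd characteristic, `a x² + b y² = 1` is solvable for nonzero `a`, `b`. -/
theorem exists_sum_sq_eq_one (h2 : (2 : F) ≠ 0) {a b : F} (ha : a ≠ 0) (hb : b ≠ 0) :
    ∃ x y : F, a * x ^ 2 + b * y ^ 2 = 1 := by
  classical
  have := Fintype.ofFinite F
  have hcard : Fintype.card F % 2 = 1 := by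
    have hne : ringChar F ≠ 2 := fun h => by
      have : CharP F 2 := h ▸ ringChar.charP F
      exact h2 (CharP.cast_eq_zero F 2)
    exact FiniteField.odd_card_of_char_ne_two hne
  have hf : (Polynomial.C a * Polynomial.X ^ 2 : Polynomial F).degree = 2 := by
    rw [Polynomial.degree_C_mul_X_pow 2 ha]; rfl
  have hg : (Polynomial.C b * Polynomial.X ^ 2 - Polynomial.C 1 : Polynomial F).degree = 2 := by
    rw [Polynomial.degree_sub_C]
    · rw [Polynomial.degree_C_mul_X_pow 2 hb]; rfl
    · rw [Polynomial.degree_C_mul_X_pow 2 hb]; decide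
  obtain ⟨x, y, hxy⟩ := FiniteField.exists_root_sum_quadratic hf hg hcard
  refine ⟨x, y, ?_⟩
  simp only [Polynomial.eval_mul, Polynomial.eval_C, Polynomial.eval_pow, Polynomial.eval_X,
    Polynomial.eval_sub] at hxy
  linear_combination hxy

variable {V : Type v} [AddCommGroup V] [Module F V] [FiniteDimensional F V]

/-- A nondegenerate symmetric form on a space of dimension at least 2 over a finite field of odd
characteristic represents 1. -/
theorem exists_unit_vector (h2 : (2 : F) ≠ 0) (B : LinearMap.BilinForm F V) (hS : B.IsSymm)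
    (hB : B.Nondegenerate) (hd : 2 ≤ finrank F V) : ∃ u : V, B u u = 1 := by
  classical
  let _ : Invertible (2 : F) := invertibleOfNonzero h2
  obtain ⟨v, hv⟩ := LinearMap.BilinForm.exists_orthogonal_basis (K := F) (V := V) (B := B) (LinearMap.BilinForm.isSymm_iff.mp hS)
  let i : Fin (finrank F V) := ⟨0, by omega⟩
  let j : Fin (finrank F V) := ⟨1, by omega⟩
  have hij : i ≠ j := by simp [i, j, Fin.ext_iff]
  have hne : ∀ k, B (v k) (v k) ≠ 0 := fun k =>
    LinearMap.BilinForm.iIsOrtho.not_isOrtho_basis_self_of_nondegenerate (v := v) hv hB k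
  obtain ⟨x, y, hxy⟩ := exists_sum_sq_eq_one h2 (hne i) (hne j)
  refine ⟨x • v i + y • v j, ?_⟩
  have h1 : B (v i) (v j) = 0 := hv hij
  have h3 : B (v j) (v i) = 0 := hv hij.symm
  simp only [map_add, map_smul, LinearMap.add_apply, LinearMap.smul_apply, smul_eq_mul, h1, h3]
  linear_combination hxy

theorem exists_basis_aux (h2 : (2 : F) ≠ 0) (α : F) (hα : ¬ IsSquare α) (n : ℕ) :
    ∀ (V : Type v) [AddCommGroup V] [Module F V] [FiniteDimensional F V]
      (B : LinearMap.BilinForm F V) (_ : B.IsSymm) (_ : B.Nondegenerate)
      (_ : Module.finrank F V = n + 1),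
      ∃ b : Module.Basis (Fin (n + 1)) F V, (∀ i j, i ≠ j → B (b i) (b j) = 0) ∧
        (∀ i, i ≠ Fin.last n → B (b i) (b i) = 1) ∧
        (B (b (Fin.last n)) (b (Fin.last n)) = 1 ∨ B (b (Fin.last n)) (b (Fin.last n)) = α) := by
  classical
  have := Fintype.ofFinite F
  induction n with
  | zero =>
    intro V _ _ _ B hS hB hn
    let b0 : Module.Basis (Fin 1) F V := Module.finBasisOfFinrankEq F V hn
    let v := b0 0
    have ha : B v v ≠ 0 := by
      intro h0
      have hv0 : v = 0 := by
        apply hB.1 v
        intro w
        have : w = (b0.repr w 0) • v := by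
          have := b0.sum_repr w
          simpa [Fin.sum_univ_one] using this.symm
        rw [this, map_smul, h0, smul_zero]
      exact b0.ne_zero 0 hv0
    -- scale to get a basis
    have key : ∃ c : F, c ≠ 0 ∧ (c * c * B v v = 1 ∨ c * c * B v v = α) := by
      by_cases hsq : IsSquare (B v v)
      · obtain ⟨s, hs⟩ := hsq
        have hs0 : s ≠ 0 := by
          rintro rfl
          simp at hs
          exact ha hs
        refine ⟨s⁻¹, inv_ne_zero hs0, Or.inl ?_⟩
        rw [hs]
        field_simp
      · have hodd : ringChar F ≠ 2 := fun h => by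
          have : CharP F 2 := h ▸ ringChar.charP F
          exact h2 (CharP.cast_eq_zero F 2)
        have hα0 : α ≠ 0 := by
          rintro rfl
          exact hα ⟨0, by simp⟩
        have h1 := (quadraticChar_neg_one_iff_not_isSquare (F := F) (a := B v v)).mpr hsq
        have h3 := (quadraticChar_neg_one_iff_not_isSquare (F := F) (a := α)).mpr hα
        have h4 : quadraticChar F (B v v * α) = 1 := by
          rw [map_mul, h1, h3]; norm_num
        have h5 : IsSquare (B v v * α) := by
          rw [quadraticChar_one_iff_isSquare (mul_ne_zero ha hα0)] at h4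
          exact h4
        obtain ⟨s, hs⟩ := h5
        have hs0 : s ≠ 0 := by
          rintro rfl
          simp [ha, hα0] at hs
        refine ⟨α * s⁻¹, mul_ne_zero hα0 (inv_ne_zero hs0), Or.inr ?_⟩
        have : B v v = s * s / α := by
          rw [← hs]; field_simp
        rw [this]
        field_simp
    obtain ⟨c, hc0, hc⟩ := key
    let b : Module.Basis (Fin 1) F V := b0.isUnitSMul (w := fun _ => c) (fun _ => hc0.isUnit)
    have hb : b 0 = c • v := by
      simp [b, Module.Basis.isUnitSMul_apply, v]
    refine ⟨b, ?_, ?_, ?_⟩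
    · intro i j hij
      exact absurd (Fin.ext (by omega)) hij
    · intro i hi
      exact absurd (Fin.ext (by simp)) hi
    · have : Fin.last 0 = (0 : Fin 1) := rfl
      rw [this, hb]
      simp only [map_smul, LinearMap.smul_apply, smul_eq_mul]
      rcases hc with hc | hc
      · left; linear_combination hc
      · right; linear_combination hc
  | succ n ih =>
    intro V _ _ _ B hS hB hn
    obtain ⟨u, hu⟩ := exists_unit_vector h2 B hS hB (by omega)
    have hu0 : B u u ≠ 0 := by rw [hu]; exact one_ne_zero
    have hcompl := LinearMap.BilinForm.isCompl_span_singleton_orthogonal hu0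
    have hune : u ≠ 0 := fun h => hu0 (by simp [h])
    have hd : finrank F (B.orthogonal (Submodule.span F {u})) = n + 1 := by
      have := Submodule.finrank_add_eq_of_isCompl hcompl
      rw [finrank_span_singleton hune] at this
      omega
    obtain ⟨b', hb1, hb2, hb3⟩ := ih (B.orthogonal (Submodule.span F {u})) (B.restrict _)
      (hS.restrict _)
      (LinearMap.BilinForm.restrict_nondegenerate_orthogonal_spanSingleton B hB hS.isRefl hu0) hd
    have horth : ∀ w ∈ B.orthogonal (Submodule.span F {u}), B u w = 0 := fun w hw =>
      hw u (Submodule.mem_span_singleton_self u)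
    have horth' : ∀ w ∈ B.orthogonal (Submodule.span F {u}), B w u = 0 := fun w hw => by
      rw [← hS.eq]; simpa using horth w hw
    let b : Module.Basis (Fin (n + 2)) F V := Module.Basis.mkFinCons u b'
      (by
        rintro c y hy hc
        rw [add_eq_zero_iff_neg_eq] at hc
        rw [← hc, Submodule.neg_mem_iff] at hy
        have := hcompl.disjoint
        rw [Submodule.disjoint_def] at this
        have := this (c • u) (Submodule.smul_mem _ _ <| Submodule.mem_span_singleton_self _) hy
        exact (smul_eq_zero.1 this).resolve_right hune)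
      (by
        intro y
        refine ⟨-B u y / B u u, ?_⟩
        intro z hz
        obtain ⟨c, rfl⟩ := Submodule.mem_span_singleton.1 hz
        rw [map_smul, LinearMap.smul_apply, map_add, map_smul, smul_eq_mul, smul_eq_mul,
          div_mul_cancel₀ _ hu0, add_neg_cancel, mul_zero])
    have hb0 : b 0 = u := by simp [b, Module.Basis.coe_mkFinCons]
    have hbs : ∀ i : Fin (n + 1), b i.succ = (b' i : V) := fun i => by
      simp [b, Module.Basis.coe_mkFinCons]
    refine ⟨b, ?_, ?_, ?_⟩
    · intro i j hij
      refine Fin.cases ?_ (fun i' => ?_) i hij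
      · refine Fin.cases ?_ (fun j' => ?_) j
        · intro h; exact absurd rfl h
        · intro _
          rw [hb0, hbs]
          exact horth _ (b' j').2
      · refine Fin.cases ?_ (fun j' => ?_) j
        · intro _
          rw [hb0, hbs]
          exact horth' _ (b' i').2
        · intro h
          rw [hbs, hbs]
          exact hb1 i' j' (fun e => h (by rw [e]))
    · intro i
      refine Fin.cases ?_ (fun i' => ?_) i
      · intro _
        rw [hb0, hu]
      · intro h
        rw [hbs]
        refine hb2 i' (fun e => h ?_)
        rw [e, Fin.succ_last]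
    · rw [← Fin.succ_last, hbs]
      exact hb3


/-- Classification of symmetric bilinear forms over finite fields of odd characteristic: if B is non-degenerate symmetric on V of dimension n + 1 and α is a fixed non-square of F, there is an orthogonal basis b_0, ..., b_n with B(b_i, b_i) = 1 for i < n and B(b_n, b_n) ∈ {1, α}. -/
theorem result {F V : Type*} [Field F] [Finite F] [AddCommGroup V] [Module F V] [FiniteDimensional F V] (h2 : (2 : F) ≠ 0) (B : LinearMap.BilinForm F V) (hS : B.IsSymm) (hB : B.Nondegenerate) {n : ℕ} (hn : Module.finrank F V = n + 1) (α : F) (hα : ¬ IsSquare α) : ∃ b : Module.Basis (Fin (n + 1)) F V, (∀ i j, i ≠ j → B (b i) (b j) = 0) ∧ (∀ i, i ≠ Fin.last n → B (b i) (b i) = 1) ∧ (B (b (Fin.last n)) (b (Fin.last n)) = 1 ∨ B (b (Fin.last n)) (b (Fin.last n)) = α) := by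
  exact exists_basis_aux h2 α hα n V B hS hB hn

end Cfsg.Agent.S0756
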