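import Cfsg.Statements.S2582
import Cfsg.Agent.Lib.Classical.Lin.JT3

set_option autoImplicit false
open Cfsg

namespace Cfsg.Agent.S2582

/-- Which unipotent Jordan types occur in the finite symplectic group: over a finite field, a unipotent matrix with Jordan block sizes d_1, …, d_t (sum 2m, all at least 1) is similar to an element of Sp_2m(F) if and only if every odd block size occurs an even number of times. -/
theorem result {F : Type*} [Field F] [Fintype F] {m t : ℕ} (d : Fin t → ℕ) (hd : ∀ k, 1 ≤ d k) (hsum : ∑ k, d k = 2 * m) : (∃ e : ((k : Fin t) × Fin (d k)) ≃ (Fin m ⊕ Fin m), ∃ A : Matrix.symplecticGroup (Fin m) F, IsConj (Matrix.reindex e e (Cfsg.jordanTypeMatrix d F)) (A : Matrix (Fin m ⊕ Fin m) (Fin m ⊕ Fin m) F)) ↔ ∀ j : ℕ, Odd j → Even (Finset.univ.filter (fun k : Fin t => d k = j)).card := by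
  classical
  constructor
  · rintro ⟨e, A, hc⟩ j hj
    obtain ⟨φ, hφ⟩ := Cfsg.Agent.Lib.Classical.Lin.JT1.exists_phi e hc
    let B : LinearMap.BilinForm F (Cfsg.Agent.Lib.Classical.Lin.JT1.Ix d → F) :=
      LinearMap.BilinForm.comp (Cfsg.Agent.Lib.Classical.Symp.Basic.sympBilin m F)
        (φ : (Cfsg.Agent.Lib.Classical.Lin.JT1.Ix d → F) →ₗ[F] _) (φ : (Cfsg.Agent.Lib.Classical.Lin.JT1.Ix d → F) →ₗ[F] _)
    have hB : ∀ x y, B x y = Cfsg.sympForm m F (φ x) (φ y) := fun x y => rfl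
    have hnd : B.Nondegenerate := Cfsg.Agent.Lib.Classical.Lin.JT1.pullback_nondeg φ
      Cfsg.Agent.Lib.Classical.Symp.Basic.sympBilin_nondegenerate
    have hJ : ∀ x y, B (Cfsg.Agent.Lib.Classical.Lin.JT1.jL F d x) (Cfsg.Agent.Lib.Classical.Lin.JT1.jL F d y) = B x y := by
      intro x y
      rw [hB, hB, hφ, hφ]
      exact Cfsg.Agent.Lib.Classical.Symp.Basic.mem_symplecticGroup_iff_forall.mp A.2 _ _
    have hA : B.IsAlt := fun x => Cfsg.Agent.Lib.Classical.Symp.Basic.sympForm_self _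
    have := Cfsg.Agent.Lib.Classical.Lin.JT1.even_of_isAlt B hJ hnd hA hj
    rwa [Fintype.card_subtype] at this
  · intro h
    have hP : ∀ j, Odd j → Even (Fintype.card (Cfsg.Agent.Lib.Classical.Lin.JT1.Kj d j)) := by
      intro j hj
      rw [Fintype.card_subtype]
      exact h j hj
    obtain ⟨τ, h1, h2, h3, h4⟩ := Cfsg.Agent.Lib.Classical.Lin.JT3.exists_tau d Odd hP
    have hfix : ∀ k, τ k = k → Even (d k) := by
      intro k hk
      by_contra hne
      exact h3 k (Nat.not_even_iff_odd.mp hne) hk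
    let X := Cfsg.Agent.Lib.Classical.Lin.JT3.spBF F d τ h1 h2
    have hsk : ∀ k i j, X.Gm k i j = (-1) * X.Gm (X.τ k) j i :=
      Cfsg.Agent.Lib.Classical.Lin.JT3.spBF_skew τ h1 h2 hfix
    have hnd : X.bf.Nondegenerate := X.nondeg (-1) (by simp) hsk
    have hA : X.bf.IsAlt := X.isAlt hsk (fun k i hk => Cfsg.Agent.Lib.Classical.Lin.JT3.spBF_diag τ hfix k i hk)
    have hcard : Fintype.card (Cfsg.Agent.Lib.Classical.Lin.JT1.Ix d) = 2 * m := by
      rw [Fintype.card_sigma, ← hsum]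
      simp
    have hdim : Module.finrank F (Cfsg.Agent.Lib.Classical.Lin.JT1.Ix d → F) = 2 * m := by
      rw [Module.finrank_fintype_fun_eq_card, hcard]
    obtain ⟨ε, hε⟩ := Cfsg.Agent.Lib.Classical.Symp.SympBasis.exists_sympEquiv X.bf hA hnd hdim
    have hc2 : Fintype.card (Cfsg.Agent.Lib.Classical.Lin.JT1.Ix d) = Fintype.card (Fin m ⊕ Fin m) := by
      rw [hcard]
      simp [two_mul]
    let e : Cfsg.Agent.Lib.Classical.Lin.JT1.Ix d ≃ (Fin m ⊕ Fin m) := Fintype.equivOfCardEq hc2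
    have hconj := Cfsg.Agent.Lib.Classical.Lin.JT3.isConj_transport e ε
    set A0 := LinearMap.toMatrix' ((ε : (Cfsg.Agent.Lib.Classical.Lin.JT1.Ix d → F) →ₗ[F] (Fin m ⊕ Fin m → F)) ∘ₗ
      Cfsg.Agent.Lib.Classical.Lin.JT1.jL F d ∘ₗ (ε.symm : (Fin m ⊕ Fin m → F) →ₗ[F] (Cfsg.Agent.Lib.Classical.Lin.JT1.Ix d → F))) with hA0
    have hmem : A0 ∈ Matrix.symplecticGroup (Fin m) F := by
      rw [Cfsg.Agent.Lib.Classical.Symp.Basic.mem_symplecticGroup_iff_forall]
      intro u v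
      rw [hA0, LinearMap.toMatrix'_mulVec, LinearMap.toMatrix'_mulVec]
      simp only [LinearMap.comp_apply, LinearEquiv.coe_coe]
      rw [hε, X.bf_inv, ← hε]
      simp
    exact ⟨e, ⟨A0, hmem⟩, hconj⟩

end Cfsg.Agent.S2582
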