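import Cfsg.Statements.S0242
import Mathlib
import Cfsg.Agent.Lib.Linalg.Basic
-- import your own Cfsg.Agent.* helpers here

set_option autoImplicit false
open Cfsg

namespace Cfsg.Agent.S0242

/-- Order of the special linear group: (q - 1) |SL_n(q)| = prod_{i<n} (q^n - q^i) = |GL_n(q)|, for n at least 1. -/
theorem result {F : Type*} [Field F] [Fintype F] {q : ℕ} (hF : Fintype.card F = q) (n : ℕ) (hn : 1 ≤ n) : (q - 1) * Nat.card (Matrix.SpecialLinearGroup (Fin n) F) = ∏ i : Fin n, (q ^ n - q ^ (i : ℕ)) := by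
  classical
  have : Nonempty (Fin n) := ⟨⟨0, hn⟩⟩
  have h := Cfsg.Agent.Lib.Linalg.Basic.card_GL_eq_mul_card_SL (ι := Fin n) (F := F)
  rw [Matrix.card_GL_field n, Nat.card_eq_fintype_card (α := F)] at h
  rw [hF] at h
  exact h.symm

end Cfsg.Agent.S0242
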