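import Cfsg.Statements.S2380
import Mathlib

set_option autoImplicit false
open scoped MatrixGroups
open Cfsg

namespace Cfsg.Agent.S2380

open Polynomial

section numbers

variable {q r : ℕ} [hr : Fact r.Prime]

theorem d_pos (hrq : ¬ r ∣ q) : 0 < orderOf (q : ZMod r) := by
  have h0 : (q : ZMod r) ≠ 0 := by rwa [Ne, ZMod.natCast_eq_zero_iff]
  have := ZMod.pow_card_sub_one_eq_one h0
  exact orderOf_pos_iff.mpr
    (isOfFinOrder_iff_pow_eq_one.mpr ⟨r - 1, Nat.sub_pos_of_lt hr.out.one_lt, this⟩)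

theorem dvd_iff (hq : 1 ≤ q) (k : ℕ) : r ∣ q ^ k - 1 ↔ orderOf (q : ZMod r) ∣ k := by
  rw [orderOf_dvd_iff_pow_eq_one, ← ZMod.natCast_eq_zero_iff, Nat.cast_sub (Nat.one_le_pow _ _ hq)]
  push_cast
  exact sub_eq_zero

theorem val_pow (hq : 2 ≤ q) (hrq : ¬ r ∣ q) {n j : ℕ} (hrn : n < r) (hj : 1 ≤ j) (hjn : j ≤ n) :
    padicValNat r (q ^ (j * orderOf (q : ZMod r)) - 1) =
      padicValNat r (q ^ orderOf (q : ZMod r) - 1) := by
  set d := orderOf (q : ZMod r) with hd
  have hdpos : 0 < d := d_pos hrq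
  by_cases hj1 : j = 1
  · rw [hj1, one_mul]
  have hr2 : r ≠ 2 := by omega
  have hodd : Odd r := hr.out.odd_of_ne_two hr2
  have h1 : 1 < q ^ d := Nat.one_lt_pow hdpos.ne' (by omega)
  have h2 : r ∣ q ^ d - 1 := (dvd_iff (by omega) d).mpr dvd_rfl
  have h3 : ¬ r ∣ q ^ d := fun h => hrq (hr.out.dvd_of_dvd_pow h)
  have h4 := padicValNat.pow_sub_pow (x := q ^ d) (y := 1) (p := r) hodd h1 h2 h3 (n := j) (by omega)
  rw [one_pow, ← pow_mul, mul_comm d j] at h4
  rw [h4, padicValNat.eq_zero_of_not_dvd (n := j) (fun h => by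
    have := Nat.le_of_dvd (by omega) h
    omega), add_zero]

theorem val_cyclotomic (hq : 2 ≤ q) (hrq : ¬ r ∣ q) :
    padicValNat r ((cyclotomic (orderOf (q : ZMod r)) ℤ).eval (q : ℤ)).natAbs =
      padicValNat r (q ^ orderOf (q : ZMod r) - 1) := by
  set d := orderOf (q : ZMod r) with hd
  have hdpos : 0 < d := d_pos hrq
  have h1 : ((q : ℤ)) ^ d - 1 = ∏ e ∈ Nat.divisors d, (cyclotomic e ℤ).eval (q : ℤ) := by
    have := congrArg (Polynomial.eval (q : ℤ)) (prod_cyclotomic_eq_X_pow_sub_one hdpos ℤ)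
    rw [eval_prod] at this
    rw [this]
    simp
  have hmem : d ∈ Nat.divisors d := Nat.mem_divisors_self d hdpos.ne'
  rw [← Finset.prod_erase_mul _ _ hmem] at h1
  set y : ℤ := ∏ e ∈ (Nat.divisors d).erase d, (cyclotomic e ℤ).eval (q : ℤ) with hy
  set x : ℤ := (cyclotomic d ℤ).eval (q : ℤ) with hx
  have hq1 : 1 ≤ q ^ d := Nat.one_le_pow _ _ (by omega)
  have hq2 : 1 < q ^ d := Nat.one_lt_pow hdpos.ne' (by omega)
  have h2 : q ^ d - 1 = y.natAbs * x.natAbs := by
    rw [← Int.natAbs_mul, ← h1]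
    zify [hq1]
    rw [abs_of_nonneg]
    have : (1 : ℤ) ≤ (q : ℤ) ^ d := by exact_mod_cast hq1
    omega
  have hne : q ^ d - 1 ≠ 0 := by omega
  have hyne : y.natAbs ≠ 0 := fun h => hne (by rw [h2, h, zero_mul])
  have hxne : x.natAbs ≠ 0 := fun h => hne (by rw [h2, h, mul_zero])
  have hry : ¬ r ∣ y.natAbs := by
    intro h
    have h3 : (r : ℤ) ∣ y := Int.natCast_dvd.mpr h
    have hpr : Prime (r : ℤ) := Nat.prime_iff_prime_int.mp hr.out
    obtain ⟨e, he, hde⟩ := (Prime.dvd_finsetProd_iff hpr _).mp h3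
    rw [Finset.mem_erase, Nat.mem_divisors] at he
    have hepos : 0 < e := Nat.pos_of_dvd_of_pos he.2.1 hdpos
    have h4 : (cyclotomic e ℤ).eval (q : ℤ) ∣ (q : ℤ) ^ e - 1 := by
      have := eval_dvd (x := (q : ℤ)) (cyclotomic.dvd_X_pow_sub_one e ℤ)
      simpa using this
    have h5 : (r : ℤ) ∣ (q : ℤ) ^ e - 1 := dvd_trans hde h4
    have h6 : r ∣ q ^ e - 1 := by
      have hq3 : 1 ≤ q ^ e := Nat.one_le_pow _ _ (by omega)
      zify [hq3]
      exact h5
    have h7 := (dvd_iff (by omega) e).mp h6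
    have h8 := Nat.le_of_dvd hepos h7
    have h9 := Nat.le_of_dvd hdpos he.2.1
    exact he.1 (le_antisymm h9 h8)
  rw [h2, padicValNat.mul hyne hxne, padicValNat.eq_zero_of_not_dvd hry, zero_add]

end numbers

section cardGL

variable {F : Type*} [Field F] [Fintype F]

theorem factorization_GL {r : ℕ} [hr : Fact r.Prime] (n : ℕ) (hrn : n < r)
    (hrq : ¬ r ∣ Fintype.card F) :
    (Nat.card (GL (Fin n) F)).factorization r =
      (n / orderOf ((Fintype.card F : ℕ) : ZMod r)) *
        padicValNat r (Fintype.card F ^ orderOf ((Fintype.card F : ℕ) : ZMod r) - 1) := by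
  set q := Fintype.card F with hq
  have hq2 : 2 ≤ q := Fintype.one_lt_card
  set d := orderOf (q : ZMod r) with hd
  have hdpos : 0 < d := d_pos hrq
  rw [Matrix.card_GL_field]
  have hfac : ∀ i : Fin n, (q ^ n - q ^ (i : ℕ)) = q ^ (i : ℕ) * (q ^ (n - i : ℕ) - 1) := by
    intro i
    rw [Nat.mul_sub, mul_one, ← pow_add]
    congr 2
    have := i.2
    omega
  have hne : ∀ i : Fin n, (q ^ n - q ^ (i : ℕ)) ≠ 0 := by
    intro i
    have h1 : q ^ (i : ℕ) < q ^ n := Nat.pow_lt_pow_right (by omega) i.2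
    omega
  rw [Nat.factorization_prod (fun i _ => hne i), Finset.sum_apply']
  have hval : ∀ i : Fin n, (q ^ n - q ^ (i : ℕ)).factorization r =
      padicValNat r (q ^ (n - i : ℕ) - 1) := by
    intro i
    have h0 := hne i
    rw [hfac] at h0 ⊢
    have hq0 : q ^ (i : ℕ) ≠ 0 := by positivity
    have h1 : q ^ (n - i : ℕ) - 1 ≠ 0 := fun h => h0 (by rw [h, mul_zero])
    rw [Nat.factorization_def _ hr.out, padicValNat.mul hq0 h1,
      padicValNat.eq_zero_of_not_dvd (fun h => hrq (hr.out.dvd_of_dvd_pow h)), zero_add]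
  simp_rw [hval]
  rw [Fin.sum_univ_eq_sum_range (fun i => padicValNat r (q ^ (n - i) - 1)) n]
  have hrefl := Finset.sum_range_reflect (fun j => padicValNat r (q ^ (j + 1) - 1)) n
  have hcongr : ∑ i ∈ Finset.range n, padicValNat r (q ^ (n - i) - 1) =
      ∑ j ∈ Finset.range n, padicValNat r (q ^ (n - 1 - j + 1) - 1) := by
    apply Finset.sum_congr rfl
    intro i hi
    have := Finset.mem_range.mp hi
    congr 3
    omega
  rw [hcongr, hrefl]
  -- induction
  have key : ∀ N, N ≤ n → ∑ j ∈ Finset.range N, padicValNat r (q ^ (j + 1) - 1) =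
      (N / d) * padicValNat r (q ^ d - 1) := by
    intro N
    induction N with
    | zero => simp
    | succ N ih =>
      intro hN
      rw [Finset.sum_range_succ, ih (by omega), Nat.succ_div]
      by_cases hdv : d ∣ N + 1
      · obtain ⟨c, hc⟩ := hdv
        have hcpos : 1 ≤ c := by
          rcases Nat.eq_zero_or_pos c with h | h
          · rw [h] at hc; omega
          · exact h
        have hcle : c ≤ n := by nlinarith
        have h2 := val_pow (q := q) (r := r) hq2 hrq hrn hcpos hcle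
        rw [← hd, mul_comm c d, ← hc] at h2
        rw [h2, if_pos ⟨c, hc⟩]
        ring
      · have h0 : padicValNat r (q ^ (N + 1) - 1) = 0 :=
          padicValNat.eq_zero_of_not_dvd (by rw [dvd_iff (by omega)]; exact hdv)
        rw [if_neg hdv, h0, add_zero, add_zero]
  exact key n le_rfl

end cardGL

section construction

variable {F : Type*} [Field F] [Fintype F]

open Matrix in
/-- The block embedding of a product of copies of a degree `d` extension in `n × n` matrices. -/
theorem exists_embedding (K : Type*) [Field K] [Algebra F K] [FiniteDimensional F K] {d : ℕ}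
    (hK : Module.finrank F K = d) (a n : ℕ) (han : a * d ≤ n) :
    ∃ Θ : (Fin a → K) →* Matrix (Fin n) (Fin n) F, Function.Injective Θ := by
  classical
  let b : Module.Basis (Fin d) F K := Module.finBasisOfFinrankEq F K hK
  let L : K →ₐ[F] Matrix (Fin d) (Fin d) F := Algebra.leftMulMatrix b
  have hL : Function.Injective L := Algebra.leftMulMatrix_injective b
  have hcard : Fintype.card ((Fin d × Fin a) ⊕ Fin (n - a * d)) = Fintype.card (Fin n) := by
    simp only [Fintype.card_sum, Fintype.card_prod, Fintype.card_fin]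
    rw [mul_comm d a]
    omega
  let e : ((Fin d × Fin a) ⊕ Fin (n - a * d)) ≃ Fin n := Fintype.equivOfCardEq hcard
  let Θ₀ : (Fin a → K) →* Matrix ((Fin d × Fin a) ⊕ Fin (n - a * d))
      ((Fin d × Fin a) ⊕ Fin (n - a * d)) F :=
    { toFun := fun x => Matrix.fromBlocks (Matrix.blockDiagonal fun i => L (x i)) 0 0 1
      map_one' := by
        have h1 : (Matrix.blockDiagonal fun i : Fin a => L ((1 : Fin a → K) i)) = 1 := by
          have : (fun i : Fin a => L ((1 : Fin a → K) i)) = 1 := by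
            funext i
            simp
          rw [this, Matrix.blockDiagonal_one]
        rw [h1, Matrix.fromBlocks_one]
      map_mul' := by
        intro x y
        rw [Matrix.fromBlocks_multiply]
        simp only [Matrix.mul_zero, Matrix.zero_mul, add_zero, zero_add, Matrix.mul_one]
        congr 1
        rw [← Matrix.blockDiagonal_mul]
        congr 1
        funext i
        simp }
  have hΘ₀ : Function.Injective Θ₀ := by
    intro x y hxy
    have h1 : Matrix.fromBlocks (Matrix.blockDiagonal fun i => L (x i)) 0 0 1 =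
        Matrix.fromBlocks (Matrix.blockDiagonal fun i => L (y i)) 0 0
          (1 : Matrix (Fin (n - a * d)) (Fin (n - a * d)) F) := hxy
    have h2 := (Matrix.fromBlocks_inj.mp h1).1
    have h3 := Matrix.blockDiagonal_injective h2
    funext i
    exact hL (congrFun h3 i)
  let R := Matrix.reindexAlgEquiv F F e
  refine ⟨R.toRingEquiv.toMonoidHom.comp Θ₀, ?_⟩
  exact R.injective.comp hΘ₀

theorem exists_hom {r : ℕ} [hr : Fact r.Prime] (n : ℕ) (hrq : ¬ r ∣ Fintype.card F) :
    ∃ (C : Type) (_ : Group C) (_ : Finite C) (_ : IsCyclic C),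
      Nat.card C = r ^ padicValNat r (Fintype.card F ^ orderOf ((Fintype.card F : ℕ) : ZMod r) - 1) ∧
      ∃ φ : (Fin (n / orderOf ((Fintype.card F : ℕ) : ZMod r)) → C) →* GL (Fin n) F,
        Function.Injective φ := by
  classical
  set q := Fintype.card F with hq
  set d := orderOf (q : ZMod r) with hd
  have hdpos : 0 < d := d_pos hrq
  haveI : NeZero d := ⟨hdpos.ne'⟩
  obtain ⟨p, hp⟩ := CharP.exists F
  haveI : Fact p.Prime := ⟨CharP.char_is_prime F p⟩
  let K : Type := FiniteField.Extension F p d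
  have hfin : Module.finrank F K = d := FiniteField.finrank_extension F p d
  have hcardK : Nat.card K = q ^ d := by
    have h0 : Nat.card K = Nat.card F ^ d := FiniteField.natCard_extension F p d
    rw [h0, Nat.card_eq_fintype_card]
  have hcardU : Nat.card Kˣ = q ^ d - 1 := by rw [Nat.card_units, hcardK]
  have hdvd : r ^ padicValNat r (q ^ d - 1) ∣ Nat.card Kˣ := by
    rw [hcardU]
    exact pow_padicValNat_dvd
  obtain ⟨C, hC⟩ := Sylow.exists_subgroup_card_pow_prime (G := Kˣ) r hdvd
  refine ⟨C, inferInstance, inferInstance, inferInstance, hC, ?_⟩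
  obtain ⟨Θ, hΘ⟩ := exists_embedding (F := F) K hfin (n / d) n (Nat.div_mul_le_self n d)
  let ι₁ : (Fin (n / d) → C) →* (Fin (n / d) → Kˣ) := MonoidHom.compLeft C.subtype (Fin (n / d))
  have hι₁ : Function.Injective ι₁ := by
    intro x y hxy
    funext i
    exact C.subtype_injective (congrFun hxy i)
  let ι₂ : (Fin (n / d) → Kˣ) ≃* (Fin (n / d) → K)ˣ := MulEquiv.piUnits.symm
  refine ⟨(Units.map Θ).comp (ι₂.toMonoidHom.comp ι₁), ?_⟩
  exact (Units.map_injective hΘ).comp (ι₂.injective.comp hι₁)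

/-- Assembly: a group `(Fin a → C)` embedded with Sylow image. -/
theorem assemble {G : Type*} [Group G] [Finite G] {r : ℕ} [hr : Fact r.Prime]
    {C : Type} [Group C] [Finite C] [IsCyclic C] {a m : ℕ} [NeZero m] (hC : Nat.card C = m)
    (φ : (Fin a → C) →* G) (hφ : Function.Injective φ)
    (hS : Nat.card φ.range = r ^ (Nat.card G).factorization r) (P : Sylow r G) :
    Nonempty (↥(P : Subgroup G) ≃* (Fin a → Multiplicative (ZMod m))) := by
  let S : Sylow r G := Sylow.ofCard φ.range hS
  have hS' : (S : Subgroup G) = φ.range := Sylow.coe_ofCard _ _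
  have hcyc : Nat.card C = Nat.card (Multiplicative (ZMod m)) := by
    rw [hC]
    simp
  let e₀ : C ≃* Multiplicative (ZMod m) := mulEquivOfCyclicCardEq hcyc
  let e₁ : ↥(P : Subgroup G) ≃* ↥(S : Subgroup G) := P.equiv S
  let e₂ : ↥(S : Subgroup G) ≃* φ.range := MulEquiv.subgroupCongr hS'
  let e₃ : (Fin a → C) ≃* φ.range := MonoidHom.ofInjective hφ
  let e₄ : (Fin a → C) ≃* (Fin a → Multiplicative (ZMod m)) :=
    MulEquiv.piCongrRight fun _ => e₀
  exact ⟨e₁.trans (e₂.trans (e₃.symm.trans e₄))⟩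

/-- The main theorem in terms of `q ^ d - 1`. -/
theorem main_aux {r : ℕ} [hr : Fact r.Prime] (n : ℕ) (hrn : n < r) (hrq : ¬ r ∣ Fintype.card F)
    (P : Sylow r (GL (Fin n) F)) :
    Nonempty (↥(P : Subgroup (GL (Fin n) F)) ≃*
      (Fin (n / orderOf ((Fintype.card F : ℕ) : ZMod r)) → Multiplicative (ZMod
        (r ^ padicValNat r (Fintype.card F ^ orderOf ((Fintype.card F : ℕ) : ZMod r) - 1))))) := by
  obtain ⟨C, _, _, _, hC, φ, hφ⟩ := exists_hom (F := F) (r := r) n hrq
  have hcard : Nat.card φ.range = r ^ (Nat.card (GL (Fin n) F)).factorization r := by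
    rw [Nat.card_congr (MonoidHom.ofInjective hφ).toEquiv.symm, Nat.card_fun, hC,
      factorization_GL n hrn hrq, Nat.card_fin, ← pow_mul, mul_comm]
  haveI hne : NeZero (r ^ padicValNat r (Fintype.card F ^ orderOf ((Fintype.card F : ℕ) : ZMod r) - 1)) :=
    ⟨by have := hr.out.pos; positivity⟩
  exact assemble hC φ hφ hcard P

end construction

/-- Sylow subgroups of `GL_n(q)` for large primes. Let `F` be a field with `q` elements and `r` a prime with `r > n` and `r ∤ q`. Let `d` be the multiplicative order of `q` modulo `r` and `m` the `r`-part of the value at `q` of the `d`-th cyclotomic polynomial. Then every Sylow `r`-subgroup of `GL_n(q)` is a direct product of `⌊n/d⌋` cyclic groups of order `m` (the degrees of the Weyl group being `1, …, n`). -/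
theorem result {F : Type*} [Field F] [Fintype F] {q : ℕ} (hq : Fintype.card F = q) (n : ℕ)
    (r : ℕ) [Fact r.Prime] (hrn : n < r) (hrq : ¬ r ∣ q) (P : Sylow r (GL (Fin n) F)) :
    Nonempty (↥(P : Subgroup (GL (Fin n) F)) ≃*
      (Fin (n / orderOf (q : ZMod r)) →
        Multiplicative (ZMod (r ^ padicValNat r ((Polynomial.cyclotomic (orderOf (q : ZMod r)) ℤ).eval (q : ℤ)).natAbs)))) := by
  subst hq
  have hq2 : 2 ≤ Fintype.card F := Fintype.one_lt_card
  rw [val_cyclotomic hq2 hrq]
  exact main_aux n hrn hrq P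

end Cfsg.Agent.S2380
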