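import Cfsg.Statements.S5957
import Mathlib

set_option autoImplicit false
open scoped MatrixGroups
open Cfsg

namespace Cfsg.Agent.S5957

open Module

section Core

variable {F V : Type*} [Field F] [AddCommGroup V] [Module F V] [FiniteDimensional F V]

/-- `g`-invariant subspaces. -/
def Inv (g : V →ₗ[F] V) (U : Submodule F V) : Prop := ∀ u ∈ U, g u ∈ U

/-- `U` is the direct sum of the `g`-invariant subspaces `P` and `U'`. -/
structure Split (g : V →ₗ[F] V) (P U' U : Submodule F V) : Prop where
  invP : Inv g P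
  invU : Inv g U'
  sup_eq : P ⊔ U' = U
  inf_eq : P ⊓ U' = ⊥

variable {g : V →ₗ[F] V} {z : F}

theorem Split.finrank_add {P U' U : Submodule F V} (h : Split g P U' U) :
    finrank F P + finrank F U' = finrank F U := by
  have := Submodule.finrank_sup_add_finrank_inf_eq P U'
  rw [h.sup_eq, h.inf_eq, finrank_bot, add_zero] at this
  exact this.symm

theorem Split.symm {P U' U : Submodule F V} (h : Split g P U' U) : Split g U' P U :=
  ⟨h.invU, h.invP, by rw [sup_comm, h.sup_eq], by rw [inf_comm, h.inf_eq]⟩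

theorem Split.le_left {P U' U : Submodule F V} (h : Split g P U' U) : P ≤ U := by
  rw [← h.sup_eq]; exact le_sup_left

theorem Split.le_right {P U' U : Submodule F V} (h : Split g P U' U) : U' ≤ U := by
  rw [← h.sup_eq]; exact le_sup_right

theorem Split.inv {P U' U : Submodule F V} (h : Split g P U' U) : Inv g U := by
  rw [← h.sup_eq]
  intro u hu
  obtain ⟨p, hp, q, hq, rfl⟩ := Submodule.mem_sup.mp hu
  rw [map_add]
  exact Submodule.add_mem _ (Submodule.mem_sup_left (h.invP p hp))
    (Submodule.mem_sup_right (h.invU q hq))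

theorem inv_sup {A B : Submodule F V} (hA : Inv g A) (hB : Inv g B) : Inv g (A ⊔ B) := by
  intro u hu
  obtain ⟨p, hp, q, hq, rfl⟩ := Submodule.mem_sup.mp hu
  rw [map_add]
  exact Submodule.add_mem _ (Submodule.mem_sup_left (hA p hp)) (Submodule.mem_sup_right (hB q hq))

theorem Split.trans {P U' U P₂ U'' : Submodule F V} (h₁ : Split g P U' U) (h₂ : Split g P₂ U'' U') :
    Split g (P ⊔ P₂) U'' U := by
  refine ⟨inv_sup h₁.invP h₂.invP, h₂.invU, ?_, ?_⟩
  · rw [sup_assoc, h₂.sup_eq, h₁.sup_eq]
  · rw [eq_bot_iff]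
    intro x hx
    obtain ⟨hx1, hx2⟩ := Submodule.mem_inf.mp hx
    obtain ⟨p, hp, q, hq, rfl⟩ := Submodule.mem_sup.mp hx1
    have hpU : p ∈ U' := by
      have h3 : p + q ∈ U' := h₂.le_right hx2
      have h4 : q ∈ U' := h₂.le_left hq
      have : p = (p + q) - q := by abel
      rw [this]
      exact Submodule.sub_mem _ h3 h4
    have hp0 : p = 0 := by
      have : p ∈ P ⊓ U' := Submodule.mem_inf.mpr ⟨hp, hpU⟩
      rw [h₁.inf_eq] at this
      simpa using this
    subst hp0
    rw [zero_add] at hx2 ⊢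
    have : q ∈ P₂ ⊓ U'' := Submodule.mem_inf.mpr ⟨hq, hx2⟩
    rw [h₂.inf_eq] at this
    simpa using this

/-- An invariant subspace is mapped onto itself. -/
theorem Inv.map_eq (hz : z ≠ 0) (hg : ∀ v, g (g v) = z • v) {U : Submodule F V} (hU : Inv g U) :
    U.map g = U := by
  apply le_antisymm
  · rintro _ ⟨u, hu, rfl⟩
    exact hU u hu
  · intro u hu
    refine ⟨z⁻¹ • g u, Submodule.smul_mem _ _ (hU u hu), ?_⟩
    rw [map_smul, hg, smul_smul, inv_mul_cancel₀ hz, one_smul]

theorem map_map_self (hz : z ≠ 0) (hg : ∀ v, g (g v) = z • v) (U : Submodule F V) :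
    (U.map g).map g = U := by
  apply le_antisymm
  · rintro _ ⟨_, ⟨u, hu, rfl⟩, rfl⟩
    rw [hg]
    exact Submodule.smul_mem _ _ hu
  · intro u hu
    refine ⟨g (z⁻¹ • u), ⟨z⁻¹ • u, Submodule.smul_mem _ _ hu, rfl⟩, ?_⟩
    rw [hg, smul_smul, mul_inv_cancel₀ hz, one_smul]

theorem g_injective (hz : z ≠ 0) (hg : ∀ v, g (g v) = z • v) : Function.Injective g := by
  rw [injective_iff_map_eq_zero]
  intro a ha
  have := hg a
  rw [ha, map_zero] at this
  have h2 : z • a = 0 := this.symm
  simpa [hz] using h2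

theorem finrank_map_g (hz : z ≠ 0) (hg : ∀ v, g (g v) = z • v) (U : Submodule F V) :
    finrank F (U.map g) = finrank F U :=
  (LinearEquiv.finrank_eq (Submodule.equivMapOfInjective g (g_injective hz hg) U)).symm

theorem inv_span_pair (hg : ∀ v, g (g v) = z • v) (w : V) : Inv g (Submodule.span F {w, g w}) := by
  intro u hu
  obtain ⟨a, b, rfl⟩ := Submodule.mem_span_pair.mp hu
  rw [map_add, map_smul, map_smul, hg]
  refine Submodule.mem_span_pair.mpr ⟨b * z, a, ?_⟩
  rw [smul_smul, add_comm]

/-- The splitting off of a free cyclic submodule. -/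
theorem plane_split (hg : ∀ v, g (g v) = z • v) {U : Submodule F V} (hU : Inv g U) {w : V} (hw : w ∈ U)
    (hli : LinearIndependent F ![w, g w]) : ∃ U', Split g (Submodule.span F {w, g w}) U' U := by
  have hnot : g w ∉ Submodule.span F {w} := by
    intro h
    obtain ⟨c, hc⟩ := Submodule.mem_span_singleton.mp h
    have := LinearIndependent.pair_iff.mp hli c (-1) (by rw [hc]; simp)
    simpa using this.2
  obtain ⟨f, hf, hker⟩ := Submodule.exists_le_ker_of_notMem hnot
  have hfw : f w = 0 := hker (Submodule.mem_span_singleton_self w)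
  set φ : V →ₗ[F] F := (f (g w))⁻¹ • f with hφ
  have hφw : φ w = 0 := by simp [hφ, hfw]
  have hφg : φ (g w) = 1 := by simp [hφ, hf]
  refine ⟨U ⊓ LinearMap.ker φ ⊓ LinearMap.ker (φ ∘ₗ g), inv_span_pair hg w, ?_, ?_, ?_⟩
  · rintro u ⟨⟨hu1, hu2⟩, hu3⟩
    have hu2' : φ u = 0 := hu2
    have hu3' : φ (g u) = 0 := hu3
    refine ⟨⟨hU u hu1, hu3'⟩, ?_⟩
    change φ (g (g u)) = 0
    rw [hg, map_smul, hu2', smul_zero]
  · apply le_antisymm
    · apply sup_le
      · rw [Submodule.span_le]
        rintro x (rfl | rfl)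
        · exact hw
        · exact hU _ hw
      · exact fun x hx => hx.1.1
    · intro u hu
      have h1 : φ (g u) • w + φ u • g w ∈ Submodule.span F {w, g w} :=
        Submodule.mem_span_pair.mpr ⟨_, _, rfl⟩
      have hmem : u - (φ (g u) • w + φ u • g w) ∈ U ⊓ LinearMap.ker φ ⊓ LinearMap.ker (φ ∘ₗ g) := by
        refine ⟨⟨Submodule.sub_mem _ hu (Submodule.add_mem _ (Submodule.smul_mem _ _ hw)
          (Submodule.smul_mem _ _ (hU _ hw))), ?_⟩, ?_⟩
        · change φ _ = 0
          simp [hφw, hφg]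
        · change φ (g _) = 0
          simp only [map_sub, map_add, map_smul, hg, hφw, hφg]
          simp
      have : u = (φ (g u) • w + φ u • g w) + (u - (φ (g u) • w + φ u • g w)) := by abel
      rw [this]
      exact Submodule.add_mem_sup h1 hmem
  · rw [eq_bot_iff]
    rintro x ⟨hx1, ⟨⟨-, hx2⟩, hx3⟩⟩
    obtain ⟨a, b, rfl⟩ := Submodule.mem_span_pair.mp hx1
    have h2 : φ (a • w + b • g w) = 0 := hx2
    have h3 : φ (g (a • w + b • g w)) = 0 := hx3
    simp only [map_add, map_smul, hφw, hφg, smul_eq_mul, mul_zero, mul_one, zero_add] at h2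
    simp only [map_add, map_smul, hg, hφw, hφg, smul_eq_mul, mul_zero, mul_one, add_zero] at h3
    rw [h2, h3]
    simp

theorem dichotomy (U : Submodule F V) :
    (∃ w ∈ U, LinearIndependent F ![w, g w]) ∨ (∀ w ∈ U, ∃ c : F, g w = c • w) := by
  by_cases h : ∃ w ∈ U, LinearIndependent F ![w, g w]
  · exact Or.inl h
  · right
    push Not at h
    intro w hw
    have h1 := h w hw
    rw [LinearIndependent.pair_iff] at h1
    push Not at h1
    obtain ⟨s, t, hst, hne⟩ := h1
    by_cases ht : t = 0
    · subst ht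
      have hs : s ≠ 0 := fun hs => (hne hs) rfl
      have hw0 : w = 0 := by
        simpa [hs] using hst
      subst hw0
      exact ⟨0, by simp⟩
    · refine ⟨-(t⁻¹ * s), ?_⟩
      have : t • g w = -(s • w) := by
        rw [eq_neg_iff_add_eq_zero, add_comm]; exact hst
      calc g w = t⁻¹ • (t • g w) := by rw [smul_smul, inv_mul_cancel₀ ht, one_smul]
        _ = _ := by rw [this, smul_neg, smul_smul, neg_smul]

/-- Splitting off a line when all vectors are eigenvectors. -/
theorem line_split {U : Submodule F V} (hB : ∀ w ∈ U, ∃ c : F, g w = c • w) (hU : U ≠ ⊥) :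
    ∃ L U' : Submodule F V, finrank F L = 1 ∧ Split g L U' U := by
  obtain ⟨u, hu, hu0⟩ := Submodule.exists_mem_ne_zero_of_ne_bot hU
  have hnot : u ∉ (⊥ : Submodule F V) := by simpa using hu0
  obtain ⟨f, hf, -⟩ := Submodule.exists_le_ker_of_notMem hnot
  set φ : V →ₗ[F] F := (f u)⁻¹ • f with hφ
  have hφu : φ u = 1 := by simp [hφ, hf]
  have hinv : ∀ W : Submodule F V, W ≤ U → Inv g W := by
    intro W hW x hx
    obtain ⟨c, hc⟩ := hB x (hW hx)
    rw [hc]
    exact Submodule.smul_mem _ _ hx
  refine ⟨Submodule.span F {u}, U ⊓ LinearMap.ker φ, finrank_span_singleton hu0,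
    hinv _ ((Submodule.span_singleton_le_iff_mem _ _).mpr hu), hinv _ inf_le_left, ?_, ?_⟩
  · apply le_antisymm
    · exact sup_le ((Submodule.span_singleton_le_iff_mem _ _).mpr hu) inf_le_left
    · intro x hx
      have h1 : φ x • u ∈ Submodule.span F {u} := Submodule.smul_mem _ _ (Submodule.mem_span_singleton_self u)
      have hmem : x - φ x • u ∈ U ⊓ LinearMap.ker φ := by
        refine ⟨Submodule.sub_mem _ hx (Submodule.smul_mem _ _ hu), ?_⟩
        change φ _ = 0
        simp [hφu]
      have : x = φ x • u + (x - φ x • u) := by abel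
      rw [this]
      exact Submodule.add_mem_sup h1 hmem
  · rw [eq_bot_iff]
    rintro x ⟨hx1, ⟨-, hx2⟩⟩
    obtain ⟨c, rfl⟩ := Submodule.mem_span_singleton.mp hx1
    have h2 : φ (c • u) = 0 := hx2
    simp only [map_smul, hφu, smul_eq_mul, mul_one] at h2
    simp [h2]

theorem finrank_span_pair_of_li {w : V} (hli : LinearIndependent F ![w, g w]) :
    finrank F (Submodule.span F {w, g w}) = 2 := by
  have := finrank_span_eq_card hli
  have h : Set.range ![w, g w] = {w, g w} := by
    ext x
    simp only [Set.mem_range, Fin.exists_fin_two, Matrix.cons_val_zero, Matrix.cons_val_one,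
      Set.mem_insert_iff, Set.mem_singleton_iff]
    constructor
    · rintro (h | h)
      · exact Or.inl h.symm
      · exact Or.inr h.symm
    · rintro (h | h)
      · exact Or.inl h.symm
      · exact Or.inr h.symm
  rw [h] at this
  simpa using this

/-- Splitting off an invariant plane. -/
theorem two_split (hg : ∀ v, g (g v) = z • v) {U : Submodule F V} (hU : Inv g U)
    (h2 : 2 ≤ finrank F U) : ∃ P U' : Submodule F V, finrank F P = 2 ∧ Split g P U' U := by
  rcases dichotomy (g := g) U with ⟨w, hw, hli⟩ | hB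
  · obtain ⟨U', hs⟩ := plane_split hg hU hw hli
    exact ⟨_, U', finrank_span_pair_of_li hli, hs⟩
  · have hU0 : U ≠ ⊥ := by
      rintro rfl
      simp at h2
    obtain ⟨L, U₁, hL, hs⟩ := line_split hB hU0
    have hd := hs.finrank_add
    have hU₁ : U₁ ≠ ⊥ := by
      rintro rfl
      simp at hd
      omega
    obtain ⟨L₂, U₂, hL₂, hs₂⟩ := line_split (fun w hw => hB w (hs.le_right hw)) hU₁
    have hd₂ := hs₂.finrank_add
    have ht := hs.trans hs₂
    have hd₃ := ht.finrank_add
    exact ⟨_, U₂, by omega, ht⟩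

/-- Peeling off invariant summands of even dimension. -/
theorem even_peel (hg : ∀ v, g (g v) = z • v) (r : ℕ) : ∀ U : Submodule F V, Inv g U →
    2 * r ≤ finrank F U → ∃ W U' : Submodule F V, finrank F W = 2 * r ∧ Split g W U' U := by
  induction r with
  | zero =>
    intro U hU _
    refine ⟨⊥, U, by simp, ?_, hU, by simp, by simp⟩
    intro u hu
    have : u = 0 := by simpa using hu
    simp [this]
  | succ r ih =>
    intro U hU h2
    obtain ⟨P, U₁, hP, hs⟩ := two_split hg hU (by omega)
    have hd := hs.finrank_add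
    obtain ⟨W₀, U', hW₀, hs₂⟩ := ih U₁ hs.invU (by omega)
    have hd₂ := hs₂.finrank_add
    have ht := hs.trans hs₂
    have hd₃ := ht.finrank_add
    exact ⟨_, U', by omega, ht⟩

/-- `U` has an invariant line with an invariant complement. -/
def LS (g : V →ₗ[F] V) (U : Submodule F V) : Prop := ∃ L U' : Submodule F V, finrank F L = 1 ∧ Split g L U' U

theorem free_step (hg : ∀ v, g (g v) = z • v) {U : Submodule F V} (hU : Inv g U) (hLS : ¬ LS g U)
    (hU0 : U ≠ ⊥) : ∃ w ∈ U, LinearIndependent F ![w, g w] ∧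
      ∃ U', Split g (Submodule.span F {w, g w}) U' U ∧ ¬ LS g U' := by
  rcases dichotomy (g := g) U with ⟨w, hw, hli⟩ | hB
  · obtain ⟨U', hs⟩ := plane_split hg hU hw hli
    refine ⟨w, hw, hli, U', hs, ?_⟩
    rintro ⟨L, U'', hL, hs₂⟩
    exact hLS ⟨L, _, hL, ((hs.trans hs₂.symm).symm)⟩
  · exact absurd (line_split hB hU0) hLS

theorem free_even (hg : ∀ v, g (g v) = z • v) : ∀ (n : ℕ) (U : Submodule F V), finrank F U = n → Inv g U →
    ¬ LS g U → Even n := by
  intro n
  induction n using Nat.strong_induction_on with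
  | _ n ih =>
    intro U hn hU hLS
    by_cases hU0 : U = ⊥
    · subst hU0
      simp at hn
      simp [← hn]
    · obtain ⟨w, -, hli, U', hs, hLS'⟩ := free_step hg hU hLS hU0
      have hd := hs.finrank_add
      rw [finrank_span_pair_of_li hli] at hd
      have := ih (finrank F U') (by omega) U' rfl hs.invU hLS'
      rw [← hn, ← hd]
      exact (even_two).add this

/-- Peeling off swapped pairs. -/
theorem free_peel (hg : ∀ v, g (g v) = z • v) (m : ℕ) : ∀ U : Submodule F V, Inv g U → ¬ LS g U →
    2 * m ≤ finrank F U → ∃ W U' : Submodule F V, finrank F W = m ∧ W ≤ U ∧ Inv g U' ∧ W ⊔ W.map g ⊔ U' = U ∧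
      finrank F U' + 2 * m = finrank F U ∧ ¬ LS g U' := by
  induction m with
  | zero =>
    intro U hU hLS _
    exact ⟨⊥, U, by simp, bot_le, hU, by simp, by simp, hLS⟩
  | succ m ih =>
    intro U hU hLS h2
    have hU0 : U ≠ ⊥ := by
      rintro rfl
      simp at h2
    obtain ⟨w, hw, hli, U₁, hs, hLS₁⟩ := free_step hg hU hLS hU0
    have hd := hs.finrank_add
    rw [finrank_span_pair_of_li hli] at hd
    obtain ⟨W₀, U', hW₀, hW₀U, hinv, hsup, hd', hLS'⟩ := ih U₁ hs.invU hLS₁ (by omega)
    have hw0 : w ≠ 0 := hli.ne_zero (0 : Fin 2)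
    have hspan : Submodule.span F {w} ≤ Submodule.span F {w, g w} :=
      Submodule.span_mono (by simp)
    have hinf : Submodule.span F {w} ⊓ W₀ = ⊥ := by
      rw [eq_bot_iff]
      rintro x ⟨hx1, hx2⟩
      have : x ∈ Submodule.span F {w, g w} ⊓ U₁ := ⟨hspan hx1, hW₀U hx2⟩
      rw [hs.inf_eq] at this
      exact this
    have hfr : finrank F (Submodule.span F {w} ⊔ W₀ : Submodule F V) = m + 1 := by
      have := Submodule.finrank_sup_add_finrank_inf_eq (Submodule.span F {w}) W₀
      rw [hinf, finrank_bot, add_zero, finrank_span_singleton hw0, hW₀] at this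
      omega
    have hgU₁ : W₀.map g ≤ U₁ := by
      rintro _ ⟨x, hx, rfl⟩
      exact hs.invU x (hW₀U hx)
    refine ⟨Submodule.span F {w} ⊔ W₀, U', hfr, ?_, hinv, ?_, by omega, hLS'⟩
    · exact sup_le ((Submodule.span_singleton_le_iff_mem _ _).mpr hw) (hW₀U.trans hs.le_right)
    · apply le_antisymm
      · refine sup_le (sup_le (sup_le ((Submodule.span_singleton_le_iff_mem _ _).mpr hw)
          (hW₀U.trans hs.le_right)) ?_) ?_
        · rintro _ ⟨x, hx, rfl⟩
          obtain ⟨p, hp, q, hq, rfl⟩ := Submodule.mem_sup.mp hx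
          rw [map_add]
          refine Submodule.add_mem _ (hU _ (((Submodule.span_singleton_le_iff_mem _ _).mpr hw) hp)) ?_
          exact hs.le_right (hgU₁ ⟨q, hq, rfl⟩)
        · have : U' ≤ U₁ := by
            rw [← hsup]
            exact le_sup_right
          exact this.trans hs.le_right
      · set R : Submodule F V := (Submodule.span F {w} ⊔ W₀) ⊔ (Submodule.span F {w} ⊔ W₀).map g ⊔ U' with hR
        have hW₀R : W₀ ≤ R := fun x hx =>
          Submodule.mem_sup_left (Submodule.mem_sup_left (Submodule.mem_sup_right hx))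
        have hgR : W₀.map g ≤ R := by
          rintro _ ⟨x, hx, rfl⟩
          exact Submodule.mem_sup_left (Submodule.mem_sup_right ⟨x, Submodule.mem_sup_right hx, rfl⟩)
        have hU'R : U' ≤ R := fun x hx => Submodule.mem_sup_right hx
        have hU₁R : U₁ ≤ R := by
          rw [← hsup]
          exact sup_le (sup_le hW₀R hgR) hU'R
        have hPR : Submodule.span F {w, g w} ≤ R := by
          rw [Submodule.span_le]
          rintro x (rfl | rfl)
          · exact Submodule.mem_sup_left (Submodule.mem_sup_left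
              (Submodule.mem_sup_left (Submodule.mem_span_singleton_self _)))
          · refine Submodule.mem_sup_left (Submodule.mem_sup_right ?_)
            exact ⟨w, Submodule.mem_sup_left (Submodule.mem_span_singleton_self _), rfl⟩
        rw [← hs.sup_eq]
        exact sup_le hPR hU₁R

/-- A family of `s` subspaces of dimension `a`, permuted by `g`, with join `U`. -/
def Good (g : V →ₗ[F] V) (a : ℕ) (U : Submodule F V) (s : ℕ) : Prop :=
  ∃ (ι : Type) (_ : Fintype ι) (D : ι → Submodule F V) (σ : Equiv.Perm ι), Fintype.card ι = s ∧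
    (∀ i, finrank F (D i) = a) ∧ (∀ i, (D i).map g = D (σ i)) ∧ ⨆ i, D i = U

theorem Good.bot (a : ℕ) : Good g a ⊥ 0 :=
  ⟨Empty, inferInstance, fun i => i.elim, 1, by simp, fun i => i.elim, fun i => i.elim, by simp⟩

theorem Good.sup {a s₁ s₂ : ℕ} {U₁ U₂ : Submodule F V} (h₁ : Good g a U₁ s₁) (h₂ : Good g a U₂ s₂) :
    Good g a (U₁ ⊔ U₂) (s₁ + s₂) := by
  obtain ⟨ι₁, i₁, D₁, σ₁, hc₁, hf₁, hm₁, hs₁⟩ := h₁
  obtain ⟨ι₂, i₂, D₂, σ₂, hc₂, hf₂, hm₂, hs₂⟩ := h₂
  refine ⟨ι₁ ⊕ ι₂, inferInstance, Sum.elim D₁ D₂, Equiv.sumCongr σ₁ σ₂, ?_, ?_, ?_, ?_⟩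
  · simp [hc₁, hc₂]
  · rintro (i | i)
    · exact hf₁ i
    · exact hf₂ i
  · rintro (i | i)
    · exact hm₁ i
    · exact hm₂ i
  · rw [iSup_sum, ← hs₁, ← hs₂]
    rfl

theorem Good.single (hz : z ≠ 0) (hg : ∀ v, g (g v) = z • v) {a : ℕ} {W : Submodule F V} (hW : Inv g W)
    (ha : finrank F W = a) : Good g a W 1 :=
  ⟨Unit, inferInstance, fun _ => W, 1, by simp, fun _ => ha, fun _ => hW.map_eq hz hg, by simp⟩

theorem Good.pair (hz : z ≠ 0) (hg : ∀ v, g (g v) = z • v) {a : ℕ} {W : Submodule F V}
    (ha : finrank F W = a) : Good g a (W ⊔ W.map g) 2 := by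
  refine ⟨Bool, inferInstance, fun b => if b then W else W.map g, Equiv.boolNot, by simp, ?_, ?_, ?_⟩
  · rintro (_ | _)
    · simpa [ha] using finrank_map_g hz hg W
    · simpa using ha
  · rintro (_ | _)
    · simpa using map_map_self hz hg W
    · simp
  · rw [iSup_bool_eq]
    simp

/-- The main induction. -/
theorem exists_good (hz : z ≠ 0) (hg : ∀ v, g (g v) = z • v) {a : ℕ} (ha : 1 ≤ a) (s : ℕ) :
    ∀ U : Submodule F V, Inv g U → finrank F U = a * s → Good g a U s := by
  induction s using Nat.strong_induction_on with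
  | _ s ih =>
    intro U hU hd
    rcases Nat.eq_zero_or_pos s with rfl | hs
    · have : U = ⊥ := by
        rw [← Submodule.finrank_eq_zero (R := F)]
        simpa using hd
      rw [this]
      exact Good.bot a
    obtain ⟨r, rfl | rfl⟩ := Nat.even_or_odd' a
    · -- `a` even
      have hle : 2 * r ≤ finrank F U := by
        rw [hd]
        exact Nat.le_mul_of_pos_right _ hs
      obtain ⟨W, U', hW, hsp⟩ := even_peel hg r U hU hle
      have hdd := hsp.finrank_add
      have hU' : finrank F U' = 2 * r * (s - 1) := by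
        obtain ⟨s', rfl⟩ : ∃ s', s = s' + 1 := ⟨s - 1, by omega⟩
        simp only [Nat.add_sub_cancel]
        rw [hd, hW] at hdd
        rw [Nat.mul_add, Nat.mul_one] at hdd
        omega
      have h1 := ih (s - 1) (by omega) U' hsp.invU hU'
      have h2 := Good.single hz hg hsp.invP hW
      have h3 := h2.sup h1
      rw [hsp.sup_eq] at h3
      have : 1 + (s - 1) = s := by omega
      rwa [this] at h3
    · -- `a` odd
      by_cases hLS : LS g U
      · obtain ⟨L, U₁, hL, hsp⟩ := hLS
        have hdd := hsp.finrank_add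
        have hle : 2 * r ≤ finrank F U₁ := by
          obtain ⟨s', rfl⟩ : ∃ s', s = s' + 1 := ⟨s - 1, by omega⟩
          rw [hd, hL, Nat.mul_add, Nat.mul_one] at hdd
          omega
        obtain ⟨W, U', hW, hsp₂⟩ := even_peel hg r U₁ hsp.invU hle
        have hdd₂ := hsp₂.finrank_add
        have hU' : finrank F U' = (2 * r + 1) * (s - 1) := by
          obtain ⟨s', rfl⟩ : ∃ s', s = s' + 1 := ⟨s - 1, by omega⟩
          simp only [Nat.add_sub_cancel]
          rw [hd, hL, Nat.mul_add, Nat.mul_one] at hdd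
          omega
        have ht := hsp.trans hsp₂
        have hdd₃ := ht.finrank_add
        have h1 := ih (s - 1) (by omega) U' hsp₂.invU hU'
        have h2 := Good.single hz hg ht.invP (a := 2 * r + 1) (by omega)
        have h3 := h2.sup h1
        rw [ht.sup_eq] at h3
        have : 1 + (s - 1) = s := by omega
        rwa [this] at h3
      · -- free case
        have hev := free_even hg _ U hd hU hLS
        have hs2 : 2 ≤ s := by
          have : Even s := by
            rcases (Nat.even_mul.mp hev) with h | h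
            · exact absurd h (by simp)
            · exact h
          obtain ⟨c, rfl⟩ := this
          omega
        have hle : 2 * (2 * r + 1) ≤ finrank F U := by
          rw [hd, mul_comm]
          exact Nat.mul_le_mul_left _ hs2
        obtain ⟨W, U', hW, -, hinv, hsup, hd', -⟩ := free_peel hg _ U hU hLS hle
        have hU' : finrank F U' = (2 * r + 1) * (s - 2) := by
          obtain ⟨s', rfl⟩ : ∃ s', s = s' + 2 := ⟨s - 2, by omega⟩
          simp only [Nat.add_sub_cancel]
          have : (2 * r + 1) * (s' + 2) = (2 * r + 1) * s' + 2 * (2 * r + 1) := by ring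
          rw [hd, this] at hd'
          omega
        have h1 := ih (s - 2) (by omega) U' hinv hU'
        have h2 := Good.pair hz hg hW
        have h3 := h2.sup h1
        rw [hsup] at h3
        have : 2 + (s - 2) = s := by omega
        rwa [this] at h3

/-- Spanning with the right total dimension gives independence. -/
theorem indep_of_finrank {ι : Type*} [Fintype ι] {a : ℕ} {D : ι → Submodule F V}
    (hf : ∀ i, finrank F (D i) = a) (hs : ⨆ i, D i = ⊤)
    (hd : finrank F V = a * Fintype.card ι) : iSupIndep D := by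
  classical
  have hle : ∀ s : Finset ι, finrank F (s.sup D : Submodule F V) ≤ a * s.card := by
    intro s
    induction s using Finset.induction_on with
    | empty => simp
    | insert i s his ih =>
      rw [Finset.sup_insert, Finset.card_insert_of_notMem his, Nat.mul_add, Nat.mul_one]
      have := Submodule.finrank_add_le_finrank_add_finrank (D i) (s.sup D)
      rw [hf i] at this
      omega
  rw [iSupIndep_def]
  intro i
  set E : Submodule F V := (Finset.univ.erase i).sup D with hE
  have hsup : D i ⊔ E = ⊤ := by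
    rw [eq_top_iff, ← hs]
    apply iSup_le
    intro j
    by_cases hj : j = i
    · subst hj
      exact le_sup_left
    · exact le_sup_of_le_right (Finset.le_sup (f := D) (Finset.mem_erase.mpr ⟨hj, Finset.mem_univ j⟩))
  have h1 := Submodule.finrank_sup_add_finrank_inf_eq (D i) E
  rw [hsup, finrank_top, hd, hf i] at h1
  have h2 : finrank F E ≤ _ := hle (Finset.univ.erase i)
  rw [Finset.card_erase_of_mem (Finset.mem_univ i), Finset.card_univ] at h2
  have hpos : 0 < Fintype.card ι := Fintype.card_pos_iff.mpr ⟨i⟩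
  have h3 : a * (Fintype.card ι - 1) + a = a * Fintype.card ι := by
    obtain ⟨c, hc⟩ : ∃ c, Fintype.card ι = c + 1 := ⟨Fintype.card ι - 1, by omega⟩
    rw [hc, Nat.add_sub_cancel, Nat.mul_add, Nat.mul_one]
  have h4 : finrank F (D i ⊓ E : Submodule F V) = 0 := by omega
  have h5 : D i ⊓ E = ⊥ := Submodule.finrank_eq_zero.mp h4
  have hdisj : Disjoint (D i) E := by
    rw [disjoint_iff]
    exact h5
  refine hdisj.mono_right ?_
  refine iSup₂_le ?_
  intro j hj
  exact Finset.le_sup (f := D) (Finset.mem_erase.mpr ⟨hj, Finset.mem_univ j⟩)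

end Core

/-- Involutions of `PSL_n(q)` stabilize a decomposition into `t` subspaces of dimension `a`. -/
theorem result {F : Type*} [Field F] [Fintype F] {p : ℕ} [Fact p.Prime] [CharP F p] {q : ℕ} (hq : Fintype.card F = q)
    (n a t : ℕ) (hn : 2 ≤ n) (hT : (n, q) ≠ (2, 2) ∧ (n, q) ≠ (2, 3)) (hat : n = a * t) (ha : 1 ≤ a) (ht : 2 ≤ t)
    (hΩ : 2 ∣ Nat.card {D : Fin t → Submodule F (Fin n → F) // Cfsg.Geo.IsMDecomposition a D} / Nat.factorial t)
    (x : Matrix.SpecialLinearGroup (Fin n) F)
    (hx1 : ∃ z : F, ((x ^ 2 : Matrix.SpecialLinearGroup (Fin n) F) : Matrix (Fin n) (Fin n) F) = z • (1 : Matrix (Fin n) (Fin n) F))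
    (hx2 : ∀ z : F, (x : Matrix (Fin n) (Fin n) F) ≠ z • (1 : Matrix (Fin n) (Fin n) F)) :
    ∃ D : Fin t → Submodule F (Fin n → F), Cfsg.Geo.IsMDecomposition a D ∧
        ∃ σ : Equiv.Perm (Fin t), ∀ j, (D j).map (Matrix.toLin' (x : Matrix (Fin n) (Fin n) F)) = D (σ j) := by
  classical
  obtain ⟨z, hz⟩ := hx1
  set g : (Fin n → F) →ₗ[F] (Fin n → F) := Matrix.toLin' (x : Matrix (Fin n) (Fin n) F) with hgdef
  have hmat : (x : Matrix (Fin n) (Fin n) F) * (x : Matrix (Fin n) (Fin n) F) = z • 1 := by
    rw [← hz, pow_two]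
    rfl
  have hg : ∀ v, g (g v) = z • v := by
    intro v
    have : g (g v) = Matrix.toLin' ((x : Matrix (Fin n) (Fin n) F) * (x : Matrix (Fin n) (Fin n) F)) v := by
      rw [Matrix.toLin'_mul]
      rfl
    rw [this, hmat]
    simp
  have hz0 : z ≠ 0 := by
    rintro rfl
    have hd : ((x : Matrix (Fin n) (Fin n) F) * (x : Matrix (Fin n) (Fin n) F)).det = 1 := by
      rw [Matrix.det_mul, x.2, one_mul]
    haveI : Nonempty (Fin n) := ⟨⟨0, by omega⟩⟩
    rw [hmat, zero_smul, Matrix.det_zero] at hd
    exact zero_ne_one hd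
  have hfin : finrank F (Fin n → F) = a * t := by
    rw [finrank_fin_fun, hat]
  have hGood := exists_good hz0 hg ha t ⊤ (fun _ _ => Submodule.mem_top) (by rw [finrank_top, hfin])
  obtain ⟨ι, _, D, σ, hc, hf, hm, hs⟩ := hGood
  have e : ι ≃ Fin t := Fintype.equivFinOfCardEq hc
  refine ⟨fun j => D (e.symm j), ⟨ht, ha, fun i => hf _, ?_, ?_⟩, e.symm.trans (σ.trans e), ?_⟩
  · have h := indep_of_finrank hf hs (by rw [hfin, hc])
    exact h.comp e.symm.injective
  · rw [← hs]
    exact e.symm.surjective.iSup_comp D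
  · intro j
    simp [hm]

end Cfsg.Agent.S5957
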