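import Cfsg.Statements.S5964
import Cfsg.Agent.S5957
import Mathlib

set_option autoImplicit false
open scoped MatrixGroups
open Cfsg

namespace Cfsg.Agent.S5964

open Module Cfsg.Geo
open Cfsg.Agent.S5957 (Inv Split plane_split dichotomy line_split finrank_span_pair_of_li inv_sup)

section Blocks

variable {F V : Type*} [Field F] [AddCommGroup V] [Module F V] [FiniteDimensional F V]
variable {g : V →ₗ[F] V} {z : F}

/-- Lines and free cyclic planes spanning `U`. -/
def HasBlocks (g : V →ₗ[F] V) (z : F) (U : Submodule F V) : Prop :=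
  ∃ (ι κ : Type) (_ : Fintype ι) (_ : Fintype κ) (u : ι → V) (c : ι → F) (e : κ → V),
    (∀ i, g (u i) = c i • u i) ∧ (∀ i, c i ^ 2 = z) ∧
    Submodule.span F (Set.range u ∪ Set.range e ∪ Set.range (fun k => g (e k))) = U ∧
    Fintype.card ι + 2 * Fintype.card κ = finrank F U

theorem hasBlocks_bot : HasBlocks g z ⊥ :=
  ⟨Empty, Empty, inferInstance, inferInstance, fun i => i.elim, fun i => i.elim, fun i => i.elim,
    fun i => i.elim, fun i => i.elim, by simp, by simp⟩

theorem exists_blocks (hg : ∀ v, g (g v) = z • v) : ∀ (d : ℕ) (U : Submodule F V), finrank F U = d → Inv g U →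
    HasBlocks g z U := by
  intro d
  induction d using Nat.strong_induction_on with
  | _ d ih =>
    intro U hd hU
    by_cases hU0 : U = ⊥
    · rw [hU0]
      exact hasBlocks_bot
    rcases dichotomy (g := g) U with ⟨w, hw, hli⟩ | hB
    · obtain ⟨U', hs⟩ := plane_split hg hU hw hli
      have hdd := hs.finrank_add
      rw [finrank_span_pair_of_li hli] at hdd
      obtain ⟨ι, κ, _, _, u, c, e, h1, h2, h3, h4⟩ := ih (finrank F U') (by omega) U' rfl hs.invU
      refine ⟨ι, κ ⊕ Unit, inferInstance, inferInstance, u, c, Sum.elim e (fun _ => w), h1, h2, ?_, ?_⟩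
      · rw [← hs.sup_eq, ← h3]
        apply le_antisymm
        · rw [Submodule.span_le]
          rintro x ((⟨i, rfl⟩ | ⟨k | k, rfl⟩) | ⟨k | k, rfl⟩)
          · exact Submodule.mem_sup_right (Submodule.subset_span (Or.inl (Or.inl ⟨i, rfl⟩)))
          · exact Submodule.mem_sup_right (Submodule.subset_span (Or.inl (Or.inr ⟨k, rfl⟩)))
          · exact Submodule.mem_sup_left (Submodule.subset_span (by simp))
          · exact Submodule.mem_sup_right (Submodule.subset_span (Or.inr ⟨k, rfl⟩))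
          · exact Submodule.mem_sup_left (Submodule.subset_span (by simp))
        · apply sup_le
          · rw [Submodule.span_le]
            rintro x (rfl | rfl)
            · exact Submodule.subset_span (Or.inl (Or.inr ⟨Sum.inr (), rfl⟩))
            · exact Submodule.subset_span (Or.inr ⟨Sum.inr (), rfl⟩)
          · apply Submodule.span_mono
            rintro x ((⟨i, rfl⟩ | ⟨k, rfl⟩) | ⟨k, rfl⟩)
            · exact Or.inl (Or.inl ⟨i, rfl⟩)
            · exact Or.inl (Or.inr ⟨Sum.inl k, rfl⟩)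
            · exact Or.inr ⟨Sum.inl k, rfl⟩
      · simp only [Fintype.card_sum, Fintype.card_unit]
        omega
    · obtain ⟨L, U', hL, hs⟩ := line_split hB hU0
      have hdd := hs.finrank_add
      obtain ⟨ι, κ, _, _, u, c, e, h1, h2, h3, h4⟩ := ih (finrank F U') (by omega) U' rfl hs.invU
      -- a generator of the line
      obtain ⟨v, hv0, hv⟩ : ∃ v : V, v ≠ 0 ∧ L = Submodule.span F {v} := by
        obtain ⟨v, hv0, hv⟩ := finrank_eq_one_iff'.mp hL
        refine ⟨v, fun h => hv0 (Subtype.ext h), ?_⟩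
        apply le_antisymm
        · intro x hx
          obtain ⟨c, hc⟩ := hv ⟨x, hx⟩
          have hc' : c • (v : V) = x := congrArg Subtype.val hc
          rw [← hc']
          exact Submodule.smul_mem _ _ (Submodule.mem_span_singleton_self _)
        · rw [Submodule.span_singleton_le_iff_mem]
          exact v.2
      have hvU : v ∈ U := hs.le_left (by rw [hv]; exact Submodule.mem_span_singleton_self _)
      obtain ⟨c₀, hc₀⟩ := hB v hvU
      have hc₀2 : c₀ ^ 2 = z := by
        have h5 := hg v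
        rw [hc₀, map_smul, hc₀, smul_smul] at h5
        have h6 : (c₀ * c₀ - z) • v = 0 := by rw [sub_smul, h5, sub_self]
        rcases smul_eq_zero.mp h6 with h7 | h7
        · rw [pow_two]; exact sub_eq_zero.mp h7
        · exact absurd h7 hv0
      refine ⟨ι ⊕ Unit, κ, inferInstance, inferInstance, Sum.elim u (fun _ => v), Sum.elim c (fun _ => c₀), e,
        ?_, ?_, ?_, ?_⟩
      · rintro (i | i)
        · exact h1 i
        · exact hc₀
      · rintro (i | i)
        · exact h2 i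
        · exact hc₀2
      · rw [← hs.sup_eq, ← h3, hv]
        apply le_antisymm
        · rw [Submodule.span_le]
          rintro x ((⟨i | i, rfl⟩ | ⟨k, rfl⟩) | ⟨k, rfl⟩)
          · exact Submodule.mem_sup_right (Submodule.subset_span (Or.inl (Or.inl ⟨i, rfl⟩)))
          · exact Submodule.mem_sup_left (Submodule.mem_span_singleton_self _)
          · exact Submodule.mem_sup_right (Submodule.subset_span (Or.inl (Or.inr ⟨k, rfl⟩)))
          · exact Submodule.mem_sup_right (Submodule.subset_span (Or.inr ⟨k, rfl⟩))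
        · apply sup_le
          · rw [Submodule.span_singleton_le_iff_mem]
            exact Submodule.subset_span (Or.inl (Or.inl ⟨Sum.inr (), rfl⟩))
          · apply Submodule.span_mono
            rintro x ((⟨i, rfl⟩ | ⟨k, rfl⟩) | ⟨k, rfl⟩)
            · exact Or.inl (Or.inl ⟨Sum.inl i, rfl⟩)
            · exact Or.inl (Or.inr ⟨k, rfl⟩)
            · exact Or.inr ⟨k, rfl⟩
      · simp only [Fintype.card_sum, Fintype.card_unit]
        omega

/-- A transformation of square one has a monomial form with entries `±1`. -/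
theorem exists_monomial_basis {n : ℕ} (hn : finrank F V = n) (hg : ∀ v, g (g v) = v) :
    ∃ b : Basis (Fin n) F V, ∀ j, ∃ l, ∃ ε : F, (ε = 1 ∨ ε = -1) ∧ g (b j) = ε • b l := by
  classical
  have hg' : ∀ v, g (g v) = (1 : F) • v := fun v => by rw [hg, one_smul]
  obtain ⟨ι, κ, _, _, u, c, e, h1, h2, h3, h4⟩ := exists_blocks hg' _ ⊤ rfl (fun _ _ => Submodule.mem_top)
  let f : ι ⊕ (κ ⊕ κ) → V := Sum.elim u (Sum.elim e (fun k => g (e k)))
  have hspan : ⊤ ≤ Submodule.span F (Set.range f) := by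
    rw [← h3]
    apply Submodule.span_mono
    rintro x ((⟨i, rfl⟩ | ⟨k, rfl⟩) | ⟨k, rfl⟩)
    · exact ⟨Sum.inl i, rfl⟩
    · exact ⟨Sum.inr (Sum.inl k), rfl⟩
    · exact ⟨Sum.inr (Sum.inr k), rfl⟩
  have hcard : Fintype.card (ι ⊕ (κ ⊕ κ)) = finrank F V := by
    rw [finrank_top] at h4
    simp only [Fintype.card_sum]
    omega
  let b₀ : Basis (ι ⊕ (κ ⊕ κ)) F V := basisOfTopLeSpanOfCardEqFinrank f hspan hcard
  have hb₀ : ∀ t, b₀ t = f t := fun t => by
    simp [b₀, basisOfTopLeSpanOfCardEqFinrank]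
  have eqv : (ι ⊕ (κ ⊕ κ)) ≃ Fin n := Fintype.equivFinOfCardEq (hcard.trans hn)
  refine ⟨b₀.reindex eqv, fun j => ?_⟩
  have hj : (b₀.reindex eqv) j = f (eqv.symm j) := by
    rw [Basis.reindex_apply, hb₀]
  have hb' : ∀ t, f t = (b₀.reindex eqv) (eqv t) := by
    intro t
    rw [Basis.reindex_apply, hb₀]
    simp
  rw [hj]
  rcases h : eqv.symm j with i | k | k
  · refine ⟨eqv (Sum.inl i), c i, ?_, ?_⟩
    · have h5 := h2 i
      have h6 : (c i - 1) * (c i + 1) = 0 := by
        have : (c i - 1) * (c i + 1) = c i ^ 2 - 1 := by ring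
        rw [this, h5, sub_self]
      rcases mul_eq_zero.mp h6 with h7 | h7
      · exact Or.inl (sub_eq_zero.mp h7)
      · exact Or.inr (eq_neg_of_add_eq_zero_left h7)
    · rw [← hb']
      exact h1 i
  · refine ⟨eqv (Sum.inr (Sum.inr k)), 1, Or.inl rfl, ?_⟩
    rw [← hb', one_smul]
    rfl
  · refine ⟨eqv (Sum.inr (Sum.inl k)), 1, Or.inl rfl, ?_⟩
    rw [← hb', one_smul]
    exact hg _

/-- If `z` is not a square, the determinant of `g` is a power of `-z`. -/
theorem exists_det_of_not_square {n : ℕ} (hn : finrank F V = n) (hg : ∀ v, g (g v) = z • v)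
    (hz : ¬ IsSquare z) : ∃ m : ℕ, 2 * m = n ∧ LinearMap.det g = (-z) ^ m := by
  classical
  obtain ⟨ι, κ, _, _, u, c, e, h1, h2, h3, h4⟩ := exists_blocks hg _ ⊤ rfl (fun _ _ => Submodule.mem_top)
  have hι : IsEmpty ι := ⟨fun i => hz ⟨c i, by rw [← h2 i, pow_two]⟩⟩
  let f : Fin 2 × κ → V := fun t => if t.1 = 0 then e t.2 else g (e t.2)
  have hspan : ⊤ ≤ Submodule.span F (Set.range f) := by
    rw [← h3]
    rw [Submodule.span_le]
    rintro x ((⟨i, rfl⟩ | ⟨k, rfl⟩) | ⟨k, rfl⟩)
    · exact hι.elim i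
    · exact Submodule.subset_span ⟨(0, k), by simp [f]⟩
    · exact Submodule.subset_span ⟨(1, k), by simp [f]⟩
  have hcard : Fintype.card (Fin 2 × κ) = finrank F V := by
    rw [finrank_top] at h4
    simp only [Fintype.card_prod, Fintype.card_fin]
    simp only [Fintype.card_eq_zero, zero_add] at h4
    omega
  let b : Basis (Fin 2 × κ) F V := basisOfTopLeSpanOfCardEqFinrank f hspan hcard
  have hb : ∀ t, b t = f t := fun t => by
    simp [b, basisOfTopLeSpanOfCardEqFinrank]
  have hb0 : ∀ k, b (0, k) = e k := fun k => by rw [hb]; simp [f]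
  have hb1 : ∀ k, b (1, k) = g (e k) := fun k => by rw [hb]; simp [f]
  refine ⟨Fintype.card κ, ?_, ?_⟩
  · rw [← hn, ← hcard]
    simp
  · rw [← LinearMap.det_toMatrix b g]
    have hM : LinearMap.toMatrix b b g = Matrix.blockDiagonal (fun _ : κ => !![0, z; 1, 0]) := by
      ext ⟨i, k⟩ ⟨j, l⟩
      rw [LinearMap.toMatrix_apply, Matrix.blockDiagonal_apply]
      fin_cases j
      · have : g (b (0, l)) = b (1, l) := by rw [hb0, hb1]
        simp only [Fin.zero_eta, Fin.isValue]
        rw [this, Basis.repr_self, Finsupp.single_apply]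
        fin_cases i <;> by_cases hkl : k = l <;> first | (subst hkl; simp) | simp [hkl, Ne.symm hkl]
      · have : g (b (1, l)) = z • b (0, l) := by rw [hb1, hb0, hg]
        simp only [Fin.mk_one, Fin.isValue]
        rw [this, map_smul, Basis.repr_self, Finsupp.smul_single, Finsupp.single_apply]
        fin_cases i <;> by_cases hkl : k = l <;> first | (subst hkl; simp) | simp [hkl, Ne.symm hkl]
    rw [hM, Matrix.det_blockDiagonal]
    simp [Matrix.det_fin_two]

end Blocks

section Subfield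

variable {F : Type*} [Field F] {n : ℕ}

/-- Membership in the subfield subgroup from the entries. -/
theorem mem_sub_of_entries (F₀ : Subfield F) {y : GL (Fin n) F} {a : F} (ha : a ≠ 0)
    (h : ∀ i j, a * (y : Matrix (Fin n) (Fin n) F) i j ∈ F₀) : y ∈ subfieldSubgroup F₀ 1 := by
  classical
  let M₀ : Matrix (Fin n) (Fin n) F₀ := Matrix.of fun i j => ⟨a * (y : Matrix (Fin n) (Fin n) F) i j, h i j⟩
  have hM₀ : M₀.map F₀.subtype = a • (y : Matrix (Fin n) (Fin n) F) := by
    ext i j
    rfl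
  have hdet : M₀.det ≠ 0 := by
    intro h
    have h1 : (M₀.map F₀.subtype).det = 0 := by
      rw [← RingHom.mapMatrix_apply, ← RingHom.map_det, h, map_zero]
    rw [hM₀, Matrix.det_smul] at h1
    rcases mul_eq_zero.mp h1 with h2 | h2
    · exact pow_ne_zero _ ha h2
    · exact (Matrix.GeneralLinearGroup.det y).ne_zero h2
  let g₀ : GL (Fin n) F₀ := Matrix.GeneralLinearGroup.mkOfDetNeZero M₀ hdet
  let s : GL (Fin n) F := Units.map (Matrix.scalar (Fin n) : F →+* Matrix (Fin n) (Fin n) F).toMonoidHom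
    (Units.mk0 a ha)⁻¹
  have hy : y = Matrix.GeneralLinearGroup.map F₀.subtype g₀ * s := by
    apply Units.ext
    have h1 : ((Matrix.GeneralLinearGroup.map F₀.subtype g₀ : GL (Fin n) F) : Matrix (Fin n) (Fin n) F) =
      M₀.map F₀.subtype := rfl
    have h2 : ((s : GL (Fin n) F) : Matrix (Fin n) (Fin n) F) = a⁻¹ • (1 : Matrix (Fin n) (Fin n) F) := by
      change Matrix.scalar (Fin n) ((Units.mk0 a ha)⁻¹ : Fˣ).val = _
      simp [Matrix.smul_one_eq_diagonal]
    rw [Units.val_mul, h1, hM₀, h2]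
    simp [smul_smul, ha]
  refine ⟨y, ?_, by simp⟩
  rw [hy]
  exact Subgroup.mul_mem _ (Subgroup.mem_sup_left ⟨g₀, rfl⟩) (Subgroup.mem_sup_right ⟨_, rfl⟩)

instance scalars_normal : (scalars (Fin n) F).Normal := by
  constructor
  intro c hc g
  rw [mem_scalars_iff] at hc ⊢
  obtain ⟨u, hu⟩ := hc
  refine ⟨u, ?_⟩
  rw [Units.val_mul, Units.val_mul, hu]
  simp [Matrix.mul_smul, Matrix.smul_mul]

/-- Converse of `mem_sub_of_entries`. -/
theorem entries_of_mem_sub (F₀ : Subfield F) {y : GL (Fin n) F} (hy : y ∈ subfieldSubgroup F₀ 1) :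
    ∃ a : F, a ≠ 0 ∧ ∀ i j, a * (y : Matrix (Fin n) (Fin n) F) i j ∈ F₀ := by
  obtain ⟨y', hy', rfl⟩ := hy
  obtain ⟨r, ⟨r₀, rfl⟩, s, hs, rfl⟩ := Subgroup.mem_sup_of_normal_right.mp hy'
  rw [mem_scalars_iff] at hs
  obtain ⟨u, hu⟩ := hs
  refine ⟨(u : F)⁻¹, by simp, fun i j => ?_⟩
  have : ((MulAut.conj (1 : GL (Fin n) F)).toMonoidHom
      (Matrix.GeneralLinearGroup.map F₀.subtype r₀ * s) : GL (Fin n) F) =
      Matrix.GeneralLinearGroup.map F₀.subtype r₀ * s := by simp
  rw [this, Units.val_mul, hu]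
  have h1 : ((Matrix.GeneralLinearGroup.map F₀.subtype r₀ : GL (Fin n) F) : Matrix (Fin n) (Fin n) F) =
      (r₀ : Matrix (Fin n) (Fin n) F₀).map F₀.subtype := rfl
  rw [h1]
  simp only [Matrix.mul_smul, Matrix.mul_one, Matrix.smul_apply, smul_eq_mul, Matrix.map_apply]
  rw [← mul_assoc, inv_mul_cancel₀ (by simp), one_mul]
  exact ((r₀ : Matrix (Fin n) (Fin n) F₀) i j).2

end Subfield

section Adjust

variable {F : Type*} [Field F] [Fintype F] {n : ℕ}

/-- The norm form represents everything. -/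
theorem exists_norm_eq {z d : F} (hz : z ≠ 0) : ∃ a b : F, a ^ 2 - z * b ^ 2 = d := by
  classical
  by_cases h2 : ringChar F = 2
  · obtain ⟨r, hr⟩ := FiniteField.isSquare_of_char_two h2 d
    exact ⟨r, 0, by rw [hr]; ring⟩
  · have hodd : Fintype.card F % 2 = 1 := FiniteField.odd_card_of_char_ne_two h2
    have hf : (Polynomial.X ^ 2 - Polynomial.C d : Polynomial F).degree = 2 :=
      Polynomial.degree_X_pow_sub_C (by norm_num) d
    have hg : (-(Polynomial.C z) * Polynomial.X ^ 2 : Polynomial F).degree = 2 := by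
      rw [Polynomial.degree_mul, Polynomial.degree_neg, Polynomial.degree_C hz, Polynomial.degree_X_pow, zero_add]
      rfl
    obtain ⟨a, b, hab⟩ := FiniteField.exists_root_sum_quadratic hf hg hodd
    refine ⟨a, b, ?_⟩
    simp only [Polynomial.eval_sub, Polynomial.eval_pow, Polynomial.eval_X, Polynomial.eval_C,
      Polynomial.eval_mul, Polynomial.eval_neg] at hab
    linear_combination hab

/-- A matrix with square a scalar, all of whose vectors are eigenvectors, is scalar. -/
theorem scalar_of_eigen (hn : 1 ≤ n) (x : Matrix (Fin n) (Fin n) F)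
    (h : ∀ w : Fin n → F, ∃ c : F, x.mulVec w = c • w) : ∃ c : F, x = c • 1 := by
  classical
  have hi : ∀ i : Fin n, ∃ c : F, x.mulVec (Pi.single i 1) = c • (Pi.single i 1 : Fin n → F) :=
    fun i => h _
  choose c hc using hi
  have hcij : ∀ i j, c i = c j := by
    intro i j
    by_cases hij : i = j
    · rw [hij]
    obtain ⟨d, hd⟩ := h (Pi.single i 1 + Pi.single j 1)
    rw [Matrix.mulVec_add, hc, hc] at hd
    have h1 := congrFun hd i
    have h2 := congrFun hd j
    simp [hij, Ne.symm hij] at h1 h2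
    rw [h1, h2]
  refine ⟨c ⟨0, by omega⟩, ?_⟩
  ext i j
  have h3 := congrFun (hc j) i
  rw [Matrix.mulVec_single] at h3
  simp only [MulOpposite.op_one, one_smul, Matrix.col_apply, Pi.smul_apply, smul_eq_mul] at h3
  simp only [Matrix.smul_apply, smul_eq_mul]
  by_cases hij : i = j
  · subst hij
    simp only [Pi.single_eq_same, mul_one] at h3
    simp [h3, hcij i ⟨0, by omega⟩]
  · simp only [Pi.single_eq_of_ne hij, mul_zero] at h3
    simp [h3, Matrix.one_apply_ne hij]

/-- A non-scalar matrix of square `z` commutes with matrices of every non-zero determinant. -/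
theorem exists_commuting_det (hn : 1 ≤ n) {x : Matrix (Fin n) (Fin n) F} {z : F} (hz : z ≠ 0)
    (hx : x * x = z • 1) (hns : ∀ c : F, x ≠ c • 1) (d : F) :
    ∃ C : Matrix (Fin n) (Fin n) F, C * x = x * C ∧ C.det = d := by
  classical
  set g : (Fin n → F) →ₗ[F] (Fin n → F) := Matrix.toLin' x with hgdef
  have hgv : ∀ v, g v = x.mulVec v := fun v => rfl
  have hg : ∀ v, g (g v) = z • v := by
    intro v
    rw [hgv, hgv, Matrix.mulVec_mulVec, hx, Matrix.smul_mulVec, Matrix.one_mulVec]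
  rcases dichotomy (g := g) ⊤ with ⟨w, -, hli⟩ | hB
  swap
  · exfalso
    obtain ⟨c, hc⟩ := scalar_of_eigen hn x (fun w => hB w Submodule.mem_top)
    exact hns c hc
  have hnot : g w ∉ Submodule.span F {w} := by
    intro h
    obtain ⟨c, hc⟩ := Submodule.mem_span_singleton.mp h
    have := LinearIndependent.pair_iff.mp hli c (-1) (by rw [hc]; simp)
    simpa using this.2
  obtain ⟨f, hf, hker⟩ := Submodule.exists_le_ker_of_notMem hnot
  have hfw : f w = 0 := hker (Submodule.mem_span_singleton_self w)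
  set φ : (Fin n → F) →ₗ[F] F := (f (g w))⁻¹ • f with hφ
  have hφw : φ w = 0 := by simp [hφ, hfw]
  have hφg : φ (g w) = 1 := by simp [hφ, hf]
  obtain ⟨a, b, hab⟩ := exists_norm_eq (d := d) hz
  set A₁ : Fin n → F := (a - 1) • w + b • g w with hA₁
  set A₂ : Fin n → F := (a - 1) • g w + (b * z) • w with hA₂
  have hgA₁ : g A₁ = A₂ := by
    rw [hA₁, hA₂, map_add, map_smul, map_smul, hg]
    module
  have hgA₂ : g A₂ = z • A₁ := by
    rw [hA₁, hA₂, map_add, map_smul, map_smul, hg]
    module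
  have hφA₁ : φ A₁ = b := by simp [hA₁, hφw, hφg]
  have hφA₂ : φ A₂ = a - 1 := by simp [hA₂, hφw, hφg]
  -- the two factors
  let ι₂ : (Fin 2 → F) →ₗ[F] (Fin n → F) :=
    (LinearMap.proj 0 : (Fin 2 → F) →ₗ[F] F).smulRight A₁ + (LinearMap.proj 1 : (Fin 2 → F) →ₗ[F] F).smulRight A₂
  let ψ : (Fin n → F) →ₗ[F] (Fin 2 → F) := LinearMap.pi ![φ ∘ₗ g, φ]
  have hι₂ : ∀ v, ι₂ v = v 0 • A₁ + v 1 • A₂ := fun v => rfl
  have hψ0 : ∀ u, ψ u 0 = φ (g u) := fun u => rfl
  have hψ1 : ∀ u, ψ u 1 = φ u := fun u => rfl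
  let T : (Fin n → F) →ₗ[F] (Fin n → F) := ι₂ ∘ₗ ψ
  have hT : ∀ u, T u = φ (g u) • A₁ + φ u • A₂ := fun u => rfl
  have hcomm : T ∘ₗ g = g ∘ₗ T := by
    apply LinearMap.ext
    intro u
    change T (g u) = g (T u)
    rw [hT, hT, hg, map_add, map_smul, map_smul, map_smul, hgA₁, hgA₂]
    simp only [smul_eq_mul]
    module
  have hxmat : LinearMap.toMatrix' g = x := by
    rw [hgdef, LinearMap.toMatrix'_toLin']
  have hTmat : LinearMap.toMatrix' T = LinearMap.toMatrix' ι₂ * LinearMap.toMatrix' ψ :=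
    LinearMap.toMatrix'_comp _ _
  refine ⟨1 + LinearMap.toMatrix' T, ?_, ?_⟩
  · have h1 : LinearMap.toMatrix' T * x = x * LinearMap.toMatrix' T := by
      rw [← hxmat, ← LinearMap.toMatrix'_comp, ← LinearMap.toMatrix'_comp, hcomm]
    rw [add_mul, mul_add, h1, one_mul, mul_one]
  · rw [hTmat, Matrix.det_one_add_mul_comm, ← LinearMap.toMatrix'_comp]
    have hM : LinearMap.toMatrix' (ψ ∘ₗ ι₂) = !![a - 1, z * b; b, a - 1] := by
      have hs0 : ι₂ (Pi.single 0 1) = A₁ := by
        rw [hι₂]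
        simp
      have hs1 : ι₂ (Pi.single 1 1) = A₂ := by
        rw [hι₂]
        simp
      ext i j
      rw [LinearMap.toMatrix'_apply]
      change ψ (ι₂ (Pi.single j 1)) i = _
      fin_cases j <;> fin_cases i
      · change ψ (ι₂ (Pi.single 0 1)) 0 = _
        rw [hs0, hψ0, hgA₁, hφA₂]
        rfl
      · change ψ (ι₂ (Pi.single 0 1)) 1 = _
        rw [hs0, hψ1, hφA₁]
        rfl
      · change ψ (ι₂ (Pi.single 1 1)) 0 = _
        rw [hs1, hψ0, hgA₂, map_smul, hφA₁]
        rfl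
      · change ψ (ι₂ (Pi.single 1 1)) 1 = _
        rw [hs1, hψ1, hφA₂]
        rfl
    rw [hM, Matrix.det_fin_two]
    simp [Matrix.one_apply]
    rw [← hab]
    ring

/-- From `GL`-conjugacy to `SL`-conjugacy for our elements. -/
theorem exists_sl_conj (hn : 1 ≤ n) (x : Matrix.SpecialLinearGroup (Fin n) F) {z : F} (hz : z ≠ 0)
    (hx : (x : Matrix (Fin n) (Fin n) F) * (x : Matrix (Fin n) (Fin n) F) = z • 1)
    (hns : ∀ c : F, (x : Matrix (Fin n) (Fin n) F) ≠ c • 1) (P : GL (Fin n) F) :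
    ∃ P' : Matrix.SpecialLinearGroup (Fin n) F,
      Matrix.SpecialLinearGroup.toGL (P'⁻¹ * x * P') = P⁻¹ * Matrix.SpecialLinearGroup.toGL x * P := by
  classical
  have hdP : (P : Matrix (Fin n) (Fin n) F).det ≠ 0 := (Matrix.GeneralLinearGroup.det P).ne_zero
  obtain ⟨C, hC, hdC⟩ := exists_commuting_det hn hz hx hns ((P : Matrix (Fin n) (Fin n) F).det)⁻¹
  have hdet : (C * (P : Matrix (Fin n) (Fin n) F)).det = 1 := by
    rw [Matrix.det_mul, hdC, inv_mul_cancel₀ hdP]
  let P' : Matrix.SpecialLinearGroup (Fin n) F := ⟨C * (P : Matrix (Fin n) (Fin n) F), hdet⟩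
  refine ⟨P', ?_⟩
  have key : Matrix.SpecialLinearGroup.toGL x * Matrix.SpecialLinearGroup.toGL P' =
      Matrix.SpecialLinearGroup.toGL P' * (P⁻¹ * Matrix.SpecialLinearGroup.toGL x * P) := by
    apply Units.ext
    have h1 : ((Matrix.SpecialLinearGroup.toGL P' : GL (Fin n) F) : Matrix (Fin n) (Fin n) F) =
        C * (P : Matrix (Fin n) (Fin n) F) := rfl
    have h2 : ((Matrix.SpecialLinearGroup.toGL x : GL (Fin n) F) : Matrix (Fin n) (Fin n) F) =
        (x : Matrix (Fin n) (Fin n) F) := rfl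
    have h3 : ((P⁻¹ : GL (Fin n) F) : Matrix (Fin n) (Fin n) F) * (P : Matrix (Fin n) (Fin n) F) = 1 := by
      rw [← Units.val_mul, inv_mul_cancel, Units.val_one]
    have h4 : (P : Matrix (Fin n) (Fin n) F) * ((P⁻¹ : GL (Fin n) F) : Matrix (Fin n) (Fin n) F) = 1 := by
      rw [← Units.val_mul, mul_inv_cancel, Units.val_one]
    simp only [Units.val_mul]
    rw [h1, h2]
    calc (x : Matrix (Fin n) (Fin n) F) * (C * (P : Matrix (Fin n) (Fin n) F))
        = (C * (x : Matrix (Fin n) (Fin n) F)) * (P : Matrix (Fin n) (Fin n) F) := by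
          rw [hC, Matrix.mul_assoc]
      _ = C * ((P : Matrix (Fin n) (Fin n) F) * ((P⁻¹ : GL (Fin n) F) : Matrix (Fin n) (Fin n) F)) *
            (x : Matrix (Fin n) (Fin n) F) * (P : Matrix (Fin n) (Fin n) F) := by
          rw [h4, Matrix.mul_one]
      _ = _ := by simp only [Matrix.mul_assoc]
  rw [map_mul, map_mul, map_inv, mul_assoc (Matrix.SpecialLinearGroup.toGL P')⁻¹, key]
  group

/-- Square case: conjugate into the subfield subgroup. -/
theorem conj_of_square (hn : 1 ≤ n) (F₀ : Subfield F) (x : Matrix.SpecialLinearGroup (Fin n) F) {w : F} (hw : w ≠ 0)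
    (hx : (x : Matrix (Fin n) (Fin n) F) * (x : Matrix (Fin n) (Fin n) F) = (w * w) • 1)
    (hns : ∀ c : F, (x : Matrix (Fin n) (Fin n) F) ≠ c • 1) :
    ∃ P : Matrix.SpecialLinearGroup (Fin n) F, P⁻¹ * x * P ∈
      (subfieldSubgroup F₀ 1).comap (Matrix.SpecialLinearGroup.toGL : Matrix.SpecialLinearGroup (Fin n) F →* GL (Fin n) F) := by
  classical
  set X : Matrix (Fin n) (Fin n) F := (x : Matrix (Fin n) (Fin n) F) with hX
  set h : (Fin n → F) →ₗ[F] (Fin n → F) := Matrix.toLin' (w⁻¹ • X) with hh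
  have hsq : ∀ v, h (h v) = v := by
    intro v
    change (w⁻¹ • X).mulVec ((w⁻¹ • X).mulVec v) = v
    rw [Matrix.mulVec_mulVec, Matrix.smul_mul, Matrix.mul_smul, hx, smul_smul, smul_smul, Matrix.smul_mulVec,
      Matrix.one_mulVec]
    have : w⁻¹ * w⁻¹ * (w * w) = 1 := by field_simp
    rw [this, one_smul]
  obtain ⟨b, hb⟩ := exists_monomial_basis (g := h) (n := n) (by simp) hsq
  let std : Basis (Fin n) F (Fin n → F) := Pi.basisFun F (Fin n)
  let P : GL (Fin n) F := ⟨std.toMatrix b, b.toMatrix std, Basis.toMatrix_mul_toMatrix_flip _ _,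
    Basis.toMatrix_mul_toMatrix_flip _ _⟩
  obtain ⟨P', hP'⟩ := exists_sl_conj hn x (mul_ne_zero hw hw) hx hns P
  refine ⟨P', ?_⟩
  rw [Subgroup.mem_comap, hP']
  have hmat : w⁻¹ • ((P⁻¹ * Matrix.SpecialLinearGroup.toGL x * P : GL (Fin n) F) : Matrix (Fin n) (Fin n) F) =
      LinearMap.toMatrix b b h := by
    rw [← basis_toMatrix_mul_linearMap_toMatrix_mul_basis_toMatrix b std b std h]
    have h1 : LinearMap.toMatrix std std h = w⁻¹ • X := by
      rw [LinearMap.toMatrix_eq_toMatrix', hh, LinearMap.toMatrix'_toLin']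
    rw [h1]
    simp only [Units.val_mul]
    have h2 : ((P⁻¹ : GL (Fin n) F) : Matrix (Fin n) (Fin n) F) = b.toMatrix std := rfl
    have h3 : ((P : GL (Fin n) F) : Matrix (Fin n) (Fin n) F) = std.toMatrix b := rfl
    have h4 : ((Matrix.SpecialLinearGroup.toGL x : GL (Fin n) F) : Matrix (Fin n) (Fin n) F) = X := rfl
    rw [h2, h3, h4]
    simp [Matrix.mul_smul, Matrix.smul_mul]
  refine mem_sub_of_entries F₀ (inv_ne_zero hw) (fun i j => ?_)
  have h5 : w⁻¹ * ((P⁻¹ * Matrix.SpecialLinearGroup.toGL x * P : GL (Fin n) F) : Matrix (Fin n) (Fin n) F) i j =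
      (LinearMap.toMatrix b b h) i j := by
    rw [← hmat]
    rfl
  rw [h5, LinearMap.toMatrix_apply]
  obtain ⟨l, ε, hε, hl⟩ := hb j
  rw [hl, map_smul, Basis.repr_self, Finsupp.smul_single, Finsupp.single_apply]
  split_ifs
  · rcases hε with rfl | rfl
    · simpa using F₀.one_mem
    · simpa using F₀.neg_mem F₀.one_mem
  · exact F₀.zero_mem

end Adjust

section Numbers

/-- `q` with the square class of an element of prescribed order. -/
theorem false_of_not_square {F : Type*} [Field F] [Fintype F] (h2 : ringChar F ≠ 2) {u : F}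
    (hu : ¬ IsSquare u) {m : ℕ} (hm : m ≠ 0) (hum : u ^ m = 1)
    (hv : padicValNat 2 (2 * m) ≤ padicValNat 2 (Fintype.card F - 1)) : False := by
  classical
  haveI : Fact (Nat.Prime 2) := ⟨Nat.prime_two⟩
  have hq : Fintype.card F % 2 = 1 := FiniteField.odd_card_of_char_ne_two h2
  have hq1 : 1 < Fintype.card F := Fintype.one_lt_card
  have hu0 : u ≠ 0 := by
    rintro rfl
    exact hu (IsSquare.zero)
  have hsq : u ^ (Fintype.card F / 2) ≠ 1 := fun h => hu ((FiniteField.isSquare_iff h2 hu0).mpr h)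
  set N := Fintype.card F - 1 with hN
  have hN0 : N ≠ 0 := by omega
  set d := Nat.gcd m N with hd
  have hud : u ^ d = 1 := by
    have hN1 : u ^ N = 1 := FiniteField.pow_card_sub_one_eq_one u hu0
    exact pow_gcd_eq_one.mpr ⟨hum, hN1⟩
  obtain ⟨t, ht⟩ : d ∣ N := Nat.gcd_dvd_right _ _
  have hd0 : d ≠ 0 := by
    intro h
    rw [h, zero_mul] at ht
    exact hN0 ht
  have ht0 : t ≠ 0 := by
    rintro rfl
    rw [mul_zero] at ht
    exact hN0 ht
  have hv1 : padicValNat 2 N = padicValNat 2 d + padicValNat 2 t := by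
    rw [ht, padicValNat.mul hd0 ht0]
  have hv2 : padicValNat 2 d ≤ padicValNat 2 m := by
    apply (padicValNat_dvd_iff_le hm).mp
    exact (pow_padicValNat_dvd).trans (Nat.gcd_dvd_left _ _)
  have hv3 : padicValNat 2 (2 * m) = 1 + padicValNat 2 m := by
    rw [padicValNat.mul (by norm_num) hm, padicValNat.self (by norm_num)]
  have ht2 : 2 ∣ t := by
    apply dvd_of_one_le_padicValNat
    omega
  obtain ⟨t', rfl⟩ := ht2
  have : Fintype.card F / 2 = d * t' := by
    have : Fintype.card F = 2 * (d * t') + 1 := by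
      have : N = 2 * (d * t') := by rw [ht]; ring
      omega
    omega
  rw [this, pow_mul, hud, one_pow] at hsq
  exact hsq rfl

/-- Over a quadratic extension, elements of the subfield are squares. -/
theorem isSquare_of_mem_subfield {F : Type*} [Field F] [Fintype F] (h2 : ringChar F ≠ 2) (F₀ : Subfield F) {q₀ : ℕ}
    (hF₀ : Nat.card F₀ = q₀) (hq : Fintype.card F = q₀ ^ 2) {a : F} (ha : a ∈ F₀) : IsSquare a := by
  classical
  by_cases ha0 : a = 0
  · rw [ha0]
    exact IsSquare.zero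
  rw [FiniteField.isSquare_iff h2 ha0]
  have hodd : Fintype.card F % 2 = 1 := FiniteField.odd_card_of_char_ne_two h2
  letI : Fintype F₀ := Fintype.ofFinite _
  have hc : Fintype.card F₀ = q₀ := by rw [← Nat.card_eq_fintype_card, hF₀]
  have h1 : (⟨a, ha⟩ : F₀) ^ (q₀ - 1) = 1 := by
    rw [← hc]
    apply FiniteField.pow_card_sub_one_eq_one
    intro h
    exact ha0 (congrArg Subtype.val h)
  have h3 : a ^ (q₀ - 1) = 1 := by
    have := congrArg (Subtype.val) h1
    simpa using this
  have hq₀ : q₀ % 2 = 1 := by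
    rw [hq] at hodd
    rcases Nat.mod_two_eq_zero_or_one q₀ with h | h
    · exfalso
      have : 2 ∣ q₀ ^ 2 := dvd_pow (Nat.dvd_of_mod_eq_zero h) (by norm_num)
      omega
    · exact h
  obtain ⟨t, rfl⟩ : ∃ t, q₀ = 2 * t + 1 := ⟨q₀ / 2, by omega⟩
  have h4 : Fintype.card F / 2 = (2 * t + 1 - 1) * (t + 1) := by
    rw [hq]
    have : (2 * t + 1) ^ 2 = 2 * ((2 * t + 1 - 1) * (t + 1)) + 1 := by
      simp only [Nat.add_sub_cancel]
      ring
    omega
  rw [h4, pow_mul, h3, one_pow]

/-- Existence of the bad element. -/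
theorem exists_bad {F : Type*} [Field F] [Fintype F] {n m : ℕ} (hm : 1 ≤ m) (hn : 2 * m = n) {z : F}
    (hz : ¬ IsSquare z) (hzm : (-z) ^ m = 1) :
    ∃ x : Matrix.SpecialLinearGroup (Fin n) F,
      (x : Matrix (Fin n) (Fin n) F) * (x : Matrix (Fin n) (Fin n) F) = z • 1 ∧
      ∀ c : F, (x : Matrix (Fin n) (Fin n) F) ≠ c • 1 := by
  classical
  have e : Fin 2 × Fin m ≃ Fin n := Fintype.equivFinOfCardEq (by simp [hn])
  let M : Matrix (Fin 2 × Fin m) (Fin 2 × Fin m) F := Matrix.blockDiagonal (fun _ : Fin m => !![0, z; 1, 0])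
  have hMM : M * M = z • 1 := by
    rw [← Matrix.blockDiagonal_mul, ← Matrix.blockDiagonal_one, ← Matrix.blockDiagonal_smul]
    congr 1
    ext k i j
    fin_cases i <;> fin_cases j <;> simp [Matrix.mul_apply, Fin.sum_univ_two]
  have hdetM : M.det = 1 := by
    rw [Matrix.det_blockDiagonal]
    simp [Matrix.det_fin_two, hzm]
  let X : Matrix (Fin n) (Fin n) F := Matrix.reindex e e M
  have hX : X * X = z • 1 := by
    change M.submatrix e.symm e.symm * M.submatrix e.symm e.symm = _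
    rw [Matrix.submatrix_mul_equiv, hMM]
    ext i j
    simp [Matrix.one_apply]
  have hdetX : X.det = 1 := by
    change (Matrix.reindex e e M).det = 1
    rw [Matrix.det_reindex_self, hdetM]
  refine ⟨⟨X, hdetX⟩, hX, fun c hc => ?_⟩
  have hc' : X = c • 1 := hc
  have hnpos : 0 < n := by omega
  rw [hc'] at hX
  have h1 := congrFun (congrFun hX ⟨0, hnpos⟩) ⟨0, hnpos⟩
  simp [Matrix.mul_apply, Matrix.one_apply, Finset.sum_ite_eq'] at h1
  exact hz ⟨c, h1.symm⟩

/-- If a conjugate of `x` is in the subfield subgroup, the square class of `z` is that of an element of `F₀`. -/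
theorem isSquare_of_conj {F : Type*} [Field F] [Fintype F] {n : ℕ} (hn : 1 ≤ n) (h2 : ringChar F ≠ 2) (F₀ : Subfield F)
    {q₀ : ℕ} (hF₀ : Nat.card F₀ = q₀) (hq : Fintype.card F = q₀ ^ 2)
    (x P : Matrix.SpecialLinearGroup (Fin n) F) {z : F} (hz0 : z ≠ 0)
    (hx : (x : Matrix (Fin n) (Fin n) F) * (x : Matrix (Fin n) (Fin n) F) = z • 1)
    (hP : P⁻¹ * x * P ∈ (subfieldSubgroup F₀ 1).comap
      (Matrix.SpecialLinearGroup.toGL : Matrix.SpecialLinearGroup (Fin n) F →* GL (Fin n) F)) : IsSquare z := by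
  classical
  obtain ⟨a, ha, hent⟩ := entries_of_mem_sub F₀ (Subgroup.mem_comap.mp hP)
  set y : Matrix.SpecialLinearGroup (Fin n) F := P⁻¹ * x * P with hy
  have hyy : (y : Matrix (Fin n) (Fin n) F) * (y : Matrix (Fin n) (Fin n) F) = z • 1 := by
    have h1 : y * y = P⁻¹ * (x * x) * P := by rw [hy]; group
    have h3 : ((y * y : Matrix.SpecialLinearGroup (Fin n) F) : Matrix (Fin n) (Fin n) F) = z • 1 := by
      rw [h1]
      simp only [Matrix.SpecialLinearGroup.coe_mul]
      rw [hx]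
      simp only [Matrix.mul_smul, Matrix.smul_mul, Matrix.mul_one]
      rw [← Matrix.SpecialLinearGroup.coe_mul, inv_mul_cancel]
      simp
    simpa using h3
  set i : Fin n := ⟨0, hn⟩
  have h4 : ∑ j, (a * (y : Matrix (Fin n) (Fin n) F) i j) * (a * (y : Matrix (Fin n) (Fin n) F) j i) = a * a * z := by
    have h5 := congrFun (congrFun hyy i) i
    simp only [Matrix.mul_apply, Matrix.smul_apply, Matrix.one_apply_eq, smul_eq_mul, mul_one] at h5
    rw [← h5, Finset.mul_sum]
    apply Finset.sum_congr rfl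
    intro j _
    ring
  have h6 : a * a * z ∈ F₀ := by
    rw [← h4]
    exact sum_mem (fun j _ => F₀.mul_mem (hent i j) (hent j i))
  have h7 := isSquare_of_mem_subfield h2 F₀ hF₀ hq h6
  have h8 : z = (a * a * z) * (a⁻¹ * a⁻¹) := by
    field_simp
  rw [h8]
  exact h7.mul ⟨a⁻¹, rfl⟩

end Numbers

section Index

/-- Index of a subgroup relative to a normal subgroup divides its index. -/
theorem relIndex_dvd_index_of_normal' {G : Type*} [Group G] [Finite G] (S N : Subgroup G) [N.Normal] :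
    S.relIndex N ∣ S.index := by
  have h1 : (S ⊓ N).relIndex S * S.relIndex (S ⊔ N) = (S ⊓ N).relIndex N * N.relIndex (S ⊔ N) := by
    rw [Subgroup.relIndex_mul_relIndex _ _ _ inf_le_left le_sup_left,
      Subgroup.relIndex_mul_relIndex _ _ _ inf_le_right le_sup_right]
  rw [Subgroup.inf_relIndex_left, Subgroup.inf_relIndex_right, Subgroup.relIndex_sup_right] at h1
  have h0 : N.relIndex S ≠ 0 := by
    rw [Subgroup.relIndex]
    exact Subgroup.index_ne_zero_of_finite
  have h2 : S.relIndex (S ⊔ N) = S.relIndex N := by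
    rw [mul_comm (S.relIndex N)] at h1
    exact Nat.eq_of_mul_eq_mul_left (Nat.pos_of_ne_zero h0) h1
  rw [← h2]
  exact Subgroup.relIndex_dvd_index_of_le le_sup_left

/-- The arithmetic of the orders of general linear groups. -/
theorem exists_odd_factor {q₀ k : ℕ} (hq₀ : Odd q₀) (hk : Odd k) (n : ℕ) :
    ∃ R, Odd R ∧ ∏ i : Fin n, ((q₀ ^ k) ^ n - (q₀ ^ k) ^ (i : ℕ)) = (∏ i : Fin n, (q₀ ^ n - q₀ ^ (i : ℕ))) * R := by
  have hterm : ∀ i : Fin n, ∃ r, Odd r ∧ (q₀ ^ k) ^ n - (q₀ ^ k) ^ (i : ℕ) = (q₀ ^ n - q₀ ^ (i : ℕ)) * r := by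
    intro i
    obtain ⟨t, ht⟩ : ∃ t, n = i + t := ⟨n - i, by omega⟩
    have hq0 : 0 < q₀ := hq₀.pos
    have hk1 : 1 ≤ k := hk.pos
    obtain ⟨x, hx⟩ : ∃ x, q₀ ^ t = x + 1 := ⟨q₀ ^ t - 1, by have := Nat.pos_of_ne_zero (pow_ne_zero t hq0.ne'); omega⟩
    have hS := geom_sum_mul_add x k
    set S := ∑ i ∈ Finset.range k, (x + 1) ^ i with hSdef
    have hSodd : Odd S := by
      rw [hSdef, Finset.odd_sum_iff_odd_card_odd]
      have : (Finset.range k).filter (fun j => Odd ((x + 1) ^ j)) = Finset.range k := by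
        apply Finset.filter_true_of_mem
        intro j _
        rw [← hx]
        exact (hq₀.pow).pow
      rw [this, Finset.card_range]
      exact hk
    refine ⟨q₀ ^ ((k - 1) * i) * S, (hq₀.pow).mul hSodd, ?_⟩
    have e1 : (q₀ ^ k) ^ n = q₀ ^ (k * i) * (x + 1) ^ k := by
      have h0 : (q₀ ^ k) ^ n = (q₀ ^ k) ^ ((i : ℕ) + t) := congrArg _ ht
      rw [h0, ← hx, ← pow_mul, ← pow_mul, ← pow_add]
      ring_nf
    have e2 : (q₀ ^ k) ^ (i : ℕ) = q₀ ^ (k * i) := by rw [← pow_mul]
    have e3 : q₀ ^ n = q₀ ^ (i : ℕ) * (x + 1) := by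
      have h0 : q₀ ^ n = q₀ ^ ((i : ℕ) + t) := congrArg _ ht
      rw [h0, pow_add, hx]
    rw [e1, e2, e3, ← hS]
    have e4 : q₀ ^ (k * (i : ℕ)) = q₀ ^ ((k - 1) * (i : ℕ)) * q₀ ^ (i : ℕ) := by
      rw [← pow_add]
      congr 1
      obtain ⟨k', rfl⟩ : ∃ k', k = k' + 1 := ⟨k - 1, by omega⟩
      simp only [Nat.add_sub_cancel]
      ring
    rw [e4]
    have e5 : q₀ ^ (i : ℕ) * (x + 1) - q₀ ^ (i : ℕ) = q₀ ^ (i : ℕ) * x := by
      rw [Nat.mul_add, Nat.mul_one, Nat.add_sub_cancel]
    rw [e5]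
    rw [Nat.mul_add, Nat.mul_one, Nat.add_sub_cancel]
    ring
  choose r hr1 hr2 using hterm
  refine ⟨∏ i, r i, ?_, ?_⟩
  · apply Finset.prod_induction _ Odd (fun a b ha hb => ha.mul hb) odd_one
    intro i _
    exact hr1 i
  · rw [← Finset.prod_mul_distrib]
    exact Finset.prod_congr rfl (fun i _ => hr2 i)

/-- For `k` odd and `q` odd the subfield subgroup has odd index. -/
theorem not_two_dvd_index {F : Type*} [Field F] [Fintype F] {n : ℕ} (F₀ : Subfield F) {k q₀ : ℕ}
    (hF₀ : Nat.card F₀ = q₀) (hq : Fintype.card F = q₀ ^ k) (hkodd : Odd k) (hqodd : Odd (Fintype.card F)) :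
    ¬ 2 ∣ ((subfieldSubgroup F₀ 1).comap (Matrix.SpecialLinearGroup.toGL :
      Matrix.SpecialLinearGroup (Fin n) F →* GL (Fin n) F)).index := by
  classical
  letI : Fintype F₀ := Fintype.ofFinite _
  have hc : Fintype.card F₀ = q₀ := by rw [← Nat.card_eq_fintype_card, hF₀]
  have hq₀ : Odd q₀ := by
    rw [hq] at hqodd
    exact Nat.Odd.of_mul_right (by
      rcases Nat.even_or_odd q₀ with h | h
      · exfalso
        have : Even (q₀ ^ k) := h.pow_of_ne_zero (by
          rintro rfl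
          simp at hkodd)
        exact (Nat.not_even_iff_odd.mpr hqodd) this
      · simpa using h.mul h)
  -- the normal subgroup
  set N : Subgroup (GL (Fin n) F) := (Matrix.SpecialLinearGroup.toGL :
      Matrix.SpecialLinearGroup (Fin n) F →* GL (Fin n) F).range with hN
  haveI hNn : N.Normal := by
    constructor
    rintro _ ⟨s, rfl⟩ g
    have hd : ((g : Matrix (Fin n) (Fin n) F) * (s : Matrix (Fin n) (Fin n) F) *
        ((g⁻¹ : GL (Fin n) F) : Matrix (Fin n) (Fin n) F)).det = 1 := by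
      rw [Matrix.det_mul, Matrix.det_mul, s.2, mul_one, ← Matrix.det_mul, ← Units.val_mul, mul_inv_cancel]
      simp
    refine ⟨⟨_, hd⟩, ?_⟩
    apply Units.ext
    rfl
  rw [Subgroup.index_comap]
  set S := subfieldSubgroup F₀ (1 : GL (Fin n) F) with hS
  set G₀ : Subgroup (GL (Fin n) F) := (Matrix.GeneralLinearGroup.map (F₀.subtype : F₀ →+* F)).range with hG₀
  have hle : G₀ ≤ S := by
    rintro _ ⟨r, rfl⟩
    refine ⟨_, Subgroup.mem_sup_left ⟨r, rfl⟩, by simp⟩
  have hdvd : S.relIndex N ∣ G₀.index :=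
    (relIndex_dvd_index_of_normal' S N).trans (Subgroup.index_dvd_of_le hle)
  have hinj : Function.Injective (Matrix.GeneralLinearGroup.map (n := Fin n) (F₀.subtype : F₀ →+* F)) := by
    intro a b hab
    apply Units.ext
    ext i j
    have h2 : ((Matrix.GeneralLinearGroup.map (n := Fin n) (F₀.subtype : F₀ →+* F) a : GL (Fin n) F) : Matrix (Fin n) (Fin n) F) i j =
        ((Matrix.GeneralLinearGroup.map (n := Fin n) (F₀.subtype : F₀ →+* F) b : GL (Fin n) F) : Matrix (Fin n) (Fin n) F) i j := by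
      rw [hab]
    exact h2
  have hcardG₀ : Nat.card G₀ = Nat.card (GL (Fin n) F₀) := Nat.card_congr (MonoidHom.ofInjective hinj).toEquiv.symm
  obtain ⟨R, hR, hprod⟩ := exists_odd_factor hq₀ hkodd n
  have h1 := G₀.card_mul_index
  rw [hcardG₀, Matrix.card_GL_field, Matrix.card_GL_field, hc, hq, hprod] at h1
  have hpos : 0 < ∏ i : Fin n, (q₀ ^ n - q₀ ^ (i : ℕ)) := by
    rw [← hc, ← Matrix.card_GL_field]
    exact Nat.card_pos
  have hidx : G₀.index = R := Nat.eq_of_mul_eq_mul_left hpos h1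
  intro h2
  have : 2 ∣ R := hidx ▸ h2.trans hdvd
  exact (Nat.not_even_iff_odd.mpr hR) (even_iff_two_dvd.mpr this)

end Index

/-- Involutions of `PSL_n(q)` and subfield subgroups. -/
theorem result {F : Type*} [Field F] [Fintype F] {p : ℕ} [Fact p.Prime] [CharP F p] {q : ℕ} (hq : Fintype.card F = q)
    (n : ℕ) (hn : 2 ≤ n) (hT : (n, q) ≠ (2, 2) ∧ (n, q) ≠ (2, 3))
    (F₀ : Subfield F) (k q₀ : ℕ) (hk : k.Prime) (hF₀ : Nat.card ↥F₀ = q₀) (hqk : q = q₀ ^ k) (hC5 : ¬ (n = 2 ∧ q₀ = 2)) (hΩ : 2 ∣ ((Cfsg.Geo.subfieldSubgroup F₀ 1).comap (Matrix.SpecialLinearGroup.toGL : Matrix.SpecialLinearGroup (Fin n) F →* GL (Fin n) F)).index) :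
    (∀ x : Matrix.SpecialLinearGroup (Fin n) F,
      (∃ z : F, ((x ^ 2 : Matrix.SpecialLinearGroup (Fin n) F) : Matrix (Fin n) (Fin n) F) = z • (1 : Matrix (Fin n) (Fin n) F)) →
      (∀ z : F, (x : Matrix (Fin n) (Fin n) F) ≠ z • (1 : Matrix (Fin n) (Fin n) F)) →
      ∃ P : Matrix.SpecialLinearGroup (Fin n) F, P⁻¹ * x * P ∈ ((Cfsg.Geo.subfieldSubgroup F₀ 1).comap (Matrix.SpecialLinearGroup.toGL : Matrix.SpecialLinearGroup (Fin n) F →* GL (Fin n) F))) ↔
    (Odd q → (k = 2 ∧ padicValNat 2 n ≤ padicValNat 2 (q - 1))) := by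
  classical
  haveI : Fact (Nat.Prime 2) := ⟨Nat.prime_two⟩
  have hn1 : 1 ≤ n := by omega
  subst hq
  constructor
  · intro hL hqodd
    have hchar : ringChar F ≠ 2 := by
      intro h
      have := FiniteField.even_card_iff_char_two.mp h
      rw [Nat.odd_iff] at hqodd
      omega
    have hk2 : k = 2 := by
      by_contra hk2
      exact not_two_dvd_index F₀ hF₀ hqk (hk.odd_of_ne_two hk2) hqodd hΩ
    subst hk2
    refine ⟨rfl, ?_⟩
    by_contra hv
    push Not at hv
    -- the bad element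
    set N := Fintype.card F - 1 with hN
    have hq1 : 1 < Fintype.card F := Fintype.one_lt_card
    have hN0 : N ≠ 0 := by omega
    obtain ⟨e, o, ho, hNe⟩ := Nat.exists_eq_two_pow_mul_odd hN0
    have hve : padicValNat 2 N = e := by
      rw [hNe, padicValNat.mul (by positivity) (by rintro rfl; simp at ho), padicValNat.prime_pow]
      have : padicValNat 2 o = 0 := padicValNat.eq_zero_of_not_dvd (by
        intro h
        exact (Nat.not_even_iff_odd.mpr ho) (even_iff_two_dvd.mpr h))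
      omega
    have hdvd : 2 ^ (e + 1) ∣ n := by
      apply (padicValNat_dvd_iff_le (by omega)).mpr
      omega
    obtain ⟨m, hm⟩ : ∃ m, n = 2 * m := by
      obtain ⟨c, hc⟩ := hdvd
      exact ⟨2 ^ e * c, by rw [hc]; ring⟩
    have hem : 2 ^ e ∣ m := by
      obtain ⟨c, hc⟩ := hdvd
      refine ⟨c, ?_⟩
      have : 2 * m = 2 * (2 ^ e * c) := by rw [← hm, hc]; ring
      omega
    obtain ⟨γ, hγ⟩ := IsCyclic.exists_generator (α := Fˣ)
    have hγo : orderOf γ = N := by
      rw [orderOf_eq_card_of_forall_mem_zpowers hγ, Nat.card_eq_fintype_card, Fintype.card_units]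
    set y : Fˣ := γ ^ o with hy
    have hym : (y : F) ^ m = 1 := by
      obtain ⟨c, rfl⟩ := hem
      have : y ^ (2 ^ e * c) = 1 := by
        rw [hy, ← pow_mul, show o * (2 ^ e * c) = (2 ^ e * o) * c by ring, ← hNe, pow_mul, ← hγo, pow_orderOf_eq_one,
          one_pow]
      have h2 := congrArg Units.val this
      simpa using h2
    have hynot : ¬ IsSquare (y : F) := by
      rw [FiniteField.isSquare_iff hchar y.ne_zero]
      intro h
      have h3 : y ^ (Fintype.card F / 2) = 1 := Units.ext (by simpa using h)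
      rw [hy, ← pow_mul] at h3
      have h4 := orderOf_dvd_of_pow_eq_one h3
      rw [hγo] at h4
      have he0 : 1 ≤ e := by
        by_contra he
        have he' : e = 0 := by omega
        rw [he', pow_zero, one_mul] at hNe
        rw [hNe] at hN
        have h5 : Fintype.card F % 2 = 1 := by simpa [Nat.odd_iff] using hqodd
        have h6 : o % 2 = 1 := Nat.odd_iff.mp ho
        omega
      obtain ⟨e', rfl⟩ : ∃ e', e = e' + 1 := ⟨e - 1, by omega⟩
      have h7 : Fintype.card F / 2 = 2 ^ e' * o := by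
        have : Fintype.card F = 2 * (2 ^ e' * o) + 1 := by
          have : N = 2 * (2 ^ e' * o) := by rw [hNe]; ring
          omega
        omega
      rw [h7, hNe] at h4
      -- `2^(e'+1) o ∣ o 2^e' o` forces `2 ∣ o`
      have h8 : 2 ^ (e' + 1) * o ∣ o * (2 ^ e' * o) := h4
      have h9 : 2 * (2 ^ e' * o) ∣ o * (2 ^ e' * o) := by
        rw [show 2 * (2 ^ e' * o) = 2 ^ (e' + 1) * o by ring]
        exact h8
      have h10 : 2 ∣ o := Nat.dvd_of_mul_dvd_mul_right (by have := ho.pos; positivity) h9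
      exact (Nat.not_even_iff_odd.mpr ho) (even_iff_two_dvd.mpr h10)
    have hminus : IsSquare (-1 : F) := isSquare_of_mem_subfield hchar F₀ hF₀ hqk (F₀.neg_mem F₀.one_mem)
    set z : F := -(y : F) with hz
    have hznot : ¬ IsSquare z := by
      intro h
      apply hynot
      have : (y : F) = (-1) * z := by rw [hz]; ring
      rw [this]
      exact hminus.mul h
    have hzm : (-z) ^ m = 1 := by
      rw [hz, neg_neg, hym]
    obtain ⟨x, hx1, hx2⟩ := exists_bad (n := n) (by omega) hm.symm hznot hzm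
    have hz0 : z ≠ 0 := by
      rintro h
      exact hznot (by rw [h]; exact IsSquare.zero)
    obtain ⟨P, hP⟩ := hL x ⟨z, by rw [pow_two]; exact hx1⟩ hx2
    exact hznot (isSquare_of_conj hn1 hchar F₀ hF₀ hqk x P hz0 hx1 hP)
  · rintro hR x ⟨z, hz⟩ hx2
    have hx : (x : Matrix (Fin n) (Fin n) F) * (x : Matrix (Fin n) (Fin n) F) = z • 1 := by
      rw [← hz, pow_two]
      rfl
    have hz0 : z ≠ 0 := by
      rintro rfl
      have hd : ((x : Matrix (Fin n) (Fin n) F) * (x : Matrix (Fin n) (Fin n) F)).det = 1 := by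
        rw [Matrix.det_mul, x.2, one_mul]
      haveI : Nonempty (Fin n) := ⟨⟨0, by omega⟩⟩
      rw [hx, zero_smul, Matrix.det_zero] at hd
      exact zero_ne_one hd
    by_cases hs : IsSquare z
    · obtain ⟨w, rfl⟩ := hs
      exact conj_of_square hn1 F₀ x (fun h => hz0 (by rw [h]; simp)) hx hx2
    · exfalso
      have hchar : ringChar F ≠ 2 := fun h => hs (FiniteField.isSquare_of_char_two h z)
      have hqodd : Odd (Fintype.card F) := Nat.odd_iff.mpr (FiniteField.odd_card_of_char_ne_two hchar)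
      obtain ⟨rfl, hv⟩ := hR hqodd
      set g : (Fin n → F) →ₗ[F] (Fin n → F) := Matrix.toLin' (x : Matrix (Fin n) (Fin n) F) with hg
      have hgg : ∀ v, g (g v) = z • v := by
        intro v
        change (x : Matrix (Fin n) (Fin n) F).mulVec ((x : Matrix (Fin n) (Fin n) F).mulVec v) = _
        rw [Matrix.mulVec_mulVec, hx, Matrix.smul_mulVec, Matrix.one_mulVec]
      obtain ⟨m, hm, hdet⟩ := exists_det_of_not_square (g := g) (n := n) (by simp) hgg hs
      rw [hg, LinearMap.det_toLin', x.2] at hdet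
      have hminus : IsSquare (-1 : F) := isSquare_of_mem_subfield hchar F₀ hF₀ hqk (F₀.neg_mem F₀.one_mem)
      have hnot : ¬ IsSquare (-z) := by
        intro h
        apply hs
        have : z = (-1) * (-z) := by ring
        rw [this]
        exact hminus.mul h
      refine false_of_not_square hchar hnot (m := m) (by omega) hdet.symm ?_
      rw [hm]
      exact hv

end Cfsg.Agent.S5964
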