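import Cfsg.Statements.S1160
import Mathlib
import Cfsg.Agent.Lib.PGroup.NormalRank
-- import your own Cfsg.Agent.* helpers here

set_option autoImplicit false
open Cfsg

namespace Cfsg.Agent.S1160

set_option linter.style.haveILetI false

open scoped commutatorElement

section Aux

variable {P E : Type*} [Group P] [AddCommGroup E] [DistribMulAction P E]

/-- norm sum -/
def nrm (w : P) (n : ℕ) (e : E) : E := ∑ i ∈ Finset.range n, (w ^ i) • e

theorem nrm_fixed (w : P) {n : ℕ} (hw : w ^ n = 1) (e : E) : w • nrm w n e = nrm w n e := by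
  unfold nrm
  rw [Finset.smul_sum]
  have h1 := Finset.sum_range_succ (fun i => (w ^ i) • e) n
  have h2 := Finset.sum_range_succ' (fun i => (w ^ i) • e) n
  simp only [hw, one_smul, pow_zero] at h1 h2
  have h3 : ∑ i ∈ Finset.range n, w • (w ^ i) • e = ∑ i ∈ Finset.range n, w ^ (i + 1) • e :=
    Finset.sum_congr rfl fun i _ => by rw [smul_smul, pow_succ']
  rw [h3]
  exact add_right_cancel (h2.symm.trans h1)

theorem nrm_of_fixed {w : P} {e : E} (h : w • e = e) (n : ℕ) : nrm w n e = n • e := by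
  unfold nrm
  have : ∀ i : ℕ, w ^ i • e = e := by
    intro i
    induction i with
    | zero => simp
    | succ i ih => rw [pow_succ, mul_smul, h, ih]
  simp [this]

theorem smul_nrm {g w : P} (h : g * w = w * g) (n : ℕ) (e : E) :
    g • nrm w n e = nrm w n (g • e) := by
  unfold nrm
  rw [Finset.smul_sum]
  refine Finset.sum_congr rfl fun i _ => ?_
  rw [smul_smul, smul_smul, (show Commute g (w ^ i) from Commute.pow_right h i).eq]

theorem nrm_add (w : P) (n : ℕ) (e f : E) : nrm w n (e + f) = nrm w n e + nrm w n f := by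
  unfold nrm
  rw [← Finset.sum_add_distrib]
  exact Finset.sum_congr rfl fun i _ => smul_add _ _ _

theorem nrm_sub (w : P) (n : ℕ) (e f : E) : nrm w n (e - f) = nrm w n e - nrm w n f := by
  unfold nrm
  rw [← Finset.sum_sub_distrib]
  exact Finset.sum_congr rfl fun i _ => smul_sub _ _ _

theorem nrm_smul_sub (w : P) {n : ℕ} (hw : w ^ n = 1) (e : E) : nrm w n (w • e - e) = 0 := by
  rw [nrm_sub, ← smul_nrm (Commute.refl w).eq, nrm_fixed w hw, sub_self]

theorem cancel_p {p q : ℕ} (hpq : p.Coprime q) (hE : ∀ e : E, q • e = 0) {e : E} (h : p • e = 0) :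
    e = 0 := by
  have h1 := addOrderOf_dvd_of_nsmul_eq_zero h
  have h2 := addOrderOf_dvd_of_nsmul_eq_zero (hE e)
  have h3 : addOrderOf e = 1 := Nat.eq_one_of_dvd_coprimes hpq h1 h2
  exact AddMonoid.addOrderOf_eq_one_iff.mp h3

theorem fixed_of_p_fixed {p q : ℕ} (hpq : p.Coprime q) (hE : ∀ e : E, q • e = 0) {w : P} {e : E}
    (h : w • (p • e) = p • e) : w • e = e := by
  rw [smul_comm] at h
  have : p • (w • e - e) = 0 := by rw [smul_sub, h, sub_self]
  exact sub_eq_zero.mp (cancel_p hpq hE this)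

theorem stab_imp [Finite P]
    (hconst : ∀ a b : E, a ≠ 0 → b ≠ 0 →
      Nat.card (MulAction.stabilizer P a) = Nat.card (MulAction.stabilizer P b))
    {a b : E} (ha : a ≠ 0) (hab : a + b ≠ 0)
    (h : ∀ g : P, g • (a + b) = a + b → g • a = a ∧ g • b = b) {g : P} (hg : g • a = a) :
    g • b = b := by
  have hle : MulAction.stabilizer P (a + b) ≤ MulAction.stabilizer P a :=
    fun g hg => (h g hg).1
  have heq : MulAction.stabilizer P (a + b) = MulAction.stabilizer P a :=
    Subgroup.eq_of_le_of_card_ge hle (hconst a (a + b) ha hab).le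
  have : g ∈ MulAction.stabilizer P (a + b) := by rw [heq]; exact hg
  exact (h g this).2

theorem central_fpf [Finite P] [FaithfulSMul P E] {p q : ℕ} (hpq : p.Coprime q)
    (hE : ∀ e : E, q • e = 0)
    (hconst : ∀ a b : E, a ≠ 0 → b ≠ 0 →
      Nat.card (MulAction.stabilizer P a) = Nat.card (MulAction.stabilizer P b))
    {z : P} (hzc : ∀ g : P, g * z = z * g) (hz1 : z ≠ 1) (hzp : z ^ p = 1) {a : E}
    (ha : z • a = a) : a = 0 := by
  by_contra ha0
  obtain ⟨e, he⟩ : ∃ e : E, z • e ≠ e := by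
    by_contra hcon
    push Not at hcon
    exact hz1 (FaithfulSMul.eq_of_smul_eq_smul (α := E) fun e => by rw [hcon e, one_smul])
  set b : E := z • e - e with hb
  have hb0 : b ≠ 0 := sub_ne_zero.mpr he
  have hNb : nrm z p b = 0 := nrm_smul_sub z hzp e
  -- C ∩ K = 0
  have hCK : ∀ x : E, z • x = x → nrm z p x = 0 → x = 0 := by
    intro x h1 h2
    rw [nrm_of_fixed h1] at h2
    exact cancel_p hpq hE h2
  have hkey : ∀ g : P, g • (a + b) = a + b → g • a = a ∧ g • b = b := by
    intro g hg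
    rw [smul_add] at hg
    have h1 : g • a - a = b - g • b := by
      rw [sub_eq_sub_iff_add_eq_add, hg, add_comm]
    have hx1 : z • (g • a - a) = g • a - a := by
      rw [smul_sub, ha, smul_smul, ← hzc g, mul_smul, ha]
    have hx2 : nrm z p (g • a - a) = 0 := by
      rw [h1, nrm_sub, ← smul_nrm (hzc g), hNb, smul_zero, sub_zero]
    have hx := hCK _ hx1 hx2
    have h2 : g • a = a := sub_eq_zero.mp hx
    refine ⟨h2, ?_⟩
    rw [hx] at h1
    exact (sub_eq_zero.mp h1.symm).symm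
  have hab : a + b ≠ 0 := by
    intro h0
    have hb' : b = -a := by
      rw [eq_neg_iff_add_eq_zero, add_comm]; exact h0
    have : b = 0 := hCK b (by rw [hb', smul_neg, ha]) hNb
    exact hb0 this
  have := stab_imp hconst ha0 hab hkey ha
  -- z fixes b
  exact hb0 (hCK b this hNb)

end Aux

section Main

variable {P E : Type*} [Group P] [AddCommGroup E] [DistribMulAction P E]

theorem isCyclic_aux [Finite P] [FaithfulSMul P E] {p q : ℕ} [hp : Fact p.Prime] (hp2 : p ≠ 2)
    (hP : IsPGroup p P) (hpq : p.Coprime q) (hE : ∀ e : E, q • e = 0)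
    (hconst : ∀ a b : E, a ≠ 0 → b ≠ 0 →
      Nat.card (MulAction.stabilizer P a) = Nat.card (MulAction.stabilizer P b)) :
    IsCyclic P := by
  classical
  by_contra hnc
  have hnc' : ¬ IsCyclic (⊤ : Subgroup P) := fun h =>
    hnc (isCyclic_of_surjective (Subgroup.topEquiv : (⊤ : Subgroup P) ≃* P)
      (Subgroup.topEquiv : (⊤ : Subgroup P) ≃* P).surjective)
  obtain ⟨A, -, hAn, hAe, hAc⟩ := Cfsg.Agent.Lib.PGroup.NormalRank.exists_normal_rank_two hp2 hP ⊤ hnc'
  haveI := hAn
  have hAne : A ≠ ⊥ := by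
    rintro rfl
    rw [Subgroup.card_bot] at hAc
    have := hp.out.one_lt
    have h2 : 1 < p ^ 2 := Nat.one_lt_pow (by norm_num) this
    omega
  -- central element of order p in A
  obtain ⟨z, ⟨hzA, hzc⟩, hz1⟩ : ∃ z, z ∈ A ⊓ Subgroup.center P ∧ z ≠ 1 := by
    have := Cfsg.Agent.Lib.PGroup.Basic.inf_center_ne_bot hP hAne
    exact (Subgroup.ne_bot_iff_exists_ne_one.mp this).elim fun x hx => ⟨x.1, x.2, fun h => hx (Subtype.ext h)⟩
  have hAp : ∀ w ∈ A, w ^ p = 1 := hAe.2
  have hAcomm : ∀ u ∈ A, ∀ v ∈ A, u * v = v * u := by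
    intro u hu v hv
    haveI := hAe.1
    have := mul_comm' (⟨u, hu⟩ : A) ⟨v, hv⟩
    exact congrArg Subtype.val this
  have hzcent : ∀ g : P, g * z = z * g := fun g => (Subgroup.mem_center_iff.mp hzc g)
  have hzfpf : ∀ x : E, z • x = x → x = 0 := fun x hx =>
    central_fpf hpq hE hconst hzcent hz1 (hAp z hzA) hx
  have hzord : orderOf z = p := orderOf_eq_prime (hAp z hzA) hz1
  have hZle : Subgroup.zpowers z ≤ A := (Subgroup.zpowers_le).mpr hzA
  -- Z := zpowers z normal
  have hZcent : ∀ ζ ∈ Subgroup.zpowers z, ∀ g : P, g * ζ = ζ * g := by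
    rintro ζ ⟨m, rfl⟩ g
    exact (show Commute g (z ^ m) from Commute.zpow_right (hzcent g) m).eq
  haveI hZn : (Subgroup.zpowers z).Normal := by
    constructor
    intro n hn g
    rw [hZcent n hn g, mul_assoc, mul_inv_cancel, mul_one]
    exact hn
  have hnotle : ¬ A ≤ Subgroup.zpowers z := by
    intro h
    have h1 : Nat.card A ≤ Nat.card (Subgroup.zpowers z) := Subgroup.card_le_of_le h
    rw [Nat.card_zpowers, hzord, hAc] at h1
    have := hp.out.one_lt
    nlinarith
  obtain ⟨y, hyA, hyZ, -, hyc⟩ :=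
    Cfsg.Agent.Lib.PGroup.Critical.exists_mem_central_mod hP (Subgroup.zpowers z) A hnotle
  -- Any nontrivial ξ in Z has z in its powers
  have hgen : ∀ ξ ∈ Subgroup.zpowers z, ξ ≠ 1 → ∀ x : E, ξ • x = x → x = 0 := by
    intro ξ hξ hξ1 x hx
    apply hzfpf
    have h1 : Subgroup.zpowers ξ ≤ MulAction.stabilizer P x :=
      Subgroup.zpowers_le.mpr hx
    have h2 : Subgroup.zpowers ξ ≤ Subgroup.zpowers z := Subgroup.zpowers_le.mpr hξ
    have h3 : orderOf ξ ∣ p := orderOf_dvd_of_pow_eq_one (hAp ξ (hZle hξ))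
    have h5 : orderOf ξ = p := by
      rcases (Nat.dvd_prime hp.out).mp h3 with h | h
      · exact absurd (orderOf_eq_one_iff.mp h) hξ1
      · exact h
    have h6 : Subgroup.zpowers ξ = Subgroup.zpowers z := by
      apply Subgroup.eq_of_le_of_card_ge h2
      rw [Nat.card_zpowers, Nat.card_zpowers, h5, hzord]
    exact h1 (h6 ▸ Subgroup.mem_zpowers z)
  -- w ζ := y * ζ
  have hwA : ∀ ζ ∈ Subgroup.zpowers z, y * ζ ∈ A := fun ζ hζ => A.mul_mem hyA (hZle hζ)
  have hwp : ∀ ζ ∈ Subgroup.zpowers z, (y * ζ) ^ p = 1 := fun ζ hζ => hAp _ (hwA ζ hζ)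
  have hinter : ∀ ζ₁ ∈ Subgroup.zpowers z, ∀ ζ₂ ∈ Subgroup.zpowers z, ζ₁ ≠ ζ₂ → ∀ x : E,
      (y * ζ₁) • x = x → (y * ζ₂) • x = x → x = 0 := by
    intro ζ₁ h1 ζ₂ h2 hne x hx1 hx2
    have hξ : ζ₁⁻¹ * ζ₂ ∈ Subgroup.zpowers z := Subgroup.mul_mem _ (Subgroup.inv_mem _ h1) h2
    refine hgen _ hξ (fun h => hne ?_) x ?_
    · exact (inv_mul_eq_one.mp h)
    · have e : ζ₁⁻¹ * ζ₂ = (y * ζ₁)⁻¹ * (y * ζ₂) := by group
      rw [e, mul_smul, hx2]
      rw [inv_smul_eq_iff, hx1]
  have hvan : ∀ ζ₁ ∈ Subgroup.zpowers z, ∀ ζ₂ ∈ Subgroup.zpowers z, ζ₁ ≠ ζ₂ → ∀ x : E,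
      (y * ζ₂) • x = x → nrm (y * ζ₁) p x = 0 := by
    intro ζ₁ h1 ζ₂ h2 hne x hx
    refine hinter ζ₁ h1 ζ₂ h2 hne _ (nrm_fixed _ (hwp ζ₁ h1) x) ?_
    rw [smul_nrm (hAcomm _ (hwA ζ₂ h2) _ (hwA ζ₁ h1)), hx]
  -- sum identity
  have hsum : ∀ e : E, ∑ j ∈ Finset.range p, nrm (y * z ^ j) p e = p • e := by
    intro e
    unfold nrm
    rw [Finset.sum_comm]
    have hp0 : 0 < p := hp.out.pos
    rw [Finset.sum_eq_single_of_mem 0 (Finset.mem_range.mpr hp0)]
    · simp
    · intro i hi hi0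
      have hip : i < p := Finset.mem_range.mp hi
      have hc : ∀ j : ℕ, (y * z ^ j) ^ i • e = (z ^ i) ^ j • (y ^ i • e) := by
        intro j
        have hcomm : Commute y (z ^ j) := (Commute.pow_right (hzcent y) j)
        rw [hcomm.mul_pow, mul_smul, ← pow_mul, mul_comm j i, pow_mul]
        have hcomm2 : Commute (y ^ i) ((z ^ i) ^ j) :=
          Commute.pow_right (Commute.pow_right (Commute.pow_left (hzcent y) i) i) j
        rw [← mul_smul, ← mul_smul, hcomm2.eq]
      simp_rw [hc]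
      change nrm (z ^ i) p (y ^ i • e) = 0
      have hzi : z ^ i ≠ 1 := pow_ne_one_of_lt_orderOf (by omega) (by rw [hzord]; exact hip)
      exact hgen (z ^ i) (Subgroup.npow_mem_zpowers z i) hzi _
        (nrm_fixed _ (by rw [← pow_mul, mul_comm, pow_mul, hAp z hzA, one_pow]) _)
  have hzinj : ∀ j ∈ Finset.range p, ∀ j' ∈ Finset.range p, j ≠ j' → z ^ j ≠ z ^ j' := by
    intro j hj j' hj' hne h
    exact hne (pow_injOn_Iio_orderOf (by simpa [hzord] using hj) (by simpa [hzord] using hj') h)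
  -- existence of two non-trivial components
  obtain ⟨j, hj, j', hj', hjj, e, e', ha, hb⟩ : ∃ j ∈ Finset.range p, ∃ j' ∈ Finset.range p, j ≠ j' ∧
      ∃ e e' : E, nrm (y * z ^ j) p e ≠ 0 ∧ nrm (y * z ^ j') p e' ≠ 0 := by
    by_contra hcon
    push Not at hcon
    have hy1 : ∀ w : P, (∀ e : E, w • e = e) → w = 1 := fun w hw =>
      FaithfulSMul.eq_of_smul_eq_smul (α := E) fun e => by rw [hw e, one_smul]
    by_cases hall : ∃ j₀ ∈ Finset.range p, ∃ e₀ : E, nrm (y * z ^ j₀) p e₀ ≠ 0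
    · obtain ⟨j₀, hj₀, e₀, he₀⟩ := hall
      have hzero : ∀ j ∈ Finset.range p, j ≠ j₀ → ∀ e : E, nrm (y * z ^ j) p e = 0 := by
        intro j hj hne e
        exact hcon j hj j₀ hj₀ hne e e₀ |> fun h => by
          by_contra h'
          exact he₀ (h h')
      have hall2 : ∀ e : E, p • e = nrm (y * z ^ j₀) p e := by
        intro e
        rw [← hsum e]
        rw [Finset.sum_eq_single_of_mem j₀ hj₀]
        intro b hb hne
        exact hzero b hb hne e
      have hw1 : y * z ^ j₀ = 1 := by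
        apply hy1
        intro e
        apply fixed_of_p_fixed hpq hE
        rw [hall2 e]
        exact nrm_fixed _ (hwp _ (Subgroup.npow_mem_zpowers z j₀)) e
      apply hyZ
      rw [eq_inv_of_mul_eq_one_left hw1]
      exact Subgroup.inv_mem _ (Subgroup.npow_mem_zpowers z j₀)
    · push Not at hall
      have h0 : ∀ e : E, e = 0 := by
        intro e
        apply cancel_p hpq hE
        rw [← hsum e]
        exact Finset.sum_eq_zero fun j hj => hall j hj e
      apply hyZ
      rw [hy1 y (fun e => by rw [h0 e, smul_zero])]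
      exact Subgroup.one_mem _
  set ζ₁ := z ^ j with hζ₁
  set ζ₂ := z ^ j' with hζ₂
  have h1 : ζ₁ ∈ Subgroup.zpowers z := Subgroup.npow_mem_zpowers z j
  have h2 : ζ₂ ∈ Subgroup.zpowers z := Subgroup.npow_mem_zpowers z j'
  have hne12 : ζ₁ ≠ ζ₂ := hzinj j hj j' hj' hjj
  set a := nrm (y * ζ₁) p e with ha'
  set b := nrm (y * ζ₂) p e' with hb'
  have hafix : (y * ζ₁) • a = a := nrm_fixed _ (hwp ζ₁ h1) e
  have hbfix : (y * ζ₂) • b = b := nrm_fixed _ (hwp ζ₂ h2) e'
  have hab : a + b ≠ 0 := by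
    intro h0
    have hb2 : b = -a := by rw [eq_neg_iff_add_eq_zero, add_comm]; exact h0
    exact hb (hinter ζ₁ h1 ζ₂ h2 hne12 b (by rw [hb2, smul_neg, hafix]) hbfix)
  have hkey : ∀ g : P, g • (a + b) = a + b → g • a = a ∧ g • b = b := by
    intro g hg
    rw [smul_add] at hg
    set ρ : P := ⁅y, g⁆⁻¹ with hρ
    have hρZ : ρ ∈ Subgroup.zpowers z := Subgroup.inv_mem _ (hyc g)
    have hconj : g * y * g⁻¹ = ρ * y := by
      rw [hρ, commutatorElement_def]; group
    have hconj2 : ∀ ζ ∈ Subgroup.zpowers z, g * (y * ζ) * g⁻¹ = y * (ρ * ζ) := by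
      intro ζ hζ
      have : g * (y * ζ) * g⁻¹ = (g * y * g⁻¹) * ζ := by
        have hcz := hZcent ζ hζ g
        calc g * (y * ζ) * g⁻¹ = g * y * (ζ * g⁻¹) := by group
          _ = g * y * (g⁻¹ * ζ) := by
            rw [(show Commute ζ g⁻¹ from (Commute.inv_right (Commute.symm hcz))).eq]
          _ = _ := by group
      rw [this, hconj, ← mul_assoc, (hZcent ρ hρZ y)]
    have hgfix : ∀ ζ ∈ Subgroup.zpowers z, ∀ x : E, (y * ζ) • x = x →
        (y * (ρ * ζ)) • (g • x) = g • x := by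
      intro ζ hζ x hx
      rw [← hconj2 ζ hζ, mul_smul, mul_smul, inv_smul_smul, hx]
    have hga := hgfix ζ₁ h1 a hafix
    have hgb := hgfix ζ₂ h2 b hbfix
    have hρ1 : ρ = 1 := by
      by_contra hρne
      have hA1 : ρ * ζ₁ ∈ Subgroup.zpowers z := Subgroup.mul_mem _ hρZ h1
      have hA2 : ρ * ζ₂ ∈ Subgroup.zpowers z := Subgroup.mul_mem _ hρZ h2
      have hρne1 : ρ * ζ₁ ≠ ζ₁ := fun h => hρne (mul_eq_right.mp h)
      have hρne2 : ρ * ζ₂ ≠ ζ₂ := fun h => hρne (mul_eq_right.mp h)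
      have hne3 : ρ * ζ₁ ≠ ρ * ζ₂ := fun h => hne12 (mul_left_cancel h)
      have hga0 : g • a ≠ 0 := fun h => ha ((smul_eq_zero_iff_eq g).mp h)
      have hgb0 : g • b ≠ 0 := fun h => hb ((smul_eq_zero_iff_eq g).mp h)
      have hE1 : ρ * ζ₁ = ζ₂ := by
        by_contra hc
        apply hga0
        apply cancel_p hpq hE
        have e1 := congrArg (nrm (y * (ρ * ζ₁)) p) hg
        rw [nrm_add, nrm_add, nrm_of_fixed hga, hvan _ hA1 _ hA2 hne3 _ hgb,
          hvan _ hA1 _ h1 hρne1 _ hafix, hvan _ hA1 _ h2 hc _ hbfix] at e1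
        simpa using e1
      have hE2 : ρ * ζ₂ = ζ₁ := by
        by_contra hc
        apply hgb0
        apply cancel_p hpq hE
        have e1 := congrArg (nrm (y * (ρ * ζ₂)) p) hg
        rw [nrm_add, nrm_add, nrm_of_fixed hgb, hvan _ hA2 _ hA1 hne3.symm _ hga,
          hvan _ hA2 _ h1 hc _ hafix, hvan _ hA2 _ h2 hρne2 _ hbfix] at e1
        simpa using e1
      have hρ2 : ρ ^ 2 = 1 := by
        have : ρ * (ρ * ζ₁) = ζ₁ := by rw [hE1, hE2]
        rw [pow_two]
        exact mul_eq_right.mp (by rw [mul_assoc]; exact this)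
      have hρp : ρ ^ p = 1 := hAp ρ (hZle hρZ)
      have : ρ = 1 := by
        have h3 : orderOf ρ ∣ 2 := orderOf_dvd_of_pow_eq_one hρ2
        have h4 : orderOf ρ ∣ p := orderOf_dvd_of_pow_eq_one hρp
        have hcop : Nat.Coprime 2 p := (Nat.coprime_primes Nat.prime_two hp.out).mpr (Ne.symm hp2)
        exact orderOf_eq_one_iff.mp (Nat.eq_one_of_dvd_coprimes hcop h3 h4)
      exact hρne this
    subst_vars
    rw [hρ1] at hga hgb
    rw [one_mul] at hga hgb
    have hx : g • a - a = b - g • b := by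
      rw [sub_eq_sub_iff_add_eq_add, hg, add_comm]
    have hfix1 : (y * ζ₁) • (g • a - a) = g • a - a := by rw [smul_sub, hga, hafix]
    have hfix2 : (y * ζ₂) • (g • a - a) = g • a - a := by rw [hx, smul_sub, hgb, hbfix]
    have h0 := hinter ζ₁ h1 ζ₂ h2 hne12 _ hfix1 hfix2
    refine ⟨sub_eq_zero.mp h0, ?_⟩
    rw [h0] at hx
    exact (sub_eq_zero.mp hx.symm).symm
  have := stab_imp hconst ha hab hkey hafix
  exact hb (hinter ζ₁ h1 ζ₂ h2 hne12 b this hbfix)

end Main

/-- Let `p ≠ 2` be prime and `P` a finite `p`-group acting faithfully by additive automorphisms on a finite elementary abelian `q`-group `E` (`q` prime), such that `|P_a|` is the same for all `a ≠ 0`. Then `P` is cyclic and every non-identity element of `P` fixes only `0`. -/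
theorem result {P E : Type*} [Group P] [Finite P]
    [AddCommGroup E] [Finite E] [DistribMulAction P E] [FaithfulSMul P E]
    {p q : ℕ} [Fact p.Prime] (hp2 : p ≠ 2) (hP : IsPGroup p P) (hq : q.Prime) (hE : ∀ e : E, q • e = 0)
    (hconst : ∀ a b : E, a ≠ 0 → b ≠ 0 →
      Nat.card (MulAction.stabilizer P a) = Nat.card (MulAction.stabilizer P b)) :
    IsCyclic P ∧ ∀ g : P, g ≠ 1 → ∀ a : E, g • a = a → a = 0 := by
  classical
  have hcop_or : p = q ∨ p.Coprime q := by
    by_cases h : p = q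
    · exact Or.inl h
    · exact Or.inr ((Nat.coprime_primes (Fact.out) hq).mpr h)
  rcases hcop_or with rfl | hpq
  · -- p = q : P acts trivially
    have htriv : ∀ g : P, g = 1 := by
      have hact : ∀ (g : P) (b : E), g • b = b := by
        intro g b
        by_cases hb : b = 0
        · rw [hb, smul_zero]
        · -- exists a nonzero fixed vector
          have hdvd : p ∣ Nat.card E := by
            have h1 : addOrderOf b = p := addOrderOf_eq_prime (hE b) hb
            rw [← h1]; exact addOrderOf_dvd_natCard b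
          obtain ⟨c, hc, hc0⟩ := hP.exists_fixed_point_of_prime_dvd_card_of_fixed_point E hdvd
            (a := (0 : E)) (fun g => smul_zero g)
          have hc0' : c ≠ 0 := fun h => hc0 h.symm
          have h2 : MulAction.stabilizer P c = ⊤ := by
            rw [eq_top_iff]; intro g _; exact hc g
          have h3 := hconst c b hc0' hb
          rw [h2, Subgroup.card_top] at h3
          have h4 : MulAction.stabilizer P b = ⊤ := Subgroup.eq_top_of_card_eq _ h3.symm
          have : g ∈ MulAction.stabilizer P b := by rw [h4]; trivial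
          exact this
      intro g
      exact FaithfulSMul.eq_of_smul_eq_smul (α := E) fun e => by rw [hact g e, one_smul]
    haveI : Subsingleton P := ⟨fun a b => by rw [htriv a, htriv b]⟩
    exact ⟨isCyclic_of_subsingleton, fun g hg => absurd (Subsingleton.elim g 1) hg⟩
  · have hcyc : IsCyclic P := isCyclic_aux hp2 hP hpq hE hconst
    refine ⟨hcyc, ?_⟩
    intro g hg a ha
    obtain ⟨k, hk⟩ := IsPGroup.iff_orderOf.mp hP g
    have hk0 : k ≠ 0 := by
      rintro rfl
      rw [pow_zero] at hk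
      exact hg (orderOf_eq_one_iff.mp hk)
    obtain ⟨m, rfl⟩ := Nat.exists_eq_succ_of_ne_zero hk0
    have hpp : 1 < p := (Fact.out : p.Prime).one_lt
    have hlt : p ^ m < orderOf g := by
      rw [hk]; exact Nat.pow_lt_pow_right hpp (Nat.lt_succ_self m)
    have h1 : g ^ p ^ m ≠ 1 := pow_ne_one_of_lt_orderOf (pow_ne_zero _ (by omega)) hlt
    have h2 : (g ^ p ^ m) ^ p = 1 := by
      rw [← pow_mul, ← pow_succ, ← Nat.succ_eq_add_one, ← hk, pow_orderOf_eq_one]
    have h3 : (g ^ p ^ m) • a = a := by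
      have : g ^ p ^ m ∈ MulAction.stabilizer P a := Subgroup.pow_mem _ ha _
      exact this
    have hcomm : ∀ x : P, x * g ^ p ^ m = g ^ p ^ m * x := by
      intro x
      obtain ⟨c, hc⟩ := hcyc.exists_generator
      obtain ⟨i, rfl⟩ := Subgroup.mem_zpowers_iff.mp (hc x)
      obtain ⟨j, hj⟩ := Subgroup.mem_zpowers_iff.mp (hc (g ^ p ^ m))
      rw [← hj]
      exact (Commute.refl c |>.zpow_zpow i j).eq
    exact central_fpf hpq hE hconst hcomm h1 h2 h3

end Cfsg.Agent.S1160
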