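import Cfsg.Statements.S1555
import Cfsg.Agent.Lib.Sporadic.M24Act
import Cfsg.Agent.Lib.Sporadic.M24Count
import Cfsg.Prelude.Def_SporadicCombinatorics
-- import your own Cfsg.Agent.* helpers here

set_option autoImplicit false
open scoped Pointwise
open Cfsg

namespace Cfsg.Agent.S1555

open Cfsg.Agent.Lib.Sporadic.GolayCore Cfsg.Agent.Lib.Sporadic.M24Tbl
open Cfsg.Agent.Lib.Sporadic.M24Count Cfsg.Agent.Lib.Sporadic.M24Act Cfsg.Agent.Lib.Sporadic.M24Chain
open scoped Pointwise

/-- The first five base points, as a function. -/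
def y0 : Fin 5 → GolayPt := ![pt 23, pt 0, pt 1, pt 2, pt 3]

theorem y0_inj : Function.Injective y0 := by decide

/-- The first five base points, as an embedding. -/
def y : Fin 5 ↪ GolayPt := ⟨y0, y0_inj⟩

theorem y_mem_o0 : ∀ i, y i ∈ ofMask octad0 := by decide +kernel

/-- The images of tuples through a subset and an octad. -/
theorem exists_flag {s o : Finset GolayPt} (ho : o ∈ octads) (hs : s ⊆ o) (hk5 : s.card ≤ 5) :
    ∃ g ∈ M24, g • o = ofMask octad0 ∧ ∀ a ∈ s, ∃ i : Fin 5, i.val < s.card ∧ g a = y i := by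
  have ho8 : o.card = 8 := ho.2
  obtain ⟨u, hsu, huo, hu5⟩ := Finset.exists_subsuperset_card_eq hs hk5 (by omega)
  have hdis : Disjoint s (u \ s) := Finset.disjoint_sdiff
  let L : List GolayPt := s.toList ++ (u \ s).toList
  have hlen : L.length = 5 := by
    simp only [L, List.length_append, Finset.length_toList]
    rw [Finset.card_sdiff_of_subset hsu]
    omega
  have hnd : L.Nodup := by
    refine List.nodup_append.mpr ⟨Finset.nodup_toList _, Finset.nodup_toList _, ?_⟩
    intro a ha b hb hab
    rw [Finset.mem_toList] at ha hb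
    subst hab
    exact Finset.disjoint_left.mp hdis ha hb
  let x : Fin 5 → GolayPt := fun i => L[i.val]'(by omega)
  have hxinj : Function.Injective x := by
    intro i j hij
    exact Fin.ext ((List.Nodup.getElem_inj_iff hnd).mp hij)
  have hxu : ∀ i, x i ∈ u := by
    intro i
    have hm : x i ∈ L := List.getElem_mem _
    rcases List.mem_append.mp hm with h | h
    · exact hsu (Finset.mem_toList.mp h)
    · exact (Finset.mem_sdiff.mp (Finset.mem_toList.mp h)).1
  obtain ⟨g, hg, hgx⟩ := exists_map_embedding (k := 5) (le_refl 5) ⟨x, hxinj⟩ y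
  refine ⟨g, hg, ?_, ?_⟩
  · apply eq_of_octads_of_five (smul_mem_octads hg ho) octad0_mem
    have hsub : (Finset.univ.image y) ⊆ g • o ∩ ofMask octad0 := by
      intro b hb
      obtain ⟨i, _, rfl⟩ := Finset.mem_image.mp hb
      refine Finset.mem_inter.mpr ⟨?_, y_mem_o0 i⟩
      rw [← hgx i]
      exact Finset.smul_mem_smul_finset (huo (hxu i))
    have hc : (Finset.univ.image y).card = 5 := by
      rw [Finset.card_image_of_injective _ y.injective]
      rfl
    rw [← hc]
    exact Finset.card_le_card hsub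
  · intro a ha
    have hm : a ∈ s.toList := Finset.mem_toList.mpr ha
    obtain ⟨j, hj, hja⟩ := List.mem_iff_getElem.mp hm
    have hj' : j < s.card := by simpa using hj
    refine ⟨⟨j, by omega⟩, hj', ?_⟩
    have hxj : x ⟨j, by omega⟩ = a := by
      simp only [x, L]
      rw [List.getElem_append_left hj]
      exact hja
    rw [← hxj]
    exact hgx _

theorem count_transport {o s o0 s0 : Finset GolayPt} {g : Equiv.Perm GolayPt} (hg : g ∈ M24)
    (h1 : g • o = o0) (h2 : g • s = s0) :
    {o' : Finset GolayPt | o' ∈ octads ∧ o ∩ o' = s}.ncard =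
      {o' : Finset GolayPt | o' ∈ octads ∧ o0 ∩ o' = s0}.ncard := by
  apply ncard_smul_eq g
  intro t
  simp only [Set.mem_ofPred_eq]
  rw [smul_mem_octads_iff hg, ← h1, ← h2, inter_smul]
  constructor
  · rintro ⟨h3, h4⟩
    exact ⟨h3, by rw [h4]⟩
  · rintro ⟨h3, h4⟩
    exact ⟨h3, MulAction.injective g h4⟩

theorem count0 (sm : ℕ) (hsm : sm < 2 ^ 24) :
    {o' : Finset GolayPt | o' ∈ octads ∧ ofMask octad0 ∩ o' = ofMask sm}.ncard =
      codeCount (fun m => popc m == 8 && (octad0 &&& m == sm)) := by
  apply ncard_octads_filter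
  · intro o' ho'
    have h8 : popc (toMask o') = 8 := by rw [← card_eq_popc]; exact ho'.2
    have : ofMask octad0 ∩ o' = ofMask sm ↔ octad0 &&& toMask o' = sm := by
      constructor
      · intro h
        have := congrArg toMask h
        rwa [toMask_inter, toMask_ofMask (by decide), toMask_ofMask hsm] at this
      · intro h
        rw [← h, ofMask_and, ofMask_toMask]
    rw [this]
    simp [h8]
  · intro m hm
    simp only [Bool.and_eq_true, beq_iff_eq] at hm
    exact hm.1

/-- The mask of the first two base points. -/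
def s2Mask : ℕ := 2 ^ 23 + 2 ^ 0

/-- The mask of the first four base points. -/
def s4Mask : ℕ := 2 ^ 23 + 2 ^ 0 + 2 ^ 1 + 2 ^ 2

theorem y_mem_s2 : ∀ i : Fin 5, i.val < 2 → y i ∈ ofMask s2Mask := by decide +kernel

theorem y_mem_s4 : ∀ i : Fin 5, i.val < 4 → y i ∈ ofMask s4Mask := by decide +kernel

theorem card_s2 : (ofMask s2Mask).card = 2 := by decide +kernel

theorem card_s4 : (ofMask s4Mask).card = 4 := by decide +kernel

theorem smul_eq_of_card {s s0 : Finset GolayPt} {g : Equiv.Perm GolayPt}
    (h : ∀ a ∈ s, g a ∈ s0) (hc : s.card = s0.card) : g • s = s0 := by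
  apply Finset.eq_of_subset_of_card_le
  · intro b hb
    obtain ⟨a, ha, rfl⟩ := Finset.mem_smul_finset.mp hb
    exact h a ha
  · rw [Finset.card_smul_finset, hc]

/-- Bottom row of the Leech triangle: an octad is met in a prescribed pair of its points by exactly 16 octads and in a prescribed 4-subset by exactly 4 octads. -/
theorem result (o : Finset Cfsg.GolayPt) (ho : o ∈ Cfsg.octads) (s : Finset Cfsg.GolayPt) (hs : s ⊆ o) : (s.card = 2 → {o' : Finset Cfsg.GolayPt | o' ∈ Cfsg.octads ∧ o ∩ o' = s}.ncard = 16) ∧ (s.card = 4 → {o' : Finset Cfsg.GolayPt | o' ∈ Cfsg.octads ∧ o ∩ o' = s}.ncard = 4) := by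
  refine ⟨fun h2 => ?_, fun h4 => ?_⟩
  · obtain ⟨g, hg, hgo, hgs⟩ := exists_flag ho hs (by omega)
    have hgs' : g • s = ofMask s2Mask := by
      apply smul_eq_of_card _ (by rw [h2, card_s2])
      intro a ha
      obtain ⟨i, hi, e⟩ := hgs a ha
      rw [e]
      exact y_mem_s2 i (by omega)
    rw [count_transport hg hgo hgs', count0 s2Mask (by decide)]
    decide +kernel
  · obtain ⟨g, hg, hgo, hgs⟩ := exists_flag ho hs (by omega)
    have hgs' : g • s = ofMask s4Mask := by
      apply smul_eq_of_card _ (by rw [h4, card_s4])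
      intro a ha
      obtain ⟨i, hi, e⟩ := hgs a ha
      rw [e]
      exact y_mem_s4 i (by omega)
    rw [count_transport hg hgo hgs', count0 s4Mask (by decide)]
    decide +kernel

end Cfsg.Agent.S1555
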