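import Cfsg.Statements.S1679
import Cfsg.Agent.S1694
import Cfsg.Agent.Lib.Compute.G2Suz.Main
import Mathlib
-- import your own Cfsg.Agent.* helpers here

set_option autoImplicit false
open Cfsg

namespace Cfsg.Agent.S1679

open Cfsg.Agent.Lib.Compute.ToddCoxeterCore Cfsg.Agent.Lib.Compute.ToddCoxeterPresented
  Cfsg.Agent.Lib.Compute.TCChain Cfsg.Agent.Lib.Compute.GFModel
open Cfsg.Agent.Lib.Compute.TC

/-- The subgroup of the presented group is the image of the presentation on six generators. -/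
theorem exists_map : ∃ ψ : PresentedGroup SuzA1.RR →* HOf Suz1.RR Suz1.D.Hs, Function.Bijective ψ := by
  obtain ⟨ψ, hψ⟩ := hom_presented (R := Suz1.RR) (R' := SuzA1.RR) Cfsg.Agent.S1694.g1
    (fun r hr => PresentedGroup.one_of_mem ((Suz1.hR _).2 (Cfsg.Agent.S1694.rel1 r hr))) (Hs := Suz1.D.Hs)
    (by
      intro x
      simp [Suz1.D, Cfsg.Agent.S1694.g1, Fin.exists_fin_succ])
  have := Cfsg.Agent.S1694.up1.1
  have hc := Cfsg.Agent.S1694.up1.2
  have hle : ∀ x, ψ x ∈ HOf Suz1.RR Suz1.D.Hs := fun x => hψ ▸ MonoidHom.mem_range.2 ⟨x, rfl⟩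
  refine ⟨ψ.codRestrict _ hle, ?_⟩
  have hs : Function.Surjective (ψ.codRestrict _ hle) := by
    rintro ⟨g, hg⟩
    rw [← hψ] at hg
    obtain ⟨x, rfl⟩ := hg
    exact ⟨x, rfl⟩
  refine hs.bijective_of_nat_card_le ?_
  have h1 := (HOf Suz1.RR Suz1.D.Hs).card_mul_index
  rw [Suz1.index, Cfsg.Agent.S1694.inj.2] at h1
  have h2 : Nat.card (HOf Suz1.RR Suz1.D.Hs) = 251596800 :=
    Nat.eq_of_mul_eq_mul_right (by norm_num : 0 < 1782) (h1.trans (by norm_num))
  rw [h2]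
  exact hc.trans (by norm_num)

/-- In the presented sporadic Suzuki group (generators a, …, g), the subgroup generated by the images of a, …, f is isomorphic to the adjoint Chevalley group of type G₂ over a field with four elements. -/
theorem result : ∃ (K : Type) (_ : Field K) (_ : Fintype K), Fintype.card K = 4 ∧ Nonempty ((((Subgroup.closure ({Cfsg.Spor.Suz.a, Cfsg.Spor.Suz.b, Cfsg.Spor.Suz.c, Cfsg.Spor.Suz.d, Cfsg.Spor.Suz.e, Cfsg.Spor.Suz.f} : Set (FreeGroup Cfsg.Spor.Suz.Gen))).map (PresentedGroup.mk (Cfsg.Spor.coxRelators Cfsg.Spor.Suz.edges ∪ {r | r ∈ Cfsg.Spor.Suz.extra})))) ≃* Cfsg.Lie.chevG2.group K) := by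
  rw [Suz1.hset]
  refine ⟨GF4, inferInstance, inferInstance, card_GF4, ?_⟩
  obtain ⟨ψ, hψ⟩ := exists_map
  have := Cfsg.Agent.S1694.up1.1
  obtain ⟨τ, hτ⟩ := Cfsg.Agent.Lib.Compute.G2Suz.main (Cfsg.Agent.S1694.up1.2.trans (by norm_num))
  exact ⟨(MulEquiv.ofBijective ψ hψ).symm.trans (MulEquiv.ofBijective τ hτ)⟩

end Cfsg.Agent.S1679
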