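import Cfsg.Statements.S2366
import Mathlib
import Cfsg.Agent.Lib.Classical.Herm.SU3Roots
import Cfsg.Agent.Lib.Classical.Herm.SU3Singer
-- import your own Cfsg.Agent.* helpers here

set_option autoImplicit false
open Cfsg

namespace Cfsg.Agent.S2366

open Cfsg.Agent.Lib.Classical.Herm.SU Cfsg.Agent.Lib.Classical.Herm.SU3Roots
  Cfsg.Agent.Lib.Classical.Herm.SU3Witness Cfsg.Agent.Lib.Classical.Herm.SU3Singer

section
variable {G : Type*} [Group G] [Finite G]

theorem exists_orderOf_of_dvd {N s : ℕ} (h : ∃ m : G, orderOf m = N) (hs : s ∣ N) :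
    ∃ x : G, orderOf x = s := by
  obtain ⟨m, rfl⟩ := h
  have hpos : 0 < orderOf m := orderOf_pos m
  obtain ⟨t, ht⟩ := hs
  have ht0 : t ≠ 0 := by
    rintro rfl
    omega
  refine ⟨m ^ t, ?_⟩
  rw [orderOf_pow_of_dvd ht0 ⟨s, by rw [ht, mul_comm]⟩, ht]
  exact Nat.mul_div_cancel _ (Nat.pos_of_ne_zero ht0)

end

/-- The set of element orders of PSU(3, q) for an odd prime power q = p^n: writing d = gcd(3, q + 1), a positive integer is the order of some element exactly when it divides one of q + 1, p(q + 1)/d, (q² − 1)/d, (q² − q + 1)/d. -/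
theorem result {F : Type*} [Field F] [Fintype F] (p : ℕ) [Fact p.Prime] [CharP F p] (hp : p ≠ 2) (q : ℕ) (hF : Fintype.card F = q ^ 2) :
    Set.range (orderOf : Cfsg.PSU 3 F q → ℕ) =
      {s : ℕ | s ∣ q + 1} ∪ {s : ℕ | s ∣ p * (q + 1) / Nat.gcd 3 (q + 1)} ∪
        {s : ℕ | s ∣ (q ^ 2 - 1) / Nat.gcd 3 (q + 1)} ∪ {s : ℕ | s ∣ (q ^ 2 - q + 1) / Nat.gcd 3 (q + 1)} := by
  ext s
  constructor
  · rintro ⟨x, rfl⟩
    obtain ⟨m, rfl⟩ := QuotientGroup.mk_surjective x
    obtain ⟨N, hN, c, hc⟩ := exists_pow_scalar hp hF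
      (((m : Matrix.SpecialLinearGroup (Fin 3) F) : Matrix (Fin 3) (Fin 3) F))
      (m : Matrix.SpecialLinearGroup (Fin 3) F).det_coe (preserves_su m)
    have hd : orderOf (QuotientGroup.mk m : Cfsg.PSU 3 F q) ∣ N :=
      orderOf_dvd_of_pow_eq_one ((mk_pow_eq_one_iff hF m N).2 ⟨c, hc⟩)
    rcases hN with rfl | rfl | rfl | rfl
    · exact Or.inl (Or.inl (Or.inl hd))
    · exact Or.inl (Or.inl (Or.inr hd))
    · exact Or.inl (Or.inr hd)
    · exact Or.inr hd
  · rintro (((h | h) | h) | h)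
    · exact exists_orderOf_of_dvd (exists_order_succ hF) h
    · exact exists_orderOf_of_dvd (exists_order_p hF) h
    · exact exists_orderOf_of_dvd (exists_order_q2 hF) h
    · exact exists_orderOf_of_dvd (exists_order_singer (p := p) hF) h

end Cfsg.Agent.S2366
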