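-- Statement S2101: proved by the Schur2 toolkit.
import Cfsg.Statements.S2101
import Mathlib
import Cfsg.Agent.Lib.Compute.Schur2.G23SData
import Cfsg.Agent.Lib.Compute.Schur2.U33

set_option autoImplicit false
set_option maxRecDepth 1000000
open Cfsg

namespace Cfsg.Agent.S2101

open Cfsg.Agent.Lib.Compute.SchurLin Cfsg.Agent.Lib.Compute.PermCert Cfsg.Agent.Lib.Compute.Schur2
open Cfsg.Agent.Lib.Compute.Schur2.G23S Cfsg.Agent.Lib.Compute.Schur2.G23G
open Cfsg.Agent.Lib.Compute.G23 (GR card_GR wOK equivF)

universe u

theorem certChk : certB c eE 7000 1000 eP rT 24 = true := by decide +kernel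

theorem sound : TC.Sound.{u} c := sound_of_check certChk

/-- The correspondence of relators with the inner relators. -/
def mp (k : ℕ) : ℕ := bif Nat.blt k 2 then k else Nat.succ k

theorem nestChk : nestB c U33.c mp = true := by decide +kernel

theorem hSB : SubBound.{u} c (U33.c.N * 7) := subBound_nest U33.sound U33.hSB nestChk

theorem upChk : u.check = true := by decide +kernel

theorem tailChk : UP.tailCheck u d = true := by decide +kernel

theorem lcChk : l.check = true := by decide +kernel

theorem hnormC : normB c.n c.W = true := by decide +kernel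

theorem hnormU : normB u.n u.W = true := by decide +kernel

theorem hws : ws.all wOK = true := by decide +kernel

theorem hAs : lettersOK ws As = true := by decide +kernel

theorem relsChk : allB (fun k => relOK 3 As (c.W.getD k [])) c.nrel = true := by decide +kernel

theorem gensChk : gensOK 3 As us = true := by decide +kernel

/-- The generators. -/
noncomputable abbrev gJ : ℕ → GR := gW ws hws

theorem hrel : ∀ k < c.nrel, Cfsg.Agent.Lib.Compute.ToddCoxeterCore.wordEl (ltr gJ) (c.W.getD k []) = 1 := by
  intro k hk
  exact rel_of_relOK hws hAs ((allB_iff _ _).mp relsChk k hk)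

theorem hgen (x : GR) : x ∈ Subgroup.closure (gJ '' Set.Iio c.n) :=
  gen_of_gensOK hws hAs gensChk x

theorem hcard : Nat.card GR = c.N * (U33.c.N * 7) := by
  rw [card_GR]
  rfl

theorem hsec : HasSec c gJ :=
  hasSec_of_nest sound hSB U33.presTriv nestChk hrel hgen hcard

theorem main : HasSchurMultiplier GR (Multiplicative (ZMod 3)) :=
  hasSchur_main (g := gJ) sound hSB (fun j hj => gW_ge hws hj) hrel hgen hcard (by decide) hnormC hsec
    u rfl rfl rfl rfl rfl rfl (m := 24) (by decide) hnormU rfl rfl upChk d tailChk
    (fun B _ h => UP.Gen.hom1 h) l rfl rfl rfl rfl rfl lcChk (a := a1 3)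
    (fun j hj => by
      obtain rfl : j = 0 := by
        have : j < 1 := hj
        omega
      exact a1_pow) a1_gen

/-- Exceptional Schur multiplier: over the field with 3 elements the Chevalley group of type G₂ has Schur multiplier cyclic of order 3 (here the Schur multiplier is described through stem extensions, as in the definitions). -/
theorem result {F : Type*} [Field F] [Fintype F] (hF : Fintype.card F = 3) : Cfsg.HasCyclicSchurMultiplier ↥(Cfsg.Lie.chevG2.group F) 3 :=
  hasSchur_transport (equivF hF).symm main

end Cfsg.Agent.S2101
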