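-- Statement S2093: proved by the Schur2 toolkit.
import Cfsg.Statements.S2093
import Mathlib
import Cfsg.Agent.Lib.Compute.Schur2.Sp62Data
import Cfsg.Agent.Lib.Compute.Schur2.U33
import Cfsg.Agent.Lib.Compute.Schur2.SpTwo

set_option autoImplicit false
set_option maxRecDepth 1000000
open Cfsg

namespace Cfsg.Agent.S2093

open Cfsg.Agent.Lib.Compute.SchurLin Cfsg.Agent.Lib.Compute.PermCert Cfsg.Agent.Lib.Compute.Schur2
open Cfsg.Agent.Lib.Compute.Schur2.Sp62

universe u

theorem certChk : certB c eE 2128 304 eP rT 17 = true := by decide +kernel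

theorem sound : TC.Sound.{u} c := sound_of_check certChk

/-- The correspondence of relators with the inner relators. -/
def mp (k : ℕ) : ℕ := bif Nat.blt k 2 then k else Nat.succ k

theorem nestChk : nestB c U33.c mp = true := by decide +kernel

theorem hSB : SubBound.{u} c (U33.c.N * 7) := subBound_nest U33.sound U33.hSB nestChk

theorem upChk : u.check = true := by decide +kernel

theorem tailChk : UP.tailCheck u d = true := by decide +kernel

theorem lcChk : l.check = true := by decide +kernel

theorem hnormC : normB c.n c.W = true := by decide +kernel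

theorem hnormU : normB u.n u.W = true := by decide +kernel

theorem chainOk : chainCheck 7 127 64 ls = true := by decide +kernel

theorem chainOrd : chainOrder ls = 1451520 := by decide +kernel

theorem validEs : es.all (validB 7 127 64) = true := by decide +kernel

theorem siftEs : es.all (fun e => sift 7 127 64 ls (get 7 127 e.f)) = true := by decide +kernel

/-- The group. -/
abbrev H : Subgroup (Equiv.Perm (Fin 64)) := chainGroup 7 127 64 ls

theorem hmem (j : ℕ) : gPerm 7 127 64 es j ∈ H := gPerm_mem_chain chainOk validEs siftEs j

theorem relsChk : allB (fun k => allB (fun i => Nat.beq (wordPt 7 127 es (c.W.getD k []) i) i) 64) c.nrel = true := by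
  decide +kernel

/-- The words of the generators of the group. -/
def us : List (List ℕ) := [[0],
  [2],
  [4]]

theorem wordsChk : wordsB 7 127 64 es 3 (nextGens ls) us = true := by decide +kernel

/-- The generators. -/
noncomputable abbrev gJ : ℕ → H := gP 7 127 64 es H

theorem hrel : ∀ k < c.nrel, Cfsg.Agent.Lib.Compute.ToddCoxeterCore.wordEl (ltr gJ) (c.W.getD k []) = 1 := by
  intro k hk
  apply rel_of_check validEs hmem
  have := (allB_iff _ _).mp relsChk k hk
  exact this

theorem hgen (x : H) : x ∈ Subgroup.closure (gJ '' Set.Iio c.n) :=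
  gen_of_words validEs hmem (k := 3) (gens := nextGens ls) (us := us) rfl wordsChk x

theorem hcard : Nat.card H = c.N * (U33.c.N * 7) := by
  rw [chain_card chainOk, chainOrd]
  rfl

theorem hsec : HasSec c gJ :=
  hasSec_of_nest sound hSB U33.presTriv nestChk hrel hgen hcard

theorem eltChk : (nextGens ls).all Cfsg.Agent.Lib.Compute.Schur2.SpTwo.eltOK = true := by decide +kernel

theorem hcardG : Nat.card (genGroup 7 127 64 (nextGens ls)) = 1451520 := by
  have := chain_card chainOk
  rw [chainOrd] at this
  exact this


theorem main : HasSchurMultiplier H (Multiplicative (ZMod 2)) :=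
  hasSchur_main (g := gJ) sound hSB (fun j hj => gP_ge hmem hj) hrel hgen hcard (by decide) hnormC hsec
    u rfl rfl rfl rfl rfl rfl (m := 17) (by decide) hnormU rfl rfl upChk d tailChk
    (fun B _ h => UP.Gen.hom1 h) l rfl rfl rfl rfl rfl lcChk (a := a1 2)
    (fun j hj => by
      obtain rfl : j = 0 := by
        have : j < 1 := hj
        omega
      exact a1_pow) a1_gen

/-- Exceptional Schur multiplier: over the field with 2 elements, PSp₆ has Schur multiplier cyclic of order 2 (here the Schur multiplier is described through stem extensions, as in the definitions). -/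
theorem result {F : Type*} [Field F] [Fintype F] (hF : Fintype.card F = 2) : Cfsg.HasCyclicSchurMultiplier (Cfsg.PSp 3 F) 2 :=
  by
  obtain ⟨e⟩ := Cfsg.Agent.Lib.Compute.Schur2.SpTwo.nonempty_equiv_PSp hF
  obtain ⟨e2⟩ := Cfsg.Agent.Lib.Compute.Schur2.SpTwo.nonempty_iso (gens := nextGens ls) eltChk hcardG
  exact hasSchur_transport (e2.trans e) main

end Cfsg.Agent.S2093
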