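import Cfsg.Statements.S0666
import Mathlib
import Cfsg.Agent.Lib.Frobenius.FixedPoint
import Cfsg.Agent.Lib.Frobenius.Norm

set_option autoImplicit false
open Cfsg

namespace Cfsg.Agent.S0666

open Cfsg.Agent.Lib.Frobenius.Basic Cfsg.Agent.Lib.Frobenius.FixedPoint
  Cfsg.Agent.Lib.Frobenius.Norm

/-- A Frobenius group acting on a nontrivial abelian group of order prime to that of its kernel, with the kernel acting without nontrivial fixed points, has a complement with a nontrivial fixed point. -/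
theorem result {G : Type*} [Group G] [Finite G] (V F : Subgroup G) (hVab : IsMulCommutative V) (hV1 : V ≠ ⊥) (hFV : F ≤ Subgroup.normalizer (V : Set G)) (H : Subgroup ↥F) (hH : Cfsg.IsFrobeniusComplement H) (hcop : (Nat.card V).Coprime (Nat.card (Cfsg.frobeniusKernel H))) (hCK : V ⊓ Subgroup.centralizer (Subtype.val '' Cfsg.frobeniusKernel H : Set G) = ⊥) : V ⊓ Subgroup.centralizer ((H.map F.subtype : Subgroup G) : Set G) ≠ ⊥ := by
  classical
  intro hCH
  obtain ⟨N, hN, hNn, hc⟩ := Cfsg.Agent.Lib.Char.FrobeniusKernel.frobenius_theorem H hH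
  have hfpf : ∀ h ∈ H, h ≠ 1 → ∀ k ∈ N, h * k = k * h → k = 1 := by
    intro h hh hh1 k hk hcomm
    exact kernel_fpf hH hN hh hh1 hk hcomm
  letI cg : CommGroup V :=
    { (inferInstance : Group V) with
      mul_comm := fun a b => hVab.is_comm.comm a b }
  letI ma : MulDistribMulAction F V := conjAct F V hFV
  have hsmul : ∀ (a : F) (v : V), ((a • v : V) : G) = (a : G) * v * (a : G)⁻¹ := fun _ _ => rfl
  have hcomm_of : ∀ (a : F) (v : V), a • v = v → (a : G) * (v : G) = (v : G) * (a : G) := by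
    intro a v h
    have h1 := congrArg Subtype.val h
    rw [hsmul] at h1
    calc (a : G) * (v : G) = ((a : G) * v * (a : G)⁻¹) * a := by group
      _ = _ := by rw [h1]
  have hN' : ∀ v : V, (∀ u ∈ N, u • v = v) → v = 1 := by
    intro v hv
    have h1 : (v : G) ∈ V ⊓ Subgroup.centralizer (Subtype.val '' Cfsg.frobeniusKernel H : Set G) := by
      refine ⟨v.2, ?_⟩
      change (v : G) ∈ Subgroup.centralizer (Subtype.val '' Cfsg.frobeniusKernel H : Set G)
      rw [Subgroup.mem_centralizer_iff]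
      rintro _ ⟨f, hf, rfl⟩
      have hf' : f ∈ N := by
        rw [← SetLike.mem_coe, hN]
        exact hf
      exact hcomm_of f v (hv f hf')
    rw [hCK, Subgroup.mem_bot] at h1
    exact Subtype.ext h1
  have hH' : ∀ v : V, (∀ h ∈ H, h • v = v) → v = 1 := by
    intro v hv
    have h1 : (v : G) ∈ V ⊓ Subgroup.centralizer ((H.map F.subtype : Subgroup G) : Set G) := by
      refine ⟨v.2, ?_⟩
      change (v : G) ∈ Subgroup.centralizer ((H.map F.subtype : Subgroup G) : Set G)
      rw [Subgroup.mem_centralizer_iff]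
      rintro _ ⟨f, hf, rfl⟩
      exact hcomm_of f v (hv f hf)
    rw [hCH, Subgroup.mem_bot] at h1
    exact Subtype.ext h1
  haveI := hNn
  have hpow : ∀ v : V, v ^ Nat.card N = 1 := fun v =>
    pow_card_kernel_eq_one hc hfpf hN' hH' v
  apply hV1
  rw [eq_bot_iff]
  intro x hx
  have h0 : Nat.card N = Nat.card (Cfsg.frobeniusKernel H) := by
    rw [← hN]
    rfl
  have h1 := orderOf_dvd_of_pow_eq_one (hpow ⟨x, hx⟩)
  have h2 := orderOf_dvd_natCard (⟨x, hx⟩ : V)
  rw [h0] at h1
  have h3 := Nat.dvd_gcd h2 h1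
  rw [hcop.gcd_eq_one, Nat.dvd_one, orderOf_eq_one_iff] at h3
  have := congrArg Subtype.val h3
  simpa using this

end Cfsg.Agent.S0666
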