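import Cfsg.Statements.S0303
import Mathlib
import Cfsg.Agent.Lib.Classical.Herm.ExcMinus6
import Cfsg.Agent.S0288
import Cfsg.Agent.Lib.Classical.Herm.PGUnitary

set_option autoImplicit false
open Cfsg

namespace Cfsg.Agent.S0303

/-- PΩ^-_6(q) is isomorphic to PSU_4(q). -/
theorem result {F K : Type*} [Field F] [Fintype F] [Field K] [Fintype K] {q : ℕ} (hF : Fintype.card F = q) (hK : Fintype.card K = q ^ 2) (a b : F) (hab : ∀ z₁ z₂ : F, z₁ ^ 2 + a * z₁ * z₂ + b * z₂ ^ 2 = 0 → z₁ = 0 ∧ z₂ = 0) : Nonempty (Cfsg.POmega F (Cfsg.quadFormMinus 2 F a b) ≃* Cfsg.PSU 4 K q) := by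
  classical
  obtain ⟨E⟩ := Cfsg.Agent.Lib.Classical.Herm.ExcQuad.exists_quadExt hF hK hab
  refine Cfsg.Agent.Lib.Classical.Herm.ExcMinus6.main6 E hK hab ?_
  have h1 := Cfsg.Agent.S0288.result hF 3 (by norm_num) a b hab
  have h2 : (3 : ℕ) - 1 = 2 := rfl
  rw [h2] at h1
  rw [h1, Cfsg.Agent.Lib.Classical.Herm.PGUnitary.card_SU' hK (by norm_num)]
  have h3 : ∏ i ∈ Finset.range (4 - 1), (if Even (i + 1) then q ^ (i + 2) + 1 else q ^ (i + 2) - 1) =
      (q ^ 2 - 1) * (q ^ 3 + 1) * (q ^ 4 - 1) := by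
    simp [Finset.prod_range_succ, (by decide : ¬ Even 1), (by decide : Even 2), (by decide : ¬ Even 3)]
  rw [h3]
  simp [Finset.prod_range_succ]
  ring

end Cfsg.Agent.S0303
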