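import Cfsg.Statements.S0440
import Mathlib
import Cfsg.Agent.Lib.Classical.Symp.RankOne
-- import your own Cfsg.Agent.* helpers here

set_option autoImplicit false
open Cfsg

namespace Cfsg.Agent.S0440

open Matrix Cfsg.Agent.Lib.Classical.Symp.Basic Cfsg.Agent.Lib.Classical.Symp.RankOne

local notation "ttt" => (tt (F := ZMod 2))

theorem two_eq : (2 : ZMod 2) = 0 := rfl

theorem ttt_sq {n : ℕ} (w : Fin n ⊕ Fin n → ZMod 2) : ttt w 1 * ttt w 1 = 1 := by
  rw [tt_mul]
  have : (1 + 1 : ZMod 2) = 0 := rfl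
  rw [this, tt_zero]

theorem ttt_inv {n : ℕ} (w : Fin n ⊕ Fin n → ZMod 2) : (ttt w 1)⁻¹ = ttt w 1 :=
  inv_eq_of_mul_eq_one_right (ttt_sq w)

theorem ttt_ne_one {n : ℕ} {w : Fin n ⊕ Fin n → ZMod 2} (hw : w ≠ 0) : ttt w 1 ≠ 1 := by
  intro h
  rw [← tt_zero w] at h
  exact one_ne_zero (tt_inj_param hw h)

theorem zmod2_cases (c : ZMod 2) : c = 0 ∨ c = 1 := by
  revert c
  decide

theorem rank_iff {n : ℕ} (g : Matrix.symplecticGroup (Fin n) (ZMod 2)) :
    ((g : Matrix (Fin n ⊕ Fin n) (Fin n ⊕ Fin n) (ZMod 2)) - 1).rank = 1 ↔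
      ∃ w : Fin n ⊕ Fin n → ZMod 2, w ≠ 0 ∧ g = ttt w 1 := by
  constructor
  · intro h
    obtain ⟨w, c, hw, hc, e⟩ := exists_eq_sympTransvection g.2 h
    have hc1 : c = 1 := (zmod2_cases c).resolve_left hc
    subst hc1
    exact ⟨w, hw, Subtype.ext e⟩
  · rintro ⟨w, hw, rfl⟩
    exact rank_sympTransvection_sub_one hw one_ne_zero

/-- Two transvections commute when the vectors are orthogonal. -/
theorem ttt_comm {n : ℕ} {a b : Fin n ⊕ Fin n → ZMod 2} (h : Cfsg.sympForm n (ZMod 2) a b = 0) :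
    ttt a 1 * ttt b 1 = ttt b 1 * ttt a 1 := by
  have hconj := tt_conj (ttt a 1) b 1
  have hb : (ttt a 1).1 *ᵥ b = b := by
    rw [tt_coe, sympTransvection_mulVec]
    have : Cfsg.sympForm n (ZMod 2) b a = 0 := by
      have h1 := LinearMap.BilinForm.IsAlt.neg_eq (sympBilin_isAlt (m := n) (F := ZMod 2)) a b
      simp only [sympBilin_apply] at h1
      rw [← h1, h, neg_zero]
    simp [this]
  rw [hb, ttt_inv] at hconj
  calc ttt a 1 * ttt b 1 = ttt a 1 * ttt b 1 * (ttt a 1 * ttt a 1) := by rw [ttt_sq, mul_one]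
    _ = (ttt a 1 * ttt b 1 * ttt a 1) * ttt a 1 := by simp only [mul_assoc]
    _ = ttt b 1 * ttt a 1 := by rw [hconj]

/-- The braid relation when the form is nonzero. -/
theorem ttt_braid {n : ℕ} {a b : Fin n ⊕ Fin n → ZMod 2} (h : Cfsg.sympForm n (ZMod 2) a b = 1) :
    ttt a 1 * ttt b 1 * ttt a 1 = ttt b 1 * ttt a 1 * ttt b 1 := by
  have h' : Cfsg.sympForm n (ZMod 2) b a = 1 := by
    have h1 := LinearMap.BilinForm.IsAlt.neg_eq (sympBilin_isAlt (m := n) (F := ZMod 2)) a b
    simp only [sympBilin_apply] at h1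
    rw [← h1, h]
    rfl
  have e1 := tt_conj (ttt a 1) b 1
  have e2 := tt_conj (ttt b 1) a 1
  rw [ttt_inv] at e1 e2
  rw [e1, e2]
  congr 1
  rw [tt_coe, tt_coe, sympTransvection_mulVec, sympTransvection_mulVec, h, h']
  simp [add_comm]

/-- In the symplectic group in dimension 2n ≥ 2 over the field with two elements, the elements g for which g - 1 has rank one (the symplectic transvections) form a conjugacy class of 3-transpositions generating the group. -/
theorem result (n : ℕ) (hn : 1 ≤ n) : Cfsg.IsThreeTranspositionClass {g : Matrix.symplecticGroup (Fin n) (ZMod 2) | ((g : Matrix (Fin n ⊕ Fin n) (Fin n ⊕ Fin n) (ZMod 2)) - 1).rank = 1} := by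
  classical
  haveI : NeZero n := ⟨by omega⟩
  have hD : {g : Matrix.symplecticGroup (Fin n) (ZMod 2) | ((g : Matrix (Fin n ⊕ Fin n) (Fin n ⊕ Fin n) (ZMod 2)) - 1).rank = 1}
      = {g | ∃ w : Fin n ⊕ Fin n → ZMod 2, w ≠ 0 ∧ g = ttt w 1} := by
    ext g
    exact rank_iff g
  rw [hD]
  let i0 : Fin n := ⟨0, by omega⟩
  let e : Fin n ⊕ Fin n → ZMod 2 := Pi.single (Sum.inl i0) 1
  have he : e ≠ 0 := by
    intro h
    have := congrFun h (Sum.inl i0)
    simp [e] at this
  refine ⟨⟨?_, ?_⟩, ⟨ttt e 1, ⟨e, he, rfl⟩, ?_⟩, ?_⟩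
  · rintro _ ⟨w, hw, rfl⟩
    exact orderOf_eq_prime (by rw [sq]; exact ttt_sq w) (ttt_ne_one hw)
  · rintro _ ⟨a, -, rfl⟩ _ ⟨b, -, rfl⟩
    rcases zmod2_cases (Cfsg.sympForm n (ZMod 2) a b) with h | h
    · left
      rw [sq, mul_assoc, ← mul_assoc (ttt b 1), ← ttt_comm h, mul_assoc (ttt a 1), ttt_sq, mul_one, ttt_sq]
    · right
      have hb := ttt_braid h
      rw [pow_succ, pow_two]
      calc ttt a 1 * ttt b 1 * (ttt a 1 * ttt b 1) * (ttt a 1 * ttt b 1)
          = (ttt a 1 * ttt b 1 * ttt a 1) * (ttt b 1 * ttt a 1 * ttt b 1) := by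
            simp only [mul_assoc]
        _ = (ttt a 1 * ttt b 1 * ttt a 1) * (ttt a 1 * ttt b 1 * ttt a 1) := by rw [hb]
        _ = 1 := by
            have : ttt a 1 * ttt b 1 * ttt a 1 = ttt ((ttt a 1).1 *ᵥ b) 1 := by
              have := tt_conj (ttt a 1) b 1
              rwa [ttt_inv] at this
            rw [this, ttt_sq]
  · ext g
    constructor
    · rintro ⟨w, hw, rfl⟩
      obtain ⟨A, -, hA⟩ := closure_transitive_vec he hw
      have := tt_conj A e 1
      rw [hA] at this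
      exact isConj_iff.mpr ⟨A, this⟩
    · intro hc
      obtain ⟨A, rfl⟩ := isConj_iff.mp hc
      rw [tt_conj]
      refine ⟨A.1 *ᵥ e, ?_, rfl⟩
      intro h
      have h1 : (A⁻¹).1 *ᵥ (A.1 *ᵥ e) = e := by
        rw [mulVec_mulVec, ← Submonoid.coe_mul, inv_mul_cancel]
        simp
      rw [h] at h1
      simp only [mulVec_zero] at h1
      exact he h1.symm
  · rw [eq_top_iff, ← closure_sympTvSet]
    refine Subgroup.closure_le _ |>.mpr ?_
    rintro g ⟨w, c, hg⟩
    by_cases hw : w = 0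
    · subst hw
      have : g = 1 := by
        apply Subtype.ext
        rw [hg]
        simp [sympTransvection]
      rw [this]
      exact one_mem _
    · rcases zmod2_cases c with rfl | rfl
      · have : g = 1 := by
          apply Subtype.ext
          rw [hg]
          simp [sympTransvection]
        rw [this]
        exact one_mem _
      · exact Subgroup.subset_closure ⟨w, hw, Subtype.ext hg⟩

end Cfsg.Agent.S0440
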