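import Cfsg.Statements.S5345
import Mathlib
-- import your own Cfsg.Agent.* helpers here

set_option autoImplicit false
open Cfsg

namespace Cfsg.Agent.S5345

/-- Let D be a conjugation-invariant generating set of 3-transpositions of a finite group G and T a Sylow 2-subgroup of G. Then the members of D lying in T generate an abelian subgroup, and their number is the width of D (the largest number of pairwise commuting members of D). -/
theorem result {G : Type*} [Group G] [Finite G] {D : Set G} (hD : Cfsg.IsThreeTranspositionGroup D) (T : Sylow 2 G) : IsMulCommutative (Subgroup.closure {d : G | d ∈ D ∧ d ∈ T}) ∧ {d : G | d ∈ D ∧ d ∈ T}.ncard = Cfsg.commutingWidth D := by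
  obtain ⟨⟨hinv, hprod⟩, hconj, -⟩ := hD
  -- commuting in a 2-group
  have hTcomm : ∀ d ∈ D, d ∈ (T : Subgroup G) → ∀ e ∈ D, e ∈ (T : Subgroup G) → d * e = e * d := by
    intro d hd hdT e he heT
    have hdd : d * d = 1 := by
      have := pow_orderOf_eq_one d
      rwa [hinv d hd, pow_two] at this
    have hee : e * e = 1 := by
      have := pow_orderOf_eq_one e
      rwa [hinv e he, pow_two] at this
    have hdinv : d⁻¹ = d := inv_eq_of_mul_eq_one_left hdd
    have heinv : e⁻¹ = e := inv_eq_of_mul_eq_one_left hee
    have hsq : (d * e) ^ 2 = 1 ∨ d * e = 1 := by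
      rcases hprod d hd e he with h | h
      · exact Or.inl h
      · right
        obtain ⟨k, hk⟩ := T.isPGroup' ⟨d * e, Subgroup.mul_mem _ hdT heT⟩
        have hk' : (d * e) ^ (2 ^ k) = 1 := congrArg Subtype.val hk
        have hgcd : Nat.gcd 3 (2 ^ k) = 1 := by
          apply Nat.Coprime.pow_right
          norm_num
        have := pow_gcd_eq_one.mpr ⟨h, hk'⟩
        rwa [hgcd, pow_one] at this
    rcases hsq with h | h
    · have h1 : d * e * (d * e) = 1 := by rwa [pow_two] at h
      have h2 : (d * e)⁻¹ = d * e := inv_eq_of_mul_eq_one_left h1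
      rw [mul_inv_rev, heinv, hdinv] at h2
      exact h2.symm
    · have h3 : d = e := by
        have : d = e⁻¹ := eq_inv_of_mul_eq_one_left h
        rwa [heinv] at this
      rw [h3]
  set S := {d : G | d ∈ D ∧ d ∈ T} with hS
  have hScomm : ∀ x ∈ S, ∀ y ∈ S, x * y = y * x := fun x hx y hy => hTcomm x hx.1 hx.2 y hy.1 hy.2
  constructor
  · exact Subgroup.isMulCommutative_closure hScomm
  · -- the width
    symm
    show sSup _ = S.ncard
    apply IsGreatest.csSup_eq
    constructor
    · exact ⟨S, fun x hx => hx.1, Set.toFinite _, fun a ha b hb => hScomm a ha b hb, rfl⟩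
    · rintro n ⟨E, hED, -, hEcomm, rfl⟩
      have hEcomm' : ∀ x ∈ E, ∀ y ∈ E, x * y = y * x := fun x hx y hy => hEcomm x hx y hy
      have I := Subgroup.isMulCommutative_closure hEcomm'
      have hsq : ∀ x ∈ Subgroup.closure E, x * x = 1 := by
        intro x hx
        induction hx using Subgroup.closure_induction with
        | mem a ha =>
          have := pow_orderOf_eq_one a
          rwa [hinv a (hED ha), pow_two] at this
        | one => simp
        | mul a b ha hb iha ihb =>
          have hab : a * b = b * a := by
            have := I.is_comm.comm ⟨a, ha⟩ ⟨b, hb⟩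
            exact congrArg Subtype.val this
          calc a * b * (a * b) = a * (b * a) * b := by group
            _ = a * (a * b) * b := by rw [hab]
            _ = (a * a) * (b * b) := by group
            _ = 1 := by rw [iha, ihb, one_mul]
        | inv a _ iha =>
          have := inv_eq_of_mul_eq_one_left iha
          rw [this]
          exact iha
      have hp : IsPGroup 2 (Subgroup.closure E) := by
        rintro ⟨x, hx⟩
        refine ⟨1, Subtype.ext ?_⟩
        show x ^ (2 ^ 1) = 1
        rw [pow_one, pow_two]
        exact hsq x hx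
      obtain ⟨Q, hQ⟩ := hp.exists_le_sylow
      obtain ⟨g, hg⟩ := MulAction.exists_smul_eq G Q T
      apply Set.ncard_le_ncard_of_injOn (fun x => g * x * g⁻¹) _ _ (Set.toFinite _)
      · intro x hx
        refine ⟨hconj g x (hED hx), ?_⟩
        have hxQ : x ∈ (Q : Subgroup G) := hQ (Subgroup.subset_closure hx)
        show g * x * g⁻¹ ∈ (T : Subgroup G)
        rw [← hg, Sylow.coe_subgroup_smul]
        exact ⟨x, hxQ, rfl⟩
      · intro a _ b _ hab
        exact mul_left_cancel (mul_right_cancel hab)

end Cfsg.Agent.S5345
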