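import Cfsg.Statements.S1018
import Mathlib
import Cfsg.Agent.S0699
import Cfsg.Agent.Lib.Perm.SylowConj

set_option autoImplicit false
open Cfsg

namespace Cfsg.Agent.S1018

open Subgroup

variable {G : Type*} [Group G] [Finite G]

/-- A `p`-element normalizing a Sylow subgroup lies in it. -/
lemma mem_sylow_of_normalizes {p : ℕ} [Fact p.Prime] (P : Sylow p G) {z : G}
    (hz : IsPGroup p (zpowers z)) (hzN : z ∈ normalizer ((P : Subgroup G) : Set G)) :
    z ∈ (P : Subgroup G) := by
  have h1 : zpowers z ≤ normalizer ((P : Subgroup G) : Set G) := zpowers_le.mpr hzN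
  have hK : IsPGroup p ↥((zpowers z) ⊔ (P : Subgroup G)) :=
    hz.to_sup_of_normal_right' P.isPGroup' h1
  have h2 := P.is_maximal' hK le_sup_right
  have h3 : z ∈ (zpowers z) ⊔ (P : Subgroup G) := (le_sup_left : zpowers z ≤ _) (mem_zpowers z)
  rw [h2] at h3
  exact h3

lemma zpowers_eq_of_mem' {p : ℕ} [Fact p.Prime] {P : Subgroup G} (hP : Nat.card P = p) {u : G}
    (hu : u ∈ P) (h1 : u ≠ 1) : zpowers u = P := by
  have hpp : p.Prime := Fact.out
  apply Subgroup.eq_of_le_of_card_ge (zpowers_le.mpr hu)
  rw [Nat.card_zpowers, hP]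
  have hd : orderOf u ∣ p := by
    have := Subgroup.orderOf_dvd_natCard P hu
    rwa [hP] at this
  rcases (Nat.dvd_prime hpp).mp hd with h2 | h2
  · exact absurd (orderOf_eq_one_iff.mp h2) h1
  · exact h2.ge

/-- Let P be a Sylow p-subgroup of order p of a finite group G, and consider the action of G on the left cosets of the normalizer N of P. Then every element of order p fixes exactly one coset, and an element of N that does not centralize P fixes at most as many cosets as there are orbits of P. -/
theorem result {G : Type*} [Group G] [Finite G] (p : ℕ) [Fact p.Prime] (P : Sylow p G) (hP : Nat.card ↥(P : Subgroup G) = p) : (∀ y : G, orderOf y = p → Nat.card (MulAction.fixedBy (G ⧸ Subgroup.normalizer ((P : Subgroup G) : Set G)) y) = 1) ∧ ∀ x : G, x ∈ Subgroup.normalizer ((P : Subgroup G) : Set G) → x ∉ Subgroup.centralizer ((P : Subgroup G) : Set G) → Nat.card (MulAction.fixedBy (G ⧸ Subgroup.normalizer ((P : Subgroup G) : Set G)) x) ≤ Nat.card (MulAction.orbitRel.Quotient ↥(P : Subgroup G) (G ⧸ Subgroup.normalizer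 ((P : Subgroup G) : Set G))) := by
  classical
  have hpp : p.Prime := Fact.out
  set N := Subgroup.normalizer ((P : Subgroup G) : Set G) with hN
  -- fixing a coset
  have hfix : ∀ (y a : G), y • (a : G ⧸ N) = (a : G ⧸ N) ↔ a⁻¹ * y * a ∈ N := by
    intro y a
    rw [MulAction.Quotient.smul_coe, smul_eq_mul, QuotientGroup.eq]
    have e : (y * a)⁻¹ * a = (a⁻¹ * y * a)⁻¹ := by group
    rw [e, Subgroup.inv_mem_iff]
  constructor
  · intro y hy
    have hyp : IsPGroup p (zpowers y) := IsPGroup.of_card (n := 1) (by rw [Nat.card_zpowers, hy, pow_one])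
    obtain ⟨T, hT⟩ := hyp.exists_le_sylow
    obtain ⟨g, hg⟩ := MulAction.exists_smul_eq G P T
    have hgy : g⁻¹ * y * g ∈ (P : Subgroup G) := by
      rw [← Cfsg.Agent.Lib.Perm.SylowConj.mem_smul_iff, hg]
      exact hT (mem_zpowers y)
    have hy1 : y ≠ 1 := by
      intro h; rw [h, orderOf_one] at hy; exact hpp.one_lt.ne hy
    have hconj1 : ∀ a : G, a⁻¹ * y * a ≠ 1 := by
      intro a h
      apply hy1
      have : y = a * (a⁻¹ * y * a) * a⁻¹ := by group
      rw [this, h]; group
    apply Nat.card_eq_one_iff_unique.mpr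
    constructor
    · constructor
      rintro ⟨ω, hω⟩ ⟨ω', hω'⟩
      apply Subtype.ext
      show ω = ω'
      -- every fixed coset is that of g
      have key : ∀ ω : G ⧸ N, y • ω = ω → ω = (g : G ⧸ N) := by
        intro ω hω
        obtain ⟨b, rfl⟩ := QuotientGroup.mk_surjective ω
        rw [hfix] at hω
        have hzp : IsPGroup p (zpowers (b⁻¹ * y * b)) := by
          apply IsPGroup.of_card (n := 1)
          rw [Nat.card_zpowers, pow_one, ← hy]
          exact (MulAut.conj b⁻¹).orderOf_eq y |> fun h => by simpa using h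
        have hzP : b⁻¹ * y * b ∈ (P : Subgroup G) := mem_sylow_of_normalizes P hzp hω
        have hgen : zpowers (b⁻¹ * y * b) = (P : Subgroup G) := zpowers_eq_of_mem' hP hzP (hconj1 b)
        symm
        rw [QuotientGroup.eq]
        apply Cfsg.Agent.S0699.mem_normalizer_of_forall
        intro u hu
        rw [← hgen] at hu
        obtain ⟨k, rfl⟩ := mem_zpowers_iff.mp hu
        have e : g⁻¹ * b * (b⁻¹ * y * b) ^ k * (g⁻¹ * b)⁻¹ = (g⁻¹ * y * g) ^ k := by
          have e1 : g⁻¹ * b * (b⁻¹ * y * b) ^ k * (g⁻¹ * b)⁻¹ = (MulAut.conj (g⁻¹ * b)) ((b⁻¹ * y * b) ^ k) :=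
            (MulAut.conj_apply _ _).symm
          rw [e1, map_zpow, MulAut.conj_apply]
          congr 1
          group
        rw [e]
        exact Subgroup.zpow_mem _ hgy k
      rw [key ω hω, key ω' hω']
    · refine ⟨⟨(g : G ⧸ N), ?_⟩⟩
      show y • (g : G ⧸ N) = (g : G ⧸ N)
      rw [hfix]
      exact le_normalizer hgy
  · intro x hxN hxC
    apply Nat.card_le_card_of_injective
      (fun ω : MulAction.fixedBy (G ⧸ N) x => (Quotient.mk'' (ω : G ⧸ N) : MulAction.orbitRel.Quotient ↥(P : Subgroup G) (G ⧸ N)))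
    rintro ⟨ω, hω⟩ ⟨ω', hω'⟩ h
    have hω1 : x • ω = ω := hω
    have hω2 : x • ω' = ω' := hω'
    have h1 : ω ∈ MulAction.orbit ↥(P : Subgroup G) ω' := by
      have := Quotient.eq''.mp h
      exact MulAction.orbitRel_apply.mp this
    obtain ⟨u, rfl⟩ := h1
    apply Subtype.ext
    show u • ω' = ω'
    by_cases hu : u = 1
    · rw [hu, one_smul]
    -- nontrivial
    have hu0 : (u : G) ≠ 1 := fun h => hu (Subtype.ext h)
    have hgenu := zpowers_eq_of_mem' hP u.2 hu0
    set v : G := (u : G)⁻¹ * (x * u * x⁻¹) with hv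
    have hvP : v ∈ (P : Subgroup G) :=
      Subgroup.mul_mem _ (Subgroup.inv_mem _ u.2) ((mem_normalizer_iff.mp hxN _).mp u.2)
    have hv1 : v ≠ 1 := by
      intro hv1
      apply hxC
      have hc : x * u * x⁻¹ = u := by
        have := hv1
        rw [hv, inv_mul_eq_one] at this
        exact this.symm
      rw [Subgroup.mem_centralizer_iff]
      intro h' hh'
      have hh'' : h' ∈ zpowers (u : G) := by rw [hgenu]; exact hh'
      obtain ⟨k, rfl⟩ := mem_zpowers_iff.mp hh''
      have hcomm : Commute x (u : G) := by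
        show x * u = u * x
        calc x * u = x * u * x⁻¹ * x := by group
          _ = u * x := by rw [hc]
      exact ((hcomm.zpow_right k).eq).symm
    have hgenv := zpowers_eq_of_mem' hP hvP hv1
    -- v fixes ω'
    have hvfix : v • ω' = ω' := by
      have hω3 : x • ((u : G) • ω') = (u : G) • ω' := hω1
      have e : v = (u : G)⁻¹ * x * (u : G) * x⁻¹ := by rw [hv]; group
      rw [e, mul_smul, mul_smul, mul_smul]
      have hxi : x⁻¹ • ω' = ω' := by
        nth_rewrite 1 [← hω2]
        rw [inv_smul_smul]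
      rw [hxi, hω3, inv_smul_smul]
    have hle : (P : Subgroup G) ≤ MulAction.stabilizer G ω' := by
      rw [← hgenv, zpowers_le]
      exact hvfix
    exact hle u.2

end Cfsg.Agent.S1018
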