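import Cfsg.Statements.S4274
import Mathlib
import Cfsg.Agent.Lib.Basic.SmallSimple
import Cfsg.Agent.Lib.Basic.PCore
import Cfsg.Agent.Lib.Coprime.InvSylow
import Cfsg.Agent.S1018

set_option autoImplicit false
open Cfsg

namespace Cfsg.Agent.S4274

open Subgroup
open scoped Pointwise

universe u

variable {G : Type u} [Group G] [Finite G]

/-- `p` divides `|G|` exactly once. -/
structure Ex (G : Type u) [Group G] (p : ℕ) : Prop where
  prime : p.Prime
  dvd : p ∣ Nat.card G
  sq : ¬ p ^ 2 ∣ Nat.card G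

theorem sylow_card {p : ℕ} [hf : Fact p.Prime] (h : Ex G p) (P : Sylow p G) :
    Nat.card (P : Subgroup G) = p := by
  have hpp := h.prime
  have hdv : p ∣ Nat.card (P : Subgroup G) := P.dvd_card_of_dvd_card h.dvd
  obtain ⟨n, hn⟩ := IsPGroup.iff_card.mp P.isPGroup'
  rcases n with _ | _ | n
  · rw [hn] at hdv; simp at hdv; exact absurd hdv hpp.one_lt.ne'
  · rw [hn]; simp
  · exfalso
    apply h.sq
    have h1 : p ^ 2 ∣ Nat.card (P : Subgroup G) := by rw [hn]; exact pow_dvd_pow p (by omega)
    exact h1.trans (Subgroup.card_subgroup_dvd_card _)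

theorem exists_sylow_of_card {p : ℕ} [hf : Fact p.Prime] (h : Ex G p) (H : Subgroup G)
    (hc : Nat.card H = p) : ∃ Q : Sylow p G, (Q : Subgroup G) = H := by
  have hH : IsPGroup p H := IsPGroup.of_card (n := 1) (by rw [hc, pow_one])
  obtain ⟨Q, hQ⟩ := hH.exists_le_sylow
  refine ⟨Q, ?_⟩
  symm
  apply Subgroup.eq_of_le_of_card_ge hQ
  rw [sylow_card h Q, hc]

theorem orderOf_of_mem_sylow {p : ℕ} [hf : Fact p.Prime] (h : Ex G p) (P : Sylow p G) {x : G}
    (hx : x ∈ (P : Subgroup G)) (hx1 : x ≠ 1) : orderOf x = p := by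
  have h1 : orderOf x ∣ p := by
    have h2 := Subgroup.orderOf_dvd_natCard (P : Subgroup G) hx
    rwa [sylow_card h P] at h2
  rcases (Nat.dvd_prime h.prime).mp h1 with h3 | h3
  · exact absurd (orderOf_eq_one_iff.mp h3) hx1
  · exact h3

theorem sylow_eq_zpowers {p : ℕ} [hf : Fact p.Prime] (h : Ex G p) (P : Sylow p G) {x : G}
    (hx : x ∈ (P : Subgroup G)) (hx1 : x ≠ 1) : (P : Subgroup G) = zpowers x := by
  symm
  apply Subgroup.eq_of_le_of_card_ge
  · rwa [zpowers_le]
  · rw [sylow_card h P, Nat.card_zpowers, orderOf_of_mem_sylow h P hx hx1]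

theorem exists_mem_sylow_ne_one {p : ℕ} [hf : Fact p.Prime] (h : Ex G p) (P : Sylow p G) :
    ∃ x ∈ (P : Subgroup G), x ≠ 1 := by
  by_contra hcon
  push Not at hcon
  have h0 : (P : Subgroup G) = ⊥ := (Subgroup.eq_bot_iff_forall _).mpr hcon
  have h1 := sylow_card h P
  rw [h0, Subgroup.card_bot] at h1
  exact h.prime.one_lt.ne h1

theorem card_centralizer_smul {p : ℕ} [hf : Fact p.Prime] (P Q : Sylow p G) :
    Nat.card (centralizer ((P : Subgroup G) : Set G)) =
      Nat.card (centralizer ((Q : Subgroup G) : Set G)) := by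
  obtain ⟨g, rfl⟩ := MulAction.exists_smul_eq G P Q
  refine Nat.card_congr (Equiv.subtypeEquiv (MulAut.conj g).toEquiv ?_)
  intro x
  have hco : (((g • P : Sylow p G) : Subgroup G) : Set G) =
      ((MulAut.conj g • (P : Subgroup G) : Subgroup G) : Set G) := by
    rw [Sylow.coe_subgroup_smul]
  show x ∈ centralizer ((P : Subgroup G) : Set G) ↔
    (MulAut.conj g) x ∈ centralizer (((g • P : Sylow p G) : Subgroup G) : Set G)
  rw [hco, Subgroup.mem_centralizer_iff, Subgroup.mem_centralizer_iff]
  constructor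
  · intro hx s hs
    have hs' : s ∈ MulAut.conj g • (P : Subgroup G) := hs
    rw [Subgroup.mem_pointwise_smul_iff_inv_smul_mem] at hs'
    have := hx _ hs'
    simp only [MulAut.smul_def, map_inv, MulAut.conj_inv_apply, MulAut.conj_apply] at this ⊢
    calc s * (g * x * g⁻¹) = g * (g⁻¹ * s * g * x) * g⁻¹ := by group
      _ = g * (x * (g⁻¹ * s * g)) * g⁻¹ := by rw [this]
      _ = _ := by group
  · intro hx s hs
    have hs' : MulAut.conj g s ∈ MulAut.conj g • (P : Subgroup G) := by
      rw [Subgroup.mem_pointwise_smul_iff_inv_smul_mem]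
      have e : (MulAut.conj g)⁻¹ • (MulAut.conj g) s = s := by simp [MulAut.smul_def]; group
      rw [e]; exact hs
    have := hx _ hs'
    simp only [MulAut.conj_apply] at this
    have h2 : g * (s * x) * g⁻¹ = g * (x * s) * g⁻¹ := by
      calc g * (s * x) * g⁻¹ = (g * s * g⁻¹) * (g * x * g⁻¹) := by group
        _ = (g * x * g⁻¹) * (g * s * g⁻¹) := this
        _ = _ := by group
    simpa using h2

/-- `|C_G(P)|` for a Sylow `p`-subgroup. -/
noncomputable def cc (G : Type u) [Group G] [Finite G] (p : ℕ) : ℕ :=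
  if h : p.Prime then
    haveI := Fact.mk h
    Nat.card (centralizer (((Classical.arbitrary (Sylow p G) : Sylow p G) : Subgroup G) : Set G))
  else 0

theorem cc_eq {p : ℕ} [hf : Fact p.Prime] (P : Sylow p G) :
    Nat.card (centralizer ((P : Subgroup G) : Set G)) = cc G p := by
  unfold cc
  rw [dif_pos hf.out]
  exact card_centralizer_smul _ _

/-- `|N_G(P)|` for a Sylow `p`-subgroup. -/
noncomputable def nn (G : Type u) [Group G] [Finite G] (p : ℕ) : ℕ :=
  Nat.card G / Nat.card (Sylow p G)

theorem nn_eq {p : ℕ} [hf : Fact p.Prime] (P : Sylow p G) :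
    Nat.card (normalizer ((P : Subgroup G) : Set G)) = nn G p := by
  have h0 : Nat.card (Sylow p G) = (normalizer ((P : Subgroup G) : Set G)).index :=
    Sylow.card_eq_index_normalizer P
  have h1 := Subgroup.card_mul_index (normalizer ((P : Subgroup G) : Set G))
  rw [← h0] at h1
  unfold nn
  rw [← h1, Nat.mul_div_cancel _ (Nat.pos_of_ne_zero (by
    intro h
    rw [h] at h0
    exact (Subgroup.index_ne_zero_of_finite (H := normalizer ((P : Subgroup G) : Set G))) h0.symm))]

theorem card_eq_mul_nn {p : ℕ} [hf : Fact p.Prime] :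
    Nat.card (Sylow p G) * nn G p = Nat.card G := by
  obtain ⟨P⟩ : Nonempty (Sylow p G) := inferInstance
  have h0 : Nat.card (Sylow p G) = (normalizer ((P : Subgroup G) : Set G)).index :=
    Sylow.card_eq_index_normalizer P
  have h1 := Subgroup.card_mul_index (normalizer ((P : Subgroup G) : Set G))
  rw [← h0, nn_eq P] at h1
  rw [mul_comm]; exact h1

/-- The numbers `e` with `|N| = |C| * e`. -/
theorem exists_e {p : ℕ} [hf : Fact p.Prime] (h : Ex G p) :
    ∃ e, nn G p = cc G p * e ∧ e ∣ p - 1 := by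
  obtain ⟨P⟩ : Nonempty (Sylow p G) := inferInstance
  set N := normalizer ((P : Subgroup G) : Set G) with hN
  set C := centralizer ((P : Subgroup G) : Set G) with hC
  have hCN : C ≤ N := by
    intro x hx
    rw [hN, mem_normalizer_iff]
    intro y
    have := (Subgroup.mem_centralizer_iff.mp hx)
    constructor
    · intro hy
      have h2 := this y hy
      rw [← h2]; simpa using hy
    · intro hy
      have h3 : x⁻¹ ∈ C := C.inv_mem hx
      have h2 := (Subgroup.mem_centralizer_iff.mp h3) _ hy
      have e : y = x⁻¹ * (x * y * x⁻¹) * x⁻¹⁻¹ := by group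
      rw [e, ← h2]; simpa using hy
  have key := Subgroup.card_dvd_of_injective _ (QuotientGroup.kerLift_injective (P : Subgroup G).normalizerMonoidHom)
  rw [Subgroup.normalizerMonoidHom_ker, ← Subgroup.index, ← Subgroup.relIndex] at key
  have hcard := sylow_card h P
  haveI hcyc : IsCyclic (P : Subgroup G) := isCyclic_of_prime_card (p := p) hcard
  rw [IsCyclic.card_mulAut, hcard, Nat.totient_prime h.prime] at key
  refine ⟨C.relIndex N, ?_, key⟩
  have h1 := Subgroup.card_mul_index N
  have h2 := Subgroup.card_mul_index C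
  have h3 := Subgroup.relIndex_mul_index hCN
  rw [← nn_eq P, ← cc_eq P]
  have hpos : 0 < N.index := Nat.pos_of_ne_zero Subgroup.index_ne_zero_of_finite
  apply Nat.eq_of_mul_eq_mul_right hpos
  rw [h1, mul_assoc, h3, h2]

theorem p_dvd_cc {p : ℕ} [hf : Fact p.Prime] (h : Ex G p) : p ∣ cc G p := by
  obtain ⟨P⟩ : Nonempty (Sylow p G) := inferInstance
  have hcP := sylow_card h P
  rw [← cc_eq P]
  have hd : Nat.card (P : Subgroup G) ∣ Nat.card (centralizer ((P : Subgroup G) : Set G)) := by
    apply Subgroup.card_dvd_of_le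
    intro x hx
    rw [Subgroup.mem_centralizer_iff]
    intro y hy
    obtain ⟨z, hz, hz1⟩ := exists_mem_sylow_ne_one h P
    have hP := sylow_eq_zpowers h P hz hz1
    rw [SetLike.mem_coe, hP] at hy
    rw [hP] at hx
    obtain ⟨a, rfl⟩ := mem_zpowers_iff.mp hx
    obtain ⟨b, rfl⟩ := mem_zpowers_iff.mp hy
    rw [← zpow_add, ← zpow_add, add_comm]
  rwa [hcP] at hd

theorem p_dvd_cc_old {p : ℕ} [hf : Fact p.Prime] (h : Ex G p) (P : Sylow p G) :
    (P : Subgroup G) ≤ centralizer ((P : Subgroup G) : Set G) := by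
  intro x hx
  rw [Subgroup.mem_centralizer_iff]
  intro y hy
  obtain ⟨z, hz, hz1⟩ := exists_mem_sylow_ne_one h P
  have hP := sylow_eq_zpowers h P hz hz1
  rw [SetLike.mem_coe, hP] at hy
  rw [hP] at hx
  obtain ⟨a, rfl⟩ := mem_zpowers_iff.mp hx
  obtain ⟨b, rfl⟩ := mem_zpowers_iff.mp hy
  rw [← zpow_add, ← zpow_add, add_comm]

def Adj (G : Type u) [Group G] (p q : ℕ) : Prop :=
  ∃ x y : G, orderOf x = p ∧ orderOf y = q ∧ x * y = y * x

theorem adj_symm {p q : ℕ} (h : Adj G p q) : Adj G q p := by
  obtain ⟨x, y, h1, h2, h3⟩ := h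
  exact ⟨y, x, h2, h1, h3.symm⟩

theorem adj_of_dvd {p q : ℕ} [hf : Fact p.Prime] (h : Ex G p) (hq : q.Prime) (hd : q ∣ cc G p) :
    Adj G p q := by
  haveI := Fact.mk hq
  obtain ⟨P⟩ : Nonempty (Sylow p G) := inferInstance
  rw [← cc_eq P] at hd
  obtain ⟨y, hy⟩ := exists_prime_orderOf_dvd_card' q hd
  obtain ⟨x, hx, hx1⟩ := exists_mem_sylow_ne_one h P
  refine ⟨x, y, orderOf_of_mem_sylow h P hx hx1, by rw [Subgroup.orderOf_coe, hy], ?_⟩
  exact (Subgroup.mem_centralizer_iff.mp y.2) x hx

theorem dvd_of_adj {p q : ℕ} [hf : Fact p.Prime] (h : Ex G p) (ha : Adj G p q) : q ∣ cc G p := by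
  obtain ⟨x, y, hx, hy, hxy⟩ := ha
  obtain ⟨Q, hQ⟩ := exists_sylow_of_card h (zpowers x) (by rw [Nat.card_zpowers, hx])
  rw [← cc_eq Q, hQ, ← hy]
  apply Subgroup.orderOf_dvd_natCard
  rw [Subgroup.mem_centralizer_iff]
  intro s hs
  obtain ⟨k, rfl⟩ := mem_zpowers_iff.mp hs
  have hc : Commute x y := hxy
  exact ((hc.zpow_left k).eq)

theorem dvd_cc_symm {p q : ℕ} [hf : Fact p.Prime] [hf' : Fact q.Prime] (h : Ex G p) (h' : Ex G q)
    (hd : q ∣ cc G p) : p ∣ cc G q :=
  dvd_of_adj h' (adj_symm (adj_of_dvd h h'.prime hd))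

theorem not_adj_of_not_dvd {p q : ℕ} [hf : Fact p.Prime] (h : Ex G p) (hd : ¬ q ∣ cc G p) :
    ¬ Adj G p q := fun ha => hd (dvd_of_adj h ha)

/-- Rule R4. -/
theorem nn_dvd_nn {p q : ℕ} [hf : Fact p.Prime] [hf' : Fact q.Prime] (h : Ex G p) (h' : Ex G q)
    (hpq : p ≠ q) (hd : q ∣ cc G p) (hu : ∀ d, d ∣ cc G p / p → d = 1 ∨ d % q ≠ 1) :
    nn G p ∣ nn G q := by
  obtain ⟨P⟩ : Nonempty (Sylow p G) := inferInstance
  set C := centralizer ((P : Subgroup G) : Set G) with hC
  have hcC : Nat.card C = cc G p := cc_eq P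
  rw [← hcC] at hd
  have hNC : (normalizer ((P : Subgroup G) : Set G)) ≤ normalizer (C : Set G) := by
    intro g hg
    rw [mem_normalizer_iff] at hg ⊢
    intro x
    simp only [hC, Subgroup.mem_centralizer_iff]
    constructor
    · intro hx s hs
      have h1 := (hg (g⁻¹ * s * g)).mpr (by
        have e : g * (g⁻¹ * s * g) * g⁻¹ = s := by group
        rw [e]; exact hs)
      have h2 := hx _ h1
      calc s * (g * x * g⁻¹) = g * ((g⁻¹ * s * g) * x) * g⁻¹ := by group
        _ = g * (x * (g⁻¹ * s * g)) * g⁻¹ := by rw [h2]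
        _ = _ := by group
    · intro hx s hs
      have h1 := (hg s).mp hs
      have h2 := hx _ h1
      have h3 : g * (s * x) * g⁻¹ = g * (x * s) * g⁻¹ := by
        calc g * (s * x) * g⁻¹ = (g * s * g⁻¹) * (g * x * g⁻¹) := by group
          _ = (g * x * g⁻¹) * (g * s * g⁻¹) := h2
          _ = _ := by group
      simpa using h3
  -- a Sylow `q`-subgroup of the centralizer
  obtain ⟨R⟩ : Nonempty (Sylow q C) := inferInstance
  have hRq : q ∣ Nat.card (R : Subgroup C) := R.dvd_card_of_dvd_card hd
  -- the central copy of `P` in `C`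
  have hPC : (P : Subgroup G) ≤ C := by
    intro x hx
    rw [hC, Subgroup.mem_centralizer_iff]
    intro y hy
    obtain ⟨z, hz, hz1⟩ := exists_mem_sylow_ne_one h P
    have hP := sylow_eq_zpowers h P hz hz1
    rw [SetLike.mem_coe, hP] at hy
    rw [hP] at hx
    obtain ⟨a, rfl⟩ := mem_zpowers_iff.mp hx
    obtain ⟨b, rfl⟩ := mem_zpowers_iff.mp hy
    rw [← zpow_add, ← zpow_add, add_comm]
  -- `n_q(C)` divides `|C| / p`
  have hidx : Nat.card (Sylow q C) ∣ cc G p / p := by
    have h0 : Nat.card (Sylow q C) = (normalizer ((R : Subgroup C) : Set C)).index :=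
      Sylow.card_eq_index_normalizer R
    have h1 := Subgroup.card_mul_index (normalizer ((R : Subgroup C) : Set C))
    rw [hcC] at h1
    have hP' : (P : Subgroup G).subgroupOf C ≤ normalizer ((R : Subgroup C) : Set C) := by
      intro x hx
      rw [mem_normalizer_iff]
      intro y
      have hxc : ∀ w : C, x * w = w * x := by
        intro w
        apply Subtype.ext
        have := (Subgroup.mem_centralizer_iff.mp w.2) x.1 hx
        simpa using this
      have e : x * y * x⁻¹ = y := by
        rw [hxc y]; group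
      rw [e]
    have hcP : Nat.card ((P : Subgroup G).subgroupOf C) = p := by
      rw [Nat.card_congr (Subgroup.subgroupOfEquivOfLe hPC).toEquiv, sylow_card h P]
    have h2 : p ∣ Nat.card (normalizer ((R : Subgroup C) : Set C)) := by
      rw [← hcP]
      exact Subgroup.card_dvd_of_le hP'
    obtain ⟨k, hk⟩ := h2
    rw [h0]
    have hpp := h.prime.pos
    rw [← h1, hk, mul_assoc, Nat.mul_div_cancel_left _ hpp]
    exact dvd_mul_left _ _
  have hmod : Nat.card (Sylow q C) % q = 1 % q := card_sylow_modEq_one q C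
  have h1q : 1 % q = 1 := Nat.mod_eq_of_lt h'.prime.one_lt
  have hn1 : Nat.card (Sylow q C) = 1 := by
    rcases hu _ hidx with h3 | h3
    · exact h3
    · exact absurd (hmod.trans h1q) h3
  -- normal in `C`, hence characteristic
  have hRn : (R : Subgroup C).Normal := by
    have h0 : Nat.card (Sylow q C) = (normalizer ((R : Subgroup C) : Set C)).index :=
      Sylow.card_eq_index_normalizer R
    rw [hn1] at h0
    exact Subgroup.normalizer_eq_top_iff.mp (Subgroup.index_eq_one.mp h0.symm)
  haveI hchar : (R : Subgroup C).Characteristic := R.characteristic_of_normal hRn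
  set Q' : Subgroup G := (R : Subgroup C).map C.subtype with hQ'
  have hQc : Nat.card Q' = Nat.card (R : Subgroup C) :=
    Subgroup.card_map_of_injective C.subtype_injective
  have hQq : Nat.card Q' = q := by
    rw [hQc]
    obtain ⟨n, hn⟩ := IsPGroup.iff_card.mp R.isPGroup'
    rcases n with _ | _ | n
    · rw [hn] at hRq; simp at hRq; exact absurd hRq h'.prime.one_lt.ne'
    · rw [hn]; simp
    · exfalso
      apply h'.sq
      have h1 : q ^ 2 ∣ Nat.card (R : Subgroup C) := by rw [hn]; exact pow_dvd_pow q (by omega)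
      exact (h1.trans (Subgroup.card_subgroup_dvd_card _)).trans (Subgroup.card_subgroup_dvd_card _)
  obtain ⟨Q, hQ⟩ := exists_sylow_of_card h' Q' hQq
  -- `N(P)` normalizes `Q'`
  have hle : normalizer ((P : Subgroup G) : Set G) ≤ normalizer ((Q : Subgroup G) : Set G) := by
    intro g hg
    have hgC := hNC hg
    rw [mem_normalizer_iff]
    intro x
    rw [hQ]
    -- conjugation by `g` is an automorphism of `C`
    let φ : C ≃* C :=
      { toFun := fun c => ⟨g * c * g⁻¹, (mem_normalizer_iff.mp hgC c).mp c.2⟩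
        invFun := fun c => ⟨g⁻¹ * c * g, by
          have := (mem_normalizer_iff.mp hgC (g⁻¹ * c * g)).mpr (by
            have e : g * (g⁻¹ * c * g) * g⁻¹ = c := by group
            rw [e]; exact c.2)
          exact this⟩
        left_inv := fun c => Subtype.ext (by show g⁻¹ * (g * (c : G) * g⁻¹) * g = c; group)
        right_inv := fun c => Subtype.ext (by show g * (g⁻¹ * (c : G) * g) * g⁻¹ = c; group)
        map_mul' := fun a b => Subtype.ext (by
          show g * ((a : G) * b) * g⁻¹ = (g * a * g⁻¹) * (g * b * g⁻¹); group) }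
    have hmap := Subgroup.characteristic_iff_map_eq.mp hchar φ
    constructor
    · rintro ⟨c, hc, rfl⟩
      refine ⟨φ c, ?_, rfl⟩
      rw [← hmap]
      exact ⟨c, hc, rfl⟩
    · rintro ⟨c, hc, hcx⟩
      have hcx' : (c : G) = g * x * g⁻¹ := hcx
      rw [← hmap] at hc
      obtain ⟨c', hc', hcc⟩ := hc
      refine ⟨c', hc', ?_⟩
      have h5 : g * (c' : G) * g⁻¹ = c := congrArg Subtype.val hcc
      have h6 : g * (c' : G) * g⁻¹ = g * x * g⁻¹ := h5.trans hcx'
      have : (c' : G) = x := by simpa using h6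
      exact this
  rw [← nn_eq P, ← nn_eq Q]
  exact Subgroup.card_dvd_of_le hle

section count

open Classical in
/-- Elements of order divisible by `p`. -/
noncomputable def Y (G : Type u) [Group G] [Finite G] (p : ℕ) : Finset G :=
  haveI := Fintype.ofFinite G
  Finset.univ.filter (fun g => p ∣ orderOf g)

theorem mem_Y {p : ℕ} {g : G} : g ∈ Y G p ↔ p ∣ orderOf g := by
  classical
  unfold Y
  simp

theorem mem_sylow_of_central {p : ℕ} [hf : Fact p.Prime] (h : Ex G p) (P : Sylow p G) {g : G}
    (hg : g ∈ centralizer ((P : Subgroup G) : Set G)) (hp : p ∣ orderOf g) :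
    g ^ (orderOf g / p) ∈ (P : Subgroup G) ∧ g ^ (orderOf g / p) ≠ 1 := by
  set z := g ^ (orderOf g / p) with hz
  have hoz : orderOf z = p := orderOf_pow_orderOf_div (orderOf_pos g).ne' hp
  have hz1 : z ≠ 1 := by
    intro h0
    rw [h0, orderOf_one] at hoz
    exact h.prime.one_lt.ne hoz
  refine ⟨?_, hz1⟩
  have hzc : z ∈ centralizer ((P : Subgroup G) : Set G) := Subgroup.pow_mem _ hg _
  apply Cfsg.Agent.S1018.mem_sylow_of_normalizes P
  · exact IsPGroup.of_card (n := 1) (by rw [Nat.card_zpowers, hoz, pow_one])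
  · rw [mem_normalizer_iff]
    intro y
    have hy := Subgroup.mem_centralizer_iff.mp hzc
    constructor
    · intro hy'
      have h2 := hy y hy'
      have e : z * y * z⁻¹ = y := by rw [← h2]; group
      rw [e]; exact hy'
    · intro hy'
      have h3 : z⁻¹ ∈ centralizer ((P : Subgroup G) : Set G) := Subgroup.inv_mem _ hzc
      have h2 := (Subgroup.mem_centralizer_iff.mp h3) _ hy'
      have e : y = z⁻¹ * (z * y * z⁻¹) * z⁻¹⁻¹ := by group
      rw [e, ← h2]; simpa using hy'

open Classical in
theorem lower_W {p : ℕ} [hf : Fact p.Prime] (h : Ex G p) (P : Sylow p G) :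
    haveI := Fintype.ofFinite G
    cc G p - cc G p / p ≤ (Finset.univ.filter (fun g : G =>
      g ∈ centralizer ((P : Subgroup G) : Set G) ∧ p ∣ orderOf g)).card := by
  letI := Fintype.ofFinite G
  set C := centralizer ((P : Subgroup G) : Set G) with hC
  set B : Finset G := Finset.univ.filter (fun g : G => g ∈ C ∧ ¬ p ∣ orderOf g) with hB
  set W : Finset G := Finset.univ.filter (fun g : G => g ∈ C ∧ p ∣ orderOf g) with hW
  set A : Finset G := Finset.univ.filter (fun g : G => g ∈ C) with hA
  have hAc : A.card = cc G p := by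
    rw [← cc_eq P, Nat.card_eq_fintype_card]
    rw [Fintype.card_subtype]
  have hsplit : W.card + B.card = A.card := by
    rw [hA, ← Finset.card_filter_add_card_filter_not (s := Finset.univ.filter (fun g : G => g ∈ C))
      (fun g => p ∣ orderOf g)]
    congr 2 <;> (ext g; simp [hW, hB])
  set Pf : Finset G := Finset.univ.filter (fun g : G => g ∈ (P : Subgroup G)) with hPf
  have hPc : Pf.card = p := by
    rw [← sylow_card h P, Nat.card_eq_fintype_card, Fintype.card_subtype]
  have hPC : (P : Subgroup G) ≤ C := by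
    intro x hx
    rw [hC, Subgroup.mem_centralizer_iff]
    intro y hy
    obtain ⟨z, hz, hz1⟩ := exists_mem_sylow_ne_one h P
    have hP := sylow_eq_zpowers h P hz hz1
    rw [SetLike.mem_coe, hP] at hy
    rw [hP] at hx
    obtain ⟨a, rfl⟩ := mem_zpowers_iff.mp hx
    obtain ⟨b, rfl⟩ := mem_zpowers_iff.mp hy
    rw [← zpow_add, ← zpow_add, add_comm]
  have hinj : B.card * p ≤ A.card := by
    rw [← hPc, ← Finset.card_product]
    apply Finset.card_le_card_of_injOn (fun x => x.1 * x.2)
    · rintro ⟨b, u⟩ hx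
      simp only [Finset.coe_product, Set.mem_prod, Finset.mem_coe, hB, hPf, Finset.mem_filter,
        Finset.mem_univ, true_and] at hx
      simp only [Finset.mem_coe, hA, Finset.mem_filter, Finset.mem_univ, true_and]
      exact C.mul_mem hx.1.1 (hPC hx.2)
    · rintro ⟨b, u⟩ hx ⟨b', u'⟩ hx' he
      simp only [Finset.coe_product, Set.mem_prod, Finset.mem_coe, hB, hPf, Finset.mem_filter,
        Finset.mem_univ, true_and] at hx hx'
      simp only at he
      -- `b' = b * w` with `w ∈ P`
      set w := u * u'⁻¹ with hw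
      have hwP : w ∈ (P : Subgroup G) := (P : Subgroup G).mul_mem hx.2 ((P : Subgroup G).inv_mem hx'.2)
      have hb' : b' = b * w := by
        rw [hw, ← mul_assoc, he]; group
      by_cases hw1 : w = 1
      · have hbb : b' = b := by rw [hb', hw1, mul_one]
        have huu : u = u' := by
          rw [hw] at hw1
          exact mul_inv_eq_one.mp hw1
        rw [hbb, huu]
      · exfalso
        have hoz := orderOf_of_mem_sylow h P hwP hw1
        have hcomm : Commute b w := ((Subgroup.mem_centralizer_iff.mp hx.1.1) w hwP).symm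
        have hcop : Nat.Coprime (orderOf b) (orderOf w) := by
          rw [hoz]
          exact ((Nat.Prime.coprime_iff_not_dvd h.prime).mpr hx.1.2).symm
        have h5 := hcomm.orderOf_mul_eq_mul_orderOf_of_coprime hcop
        rw [← hb', hoz] at h5
        exact hx'.1.2 (h5 ▸ dvd_mul_left _ _)
  have hBle : B.card ≤ cc G p / p := by
    rw [Nat.le_div_iff_mul_le h.prime.pos, ← hAc]
    exact hinj
  omega

theorem lower_Y {p : ℕ} [hf : Fact p.Prime] (h : Ex G p) :
    Nat.card (Sylow p G) * (cc G p - cc G p / p) ≤ (Y G p).card := by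
  classical
  letI := Fintype.ofFinite G
  letI := Fintype.ofFinite (Sylow p G)
  let W : Sylow p G → Finset G := fun P => Finset.univ.filter (fun g : G =>
      g ∈ centralizer ((P : Subgroup G) : Set G) ∧ p ∣ orderOf g)
  have hdisj : ∀ P ∈ (Finset.univ : Finset (Sylow p G)), ∀ Q ∈ (Finset.univ : Finset (Sylow p G)),
      P ≠ Q → Disjoint (W P) (W Q) := by
    intro P _ Q _ hPQ
    rw [Finset.disjoint_left]
    intro g hg hg'
    simp only [W, Finset.mem_filter, Finset.mem_univ, true_and] at hg hg'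
    obtain ⟨h1, h2⟩ := mem_sylow_of_central h P hg.1 hg.2
    obtain ⟨h3, _⟩ := mem_sylow_of_central h Q hg'.1 hg'.2
    apply hPQ
    apply Sylow.ext
    rw [sylow_eq_zpowers h P h1 h2, sylow_eq_zpowers h Q h3 h2]
  have hsub : (Finset.univ : Finset (Sylow p G)).biUnion W ⊆ Y G p := by
    intro g hg
    rw [Finset.mem_biUnion] at hg
    obtain ⟨P, _, hP⟩ := hg
    simp only [W, Finset.mem_filter, Finset.mem_univ, true_and] at hP
    exact mem_Y.mpr hP.2
  calc Nat.card (Sylow p G) * (cc G p - cc G p / p)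
      = (Finset.univ : Finset (Sylow p G)).card • (cc G p - cc G p / p) := by
        rw [Nat.card_eq_fintype_card, Finset.card_univ, smul_eq_mul]
    _ ≤ ∑ P ∈ (Finset.univ : Finset (Sylow p G)), (W P).card := by
        apply Finset.card_nsmul_le_sum
        intro P _
        have := lower_W h P
        convert this
    _ = ((Finset.univ : Finset (Sylow p G)).biUnion W).card := (Finset.card_biUnion hdisj).symm
    _ ≤ (Y G p).card := Finset.card_le_card hsub

theorem adj_of_mem_both {p q : ℕ} (hp : p.Prime) (hq : q.Prime) (hpq : p ≠ q) {g : G}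
    (h1 : g ∈ Y G p) (h2 : g ∈ Y G q) : Adj G p q := by
  rw [mem_Y] at h1 h2
  refine ⟨g ^ (orderOf g / p), g ^ (orderOf g / q), orderOf_pow_orderOf_div (orderOf_pos g).ne' h1,
    orderOf_pow_orderOf_div (orderOf_pos g).ne' h2, ?_⟩
  rw [← pow_add, ← pow_add, add_comm]

/-- Disjoint union of the `Y`s for pairwise non-adjacent primes. -/
theorem sum_Y_lt (S : List ℕ) (hnd : S.Nodup) (hpr : ∀ p ∈ S, p.Prime)
    (hind : ∀ a ∈ S, ∀ b ∈ S, a ≠ b → ¬ Adj G a b) :
    (S.map fun p => (Y G p).card).sum < Nat.card G := by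
  classical
  letI := Fintype.ofFinite G
  have key : ∀ S : List ℕ, S.Nodup → (∀ p ∈ S, p.Prime) → (∀ a ∈ S, ∀ b ∈ S, a ≠ b → ¬ Adj G a b) →
      (S.map fun p => (Y G p).card).sum = (S.toFinset.biUnion (fun p => Y G p)).card := by
    intro S
    induction S with
    | nil => intros; simp
    | cons p S ih =>
      intro hnd hpr hind
      rw [List.nodup_cons] at hnd
      have h1 := ih hnd.2 (fun q hq => hpr q (List.mem_cons_of_mem _ hq))
        (fun a ha b hb => hind a (List.mem_cons_of_mem _ ha) b (List.mem_cons_of_mem _ hb))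
      rw [List.map_cons, List.sum_cons, h1, List.toFinset_cons, Finset.biUnion_insert,
        Finset.card_union_of_disjoint]
      rw [Finset.disjoint_left]
      intro g hg hg'
      rw [Finset.mem_biUnion] at hg'
      obtain ⟨q, hq, hgq⟩ := hg'
      have hqS : q ∈ S := List.mem_toFinset.mp hq
      have hpq : p ≠ q := fun h0 => hnd.1 (h0 ▸ hqS)
      exact hind p (by simp) q (List.mem_cons_of_mem _ hqS) hpq
        (adj_of_mem_both (hpr p (by simp)) (hpr q (List.mem_cons_of_mem _ hqS)) hpq hg hgq)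
  rw [key S hnd hpr hind, Nat.card_eq_fintype_card]
  have hss : S.toFinset.biUnion (fun p => Y G p) ⊆ Finset.univ.erase (1 : G) := by
    intro g hg
    rw [Finset.mem_biUnion] at hg
    obtain ⟨q, hq, hgq⟩ := hg
    rw [Finset.mem_erase]
    refine ⟨?_, Finset.mem_univ _⟩
    rintro rfl
    rw [mem_Y, orderOf_one] at hgq
    exact (hpr q (List.mem_toFinset.mp hq)).one_lt.ne' (Nat.dvd_one.mp hgq)
  have h2 := Finset.card_le_card hss
  rw [Finset.card_erase_of_mem (Finset.mem_univ _), Finset.card_univ] at h2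
  have hpos : 0 < Fintype.card G := Fintype.card_pos
  omega

end count

section twenty

theorem sign_trivial [IsSimpleGroup G] (hlarge : 2 < Nat.card G) {α : Type*} [Fintype α]
    [DecidableEq α] (ρ : G →* Equiv.Perm α) (g : G) : Equiv.Perm.sign (ρ g) = 1 := by
  let f : G →* ℤˣ := (Equiv.Perm.sign : Equiv.Perm α →* ℤˣ).comp ρ
  have hn : f.ker.Normal := inferInstance
  rcases hn.eq_bot_or_eq_top with h | h
  · exfalso
    have hinj : Function.Injective f := (MonoidHom.ker_eq_bot_iff f).mp h
    have h1 : Nat.card G ≤ Nat.card ℤˣ := Nat.card_le_card_of_injective f hinj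
    have h2 : Nat.card ℤˣ = 2 := by
      rw [Nat.card_eq_fintype_card, Fintype.card_units_int]
    omega
  · have : g ∈ f.ker := by rw [h]; exact mem_top g
    exact this

theorem odd_nn_of_twenty [IsSimpleGroup G] (h : Ex G 19) [hf : Fact (Nat.Prime 19)]
    (hlarge : 2 < Nat.card G) (hcard : Nat.card (Sylow 19 G) = 20) : nn G 19 % 2 = 1 := by
  classical
  letI := Fintype.ofFinite G
  by_contra hodd
  have h2n : 2 ∣ nn G 19 := by omega
  obtain ⟨P⟩ : Nonempty (Sylow 19 G) := inferInstance
  rw [← nn_eq P] at h2n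
  haveI : Fact (Nat.Prime 2) := ⟨Nat.prime_two⟩
  obtain ⟨t, ht⟩ := exists_prime_orderOf_dvd_card' 2 h2n
  have htN : (t : G) ∈ normalizer ((P : Subgroup G) : Set G) := t.2
  have hot : orderOf (t : G) = 2 := by rw [Subgroup.orderOf_coe, ht]
  letI := Fintype.ofFinite (Sylow 19 G)
  set τ : G := (t : G) with hτ
  have htP : τ • P = P := Sylow.smul_eq_iff_mem_normalizer.mpr htN
  -- the action
  let ρ : G →* Equiv.Perm (Sylow 19 G) := MulAction.toPermHom G (Sylow 19 G)
  have hρ : ∀ g Q, ρ g Q = g • Q := fun _ _ => rfl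
  have hker : ρ.ker = ⊥ := by
    have hn : ρ.ker.Normal := inferInstance
    rcases hn.eq_bot_or_eq_top with h0 | h0
    · exact h0
    · exfalso
      have hall : ∀ Q : Sylow 19 G, Q = P := by
        intro Q
        obtain ⟨g, rfl⟩ := MulAction.exists_smul_eq G P Q
        have : g ∈ ρ.ker := by rw [h0]; exact mem_top g
        have h3 : ρ g = 1 := this
        have h4 := congrArg (fun σ : Equiv.Perm (Sylow 19 G) => σ P) h3
        simpa [hρ] using h4
      have h5 : Nat.card (Sylow 19 G) = 1 := by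
        rw [Nat.card_eq_one_iff_unique]
        exact ⟨⟨fun a b => by rw [hall a, hall b]⟩, ⟨P⟩⟩
      omega
  have hρinj : Function.Injective ρ := (MonoidHom.ker_eq_bot_iff ρ).mp hker
  have hoσ : orderOf (ρ τ) = 2 := by
    rw [orderOf_injective ρ hρinj, hot]
  have h2p : Nat.Prime (orderOf (ρ τ)) := by rw [hoσ]; exact Nat.prime_two
  obtain ⟨n, hn⟩ := Equiv.Perm.cycleType_prime_order h2p
  have hsupp : (ρ τ).support.card = 2 * (n + 1) := by
    rw [← Equiv.Perm.sum_cycleType, hn, hoσ, Multiset.sum_replicate, smul_eq_mul, mul_comm]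
  have hsign : Equiv.Perm.sign (ρ τ) = 1 := sign_trivial hlarge ρ τ
  rw [Equiv.Perm.sign_of_cycleType, hn, hoσ, Multiset.sum_replicate, Multiset.card_replicate] at hsign
  have heven : Even (n + 1) := by
    by_contra hne
    rw [Nat.not_even_iff_odd] at hne
    have : Odd ((n + 1) • 2 + (n + 1)) := by
      simp only [smul_eq_mul]
      obtain ⟨k, hk⟩ := hne
      exact ⟨3 * k + 1, by omega⟩
    rw [this.neg_one_pow] at hsign
    exact absurd hsign (by decide)
  have h4 : 4 ∣ (ρ τ).support.card := by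
    rw [hsupp]
    obtain ⟨k, hk⟩ := heven
    exact ⟨k, by omega⟩
  -- fixed points: at most two
  have hPnot : P ∉ (ρ τ).support := by
    rw [Equiv.Perm.mem_support, hρ, htP]; simp
  have hcardF : Fintype.card (Sylow 19 G) = 20 := by rw [← Nat.card_eq_fintype_card, hcard]
  have hle19 : (ρ τ).support.card ≤ 19 := by
    have : (ρ τ).support ⊆ Finset.univ.erase P := by
      intro Q hQ
      rw [Finset.mem_erase]
      exact ⟨fun h0 => hPnot (h0 ▸ hQ), Finset.mem_univ _⟩
    have h5 := Finset.card_le_card this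
    rw [Finset.card_erase_of_mem (Finset.mem_univ _), Finset.card_univ, hcardF] at h5
    omega
  -- the stabilizer of `Q ≠ P` meets `P` trivially
  have hstab : ∀ Q : Sylow 19 G, Q ≠ P → ∀ u ∈ (P : Subgroup G), u • Q = Q → u = 1 := by
    intro Q hQ u hu huQ
    by_contra hu1
    have hN : u ∈ normalizer ((Q : Subgroup G) : Set G) := Sylow.smul_eq_iff_mem_normalizer.mp huQ
    have hoz := orderOf_of_mem_sylow h P hu hu1
    have huQ' : u ∈ (Q : Subgroup G) := by
      apply Cfsg.Agent.S1018.mem_sylow_of_normalizes Q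
      · exact IsPGroup.of_card (n := 1) (by rw [Nat.card_zpowers, hoz, pow_one])
      · exact hN
    apply hQ
    apply Sylow.ext
    rw [sylow_eq_zpowers h P hu hu1, sylow_eq_zpowers h Q huQ' hu1]
  -- the translates of `Q₁` exhaust the Sylow subgroups `≠ P`
  have htrans : ∀ Q₁ : Sylow 19 G, Q₁ ≠ P → ∀ Q : Sylow 19 G, Q ≠ P →
      ∃ u ∈ (P : Subgroup G), u • Q₁ = Q := by
    intro Q₁ hQ₁ Q hQ
    let PF : Finset G := Finset.univ.filter (fun u => u ∈ (P : Subgroup G))
    have hPF : PF.card = 19 := by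
      rw [← sylow_card h P, Nat.card_eq_fintype_card, Fintype.card_subtype]
    have himg : PF.image (fun u => u • Q₁) ⊆ Finset.univ.erase P := by
      intro R hR
      rw [Finset.mem_image] at hR
      obtain ⟨u, hu, rfl⟩ := hR
      have huP : u ∈ (P : Subgroup G) := (Finset.mem_filter.mp hu).2
      rw [Finset.mem_erase]
      refine ⟨?_, Finset.mem_univ _⟩
      intro h0
      apply hQ₁
      have h1 : u⁻¹ ∈ normalizer ((P : Subgroup G) : Set G) :=
        Subgroup.le_normalizer ((P : Subgroup G).inv_mem huP)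
      have h2 : u⁻¹ • P = P := Sylow.smul_eq_iff_mem_normalizer.mpr h1
      have h3 : u⁻¹ • (u • Q₁) = Q₁ := inv_smul_smul u Q₁
      have h4 : u • Q₁ = P := h0
      rw [h4, h2] at h3
      exact h3.symm
    have hinj : Set.InjOn (fun u : G => u • Q₁) (PF : Set G) := by
      intro u hu v hv huv
      have huP : u ∈ (P : Subgroup G) := (Finset.mem_filter.mp (Finset.mem_coe.mp hu)).2
      have hvP : v ∈ (P : Subgroup G) := (Finset.mem_filter.mp (Finset.mem_coe.mp hv)).2
      have h1 : (v⁻¹ * u) • Q₁ = Q₁ := by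
        rw [mul_smul]
        have huv' : u • Q₁ = v • Q₁ := huv
        rw [huv', inv_smul_smul]
      have h2 := hstab Q₁ hQ₁ _ ((P : Subgroup G).mul_mem ((P : Subgroup G).inv_mem hvP) huP) h1
      exact (inv_mul_eq_one.mp h2).symm
    have hcard2 : (PF.image (fun u => u • Q₁)).card = 19 := by
      rw [Finset.card_image_of_injOn hinj, hPF]
    have heq : PF.image (fun u => u • Q₁) = Finset.univ.erase P := by
      apply Finset.eq_of_subset_of_card_le himg
      rw [hcard2, Finset.card_erase_of_mem (Finset.mem_univ _), Finset.card_univ, hcardF]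
    have hmem : Q ∈ PF.image (fun u => u • Q₁) := by
      rw [heq, Finset.mem_erase]
      exact ⟨hQ, Finset.mem_univ _⟩
    rw [Finset.mem_image] at hmem
    obtain ⟨u, hu, huQ⟩ := hmem
    exact ⟨u, (Finset.mem_filter.mp hu).2, huQ⟩
  have hatmost : ∀ Q₁ Q₂ : Sylow 19 G, Q₁ ≠ P → Q₂ ≠ P → Q₁ ≠ Q₂ → τ • Q₁ = Q₁ → τ • Q₂ = Q₂ → False := by
    intro Q₁ Q₂ h1 h2 h12 ht1 ht2
    obtain ⟨u, hu, huQ⟩ := htrans Q₁ h1 Q₂ h2
    have hu1 : u ≠ 1 := by
      rintro rfl
      rw [one_smul] at huQ
      exact h12 huQ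
    have hw : τ * u * τ⁻¹ ∈ (P : Subgroup G) := (mem_normalizer_iff.mp htN u).mp hu
    have hτinv : τ⁻¹ • Q₁ = Q₁ := by
      conv_lhs => rw [← ht1]
      rw [inv_smul_smul]
    have h3 : (τ * u * τ⁻¹) • Q₁ = u • Q₁ := by
      rw [mul_smul, mul_smul, hτinv, huQ, ht2]
    have h4 : (u⁻¹ * (τ * u * τ⁻¹)) • Q₁ = Q₁ := by
      rw [mul_smul, h3, inv_smul_smul]
    have h5 := hstab Q₁ h1 _ ((P : Subgroup G).mul_mem ((P : Subgroup G).inv_mem hu) hw) h4
    have h6 : τ * u * τ⁻¹ = u := (inv_mul_eq_one.mp h5).symm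
    have hcomm : τ * u = u * τ := by
      calc τ * u = τ * u * τ⁻¹ * τ := by group
        _ = u * τ := by rw [h6]
    have hP := sylow_eq_zpowers h P hu hu1
    have hall : ρ τ = 1 := by
      refine Equiv.ext fun Q => ?_
      show τ • Q = Q
      by_cases hQ : Q = P
      · rw [hQ]; exact htP
      · obtain ⟨v, hv, rfl⟩ := htrans Q₁ h1 Q hQ
        rw [hP] at hv
        obtain ⟨k, rfl⟩ := mem_zpowers_iff.mp hv
        have hc : Commute τ u := hcomm
        rw [← mul_smul, (hc.zpow_right k).eq, mul_smul, ht1]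
    have : τ = 1 := by
      apply hρinj
      rw [hall, map_one]
    rw [this, orderOf_one] at hot
    omega
  have hge18 : 18 ≤ (ρ τ).support.card := by
    by_cases hex : ∃ Q₁ : Sylow 19 G, Q₁ ≠ P ∧ τ • Q₁ = Q₁
    · obtain ⟨Q₁, h1, h2⟩ := hex
      have hsub : (Finset.univ.erase P).erase Q₁ ⊆ (ρ τ).support := by
        intro Q hQ
        rw [Finset.mem_erase, Finset.mem_erase] at hQ
        rw [Equiv.Perm.mem_support, hρ]
        intro h3
        exact hatmost Q₁ Q h1 hQ.2.1 (Ne.symm hQ.1) h2 h3
      have h5 := Finset.card_le_card hsub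
      rw [Finset.card_erase_of_mem (by simp [h1]), Finset.card_erase_of_mem (Finset.mem_univ _),
        Finset.card_univ, hcardF] at h5
      omega
    · push Not at hex
      have hsub : Finset.univ.erase P ⊆ (ρ τ).support := by
        intro Q hQ
        rw [Finset.mem_erase] at hQ
        rw [Equiv.Perm.mem_support, hρ]
        exact hex Q hQ.1
      have h5 := Finset.card_le_card hsub
      rw [Finset.card_erase_of_mem (Finset.mem_univ _), Finset.card_univ, hcardF] at h5
      omega
  omega

end twenty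
/-- Divisors as a list. -/
def divs (n : ℕ) : List ℕ := (List.range (n + 1)).filter (fun d => d ≠ 0 ∧ d ∣ n)

theorem mem_divs {n d : ℕ} (hn : n ≠ 0) : d ∈ divs n ↔ d ∣ n := by
  unfold divs
  rw [List.mem_filter, List.mem_range]
  constructor
  · rintro ⟨_, h⟩
    simp only [decide_eq_true_eq] at h
    exact h.2
  · intro h
    have hle := Nat.le_of_dvd (Nat.pos_of_ne_zero hn) h
    refine ⟨by omega, ?_⟩
    simp only [decide_eq_true_eq]
    exact ⟨fun h0 => by rw [h0, zero_dvd_iff] at h; exact hn h, h⟩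

/-- Possible `(|N(P)|, |C(P)|)` for the prime `p`. -/
def cands (N p : ℕ) : List (ℕ × ℕ) :=
  if p ∣ N then
    (divs (N / p)).flatMap fun d =>
      if d % p = 1 ∧ d ≠ 1 then
        (divs (Nat.gcd (N / p / d) (p - 1))).filterMap fun e =>
          if e ≠ 1 then some (N / d, N / d / e) else none
      else []
  else [(1, 1)]

def ps (N : ℕ) : List ℕ := [19, 11, 7, 5, 3].filter (· ∣ N)

def mk (a b c d e : ℕ × ℕ) (p : ℕ) : ℕ × ℕ :=
  if p = 19 then a else if p = 11 then b else if p = 7 then c else if p = 5 then d else e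

def Pair (p q : ℕ) (x y : ℕ × ℕ) : Prop := q ∣ x.2 ↔ p ∣ y.2

instance (p q : ℕ) (x y : ℕ × ℕ) : Decidable (Pair p q x y) := by
  unfold Pair; infer_instance

def Valid (N : ℕ) (T : ℕ → ℕ × ℕ) : Prop :=
  (∀ p ∈ ps N, ∀ q ∈ ps N, p ≠ q → q ∣ (T p).2 →
    (∀ d ∈ divs ((T p).2 / p), d = 1 ∨ d % q ≠ 1) → (T p).1 ∣ (T q).1) ∧
  (19 ∣ N → N / (T 19).1 = 20 → (T 19).1 % 2 = 1) ∧
  (∀ S ∈ (ps N).sublists, (∀ a ∈ S, ∀ b ∈ S, a ≠ b → ¬ b ∣ (T a).2) →
    (S.map fun p => (N / (T p).1) * ((T p).2 - (T p).2 / p)).sum < N)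

instance (N : ℕ) (T : ℕ → ℕ × ℕ) : Decidable (Valid N T) := by
  unfold Valid; infer_instance

def orders : List ℕ := ((divs 9240).filter (fun m => m ≠ 1 ∧ m ≠ 9240)).map (19 * ·)

theorem check : ∀ N ∈ orders, ∀ a ∈ cands N 19, ∀ b ∈ cands N 11, Pair 19 11 a b →
    ∀ c ∈ cands N 7, Pair 19 7 a c → Pair 11 7 b c →
    ∀ d ∈ cands N 5, Pair 19 5 a d → Pair 11 5 b d → Pair 7 5 c d →
    ∀ e ∈ cands N 3, Pair 19 3 a e → Pair 11 3 b e → Pair 7 3 c e → Pair 5 3 d e →
    ¬ Valid N (mk a b c d e) := by
  decide +kernel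

section final

theorem ex_of_dvd {p : ℕ} (hp : p.Prime) (hp2 : ¬ p ^ 2 ∣ 175560) (h1 : Nat.card G ∣ 175560)
    (h2 : p ∣ Nat.card G) : Ex G p :=
  ⟨hp, h2, fun h => hp2 (h.trans h1)⟩

theorem cc_dvd_card {p : ℕ} [hf : Fact p.Prime] : cc G p ∣ Nat.card G := by
  obtain ⟨P⟩ : Nonempty (Sylow p G) := inferInstance
  rw [← cc_eq P]
  exact Subgroup.card_subgroup_dvd_card _

/-- The table entry. -/
noncomputable def ent (G : Type u) [Group G] [Finite G] (p : ℕ) : ℕ × ℕ :=
  open Classical in if p ∣ Nat.card G then (nn G p, cc G p) else (1, 1)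

theorem ent_mem [IsSimpleGroup G] {p : ℕ} (hp : p.Prime) (hp2 : ¬ p ^ 2 ∣ 175560)
    (h1 : Nat.card G ∣ 175560) (hne : Nat.card G ≠ p) : ent G p ∈ cands (Nat.card G) p := by
  classical
  unfold ent cands
  by_cases hd : p ∣ Nat.card G
  · rw [if_pos hd, if_pos hd]
    haveI := Fact.mk hp
    have hex : Ex G p := ex_of_dvd hp hp2 h1 hd
    obtain ⟨P⟩ : Nonempty (Sylow p G) := inferInstance
    set d := Nat.card (Sylow p G) with hdd
    have hNd : d * nn G p = Nat.card G := card_eq_mul_nn
    have hNpos : 0 < Nat.card G := Nat.card_pos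
    have hd0 : d ≠ 0 := by
      rintro h0
      rw [h0, zero_mul] at hNd
      omega
    have hmod : d % p = 1 := by
      have h2 : d % p = 1 % p := card_sylow_modEq_one p G
      rwa [Nat.mod_eq_of_lt hp.one_lt] at h2
    have hd1 : d ≠ 1 := by
      intro h0
      have h0' : Nat.card (Sylow p G) = (normalizer ((P : Subgroup G) : Set G)).index :=
        Sylow.card_eq_index_normalizer P
      have h2 : (normalizer ((P : Subgroup G) : Set G)).index = 1 := by
        rw [← h0']; exact h0
      have hn : (P : Subgroup G).Normal :=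
        Subgroup.normalizer_eq_top_iff.mp (Subgroup.index_eq_one.mp h2)
      have hcP := sylow_card hex P
      rcases hn.eq_bot_or_eq_top with h3 | h3
      · rw [h3, Subgroup.card_bot] at hcP
        exact hp.one_lt.ne hcP
      · rw [h3, Subgroup.card_top] at hcP
        exact hne hcP
    obtain ⟨e, he, hep⟩ := exists_e (G := G) (p := p) hex
    obtain ⟨c', hc'⟩ := p_dvd_cc (G := G) hex
    have hnn0 : nn G p ≠ 0 := by
      intro h0
      rw [h0, mul_zero] at hNd
      omega
    have he0 : e ≠ 0 := by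
      rintro rfl
      exact hnn0 (by rw [he, mul_zero])
    have he1 : e ≠ 1 := by
      rintro rfl
      rw [mul_one] at he
      -- `N(P) = C(P)`
      have hCN : centralizer ((P : Subgroup G) : Set G) ≤ normalizer ((P : Subgroup G) : Set G) := by
        intro x hx
        rw [mem_normalizer_iff]
        intro y
        have := (Subgroup.mem_centralizer_iff.mp hx)
        constructor
        · intro hy
          have h2 := this y hy
          have e' : x * y * x⁻¹ = y := by rw [← h2]; group
          rw [e']; exact hy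
        · intro hy
          have h3 : x⁻¹ ∈ centralizer ((P : Subgroup G) : Set G) := Subgroup.inv_mem _ hx
          have h2 := (Subgroup.mem_centralizer_iff.mp h3) _ hy
          have e' : y = x⁻¹ * (x * y * x⁻¹) * x⁻¹⁻¹ := by group
          rw [e', ← h2]; simpa using hy
      have heq : normalizer ((P : Subgroup G) : Set G) ≤ centralizer ((P : Subgroup G) : Set G) := by
        apply le_of_eq
        symm
        apply Subgroup.eq_of_le_of_card_ge hCN
        rw [nn_eq P, cc_eq P, he]
      have := Cfsg.Agent.Lib.Basic.SmallSimple.card_eq_of_le_centralizer hd P heq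
      rw [sylow_card hex P] at this
      exact hne this
    have hNp : Nat.card G / p = d * (c' * e) := by
      rw [← hNd, he, hc']
      have : d * (p * c' * e) = p * (d * (c' * e)) := by ring
      rw [this, Nat.mul_div_cancel_left _ hp.pos]
    have hNp0 : Nat.card G / p ≠ 0 := by
      intro h0
      have := Nat.eq_zero_of_dvd_of_div_eq_zero hd h0
      omega
    have hkk : Nat.card G / p / d = c' * e := by
      rw [hNp, Nat.mul_div_cancel_left _ (Nat.pos_of_ne_zero hd0)]
    have hgcd0 : Nat.gcd (Nat.card G / p / d) (p - 1) ≠ 0 := by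
      intro h0
      have h2 := Nat.eq_zero_of_gcd_eq_zero_right h0
      have := hp.one_lt
      omega
    rw [List.mem_flatMap]
    refine ⟨d, (mem_divs hNp0).mpr ⟨c' * e, hNp⟩, ?_⟩
    rw [if_pos ⟨hmod, hd1⟩, List.mem_filterMap]
    refine ⟨e, (mem_divs hgcd0).mpr (Nat.dvd_gcd ?_ hep), ?_⟩
    · rw [hkk]; exact dvd_mul_left _ _
    · rw [if_pos he1]
      have h3 : Nat.card G / d = nn G p := by
        rw [← hNd, Nat.mul_div_cancel_left _ (Nat.pos_of_ne_zero hd0)]
      have h4 : nn G p / e = cc G p := by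
        rw [he, Nat.mul_div_cancel _ (Nat.pos_of_ne_zero he0)]
      rw [h3, h4]
  · rw [if_neg hd, if_neg hd]
    simp

theorem ent_pair {p q : ℕ} (hp : p.Prime) (hq : q.Prime) (hp2 : ¬ p ^ 2 ∣ 175560)
    (hq2 : ¬ q ^ 2 ∣ 175560) (h1 : Nat.card G ∣ 175560) : Pair p q (ent G p) (ent G q) := by
  classical
  unfold Pair ent
  haveI := Fact.mk hp
  haveI := Fact.mk hq
  by_cases hd : p ∣ Nat.card G <;> by_cases hd' : q ∣ Nat.card G
  · rw [if_pos hd, if_pos hd']
    exact ⟨dvd_cc_symm (ex_of_dvd hp hp2 h1 hd) (ex_of_dvd hq hq2 h1 hd'),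
      dvd_cc_symm (ex_of_dvd hq hq2 h1 hd') (ex_of_dvd hp hp2 h1 hd)⟩
  · rw [if_pos hd, if_neg hd']
    constructor
    · intro h
      exact absurd (h.trans cc_dvd_card) hd'
    · intro h
      exact absurd (Nat.dvd_one.mp h) hp.one_lt.ne'
  · rw [if_neg hd, if_pos hd']
    constructor
    · intro h
      exact absurd (Nat.dvd_one.mp h) hq.one_lt.ne'
    · intro h
      exact absurd (h.trans cc_dvd_card) hd
  · rw [if_neg hd, if_neg hd']
    constructor
    · intro h
      exact absurd (Nat.dvd_one.mp h) hq.one_lt.ne'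
    · intro h
      exact absurd (Nat.dvd_one.mp h) hp.one_lt.ne'

theorem prime_of_mem {p : ℕ} (h : p ∈ [19, 11, 7, 5, 3]) : p.Prime ∧ ¬ p ^ 2 ∣ 175560 := by
  simp only [List.mem_cons, List.not_mem_nil, or_false] at h
  rcases h with rfl | rfl | rfl | rfl | rfl <;> norm_num

theorem mem_ps {N p : ℕ} : p ∈ ps N ↔ p ∈ [19, 11, 7, 5, 3] ∧ p ∣ N := by
  unfold ps
  rw [List.mem_filter]
  simp

theorem mk_ent {p : ℕ} (h : p ∈ [19, 11, 7, 5, 3]) :
    mk (ent G 19) (ent G 11) (ent G 7) (ent G 5) (ent G 3) p = ent G p := by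
  simp only [List.mem_cons, List.not_mem_nil, or_false] at h
  rcases h with rfl | rfl | rfl | rfl | rfl <;> simp [mk]

theorem ent_of_dvd {p : ℕ} (h : p ∣ Nat.card G) : ent G p = (nn G p, cc G p) := by
  classical
  unfold ent
  rw [if_pos h]

theorem valid_ent [IsSimpleGroup G] (h1 : Nat.card G ∣ 175560) (h19 : 19 ∣ Nat.card G) :
    Valid (Nat.card G) (mk (ent G 19) (ent G 11) (ent G 7) (ent G 5) (ent G 3)) := by
  classical
  have hNpos : 0 < Nat.card G := Nat.card_pos
  have hlarge : 2 < Nat.card G := by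
    have := Nat.le_of_dvd hNpos h19
    omega
  refine ⟨?_, ?_, ?_⟩
  · intro p hp q hq hpq hd hu
    rw [mem_ps] at hp hq
    rw [mk_ent hp.1] at hd hu ⊢
    rw [mk_ent hq.1]
    rw [ent_of_dvd hp.2] at hd hu ⊢
    rw [ent_of_dvd hq.2]
    obtain ⟨hpp, hp2⟩ := prime_of_mem hp.1
    obtain ⟨hqq, hq2⟩ := prime_of_mem hq.1
    haveI := Fact.mk hpp
    haveI := Fact.mk hqq
    have hex := ex_of_dvd hpp hp2 h1 hp.2
    simp only at hd hu ⊢
    apply nn_dvd_nn hex (ex_of_dvd hqq hq2 h1 hq.2) hpq hd
    intro d hdd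
    apply hu
    rw [mem_divs]
    · exact hdd
    · intro h0
      have hcc : 0 < cc G p := Nat.pos_of_dvd_of_pos cc_dvd_card hNpos
      have := Nat.eq_zero_of_dvd_of_div_eq_zero (p_dvd_cc hex) h0
      omega
  · intro h0 hn
    rw [mk_ent (by simp), ent_of_dvd h19] at hn ⊢
    simp only at hn ⊢
    haveI : Fact (Nat.Prime 19) := ⟨by norm_num⟩
    have hex : Ex G 19 := ex_of_dvd (by norm_num) (by norm_num) h1 h19
    apply odd_nn_of_twenty hex hlarge
    have hNd : Nat.card (Sylow 19 G) * nn G 19 = Nat.card G := card_eq_mul_nn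
    have hnn0 : 0 < nn G 19 := by
      apply Nat.pos_of_ne_zero
      intro h5
      rw [h5, mul_zero] at hNd
      omega
    rw [← hNd, Nat.mul_div_cancel _ hnn0] at hn
    exact hn
  · intro S hS hind
    rw [List.mem_sublists] at hS
    have hmem : ∀ p ∈ S, p ∈ [19, 11, 7, 5, 3] ∧ p ∣ Nat.card G := fun p hp => mem_ps.mp (hS.subset hp)
    have hnd : S.Nodup := by
      apply List.Nodup.sublist hS
      unfold ps
      apply List.Nodup.filter
      decide
    have hpr : ∀ p ∈ S, p.Prime := fun p hp => (prime_of_mem (hmem p hp).1).1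
    have hadj : ∀ a ∈ S, ∀ b ∈ S, a ≠ b → ¬ Adj G a b := by
      intro a ha b hb hab
      have hb' := hind a ha b hb hab
      rw [mk_ent (hmem a ha).1, ent_of_dvd (hmem a ha).2] at hb'
      obtain ⟨hpp, hp2⟩ := prime_of_mem (hmem a ha).1
      haveI := Fact.mk hpp
      exact not_adj_of_not_dvd (ex_of_dvd hpp hp2 h1 (hmem a ha).2) hb'
    refine lt_of_le_of_lt ?_ (sum_Y_lt S hnd hpr hadj)
    apply List.sum_le_sum
    intro p hp
    rw [mk_ent (hmem p hp).1, ent_of_dvd (hmem p hp).2]
    obtain ⟨hpp, hp2⟩ := prime_of_mem (hmem p hp).1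
    haveI := Fact.mk hpp
    have hex := ex_of_dvd hpp hp2 h1 (hmem p hp).2
    have hNd : Nat.card (Sylow p G) * nn G p = Nat.card G := card_eq_mul_nn
    have hnn0 : 0 < nn G p := by
      apply Nat.pos_of_ne_zero
      intro h5
      rw [h5, mul_zero] at hNd
      omega
    simp only
    rw [← hNd, Nat.mul_div_cancel _ hnn0]
    exact lower_Y hex

theorem simple_false [IsSimpleGroup G] (h1 : Nat.card G ∣ 175560) (h19 : 19 ∣ Nat.card G)
    (hne : Nat.card G ≠ 175560) (hne' : Nat.card G ≠ 19) : False := by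
  obtain ⟨m, hm⟩ := h19
  have hm1 : m ∣ 9240 := by
    rw [hm] at h1
    have : (175560 : ℕ) = 19 * 9240 := by norm_num
    rw [this] at h1
    exact Nat.dvd_of_mul_dvd_mul_left (by norm_num) h1
  have hord : Nat.card G ∈ orders := by
    unfold orders
    rw [List.mem_map]
    refine ⟨m, ?_, hm.symm⟩
    rw [List.mem_filter, mem_divs (by norm_num)]
    refine ⟨hm1, ?_⟩
    simp only [decide_eq_true_eq]
    constructor
    · rintro rfl; omega
    · rintro rfl; omega
  have h19' : 19 ∣ Nat.card G := ⟨m, hm⟩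
  have hneP : ∀ p ∈ [19, 11, 7, 5, 3], Nat.card G ≠ p := by
    intro p hp h0
    rw [h0] at h19'
    simp only [List.mem_cons, List.not_mem_nil, or_false] at hp
    rcases hp with rfl | rfl | rfl | rfl | rfl
    · exact hne' h0
    all_goals norm_num at h19'
  have hmemE : ∀ p (hp : p ∈ [19, 11, 7, 5, 3]), ent G p ∈ cands (Nat.card G) p := fun p hp =>
    ent_mem (prime_of_mem hp).1 (prime_of_mem hp).2 h1 (hneP p hp)
  have hpairE : ∀ p q (_ : p ∈ [19, 11, 7, 5, 3]) (_ : q ∈ [19, 11, 7, 5, 3]),
      Pair p q (ent G p) (ent G q) := fun p q hp hq =>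
    ent_pair (prime_of_mem hp).1 (prime_of_mem hq).1 (prime_of_mem hp).2 (prime_of_mem hq).2 h1
  exact check _ hord _ (hmemE 19 (by simp)) _ (hmemE 11 (by simp)) (hpairE _ _ (by simp) (by simp))
    _ (hmemE 7 (by simp)) (hpairE _ _ (by simp) (by simp)) (hpairE _ _ (by simp) (by simp))
    _ (hmemE 5 (by simp)) (hpairE _ _ (by simp) (by simp)) (hpairE _ _ (by simp) (by simp))
    (hpairE _ _ (by simp) (by simp))
    _ (hmemE 3 (by simp)) (hpairE _ _ (by simp) (by simp)) (hpairE _ _ (by simp) (by simp))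
    (hpairE _ _ (by simp) (by simp)) (hpairE _ _ (by simp) (by simp))
    (valid_ent h1 ⟨m, hm⟩)

end final

section central

theorem perm_trivial {S : Subgroup G} {y : G} (hy : y ∈ normalizer (S : Set G)) (hy19 : y ^ 19 = 1)
    (hS : Nat.card S < 19) {x : G} (hx : x ∈ S) : y * x * y⁻¹ = x := by
  classical
  let f : Equiv.Perm S := Equiv.subtypeEquiv (MulAut.conj y).toEquiv (fun a => by
    simpa using mem_normalizer_iff.mp hy a)
  have hf : ∀ (a : S) (k : ℕ), (((f ^ k) a : S) : G) = y ^ k * a * (y ^ k)⁻¹ := by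
    intro a k
    induction k with
    | zero => simp
    | succ k ih =>
      rw [pow_succ', Equiv.Perm.mul_apply]
      show y * (((f ^ k) a : S) : G) * y⁻¹ = _
      rw [ih, pow_succ']
      group
  have hf19 : f ^ 19 = 1 := by
    refine Equiv.ext fun a => Subtype.ext ?_
    rw [hf, hy19]
    simp
  have hfin : Finite S := inferInstance
  have hod : orderOf f ∣ 19 := orderOf_dvd_of_pow_eq_one hf19
  have hf1 : f = 1 := by
    rcases (Nat.dvd_prime (by norm_num : Nat.Prime 19)).mp hod with h1 | h1
    · exact orderOf_eq_one_iff.mp h1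
    · exfalso
      have h2 : orderOf f ∣ Nat.card (Equiv.Perm S) := orderOf_dvd_natCard f
      rw [h1, Nat.card_perm] at h2
      have h3 := (Nat.Prime.dvd_factorial (by norm_num : Nat.Prime 19)).mp h2
      omega
  have := congrArg (fun g : Equiv.Perm S => ((g ⟨x, hx⟩ : S) : G)) hf1
  simpa [f] using this

theorem small_prime_power {q k : ℕ} (hq : q.Prime) (h : q ^ k ∣ 9240) : q ^ k < 19 := by
  by_contra hcon
  push Not at hcon
  have key : ∀ m ∈ divs 9240, 19 ≤ m →
      ∃ r ∈ [2, 3, 5, 7, 11], ∃ s ∈ [2, 3, 5, 7, 11], r ≠ s ∧ r ∣ m ∧ s ∣ m := by decide +kernel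
  obtain ⟨r, hr, s, hs, hrs, h1, h2⟩ := key _ ((mem_divs (by norm_num)).mpr h) hcon
  have hpr : ∀ t ∈ [2, 3, 5, 7, 11], t.Prime := by
    intro t ht
    simp only [List.mem_cons, List.not_mem_nil, or_false] at ht
    rcases ht with rfl | rfl | rfl | rfl | rfl <;> norm_num
  have h3 := (Nat.prime_dvd_prime_iff_eq (hpr r hr) hq).mp ((hpr r hr).dvd_of_dvd_pow h1)
  have h4 := (Nat.prime_dvd_prime_iff_eq (hpr s hs) hq).mp ((hpr s hs).dvd_of_dvd_pow h2)
  exact hrs (h3.trans h4.symm)

theorem centralize [hf : Fact (Nat.Prime 19)] (hex : Ex G 19) (P : Sylow 19 G) (N : Subgroup G)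
    [hN : N.Normal] (hcop : ¬ 19 ∣ Nat.card N) (hd : Nat.card N ∣ 9240) (x : G) (hx : x ∈ N)
    (y : G) (hy : y ∈ (P : Subgroup G)) : y * x = x * y := by
  -- `N` is centralized by `P`
  have hcopn : (Nat.card (P : Subgroup G)).Coprime (Nat.card N) := by
    rw [sylow_card hex P]
    exact (Nat.Prime.coprime_iff_not_dvd (by norm_num)).mpr hcop
  have hPN : (P : Subgroup G) ≤ normalizer (N : Set G) := by
    rw [Subgroup.normalizer_eq_top_iff.mpr hN]
    exact le_top
  have hsolv : Group.IsSolvable (P : Subgroup G) := by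
    haveI := (P.isPGroup').isNilpotent
    infer_instance
  set C : Subgroup N := (centralizer ((zpowers y : Subgroup G) : Set G)).subgroupOf N with hC
  have hy19 : y ^ 19 = 1 := by
    have h1 := pow_card_eq_one' (x := (⟨y, hy⟩ : (P : Subgroup G)))
    rw [sylow_card hex P] at h1
    simpa using congrArg Subtype.val h1
  have hindex : C.index = 1 := by
    by_contra hi
    obtain ⟨q, hq, hqi⟩ := Nat.exists_prime_and_dvd hi
    haveI := Fact.mk hq
    obtain ⟨Q, hQ⟩ := Cfsg.Agent.Lib.Coprime.InvSylow.exists_invariant_sylow hPN hcopn (Or.inl hsolv) q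
    have hQC : (Q : Subgroup N) ≤ C := by
      intro z hz
      rw [hC, Subgroup.mem_subgroupOf, Subgroup.mem_centralizer_iff]
      intro s hs
      obtain ⟨k, rfl⟩ := mem_zpowers_iff.mp hs
      have hcard : Nat.card ((Q : Subgroup N).map N.subtype) < 19 := by
        rw [Subgroup.card_map_of_injective N.subtype_injective]
        obtain ⟨n, hn⟩ := IsPGroup.iff_card.mp Q.isPGroup'
        rw [hn]
        apply small_prime_power hq
        rw [← hn]
        exact (Subgroup.card_subgroup_dvd_card _).trans hd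
      have h3 := perm_trivial (hQ hy) hy19 hcard (x := (z : G)) ⟨z, hz, rfl⟩
      have h4 : Commute y (z : G) := by
        show y * z = z * y
        calc y * (z : G) = y * z * y⁻¹ * y := by group
          _ = z * y := by rw [h3]
      exact (h4.zpow_left k).eq
    have h5 := Subgroup.index_dvd_of_le hQC
    exact Q.not_dvd_index (hqi.trans h5)
  have htop : C = ⊤ := Subgroup.index_eq_one.mp hindex
  have hxC : (⟨x, hx⟩ : N) ∈ C := by rw [htop]; exact mem_top _
  have h6 := Subgroup.mem_centralizer_iff.mp (Subgroup.mem_subgroupOf.mp hxC) y (mem_zpowers y)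
  exact h6

/-- The main induction. -/
theorem main_ind (n : ℕ) : ∀ (G : Type u) [Group G] [Finite G], Nat.card G = n → n ∣ 175560 →
    19 ∣ n → (¬ IsSimpleGroup G ∨ n ≠ 175560) → ∀ P : Sylow 19 G, (P : Subgroup G).Normal := by
  induction n using Nat.strong_induction_on with
  | _ n ih =>
    intro G _ _ hn hdvd h19 hsim P
    haveI hf : Fact (Nat.Prime 19) := ⟨by norm_num⟩
    subst hn
    have hex : Ex G 19 := ex_of_dvd (by norm_num) (by norm_num) hdvd h19
    have hPc := sylow_card hex P
    by_cases hs : IsSimpleGroup G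
    · have hne : Nat.card G ≠ 175560 := hsim.resolve_left (fun h => h hs)
      by_cases h1 : Nat.card G = 19
      · have : (P : Subgroup G) = ⊤ := by
          apply Subgroup.eq_top_of_card_eq
          rw [hPc, h1]
        rw [this]
        infer_instance
      · exact (simple_false hdvd h19 hne h1).elim
    · -- a proper normal subgroup
      have hNpos : 0 < Nat.card G := Nat.card_pos
      have hntr : Nontrivial G := by
        apply (Finite.one_lt_card_iff_nontrivial).mp
        have := Nat.le_of_dvd hNpos h19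
        omega
      obtain ⟨N, hN, hN1, hN2⟩ : ∃ N : Subgroup G, N.Normal ∧ N ≠ ⊥ ∧ N ≠ ⊤ := by
        by_contra hcon
        push Not at hcon
        apply hs
        refine ⟨fun N hN => ?_⟩
        by_cases h0 : N = ⊥
        · exact Or.inl h0
        · exact Or.inr (hcon N hN h0)
      haveI := hN
      have hlt1 : Nat.card N < Nat.card G := by
        have h1 : Nat.card N ∣ Nat.card G := Subgroup.card_subgroup_dvd_card _
        have h2 := Nat.le_of_dvd hNpos h1
        rcases h2.lt_or_eq with h3 | h3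
        · exact h3
        · exact absurd (Subgroup.eq_top_of_card_eq _ h3) hN2
      have hle : Nat.card G ≤ 175560 := Nat.le_of_dvd (by norm_num) hdvd
      by_cases h19N : 19 ∣ Nat.card N
      · -- case `19 ∣ |N|`
        obtain ⟨R⟩ : Nonempty (Sylow 19 N) := inferInstance
        have hRn := ih (Nat.card N) hlt1 N rfl
          ((Subgroup.card_subgroup_dvd_card _).trans hdvd) h19N (Or.inr (by omega)) R
        haveI hchar : (R : Subgroup N).Characteristic := R.characteristic_of_normal hRn
        have hmapn : ((R : Subgroup N).map N.subtype).Normal :=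
          Cfsg.Agent.Lib.Basic.PCore.map_subtype_normal_of_characteristic _
        have hmapp : IsPGroup 19 ((R : Subgroup N).map N.subtype) := R.isPGroup'.map _
        have hle2 : (R : Subgroup N).map N.subtype ≤ P := hmapp.le_sylow_of_normal P
        have hcard : Nat.card ((R : Subgroup N).map N.subtype) = 19 := by
          rw [Subgroup.card_map_of_injective N.subtype_injective]
          have hex' : Ex N 19 := ⟨by norm_num, h19N, fun h => hex.sq
            (h.trans (Subgroup.card_subgroup_dvd_card _))⟩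
          exact sylow_card hex' R
        have : (R : Subgroup N).map N.subtype = P := by
          apply Subgroup.eq_of_le_of_card_ge hle2
          rw [hPc, hcard]
        rw [← this]
        exact hmapn
      · -- case `19 ∤ |N|`
        have hcardq : Nat.card G = Nat.card (G ⧸ N) * Nat.card N := by
          rw [← Subgroup.card_mul_index N, Subgroup.index_eq_card, mul_comm]
        have hNgt : 1 < Nat.card N := by
          rcases (Nat.lt_or_ge 1 (Nat.card N)) with h | h
          · exact h
          · exfalso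
            have hp : 0 < Nat.card N := Nat.card_pos
            have h1 : Nat.card N = 1 := by omega
            exact hN1 (Subgroup.card_eq_one.mp h1)
        have hqpos : 0 < Nat.card (G ⧸ N) := Nat.card_pos
        have hlt2 : Nat.card (G ⧸ N) < Nat.card G := by
          rw [hcardq]; nlinarith
        have hdq : Nat.card (G ⧸ N) ∣ Nat.card G := ⟨Nat.card N, hcardq⟩
        have h19q : 19 ∣ Nat.card (G ⧸ N) := by
          rw [hcardq] at h19
          exact ((Nat.Prime.dvd_mul (by norm_num)).mp h19).resolve_right h19N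
        -- `P` centralizes `N`
        have hNd : Nat.card N ∣ 9240 := by
          have h1 : Nat.card N ∣ 175560 := (Subgroup.card_subgroup_dvd_card _).trans hdvd
          have h2 : (175560 : ℕ) = 19 * 9240 := by norm_num
          rw [h2] at h1
          exact (Nat.Coprime.dvd_of_dvd_mul_left
            (((Nat.Prime.coprime_iff_not_dvd (by norm_num)).mpr h19N).symm) h1)
        have hcent := centralize hex P N h19N hNd
        -- the image of `P`
        have hexq : Ex (G ⧸ N) 19 := ex_of_dvd (by norm_num) (by norm_num) (hdq.trans hdvd) h19q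
        set Pb : Subgroup (G ⧸ N) := (P : Subgroup G).map (QuotientGroup.mk' N) with hPb
        have hPbp : IsPGroup 19 Pb := P.isPGroup'.map _
        obtain ⟨Rb, hRb⟩ := hPbp.exists_le_sylow
        have hRbn := ih _ hlt2 (G ⧸ N) rfl (hdq.trans hdvd) h19q (Or.inr (by omega)) Rb
        have hRbc := sylow_card hexq Rb
        -- `P̄ = R̄`
        obtain ⟨u, huP, hu1⟩ := exists_mem_sylow_ne_one hex P
        have huN : u ∉ N := by
          intro hu
          have h1 : orderOf u ∣ Nat.card N := Subgroup.orderOf_dvd_natCard N hu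
          rw [orderOf_of_mem_sylow hex P huP hu1] at h1
          exact h19N h1
        have hPbR : Pb = Rb := by
          apply Subgroup.eq_of_le_of_card_ge hRb
          rw [hRbc]
          obtain ⟨a, ha⟩ := IsPGroup.iff_card.mp hPbp
          rcases a with _ | a
          · exfalso
            have h1 : Pb = ⊥ := Subgroup.card_eq_one.mp (by rw [ha, pow_zero])
            have h2 : (QuotientGroup.mk' N) u ∈ Pb := ⟨u, huP, rfl⟩
            rw [h1, Subgroup.mem_bot] at h2
            apply huN
            have h3 : ((u : G ⧸ N)) = 1 := h2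
            exact (QuotientGroup.eq_one_iff u).mp h3
          · rw [ha, pow_succ]
            exact Nat.le_mul_of_pos_left _ (by positivity)
        constructor
        intro x hx g
        -- `g x g⁻¹ ∈ P N`
        have hz : ((QuotientGroup.mk' N) (g * x * g⁻¹)) ∈ Pb := by
          rw [hPbR]
          have hxb : (QuotientGroup.mk' N) x ∈ (Rb : Subgroup (G ⧸ N)) := by
            rw [← hPbR]; exact ⟨x, hx, rfl⟩
          have := hRbn.conj_mem _ hxb ((QuotientGroup.mk' N) g)
          simpa using this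
        obtain ⟨v, hv, hvz⟩ := hz
        have hm : v⁻¹ * (g * x * g⁻¹) ∈ N := by
          rw [← QuotientGroup.eq]
          exact hvz
        set m := v⁻¹ * (g * x * g⁻¹) with hmdef
        have hzeq : g * x * g⁻¹ = v * m := by rw [hmdef]; group
        have hcomm : Commute v m := hcent m hm v hv
        have hx19 : x ^ 19 = 1 := by
          have h1 := pow_card_eq_one' (x := (⟨x, hx⟩ : (P : Subgroup G)))
          rw [hPc] at h1
          simpa using congrArg Subtype.val h1
        have hv19 : v ^ 19 = 1 := by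
          have h1 := pow_card_eq_one' (x := (⟨v, hv⟩ : (P : Subgroup G)))
          rw [hPc] at h1
          simpa using congrArg Subtype.val h1
        have hm19 : m ^ 19 = 1 := by
          have h1 : (g * x * g⁻¹) ^ 19 = 1 := by
            rw [conj_pow, hx19]; group
          rw [hzeq, hcomm.mul_pow, hv19, one_mul] at h1
          exact h1
        have hm1 : m = 1 := by
          have h1 : orderOf m ∣ 19 := orderOf_dvd_of_pow_eq_one hm19
          have h2 : orderOf m ∣ Nat.card N := Subgroup.orderOf_dvd_natCard N hm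
          rcases (Nat.dvd_prime (by norm_num : Nat.Prime 19)).mp h1 with h3 | h3
          · exact orderOf_eq_one_iff.mp h3
          · rw [h3] at h2
            exact absurd h2 h19N
        rw [hzeq, hm1, mul_one]
        exact hv

end central

/-- A finite group of order 175560 = 2³·3·5·7·11·19 is either simple or has a normal Sylow 19-subgroup. -/
theorem result {G : Type*} [Group G] [Finite G] (hG : Nat.card G = 175560) : IsSimpleGroup G ∨ ∀ P : Sylow 19 G, (P : Subgroup G).Normal := by
  by_cases hs : IsSimpleGroup G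
  · exact Or.inl hs
  · exact Or.inr (Cfsg.Agent.S4274.main_ind 175560 G hG dvd_rfl (by norm_num) (Or.inl hs))

end Cfsg.Agent.S4274
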