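import Cfsg.Statements.S0566
import Mathlib
-- import your own Cfsg.Agent.* helpers here

set_option autoImplicit false
open Pointwise
open Cfsg

namespace Cfsg.Agent.S0566

/-- Let A and B be nontrivial subgroups of a finite group G such that for every x the product set of A and xBx⁻¹ is a proper subgroup of G. Then there is a proper normal subgroup of G containing A or containing B. -/
theorem result {G : Type*} [Group G] [Finite G] (A B : Subgroup G) (hA : A ≠ ⊥) (hB : B ≠ ⊥) (h : ∀ x : G, ∃ S : Subgroup G, S ≠ ⊤ ∧ (S : Set G) = (A : Set G) * ((MulAut.conj x • B : Subgroup G) : Set G)) : ∃ N : Subgroup G, N.Normal ∧ N ≠ ⊤ ∧ (A ≤ N ∨ B ≤ N) := by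
  classical
  -- membership in conjugates
  have hcj : ∀ (x y : G) (K : Subgroup G), y ∈ (MulAut.conj x • K : Subgroup G) ↔ x⁻¹ * y * x ∈ K := by
    intro x y K
    rw [Subgroup.mem_pointwise_smul_iff_inv_smul_mem]
    simp [MulAut.smul_def]
  -- property P of a subgroup A'
  let PP : Subgroup G → Prop := fun A' =>
    ∀ x : G, ∃ S : Subgroup G, S ≠ ⊤ ∧ (S : Set G) = (A' : Set G) * ((MulAut.conj x • B : Subgroup G) : Set G)
  obtain ⟨A₀, ⟨hA₀, hAA₀⟩, hmax⟩ := WellFounded.has_min (wellFounded_gt (α := Subgroup G))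
    {A' : Subgroup G | PP A' ∧ A ≤ A'} ⟨A, h, le_refl A⟩
  -- A₀ ≠ ⊤
  have hA₀top : A₀ ≠ ⊤ := by
    rintro rfl
    obtain ⟨S, hS, hSe⟩ := hA₀ 1
    apply hS
    rw [eq_top_iff]
    intro g _
    have : g ∈ (S : Set G) := by
      rw [hSe]
      refine Set.mem_mul.mpr ⟨g, trivial, 1, ?_, by simp⟩
      exact Subgroup.one_mem _
    exact this
  by_cases hn : A₀.Normal
  · exact ⟨A₀, hn, hA₀top, Or.inl hAA₀⟩
  by_contra hno
  push Not at hno
  -- normal closure of B is everything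
  have hcl : Subgroup.normalClosure (B : Set G) = ⊤ := by
    by_contra hne
    exact (hno _ Subgroup.normalClosure_normal hne).2 Subgroup.subset_normalClosure
  -- some conjugate of B does not normalize A₀
  have hex : ∃ x : G, ∃ b ∈ (MulAut.conj x • B : Subgroup G), b ∉ Subgroup.normalizer (A₀ : Set G) := by
    by_contra hcon
    push Not at hcon
    apply hn
    rw [← Subgroup.normalizer_eq_top_iff, eq_top_iff, ← hcl]
    unfold Subgroup.normalClosure
    rw [Subgroup.closure_le]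
    intro g hg
    obtain ⟨b, hb, hbg⟩ := Group.mem_conjugatesOfSet_iff.mp hg
    obtain ⟨c, hc⟩ := isConj_iff.mp hbg
    apply hcon c g
    rw [hcj, ← hc]
    have e : c⁻¹ * (c * b * c⁻¹) * c = b := by group
    rw [e]
    exact hb
  obtain ⟨x, b, hb, hbn⟩ := hex
  obtain ⟨S₀, hS₀, hS₀e⟩ := hA₀ x
  -- the larger subgroup
  set A' : Subgroup G := MulAut.conj b • A₀ with hA'
  set M : Subgroup G := A₀ ⊔ A' with hM
  have hA₀S₀ : A₀ ≤ S₀ := by
    intro a ha
    have : a ∈ (S₀ : Set G) := by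
      rw [hS₀e]
      exact Set.mem_mul.mpr ⟨a, ha, 1, Subgroup.one_mem _, by simp⟩
    exact this
  have hTS₀ : (MulAut.conj x • B : Subgroup G) ≤ S₀ := by
    intro t ht
    have : t ∈ (S₀ : Set G) := by
      rw [hS₀e]
      exact Set.mem_mul.mpr ⟨1, Subgroup.one_mem _, t, ht, by simp⟩
    exact this
  have hbS₀ : b ∈ S₀ := hTS₀ hb
  have hMS₀ : M ≤ S₀ := by
    refine sup_le hA₀S₀ ?_
    intro y hy
    rw [hA', hcj] at hy
    have := S₀.mul_mem (S₀.mul_mem hbS₀ (hA₀S₀ hy)) (S₀.inv_mem hbS₀)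
    have e : b * (b⁻¹ * y * b) * b⁻¹ = y := by group
    rwa [e] at this
  -- permutability
  have hperm : ∀ (H K S : Subgroup G), (S : Set G) = (H : Set G) * (K : Set G) →
      ∀ a ∈ H, ∀ k ∈ K, ∃ k' ∈ K, ∃ a' ∈ H, a * k = k' * a' := by
    intro H K S hS a ha k hk
    have h1 : a * k ∈ (S : Set G) := by
      rw [hS]; exact Set.mem_mul.mpr ⟨a, ha, k, hk, rfl⟩
    have h2 : (a * k)⁻¹ ∈ (S : Set G) := S.inv_mem h1
    rw [hS] at h2
    obtain ⟨a₁, ha₁, k₁, hk₁, he⟩ := Set.mem_mul.mp h2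
    refine ⟨k₁⁻¹, K.inv_mem hk₁, a₁⁻¹, H.inv_mem ha₁, ?_⟩
    rw [← mul_inv_rev, he, inv_inv]
  have hPM : PP M := by
    intro y
    set K : Subgroup G := MulAut.conj y • B with hK
    obtain ⟨S₁, -, hS₁⟩ := hA₀ y
    obtain ⟨S₂, -, hS₂⟩ := hA₀ (b⁻¹ * y)
    have p1 := hperm A₀ K S₁ hS₁
    have p2 := hperm A₀ _ S₂ hS₂
    have p3 : ∀ a ∈ A', ∀ k ∈ K, ∃ k' ∈ K, ∃ a' ∈ A', a * k = k' * a' := by
      intro a ha k hk
      rw [hA', hcj] at ha
      have hk1 : b⁻¹ * k * b ∈ (MulAut.conj (b⁻¹ * y) • B : Subgroup G) := by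
        rw [hcj]
        rw [hK, hcj] at hk
        convert hk using 1
        group
      obtain ⟨k₂, hk₂, a₂, ha₂, he⟩ := p2 _ ha _ hk1
      refine ⟨b * k₂ * b⁻¹, ?_, b * a₂ * b⁻¹, ?_, ?_⟩
      · rw [hK, hcj]
        rw [hcj] at hk₂
        convert hk₂ using 1
        group
      · rw [hA', hcj]
        convert ha₂ using 1
        group
      · calc a * k = b * ((b⁻¹ * a * b) * (b⁻¹ * k * b)) * b⁻¹ := by group
          _ = b * (k₂ * a₂) * b⁻¹ := by rw [he]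
          _ = b * k₂ * b⁻¹ * (b * a₂ * b⁻¹) := by group
    have pbase : ∀ m ∈ ((A₀ : Set G) ∪ (A' : Set G)), ∀ k ∈ K, ∃ k' ∈ K, ∃ m' ∈ M, m * k = k' * m' := by
      rintro m (hm | hm) k hk
      · obtain ⟨k', hk', a', ha', he⟩ := p1 m hm k hk
        exact ⟨k', hk', a', Subgroup.mem_sup_left ha', he⟩
      · obtain ⟨k', hk', a', ha', he⟩ := p3 m hm k hk
        exact ⟨k', hk', a', Subgroup.mem_sup_right ha', he⟩
    have p4 : ∀ m ∈ M, ∀ k ∈ K, ∃ k' ∈ K, ∃ m' ∈ M, m * k = k' * m' := by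
      intro m hm
      have hm' : m ∈ Subgroup.closure ((A₀ : Set G) ∪ (A' : Set G)) := by
        rw [← Subgroup.sup_eq_closure]; exact hm
      clear hm
      induction hm' using Subgroup.closure_induction'' with
      | mem x hx => exact pbase x hx
      | inv_mem x hx =>
        apply pbase
        rcases hx with hx | hx
        · exact Or.inl (A₀.inv_mem hx)
        · exact Or.inr (A'.inv_mem hx)
      | one => intro k hk; exact ⟨k, hk, 1, M.one_mem, by simp⟩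
      | mul x y hx hy ihx ihy =>
        intro k hk
        obtain ⟨k₁, hk₁, m₁, hm₁, he₁⟩ := ihy k hk
        obtain ⟨k₂, hk₂, m₂, hm₂, he₂⟩ := ihx k₁ hk₁
        refine ⟨k₂, hk₂, m₂ * m₁, M.mul_mem hm₂ hm₁, ?_⟩
        rw [mul_assoc, he₁, ← mul_assoc, he₂, mul_assoc]
    have p5 : ∀ k ∈ K, ∀ m ∈ M, ∃ m' ∈ M, ∃ k' ∈ K, k * m = m' * k' := by
      intro k hk m hm
      obtain ⟨k', hk', m', hm', he⟩ := p4 m⁻¹ (M.inv_mem hm) k⁻¹ (K.inv_mem hk)
      refine ⟨m'⁻¹, M.inv_mem hm', k'⁻¹, K.inv_mem hk', ?_⟩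
      rw [← mul_inv_rev, ← he, mul_inv_rev, inv_inv, inv_inv]
    let T : Subgroup G :=
      { carrier := (M : Set G) * (K : Set G)
        one_mem' := Set.mem_mul.mpr ⟨1, M.one_mem, 1, K.one_mem, by simp⟩
        mul_mem' := by
          intro a c ha hc
          obtain ⟨m, hm, k, hk, rfl⟩ := Set.mem_mul.mp ha
          obtain ⟨m₂, hm₂, k₂, hk₂, rfl⟩ := Set.mem_mul.mp hc
          obtain ⟨m₃, hm₃, k₃, hk₃, he⟩ := p5 k hk m₂ hm₂
          refine Set.mem_mul.mpr ⟨m * m₃, M.mul_mem hm hm₃, k₃ * k₂, K.mul_mem hk₃ hk₂, ?_⟩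
          calc m * m₃ * (k₃ * k₂) = m * (m₃ * k₃) * k₂ := by group
            _ = m * (k * m₂) * k₂ := by rw [he]
            _ = _ := by group
        inv_mem' := by
          intro a ha
          obtain ⟨m, hm, k, hk, rfl⟩ := Set.mem_mul.mp ha
          obtain ⟨m₃, hm₃, k₃, hk₃, he⟩ := p5 k⁻¹ (K.inv_mem hk) m⁻¹ (M.inv_mem hm)
          refine Set.mem_mul.mpr ⟨m₃, hm₃, k₃, hk₃, ?_⟩
          rw [mul_inv_rev, he] }
    refine ⟨T, ?_, rfl⟩
    intro hT
    apply hS₀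
    rw [eq_top_iff]
    intro g _
    have hc : x * y⁻¹ ∈ T := by rw [hT]; trivial
    obtain ⟨m, hm, k, hk, he⟩ := Set.mem_mul.mp hc
    have hgm : g * m ∈ T := by rw [hT]; trivial
    obtain ⟨m₂, hm₂, k₂, hk₂, he₂⟩ := Set.mem_mul.mp hgm
    have hg : g = m₂ * m⁻¹ * (m * k₂ * m⁻¹) := by
      have h1 : g = g * m * m⁻¹ := by group
      rw [h1, ← he₂]
      group
    rw [hg]
    refine S₀.mul_mem (hMS₀ (M.mul_mem hm₂ (M.inv_mem hm))) (hTS₀ ?_)
    rw [hcj]
    have hk' : k ∈ K := hk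
    have hk₂' : k₂ ∈ K := hk₂
    rw [hK, hcj] at hk' hk₂'
    have hx : x = m * k * y := by rw [he]; group
    rw [hx]
    have e : (m * k * y)⁻¹ * (m * k₂ * m⁻¹) * (m * k * y) =
        (y⁻¹ * k * y)⁻¹ * (y⁻¹ * k₂ * y) * (y⁻¹ * k * y) := by group
    rw [e]
    exact B.mul_mem (B.mul_mem (B.inv_mem hk') hk₂') hk'
  refine hmax M ⟨hPM, hAA₀.trans le_sup_left⟩ ?_
  refine lt_of_le_of_ne le_sup_left (fun he => hbn ?_)
  apply Subgroup.mem_normalizer_fintype
  intro a ha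
  have ha' : b * a * b⁻¹ ∈ A' := by
    rw [hA', hcj]
    have e : b⁻¹ * (b * a * b⁻¹) * b = a := by group
    rw [e]
    exact ha
  have : b * a * b⁻¹ ∈ M := Subgroup.mem_sup_right ha'
  rw [← he] at this
  exact this

end Cfsg.Agent.S0566
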