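import Cfsg.Statements.S5061
import Mathlib
-- import your own Cfsg.Agent.* helpers here

set_option autoImplicit false
open Cfsg

namespace Cfsg.Agent.S5061

set_option linter.style.haveILetI false
set_option linter.unusedSectionVars false
set_option linter.unusedVariables false

universe u v

section Flag

variable {k : Type*} [Field k] {M : Type*} [AddCommGroup M] [Module k M]
variable {Γ : Type*} [Group Γ] (ρ : Γ →* Module.End k M)

/-- A finite flag on which the elements of `S` act trivially on the factors. -/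
def Flag (S : Set Γ) : Prop :=
  ∃ (n : ℕ) (L : ℕ → Submodule k M), L 0 = ⊤ ∧ L n = ⊥ ∧ Antitone L ∧
    ∀ i, ∀ g ∈ S, ∀ x ∈ L i, ρ g x - x ∈ L (i + 1)

variable {ρ}

theorem rho_inv_rho (g : Γ) (x : M) : ρ g⁻¹ (ρ g x) = x := by
  rw [← Module.End.mul_apply, ← map_mul, inv_mul_cancel, map_one, Module.End.one_apply]

theorem rho_rho_inv (g : Γ) (x : M) : ρ g (ρ g⁻¹ x) = x := by
  rw [← Module.End.mul_apply, ← map_mul, mul_inv_cancel, map_one, Module.End.one_apply]

theorem Flag.mono {S T : Set Γ} (h : S ⊆ T) (hT : Flag ρ T) : Flag ρ S := by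
  obtain ⟨n, L, h0, hn, ha, hs⟩ := hT
  exact ⟨n, L, h0, hn, ha, fun i g hg => hs i g (h hg)⟩

/-- The group of elements acting trivially on the factors of a flag. -/
def flagGroup (ρ : Γ →* Module.End k M) (n : ℕ) (L : ℕ → Submodule k M) (hn : L n = ⊥) (ha : Antitone L) :
    Subgroup Γ where
  carrier := {g | ∀ i, ∀ x ∈ L i, ρ g x - x ∈ L (i + 1)}
  one_mem' := by
    intro i x _
    simp
  mul_mem' := by
    intro a b ha' hb' i x hx
    have h1 := hb' i x hx
    have h2 := ha' (i + 1) _ h1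
    have h3 := ha' i x hx
    have e : ρ (a * b) x - x = (ρ a (ρ b x - x) - (ρ b x - x)) + (ρ b x - x) + (ρ a x - x) := by
      rw [map_mul, Module.End.mul_apply, map_sub]
      abel
    rw [e]
    refine Submodule.add_mem _ (Submodule.add_mem _ ?_ h1) h3
    exact ha (Nat.le_succ _) h2
  inv_mem' := by
    intro g hg
    -- g⁻¹ preserves every L i, by descending induction
    have hall : ∀ d i, n ≤ i + d → ∀ x ∈ L i, ρ g⁻¹ x ∈ L i := by
      intro d
      induction d with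
      | zero =>
        intro i hi x hx
        have : L i = ⊥ := by
          apply le_bot_iff.mp
          rw [← hn]
          exact ha (by omega)
        rw [this] at hx ⊢
        rw [(Submodule.mem_bot k).mp hx, map_zero]
        exact Submodule.zero_mem _
      | succ d ih =>
        intro i hi x hx
        have h1 := hg i x hx
        have h2 := ih (i + 1) (by omega) _ h1
        have e : ρ g⁻¹ x = x - ρ g⁻¹ (ρ g x - x) := by
          rw [map_sub, rho_inv_rho]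
          abel
        rw [e]
        exact Submodule.sub_mem _ hx (ha (Nat.le_succ _) h2)
    intro i x hx
    have h1 := hg i x hx
    have h2 := hall n (i + 1) (by omega) _ h1
    have e : ρ g⁻¹ x - x = - ρ g⁻¹ (ρ g x - x) := by
      rw [map_sub, rho_inv_rho]
      abel
    rw [e]
    exact Submodule.neg_mem _ h2

theorem Flag.closure {S : Set Γ} (h : Flag ρ S) : Flag ρ (Subgroup.closure S : Set Γ) := by
  obtain ⟨n, L, h0, hn, ha, hs⟩ := h
  refine ⟨n, L, h0, hn, ha, fun i g hg x hx => ?_⟩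
  have hle : Subgroup.closure S ≤ flagGroup ρ n L hn ha :=
    (Subgroup.closure_le _).mpr fun g hg i x hx => hs i g hg x hx
  exact hle hg i x hx

/-- Existence of fixed vectors in invariant subspaces. -/
theorem Flag.exists_fixed {S : Set Γ} (h : Flag ρ S) {K : Submodule k M} (hK : K ≠ ⊥)
    (hinv : ∀ g ∈ S, ∀ x ∈ K, ρ g x ∈ K) : ∃ v ∈ K, v ≠ 0 ∧ ∀ g ∈ S, ρ g v = v := by
  classical
  obtain ⟨n, L, h0, hn, ha, hs⟩ := h
  have hex : ∃ i, K ⊓ L i = ⊥ := ⟨n, by rw [hn, inf_bot_eq]⟩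
  set j := Nat.find hex with hj
  have hjspec : K ⊓ L j = ⊥ := Nat.find_spec hex
  have hj0 : j ≠ 0 := by
    intro h
    rw [h, h0, inf_top_eq] at hjspec
    exact hK hjspec
  obtain ⟨i, hi⟩ := Nat.exists_eq_succ_of_ne_zero hj0
  have hne : K ⊓ L i ≠ ⊥ := Nat.find_min hex (by omega : i < j)
  obtain ⟨v, hv, hv0⟩ := (Submodule.ne_bot_iff _).mp hne
  refine ⟨v, hv.1, hv0, fun g hg => ?_⟩
  have h1 : ρ g v - v ∈ K ⊓ L (i + 1) :=
    ⟨Submodule.sub_mem _ (hinv g hg v hv.1) hv.1, hs i g hg v hv.2⟩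
  have hi' : i + 1 = j := by omega
  rw [hi', hjspec] at h1
  exact sub_eq_zero.mp ((Submodule.mem_bot k).mp h1)

/-- Normalizer condition for groups with a flag. -/
theorem Flag.exists_normalizing {P D : Subgroup Γ} (h : Flag ρ (P : Set Γ)) (hDP : D ≤ P)
    (hker : ∀ g ∈ P, (∀ x, ρ g x = x) → g ∈ D) (hne : ∃ g ∈ P, g ∉ D) :
    ∃ g ∈ P, g ∉ D ∧ ∀ d ∈ D, g * d * g⁻¹ ∈ D ∧ g⁻¹ * d * g ∈ D := by
  obtain ⟨n, L, h0, hn, ha, hs⟩ := h
  -- elements of `P` of depth `j`
  let Dg : ℕ → Γ → Prop := fun j g => ∀ i, ∀ x ∈ L i, ρ g x - x ∈ L (i + j)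
  have hPinv : ∀ g ∈ P, ∀ i, ∀ x ∈ L i, ρ g x ∈ L i := by
    intro g hg i x hx
    have h1 := ha (Nat.le_succ i) (hs i g hg x hx)
    have e : ρ g x = (ρ g x - x) + x := by abel
    rw [e]
    exact Submodule.add_mem _ h1 hx
  have hn' : ∀ g ∈ P, Dg n g → g ∈ D := by
    intro g hg hd
    apply hker g hg
    intro x
    have h1 := hd 0 x (by rw [h0]; trivial)
    rw [zero_add, hn] at h1
    exact sub_eq_zero.mp ((Submodule.mem_bot k).mp h1)
  have hone : ∀ g ∈ P, Dg 1 g := fun g hg i x hx => hs i g hg x hx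
  -- descent
  have hdesc : ∃ j, (∃ g ∈ P, Dg j g ∧ g ∉ D) ∧ ∀ g ∈ P, Dg (j + 1) g → g ∈ D := by
    obtain ⟨g₀, hg₀, hg₀D⟩ := hne
    have hstep : ∀ m, (∃ g ∈ P, Dg (n - m) g ∧ g ∉ D) → ∃ j, (∃ g ∈ P, Dg j g ∧ g ∉ D) ∧ ∀ g ∈ P, Dg (j + 1) g → g ∈ D := by
      intro m
      induction m with
      | zero =>
        rintro ⟨g, hg, hd, hgD⟩
        exact absurd (hn' g hg hd) hgD
      | succ m ih =>
        intro hm
        by_cases hc : ∃ g ∈ P, Dg (n - m) g ∧ g ∉ D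
        · exact ih hc
        · push Not at hc
          by_cases hmn : m < n
          · refine ⟨n - (m + 1), hm, ?_⟩
            have : n - (m + 1) + 1 = n - m := by omega
            rw [this]
            exact fun g hg hd => hc g hg hd
          · -- then n - (m+1) = 0 = n - m
            have e : n - (m + 1) = n - m := by omega
            rw [e] at hm
            obtain ⟨g, hg, hd, hgD⟩ := hm
            exact absurd (hc g hg hd) hgD
    -- apply with large m: depth 1 or 0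
    by_cases hn0 : n = 0
    · subst hn0
      exact absurd (hn' g₀ hg₀ (fun i x hx => by
        have : x = 0 := by
          have h2 : x ∈ L 0 := ha (Nat.zero_le i) hx
          rw [hn] at h2
          exact (Submodule.mem_bot k).mp h2
        rw [this, map_zero, sub_zero]
        exact Submodule.zero_mem _)) hg₀D
    · exact hstep (n - 1) ⟨g₀, hg₀, by
        have : n - (n - 1) = 1 := by omega
        rw [this]
        exact hone g₀ hg₀, hg₀D⟩
  obtain ⟨j, ⟨g, hg, hdg, hgD⟩, hj⟩ := hdesc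
  -- commutator lemma
  have hcomm : ∀ a ∈ P, Dg j a → ∀ d ∈ P, Dg (j + 1) (a * d * a⁻¹ * d⁻¹) := by
    intro a ha' hda d hd i x hx
    set z := ρ (d * a)⁻¹ x with hz
    have hzL : z ∈ L i := hPinv _ (P.inv_mem (P.mul_mem hd ha')) i x hx
    have e1 : x = ρ d (ρ a z) := by
      rw [← Module.End.mul_apply, ← map_mul, hz, rho_rho_inv]
    have e2 : ρ (a * d * a⁻¹ * d⁻¹) x = ρ a (ρ d z) := by
      have : a * d * a⁻¹ * d⁻¹ = (a * d) * (d * a)⁻¹ := by group
      rw [this, map_mul, Module.End.mul_apply, map_mul, Module.End.mul_apply]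
    have e3 : ρ a (ρ d z) - ρ d (ρ a z) =
        (ρ a (ρ d z - z) - (ρ d z - z)) - (ρ d (ρ a z - z) - (ρ a z - z)) := by
      rw [map_sub, map_sub]
      abel
    have e5 : ρ (a * d * a⁻¹ * d⁻¹) x - x = ρ a (ρ d z) - ρ d (ρ a z) := by rw [e2, ← e1]
    rw [e5, e3]
    refine Submodule.sub_mem _ ?_ ?_
    · have h1 := hs i d hd z hzL
      have h2 := hda (i + 1) _ h1
      have e4 : i + 1 + j = i + (j + 1) := by omega
      rwa [e4] at h2
    · have h1 := hda i z hzL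
      have h2 := hs (i + j) d hd _ h1
      exact h2
  -- inverse has the same depth
  have hinvd : Dg j g⁻¹ := by
    intro i x hx
    have h1 := hdg i x hx
    have h2 := hPinv g⁻¹ (P.inv_mem hg) _ _ h1
    have e : ρ g⁻¹ x - x = - ρ g⁻¹ (ρ g x - x) := by
      rw [map_sub, rho_inv_rho]
      abel
    rw [e]
    exact Submodule.neg_mem _ h2
  refine ⟨g, hg, hgD, fun d hd => ⟨?_, ?_⟩⟩
  · have hdP := hDP hd
    have h1 := hj _ (P.mul_mem (P.mul_mem (P.mul_mem hg hdP) (P.inv_mem hg)) (P.inv_mem hdP)) (hcomm g hg hdg d hdP)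
    have e : g * d * g⁻¹ = (g * d * g⁻¹ * d⁻¹) * d := by group
    rw [e]
    exact D.mul_mem h1 hd
  · have hdP := hDP hd
    have hgi := P.inv_mem hg
    have h1 := hj _ (P.mul_mem (P.mul_mem (P.mul_mem hgi hdP) (P.inv_mem hgi)) (P.inv_mem hdP)) (hcomm g⁻¹ hgi hinvd d hdP)
    have e : g⁻¹ * d * g = (g⁻¹ * d * g⁻¹⁻¹ * d⁻¹) * d := by group
    rw [e]
    exact D.mul_mem h1 hd


/-- One step of a flag. -/
def Stp (ρ : Γ →* Module.End k M) (S : Set Γ) (U V : Submodule k M) : Prop :=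
  V ≤ U ∧ ∀ g ∈ S, ∀ x ∈ U, ρ g x - x ∈ V

theorem flag_of_chain {S : Set Γ} {U : Submodule k M} (h : Relation.ReflTransGen (Stp ρ S) U ⊥) :
    ∃ (n : ℕ) (L : ℕ → Submodule k M), L 0 = U ∧ L n = ⊥ ∧ Antitone L ∧
      ∀ i, ∀ g ∈ S, ∀ x ∈ L i, ρ g x - x ∈ L (i + 1) := by
  induction h using Relation.ReflTransGen.head_induction_on with
  | refl =>
    refine ⟨0, fun _ => ⊥, rfl, rfl, fun _ _ _ => le_rfl, ?_⟩
    intro i g hg x hx
    rw [(Submodule.mem_bot k).mp hx]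
    simp
  | @head a c hab _ ih =>
    obtain ⟨n, L, h0, hn, ha, hs⟩ := ih
    refine ⟨n + 1, fun i => Nat.casesOn i a L, rfl, hn, ?_, ?_⟩
    · apply antitone_nat_of_succ_le
      intro i
      cases i with
      | zero =>
        show L 0 ≤ a
        rw [h0]
        exact hab.1
      | succ i => exact ha (Nat.le_succ i)
    · intro i g hg x hx
      cases i with
      | zero =>
        show ρ g x - x ∈ L 0
        rw [h0]
        exact hab.2 g hg x hx
      | succ i => exact hs i g hg x hx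

/-- The upper series of a set acting on `M`. -/
def KK (ρ : Γ →* Module.End k M) (A : Set Γ) : ℕ → Submodule k M
  | 0 => ⊥
  | j + 1 =>
    { carrier := {x | ∀ a ∈ A, ρ a x - x ∈ KK ρ A j}
      add_mem' := by
        intro x y hx hy a ha
        have : ρ a (x + y) - (x + y) = (ρ a x - x) + (ρ a y - y) := by
          rw [map_add]
          abel
        rw [this]
        exact Submodule.add_mem _ (hx a ha) (hy a ha)
      zero_mem' := by
        intro a ha
        simp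
      smul_mem' := by
        intro c x hx a ha
        have : ρ a (c • x) - c • x = c • (ρ a x - x) := by
          rw [map_smul, smul_sub]
        rw [this]
        exact Submodule.smul_mem _ _ (hx a ha) }

theorem KK_succ_mem {A : Set Γ} {j : ℕ} {x : M} :
    x ∈ KK ρ A (j + 1) ↔ ∀ a ∈ A, ρ a x - x ∈ KK ρ A j := Iff.rfl

theorem KK_mono (A : Set Γ) (j : ℕ) : KK ρ A j ≤ KK ρ A (j + 1) := by
  induction j with
  | zero =>
    intro x hx
    have : x = 0 := (Submodule.mem_bot k).mp hx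
    rw [this]
    exact Submodule.zero_mem _
  | succ j ih =>
    intro x hx a ha
    exact ih (hx a ha)

theorem KK_top {A : Set Γ} (h : Flag ρ A) : ∃ n, KK ρ A n = ⊤ := by
  obtain ⟨n, L, h0, hn, ha, hs⟩ := h
  refine ⟨n, ?_⟩
  have key : ∀ j, j ≤ n → L (n - j) ≤ KK ρ A j := by
    intro j
    induction j with
    | zero =>
      intro _
      rw [Nat.sub_zero, hn]
      exact bot_le
    | succ j ih =>
      intro hj x hx a haA
      apply ih (by omega)
      have := hs (n - (j + 1)) a haA x hx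
      have e : n - (j + 1) + 1 = n - j := by omega
      rwa [e] at this
  have := key n le_rfl
  rw [Nat.sub_self, h0] at this
  exact top_le_iff.mp this

theorem KK_inv {A : Set Γ} {b : Γ} (hb : ∀ a ∈ A, b⁻¹ * a * b ∈ A) :
    ∀ j, ∀ x ∈ KK ρ A j, ρ b x ∈ KK ρ A j := by
  intro j
  induction j with
  | zero =>
    intro x hx
    rw [(Submodule.mem_bot k).mp hx, map_zero]
    exact Submodule.zero_mem _
  | succ j ih =>
    intro x hx a ha
    have e : ρ a (ρ b x) - ρ b x = ρ b (ρ (b⁻¹ * a * b) x - x) := by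
      rw [map_sub, map_mul, map_mul, Module.End.mul_apply, Module.End.mul_apply, rho_rho_inv]
    rw [e]
    exact ih _ (hx _ (hb a ha))

theorem Flag.union {A B : Set Γ} (hA : Flag ρ A) (hB : Flag ρ B)
    (hnorm : ∀ b ∈ B, ∀ a ∈ A, b⁻¹ * a * b ∈ A) : Flag ρ (A ∪ B) := by
  obtain ⟨m, hm⟩ := KK_top hA
  obtain ⟨n, L, h0, hn, ha, hs⟩ := hB
  have hstep : ∀ j, Relation.ReflTransGen (Stp ρ (A ∪ B)) (KK ρ A (j + 1)) (KK ρ A j) := by
    intro j
    let f : ℕ → Submodule k M := fun i => KK ρ A j ⊔ (KK ρ A (j + 1) ⊓ L i)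
    have hf0 : f 0 = KK ρ A (j + 1) := by
      simp only [f, h0, inf_top_eq]
      exact sup_eq_right.mpr (KK_mono A j)
    have hfn : f n = KK ρ A j := by
      simp only [f, hn, inf_bot_eq, sup_bot_eq]
    have hs1 : ∀ i, Stp ρ (A ∪ B) (f i) (f (i + 1)) := by
      intro i
      refine ⟨sup_le_sup_left (inf_le_inf_left _ (ha (Nat.le_succ i))) _, ?_⟩
      intro g hg x hx
      obtain ⟨y, hy, z, hz, rfl⟩ := Submodule.mem_sup.mp hx
      have e : ρ g (y + z) - (y + z) = (ρ g y - y) + (ρ g z - z) := by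
        rw [map_add]
        abel
      rw [e]
      rcases hg with hg | hg
      · refine Submodule.add_mem _ (Submodule.mem_sup_left ?_) (Submodule.mem_sup_left ?_)
        · exact (KK_mono A j hy) g hg
        · exact hz.1 g hg
      · have hb := hnorm g hg
        refine Submodule.add_mem _ (Submodule.mem_sup_left ?_) (Submodule.mem_sup_right ⟨?_, ?_⟩)
        · exact Submodule.sub_mem _ (KK_inv hb j y hy) hy
        · exact Submodule.sub_mem _ (KK_inv hb (j + 1) z hz.1) hz.1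
        · exact hs i g hg z hz.2
    have hch : ∀ i, Relation.ReflTransGen (Stp ρ (A ∪ B)) (f 0) (f i) := by
      intro i
      induction i with
      | zero => exact Relation.ReflTransGen.refl
      | succ i ih => exact ih.tail (hs1 i)
    have := hch n
    rwa [hf0, hfn] at this
  have hall : ∀ j, Relation.ReflTransGen (Stp ρ (A ∪ B)) (KK ρ A j) ⊥ := by
    intro j
    induction j with
    | zero => exact Relation.ReflTransGen.refl
    | succ j ih => exact (hstep j).trans ih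
  have := hall m
  rw [hm] at this
  exact flag_of_chain this

/-- A set all of whose long words vanish is in a flag. -/
theorem Flag.of_words {A : Set Γ} (n : ℕ) (h : ∀ l : List Γ, (∀ g ∈ l, g ∈ A) → l.length = n →
    (l.map fun g => ρ g - 1).prod = 0) : Flag ρ A := by
  have key : ∀ j, ∀ x, (∀ l : List Γ, (∀ g ∈ l, g ∈ A) → l.length = j →
      (l.map fun g => ρ g - 1).prod x = 0) → x ∈ KK ρ A j := by
    intro j
    induction j with
    | zero =>
      intro x hx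
      have := hx [] (by simp) rfl
      simp only [List.map_nil, List.prod_nil, Module.End.one_apply] at this
      rw [this]
      exact Submodule.zero_mem _
    | succ j ih =>
      intro x hx a ha
      apply ih
      intro l hl hlen
      have := hx (l ++ [a]) (by
        intro g hg
        rcases List.mem_append.mp hg with hg | hg
        · exact hl g hg
        · rw [List.mem_singleton.mp hg]
          exact ha) (by simp [hlen])
      simpa [List.map_append, List.prod_append, Module.End.mul_apply] using this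
  have htop : KK ρ A n = ⊤ := by
    rw [eq_top_iff]
    intro x _
    apply key
    intro l hl hlen
    rw [h l hl hlen]
    rfl
  have hall : ∀ j, Relation.ReflTransGen (Stp ρ A) (KK ρ A j) ⊥ := by
    intro j
    induction j with
    | zero => exact Relation.ReflTransGen.refl
    | succ j ih =>
      exact Relation.ReflTransGen.head ⟨KK_mono A j, fun g hg x hx => hx g hg⟩ ih
  have := hall n
  rw [htop] at this
  exact flag_of_chain this

theorem Flag.words {A : Set Γ} (h : Flag ρ A) : ∃ n, ∀ l : List Γ, (∀ g ∈ l, g ∈ A) → l.length = n →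
    (l.map fun g => ρ g - 1).prod = 0 := by
  obtain ⟨n, L, h0, hn, ha, hs⟩ := h
  refine ⟨n, ?_⟩
  have key : ∀ l : List Γ, (∀ g ∈ l, g ∈ A) → ∀ x, (l.map fun g => ρ g - 1).prod x ∈ L l.length := by
    intro l
    induction l with
    | nil =>
      intro _ x
      rw [List.length_nil, h0]
      trivial
    | cons g l ih =>
      intro hl x
      have h1 := ih (fun g' hg' => hl g' (List.mem_cons_of_mem _ hg')) x
      have h2 := hs _ g (hl g List.mem_cons_self) _ h1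
      simpa [Module.End.mul_apply] using h2
  intro l hl hlen
  ext x
  have := key l hl x
  rw [hlen, hn] at this
  simpa using this

/-! ### The Baer-Suzuki argument with linearly closed sets -/

section Main

variable [FiniteDimensional k M]

variable (ρ) in
/-- The linear span of the `g - 1`. -/
def sp (T : Set Γ) : Submodule k (Module.End k M) := Submodule.span k ((fun t => ρ t - 1) '' T)

theorem sp_mono {T T' : Set Γ} (h : T ⊆ T') : sp ρ T ≤ sp ρ T' :=
  Submodule.span_mono (Set.image_mono h)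

theorem mem_sp {t : Γ} {T : Set Γ} (h : t ∈ T) : ρ t - 1 ∈ sp ρ T :=
  Submodule.subset_span ⟨t, h, rfl⟩

theorem flag_sp {T : Set Γ} (hT : Flag ρ T) : Flag ρ {a | ρ a - 1 ∈ sp ρ T} := by
  obtain ⟨n, L, h0, hn, ha, hs⟩ := hT
  refine ⟨n, L, h0, hn, ha, ?_⟩
  intro i g hg x hx
  have key : ∀ f ∈ sp ρ T, ∀ x ∈ L i, f x ∈ L (i + 1) := by
    intro f hf
    induction hf using Submodule.span_induction with
    | mem f hf =>
      obtain ⟨t, ht, rfl⟩ := hf
      intro x hx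
      exact hs i t ht x hx
    | zero =>
      intro x hx
      simp
    | add f g _ _ hf hg =>
      intro x hx
      exact Submodule.add_mem _ (hf x hx) (hg x hx)
    | smul c f _ hf =>
      intro x hx
      exact Submodule.smul_mem _ c (hf x hx)
  exact key _ hg x hx

variable (ρ) in
/-- Linearly closed subsets of `Sg` with a flag. -/
def Cl (Sg T : Set Γ) : Prop := T ⊆ Sg ∧ Flag ρ T ∧ ∀ a ∈ Sg, ρ a - 1 ∈ sp ρ T → a ∈ T

variable (ρ) in
/-- Maximal ones. -/
def Mx (Sg S : Set Γ) : Prop := Cl ρ Sg S ∧ ∀ S', Cl ρ Sg S' → S ⊆ S' → S' ⊆ S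

variable {Sg : Set Γ}

theorem Cl.of_flag {T : Set Γ} (hF : Flag ρ T) : Cl ρ Sg {a | a ∈ Sg ∧ ρ a - 1 ∈ sp ρ T} := by
  refine ⟨fun a ha => ha.1, Flag.mono (fun a ha => ha.2) (flag_sp hF), ?_⟩
  intro a ha h
  refine ⟨ha, ?_⟩
  have : sp ρ {a | a ∈ Sg ∧ ρ a - 1 ∈ sp ρ T} ≤ sp ρ T := by
    apply Submodule.span_le.mpr
    rintro _ ⟨t, ht, rfl⟩
    exact ht.2
  exact this h

theorem Cl.sp_lt {T T' : Set Γ} (hT : Cl ρ Sg T) (hsub : T ⊆ T') {t : Γ} (ht : t ∈ Sg)
    (ht' : ρ t - 1 ∈ sp ρ T') (htn : t ∉ T) : sp ρ T < sp ρ T' :=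
  lt_of_le_of_ne (sp_mono hsub) (fun e => htn (hT.2.2 t ht (e ▸ ht')))

theorem exists_mx {T : Set Γ} (hT : Cl ρ Sg T) : ∃ S, Mx ρ Sg S ∧ T ⊆ S := by
  set D := Module.finrank k (Module.End k M) with hD
  have key : ∀ m, ∀ T, Cl ρ Sg T → D - Module.finrank k (sp ρ T) ≤ m → ∃ S, Mx ρ Sg S ∧ T ⊆ S := by
    intro m
    induction m with
    | zero =>
      intro T hT hm
      by_cases h : ∀ S', Cl ρ Sg S' → T ⊆ S' → S' ⊆ T
      · exact ⟨T, ⟨hT, h⟩, subset_rfl⟩
      · exfalso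
        push Not at h
        obtain ⟨S', hS', hsub, hn⟩ := h
        obtain ⟨t, htS', ht⟩ := Set.not_subset.mp hn
        have hlt := Cl.sp_lt hT hsub (hS'.1 htS') (mem_sp htS') ht
        have h1 := Submodule.finrank_lt_finrank_of_lt hlt
        have h2 : Module.finrank k (sp ρ S') ≤ D := Submodule.finrank_le _
        omega
    | succ m ih =>
      intro T hT hm
      by_cases h : ∀ S', Cl ρ Sg S' → T ⊆ S' → S' ⊆ T
      · exact ⟨T, ⟨hT, h⟩, subset_rfl⟩
      · push Not at h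
        obtain ⟨S', hS', hsub, hn⟩ := h
        obtain ⟨t, htS', ht⟩ := Set.not_subset.mp hn
        have hlt := Cl.sp_lt hT hsub (hS'.1 htS') (mem_sp htS') ht
        have h1 := Submodule.finrank_lt_finrank_of_lt hlt
        have h2 : Module.finrank k (sp ρ S') ≤ D := Submodule.finrank_le _
        obtain ⟨S, hS, hS'S⟩ := ih S' hS' (by omega)
        exact ⟨S, hS, hsub.trans hS'S⟩
  exact key _ T hT le_rfl

theorem Mx.mem_of_closure {S : Set Γ} (hS : Mx ρ Sg S) {a : Γ} (ha : a ∈ Sg)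
    (ha' : a ∈ Subgroup.closure S) : a ∈ S := by
  have hF : Flag ρ (Subgroup.closure S : Set Γ) := Flag.closure hS.1.2.1
  have hF' : Flag ρ (S ∪ {a}) :=
    Flag.mono (Set.union_subset Subgroup.subset_closure (Set.singleton_subset_iff.mpr ha')) hF
  have h1 : Cl ρ Sg {b | b ∈ Sg ∧ ρ b - 1 ∈ sp ρ (S ∪ {a})} := Cl.of_flag hF'
  have h2 : S ⊆ {b | b ∈ Sg ∧ ρ b - 1 ∈ sp ρ (S ∪ {a})} :=
    fun t ht => ⟨hS.1.1 ht, mem_sp (Or.inl ht)⟩
  exact hS.2 _ h1 h2 ⟨ha, mem_sp (Or.inr rfl)⟩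

theorem Mx.conj {S : Set Γ} (hS : Mx ρ Sg S)
    (hconj : ∀ a ∈ Sg, ∀ g ∈ Subgroup.closure Sg, g * a * g⁻¹ ∈ Sg)
    {a g : Γ} (ha : a ∈ S) (hg : g ∈ Subgroup.closure S) : g * a * g⁻¹ ∈ S :=
  hS.mem_of_closure (hconj a (hS.1.1 ha) g (Subgroup.closure_mono hS.1.1 hg))
    (Subgroup.mul_mem _ (Subgroup.mul_mem _ hg (Subgroup.subset_closure ha)) (Subgroup.inv_mem _ hg))

/-- The tower step of Baer-Suzuki. -/
theorem tower (hρ : Function.Injective ρ) {S : Set Γ} (hS : Mx ρ Sg S)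
    (hconj : ∀ a ∈ Sg, ∀ g ∈ Subgroup.closure Sg, g * a * g⁻¹ ∈ Sg)
    {I : Set Γ} {H : Subgroup Γ} (hHU : H ≤ Subgroup.closure S) (hIS : I ⊆ S) (hIH : I ⊆ H)
    (hI : ∀ a ∈ S, a ∈ H → a ∈ I) {s : Γ} (hs : s ∈ S) (hsH : s ∉ H) :
    ∃ C ∈ S, C ∉ H ∧ ∀ e ∈ I, C⁻¹ * e * C ∈ I := by
  set U := Subgroup.closure S with hU
  have hF : Flag ρ (U : Set Γ) := Flag.closure hS.1.2.1
  let DD : Set (Subgroup Γ) := {D | D ≤ U ∧ H ≤ D ∧ ∀ a ∈ S, a ∈ D → a ∈ H}
  have hchain : ∀ c ⊆ DD, IsChain (· ≤ ·) c → ∀ y ∈ c, ∃ ub ∈ DD, ∀ z ∈ c, z ≤ ub := by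
    intro c hc hch y hy
    have hdir : DirectedOn (· ≤ ·) c := hch.directedOn
    refine ⟨sSup c, ⟨sSup_le fun D hD => (hc hD).1, le_trans (hc hy).2.1 (le_sSup hy), ?_⟩,
      fun z hz => le_sSup hz⟩
    intro a ha hac
    obtain ⟨D, hD, haD⟩ := (Subgroup.mem_sSup_of_directedOn ⟨y, hy⟩ hdir).mp hac
    exact (hc hD).2.2 a ha haD
  obtain ⟨m, hHm, hm⟩ := zorn_le_nonempty₀ DD hchain H ⟨hHU, le_rfl, fun a _ h => h⟩
  have hsm : s ∉ m := fun h => hsH (hm.prop.2.2 s hs h)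
  obtain ⟨g, hgU, hgm, hgn⟩ := Flag.exists_normalizing hF hm.prop.1
    (fun g hg h => by
      have : g = 1 := hρ (by ext x; simpa using h x)
      rw [this]
      exact m.one_mem)
    ⟨s, Subgroup.subset_closure hs, hsm⟩
  -- the normaliser of `m` in `U`
  let N : Subgroup Γ :=
    { carrier := {x | x ∈ U ∧ ∀ d ∈ m, x * d * x⁻¹ ∈ m ∧ x⁻¹ * d * x ∈ m}
      one_mem' := ⟨U.one_mem, fun d hd => by simpa using hd⟩
      mul_mem' := by
        rintro x y ⟨hx, hx'⟩ ⟨hy, hy'⟩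
        refine ⟨U.mul_mem hx hy, fun d hd => ⟨?_, ?_⟩⟩
        · have := (hx' _ (hy' d hd).1).1
          convert this using 1
          group
        · have := (hy' _ (hx' d hd).2).2
          convert this using 1
          group
      inv_mem' := by
        rintro x ⟨hx, hx'⟩
        refine ⟨U.inv_mem hx, fun d hd => ⟨?_, ?_⟩⟩
        · simpa using (hx' d hd).2
        · simpa using (hx' d hd).1 }
  have hmN : m ≤ N := by
    intro d hd
    refine ⟨hm.prop.1 hd, fun e he => ⟨?_, ?_⟩⟩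
    · exact m.mul_mem (m.mul_mem hd he) (m.inv_mem hd)
    · exact m.mul_mem (m.mul_mem (m.inv_mem hd) he) hd
  have hgN : g ∈ N := ⟨hgU, hgn⟩
  have hNnot : ¬ (∀ a ∈ S, a ∈ N → a ∈ H) := by
    intro h
    have hND : N ∈ DD := ⟨fun x hx => hx.1, hHm.trans hmN, h⟩
    exact hgm (hm.le_of_ge hND hmN hgN)
  push Not at hNnot
  obtain ⟨C, hCS, hCN, hCH⟩ := hNnot
  refine ⟨C, hCS, hCH, ?_⟩
  intro e he
  have h1 : C⁻¹ * e * C ∈ m := (hCN.2 e (hHm (hIH he))).2
  have h2 : C⁻¹ * e * C⁻¹⁻¹ ∈ S := Mx.conj hS hconj (hIS he) (U.inv_mem hCN.1)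
  rw [inv_inv] at h2
  exact hI _ h2 (hm.prop.2.2 _ h2 h1)

/-- Two different maximal sets produce a new pair with a larger intersection. -/
theorem step (hρ : Function.Injective ρ)
    (hconj : ∀ a ∈ Sg, ∀ g ∈ Subgroup.closure Sg, g * a * g⁻¹ ∈ Sg)
    (hpair : ∀ a ∈ Sg, ∀ b ∈ Sg, Flag ρ {a, b})
    {S₁ S₂ : Set Γ} (h₁ : Mx ρ Sg S₁) (h₂ : Mx ρ Sg S₂) (hne : S₁ ≠ S₂) :
    ∃ S₃ S₄, Mx ρ Sg S₃ ∧ Mx ρ Sg S₄ ∧ S₃ ≠ S₄ ∧ sp ρ (S₁ ∩ S₂) < sp ρ (S₃ ∩ S₄) := by
  have hI : Cl ρ Sg (S₁ ∩ S₂) := by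
    refine ⟨Set.inter_subset_left.trans h₁.1.1, Flag.mono Set.inter_subset_left h₁.1.2.1, ?_⟩
    intro a ha h
    exact ⟨h₁.1.2.2 a ha (sp_mono Set.inter_subset_left h),
      h₂.1.2.2 a ha (sp_mono Set.inter_subset_right h)⟩
  have hnsub : ∀ {S S' : Set Γ}, Mx ρ Sg S → Mx ρ Sg S' → S ≠ S' → ∃ s ∈ S, s ∉ S' := by
    intro S S' hS hS' hSS
    by_contra hcon
    push Not at hcon
    exact hSS (Set.Subset.antisymm hcon (hS.2 S' hS'.1 hcon))
  -- the tower step for both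
  have hT : ∀ {S S' : Set Γ}, Mx ρ Sg S → Mx ρ Sg S' → S ≠ S' →
      ∃ C ∈ S, C ∉ S' ∧ ∀ e ∈ S ∩ S', C⁻¹ * e * C ∈ S ∩ S' := by
    intro S S' hS hS' hSS
    obtain ⟨s, hs, hs'⟩ := hnsub hS hS' hSS
    have hclos : ∀ a ∈ S, a ∈ Subgroup.closure (S ∩ S') → a ∈ S ∩ S' := by
      intro a ha ha'
      exact ⟨ha, hS'.mem_of_closure (hS.1.1 ha)
        (Subgroup.closure_mono Set.inter_subset_right ha')⟩
    obtain ⟨C, hC, hCH, hCn⟩ := tower hρ hS hconj
      (Subgroup.closure_mono Set.inter_subset_left) Set.inter_subset_left Subgroup.subset_closure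
      hclos hs (fun h => hs' (hclos s hs h).2)
    refine ⟨C, hC, fun h => hCH (Subgroup.subset_closure ⟨hC, h⟩), hCn⟩
  obtain ⟨C₁, hC₁, hC₁', hC₁n⟩ := hT h₁ h₂ hne
  obtain ⟨C₂, hC₂, hC₂', hC₂n⟩ := hT h₂ h₁ hne.symm
  rw [Set.inter_comm] at hC₂n
  have hF : Flag ρ ((S₁ ∩ S₂) ∪ {C₁, C₂}) := by
    refine Flag.union hI.2.1 (hpair C₁ (h₁.1.1 hC₁) C₂ (h₂.1.1 hC₂)) ?_
    intro b hb a ha
    rcases hb with rfl | hb
    · exact hC₁n a ha
    · rw [Set.mem_singleton_iff.mp hb]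
      exact hC₂n a ha
  obtain ⟨S₃, hS₃, hsub⟩ := exists_mx (Cl.of_flag (Sg := Sg) hF)
  have hmem : ∀ t, t ∈ Sg → t ∈ (S₁ ∩ S₂) ∪ {C₁, C₂} → t ∈ S₃ :=
    fun t ht ht' => hsub ⟨ht, mem_sp ht'⟩
  have hI3 : S₁ ∩ S₂ ⊆ S₃ := fun t ht => hmem t (h₁.1.1 ht.1) (Or.inl ht)
  have hC13 : C₁ ∈ S₃ := hmem _ (h₁.1.1 hC₁) (Or.inr (Or.inl rfl))
  have hC23 : C₂ ∈ S₃ := hmem _ (h₂.1.1 hC₂) (Or.inr (Or.inr rfl))
  by_cases hc : S₃ = S₁
  · -- then `S₃ ≠ S₂`
    have hc' : S₃ ≠ S₂ := fun h => hne (hc.symm.trans h)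
    refine ⟨S₃, S₂, hS₃, h₂, hc', ?_⟩
    refine Cl.sp_lt hI (fun t ht => ⟨hI3 ht, ht.2⟩) (h₂.1.1 hC₂) (mem_sp ⟨hC23, hC₂⟩)
      (fun h => hC₂' h.1)
  · refine ⟨S₃, S₁, hS₃, h₁, hc, ?_⟩
    refine Cl.sp_lt hI (fun t ht => ⟨hI3 ht, ht.1⟩) (h₁.1.1 hC₁) (mem_sp ⟨hC13, hC₁⟩)
      (fun h => hC₁' h.2)

theorem mx_unique (hρ : Function.Injective ρ)
    (hconj : ∀ a ∈ Sg, ∀ g ∈ Subgroup.closure Sg, g * a * g⁻¹ ∈ Sg)
    (hpair : ∀ a ∈ Sg, ∀ b ∈ Sg, Flag ρ {a, b})
    {S₁ S₂ : Set Γ} (h₁ : Mx ρ Sg S₁) (h₂ : Mx ρ Sg S₂) : S₁ = S₂ := by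
  by_contra hne
  set D := Module.finrank k (Module.End k M) with hD
  have key : ∀ m, ∀ S₁ S₂ : Set Γ, Mx ρ Sg S₁ → Mx ρ Sg S₂ → S₁ ≠ S₂ →
      D - Module.finrank k (sp ρ (S₁ ∩ S₂)) ≤ m → False := by
    intro m
    induction m with
    | zero =>
      intro S₁ S₂ h₁ h₂ hne hm
      obtain ⟨S₃, S₄, h₃, h₄, hne', hlt⟩ := step hρ hconj hpair h₁ h₂ hne
      have h1 := Submodule.finrank_lt_finrank_of_lt hlt
      have h2 : Module.finrank k (sp ρ (S₃ ∩ S₄)) ≤ D := Submodule.finrank_le _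
      omega
    | succ m ih =>
      intro S₁ S₂ h₁ h₂ hne hm
      obtain ⟨S₃, S₄, h₃, h₄, hne', hlt⟩ := step hρ hconj hpair h₁ h₂ hne
      have h1 := Submodule.finrank_lt_finrank_of_lt hlt
      have h2 : Module.finrank k (sp ρ (S₃ ∩ S₄)) ≤ D := Submodule.finrank_le _
      exact ih S₃ S₄ h₃ h₄ hne' (by omega)
  exact key _ S₁ S₂ h₁ h₂ hne le_rfl

theorem flag_main (hρ : Function.Injective ρ)
    (hconj : ∀ a ∈ Sg, ∀ g ∈ Subgroup.closure Sg, g * a * g⁻¹ ∈ Sg)
    (hpair : ∀ a ∈ Sg, ∀ b ∈ Sg, Flag ρ {a, b}) : Flag ρ Sg := by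
  rcases Sg.eq_empty_or_nonempty with rfl | ⟨a, ha⟩
  · apply Flag.of_words 1
    intro l hl hlen
    obtain ⟨g, rfl⟩ := List.length_eq_one_iff.mp hlen
    exact absurd (hl g (by simp)) (by simp)
  · have hmk : ∀ b ∈ Sg, ∃ S, Mx ρ Sg S ∧ b ∈ S := by
      intro b hb
      have hFb : Flag ρ ({b} : Set Γ) := Flag.mono (by simp) (hpair b hb b hb)
      obtain ⟨S, hS, hsub⟩ := exists_mx (Cl.of_flag (Sg := Sg) hFb)
      exact ⟨S, hS, hsub ⟨hb, mem_sp rfl⟩⟩
    obtain ⟨S, hS, _⟩ := hmk a ha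
    refine Flag.mono ?_ hS.1.2.1
    intro b hb
    obtain ⟨S', hS', hbS'⟩ := hmk b hb
    rwa [mx_unique hρ hconj hpair hS hS']

end Main

end Flag

theorem list_coe {k : Type*} [Field k] {M : Type*} [AddCommGroup M] [Module k M]
    (l : List (LinearMap.GeneralLinearGroup k M)) :
    ((l >>= fun a => pure (a : M →ₗ[k] M)) : List (M →ₗ[k] M)) =
      l.map (fun a : LinearMap.GeneralLinearGroup k M => (a : M →ₗ[k] M)) := by
  induction l with
  | nil => rfl
  | cons a l ih =>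
    have : ((a :: l) >>= fun a => pure (a : M →ₗ[k] M)) =
      (a : M →ₗ[k] M) :: (l >>= fun a => pure (a : M →ₗ[k] M)) := rfl
    rw [this, ih]
    rfl

/-- Let M be a finite-dimensional vector space over a field k, G ≤ GL(M), and 𝒲 a set of subgroups of G, invariant under conjugation by G, such that any two members of 𝒲 generate a subgroup acting unipotently on M (for some n all products of n endomorphisms g − 1 from it vanish). Then the subgroup generated by all members of 𝒲 acts unipotently on M and is normal in G. -/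
theorem result {k : Type*} [Field k] {M : Type*} [AddCommGroup M] [Module k M] [FiniteDimensional k M]
    {G : Subgroup (LinearMap.GeneralLinearGroup k M)} {W : Set (Subgroup (LinearMap.GeneralLinearGroup k M))} (hWG : ∀ A ∈ W, A ≤ G)
    (hWW : ∀ A ∈ W, ∀ B ∈ W, Cfsg.IsUnipotentOn (A ⊔ B)) (hWconj : ∀ A ∈ W, ∀ g ∈ G, Cfsg.conjBy A g ∈ W) :
    Cfsg.IsUnipotentOn (⨆ A ∈ W, A) ∧ ∀ g ∈ G, Cfsg.conjBy (⨆ A ∈ W, A) g = ⨆ A ∈ W, A := by
  classical
  -- the representation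
  let ρ : LinearMap.GeneralLinearGroup k M →* Module.End k M := Units.coeHom _
  have hρ : Function.Injective ρ := Units.val_injective
  let Sg : Set (LinearMap.GeneralLinearGroup k M) := {a | ∃ A ∈ W, a ∈ A}
  have hcl : Subgroup.closure Sg = ⨆ A ∈ W, A := by
    apply le_antisymm
    · rw [Subgroup.closure_le]
      rintro a ⟨A, hA, ha⟩
      exact (le_iSup₂_of_le A hA le_rfl : A ≤ ⨆ A ∈ W, A) ha
    · apply iSup₂_le
      intro A hA a ha
      exact Subgroup.subset_closure ⟨A, hA, ha⟩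
  have hleG : (⨆ A ∈ W, A) ≤ G := iSup₂_le hWG
  have hconj : ∀ a ∈ Sg, ∀ g ∈ Subgroup.closure Sg, g * a * g⁻¹ ∈ Sg := by
    rintro a ⟨A, hA, ha⟩ g hg
    rw [hcl] at hg
    exact ⟨_, hWconj A hA g (hleG hg), ⟨a, ha, rfl⟩⟩
  have hpair : ∀ a ∈ Sg, ∀ b ∈ Sg, Flag ρ {a, b} := by
    rintro a ⟨A, hA, ha⟩ b ⟨B, hB, hb⟩
    obtain ⟨n, hn⟩ := hWW A hA B hB
    have hF : Flag ρ ((A ⊔ B : Subgroup _) : Set (LinearMap.GeneralLinearGroup k M)) := by
      refine Flag.of_words n fun l hl hlen => ?_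
      have := hn l hl hlen
      rw [show (List.map (fun g : M →ₗ[k] M => g - 1) (l >>= fun a => pure (a : M →ₗ[k] M))) =
        l.map (fun g => ρ g - 1) by rw [list_coe, List.map_map]; rfl] at this
      exact this
    refine Flag.mono ?_ hF
    rintro x (rfl | hx)
    · exact (le_sup_left : A ≤ A ⊔ B) ha
    · rw [Set.mem_singleton_iff.mp hx]
      exact (le_sup_right : B ≤ A ⊔ B) hb
  have hmain : Flag ρ Sg := flag_main hρ hconj hpair
  have hmain' : Flag ρ ((⨆ A ∈ W, A : Subgroup _) : Set (LinearMap.GeneralLinearGroup k M)) := by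
    rw [← hcl]
    exact Flag.closure hmain
  refine ⟨?_, ?_⟩
  · obtain ⟨n, hn⟩ := hmain'.words
    refine ⟨n, fun l hl hlen => ?_⟩
    have := hn l hl hlen
    rw [show (List.map (fun g : M →ₗ[k] M => g - 1) (l >>= fun a => pure (a : M →ₗ[k] M))) =
        l.map (fun g => ρ g - 1) by rw [list_coe, List.map_map]; rfl]
    exact this
  -- normality
  have hle : ∀ g ∈ G, Cfsg.conjBy (⨆ A ∈ W, A) g ≤ ⨆ A ∈ W, A := by
    intro g hg
    rintro _ ⟨x, hx, rfl⟩
    rw [← hcl] at hx ⊢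
    have hle2 : Subgroup.closure Sg ≤
        (Subgroup.closure Sg).comap (MulAut.conj g).toMonoidHom := by
      rw [Subgroup.closure_le]
      rintro a ⟨A, hA, ha⟩
      exact Subgroup.subset_closure ⟨_, hWconj A hA g hg, ⟨a, ha, rfl⟩⟩
    exact hle2 hx
  intro g hg
  refine le_antisymm (hle g hg) ?_
  intro x hx
  refine ⟨g⁻¹ * x * g, ?_, by simp [mul_assoc]⟩
  have := hle g⁻¹ (G.inv_mem hg) ⟨x, hx, rfl⟩
  simpa using this

end Cfsg.Agent.S5061
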