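import Mathlib.GroupTheory.Sylow
import Mathlib.GroupTheory.Commutator.Basic
import Mathlib.GroupTheory.Subgroup.Centralizer
import Mathlib.GroupTheory.IsSubnormal
import Cfsg.Prelude.Def_Transfer
import Cfsg.Prelude.Def_Local
import Cfsg.Prelude.Def_PLocal
import Cfsg.Agent.Lib.PGroup.FFDuo
import Cfsg.Agent.Lib.Nilpotent.Subnormal
import Cfsg.Agent.Lib.Basic.PCore
import Cfsg.Agent.Lib.Basic.Subnormal
import Mathlib

set_option autoImplicit false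
set_option linter.unusedSectionVars false

open scoped commutatorElement

namespace Cfsg.Agent.S0615

open Cfsg.Agent.Lib.Nilpotent.Subnormal
open Cfsg.Agent.Lib.PGroup.Timmesfeld (card_sup_mul_card_inf_of_le_normalizer)
open Cfsg.Agent.Lib.Coprime.Three (mem_normalizer_of_conj_mem)

variable {G : Type*} [Group G] [Finite G]

/-- The hypotheses on one factor. -/
structure Fac (V E₀ K : Subgroup G) : Prop where
  le : K ≤ E₀
  faith : ∀ x ∈ K, (∀ v ∈ ⁅V, K⁆, x * v = v * x) → x = 1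
  irr : ∀ U : Subgroup G, U ≤ ⁅V, K⁆ → K ≤ Subgroup.normalizer (U : Set G) → U = ⊥ ∨ U = ⁅V, K⁆
  two : 2 < Nat.card K

/-- The conclusion for a pair. -/
def Concl (V K₁ K₂ : Subgroup G) : Prop :=
  ⁅K₁, K₂⁆ = ⊥ ∧ K₁ ⊓ K₂ = ⊥ ∧ ⁅V, K₁⁆ ⊓ ⁅V, K₂⁆ = ⊥

theorem comm_sup {x : G} {A B : Subgroup G} (hA : ∀ y ∈ A, x * y = y * x)
    (hB : ∀ y ∈ B, x * y = y * x) : ∀ y ∈ A ⊔ B, x * y = y * x := by
  have : A ⊔ B ≤ Subgroup.centralizer {x} :=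
    sup_le (fun y hy => Subgroup.mem_centralizer_singleton_iff.mpr (hA y hy).symm)
      (fun y hy => Subgroup.mem_centralizer_singleton_iff.mpr (hB y hy).symm)
  intro y hy
  exact (Subgroup.mem_centralizer_singleton_iff.mp (this hy)).symm

theorem cj_commutator (g : G) (A B : Subgroup G) : cj g ⁅A, B⁆ = ⁅cj g A, cj g B⁆ := by
  simp only [Subgroup.pointwise_smul_def]
  exact Subgroup.map_commutator _ _ _

theorem cj_eq_of_mem_normalizer {g : G} {A : Subgroup G}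
    (hg : g ∈ Subgroup.normalizer (A : Set G)) : cj g A = A := by
  ext x
  rw [mem_cj]
  have := (Subgroup.mem_normalizer_iff.mp (Subgroup.inv_mem _ hg) x)
  simpa using this.symm

theorem card_cj (g : G) (A : Subgroup G) : Nat.card (cj g A) = Nat.card A :=
  Nat.card_congr (Subgroup.equivSMul (MulAut.conj g) A).toEquiv.symm

theorem cj_inf (g : G) (A B : Subgroup G) : cj g (A ⊓ B) = cj g A ⊓ cj g B := by
  ext x
  simp only [mem_cj, Subgroup.mem_inf]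

theorem cj_bot (g : G) : cj g (⊥ : Subgroup G) = ⊥ := by
  ext x
  simp only [mem_cj, Subgroup.mem_bot]
  constructor
  · intro h
    have : x = g * (g⁻¹ * x * g) * g⁻¹ := by group
    rw [this, h]; group
  · rintro rfl; group

theorem cj_cj_inv (g : G) (A : Subgroup G) : cj g (cj g⁻¹ A) = A := by
  rw [← cj_mul]; simp

theorem cj_inv_cj (g : G) (A : Subgroup G) : cj g⁻¹ (cj g A) = A := by
  rw [← cj_mul]; simp

theorem cj_inj {g : G} {A B : Subgroup G} (h : cj g A = cj g B) : A = B := by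
  have := congrArg (cj g⁻¹) h
  rwa [cj_inv_cj, cj_inv_cj] at this

/-- `[V, K] ≤ V`. -/
theorem commutator_le_self {V K : Subgroup G} (hK : K ≤ Subgroup.normalizer (V : Set G)) :
    ⁅V, K⁆ ≤ V := by
  rw [Subgroup.commutator_le]
  intro v hv k hk
  have h1 := (Subgroup.mem_normalizer_iff.mp (hK hk) v⁻¹).mp (V.inv_mem hv)
  rw [commutatorElement_def]
  have : v * k * v⁻¹ * k⁻¹ = v * (k * v⁻¹ * k⁻¹) := by group
  rw [this]
  exact V.mul_mem hv h1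

/-- `K` normalizes `[V, K]`. -/
theorem cj_commutator_self {V K : Subgroup G} (hK : K ≤ Subgroup.normalizer (V : Set G)) {k : G}
    (hk : k ∈ K) : cj k ⁅V, K⁆ = ⁅V, K⁆ := by
  rw [cj_commutator, cj_eq_of_mem_normalizer (hK hk), cj_eq_self_of_mem hk]

theorem le_normalizer_commutator {V K : Subgroup G} (hK : K ≤ Subgroup.normalizer (V : Set G)) :
    K ≤ Subgroup.normalizer ((⁅V, K⁆ : Subgroup G) : Set G) :=
  fun _ hk => mem_normalizer_of_cj_eq (cj_commutator_self hK hk)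

theorem commutator_cj {V K : Subgroup G} {g : G} (hg : g ∈ Subgroup.normalizer (V : Set G)) :
    ⁅V, cj g K⁆ = cj g ⁅V, K⁆ := by
  rw [cj_commutator, cj_eq_of_mem_normalizer hg]

/-- If `k` normalizes `A` and `x ∈ A ∩ [V, K]`... : `[A, K] ≤ A ⊓ [V,K]`. -/
theorem comm_mem_inf {V A K : Subgroup G} (hAV : A ≤ V) (hKA : K ≤ Subgroup.normalizer (A : Set G))
    {a k : G} (ha : a ∈ A) (hk : k ∈ K) : ⁅a, k⁆ ∈ A ⊓ ⁅V, K⁆ := by
  refine Subgroup.mem_inf.mpr ⟨?_, Subgroup.commutator_mem_commutator (hAV ha) hk⟩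
  have h1 := (Subgroup.mem_normalizer_iff.mp (hKA hk) a⁻¹).mp (A.inv_mem ha)
  rw [commutatorElement_def]
  have : a * k * a⁻¹ * k⁻¹ = a * (k * a⁻¹ * k⁻¹) := by group
  rw [this]
  exact A.mul_mem ha h1

/-- `k` commutes with `a` if `[a, k]` lies in a trivial intersection. -/
theorem comm_of_inf_bot {V A K : Subgroup G} (hAV : A ≤ V)
    (hKA : K ≤ Subgroup.normalizer (A : Set G)) (hbot : A ⊓ ⁅V, K⁆ = ⊥)
    {a k : G} (ha : a ∈ A) (hk : k ∈ K) : k * a = a * k := by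
  have h := comm_mem_inf hAV hKA ha hk
  rw [hbot, Subgroup.mem_bot, commutatorElement_eq_one_iff_mul_comm] at h
  exact h.symm

theorem Fac.exists_ne_one {V E₀ K : Subgroup G} (h : Fac V E₀ K) : ∃ x ∈ K, x ≠ 1 := by
  by_contra hcon
  push Not at hcon
  have : K = ⊥ := (Subgroup.eq_bot_iff_forall K).mpr hcon
  have h2 := h.two
  rw [this, Subgroup.card_bot] at h2
  omega

/-- A factor cannot centralize its commutator module. -/
theorem Fac.not_centralizes {V E₀ K : Subgroup G} (h : Fac V E₀ K)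
    (hc : ∀ x ∈ K, ∀ v ∈ ⁅V, K⁆, x * v = v * x) : False := by
  obtain ⟨x, hx, hne⟩ := h.exists_ne_one
  exact hne (h.faith x hx (hc x hx))

theorem Fac.conj {V E₀ K : Subgroup G} (hE₀ : E₀ ≤ Subgroup.normalizer (V : Set G))
    (h : Fac V E₀ K) {g : G} (hg : g ∈ E₀) : Fac V E₀ (cj g K) := by
  have hcomm := commutator_cj (K := K) (hE₀ hg)
  refine ⟨?_, ?_, ?_, ?_⟩
  · intro x hx
    rw [mem_cj] at hx
    have h1 := E₀.mul_mem (E₀.mul_mem hg (h.le hx)) (E₀.inv_mem hg)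
    have : g * (g⁻¹ * x * g) * g⁻¹ = x := by group
    rwa [this] at h1
  · intro x hx hc
    rw [hcomm] at hc
    rw [mem_cj] at hx
    have h1 := h.faith _ hx (fun v hv => by
      have h2 := hc _ (conj_mem_cj (g := g) hv)
      have h3 : g⁻¹ * (x * (g * v * g⁻¹)) * g = g⁻¹ * ((g * v * g⁻¹) * x) * g := by rw [h2]
      calc g⁻¹ * x * g * v = g⁻¹ * (x * (g * v * g⁻¹)) * g := by group
        _ = g⁻¹ * ((g * v * g⁻¹) * x) * g := h3
        _ = v * (g⁻¹ * x * g) := by group)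
    have : x = g * (g⁻¹ * x * g) * g⁻¹ := by group
    rw [this, h1]; group
  · intro U hU hn
    rw [hcomm] at hU ⊢
    have hU' : cj g⁻¹ U ≤ ⁅V, K⁆ := by
      have := cj_mono g⁻¹ hU
      rwa [cj_inv_cj] at this
    have hn' : K ≤ Subgroup.normalizer (cj g⁻¹ U : Set G) := by
      intro k hk
      apply mem_normalizer_of_cj_eq
      have h1 : g * k * g⁻¹ ∈ cj g K := conj_mem_cj hk
      have h2 := cj_eq_of_mem_normalizer (hn h1)
      have h3 : k = g⁻¹ * (g * k * g⁻¹) * g := by group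
      have h4 : k * g⁻¹ = g⁻¹ * (g * k * g⁻¹) := by group
      rw [← cj_mul, h4, cj_mul, h2]
    rcases h.irr _ hU' hn' with h1 | h1
    · left
      have := congrArg (cj g) h1
      rwa [cj_cj_inv, cj_bot] at this
    · right
      have := congrArg (cj g) h1
      rwa [cj_cj_inv] at this
  · rw [card_cj]; exact h.two

/-- Step 2 of the argument: a conjugate of `V₁` different from `V₁` is centralized by `K`. -/
theorem step2 {V E₀ K E : Subgroup G} (hE₀ : E₀ ≤ Subgroup.normalizer (V : Set G)) (hEE₀ : E ≤ E₀)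
    (hK : Fac V E₀ K) (hSN : SN K E) (hne : K ≠ E)
    (IH : ∀ K₁ K₂ : Subgroup G, Nat.card ↥(K₁ ⊔ K₂) < Nat.card E → Fac V E₀ K₁ → Fac V E₀ K₂ →
      SN K₁ (K₁ ⊔ K₂) → SN K₂ (K₁ ⊔ K₂) → ¬ ⁅V, K₁⁆ ≤ ⁅V, K₂⁆ → ¬ ⁅V, K₂⁆ ≤ ⁅V, K₁⁆ → Concl V K₁ K₂)
    {g : G} (hg : g ∈ E) (hm : cj g ⁅V, K⁆ ≠ ⁅V, K⁆) :
    (∀ x ∈ K, ∀ y ∈ cj g ⁅V, K⁆, x * y = y * x) ∧ ⁅V, K⁆ ⊓ cj g ⁅V, K⁆ = ⊥ := by
  have hgE₀ := hEE₀ hg
  have hKE := hSN.le
  have hc := commutator_cj (K := K) (hE₀ hgE₀)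
  have hF2 := hK.conj hE₀ hgE₀
  have hcg : cj g E = E := cj_eq_self_of_mem hg
  have hcle : cj g K ≤ E := by
    have := cj_mono g hKE; rwa [hcg] at this
  have hT1 : K ≤ ncl K E := le_ncl K E
  have hT2 : cj g K ≤ ncl K E := cj_le_ncl hg
  have hTlt : K ⊔ cj g K < E := by
    refine lt_of_le_of_ne (sup_le hKE hcle) ?_
    intro heq
    have h1 : ncl K E ≠ E := hSN.ncl_ne hne
    have h2 : ncl K E ≤ E := (ncl_normalIn hKE).1
    exact h1 (le_antisymm h2 (heq.symm.le.trans (sup_le hT1 hT2)))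
  have hcard : Nat.card ↥(K ⊔ cj g K) < Nat.card E :=
    Cfsg.Agent.Lib.Basic.Subnormal.card_lt_of_lt hTlt
  have hsn1 : SN K (K ⊔ cj g K) := hSN.of_le le_sup_left hTlt.le
  have hsn2 : SN (cj g K) (K ⊔ cj g K) := by
    have := hSN.conj g
    rw [hcg] at this
    exact this.of_le le_sup_right hTlt.le
  have hnl1 : ¬ ⁅V, K⁆ ≤ ⁅V, cj g K⁆ := by
    rw [hc]
    intro hle
    exact hm (Subgroup.eq_of_le_of_card_ge hle (by rw [card_cj])).symm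
  have hnl2 : ¬ ⁅V, cj g K⁆ ≤ ⁅V, K⁆ := by
    rw [hc]
    intro hle
    exact hm (Subgroup.eq_of_le_of_card_ge hle (by rw [card_cj]))
  obtain ⟨h1, -, h3⟩ := IH K (cj g K) hcard hK hF2 hsn1 hsn2 hnl1 hnl2
  rw [hc] at h3
  refine ⟨?_, h3⟩
  intro x hx y hy
  have hyV : cj g ⁅V, K⁆ ≤ V := by
    rw [← hc]
    exact commutator_le_self (fun z hz => hE₀ (hF2.le hz))
  have hnorm : K ≤ Subgroup.normalizer ((cj g ⁅V, K⁆ : Subgroup G) : Set G) := by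
    intro k hk
    apply mem_normalizer_of_cj_eq
    rw [← hc, cj_commutator, cj_eq_of_mem_normalizer (hE₀ (hK.le hk))]
    congr 1
    apply cj_eq_of_mem_normalizer
    apply mem_normalizer_of_conj_mem
    intro z hz
    have := Subgroup.commutator_mem_commutator hk hz
    rw [h1, Subgroup.mem_bot, commutatorElement_eq_one_iff_mul_comm] at this
    rw [this]
    simpa using hz
  exact (comm_of_inf_bot hyV hnorm (by rw [inf_comm]; exact h3) hy hx)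

/-- Both factors normalize the commutator module of the other one. -/
theorem caseA {V E₀ K₁ K₂ : Subgroup G} (hE₀ : E₀ ≤ Subgroup.normalizer (V : Set G))
    (hf : E₀ ⊓ Subgroup.centralizer (V : Set G) = ⊥)
    (h₁ : Fac V E₀ K₁) (h₂ : Fac V E₀ K₂) (hn1 : K₂ ≤ Subgroup.normalizer ((⁅V, K₁⁆ : Subgroup G) : Set G))
    (hn2 : K₁ ≤ Subgroup.normalizer ((⁅V, K₂⁆ : Subgroup G) : Set G))
    (h12 : ¬ ⁅V, K₁⁆ ≤ ⁅V, K₂⁆) : Concl V K₁ K₂ := by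
  have hK1V : K₁ ≤ Subgroup.normalizer (V : Set G) := h₁.le.trans hE₀
  have hK2V : K₂ ≤ Subgroup.normalizer (V : Set G) := h₂.le.trans hE₀
  have hU : ⁅V, K₁⁆ ⊓ ⁅V, K₂⁆ = ⊥ := by
    rcases h₁.irr (⁅V, K₁⁆ ⊓ ⁅V, K₂⁆) inf_le_left (by
      intro k hk
      apply mem_normalizer_of_cj_eq
      rw [cj_inf, cj_eq_of_mem_normalizer (hn2 hk), cj_commutator_self hK1V hk]) with h | h
    · exact h
    · exact absurd (inf_eq_left.mp h) h12
  have h3 : ⁅⁅V, K₁⁆, K₂⁆ = ⊥ := by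
    rw [Subgroup.commutator_eq_bot_iff_le_centralizer]
    intro a ha
    rw [Subgroup.mem_centralizer_iff]
    intro k hk
    exact (comm_of_inf_bot (commutator_le_self hK1V) hn1 hU ha hk)
  have h4 : ⁅⁅K₂, V⁆, K₁⁆ = ⊥ := by
    rw [Subgroup.commutator_comm K₂ V, Subgroup.commutator_eq_bot_iff_le_centralizer]
    intro a ha
    rw [Subgroup.mem_centralizer_iff]
    intro k hk
    exact (comm_of_inf_bot (commutator_le_self hK2V) hn2 (by rw [inf_comm]; exact hU) ha hk)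
  have h5 : ⁅⁅K₁, K₂⁆, V⁆ = ⊥ := Subgroup.commutator_commutator_eq_bot_of_rotate h4 h3
  refine ⟨?_, ?_, hU⟩
  · rw [eq_bot_iff, ← hf]
    refine le_inf ?_ ?_
    · rw [Subgroup.commutator_le]
      intro a ha b hb
      rw [commutatorElement_def]
      have ha' := h₁.le ha
      have hb' := h₂.le hb
      exact E₀.mul_mem (E₀.mul_mem (E₀.mul_mem ha' hb') (E₀.inv_mem ha')) (E₀.inv_mem hb')
    · rw [Subgroup.commutator_eq_bot_iff_le_centralizer] at h5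
      exact h5
  · rw [eq_bot_iff, ← hf]
    intro x hx
    refine Subgroup.mem_inf.mpr ⟨h₁.le hx.1, ?_⟩
    rw [Subgroup.mem_centralizer_iff]
    intro v hv
    have h6 : ⁅v, x⁆ ∈ ⁅V, K₁⁆ ⊓ ⁅V, K₂⁆ :=
      Subgroup.mem_inf.mpr ⟨Subgroup.commutator_mem_commutator hv hx.1,
        Subgroup.commutator_mem_commutator hv hx.2⟩
    rw [hU, Subgroup.mem_bot, commutatorElement_eq_one_iff_mul_comm] at h6
    exact h6

/-- `K₁` normalizes `[V, K₂]`, but some `g ∈ K₂` moves `[V, K₁]`. -/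
theorem caseB {V E₀ K₁ K₂ : Subgroup G} (hE₀ : E₀ ≤ Subgroup.normalizer (V : Set G))
    (h₁ : Fac V E₀ K₁) (h₂ : Fac V E₀ K₂)
    (hn2 : K₁ ≤ Subgroup.normalizer ((⁅V, K₂⁆ : Subgroup G) : Set G))
    (h12 : ¬ ⁅V, K₁⁆ ≤ ⁅V, K₂⁆) {g : G} (hg : g ∈ K₂)
    (hcen : ∀ x ∈ K₁, ∀ y ∈ cj g ⁅V, K₁⁆, x * y = y * x) : False := by
  have hK1V : K₁ ≤ Subgroup.normalizer (V : Set G) := h₁.le.trans hE₀
  have hK2V : K₂ ≤ Subgroup.normalizer (V : Set G) := h₂.le.trans hE₀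
  have hU : ⁅V, K₁⁆ ⊓ ⁅V, K₂⁆ = ⊥ := by
    rcases h₁.irr (⁅V, K₁⁆ ⊓ ⁅V, K₂⁆) inf_le_left (by
      intro k hk
      apply mem_normalizer_of_cj_eq
      rw [cj_inf, cj_eq_of_mem_normalizer (hn2 hk), cj_commutator_self hK1V hk]) with h | h
    · exact h
    · exact absurd (inf_eq_left.mp h) h12
  apply h₁.not_centralizes
  intro x hx v hv
  have hc2 : x * ⁅g, v⁆ = ⁅g, v⁆ * x := by
    have hmem : ⁅g, v⁆ ∈ ⁅V, K₂⁆ := by
      rw [Subgroup.commutator_comm]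
      exact Subgroup.commutator_mem_commutator hg (commutator_le_self hK1V hv)
    exact comm_of_inf_bot (commutator_le_self hK2V) hn2 (by rw [inf_comm]; exact hU) hmem hx
  have hc1 := hcen x hx _ (conj_mem_cj (g := g) hv)
  have hdec : v = ⁅g, v⁆⁻¹ * (g * v * g⁻¹) := by
    rw [commutatorElement_def]; group
  have hc3 : x * ⁅g, v⁆⁻¹ = ⁅g, v⁆⁻¹ * x := by
    have := (Commute.inv_right (show Commute x ⁅g, v⁆ from hc2))
    exact this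
  rw [hdec]
  calc x * (⁅g, v⁆⁻¹ * (g * v * g⁻¹)) = (x * ⁅g, v⁆⁻¹) * (g * v * g⁻¹) := by group
    _ = ⁅g, v⁆⁻¹ * (x * (g * v * g⁻¹)) := by rw [hc3]; group
    _ = ⁅g, v⁆⁻¹ * ((g * v * g⁻¹) * x) := by rw [hc1]
    _ = ⁅g, v⁆⁻¹ * (g * v * g⁻¹) * x := by group

/-- Order count. -/
theorem sup_eq_of_card {V A B W : Subgroup G} (hVab : ∀ x ∈ V, ∀ y ∈ V, x * y = y * x)
    (hAV : A ≤ V) (hBV : B ≤ V) (hab : A ⊓ B = ⊥) (hAW : A ≤ W) (hBW : B ≤ W)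
    (hc : Nat.card W ≤ Nat.card A * Nat.card B) : A ⊔ B = W := by
  apply Subgroup.eq_of_le_of_card_ge (sup_le hAW hBW)
  have hn : A ≤ Subgroup.normalizer (B : Set G) := by
    intro a ha
    apply mem_normalizer_of_conj_mem
    intro b hb
    rw [hVab a (hAV ha) b (hBV hb)]
    simpa using hb
  have := card_sup_mul_card_inf_of_le_normalizer A B hn
  rw [hab, Subgroup.card_bot, mul_one] at this
  omega

/-- A conjugate by `g ∈ K₂` lies in `[V,K₁] ⊔ [V,K₂]`. -/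
theorem cj_le_sup {V K₁ K₂ : Subgroup G} (hV₁ : ⁅V, K₁⁆ ≤ V) {g : G} (hg : g ∈ K₂) :
    cj g ⁅V, K₁⁆ ≤ ⁅V, K₁⁆ ⊔ ⁅V, K₂⁆ := by
  intro y hy
  rw [mem_cj] at hy
  have h1 : ⁅g, g⁻¹ * y * g⁆ ∈ ⁅V, K₂⁆ := by
    rw [Subgroup.commutator_comm]
    exact Subgroup.commutator_mem_commutator hg (hV₁ hy)
  have h2 : y = ⁅g, g⁻¹ * y * g⁆ * (g⁻¹ * y * g) := by
    rw [commutatorElement_def]; group
  rw [h2]
  exact Subgroup.mul_mem _ ((le_sup_right : ⁅V, K₂⁆ ≤ _) h1) ((le_sup_left : ⁅V, K₁⁆ ≤ _) hy)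

/-- The order estimate. -/
theorem card_est {V K₁ K₂ : Subgroup G} (hVab : ∀ x ∈ V, ∀ y ∈ V, x * y = y * x)
    (hV₁ : ⁅V, K₁⁆ ≤ V) (hV₂ : ⁅V, K₂⁆ ≤ V) {g : G} (hg : g ∈ K₂)
    (hbot : ⁅V, K₁⁆ ⊓ cj g ⁅V, K₁⁆ = ⊥) :
    Nat.card ↥(⁅V, K₁⁆ : Subgroup G) * Nat.card ↥(⁅V, K₁⁆ ⊓ ⁅V, K₂⁆) ≤ Nat.card ↥(⁅V, K₂⁆ : Subgroup G) := by
  have hn : ⁅V, K₁⁆ ≤ Subgroup.normalizer ((⁅V, K₂⁆ : Subgroup G) : Set G) := by
    intro a ha
    apply mem_normalizer_of_conj_mem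
    intro b hb
    rw [hVab a (hV₁ ha) b (hV₂ hb)]
    simpa using hb
  have h1 := card_sup_mul_card_inf_of_le_normalizer ⁅V, K₁⁆ ⁅V, K₂⁆ hn
  have hle := cj_le_sup hV₁ (K₂ := K₂) hg
  have hn2 : ⁅V, K₁⁆ ≤ Subgroup.normalizer ((cj g ⁅V, K₁⁆ : Subgroup G) : Set G) := by
    intro a ha
    apply mem_normalizer_of_conj_mem
    intro b hb
    have hb' : b ∈ ⁅V, K₁⁆ ⊔ ⁅V, K₂⁆ := hle hb
    have hb2 : b ∈ V := (sup_le hV₁ hV₂) hb'
    rw [hVab a (hV₁ ha) b hb2]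
    simpa using hb
  have h2 := card_sup_mul_card_inf_of_le_normalizer ⁅V, K₁⁆ (cj g ⁅V, K₁⁆) hn2
  rw [hbot, Subgroup.card_bot, mul_one, card_cj] at h2
  have h3 : Nat.card ↥(⁅V, K₁⁆ ⊔ cj g ⁅V, K₁⁆) ≤ Nat.card ↥(⁅V, K₁⁆ ⊔ ⁅V, K₂⁆) :=
    Subgroup.card_le_of_le (sup_le le_sup_left hle)
  have hpos : 0 < Nat.card ↥(⁅V, K₁⁆ : Subgroup G) := Nat.card_pos
  have : Nat.card ↥(⁅V, K₁⁆ : Subgroup G) * (Nat.card ↥(⁅V, K₁⁆ : Subgroup G) * Nat.card ↥(⁅V, K₁⁆ ⊓ ⁅V, K₂⁆)) ≤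
      Nat.card ↥(⁅V, K₁⁆ : Subgroup G) * Nat.card ↥(⁅V, K₂⁆ : Subgroup G) := by
    rw [← h1, ← mul_assoc, ← h2]
    exact Nat.mul_le_mul_right _ h3
  exact Nat.le_of_mul_le_mul_left this hpos

/-- The remaining case. -/
theorem caseC {V E₀ K₁ K₂ : Subgroup G} (hVab : ∀ x ∈ V, ∀ y ∈ V, x * y = y * x)
    (hE₀ : E₀ ≤ Subgroup.normalizer (V : Set G))
    (h₁ : Fac V E₀ K₁) (h₂ : Fac V E₀ K₂) (hU : ⁅V, K₁⁆ ⊓ ⁅V, K₂⁆ = ⊥)
    (hcard : Nat.card ↥(⁅V, K₁⁆ : Subgroup G) = Nat.card ↥(⁅V, K₂⁆ : Subgroup G)) {g : G} (hg : g ∈ K₂)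
    (hm : cj g ⁅V, K₁⁆ ≠ ⁅V, K₁⁆)
    (hS : ∀ h ∈ K₂, cj h ⁅V, K₁⁆ ≠ ⁅V, K₁⁆ →
      (∀ x ∈ K₁, ∀ y ∈ cj h ⁅V, K₁⁆, x * y = y * x) ∧ ⁅V, K₁⁆ ⊓ cj h ⁅V, K₁⁆ = ⊥) : False := by
  have hK1V : K₁ ≤ Subgroup.normalizer (V : Set G) := h₁.le.trans hE₀
  have hK2V : K₂ ≤ Subgroup.normalizer (V : Set G) := h₂.le.trans hE₀
  have hV₁ : ⁅V, K₁⁆ ≤ V := commutator_le_self hK1V
  have hV₂ : ⁅V, K₂⁆ ≤ V := commutator_le_self hK2V
  set V₁ := ⁅V, K₁⁆ with hV₁def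
  set V₂ := ⁅V, K₂⁆ with hV₂def
  have hcjV : ∀ h ∈ K₂, cj h V₁ ≤ V := by
    intro h hh
    have := cj_mono h hV₁
    rwa [cj_eq_of_mem_normalizer (hK2V hh)] at this
  have hWcard : Nat.card ↥(V₁ ⊔ V₂) = Nat.card V₁ * Nat.card V₁ := by
    have hn : V₁ ≤ Subgroup.normalizer (V₂ : Set G) := by
      intro a ha
      apply mem_normalizer_of_conj_mem
      intro b hb
      rw [hVab a (hV₁ ha) b (hV₂ hb)]
      simpa using hb
    have := card_sup_mul_card_inf_of_le_normalizer V₁ V₂ hn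
    rw [hU, Subgroup.card_bot, mul_one, ← hcard] at this
    exact this
  -- at most two conjugates
  have hi : ∀ h ∈ K₂, cj h V₁ = V₁ ∨ cj h V₁ = cj g V₁ := by
    intro h hh
    by_contra hcon
    push Not at hcon
    obtain ⟨hn1, hn2⟩ := hcon
    have hm' : cj (g⁻¹ * h) V₁ ≠ V₁ := by
      intro heq
      rw [cj_mul] at heq
      apply hn2
      have := congrArg (cj g) heq
      rwa [cj_cj_inv] at this
    have hbot := (hS (g⁻¹ * h) (K₂.mul_mem (K₂.inv_mem hg) hh) hm').2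
    have hYY : cj g V₁ ⊓ cj h V₁ = ⊥ := by
      have := congrArg (cj g) hbot
      rw [cj_inf, cj_bot, cj_mul, cj_cj_inv] at this
      exact this
    have hsup : cj g V₁ ⊔ cj h V₁ = V₁ ⊔ V₂ :=
      sup_eq_of_card hVab (hcjV g hg) (hcjV h hh) hYY (cj_le_sup hV₁ hg) (cj_le_sup hV₁ hh) (by
        rw [card_cj, card_cj, hWcard])
    obtain ⟨x, hx, hne⟩ := h₁.exists_ne_one
    apply hne
    apply h₁.faith x hx
    intro v hv
    have hall := comm_sup ((hS g hg hm).1 x hx) ((hS h hh hn1).1 x hx)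
    exact hall v (hsup ▸ (le_sup_left : V₁ ≤ V₁ ⊔ V₂) hv)
  have hWY : V₁ ⊔ cj g V₁ = V₁ ⊔ V₂ :=
    sup_eq_of_card hVab hV₁ (hcjV g hg) (hS g hg hm).2 le_sup_left (cj_le_sup hV₁ hg) (by
      rw [card_cj, hWcard])
  -- the stabilizer is trivial
  have hstab : ∀ h ∈ K₂, cj h V₁ = V₁ → h = 1 := by
    intro h hh hfix
    have hbotU : V₁ ⊓ V₂ = ⊥ := hU
    have hcen : ∀ k ∈ K₂, cj k V₁ = V₁ → ∀ v ∈ V₁, k * v = v * k := by
      intro k hk hk2 v hv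
      have hkn : K₂ ⊓ Subgroup.zpowers k ≤ K₂ := inf_le_left
      have h1 : ⁅v, k⁆ ∈ V₁ := by
        rw [commutatorElement_def]
        have h0 : v * k * v⁻¹ * k⁻¹ = v * (k * v⁻¹ * k⁻¹) := by group
        rw [h0]
        refine V₁.mul_mem hv ?_
        have : k * v⁻¹ * k⁻¹ ∈ cj k V₁ := conj_mem_cj (V₁.inv_mem hv)
        rwa [hk2] at this
      have h2 : ⁅v, k⁆ ∈ V₂ := Subgroup.commutator_mem_commutator (hV₁ hv) hk
      have h3 : ⁅v, k⁆ ∈ V₁ ⊓ V₂ := Subgroup.mem_inf.mpr ⟨h1, h2⟩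
      rw [hbotU, Subgroup.mem_bot, commutatorElement_eq_one_iff_mul_comm] at h3
      exact h3.symm
    have hfix2 : cj (g⁻¹ * h * g) V₁ = V₁ := by
      rcases hi (h * g) (K₂.mul_mem hh hg) with h1 | h1
      · exfalso
        apply hm
        rw [cj_mul] at h1
        have h2 : cj h (cj g V₁) = cj h V₁ := by rw [h1, hfix]
        exact cj_inj h2
      · rw [mul_assoc, cj_mul, h1, cj_inv_cj]
    have hcY : ∀ y ∈ cj g V₁, h * y = y * h := by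
      intro y hy
      rw [mem_cj] at hy
      have := hcen _ (K₂.mul_mem (K₂.mul_mem (K₂.inv_mem hg) hh) hg) hfix2 _ hy
      have h4 : g * ((g⁻¹ * h * g) * (g⁻¹ * y * g)) * g⁻¹ = g * ((g⁻¹ * y * g) * (g⁻¹ * h * g)) * g⁻¹ := by
        rw [this]
      calc h * y = g * ((g⁻¹ * h * g) * (g⁻¹ * y * g)) * g⁻¹ := by group
        _ = g * ((g⁻¹ * y * g) * (g⁻¹ * h * g)) * g⁻¹ := h4
        _ = y * h := by group
    have hall := comm_sup (hcen h hh hfix) hcY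
    apply h₂.faith h hh
    intro v hv
    exact hall v (hWY ▸ (le_sup_right : V₂ ≤ V₁ ⊔ V₂) hv)
  -- so `K₂ ⊆ {1, g}`
  have hsub : (K₂ : Set G) ⊆ {1, g} := by
    intro h hh
    by_cases hh1 : h = 1
    · left; exact hh1
    · right
      rcases hi h hh with h1 | h1
      · exact absurd (hstab h hh h1) hh1
      · have : cj (g⁻¹ * h) V₁ = V₁ := by
          rw [cj_mul, h1, cj_inv_cj]
        have h2 := hstab _ (K₂.mul_mem (K₂.inv_mem hg) hh) this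
        have : h = g * (g⁻¹ * h) := by group
        rw [this, h2, mul_one]
        rfl
  have h2 := h₂.two
  have hle : Nat.card K₂ ≤ 2 := by
    have h3 : Set.ncard (K₂ : Set G) ≤ Set.ncard ({1, g} : Set G) :=
      Set.ncard_le_ncard hsub (Set.toFinite _)
    have h4 : Set.ncard ({1, g} : Set G) ≤ 2 := Set.ncard_insert_le _ _ |>.trans (by simp)
    have h5 : Nat.card K₂ = Set.ncard (K₂ : Set G) := rfl
    omega
  omega

/-- The induction. -/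
theorem main {V E₀ : Subgroup G} (hVab : ∀ x ∈ V, ∀ y ∈ V, x * y = y * x)
    (hE₀ : E₀ ≤ Subgroup.normalizer (V : Set G))
    (hf : E₀ ⊓ Subgroup.centralizer (V : Set G) = ⊥) :
    ∀ (n : ℕ) (K₁ K₂ : Subgroup G), Nat.card ↥(K₁ ⊔ K₂) = n → Fac V E₀ K₁ → Fac V E₀ K₂ →
      SN K₁ (K₁ ⊔ K₂) → SN K₂ (K₁ ⊔ K₂) → ¬ ⁅V, K₁⁆ ≤ ⁅V, K₂⁆ → ¬ ⁅V, K₂⁆ ≤ ⁅V, K₁⁆ →
      Concl V K₁ K₂ := by
  intro n
  induction n using Nat.strong_induction_on with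
  | _ n ih =>
  intro K₁ K₂ hn h₁ h₂ hs₁ hs₂ h12 h21
  have hK1V : K₁ ≤ Subgroup.normalizer (V : Set G) := h₁.le.trans hE₀
  have hK2V : K₂ ≤ Subgroup.normalizer (V : Set G) := h₂.le.trans hE₀
  have hV₁ : ⁅V, K₁⁆ ≤ V := commutator_le_self hK1V
  have hV₂ : ⁅V, K₂⁆ ≤ V := commutator_le_self hK2V
  have hne1 : K₁ ≠ K₁ ⊔ K₂ := by
    intro heq
    apply h21
    have : K₂ ≤ K₁ := by rw [heq]; exact le_sup_right
    exact Subgroup.commutator_mono le_rfl this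
  have hne2 : K₂ ≠ K₁ ⊔ K₂ := by
    intro heq
    apply h12
    have : K₁ ≤ K₂ := by rw [heq]; exact le_sup_left
    exact Subgroup.commutator_mono le_rfl this
  have hEE₀ : K₁ ⊔ K₂ ≤ E₀ := sup_le h₁.le h₂.le
  have IH : ∀ K₁' K₂' : Subgroup G, Nat.card ↥(K₁' ⊔ K₂') < Nat.card ↥(K₁ ⊔ K₂) →
      Fac V E₀ K₁' → Fac V E₀ K₂' →
      SN K₁' (K₁' ⊔ K₂') → SN K₂' (K₁' ⊔ K₂') → ¬ ⁅V, K₁'⁆ ≤ ⁅V, K₂'⁆ → ¬ ⁅V, K₂'⁆ ≤ ⁅V, K₁'⁆ →
      Concl V K₁' K₂' := by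
    intro K₁' K₂' hc
    exact ih _ (hn ▸ hc) K₁' K₂' rfl
  have hS₁ := fun {g : G} (hg : g ∈ K₁ ⊔ K₂) (hm : cj g ⁅V, K₁⁆ ≠ ⁅V, K₁⁆) =>
    step2 hE₀ hEE₀ h₁ hs₁ hne1 IH hg hm
  have hS₂ := fun {g : G} (hg : g ∈ K₁ ⊔ K₂) (hm : cj g ⁅V, K₂⁆ ≠ ⁅V, K₂⁆) =>
    step2 hE₀ hEE₀ h₂ hs₂ hne2 IH hg hm
  by_cases hA : K₂ ≤ Subgroup.normalizer ((⁅V, K₁⁆ : Subgroup G) : Set G)
  · by_cases hB : K₁ ≤ Subgroup.normalizer ((⁅V, K₂⁆ : Subgroup G) : Set G)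
    · exact caseA hE₀ hf h₁ h₂ hA hB h12
    · exfalso
      obtain ⟨g, hg, hgn⟩ := Set.not_subset.mp hB
      have hm : cj g ⁅V, K₂⁆ ≠ ⁅V, K₂⁆ := fun h => hgn (mem_normalizer_of_cj_eq h)
      exact caseB hE₀ h₂ h₁ hA h21 hg (hS₂ ((le_sup_left : K₁ ≤ _) hg) hm).1
  · obtain ⟨g, hg, hgn⟩ := Set.not_subset.mp hA
    have hm : cj g ⁅V, K₁⁆ ≠ ⁅V, K₁⁆ := fun h => hgn (mem_normalizer_of_cj_eq h)
    by_cases hB : K₁ ≤ Subgroup.normalizer ((⁅V, K₂⁆ : Subgroup G) : Set G)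
    · exfalso
      exact caseB hE₀ h₁ h₂ hB h12 hg (hS₁ ((le_sup_right : K₂ ≤ _) hg) hm).1
    · exfalso
      obtain ⟨g', hg', hgn'⟩ := Set.not_subset.mp hB
      have hm' : cj g' ⁅V, K₂⁆ ≠ ⁅V, K₂⁆ := fun h => hgn' (mem_normalizer_of_cj_eq h)
      have hest1 := card_est (K₂ := K₂) hVab hV₁ hV₂ hg (hS₁ ((le_sup_right : K₂ ≤ _) hg) hm).2
      have hest2 := card_est (K₂ := K₁) hVab hV₂ hV₁ hg' (hS₂ ((le_sup_left : K₁ ≤ _) hg') hm').2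
      rw [inf_comm] at hest2
      have hp1 : 0 < Nat.card ↥(⁅V, K₁⁆ : Subgroup G) := Nat.card_pos
      have hp2 : 0 < Nat.card ↥(⁅V, K₂⁆ : Subgroup G) := Nat.card_pos
      have hp3 : 0 < Nat.card ↥(⁅V, K₁⁆ ⊓ ⁅V, K₂⁆) := Nat.card_pos
      have hc1 : Nat.card ↥(⁅V, K₁⁆ ⊓ ⁅V, K₂⁆) = 1 := by
        by_contra hcon
        have h2 : 2 ≤ Nat.card ↥(⁅V, K₁⁆ ⊓ ⁅V, K₂⁆) := by omega
        have h3 : Nat.card ↥(⁅V, K₁⁆ : Subgroup G) * 2 ≤ Nat.card ↥(⁅V, K₂⁆ : Subgroup G) :=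
          le_trans (Nat.mul_le_mul_left _ h2) hest1
        have h4 : Nat.card ↥(⁅V, K₂⁆ : Subgroup G) * 2 ≤ Nat.card ↥(⁅V, K₁⁆ : Subgroup G) :=
          le_trans (Nat.mul_le_mul_left _ h2) hest2
        omega
      have hU : ⁅V, K₁⁆ ⊓ ⁅V, K₂⁆ = ⊥ := Subgroup.eq_bot_of_card_eq _ hc1
      rw [hc1, mul_one] at hest1 hest2
      refine caseC hVab hE₀ h₁ h₂ hU (le_antisymm hest1 hest2) hg hm ?_
      intro h hh hm2
      exact hS₁ ((le_sup_right : K₂ ≤ _) hh) hm2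

/-- `K` acts faithfully on `[V, K]`, by `O_p(E) = 1`. -/
theorem faith_of {p : ℕ} [Fact p.Prime] {V E K : Subgroup G} (hV : Cfsg.IsElementaryAbelian p V)
    (hEV : E ≤ Subgroup.normalizer (V : Set G)) (hf : E ⊓ Subgroup.centralizer (V : Set G) = ⊥)
    (hs : SN K E) (hOp : Cfsg.pCore p ↥E = ⊥) :
    ∀ x ∈ K, (∀ v ∈ ⁅V, K⁆, x * v = v * x) → x = 1 := by
  have hKE : K ≤ E := hs.le
  have hKV : K ≤ Subgroup.normalizer (V : Set G) := hKE.trans hEV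
  have hVab : ∀ x ∈ V, ∀ y ∈ V, x * y = y * x := fun x hx y hy => by
    have := hV.1.is_comm.comm ⟨x, hx⟩ ⟨y, hy⟩
    exact congrArg Subtype.val this
  let C : Subgroup G := K ⊓ Subgroup.centralizer ((⁅V, K⁆ : Subgroup G) : Set G)
  have hmemC : ∀ {c}, c ∈ K → (∀ v ∈ ⁅V, K⁆, c * v = v * c) → c ∈ C := by
    intro c hc hcc
    refine Subgroup.mem_inf.mpr ⟨hc, ?_⟩
    rw [Subgroup.mem_centralizer_iff]
    intro v hv
    exact (hcc v hv).symm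
  have hCK : ∀ {c}, c ∈ C → c ∈ K := fun hc => (Subgroup.mem_inf.mp hc).1
  have hCc : ∀ {c}, c ∈ C → ∀ v ∈ ⁅V, K⁆, c * v = v * c := by
    intro c hc v hv
    exact ((Subgroup.mem_centralizer_iff.mp (Subgroup.mem_inf.mp hc).2) v hv).symm
  have hnC : NormalIn C K := by
    refine ⟨fun c hc => hCK hc, fun b hb c hc => ?_⟩
    refine hmemC (K.mul_mem (K.mul_mem hb (hCK hc)) (K.inv_mem hb)) ?_
    intro v hv
    have h1 : b⁻¹ * v * b ∈ ⁅V, K⁆ := by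
      have h2 := conj_mem_cj (g := b⁻¹) hv
      rw [cj_commutator_self hKV (K.inv_mem hb)] at h2
      simpa using h2
    have h3 := hCc hc _ h1
    calc b * c * b⁻¹ * v = b * (c * (b⁻¹ * v * b)) * b⁻¹ := by group
      _ = b * ((b⁻¹ * v * b) * c) * b⁻¹ := by rw [h3]
      _ = v * (b * c * b⁻¹) := by group
  have hsnC : SN C E := hnC.sn.trans hs
  have hpow : ∀ c ∈ C, c ^ p = 1 := by
    intro c hc
    have hcE : c ∈ E := hKE (hCK hc)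
    have hcen : c ^ p ∈ E ⊓ Subgroup.centralizer (V : Set G) := by
      refine Subgroup.mem_inf.mpr ⟨E.pow_mem hcE p, ?_⟩
      rw [Subgroup.mem_centralizer_iff]
      intro v hv
      have hd : ⁅c, v⁆ ∈ ⁅V, K⁆ := by
        rw [Subgroup.commutator_comm]
        exact Subgroup.commutator_mem_commutator (hCK hc) hv
      have hdc := hCc hc _ hd
      have hdV : ⁅c, v⁆ ∈ V := commutator_le_self hKV hd
      have hcv : c * v = ⁅c, v⁆ * v * c := by rw [commutatorElement_def]; group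
      have hcd : Commute c ⁅c, v⁆ := hdc
      have hk : ∀ k : ℕ, c ^ k * v = ⁅c, v⁆ ^ k * v * c ^ k := by
        intro k
        induction k with
        | zero => simp
        | succ k ih =>
          calc c ^ (k + 1) * v = c * (c ^ k * v) := by rw [pow_succ', mul_assoc]
            _ = c * (⁅c, v⁆ ^ k * v * c ^ k) := by rw [ih]
            _ = (c * ⁅c, v⁆ ^ k) * v * c ^ k := by simp only [mul_assoc]
            _ = (⁅c, v⁆ ^ k * c) * v * c ^ k := by rw [(hcd.pow_right k).eq]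
            _ = ⁅c, v⁆ ^ k * (c * v) * c ^ k := by simp only [mul_assoc]
            _ = ⁅c, v⁆ ^ k * (⁅c, v⁆ * v * c) * c ^ k := by rw [← hcv]
            _ = ⁅c, v⁆ ^ (k + 1) * v * c ^ (k + 1) := by
                rw [pow_succ (⁅c, v⁆) k, pow_succ' c k]; simp only [mul_assoc]
      have h5 := hk p
      rw [hV.2 _ hdV, one_mul] at h5
      exact h5.symm
    rw [hf, Subgroup.mem_bot] at hcen
    exact hcen
  have hsub : (C.subgroupOf E).IsSubnormal := isSubnormal_subgroupOf_of_sn hsnC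
  have hpg : IsPGroup p ↥(C.subgroupOf E) := by
    intro c
    refine ⟨1, ?_⟩
    apply Subtype.ext
    apply Subtype.ext
    simp only [pow_one]
    exact hpow _ (Subgroup.mem_subgroupOf.mp c.2)
  have hle := Cfsg.Agent.Lib.Basic.PCore.le_pCore_of_subnormal hsub hpg
  rw [hOp] at hle
  intro x hx hc
  have hxC : x ∈ C := hmemC hx hc
  have h6 : (⟨x, hKE hx⟩ : ↥E) ∈ C.subgroupOf E := Subgroup.mem_subgroupOf.mpr hxC
  have h7 := hle h6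
  rw [Subgroup.mem_bot] at h7
  exact congrArg Subtype.val h7

theorem result {G : Type*} [Group G] [Finite G] {p : ℕ} [Fact p.Prime] (V E E₁ E₂ : Subgroup G) (hV : Cfsg.IsElementaryAbelian p V) (hEV : E ≤ Subgroup.normalizer (V : Set G)) (hf : E ⊓ Subgroup.centralizer (V : Set G) = ⊥) (hgen : E = E₁ ⊔ E₂) (hs₁ : (E₁.subgroupOf E).IsSubnormal) (hs₂ : (E₂.subgroupOf E).IsSubnormal) (hOp : Cfsg.pCore p ↥E = ⊥) (hirr₁ : (∀ U : Subgroup G, U ≤ ⁅V, E₁⁆ → E₁ ≤ Subgroup.normalizer (U : Set G) → U = ⊥ ∨ U = ⁅V, E₁⁆)) (hirr₂ : (∀ U : Subgroup G, U ≤ ⁅V, E₂⁆ → E₂ ≤ Subgroup.normalizer (U : Set G) → U = ⊥ ∨ U = ⁅V, E₂⁆)) (h12 : ¬ ⁅V, E₁⁆ ≤ ⁅V, E₂⁆) (h21 : ¬ ⁅V, E₂⁆ ≤ ⁅V, E₁⁆) (hc₁ : 2 < Nat.card E₁) (hc₂ : 2 < Nat.card E₂) : ⁅E₁, E₂⁆ = ⊥ ∧ E₁ ⊓ E₂ = ⊥ ∧ ⁅V, E₁⁆ ⊓ ⁅V, E₂⁆ = ⊥ ∧ ⁅V, E⁆ = ⁅V, E₁⁆ ⊔ ⁅V, E₂⁆ := by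
  have hVab : ∀ x ∈ V, ∀ y ∈ V, x * y = y * x := fun x hx y hy => by
    have := hV.1.is_comm.comm ⟨x, hx⟩ ⟨y, hy⟩
    exact congrArg Subtype.val this
  have hle1 : E₁ ≤ E := by rw [hgen]; exact le_sup_left
  have hle2 : E₂ ≤ E := by rw [hgen]; exact le_sup_right
  have hsn1 : SN E₁ E := sn_of_isSubnormal_subgroupOf hle1 hs₁
  have hsn2 : SN E₂ E := sn_of_isSubnormal_subgroupOf hle2 hs₂
  have hF1 : Fac V E E₁ := ⟨hle1, faith_of hV hEV hf hsn1 hOp, hirr₁, hc₁⟩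
  have hF2 : Fac V E E₂ := ⟨hle2, faith_of hV hEV hf hsn2 hOp, hirr₂, hc₂⟩
  have hC := main hVab hEV hf _ E₁ E₂ rfl hF1 hF2 (hgen ▸ hsn1) (hgen ▸ hsn2) h12 h21
  refine ⟨hC.1, hC.2.1, hC.2.2, ?_⟩
  rw [hgen]
  exact Cfsg.Agent.Lib.PGroup.FFDuo.commutator_sup_eq (hle1.trans hEV) (hle2.trans hEV)
    (sup_le (commutator_le_self (hle1.trans hEV)) (commutator_le_self (hle2.trans hEV)))

end Cfsg.Agent.S0615
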