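import Cfsg.Statements.S1013
import Mathlib
import Cfsg.Agent.Lib.Perm.Basic
import Cfsg.Agent.Lib.Perm.SylowTrans
import Cfsg.Agent.Lib.Basic.SylowUtil

set_option autoImplicit false
open Cfsg

namespace Cfsg.Agent.S1013

open MulAction Subgroup
open scoped Pointwise

theorem aux {Γ α : Type*} [Group Γ] [Finite Γ] [Fintype α] [MulAction Γ α] [FaithfulSMul Γ α]
    [IsPretransitive Γ α] {p : ℕ} [hp : Fact p.Prime] (hα : Fintype.card α = p)
    (hp2 : ¬ p ^ 2 ∣ Nat.card Γ) (P : Sylow p Γ) (hn : 1 < Nat.card (Sylow p Γ))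
    (ht : (((P : Subgroup Γ).subgroupOf (normalizer ((P : Subgroup Γ) : Set Γ))).index).Prime) :
    IsSimpleGroup Γ := by
  classical
  have hcα : Nat.card α = p := by rw [Nat.card_eq_fintype_card]; exact hα
  have hprim : IsPreprimitive Γ α := IsPreprimitive.of_prime_card (by rw [hcα]; exact hp.out)
  obtain ⟨a⟩ : Nonempty α := by
    rw [← Fintype.card_pos_iff, hα]
    exact hp.out.pos
  -- `p` divides the order of a transitive subgroup
  have hdvdT : ∀ N : Subgroup Γ, IsPretransitive N α → p ∣ Nat.card N := by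
    intro N hN
    have h := (stabilizer N a).card_mul_index
    rw [index_stabilizer_of_transitive, hcα] at h
    exact Dvd.intro_left _ h
  have hpΓ : p ∣ Nat.card Γ := by
    have h := (stabilizer Γ a).card_mul_index
    rw [index_stabilizer_of_transitive, hcα] at h
    exact Dvd.intro_left _ h
  have hfact : (Nat.card Γ).factorization p = 1 := by
    have h1 : 1 ≤ (Nat.card Γ).factorization p :=
      (hp.out.dvd_iff_one_le_factorization Nat.card_pos.ne').mp hpΓ
    have h2 : ¬ 2 ≤ (Nat.card Γ).factorization p := fun h =>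
      hp2 ((hp.out.pow_dvd_iff_le_factorization Nat.card_pos.ne').mpr h)
    omega
  have hPcard : Nat.card (P : Subgroup Γ) = p := by
    rw [Sylow.card_eq_multiplicity, hfact, pow_one]
  -- `P` is commutative
  have hPcomm : ∀ x ∈ (P : Subgroup Γ), ∀ y ∈ (P : Subgroup Γ), x * y = y * x := by
    intro x hx y hy
    have hc : IsCyclic (P : Subgroup Γ) := isCyclic_of_prime_card hPcard
    let _ := IsCyclic.commGroup (α := (P : Subgroup Γ))
    have := mul_comm (⟨x, hx⟩ : (P : Subgroup Γ)) ⟨y, hy⟩
    exact congrArg Subtype.val this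
  -- `P` is transitive and self-centralizing
  have hPtrans : IsPretransitive (P : Subgroup Γ) α :=
    Cfsg.Agent.Lib.Perm.SylowTrans.isPretransitive_sylow (f := 1) (by rw [hcα, pow_one]) P
  have hC : ∀ c ∈ centralizer ((P : Subgroup Γ) : Set Γ), c ∈ (P : Subgroup Γ) := by
    intro c hc
    obtain ⟨u, hu, hua⟩ := Cfsg.Agent.Lib.Perm.Basic.exists_mem_smul_eq (P : Subgroup Γ) a (c • a)
    have h1 : u⁻¹ * c ∈ centralizer ((P : Subgroup Γ) : Set Γ) := by
      apply Subgroup.mul_mem _ _ hc
      apply Subgroup.inv_mem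
      rw [mem_centralizer_iff]
      intro y hy
      exact hPcomm y hy u hu
    have h2 : (u⁻¹ * c) • a = a := by
      rw [mul_smul, ← hua, inv_smul_smul]
    have h3 := Cfsg.Agent.Lib.Perm.Basic.eq_one_of_mem_centralizer_of_smul_eq (P : Subgroup Γ) h1 h2
    have h4 : c = u := by
      have := congrArg (fun z => u * z) h3
      simpa using this
    rw [h4]; exact hu
  -- subgroups of order `p` are conjugate to `P`
  have hPle : ∀ N : Subgroup Γ, N.Normal → p ∣ Nat.card N → (P : Subgroup Γ) ≤ N := by
    intro N hNn hpN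
    obtain ⟨x, hx⟩ := exists_prime_orderOf_dvd_card' (G := N) p hpN
    have hxo : orderOf (x : Γ) = p := by rw [← hx]; exact Subgroup.orderOf_coe x
    have hS : Nat.card (zpowers (x : Γ)) = p ^ (Nat.card Γ).factorization p := by
      rw [Nat.card_zpowers, hxo, hfact, pow_one]
    let P' : Sylow p Γ := Sylow.ofCard _ hS
    obtain ⟨g, hg⟩ := MulAction.exists_smul_eq Γ P' P
    intro y hy
    have h1 : y ∈ MulAut.conj g • (P' : Subgroup Γ) := by
      rw [← Sylow.coe_subgroup_smul, hg]
      exact hy
    rw [Subgroup.mem_pointwise_smul_iff_inv_smul_mem] at h1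
    simp only [MulAut.smul_def, MulAut.conj_inv_apply] at h1
    have h2 : g⁻¹ * y * g ∈ N := by
      have h3 : zpowers (x : Γ) ≤ N := by
        rw [zpowers_le]; exact x.2
      exact h3 h1
    have h4 := hNn.conj_mem _ h2 g
    have h5 : g * (g⁻¹ * y * g) * g⁻¹ = y := by group
    rwa [h5] at h4
  -- `P` is not normal
  have hPnn : ¬ (P : Subgroup Γ).Normal := by
    intro hnorm
    have := Sylow.unique_of_normal P hnorm
    rw [Nat.card_unique] at hn
    omega
  have hΓnt : Nontrivial Γ := by
    by_contra hcon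
    rw [not_nontrivial_iff_subsingleton] at hcon
    have : Nat.card Γ = 1 := Nat.card_unique
    rw [this] at hpΓ
    exact hp.out.one_lt.ne' (Nat.dvd_one.mp hpΓ)
  refine ⟨fun N hN => ?_⟩
  by_cases hbot : N = ⊥
  · exact Or.inl hbot
  right
  have hNtrans : IsPretransitive N α :=
    Cfsg.Agent.Lib.Perm.Basic.isPretransitive_of_normal_of_ne_bot N hbot
  have hPN := hPle N hN (hdvdT N hNtrans)
  set Nor := normalizer ((P : Subgroup Γ) : Set Γ) with hNor
  have hle : (P : Subgroup Γ).subgroupOf Nor ≤ N.subgroupOf Nor := by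
    intro x hx
    exact hPN hx
  have hmul := relIndex_mul_index hle
  rcases Nat.prime_mul_iff.mp (hmul ▸ ht) with ⟨_, h1⟩ | ⟨_, h1⟩
  · -- the normalizer of `P` lies in `N`
    have h2 : N.subgroupOf Nor = ⊤ := index_eq_one.mp h1
    have h3 : Nor ≤ N := subgroupOf_eq_top.mp h2
    rw [eq_top_iff]
    intro g _
    obtain ⟨n, hn', h, hh, rfl⟩ := Cfsg.Agent.Lib.Basic.SylowUtil.frattini_argument (N := N) P hPN g
    exact N.mul_mem hn' (h3 hh)
  · -- `N_N(P) ≤ P`
    exfalso
    have h2 : N.subgroupOf Nor ≤ (P : Subgroup Γ).subgroupOf Nor := relIndex_eq_one.mp h1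
    have hnor : ∀ x ∈ Nor, x ∈ N → x ∈ (P : Subgroup Γ) := fun x hx hxN =>
      @h2 ⟨x, hx⟩ hxN
    let Q : Sylow p N := P.subtype hPN
    have hQmem : ∀ y : N, y ∈ (Q : Subgroup N) ↔ (y : Γ) ∈ (P : Subgroup Γ) := fun y => by
      rw [Sylow.coe_subtype, mem_subgroupOf]
    have hQ : normalizer ((Q : Subgroup N) : Set N) ≤ centralizer ((Q : Subgroup N) : Set N) := by
      intro x hx
      have hxNor : (x : Γ) ∈ Nor := by
        rw [hNor, mem_normalizer_iff]
        intro y
        constructor
        · intro hy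
          have h3 : (⟨y, hPN hy⟩ : N) ∈ (Q : Subgroup N) := (hQmem _).mpr hy
          have h4 := (mem_normalizer_iff.mp hx _).mp h3
          exact (hQmem _).mp h4
        · intro hy
          have hyN : y ∈ N := by
            have h3 := hPN hy
            have h4 := N.mul_mem (N.mul_mem (N.inv_mem x.2) h3) x.2
            have h5 : (x : Γ)⁻¹ * ((x : Γ) * y * (x : Γ)⁻¹) * x = y := by group
            rwa [h5] at h4
          have h3 : x * (⟨y, hyN⟩ : N) * x⁻¹ ∈ (Q : Subgroup N) := (hQmem _).mpr hy
          have h4 := (mem_normalizer_iff.mp hx _).mpr h3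
          exact (hQmem _).mp h4
      have hxP := hnor _ hxNor x.2
      rw [mem_centralizer_iff]
      intro y hy
      apply Subtype.ext
      exact hPcomm _ ((hQmem y).mp hy) _ hxP
    set φ := MonoidHom.transferSylow Q hQ with hφ
    have hK : ¬ p ∣ Nat.card φ.ker := MonoidHom.not_dvd_card_ker_transferSylow Q hQ
    have hQcard : Nat.card (Q : Subgroup N) = p := by
      have e : (Q : Subgroup N) ≃* (P : Subgroup Γ) :=
        Subgroup.subgroupOfEquivOfLe hPN
      rw [Nat.card_congr e.toEquiv, hPcard]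
    let K₀ : Subgroup Γ := φ.ker.map N.subtype
    have hK₀card : Nat.card K₀ = Nat.card φ.ker :=
      Nat.card_congr ((φ.ker.equivMapOfInjective N.subtype N.subtype_injective).symm.toEquiv)
    have hK₀n : K₀.Normal := by
      refine ⟨?_⟩
      rintro _ ⟨k, hk, rfl⟩ g
      have hk1 : orderOf k ∣ Nat.card φ.ker := by
        have := orderOf_dvd_natCard (⟨k, hk⟩ : φ.ker)
        rwa [Subgroup.orderOf_mk] at this
      let n : N := ⟨g * k * g⁻¹, hN.conj_mem _ k.2 g⟩
      have hn1 : orderOf n = orderOf k := by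
        have h3 : orderOf n = orderOf (n : Γ) := (Subgroup.orderOf_coe n).symm
        have h4 : orderOf k = orderOf (k : Γ) := (Subgroup.orderOf_coe k).symm
        rw [h3, h4]
        exact orderOf_injective (MulAut.conj g).toMonoidHom (MulAut.conj g).injective (k : Γ)
      have hn2 : orderOf (φ n) ∣ orderOf n := orderOf_map_dvd φ n
      have hn3 : orderOf (φ n) ∣ p := by
        have := orderOf_dvd_natCard (φ n)
        rwa [hQcard] at this
      have hn4 : φ n = 1 := by
        rcases (Nat.dvd_prime hp.out).mp hn3 with h5 | h5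
        · exact orderOf_eq_one_iff.mp h5
        · exfalso
          apply hK
          rw [h5, hn1] at hn2
          exact hn2.trans hk1
      exact ⟨n, hn4, rfl⟩
    have hK₀bot : K₀ = ⊥ := by
      by_contra hne
      have ht2 : IsPretransitive K₀ α :=
        Cfsg.Agent.Lib.Perm.Basic.isPretransitive_of_normal_of_ne_bot K₀ hne
      apply hK
      rw [← hK₀card]
      exact hdvdT K₀ ht2
    have hKbot : φ.ker = ⊥ := by
      have := (map_eq_bot_iff_of_injective φ.ker N.subtype_injective).mp hK₀bot
      exact this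
    have hcompl := MonoidHom.ker_transferSylow_isComplement' Q hQ
    rw [← hφ, hKbot, isComplement'_bot_left] at hcompl
    have hNP : N = (P : Subgroup Γ) := by
      apply le_antisymm _ hPN
      intro n hn'
      have h3 : (⟨n, hn'⟩ : N) ∈ (Q : Subgroup N) := by rw [hcompl]; trivial
      exact (hQmem _).mp h3
    exact hPnn (hNP ▸ hN)

/-- Let G be a transitive permutation group of prime degree p having more than one Sylow p-subgroup, and suppose a Sylow p-subgroup P has prime index in its normalizer. Then G is simple. -/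
theorem result {α : Type*} [Fintype α] [DecidableEq α] {p : ℕ} [Fact p.Prime] (hα : Fintype.card α = p) (G : Subgroup (Equiv.Perm α)) [MulAction.IsPretransitive ↥G α] (P : Sylow p ↥G) (hn : 1 < Nat.card (Sylow p ↥G)) (ht : (((P : Subgroup ↥G).subgroupOf (Subgroup.normalizer ((P : Subgroup ↥G) : Set ↥G))).index).Prime) : IsSimpleGroup ↥G := by
  refine aux hα ?_ P hn ht
  intro hdvd
  have hp : p.Prime := Fact.out
  have h1 : Nat.card G ∣ (Fintype.card α).factorial := by
    rw [← Fintype.card_perm, ← Nat.card_eq_fintype_card]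
    exact Subgroup.card_subgroup_dvd_card G
  rw [hα] at h1
  have h2 := hdvd.trans h1
  obtain ⟨q, hq⟩ : ∃ q, p = q + 1 := ⟨p - 1, by have := hp.pos; omega⟩
  rw [hq, Nat.factorial_succ, ← hq, pow_two] at h2
  have h3 : p ∣ q.factorial := Nat.dvd_of_mul_dvd_mul_left hp.pos h2
  have h4 := (hp.dvd_factorial).mp h3
  omega

end Cfsg.Agent.S1013
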