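import Cfsg.Statements.S1578
import Mathlib
import Cfsg.Agent.Lib.Sporadic.LeechMcL
import Cfsg.Agent.Lib.Sporadic.LeechOrbits

set_option autoImplicit false
open Cfsg

namespace Cfsg.Agent.S1578

open Cfsg.Agent.Lib.Sporadic.GolayCore Cfsg.Agent.Lib.Sporadic.LeechMat Cfsg.Agent.Lib.Sporadic.LeechKey Cfsg.Agent.Lib.Sporadic.LeechNorm Cfsg.Agent.Lib.Sporadic.LeechAut Cfsg.Agent.Lib.Sporadic.LeechA0 Cfsg.Agent.Lib.Sporadic.LeechEnum Cfsg.Agent.Lib.Sporadic.LeechMcLData Cfsg.Agent.Lib.Sporadic.LeechMcL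

def u1L : List ℤ := [2,4,2,0,2,2,2,0,0,0,2,2,0,0,0,0,0,0,0,0,0,0,0,-2]

theorem u1L_ok : inLattice u1L = true := by decide +kernel

def u1 : leechLattice := ⟨vecOf u1L, inLattice_sound u1L_ok⟩

def P552 (y : ℕ → ℕ) : Bool :=
  Nat.beq (2 * y 1 + y 0 + y 2 + y 4 + y 5 + y 6 + y 10 + y 11) (44 + y 23)

theorem scan552 : cntP P552 = 552 := by decide +kernel

theorem dot_u1 (y : ℕ → ℕ) : dotInt (vecOf u1L) (vecF y) =
    4 * (y 1 : ℤ) + 2 * ((y 0 : ℤ) + y 2 + y 4 + y 5 + y 6 + y 10 + y 11) - 2 * (y 23 : ℤ) - 64 := by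
  have h1 : ∀ p : GolayPt, vecOf u1L p * vecF y p =
      (fun n => u1L.getD n 0 * ((y n : ℤ) - 4)) (idx p) := fun p => rfl
  unfold dotInt
  refine (Finset.sum_congr rfl fun p _ => h1 p).trans
    ((sum_golayPt (fun n => u1L.getD n 0 * ((y n : ℤ) - 4))).trans ?_)
  simp only [List.range_succ, List.range_zero, List.map_append, List.map_cons, List.map_nil,
    List.sum_append, List.sum_cons, List.sum_nil, u1L]
  norm_num
  ring

theorem ncard_u1 : {w : GolayPt → ℤ | w ∈ leechLattice ∧ sqNorm w = 32 ∧ dotInt (vecOf u1L) w = 24}.ncard = 552 := by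
  rw [ncard_of_P P552 (fun w => dotInt (vecOf u1L) w = 24), countP_allMinF, scan552]
  intro y
  rw [dot_u1]
  unfold P552
  rw [Nat.beq_eq]
  omega

/-- A lattice vector of customary norm 6 is the sum of an unordered pair of minimal vectors in exactly 276 ways (552 ordered summands). -/
theorem result (u : ↥Cfsg.leechLattice) (hu : Cfsg.sqNorm (u : Cfsg.GolayPt → ℤ) = 48) : {v : ↥Cfsg.leechLattice | Cfsg.sqNorm (v : Cfsg.GolayPt → ℤ) = 32 ∧ Cfsg.sqNorm ((u - v) : Cfsg.GolayPt → ℤ) = 32}.ncard = 552 := by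
  have hu1 : sqNorm ((u1 : leechLattice) : GolayPt → ℤ) = 48 := by
    show sqNorm (vecOf u1L) = 48
    rw [sqNorm_vecOf]
    decide +kernel
  obtain ⟨g, hg⟩ := Cfsg.Agent.Lib.Sporadic.LeechOrbits.co0_transitive_48 u u1 hu hu1
  have e1 : {v : leechLattice | sqNorm (v : GolayPt → ℤ) = 32 ∧ sqNorm ((u - v) : GolayPt → ℤ) = 32} =
      {v : leechLattice | sqNorm (v : GolayPt → ℤ) = 32 ∧ dotInt (u : GolayPt → ℤ) (v : GolayPt → ℤ) = 24} := by
    ext v
    simp only [Set.mem_ofPred_eq]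
    rw [sqNorm_sub, hu]
    constructor
    · rintro ⟨h1, h2⟩
      refine ⟨h1, ?_⟩
      rw [h1] at h2
      omega
    · rintro ⟨h1, h2⟩
      refine ⟨h1, ?_⟩
      rw [h1, h2]
      norm_num
  have e2 : {v : leechLattice | sqNorm (v : GolayPt → ℤ) = 32 ∧ dotInt (u : GolayPt → ℤ) (v : GolayPt → ℤ) = 24}.ncard =
      {w : GolayPt → ℤ | w ∈ leechLattice ∧ sqNorm w = 32 ∧ dotInt (u : GolayPt → ℤ) w = 24}.ncard := by
    rw [← Set.ncard_image_of_injective _ Subtype.val_injective]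
    congr 1
    ext w
    constructor
    · rintro ⟨x, ⟨h2, h3⟩, rfl⟩
      exact ⟨x.2, h2, h3⟩
    · rintro ⟨h1, h2, h3⟩
      exact ⟨⟨w, h1⟩, ⟨h2, h3⟩, rfl⟩
  rw [e1, e2, ncard_transport g 32 (fun w => dotInt (u : GolayPt → ℤ) w = 24) (fun w => dotInt (vecOf u1L) w = 24), ncard_u1]
  intro w
  have := co0_dotInt g u w
  rw [hg] at this
  show _ ↔ dotInt (vecOf u1L) _ = 24
  have h5 : dotInt (vecOf u1L) ((g • w : leechLattice) : GolayPt → ℤ) = dotInt (u : GolayPt → ℤ) (w : GolayPt → ℤ) := this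
  rw [h5]

end Cfsg.Agent.S1578
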