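import Cfsg.Statements.S1557
import Cfsg.Agent.Lib.Compute.Golay
import Cfsg.Prelude.Def_SporadicCombinatorics
-- import your own Cfsg.Agent.* helpers here

set_option autoImplicit false
open scoped Pointwise
open Cfsg

namespace Cfsg.Agent.S1557

open Cfsg.Agent.Lib.Compute.Golay

theorem mem_octads {s : Finset Cfsg.GolayPt} :
    s ∈ Cfsg.octads ↔ ∃ m ∈ codeMasks, pop m = 8 ∧ maskSupport m = s :=
  mem_wordsOfWeight_iff

theorem onesMask_testBit {i : ℕ} (hi : i < 24) : onesMask.testBit i = true := by
  have : ∀ i : Fin 24, onesMask.testBit i = true := by decide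
  exact this ⟨i, hi⟩

theorem mem_maskSupport {m : ℕ} {p : Cfsg.GolayPt} :
    p ∈ maskSupport m ↔ m.testBit (ptIdx p) = true := by
  simp [maskSupport]

theorem support_xor_ones (a b : ℕ) (hd : Disjoint (maskSupport a) (maskSupport b)) :
    maskSupport (a ^^^ b ^^^ onesMask) = (maskSupport a ∪ maskSupport b)ᶜ := by
  ext p
  have h1 := onesMask_testBit (ptIdx_lt p)
  have h2 : ¬ (p ∈ maskSupport a ∧ p ∈ maskSupport b) := fun h =>
    Finset.disjoint_left.mp hd h.1 h.2
  simp only [mem_maskSupport] at h2
  simp only [mem_maskSupport, Finset.mem_compl, Finset.mem_union, Nat.testBit_xor, h1]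
  cases h3 : a.testBit (ptIdx p) <;> cases h4 : b.testBit (ptIdx p) <;> simp_all

theorem card_compl_union {o o' : Finset Cfsg.GolayPt} (ho : o.card = 8) (ho' : o'.card = 8)
    (hd : Disjoint o o') : ((o ∪ o')ᶜ).card = 8 := by
  have hcard : Fintype.card Cfsg.GolayPt = 24 := by decide
  rw [Finset.card_compl, Finset.card_union_of_disjoint hd, ho, ho', hcard]

theorem part1 (o o' : Finset Cfsg.GolayPt) (ho : o ∈ Cfsg.octads) (ho' : o' ∈ Cfsg.octads)
    (hd : Disjoint o o') : (o ∪ o')ᶜ ∈ Cfsg.octads := by
  obtain ⟨a, ha, hpa, rfl⟩ := mem_octads.mp ho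
  obtain ⟨b, hb, hpb, rfl⟩ := mem_octads.mp ho'
  refine mem_octads.mpr ⟨a ^^^ b ^^^ onesMask,
    xor_mem_xorSpan (xor_mem_xorSpan ha hb) onesMask_mem, ?_, support_xor_ones a b hd⟩
  rw [← card_maskSupport, support_xor_ones a b hd]
  exact card_compl_union (by rw [card_maskSupport, hpa]) (by rw [card_maskSupport, hpb]) hd

/-- The third mask of a trio. -/
def third (a b : ℕ) : ℕ := a ^^^ b ^^^ onesMask

/-- The octad masks, as literals. -/
def octLit : List ℕ := [2512448, 72588, 5024896, 6292775, 145176, 2384216, 5210132, 1589901, 208020, 1084018, 1661185, 2242672, 4196943, 290352, 4768432, 4264387, 2031657, 3179802, 2101096, 5785794, 416040, 2168036, 1369154, 3322370, 475812, 5275709, 1728778, 4485344, 7438406, 6432416, 5279, 3050016, 580704, 69395, 1594898, 1148257, 140167, 4063314, 6295992, 210955, 6359604, 3246601, 6703248, 4202192, 3182981, 352547, 832080, 4261212, 2810896, 4336072, 2738308, 1849378, 6644740, 5280930, 951624, 2162811, 2675464, 4403780, 1217620, 3457556, 78514, 582081, 6488205, 4476225, 10558, 6429441, 8077824,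 1090380, 2916505, 198058, 6100032, 1161408, 2377830, 6302745, 138790, 3189796, 351362, 2296514, 280334, 8126628, 4845570, 2232654, 4203377, 5286147, 421910, 3375280, 6570537, 4330601, 1836419, 2106966, 6493202, 75309, 1212619, 5017889, 4538962, 15777, 1722420, 201013, 6365962, 705094, 1664160, 2921478, 133817, 5621792, 6305926, 4271202, 346141, 5409412, 1975812, 2229713, 283537, 5476616, 3698756, 884962, 4900873, 2173253, 1903248, 2110153, 4325622, 1839388, 5350928, 418953, 2435240, 1103886, 6915112, 157028, 1164162, 2372388, 4587803, 1577201, 84464, 563843, 21116, 6447171, 622863, 4470275, 2491452, 7767041, 2180760, 463064, 5833010, 5296705, 2120980, 396116, 3811457, 2322816, 1474854, 4755660, 3736597, 337856, 4819776, 2255372, 4216883, 277580, 4656648, 1100945, 6379592, 702724, 4593028, 1573998, 6053905, 762504, 6308804, 4536592, 560668, 7864649, 1302533, 2494627, 4465308, 628112, 18147, 459847, 2183687, 1352353, 2654580, 4415544, 5770785, 2115979, 843820, 3739786, 6750560, 4282144, 4752467, 272595, 3672838, 4213932, 2365978, 4597797,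 150618, 2425238, 1110320, 1647171, 689317, 2501890, 31554, 632881, 4523185, 1230376, 6979970, 3444840, 90318, 5780352, 402026, 6557781, 4343317, 1410188, 2126890, 3328320, 5842956, 1351424, 902657, 267634, 5899416, 2245426, 2854977, 4223245, 1484824, 4287105, 153797, 1584464, 2363013, 213833, 6857221, 5538256, 692282, 2430217, 3951624, 1710664, 4459426, 567074, 95313, 2564625, 7397512, 4526126, 1769924, 1413139, 2121909, 4346506, 1852256, 3806496, 6554826, 2664522, 4409606, 4220306, 262637, 5902343, 3678776, 2313249, 334433, 837906, 1869893, 2141072, 4424227, 4870480, 2207772, 1327290, 7079696, 5252293, 2268296, 5441617, 314056, 2328324, 4744776, 786999, 7221256, 3154402, 381252, 737427, 6062602, 168928, 1127686, 2409888, 231532, 6842656, 1060490, 42232, 4505735, 7417889, 1245726, 551943, 1186194, 4982904, 7145475, 4361520, 5255258, 926128, 3277413, 2204803, 1332261, 855332, 4241960, 2263063, 792232, 5375810, 7622914, 4301220, 2769128, 4645632, 2949708, 1122713, 742412, 6337856, 2890176, 7473194, 1063445, 675712, 1250945, 4510744,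 6455896, 615188, 45159, 3489985, 1182989, 555160, 924689, 2640465, 2201890, 1337732, 5817604, 3351624, 4370577, 1405448, 2130606, 797449, 3147996, 4299781, 3719203, 864389, 3216208, 1525008, 4229001, 1050548, 2892897, 684577, 237906, 6832158, 1121336, 6326497, 7340691, 2605066, 1192108, 4989254, 104010, 542009, 1256224, 36294, 5249380, 919694, 2135601, 4367374, 2704706, 987906, 5309160, 442481, 4294810, 1460739, 3152963, 4231958, 4800613, 2269481, 861210, 6837377, 1687640, 7479572, 5112513, 1053483, 175681, 1116327, 2422785, 545190, 4038912, 5652556, 99029, 1188915, 7345676, 608810, 39257, 7409024, 4731956, 2754059, 806987, 5390753, 361272, 301236, 3237906, 2634003, 4850476, 2220640, 1315526, 3294342, 504864, 1378634, 4921504, 6949956, 126216, 5003780, 63108, 3474978, 1737489, 5063048, 1265762, 2531524, 5511305, 657763, 252432, 2460752, 5571333, 6889680, 180636, 1618953, 3172097, 804052, 2757268, 1454401, 4726955, 298027, 2820376, 4253780, 6656640, 5268006, 3297305, 1312345, 2631052, 4441280, 1009728, 6588684, 2702848, 1805314, 535268,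 3410225, 4490852, 5709954, 6475812, 602472, 57883, 1075305, 5508118, 2969648, 1613974, 2392899, 185603, 722544, 307594, 3227948, 5939296, 4785798, 3168928, 371206, 1445088, 4726026, 427666, 5325835, 2687905, 1384564, 2150610, 2627629, 4860434, 7903248, 593097, 4563017, 3031301, 1204944, 3421328, 115766, 530245, 1134148, 190626, 3610628, 5129250, 1070536, 6406417, 663645, 3539848, 6820450, 2826278, 2019456, 4243818, 4788761, 304405, 3704512, 7612992, 4721045, 5405696, 2147405, 4924673, 5329044, 6594610, 430605, 2624690, 5262104, 493953, 596054, 52005, 525274, 5640752, 3416079, 118953, 7357552, 6344194, 4626498, 1608104, 5514536, 668866, 1675812, 2908802, 1065303, 12222476, 13721920, 13121601, 16056344, 10666625, 8688833, 9045270, 9465987, 10846245, 8925710, 15335473, 12944642, 8989058, 9701932, 10543366, 9769376, 13303882, 9193633, 8683614, 12641313, 9462812, 13893731, 9048457, 9112069, 9589508, 11797828, 8922769, 12880401, 9652360, 9776129, 9323032, 14254209, 11015256, 12638592, 9204992, 12698124, 11150144, 9830549, 13009064, 9998658,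 9519665, 9055272, 8978620, 8919856, 8505411, 10537016, 11010247, 9708306, 8694112, 9835530, 13108704, 11551306, 15274244, 8581192, 10790408, 15207048, 9456930, 8439632, 8983587, 10916112, 15747077, 12624578, 13829156, 11163650, 9178690, 10257456, 11731203, 13641904, 8431757, 8937586, 8499969, 13370381, 10021376, 8619033, 13911680, 11272490, 15864000, 9240913, 11608708, 8704546, 10650722, 11548936, 12747077, 11100169, 11669008, 9721936, 8436754, 9568632, 13373586, 8555274, 9451104, 8622214, 11952160, 11535529, 12685424, 13124355, 13631886, 9310308, 11028004, 13703682, 8931660, 14919680, 11469952, 8999616, 8421811, 11282452, 9440193, 9506893, 14714004, 13771273, 8773776, 11538486, 13192208, 13262980, 10584520, 13636881, 10525252, 8834052, 8490656, 9578566, 8426796, 13443616, 14716939, 8561204, 9503954, 8471941, 10170384, 8412681, 10881097, 13938692, 14762146, 10028808, 8546577, 9968772, 12126304, 12604486, 8663097, 15073798, 10506593, 11108882, 8783649, 8474906, 8946281, 8407702, 9486564, 10825794, 8611330, 9963547, 13142054, 11654144,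 8660134, 9929280, 12599513, 8849458, 11046145, 14156372, 14950785, 10093218, 12849992, 14828808, 9020484, 12912836, 12985424, 8536111, 14709264, 9078992, 8657159, 8716939, 13811730, 14949408, 12733024, 11055264, 10305542, 8414120, 16262146, 8484900, 11831426, 8541360, 10748656, 9969957, 8654232, 10698836, 13148440, 8721940, 10513600, 8796800, 13276672, 8855820, 15515712, 14682450, 8593633, 9471495, 8391797, 12871690, 8963210, 15762208, 10486557, 12726562, 10232008, 10557585, 13667400, 12584506, 10630149, 8675909, 12075408, 9537812, 9474712, 13062145, 14747201, 8394986, 14551296, 9610624, 8455014, 8966165, 14176296, 8798658, 10491778, 10554382, 10625178, 12587685, 12650793, 10765331, 8524371, 9158944, 14688364, 9607201, 12861748, 8398155, 9748745, 12780432, 10496547, 12720156, 11575377, 9208708, 12661896, 9279496, 12594948, 8592704, 10832640, 8521420, 10768524, 9543722, 8464984, 8401364, 12325377, 10110017, 10560816, 9347075, 12717187, 10687016, 12656663, 8733800, 10619300]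

theorem octLit_eq : weightMasks 8 = octLit := by
  decide +kernel

/-- The test defining a sorted pair of masks of a trio. -/
def pairTest (a b : ℕ) : Bool :=
  Nat.ble (Nat.succ a) b && Nat.beq (Nat.land a b) 0 && Nat.ble (Nat.succ b) (third a b)

theorem pairTest_iff {a b : ℕ} :
    pairTest a b = true ↔ a < b ∧ a &&& b = 0 ∧ b < third a b := by
  simp only [pairTest, Bool.and_eq_true, Nat.ble_eq, Nat.beq_eq]
  exact and_assoc

/-- Sorted pairs of the first two masks of trios. -/
def trioPairs : List (ℕ × ℕ) :=
  octLit.flatMap fun a => (octLit.filter fun b => pairTest a b).map fun b => (a, b)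

theorem mem_trioPairs {a b : ℕ} : (a, b) ∈ trioPairs ↔
    (a ∈ weightMasks 8 ∧ b ∈ weightMasks 8) ∧ a < b ∧ a &&& b = 0 ∧ b < third a b := by
  rw [octLit_eq]
  simp only [trioPairs, List.mem_flatMap, List.mem_map, List.mem_filter, Prod.mk.injEq, pairTest_iff]
  constructor
  · rintro ⟨a', ha', b', ⟨hb', h1, h2, h3⟩, rfl, rfl⟩
    exact ⟨⟨ha', hb'⟩, h1, h2, h3⟩
  · rintro ⟨⟨ha, hb⟩, h1, h2, h3⟩
    exact ⟨a, ha, b, ⟨hb, h1, h2, h3⟩, rfl, rfl⟩

theorem octLit_nodup : octLit.Nodup := by
  rw [← octLit_eq]
  exact weightMasks_nodup 8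

theorem trioPairs_nodup : trioPairs.Nodup := by
  unfold trioPairs
  refine List.nodup_flatMap.mpr ⟨?_, ?_⟩
  · intro a _
    refine List.Nodup.map ?_ (octLit_nodup.filter _)
    intro x y h
    simpa using h
  · refine octLit_nodup.imp ?_
    intro a b hab x hx hy
    obtain ⟨c, _, rfl⟩ := List.mem_map.mp hx
    obtain ⟨d, _, hd⟩ := List.mem_map.mp hy
    exact hab (by simpa using (congrArg Prod.fst hd).symm)

theorem trioPairs_length : trioPairs.length = 3795 := by
  decide +kernel

theorem mask_lt {a : ℕ} (ha : a ∈ weightMasks 8) : a < 2 ^ 24 :=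
  codeMasks_lt a (mem_weightMasks.mp ha).1

theorem disjoint_of_and {a b : ℕ} (h : a &&& b = 0) : Disjoint (maskSupport a) (maskSupport b) := by
  refine Finset.disjoint_left.mpr ?_
  intro p hp hq
  rw [mem_maskSupport] at hp hq
  have : (a &&& b).testBit (ptIdx p) = true := by
    rw [Nat.testBit_and, hp, hq]; rfl
  rw [h] at this
  simp at this

theorem and_of_disjoint {a b : ℕ} (ha : a < 2 ^ 24)
    (h : Disjoint (maskSupport a) (maskSupport b)) : a &&& b = 0 := by
  apply Nat.eq_of_testBit_eq
  intro i
  rw [Nat.zero_testBit, Nat.testBit_and]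
  by_cases hi : i < 24
  · by_contra hne
    have h1 : a.testBit i = true ∧ b.testBit i = true := by
      cases ha' : a.testBit i <;> cases hb' : b.testBit i <;> simp_all
    have hp : idxPt i ∈ maskSupport a := by
      rw [mem_maskSupport, ptIdx_idxPt hi]; exact h1.1
    have hq : idxPt i ∈ maskSupport b := by
      rw [mem_maskSupport, ptIdx_idxPt hi]; exact h1.2
    exact Finset.disjoint_left.mp h hp hq
  · have h1 : a < 2 ^ i := lt_of_lt_of_le ha (Nat.pow_le_pow_right (by norm_num) (by omega))
    rw [Nat.testBit_lt_two_pow h1]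
    rfl

theorem mem_weight_of_octad {s : Finset Cfsg.GolayPt} (hs : s ∈ Cfsg.octads) :
    ∃ m ∈ weightMasks 8, maskSupport m = s := by
  obtain ⟨m, hm, hp, rfl⟩ := mem_octads.mp hs
  exact ⟨m, mem_weightMasks.mpr ⟨hm, hp⟩, rfl⟩

theorem octad_of_mem_weight {m : ℕ} (hm : m ∈ weightMasks 8) : maskSupport m ∈ Cfsg.octads := by
  obtain ⟨h1, h2⟩ := mem_weightMasks.mp hm
  exact mem_octads.mpr ⟨m, h1, h2, rfl⟩

/-- The trio of a pair. -/
def trioOf (q : ℕ × ℕ) : Finset (Finset Cfsg.GolayPt) :=
  {maskSupport q.1, maskSupport q.2, maskSupport (third q.1 q.2)}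

theorem third_lt {a b : ℕ} (ha : a < 2 ^ 24) (hb : b < 2 ^ 24) : third a b < 2 ^ 24 :=
  Nat.xor_lt_two_pow (Nat.xor_lt_two_pow ha hb) (by decide)

theorem trioOf_mem {a b : ℕ} (h : (a, b) ∈ trioPairs) : trioOf (a, b) ∈ Cfsg.trios := by
  obtain ⟨⟨ha, hb⟩, hab, hand, hbc⟩ := mem_trioPairs.mp h
  have hla := mask_lt ha
  have hlb := mask_lt hb
  have hlc := third_lt hla hlb
  have hd := disjoint_of_and hand
  have hc : maskSupport (third a b) = (maskSupport a ∪ maskSupport b)ᶜ := support_xor_ones a b hd
  have hoa := octad_of_mem_weight ha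
  have hob := octad_of_mem_weight hb
  have hoc : maskSupport (third a b) ∈ Cfsg.octads := by
    rw [hc]; exact part1 _ _ hoa hob hd
  have hda : Disjoint (maskSupport a) (maskSupport (third a b)) := by
    rw [hc]
    exact Finset.disjoint_left.mpr fun x hx hy =>
      (Finset.mem_compl.mp hy) (Finset.mem_union_left _ hx)
  have hdb : Disjoint (maskSupport b) (maskSupport (third a b)) := by
    rw [hc]
    exact Finset.disjoint_left.mpr fun x hx hy =>
      (Finset.mem_compl.mp hy) (Finset.mem_union_right _ hx)
  have hne1 : maskSupport a ≠ maskSupport b := fun e => by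
    have := maskSupport_injOn hla hlb e; omega
  have hne2 : maskSupport a ≠ maskSupport (third a b) := fun e => by
    have := maskSupport_injOn hla hlc e; omega
  have hne3 : maskSupport b ≠ maskSupport (third a b) := fun e => by
    have := maskSupport_injOn hlb hlc e; omega
  refine ⟨Finset.card_eq_three.mpr ⟨_, _, _, hne1, hne2, hne3, rfl⟩, ?_, ?_⟩
  · intro o ho
    simp only [trioOf, Finset.mem_insert, Finset.mem_singleton] at ho
    rcases ho with rfl | rfl | rfl
    · exact hoa
    · exact hob
    · exact hoc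
  · intro o ho o' ho' hne
    simp only [trioOf, Finset.mem_insert, Finset.mem_singleton] at ho ho'
    rcases ho with rfl | rfl | rfl <;> rcases ho' with rfl | rfl | rfl
    · exact absurd rfl hne
    · exact hd
    · exact hda
    · exact hd.symm
    · exact absurd rfl hne
    · exact hdb
    · exact hda.symm
    · exact hdb.symm
    · exact absurd rfl hne

/-- Three disjoint octads have masks xoring to the all-ones mask. -/
theorem third_eq {a b c : ℕ} (ha : a ∈ weightMasks 8) (hb : b ∈ weightMasks 8)
    (hc : c ∈ weightMasks 8) (hab : Disjoint (maskSupport a) (maskSupport b))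
    (hac : Disjoint (maskSupport a) (maskSupport c))
    (hbc : Disjoint (maskSupport b) (maskSupport c)) : third a b = c := by
  have hla := mask_lt ha
  have hlb := mask_lt hb
  have hlc := mask_lt hc
  apply maskSupport_injOn (third_lt hla hlb) hlc
  have h1 : maskSupport (third a b) = (maskSupport a ∪ maskSupport b)ᶜ := support_xor_ones a b hab
  have card8 : ∀ m : ℕ, m ∈ weightMasks 8 → (maskSupport m).card = 8 := fun m hm => by
    rw [card_maskSupport]; exact (mem_weightMasks.mp hm).2
  rw [h1]
  symm
  apply Finset.eq_of_subset_of_card_le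
  · intro x hx
    rw [Finset.mem_compl, Finset.mem_union]
    rintro (h | h)
    · exact Finset.disjoint_left.mp hac h hx
    · exact Finset.disjoint_left.mp hbc h hx
  · rw [card_compl_union (card8 a ha) (card8 b hb) hab, card8 c hc]

theorem third_comm1 {a b c : ℕ} (h : third a b = c) : third b a = c := by
  rw [← h]
  simp only [third]
  rw [Nat.xor_comm a b]

theorem third_comm2 {a b c : ℕ} (h : third a b = c) : third a c = b := by
  rw [← h]
  simp only [third]
  calc a ^^^ (a ^^^ b ^^^ onesMask) ^^^ onesMask
      = (a ^^^ a) ^^^ b ^^^ (onesMask ^^^ onesMask) := by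
        simp only [Nat.xor_assoc]
    _ = b := by simp

/-- The sorted form of a triple. -/
theorem sorted_case {a b c : ℕ} {T : Finset (Finset Cfsg.GolayPt)} (ha : a ∈ weightMasks 8)
    (hb : b ∈ weightMasks 8) (hlt1 : a < b) (hlt2 : b < c) (ht : third a b = c)
    (hab : Disjoint (maskSupport a) (maskSupport b))
    (hT : T = {maskSupport a, maskSupport b, maskSupport c}) :
    ∃ q ∈ trioPairs, trioOf q = T := by
  refine ⟨(a, b), mem_trioPairs.mpr ⟨⟨ha, hb⟩, hlt1, and_of_disjoint (mask_lt ha) hab, ?_⟩, ?_⟩
  · rw [ht]; exact hlt2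
  · simp only [trioOf, ht, hT]

theorem perm3 {α : Type*} [DecidableEq α] (u v w : α) :
    ({u, v, w} : Finset α) = {u, w, v} ∧ ({u, v, w} : Finset α) = {w, u, v} ∧
    ({u, v, w} : Finset α) = {v, u, w} ∧ ({u, v, w} : Finset α) = {v, w, u} ∧
    ({u, v, w} : Finset α) = {w, v, u} := by
  refine ⟨?_, ?_, ?_, ?_, ?_⟩ <;> (ext s; simp only [Finset.mem_insert, Finset.mem_singleton]; tauto)

theorem exists_pair_of_mem {T : Finset (Finset Cfsg.GolayPt)} (hT : T ∈ Cfsg.trios) :
    ∃ q ∈ trioPairs, trioOf q = T := by
  obtain ⟨hcard, ho, hd⟩ := hT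
  obtain ⟨x, y, z, hxy, hxz, hyz, rfl⟩ := Finset.card_eq_three.mp hcard
  have hox := ho x (by simp)
  have hoy := ho y (by simp)
  have hoz := ho z (by simp)
  have hdxy := hd x (by simp) y (by simp) hxy
  have hdxz := hd x (by simp) z (by simp) hxz
  have hdyz := hd y (by simp) z (by simp) hyz
  obtain ⟨a, ha, rfl⟩ := mem_weight_of_octad hox
  obtain ⟨b, hb, rfl⟩ := mem_weight_of_octad hoy
  obtain ⟨c, hc, rfl⟩ := mem_weight_of_octad hoz
  have ht := third_eq ha hb hc hdxy hdxz hdyz
  have hab : a ≠ b := fun e => hxy (by rw [e])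
  have hac : a ≠ c := fun e => hxz (by rw [e])
  have hbc : b ≠ c := fun e => hyz (by rw [e])
  -- the three sorted forms of the xor relation
  have t1 : third a b = c := ht
  have t2 : third b a = c := third_comm1 ht
  have t3 : third a c = b := third_comm2 ht
  have t4 : third c a = b := third_comm1 t3
  have t5 : third b c = a := third_comm2 t2
  have t6 : third c b = a := third_comm1 t5
  rcases lt_or_gt_of_ne hab with h1 | h1 <;> rcases lt_or_gt_of_ne hbc with h2 | h2 <;>
    rcases lt_or_gt_of_ne hac with h3 | h3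
  · exact sorted_case ha hb h1 h2 t1 hdxy rfl
  · omega
  · exact sorted_case ha hc h3 (by omega) t3 hdxz (perm3 _ _ _).1
  · exact sorted_case hc ha h3 h1 t4 hdxz.symm (perm3 _ _ _).2.1
  · exact sorted_case hb ha h1 h3 t2 hdxy.symm (perm3 _ _ _).2.2.1
  · exact sorted_case hb hc h2 h3 t5 hdyz (perm3 _ _ _).2.2.2.1
  · omega
  · exact sorted_case hc hb h2 h1 t6 hdyz.symm (perm3 _ _ _).2.2.2.2

theorem trioOf_injOn : Set.InjOn trioOf {q | q ∈ trioPairs} := by
  rintro ⟨a, b⟩ hq ⟨a', b'⟩ hq' e
  obtain ⟨⟨ha, hb⟩, h1, _, h2⟩ := mem_trioPairs.mp hq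
  obtain ⟨⟨ha', hb'⟩, h1', _, h2'⟩ := mem_trioPairs.mp hq'
  have la := mask_lt ha
  have lb := mask_lt hb
  have lc := third_lt la lb
  have la' := mask_lt ha'
  have lb' := mask_lt hb'
  have lc' := third_lt la' lb'
  simp only [trioOf] at e
  have m1 : maskSupport a ∈ ({maskSupport a', maskSupport b', maskSupport (third a' b')} :
      Finset (Finset Cfsg.GolayPt)) := by rw [← e]; simp
  have m2 : maskSupport b ∈ ({maskSupport a', maskSupport b', maskSupport (third a' b')} :
      Finset (Finset Cfsg.GolayPt)) := by rw [← e]; simp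
  have m3 : maskSupport (third a b) ∈ ({maskSupport a', maskSupport b', maskSupport (third a' b')} :
      Finset (Finset Cfsg.GolayPt)) := by rw [← e]; simp
  have m1' : maskSupport a' ∈ ({maskSupport a, maskSupport b, maskSupport (third a b)} :
      Finset (Finset Cfsg.GolayPt)) := by rw [e]; simp
  have m2' : maskSupport b' ∈ ({maskSupport a, maskSupport b, maskSupport (third a b)} :
      Finset (Finset Cfsg.GolayPt)) := by rw [e]; simp
  have m3' : maskSupport (third a' b') ∈ ({maskSupport a, maskSupport b, maskSupport (third a b)} :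
      Finset (Finset Cfsg.GolayPt)) := by rw [e]; simp
  simp only [Finset.mem_insert, Finset.mem_singleton] at m1 m2 m3 m1' m2' m3'
  have inj : ∀ {u v : ℕ}, u < 2 ^ 24 → v < 2 ^ 24 → maskSupport u = maskSupport v → u = v :=
    fun hu hv h => maskSupport_injOn hu hv h
  have n1 : a = a' ∨ a = b' ∨ a = third a' b' :=
    m1.imp (inj la la') (Or.imp (inj la lb') (inj la lc'))
  have n2 : b = a' ∨ b = b' ∨ b = third a' b' :=
    m2.imp (inj lb la') (Or.imp (inj lb lb') (inj lb lc'))
  have n3 : third a b = a' ∨ third a b = b' ∨ third a b = third a' b' :=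
    m3.imp (inj lc la') (Or.imp (inj lc lb') (inj lc lc'))
  have n1' : a' = a ∨ a' = b ∨ a' = third a b :=
    m1'.imp (inj la' la) (Or.imp (inj la' lb) (inj la' lc))
  have n2' : b' = a ∨ b' = b ∨ b' = third a b :=
    m2'.imp (inj lb' la) (Or.imp (inj lb' lb) (inj lb' lc))
  have n3' : third a' b' = a ∨ third a' b' = b ∨ third a' b' = third a b :=
    m3'.imp (inj lc' la) (Or.imp (inj lc' lb) (inj lc' lc))
  generalize third a b = c at *
  generalize third a' b' = c' at *
  have : a = a' ∧ b = b' := by omega
  exact Prod.ext this.1 this.2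

theorem ncard_trios : Cfsg.trios.ncard = 3795 := by
  have h : Cfsg.trios = trioOf '' {q | q ∈ trioPairs} := by
    ext T
    constructor
    · intro hT
      obtain ⟨q, hq, rfl⟩ := exists_pair_of_mem hT
      exact ⟨q, hq, rfl⟩
    · rintro ⟨⟨a, b⟩, hq, rfl⟩
      exact trioOf_mem hq
  rw [h, Set.InjOn.ncard_image trioOf_injOn]
  have h2 : {q | q ∈ trioPairs} = (trioPairs.toFinset : Set (ℕ × ℕ)) := by
    ext; simp
  rw [h2, Set.ncard_coe_finset, List.toFinset_card_of_nodup trioPairs_nodup, trioPairs_length]

/-- The complement of the union of two disjoint octads is an octad, and the code has exactly 3795 trios of pairwise disjoint octads. -/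
theorem result : (∀ o o' : Finset Cfsg.GolayPt, o ∈ Cfsg.octads → o' ∈ Cfsg.octads → Disjoint o o' → (o ∪ o')ᶜ ∈ Cfsg.octads) ∧ Cfsg.trios.ncard = 3795 := by
  exact ⟨part1, ncard_trios⟩

end Cfsg.Agent.S1557
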