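import Cfsg.Statements.S2544
import Mathlib
import Cfsg.Agent.Lib.StBlocks.SLMain
import Cfsg.Agent.Lib.StBlocks.Fine
import Cfsg.Agent.Lib.Blocks.Kernel
import Cfsg.Agent.Lib.Char.PRegular

set_option autoImplicit false
open Cfsg

namespace Cfsg.Agent.S2544

open Cfsg.Agent.Lib.StBlocks.SLSpl Cfsg.Agent.Lib.StBlocks.SLMain Cfsg.Agent.Lib.StBlocks.Stein
open Cfsg.Agent.Lib.StBlocks.Fine Cfsg.Agent.Lib.StBlocks.Count Cfsg.Agent.Lib.StBlocks.Form
open Cfsg.Agent.Lib.BNPair.Basic Cfsg.Agent.Lib.ChevOrder.BNCount Cfsg.Agent.Lib.StChar.Inner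
open Cfsg.Agent.Lib.StChar.Cox Cfsg.Agent.Lib.StChar.Gate Cfsg.Agent.Lib.ModHecke.Frob

/-- Let F be a finite field of characteristic p and consider the projective special linear group PSL_n(F) with n ≥ 2. This group has an irreducible complex character χ whose degree equals the order of a Sylow p-subgroup (namely q^(n(n−1)/2) when #F = q) and whose restriction to any Sylow p-subgroup P is the regular character of P: χ vanishes on the non-identity elements of P. (This is the Steinberg character.) -/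
theorem result {F : Type*} [Field F] [Fintype F] (p : ℕ) [Fact p.Prime] [CharP F p] (n : ℕ) (hn : 2 ≤ n) : ∃ χ : Matrix.ProjectiveSpecialLinearGroup (Fin n) F → ℂ, Cfsg.IsIrrCharacter (Matrix.ProjectiveSpecialLinearGroup (Fin n) F) χ ∧ ∀ P : Sylow p (Matrix.ProjectiveSpecialLinearGroup (Fin n) F), χ 1 = Nat.card P ∧ ∀ x : Matrix.ProjectiveSpecialLinearGroup (Fin n) F, x ∈ P → x ≠ 1 → χ x = 0 := by
  classical
  obtain ⟨m, rfl⟩ : ∃ m, n = m + 2 := ⟨n - 2, by omega⟩
  have hp : p.Prime := Fact.out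
  let _ : Fintype (Matrix.SpecialLinearGroup (Fin (m + 2)) F) := Fintype.ofFinite _
  have hs := setupS (spl m F p)
  obtain ⟨y, -, h1, h2⟩ := exists_top hs (Set.univ : Set (Fin (m + 1)))
  obtain ⟨n, rfl⟩ := QuotientGroup.mk_surjective y
  obtain ⟨π, hπ⟩ := n.2
  have hanti := strictAnti_of_top hπ (fun i => by
    have h3 := h1 i (Set.mem_univ _)
    rw [ff_mk_mul, LL_mk, LL_mk] at h3
    exact h3)
  have htop : ∀ i, LL (bn m F) ((QuotientGroup.mk n : WW (bn m F)) * ff (spl m F p).e (spl m F p).he i)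
      < LL (bn m F) (QuotientGroup.mk n) := fun i => h2 i (Set.mem_univ _)
  have hT : ∀ x ∈ (bn m F).B, (n : Matrix.SpecialLinearGroup (Fin (m + 2)) F)⁻¹ * x * n ∈ (bn m F).B →
      x ∈ (bn m F).B ⊓ (bn m F).N := fun x hx hy => mem_T_of_anti hπ hanti hx hy
  set ψ : IrrCharacter (Matrix.SpecialLinearGroup (Fin (m + 2)) F) := stIrr (spl m F p) with hψ
  have hone : (ψ : Matrix.SpecialLinearGroup (Fin (m + 2)) F → ℂ) 1 = (Nat.card (spl m F p).U : ℂ) :=
    stChar_one (spl m F p) n htop hT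
  have hcen : ∀ z ∈ Subgroup.center (Matrix.SpecialLinearGroup (Fin (m + 2)) F),
      (ψ : Matrix.SpecialLinearGroup (Fin (m + 2)) F → ℂ) z = (ψ : Matrix.SpecialLinearGroup (Fin (m + 2)) F → ℂ) 1 := by
    intro z hz
    have hz' : z ∈ Zz (bn m F) := by rw [Zz_eq]; exact hz
    exact stChar_central (spl m F p) htop hz'
  obtain ⟨ψ', hψ'⟩ := Cfsg.Agent.Lib.Blocks.Kernel.exists_irr_of_kernel
    (Subgroup.center (Matrix.SpecialLinearGroup (Fin (m + 2)) F)) ψ.2 hcen
  have hZ : ¬ p ∣ Nat.card ↥(Subgroup.center (Matrix.SpecialLinearGroup (Fin (m + 2)) F)) := by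
    have := not_dvd_card_Zz (spl m F p)
    rwa [Zz_eq] at this
  have hcard : Nat.card (Matrix.SpecialLinearGroup (Fin (m + 2)) F) =
      Nat.card (Matrix.ProjectiveSpecialLinearGroup (Fin (m + 2)) F) *
        Nat.card ↥(Subgroup.center (Matrix.SpecialLinearGroup (Fin (m + 2)) F)) := by
    rw [Subgroup.card_eq_card_quotient_mul_card_subgroup
      (Subgroup.center (Matrix.SpecialLinearGroup (Fin (m + 2)) F))]
  have hfact : (Nat.card (Matrix.SpecialLinearGroup (Fin (m + 2)) F)).factorization p =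
      (Nat.card (Matrix.ProjectiveSpecialLinearGroup (Fin (m + 2)) F)).factorization p := by
    rw [hcard, Nat.factorization_mul Nat.card_pos.ne' Nat.card_pos.ne', Finsupp.add_apply,
      Nat.factorization_eq_zero_of_not_dvd hZ, add_zero]
  have hU : Nat.card (spl m F p).U = p ^ (Nat.card (Matrix.SpecialLinearGroup (Fin (m + 2)) F)).factorization p :=
    (pow_fact (spl m F p)).symm
  -- vanishing on `p`-singular elements
  have hvan : ∀ g : Matrix.SpecialLinearGroup (Fin (m + 2)) F, p ∣ orderOf g →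
      (ψ : Matrix.SpecialLinearGroup (Fin (m + 2)) F → ℂ) g = 0 := by
    intro g hg
    obtain ⟨d, ρ, hρ, he⟩ := ψ.2
    have := hρ
    rw [← he]
    have hpos : Nat.card (Matrix.SpecialLinearGroup (Fin (m + 2)) F) ≠ 0 := Nat.card_pos.ne'
    refine Cfsg.Agent.Lib.Char.PRegular.character_eq_zero_of_defect_zero ρ p
      ((Nat.card (Matrix.SpecialLinearGroup (Fin (m + 2)) F)).factorization p) hp (Nat.ordProj_dvd _ _)
      (Nat.pow_succ_factorization_not_dvd hpos hp) ?_ g hg
    have h1 : ρ.character 1 = (Module.finrank ℂ (Fin d → ℂ) : ℂ) := by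
      simp [Representation.character]
    rw [he, hone] at h1
    have h3 : Module.finrank ℂ (Fin d → ℂ) = Nat.card (spl m F p).U := by
      exact_mod_cast h1.symm
    rw [h3, hU]
  refine ⟨(ψ' : Matrix.ProjectiveSpecialLinearGroup (Fin (m + 2)) F → ℂ), ψ'.2, fun P => ⟨?_, ?_⟩⟩
  · have h1 : (ψ' : Matrix.ProjectiveSpecialLinearGroup (Fin (m + 2)) F → ℂ) 1 =
        (ψ : Matrix.SpecialLinearGroup (Fin (m + 2)) F → ℂ) 1 := by
      rw [hψ']
      rfl
    rw [h1, hone, hU, hfact]
    have h4 := Sylow.card_eq_multiplicity P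
    rw [h4]
  · intro x hx hx1
    obtain ⟨g, rfl⟩ := QuotientGroup.mk_surjective x
    have h1 : (ψ' : Matrix.ProjectiveSpecialLinearGroup (Fin (m + 2)) F → ℂ)
        (g : Matrix.SpecialLinearGroup (Fin (m + 2)) F ⧸ Subgroup.center (Matrix.SpecialLinearGroup (Fin (m + 2)) F)) =
        (ψ : Matrix.SpecialLinearGroup (Fin (m + 2)) F → ℂ) g := by
      rw [hψ']
      rfl
    rw [h1]
    apply hvan
    have h2 := P.isPGroup'
    obtain ⟨k, hk⟩ := IsPGroup.iff_orderOf.1 h2 ⟨_, hx⟩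
    have h3 : orderOf ((g : Matrix.SpecialLinearGroup (Fin (m + 2)) F ⧸ Subgroup.center (Matrix.SpecialLinearGroup (Fin (m + 2)) F))) = p ^ k := by
      rw [← hk]
      exact (Subgroup.orderOf_mk _ _).symm
    have hk0 : k ≠ 0 := by
      rintro rfl
      rw [pow_zero, orderOf_eq_one_iff] at h3
      exact hx1 h3
    have h5 : orderOf ((g : Matrix.SpecialLinearGroup (Fin (m + 2)) F ⧸ Subgroup.center (Matrix.SpecialLinearGroup (Fin (m + 2)) F))) ∣ orderOf g :=
      orderOf_map_dvd (QuotientGroup.mk' _) g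
    exact (dvd_pow_self p hk0).trans (h3 ▸ h5)

end Cfsg.Agent.S2544
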