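import Cfsg.Statements.S1757
import Mathlib
import Cfsg.Agent.Lib.PGroup.Basic

set_option autoImplicit false
open Cfsg
open scoped Pointwise

namespace Cfsg.Agent.S1757

/-- Let p be a prime and A, B p-subgroups of the finite group G, each of which meets every conjugate of itself other than itself trivially. Suppose the order of A is at most that of B, A and B intersect trivially, and B normalizes A. Then A and B commute elementwise. -/
theorem result {G : Type*} [Group G] [Finite G] (p : ℕ) [Fact p.Prime] (A B : Subgroup G)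
    (hA : IsPGroup p ↥A) (hB : IsPGroup p ↥B)
    (hAti : ∀ g : G, A.map (MulAut.conj g).toMonoidHom = A ∨ A.map (MulAut.conj g).toMonoidHom ⊓ A = ⊥)
    (hBti : ∀ g : G, B.map (MulAut.conj g).toMonoidHom = B ∨ B.map (MulAut.conj g).toMonoidHom ⊓ B = ⊥)
    (hle : Nat.card ↥A ≤ Nat.card ↥B) (hAB : A ⊓ B = ⊥) (hN : B ≤ Subgroup.normalizer (A : Set G)) : ⁅A, B⁆ = ⊥ := by
  classical
  by_contra hne
  have hnot : ¬ A ≤ Subgroup.centralizer (B : Set G) := fun h =>
    hne (Subgroup.commutator_eq_bot_iff_le_centralizer.mpr h)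
  set D := A ⊓ Subgroup.centralizer (B : Set G) with hD
  have hDB : D ≤ Subgroup.normalizer (B : Set G) := fun d hd =>
    Subgroup.centralizer_le_normalizer _ hd.2
  -- step 1
  have key : ∀ a ∈ A, ∀ b ∈ B, b ≠ 1 → a * b = b * a → a ∈ D := by
    intro a ha b hb hb1 hab
    refine ⟨ha, ?_⟩
    have hconj : b ∈ B.map (MulAut.conj a).toMonoidHom :=
      ⟨b, hb, by simp [hab]⟩
    have hBa : B.map (MulAut.conj a).toMonoidHom = B := by
      rcases hBti a with h | h
      · exact h
      · exfalso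
        have : b ∈ B.map (MulAut.conj a).toMonoidHom ⊓ B := ⟨hconj, hb⟩
        rw [h, Subgroup.mem_bot] at this
        exact hb1 this
    change a ∈ Subgroup.centralizer (B : Set G)
    rw [Subgroup.mem_centralizer_iff]
    intro b' hb'
    have h1 : a * b' * a⁻¹ ∈ B := by
      rw [← hBa]
      exact ⟨b', hb', rfl⟩
    have h2 : b' * a⁻¹ * b'⁻¹ ∈ A :=
      (Subgroup.mem_normalizer_iff.mp (hN hb') _).mp (A.inv_mem ha)
    have h3 : a * b' * a⁻¹ * b'⁻¹ ∈ A ⊓ B := by
      refine Subgroup.mem_inf.mpr ⟨?_, B.mul_mem h1 (B.inv_mem hb')⟩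
      have e : a * b' * a⁻¹ * b'⁻¹ = a * (b' * a⁻¹ * b'⁻¹) := by group
      rw [e]
      exact mul_mem ha h2
    rw [hAB, Subgroup.mem_bot] at h3
    have h4 : a * b' * a⁻¹ * b'⁻¹ * (b' * a) = b' * a := by rw [h3, one_mul]
    have e : a * b' * a⁻¹ * b'⁻¹ * (b' * a) = a * b' := by group
    rw [e] at h4
    exact h4.symm
  -- the subgroup `W = BD`
  set W := B ⊔ D with hW
  have hWset : (W : Set G) = (D : Set G) * (B : Set G) := by
    rw [hW, sup_comm]
    exact Subgroup.coe_mul_of_left_le_normalizer_right D B hDB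
  have hAW : ∀ a ∈ A, a ∈ W → a ∈ D := by
    intro a ha haW
    have : a ∈ (W : Set G) := haW
    rw [hWset] at this
    obtain ⟨d, hd, b, hb, rfl⟩ := Set.mem_mul.mp this
    have hb' : b ∈ A ⊓ B := by
      refine ⟨?_, hb⟩
      have e : b = d⁻¹ * (d * b) := by group
      rw [e]
      exact A.mul_mem (A.inv_mem (Subgroup.mem_inf.mp hd).1) ha
    rw [hAB, Subgroup.mem_bot] at hb'
    rw [hb', mul_one]
    exact hd
  have hWP : W < A ⊔ B := by
    refine lt_of_le_of_ne (sup_le le_sup_right (inf_le_left.trans le_sup_left)) fun h => ?_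
    apply hnot
    intro a ha
    have : a ∈ W := by rw [h]; exact Subgroup.mem_sup_left ha
    exact (hAW a ha this).2
  have hP : IsPGroup p (A ⊔ B : Subgroup G) := hA.to_sup_of_normal_left' hB hN
  obtain ⟨x, hxP, hxW, hxn⟩ :=
    Cfsg.Agent.Lib.PGroup.Basic.exists_mem_normalizer_of_lt hP hWP
  have hxset : x ∈ ((B ⊔ A : Subgroup G) : Set G) := by
    rw [sup_comm]; exact hxP
  rw [Subgroup.coe_mul_of_left_le_normalizer_right B A hN] at hxset
  obtain ⟨b, hb, a, ha, rfl⟩ := Set.mem_mul.mp hxset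
  have hbW : b ∈ W := Subgroup.mem_sup_left hb
  have haW : a ∉ W := fun h => hxW (mul_mem hbW h)
  have han : a ∈ Subgroup.normalizer (W : Set G) := by
    have e : a = b⁻¹ * (b * a) := by group
    rw [e]
    exact mul_mem (Subgroup.le_normalizer (inv_mem hbW)) hxn
  have haD : a ∉ D := fun h => haW (Subgroup.mem_sup_right h)
  -- the injective map `B → D`
  have hcomm : ∀ c ∈ B, c * a * c⁻¹ * a⁻¹ ∈ D := by
    intro c hc
    apply hAW
    · have h1 : c * a * c⁻¹ ∈ A := (Subgroup.mem_normalizer_iff.mp (hN hc) a).mp ha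
      exact mul_mem h1 (inv_mem ha)
    · have hcW : c ∈ W := Subgroup.mem_sup_left hc
      have h1 : a * c⁻¹ * a⁻¹ ∈ W := (Subgroup.mem_normalizer_iff.mp han _).mp (inv_mem hcW)
      have e : c * a * c⁻¹ * a⁻¹ = c * (a * c⁻¹ * a⁻¹) := by group
      rw [e]
      exact mul_mem hcW h1
  let f : B → D := fun c => ⟨c * a * c⁻¹ * a⁻¹, hcomm c c.2⟩
  have hf : Function.Injective f := by
    intro c c' hcc
    have h1 : (c : G) * a * (c : G)⁻¹ * a⁻¹ = c' * a * (c' : G)⁻¹ * a⁻¹ :=
      congrArg Subtype.val hcc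
    have h2 : ((c' : G)⁻¹ * c) * a = a * ((c' : G)⁻¹ * c) := by
      have h3 : (c : G) * a * (c : G)⁻¹ = c' * a * (c' : G)⁻¹ := by
        have := congrArg (fun y => y * a) h1
        simpa using this
      calc ((c' : G)⁻¹ * c) * a = (c' : G)⁻¹ * ((c : G) * a * (c : G)⁻¹) * c := by group
        _ = (c' : G)⁻¹ * (c' * a * (c' : G)⁻¹) * c := by rw [h3]
        _ = a * ((c' : G)⁻¹ * c) := by group
    by_contra hcc'
    have hne1 : (c' : G)⁻¹ * c ≠ 1 := by
      intro h
      apply hcc'
      apply Subtype.ext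
      have := inv_mul_eq_one.mp h
      exact this.symm
    exact haD (key a ha _ (mul_mem (inv_mem c'.2) c.2) hne1 h2.symm)
  have hcard1 : Nat.card B ≤ Nat.card D := Nat.card_le_card_of_injective f hf
  have hDA : D < A := by
    refine lt_of_le_of_ne inf_le_left fun h => hnot ?_
    rw [← h]
    exact inf_le_right
  have hcard2 : Nat.card D < Nat.card A := by
    have : ((D : Subgroup G) : Set G) ⊂ (A : Set G) := hDA
    have h' := Set.ncard_lt_ncard this (Set.toFinite _)
    rw [← Nat.card_coe_set_eq, ← Nat.card_coe_set_eq] at h'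
    exact h'
  omega

end Cfsg.Agent.S1757
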