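import Cfsg.Statements.S5998
import Cfsg.Agent.Lib.Linalg.Basic

set_option autoImplicit false
open scoped MatrixGroups
open Cfsg Module

namespace Cfsg.Agent.S5998

section Eigen

variable {F : Type*} [Field F]

/-- A map annihilated by a product of three distinct linear factors has an eigenbasis. -/
theorem exists_eigenbasis [Fintype F] {V : Type*} [AddCommGroup V] [Module F V] [FiniteDimensional F V] {n : ℕ}
    (hn : finrank F V = n) (g : V →ₗ[F] V) {α β γ : F} (hαβ : α ≠ β) (hαγ : α ≠ γ) (hβγ : β ≠ γ)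
    (h : ∀ v, g (g (g v - γ • v) - β • (g v - γ • v)) - α • (g (g v - γ • v) - β • (g v - γ • v)) = 0) :
    ∃ (b : Basis (Fin n) F V) (ε : Fin n → F), (∀ i, ε i = α ∨ ε i = β ∨ ε i = γ) ∧ ∀ i, g (b i) = ε i • b i := by
  classical
  let f : Module.End F V := g
  let p : Polynomial F := Polynomial.X - Polynomial.C α
  let q : Polynomial F := Polynomial.X - Polynomial.C β
  let r : Polynomial F := Polynomial.X - Polynomial.C γ
  have hpq : IsCoprime p q := Polynomial.isCoprime_X_sub_C_of_isUnit_sub (sub_ne_zero.mpr hαβ).isUnit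
  have hpr : IsCoprime p r := Polynomial.isCoprime_X_sub_C_of_isUnit_sub (sub_ne_zero.mpr hαγ).isUnit
  have hqr : IsCoprime q r := Polynomial.isCoprime_X_sub_C_of_isUnit_sub (sub_ne_zero.mpr hβγ).isUnit
  have h1 := Polynomial.sup_ker_aeval_eq_ker_aeval_mul_of_coprime f hpq
  have h3 := Polynomial.sup_ker_aeval_eq_ker_aeval_mul_of_coprime f (IsCoprime.mul_left hpr hqr)
  have hP : ∀ c : F, Polynomial.aeval f (Polynomial.X - Polynomial.C c) = f - c • 1 := by
    intro c
    rw [map_sub, Polynomial.aeval_X, Polynomial.aeval_C]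
    rfl
  have hz : Polynomial.aeval f (p * q * r) = 0 := by
    apply LinearMap.ext
    intro v
    rw [map_mul, map_mul, hP, hP, hP]
    exact h v
  rw [hz, LinearMap.ker_zero, ← h1, hP, hP, hP] at h3
  have htop : ⨆ c, Module.End.eigenspace f c = ⊤ := by
    rw [eq_top_iff, ← h3]
    refine sup_le (sup_le ?_ ?_) ?_
    · rw [← Module.End.eigenspace_def]
      exact le_iSup _ α
    · rw [← Module.End.eigenspace_def]
      exact le_iSup _ β
    · rw [← Module.End.eigenspace_def]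
      exact le_iSup _ γ
  have hint := DirectSum.isInternal_submodule_of_iSupIndep_of_iSup_eq_top (Module.End.eigenspaces_iSupIndep f) htop
  let B := hint.collectedBasis (fun c => Module.finBasis F (Module.End.eigenspace f c))
  have hB : ∀ t, f (B t) = t.1 • B t := fun t =>
    Module.End.mem_eigenspace_iff.mp (hint.collectedBasis_mem _ t)
  have hcard : Fintype.card (Σ c : F, Fin (finrank F (Module.End.eigenspace f c))) = n := by
    rw [← hn]
    exact (Module.finrank_eq_card_basis B).symm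
  let e := Fintype.equivFinOfCardEq hcard
  refine ⟨B.reindex e, fun i => (e.symm i).1, ?_, ?_⟩
  · intro i
    have hne : B (e.symm i) ≠ 0 := B.ne_zero _
    set c := (e.symm i).1 with hc
    have hv := hB (e.symm i)
    rw [← hc] at hv
    have h5 := h (B (e.symm i))
    change f (f (f _ - γ • _) - β • (f _ - γ • _)) - α • (f (f _ - γ • _) - β • (f _ - γ • _)) = 0 at h5
    rw [hv] at h5
    simp only [map_sub, map_smul, hv] at h5
    have h6 : ((c - α) * (c - β) * (c - γ)) • B (e.symm i) = 0 := by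
      rw [← h5]
      module
    rcases smul_eq_zero.mp h6 with h7 | h7
    · rcases mul_eq_zero.mp h7 with h8 | h8
      · rcases mul_eq_zero.mp h8 with h9 | h9
        · exact Or.inl (sub_eq_zero.mp h9)
        · exact Or.inr (Or.inl (sub_eq_zero.mp h9))
      · exact Or.inr (Or.inr (sub_eq_zero.mp h8))
    · exact absurd h7 hne
  · intro i
    rw [Basis.reindex_apply]
    exact hB _

end Eigen

section Frame

variable {F : Type*} [Field F] {V : Type*} [AddCommGroup V] [Module F V]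

/-- An eigenvector of a map of cube one, in a subspace stable under what commutes with it. -/
theorem exists_eigenvector {ω₀ : F} (hω₀ : ω₀ * ω₀ + ω₀ + 1 = 0) (f C : V →ₗ[F] V) (hf : ∀ v, f (f (f v)) = v)
    (hC : ∀ v, C (f v) = f (C v)) {c : F} {v : V} (hv0 : v ≠ 0) (hv : C v = c • v) :
    ∃ (l : F) (u : V), (l = 1 ∨ l = ω₀ ∨ l = ω₀ * ω₀) ∧ u ≠ 0 ∧ f u = l • u ∧ C u = c • u := by
  have hu1 : C (f (f v) + f v + v) = c • (f (f v) + f v + v) := by
    simp only [map_add, hC, hv, map_smul, smul_add]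
  have hu2 : C (f v - (ω₀ * ω₀) • v) = c • (f v - (ω₀ * ω₀) • v) := by
    simp only [map_sub, hC, hv, map_smul, smul_sub]
    rw [smul_comm]
  by_cases h1 : f (f v) + f v + v = 0
  · by_cases h2 : f v - (ω₀ * ω₀) • v = 0
    · exact ⟨ω₀ * ω₀, v, Or.inr (Or.inr rfl), hv0, sub_eq_zero.mp h2, hv⟩
    · refine ⟨ω₀, _, Or.inr (Or.inl rfl), h2, ?_, hu2⟩
      have h3 : f (f v - (ω₀ * ω₀) • v) - ω₀ • (f v - (ω₀ * ω₀) • v) = f (f v) + f v + v := by
        simp only [map_sub, map_smul]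
        have e1 : (ω₀ * ω₀) = -ω₀ - 1 := by linear_combination hω₀
        have e2 : ω₀ * (-ω₀ - 1) = 1 := by linear_combination -hω₀
        rw [e1]
        simp only [smul_sub, smul_smul, e2]
        module
      rw [h1] at h3
      exact sub_eq_zero.mp h3
  · refine ⟨1, _, Or.inl rfl, h1, ?_, hu1⟩
    simp only [map_add, hf, one_smul]
    abel

/-- The frame of an extraspecial group of order `27` acting on a three-dimensional space. -/
theorem exists_frame [Finite F] [FiniteDimensional F V] (hV : finrank F V = 3) (h3 : (3 : F) ≠ 0) {ω₀ : F}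
    (hω₀ : ω₀ * ω₀ + ω₀ + 1 = 0) (fA fB fZ : V →ₗ[F] V) (hA : ∀ v, fA (fA (fA v)) = v) (hB : ∀ v, fB (fB (fB v)) = v)
    (hZ : ∀ v, fZ (fZ (fZ v)) = v) (hne : ∃ v, fZ v ≠ v) (hAZ : ∀ v, fA (fZ v) = fZ (fA v))
    (hBZ : ∀ v, fB (fZ v) = fZ (fB v)) (hAB : ∀ v, fA (fB v) = fZ (fB (fA v))) :
    ∃ ω : F, ω * ω + ω + 1 = 0 ∧ ∃ b : Basis (Fin 3) F V, fA (b 0) = b 0 ∧ fA (b 1) = ω • b 1 ∧
      fA (b 2) = (ω * ω) • b 2 ∧ fB (b 0) = b 1 ∧ fB (b 1) = b 2 ∧ fB (b 2) = b 0 ∧ ∀ i, fZ (b i) = ω • b i := by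
  classical
  -- an eigenvector of `Z` with nontrivial eigenvalue
  obtain ⟨ω, hω, v, hv0, hv⟩ : ∃ ω : F, ω * ω + ω + 1 = 0 ∧ ∃ v : V, v ≠ 0 ∧ fZ v = ω • v := by
    obtain ⟨u, hu⟩ := hne
    set w := fZ u - u with hw
    have hw0 : w ≠ 0 := sub_ne_zero.mpr hu
    have h1 : fZ (fZ w) + fZ w + w = 0 := by
      simp only [hw, map_sub, hZ]
      abel
    by_cases h2 : fZ w - (ω₀ * ω₀) • w = 0
    · refine ⟨ω₀ * ω₀, ?_, w, hw0, sub_eq_zero.mp h2⟩
      linear_combination (ω₀ * ω₀ - ω₀ + 1) * hω₀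
    · refine ⟨ω₀, hω₀, _, h2, ?_⟩
      have h3 : fZ (fZ w - (ω₀ * ω₀) • w) - ω₀ • (fZ w - (ω₀ * ω₀) • w) = fZ (fZ w) + fZ w + w := by
        simp only [map_sub, map_smul]
        have e1 : (ω₀ * ω₀) = -ω₀ - 1 := by linear_combination hω₀
        have e2 : ω₀ * (-ω₀ - 1) = 1 := by linear_combination -hω₀
        rw [e1]
        simp only [smul_sub, smul_smul, e2]
        module
      rw [h1] at h3
      exact sub_eq_zero.mp h3
  have hω3 : ω * ω * ω = 1 := by linear_combination (ω - 1) * hω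
  have hω0 : ω ≠ 0 := by
    rintro rfl
    simp at hω
  have hω1 : (1 : F) ≠ ω := by
    rintro rfl
    apply h3
    linear_combination hω
  have hω2 : (1 : F) ≠ ω * ω := by
    intro h
    have e : ω = -2 := by linear_combination hω + h
    rw [e] at h
    apply h3
    linear_combination -h
  have hω4 : ω ≠ ω * ω := by
    intro h
    have : ω = 1 := by
      have : ω * (ω - 1) = 0 := by linear_combination -h
      exact sub_eq_zero.mp ((mul_eq_zero.mp this).resolve_left hω0)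
    exact hω1 this.symm
  -- an eigenvector of `A` inside that eigenspace
  obtain ⟨l, u, hl, hu0, hu1, hu2⟩ := exists_eigenvector hω fA fZ hA (fun v => (hAZ v).symm) hv0 hv
  have hBinj : ∀ y, y ≠ 0 → fB y ≠ 0 := by
    intro y hy h
    apply hy
    rw [← hB y, h]
    simp
  have hstep : ∀ (c : F) (y : V), fA y = c • y → fZ y = ω • y → fA (fB y) = (c * ω) • fB y ∧ fZ (fB y) = ω • fB y := by
    intro c y h1 h2
    constructor
    · rw [hAB, h1, map_smul, map_smul, ← hBZ, h2, map_smul, smul_smul]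
    · rw [← hBZ, h2, map_smul]
  obtain ⟨v₀, hv₀0, hv₀1, hv₀2⟩ : ∃ v₀ : V, v₀ ≠ 0 ∧ fA v₀ = v₀ ∧ fZ v₀ = ω • v₀ := by
    rcases hl with rfl | rfl | rfl
    · exact ⟨u, hu0, by simpa using hu1, hu2⟩
    · obtain ⟨h1, h2⟩ := hstep _ u hu1 hu2
      obtain ⟨h4, h5⟩ := hstep _ _ h1 h2
      refine ⟨fB (fB u), hBinj _ (hBinj _ hu0), ?_, h5⟩
      rw [h4, show l * l * l = 1 by simpa using hω3, one_smul]
    · obtain ⟨h1, h2⟩ := hstep _ u hu1 hu2
      refine ⟨fB u, hBinj _ hu0, ?_, h2⟩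
      rw [h1, hω3, one_smul]
  obtain ⟨h1a, h1z⟩ := hstep 1 v₀ (by rw [one_smul, hv₀1]) hv₀2
  obtain ⟨h2a, h2z⟩ := hstep _ _ h1a h1z
  have hv₁0 := hBinj _ hv₀0
  have hv₂0 := hBinj _ hv₁0
  let vv : Fin 3 → V := ![v₀, fB v₀, fB (fB v₀)]
  let μ : Fin 3 → F := ![1, ω, ω * ω]
  have hμ : Function.Injective μ := by
    intro i j hij
    fin_cases i <;> fin_cases j <;> first
      | rfl
      | (exfalso; simp [μ] at hij; first | exact hω1 hij | exact hω1 hij.symm | exact hω2 hij | exact hω2 hij.symm | exact hω4 hij | exact hω4 hij.symm | (rcases hij with h | h; exact hω0 h; first | exact hω1 h | exact hω1 h.symm))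
  have hli : LinearIndependent F vv := by
    apply Module.End.eigenvectors_linearIndependent' fA μ hμ
    intro i
    refine ⟨Module.End.mem_eigenspace_iff.mpr ?_, ?_⟩
    · fin_cases i
      · simpa [vv, μ] using hv₀1
      · simpa [vv, μ] using h1a
      · simpa [vv, μ] using h2a
    · fin_cases i
      · simpa [vv] using hv₀0
      · simpa [vv] using hv₁0
      · simpa [vv] using hv₂0
  let b : Basis (Fin 3) F V := basisOfLinearIndependentOfCardEqFinrank hli (by simp [hV])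
  have hb : ∀ i, b i = vv i := fun i => by simp [b]
  have hb0 : b 0 = v₀ := by rw [hb]; rfl
  have hb1 : b 1 = fB v₀ := by rw [hb]; rfl
  have hb2 : b 2 = fB (fB v₀) := by rw [hb]; rfl
  refine ⟨ω, hω, b, ?_, ?_, ?_, ?_, ?_, ?_, ?_⟩
  · rw [hb0, hv₀1]
  · rw [hb1, h1a, one_mul]
  · rw [hb2, h2a, one_mul]
  · rw [hb0, hb1]
  · rw [hb1, hb2]
  · rw [hb0, hb2, hB]
  · intro i
    fin_cases i
    · simpa [hb0] using hv₀2
    · simpa [hb1] using h1z
    · simpa [hb2] using h2z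

end Frame

section Matrices

variable {F : Type*} [Field F]

/-- The diagonal generator. -/
def a₀ (ω : F) : Matrix (Fin 3) (Fin 3) F := Matrix.diagonal ![1, ω, ω * ω]

/-- The cyclic generator. -/
def b₀ (F : Type*) [Field F] : Matrix (Fin 3) (Fin 3) F := !![0, 0, 1; 1, 0, 0; 0, 1, 0]

/-- The transposition. -/
def t₀ (F : Type*) [Field F] : Matrix (Fin 3) (Fin 3) F := !![1, 0, 0; 0, 0, 1; 0, 1, 0]

/-- The eigenbasis of the transposition. -/
def s₀ (F : Type*) [Field F] : Matrix (Fin 3) (Fin 3) F := !![1, 0, 0; 0, 1, 1; 0, 1, -1]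

theorem t₀_mul_self : t₀ F * t₀ F = 1 := by
  ext i j
  fin_cases i <;> fin_cases j <;> simp [t₀, Matrix.mul_apply, Fin.sum_univ_three]

theorem t₀_mul_a₀ {ω : F} (hω : ω * ω + ω + 1 = 0) : t₀ F * a₀ ω = (a₀ ω * a₀ ω) * t₀ F := by
  have e : ω * ω * (ω * ω) = ω := by linear_combination (ω * ω - ω) * hω
  ext i j
  fin_cases i <;> fin_cases j <;> simp [t₀, a₀, Matrix.mul_apply, Fin.sum_univ_three, Matrix.diagonal_apply, e]

theorem t₀_mul_b₀ : t₀ F * b₀ F = (b₀ F * b₀ F) * t₀ F := by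
  ext i j
  fin_cases i <;> fin_cases j <;> simp [t₀, b₀, Matrix.mul_apply, Fin.sum_univ_three]

theorem t₀_mul_s₀ : t₀ F * s₀ F = s₀ F * Matrix.diagonal ![1, 1, -1] := by
  ext i j
  fin_cases i <;> fin_cases j <;> simp [t₀, s₀, Matrix.mul_apply, Fin.sum_univ_three, Matrix.diagonal_apply]

theorem det_s₀ : (s₀ F).det = -2 := by
  rw [s₀, Matrix.det_fin_three]
  simp
  norm_num

theorem det_b₀ : (b₀ F).det = 1 := by
  rw [b₀, Matrix.det_fin_three]
  simp

theorem det_a₀ {ω : F} (hω : ω * ω + ω + 1 = 0) : (a₀ ω).det = 1 := by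
  rw [a₀, Matrix.det_diagonal, Fin.prod_univ_three]
  simp
  linear_combination (ω - 1) * hω

theorem diag_mul_b₀ {ε₀ ε₁ ε₂ : F} (h0 : ε₀ * ε₀ * ε₀ = 1) (h1 : ε₁ * ε₁ * ε₁ = 1) (h2 : ε₂ * ε₂ * ε₂ = 1) :
    Matrix.diagonal ![ε₀, ε₁, ε₂] * b₀ F =
      (ε₁ * ε₀ * ε₀) • (b₀ F * Matrix.diagonal ![1, ε₀ * ε₁ * ε₂, (ε₀ * ε₁ * ε₂) * (ε₀ * ε₁ * ε₂)]) *
        Matrix.diagonal ![ε₀, ε₁, ε₂] := by
  have e1 : ε₁ = ε₁ * ε₀ * ε₀ * ε₀ := by linear_combination (-ε₁) * h0
  have e2 : ε₂ = ε₁ * ε₀ * ε₀ * (ε₀ * ε₁ * ε₂) * ε₁ := by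
    linear_combination (-ε₁ ^ 3 * ε₂) * h0 + (-ε₂) * h1
  have e3 : ε₀ = ε₁ * ε₀ * ε₀ * ((ε₀ * ε₁ * ε₂) * (ε₀ * ε₁ * ε₂)) * ε₂ := by
    linear_combination (-(ε₀ * ε₁ ^ 3 * ε₂ ^ 3)) * h0 + (-(ε₀ * ε₂ ^ 3)) * h1 + (-ε₀) * h2
  ext i j
  rw [Matrix.diagonal_mul, Matrix.mul_diagonal, Matrix.smul_apply, Matrix.mul_diagonal, smul_eq_mul]
  fin_cases i <;> fin_cases j <;> simp [b₀]
  · linear_combination e3
  · linear_combination e1
  · linear_combination e2

/-- From vectors to matrices. -/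
theorem mat_of_vec {n : ℕ} (b : Basis (Fin n) F (Fin n → F)) (M N : Matrix (Fin n) (Fin n) F)
    (h : ∀ j, M.mulVec (b j) = ∑ i, N i j • b i) :
    M * ((Pi.basisFun F (Fin n)).toMatrix b) = ((Pi.basisFun F (Fin n)).toMatrix b) * N := by
  ext i j
  have h1 : ∀ i j, ((Pi.basisFun F (Fin n)).toMatrix b) i j = b j i := by
    intro i j
    rw [Basis.toMatrix_apply]
    simp
  rw [Matrix.mul_apply, Matrix.mul_apply]
  simp_rw [h1]
  have h2 := congrFun (h j) i
  rw [Matrix.mulVec, dotProduct] at h2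
  rw [h2, Finset.sum_apply]
  exact Finset.sum_congr rfl fun l _ => by simp [mul_comm]

/-- The matrix of a basis as an invertible matrix. -/
noncomputable def basisGL {n : ℕ} (b : Basis (Fin n) F (Fin n → F)) : GL (Fin n) F :=
  ⟨(Pi.basisFun F (Fin n)).toMatrix b, b.toMatrix (Pi.basisFun F (Fin n)),
    Basis.toMatrix_mul_toMatrix_flip _ _, Basis.toMatrix_mul_toMatrix_flip _ _⟩

theorem basisGL_coe {n : ℕ} (b : Basis (Fin n) F (Fin n → F)) :
    (basisGL b : Matrix (Fin n) (Fin n) F) = (Pi.basisFun F (Fin n)).toMatrix b := rfl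

theorem sum_diagonal {n : ℕ} (b : Basis (Fin n) F (Fin n → F)) (d : Fin n → F) (j : Fin n) :
    ∑ i, Matrix.diagonal d i j • b i = d j • b j := by
  rw [Finset.sum_eq_single j]
  · simp
  · intro i _ hij
    simp [Matrix.diagonal_apply_ne _ hij]
  · simp

/-- Moving a diagonalizable matrix onto a model with the same eigenvalues by a matrix of determinant one. -/
theorem exists_conj_of_diag {X T : Matrix (Fin 3) (Fin 3) F} (b : Basis (Fin 3) F (Fin 3 → F)) (d : Fin 3 → F)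
    (hb : ∀ i, X.mulVec (b i) = d i • b i) (P' : GL (Fin 3) F)
    (hT : T * (P' : Matrix (Fin 3) (Fin 3) F) = (P' : Matrix (Fin 3) (Fin 3) F) * Matrix.diagonal d) :
    ∃ G : GL (Fin 3) F, (G : Matrix (Fin 3) (Fin 3) F).det = 1 ∧
      (G : Matrix (Fin 3) (Fin 3) F) * T = X * (G : Matrix (Fin 3) (Fin 3) F) := by
  classical
  let U := basisGL b
  have hU : X * (U : Matrix (Fin 3) (Fin 3) F) = (U : Matrix (Fin 3) (Fin 3) F) * Matrix.diagonal d := by
    apply mat_of_vec b X (Matrix.diagonal d)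
    intro j
    rw [hb, sum_diagonal]
  have hUdet : (U : Matrix (Fin 3) (Fin 3) F).det ≠ 0 := (Matrix.GeneralLinearGroup.det U).ne_zero
  have hPdet : ((P'⁻¹ : GL (Fin 3) F) : Matrix (Fin 3) (Fin 3) F).det ≠ 0 := (Matrix.GeneralLinearGroup.det P'⁻¹).ne_zero
  set c : F := ((U : Matrix (Fin 3) (Fin 3) F).det * ((P'⁻¹ : GL (Fin 3) F) : Matrix (Fin 3) (Fin 3) F).det)⁻¹ with hc
  have hc0 : c ≠ 0 := inv_ne_zero (mul_ne_zero hUdet hPdet)
  have hEdet : (Matrix.diagonal ![c, 1, 1]).det = c := by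
    rw [Matrix.det_diagonal, Fin.prod_univ_three]
    simp
  let E : GL (Fin 3) F := Matrix.GeneralLinearGroup.mkOfDetNeZero (Matrix.diagonal ![c, 1, 1]) (by rw [hEdet]; exact hc0)
  have hE : (E : Matrix (Fin 3) (Fin 3) F) = Matrix.diagonal ![c, 1, 1] := rfl
  let G : GL (Fin 3) F := U * E * P'⁻¹
  have hG : (G : Matrix (Fin 3) (Fin 3) F) = (U : Matrix (Fin 3) (Fin 3) F) * E * ((P'⁻¹ : GL (Fin 3) F) : Matrix (Fin 3) (Fin 3) F) := rfl
  have hPP : ((P'⁻¹ : GL (Fin 3) F) : Matrix (Fin 3) (Fin 3) F) * (P' : Matrix (Fin 3) (Fin 3) F) = 1 := by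
    rw [← Units.val_mul, inv_mul_cancel, Units.val_one]
  have hPP' : (P' : Matrix (Fin 3) (Fin 3) F) * ((P'⁻¹ : GL (Fin 3) F) : Matrix (Fin 3) (Fin 3) F) = 1 := by
    rw [← Units.val_mul, mul_inv_cancel, Units.val_one]
  have hPT : ((P'⁻¹ : GL (Fin 3) F) : Matrix (Fin 3) (Fin 3) F) * T = Matrix.diagonal d * ((P'⁻¹ : GL (Fin 3) F) : Matrix (Fin 3) (Fin 3) F) := by
    calc ((P'⁻¹ : GL (Fin 3) F) : Matrix (Fin 3) (Fin 3) F) * T
        = ((P'⁻¹ : GL (Fin 3) F) : Matrix (Fin 3) (Fin 3) F) * (T * ((P' : Matrix (Fin 3) (Fin 3) F) * ((P'⁻¹ : GL (Fin 3) F) : Matrix (Fin 3) (Fin 3) F))) := by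
          rw [hPP', Matrix.mul_one]
      _ = ((P'⁻¹ : GL (Fin 3) F) : Matrix (Fin 3) (Fin 3) F) * (T * (P' : Matrix (Fin 3) (Fin 3) F)) * ((P'⁻¹ : GL (Fin 3) F) : Matrix (Fin 3) (Fin 3) F) := by
          simp only [Matrix.mul_assoc]
      _ = _ := by
          rw [hT, ← Matrix.mul_assoc, hPP, Matrix.one_mul]
  have hcomm : (E : Matrix (Fin 3) (Fin 3) F) * Matrix.diagonal d = Matrix.diagonal d * (E : Matrix (Fin 3) (Fin 3) F) := by
    rw [hE, Matrix.diagonal_mul_diagonal, Matrix.diagonal_mul_diagonal]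
    congr 1
    ext i
    exact mul_comm _ _
  refine ⟨G, ?_, ?_⟩
  · rw [hG, Matrix.det_mul, Matrix.det_mul, hE, hEdet, hc]
    field_simp
  · rw [hG, Matrix.mul_assoc, Matrix.mul_assoc, hPT, ← Matrix.mul_assoc (E : Matrix (Fin 3) (Fin 3) F), hcomm]
    simp only [Matrix.mul_assoc]
    rw [← Matrix.mul_assoc X, hU]
    simp only [Matrix.mul_assoc]

end Matrices

section Group

theorem comm_of_card_le {G : Type*} [Group G] (h : Nat.card G = 1 ∨ Nat.card G = 3 ∨ Nat.card G = 9) :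
    ∀ a b : G, a * b = b * a := by
  haveI : Fact (Nat.Prime 3) := ⟨Nat.prime_three⟩
  rcases h with h | h | h
  · intro a b
    have : Subsingleton G := (Nat.card_eq_one_iff_unique.mp h).1
    exact Subsingleton.elim _ _
  · haveI : IsCyclic G := isCyclic_of_prime_card h
    exact (IsCyclic.isMulCommutative (α := G)).is_comm.comm
  · have h' : Nat.card G = 3 ^ 2 := by rw [h]; norm_num
    exact (IsPGroup.isMulCommutative_of_card_eq_prime_sq h').is_comm.comm

theorem gens_of_card {G : Type*} [Group G] (hG : Nat.card G = 27) {a b : G} (hab : a * b ≠ b * a) (K : Subgroup G)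
    (ha : a ∈ K) (hb : b ∈ K) : K = ⊤ := by
  have hd : Nat.card K ∣ 3 ^ 3 := by
    have := K.card_subgroup_dvd_card
    rw [hG] at this
    simpa using this
  obtain ⟨k, hk, hk'⟩ := (Nat.dvd_prime_pow Nat.prime_three).mp hd
  have hk3 : k = 3 := by
    by_contra hne
    have hk2 : k = 0 ∨ k = 1 ∨ k = 2 := by omega
    have : ∀ x y : K, x * y = y * x := by
      apply comm_of_card_le
      rcases hk2 with rfl | rfl | rfl <;> simp [hk']
    have := this ⟨a, ha⟩ ⟨b, hb⟩
    exact hab (congrArg Subtype.val this)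
  subst hk3
  haveI : Finite G := Nat.finite_of_card_ne_zero (by rw [hG]; norm_num)
  exact Subgroup.eq_top_of_card_eq _ (by rw [hk', hG]; norm_num)

theorem comm_central {G : Type*} [Group G] (hG : Nat.card G = 27) {a b : G} (hab : a * b ≠ b * a) :
    a * b * a⁻¹ * b⁻¹ ∈ Subgroup.center G := by
  haveI : Fact (Nat.Prime 3) := ⟨Nat.prime_three⟩
  haveI : Finite G := Nat.finite_of_card_ne_zero (by rw [hG]; norm_num)
  haveI : Nontrivial G := by
    apply Finite.one_lt_card_iff_nontrivial.mp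
    rw [hG]
    norm_num
  have hP : IsPGroup 3 G := IsPGroup.of_card (n := 3) (by rw [hG]; norm_num)
  have hZ := hP.center_nontrivial
  set Z := Subgroup.center G with hZdef
  have hd : Nat.card Z ∣ 3 ^ 3 := by
    have := Z.card_subgroup_dvd_card
    rw [hG] at this
    simpa using this
  obtain ⟨k, hk, hk'⟩ := (Nat.dvd_prime_pow Nat.prime_three).mp hd
  have hk0 : k ≠ 0 := by
    rintro rfl
    have : Nat.card Z = 1 := by simpa using hk'
    have h1 := Finite.one_lt_card_iff_nontrivial.mpr hZ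
    omega
  have hk3 : k ≠ 3 := by
    rintro rfl
    have hZtop : Z = ⊤ := Subgroup.eq_top_of_card_eq _ (by rw [hk', hG]; norm_num)
    have : a ∈ Z := by rw [hZtop]; trivial
    exact hab ((Subgroup.mem_center_iff.mp this b).symm)
  have hQ : Nat.card (G ⧸ Z) * Nat.card Z = 27 := by
    rw [← hG]
    exact (Subgroup.card_eq_card_quotient_mul_card_subgroup Z).symm
  have hQc : Nat.card (G ⧸ Z) = 1 ∨ Nat.card (G ⧸ Z) = 3 ∨ Nat.card (G ⧸ Z) = 9 := by
    rw [hk'] at hQ
    have hk12 : k = 1 ∨ k = 2 := by omega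
    rcases hk12 with rfl | rfl
    · right; right; omega
    · right; left; omega
  have hcomm := comm_of_card_le hQc (a : G ⧸ Z) (b : G ⧸ Z)
  have : ((a * b * a⁻¹ * b⁻¹ : G) : G ⧸ Z) = 1 := by
    simp only [QuotientGroup.mk_mul, QuotientGroup.mk_inv]
    rw [hcomm]
    group
  exact (QuotientGroup.eq_one_iff _).mp this

end Group

section Data

variable {F : Type*} [Field F]

/-- The frame data of the extraspecial group. -/
structure Frame (R : Subgroup (GL (Fin 3) F)) (a b z : GL (Fin 3) F) (ω : F) (P : GL (Fin 3) F) : Prop where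
  fin : Finite R
  ha : a ∈ R
  hb : b ∈ R
  hz : z ∈ R
  gens : ∀ K : Subgroup (GL (Fin 3) F), a ∈ K → b ∈ K → R ≤ K
  hω : ω * ω + ω + 1 = 0
  hz1 : (z : Matrix (Fin 3) (Fin 3) F) = ω • 1
  hA : (a : Matrix (Fin 3) (Fin 3) F) * P = P * a₀ ω
  hB : (b : Matrix (Fin 3) (Fin 3) F) * P = P * b₀ F

theorem exists_omega [Fintype F] {p : ℕ} [Fact p.Prime] [CharP F p] (hF : Fintype.card F = p) (hp3 : p % 3 = 1) :
    ∃ ω₀ : F, ω₀ * ω₀ + ω₀ + 1 = 0 := by
  haveI : Fact (Nat.Prime 3) := ⟨Nat.prime_three⟩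
  have hd : 3 ∣ Nat.card Fˣ := by
    rw [Nat.card_units, Nat.card_eq_fintype_card, hF]
    omega
  obtain ⟨u, hu⟩ := exists_prime_orderOf_dvd_card' 3 hd
  refine ⟨u, ?_⟩
  have h1 : u ^ 3 = 1 := by rw [← hu]; exact pow_orderOf_eq_one u
  have h2 : ((u : F)) ^ 3 = 1 := by
    have := congrArg Units.val h1
    simpa using this
  have h3 : (u : F) ≠ 1 := by
    intro h
    have : u = 1 := Units.ext h
    rw [this, orderOf_one] at hu
    omega
  have h4 : ((u : F) - 1) * ((u : F) * (u : F) + (u : F) + 1) = 0 := by linear_combination h2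
  exact (mul_eq_zero.mp h4).resolve_left (sub_ne_zero.mpr h3)

theorem three_ne_zero' {p : ℕ} [Fact p.Prime] [CharP F p] (hp3 : p % 3 = 1) : (3 : F) ≠ 0 := by
  intro h
  have h1 : ((3 : ℕ) : F) = 0 := by exact_mod_cast h
  have h2 := (CharP.cast_eq_zero_iff F p 3).mp h1
  have h3 := (Nat.prime_dvd_prime_iff_eq (Fact.out : p.Prime) Nat.prime_three).mp h2
  subst h3
  omega

theorem two_ne_zero' {p : ℕ} [Fact p.Prime] [CharP F p] (hp3 : p % 3 = 1) : (2 : F) ≠ 0 := by
  intro h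
  have h1 : ((2 : ℕ) : F) = 0 := by exact_mod_cast h
  have h2 := (CharP.cast_eq_zero_iff F p 2).mp h1
  have h3 := (Nat.prime_dvd_prime_iff_eq (Fact.out : p.Prime) Nat.prime_two).mp h2
  subst h3
  omega

theorem exists_data [Fintype F] {p : ℕ} [Fact p.Prime] [CharP F p] (hF : Fintype.card F = p) (hp3 : p % 3 = 1)
    (R : Subgroup (GL (Fin 3) F)) (hR : Nat.card R = 27) (hRe : Monoid.exponent R = 3) (hRna : ¬ IsMulCommutative R) :
    ∃ (a b z : GL (Fin 3) F) (ω : F) (P : GL (Fin 3) F), Frame R a b z ω P := by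
  classical
  haveI hfin : Finite R := Nat.finite_of_card_ne_zero (by rw [hR]; norm_num)
  obtain ⟨a', b', hab⟩ : ∃ a' b' : R, a' * b' ≠ b' * a' := by
    by_contra h
    push Not at h
    exact hRna ⟨⟨h⟩⟩
  have hcen := comm_central hR hab
  have hcub : ∀ g : R, g * g * g = 1 := by
    intro g
    have := Monoid.pow_exponent_eq_one g
    rw [hRe, pow_succ, pow_two] at this
    exact this
  set z' : R := a' * b' * a'⁻¹ * b'⁻¹ with hz'
  have hz'ne : z' ≠ 1 := by
    intro h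
    apply hab
    have h1 : a' * b' * a'⁻¹ * b'⁻¹ * (b' * a') = 1 * (b' * a') := by rw [← hz', h]
    simpa [mul_assoc] using h1
  have hABz : a' * b' = z' * b' * a' := by
    rw [hz']
    group
  let A : Matrix (Fin 3) (Fin 3) F := ((a' : GL (Fin 3) F) : Matrix (Fin 3) (Fin 3) F)
  let B : Matrix (Fin 3) (Fin 3) F := ((b' : GL (Fin 3) F) : Matrix (Fin 3) (Fin 3) F)
  let Z : Matrix (Fin 3) (Fin 3) F := ((z' : GL (Fin 3) F) : Matrix (Fin 3) (Fin 3) F)
  have hval : ∀ g h k : R, g * h = k → ((g : GL (Fin 3) F) : Matrix (Fin 3) (Fin 3) F) * ((h : GL (Fin 3) F) : Matrix (Fin 3) (Fin 3) F) = ((k : GL (Fin 3) F) : Matrix (Fin 3) (Fin 3) F) := by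
    rintro g h k rfl
    rfl
  have hcube : ∀ g : R, ((g : GL (Fin 3) F) : Matrix (Fin 3) (Fin 3) F) * ((g : GL (Fin 3) F) : Matrix (Fin 3) (Fin 3) F) * ((g : GL (Fin 3) F) : Matrix (Fin 3) (Fin 3) F) = 1 := by
    intro g
    have := hcub g
    rw [hval g g (g * g) rfl, hval (g * g) g (g * g * g) rfl, this]
    rfl
  have hZcomm : ∀ g : R, ((g : GL (Fin 3) F) : Matrix (Fin 3) (Fin 3) F) * Z = Z * ((g : GL (Fin 3) F) : Matrix (Fin 3) (Fin 3) F) := by
    intro g
    have := Subgroup.mem_center_iff.mp hcen g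
    rw [hval g z' (g * z') rfl, hval z' g (z' * g) rfl, this]
  have hAB : A * B = Z * B * A := by
    have h1 := congrArg (fun g : R => ((g : GL (Fin 3) F) : Matrix (Fin 3) (Fin 3) F)) hABz
    simpa [A, B, Z] using h1
  have hZ1 : Z ≠ 1 := by
    intro h
    apply hz'ne
    apply Subtype.ext
    apply Units.ext
    exact h
  obtain ⟨ω₀, hω₀⟩ := exists_omega hF hp3
  let fA := Matrix.toLin' A
  let fB := Matrix.toLin' B
  let fZ := Matrix.toLin' Z
  obtain ⟨ω, hω, bb, h1, h2, h3, h4, h5, h6, h7⟩ := exists_frame (V := Fin 3 → F) (by simp) (three_ne_zero' hp3) hω₀ fA fB fZ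
    (fun v => by
      change A.mulVec (A.mulVec (A.mulVec v)) = v
      rw [Matrix.mulVec_mulVec, Matrix.mulVec_mulVec, hcube a', Matrix.one_mulVec])
    (fun v => by
      change B.mulVec (B.mulVec (B.mulVec v)) = v
      rw [Matrix.mulVec_mulVec, Matrix.mulVec_mulVec, hcube b', Matrix.one_mulVec])
    (fun v => by
      change Z.mulVec (Z.mulVec (Z.mulVec v)) = v
      rw [Matrix.mulVec_mulVec, Matrix.mulVec_mulVec, hcube z', Matrix.one_mulVec])
    (by
      by_contra h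
      push Not at h
      apply hZ1
      apply Matrix.toLin'.injective
      apply LinearMap.ext
      intro v
      have := h v
      simpa [fZ] using this)
    (fun v => by
      change A.mulVec (Z.mulVec v) = Z.mulVec (A.mulVec v)
      rw [Matrix.mulVec_mulVec, Matrix.mulVec_mulVec, hZcomm a'])
    (fun v => by
      change B.mulVec (Z.mulVec v) = Z.mulVec (B.mulVec v)
      rw [Matrix.mulVec_mulVec, Matrix.mulVec_mulVec, hZcomm b'])
    (fun v => by
      change A.mulVec (B.mulVec v) = Z.mulVec (B.mulVec (A.mulVec v))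
      rw [Matrix.mulVec_mulVec, Matrix.mulVec_mulVec, Matrix.mulVec_mulVec, hAB])
  let P := basisGL bb
  refine ⟨a', b', z', ω, P, ⟨hfin, a'.2, b'.2, z'.2, ?_, hω, ?_, ?_, ?_⟩⟩
  · intro K ha hb
    have h8 := gens_of_card hR hab (K.comap R.subtype) ha hb
    intro g hg
    have : (⟨g, hg⟩ : R) ∈ K.comap R.subtype := by rw [h8]; trivial
    exact this
  · -- the centre acts by the scalar
    have h8 : Z * (P : Matrix (Fin 3) (Fin 3) F) = (P : Matrix (Fin 3) (Fin 3) F) * (ω • 1) := by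
      apply mat_of_vec bb Z (ω • 1)
      intro j
      have h9 := h7 j
      rw [Finset.sum_eq_single j]
      · simpa [fZ] using h9
      · intro i _ hij
        simp [Matrix.one_apply_ne hij]
      · simp
    have hPP' : (P : Matrix (Fin 3) (Fin 3) F) * ((P⁻¹ : GL (Fin 3) F) : Matrix (Fin 3) (Fin 3) F) = 1 := by
      rw [← Units.val_mul, mul_inv_cancel, Units.val_one]
    have h9 : Z = ω • 1 := by
      have h10 := congrArg (fun M => M * ((P⁻¹ : GL (Fin 3) F) : Matrix (Fin 3) (Fin 3) F)) h8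
      simp only [Matrix.mul_assoc, hPP', Matrix.mul_one, Matrix.mul_smul, Matrix.smul_mul] at h10
      exact h10
    exact h9
  · apply mat_of_vec bb A (a₀ ω)
    intro j
    rw [a₀, sum_diagonal]
    fin_cases j
    · simpa [fA] using h1
    · simpa [fA] using h2
    · simpa [fA] using h3
  · apply mat_of_vec bb B (b₀ F)
    intro j
    rw [Fin.sum_univ_three]
    fin_cases j
    · simpa [fB, b₀] using h4
    · simpa [fB, b₀] using h5
    · simpa [fB, b₀] using h6

theorem mem_normalizer_of_conj {R : Subgroup (GL (Fin 3) F)} (hfin : Finite R) {g : GL (Fin 3) F}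
    (hg : ∀ h ∈ R, g * h * g⁻¹ ∈ R) : g ∈ Cfsg.Geo.subgroupNormalizer R := by
  change g ∈ Subgroup.normalizer (R : Set (GL (Fin 3) F))
  rw [Subgroup.mem_normalizer_iff]
  intro h
  refine ⟨hg h, fun hh => ?_⟩
  let φ : R → R := fun x => ⟨g * x * g⁻¹, hg x x.2⟩
  have hφ : Function.Injective φ := by
    intro x y hxy
    have h1 : g * (x : GL (Fin 3) F) * g⁻¹ = g * (y : GL (Fin 3) F) * g⁻¹ := congrArg Subtype.val hxy
    exact Subtype.ext (by simpa using h1)
  obtain ⟨x, hx⟩ := Finite.surjective_of_injective hφ ⟨g * h * g⁻¹, hh⟩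
  have h1 : g * (x : GL (Fin 3) F) * g⁻¹ = g * h * g⁻¹ := congrArg Subtype.val hx
  have h2 : (x : GL (Fin 3) F) = h := by simpa using h1
  rw [← h2]
  exact x.2

theorem conj_eq {P g₀ a w : GL (Fin 3) F} {A₀ W : Matrix (Fin 3) (Fin 3) F}
    (h1 : (a : Matrix (Fin 3) (Fin 3) F) * P = P * A₀) (h2 : (w : Matrix (Fin 3) (Fin 3) F) * P = P * W)
    (h3 : (g₀ : Matrix (Fin 3) (Fin 3) F) * A₀ = W * g₀) : (P * g₀ * P⁻¹) * a * (P * g₀ * P⁻¹)⁻¹ = w := by
  rw [mul_inv_eq_iff_eq_mul]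
  apply Units.ext
  have hPP : ((P⁻¹ : GL (Fin 3) F) : Matrix (Fin 3) (Fin 3) F) * (P : Matrix (Fin 3) (Fin 3) F) = 1 := by
    rw [← Units.val_mul, inv_mul_cancel, Units.val_one]
  have hPP' : (P : Matrix (Fin 3) (Fin 3) F) * ((P⁻¹ : GL (Fin 3) F) : Matrix (Fin 3) (Fin 3) F) = 1 := by
    rw [← Units.val_mul, mul_inv_cancel, Units.val_one]
  have h4 : ((P⁻¹ : GL (Fin 3) F) : Matrix (Fin 3) (Fin 3) F) * a = A₀ * ((P⁻¹ : GL (Fin 3) F) : Matrix (Fin 3) (Fin 3) F) := by
    calc ((P⁻¹ : GL (Fin 3) F) : Matrix (Fin 3) (Fin 3) F) * a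
        = ((P⁻¹ : GL (Fin 3) F) : Matrix (Fin 3) (Fin 3) F) * (a * ((P : Matrix (Fin 3) (Fin 3) F) * ((P⁻¹ : GL (Fin 3) F) : Matrix (Fin 3) (Fin 3) F))) := by
          rw [hPP', Matrix.mul_one]
      _ = ((P⁻¹ : GL (Fin 3) F) : Matrix (Fin 3) (Fin 3) F) * ((a : Matrix (Fin 3) (Fin 3) F) * P) * ((P⁻¹ : GL (Fin 3) F) : Matrix (Fin 3) (Fin 3) F) := by
          simp only [Matrix.mul_assoc]
      _ = _ := by rw [h1, ← Matrix.mul_assoc, hPP, Matrix.one_mul]
  simp only [Units.val_mul]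
  calc (P : Matrix (Fin 3) (Fin 3) F) * g₀ * ((P⁻¹ : GL (Fin 3) F) : Matrix (Fin 3) (Fin 3) F) * a
      = P * g₀ * (((P⁻¹ : GL (Fin 3) F) : Matrix (Fin 3) (Fin 3) F) * a) := by simp only [Matrix.mul_assoc]
    _ = P * ((g₀ : Matrix (Fin 3) (Fin 3) F) * A₀) * ((P⁻¹ : GL (Fin 3) F) : Matrix (Fin 3) (Fin 3) F) := by
        rw [h4]; simp only [Matrix.mul_assoc]
    _ = ((P : Matrix (Fin 3) (Fin 3) F) * W) * g₀ * ((P⁻¹ : GL (Fin 3) F) : Matrix (Fin 3) (Fin 3) F) := by
        rw [h3]; simp only [Matrix.mul_assoc]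
    _ = _ := by rw [← h2]; simp only [Matrix.mul_assoc]

namespace Frame

variable {R : Subgroup (GL (Fin 3) F)} {a b z : GL (Fin 3) F} {ω : F} {P : GL (Fin 3) F}

theorem norm (hF : Frame R a b z ω P) (g₀ w₁ w₂ : GL (Fin 3) F) (W₁ W₂ : Matrix (Fin 3) (Fin 3) F) (hw₁ : w₁ ∈ R)
    (hw₂ : w₂ ∈ R) (h1 : (w₁ : Matrix (Fin 3) (Fin 3) F) * P = P * W₁) (h2 : (w₂ : Matrix (Fin 3) (Fin 3) F) * P = P * W₂)
    (h3 : (g₀ : Matrix (Fin 3) (Fin 3) F) * a₀ ω = W₁ * g₀) (h4 : (g₀ : Matrix (Fin 3) (Fin 3) F) * b₀ F = W₂ * g₀) :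
    P * g₀ * P⁻¹ ∈ Cfsg.Geo.subgroupNormalizer R := by
  apply mem_normalizer_of_conj hF.fin
  have hK := hF.gens (R.comap (MulAut.conj (P * g₀ * P⁻¹)).toMonoidHom)
    (by
      change (P * g₀ * P⁻¹) * a * (P * g₀ * P⁻¹)⁻¹ ∈ R
      rw [conj_eq hF.hA h1 h3]
      exact hw₁)
    (by
      change (P * g₀ * P⁻¹) * b * (P * g₀ * P⁻¹)⁻¹ ∈ R
      rw [conj_eq hF.hB h2 h4]
      exact hw₂)
  intro h hh
  exact hK hh

theorem root_cases (hF : Frame R a b z ω P) {x : F} (hx : x * x * x = 1) : x = 1 ∨ x = ω ∨ x = ω * ω := by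
  have hω := hF.hω
  have h : (x - 1) * (x - ω) * (x - ω * ω) = 0 := by
    linear_combination hx + (-x ^ 2 + ω * x - ω + 1) * hω
  rcases mul_eq_zero.mp h with h1 | h1
  · rcases mul_eq_zero.mp h1 with h2 | h2
    · exact Or.inl (sub_eq_zero.mp h2)
    · exact Or.inr (Or.inl (sub_eq_zero.mp h2))
  · exact Or.inr (Or.inr (sub_eq_zero.mp h1))

theorem exists_scalar (hF : Frame R a b z ω P) {c : F} (hc : c * c * c = 1) :
    ∃ s ∈ R, (s : Matrix (Fin 3) (Fin 3) F) = c • 1 := by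
  rcases hF.root_cases hc with rfl | rfl | rfl
  · exact ⟨1, R.one_mem, by simp⟩
  · exact ⟨z, hF.hz, hF.hz1⟩
  · refine ⟨z * z, R.mul_mem hF.hz hF.hz, ?_⟩
    rw [Units.val_mul, hF.hz1]
    simp [smul_smul]

theorem exists_diag (hF : Frame R a b z ω P) {t : F} (ht : t * t * t = 1) :
    ∃ s ∈ R, (s : Matrix (Fin 3) (Fin 3) F) * P = P * Matrix.diagonal ![1, t, t * t] := by
  rcases hF.root_cases ht with rfl | rfl | rfl
  · refine ⟨1, R.one_mem, ?_⟩
    have : Matrix.diagonal ![1, (1 : F), 1 * 1] = 1 := by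
      rw [← Matrix.diagonal_one]
      congr 1
      ext i
      fin_cases i <;> simp
    rw [this]
    simp
  · exact ⟨a, hF.ha, hF.hA⟩
  · refine ⟨a * a, R.mul_mem hF.ha hF.ha, ?_⟩
    rw [Units.val_mul, Matrix.mul_assoc, hF.hA, ← Matrix.mul_assoc, hF.hA, Matrix.mul_assoc, a₀,
      Matrix.diagonal_mul_diagonal]
    congr 2
    ext i
    fin_cases i <;> simp

/-- All diagonal matrices with entries cube roots of unity normalize the group in the frame. -/
theorem diag_norm (hF : Frame R a b z ω P) {ε₀ ε₁ ε₂ : F} (h0 : ε₀ * ε₀ * ε₀ = 1) (h1 : ε₁ * ε₁ * ε₁ = 1)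
    (h2 : ε₂ * ε₂ * ε₂ = 1) (D : GL (Fin 3) F) (hD : (D : Matrix (Fin 3) (Fin 3) F) = Matrix.diagonal ![ε₀, ε₁, ε₂]) :
    P * D * P⁻¹ ∈ Cfsg.Geo.subgroupNormalizer R := by
  have hρ : (ε₁ * ε₀ * ε₀) * (ε₁ * ε₀ * ε₀) * (ε₁ * ε₀ * ε₀) = 1 := by
    calc _ = (ε₁ * ε₁ * ε₁) * ((ε₀ * ε₀ * ε₀) * (ε₀ * ε₀ * ε₀)) := by ring
      _ = 1 := by rw [h0, h1]; ring
  have hτ : (ε₀ * ε₁ * ε₂) * (ε₀ * ε₁ * ε₂) * (ε₀ * ε₁ * ε₂) = 1 := by
    calc _ = (ε₀ * ε₀ * ε₀) * (ε₁ * ε₁ * ε₁) * (ε₂ * ε₂ * ε₂) := by ring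
      _ = 1 := by rw [h0, h1, h2]; ring
  obtain ⟨s, hs, hs'⟩ := hF.exists_scalar hρ
  obtain ⟨t, ht, ht'⟩ := hF.exists_diag hτ
  refine hF.norm D a (s * b * t) (a₀ ω)
    ((ε₁ * ε₀ * ε₀) • (b₀ F * Matrix.diagonal ![1, ε₀ * ε₁ * ε₂, (ε₀ * ε₁ * ε₂) * (ε₀ * ε₁ * ε₂)])) hF.ha
    (R.mul_mem (R.mul_mem hs hF.hb) ht) hF.hA ?_ ?_ ?_
  · rw [Units.val_mul, Units.val_mul, Matrix.mul_assoc, ht', ← Matrix.mul_assoc, Matrix.mul_assoc (s : Matrix (Fin 3) (Fin 3) F), hF.hB, hs']
    simp [Matrix.smul_mul, Matrix.mul_smul, Matrix.mul_assoc]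
  · rw [hD, a₀, Matrix.diagonal_mul_diagonal, Matrix.diagonal_mul_diagonal]
    congr 1
    ext i
    exact mul_comm _ _
  · rw [hD]
    exact diag_mul_b₀ h0 h1 h2

/-- The transposition normalizes the group in the frame. -/
theorem t_norm (hF : Frame R a b z ω P) (T : GL (Fin 3) F) (hT : (T : Matrix (Fin 3) (Fin 3) F) = t₀ F) :
    P * T * P⁻¹ ∈ Cfsg.Geo.subgroupNormalizer R := by
  refine hF.norm T (a * a) (b * b) (a₀ ω * a₀ ω) (b₀ F * b₀ F) (R.mul_mem hF.ha hF.ha) (R.mul_mem hF.hb hF.hb) ?_ ?_ ?_ ?_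
  · rw [Units.val_mul, Matrix.mul_assoc, hF.hA, ← Matrix.mul_assoc, hF.hA, Matrix.mul_assoc]
  · rw [Units.val_mul, Matrix.mul_assoc, hF.hB, ← Matrix.mul_assoc, hF.hB, Matrix.mul_assoc]
  · rw [hT]
    exact t₀_mul_a₀ hF.hω
  · rw [hT]
    exact t₀_mul_b₀

theorem scalar_norm (hF : Frame R a b z ω P) (s : GL (Fin 3) F) {c : F} (hs : (s : Matrix (Fin 3) (Fin 3) F) = c • 1) :
    s ∈ Cfsg.Geo.subgroupNormalizer R := by
  apply mem_normalizer_of_conj hF.fin
  intro h hh
  have : s * h * s⁻¹ = h := by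
    rw [mul_inv_eq_iff_eq_mul]
    apply Units.ext
    simp only [Units.val_mul, hs]
    simp [Matrix.smul_mul, Matrix.mul_smul]
  rw [this]
  exact hh

theorem omega_ne_one (hF : Frame R a b z ω P) (h3 : (3 : F) ≠ 0) : (1 : F) ≠ ω := by
  rintro rfl
  apply h3
  have := hF.hω
  linear_combination this

end Frame

end Data

section Main

variable {F : Type*} [Field F]

/-- The determinant of a diagonalizable matrix. -/
theorem det_of_eigenbasis (X : Matrix (Fin 3) (Fin 3) F) (b : Basis (Fin 3) F (Fin 3 → F)) (ε : Fin 3 → F)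
    (h : ∀ t, X.mulVec (b t) = ε t • b t) : X.det = ε 0 * ε 1 * ε 2 := by
  have hU : X * (basisGL b : Matrix (Fin 3) (Fin 3) F) = (basisGL b : Matrix (Fin 3) (Fin 3) F) * Matrix.diagonal ε := by
    apply mat_of_vec b X (Matrix.diagonal ε)
    intro j
    rw [h, sum_diagonal]
  have h1 := congrArg Matrix.det hU
  rw [Matrix.det_mul, Matrix.det_mul, Matrix.det_diagonal, Fin.prod_univ_three] at h1
  have hd : (basisGL b : Matrix (Fin 3) (Fin 3) F).det ≠ 0 := (Matrix.GeneralLinearGroup.det (basisGL b)).ne_zero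
  rw [mul_comm] at h1
  exact mul_left_cancel₀ hd h1

/-- Matrices scalar on a basis are scalar. -/
theorem scalar_of_eigenbasis (X : Matrix (Fin 3) (Fin 3) F) (b : Basis (Fin 3) F (Fin 3 → F)) (c : F)
    (h : ∀ t, X.mulVec (b t) = c • b t) : X = c • 1 := by
  apply Matrix.toLin'.injective
  apply b.ext
  intro t
  rw [Matrix.toLin'_apply, h]
  simp [Matrix.smul_mulVec]

/-- Involutions modulo scalars. -/
theorem conj_two [Fintype F] {R : Subgroup (GL (Fin 3) F)} {a b z : GL (Fin 3) F} {ω : F} {P : GL (Fin 3) F}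
    (hF : Frame R a b z ω P) (h2 : (2 : F) ≠ 0) (x : GL (Fin 3) F) (hx : (x : Matrix (Fin 3) (Fin 3) F).det = 1) {s : F}
    (hs : (x : Matrix (Fin 3) (Fin 3) F) * x = s • 1)
    (hns : ∀ c : F, (x : Matrix (Fin 3) (Fin 3) F) ≠ c • 1) :
    ∃ g : GL (Fin 3) F, (g : Matrix (Fin 3) (Fin 3) F).det = 1 ∧ g⁻¹ * x * g ∈ Cfsg.Geo.subgroupNormalizer R := by
  classical
  set X := (x : Matrix (Fin 3) (Fin 3) F) with hX
  have hs3 : s * s * s = 1 := by
    have h1 := congrArg Matrix.det hs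
    rw [Matrix.det_mul, hx, Matrix.det_smul, Matrix.det_one] at h1
    simp only [Fintype.card_fin] at h1
    linear_combination -h1
  set w := s * s with hw
  have hww : w * w = s := by
    rw [hw]
    linear_combination s * hs3
  have hwww : w * w * w = 1 := by
    rw [hw]
    calc s * s * (s * s) * (s * s) = (s * s * s) * (s * s * s) := by ring
      _ = 1 := by rw [hs3]; ring
  have hw0 : w ≠ 0 := by
    rintro h
    rw [h] at hwww
    simp at hwww
  let g := Matrix.toLin' X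
  have hgg : ∀ v, g (g v) = s • v := by
    intro v
    change X.mulVec (X.mulVec v) = s • v
    rw [Matrix.mulVec_mulVec, hs, Matrix.smul_mulVec, Matrix.one_mulVec]
  have h2w : w ≠ -w := by
    intro h
    apply mul_ne_zero h2 hw0
    linear_combination h
  obtain ⟨bb, ε, hε, hb⟩ := exists_eigenbasis (V := Fin 3 → F) (n := 3) (by simp) g h2w hw0 (neg_ne_zero.mpr hw0)
    (by
      intro v
      simp only [zero_smul, sub_zero, neg_smul, sub_neg_eq_add, map_add, map_smul, hgg]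
      rw [← hww]
      module)
  have hb' : ∀ i, X.mulVec (bb i) = ε i • bb i := hb
  have hε' : ∀ i, ε i = w ∨ ε i = -w := by
    intro i
    rcases hε i with h | h | h
    · exact Or.inl h
    · exact Or.inr h
    · exfalso
      have h3 := hgg (bb i)
      rw [hb, h, zero_smul, map_zero] at h3
      have hs0 : s ≠ 0 := by
        rintro rfl
        simp at hs3
      exact (smul_ne_zero hs0 (bb.ne_zero i)) h3.symm
  have hdet := det_of_eigenbasis X bb ε hb'
  rw [hx] at hdet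
  have hneg : (1 : F) ≠ -1 := by
    intro h
    apply h2
    linear_combination h
  let d : Fin 3 → F := ![-w, -w, w]
  obtain ⟨b', hb''⟩ : ∃ b' : Basis (Fin 3) F (Fin 3 → F), ∀ i, X.mulVec (b' i) = d i • b' i := by
    rcases hε' 0 with h0 | h0 <;> rcases hε' 1 with h1 | h1 <;> rcases hε' 2 with h3 | h3 <;>
      rw [h0, h1, h3] at hdet
    · exfalso
      apply hns w
      apply scalar_of_eigenbasis X bb
      intro t
      fin_cases t
      · rw [hb']; simp [h0]
      · rw [hb']; simp [h1]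
      · rw [hb']; simp [h3]
    · exfalso
      apply hneg
      linear_combination hdet - hwww
    · exfalso
      apply hneg
      linear_combination hdet - hwww
    · refine ⟨bb.reindex (Equiv.swap 0 2), ?_⟩
      intro i
      fin_cases i
      · have : (bb.reindex (Equiv.swap 0 2)) 0 = bb 2 := by simp [Basis.reindex_apply]
        change X.mulVec ((bb.reindex (Equiv.swap 0 2)) 0) = (-w) • (bb.reindex (Equiv.swap 0 2)) 0
        rw [this, hb', h3]
      · have : (bb.reindex (Equiv.swap 0 2)) 1 = bb 1 := by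
          rw [Basis.reindex_apply]
          congr 1
        change X.mulVec ((bb.reindex (Equiv.swap 0 2)) 1) = (-w) • (bb.reindex (Equiv.swap 0 2)) 1
        rw [this, hb', h1]
      · have : (bb.reindex (Equiv.swap 0 2)) 2 = bb 0 := by simp [Basis.reindex_apply]
        change X.mulVec ((bb.reindex (Equiv.swap 0 2)) 2) = w • (bb.reindex (Equiv.swap 0 2)) 2
        rw [this, hb', h0]
    · exfalso
      apply hneg
      linear_combination hdet - hwww
    · refine ⟨bb.reindex (Equiv.swap 1 2), ?_⟩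
      intro i
      fin_cases i
      · have : (bb.reindex (Equiv.swap 1 2)) 0 = bb 0 := by
          rw [Basis.reindex_apply]
          congr 1
        change X.mulVec ((bb.reindex (Equiv.swap 1 2)) 0) = (-w) • (bb.reindex (Equiv.swap 1 2)) 0
        rw [this, hb', h0]
      · have : (bb.reindex (Equiv.swap 1 2)) 1 = bb 2 := by simp [Basis.reindex_apply]
        change X.mulVec ((bb.reindex (Equiv.swap 1 2)) 1) = (-w) • (bb.reindex (Equiv.swap 1 2)) 1
        rw [this, hb', h3]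
      · have : (bb.reindex (Equiv.swap 1 2)) 2 = bb 1 := by simp [Basis.reindex_apply]
        change X.mulVec ((bb.reindex (Equiv.swap 1 2)) 2) = w • (bb.reindex (Equiv.swap 1 2)) 2
        rw [this, hb', h1]
    · refine ⟨bb, ?_⟩
      intro i
      fin_cases i
      · change X.mulVec (bb 0) = (-w) • bb 0
        rw [hb', h0]
      · change X.mulVec (bb 1) = (-w) • bb 1
        rw [hb', h1]
      · change X.mulVec (bb 2) = w • bb 2
        rw [hb', h3]
    · exfalso
      apply hneg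
      linear_combination hdet - hwww
  -- the model
  let T : GL (Fin 3) F := ⟨t₀ F, t₀ F, t₀_mul_self, t₀_mul_self⟩
  have hSdet : (s₀ F).det ≠ 0 := by
    rw [det_s₀]
    exact neg_ne_zero.mpr h2
  let S : GL (Fin 3) F := Matrix.GeneralLinearGroup.mkOfDetNeZero (s₀ F) hSdet
  have hcdet : ((-w) • (1 : Matrix (Fin 3) (Fin 3) F)).det ≠ 0 := by
    rw [Matrix.det_smul, Matrix.det_one]
    simp [hw0]
  let c : GL (Fin 3) F := Matrix.GeneralLinearGroup.mkOfDetNeZero _ hcdet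
  have hc : (c : Matrix (Fin 3) (Fin 3) F) = (-w) • 1 := rfl
  have hN : c * (P * T * P⁻¹) ∈ Cfsg.Geo.subgroupNormalizer R :=
    Subgroup.mul_mem _ (hF.scalar_norm c hc) (hF.t_norm T rfl)
  have hPP : ((P⁻¹ : GL (Fin 3) F) : Matrix (Fin 3) (Fin 3) F) * (P : Matrix (Fin 3) (Fin 3) F) = 1 := by
    rw [← Units.val_mul, inv_mul_cancel, Units.val_one]
  obtain ⟨G, hG1, hG2⟩ := exists_conj_of_diag (T := ((c * (P * T * P⁻¹) : GL (Fin 3) F) : Matrix (Fin 3) (Fin 3) F)) b' d hb'' (P * S) (by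
    simp only [Units.val_mul, hc]
    have hT : (T : Matrix (Fin 3) (Fin 3) F) = t₀ F := rfl
    have hS : (S : Matrix (Fin 3) (Fin 3) F) = s₀ F := rfl
    rw [hT, hS]
    have h5 : (P : Matrix (Fin 3) (Fin 3) F) * t₀ F * ((P⁻¹ : GL (Fin 3) F) : Matrix (Fin 3) (Fin 3) F) * ((P : Matrix (Fin 3) (Fin 3) F) * s₀ F) =
        (P : Matrix (Fin 3) (Fin 3) F) * (s₀ F * Matrix.diagonal ![1, 1, -1]) := by
      rw [← t₀_mul_s₀]
      simp only [Matrix.mul_assoc]
      simp only [← Matrix.mul_assoc ((P⁻¹ : GL (Fin 3) F) : Matrix (Fin 3) (Fin 3) F), hPP, Matrix.one_mul]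
    have h6 : Matrix.diagonal d = (-w) • Matrix.diagonal ![1, 1, -1] := by
      ext i j
      by_cases hij : i = j
      · subst hij
        fin_cases i <;> simp [d]
      · simp [Matrix.diagonal_apply_ne _ hij]
    rw [h6, Matrix.smul_mul, Matrix.one_mul, Matrix.smul_mul, h5]
    simp only [Matrix.mul_smul, Matrix.mul_assoc])
  refine ⟨G, hG1, ?_⟩
  have h7 : G⁻¹ * x * G = c * (P * T * P⁻¹) := by
    have h8 : G * (c * (P * T * P⁻¹)) = x * G := Units.ext hG2
    rw [mul_assoc, ← h8, inv_mul_cancel_left]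
  rw [h7]
  exact hN

/-- Order three modulo scalars. -/
theorem conj_three [Fintype F] {R : Subgroup (GL (Fin 3) F)} {a b z : GL (Fin 3) F} {ω : F} {P : GL (Fin 3) F}
    (hF : Frame R a b z ω P) (h3 : (3 : F) ≠ 0) (x : GL (Fin 3) F) {s w : F} (hw0 : w ≠ 0) (hw : w * w * w = s)
    (hs : (x : Matrix (Fin 3) (Fin 3) F) * x * x = s • 1) :
    ∃ g : GL (Fin 3) F, (g : Matrix (Fin 3) (Fin 3) F).det = 1 ∧ g⁻¹ * x * g ∈ Cfsg.Geo.subgroupNormalizer R := by
  classical
  set X := (x : Matrix (Fin 3) (Fin 3) F) with hX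
  have hω := hF.hω
  have hω1 : (1 : F) ≠ ω := hF.omega_ne_one h3
  have hω0 : ω ≠ 0 := by
    rintro rfl
    simp at hω
  have hω2 : (1 : F) ≠ ω * ω := by
    intro h
    have e : ω = -2 := by linear_combination hω + h
    rw [e] at h
    apply h3
    linear_combination -h
  have hω4 : ω ≠ ω * ω := by
    intro h
    have : ω * (ω - 1) = 0 := by linear_combination -h
    exact hω1 (sub_eq_zero.mp ((mul_eq_zero.mp this).resolve_left hω0)).symm
  have hω3 : ω * ω * ω = 1 := by linear_combination (ω - 1) * hω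
  let g := Matrix.toLin' X
  have hggg : ∀ v, g (g (g v)) = s • v := by
    intro v
    change X.mulVec (X.mulVec (X.mulVec v)) = s • v
    rw [Matrix.mulVec_mulVec, Matrix.mulVec_mulVec, hs, Matrix.smul_mulVec, Matrix.one_mulVec]
  obtain ⟨bb, ε, hε, hb⟩ := exists_eigenbasis (V := Fin 3 → F) (n := 3) (by simp) g
    (α := w) (β := w * ω) (γ := w * (ω * ω))
    (fun h => hω1 (mul_left_cancel₀ hw0 (by rw [mul_one]; exact h)))
    (fun h => hω2 (mul_left_cancel₀ hw0 (by rw [mul_one]; exact h)))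
    (fun h => hω4 (mul_left_cancel₀ hw0 h))
    (by
      intro v
      simp only [map_sub, map_smul, hggg]
      have e1 : s = w * w * w := hw.symm
      have hc2 : -(w * (ω * ω)) - w * ω - w = 0 := by linear_combination -w * hω
      have hc1 : w * ω * (w * (ω * ω)) + w * (w * (ω * ω)) + w * (w * ω) = 0 := by
        linear_combination (w * w * ω) * hω
      have hc0 : w * w * w - w * (w * ω * (w * (ω * ω))) = 0 := by
        linear_combination (-(w * w * w)) * hω3
      rw [e1]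
      have : ∀ A B : Fin 3 → F, (w * w * w) • v - (w * (ω * ω)) • A - (w * ω) • (A - (w * (ω * ω)) • B) - w • (A - (w * (ω * ω)) • B - (w * ω) • (B - (w * (ω * ω)) • v)) =
          (-(w * (ω * ω)) - w * ω - w) • A + (w * ω * (w * (ω * ω)) + w * (w * (ω * ω)) + w * (w * ω)) • B + (w * w * w - w * (w * ω * (w * (ω * ω)))) • v := by
        intro A B
        module
      rw [this, hc2, hc1, hc0]
      simp)
  have hb' : ∀ i, X.mulVec (bb i) = ε i • bb i := hb
  have hc : ∀ i, ∃ c : F, c * c * c = 1 ∧ ε i = w * c := by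
    intro i
    rcases hε i with h | h | h
    · exact ⟨1, by simp, by simp [h]⟩
    · exact ⟨ω, hω3, h⟩
    · refine ⟨ω * ω, ?_, h⟩
      calc ω * ω * (ω * ω) * (ω * ω) = (ω * ω * ω) * (ω * ω * ω) := by ring
        _ = 1 := by rw [hω3]; ring
  obtain ⟨c₀, hc₀, h0⟩ := hc 0
  obtain ⟨c₁, hc₁, h1⟩ := hc 1
  obtain ⟨c₂, hc₂, h2⟩ := hc 2
  have hcne : ∀ c : F, c * c * c = 1 → c ≠ 0 := by
    rintro c hc rfl
    simp at hc
  have hDdet : (Matrix.diagonal ![c₀, c₁, c₂]).det ≠ 0 := by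
    rw [Matrix.det_diagonal, Fin.prod_univ_three]
    simp [hcne _ hc₀, hcne _ hc₁, hcne _ hc₂]
  let D : GL (Fin 3) F := Matrix.GeneralLinearGroup.mkOfDetNeZero _ hDdet
  have hD : (D : Matrix (Fin 3) (Fin 3) F) = Matrix.diagonal ![c₀, c₁, c₂] := rfl
  have hcdet : (w • (1 : Matrix (Fin 3) (Fin 3) F)).det ≠ 0 := by
    rw [Matrix.det_smul, Matrix.det_one]
    simp [hw0]
  let c : GL (Fin 3) F := Matrix.GeneralLinearGroup.mkOfDetNeZero _ hcdet
  have hcc : (c : Matrix (Fin 3) (Fin 3) F) = w • 1 := rfl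
  have hN : c * (P * D * P⁻¹) ∈ Cfsg.Geo.subgroupNormalizer R :=
    Subgroup.mul_mem _ (hF.scalar_norm c hcc) (hF.diag_norm hc₀ hc₁ hc₂ D hD)
  have hPP : ((P⁻¹ : GL (Fin 3) F) : Matrix (Fin 3) (Fin 3) F) * (P : Matrix (Fin 3) (Fin 3) F) = 1 := by
    rw [← Units.val_mul, inv_mul_cancel, Units.val_one]
  obtain ⟨G, hG1, hG2⟩ := exists_conj_of_diag (T := ((c * (P * D * P⁻¹) : GL (Fin 3) F) : Matrix (Fin 3) (Fin 3) F)) bb ε hb' P (by
    simp only [Units.val_mul, hcc, hD]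
    have h6 : Matrix.diagonal ε = w • Matrix.diagonal ![c₀, c₁, c₂] := by
      ext i j
      by_cases hij : i = j
      · subst hij
        fin_cases i
        · simpa using h0
        · simpa using h1
        · simpa using h2
      · simp [Matrix.diagonal_apply_ne _ hij]
    rw [h6, Matrix.smul_mul, Matrix.one_mul, Matrix.smul_mul, Matrix.mul_assoc, hPP, Matrix.mul_one, Matrix.mul_smul])
  refine ⟨G, hG1, ?_⟩
  have h7 : G⁻¹ * x * G = c * (P * D * P⁻¹) := by
    have h8 : G * (c * (P * D * P⁻¹)) = x * G := Units.ext hG2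
    rw [mul_assoc, ← h8, inv_mul_cancel_left]
  rw [h7]
  exact hN

/-- Commuting with the two generators forces a scalar. -/
theorem scalar_of_commute {Y : Matrix (Fin 3) (Fin 3) F} {ω : F} (hω1 : (1 : F) ≠ ω) (hω2 : (1 : F) ≠ ω * ω) (hω4 : ω ≠ ω * ω)
    (h1 : Y * a₀ ω = a₀ ω * Y) (h2 : Y * b₀ F = b₀ F * Y) : Y = Y 0 0 • 1 := by
  have hent : ∀ i j, Y i j * (![1, ω, ω * ω] : Fin 3 → F) j = (![1, ω, ω * ω] : Fin 3 → F) i * Y i j := by
    intro i j
    have := congrFun (congrFun h1 i) j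
    rwa [a₀, Matrix.mul_diagonal, Matrix.diagonal_mul] at this
  have hω1' : ω - 1 ≠ 0 := sub_ne_zero.mpr hω1.symm
  have hω2' : ω * ω - 1 ≠ 0 := sub_ne_zero.mpr hω2.symm
  have hω4' : ω * ω - ω ≠ 0 := sub_ne_zero.mpr hω4.symm
  have h01 : Y 0 1 = 0 := by
    have h : Y 0 1 * ω = 1 * Y 0 1 := hent 0 1
    have h' : (ω - 1) * Y 0 1 = 0 := by linear_combination h
    exact (mul_eq_zero.mp h').resolve_left hω1'
  have h02 : Y 0 2 = 0 := by
    have h : Y 0 2 * (ω * ω) = 1 * Y 0 2 := hent 0 2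
    have h' : (ω * ω - 1) * Y 0 2 = 0 := by linear_combination h
    exact (mul_eq_zero.mp h').resolve_left hω2'
  have h10 : Y 1 0 = 0 := by
    have h : Y 1 0 * 1 = ω * Y 1 0 := hent 1 0
    have h' : (ω - 1) * Y 1 0 = 0 := by linear_combination -h
    exact (mul_eq_zero.mp h').resolve_left hω1'
  have h12 : Y 1 2 = 0 := by
    have h : Y 1 2 * (ω * ω) = ω * Y 1 2 := hent 1 2
    have h' : (ω * ω - ω) * Y 1 2 = 0 := by linear_combination h
    exact (mul_eq_zero.mp h').resolve_left hω4'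
  have h20 : Y 2 0 = 0 := by
    have h : Y 2 0 * 1 = (ω * ω) * Y 2 0 := hent 2 0
    have h' : (ω * ω - 1) * Y 2 0 = 0 := by linear_combination -h
    exact (mul_eq_zero.mp h').resolve_left hω2'
  have h21 : Y 2 1 = 0 := by
    have h : Y 2 1 * ω = (ω * ω) * Y 2 1 := hent 2 1
    have h' : (ω * ω - ω) * Y 2 1 = 0 := by linear_combination -h
    exact (mul_eq_zero.mp h').resolve_left hω4'
  have e1 : Y 1 1 = Y 0 0 := by
    have := congrFun (congrFun h2 1) 0
    simpa [b₀, Matrix.mul_apply, Fin.sum_univ_three] using this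
  have e2 : Y 2 2 = Y 1 1 := by
    have := congrFun (congrFun h2 2) 1
    simpa [b₀, Matrix.mul_apply, Fin.sum_univ_three] using this
  ext i j
  fin_cases i <;> fin_cases j <;> simp [h01, h02, h10, h12, h20, h21, e1, e2]

/-- Elements of order prime to six in the normalizer are scalar. -/
theorem scalar_of_norm [Fintype F] {R : Subgroup (GL (Fin 3) F)} {a b z : GL (Fin 3) F} {ω : F} {P : GL (Fin 3) F}
    (hF : Frame R a b z ω P) (hR : Nat.card R = 27) (h3 : (3 : F) ≠ 0) {r : ℕ} [Fact r.Prime] (hr2 : r ≠ 2) (hr3 : r ≠ 3)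
    {y : GL (Fin 3) F} (hy : y ∈ Cfsg.Geo.subgroupNormalizer R) (hyr : y ^ r = 1) :
    ∃ c : F, (y : Matrix (Fin 3) (Fin 3) F) = c • 1 := by
  classical
  haveI := hF.fin
  letI : Fintype R := Fintype.ofFinite _
  have hy' : ∀ h ∈ R, y * h * y⁻¹ ∈ R := fun h hh =>
    (Subgroup.mem_normalizer_iff.mp hy h).mp hh
  let f : Function.End R := fun h => ⟨y * h * y⁻¹, hy' h h.2⟩
  have hfpow : ∀ (t : ℕ) (h : R), (((f ^ t) h : R) : GL (Fin 3) F) = y ^ t * h * (y ^ t)⁻¹ := by
    intro t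
    induction t with
    | zero =>
      intro h
      rw [pow_zero, pow_zero, one_mul, inv_one, mul_one]
      rfl
    | succ t ih =>
      intro h
      rw [pow_succ']
      change y * ((f ^ t) h : R) * y⁻¹ = _
      rw [ih, pow_succ']
      group
  have hf : f ^ r ^ 1 = 1 := by
    rw [pow_one]
    funext h
    apply Subtype.ext
    rw [hfpow, hyr]
    simp
    rfl
  have hmod := Equiv.Perm.card_fixedPoints_modEq hf
  let C : Subgroup R := (Subgroup.centralizer {y}).comap R.subtype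
  have hC : Fintype.card ↑(Function.fixedPoints f) = Nat.card C := by
    rw [← Nat.card_eq_fintype_card]
    apply Nat.card_congr
    refine Equiv.subtypeEquivRight fun h => ?_
    have e : Function.IsFixedPt f h ↔ y * h * y⁻¹ = h := by
      constructor
      · intro hh
        exact congrArg Subtype.val hh
      · intro hh
        exact Subtype.ext hh
    change Function.IsFixedPt f h ↔ _
    rw [e, mul_inv_eq_iff_eq_mul]
    constructor
    · intro hh
      rw [Subgroup.mem_comap, Subgroup.mem_centralizer_singleton_iff]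
      exact hh.symm
    · intro hh
      rw [Subgroup.mem_comap, Subgroup.mem_centralizer_singleton_iff] at hh
      exact hh.symm
  rw [hC, ← Nat.card_eq_fintype_card, hR] at hmod
  have hd : Nat.card C ∣ 3 ^ 3 := by
    have := C.card_subgroup_dvd_card
    rw [hR] at this
    simpa using this
  obtain ⟨k, hk, hk'⟩ := (Nat.dvd_prime_pow Nat.prime_three).mp hd
  have hzC : (⟨z, hF.hz⟩ : R) ∈ C := by
    rw [Subgroup.mem_comap, Subgroup.mem_centralizer_singleton_iff]
    apply Units.ext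
    simp only [Units.val_mul, Subgroup.subtype_apply, hF.hz1]
    simp [Matrix.smul_mul, Matrix.mul_smul]
  have hz1 : (⟨z, hF.hz⟩ : R) ≠ 1 := by
    intro h
    have h1 : z = 1 := congrArg Subtype.val h
    have h4 := hF.hz1
    rw [h1] at h4
    have h5 := congrFun (congrFun h4 0) 0
    simp at h5
    exact hF.omega_ne_one h3 h5
  have hk0 : k ≠ 0 := by
    rintro rfl
    have h1 : Nat.card C = 1 := by simpa using hk'
    have h4 : Subsingleton C := (Nat.card_eq_one_iff_unique.mp h1).1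
    have : (⟨_, hzC⟩ : C) = 1 := Subsingleton.elim _ _
    exact hz1 (congrArg Subtype.val this)
  have hk3 : k = 3 := by
    by_contra hne
    have hrp : r.Prime := Fact.out
    have hk12 : k = 1 ∨ k = 2 := by omega
    have hdvd : r ∣ 27 - Nat.card C := by
      have hle : Nat.card C ≤ 27 := by
        rcases hk12 with rfl | rfl <;> rw [hk'] <;> norm_num
      exact (Nat.modEq_iff_dvd' hle).mp hmod.symm
    rcases hk12 with rfl | rfl
    · rw [hk'] at hdvd
      have h24 : r ∣ 2 ^ 3 * 3 := by simpa using hdvd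
      rcases (Nat.Prime.dvd_mul hrp).mp h24 with h | h
      · exact hr2 ((Nat.prime_dvd_prime_iff_eq hrp Nat.prime_two).mp (hrp.dvd_of_dvd_pow h))
      · exact hr3 ((Nat.prime_dvd_prime_iff_eq hrp Nat.prime_three).mp h)
    · rw [hk'] at hdvd
      have h18 : r ∣ 2 * 3 ^ 2 := by simpa using hdvd
      rcases (Nat.Prime.dvd_mul hrp).mp h18 with h | h
      · exact hr2 ((Nat.prime_dvd_prime_iff_eq hrp Nat.prime_two).mp h)
      · exact hr3 ((Nat.prime_dvd_prime_iff_eq hrp Nat.prime_three).mp (hrp.dvd_of_dvd_pow h))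
  subst hk3
  have hCtop : C = ⊤ := Subgroup.eq_top_of_card_eq _ (by rw [hk', hR]; norm_num)
  have hcomm : ∀ h ∈ R, h * y = y * h := by
    intro h hh
    have : (⟨h, hh⟩ : R) ∈ C := by rw [hCtop]; trivial
    rw [Subgroup.mem_comap, Subgroup.mem_centralizer_singleton_iff] at this
    exact this
  have hPP : ((P⁻¹ : GL (Fin 3) F) : Matrix (Fin 3) (Fin 3) F) * (P : Matrix (Fin 3) (Fin 3) F) = 1 := by
    rw [← Units.val_mul, inv_mul_cancel, Units.val_one]
  have hPP' : (P : Matrix (Fin 3) (Fin 3) F) * ((P⁻¹ : GL (Fin 3) F) : Matrix (Fin 3) (Fin 3) F) = 1 := by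
    rw [← Units.val_mul, mul_inv_cancel, Units.val_one]
  set Pi := ((P⁻¹ : GL (Fin 3) F) : Matrix (Fin 3) (Fin 3) F) with hPi
  set Pm := (P : Matrix (Fin 3) (Fin 3) F) with hPm
  set Ym := (y : Matrix (Fin 3) (Fin 3) F) with hYm
  set Y : Matrix (Fin 3) (Fin 3) F := Pi * Ym * Pm with hY
  have hcm : ∀ (w : GL (Fin 3) F) (W : Matrix (Fin 3) (Fin 3) F), w ∈ R → (w : Matrix (Fin 3) (Fin 3) F) * Pm = Pm * W → Y * W = W * Y := by
    intro w W hw hwW
    have h1 : (w : Matrix (Fin 3) (Fin 3) F) * Ym = Ym * w := congrArg Units.val (hcomm w hw)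
    have h4 : Pi * (w : Matrix (Fin 3) (Fin 3) F) = W * Pi := by
      calc Pi * (w : Matrix (Fin 3) (Fin 3) F) = Pi * ((w : Matrix (Fin 3) (Fin 3) F) * (Pm * Pi)) := by rw [hPP', Matrix.mul_one]
        _ = Pi * ((w : Matrix (Fin 3) (Fin 3) F) * Pm) * Pi := by simp only [Matrix.mul_assoc]
        _ = _ := by rw [hwW, ← Matrix.mul_assoc, hPP, Matrix.one_mul]
    calc Y * W = Pi * Ym * (Pm * W) := by rw [hY]; simp only [Matrix.mul_assoc]
      _ = Pi * (Ym * w) * Pm := by rw [← hwW]; simp only [Matrix.mul_assoc]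
      _ = (Pi * w) * Ym * Pm := by rw [← h1]; simp only [Matrix.mul_assoc]
      _ = _ := by rw [h4, hY]; simp only [Matrix.mul_assoc]
  have hω := hF.hω
  have hω1 : (1 : F) ≠ ω := hF.omega_ne_one h3
  have hω0 : ω ≠ 0 := by
    rintro rfl
    simp at hω
  have hω2 : (1 : F) ≠ ω * ω := by
    intro h
    have e : ω = -2 := by linear_combination hω + h
    rw [e] at h
    apply h3
    linear_combination -h
  have hω4 : ω ≠ ω * ω := by
    intro h
    have : ω * (ω - 1) = 0 := by linear_combination -h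
    exact hω1 (sub_eq_zero.mp ((mul_eq_zero.mp this).resolve_left hω0)).symm
  have hYs := scalar_of_commute hω1 hω2 hω4 (hcm a _ hF.ha hF.hA) (hcm b _ hF.hb hF.hB)
  obtain ⟨c, hc⟩ : ∃ c : F, Y = c • 1 := ⟨_, hYs⟩
  refine ⟨c, ?_⟩
  calc Ym = (Pm * Pi) * Ym * (Pm * Pi) := by rw [hPP']; simp
    _ = Pm * Y * Pi := by rw [hY]; simp only [Matrix.mul_assoc]
    _ = _ := by
      rw [hc]
      simp only [Matrix.smul_mul, Matrix.mul_smul, Matrix.one_mul, Matrix.mul_one, hPP']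

/-- Cube roots of unity are cubes when `9` divides `p - 1`. -/
theorem exists_cube_root [Fintype F] {p : ℕ} (hF : Fintype.card F = p) (hp : 2 ≤ p) (hp9 : p % 9 = 1) {s : F}
    (hs : s * s * s = 1) : ∃ w : F, w ≠ 0 ∧ w * w * w = s := by
  have hs0 : s ≠ 0 := by
    rintro rfl
    simp at hs
  obtain ⟨g, hg⟩ := IsCyclic.exists_monoid_generator (α := Fˣ)
  obtain ⟨k, hk⟩ := hg (Units.mk0 s hs0)
  have hord : orderOf g = p - 1 := by
    rw [orderOf_eq_card_of_forall_mem_zpowers (fun x => by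
      obtain ⟨n, hn⟩ := hg x
      exact ⟨n, by simpa using hn⟩), Nat.card_units, Nat.card_eq_fintype_card, hF]
  have h1 : g ^ (3 * k) = 1 := by
    rw [mul_comm, pow_mul]
    have hk' : g ^ k = Units.mk0 s hs0 := hk
    rw [hk']
    apply Units.ext
    simp [pow_succ, hs]
  have h2 : p - 1 ∣ 3 * k := by
    rw [← hord]
    exact orderOf_dvd_of_pow_eq_one h1
  have h9 : 9 ∣ p - 1 := by omega
  have h3 : 9 ∣ 3 * k := h9.trans h2
  obtain ⟨m, rfl⟩ : 3 ∣ k := by omega
  refine ⟨(g ^ m : Fˣ), Units.ne_zero _, ?_⟩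
  have hk' : g ^ (3 * m) = Units.mk0 s hs0 := hk
  have h5 := congrArg Units.val hk'
  simp only [Units.val_mk0] at h5
  rw [← h5, mul_comm 3 m, pow_mul, Units.val_pow_eq_pow_val]
  simp only [Units.val_pow_eq_pow_val]
  ring

/-- The arithmetic of the group order. -/
theorem not_dvd_arith {m : ℕ} (hm : m % 9 = 3 ∨ m % 9 = 6) :
    ¬ 81 ∣ m * m * (m * m + 3 * m + 3) * (m + 1) ^ 3 * (m + 2) := by
  intro h
  have key : ∀ s : ZMod 81, (s.val % 9 = 3 ∨ s.val % 9 = 6) → s * s * (s * s + 3 * s + 3) * (s + 1) ^ 3 * (s + 2) ≠ 0 := by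
    decide
  have hv : ((m : ZMod 81)).val % 9 = m % 9 := by
    rw [ZMod.val_natCast]
    omega
  apply key (m : ZMod 81) (by rw [hv]; exact hm)
  have := (ZMod.natCast_eq_zero_iff _ 81).mpr h
  push_cast at this
  exact this

theorem card_ker_det [Fintype F] {p : ℕ} (hF : Fintype.card F = p) (hp : 2 ≤ p) :
    Nat.card (Cfsg.Geo.specialLinear (Fin 3) F) =
      (p - 1) * (p - 1) * ((p - 1) * (p - 1) + 3 * (p - 1) + 3) * ((p - 1) + 1) ^ 3 * ((p - 1) + 2) := by
  have h1 := Cfsg.Agent.Lib.Linalg.Basic.card_GL_eq_mul_card_SL (F := F) (ι := Fin 3)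
  have h2 := Matrix.card_GL_field (𝔽 := F) 3
  rw [h2, Nat.card_eq_fintype_card, hF, Fin.prod_univ_three] at h1
  have h3 : Nat.card (Matrix.SpecialLinearGroup (Fin 3) F) = Nat.card (Cfsg.Geo.specialLinear (Fin 3) F) :=
    Nat.card_congr (Cfsg.Agent.Lib.Linalg.Basic.slEquivKerDet (ι := Fin 3) (R := F)).toEquiv
  rw [h3] at h1
  obtain ⟨m, rfl⟩ : ∃ m, p = m + 1 := ⟨p - 1, by omega⟩
  simp only [Nat.add_sub_cancel] at h1 ⊢
  have hm : 0 < m := by omega
  apply Nat.eq_of_mul_eq_mul_left hm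
  rw [← h1]
  have e0 : (m + 1) ^ 3 - (m + 1) ^ ((0 : Fin 3) : ℕ) = m * (m * m + 3 * m + 3) := by
    apply Nat.sub_eq_of_eq_add
    simp
    ring
  have e1 : (m + 1) ^ 3 - (m + 1) ^ ((1 : Fin 3) : ℕ) = (m + 1) * m * (m + 2) := by
    apply Nat.sub_eq_of_eq_add
    simp
    ring
  have e2 : (m + 1) ^ 3 - (m + 1) ^ ((2 : Fin 3) : ℕ) = (m + 1) ^ 2 * m := by
    apply Nat.sub_eq_of_eq_add
    simp
    ring
  rw [e0, e1, e2]
  ring

end Main

/-- Elements of prime order of PSL_3(p), p ≡ 1 (mod 3), and the normalizer of an extraspecial subgroup of order 27. -/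
theorem result {F : Type*} [Field F] [Fintype F] {p : ℕ} [Fact p.Prime] [CharP F p] (hF : Fintype.card F = p) (hp3 : p % 3 = 1)
    (R : Subgroup (GL (Fin 3) F)) (hR : Nat.card R = 27) (hRe : Monoid.exponent R = 3) (hRna : ¬ IsMulCommutative R)
    (r : ℕ) [Fact r.Prime]
    (hΩ : r ∣ (Cfsg.Geo.subgroupNormalizer R).relIndex (Cfsg.Geo.specialLinear (Fin 3) F)) :
    (∀ x ∈ Cfsg.Geo.specialLinear (Fin 3) F, (∃ z : F, ((x ^ r : GL (Fin 3) F) : Matrix (Fin 3) (Fin 3) F) = z • (1 : Matrix (Fin 3) (Fin 3) F)) →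
      (∀ z : F, (x : Matrix (Fin 3) (Fin 3) F) ≠ z • (1 : Matrix (Fin 3) (Fin 3) F)) →
      ∃ g ∈ Cfsg.Geo.specialLinear (Fin 3) F, g⁻¹ * x * g ∈ Cfsg.Geo.subgroupNormalizer R) ↔ (r = 2 ∨ (r = 3 ∧ p % 9 = 1)) := by
  classical
  obtain ⟨a, b, z, ω, P, hFr⟩ := exists_data hF hp3 R hR hRe hRna
  have h3 : (3 : F) ≠ 0 := three_ne_zero' hp3
  have h2 : (2 : F) ≠ 0 := two_ne_zero' hp3
  have hp2 : 2 ≤ p := (Fact.out : p.Prime).two_le
  have hdet : ∀ x ∈ Cfsg.Geo.specialLinear (Fin 3) F, (x : Matrix (Fin 3) (Fin 3) F).det = 1 := by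
    intro x hx
    have h1 : Matrix.GeneralLinearGroup.det x = 1 := hx
    have := congrArg Units.val h1
    simpa using this
  have hmem : ∀ x : GL (Fin 3) F, (x : Matrix (Fin 3) (Fin 3) F).det = 1 → x ∈ Cfsg.Geo.specialLinear (Fin 3) F := by
    intro x hx
    change Matrix.GeneralLinearGroup.det x = 1
    apply Units.ext
    simpa using hx
  have hPP : ((P⁻¹ : GL (Fin 3) F) : Matrix (Fin 3) (Fin 3) F) * (P : Matrix (Fin 3) (Fin 3) F) = 1 := by
    rw [← Units.val_mul, inv_mul_cancel, Units.val_one]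
  have hPd : (P : Matrix (Fin 3) (Fin 3) F).det ≠ 0 := (Matrix.GeneralLinearGroup.det P).ne_zero
  constructor
  · intro hL
    by_contra hcon
    push Not at hcon
    obtain ⟨hr2, hr3⟩ := hcon
    by_cases hr : r = 3
    · subst hr
      have h9 : p % 9 ≠ 1 := hr3 rfl
      -- the group lies in the special linear group
      have hRK : R ≤ Cfsg.Geo.specialLinear (Fin 3) F := by
        apply hFr.gens
        · apply hmem
          have h1 := congrArg Matrix.det hFr.hA
          rw [Matrix.det_mul, Matrix.det_mul, det_a₀ hFr.hω, mul_one, mul_comm] at h1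
          exact mul_left_cancel₀ hPd (by rw [h1, mul_one])
        · apply hmem
          have h1 := congrArg Matrix.det hFr.hB
          rw [Matrix.det_mul, Matrix.det_mul, det_b₀, mul_one, mul_comm] at h1
          exact mul_left_cancel₀ hPd (by rw [h1, mul_one])
      have hRN : R ≤ Cfsg.Geo.subgroupNormalizer R := by
        intro g hg
        exact mem_normalizer_of_conj hFr.fin fun h hh => R.mul_mem (R.mul_mem hg hh) (R.inv_mem hg)
      have h27 : 27 ∣ Nat.card ((Cfsg.Geo.subgroupNormalizer R).subgroupOf (Cfsg.Geo.specialLinear (Fin 3) F)) := by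
        have h1 : R.subgroupOf (Cfsg.Geo.specialLinear (Fin 3) F) ≤
            (Cfsg.Geo.subgroupNormalizer R).subgroupOf (Cfsg.Geo.specialLinear (Fin 3) F) :=
          fun g hg => Subgroup.mem_subgroupOf.mpr (hRN (Subgroup.mem_subgroupOf.mp hg))
        have h4 : Nat.card (R.subgroupOf (Cfsg.Geo.specialLinear (Fin 3) F)) = 27 := by
          rw [← hR]
          exact Nat.card_congr (Subgroup.subgroupOfEquivOfLe hRK).toEquiv
        rw [← h4]
        exact Subgroup.card_dvd_of_le h1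
      have hidx := Subgroup.index_mul_card ((Cfsg.Geo.subgroupNormalizer R).subgroupOf (Cfsg.Geo.specialLinear (Fin 3) F))
      have h81 : 81 ∣ Nat.card (Cfsg.Geo.specialLinear (Fin 3) F) := by
        rw [← hidx]
        exact mul_dvd_mul hΩ h27
      rw [card_ker_det hF hp2] at h81
      refine not_dvd_arith (m := p - 1) ?_ h81
      omega
    · have hdvd : r ∣ Nat.card (Cfsg.Geo.specialLinear (Fin 3) F) := hΩ.trans (Subgroup.relIndex_dvd_card _ _)
      obtain ⟨x, hx⟩ := exists_prime_orderOf_dvd_card' r hdvd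
      have hxr : x ^ r = 1 := by rw [← hx]; exact pow_orderOf_eq_one x
      have hX : (x : GL (Fin 3) F) ^ r = 1 := by
        have := congrArg Subtype.val hxr
        simpa using this
      have hns : ∀ c : F, ((x : GL (Fin 3) F) : Matrix (Fin 3) (Fin 3) F) ≠ c • 1 := by
        intro c hc
        have hd := hdet x x.2
        rw [hc, Matrix.det_smul, Matrix.det_one] at hd
        simp only [Fintype.card_fin, mul_one] at hd
        have h1 : (x : GL (Fin 3) F) ^ 3 = 1 := by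
          apply Units.ext
          rw [Units.val_pow_eq_pow_val, hc, smul_pow, hd]
          simp
        have h4 : x ^ 3 = 1 := by
          apply Subtype.ext
          simpa using h1
        have h5 : r ∣ 3 := by
          rw [← hx]
          exact orderOf_dvd_of_pow_eq_one h4
        exact hr ((Nat.prime_dvd_prime_iff_eq Fact.out Nat.prime_three).mp h5)
      obtain ⟨g, hg, hy⟩ := hL x x.2 ⟨1, by rw [hX]; simp⟩ hns
      have hyr : (g⁻¹ * (x : GL (Fin 3) F) * g) ^ r = 1 := by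
        have := conj_pow (a := g⁻¹) (b := (x : GL (Fin 3) F)) (i := r)
        rw [inv_inv] at this
        rw [this, hX]
        simp
      obtain ⟨c, hc⟩ := scalar_of_norm hFr hR h3 hr2 hr hy hyr
      apply hns c
      have e : (x : GL (Fin 3) F) = g * (g⁻¹ * (x : GL (Fin 3) F) * g) * g⁻¹ := by group
      rw [e, Units.val_mul, Units.val_mul, hc]
      have hgg : (g : Matrix (Fin 3) (Fin 3) F) * ((g⁻¹ : GL (Fin 3) F) : Matrix (Fin 3) (Fin 3) F) = 1 := by
        rw [← Units.val_mul, mul_inv_cancel, Units.val_one]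
      simp only [Matrix.mul_smul, Matrix.smul_mul, Matrix.mul_one, hgg]
  · rintro (rfl | ⟨rfl, h9⟩) x hx ⟨s, hs⟩ hns
    · obtain ⟨g, hg1, hg2⟩ := conj_two hFr h2 x (hdet x hx) (s := s) (by
        rw [← hs, pow_two]
        rfl) hns
      exact ⟨g, hmem g hg1, hg2⟩
    · have hs' : (x : Matrix (Fin 3) (Fin 3) F) * x * x = s • 1 := by
        rw [← hs, pow_succ, pow_two]
        rfl
      have hs3 : s * s * s = 1 := by
        have h1 := congrArg Matrix.det hs'
        rw [Matrix.det_mul, Matrix.det_mul, hdet x hx, Matrix.det_smul, Matrix.det_one] at h1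
        simp only [Fintype.card_fin] at h1
        linear_combination -h1
      obtain ⟨w, hw0, hw⟩ := exists_cube_root hF hp2 h9 hs3
      obtain ⟨g, hg1, hg2⟩ := conj_three hFr h3 x hw0 hw hs'
      exact ⟨g, hmem g hg1, hg2⟩

end Cfsg.Agent.S5998
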