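import Cfsg.Statements.S0011
import Mathlib

set_option autoImplicit false
open Cfsg

namespace Cfsg.Agent.S0011

/-- If the Frattini quotient of a finite group is nilpotent then the group is nilpotent. -/
theorem result {G : Type*} [Group G] [Finite G]
    (h : Group.IsNilpotent (G ⧸ frattini G)) : Group.IsNilpotent G := by
  have htfae := Group.isNilpotent_of_finite_tfae (G := G)
  have hiff : Group.IsNilpotent G ↔ ∀ H : Subgroup G, IsCoatom H → H.Normal := htfae.out 0 2
  rw [hiff]
  have htfae' := Group.isNilpotent_of_finite_tfae (G := G ⧸ frattini G)
  have hiff' : Group.IsNilpotent (G ⧸ frattini G) ↔ ∀ H : Subgroup (G ⧸ frattini G), IsCoatom H → H.Normal := htfae'.out 0 2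
  have hmax := hiff'.1 h
  intro M hM
  have hfr : frattini G ≤ M := frattini_le_coatom hM
  let q := QuotientGroup.mk' (frattini G)
  have hq : Function.Surjective q := QuotientGroup.mk'_surjective _
  have hcomap : (M.map q).comap q = M := by
    rw [Subgroup.comap_map_eq, QuotientGroup.ker_mk']
    exact sup_eq_left.2 hfr
  have hcoatom : IsCoatom (M.map q) := by
    constructor
    · intro htop
      apply hM.1
      rw [← hcomap, htop, Subgroup.comap_top]
    · intro K hK
      have hlt : M < K.comap q := by
        rw [← hcomap]
        exact (Subgroup.comap_lt_comap_of_surjective hq).2 hK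
      have := hM.2 _ hlt
      rw [← Subgroup.map_comap_eq_self_of_surjective hq K, this, Subgroup.map_top_of_surjective q hq]
  have := hmax _ hcoatom
  rw [← hcomap]
  exact Subgroup.Normal.comap this q

end Cfsg.Agent.S0011
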