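import Cfsg.Statements.S0012
import Mathlib

set_option autoImplicit false
open Cfsg

namespace Cfsg.Agent.S0012

/-- A maximal subgroup of a finite `p`-group is normal. -/
theorem coatom_normal {G : Type*} [Group G] [Finite G] (p : ℕ) [Fact p.Prime]
    (hG : IsPGroup p G) (M : Subgroup G) (hM : IsCoatom M) : M.Normal := by
  have hn : Group.IsNilpotent G := hG.isNilpotent
  exact Subgroup.NormalizerCondition.normal_of_coatom M Group.normalizerCondition_of_isNilpotent hM

/-- A maximal subgroup of a finite `p`-group has index `p`. -/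
theorem coatom_card_quotient {G : Type*} [Group G] [Finite G] (p : ℕ) [hp : Fact p.Prime]
    (hG : IsPGroup p G) (M : Subgroup G) (hM : IsCoatom M) [M.Normal] :
    Nat.card (G ⧸ M) = p := by
  classical
  have hQ : IsPGroup p (G ⧸ M) := hG.to_quotient M
  have hnt : Nontrivial (G ⧸ M) := QuotientGroup.nontrivial_iff.mpr hM.1
  obtain ⟨n, hn0, hn⟩ := hQ.nontrivial_iff_card.mp hnt
  have hdvd : p ∣ Nat.card (G ⧸ M) := by
    rw [hn]; exact dvd_pow_self p hn0.ne'
  obtain ⟨q, hq⟩ := exists_prime_orderOf_dvd_card' p hdvd
  have hlt : M < (Subgroup.zpowers q).comap (QuotientGroup.mk' M) := by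
    refine lt_of_le_of_ne ?_ ?_
    · intro x hx
      rw [Subgroup.mem_comap]
      have : QuotientGroup.mk' M x = 1 := (QuotientGroup.eq_one_iff x).mpr hx
      rw [this]; exact one_mem _
    · intro h
      have hq1 : q ≠ 1 := by
        intro h1; rw [h1, orderOf_one] at hq; exact hp.out.one_lt.ne hq
      obtain ⟨x, rfl⟩ := QuotientGroup.mk'_surjective M q
      have hx : x ∈ (Subgroup.zpowers (QuotientGroup.mk' M x)).comap (QuotientGroup.mk' M) := by
        rw [Subgroup.mem_comap]; exact Subgroup.mem_zpowers _
      rw [← h] at hx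
      exact hq1 ((QuotientGroup.eq_one_iff x).mpr hx)
  have htop := hM.2 _ hlt
  have hz : Subgroup.zpowers q = ⊤ := by
    rw [eq_top_iff]
    intro y _
    obtain ⟨x, rfl⟩ := QuotientGroup.mk'_surjective M y
    have : x ∈ (Subgroup.zpowers q).comap (QuotientGroup.mk' M) := by rw [htop]; trivial
    exact this
  have hcard := Nat.card_zpowers q
  rw [hz, Subgroup.card_top, hq] at hcard
  exact hcard

/-- In a finite p-group every commutator and every p-th power lies in the Frattini subgroup, so the Frattini quotient is elementary abelian. -/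
theorem result {G : Type*} [Group G] [Finite G] (p : ℕ) [Fact p.Prime]
    (hG : IsPGroup p G) : commutator G ≤ frattini G ∧ ∀ x : G, x ^ p ∈ frattini G := by
  constructor
  · refine le_iInf₂ (fun M hM => ?_)
    have := coatom_normal p hG M hM
    have hc := coatom_card_quotient p hG M hM
    have : IsCyclic (G ⧸ M) := by
      have : Fact (Nat.card (G ⧸ M)).Prime := ⟨by rw [hc]; exact Fact.out⟩
      exact isCyclic_of_prime_card rfl
    let _ : CommGroup (G ⧸ M) := IsCyclic.commGroup
    rw [commutator_def, Subgroup.commutator_le]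
    intro a _ b _
    rw [← QuotientGroup.eq_one_iff]
    simp only [commutatorElement_def, QuotientGroup.mk_mul, QuotientGroup.mk_inv]
    have : (a : G ⧸ M) * b = b * a := mul_comm _ _
    rw [this]; group
  · intro x
    refine (Subgroup.mem_iInf.mpr fun M => Subgroup.mem_iInf.mpr fun hM => ?_)
    have := coatom_normal p hG M hM
    have hc := coatom_card_quotient p hG M hM
    rw [← QuotientGroup.eq_one_iff]
    rw [QuotientGroup.mk_pow, ← hc]
    exact pow_card_eq_one'

end Cfsg.Agent.S0012
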