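import Cfsg.Statements.S0015
import Mathlib

set_option autoImplicit false
open Cfsg

namespace Cfsg.Agent.S0015

/-- In a finite nilpotent group, an abelian normal subgroup that is maximal among abelian normal subgroups equals its own centralizer. -/
theorem result {G : Type*} [Group G] [Finite G] [Group.IsNilpotent G]
    (N : Subgroup G) [N.Normal] [IsMulCommutative N]
    (hmax : ∀ M : Subgroup G, M.Normal → IsMulCommutative M → N ≤ M → M = N) :
    Subgroup.centralizer (N : Set G) = N := by
  classical
  by_contra hne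
  have hNle : (N : Subgroup G) ≤ Subgroup.centralizer (N : Set G) := by
    intro a ha
    rw [Subgroup.mem_centralizer_iff]
    intro b hb
    have := (inferInstance : IsMulCommutative N).is_comm.comm ⟨b, hb⟩ ⟨a, ha⟩
    exact congrArg Subtype.val this
  set C := Subgroup.centralizer (N : Set G) with hC
  have hCnorm : C.Normal := inferInstance
  obtain ⟨n, hn⟩ := Group.IsNilpotent.nilpotent' (G := G)
  have hex : ∃ i, ¬ (C ⊓ Subgroup.upperCentralSeries G i ≤ N) := by
    refine ⟨n, ?_⟩
    rw [hn, inf_top_eq]
    intro h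
    exact hne (le_antisymm h hNle)
  have hmin := Nat.find_spec hex
  have hfind := fun m (hm : m < Nat.find hex) => Nat.find_min hex hm
  set i := Nat.find hex with hi
  obtain ⟨x, ⟨hxC, hxZ⟩, hxN⟩ := SetLike.not_le_iff_exists.1 hmin
  rcases Nat.eq_zero_or_pos i with h0 | hpos
  · rw [h0] at hxZ
    simp at hxZ
    exact hxN (by rw [hxZ]; exact one_mem _)
  obtain ⟨j, hj⟩ : ∃ j, i = j + 1 := ⟨i - 1, by omega⟩
  have hle : C ⊓ Subgroup.upperCentralSeries G j ≤ N := by
    have := hfind j (by omega)
    simpa using this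
  rw [hj] at hxZ
  have hxZ' : x ∈ Subgroup.upperCentralSeries G (j + 1) := hxZ
  rw [Subgroup.mem_upperCentralSeries_succ_iff] at hxZ'
  have hcomm : ∀ g, x * g * x⁻¹ * g⁻¹ ∈ N := by
    intro g
    apply hle
    refine ⟨?_, hxZ' g⟩
    have h1 : g * x⁻¹ * g⁻¹ ∈ C := hCnorm.conj_mem _ (inv_mem hxC) g
    have : x * g * x⁻¹ * g⁻¹ = x * (g * x⁻¹ * g⁻¹) := by group
    rw [this]
    exact mul_mem hxC h1
  let M : Subgroup G := Subgroup.closure ((N : Set G) ∪ {x})
  have hNM : N ≤ M := fun a ha => Subgroup.subset_closure (Or.inl ha)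
  have hxM : x ∈ M := Subgroup.subset_closure (Or.inr rfl)
  have hMn : M.Normal := by
    constructor
    intro m hm g
    induction hm using Subgroup.closure_induction with
    | mem y hy =>
      rcases hy with hy | hy
      · exact hNM (Subgroup.Normal.conj_mem inferInstance y hy g)
      · have hy' : y = x := hy
        subst hy'
        have h1 : g * y * g⁻¹ * y⁻¹ ∈ N := by
          have h2 := inv_mem (hcomm g)
          have h3 : (y * g * y⁻¹ * g⁻¹)⁻¹ = g * y * g⁻¹ * y⁻¹ := by group
          rwa [h3] at h2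
        have h4 : g * y * g⁻¹ = (g * y * g⁻¹ * y⁻¹) * y := by group
        rw [h4]
        exact mul_mem (hNM h1) hxM
    | one => simp
    | mul a b _ _ ha hb =>
      have : g * (a * b) * g⁻¹ = (g * a * g⁻¹) * (g * b * g⁻¹) := by group
      rw [this]
      exact mul_mem ha hb
    | inv a _ ha =>
      have : g * a⁻¹ * g⁻¹ = (g * a * g⁻¹)⁻¹ := by group
      rw [this]
      exact inv_mem ha
  have hgens : ∀ a ∈ (N : Set G) ∪ {x}, ∀ b ∈ (N : Set G) ∪ {x}, a * b = b * a := by
    have hxc : ∀ a ∈ N, x * a = a * x := fun a ha => (Subgroup.mem_centralizer_iff.1 hxC a ha).symm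
    rintro a (ha | ha) b (hb | hb)
    · exact congrArg Subtype.val
        ((inferInstance : IsMulCommutative N).is_comm.comm ⟨a, ha⟩ ⟨b, hb⟩)
    · have hb' : b = x := hb
      rw [hb']
      exact (hxc a ha).symm
    · have ha' : a = x := ha
      rw [ha']
      exact hxc b hb
    · have ha' : a = x := ha
      have hb' : b = x := hb
      rw [ha', hb']
  have hab : IsMulCommutative M := Subgroup.isMulCommutative_closure hgens
  have := hmax M hMn hab hNM
  exact hxN (this ▸ hxM)

end Cfsg.Agent.S0015
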