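import Cfsg.Statements.S0018
import Mathlib
import Cfsg.Agent.S0017

set_option autoImplicit false
open Cfsg

namespace Cfsg.Agent.S0018

variable {G : Type*} [Group G]

lemma pPrimeCore_normal (p : ℕ) (G : Type*) [Group G] : (pPrimeCore p G).Normal := by
  unfold pPrimeCore
  apply Subgroup.sSup_normal
  intro N hN
  exact hN.1

lemma le_pPrimeCore {p : ℕ} {N : Subgroup G} (hN : N.Normal) (hc : (Nat.card N).Coprime p) :
    N ≤ pPrimeCore p G := le_sSup ⟨hN, hc⟩

lemma pCore_normal (p : ℕ) (G : Type*) [Group G] : (pCore p G).Normal := by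
  unfold pCore
  apply Subgroup.sSup_normal
  intro N hN
  exact hN.1

lemma pCore_isPGroup [Finite G] (p : ℕ) : IsPGroup p (pCore p G) := by
  unfold pCore
  exact Sylow.sSup_of_normal _ (fun N hN => hN.2) (fun N hN => hN.1)

lemma coprime_sup [Finite G] {p : ℕ} {N M : Subgroup G} (hN : N.Normal)
    (h1 : (Nat.card N).Coprime p) (h2 : (Nat.card M).Coprime p) :
    (Nat.card (N ⊔ M : Subgroup G)).Coprime p := by
  have h3 : Nat.card (N ⊔ M : Subgroup G) = Nat.card N * N.relIndex M := by
    have h4 := Subgroup.relIndex_mul_index (H := N) (K := N ⊔ M) le_sup_left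
    have h5 := Subgroup.card_mul_index N
    have h6 := Subgroup.card_mul_index (N ⊔ M)
    rw [Subgroup.relIndex_sup_left] at h4
    have hpos : 0 < (N ⊔ M).index := Nat.pos_of_ne_zero Subgroup.index_ne_zero_of_finite
    apply Nat.eq_of_mul_eq_mul_right hpos
    rw [h6, ← h5, ← h4, mul_assoc]
  rw [h3]
  refine Nat.Coprime.mul_left h1 (Nat.Coprime.coprime_dvd_left (Subgroup.relIndex_dvd_card N M) h2)

/-- over a finite group the p'-core has order prime to `p`. -/
lemma pPrimeCore_coprime [Finite G] (p : ℕ) :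
    (Nat.card (pPrimeCore p G)).Coprime p := by
  classical
  unfold pPrimeCore
  have hfin : Set.Finite {N : Subgroup G | N.Normal ∧ (Nat.card N).Coprime p} := Set.toFinite _
  have : sSup {N : Subgroup G | N.Normal ∧ (Nat.card N).Coprime p} = hfin.toFinset.sup id := by
    rw [Finset.sup_id_eq_sSup]; simp
  rw [this]
  refine (Finset.sup_induction (p := fun N : Subgroup G => N.Normal ∧ (Nat.card N).Coprime p) (s := hfin.toFinset) (f := id) ?_ ?_ ?_).2
  · exact ⟨inferInstance, by simp⟩
  · rintro N ⟨hN, hN'⟩ M ⟨hM, hM'⟩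
    refine ⟨?_, coprime_sup hN hN' hM'⟩
    exact Subgroup.sup_normal N M
  · intro N hN
    simpa using hN

/-- the quotient by the `p'`-core has trivial `p'`-core. -/
lemma pPrimeCore_quotient [Finite G] (p : ℕ) [hK : (pPrimeCore p G).Normal] :
    pPrimeCore p (G ⧸ pPrimeCore p G) = ⊥ := by
  rw [eq_bot_iff]
  have hcop : (Nat.card (pPrimeCore p (G ⧸ pPrimeCore p G))).Coprime p := pPrimeCore_coprime p
  have hnorm : (pPrimeCore p (G ⧸ pPrimeCore p G)).Normal := pPrimeCore_normal p _
  set K := pPrimeCore p G with hKdef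
  set N := pPrimeCore p (G ⧸ K) with hNdef
  have hcomapNormal : (N.comap (QuotientGroup.mk' K)).Normal := Subgroup.Normal.comap hnorm _
  have hsurj : Function.Surjective (QuotientGroup.mk' K) := QuotientGroup.mk'_surjective K
  -- the order of the comap
  have hcard : Nat.card (N.comap (QuotientGroup.mk' K)) = Nat.card K * Nat.card N := by
    have h1 := Subgroup.card_mul_index (N.comap (QuotientGroup.mk' K))
    have h2 := Subgroup.card_mul_index N
    have h3 : (N.comap (QuotientGroup.mk' K)).index = N.index := Subgroup.index_comap_of_surjective N hsurj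
    have h4 : Nat.card (G ⧸ K) = K.index := rfl
    have h5 := Subgroup.card_mul_index K
    have hpos : 0 < N.index := Nat.pos_of_ne_zero Subgroup.index_ne_zero_of_finite
    apply Nat.eq_of_mul_eq_mul_right hpos
    rw [← h3, h1, h3, mul_assoc, h2, h4, h5]
  have hle : N.comap (QuotientGroup.mk' K) ≤ K := by
    apply le_pPrimeCore hcomapNormal
    rw [hcard]
    exact Nat.Coprime.mul_left (pPrimeCore_coprime p) hcop
  intro x hx
  obtain ⟨g, rfl⟩ := hsurj x
  have : g ∈ K := hle hx
  simpa using this

universe u in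
theorem main {G : Type u} [Group G] [Finite G] [Group.IsSolvable G]
    (p : ℕ) [Fact p.Prime] (P : Sylow p G) (hP : IsMulCommutative P) :
    ((P : Subgroup G) ⊔ pPrimeCore p G).Normal := by
  have hK : (pPrimeCore p G).Normal := pPrimeCore_normal p G
  set K := pPrimeCore p G with hKdef
  let π : G →* G ⧸ K := QuotientGroup.mk' K
  have hsurj : Function.Surjective π := QuotientGroup.mk'_surjective K
  have hcore : pPrimeCore p (G ⧸ K) = ⊥ := pPrimeCore_quotient p
  have hcent := Cfsg.Agent.S0017.result (G := G ⧸ K) p hcore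
  let Pbar : Sylow p (G ⧸ K) := P.mapSurjective hsurj
  have hPbar : (Pbar : Subgroup (G ⧸ K)) = (P : Subgroup G).map π := by simp [Pbar, Sylow.coe_mapSurjective]
  have hOnorm : (pCore p (G ⧸ K)).Normal := pCore_normal p _
  have hOle : pCore p (G ⧸ K) ≤ Pbar := (pCore_isPGroup p).le_sylow_of_normal Pbar
  have hPcomm : ∀ x ∈ (Pbar : Subgroup (G ⧸ K)), ∀ y ∈ (Pbar : Subgroup (G ⧸ K)), x * y = y * x := by
    rw [hPbar]
    rintro _ ⟨a, ha, rfl⟩ _ ⟨b, hb, rfl⟩
    have h := hP.is_comm.comm ⟨a, ha⟩ ⟨b, hb⟩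
    have h' : a * b = b * a := congrArg Subtype.val h
    rw [← map_mul, ← map_mul, h']
  have hPle : (Pbar : Subgroup (G ⧸ K)) ≤ pCore p (G ⧸ K) := by
    intro x hx
    apply hcent
    rw [Subgroup.mem_centralizer_iff]
    intro y hy
    exact hPcomm y (hOle hy) x hx
  have hEq : (Pbar : Subgroup (G ⧸ K)) = pCore p (G ⧸ K) := le_antisymm hPle hOle
  have hsup : (P : Subgroup G) ⊔ K = ((pCore p (G ⧸ K)).comap π) := by
    rw [← hEq, hPbar]
    have : K = π.ker := (QuotientGroup.ker_mk' K).symm
    rw [Subgroup.comap_map_eq, ← this]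
  rw [hsup]
  exact Subgroup.Normal.comap hOnorm _

/-- A finite solvable group whose Sylow p-subgroups are abelian has p-length one: a Sylow p-subgroup together with the largest normal subgroup of order prime to p generates a normal subgroup. -/
theorem result {G : Type*} [Group G] [Finite G] [Group.IsSolvable G]
    (p : ℕ) [Fact p.Prime] (P : Sylow p G) (hP : IsMulCommutative P) :
    ((P : Subgroup G) ⊔ Cfsg.pPrimeCore p G).Normal :=
  main p P hP

end Cfsg.Agent.S0018
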