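import Cfsg.Statements.S0019
import Mathlib

set_option autoImplicit false
open Cfsg

namespace Cfsg.Agent.S0019

open scoped commutatorElement

universe u

/-- A nontrivial finite solvable group has a nontrivial abelian normal subgroup. -/
lemma exists_abelian_normal {H : Type u} [Group H] [Group.IsSolvable H] [Nontrivial H] :
    ∃ A : Subgroup H, A.Normal ∧ A ≠ ⊥ ∧ ∀ x ∈ A, ∀ y ∈ A, x * y = y * x := by
  classical
  obtain ⟨n, hn⟩ := (Group.isSolvable_def H).mp ‹_›
  have hex : ∃ n, derivedSeries H n = ⊥ := ⟨n, hn⟩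
  set m := Nat.find hex with hm
  have hmspec : derivedSeries H m = ⊥ := Nat.find_spec hex
  have hm0 : m ≠ 0 := by
    intro h0
    rw [h0, derivedSeries_zero] at hmspec
    exact top_ne_bot hmspec
  obtain ⟨k, hk⟩ := Nat.exists_eq_succ_of_ne_zero hm0
  have hkne : derivedSeries H k ≠ ⊥ := Nat.find_min hex (by omega)
  refine ⟨derivedSeries H k, derivedSeries_normal H k, hkne, ?_⟩
  intro x hx y hy
  have hc : ⁅derivedSeries H k, derivedSeries H k⁆ = ⊥ := by
    rw [← derivedSeries_succ, ← Nat.succ_eq_add_one, ← hk, hmspec]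
  have : ⁅x, y⁆ ∈ ⁅derivedSeries H k, derivedSeries H k⁆ := Subgroup.commutator_mem_commutator hx hy
  rw [hc, Subgroup.mem_bot] at this
  exact commutatorElement_eq_one_iff_mul_comm.mp this

/-- A nontrivial finite solvable group has a nontrivial normal `p`-subgroup for some prime `p`. -/
lemma exists_normal_pSubgroup {H : Type u} [Group H] [Finite H] [Group.IsSolvable H] [Nontrivial H] :
    ∃ (p : ℕ) (N : Subgroup H), p.Prime ∧ N.Normal ∧ N ≠ ⊥ ∧ IsPGroup p N := by
  classical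
  obtain ⟨A, hA, hne, hcomm⟩ := exists_abelian_normal (H := H)
  obtain ⟨a, ha1⟩ := Subgroup.ne_bot_iff_exists_ne_one.mp hne
  have ha1' : (a : H) ≠ 1 := by simpa using ha1
  have hord : orderOf (a : H) ≠ 1 := by simpa [orderOf_eq_one_iff] using ha1'
  obtain ⟨p, hp, hpdvd⟩ := Nat.exists_prime_and_dvd hord
  have : Fact p.Prime := ⟨hp⟩
  have hpos : 0 < orderOf (a : H) := orderOf_pos _
  -- the element of order `p`
  set b : H := (a : H) ^ (orderOf (a : H) / p) with hb
  have hbp : b ^ p = 1 := by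
    rw [hb, ← pow_mul, Nat.div_mul_cancel hpdvd, pow_orderOf_eq_one]
  have hb1 : b ≠ 1 := by
    intro h
    have := orderOf_dvd_of_pow_eq_one h
    have hle := Nat.le_of_dvd (Nat.div_pos (Nat.le_of_dvd hpos hpdvd) hp.pos) this
    have h2 : orderOf (a : H) / p < orderOf (a : H) := Nat.div_lt_self hpos hp.one_lt
    omega
  have hbA : b ∈ A := A.pow_mem a.2 _
  let N : Subgroup H :=
    { carrier := {x | x ∈ A ∧ x ^ p = 1}
      one_mem' := ⟨A.one_mem, one_pow _⟩
      mul_mem' := by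
        rintro x y ⟨hx, hx'⟩ ⟨hy, hy'⟩
        refine ⟨A.mul_mem hx hy, ?_⟩
        have hc : Commute x y := hcomm x hx y hy
        rw [hc.mul_pow, hx', hy', one_mul]
      inv_mem' := by
        rintro x ⟨hx, hx'⟩
        exact ⟨A.inv_mem hx, by rw [inv_pow, hx', inv_one]⟩ }
  refine ⟨p, N, hp, ⟨?_⟩, ?_, ?_⟩
  · rintro x ⟨hx, hx'⟩ g
    refine ⟨hA.conj_mem x hx g, ?_⟩
    rw [conj_pow, hx', mul_one, mul_inv_cancel]
  · intro h
    have : b ∈ N := ⟨hbA, hbp⟩
    rw [h, Subgroup.mem_bot] at this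
    exact hb1 this
  · intro x
    refine ⟨1, ?_⟩
    apply Subtype.ext
    simpa using x.2.2

/-- Key lemma. -/
lemma normalClosure_le {G : Type u} [Group G] [Finite G] {p : ℕ} [Fact p.Prime]
    (H₁ H₂ : Subgroup G) (N : Subgroup G) (hN₁ : ∀ a ∈ H₁, ∀ n ∈ N, a * n * a⁻¹ ∈ N)
    (hNp : IsPGroup p N) (h12 : ∀ g : G, ∃ x ∈ H₁, ∃ y ∈ H₂, g = x * y)
    (hp : ¬ p ∣ H₂.index) : Subgroup.normalClosure (N : Set G) ≤ H₂ := by
  classical
  have : Finite (MulAction.fixedPoints N (G ⧸ H₂)) := Subtype.finite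
  obtain ⟨q, hq⟩ := hNp.nonempty_fixed_point_of_prime_not_dvd_card (G ⧸ H₂) hp
  induction q using QuotientGroup.induction_on with | _ x => ?_
  obtain ⟨a, ha, b, hb, rfl⟩ := h12 x
  have hNle : N ≤ H₂ := by
    intro n hn
    have hn' : a * n * a⁻¹ ∈ N := hN₁ a ha n hn
    have hfix := hq ⟨a * n * a⁻¹, hn'⟩
    have h3 : ((a * n * a⁻¹ * (a * b) : G) : G ⧸ H₂) = ((a * b : G) : G ⧸ H₂) := hfix
    rw [QuotientGroup.eq] at h3
    have h4 : (a * n * a⁻¹ * (a * b))⁻¹ * (a * b) = (b⁻¹ * n * b)⁻¹ := by group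
    rw [h4] at h3
    have h3' := H₂.inv_mem h3
    rw [inv_inv] at h3'
    have h5 : n = b * (b⁻¹ * n * b) * b⁻¹ := by group
    rw [h5]
    exact H₂.mul_mem (H₂.mul_mem hb h3') (H₂.inv_mem hb)
  apply (Subgroup.closure_le _).mpr
  intro y hy
  rw [Group.mem_conjugatesOfSet_iff] at hy
  obtain ⟨n, hn, hny⟩ := hy
  obtain ⟨g, rfl⟩ := isConj_iff.mp hny
  obtain ⟨a', ha', b', hb', hg⟩ := h12 g⁻¹
  have hg' : g = b'⁻¹ * a'⁻¹ := by
    have := congrArg (·⁻¹) hg
    simpa using this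
  rw [hg']
  have hn' : a'⁻¹ * n * a'⁻¹⁻¹ ∈ N := hN₁ a'⁻¹ (H₁.inv_mem ha') n hn
  have h6 : b'⁻¹ * a'⁻¹ * n * (b'⁻¹ * a'⁻¹)⁻¹ = b'⁻¹ * (a'⁻¹ * n * a'⁻¹⁻¹) * b'⁻¹⁻¹ := by group
  rw [h6]
  exact H₂.mul_mem (H₂.mul_mem (H₂.inv_mem hb') (hNle hn')) (H₂.inv_mem (H₂.inv_mem hb'))

theorem main {G : Type u} [Group G] [Finite G] (H₁ H₂ H₃ : Subgroup G)
    (h₁ : Group.IsSolvable H₁) (h₂ : Group.IsSolvable H₂) (h₃ : Group.IsSolvable H₃)
    (h12 : ∀ g : G, ∃ x ∈ H₁, ∃ y ∈ H₂, g = x * y) (h13 : ∀ g : G, ∃ x ∈ H₁, ∃ y ∈ H₃, g = x * y)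
    (hcop : H₂.index.Coprime H₃.index) : Group.IsSolvable G := by
  classical
  induction' hn : Nat.card G using Nat.strong_induction_on with n ih generalizing G
  by_cases htriv : H₁ = ⊥
  · -- then `H₂ = ⊤`
    have : H₂ = ⊤ := by
      rw [eq_top_iff]
      intro g _
      obtain ⟨x, hx, y, hy, rfl⟩ := h12 g
      rw [htriv, Subgroup.mem_bot] at hx
      simpa [hx] using hy
    rw [this] at h₂
    exact (Group.isSolvable_of_surjective (f := (⊤ : Subgroup G).subtype) (fun g => ⟨⟨g, trivial⟩, rfl⟩))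
  · have : Nontrivial H₁ := (Subgroup.nontrivial_iff_ne_bot H₁).mpr htriv
    obtain ⟨p, N₀, hp, hN₀norm, hN₀ne, hN₀p⟩ := exists_normal_pSubgroup (H := H₁)
    have : Fact p.Prime := ⟨hp⟩
    let N : Subgroup G := N₀.map H₁.subtype
    have hN₁ : ∀ a ∈ H₁, ∀ n ∈ N, a * n * a⁻¹ ∈ N := by
      rintro a ha _ ⟨n, hn, rfl⟩
      exact ⟨⟨a, ha⟩ * n * ⟨a, ha⟩⁻¹, hN₀norm.conj_mem n hn _, by simp⟩
    have hNp : IsPGroup p N := hN₀p.map _
    have hNne : N ≠ ⊥ := by
      intro h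
      apply hN₀ne
      have := (Subgroup.map_eq_bot_iff_of_injective N₀ H₁.subtype_injective).mp h
      exact this
    -- the solvable normal subgroup
    set M := Subgroup.normalClosure (N : Set G) with hM
    have hMnorm : M.Normal := Subgroup.normalClosure_normal
    have hMne : M ≠ ⊥ := by
      intro h
      apply hNne
      rw [eq_bot_iff, ← h]
      exact Subgroup.subset_normalClosure
    have hMsol : Group.IsSolvable M := by
      by_cases hp2 : p ∣ H₂.index
      · have hp3 : ¬ p ∣ H₃.index := by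
          intro h
          exact hp.one_lt.ne' (Nat.eq_one_of_dvd_coprimes hcop hp2 h)
        have hle := normalClosure_le H₁ H₃ N hN₁ hNp h13 hp3
        exact Group.isSolvable_of_isSolvable_injective (Subgroup.inclusion_injective hle)
      · have hle := normalClosure_le H₁ H₂ N hN₁ hNp h12 hp2
        exact Group.isSolvable_of_isSolvable_injective (Subgroup.inclusion_injective hle)
    -- the quotient
    let π : G →* G ⧸ M := QuotientGroup.mk' M
    have hπ : Function.Surjective π := QuotientGroup.mk'_surjective M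
    have hQ : Group.IsSolvable (G ⧸ M) := by
      have hlt : Nat.card (G ⧸ M) < n := by
        rw [← hn]
        have h1 := Subgroup.card_mul_index M
        have h2 : 1 < Nat.card M := Subgroup.one_lt_card_iff_ne_bot M |>.mpr hMne
        have h3 : 0 < M.index := Nat.pos_of_ne_zero Subgroup.index_ne_zero_of_finite
        change M.index < _
        rw [← h1]
        nlinarith
      refine ih _ hlt (H₁.map π) (H₂.map π) (H₃.map π) ?_ ?_ ?_ ?_ ?_ ?_ rfl
      · exact Group.isSolvable_of_surjective (MonoidHom.subgroupMap_surjective π H₁)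
      · exact Group.isSolvable_of_surjective (MonoidHom.subgroupMap_surjective π H₂)
      · exact Group.isSolvable_of_surjective (MonoidHom.subgroupMap_surjective π H₃)
      · intro g
        obtain ⟨g, rfl⟩ := hπ g
        obtain ⟨x, hx, y, hy, rfl⟩ := h12 g
        exact ⟨π x, ⟨x, hx, rfl⟩, π y, ⟨y, hy, rfl⟩, map_mul π x y⟩
      · intro g
        obtain ⟨g, rfl⟩ := hπ g
        obtain ⟨x, hx, y, hy, rfl⟩ := h13 g
        exact ⟨π x, ⟨x, hx, rfl⟩, π y, ⟨y, hy, rfl⟩, map_mul π x y⟩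
      · exact Nat.Coprime.coprime_dvd_left (Subgroup.index_map_dvd H₂ hπ)
          (Nat.Coprime.coprime_dvd_right (Subgroup.index_map_dvd H₃ hπ) hcop)
    exact Group.isSolvable_of_ker_le_range M.subtype π (by simp [π])

/-- A finite group that factorises as H₁H₂ and as H₁H₃ with all three subgroups solvable and the indices of H₂ and H₃ coprime is solvable. -/
theorem result {G : Type*} [Group G] [Finite G] (H₁ H₂ H₃ : Subgroup G)
    (h₁ : Group.IsSolvable H₁) (h₂ : Group.IsSolvable H₂) (h₃ : Group.IsSolvable H₃)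
    (h12 : ∀ g : G, ∃ x ∈ H₁, ∃ y ∈ H₂, g = x * y) (h13 : ∀ g : G, ∃ x ∈ H₁, ∃ y ∈ H₃, g = x * y)
    (hcop : H₂.index.Coprime H₃.index) : Group.IsSolvable G :=
  main H₁ H₂ H₃ h₁ h₂ h₃ h12 h13 hcop

end Cfsg.Agent.S0019
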