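import Cfsg.Statements.S0020
import Mathlib
import Cfsg.Agent.Lib.Solvable.Hall
import Cfsg.Agent.S0007
-- import your own Cfsg.Agent.* helpers here

set_option autoImplicit false
open Pointwise
open Cfsg

namespace Cfsg.Agent.S0020

universe u

/-- `A * B = T` as sets, when `A, B ≤ T`, `|A| * |B| = |T|` and the orders are coprime. -/
theorem set_mul_eq {G : Type u} [Group G] [Finite G] {A B T : Subgroup G} (hA : A ≤ T) (hB : B ≤ T)
    (hcard : Nat.card A * Nat.card B = Nat.card T) (hcop : (Nat.card A).Coprime (Nat.card B)) :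
    (A : Set G) * (B : Set G) = T := by
  apply Set.Subset.antisymm
  · rintro _ ⟨a, ha, b, hb, rfl⟩
    exact T.mul_mem (hA ha) (hB hb)
  · intro t ht
    have h1 : Nat.card (A.subgroupOf T) = Nat.card A :=
      Nat.card_congr (Subgroup.subgroupOfEquivOfLe hA).toEquiv
    have h2 : Nat.card (B.subgroupOf T) = Nat.card B :=
      Nat.card_congr (Subgroup.subgroupOfEquivOfLe hB).toEquiv
    have hc : Subgroup.IsComplement' (A.subgroupOf T) (B.subgroupOf T) :=
      Subgroup.isComplement'_of_coprime (by rw [h1, h2, hcard]) (by rw [h1, h2]; exact hcop)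
    obtain ⟨x, hx⟩ := hc.2 ⟨t, ht⟩
    have hx' : (x.1.1 : T).1 * (x.2.1 : T).1 = t := congrArg Subtype.val hx
    rw [← hx']
    exact Set.mul_mem_mul x.1.2 x.2.2

theorem aux (G : Type u) [Group G] [Finite G] [Group.IsSolvable G] :
    ∃ S : (p : Nat.Primes) → Sylow (p : ℕ) G,
      ∀ p q : Nat.Primes, (S p : Set G) * (S q : Set G) = (S q : Set G) * (S p : Set G) := by
  classical
  have hne : Nat.card G ≠ 0 := Nat.card_pos.ne'
  set c := Nat.card G with hc
  set v := c.factorization with hv
  let f : ℕ → ℕ := fun r => r ^ v r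
  let P : Finset ℕ := c.primeFactors
  have hPsupp : v.support = P := Nat.support_factorization c
  have hprodP : ∏ r ∈ P, f r = c := by
    have := Nat.factorization_prod_pow_eq_self hne
    rw [Finsupp.prod, Nat.support_factorization] at this
    exact this
  have hfone : ∀ r, r ∉ P → f r = 1 := by
    intro r hr
    have : v r = 0 := by
      rw [← Finsupp.notMem_support_iff, hPsupp]
      exact hr
    simp [f, this]
  -- Hall `r`-complements
  have hH : ∀ r : ℕ, r ∈ P → ∃ H : Subgroup G, H.index = f r := by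
    intro r hr
    have hrp : r.Prime := Nat.prime_of_mem_primeFactors hr
    have hcop : (c / r ^ v r).Coprime (r ^ v r) :=
      ((Nat.coprime_ordCompl hrp hne).pow_left _).symm
    have hdiv : c = (c / r ^ v r) * r ^ v r := by
      have := Nat.ordProj_mul_ordCompl_eq_self c r
      rw [mul_comm]
      exact this.symm
    obtain ⟨H, hH⟩ := Cfsg.Agent.Lib.Solvable.Hall.exists_card_eq (G := G) _ _ hdiv hcop
    refine ⟨H, ?_⟩
    have h1 := Subgroup.card_mul_index H
    rw [hH, ← hc] at h1
    have hpos : 0 < c / r ^ v r := by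
      rcases Nat.eq_zero_or_pos (c / r ^ v r) with h0 | h0
      · rw [h0, zero_mul] at hdiv
        exact absurd hdiv hne
      · exact h0
    apply Nat.eq_of_mul_eq_mul_left hpos
    rw [h1]
    exact hdiv
  let H : ℕ → Subgroup G := fun r => if hr : r ∈ P then (hH r hr).choose else ⊤
  have hHi : ∀ r ∈ P, (H r).index = f r := by
    intro r hr
    simp only [H, dif_pos hr]
    exact (hH r hr).choose_spec
  let I : Finset ℕ → Subgroup G := fun A => A.inf H
  have hIi : ∀ A : Finset ℕ, A ⊆ P → (I A).index = ∏ r ∈ A, f r := by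
    intro A
    induction A using Finset.induction_on with
    | empty => intro _; simp [I]
    | insert r A hrA ih =>
      intro hAP
      have hrP : r ∈ P := hAP (Finset.mem_insert_self _ _)
      have hAP' : A ⊆ P := fun x hx => hAP (Finset.mem_insert_of_mem hx)
      have hI : I (insert r A) = H r ⊓ I A := Finset.inf_insert
      have hrp : r.Prime := Nat.prime_of_mem_primeFactors hrP
      have hcop : (H r).index.Coprime (I A).index := by
        rw [hHi r hrP, ih hAP']
        apply Nat.Coprime.prod_right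
        intro s hs
        have hsp : s.Prime := Nat.prime_of_mem_primeFactors (hAP' hs)
        have hne' : r ≠ s := fun h => hrA (h ▸ hs)
        exact Nat.coprime_pow_primes _ _ hrp hsp hne'
      rw [hI, (Cfsg.Agent.S0007.result _ _ hcop).1, hHi r hrP, ih hAP', Finset.prod_insert hrA]
  let J : Finset ℕ → Subgroup G := fun B => I (P \ B)
  have hJc : ∀ B : Finset ℕ, Nat.card (J B) = ∏ r ∈ B, f r := by
    intro B
    have h1 : (J B).index = ∏ r ∈ P \ B, f r := hIi _ Finset.sdiff_subset
    have h2 := Subgroup.card_mul_index (J B)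
    rw [h1, ← hc, ← hprodP] at h2
    have h3 : (∏ r ∈ P \ B, f r) * ∏ r ∈ P ∩ B, f r = ∏ r ∈ P, f r := by
      rw [← Finset.sdiff_inter_self_left P B]
      exact Finset.prod_sdiff Finset.inter_subset_left
    have h4 : ∏ r ∈ P ∩ B, f r = ∏ r ∈ B, f r := by
      apply Finset.prod_subset Finset.inter_subset_right
      intro x hxB hx
      apply hfone
      intro hxP
      exact hx (Finset.mem_inter.mpr ⟨hxP, hxB⟩)
    rw [h4] at h3
    have h5 : 0 < ∏ r ∈ P \ B, f r := by
      rw [← h1]
      exact Nat.pos_of_ne_zero Subgroup.index_ne_zero_of_finite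
    apply Nat.eq_of_mul_eq_mul_right h5
    rw [h2, ← h3, mul_comm]
  have hJmono : ∀ {A B : Finset ℕ}, A ⊆ B → J A ≤ J B := by
    intro A B hAB
    exact Finset.inf_mono (Finset.sdiff_subset_sdiff subset_rfl hAB)
  let S : (p : Nat.Primes) → Sylow (p : ℕ) G := fun p =>
    haveI : Fact (p : ℕ).Prime := ⟨p.2⟩
    Sylow.ofCard (J {(p : ℕ)}) (by rw [hJc, Finset.prod_singleton])
  have hS : ∀ p : Nat.Primes, ((S p : Sylow (p : ℕ) G) : Subgroup G) = J {(p : ℕ)} := by
    intro p
    have : Fact (p : ℕ).Prime := ⟨p.2⟩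
    exact Sylow.coe_ofCard _ _
  refine ⟨S, fun p q => ?_⟩
  by_cases hpq : (p : ℕ) = (q : ℕ)
  · have : p = q := Subtype.ext hpq
    rw [this]
  have hScoe : ∀ p : Nat.Primes, (S p : Set G) = ((J {(p : ℕ)} : Subgroup G) : Set G) := by
    intro p
    rw [← hS p]
    rfl
  have hcp : ∀ p : Nat.Primes, Nat.card (J {(p : ℕ)}) = f p := by
    intro p
    rw [hJc, Finset.prod_singleton]
  have hcopf : (f p).Coprime (f q) := Nat.coprime_pow_primes _ _ p.2 q.2 hpq
  set T := J {(p : ℕ), (q : ℕ)} with hT
  have hTc : Nat.card T = f p * f q := by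
    rw [hT, hJc, Finset.prod_pair hpq]
  have hpT : J {(p : ℕ)} ≤ T := hJmono (by simp)
  have hqT : J {(q : ℕ)} ≤ T := hJmono (by simp)
  rw [hScoe p, hScoe q,
    set_mul_eq hpT hqT (by rw [hcp, hcp, hTc]) (by rw [hcp, hcp]; exact hcopf),
    set_mul_eq hqT hpT (by rw [hcp, hcp, hTc, mul_comm]) (by rw [hcp, hcp]; exact hcopf.symm)]


/-- A finite solvable group admits a Sylow system: Sylow subgroups, one for each prime, that pairwise permute as sets. -/
theorem result {G : Type*} [Group G] [Finite G] [Group.IsSolvable G] :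
    ∃ S : (p : Nat.Primes) → Sylow (p : ℕ) G,
      ∀ p q : Nat.Primes, (S p : Set G) * (S q : Set G) = (S q : Set G) * (S p : Set G) := by
  exact aux G

end Cfsg.Agent.S0020
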