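import Cfsg.Statements.S0021
import Mathlib
import Cfsg.Agent.S0006

set_option autoImplicit false
open Pointwise

namespace Cfsg.Agent.S0021

open Subgroup

/-- Two permuting subgroups: their set product is a subgroup. -/
theorem exists_subgroup_mul {G : Type*} [Group G] (A B : Subgroup G)
    (h : (A : Set G) * B = B * A) : ∃ C : Subgroup G, (C : Set G) = (A : Set G) * B := by
  refine ⟨{ carrier := (A : Set G) * B, mul_mem' := ?_, one_mem' := ?_, inv_mem' := ?_ }, rfl⟩
  · rintro _ _ ⟨a, ha, b, hb, rfl⟩ ⟨a', ha', b', hb', rfl⟩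
    have : b * a' ∈ (A : Set G) * B := by
      rw [h]; exact ⟨b, hb, a', ha', rfl⟩
    obtain ⟨a'', ha'', b'', hb'', e⟩ := this
    refine ⟨a * a'', A.mul_mem ha ha'', b'' * b', B.mul_mem hb'' hb', ?_⟩
    show a * a'' * (b'' * b') = a * b * (a' * b')
    calc a * a'' * (b'' * b') = a * (a'' * b'') * b' := by group
      _ = a * (b * a') * b' := by rw [show a'' * b'' = b * a' from e]
      _ = a * b * (a' * b') := by group
  · exact ⟨1, A.one_mem, 1, B.one_mem, by simp⟩
  · rintro _ ⟨a, ha, b, hb, rfl⟩
    have : b⁻¹ * a⁻¹ ∈ (A : Set G) * B := by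
      rw [h]; exact ⟨b⁻¹, B.inv_mem hb, a⁻¹, A.inv_mem ha, rfl⟩
    simpa [mul_inv_rev] using this

/-- A finite group with a family of pairwise permuting Sylow subgroups, one for each prime, is solvable (this direction rests on Burnside's two-prime Theorem). -/
theorem result {G : Type*} [Group G] [Finite G]
    (S : (p : Nat.Primes) → Sylow (p : ℕ) G)
    (hS : ∀ p q : Nat.Primes, (S p : Set G) * (S q : Set G) = (S q : Set G) * (S p : Set G)) :
    Group.IsSolvable G := by
  classical
  have hfact : ∀ q : Nat.Primes, Fact (q : ℕ).Prime := fun q => ⟨q.2⟩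
  have hcardS : ∀ q : Nat.Primes, Nat.card (S q : Subgroup G) =
      (q : ℕ) ^ (Nat.card G).factorization (q : ℕ) := by
    intro q
    haveI := hfact q
    exact (S q).card_eq_multiplicity
  have hco : ∀ q r : Nat.Primes, q ≠ r →
      (Nat.card (S q : Subgroup G)).Coprime (Nat.card (S r : Subgroup G)) := by
    intro q r hqr
    rw [hcardS, hcardS]
    exact Nat.Coprime.pow _ _ ((Nat.coprime_primes q.2 r.2).mpr fun h => hqr (Subtype.ext h))
  have hS' : ∀ p q : Nat.Primes, ((S p : Subgroup G) : Set G) * ((S q : Subgroup G) : Set G) =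
      ((S q : Subgroup G) : Set G) * ((S p : Subgroup G) : Set G) := hS
  -- build joins over finsets of primes
  have key : ∀ T : Finset Nat.Primes, ∃ C : Subgroup G, (∀ q ∈ T, (S q : Subgroup G) ≤ C) ∧
      Nat.card C = ∏ q ∈ T, Nat.card (S q : Subgroup G) ∧
      ∀ q, ((S q : Subgroup G) : Set G) * (C : Set G) = (C : Set G) * ((S q : Subgroup G) : Set G) := by
    intro T
    induction T using Finset.induction_on with
    | empty =>
      refine ⟨⊥, by simp, by simp, ?_⟩
      intro q
      simp
    | insert r T hr ih =>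
      obtain ⟨C, hC, hcard, hcomm⟩ := ih
      obtain ⟨D, hD⟩ := exists_subgroup_mul (S r : Subgroup G) C (hcomm r)
      have hrD : (S r : Subgroup G) ≤ D := by
        intro x hx
        have : x ∈ (D : Set G) := by
          rw [hD]; exact ⟨x, hx, 1, C.one_mem, by simp⟩
        exact this
      have hCD : C ≤ D := by
        intro x hx
        have : x ∈ (D : Set G) := by
          rw [hD]; exact ⟨1, (S r : Subgroup G).one_mem, x, hx, by simp⟩
        exact this
      refine ⟨D, ?_, ?_, ?_⟩
      · intro q hq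
        rcases Finset.mem_insert.mp hq with rfl | hq
        · exact hrD
        · exact (hC q hq).trans hCD
      · rw [Finset.prod_insert hr, ← hcard]
        apply le_antisymm
        · have h1 : Nat.card (D : Set G) ≤ Nat.card (S r : Subgroup G) * Nat.card C := by
            rw [hD]; exact Set.natCard_mul_le
          exact h1
        · apply Nat.le_of_dvd Nat.card_pos
          have hc : (Nat.card (S r : Subgroup G)).Coprime (Nat.card C) := by
            rw [hcard]
            exact Nat.Coprime.prod_right fun q hq =>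
              hco r q (fun h => hr (h ▸ hq))
          exact hc.mul_dvd_of_dvd_of_dvd (card_dvd_of_le hrD) (card_dvd_of_le hCD)
      · intro q
        rw [hD, ← mul_assoc, hS' q r, mul_assoc, hcomm q, ← mul_assoc]
  refine Cfsg.Agent.S0006.main ?_
  intro p hp
  have hn0 : Nat.card G ≠ 0 := Nat.card_pos.ne'
  let T : Finset Nat.Primes := ((Nat.card G).primeFactors.erase p).subtype _
  obtain ⟨C, hC, hcard, -⟩ := key T
  have hmem : ∀ q : Nat.Primes, (q : ℕ) ∣ Nat.card G → (q : ℕ) ≠ p → q ∈ T := by
    intro q hq hqp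
    refine Finset.mem_subtype.mpr (Finset.mem_erase.mpr ⟨hqp, Nat.mem_primeFactors.mpr ⟨q.2, hq, hn0⟩⟩)
  have hmem' : ∀ q ∈ T, (q : ℕ) ≠ p := by
    intro q hq
    exact (Finset.mem_erase.mp (Finset.mem_subtype.mp hq)).1
  refine ⟨C, ?_, ?_⟩
  · -- the index is a power of `p`
    have hi0 : C.index ≠ 0 := index_ne_zero_of_finite
    refine ⟨_, Nat.eq_prime_pow_of_unique_prime_dvd hi0 ?_⟩
    intro d hd hdi
    by_contra hdp
    have hdG : d ∣ Nat.card G := hdi.trans C.index_dvd_card
    have hq := hC ⟨d, hd⟩ (hmem ⟨d, hd⟩ hdG hdp)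
    haveI : Fact d.Prime := ⟨hd⟩
    have hnd := (S ⟨d, hd⟩).not_dvd_index
    exact hnd (hdi.trans (index_dvd_of_le hq))
  · -- `p` does not divide the order
    rw [hcard]
    intro hd
    obtain ⟨q, hq, hqd⟩ := (Prime.dvd_finsetProd_iff hp.prime _).mp hd
    rw [hcardS] at hqd
    have h9 := (Nat.prime_dvd_prime_iff_eq hp q.2).mp (hp.dvd_of_dvd_pow hqd)
    exact hmem' q hq h9.symm

end Cfsg.Agent.S0021
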