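import Cfsg.Statements.S0036
import Mathlib
import Cfsg.Agent.Lib.Frobenius.Even

set_option autoImplicit false
open Cfsg

namespace Cfsg.Agent.S0036

/-- When a Frobenius complement contains an involution, an elementary argument shows the Frobenius kernel is closed under multiplication (hence a subgroup). -/
theorem result {G : Type*} [Group G] [Finite G] (H : Subgroup G) (hH : Cfsg.IsFrobeniusComplement H)
    (t : G) (ht : t ∈ H) (ht1 : t ≠ 1) (ht2 : t * t = 1) :
    ∀ x ∈ Cfsg.frobeniusKernel H, ∀ y ∈ Cfsg.frobeniusKernel H, x * y ∈ Cfsg.frobeniusKernel H :=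
  fun _ hx _ hy => Lib.Frobenius.Even.kernel_mul_mem hH ht ht1 ht2 hx hy

end Cfsg.Agent.S0036
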