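import Cfsg.Statements.S0038
import Mathlib
import Cfsg.Agent.S0042
import Cfsg.Agent.Lib.Coprime.SZ
import Cfsg.Agent.Lib.Nilpotent.Elements
import Cfsg.Agent.Lib.Frobenius.Basic
-- import your own Cfsg.Agent.* helpers here

set_option autoImplicit false
open Pointwise
open Cfsg

namespace Cfsg.Agent.S0038

/-- Two Frobenius kernels are equal if one is contained in the other. -/
theorem kernel_le_of_le {G : Type*} [Group G] [Finite G] {H : Subgroup G}
    (hH : Cfsg.IsFrobeniusComplement H) {K K₀ : Subgroup G} (hK : (K : Set G) = Cfsg.frobeniusKernel H)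
    (hnil : Group.IsNilpotent K₀) (hle : K ≤ K₀) : K₀ ≤ K := by
  classical
  have hc := Cfsg.Agent.Lib.Frobenius.Basic.kernel_isComplement' hH hK
  have hcop := Cfsg.Agent.Lib.Frobenius.Basic.coprime_kernel hH hK
  intro x hx
  by_contra hxK
  obtain ⟨⟨k, h⟩, hkh⟩ := hc.existsUnique x |>.exists
  have hkh' : (k : G) * (h : G) = x := hkh
  have hh1 : (h : G) ≠ 1 := by
    intro h1
    apply hxK
    rw [← hkh', h1, mul_one]
    exact k.2
  have hhK₀ : (h : G) ∈ K₀ := by
    have : (h : G) = (k : G)⁻¹ * x := by rw [← hkh']; group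
    rw [this]
    exact K₀.mul_mem (K₀.inv_mem (hle k.2)) hx
  -- everything in K commutes with h
  have hbot : K = ⊥ := by
    rw [eq_bot_iff]
    intro y hy
    have hco : (orderOf (⟨y, hle hy⟩ : K₀)).Coprime (orderOf (⟨h, hhK₀⟩ : K₀)) := by
      have h1 : orderOf (⟨y, hle hy⟩ : K₀) ∣ Nat.card K := by
        have : orderOf (⟨y, hle hy⟩ : K₀) = orderOf (⟨y, hy⟩ : K) := by
          rw [← Subgroup.orderOf_coe, ← Subgroup.orderOf_coe (⟨y, hy⟩ : K)]
        rw [this]
        exact orderOf_dvd_natCard _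
      have h2 : orderOf (⟨h, hhK₀⟩ : K₀) ∣ Nat.card H := by
        have : orderOf (⟨h, hhK₀⟩ : K₀) = orderOf h := by
          rw [← Subgroup.orderOf_coe, ← Subgroup.orderOf_coe h]
        rw [this]
        exact orderOf_dvd_natCard _
      exact Nat.Coprime.coprime_dvd_left h1 (Nat.Coprime.coprime_dvd_right h2 hcop)
    have hcomm := Cfsg.Agent.Lib.Nilpotent.Elements.commute_of_coprime_orderOf hco
    have hcomm' : (h : G) * y = y * h := by
      have := congrArg Subtype.val hcomm.eq
      simpa using this.symm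
    exact Subgroup.mem_bot.mpr (Cfsg.Agent.Lib.Frobenius.Basic.kernel_fpf hH hK h.2 hh1 hy hcomm')
  apply hH.2.1
  have hidx : H.index = 1 := by
    rw [← Cfsg.Agent.Lib.Frobenius.Basic.card_kernel hH hK, hbot]
    simp
  exact Subgroup.index_eq_one.mp hidx

/-- All Frobenius complements of a finite group are conjugate to one another. -/
theorem result {G : Type*} [Group G] [Finite G] (H H₀ : Subgroup G)
    (hH : Cfsg.IsFrobeniusComplement H) (hH₀ : Cfsg.IsFrobeniusComplement H₀) :
    ∃ g : G, MulAut.conj g • H₀ = H := by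
    classical
  obtain ⟨K, hK, hKn, -⟩ := Cfsg.Agent.S0042.result H hH
  obtain ⟨K₀, hK₀, hK₀n, -⟩ := Cfsg.Agent.S0042.result H₀ hH₀
  have hnil : Group.IsNilpotent K := by
    obtain ⟨K', hK', _, hn⟩ := Cfsg.Agent.S0042.result H hH
    have : K' = K := SetLike.coe_injective (hK'.trans hK.symm)
    exact this ▸ hn
  have hnil₀ : Group.IsNilpotent K₀ := by
    obtain ⟨K', hK', _, hn⟩ := Cfsg.Agent.S0042.result H₀ hH₀
    have : K' = K₀ := SetLike.coe_injective (hK'.trans hK₀.symm)
    exact this ▸ hn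
  have heq : K = K₀ := by
    rcases Cfsg.Agent.Lib.Frobenius.Basic.kernel_comparable hH hK hK₀n with h | h
    · exact le_antisymm h (kernel_le_of_le hH hK hnil₀ h)
    · exact le_antisymm (kernel_le_of_le hH₀ hK₀ hnil h) h
  subst heq
  haveI := hKn
  have hcop : (Nat.card K).Coprime K.index := by
    rw [(Cfsg.Agent.Lib.Frobenius.Basic.kernel_isComplement' hH hK).symm.index_eq_card]
    exact Cfsg.Agent.Lib.Frobenius.Basic.coprime_kernel hH hK
  have h1 : Nat.card H = K.index := (Cfsg.Agent.Lib.Frobenius.Basic.kernel_isComplement' hH hK).symm.index_eq_card.symm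
  have h2 : Nat.card H₀ = K.index := (Cfsg.Agent.Lib.Frobenius.Basic.kernel_isComplement' hH₀ hK₀).symm.index_eq_card.symm
  exact Cfsg.Agent.Lib.Coprime.SZ.conj_of_solvable K hcop (Or.inl inferInstance) H₀ H h2 h1

end Cfsg.Agent.S0038
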