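import Cfsg.Statements.S0039
import Mathlib
import Cfsg.Agent.Lib.Frobenius.Basic

set_option autoImplicit false
open Cfsg

namespace Cfsg.Agent.S0039

open Cfsg.Agent.Lib.Frobenius.Basic

/-- In a finite group that is a semidirect product of a normal subgroup K by a nontrivial subgroup H, H is a Frobenius complement exactly when each nonidentity element of H acts without nonidentity fixed points on K by conjugation. -/
theorem result {G : Type*} [Group G] [Finite G] (K H : Subgroup G) [K.Normal]
    (hc : Subgroup.IsComplement' K H) (hK : K ≠ ⊥) (hH : H ≠ ⊥) :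
    Cfsg.IsFrobeniusComplement H ↔ ∀ h ∈ H, h ≠ 1 → K ⊓ Subgroup.centralizer {h} = ⊥ := by
  have hdis : ∀ x, x ∈ K → x ∈ H → x = 1 := by
    intro x hx hx'
    have := hc.disjoint.le_bot (Subgroup.mem_inf.mpr ⟨hx, hx'⟩)
    simpa using this
  constructor
  · intro hF h hh hh1
    rw [eq_bot_iff]
    intro k hk
    obtain ⟨hk1, hk2⟩ := Subgroup.mem_inf.mp hk
    have hcomm : h * k = k * h := by
      have := Subgroup.mem_centralizer_iff.mp hk2 h rfl
      exact this
    by_contra hk0
    have hk3 : k ∈ H := by
      apply IsFrobeniusComplement.mem_of_conj hF hh hh1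
      have : k⁻¹ * h * k = h := by
        calc k⁻¹ * h * k = k⁻¹ * (h * k) := by group
          _ = k⁻¹ * (k * h) := by rw [hcomm]
          _ = h := by group
      rw [this]; exact hh
    exact hk0 (Subgroup.mem_bot.mpr (hdis k hk1 hk3))
  · intro hfpf
    refine isFrobeniusComplement_of_complement hc hK hH ?_
    intro h hh hh1 k hk hcomm
    have : k ∈ K ⊓ Subgroup.centralizer {h} := by
      refine Subgroup.mem_inf.mpr ⟨hk, Subgroup.mem_centralizer_iff.mpr ?_⟩
      intro y hy
      rw [Set.mem_singleton_iff] at hy
      subst hy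
      exact hcomm
    rw [hfpf h hh hh1] at this
    simpa using this

end Cfsg.Agent.S0039
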