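import Cfsg.Statements.S0040
import Mathlib
import Cfsg.Agent.Lib.Frobenius.SylowFpf

set_option autoImplicit false
open Cfsg

namespace Cfsg.Agent.S0040

open Cfsg.Agent.Lib.Frobenius.SylowFpf

/-- Sylow subgroups of Frobenius complements: if H complements a nontrivial normal subgroup K and every nonidentity element of H has trivial centraliser in K, then each Sylow subgroup of H is cyclic or isomorphic to a generalized quaternion group. -/
theorem result {G : Type*} [Group G] [Finite G] (K H : Subgroup G) [K.Normal]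
    (hc : Subgroup.IsComplement' K H) (hK : K ≠ ⊥) (hfpf : ∀ h ∈ H, h ≠ 1 → K ⊓ Subgroup.centralizer {h} = ⊥)
    (p : ℕ) [Fact p.Prime] (P : Sylow p H) :
    IsCyclic P ∨ ∃ n : ℕ, Nonempty (P ≃* QuaternionGroup (2 ^ n)) := by
  let P' : Subgroup G := (P : Subgroup H).map H.subtype
  have hP'H : P' ≤ H := by
    rintro _ ⟨x, -, rfl⟩
    exact x.2
  let e : (P : Subgroup H) ≃* P' := Subgroup.equivMapOfInjective _ _ H.subtype_injective
  have hP' : IsPGroup p P' := IsPGroup.of_equiv P.isPGroup' e
  have hfpf' : ∀ a ∈ P', a ≠ 1 → ∀ v ∈ K, a * v = v * a → v = 1 := by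
    intro a ha ha1 v hv hcomm
    have h1 : v ∈ K ⊓ Subgroup.centralizer {a} := by
      refine ⟨hv, ?_⟩
      change v ∈ Subgroup.centralizer {a}
      rw [Subgroup.mem_centralizer_iff]
      intro y hy
      rw [Set.mem_singleton_iff.mp hy]
      exact hcomm
    rw [hfpf a (hP'H ha) ha1] at h1
    exact (Subgroup.mem_bot.mp h1)
  have hnorm : P' ≤ Subgroup.normalizer (K : Set G) := by
    intro a _
    rw [Subgroup.mem_normalizer_iff]
    intro x
    constructor
    · intro hx
      exact ‹K.Normal›.conj_mem x hx a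
    · intro hx
      have := ‹K.Normal›.conj_mem _ hx a⁻¹
      simpa [mul_assoc] using this
  rcases isCyclic_or_quaternion_of_fpf hK hnorm hfpf' hP' with h | ⟨-, n, ⟨f⟩⟩
  · left
    exact isCyclic_of_surjective e.symm.toMonoidHom e.symm.surjective
  · right
    exact ⟨n, ⟨e.trans f⟩⟩

end Cfsg.Agent.S0040
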