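import Cfsg.Statements.S0041
import Mathlib
import Cfsg.Agent.Lib.Frobenius.Norm

set_option autoImplicit false
open Cfsg

namespace Cfsg.Agent.S0041

open scoped IsMulCommutative in
/-- A group acting on a nontrivial abelian group so that no nonidentity element has a nonidentity fixed point is cyclic, provided it is abelian or its order is a product of two (possibly equal) primes. -/
theorem result {G : Type*} [Group G] [Finite G] (A V : Subgroup G) [IsMulCommutative V]
    (hV : V ≠ ⊥) (hAV : A ≤ Subgroup.normalizer (V : Set G)) (hfpf : ∀ a ∈ A, a ≠ 1 → V ⊓ Subgroup.centralizer {a} = ⊥)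
    (hA : IsMulCommutative A ∨ ∃ p q : ℕ, p.Prime ∧ q.Prime ∧ Nat.card A = p * q) : IsCyclic A := by
  classical
  have hfix : ∀ a ∈ A, a ≠ 1 → ∀ v ∈ V, a * v = v * a → v = 1 := by
    intro a ha ha1 v hv hc
    have : v ∈ V ⊓ Subgroup.centralizer {a} := by
      refine Subgroup.mem_inf.mpr ⟨hv, Subgroup.mem_centralizer_iff.mpr ?_⟩
      intro y hy
      rw [Set.mem_singleton_iff] at hy
      subst hy
      exact hc
    rw [hfpf a ha ha1] at this
    simpa using this
  -- the abelian case
  have habel : IsMulCommutative A → IsCyclic A := by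
    intro hcomm
    by_contra hnc
    letI : CommGroup A := inferInstance
    obtain ⟨p, hp, E, hE, hEexp⟩ := Lib.Frobenius.Norm.exists_elementary_of_not_isCyclic (A := A) hnc
    haveI : Fact p.Prime := ⟨hp⟩
    have hcard : Nat.card (E.map A.subtype) = p ^ 2 := by
      rw [Subgroup.card_map_of_injective A.subtype_injective, hE]
    refine Lib.Frobenius.Norm.no_elementary_of_fpf (E.map A.subtype) V hV ?_ ?_ hcard ?_
    · rintro _ ⟨x, -, rfl⟩
      exact hAV x.2
    · rintro _ ⟨x, -, rfl⟩ hx1 v hv hc
      exact hfix x x.2 hx1 v hv hc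
    · rintro _ ⟨x, hx, rfl⟩
      have := hEexp x hx
      exact congrArg Subtype.val this
  rcases hA with hA | ⟨p, q, hp, hq, hcard⟩
  · exact habel hA
  · rcases lt_trichotomy p q with hpq | rfl | hpq
    · exact Lib.Frobenius.Norm.isCyclic_of_card_mul_of_fpf A V hV hAV hfix hp hq hpq hcard
    · apply habel
      haveI : Fact p.Prime := ⟨hp⟩
      have hc : Nat.card A = p ^ 2 := by rw [hcard, sq]
      exact IsPGroup.isMulCommutative_of_card_eq_prime_sq hc
    · exact Lib.Frobenius.Norm.isCyclic_of_card_mul_of_fpf A V hV hAV hfix hq hp hpq (by rw [hcard, mul_comm])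

end Cfsg.Agent.S0041
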