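import Cfsg.Statements.S0047
import Mathlib

set_option autoImplicit false
open Cfsg
open scoped commutatorElement

namespace Cfsg.Agent.S0047

/-- A finite group which is the product AB of two abelian subgroups A and B is solvable. -/
theorem result {G : Type*} [Group G] [Finite G] (A B : Subgroup G)
    [IsMulCommutative A] [IsMulCommutative B] (hAB : ∀ g : G, ∃ a ∈ A, ∃ b ∈ B, g = a * b) :
    Group.IsSolvable G := by
  have hBA : ∀ g : G, ∃ b ∈ B, ∃ a ∈ A, g = b * a := by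
    intro g
    obtain ⟨a, ha, b, hb, h⟩ := hAB g⁻¹
    refine ⟨b⁻¹, B.inv_mem hb, a⁻¹, A.inv_mem ha, ?_⟩
    rw [← mul_inv_rev, ← h, inv_inv]
  have hAc : ∀ x ∈ A, ∀ y ∈ A, x * y = y * x := fun x hx y hy =>
    Subgroup.mem_centralizer_iff.mp (Subgroup.le_centralizer A hy) x hx
  have hBc : ∀ x ∈ B, ∀ y ∈ B, x * y = y * x := fun x hx y hy =>
    Subgroup.mem_centralizer_iff.mp (Subgroup.le_centralizer B hy) x hx
  -- the key identity
  have key : ∀ a ∈ A, ∀ b ∈ B, ∀ c ∈ A, ∀ d ∈ B, ∃ a' ∈ A, ∃ b' ∈ B,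
      (c * d) * ⁅a, b⁆ * (c * d)⁻¹ = ⁅a', b'⁆ ∧ (d * c) * ⁅a, b⁆ * (d * c)⁻¹ = ⁅a', b'⁆ := by
    intro a ha b hb c hc d hd
    obtain ⟨b2, hb2, a2, ha2, h1⟩ := hBA (c * b * c⁻¹)
    obtain ⟨a3, ha3, b3, hb3, h2⟩ := hAB (d * a * d⁻¹)
    -- the elementary pieces
    have hca : c * a = a * c := hAc c hc a ha
    have hca3 : c * a3 = a3 * c := hAc c hc a3 ha3
    have hdb : d * b = b * d := hBc d hd b hb
    have hdb2 : d * b2 = b2 * d := hBc d hd b2 hb2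
    have ha2a : a2 * a = a * a2 := hAc a2 ha2 a ha
    have ha2a3 : a2 * a3 = a3 * a2 := hAc a2 ha2 a3 ha3
    have hb3b : b3 * b = b * b3 := hBc b3 hb3 b hb
    have hb3b2 : b3 * b2 = b2 * b3 := hBc b3 hb3 b2 hb2
    -- computing with conjugates
    have E1 : d * (a * b * a⁻¹ * b⁻¹) * d⁻¹ = a3 * b * a3⁻¹ * b⁻¹ := by
      have e1 : d * (a * b * a⁻¹ * b⁻¹) * d⁻¹ = (d * a * d⁻¹) * (d * b * d⁻¹) * (d * a * d⁻¹)⁻¹ * (d * b * d⁻¹)⁻¹ := by group
      have e2 : d * b * d⁻¹ = b := by rw [hdb]; group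
      rw [e1, e2, h2]
      calc a3 * b3 * b * (a3 * b3)⁻¹ * b⁻¹ = a3 * (b3 * b) * b3⁻¹ * a3⁻¹ * b⁻¹ := by group
        _ = a3 * (b * b3) * b3⁻¹ * a3⁻¹ * b⁻¹ := by rw [hb3b]
        _ = a3 * b * a3⁻¹ * b⁻¹ := by group
    have E2 : c * (a3 * b * a3⁻¹ * b⁻¹) * c⁻¹ = a3 * b2 * a3⁻¹ * b2⁻¹ := by
      have e1 : c * (a3 * b * a3⁻¹ * b⁻¹) * c⁻¹ = (c * a3 * c⁻¹) * (c * b * c⁻¹) * (c * a3 * c⁻¹)⁻¹ * (c * b * c⁻¹)⁻¹ := by group
      have e2 : c * a3 * c⁻¹ = a3 := by rw [hca3]; group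
      rw [e1, e2, h1]
      calc a3 * (b2 * a2) * a3⁻¹ * (b2 * a2)⁻¹ = a3 * b2 * (a2 * a3⁻¹ * a2⁻¹) * b2⁻¹ := by group
        _ = a3 * b2 * a3⁻¹ * b2⁻¹ := by
          have : a2 * a3⁻¹ * a2⁻¹ = a3⁻¹ := by
            have h3 : a3⁻¹ * a2 = a2 * a3⁻¹ := by
              rw [eq_mul_inv_iff_mul_eq, mul_assoc, ha2a3, ← mul_assoc]; group
            rw [← h3]; group
          rw [this]
    have E3 : c * (a * b * a⁻¹ * b⁻¹) * c⁻¹ = a * b2 * a⁻¹ * b2⁻¹ := by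
      have e1 : c * (a * b * a⁻¹ * b⁻¹) * c⁻¹ = (c * a * c⁻¹) * (c * b * c⁻¹) * (c * a * c⁻¹)⁻¹ * (c * b * c⁻¹)⁻¹ := by group
      have e2 : c * a * c⁻¹ = a := by rw [hca]; group
      rw [e1, e2, h1]
      calc a * (b2 * a2) * a⁻¹ * (b2 * a2)⁻¹ = a * b2 * (a2 * a⁻¹ * a2⁻¹) * b2⁻¹ := by group
        _ = a * b2 * a⁻¹ * b2⁻¹ := by
          have : a2 * a⁻¹ * a2⁻¹ = a⁻¹ := by
            have h3 : a⁻¹ * a2 = a2 * a⁻¹ := by
              rw [eq_mul_inv_iff_mul_eq, mul_assoc, ha2a, ← mul_assoc]; group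
            rw [← h3]; group
          rw [this]
    have E4 : d * (a * b2 * a⁻¹ * b2⁻¹) * d⁻¹ = a3 * b2 * a3⁻¹ * b2⁻¹ := by
      have e1 : d * (a * b2 * a⁻¹ * b2⁻¹) * d⁻¹ = (d * a * d⁻¹) * (d * b2 * d⁻¹) * (d * a * d⁻¹)⁻¹ * (d * b2 * d⁻¹)⁻¹ := by group
      have e2 : d * b2 * d⁻¹ = b2 := by rw [hdb2]; group
      rw [e1, e2, h2]
      calc a3 * b3 * b2 * (a3 * b3)⁻¹ * b2⁻¹ = a3 * (b3 * b2) * b3⁻¹ * a3⁻¹ * b2⁻¹ := by group
        _ = a3 * (b2 * b3) * b3⁻¹ * a3⁻¹ * b2⁻¹ := by rw [hb3b2]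
        _ = a3 * b2 * a3⁻¹ * b2⁻¹ := by group
    refine ⟨a3, ha3, b2, hb2, ?_, ?_⟩
    · calc (c * d) * ⁅a, b⁆ * (c * d)⁻¹ = c * (d * (a * b * a⁻¹ * b⁻¹) * d⁻¹) * c⁻¹ := by
            rw [commutatorElement_def]; group
        _ = ⁅a3, b2⁆ := by rw [E1, E2, commutatorElement_def]
    · calc (d * c) * ⁅a, b⁆ * (d * c)⁻¹ = d * (c * (a * b * a⁻¹ * b⁻¹) * c⁻¹) * d⁻¹ := by
            rw [commutatorElement_def]; group
        _ = ⁅a3, b2⁆ := by rw [E3, E4, commutatorElement_def]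
  set X : Set G := {x | ∃ a ∈ A, ∃ b ∈ B, x = ⁅a, b⁆} with hX
  have hXconj : ∀ g : G, ∀ x ∈ X, g * x * g⁻¹ ∈ X := by
    rintro g _ ⟨a, ha, b, hb, rfl⟩
    obtain ⟨d, hd, c, hc, rfl⟩ := hBA g
    obtain ⟨a', ha', b', hb', -, h⟩ := key a ha b hb c hc d hd
    exact ⟨a', ha', b', hb', h⟩
  have hXcomm : ∀ x ∈ X, ∀ y ∈ X, x * y = y * x := by
    rintro _ ⟨c, hc, d, hd, rfl⟩ y hy
    -- `y = (d c) y' (d c)⁻¹` for `y' = (d c)⁻¹ y (d c) ∈ X`
    have hy' := hXconj (d * c)⁻¹ y hy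
    obtain ⟨a, ha, b, hb, hab⟩ := hy'
    obtain ⟨a', ha', b', hb', h1, h2⟩ := key a ha b hb c hc d hd
    have hy2 : (d * c) * ⁅a, b⁆ * (d * c)⁻¹ = y := by
      rw [← hab]; group
    have h3 : (c * d) * ⁅a, b⁆ * (c * d)⁻¹ = y := by rw [h1, ← h2, hy2]
    have hcd : ⁅c, d⁆ = (c * d) * (d * c)⁻¹ := by
      rw [commutatorElement_def]; group
    rw [hcd]
    calc (c * d) * (d * c)⁻¹ * y = (c * d) * (d * c)⁻¹ * ((d * c) * ⁅a, b⁆ * (d * c)⁻¹) := by rw [hy2]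
      _ = ((c * d) * ⁅a, b⁆ * (c * d)⁻¹) * ((c * d) * (d * c)⁻¹) := by group
      _ = y * ((c * d) * (d * c)⁻¹) := by rw [h3]
  set D : Subgroup G := Subgroup.closure X with hD
  have hDc : IsMulCommutative D := Subgroup.isMulCommutative_closure hXcomm
  have hDn : D.Normal := by
    constructor
    intro n hn g
    induction hn using Subgroup.closure_induction with
    | mem x hx => exact Subgroup.subset_closure (hXconj g x hx)
    | one => simp
    | mul x y _ _ hx hy =>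
      have : g * (x * y) * g⁻¹ = (g * x * g⁻¹) * (g * y * g⁻¹) := by group
      rw [this]; exact D.mul_mem hx hy
    | inv x _ hx =>
      have : g * x⁻¹ * g⁻¹ = (g * x * g⁻¹)⁻¹ := by group
      rw [this]; exact D.inv_mem hx
  -- the quotient is abelian
  have hcomm : ∀ g h : G, ⁅g, h⁆ ∈ D := by
    intro g h
    let π := QuotientGroup.mk' D
    have hker : ∀ z : G, π z = 1 → z ∈ D := fun z hz => (QuotientGroup.eq_one_iff z).mp hz
    apply hker
    have hpi : ∀ a ∈ A, ∀ b ∈ B, π a * π b = π b * π a := by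
      intro a ha b hb
      have h1 : π ⁅a, b⁆ = 1 := (QuotientGroup.eq_one_iff _).mpr
        (Subgroup.subset_closure ⟨a, ha, b, hb, rfl⟩)
      rw [commutatorElement_def, map_mul, map_mul, map_mul, map_inv, map_inv] at h1
      have h2 : π a * π b * (π a)⁻¹ = π b := by
        rw [mul_inv_eq_one] at h1; exact h1
      exact mul_inv_eq_iff_eq_mul.mp h2
    obtain ⟨a, ha, b, hb, rfl⟩ := hAB g
    obtain ⟨a', ha', b', hb', rfl⟩ := hAB h
    have h1 : π a * π a' = π a' * π a := by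
      rw [← map_mul, ← map_mul, hAc a ha a' ha']
    have h2 : π b * π b' = π b' * π b := by
      rw [← map_mul, ← map_mul, hBc b hb b' hb']
    have hc : π (a * b) * π (a' * b') = π (a' * b') * π (a * b) := by
      simp only [map_mul]
      calc π a * π b * (π a' * π b') = π a * (π b * π a') * π b' := by group
        _ = π a * (π a' * π b) * π b' := by rw [hpi a' ha' b hb]
        _ = π a' * (π a * π b') * π b := by
            calc π a * (π a' * π b) * π b' = (π a * π a') * (π b * π b') := by group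
              _ = (π a' * π a) * (π b' * π b) := by rw [h1, h2]
              _ = π a' * (π a * π b') * π b := by group
        _ = π a' * (π b' * π a) * π b := by rw [hpi a ha b' hb']
        _ = π a' * π b' * (π a * π b) := by group
    rw [commutatorElement_def]
    have e : π ((a * b) * (a' * b') * (a * b)⁻¹ * (a' * b')⁻¹)
        = π (a * b) * π (a' * b') * (π (a * b))⁻¹ * (π (a' * b'))⁻¹ := by
      simp only [map_mul, map_inv]
    rw [e, hc]
    group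
  have h1 : derivedSeries G 1 ≤ D := by
    rw [derivedSeries_succ, derivedSeries_zero, Subgroup.commutator_le]
    intro x _ y _
    exact hcomm x y
  have h2 : derivedSeries G 2 = ⊥ := by
    rw [derivedSeries_succ, eq_bot_iff, Subgroup.commutator_le]
    intro x hx y hy
    have hxy : x * y = y * x :=
      Subgroup.mem_centralizer_iff.mp (Subgroup.le_centralizer D (h1 hy)) x (h1 hx)
    rw [Subgroup.mem_bot, commutatorElement_eq_one_iff_mul_comm]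
    exact hxy
  exact ⟨⟨2, h2⟩⟩

end Cfsg.Agent.S0047
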