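import Cfsg.Statements.S0049
import Mathlib
-- import your own Cfsg.Agent.* helpers here

set_option autoImplicit false
open Cfsg

namespace Cfsg.Agent.S0049

/-- A prime divisor of the order of a finite group also divides the index of the Frattini subgroup. -/
theorem result {G : Type*} [Group G] [Finite G] (p : ℕ) (hp : p.Prime) (hdvd : p ∣ Nat.card G) :
    p ∣ (frattini G).index := by
  classical
  haveI : Fact p.Prime := ⟨hp⟩
  by_contra hnd
  have hcop : Nat.Coprime p (frattini G).index := (Nat.Prime.coprime_iff_not_dvd hp).mpr hnd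
  obtain ⟨P⟩ : Nonempty (Sylow p G) := inferInstance
  -- `P` lies in the Frattini subgroup
  have hPle : (P : Subgroup G) ≤ frattini G := by
    intro x hx
    obtain ⟨k, hk⟩ := P.isPGroup' ⟨x, hx⟩
    have hk' : x ^ p ^ k = 1 := by
      have := congrArg Subtype.val hk
      simpa using this
    have h1 : ((x : G ⧸ frattini G)) ^ p ^ k = 1 := by
      rw [← QuotientGroup.mk_pow, hk']; rfl
    have h2 : ((x : G ⧸ frattini G)) ^ (frattini G).index = 1 := by
      rw [Subgroup.index_eq_card]
      exact pow_card_eq_one'
    have h3 : orderOf (x : G ⧸ frattini G) = 1 :=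
      Nat.eq_one_of_dvd_coprimes (Nat.Coprime.pow_left k hcop) (orderOf_dvd_of_pow_eq_one h1)
        (orderOf_dvd_of_pow_eq_one h2)
    have h4 : (x : G ⧸ frattini G) = 1 := orderOf_eq_one_iff.mp h3
    exact (QuotientGroup.eq_one_iff x).mp h4
  -- Frattini argument: `P` is normal
  have hN : Subgroup.normalizer ((P : Subgroup G) : Set G) = ⊤ :=
    frattini_nongenerating (Sylow.normalizer_sup_eq_top' P hPle)
  haveI hPn : (P : Subgroup G).Normal := Subgroup.normalizer_eq_top_iff.mp hN
  -- Schur–Zassenhaus gives a complement `H`, and then `H = ⊤`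
  have hcard : Nat.Coprime (Nat.card (P : Subgroup G)) (P : Subgroup G).index :=
    P.card_coprime_index
  obtain ⟨H, hH⟩ := Subgroup.exists_right_complement'_of_coprime hcard
  have hsup : H ⊔ frattini G = ⊤ := by
    have h1 : (P : Subgroup G) ⊔ H = ⊤ := hH.sup_eq_top
    rw [eq_top_iff, ← h1, sup_comm]
    exact sup_le_sup_left hPle H
  have hHt : H = ⊤ := frattini_nongenerating hsup
  have hPbot : (P : Subgroup G) = ⊥ := by
    have := hH.disjoint
    rw [hHt, disjoint_top] at this
    exact this
  exact P.ne_bot_of_dvd_card hdvd hPbot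

end Cfsg.Agent.S0049
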