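import Cfsg.Statements.S0050
import Mathlib
import Cfsg.Agent.Lib.Solvable.Hall
-- import your own Cfsg.Agent.* helpers here

set_option autoImplicit false
open Cfsg

namespace Cfsg.Agent.S0050

/-- Frattini argument for Hall subgroups: if L is a solvable normal subgroup and H a subgroup of L of order coprime to its index in L, then L together with the normaliser of H generates the whole group. -/
theorem result {G : Type*} [Group G] [Finite G] (L : Subgroup G) [L.Normal] (hL : Group.IsSolvable L)
    (H : Subgroup G) (hHL : H ≤ L) (hHall : (Nat.card H).Coprime (H.relIndex L)) :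
    L ⊔ Subgroup.normalizer (H : Set G) = ⊤ := by
  classical
  rw [eq_top_iff]
  intro g _
  set H₀ : Subgroup L := H.subgroupOf L with hH₀
  set H' : Subgroup G := H.map (MulAut.conj g).toMonoidHom with hH'
  have hH'L : H' ≤ L := by
    rintro _ ⟨x, hx, rfl⟩
    exact ‹L.Normal›.conj_mem x (hHL hx) g
  set K₀ : Subgroup L := H'.subgroupOf L with hK₀
  have hcH₀ : Nat.card H₀ = Nat.card H := Nat.card_congr (Subgroup.subgroupOfEquivOfLe hHL).toEquiv
  have hcK₀ : Nat.card K₀ = Nat.card H := by
    have h1 : Nat.card K₀ = Nat.card H' := Nat.card_congr (Subgroup.subgroupOfEquivOfLe hH'L).toEquiv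
    rw [h1, hH', Cfsg.Agent.Lib.Solvable.Hall.card_map_conj]
  have hcL : Nat.card L = Nat.card H * H.relIndex L := by
    have := Subgroup.card_mul_index H₀
    rw [hcH₀] at this
    exact this.symm
  obtain ⟨l, hl⟩ := Cfsg.Agent.Lib.Solvable.Hall.exists_conj_eq (G := L) (Nat.card H) (H.relIndex L)
    hcL hHall H₀ K₀ hcH₀ hcK₀
  have hn : (l : G) * g ∈ Subgroup.normalizer (H : Set G) := by
    rw [Subgroup.mem_normalizer_iff]
    have hfwd : ∀ x ∈ H, (l : G) * g * x * ((l : G) * g)⁻¹ ∈ H := by
      intro x hx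
      have hx1 : (MulAut.conj g).toMonoidHom x ∈ H' := ⟨x, hx, rfl⟩
      have hx2 : (⟨(MulAut.conj g).toMonoidHom x, hH'L hx1⟩ : L) ∈ K₀ := hx1
      have hx3 : (MulAut.conj l).toMonoidHom (⟨(MulAut.conj g).toMonoidHom x, hH'L hx1⟩ : L) ∈ H₀ := by
        rw [← hl]
        exact ⟨_, hx2, rfl⟩
      have hx4 : ((MulAut.conj l).toMonoidHom (⟨(MulAut.conj g).toMonoidHom x, hH'L hx1⟩ : L) : L).1 ∈ H := hx3
      have : (l : G) * g * x * ((l : G) * g)⁻¹ =
          ((MulAut.conj l).toMonoidHom (⟨(MulAut.conj g).toMonoidHom x, hH'L hx1⟩ : L) : L).1 := by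
        simp [MulAut.conj_apply, mul_assoc]
      rw [this]
      exact hx4
    have hmap : H.map (MulAut.conj ((l : G) * g)).toMonoidHom = H := by
      apply Subgroup.eq_of_le_of_card_ge
      · rintro _ ⟨x, hx, rfl⟩
        simpa [MulAut.conj_apply, mul_assoc] using hfwd x hx
      · rw [Cfsg.Agent.Lib.Solvable.Hall.card_map_conj]
    intro x
    constructor
    · exact hfwd x
    · intro hx
      rw [← hmap] at hx
      obtain ⟨y, hy, hxy⟩ := hx
      have : y = x := by
        have h2 : (MulAut.conj ((l : G) * g)) y = (MulAut.conj ((l : G) * g)) x := hxy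
        exact (MulAut.conj ((l : G) * g)).injective h2
      rwa [← this]
  have : g = (l : G)⁻¹ * ((l : G) * g) := by group
  rw [this]
  exact Subgroup.mul_mem _ ((le_sup_left : L ≤ L ⊔ _) (L.inv_mem l.2)) ((le_sup_right : _ ≤ L ⊔ _) hn)

end Cfsg.Agent.S0050
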