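import Cfsg.Statements.S0053
import Mathlib
-- import your own Cfsg.Agent.* helpers here

set_option autoImplicit false
open Cfsg

namespace Cfsg.Agent.S0053

/-- An abelian minimal normal subgroup N of a finite group is complemented exactly when N is not inside the Frattini subgroup. -/
theorem result {G : Type*} [Group G] [Finite G]
    (N : Subgroup G) [N.Normal] [IsMulCommutative N] (hN : N ≠ ⊥)
    (hmin : ∀ M : Subgroup G, M.Normal → M ≤ N → M = ⊥ ∨ M = N) :
    (∃ H : Subgroup G, Subgroup.IsComplement' N H) ↔ ¬ N ≤ frattini G := by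
  constructor
  · rintro ⟨H, hH⟩ hle
    have h1 : H ⊔ frattini G = ⊤ := by
      rw [eq_top_iff, ← hH.sup_eq_top, sup_comm]
      exact sup_le_sup_left hle H
    have h2 : H = ⊤ := frattini_nongenerating h1
    apply hN
    have h3 : Disjoint N H := hH.disjoint
    rw [h2, disjoint_top] at h3
    exact h3
  · intro hnot
    -- a maximal subgroup not containing N
    have hex : ∃ M : Subgroup G, IsCoatom M ∧ ¬ N ≤ M := by
      by_contra hcon
      push Not at hcon
      apply hnot
      intro x hx
      show x ∈ Order.radical (Subgroup G)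
      rw [Order.radical, Subgroup.mem_iInf]
      intro M
      rw [Subgroup.mem_iInf]
      intro hM
      exact hcon M hM hx
    obtain ⟨M, hM, hNM⟩ := hex
    have hsup : N ⊔ M = ⊤ := by
      rw [sup_comm]
      apply hM.2
      exact lt_of_le_of_ne le_sup_left (fun h => hNM (by rw [h]; exact le_sup_right))
    -- D = N ⊓ M is normal
    have hD : (N ⊓ M).Normal := by
      refine ⟨fun d hd g => ?_⟩
      have hg : g ∈ N ⊔ M := by rw [hsup]; trivial
      obtain ⟨n, hn, m, hm, rfl⟩ := Subgroup.mem_sup_of_normal_left.mp hg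
      have h1 : m * d * m⁻¹ ∈ N ⊓ M :=
        ⟨Subgroup.Normal.conj_mem inferInstance d hd.1 m,
          Subgroup.mul_mem _ (Subgroup.mul_mem _ hm hd.2) (Subgroup.inv_mem _ hm)⟩
      have h2 : n * (m * d * m⁻¹) * n⁻¹ = m * d * m⁻¹ := by
        have hcomm := (inferInstance : IsMulCommutative N).is_comm.comm ⟨n, hn⟩ ⟨m * d * m⁻¹, h1.1⟩
        have := congrArg Subtype.val hcomm
        simp only [Subgroup.coe_mul] at this
        rw [this]
        group
      have h3 : n * m * d * (n * m)⁻¹ = n * (m * d * m⁻¹) * n⁻¹ := by group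
      rw [h3, h2]
      exact h1
    have hD2 : N ⊓ M = ⊥ := by
      rcases hmin _ hD inf_le_left with h | h
      · exact h
      · exfalso
        exact hNM (h ▸ inf_le_right)
    refine ⟨M, ?_⟩
    apply Subgroup.isComplement'_of_disjoint_and_mul_eq_univ
    · rw [disjoint_iff]
      exact hD2
    · rw [← Subgroup.normal_mul, hsup]
      rfl

end Cfsg.Agent.S0053
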