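import Cfsg.Statements.S0054
import Mathlib
-- import your own Cfsg.Agent.* helpers here

set_option autoImplicit false
open Cfsg

namespace Cfsg.Agent.S0054

/-- A regular normal subgroup of a finite 2-transitive group is elementary abelian: it is commutative and all its elements have order dividing one prime. -/
theorem result {G : Type*} [Group G] [Finite G]
    {X : Type*} [Nonempty X] [MulAction G X] (h2 : MulAction.IsMultiplyPretransitive G X 2)
    (N : Subgroup G) [N.Normal] (htrans : MulAction.IsPretransitive N X) (hreg : ∀ x : X, MulAction.stabilizer N x = ⊥) :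
    IsMulCommutative N ∧ ∃ p : ℕ, p.Prime ∧ ∀ n ∈ N, n ^ p = 1 := by
  classical
  obtain ⟨x⟩ := ‹Nonempty X›
  have h2' : ∀ {a b c d : X}, a ≠ b → c ≠ d → ∃ g : G, g • a = c ∧ g • b = d :=
    MulAction.is_two_pretransitive_iff.mp h2
  -- nontrivial elements move x
  have hmove : ∀ n : N, n ≠ 1 → (n : G) • x ≠ x := by
    intro n hn hfix
    have : n ∈ MulAction.stabilizer N x := hfix
    rw [hreg x] at this
    exact hn (Subgroup.mem_bot.mp this)
  -- all nontrivial elements of N are conjugate in G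
  have hconj : ∀ a b : N, a ≠ 1 → b ≠ 1 → ∃ g : G, g * (a : G) * g⁻¹ = b := by
    intro a b ha hb
    obtain ⟨g, hg1, hg2⟩ := h2' (hmove a ha).symm (hmove b hb).symm
    refine ⟨g, ?_⟩
    have hmem : g * (a : G) * g⁻¹ ∈ N := ‹N.Normal›.conj_mem _ a.2 g
    let c : N := ⟨(b : G)⁻¹ * (g * (a : G) * g⁻¹), N.mul_mem (N.inv_mem b.2) hmem⟩
    have hc : c = 1 := by
      by_contra hc
      apply hmove c hc
      change ((b : G)⁻¹ * (g * (a : G) * g⁻¹)) • x = x
      have hgi : g⁻¹ • x = x := by rw [inv_smul_eq_iff, hg1]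
      have : (g * (a : G) * g⁻¹) • x = (b : G) • x := by
        rw [mul_smul, hgi, mul_smul]
        exact hg2
      rw [mul_smul, this, inv_smul_smul]
    have hc' : (b : G)⁻¹ * (g * (a : G) * g⁻¹) = 1 := congrArg Subtype.val hc
    exact (inv_mul_eq_one.mp hc').symm
  by_cases hN : Nontrivial N
  · -- choose an element of prime order
    haveI : Finite N := inferInstance
    obtain ⟨p, hp, hpd⟩ : ∃ p, p.Prime ∧ p ∣ Nat.card N :=
      ⟨(Nat.card N).minFac, Nat.minFac_prime Finite.one_lt_card.ne', Nat.minFac_dvd _⟩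
    haveI : Fact p.Prime := ⟨hp⟩
    obtain ⟨a, ha⟩ := exists_prime_orderOf_dvd_card' p hpd
    have ha1 : a ≠ 1 := by
      rintro rfl
      rw [orderOf_one] at ha
      exact hp.one_lt.ne ha
    have hpow : ∀ n ∈ N, n ^ p = 1 := by
      intro n hn
      by_cases hn1 : (⟨n, hn⟩ : N) = 1
      · have : n = 1 := congrArg Subtype.val hn1
        rw [this, one_pow]
      · obtain ⟨g, hg⟩ := hconj a ⟨n, hn⟩ ha1 hn1
        have hap : (a : G) ^ p = 1 := by
          have := pow_orderOf_eq_one a
          rw [ha] at this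
          exact_mod_cast congrArg Subtype.val this
        have hg' : g * (a : G) * g⁻¹ = n := hg
        rw [← hg', conj_pow, hap]
        group
    refine ⟨?_, p, hp, hpow⟩
    -- commutativity through the center
    have hpg : IsPGroup p N := fun n => ⟨1, by
      ext
      simpa using hpow n n.2⟩
    haveI hcn : Nontrivial (Subgroup.center N) := hpg.center_nontrivial
    obtain ⟨z, hz⟩ := exists_ne (1 : Subgroup.center N)
    have hz1 : (z : N) ≠ 1 := fun h => hz (Subtype.ext h)
    refine ⟨⟨fun u v => ?_⟩⟩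
    by_cases hu : (u : N) = 1
    · rw [hu, one_mul, mul_one]
    obtain ⟨g, hg⟩ := hconj (z : N) u hz1 hu
    have hvmem : g⁻¹ * (v : G) * g ∈ N := by
      have := ‹N.Normal›.conj_mem _ v.2 g⁻¹
      simpa using this
    have hcomm : (z : N) * ⟨g⁻¹ * (v : G) * g, hvmem⟩ = ⟨g⁻¹ * (v : G) * g, hvmem⟩ * (z : N) :=
      (Subgroup.mem_center_iff.mp z.2 _).symm
    have hcomm' : (z : G) * (g⁻¹ * (v : G) * g) = (g⁻¹ * (v : G) * g) * (z : G) :=
      congrArg Subtype.val hcomm
    apply Subtype.ext
    change (u : G) * (v : G) = (v : G) * (u : G)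
    rw [← hg]
    calc g * ((z : N) : G) * g⁻¹ * v = g * (((z : N) : G) * (g⁻¹ * (v : G) * g)) * g⁻¹ := by group
      _ = g * ((g⁻¹ * (v : G) * g) * ((z : N) : G)) * g⁻¹ := by rw [hcomm']
      _ = _ := by group
  · rw [not_nontrivial_iff_subsingleton] at hN
    refine ⟨⟨⟨fun u v => Subsingleton.elim _ _⟩⟩, 2, Nat.prime_two, fun n hn => ?_⟩
    have : (⟨n, hn⟩ : N) = 1 := Subsingleton.elim _ _
    have : n = 1 := congrArg Subtype.val this
    rw [this, one_pow]

end Cfsg.Agent.S0054
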