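import Cfsg.Statements.S0056
import Mathlib
import Cfsg.Agent.Lib.Coprime.Averaging

set_option autoImplicit false
open Cfsg

namespace Cfsg.Agent.S0056

/-- A coprime action on an abelian group that fixes all elements of prime order is trivial. -/
theorem result {G : Type*} [Group G] [Finite G] (A V : Subgroup G) [IsMulCommutative V]
    (hAV : A ≤ Subgroup.normalizer (V : Set G)) (hcop : (Nat.card A).Coprime (Nat.card V))
    (hΩ : ∀ v ∈ V, (orderOf v).Prime → ∀ a ∈ A, a * v = v * a) : A ≤ Subgroup.centralizer (V : Set G) := by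
  have h := (Cfsg.Agent.Lib.Coprime.Averaging.centralizer_inf_commutator_and_sup A V hAV hcop).1
  have hle : ⁅V, A⁆ ≤ V := by
    rw [Subgroup.commutator_comm]
    exact Subgroup.le_normalizer_iff_commutator_le_right.mp hAV
  have hbot : ⁅V, A⁆ = ⊥ := by
    by_contra hne
    have hnt : Nontrivial (⁅V, A⁆ : Subgroup G) := Subgroup.nontrivial_iff_ne_bot _ |>.mpr hne
    obtain ⟨p, hp, hdvd⟩ := Nat.exists_prime_and_dvd (Finite.one_lt_card (α := (⁅V, A⁆ : Subgroup G))).ne'
    haveI : Fact p.Prime := ⟨hp⟩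
    obtain ⟨x, hx⟩ := exists_prime_orderOf_dvd_card' p hdvd
    have hx' : orderOf (x : G) = p := by rw [Subgroup.orderOf_coe]; exact hx
    have hxV : (x : G) ∈ V := hle x.2
    have hxC : (x : G) ∈ Subgroup.centralizer (A : Set G) := by
      rw [Subgroup.mem_centralizer_iff]
      intro a ha
      exact hΩ x hxV (by rw [hx']; exact hp) a ha
    have hx1 : (x : G) ∈ (V ⊓ Subgroup.centralizer (A : Set G)) ⊓ ⁅V, A⁆ :=
      Subgroup.mem_inf.mpr ⟨Subgroup.mem_inf.mpr ⟨hxV, hxC⟩, x.2⟩
    rw [h, Subgroup.mem_bot] at hx1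
    rw [hx1, orderOf_one] at hx'
    exact hp.one_lt.ne hx'
  have hc : V ≤ Subgroup.centralizer (A : Set G) := Subgroup.commutator_eq_bot_iff_le_centralizer.mp hbot
  intro a ha
  rw [Subgroup.mem_centralizer_iff]
  intro v hv
  exact (Subgroup.mem_centralizer_iff.mp (hc hv) a ha).symm

end Cfsg.Agent.S0056
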