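import Cfsg.Statements.S0057
import Mathlib
import Cfsg.Agent.Lib.Coprime.InvSylow
import Cfsg.Agent.Lib.Coprime.Factor
import Cfsg.Agent.S0055

open scoped commutatorElement

set_option autoImplicit false
open Cfsg

namespace Cfsg.Agent.S0057

/-- Under coprime action, if the centraliser of A in K has prime index p in K then the commutator subgroup [K, A] has order exactly p. -/
theorem result {G : Type*} [Group G] [Finite G] (A K : Subgroup G) (hAK : A ≤ Subgroup.normalizer (K : Set G))
    (hcop : (Nat.card A).Coprime (Nat.card K)) (hsolv : Group.IsSolvable A ∨ Group.IsSolvable K)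
    (p : ℕ) (hp : p.Prime) (hidx : (K ⊓ Subgroup.centralizer (A : Set G)).relIndex K = p) :
    Nat.card (⁅K, A⁆ : Subgroup G) = p := by
  classical
  open Cfsg.Agent.Lib.Coprime.Coset Cfsg.Agent.Lib.Coprime.InvSylow Cfsg.Agent.Lib.Coprime.Factor in
  haveI : Fact p.Prime := ⟨hp⟩
  set C : Subgroup G := K ⊓ Subgroup.centralizer (A : Set G) with hC
  have hCK : C ≤ K := inf_le_left
  -- `|K| = |C| p`
  have hcardK : Nat.card C * p = Nat.card K := by
    have h1 := (C.subgroupOf K).card_mul_index
    have h2 : Nat.card (C.subgroupOf K) = Nat.card C :=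
      Nat.card_congr (Subgroup.subgroupOfEquivOfLe hCK).toEquiv
    rw [h2] at h1
    exact (congrArg (Nat.card C * ·) hidx.symm).trans h1
  -- an invariant Sylow subgroup
  obtain ⟨P, hPA⟩ := exists_invariant_sylow hAK hcop hsolv p
  set P' : Subgroup G := (P : Subgroup K).map K.subtype with hP'
  have hP'K : P' ≤ K := by
    rintro _ ⟨x, _, rfl⟩
    exact x.2
  have hP'p : IsPGroup p P' := P.isPGroup'.map K.subtype
  have hP'card : Nat.card P' = Nat.card (P : Subgroup K) :=
    (Nat.card_congr (Subgroup.equivMapOfInjective (P : Subgroup K) K.subtype Subtype.coe_injective).toEquiv).symm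
  -- `P'` does not lie in `C`
  have hP'C : ¬ P' ≤ C := by
    intro hle
    have h1 : Nat.card P' ∣ Nat.card C := Subgroup.card_dvd_of_le hle
    obtain ⟨m, hm⟩ := h1
    have h2 := (P : Subgroup K).card_mul_index
    rw [← hP'card, ← hcardK, hm, mul_assoc] at h2
    have h3 : (P : Subgroup K).index = m * p :=
      Nat.eq_of_mul_eq_mul_left Nat.card_pos h2
    exact P.not_dvd_index (by rw [h3]; exact Dvd.intro_left m rfl)
  -- so `|P' : P' ⊓ C| = p`
  have hrel : C.relIndex P' = p := by
    have h1 : C.relIndex P' ≤ p := by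
      rw [← hidx]; exact relIndex_le_relIndex_of_le C hP'K
    have h2 : C.relIndex P' ≠ 1 := by
      intro h
      exact hP'C (Subgroup.relIndex_eq_one.mp h)
    have h3 : C.relIndex P' ∣ Nat.card P' := Subgroup.relIndex_dvd_card C P'
    obtain ⟨n, hn⟩ := IsPGroup.iff_card.mp hP'p
    rw [hn] at h3
    obtain ⟨m, hm, hme⟩ := (Nat.dvd_prime_pow hp).mp h3
    rw [hme] at h1 h2 ⊢
    have hm0 : m ≠ 0 := by
      rintro rfl
      exact h2 (pow_zero p)
    have hm1 : m = 1 := by
      by_contra hne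
      have : 2 ≤ m := by omega
      have h4 : p ^ 2 ≤ p ^ m := Nat.pow_le_pow_right hp.pos this
      have h5 : p ^ 2 > p := by
        have := hp.two_le
        nlinarith
      omega
    rw [hm1, pow_one]
  -- the factorisation `K = P' C`
  have hfac := exists_mul_of_relIndex_eq hP'K (hrel.trans hidx.symm)
  -- `⁅K, A⁆ ≤ P'`
  set L : Subgroup G := ⁅K, A⁆ with hL
  have hLP' : L ≤ P' := by
    rw [hL, Subgroup.commutator_le]
    intro k hk a ha
    obtain ⟨q, hq, hqk⟩ := hfac k hk
    set c : G := q⁻¹ * k with hc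
    have hkq : k = q * c := by rw [hc]; group
    have hca : a * c = c * a := Subgroup.mem_centralizer_iff.mp (show c ∈ C from hqk).2 a ha
    have h1 : ⁅k, a⁆ = q * (a * q⁻¹ * a⁻¹) := by
      rw [hkq]
      simp only [commutatorElement_def]
      calc q * c * a * (q * c)⁻¹ * a⁻¹ = q * (c * a) * c⁻¹ * q⁻¹ * a⁻¹ := by group
        _ = q * (a * c) * c⁻¹ * q⁻¹ * a⁻¹ := by rw [hca]
        _ = q * (a * q⁻¹ * a⁻¹) := by group
    rw [h1]
    exact P'.mul_mem hq ((Subgroup.mem_normalizer_iff.mp (hPA ha) _).mp (P'.inv_mem hq))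
  have hLp : IsPGroup p L := hP'p.to_le hLP'
  have hLK : L ≤ K := commutator_le_left_of_le_normalizer hAK
  have hLA : A ≤ Subgroup.normalizer (L : Set G) := commutator_le_normalizer_right hAK
  have hcopL : (Nat.card A).Coprime (Nat.card L) :=
    hcop.coprime_dvd_right (Subgroup.card_dvd_of_le hLK)
  have hLL : ⁅L, A⁆ = L := commutator_commutator_eq hAK hcop hsolv
  -- `|L : L ⊓ C| = p`
  have hrelL : C.relIndex L = p := by
    rw [← hidx]
    apply relIndex_eq_of_forall_exists hLK
    intro k hk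
    obtain ⟨c, hc, hkc⟩ := exists_mem_commutator_mul_centralizer hAK hcop hsolv (K.inv_mem hk)
    rw [inv_inv] at hkc
    refine ⟨k * c, hkc, ?_⟩
    have : (k * c)⁻¹ * k = c⁻¹ := by group
    rw [this]
    exact C.inv_mem hc
  set M : Subgroup G := L ⊓ Subgroup.centralizer (A : Set G) with hM
  have hMC : M = C ⊓ L := by
    ext x
    constructor
    · intro hx
      exact ⟨⟨hLK hx.1, hx.2⟩, hx.1⟩
    · intro hx
      exact ⟨hx.2, hx.1.2⟩
  have hMrel : M.relIndex L = p := by
    rw [hMC, Subgroup.inf_relIndex_right, hrelL]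
  -- `M` is normal in `L`
  have hMnorm : (M.subgroupOf L).Normal := by
    obtain ⟨n, hn⟩ := IsPGroup.iff_card.mp hLp
    have hn0 : n ≠ 0 := by
      rintro rfl
      rw [pow_zero] at hn
      have h1 : M.relIndex L ∣ Nat.card L := Subgroup.relIndex_dvd_card M L
      rw [hn, hMrel] at h1
      exact hp.one_lt.ne' (Nat.dvd_one.mp h1)
    apply Subgroup.normal_of_index_eq_minFac_card
    have h2 : (M.subgroupOf L).index = p := hMrel
    rw [h2, hn, Nat.Prime.pow_minFac hp hn0]
  have hcommM : ⁅L, M⁆ ≤ M := by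
    rw [Subgroup.commutator_le]
    intro l hl m hm
    have h1 : (⟨l, hl⟩ : L) * ⟨m, hm.1⟩ * (⟨l, hl⟩ : L)⁻¹ ∈ M.subgroupOf L :=
      hMnorm.conj_mem ⟨m, hm.1⟩ hm ⟨l, hl⟩
    have h2 : l * m * l⁻¹ ∈ M := h1
    have h3 : ⁅l, m⁆ = (l * m * l⁻¹) * m⁻¹ := by
      simp only [commutatorElement_def]
    rw [h3]
    exact M.mul_mem h2 (M.inv_mem hm)
  have hMcent : M ≤ Subgroup.centralizer (A : Set G) := inf_le_right
  -- three subgroups
  have h3 : ⁅⁅A, L⁆, M⁆ = ⊥ := by
    apply Subgroup.commutator_commutator_eq_bot_of_rotate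
    · rw [Subgroup.commutator_eq_bot_iff_le_centralizer]
      exact hcommM.trans hMcent
    · have : ⁅M, A⁆ = ⊥ := Subgroup.commutator_eq_bot_iff_le_centralizer.mpr hMcent
      rw [this, Subgroup.commutator_bot_left]
  rw [Subgroup.commutator_comm A L, hLL, Subgroup.commutator_eq_bot_iff_le_centralizer] at h3
  -- `L` is abelian
  have hLcomm : IsMulCommutative L := by
    have hfact : Fact (Nat.card (L ⧸ M.subgroupOf L)).Prime := by
      have : Nat.card (L ⧸ M.subgroupOf L) = p := hMrel
      rw [this]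
      exact ⟨hp⟩
    have : IsCyclic (L ⧸ M.subgroupOf L) := isCyclic_of_prime_card (p := Nat.card (L ⧸ M.subgroupOf L)) rfl
    have hker : (QuotientGroup.mk' (M.subgroupOf L)).ker ≤ Subgroup.center L := by
      rw [QuotientGroup.ker_mk']
      intro m hm
      rw [Subgroup.mem_center_iff]
      intro l
      apply Subtype.ext
      have h4 := Subgroup.mem_centralizer_iff.mp (h3 l.2) (m : G) hm
      exact h4.symm
    exact (QuotientGroup.mk' (M.subgroupOf L)).isMulCommutative_of_isCyclic_of_ker_le_center hker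
  have h5 := (Cfsg.Agent.S0055.result A L hLA hcopL).1
  rw [hLL] at h5
  have hMbot : M = ⊥ := by
    rw [eq_bot_iff, ← h5]
    intro x hx
    exact ⟨hx, hx.1⟩
  rw [hMbot, Subgroup.relIndex_bot_left] at hMrel
  exact hMrel

end Cfsg.Agent.S0057
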