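import Cfsg.Statements.S0060
import Mathlib

set_option autoImplicit false
open Cfsg
open scoped Pointwise

namespace Cfsg.Agent.S0060

theorem mem_smul_sylow {G : Type*} [Group G] {p : ℕ} (g : G) (P : Sylow p G) (x : G) :
    x ∈ ((g • P : Sylow p G) : Subgroup G) ↔ g⁻¹ * x * g ∈ (P : Subgroup G) := by
  rw [Sylow.coe_subgroup_smul, Subgroup.mem_pointwise_smul_iff_inv_smul_mem]
  simp [MulAut.smul_def]

/-- Brodkey: abelian Sylow `p`-subgroups and trivial `p`-core give two Sylow subgroups with trivial intersection. -/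
theorem result {G : Type*} [Group G] [Finite G] (p : ℕ) [Fact p.Prime]
    (S : Sylow p G) (hS : IsMulCommutative S) (hOp : Cfsg.pCore p G = ⊥) :
    ∃ g : G, (S : Subgroup G) ⊓ MulAut.conj g • (S : Subgroup G) = ⊥ := by
  classical
  have hcommS : ∀ x ∈ (S : Subgroup G), ∀ y ∈ (S : Subgroup G), x * y = y * x := by
    intro x hx y hy
    have := mul_comm' (⟨x, hx⟩ : S) ⟨y, hy⟩
    simpa using congrArg Subtype.val this
  have hcomm : ∀ Q : Sylow p G, ∀ x ∈ (Q : Subgroup G), ∀ y ∈ (Q : Subgroup G), x * y = y * x := by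
    intro Q x hx y hy
    obtain ⟨g, rfl⟩ := MulAction.exists_smul_eq G S Q
    rw [mem_smul_sylow] at hx hy
    have := hcommS _ hx _ hy
    have h2 : g * (g⁻¹ * x * g * (g⁻¹ * y * g)) * g⁻¹ = g * (g⁻¹ * y * g * (g⁻¹ * x * g)) * g⁻¹ := by
      rw [this]
    simpa [mul_assoc] using h2
  obtain ⟨⟨A, B⟩, hmin⟩ := Finite.exists_min
    (fun X : Sylow p G × Sylow p G => Nat.card ↥((X.1 : Subgroup G) ⊓ (X.2 : Subgroup G)))
  simp only at hmin
  set D : Subgroup G := (A : Subgroup G) ⊓ (B : Subgroup G) with hD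
  set N : Subgroup G := Subgroup.normalizer (D : Set G) with hN
  have hnorm : ∀ Q : Sylow p G, D ≤ (Q : Subgroup G) → (Q : Subgroup G) ≤ N := by
    intro Q hQ a ha
    rw [hN, Subgroup.mem_normalizer_iff]
    intro h
    constructor
    · intro hh
      have : a * h * a⁻¹ = h := by
        rw [hcomm Q a ha h (hQ hh)]; group
      rwa [this]
    · intro hh
      have hq : h ∈ (Q : Subgroup G) := by
        have h1 := (Q : Subgroup G).mul_mem ((Q : Subgroup G).mul_mem ((Q : Subgroup G).inv_mem ha) (hQ hh)) ha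
        have h2 : a⁻¹ * (a * h * a⁻¹) * a = h := by group
        rwa [h2] at h1
      have : a * h * a⁻¹ = h := by
        rw [hcomm Q a ha h hq]; group
      rwa [this] at hh
  have hAN : (A : Subgroup G) ≤ N := hnorm A inf_le_left
  have hBN : (B : Subgroup G) ≤ N := hnorm B inf_le_right
  have hkey : ∀ P : Sylow p G, D ≤ (P : Subgroup G) := by
    intro P
    by_contra hnot
    have hpg : IsPGroup p ↥((P : Subgroup G).subgroupOf N) :=
      P.isPGroup'.comap_of_injective N.subtype N.subtype_injective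
    obtain ⟨Q, hQ⟩ := hpg.exists_le_sylow
    obtain ⟨n, hn⟩ := MulAction.exists_smul_eq N (A.subtype hAN) Q
    have hnN : (n : G) ∈ N := n.2
    have hsub : ∀ x ∈ (P : Subgroup G) ⊓ (((n : G) • B : Sylow p G) : Subgroup G), x ∈ D ⊓ (P : Subgroup G) := by
      rintro x ⟨hxP, hxB0⟩
      have hxB : (n : G)⁻¹ * x * (n : G) ∈ (B : Subgroup G) := (mem_smul_sylow _ _ _).mp hxB0
      have hB' := hBN hxB
      have hxN : x ∈ N := by
        have := N.mul_mem (N.mul_mem hnN hB') (N.inv_mem hnN)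
        have h2 : (n : G) * ((n : G)⁻¹ * x * (n : G)) * (n : G)⁻¹ = x := by group
        rwa [h2] at this
      have hxQ : (⟨x, hxN⟩ : N) ∈ (Q : Subgroup N) := hQ (by
        rw [Subgroup.mem_subgroupOf]; exact hxP)
      rw [← hn, Sylow.coe_subgroup_smul, Subgroup.mem_pointwise_smul_iff_inv_smul_mem] at hxQ
      have hxA : (n : G)⁻¹ * x * (n : G) ∈ (A : Subgroup G) := by
        have h3 : ((MulAut.conj n)⁻¹ • (⟨x, hxN⟩ : N) : N) ∈ ((A.subtype hAN : Sylow p N) : Subgroup N) := hxQ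
        rw [Sylow.coe_subtype, Subgroup.mem_subgroupOf] at h3
        simpa [MulAut.smul_def, MulAut.conj_apply] using h3
      have hyD : (n : G)⁻¹ * x * (n : G) ∈ D := ⟨hxA, hxB⟩
      have hxD : x ∈ D := by
        have h4 := (Subgroup.mem_normalizer_iff.mp hnN ((n : G)⁻¹ * x * (n : G))).mp hyD
        have h2 : (n : G) * ((n : G)⁻¹ * x * (n : G)) * (n : G)⁻¹ = x := by group
        rwa [h2] at h4
      exact ⟨hxD, hxP⟩
    have h1 : Nat.card D ≤ Nat.card ↥((P : Subgroup G) ⊓ (((n : G) • B : Sylow p G) : Subgroup G)) :=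
      hmin (P, ((n : G) • B : Sylow p G))
    have h2 : Nat.card ↥((P : Subgroup G) ⊓ (((n : G) • B : Sylow p G) : Subgroup G)) ≤ Nat.card ↥(D ⊓ (P : Subgroup G)) :=
      Nat.le_of_dvd Nat.card_pos (Subgroup.card_dvd_of_le hsub)
    have heq : D ⊓ (P : Subgroup G) = D := Subgroup.eq_of_le_of_card_ge inf_le_left (h1.trans h2)
    exact hnot (inf_eq_left.mp heq)
  -- the intersection of all Sylow subgroups is a normal p-subgroup
  let C : Subgroup G := ⨅ P : Sylow p G, (P : Subgroup G)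
  have hCn : C.Normal := by
    refine ⟨fun x hx g => ?_⟩
    rw [Subgroup.mem_iInf] at hx ⊢
    intro P
    have := hx (g⁻¹ • P)
    rw [mem_smul_sylow] at this
    simpa using this
  have hCp : IsPGroup p C := S.isPGroup'.to_le (iInf_le _ S)
  have hCb : C ≤ Cfsg.pCore p G := le_sSup ⟨hCn, hCp⟩
  have hDb : D = ⊥ := by
    rw [eq_bot_iff]
    intro x hx
    have : x ∈ C := by
      rw [Subgroup.mem_iInf]
      exact fun P => hkey P hx
    rw [← hOp]
    exact hCb this
  obtain ⟨a, rfl⟩ := MulAction.exists_smul_eq G S A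
  obtain ⟨b, rfl⟩ := MulAction.exists_smul_eq G S B
  refine ⟨a⁻¹ * b, ?_⟩
  rw [eq_bot_iff]
  rintro x ⟨hx1, hx2⟩
  have hxS : x ∈ (S : Subgroup G) := hx1
  have hx3 : x ∈ MulAut.conj (a⁻¹ * b) • (S : Subgroup G) := hx2
  rw [Subgroup.mem_pointwise_smul_iff_inv_smul_mem] at hx3
  have hx4 : b⁻¹ * a * x * a⁻¹ * b ∈ (S : Subgroup G) := by
    simpa [MulAut.smul_def, MulAut.conj_apply, mul_assoc] using hx3
  have hmemD : a * x * a⁻¹ ∈ D := by
    refine ⟨?_, ?_⟩
    · show a * x * a⁻¹ ∈ (((a • S : Sylow p G)) : Subgroup G)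
      rw [mem_smul_sylow]
      simpa [mul_assoc] using hxS
    · show a * x * a⁻¹ ∈ (((b • S : Sylow p G)) : Subgroup G)
      rw [mem_smul_sylow]
      simpa [mul_assoc] using hx4
  rw [hDb, Subgroup.mem_bot] at hmemD
  have : x = a⁻¹ * (a * x * a⁻¹) * a := by group
  rw [this, hmemD]
  simp

end Cfsg.Agent.S0060
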