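import Cfsg.Statements.S0061
import Mathlib

set_option autoImplicit false

namespace Cfsg.Agent.S0061

universe u

theorem solvable_of_pgroup {G : Type*} [Group G] [Finite G] {p : ℕ} [Fact p.Prime]
    (h : IsPGroup p G) : Group.IsSolvable G := by
  have := h.isNilpotent
  infer_instance

theorem solvable_of_normal {G : Type*} [Group G] (N : Subgroup G) [N.Normal]
    (h1 : Group.IsSolvable N) (h2 : Group.IsSolvable (G ⧸ N)) : Group.IsSolvable G :=
  (Group.isSolvable_iff_subgroup_quotient N).2 ⟨h1, h2⟩

theorem fact_left {p q m : ℕ} (hp : p.Prime) (hq : q.Prime) (hne : p ≠ q) :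
    (p ^ m * q).factorization p = m := by
  rw [Nat.factorization_mul (pow_ne_zero _ hp.ne_zero) hq.ne_zero]
  have h1 : q.factorization p = 0 :=
    Nat.factorization_eq_zero_of_not_dvd (fun h => hne ((Nat.prime_dvd_prime_iff_eq hp hq).1 h))
  simp [hp.factorization_self, h1]

theorem fact_right {p q m : ℕ} (hp : p.Prime) (hq : q.Prime) (hne : p ≠ q) :
    (p ^ m * q).factorization q = 1 := by
  rw [Nat.factorization_mul (pow_ne_zero _ hp.ne_zero) hq.ne_zero]
  have h1 : p.factorization q = 0 :=
    Nat.factorization_eq_zero_of_not_dvd (fun h => hne ((Nat.prime_dvd_prime_iff_eq hq hp).1 h).symm)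
  simp [hq.factorization_self, h1]

theorem card_filter_erase {G : Type*} [Group G] [Fintype G] [DecidableEq G] (H : Subgroup G)
    [DecidablePred (· ∈ H)] :
    ((Finset.univ.filter (· ∈ H)).erase (1 : G)).card = Nat.card H - 1 := by
  rw [Finset.card_erase_of_mem (by simp [H.one_mem])]
  congr 1
  rw [Nat.card_eq_fintype_card, Fintype.card_subtype]

/-- Counting: if the Sylow `p`-subgroups pairwise intersect trivially and there are `q` of them then the
Sylow `q`-subgroup is unique. -/
theorem sylow_q_unique {G : Type*} [Group G] [Finite G] {p q m : ℕ} [Fact p.Prime] [Fact q.Prime]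
    (hpq : p ≠ q) (hG : Nat.card G = p ^ m * q)
    (hdisj : ∀ P P' : Sylow p G, P ≠ P' → (P : Subgroup G) ⊓ (P' : Subgroup G) = ⊥)
    (hn : Nat.card (Sylow p G) = q) (Q1 Q2 : Sylow q G) : Q1 = Q2 := by
  classical
  have := Fintype.ofFinite G
  have := Fintype.ofFinite (Sylow p G)
  have hp : p.Prime := Fact.out
  have hq : q.Prime := Fact.out
  have hne : p ≠ q := hpq
  have hfact_p : (Nat.card G).factorization p = m := by
    rw [hG]; exact fact_left hp hq hne
  have hfact_q : (Nat.card G).factorization q = 1 := by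
    rw [hG]; exact fact_right hp hq hne
  have hcardP : ∀ P : Sylow p G, Nat.card P = p ^ m := fun P => by
    rw [P.card_eq_multiplicity, hfact_p]
  have hcardQ : ∀ Q : Sylow q G, Nat.card Q = q := fun Q => by
    rw [Q.card_eq_multiplicity, hfact_q, pow_one]
  have hcop : ∀ (P : Sylow p G) (Q : Sylow q G) (x : G), x ∈ (P : Subgroup G) → x ∈ (Q : Subgroup G) → x = 1 := by
    intro P Q x hx1 hx2
    have hd : Disjoint (P : Subgroup G) (Q : Subgroup G) :=
      Subgroup.disjoint_of_coprime_natCard (by
        rw [hcardP, hcardQ]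
        exact Nat.Coprime.pow_left _ ((Nat.coprime_primes hp hq).2 hne))
    exact Subgroup.disjoint_def.mp hd hx1 hx2
  let f : Subgroup G → Finset G := fun H => (Finset.univ.filter (· ∈ H)).erase (1 : G)
  have hfmem : ∀ (H : Subgroup G) (x : G), x ∈ f H ↔ x ≠ 1 ∧ x ∈ H := by
    intro H x; simp [f]
  let A : Finset G := Finset.univ.biUnion (fun P : Sylow p G => f (P : Subgroup G))
  have hAmem : ∀ x, x ∈ A ↔ ∃ P : Sylow p G, x ≠ 1 ∧ x ∈ (P : Subgroup G) := by
    intro x
    simp only [A, Finset.mem_biUnion, Finset.mem_univ, true_and, hfmem]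
  have hAcard : A.card = q * (p ^ m - 1) := by
    rw [Finset.card_biUnion]
    · simp only [f, card_filter_erase, hcardP, Finset.sum_const, smul_eq_mul]
      rw [Finset.card_univ, ← Nat.card_eq_fintype_card, hn]
    · intro P _ P' _ hPP'
      show Disjoint (f (P : Subgroup G)) (f (P' : Subgroup G))
      rw [Finset.disjoint_left]
      intro x hx hx'
      rw [hfmem] at hx hx'
      have : x ∈ (P : Subgroup G) ⊓ (P' : Subgroup G) := ⟨hx.2, hx'.2⟩
      rw [hdisj P P' hPP', Subgroup.mem_bot] at this
      exact hx.1 this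
  have hAdisj : ∀ Q : Sylow q G, Disjoint A (f (Q : Subgroup G)) := by
    intro Q
    rw [Finset.disjoint_left]
    intro x hx hx'
    rw [hAmem] at hx
    rw [hfmem] at hx'
    obtain ⟨P, hx1, hx2⟩ := hx
    exact hx1 (hcop P Q x hx2 hx'.2)
  have hle : ∀ Q1 Q2 : Sylow q G, (Q2 : Subgroup G) ≤ (Q1 : Subgroup G) := by
    intro Q1 Q2 x hx
    by_contra hx1
    have hx1' : x ≠ 1 := fun h => hx1 (h ▸ (Q1 : Subgroup G).one_mem)
    have hsub : A ∪ f (Q1 : Subgroup G) ⊆ Finset.univ.erase (1 : G) := by
      intro y hy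
      rw [Finset.mem_union, hAmem, hfmem] at hy
      rw [Finset.mem_erase]
      rcases hy with ⟨_, h, _⟩ | ⟨h, _⟩
      · exact ⟨h, Finset.mem_univ _⟩
      · exact ⟨h, Finset.mem_univ _⟩
    have hcardU : (A ∪ f (Q1 : Subgroup G)).card = (Finset.univ.erase (1 : G)).card := by
      rw [Finset.card_union_of_disjoint (hAdisj Q1), hAcard]
      simp only [f, card_filter_erase, hcardQ]
      rw [Finset.card_erase_of_mem (Finset.mem_univ _), Finset.card_univ, ← Nat.card_eq_fintype_card, hG]
      have h1 : 1 ≤ p ^ m := Nat.one_le_pow _ _ hp.pos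
      have h2 : 1 ≤ q := hq.one_le
      obtain ⟨a, ha⟩ : ∃ a, p ^ m = a + 1 := ⟨p ^ m - 1, by omega⟩
      obtain ⟨b, hb⟩ : ∃ b, q = b + 1 := ⟨q - 1, by omega⟩
      rw [ha, hb]
      simp only [Nat.add_sub_cancel]
      have : (a + 1) * (b + 1) - 1 = (b + 1) * a + b := by
        have : (a + 1) * (b + 1) = (b + 1) * a + b + 1 := by ring
        omega
      omega
    have heq := Finset.eq_of_subset_of_card_le hsub hcardU.ge
    have hxU : x ∈ A ∪ f (Q1 : Subgroup G) := by
      rw [heq, Finset.mem_erase]
      exact ⟨hx1', Finset.mem_univ _⟩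
    rw [Finset.mem_union, hAmem, hfmem] at hxU
    rcases hxU with ⟨P, _, hP⟩ | ⟨_, h⟩
    · exact hx1' (hcop P Q2 x hP hx)
    · exact hx1 h
  exact Sylow.ext (le_antisymm (hle Q2 Q1) (hle Q1 Q2))

theorem aux (n : ℕ) : ∀ (G : Type u) [Group G] [Finite G] (p q m : ℕ), p.Prime → q.Prime →
    Nat.card G = n → n = p ^ m * q → Group.IsSolvable G := by
  induction n using Nat.strong_induction_on with
  | _ n ih =>
  intro G _ _ p q m hp hq hcard hn
  have := Fact.mk hp
  have := Fact.mk hq
  by_cases hpq : p = q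
  · subst hpq
    exact solvable_of_pgroup (p := p) (IsPGroup.of_card (n := m + 1) (by rw [hcard, hn, pow_succ]))
  have hG : Nat.card G = p ^ m * q := hcard.trans hn
  have hfact_p : (Nat.card G).factorization p = m := by
    rw [hG]; exact fact_left hp hq hpq
  have hcardP : ∀ P : Sylow p G, Nat.card P = p ^ m := fun P => by
    rw [P.card_eq_multiplicity, hfact_p]
  by_cases hsub : Subsingleton (Sylow p G)
  · obtain ⟨P⟩ : Nonempty (Sylow p G) := inferInstance
    have := P.normal_of_subsingleton
    have hq' : Nat.card (G ⧸ (P : Subgroup G)) = q ^ 1 := by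
      have h := Subgroup.card_eq_card_quotient_mul_card_subgroup (P : Subgroup G)
      rw [hG, hcardP P, mul_comm] at h
      rw [pow_one]
      exact (Nat.eq_of_mul_eq_mul_right (pow_pos hp.pos m) h).symm
    exact solvable_of_normal (P : Subgroup G) (solvable_of_pgroup P.isPGroup')
      (solvable_of_pgroup (IsPGroup.of_card hq'))
  -- not unique: maximal intersection
  rw [not_subsingleton_iff_nontrivial] at hsub
  have : Nonempty {X : Sylow p G × Sylow p G // X.1 ≠ X.2} := by
    obtain ⟨a, b, hab⟩ := exists_pair_ne (Sylow p G)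
    exact ⟨⟨(a, b), hab⟩⟩
  obtain ⟨⟨⟨P1, P2⟩, hP12⟩, hmax⟩ := Finite.exists_max
    (fun X : {X : Sylow p G × Sylow p G // X.1 ≠ X.2} =>
      Nat.card ↥((X.1.1 : Subgroup G) ⊓ (X.1.2 : Subgroup G)))
  simp only at hmax hP12
  set D : Subgroup G := (P1 : Subgroup G) ⊓ (P2 : Subgroup G) with hD
  by_cases hDb : D = ⊥
  · -- counting case
    have hdisj : ∀ P P' : Sylow p G, P ≠ P' → (P : Subgroup G) ⊓ (P' : Subgroup G) = ⊥ := by
      intro P P' hne
      have := hmax ⟨(P, P'), hne⟩
      simp only at this
      rw [hDb, Subgroup.card_bot] at this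
      exact Subgroup.eq_bot_of_card_le _ this
    have hnq : Nat.card (Sylow p G) = q := by
      have hidx : P1.1.index = q := by
        have h := Subgroup.index_mul_card (P1 : Subgroup G)
        rw [hG, hcardP P1, mul_comm] at h
        exact Nat.eq_of_mul_eq_mul_left (pow_pos hp.pos m) h
      have hdvd : Nat.card (Sylow p G) ∣ q := hidx ▸ Sylow.card_dvd_index P1
      rcases (Nat.dvd_prime hq).1 hdvd with h1 | h1
      · exfalso
        have := Finite.one_lt_card (α := Sylow p G)
        omega
      · exact h1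
    have huniq : Subsingleton (Sylow q G) :=
      ⟨fun a b => sylow_q_unique hpq hG hdisj hnq a b⟩
    obtain ⟨Q⟩ : Nonempty (Sylow q G) := inferInstance
    have := Q.normal_of_subsingleton
    have hfact_q : (Nat.card G).factorization q = 1 := by
      rw [hG]; exact fact_right hp hq hpq
    have hQc : Nat.card Q = q := by
      rw [Q.card_eq_multiplicity, hfact_q, pow_one]
    have hp' : Nat.card (G ⧸ (Q : Subgroup G)) = p ^ m := by
      have h := Subgroup.card_eq_card_quotient_mul_card_subgroup (Q : Subgroup G)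
      rw [hG, hQc] at h
      exact (Nat.eq_of_mul_eq_mul_right hq.pos h).symm
    exact solvable_of_normal (Q : Subgroup G) (solvable_of_pgroup Q.isPGroup')
      (solvable_of_pgroup (IsPGroup.of_card hp'))
  · -- normal closure case
    set N : Subgroup G := Subgroup.normalizer (D : Set G) with hN
    have hzexist : ∀ P : Sylow p G, D ≤ (P : Subgroup G) → D ≠ (P : Subgroup G) →
        ∃ z, z ∈ (P : Subgroup G) ∧ z ∈ N ∧ z ∉ D := by
      intro P hDP hne
      have : Group.IsNilpotent (P : Subgroup G) := P.isPGroup'.isNilpotent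
      have hlt : D.subgroupOf (P : Subgroup G) < ⊤ := by
        rw [lt_top_iff_ne_top]
        intro h
        apply hne
        apply le_antisymm hDP
        intro x hx
        have : (⟨x, hx⟩ : (P : Subgroup G)) ∈ D.subgroupOf (P : Subgroup G) := by rw [h]; trivial
        exact this
      have h2 := Group.normalizerCondition_of_isNilpotent (G := (P : Subgroup G)) _ hlt
      obtain ⟨x, hx1, hx2⟩ := SetLike.exists_of_lt h2
      refine ⟨x.1, x.2, ?_, fun h => hx2 (by rw [Subgroup.mem_subgroupOf]; exact h)⟩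
      rw [hN, Subgroup.mem_normalizer_iff]
      intro h
      have hx3 := Subgroup.mem_normalizer_iff.mp hx1
      constructor
      · intro hh
        have := (hx3 ⟨h, hDP hh⟩).mp (by rw [Subgroup.mem_subgroupOf]; exact hh)
        rw [Subgroup.mem_subgroupOf] at this
        exact this
      · intro hh
        have hhP : h ∈ (P : Subgroup G) := by
          have h1 := (P : Subgroup G).mul_mem ((P : Subgroup G).mul_mem ((P : Subgroup G).inv_mem x.2) (hDP hh)) x.2
          have h2 : (x : G)⁻¹ * (x * h * (x : G)⁻¹) * x = h := by group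
          rwa [h2] at h1
        have := (hx3 ⟨h, hhP⟩).mpr (by rw [Subgroup.mem_subgroupOf]; exact hh)
        rw [Subgroup.mem_subgroupOf] at this
        exact this
    have hD1 : D ≠ (P1 : Subgroup G) := by
      intro h
      have h1 : (P1 : Subgroup G) ≤ (P2 : Subgroup G) := by
        rw [← h]; exact inf_le_right
      apply hP12
      exact Sylow.ext (Subgroup.eq_of_le_of_card_ge h1 (by rw [hcardP, hcardP]))
    have hD2 : D ≠ (P2 : Subgroup G) := by
      intro h
      have h1 : (P2 : Subgroup G) ≤ (P1 : Subgroup G) := by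
        rw [← h]; exact inf_le_left
      apply hP12
      exact (Sylow.ext (Subgroup.eq_of_le_of_card_ge h1 (by rw [hcardP, hcardP]))).symm
    obtain ⟨z1, hz11, hz12, hz13⟩ := hzexist P1 inf_le_left hD1
    obtain ⟨z2, hz21, hz22, hz23⟩ := hzexist P2 inf_le_right hD2
    have hqN : q ∣ Nat.card N := by
      by_contra hnd
      have hd : Nat.card N ∣ p ^ m * q := by
        rw [← hG]; exact Subgroup.card_subgroup_dvd_card N
      have hco : Nat.Coprime (Nat.card N) q := by
        rw [Nat.coprime_comm, Nat.Prime.coprime_iff_not_dvd hq]; exact hnd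
      have hd2 : Nat.card N ∣ p ^ m := hco.dvd_of_dvd_mul_right hd
      obtain ⟨b, -, hb⟩ := (Nat.dvd_prime_pow hp).1 hd2
      have hNp : IsPGroup p N := IsPGroup.of_card hb
      obtain ⟨P3, hP3⟩ := hNp.exists_le_sylow
      have hDN : D ≤ N := Subgroup.le_normalizer
      have hmax3 : ∀ P : Sylow p G, D ≤ (P : Subgroup G) → ∀ z, z ∈ (P : Subgroup G) → z ∈ N → z ∉ D → P = P3 := by
        intro P hDP z hzP hzN hzD
        by_contra hne
        have h3 := hmax ⟨(P, P3), hne⟩
        simp only at h3
        have hle : D ≤ (P : Subgroup G) ⊓ (P3 : Subgroup G) := le_inf hDP (hDN.trans hP3)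
        have heq := Subgroup.eq_of_le_of_card_ge hle h3
        exact hzD (heq ▸ (⟨hzP, hP3 hzN⟩ : z ∈ (P : Subgroup G) ⊓ (P3 : Subgroup G)))
      have e1 := hmax3 P1 inf_le_left z1 hz11 hz12 hz13
      have e2 := hmax3 P2 inf_le_right z2 hz21 hz22 hz23
      exact hP12 (e1.trans e2.symm)
    obtain ⟨y, hy⟩ := exists_prime_orderOf_dvd_card' q hqN
    have hy' : orderOf (y : G) = q := by rw [Subgroup.orderOf_coe]; exact hy
    have hcompl : (P1 : Subgroup G).IsComplement' (Subgroup.zpowers (y : G)) := by
      apply Subgroup.isComplement'_of_coprime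
      · rw [hcardP, Nat.card_zpowers, hy', hG]
      · rw [hcardP, Nat.card_zpowers, hy']
        exact Nat.Coprime.pow_left _ ((Nat.coprime_primes hp hq).2 hpq)
    -- the normal closure of D lies in P1
    have hKle : Subgroup.normalClosure (D : Set G) ≤ (P1 : Subgroup G) := by
      rw [Subgroup.normalClosure, Subgroup.closure_le]
      intro t ht
      rw [Group.mem_conjugatesOfSet_iff] at ht
      obtain ⟨a, haD, hat⟩ := ht
      obtain ⟨g, rfl⟩ := isConj_iff.mp hat
      obtain ⟨⟨u, v⟩, huv⟩ := hcompl.2 g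
      simp only at huv
      rw [← huv]
      have hvN : (v : G) ∈ N := by
        obtain ⟨k, hk⟩ := v.2
        rw [← hk]
        exact N.zpow_mem y.2 k
      have hvD : (v : G) * a * (v : G)⁻¹ ∈ D :=
        (Subgroup.mem_normalizer_iff.mp hvN a).mp haD
      have hP1 : (v : G) * a * (v : G)⁻¹ ∈ (P1 : Subgroup G) := hvD.1
      have := (P1 : Subgroup G).mul_mem ((P1 : Subgroup G).mul_mem u.2 hP1) ((P1 : Subgroup G).inv_mem u.2)
      have h2 : (u : G) * (v : G) * a * ((u : G) * (v : G))⁻¹ = u * ((v : G) * a * (v : G)⁻¹) * (u : G)⁻¹ := by group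
      rw [h2]
      exact this
    set K : Subgroup G := Subgroup.normalClosure (D : Set G) with hK
    have hKn : K.Normal := Subgroup.normalClosure_normal
    have hKp : IsPGroup p K := P1.isPGroup'.to_le hKle
    have hKb : K ≠ ⊥ := by
      intro h
      apply hDb
      rw [eq_bot_iff, ← h]
      exact Subgroup.subset_normalClosure
    have hKcard : Nat.card K ∣ p ^ m := by
      rw [← hcardP P1]; exact Subgroup.card_dvd_of_le hKle
    obtain ⟨a, ha, hKa⟩ := (Nat.dvd_prime_pow hp).1 hKcard
    have ha0 : a ≠ 0 := by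
      rintro rfl
      apply hKb
      exact Subgroup.eq_bot_of_card_le _ (by rw [hKa, pow_zero])
    have hquot : Nat.card (G ⧸ K) = p ^ (m - a) * q := by
      have h := Subgroup.card_eq_card_quotient_mul_card_subgroup K
      rw [hG, hKa] at h
      have h2 : p ^ m = p ^ (m - a) * p ^ a := by
        rw [← pow_add, Nat.sub_add_cancel ha]
      rw [h2, mul_right_comm] at h
      exact (Nat.eq_of_mul_eq_mul_right (pow_pos hp.pos a) h).symm
    have hlt : p ^ (m - a) * q < n := by
      rw [hn]
      apply Nat.mul_lt_mul_of_pos_right _ hq.pos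
      exact Nat.pow_lt_pow_right hp.one_lt (by omega)
    have hsq : Group.IsSolvable (G ⧸ K) :=
      ih _ hlt (G ⧸ K) p q (m - a) hp hq hquot rfl
    exact solvable_of_normal K (solvable_of_pgroup hKp) hsq

/-- A finite group whose order is a prime power times a prime is solvable. -/
theorem result {G : Type*} [Group G] [Finite G] (p q m : ℕ) (hp : p.Prime) (hq : q.Prime)
    (hG : Nat.card G = p ^ m * q) : Group.IsSolvable G :=
  aux _ G p q m hp hq hG rfl

end Cfsg.Agent.S0061
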