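import Cfsg.Statements.S0062
import Cfsg.Agent.S0061
import Mathlib

set_option autoImplicit false
open Cfsg

namespace Cfsg.Agent.S0062

open Cfsg.Agent.S0061 in
theorem solv_small {H : Type*} [Group H] [Finite H] (h : Nat.card H = 2 ∨ Nat.card H = 3 ∨ Nat.card H = 4 ∨
    Nat.card H = 6 ∨ Nat.card H = 9 ∨ Nat.card H = 12 ∨ Nat.card H = 18) : Group.IsSolvable H := by
  have p2 : Nat.Prime 2 := Nat.prime_two
  have p3 : Nat.Prime 3 := Nat.prime_three
  rcases h with h | h | h | h | h | h | h
  · exact Cfsg.Agent.S0061.result 2 2 0 p2 p2 (by simpa using h)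
  · exact Cfsg.Agent.S0061.result 2 3 0 p2 p3 (by simpa using h)
  · exact Cfsg.Agent.S0061.result 2 2 1 p2 p2 (by simpa using h)
  · exact Cfsg.Agent.S0061.result 2 3 1 p2 p3 (by simpa using h)
  · exact Cfsg.Agent.S0061.result 3 3 1 p3 p3 (by simpa using h)
  · exact Cfsg.Agent.S0061.result 2 3 2 p2 p3 (by simpa using h)
  · exact Cfsg.Agent.S0061.result 3 2 2 p3 p2 (by simpa using h)

theorem order36 {G : Type*} [Group G] [Finite G] (hG : Nat.card G = 36)
    (hn : Nat.card (Sylow 3 G) = 4) [Fact (Nat.Prime 3)] : Group.IsSolvable G := by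
  classical
  let φ := MulAction.toPermHom G (Sylow 3 G)
  let K := φ.ker
  have hidx : K.index = Nat.card φ.range := Subgroup.index_ker φ
  have hperm : Nat.card (Equiv.Perm (Sylow 3 G)) = 24 := by
    rw [Nat.card_perm, hn]; rfl
  have h1 : K.index ∣ 24 := by
    rw [hidx, ← hperm]
    exact Subgroup.card_subgroup_dvd_card _
  have h2 : K.index * Nat.card K = 36 := by
    rw [Subgroup.index_mul_card, hG]
  have h3 : K.index ≠ 1 := by
    intro h
    rw [Subgroup.index_eq_one] at h
    have hfix : ∀ (g : G) (P : Sylow 3 G), g • P = P := by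
      intro g P
      have : g ∈ K := by rw [h]; trivial
      have h4 : φ g = 1 := this
      have h5 := congrArg (fun f : Equiv.Perm (Sylow 3 G) => f P) h4
      simpa [φ] using h5
    have hsub : Subsingleton (Sylow 3 G) := by
      refine ⟨fun a b => ?_⟩
      obtain ⟨g, rfl⟩ := MulAction.exists_smul_eq G a b
      exact (hfix g a).symm
    have : Nat.card (Sylow 3 G) = 1 := Nat.card_unique
    omega
  have h4 : K.index ∣ 36 := ⟨_, h2.symm⟩
  have h5 : K.index ≤ 24 := Nat.le_of_dvd (by norm_num) h1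
  have hKq : Nat.card (G ⧸ K) = K.index := rfl
  have key : (K.index = 2 ∧ Nat.card K = 18) ∨ (K.index = 3 ∧ Nat.card K = 12) ∨
      (K.index = 4 ∧ Nat.card K = 9) ∨ (K.index = 6 ∧ Nat.card K = 6) ∨
      (K.index = 12 ∧ Nat.card K = 3) := by
    generalize K.index = d at *
    generalize Nat.card K = e at *
    interval_cases d <;> omega
  have hs1 : Group.IsSolvable K := by
    apply solv_small
    rcases key with ⟨_, h⟩ | ⟨_, h⟩ | ⟨_, h⟩ | ⟨_, h⟩ | ⟨_, h⟩ <;> simp [h]
  have hs2 : Group.IsSolvable (G ⧸ K) := by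
    apply solv_small
    rw [hKq]
    rcases key with ⟨h, _⟩ | ⟨h, _⟩ | ⟨h, _⟩ | ⟨h, _⟩ | ⟨h, _⟩ <;> simp [h]
  exact Cfsg.Agent.S0061.solvable_of_normal K hs1 hs2

theorem aux {G : Type*} [Group G] [Finite G] (p q : ℕ) (hp : p.Prime) (hq : q.Prime)
    (hG : Nat.card G = p ^ 2 * q ^ 2) (hlt : q < p) : Group.IsSolvable G := by
  classical
  have hfp := Fact.mk hp
  have hfq := Fact.mk hq
  have hne : p ≠ q := hlt.ne'
  have hcop : Nat.Coprime (p ^ 2) (q ^ 2) :=
    Nat.Coprime.pow _ _ ((Nat.coprime_primes hp hq).2 hne)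
  have hfact : (Nat.card G).factorization p = 2 := by
    rw [hG, Nat.factorization_mul (pow_ne_zero _ hp.ne_zero) (pow_ne_zero _ hq.ne_zero)]
    have h1 : q.factorization p = 0 :=
      Nat.factorization_eq_zero_of_not_dvd (fun h => hne ((Nat.prime_dvd_prime_iff_eq hp hq).1 h))
    simp [hp.factorization_self, h1]
  obtain ⟨P⟩ : Nonempty (Sylow p G) := inferInstance
  have hcardP : Nat.card P = p ^ 2 := by
    rw [P.card_eq_multiplicity, hfact]
  have hidx : (P : Subgroup G).index = q ^ 2 := by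
    have h := Subgroup.index_mul_card (P : Subgroup G)
    rw [hG, hcardP, mul_comm] at h
    exact Nat.eq_of_mul_eq_mul_left (pow_pos hp.pos 2) h
  have hdvd : Nat.card (Sylow p G) ∣ q ^ 2 := hidx ▸ Sylow.card_dvd_index P
  have hmod : Nat.card (Sylow p G) ≡ 1 [MOD p] := card_sylow_modEq_one p G
  have hp2 : 1 < p := hp.one_lt
  have hq2 : 2 ≤ q := hq.two_le
  obtain ⟨e, he, hne⟩ := (Nat.dvd_prime_pow hq).1 hdvd
  interval_cases e
  · -- unique Sylow
    have hsub : Subsingleton (Sylow p G) := by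
      rw [pow_zero] at hne
      exact (Nat.card_eq_one_iff_unique.mp hne).1
    have := P.normal_of_subsingleton
    have hq' : Nat.card (G ⧸ (P : Subgroup G)) = q ^ 2 := hidx
    exact Cfsg.Agent.S0061.solvable_of_normal (P : Subgroup G)
      (Cfsg.Agent.S0061.solvable_of_pgroup P.isPGroup')
      (Cfsg.Agent.S0061.solvable_of_pgroup (IsPGroup.of_card hq'))
  · -- n = q impossible
    exfalso
    rw [hne, pow_one] at hmod
    have h1 : q % p = 1 % p := hmod
    rw [Nat.mod_eq_of_lt hlt, Nat.mod_eq_of_lt hp2] at h1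
    omega
  · -- n = q^2: forces p = 3, q = 2
    rw [hne] at hmod
    have hdvd2 : p ∣ q ^ 2 - 1 := (Nat.modEq_iff_dvd' (Nat.one_le_pow _ _ (by omega))).1 hmod.symm
    have hfac : q ^ 2 - 1 = (q - 1) * (q + 1) := by
      obtain ⟨r, rfl⟩ : ∃ r, q = r + 1 := ⟨q - 1, by omega⟩
      simp only [Nat.add_sub_cancel]
      have : (r + 1) ^ 2 = r * (r + 1 + 1) + 1 := by ring
      omega
    rw [hfac] at hdvd2
    rcases (Nat.Prime.dvd_mul hp).1 hdvd2 with h | h
    · have := Nat.le_of_dvd (by omega) h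
      omega
    · have h3 := Nat.le_of_dvd (by omega) h
      have hpq : p = q + 1 := by omega
      have hq2' : q = 2 := by
        rcases hq.eq_two_or_odd' with h2 | h2
        · exact h2
        · exfalso
          have : Even p := by rw [hpq]; exact h2.add_one
          rcases hp.eq_two_or_odd' with h4 | h4
          · omega
          · exact (Nat.not_even_iff_odd.mpr h4) this
      subst hq2'
      have hp3 : p = 3 := by omega
      subst hp3
      exact order36 (by rw [hG]; norm_num) (by rw [hne]; norm_num)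

/-- A finite group of order p²q² (p, q primes) is solvable. -/
theorem result {G : Type*} [Group G] [Finite G] (p q : ℕ) (hp : p.Prime) (hq : q.Prime)
    (hG : Nat.card G = p ^ 2 * q ^ 2) : Group.IsSolvable G := by
  rcases lt_trichotomy p q with h | h | h
  · exact aux q p hq hp (by rw [hG, mul_comm]) h
  · subst h
    have hfp := Fact.mk hp
    exact Cfsg.Agent.S0061.solvable_of_pgroup (p := p) (IsPGroup.of_card (n := 2 + 2) (by rw [hG, pow_add]))
  · exact aux p q hp hq hG h

end Cfsg.Agent.S0062
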