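import Cfsg.Statements.S0063
import Mathlib

set_option autoImplicit false
open Cfsg

namespace Cfsg.Agent.S0063

theorem aux (p : ℕ) [hp : Fact p.Prime] (m : ℕ) :
    ∀ (G : Type _) [Group G] [Finite G], Nat.card G = p ^ m → 1 < m → Group.nilpotencyClass G ≤ m - 1 := by
  induction m using Nat.strong_induction_on with
  | _ m ih =>
    intro G _ _ hG hm
    have hPG : IsPGroup p G := IsPGroup.of_card hG
    haveI hnil : Group.IsNilpotent G := hPG.isNilpotent
    haveI : Nontrivial G := by
      rw [← Finite.one_lt_card_iff_nontrivial, hG]
      exact Nat.one_lt_pow (by omega) hp.out.one_lt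
    -- the center is nontrivial
    have hZ : 1 < Nat.card (Subgroup.center G) := by
      haveI := hPG.center_nontrivial
      exact Finite.one_lt_card
    -- order of the quotient
    have hQ : Nat.card (G ⧸ Subgroup.center G) * Nat.card (Subgroup.center G) = p ^ m := by
      rw [← hG]
      exact (Subgroup.card_eq_card_quotient_mul_card_subgroup _).symm
    obtain ⟨k, hk⟩ : ∃ k, Nat.card (G ⧸ Subgroup.center G) = p ^ k :=
      (Nat.dvd_prime_pow hp.out).1 (Dvd.intro _ hQ) |>.imp fun k h => h.2
    obtain ⟨l, hl⟩ : ∃ l, Nat.card (Subgroup.center G) = p ^ l :=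
      (Nat.dvd_prime_pow hp.out).1 (Dvd.intro_left _ hQ) |>.imp fun k h => h.2
    have hl0 : l ≠ 0 := by
      rintro rfl
      rw [pow_zero] at hl
      omega
    have hkl : k + l = m := by
      rw [hk, hl, ← pow_add] at hQ
      exact Nat.pow_right_injective hp.out.two_le hQ
    by_cases hk2 : 1 < k
    · have := ih k (by omega) (G ⧸ Subgroup.center G) hk hk2
      rw [nilpotencyClass_eq_quotient_center_plus_one]
      omega
    · -- the quotient by the center is cyclic, G is commutative
      have hcyc : IsCyclic (G ⧸ Subgroup.center G) := by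
        have : k = 0 ∨ k = 1 := by omega
        rcases this with rfl | rfl
        · simp only [pow_zero] at hk
          have : Subsingleton (G ⧸ Subgroup.center G) := (Nat.card_eq_one_iff_unique.1 hk).1
          exact isCyclic_of_subsingleton
        · simp only [pow_one] at hk
          haveI : Fact (Nat.card (G ⧸ Subgroup.center G)).Prime := ⟨hk ▸ hp.out⟩
          exact isCyclic_of_prime_card rfl
      have : IsMulCommutative G := isMulCommutative_of_isCyclic_quotient_center_self G
      have h1 : Group.nilpotencyClass G ≤ 1 := Group.IsNilpotent.nilpotencyClass_le_one_iff.2 this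
      omega

/-- A finite group of prime-power order p ^ m with m > 1 is nilpotent of class at most m - 1. -/
theorem result {G : Type*} [Group G] [Finite G] (p m : ℕ) [Fact p.Prime]
    (hG : Nat.card G = p ^ m) (hm : 1 < m) : Group.nilpotencyClass G ≤ m - 1 := by
  exact aux p m G hG hm

end Cfsg.Agent.S0063
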