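import Cfsg.Statements.S0064
import Mathlib

set_option autoImplicit false
open Cfsg

namespace Cfsg.Agent.S0064

/-- A finite group is nilpotent exactly when each of its subgroups is subnormal. -/
theorem result {G : Type*} [Group G] [Finite G] :
    Group.IsNilpotent G ↔ ∀ H : Subgroup G, H.IsSubnormal := by
  constructor
  · intro hnil H
    have hcond := normalizerCondition_of_isNilpotent (G := G)
    -- downward induction on the index
    have key : ∀ (n : ℕ) (H : Subgroup G), n = H.index → H.IsSubnormal := by
      intro n
      induction n using Nat.strong_induction_on with
      | _ n ih =>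
        intro H hn
        by_cases htop : H = ⊤
        · rw [htop]; exact Subgroup.IsSubnormal.top
        · have hlt : H < Subgroup.normalizer (H : Set G) := hcond H (lt_top_iff_ne_top.2 htop)
          have hindex : (Subgroup.normalizer (H : Set G)).index < H.index := by
            exact Subgroup.index_strictAnti hlt
          have hsn := ih _ (hn ▸ hindex) _ rfl
          exact Subgroup.IsSubnormal.step H _ hlt.le hsn Subgroup.normal_in_normalizer
    exact key _ H rfl
  · intro h
    have htfae := Group.isNilpotent_of_finite_tfae (G := G)
    have hiff : Group.IsNilpotent G ↔ NormalizerCondition G := htfae.out 0 1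
    rw [hiff]
    intro H hH
    rcases (Subgroup.IsSubnormal.iff_eq_top_or_exists).1 (h H) with h1 | ⟨K, hK, _, hN⟩
    · exact absurd h1 hH.ne
    · refine lt_of_lt_of_le hK ?_
      exact (Subgroup.normal_subgroupOf_iff_le_normalizer hK.le).1 hN

end Cfsg.Agent.S0064
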