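import Cfsg.Statements.S0067
import Mathlib
import Cfsg.Agent.Lib.Nilpotent.Subnormal
import Cfsg.Agent.Lib.Nilpotent.SubnormalRadical
import Cfsg.Agent.Lib.Nilpotent.Fitting
-- import your own Cfsg.Agent.* helpers here

set_option autoImplicit false
open Pointwise
open Cfsg

namespace Cfsg.Agent.S0067

/-- If the join of a subgroup A with each of its conjugates is nilpotent, then A is subnormal in the finite group and contained in the Fitting subgroup. -/
theorem result {G : Type*} [Group G] [Finite G] (A : Subgroup G)
    (h : ∀ g : G, Group.IsNilpotent (A ⊔ MulAut.conj g • A : Subgroup G)) : A.IsSubnormal ∧ A ≤ Cfsg.fittingSubgroup G := by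
  have hsub : A.IsSubnormal := by
    apply Cfsg.Agent.Lib.Nilpotent.Subnormal.isSubnormal_of_forall_isSubnormal_subgroupOf
    intro g
    -- inside the nilpotent group `A ⊔ gAg⁻¹`
    have := h g
    exact Cfsg.Agent.Lib.Nilpotent.SubnormalRadical.isSubnormal_of_isNilpotent _
  refine ⟨hsub, ?_⟩
  apply Cfsg.Agent.Lib.Nilpotent.SubnormalRadical.le_fittingSubgroup_of_isSubnormal hsub
  exact Cfsg.Agent.Lib.Nilpotent.Fitting.isNilpotent_of_le le_sup_left (h 1)

end Cfsg.Agent.S0067
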