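import Cfsg.Statements.S0068
import Mathlib
import Cfsg.Agent.Lib.Frobenius.Even

set_option autoImplicit false
open Cfsg

namespace Cfsg.Agent.S0068

/-- Frobenius complements of even order: if H complements a nontrivial normal subgroup K, each nonidentity element of H has trivial centraliser in K, and H has even order, then H contains a unique involution s, K is abelian, and s inverts every element of K. -/
theorem result {G : Type*} [Group G] [Finite G] (K H : Subgroup G) [K.Normal]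
    (hc : Subgroup.IsComplement' K H) (hK : K ≠ ⊥) (hfpf : ∀ h ∈ H, h ≠ 1 → K ⊓ Subgroup.centralizer {h} = ⊥)
    (heven : 2 ∣ Nat.card H) :
    (∃ s ∈ H, orderOf s = 2 ∧ (∀ t ∈ H, orderOf t = 2 → t = s) ∧ ∀ k ∈ K, s * k * s⁻¹ = k⁻¹) ∧ IsMulCommutative K := by
  classical
  have hfix : ∀ h ∈ H, h ≠ 1 → ∀ k ∈ K, h * k = k * h → k = 1 := by
    intro h hh hh1 k hk hc
    have : k ∈ K ⊓ Subgroup.centralizer {h} := by
      refine Subgroup.mem_inf.mpr ⟨hk, Subgroup.mem_centralizer_iff.mpr ?_⟩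
      intro y hy
      rw [Set.mem_singleton_iff] at hy
      subst hy
      exact hc
    rw [hfpf h hh hh1] at this
    simpa using this
  have hnorm : ∀ x : G, x ∈ Subgroup.normalizer (K : Set G) := by
    intro x
    rw [Subgroup.normalizer_eq_top_iff.mpr (inferInstance : K.Normal)]
    trivial
  haveI : Fact (Nat.Prime 2) := ⟨Nat.prime_two⟩
  obtain ⟨x, hx⟩ := exists_prime_orderOf_dvd_card' (G := H) 2 heven
  have hxG : orderOf (x : G) = 2 := by
    rw [Subgroup.orderOf_coe]; exact hx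
  have hinvol : ∀ t ∈ H, orderOf t = 2 → (t * t = 1 ∧ t ≠ 1) := by
    intro t _ ht
    refine ⟨?_, ?_⟩
    · rw [← pow_two, ← ht]; exact pow_orderOf_eq_one t
    · rintro rfl
      simp at ht
  have hinv : ∀ t ∈ H, orderOf t = 2 → ∀ k ∈ K, t * k * t⁻¹ = k⁻¹ := by
    intro t ht ht2 k hk
    obtain ⟨h1, h2⟩ := hinvol t ht ht2
    exact Lib.Frobenius.Even.inverts_of_fpf_involution (hnorm t) h1 (hfix t ht h2) hk
  refine ⟨⟨x, x.2, hxG, ?_, hinv x x.2 hxG⟩, ?_⟩
  · intro t ht ht2
    obtain ⟨k, hk, hk1⟩ : ∃ k ∈ K, k ≠ 1 := by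
      obtain ⟨k, hk⟩ := Subgroup.ne_bot_iff_exists_ne_one.mp hK
      exact ⟨k, k.2, fun h => hk (Subtype.ext h)⟩
    by_contra hne
    obtain ⟨hx1, hx2⟩ := hinvol x x.2 hxG
    obtain ⟨ht1, ht3⟩ := hinvol t ht ht2
    have hcomm : (t * (x : G)) * k = k * (t * (x : G)) := by
      have h1 := hinv x x.2 hxG k hk
      have h2 := hinv t ht ht2 k⁻¹ (K.inv_mem hk)
      have hxinv : (x : G)⁻¹ = x := inv_eq_of_mul_eq_one_left hx1
      have h3 : t * ((x : G) * k * (x : G)⁻¹) * t⁻¹ = k := by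
        rw [h1, h2]; simp
      calc (t * (x : G)) * k = (t * ((x : G) * k * (x : G)⁻¹) * t⁻¹) * (t * (x : G)) := by group
        _ = k * (t * (x : G)) := by rw [h3]
    have h1 : t * (x : G) ≠ 1 := by
      intro h0
      have hxinv : (x : G)⁻¹ = x := inv_eq_of_mul_eq_one_left hx1
      apply hne
      have := eq_inv_of_mul_eq_one_left h0
      rwa [hxinv] at this
    exact hk1 (hfix _ (H.mul_mem ht x.2) h1 k hk hcomm)
  · constructor
    constructor
    intro a b
    apply Subtype.ext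
    exact Lib.Frobenius.Even.comm_of_inverted (hinv x x.2 hxG) a.2 b.2

end Cfsg.Agent.S0068
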