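import Cfsg.Statements.S0069
import Mathlib
import Cfsg.Agent.Lib.Frobenius.Center

set_option autoImplicit false
open Cfsg

namespace Cfsg.Agent.S0069

open Cfsg.Agent.Lib.Frobenius.Center

/-- A Frobenius complement has nontrivial centre: if H ≠ 1 complements a nontrivial normal subgroup K and every nonidentity element of H has trivial centraliser in K, then the centre of H is nontrivial. -/
theorem result {G : Type*} [Group G] [Finite G] (K H : Subgroup G) [K.Normal]
    (hc : Subgroup.IsComplement' K H) (hK : K ≠ ⊥) (hH : H ≠ ⊥) (hfpf : ∀ h ∈ H, h ≠ 1 → K ⊓ Subgroup.centralizer {h} = ⊥) :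
    Subgroup.center H ≠ ⊥ := by
  have hfpf' : ∀ a ∈ H, a ≠ 1 → ∀ v ∈ K, a * v = v * a → v = 1 := by
    intro a ha ha1 v hv hcomm
    have h1 : v ∈ K ⊓ Subgroup.centralizer {a} := by
      refine ⟨hv, ?_⟩
      change v ∈ Subgroup.centralizer {a}
      rw [Subgroup.mem_centralizer_iff]
      intro y hy
      rw [Set.mem_singleton_iff.mp hy]
      exact hcomm
    rw [hfpf a ha ha1] at h1
    exact (Subgroup.mem_bot.mp h1)
  have hnorm : H ≤ Subgroup.normalizer (K : Set G) := by
    intro a _
    rw [Subgroup.mem_normalizer_iff]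
    intro x
    constructor
    · intro hx
      exact ‹K.Normal›.conj_mem x hx a
    · intro hx
      have := ‹K.Normal›.conj_mem _ hx a⁻¹
      simpa [mul_assoc] using this
  exact center_ne_bot_of_fpf hK hH hnorm hfpf'

end Cfsg.Agent.S0069
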