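import Cfsg.Statements.S0070
import Mathlib
import Cfsg.Agent.Lib.Nilpotent.Fitting
import Cfsg.Agent.S0584
-- import your own Cfsg.Agent.* helpers here

set_option autoImplicit false
open Cfsg

namespace Cfsg.Agent.S0070

/-- The Fitting subgroup commutes with passing to the Frattini quotient: the Fitting subgroup of G modulo its Frattini subgroup is the image of the Fitting subgroup of G. -/
theorem result {G : Type*} [Group G] [Finite G] :
    Cfsg.fittingSubgroup (G ⧸ frattini G) = (Cfsg.fittingSubgroup G).map (QuotientGroup.mk' (frattini G)) := by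
  apply le_antisymm
  · -- the preimage of `F(G/Φ)` is nilpotent
    have hFn : (Cfsg.fittingSubgroup (G ⧸ frattini G)).Normal :=
      Cfsg.Agent.Lib.Nilpotent.Fitting.fittingSubgroup_normal
    set A : Subgroup G := (Cfsg.fittingSubgroup (G ⧸ frattini G)).comap (QuotientGroup.mk' (frattini G)) with hA
    have hAn : A.Normal := Subgroup.Normal.comap hFn _
    have hΦA : frattini G ≤ A := by
      intro x hx
      rw [hA, Subgroup.mem_comap]
      have : (QuotientGroup.mk' (frattini G)) x = 1 := by
        rw [QuotientGroup.mk'_apply, QuotientGroup.eq_one_iff]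
        exact hx
      rw [this]
      exact Subgroup.one_mem _
    have hmap : A.map (QuotientGroup.mk' (frattini G)) = Cfsg.fittingSubgroup (G ⧸ frattini G) :=
      Subgroup.map_comap_eq_self_of_surjective (QuotientGroup.mk'_surjective _) _
    -- identify the quotient
    let φ : A →* G ⧸ frattini G := (QuotientGroup.mk' (frattini G)).comp A.subtype
    have hker : φ.ker = (frattini G).subgroupOf A := by
      ext x
      simp [φ, MonoidHom.mem_ker, Subgroup.mem_subgroupOf]
    have hrange : φ.range = Cfsg.fittingSubgroup (G ⧸ frattini G) := by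
      rw [← hmap, MonoidHom.range_comp, Subgroup.range_subtype]
    have hnilQ : Group.IsNilpotent (↥A ⧸ (frattini G).subgroupOf A) := by
      have hnilF : Group.IsNilpotent (Cfsg.fittingSubgroup (G ⧸ frattini G)) :=
        Cfsg.Agent.Lib.Nilpotent.Fitting.isNilpotent_fittingSubgroup
      have hnilR : Group.IsNilpotent φ.range := by rw [hrange]; exact hnilF
      have e1 : (↥A ⧸ φ.ker) ≃* φ.range := QuotientGroup.quotientKerEquivRange φ
      have e2 : (↥A ⧸ (frattini G).subgroupOf A) ≃* (↥A ⧸ φ.ker) :=
        QuotientGroup.quotientMulEquivOfEq hker.symm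
      exact Group.nilpotent_of_mulEquiv (e2.trans e1).symm
    have hnilA : Group.IsNilpotent A :=
      Cfsg.Agent.S0584.result A (frattini G) hΦA le_rfl hnilQ
    rw [← hmap]
    exact Subgroup.map_mono (Cfsg.Agent.Lib.Nilpotent.Fitting.le_fittingSubgroup hnilA)
  · -- the image of `F(G)` is a normal nilpotent subgroup
    have hFn : (Cfsg.fittingSubgroup G).Normal := Cfsg.Agent.Lib.Nilpotent.Fitting.fittingSubgroup_normal
    have hnorm : ((Cfsg.fittingSubgroup G).map (QuotientGroup.mk' (frattini G))).Normal :=
      Subgroup.Normal.map hFn _ (QuotientGroup.mk'_surjective _)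
    have hnil : Group.IsNilpotent (Cfsg.fittingSubgroup G) :=
      Cfsg.Agent.Lib.Nilpotent.Fitting.isNilpotent_fittingSubgroup
    have hnil' : Group.IsNilpotent ((Cfsg.fittingSubgroup G).map (QuotientGroup.mk' (frattini G))) :=
      Group.nilpotent_of_surjective _
        (MonoidHom.subgroupMap_surjective (QuotientGroup.mk' (frattini G)) (Cfsg.fittingSubgroup G))
    exact Cfsg.Agent.Lib.Nilpotent.Fitting.le_fittingSubgroup hnil' 

end Cfsg.Agent.S0070
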