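import Cfsg.Statements.S0073
import Cfsg.Agent.Lib.Transfer.SmallSylow

set_option autoImplicit false
open Cfsg

namespace Cfsg.Agent.S0073

open Cfsg.Agent.Lib.Transfer.SmallSylow

/-- For a finite non-abelian simple group, either the cube of the least prime divisor of the order divides the order, or 12 does. -/
theorem result {G : Type*} [Group G] [Finite G] [IsSimpleGroup G] (hG : ∃ x y : G, x * y ≠ y * x) : (Nat.card G).minFac ^ 3 ∣ Nat.card G ∨ 12 ∣ Nat.card G := by
  classical
  by_contra hno
  push Not at hno
  obtain ⟨h3, h12⟩ := hno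
  have hne1 : Nat.card G ≠ 1 := by
    have : Nontrivial G := IsSimpleGroup.toNontrivial
    exact Finite.one_lt_card.ne'
  set p := (Nat.card G).minFac with hpdef
  have hpp : p.Prime := Nat.minFac_prime hne1
  haveI : Fact p.Prime := ⟨hpp⟩
  have hdvd : p ∣ Nat.card G := Nat.minFac_dvd _
  obtain ⟨T⟩ : Nonempty (Sylow p G) := inferInstance
  obtain ⟨d, hd⟩ := IsPGroup.iff_card.mp T.isPGroup'
  have hTG : Nat.card T ∣ Nat.card G := Subgroup.card_subgroup_dvd_card _
  have hd2 : d ≤ 2 := by
    by_contra hd3
    apply h3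
    refine (pow_dvd_pow p (by omega : 3 ≤ d)).trans ?_
    rw [← hd]; exact hTG
  refine false_of_complement hG hdvd
    (Cfsg.Agent.Lib.Basic.BurnsideAut.hasNormalPComplement_of_aut T
      (isMulCommutative_of_card hd hd2) ?_)
  intro q hq hqp hqG σ hσ
  haveI : Fact q.Prime := ⟨hq⟩
  have hpq : p < q := lt_of_le_of_ne (Nat.minFac_le_of_dvd hq.two_le hqG) hqp.symm
  refine aut_eq_one_of_pow hqp hd ?_ σ hσ
  intro e he1 he2 hqd
  have hp1 := hpp.one_lt
  have he : e = 1 ∨ e = 2 := by omega
  rcases he with rfl | rfl
  · rw [pow_one] at hqd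
    have := Nat.le_of_dvd (by omega) hqd
    omega
  · have hs : p ^ 2 - 1 = (p + 1) * (p - 1) := by simpa using Nat.sq_sub_sq p 1
    rw [hs] at hqd
    rcases hq.dvd_mul.mp hqd with h | h
    · have hle := Nat.le_of_dvd (by omega) h
      have hqeq : q = p + 1 := by omega
      have hp2 : p = 2 := by
        rcases hpp.eq_two_or_odd' with h2 | hodd
        · exact h2
        · have hev : Even q := by rw [hqeq]; exact hodd.add_one
          have := hq.even_iff.mp hev
          omega
      have hd2' : d = 2 := by omega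
      apply h12
      have h4 : 4 ∣ Nat.card G := by
        rw [hd, hp2, hd2'] at hTG
        simpa using hTG
      have h3' : 3 ∣ Nat.card G := by
        have : q = 3 := by omega
        rw [← this]; exact hqG
      exact Nat.Coprime.mul_dvd_of_dvd_of_dvd (by norm_num : Nat.Coprime 4 3) h4 h3'
    · have := Nat.le_of_dvd (by omega) h
      omega

end Cfsg.Agent.S0073
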