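import Cfsg.Statements.S0075
import Cfsg.Agent.Lib.Transfer.AbelianSylow
import Mathlib
-- import your own Cfsg.Agent.* helpers here

set_option autoImplicit false
open Cfsg

namespace Cfsg.Agent.S0075

open scoped commutatorElement

/-- For an abelian Sylow p-subgroup T, its intersection with the subgroup generated by the elements of order prime to p is the commutator of T with its normalizer. -/
theorem result {G : Type*} [Group G] [Finite G] {p : ℕ} [Fact p.Prime] (T : Sylow p G) (hT : IsMulCommutative T) : (T : Subgroup G) ⊓ Cfsg.pResidual p G = ⁅(T : Subgroup G), Subgroup.normalizer (T : Set G)⁆ := by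
  have := hT
  apply le_antisymm
  · rintro x ⟨hxT, hxR⟩
    exact Cfsg.Agent.Lib.Transfer.AbelianSylow.mem_commN_of_mem_pResidual T hxT hxR
  · apply le_inf (Cfsg.Agent.Lib.Transfer.AbelianSylow.commN_le T)
    -- G / O^p(G) is commutative, being a quotient of T
    let R := Cfsg.pResidual p G
    let π : G →* G ⧸ R := QuotientGroup.mk' R
    have hπ : Function.Surjective π := QuotientGroup.mk'_surjective R
    let Q : Sylow p (G ⧸ R) := T.mapSurjective hπ
    have hQ : (Q : Subgroup (G ⧸ R)) = ⊤ := by
      have hp : IsPGroup p (⊤ : Subgroup (G ⧸ R)) :=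
        IsPGroup.to_subgroup Cfsg.Agent.Lib.Transfer.Basic.isPGroup_quotient_pResidual _
      exact (Q.is_maximal' hp le_top).symm
    have hlift : ∀ a : G, ∃ t ∈ (T : Subgroup G), π t = π a := by
      intro a
      have : π a ∈ (Q : Subgroup (G ⧸ R)) := by rw [hQ]; trivial
      obtain ⟨t, ht, h⟩ := this
      exact ⟨t, ht, h⟩
    rw [Subgroup.commutator_le]
    intro t ht n _
    obtain ⟨t₂, ht₂, h₂⟩ := hlift n
    have h1 : π ⁅t, n⁆ = 1 := by
      rw [map_commutatorElement, ← h₂, ← map_commutatorElement]
      have : ⁅t, t₂⁆ = 1 := by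
        rw [commutatorElement_eq_one_iff_mul_comm]
        have := mul_comm' (⟨t, ht⟩ : (T : Subgroup G)) ⟨t₂, ht₂⟩
        exact congrArg Subtype.val this
      rw [this, map_one]
    exact (QuotientGroup.eq_one_iff _).1 h1

end Cfsg.Agent.S0075
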