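import Cfsg.Statements.S0077
import Mathlib
import Cfsg.Agent.Lib.Basic.FusionConj
-- import your own Cfsg.Agent.* helpers here

set_option autoImplicit false
open Cfsg

namespace Cfsg.Agent.S0077

open scoped commutatorElement

/-- If a subgroup Z of the centre of a Sylow p-subgroup P is weakly closed in P, then P meets the derived subgroup of G exactly where it meets the derived subgroup of the normalizer of Z. -/
theorem result {G : Type*} [Group G] [Finite G] {p : ℕ} [Fact p.Prime] (P : Sylow p G) (Z : Subgroup G) (hZ : Z ≤ Subgroup.centralizer (P : Set G)) (hW : Cfsg.IsWeaklyClosed Z P) : commutator G ⊓ (P : Subgroup G) = ⁅Subgroup.normalizer (Z : Set G), Subgroup.normalizer (Z : Set G)⁆ ⊓ (P : Subgroup G) := by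
  classical
  have hcomm : ∀ w ∈ (P : Subgroup G), ∀ z ∈ Z, w * z = z * w := by
    intro w hw z hz
    have := hZ hz
    rw [Subgroup.mem_centralizer_iff] at this
    exact this w hw
  have hPN : (P : Subgroup G) ≤ Subgroup.normalizer (Z : Set G) := by
    intro w hw
    rw [Subgroup.mem_normalizer_iff_map_conj_eq]
    ext z
    constructor
    · rintro ⟨a, ha, rfl⟩
      have : MulAut.conj w a = a := by
        rw [MulAut.conj_apply, hcomm w hw a ha]; simp
      simpa [this] using ha
    · intro hz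
      refine ⟨z, hz, ?_⟩
      change MulAut.conj w z = z
      rw [MulAut.conj_apply, hcomm w hw z hz]; simp
  have key : ∀ x ∈ (P : Subgroup G), ∀ u : G, u * x * u⁻¹ ∈ (P : Subgroup G) →
      ∃ h ∈ Subgroup.normalizer (Z : Set G), h * x * h⁻¹ = u * x * u⁻¹ := by
    intro x hx u hy
    set y := u * x * u⁻¹ with hydef
    let C := Subgroup.centralizer ({y} : Set G)
    have hZC : Z ≤ C := by
      intro z hz
      rw [Subgroup.mem_centralizer_singleton_iff]
      exact (hcomm y hy z hz).symm
    let B := Z.map (MulAut.conj u).toMonoidHom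
    have hBC : B ≤ C := by
      rintro _ ⟨z, hz, rfl⟩
      rw [Subgroup.mem_centralizer_singleton_iff]
      have h1 := hcomm x hx z hz
      simp only [MulEquiv.coe_toMonoidHom, MulAut.conj_apply, hydef]
      calc u * z * u⁻¹ * (u * x * u⁻¹) = u * (z * x) * u⁻¹ := by group
        _ = u * (x * z) * u⁻¹ := by rw [h1]
        _ = u * x * u⁻¹ * (u * z * u⁻¹) := by group
    have pZ : IsPGroup p Z := P.2.to_le hW.1
    have pB : IsPGroup p B := pZ.map _
    obtain ⟨c, hc, Q, hZQ, hBQ⟩ :=
      Cfsg.Agent.Lib.Basic.FusionConj.exists_conj_common_sylow C Z B hZC hBC pZ pB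
    obtain ⟨t, ht⟩ := MulAction.exists_smul_eq G P Q
    have h1 := Cfsg.Agent.Lib.Basic.FusionConj.map_conj_inv_le_of_smul_eq P Q t ht Z hZQ
    have h2 := Cfsg.Agent.Lib.Basic.FusionConj.map_conj_inv_le_of_smul_eq P Q t ht _ hBQ
    have e1 : t⁻¹ ∈ Subgroup.normalizer (Z : Set G) := by
      rw [Subgroup.mem_normalizer_iff_map_conj_eq]
      exact hW.2 t⁻¹ h1
    have e2 : t⁻¹ * (c * u) ∈ Subgroup.normalizer (Z : Set G) := by
      rw [Subgroup.mem_normalizer_iff_map_conj_eq]
      apply hW.2 (t⁻¹ * (c * u))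
      rintro _ ⟨z, hz, rfl⟩
      apply h2
      refine ⟨MulAut.conj c (MulAut.conj u z), ⟨MulAut.conj u z, ⟨z, hz, rfl⟩, rfl⟩, ?_⟩
      simp only [MulEquiv.coe_toMonoidHom, MulAut.conj_apply]
      group
    refine ⟨c * u, ?_, ?_⟩
    · have := Subgroup.mul_mem _ (Subgroup.inv_mem _ e1) e2
      simpa using this
    · have hc' : c * y = y * c := by
        have := Subgroup.mem_centralizer_singleton_iff.mp hc
        exact this
      calc c * u * x * (c * u)⁻¹ = c * y * c⁻¹ := by rw [hydef]; group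
        _ = y := by rw [hc']; simp
  apply le_antisymm
  · rw [Subgroup.commutator_inf_eq_focalSubgroup P, Subgroup.focalSubgroup_def, Subgroup.closure_le]
    rintro g ⟨hgP, x, hx, u, rfl⟩
    refine ⟨?_, hgP⟩
    have hy : u * x * u⁻¹ ∈ (P : Subgroup G) := by
      have h1 : (x⁻¹ * ⁅x, u⁆)⁻¹ ∈ (P : Subgroup G) :=
        Subgroup.inv_mem _ (Subgroup.mul_mem _ (Subgroup.inv_mem _ hx) hgP)
      have h2 : (x⁻¹ * ⁅x, u⁆)⁻¹ = u * x * u⁻¹ := by
        rw [commutatorElement_def]; group
      rwa [h2] at h1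
    obtain ⟨h, hh, hxh⟩ := key x hx u hy
    have : ⁅x, u⁆ = ⁅x, h⁆ := by
      have h3 : h * x⁻¹ * h⁻¹ = u * x⁻¹ * u⁻¹ := by
        have := congrArg (fun w => w⁻¹) hxh
        simpa [mul_assoc] using this
      have e1 : ⁅x, u⁆ = x * (u * x⁻¹ * u⁻¹) := by rw [commutatorElement_def]; group
      have e2 : ⁅x, h⁆ = x * (h * x⁻¹ * h⁻¹) := by rw [commutatorElement_def]; group
      rw [e1, e2, h3]
    rw [this]
    exact Subgroup.commutator_mem_commutator (hPN hx) hh
  · apply inf_le_inf_right
    exact Subgroup.commutator_mono le_top le_top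

end Cfsg.Agent.S0077
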