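import Cfsg.Statements.S0078
import Mathlib
import Cfsg.Agent.Lib.Transfer.GrunResidual

set_option autoImplicit false
open Cfsg

namespace Cfsg.Agent.S0078

open Cfsg.Agent.Lib.Transfer.GrunResidual Subgroup

/-- In a p-normal group, a Sylow p-subgroup P meets O^p(G) exactly where it meets O^p(V), for any subgroup V containing the normalizer of the centre of P. -/
theorem result {G : Type*} [Group G] [Finite G] {p : ℕ} [Fact p.Prime] (P : Sylow p G) (hn : ∀ Q : Sylow p G, (P : Subgroup G) ⊓ Subgroup.centralizer (P : Set G) ≤ (Q : Subgroup G) → (Q : Subgroup G) ⊓ Subgroup.centralizer (Q : Set G) = (P : Subgroup G) ⊓ Subgroup.centralizer (P : Set G)) (V : Subgroup G) (hV : Subgroup.normalizer (((P : Subgroup G) ⊓ Subgroup.centralizer (P : Set G) : Subgroup G) : Set G) ≤ V) : (P : Subgroup G) ⊓ Cfsg.pResidual p G = (P : Subgroup G) ⊓ (Cfsg.pResidual p V).map V.subtype := by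
  classical
  set Z : Subgroup G := (P : Subgroup G) ⊓ Subgroup.centralizer (P : Set G) with hZ
  have hcent : ∀ z ∈ Z, ∀ x ∈ (P : Subgroup G), x * z * x⁻¹ = z := by
    intro z hz x hx
    have h1 := (mem_centralizer_iff.1 hz.2) x hx
    rw [h1]; simp
  have hZnorm : ∀ v : G, (∀ z ∈ Z, v * z * v⁻¹ ∈ Z) → (∀ z ∈ Z, v⁻¹ * z * v ∈ Z) →
      v ∈ Subgroup.normalizer (Z : Set G) := by
    intro v h1 h2
    rw [mem_normalizer_iff]
    intro h
    refine ⟨h1 h, fun h3 => ?_⟩
    have := h2 _ h3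
    simpa [mul_assoc] using this
  have hPV : (P : Subgroup G) ≤ V := by
    refine le_trans ?_ hV
    intro x hx
    apply hZnorm
    · intro z hz
      rwa [hcent z hz x hx]
    · intro z hz
      have := hcent z hz x⁻¹ (Subgroup.inv_mem _ hx)
      simp only [inv_inv] at this
      rwa [this]
  refine inf_pResidual_eq P V hPV ?_
  intro A hA g _ hAg
  -- the conjugate of A
  let B : Subgroup G := A.map (MulAut.conj g).toMonoidHom
  let C : Subgroup G := Subgroup.centralizer (B : Set G)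
  have hBP : ∀ b ∈ B, b ∈ (P : Subgroup G) := by
    rintro _ ⟨a, ha, rfl⟩
    exact hAg a ha
  have hZC : Z ≤ C := by
    intro z hz
    rw [mem_centralizer_iff]
    intro b hb
    have := hcent z hz b (hBP b hb)
    rw [mul_inv_eq_iff_eq_mul] at this
    exact this
  let Y : Subgroup G := Z.map (MulAut.conj g).toMonoidHom
  have hYC : Y ≤ C := by
    rintro _ ⟨z, hz, rfl⟩
    rw [mem_centralizer_iff]
    rintro _ ⟨a, ha, rfl⟩
    have h1 := hcent z hz a (hA ha)
    rw [mul_inv_eq_iff_eq_mul] at h1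
    show g * a * g⁻¹ * (g * z * g⁻¹) = g * z * g⁻¹ * (g * a * g⁻¹)
    calc g * a * g⁻¹ * (g * z * g⁻¹) = g * (a * z) * g⁻¹ := by group
      _ = g * (z * a) * g⁻¹ := by rw [h1]
      _ = g * z * g⁻¹ * (g * a * g⁻¹) := by group
  have hZp : IsPGroup p Z := P.isPGroup'.to_le inf_le_left
  have hYp : IsPGroup p Y := hZp.map _
  -- a Sylow subgroup of C containing Z
  obtain ⟨T, hZT, hT⟩ : ∃ T : Subgroup G, Z ≤ T ∧ SylowIn p T C := by
    let S : Set (Subgroup G) := {Q | Q ≤ C ∧ IsPGroup p Q}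
    obtain ⟨T, hZT, hTmax⟩ := (Set.toFinite S).exists_le_maximal (a := Z) ⟨hZC, hZp⟩
    refine ⟨T, hZT, SylowIn.of_maximal hTmax.prop.1 hTmax.prop.2 ?_⟩
    intro Q hQC hQp hTQ
    exact le_antisymm (hTmax.le_of_ge ⟨hQC, hQp⟩ hTQ) hTQ
  obtain ⟨c, hcC, hc⟩ := hT.conj Y hYC hYp
  obtain ⟨S, hTS⟩ := hT.isP.exists_le_sylow
  set v := c * g with hv
  have hmem : ∀ (w x : G), x ∈ ((w • S : Sylow p G) : Subgroup G) ↔ w⁻¹ * x * w ∈ (S : Subgroup G) := by
    intro w x
    rw [Sylow.coe_subgroup_smul, Subgroup.mem_pointwise_smul_iff_inv_smul_mem]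
    simp
  have hZS : Z ≤ (S : Subgroup G) := hZT.trans hTS
  have hZv : ∀ z ∈ Z, v * z * v⁻¹ ∈ (S : Subgroup G) := by
    intro z hz
    apply hTS
    have h1 := hc (g * z * g⁻¹) ⟨z, hz, rfl⟩
    have h2 : v * z * v⁻¹ = c * (g * z * g⁻¹) * c⁻¹ := by rw [hv]; group
    rw [h2]
    exact h1
  have hZQ : Z ≤ ((v⁻¹ • S : Sylow p G) : Subgroup G) := by
    intro z hz
    rw [hmem]
    simpa using hZv z hz
  have hS1 := hn S hZS
  have hQ1 := hn (v⁻¹ • S) hZQ
  have hvN : v ∈ Subgroup.normalizer (Z : Set G) := by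
    apply hZnorm
    · intro z hz
      rw [← hQ1] at hz
      show v * z * v⁻¹ ∈ Z
      rw [← hS1]
      obtain ⟨hz1, hz2⟩ := Subgroup.mem_inf.1 hz
      refine Subgroup.mem_inf.2 ⟨?_, ?_⟩
      · have := (hmem v⁻¹ z).1 hz1
        simpa using this
      · rw [mem_centralizer_iff]
        intro s hs
        have h1 : v⁻¹ * s * v ∈ ((v⁻¹ • S : Sylow p G) : Subgroup G) := by
          rw [hmem]
          have hs' : s ∈ (S : Subgroup G) := hs
          simpa [mul_assoc] using hs'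
        have h2 := (mem_centralizer_iff.1 hz2) _ h1
        calc s * (v * z * v⁻¹) = v * ((v⁻¹ * s * v) * z) * v⁻¹ := by group
          _ = v * (z * (v⁻¹ * s * v)) * v⁻¹ := by rw [h2]
          _ = v * z * v⁻¹ * s := by group
    · intro z hz
      rw [← hS1] at hz
      show v⁻¹ * z * v ∈ Z
      rw [← hQ1]
      obtain ⟨hz1, hz2⟩ := Subgroup.mem_inf.1 hz
      refine Subgroup.mem_inf.2 ⟨?_, ?_⟩
      · rw [hmem]
        simpa [mul_assoc] using hz1
      · rw [mem_centralizer_iff]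
        intro q hq
        have h1 : v * q * v⁻¹ ∈ (S : Subgroup G) := by
          have := (hmem v⁻¹ q).1 hq
          simpa using this
        have h2 := (mem_centralizer_iff.1 hz2) _ h1
        calc q * (v⁻¹ * z * v) = v⁻¹ * ((v * q * v⁻¹) * z) * v := by group
          _ = v⁻¹ * (z * (v * q * v⁻¹)) * v := by rw [h2]
          _ = v⁻¹ * z * v * q := by group
  refine ⟨v, hV hvN, ?_⟩
  intro a ha
  have h1 : g * a * g⁻¹ ∈ B := ⟨a, ha, rfl⟩
  have h2 := (mem_centralizer_iff.1 hcC) _ h1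
  calc g * a * g⁻¹ = c * (g * a * g⁻¹) * c⁻¹ := by
        rw [h2.symm]; simp
    _ = v * a * v⁻¹ := by rw [hv]; group

end Cfsg.Agent.S0078
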