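import Cfsg.Statements.S0079
import Mathlib
import Cfsg.Agent.Lib.Basic.ElementFusion
import Cfsg.Agent.Lib.Nilpotent.Elements
-- import your own Cfsg.Agent.* helpers here

set_option autoImplicit false
open Cfsg

namespace Cfsg.Agent.S0079

/-- A nilpotent Hall subgroup has a normal complement exactly when elements of it that are conjugate in the whole group are already conjugate inside it. -/
theorem result {G : Type*} [Group G] [Finite G] (H : Subgroup G) (hH : Group.IsNilpotent H) (hHall : Nat.Coprime (Nat.card H) H.index) : (∃ N : Subgroup G, N.Normal ∧ N.IsComplement' H) ↔ ∀ x ∈ H, ∀ y ∈ H, (∃ g : G, g * x * g⁻¹ = y) → ∃ h ∈ H, h * x * h⁻¹ = y := by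
  classical
  constructor
  · rintro ⟨N, hN, hc⟩ x hx y hy ⟨g, hg⟩
    obtain ⟨⟨n, h⟩, e⟩ := hc.2 g
    simp only at e
    refine ⟨h, h.2, ?_⟩
    set z : G := (h : G) * x * (h : G)⁻¹ with hz
    have hzH : z ∈ H := H.mul_mem (H.mul_mem h.2 hx) (H.inv_mem h.2)
    have hyz : y * z⁻¹ ∈ (N : Subgroup G) ⊓ H := by
      refine Subgroup.mem_inf.mpr ⟨?_, H.mul_mem hy (H.inv_mem hzH)⟩
      have e1 : y = (n : G) * z * (n : G)⁻¹ := by
        rw [← hg, ← e, hz]; group
      have e2 : y * z⁻¹ = (n : G) * (z * (n : G)⁻¹ * z⁻¹) := by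
        rw [e1]; group
      rw [e2]
      exact N.mul_mem n.2 (hN.conj_mem _ (N.inv_mem n.2) z)
    have hd := hc.disjoint
    rw [disjoint_iff] at hd
    rw [hd, Subgroup.mem_bot] at hyz
    exact (mul_inv_eq_one.mp hyz).symm
  · intro hfus
    classical
    -- each prime dividing |H| has a normal p-complement in G
    have hcompl : ∀ p : ℕ, p.Prime → p ∣ Nat.card H → (Nat.card (Cfsg.pResidual p G)).Coprime p := by
      intro p hp hpH
      have : Fact p.Prime := ⟨hp⟩
      rw [← Cfsg.Agent.Lib.Transfer.Basic.hasNormalPComplement_iff_pResidual]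
      have hpi : ¬ p ∣ H.index := fun hd => by
        have := Nat.dvd_gcd hpH hd
        rw [hHall.gcd_eq_one] at this
        exact hp.one_lt.ne' (Nat.dvd_one.mp this)
      let Q : Sylow p H := default
      obtain ⟨P, hP⟩ := Cfsg.Agent.Lib.Basic.SylowUtil.sylow_map_of_not_dvd_index hpi Q
      refine Cfsg.Agent.Lib.Basic.ElementFusion.hasNormalPComplement_of_element_fusion P ?_
      intro x hx g hg
      rw [hP] at hx hg
      obtain ⟨x', hx', rfl⟩ := hx
      obtain ⟨h, hh, hhe⟩ := hfus (x' : G) x'.2 _ (by
        obtain ⟨y', hy', hye⟩ := hg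
        have hye' : (y' : G) = g * (x' : G) * g⁻¹ := hye
        rw [← hye']
        exact y'.2) ⟨g, rfl⟩
      obtain ⟨a, b, hab, hcab, -, -, ⟨k, hk⟩, hb⟩ :=
        Cfsg.Agent.Lib.Transfer.Basic.exists_pPart_decomp (p := p) (⟨h, hh⟩ : H)
      have hQn : (Q : Subgroup H).Normal := inferInstance
      have haQ : a ∈ (Q : Subgroup H) :=
        Cfsg.Agent.Lib.Nilpotent.Elements.mem_sylow_of_normal Q hQn (k := k) (by
          rw [← hk, pow_orderOf_eq_one])
      obtain ⟨j, hj⟩ := (IsPGroup.iff_orderOf.mp Q.2) ⟨x', hx'⟩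
      have hxo : orderOf x' = p ^ j := by
        rw [← hj]; exact (Subgroup.orderOf_mk x' hx').symm
      have hcomm : Commute b x' := by
        apply Cfsg.Agent.Lib.Nilpotent.Elements.commute_of_coprime_orderOf
        rw [hxo]
        exact Nat.Coprime.pow_right _ hb
      refine ⟨(a : G), ?_, ?_⟩
      · rw [hP]
        exact ⟨a, haQ, rfl⟩
      · simp only [Subgroup.subtype_apply]
        rw [← hhe]
        have e : h = (a : G) * (b : G) := by
          have := congrArg Subtype.val hab
          simpa using this.symm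
        have hc' : (b : G) * (x' : G) = (x' : G) * (b : G) := congrArg Subtype.val hcomm.eq
        rw [e]
        calc (a : G) * (b : G) * (x' : G) * ((a : G) * (b : G))⁻¹
            = (a : G) * ((b : G) * (x' : G)) * (b : G)⁻¹ * (a : G)⁻¹ := by group
          _ = (a : G) * (x' : G) * (a : G)⁻¹ := by rw [hc']; group
    -- the intersection of the O^p(G)
    let N : Subgroup G := ⨅ p : (Nat.card H).primeFactors, Cfsg.pResidual (p : ℕ) G
    have hmemN : ∀ g, g ∈ N ↔ ∀ p ∈ (Nat.card H).primeFactors, g ∈ Cfsg.pResidual p G := by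
      intro g
      simp only [N, Subgroup.mem_iInf, Subtype.forall]
    have hNn : N.Normal := by
      constructor
      intro n hn g
      rw [hmemN] at hn ⊢
      intro p hp
      exact (Cfsg.Agent.Lib.Transfer.Basic.pResidual_normal p G).conj_mem n (hn p hp) g
    have hc1 : (Nat.card N).Coprime (Nat.card H) := by
      rw [Nat.coprime_iff_gcd_eq_one]
      by_contra hne
      obtain ⟨q, hq, hq'⟩ := Nat.exists_prime_and_dvd hne
      have hqN := hq'.trans (Nat.gcd_dvd_left _ _)
      have hqH := hq'.trans (Nat.gcd_dvd_right _ _)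
      have hmemq : q ∈ (Nat.card H).primeFactors := Nat.mem_primeFactors.mpr ⟨hq, hqH, Nat.card_pos.ne'⟩
      have hle : N ≤ Cfsg.pResidual q G := fun g hg => (hmemN g).mp hg q hmemq
      have hdvd : Nat.card N ∣ Nat.card (Cfsg.pResidual q G) := Subgroup.card_dvd_of_le hle
      have hcop := hcompl q hq hqH
      have := Nat.dvd_gcd (hqN.trans hdvd) (dvd_refl q)
      rw [hcop.gcd_eq_one] at this
      exact hq.one_lt.ne' (Nat.dvd_one.mp this)
    have hc2 : (N.index).Coprime (H.index) := by
      rw [Nat.coprime_iff_gcd_eq_one]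
      by_contra hne
      obtain ⟨q, hq, hq'⟩ := Nat.exists_prime_and_dvd hne
      have hqN := hq'.trans (Nat.gcd_dvd_left _ _)
      have hqH := hq'.trans (Nat.gcd_dvd_right _ _)
      have : Fact q.Prime := ⟨hq⟩
      have hqN' : q ∣ Nat.card (G ⧸ N) := by rwa [← Subgroup.index_eq_card]
      obtain ⟨gb, hgb⟩ := exists_prime_orderOf_dvd_card' q hqN'
      obtain ⟨g, rfl⟩ := QuotientGroup.mk_surjective gb
      have hgq : g ^ q ∈ N := by
        rw [← QuotientGroup.eq_one_iff, QuotientGroup.mk_pow, ← hgb, pow_orderOf_eq_one]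
      have hgN : g ∈ N := by
        rw [hmemN]
        intro p hp
        have hpp := Nat.prime_of_mem_primeFactors hp
        have hpd := Nat.dvd_of_mem_primeFactors hp
        have : Fact p.Prime := ⟨hpp⟩
        have hq_ne : q ≠ p := by
          rintro rfl
          have := Nat.dvd_gcd hpd hqH
          rw [hHall.gcd_eq_one] at this
          exact hq.one_lt.ne' (Nat.dvd_one.mp this)
        have hgq' : g ^ q ∈ Cfsg.pResidual p G := (hmemN _).mp hgq p hp
        have hpg := Cfsg.Agent.Lib.Transfer.Basic.isPGroup_quotient_pResidual (G := G) (p := p)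
        obtain ⟨k, hk⟩ := (IsPGroup.iff_orderOf.mp hpg) (g : G ⧸ Cfsg.pResidual p G)
        have h1 : (g : G ⧸ Cfsg.pResidual p G) ^ q = 1 := by
          rw [← QuotientGroup.mk_pow, QuotientGroup.eq_one_iff]
          exact hgq'
        have h2 : orderOf (g : G ⧸ Cfsg.pResidual p G) ∣ q := orderOf_dvd_of_pow_eq_one h1
        rw [hk] at h2
        have h3 : p ^ k = 1 := by
          rcases (Nat.dvd_prime hq).mp h2 with h4 | h4
          · exact h4
          · exfalso
            have hk0 : k ≠ 0 := by
              rintro rfl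
              simp at h4
              exact hq.one_lt.ne h4
            have h5 : p ∣ q := by
              rw [← h4]
              exact dvd_pow_self p hk0
            exact hq_ne ((Nat.prime_dvd_prime_iff_eq hpp hq).mp h5).symm
        rw [h3] at hk
        rw [orderOf_eq_one_iff, QuotientGroup.eq_one_iff] at hk
        exact hk
      have : orderOf (g : G ⧸ N) = 1 := by
        rw [orderOf_eq_one_iff, QuotientGroup.eq_one_iff]
        exact hgN
      rw [this] at hgb
      exact hq.one_lt.ne hgb
    have hcard : Nat.card N * N.index = Nat.card H * H.index := by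
      rw [Subgroup.card_mul_index, Subgroup.card_mul_index]
    have hidx : N.index = Nat.card H := by
      apply Nat.dvd_antisymm
      · apply Nat.Coprime.dvd_of_dvd_mul_right hc2
        rw [← hcard]
        exact dvd_mul_left _ _
      · apply Nat.Coprime.dvd_of_dvd_mul_left hc1.symm
        rw [hcard]
        exact dvd_mul_right _ _
    refine ⟨N, hNn, Subgroup.isComplement'_of_coprime ?_ hc1⟩
    rw [← hidx, Subgroup.card_mul_index]

end Cfsg.Agent.S0079
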