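import Cfsg.Statements.S0080
import Mathlib

set_option autoImplicit false
open Cfsg

namespace Cfsg.Agent.S0080

open scoped commutatorElement

/-- When the index of H is prime to the order of H/H', the focal subgroup of H is G' ∩ H, and H/(G' ∩ H) has a normal complement. -/
theorem result {G : Type*} [Group G] [Finite G] (H : Subgroup G) (h : Nat.Coprime H.index (⁅H, H⁆.relIndex H)) : Subgroup.focalSubgroup H = commutator G ⊓ H ∧ ∃ N : Subgroup G, N.Normal ∧ N ⊓ H = commutator G ⊓ H ∧ N ⊔ H = ⊤ := by
  classical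
  haveI : H.FiniteIndex := inferInstance
  have hs : ⁅H, H⁆.subgroupOf H = commutator H := by
    rw [← H.map_subtype_commutator]
    exact Subgroup.comap_map_eq_self_of_injective H.subtype_injective _
  have hl' : ⁅H, H⁆.relIndex H = (commutator H).index := by
    rw [Subgroup.relIndex, hs]
  rw [hl'] at h
  set k := H.index with hk
  set l := (commutator H).index with hl
  -- Bezout
  have hbez : (k : ℤ) * Nat.gcdA k l + (l : ℤ) * Nat.gcdB k l = 1 := by
    have := Nat.gcd_eq_gcd_ab k l
    rw [h] at this
    simpa using this.symm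
  set u := Nat.gcdA k l
  set v := Nat.gcdB k l
  have hbez' : ∀ {T : Type _} [Group T] (x : T), x = (x ^ k) ^ u * (x ^ l) ^ v := by
    intro T _ x
    rw [← zpow_natCast, ← zpow_natCast, ← zpow_mul, ← zpow_mul, ← zpow_add, hbez, zpow_one]
  -- powers in the derived subgroup
  have hpowl : ∀ x : H, x ^ l ∈ commutator H := fun x => Subgroup.pow_index_mem _ x
  have hcommle : ∀ x : H, x ∈ commutator H → (x : G) ∈ commutator G := by
    intro x hx
    have h1 : (x : G) ∈ (commutator H).map H.subtype := ⟨x, hx, rfl⟩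
    rw [H.map_subtype_commutator] at h1
    have h2 : ⁅H, H⁆ ≤ commutator G := by
      rw [commutator_def]
      exact Subgroup.commutator_mono le_top le_top
    exact h2 h1
  have hfoc : Subgroup.focalSubgroup H = commutator G ⊓ H := by
    apply le_antisymm
    · exact le_inf H.focalSubgroup_le_commutator H.focalSubgroup_le
    · rintro x ⟨hxc, hxH⟩
      have hker : commutator G ≤ H.transferFocal.ker := by
        rw [commutator_def, Subgroup.commutator_le]
        intro a _ b _
        rw [MonoidHom.mem_ker, map_commutatorElement, commutatorElement_eq_one_iff_commute]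
        exact (inferInstance : IsMulCommutative (H ⧸ H.focalSubgroupOf)).is_comm.comm _ _
      have hV : H.transferFocal x = 1 := hker hxc
      have h1 := H.transferFocal_eq_pow ⟨x, hxH⟩
      rw [hV] at h1
      set x' : H := ⟨x, hxH⟩ with hx'
      have h2 : x' ^ k ∈ H.focalSubgroupOf := by
        rw [← QuotientGroup.eq_one_iff, QuotientGroup.mk_pow]
        exact h1.symm
      have h3 : x' ^ l ∈ H.focalSubgroupOf := H.commutator_le_focalSubgroupOf (hpowl x')
      have h4 : x' ∈ H.focalSubgroupOf := by
        rw [hbez' x']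
        exact Subgroup.mul_mem _ (Subgroup.zpow_mem _ h2 _) (Subgroup.zpow_mem _ h3 _)
      exact Subgroup.mem_subgroupOf.1 h4
  refine ⟨hfoc, ?_⟩
  -- the subgroup N
  let φ : G →* Abelianization G := Abelianization.of
  have hφ : ∀ g : G, φ g = 1 ↔ g ∈ commutator G := by
    intro g
    exact QuotientGroup.eq_one_iff g
  let N : Subgroup G := ((powMonoidHom k : Abelianization G →* Abelianization G).comp φ).ker
  have hN : ∀ g : G, g ∈ N ↔ φ g ^ k = 1 := by
    intro g
    rw [MonoidHom.mem_ker]
    rfl
  refine ⟨N, MonoidHom.normal_ker _, ?_, ?_⟩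
  · apply le_antisymm
    · rintro g ⟨hgN, hgH⟩
      refine Subgroup.mem_inf.2 ⟨?_, hgH⟩
      rw [← hφ]
      have h1 : φ g ^ k = 1 := (hN g).1 hgN
      have h2 : φ g ^ l = 1 := by
        rw [← map_pow, hφ]
        have := hcommle _ (hpowl ⟨g, hgH⟩)
        simpa using this
      rw [hbez' (φ g), h1, h2]
      simp
    · rintro g ⟨hgc, hgH⟩
      refine Subgroup.mem_inf.2 ⟨?_, hgH⟩
      rw [hN, (hφ g).2 hgc, one_pow]
  · rw [eq_top_iff]
    intro g _
    -- K = H G'
    let K : Subgroup G := H ⊔ commutator G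
    haveI hKn : K.Normal := by
      constructor
      intro x hx c
      have h1 : c * x * c⁻¹ * x⁻¹ ∈ commutator G :=
        Subgroup.commutator_mem_commutator (Subgroup.mem_top c) (Subgroup.mem_top x)
      have h2 : c * x * c⁻¹ = (c * x * c⁻¹ * x⁻¹) * x := by group
      rw [h2]
      exact K.mul_mem (Subgroup.mem_sup_right h1) hx
    have hKdvd : K.index ∣ k := Subgroup.index_dvd_of_le le_sup_left
    have hgk : g ^ k ∈ K := by
      obtain ⟨r, hr⟩ := hKdvd
      rw [hr, pow_mul]
      exact K.pow_mem (Subgroup.pow_index_mem K g) r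
    obtain ⟨a, haH, b, hb, hab⟩ := Subgroup.mem_sup_of_normal_right.1 hgk
    -- g = (g^k)^u * (g^l)^v
    have hgl : (g ^ l) ^ v ∈ N := by
      apply N.zpow_mem
      rw [hN, map_pow, ← pow_mul, mul_comm, pow_mul, ← map_pow, ← hab, map_mul,
        (hφ b).2 hb, mul_one, ← map_pow]
      rw [hφ]
      have := hcommle _ (hpowl ⟨a, haH⟩)
      simpa using this
    have hguN : (g ^ k) ^ u * (a ^ u)⁻¹ ∈ N := by
      have hgk' : φ (g ^ k) = φ a := by
        rw [← hab, map_mul, (hφ b).2 hb, mul_one]
      rw [hN, map_mul, map_inv, map_zpow, map_zpow, hgk']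
      simp
    have hgdecomp : g = ((g ^ k) ^ u * (a ^ u)⁻¹) * a ^ u * (g ^ l) ^ v := by
      conv_lhs => rw [hbez' g]
      group
    rw [hgdecomp]
    exact Subgroup.mul_mem _ (Subgroup.mul_mem _ (Subgroup.mem_sup_left hguN)
      (Subgroup.mem_sup_right (Subgroup.zpow_mem _ haH _))) (Subgroup.mem_sup_left hgl)

end Cfsg.Agent.S0080
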