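import Cfsg.Statements.S0082
import Mathlib
import Cfsg.Agent.Lib.Transfer.Tate
-- import your own Cfsg.Agent.* helpers here

set_option autoImplicit false
open Cfsg

namespace Cfsg.Agent.S0082

/-- In a finite cyclic group, a subgroup whose order divides the order of another is inside it. -/
theorem le_of_card_dvd {T : Type*} [Group T] [Finite T] [IsCyclic T] (M Q : Subgroup T)
    (h : Nat.card M ∣ Nat.card Q) : M ≤ Q := by
  classical
  have : Fintype T := Fintype.ofFinite T
  intro x hx
  have hpos : 0 < Nat.card Q := Nat.card_pos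
  have hS := IsCyclic.card_pow_eq_one_le (α := T) hpos
  have hsub : (Finset.univ.filter (fun y : T => y ∈ Q)) ⊆
      Finset.univ.filter (fun y : T => y ^ Nat.card Q = 1) := by
    intro y hy
    simp only [Finset.mem_filter, Finset.mem_univ, true_and] at hy ⊢
    have := pow_card_eq_one' (x := (⟨y, hy⟩ : Q))
    exact congrArg Subtype.val this
  have hcard : (Finset.univ.filter (fun y : T => y ∈ Q)).card = Nat.card Q := by
    rw [Nat.card_eq_fintype_card, Fintype.card_subtype]
  have heq := Finset.eq_of_subset_of_card_le hsub (by rw [hcard]; exact hS)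
  have hxp : x ^ Nat.card Q = 1 := by
    obtain ⟨k, hk⟩ := h
    have := pow_card_eq_one' (x := (⟨x, hx⟩ : M))
    have h2 : x ^ Nat.card M = 1 := congrArg Subtype.val this
    rw [hk, pow_mul, h2, one_pow]
  have : x ∈ Finset.univ.filter (fun y : T => y ^ Nat.card Q = 1) :=
    Finset.mem_filter.mpr ⟨Finset.mem_univ _, hxp⟩
  rw [← heq] at this
  exact (Finset.mem_filter.mp this).2

/-- With a cyclic Sylow p-subgroup, either there is a normal p-complement or the elements of order prime to p generate the whole group. -/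
theorem result {G : Type*} [Group G] [Finite G] {p : ℕ} [Fact p.Prime] (P : Sylow p G) (hP : IsCyclic P) : Cfsg.HasNormalPComplement p G ∨ Cfsg.pResidual p G = ⊤ := by
  classical
  by_cases htop : Cfsg.pResidual p G = ⊤
  · exact Or.inr htop
  left
  have hpq := Cfsg.Agent.Lib.Transfer.Basic.isPGroup_quotient_pResidual (G := G) (p := p)
  have hKn : (Cfsg.pResidual p G).Normal := inferInstance
  set K := Cfsg.pResidual p G with hK
  -- K ⊔ P = ⊤
  have hsup : K ⊔ (P : Subgroup G) = ⊤ := by
    have h1 : (K ⊔ (P : Subgroup G)).index ∣ (P : Subgroup G).index :=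
      Subgroup.index_dvd_of_le le_sup_right
    have h2 : (K ⊔ (P : Subgroup G)).index ∣ K.index := Subgroup.index_dvd_of_le le_sup_left
    obtain ⟨k, hk⟩ := IsPGroup.iff_card.mp hpq
    rw [Subgroup.index_eq_card K, hk] at h2
    obtain ⟨j, -, hj⟩ := (Nat.dvd_prime_pow (Fact.out : p.Prime)).mp h2
    rw [← Subgroup.index_eq_one, hj]
    rcases j with _ | j
    · simp
    · exfalso
      apply P.not_dvd_index
      refine dvd_trans ?_ h1
      rw [hj]
      exact dvd_pow_self p (Nat.succ_ne_zero j)
  refine Cfsg.Agent.Lib.Transfer.Tate.hasNormalPComplement_of_nongenerating (P : Subgroup G) P.2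
    P.not_dvd_index K hsup ?_
  intro M hM
  have hM' : Nat.card M ∣ Nat.card (K.subgroupOf (P : Subgroup G)) ∨
      Nat.card (K.subgroupOf (P : Subgroup G)) ∣ Nat.card M := by
    obtain ⟨a, ha⟩ := IsPGroup.iff_card.mp (P.2.to_subgroup M)
    obtain ⟨b, hb⟩ := IsPGroup.iff_card.mp (P.2.to_subgroup (K.subgroupOf (P : Subgroup G)))
    rw [ha, hb]
    rcases le_total a b with h | h
    · exact Or.inl (pow_dvd_pow p h)
    · exact Or.inr (pow_dvd_pow p h)
  rcases hM' with h | h
  · have hle := le_of_card_dvd M _ h
    rw [sup_eq_right.mpr hle] at hM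
    exfalso
    apply htop
    have hPK : (P : Subgroup G) ≤ K := by
      intro x hx
      have : (⟨x, hx⟩ : (P : Subgroup G)) ∈ K.subgroupOf (P : Subgroup G) := by
        rw [hM]; trivial
      exact this
    rw [← hsup, sup_eq_left.mpr hPK]
  · have hle := le_of_card_dvd _ M h
    rwa [sup_eq_left.mpr hle] at hM

end Cfsg.Agent.S0082
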