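import Cfsg.Statements.S0083
import Mathlib

set_option autoImplicit false
open Cfsg

namespace Cfsg.Agent.S0083

/-- For an abelian Sylow p-subgroup P, a normal p-complement exists exactly when the normalizer of P is an internal direct product of P with some subgroup. -/
theorem result {G : Type*} [Group G] [Finite G] {p : ℕ} [Fact p.Prime] (P : Sylow p G) (hP : IsMulCommutative P) : Cfsg.HasNormalPComplement p G ↔ ∃ Q : Subgroup G, Q ≤ Subgroup.centralizer (P : Set G) ∧ Q ⊓ (P : Subgroup G) = ⊥ ∧ Q ⊔ (P : Subgroup G) = Subgroup.normalizer (P : Set G) := by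
  constructor
  · rintro ⟨P₀, N, hN, hc⟩
    have hcard : Nat.card (P : Subgroup G) = Nat.card (P₀ : Subgroup G) := by
      rw [Sylow.card_eq_multiplicity, Sylow.card_eq_multiplicity]
    have hc' : N.IsComplement' (P : Subgroup G) := by
      apply Subgroup.isComplement'_of_coprime
      · rw [hcard]; exact hc.card_mul_card
      · rw [hcard, ← hc.index_eq_card]
        exact (Sylow.card_coprime_index P₀).symm
    have hdisj : N ⊓ (P : Subgroup G) = ⊥ := hc'.disjoint.eq_bot
    refine ⟨N ⊓ Subgroup.normalizer (P : Set G), ?_, ?_, ?_⟩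
    · rintro q ⟨hqN, hqP⟩
      rw [Subgroup.mem_centralizer_iff]
      intro x hx
      have hxP : x ∈ (P : Subgroup G) := hx
      have h1 : x * q * x⁻¹ * q⁻¹ ∈ N := by
        have := hN.conj_mem q hqN x
        exact N.mul_mem this (N.inv_mem hqN)
      have h2 : x * q * x⁻¹ * q⁻¹ ∈ (P : Subgroup G) := by
        have h3 : q * x⁻¹ * q⁻¹ ∈ (P : Subgroup G) :=
          (Subgroup.mem_normalizer_iff.1 hqP x⁻¹).1 ((P : Subgroup G).inv_mem hxP)
        have h4 : x * (q * x⁻¹ * q⁻¹) ∈ (P : Subgroup G) := (P : Subgroup G).mul_mem hxP h3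
        simpa [mul_assoc] using h4
      have h5 : x * q * x⁻¹ * q⁻¹ ∈ N ⊓ (P : Subgroup G) := ⟨h1, h2⟩
      rw [hdisj, Subgroup.mem_bot] at h5
      have h6 : x * q = q * x := by
        have : x * q * x⁻¹ = q := by
          rw [mul_inv_eq_one] at h5; exact h5
        rw [mul_inv_eq_iff_eq_mul] at this
        exact this
      exact h6
    · rw [eq_bot_iff]
      rintro x ⟨⟨hxN, _⟩, hxP⟩
      have : x ∈ N ⊓ (P : Subgroup G) := ⟨hxN, hxP⟩
      rwa [hdisj] at this
    · apply le_antisymm
      · exact sup_le inf_le_right Subgroup.le_normalizer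
      · intro g hg
        obtain ⟨⟨⟨a, ha⟩, ⟨b, hb⟩⟩, hab⟩ := hc'.2 g
        simp only at hab
        subst hab
        have hbn : b ∈ Subgroup.normalizer ((P : Subgroup G) : Set G) := Subgroup.le_normalizer hb
        have han : a ∈ Subgroup.normalizer ((P : Subgroup G) : Set G) := by
          have := Subgroup.mul_mem _ hg (Subgroup.inv_mem _ hbn)
          simpa using this
        exact Subgroup.mul_mem_sup ⟨ha, han⟩ hb
  · rintro ⟨Q, hQ, -, hQP⟩
    have hPcomm : (P : Subgroup G) ≤ Subgroup.centralizer (P : Set G) := by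
      intro x hx
      rw [Subgroup.mem_centralizer_iff]
      intro y hy
      have := hP.is_comm.comm (⟨x, hx⟩ : (P : Subgroup G)) ⟨y, hy⟩
      exact (congrArg Subtype.val this).symm
    have hle : Subgroup.normalizer ((P : Subgroup G) : Set G) ≤ Subgroup.centralizer (P : Set G) := by
      have h : Subgroup.normalizer ((P : Subgroup G) : Set G) = Q ⊔ (P : Subgroup G) := hQP.symm
      rw [h]
      exact sup_le hQ hPcomm
    have hc := MonoidHom.ker_transferSylow_isComplement' P hle
    exact ⟨P, _, MonoidHom.normal_ker _, hc⟩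

end Cfsg.Agent.S0083
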