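import Cfsg.Statements.S0084
import Mathlib
import Cfsg.Agent.Lib.Basic.BurnsideAut
-- import your own Cfsg.Agent.* helpers here

set_option autoImplicit false
open Cfsg

namespace Cfsg.Agent.S0084

/-- A group whose Sylow 2-subgroups are Klein four-groups and whose order is prime to 3 has a normal 2-complement. -/
theorem result {G : Type*} [Group G] [Finite G] (T : Sylow 2 G) (hT : IsKleinFour T) (h3 : ¬ 3 ∣ Nat.card G) : Cfsg.HasNormalPComplement 2 G := by
  have hc : IsMulCommutative T := IsKleinFour.isMulCommutative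
  refine Cfsg.Agent.Lib.Basic.BurnsideAut.hasNormalPComplement_of_aut T hc ?_
  intro q hq hq2 hqG σ hσ
  have : Fact q.Prime := ⟨hq⟩
  refine Cfsg.Agent.Lib.Basic.BurnsideAut.aut_eq_one_of_modEq σ hσ ?_
  intro F hF
  have hcard : Nat.card T = 4 := IsKleinFour.card_four
  rw [hcard] at hF
  have hd : Nat.card F ∣ 4 := hcard ▸ Subgroup.card_subgroup_dvd_card F
  have h3' : q ≠ 3 := by rintro rfl; exact h3 hqG
  have hle : Nat.card F ≤ 4 := Nat.le_of_dvd (by norm_num) hd
  have hdq : q ∣ 4 - Nat.card F := (Nat.modEq_iff_dvd' hle).mp hF.symm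
  have h4 : Nat.card F = 4 := by
    have hm : Nat.card F ∈ Nat.divisors 4 := Nat.mem_divisors.mpr ⟨hd, by norm_num⟩
    have hdiv : Nat.divisors 4 = {1, 2, 4} := by decide
    rw [hdiv] at hm
    simp only [Finset.mem_insert, Finset.mem_singleton] at hm
    rcases hm with h | h | h
    · rw [h] at hdq
      exact absurd ((Nat.prime_dvd_prime_iff_eq hq Nat.prime_three).mp hdq) h3'
    · rw [h] at hdq
      exact absurd ((Nat.prime_dvd_prime_iff_eq hq Nat.prime_two).mp hdq) hq2
    · exact h
  exact Subgroup.eq_top_of_card_eq F (by rw [h4, hcard])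

end Cfsg.Agent.S0084
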