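import Cfsg.Statements.S0085
import Mathlib
import Cfsg.Agent.Lib.Basic.BurnsideAut
-- import your own Cfsg.Agent.* helpers here

set_option autoImplicit false
open Cfsg

namespace Cfsg.Agent.S0085

/-- A group whose Sylow 2-subgroups are elementary abelian of order 8 and whose order is prime to 3 and to 7 has a normal 2-complement. -/
theorem result {G : Type*} [Group G] [Finite G] (T : Sylow 2 G) (h8 : Nat.card T = 8) (he : ∀ x : T, x * x = 1) (h3 : ¬ 3 ∣ Nat.card G) (h7 : ¬ 7 ∣ Nat.card G) : Cfsg.HasNormalPComplement 2 G := by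
  have hc : IsMulCommutative T := by
    refine ⟨⟨fun a b => ?_⟩⟩
    have h1 := he (a * b)
    have h2 := he a
    have h3 := he b
    calc a * b = a * (a * b * (a * b)) * b := by rw [h1]; simp
      _ = (a * a) * b * (a * b) * b := by simp only [mul_assoc]
      _ = b * (a * (b * b)) := by rw [h2]; simp only [one_mul, mul_assoc]
      _ = b * a := by rw [h3]; simp
  refine Cfsg.Agent.Lib.Basic.BurnsideAut.hasNormalPComplement_of_aut T hc ?_
  intro q hq hq2 hqG σ hσ
  have : Fact q.Prime := ⟨hq⟩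
  refine Cfsg.Agent.Lib.Basic.BurnsideAut.aut_eq_one_of_modEq σ hσ ?_
  intro F hF
  rw [h8] at hF
  have hd : Nat.card F ∣ 8 := h8 ▸ Subgroup.card_subgroup_dvd_card F
  have h3' : q ≠ 3 := by rintro rfl; exact h3 hqG
  have h7' : q ≠ 7 := by rintro rfl; exact h7 hqG
  have hle : Nat.card F ≤ 8 := Nat.le_of_dvd (by norm_num) hd
  have hdq : q ∣ 8 - Nat.card F := (Nat.modEq_iff_dvd' hle).mp hF.symm
  have h4 : Nat.card F = 8 := by
    have hm : Nat.card F ∈ Nat.divisors 8 := Nat.mem_divisors.mpr ⟨hd, by norm_num⟩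
    have hdiv : Nat.divisors 8 = {1, 2, 4, 8} := by decide
    rw [hdiv] at hm
    simp only [Finset.mem_insert, Finset.mem_singleton] at hm
    rcases hm with h | h | h | h
    · rw [h] at hdq
      exact absurd ((Nat.prime_dvd_prime_iff_eq hq (by norm_num : Nat.Prime 7)).mp hdq) h7'
    · rw [h] at hdq
      have h6 : q ∣ 2 * 3 := hdq
      rcases (Nat.Prime.dvd_mul hq).mp h6 with h' | h'
      · exact absurd ((Nat.prime_dvd_prime_iff_eq hq Nat.prime_two).mp h') hq2
      · exact absurd ((Nat.prime_dvd_prime_iff_eq hq Nat.prime_three).mp h') h3'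
    · rw [h] at hdq
      have h6 : q ∣ 2 ^ 2 := hdq
      exact absurd ((Nat.prime_dvd_prime_iff_eq hq Nat.prime_two).mp (hq.dvd_of_dvd_pow h6)) hq2
    · exact h
  exact Subgroup.eq_top_of_card_eq F (by rw [h4, h8])

end Cfsg.Agent.S0085
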