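import Cfsg.Statements.S0086
import Mathlib

set_option autoImplicit false

namespace Cfsg.Agent.S0086

/-- Normal `p`-complement = elements of order prime to `p`. -/
theorem result {G : Type*} [Group G] [Finite G] {p : ℕ} [Fact p.Prime] (P : Sylow p G) (N : Subgroup G) [N.Normal] (hN : N.IsComplement' (P : Subgroup G)) (x : G) : x ∈ N ↔ Nat.Coprime (orderOf x) p := by
  have hcard : Nat.card N = (P : Subgroup G).index := by
    exact hN.index_eq_card.symm
  have hp : Nat.Prime p := Fact.out
  constructor
  · intro hx
    have hd : orderOf x ∣ Nat.card N := by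
      have := orderOf_dvd_natCard (⟨x, hx⟩ : N)
      simpa using this
    have hnd : ¬ p ∣ (P : Subgroup G).index := P.not_dvd_index
    rw [Nat.coprime_comm, Nat.Prime.coprime_iff_not_dvd hp]
    intro hpo
    exact hnd (hcard ▸ hpo.trans hd)
  · intro hco
    obtain ⟨n, hn⟩ := IsPGroup.iff_card.mp P.isPGroup'
    have hidx : N.index = p ^ n := by
      rw [hN.symm.index_eq_card]; exact hn
    have hmem : x ^ (p ^ n) ∈ N := by
      rw [← hidx]; exact Subgroup.pow_index_mem N x
    have hco' : Nat.Coprime (p ^ n) (orderOf x) := (hco.symm).pow_left n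
    by_cases h1 : orderOf x = 1
    · rw [orderOf_eq_one_iff] at h1
      rw [h1]; exact N.one_mem
    · have hpos : 0 < orderOf x := orderOf_pos x
      obtain ⟨m, -, hm⟩ := Nat.exists_mul_mod_eq_one_of_coprime hco' (by omega : 1 < orderOf x)
      have : x = (x ^ (p ^ n)) ^ m := by
        rw [← pow_mul, ← pow_mod_orderOf x (p ^ n * m), hm, pow_one]
      rw [this]
      exact N.pow_mem hmem m

end Cfsg.Agent.S0086
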