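import Cfsg.Statements.S0087
import Mathlib
import Cfsg.Agent.S0079
import Cfsg.Agent.Lib.Basic.SylowConj
import Cfsg.Agent.Lib.Basic.SylowUtil
-- import your own Cfsg.Agent.* helpers here

set_option autoImplicit false
open Cfsg

namespace Cfsg.Agent.S0087

open Pointwise

variable {G : Type*} [Group G] [Finite G]

/-- Sylow subgroup of a Hall subgroup, as a Sylow subgroup of the whole group. -/
theorem exists_sylow_le (H : Subgroup G) {p : ℕ} [Fact p.Prime] (hpi : ¬ p ∣ H.index) :
    ∃ P : Sylow p G, (P : Subgroup G) ≤ H ∧ ¬ p ∣ (P : Subgroup G).relIndex H := by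
  let Q : Sylow p H := default
  obtain ⟨P, hP⟩ := Cfsg.Agent.Lib.Basic.SylowUtil.sylow_map_of_not_dvd_index hpi Q
  refine ⟨P, ?_, ?_⟩
  · rw [hP]; exact Subgroup.map_subtype_le _
  · rw [hP, Subgroup.relIndex, Subgroup.subgroupOf,
      Subgroup.comap_map_eq_self_of_injective H.subtype_injective]
    exact Q.not_dvd_index

/-- Conjugating a subgroup by `a`. -/
abbrev cj (a : G) (K : Subgroup G) : Subgroup G := K.map (MulAut.conj a).toMonoidHom

theorem cj_mem {a : G} {K : Subgroup G} {x : G} (hx : x ∈ K) : a * x * a⁻¹ ∈ cj a K :=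
  ⟨x, hx, by simp⟩

theorem card_cj (a : G) (K : Subgroup G) : Nat.card (cj a K) = Nat.card K :=
  Subgroup.card_map_of_injective (MulAut.conj a).injective

theorem cj_mul (a b : G) (K : Subgroup G) : cj (a * b) K = cj a (cj b K) := by
  simp only [cj, Subgroup.map_map]
  congr 1
  ext x
  simp [mul_assoc]

theorem index_cj (a : G) (K : Subgroup G) : (cj a K).index = K.index := by
  have h1 := Subgroup.card_mul_index (cj a K)
  have h2 := Subgroup.card_mul_index K
  rw [card_cj] at h1
  have hpos : 0 < Nat.card K := Nat.card_pos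
  exact Nat.eq_of_mul_eq_mul_left hpos (h1.trans h2.symm)

/-- Conjugacy of abelian Hall subgroups, inside an ambient subgroup `A`. -/
theorem conj_abelian_hall (A H K : Subgroup G) (hHA : H ≤ A) (hKA : K ≤ A)
    (hHc : ∀ a ∈ H, ∀ b ∈ H, a * b = b * a) (hKc : ∀ a ∈ K, ∀ b ∈ K, a * b = b * a)
    (hcard : Nat.card H = Nat.card K) (hH : Nat.Coprime (Nat.card H) H.index) :
    ∃ a ∈ A, cj a K = H := by
  classical
  obtain ⟨a₀, ha₀⟩ := Finite.exists_max (fun a : A => Nat.card (H ⊓ cj (a : G) K : Subgroup G))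
  refine ⟨a₀, a₀.2, ?_⟩
  set K' := cj (a₀ : G) K with hK'
  by_contra hne
  have hKA' : K' ≤ A := by
    rintro _ ⟨x, hx, rfl⟩
    exact A.mul_mem (A.mul_mem a₀.2 (hKA hx)) (A.inv_mem a₀.2)
  have hKc' : ∀ a ∈ K', ∀ b ∈ K', a * b = b * a := by
    rintro _ ⟨x, hx, rfl⟩ _ ⟨y, hy, rfl⟩
    have := hKc x hx y hy
    simp only [MulEquiv.coe_toMonoidHom, MulAut.conj_apply]
    calc (a₀ : G) * x * (a₀ : G)⁻¹ * ((a₀ : G) * y * (a₀ : G)⁻¹) = a₀ * (x * y) * (a₀ : G)⁻¹ := by group
      _ = a₀ * (y * x) * (a₀ : G)⁻¹ := by rw [this]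
      _ = _ := by group
  have hcard' : Nat.card K' = Nat.card H := by rw [hK', card_cj, hcard]
  have hidx : K'.index = H.index := by
    have h1 := Subgroup.card_mul_index K'
    have h2 := Subgroup.card_mul_index H
    rw [hcard'] at h1
    have hpos : 0 < Nat.card H := Nat.card_pos
    exact Nat.eq_of_mul_eq_mul_left hpos (h1.trans h2.symm)
  set D := H ⊓ K' with hD
  have hDH : D ≤ H := inf_le_left
  have hDK : D ≤ K' := inf_le_right
  have hDne : D ≠ H := by
    intro h
    apply hne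
    have hle : H ≤ K' := by rw [← h]; exact hDK
    exact (Subgroup.eq_of_le_of_card_ge hle (by rw [hcard'])).symm
  -- a prime dividing |H : D|
  have hidxD : D.relIndex H ≠ 1 := by
    intro h
    rw [Subgroup.relIndex_eq_one] at h
    exact hDne (le_antisymm hDH h)
  obtain ⟨p, hp, hpd⟩ := Nat.exists_prime_and_dvd hidxD
  haveI : Fact p.Prime := ⟨hp⟩
  have hcardH : D.relIndex H ∣ Nat.card H := Subgroup.index_dvd_card (D.subgroupOf H)
  have hpH : p ∣ Nat.card H := hpd.trans hcardH
  have hpi : ¬ p ∣ H.index := fun hd => by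
    have := Nat.dvd_gcd hpH hd
    rw [hH.gcd_eq_one] at this
    exact hp.one_lt.ne' (Nat.dvd_one.mp this)
  obtain ⟨P, hPH, hPi⟩ := exists_sylow_le H hpi
  obtain ⟨Q, hQK, -⟩ := exists_sylow_le K' (p := p) (by rwa [hidx])
  -- both inside the centralizer of D, within A
  let C : Subgroup G := A ⊓ Subgroup.centralizer (D : Set G)
  have hPC : (P : Subgroup G) ≤ C := fun x hx => ⟨hHA (hPH hx),
    Subgroup.mem_centralizer_iff.mpr fun y hy => hHc y (hDH hy) x (hPH hx)⟩
  have hQC : (Q : Subgroup G) ≤ C := fun x hx => ⟨hKA' (hQK hx),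
    Subgroup.mem_centralizer_iff.mpr fun y hy => hKc' y (hDK hy) x (hQK hx)⟩
  obtain ⟨u, huC, hu⟩ := Cfsg.Agent.Lib.Basic.SylowConj.exists_mem_smul_eq C Q P hQC hPC
  -- new conjugate
  let b : A := ⟨u * a₀, A.mul_mem huC.1 a₀.2⟩
  have hb : cj (b : G) K = cj u K' := by
    show cj (u * a₀) K = _
    rw [cj_mul]
  have hPK : (P : Subgroup G) ≤ cj u K' := by
    intro x hx
    rw [← hu, Sylow.coe_subgroup_smul] at hx
    obtain ⟨y, hy, rfl⟩ := Subgroup.mem_smul_pointwise_iff_exists _ _ _ |>.mp hx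
    exact cj_mem (hQK hy)
  have hDK' : D ≤ cj u K' := by
    intro x hx
    have hcx : u * x * u⁻¹ = x := by
      have := Subgroup.mem_centralizer_iff.mp huC.2 x hx
      rw [← this]; group
    rw [← hcx]
    exact cj_mem (hDK hx)
  have hlt : D < H ⊓ cj (b : G) K := by
    rw [hb]
    refine lt_of_le_of_ne (le_inf hDH hDK') ?_
    intro heq
    have hPD : (P : Subgroup G) ≤ D := by rw [heq]; exact le_inf hPH hPK
    apply hPi
    have := Subgroup.relIndex_dvd_of_le_left H hPD
    exact hpd.trans this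
  have hmax := ha₀ b
  have hcl : Nat.card D < Nat.card (H ⊓ cj (b : G) K : Subgroup G) :=
    Nat.lt_of_not_ge fun hge => hlt.ne (Subgroup.eq_of_le_of_card_ge hlt.le hge)
  exact absurd hmax (not_le.mpr hcl)

/-- A Hall subgroup that is central in its normalizer has a normal complement. -/
theorem result {G : Type*} [Group G] [Finite G] (H : Subgroup G) (hHall : Nat.Coprime (Nat.card H) H.index) (h : Subgroup.normalizer (H : Set G) ≤ Subgroup.centralizer (H : Set G)) : ∃ N : Subgroup G, N.Normal ∧ N.IsComplement' H := by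
  have hc : ∀ a ∈ H, ∀ b ∈ H, a * b = b * a := fun a ha b hb =>
    Subgroup.mem_centralizer_iff.mp (h (Subgroup.le_normalizer ha)) b hb |>.symm
  have hnil : Group.IsNilpotent H := by
    have : IsMulCommutative H := ⟨⟨fun a b => Subtype.ext (hc a a.2 b b.2)⟩⟩
    open scoped IsMulCommutative in infer_instance
  refine (Cfsg.Agent.S0079.result H hnil hHall).mpr ?_
  rintro x hx y hy ⟨g, rfl⟩
  refine ⟨1, H.one_mem, ?_⟩
  -- work in the centraliser of `y`
  set y := g * x * g⁻¹ with hy'
  let A : Subgroup G := Subgroup.centralizer ({y} : Set G)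
  have hHA : H ≤ A := fun a ha => by
    rw [Subgroup.mem_centralizer_singleton_iff]
    exact hc a ha y hy
  have hcgc : ∀ a ∈ cj g H, ∀ b ∈ cj g H, a * b = b * a := by
    rintro _ ⟨u, hu, rfl⟩ _ ⟨v, hv, rfl⟩
    have := hc u hu v hv
    simp only [MulEquiv.coe_toMonoidHom, MulAut.conj_apply]
    calc g * u * g⁻¹ * (g * v * g⁻¹) = g * (u * v) * g⁻¹ := by group
      _ = g * (v * u) * g⁻¹ := by rw [this]
      _ = _ := by group
  have hKA : cj g H ≤ A := fun a ha => by
    rw [Subgroup.mem_centralizer_singleton_iff]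
    exact hcgc a ha y (cj_mem hx)
  obtain ⟨a, haA, ha⟩ := conj_abelian_hall A H (cj g H) hHA hKA hc hcgc (card_cj g H).symm hHall
  rw [← cj_mul] at ha
  have hn : a * g ∈ Subgroup.normalizer (H : Set G) := by
    rw [Subgroup.mem_normalizer_iff]
    intro z
    constructor
    · intro hz
      rw [← ha]
      exact cj_mem hz
    · intro hz
      rw [← ha] at hz
      obtain ⟨w, hw, hwe⟩ := hz
      simp only [MulEquiv.coe_toMonoidHom, MulAut.conj_apply] at hwe
      have : w = z := by simpa [mul_assoc] using hwe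
      rwa [← this]
  have h1 := Subgroup.mem_centralizer_iff.mp (h hn) x hx
  have h2 : a * y = y * a := (Subgroup.mem_centralizer_singleton_iff.mp haA)
  simp only [one_mul, inv_one, mul_one]
  have h3 : a * y * a⁻¹ = y := by rw [h2]; group
  have h4 : a * g * x * (a * g)⁻¹ = a * y * a⁻¹ := by rw [hy']; group
  rw [h3] at h4
  rw [← h4, ← h1]
  group

end Cfsg.Agent.S0087
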