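import Cfsg.Statements.S0088
import Mathlib

set_option autoImplicit false
open Cfsg

namespace Cfsg.Agent.S0088

open scoped IsMulCommutative in
theorem aux {G : Type*} [Group G] [Finite G] (H : Subgroup G) [IsMulCommutative H] (x : G)
    (hxG' : x ∈ commutator G) (hxZ : x ∈ Subgroup.center G) : x ^ H.index = 1 := by
  have hxc : ∀ g, g * x = x * g := fun g => (Subgroup.mem_center_iff.1 hxZ) g
  let V : G →* H := MonoidHom.transfer (MonoidHom.id H)
  have hV : V x = 1 := by
    have hle : commutator G ≤ V.ker := by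
      rw [commutator_def, Subgroup.commutator_le]
      intro a _ b _
      simp only [MonoidHom.mem_ker, commutatorElement_def, map_mul, map_inv]
      rw [mul_comm (V a) (V b)]
      group
    exact hle hxG'
  have hV2 : V x = ⟨x ^ H.index, _⟩ := MonoidHom.transfer_eq_pow (MonoidHom.id H) x (fun k g₀ _ => by
    have : ∀ g, g * x ^ k = x ^ k * g := fun g => (Commute.pow_right (hxc g) k)
    rw [this g₀⁻¹, mul_assoc, inv_mul_cancel, mul_one])
  have := hV2.symm.trans hV
  exact congrArg Subtype.val this

/-- An abelian Hall subgroup meets G' ∩ Z(G) trivially. -/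
theorem result {G : Type*} [Group G] [Finite G] (H : Subgroup G) (hc : IsMulCommutative H) (hHall : Nat.Coprime (Nat.card H) H.index) : H ⊓ commutator G ⊓ Subgroup.center G = ⊥ := by
  rw [eq_bot_iff]
  rintro x ⟨⟨hxH, hxG'⟩, hxZ⟩
  have hpow : x ^ H.index = 1 := aux H x hxG' hxZ
  have hcardpow : x ^ Nat.card H = 1 := by
    have : (⟨x, hxH⟩ : H) ^ Nat.card H = 1 := pow_card_eq_one'
    exact congrArg Subtype.val this
  have : orderOf x ∣ Nat.gcd (Nat.card H) H.index := Nat.dvd_gcd (orderOf_dvd_of_pow_eq_one hcardpow) (orderOf_dvd_of_pow_eq_one hpow)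
  rw [hHall, Nat.dvd_one, orderOf_eq_one_iff] at this
  exact this

end Cfsg.Agent.S0088
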