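import Cfsg.Statements.S0089
import Cfsg.Agent.S0088
import Mathlib

set_option autoImplicit false
open Cfsg

namespace Cfsg.Agent.S0089

/-- When all Sylow subgroups are abelian, the derived subgroup meets the centre trivially. -/
theorem result {G : Type*} [Group G] [Finite G] (h : ∀ p : ℕ, p.Prime → ∀ P : Sylow p G, IsMulCommutative P) : commutator G ⊓ Subgroup.center G = ⊥ := by
  rw [eq_bot_iff]
  rintro x ⟨hxG', hxZ⟩
  by_contra hx
  have hx1 : x ≠ 1 := hx
  have hord : orderOf x ≠ 1 := by simpa [orderOf_eq_one_iff] using hx1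
  obtain ⟨p, hp, hpx⟩ := Nat.exists_prime_and_dvd hord
  have : Fact p.Prime := ⟨hp⟩
  have hfin : orderOf x ≠ 0 := (orderOf_pos x).ne'
  obtain ⟨k, hk⟩ := hpx
  have hk0 : k ≠ 0 := by
    rintro rfl
    exact hfin (by rw [hk, mul_zero])
  have hyord : orderOf (x ^ k) = p := by
    rw [orderOf_pow_of_dvd hk0 ⟨p, by rw [hk, mul_comm]⟩, hk, Nat.mul_div_cancel _ (Nat.pos_of_ne_zero hk0)]
  have hpg : IsPGroup p (Subgroup.zpowers (x ^ k)) := by
    apply IsPGroup.of_card (n := 1)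
    rw [Nat.card_zpowers, hyord, pow_one]
  obtain ⟨Q, hQ⟩ := hpg.exists_le_sylow
  have hQy : x ^ k ∈ (Q : Subgroup G) := hQ (Subgroup.mem_zpowers _)
  have key := Cfsg.Agent.S0088.result (Q : Subgroup G) (h p hp Q) Q.card_coprime_index
  have hmem : x ^ k ∈ (Q : Subgroup G) ⊓ commutator G ⊓ Subgroup.center G :=
    ⟨⟨hQy, Subgroup.pow_mem _ hxG' k⟩, Subgroup.pow_mem _ hxZ k⟩
  rw [key, Subgroup.mem_bot] at hmem
  rw [hmem, orderOf_one] at hyord
  exact hp.one_lt.ne hyord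

end Cfsg.Agent.S0089
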