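import Cfsg.Statements.S0090
import Cfsg.Agent.S0088
import Mathlib
-- import your own Cfsg.Agent.* helpers here

set_option autoImplicit false
open Cfsg

namespace Cfsg.Agent.S0090

open scoped IsMulCommutative in
open scoped commutatorElement in
theorem key {G : Type*} [Group G] [Finite G] (A : Subgroup G) [A.Normal] [IsMulCommutative A]
    (hHall : Nat.Coprime (Nat.card A) A.index) (y : G) (hy : y ∈ A) :
    ∃ z ∈ Subgroup.center G, z ∈ A ∧ ∃ c ∈ ⁅A, (⊤ : Subgroup G)⁆, y = z * c := by
  classical
  letI : Fintype (G ⧸ A) := Fintype.ofFinite _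
  let x : A := (powCoprime hHall).symm ⟨y, hy⟩
  have hx : x ^ A.index = ⟨y, hy⟩ := by
    have := (powCoprime hHall).apply_symm_apply ⟨y, hy⟩
    rw [powCoprime_apply] at this
    exact this
  let a : (G ⧸ A) → A := fun q =>
    ⟨q.out * (x : G) * q.out⁻¹, Subgroup.Normal.conj_mem inferInstance _ x.2 _⟩
  let N : A := ∏ q, a q
  have hN : (N : G) ∈ Subgroup.center G := by
    rw [Subgroup.mem_center_iff]
    intro g
    have h1 : MulAut.conjNormal g N = N := by
      simp only [N, map_prod]
      refine Fintype.prod_equiv (MulAction.toPerm g) _ _ (fun q => ?_)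
      apply Subtype.ext
      have hh : ((g • q).out)⁻¹ * (g * q.out) ∈ A := by
        have : (((g * q.out : G)) : G ⧸ A) = ((g • q).out : G) := by
          rw [QuotientGroup.out_eq']
          change g • ((q.out : G) : G ⧸ A) = g • q
          rw [QuotientGroup.out_eq']
        have h2 := QuotientGroup.eq.1 this.symm
        exact h2
      set h := ((g • q).out)⁻¹ * (g * q.out) with hdef
      have hcomm : h * (x : G) = (x : G) * h := by
        have := mul_comm (⟨h, hh⟩ : A) x
        exact congrArg Subtype.val this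
      have e : g * q.out = (g • q).out * h := by rw [hdef]; group
      simp only [MulAut.conjNormal_apply, MulAction.toPerm_apply, a]
      have e2 : g * (q.out * (x : G) * (q.out)⁻¹) * g⁻¹ = (g * q.out) * (x : G) * (g * q.out)⁻¹ := by group
      rw [e2, e]
      have : (g • q).out * h * (x : G) * ((g • q).out * h)⁻¹ = (g • q).out * (h * x) * h⁻¹ * ((g • q).out)⁻¹ := by group
      rw [this, hcomm]
      group
    have h2 : g * (N : G) * g⁻¹ = N := congrArg Subtype.val h1
    calc g * (N : G) = (g * (N : G) * g⁻¹) * g := by group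
      _ = N * g := by rw [h2]
  refine ⟨N, hN, N.2, ((x ^ A.index * N⁻¹ : A) : G), ?_, ?_⟩
  · have hprod : x ^ A.index * N⁻¹ = ∏ q, (x * (a q)⁻¹) := by
      rw [Finset.prod_mul_distrib, Finset.prod_const, Finset.prod_inv_distrib, Finset.card_univ,
        Subgroup.index_eq_card, Nat.card_eq_fintype_card]
    rw [hprod]
    have : (∏ q, (x * (a q)⁻¹)) ∈ (⁅A, (⊤ : Subgroup G)⁆).subgroupOf A := by
      apply Subgroup.prod_mem
      intro q _
      rw [Subgroup.mem_subgroupOf]
      have e : ((x * (a q)⁻¹ : A) : G) = ⁅(x : G), q.out⁆ := by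
        simp only [a, Subgroup.coe_mul, Subgroup.coe_inv, commutatorElement_def]
        group
      rw [e]
      exact Subgroup.commutator_mem_commutator x.2 (Subgroup.mem_top _)
    exact this
  · have : (N * (x ^ A.index * N⁻¹) : A) = ⟨y, hy⟩ := by
      rw [mul_comm (x ^ A.index), ← mul_assoc, mul_inv_cancel, one_mul, hx]
    have h2 := congrArg Subtype.val this
    exact h2.symm

/-- An abelian normal Hall subgroup A splits as the internal direct product of G' ∩ A and Z(G) ∩ A, and [A, G] = G' ∩ A. -/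
theorem result {G : Type*} [Group G] [Finite G] (A : Subgroup G) [A.Normal] (hc : IsMulCommutative A) (hHall : Nat.Coprime (Nat.card A) A.index) : ⁅A, (⊤ : Subgroup G)⁆ = commutator G ⊓ A ∧ (commutator G ⊓ A) ⊓ (Subgroup.center G ⊓ A) = ⊥ ∧ (commutator G ⊓ A) ⊔ (Subgroup.center G ⊓ A) = A := by
  have h0 := Cfsg.Agent.S0088.result A hc hHall
  have hle : ⁅A, (⊤ : Subgroup G)⁆ ≤ commutator G ⊓ A := by
    apply le_inf
    · rw [_root_.commutator_def]
      exact Subgroup.commutator_mono le_top le_rfl
    · exact Subgroup.commutator_le_left A ⊤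
  have hbot : (commutator G ⊓ A) ⊓ (Subgroup.center G ⊓ A) = ⊥ := by
    rw [eq_bot_iff, ← h0]
    rintro x ⟨⟨h1, h2⟩, h3, -⟩
    exact ⟨⟨h2, h1⟩, h3⟩
  refine ⟨?_, hbot, ?_⟩
  · apply le_antisymm hle
    rintro y ⟨hyG, hyA⟩
    obtain ⟨z, hz, hzA, c, hc', rfl⟩ := key A hHall y hyA
    have hcG := hle hc'
    have hzG : z ∈ commutator G := by
      have := (commutator G).mul_mem hyG ((commutator G).inv_mem hcG.1)
      simpa using this
    have hz1 : z ∈ (commutator G ⊓ A) ⊓ (Subgroup.center G ⊓ A) := ⟨⟨hzG, hzA⟩, hz, hzA⟩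
    rw [hbot, Subgroup.mem_bot] at hz1
    rw [hz1, one_mul]
    exact hc'
  · apply le_antisymm
    · exact sup_le inf_le_right inf_le_right
    · intro y hy
      obtain ⟨z, hz, hzA, c, hc', rfl⟩ := key A hHall y hy
      rw [← Subgroup.mem_center_iff.1 hz c]
      exact Subgroup.mul_mem_sup (hle hc') ⟨hz, hzA⟩

end Cfsg.Agent.S0090
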