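import Cfsg.Statements.S0091
import Mathlib
-- import your own Cfsg.Agent.* helpers here

set_option autoImplicit false
open Cfsg

namespace Cfsg.Agent.S0091

open scoped commutatorElement


/-- If a nontrivial Sylow p-subgroup controls its own fusion then it is not contained in the derived subgroup. -/
theorem result {G : Type*} [Group G] [Finite G] {p : ℕ} [Fact p.Prime] (P : Sylow p G) (hp : p ∣ Nat.card G) (h : ∀ x ∈ P, ∀ y ∈ P, (∃ g : G, g * x * g⁻¹ = y) → ∃ z ∈ P, z * x * z⁻¹ = y) : ¬ (P : Subgroup G) ≤ commutator G := by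
  classical
  intro hle
  -- P* ≤ ⁅P,P⁆
  have hfoc : (P : Subgroup G).focalSubgroup ≤ ⁅(P : Subgroup G), (P : Subgroup G)⁆ := by
    rw [Subgroup.focalSubgroup_def, Subgroup.closure_le]
    rintro g ⟨hg, x, hx, u, rfl⟩
    have hy : u * x⁻¹ * u⁻¹ ∈ (P : Subgroup G) := by
      have : u * x⁻¹ * u⁻¹ = x⁻¹ * ⁅x, u⁆ := by
        simp only [commutatorElement_def]; group
      rw [this]; exact mul_mem (inv_mem hx) hg
    obtain ⟨z, hz, hzy⟩ := h x⁻¹ (inv_mem hx) _ hy ⟨u, rfl⟩
    have : ⁅x, u⁆ = ⁅x, z⁆ := by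
      simp only [commutatorElement_def]
      rw [mul_assoc x u, mul_assoc x z, mul_assoc x _, mul_assoc x (z * x⁻¹), hzy]
    rw [this]
    exact Subgroup.commutator_mem_commutator hx hz
  have hPle : (P : Subgroup G) ≤ ⁅(P : Subgroup G), (P : Subgroup G)⁆ := by
    have h1 := Subgroup.commutator_inf_eq_focalSubgroup P
    refine le_trans ?_ hfoc
    rw [← h1]
    exact le_inf hle le_rfl
  have hne : (P : Subgroup G) ≠ ⊥ := P.ne_bot_of_dvd_card hp
  have hnt : Nontrivial (P : Subgroup G) := (Subgroup.nontrivial_iff_ne_bot _).mpr hne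
  have hnil : Group.IsNilpotent (P : Subgroup G) := P.isPGroup'.isNilpotent
  have hsol : Group.IsSolvable (P : Subgroup G) := inferInstance
  have hlt := Group.IsSolvable.commutator_lt_top_of_nontrivial (G := (P : Subgroup G))
  apply hlt.ne
  rw [eq_top_iff]
  intro x _
  have hx : (x : G) ∈ ⁅(P : Subgroup G), (P : Subgroup G)⁆ := hPle x.2
  rw [← Subgroup.map_subtype_commutator] at hx
  obtain ⟨y, hy, hyx⟩ := hx
  have : y = x := Subtype.ext hyx
  rwa [← this]

end Cfsg.Agent.S0091
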