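import Cfsg.Statements.S0092
import Mathlib
import Cfsg.Agent.Lib.Transfer.Basic
import Cfsg.Agent.Lib.Basic.ElementFusion
import Cfsg.Agent.Lib.Basic.SylowUtil
import Cfsg.Agent.Lib.Solvable.Carter
-- import your own Cfsg.Agent.* helpers here

set_option autoImplicit false
open Cfsg

namespace Cfsg.Agent.S0092

open Subgroup Cfsg.Agent.Lib.Transfer.Basic
open scoped IsMulCommutative Pointwise

/-- Transfer and Burnside fusion: if `O^p(X) = X` and `Q` is an abelian Sylow subgroup of `X` then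
no nontrivial element of `Q` is central in `N_X(Q)`. -/
theorem core {X : Type*} [Group X] [Finite X] {p : ℕ} [Fact p.Prime]
    (htop : Cfsg.pResidual p X = ⊤) (Q : Sylow p X) [hQ : IsMulCommutative Q] (z : X)
    (hz : z ∈ (Q : Subgroup X))
    (hc : ∀ g ∈ normalizer ((Q : Subgroup X) : Set X), g * z = z * g) : z = 1 := by
  classical
  let φ : (Q : Subgroup X) →* (Q : Subgroup X) := MonoidHom.id _
  have h1 : MonoidHom.transfer φ z = 1 :=
    pResidual_le_ker Q.isPGroup' (MonoidHom.transfer φ) (htop ▸ mem_top z)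
  have h2 := transfer_eq_pow_of_fusion (Q : Subgroup X) φ ⟨z, hz⟩ (by
    intro k g₀ h
    obtain ⟨n, hn, hn2⟩ := Q.conj_eq_normalizer_conj_of_mem (z ^ k) g₀
      ((Q : Subgroup X).pow_mem hz k) h
    have hcomm : n * z ^ k = z ^ k * n := ((Commute.pow_right (hc n hn) k))
    apply Subtype.ext
    show g₀⁻¹ * (z : X) ^ k * g₀ = z ^ k
    rw [hn2, mul_assoc, ← hcomm, inv_mul_cancel_left])
  rw [show (((⟨z, hz⟩ : (Q : Subgroup X)) : X)) = z from rfl, h1] at h2
  have h3 : orderOf (⟨z, hz⟩ : (Q : Subgroup X)) ∣ (Q : Subgroup X).index :=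
    orderOf_dvd_of_pow_eq_one h2.symm
  have h4 : orderOf (⟨z, hz⟩ : (Q : Subgroup X)) ∣ Nat.card (Q : Subgroup X) :=
    _root_.orderOf_dvd_natCard _
  have h5 := Nat.dvd_gcd h4 h3
  rw [Q.card_coprime_index, Nat.dvd_one, orderOf_eq_one_iff] at h5
  exact congrArg Subtype.val h5

/-- A Sylow subgroup maps onto a `p`-group quotient. -/
theorem map_sylow_eq_top {A B : Type*} [Group A] [Group B] [Finite A] {p : ℕ} [Fact p.Prime]
    (f : A →* B) (hf : Function.Surjective f) (hB : IsPGroup p B) (U : Sylow p A) :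
    (U : Subgroup A).map f = ⊤ := by
  have := (U.mapSurjective hf).is_maximal' (hB.to_subgroup ⊤) le_top
  exact this.symm

/-- The splitting argument inside `G`. -/
theorem split {G : Type*} [Group G] [Finite G] {p : ℕ} [Fact p.Prime] (K : Subgroup G) [hKn : K.Normal]
    (hpg : IsPGroup p (G ⧸ K)) (P : Sylow p G) (Q₀ : Sylow p K)
    (hQ₀ : (Q₀ : Subgroup K).map K.subtype = (P : Subgroup G) ⊓ K)
    (hab : IsMulCommutative ((P : Subgroup G) ⊓ K : Subgroup G))
    (hC : ∀ z ∈ (P : Subgroup G) ⊓ K,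
      (∀ g ∈ K, g ∈ normalizer (((P : Subgroup G) ⊓ K : Subgroup G) : Set G) →
      g * z = z * g) → z = 1) :
    ∃ U : Subgroup G, U.IsComplement' K := by
  classical
  set Q : Subgroup G := (P : Subgroup G) ⊓ K with hQdef
  have hQK : Q ≤ K := inf_le_right
  have hQP : Q ≤ P := inf_le_left
  have hQcomm : ∀ a ∈ Q, ∀ b ∈ Q, a * b = b * a := fun a ha b hb =>
    congrArg Subtype.val (hab.is_comm.comm ⟨a, ha⟩ ⟨b, hb⟩)
  have hQpg : IsPGroup p Q := P.isPGroup'.to_le hQP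
  let N : Subgroup G := normalizer (Q : Set G)
  let M : Subgroup G := K ⊓ N
  have hQN : Q ≤ N := le_normalizer
  have hQM : Q ≤ M := le_inf hQK hQN
  have hMN : M ≤ N := inf_le_right
  let A : Subgroup M := Q.subgroupOf M
  have hAn : A.Normal := (Subgroup.normal_subgroupOf_iff_le_normalizer hQM).mpr hMN
  have hAindex : ¬ p ∣ A.index := by
    intro hdvd
    have h1 : Q.relIndex K = (Q₀ : Subgroup K).index := by
      rw [Subgroup.relIndex, ← hQ₀, Subgroup.subgroupOf, Subgroup.comap_map_eq_self_of_injective K.subtype_injective]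
    have h2 : Q.relIndex M * M.relIndex K = Q.relIndex K :=
      Subgroup.relIndex_mul_relIndex _ _ _ hQM inf_le_left
    apply Q₀.not_dvd_index
    rw [← h1, ← h2]
    exact Dvd.dvd.mul_right hdvd _
  have hAcard : Nat.card A = Nat.card Q :=
    Nat.card_congr (Subgroup.subgroupOfEquivOfLe hQM).toEquiv
  have hAcop : (Nat.card A).Coprime A.index := by
    rw [hAcard]
    obtain ⟨n, hn⟩ := IsPGroup.iff_card.mp hQpg
    rw [hn]
    exact Nat.Coprime.pow_left n ((Nat.Prime.coprime_iff_not_dvd Fact.out).mpr hAindex)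
  obtain ⟨R₀, hcomp⟩ := Subgroup.exists_right_complement'_of_coprime hAcop
  let R : Subgroup G := R₀.map M.subtype
  have hRM : R ≤ M := by
    rintro _ ⟨r, -, rfl⟩
    exact r.2
  have hRcard : Nat.card R = A.index := by
    rw [hcomp.symm.index_eq_card]
    exact Nat.card_congr (R₀.equivMapOfInjective _ M.subtype_injective).toEquiv.symm
  have hRp : ¬ p ∣ Nat.card R := hRcard ▸ hAindex
  have hRQ : R ⊓ Q = ⊥ := by
    rw [eq_bot_iff]
    rintro x ⟨⟨r, hr, rfl⟩, hx⟩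
    have hdis : Disjoint A R₀ := hcomp.disjoint
    have : r = 1 := Subgroup.disjoint_def.mp hdis (Subgroup.mem_subgroupOf.mpr hx) hr
    simp [this]
  have hdecomp : ∀ m ∈ M, ∃ a ∈ Q, ∃ r ∈ R, m = a * r := by
    intro m hm
    obtain ⟨⟨a, r⟩, e⟩ := hcomp.2 ⟨m, hm⟩
    refine ⟨a.1.1, Subgroup.mem_subgroupOf.mp a.2, r.1.1, ⟨r.1, r.2, rfl⟩, ?_⟩
    exact (congrArg Subtype.val e).symm
  have hRsup : R ⊔ Q = M := by
    apply le_antisymm (sup_le hRM hQM)
    intro m hm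
    obtain ⟨a, ha, r, hr, rfl⟩ := hdecomp m hm
    rw [sup_comm]
    exact Subgroup.mul_mem_sup ha hr
  -- elements of `Q` centralizing `R` vanish
  have hRC : ∀ z ∈ Q, (∀ r ∈ R, r * z = z * r) → z = 1 := by
    intro z hz hzr
    refine hC z hz fun g hgK hgN => ?_
    obtain ⟨a, ha, r, hr, rfl⟩ := hdecomp g ⟨hgK, hgN⟩
    rw [mul_assoc, hzr r hr, ← mul_assoc, hQcomm a ha z hz, mul_assoc]
  let T : Subgroup G := N ⊓ normalizer (R : Set G)
  have hRT : R ≤ T := le_inf (hRM.trans hMN) le_normalizer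
  have hTQ : ∀ z ∈ T, z ∈ Q → z = 1 := by
    intro z hzT hzQ
    refine hRC z hzQ fun r hr => ?_
    have h1 : z * r * z⁻¹ ∈ R := (Subgroup.mem_normalizer_iff.mp hzT.2 r).mp hr
    have h2 : r * z⁻¹ * r⁻¹ ∈ Q :=
      (Subgroup.mem_normalizer_iff.mp (hMN (hRM hr)) z⁻¹).mp (Q.inv_mem hzQ)
    have h3 : z * r * z⁻¹ * r⁻¹ ∈ R := R.mul_mem h1 (R.inv_mem hr)
    have h4 : z * r * z⁻¹ * r⁻¹ ∈ Q := by
      have e : z * r * z⁻¹ * r⁻¹ = z * (r * z⁻¹ * r⁻¹) := by group
      rw [e]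
      exact Q.mul_mem hzQ h2
    have h5 : z * r * z⁻¹ * r⁻¹ ∈ R ⊓ Q := ⟨h3, h4⟩
    rw [hRQ, Subgroup.mem_bot] at h5
    have h6 : z * r * z⁻¹ = r := by
      rwa [mul_inv_eq_one] at h5
    have h7 : z * r = r * z := by
      rwa [mul_inv_eq_iff_eq_mul] at h6
    exact h7.symm
  have hTK : ∀ t ∈ T, t ∈ K → t ∈ R := by
    intro t htT htK
    obtain ⟨a, ha, r, hr, rfl⟩ := hdecomp t ⟨htK, htT.1⟩
    have ha1 : a = 1 := by
      refine hTQ a ?_ ha
      have : a = (a * r) * r⁻¹ := by group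
      rw [this]
      exact T.mul_mem htT (T.inv_mem (hRT hr))
    rw [ha1, one_mul]
    exact hr
  -- Frattini: `N = Q T`
  have hNdecomp : ∀ x ∈ N, ∃ a ∈ Q, ∃ t ∈ T, x = a * t := by
    intro x hx
    have hxQ : MulAut.conj x • Q = Q :=
      Cfsg.Agent.Lib.Solvable.Carter.mem_normalizer_iff_conj_smul_eq.mp hx
    have hxM : MulAut.conj x • M = M := by
      apply Cfsg.Agent.Lib.Solvable.Carter.mem_normalizer_iff_conj_smul_eq.mp
      rw [Subgroup.mem_normalizer_iff]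
      intro y
      constructor
      · rintro ⟨hy1, hy2⟩
        exact ⟨hKn.conj_mem y hy1 x, N.mul_mem (N.mul_mem hx hy2) (N.inv_mem hx)⟩
      · rintro ⟨hy1, hy2⟩
        refine ⟨?_, ?_⟩
        · have := hKn.conj_mem _ hy1 x⁻¹
          have e : x⁻¹ * (x * y * x⁻¹) * x⁻¹⁻¹ = y := by group
          rwa [e] at this
        · have := N.mul_mem (N.mul_mem (N.inv_mem hx) hy2) hx
          have e : x⁻¹ * (x * y * x⁻¹) * x = y := by group
          rwa [e] at this
    have h1' : (MulAut.conj x • R) ⊓ Q = ⊥ := by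
      have : (MulAut.conj x • R) ⊓ Q = MulAut.conj x • (R ⊓ Q) := by
        rw [Subgroup.smul_inf, hxQ]
      rw [this, hRQ, Subgroup.smul_bot]
    have h2' : (MulAut.conj x • R) ⊔ Q = M := by
      have : (MulAut.conj x • R) ⊔ Q = MulAut.conj x • (R ⊔ Q) := by
        rw [Subgroup.smul_sup, hxQ]
      rw [this, hRsup, hxM]
    have hcop : (Nat.card Q).Coprime (Nat.card R) := by
      rw [hRcard, ← hAcard]
      exact hAcop
    obtain ⟨a, ha, hconj⟩ := Cfsg.Agent.Lib.Solvable.Carter.conj_of_complements_in hQM hMN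
      ⟨⟨fun u v => Subtype.ext (hQcomm u u.2 v v.2)⟩⟩ hcop hRQ hRsup h1' h2'
    refine ⟨a, ha, a⁻¹ * x, ⟨N.mul_mem (N.inv_mem (hQN ha)) hx, ?_⟩, by group⟩
    apply Cfsg.Agent.Lib.Solvable.Carter.mem_normalizer_iff_conj_smul_eq.mpr
    rw [map_mul, mul_smul, ← hconj, map_inv, inv_smul_smul]
  -- every element of `P` normalizes `Q`
  have hPN : (P : Subgroup G) ≤ N := by
    intro x hx
    rw [Subgroup.mem_normalizer_iff]
    intro y
    constructor
    · rintro ⟨hy1, hy2⟩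
      exact ⟨(P : Subgroup G).mul_mem ((P : Subgroup G).mul_mem hx hy1) ((P : Subgroup G).inv_mem hx),
        hKn.conj_mem y hy2 x⟩
    · rintro ⟨hy1, hy2⟩
      refine ⟨?_, ?_⟩
      · have := (P : Subgroup G).mul_mem ((P : Subgroup G).mul_mem ((P : Subgroup G).inv_mem hx) hy1) hx
        have e : x⁻¹ * (x * y * x⁻¹) * x = y := by group
        rwa [e] at this
      · have := hKn.conj_mem _ hy2 x⁻¹
        have e : x⁻¹ * (x * y * x⁻¹) * x⁻¹⁻¹ = y := by group
        rwa [e] at this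
  let ψ : T →* G ⧸ K := (QuotientGroup.mk' K).comp T.subtype
  have hψ : Function.Surjective ψ := by
    intro y
    obtain ⟨g, rfl⟩ := QuotientGroup.mk_surjective y
    have hP := map_sylow_eq_top (QuotientGroup.mk' K) (QuotientGroup.mk'_surjective K) hpg P
    have : (g : G ⧸ K) ∈ (P : Subgroup G).map (QuotientGroup.mk' K) := hP ▸ mem_top _
    obtain ⟨x, hx, hxg⟩ := this
    obtain ⟨a, ha, t, ht, rfl⟩ := hNdecomp x (hPN hx)
    refine ⟨⟨t, ht⟩, ?_⟩
    rw [← hxg]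
    show ((t : G) : G ⧸ K) = ((a * t : G) : G ⧸ K)
    rw [QuotientGroup.eq]
    have : t⁻¹ * (a * t) = t⁻¹ * a * t⁻¹⁻¹ := by group
    rw [this]
    exact hKn.conj_mem a (hQK ha) t⁻¹
  obtain ⟨U₀⟩ : Nonempty (Sylow p T) := inferInstance
  have hU := map_sylow_eq_top ψ hψ hpg U₀
  refine ⟨(U₀ : Subgroup T).map T.subtype, Subgroup.isComplement'_of_disjoint_and_mul_eq_univ ?_ ?_⟩
  · rw [Subgroup.disjoint_def]
    rintro _ ⟨u, hu, rfl⟩ huK
    have hR' : (u : G) ∈ R := hTK u u.2 huK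
    obtain ⟨n, hn⟩ := IsPGroup.iff_orderOf.mp U₀.isPGroup' ⟨u, hu⟩
    have h1 : orderOf (⟨u, hR'⟩ : R) = p ^ n := by
      rw [Subgroup.orderOf_mk, ← hn, Subgroup.orderOf_mk, Subgroup.orderOf_coe]
    have h2 : p ^ n ∣ Nat.card R := h1 ▸ _root_.orderOf_dvd_natCard _
    have hn0 : n = 0 := by
      by_contra hne
      exact hRp ((dvd_pow_self p hne).trans h2)
    rw [hn0, pow_zero] at hn
    have h3 := orderOf_eq_one_iff.mp hn
    have h4 : (u : T) = 1 := congrArg Subtype.val h3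
    simp [h4]
  · ext g
    simp only [Set.mem_univ, iff_true]
    have : (g : G ⧸ K) ∈ (U₀ : Subgroup T).map ψ := hU ▸ mem_top _
    obtain ⟨u, hu, hug⟩ := this
    have hug' : ((u : G) : G ⧸ K) = (g : G ⧸ K) := hug
    rw [QuotientGroup.eq] at hug'
    refine Set.mem_mul.mpr ⟨u, ⟨u, hu, rfl⟩, _, hug', by group⟩

/-- If the Sylow p-subgroups of O^p(G) are abelian then G splits over O^p(G). -/
theorem result {G : Type*} [Group G] [Finite G] {p : ℕ} [Fact p.Prime] (h : ∀ Q : Sylow p (Cfsg.pResidual p G), IsMulCommutative Q) : ∃ K : Subgroup G, K.IsComplement' (Cfsg.pResidual p G) := by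
  classical
  let K := Cfsg.pResidual p G
  have hKn : K.Normal := pResidual_normal p G
  have hKK : Cfsg.pResidual p K = ⊤ := Cfsg.Agent.Lib.Basic.ElementFusion.pResidual_pResidual_eq_top p
  obtain ⟨P⟩ : Nonempty (Sylow p G) := inferInstance
  obtain ⟨Q₀, hQ₀⟩ := Cfsg.Agent.Lib.Basic.SylowUtil.exists_sylow_inf_normal P K
  have hQ₀c : IsMulCommutative (Q₀ : Subgroup K) := h Q₀
  have hab : IsMulCommutative ((P : Subgroup G) ⊓ K : Subgroup G) := by
    refine ⟨⟨?_⟩⟩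
    rintro ⟨a, ha⟩ ⟨b, hb⟩
    rw [← hQ₀] at ha hb
    obtain ⟨a', ha', rfl⟩ := ha
    obtain ⟨b', hb', rfl⟩ := hb
    apply Subtype.ext
    exact congrArg (fun x : (Q₀ : Subgroup K) => ((x : K) : G)) (hQ₀c.is_comm.comm ⟨a', ha'⟩ ⟨b', hb'⟩)
  refine split K isPGroup_quotient_pResidual P Q₀ hQ₀ hab ?_
  intro z hz hc
  have hzK : z ∈ K := hz.2
  have hz0 : (⟨z, hzK⟩ : K) ∈ (Q₀ : Subgroup K) := by
    rw [← hQ₀] at hz
    obtain ⟨z', hz', e⟩ := hz
    have : z' = ⟨z, hzK⟩ := Subtype.ext e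
    rwa [← this]
  have := core hKK Q₀ ⟨z, hzK⟩ hz0 (by
    rintro ⟨g, hgK⟩ hg
    apply Subtype.ext
    refine hc g hgK ?_
    rw [Subgroup.mem_normalizer_iff]
    intro y
    constructor
    · intro hy
      have hyK : y ∈ K := hy.2
      have hy0 : (⟨y, hyK⟩ : K) ∈ (Q₀ : Subgroup K) := by
        have hy' := hy
        rw [← hQ₀] at hy'
        obtain ⟨z', hz', e⟩ := hy'
        have : z' = ⟨y, hyK⟩ := Subtype.ext e
        rwa [← this]
      have h2 := (Subgroup.mem_normalizer_iff.mp hg _).mp hy0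
      rw [← hQ₀]
      exact ⟨_, h2, rfl⟩
    · intro hy
      have hgy : g * y * g⁻¹ ∈ K := hy.2
      have hyK : y ∈ K := by
        have := hKn.conj_mem _ hgy g⁻¹
        have e : g⁻¹ * (g * y * g⁻¹) * g⁻¹⁻¹ = y := by group
        rwa [e] at this
      have hy0 : (⟨g, hgK⟩ : K) * ⟨y, hyK⟩ * (⟨g, hgK⟩ : K)⁻¹ ∈ (Q₀ : Subgroup K) := by
        have hy' := hy
        rw [← hQ₀] at hy'
        obtain ⟨z', hz', e⟩ := hy'
        have : z' = (⟨g, hgK⟩ : K) * ⟨y, hyK⟩ * (⟨g, hgK⟩ : K)⁻¹ := Subtype.ext e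
        rwa [← this]
      have h2 := (Subgroup.mem_normalizer_iff.mp hg _).mpr hy0
      rw [← hQ₀]
      exact ⟨_, h2, rfl⟩)
  exact congrArg Subtype.val this

end Cfsg.Agent.S0092
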