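import Cfsg.Statements.S0096
import Mathlib
import Cfsg.Agent.Lib.PGroup.Extraspecial
-- import your own Cfsg.Agent.* helpers here

set_option autoImplicit false
open Cfsg

namespace Cfsg.Agent.S0096

section
open scoped commutatorElement

theorem aux {P : Type*} [Group P] (h2 : ⁅commutator P, (⊤ : Subgroup P)⁆ = ⊥) (x y : P) :
    ⁅x, y⁆ ∈ Subgroup.center P := by
  have h3 : commutator P ≤ Subgroup.center P :=
    (Subgroup.commutator_top_right_eq_bot_iff_le_center).mp h2
  exact h3 (Subgroup.commutator_mem_commutator (Subgroup.mem_top x) (Subgroup.mem_top y))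

end

/-- For odd p, in a p-group of class at most two the elements of order dividing p generate a subgroup of exponent dividing p. -/
theorem result {P : Type*} [Group P] [Finite P] {p : ℕ} [Fact p.Prime] (hp : p ≠ 2) (hP : IsPGroup p P) (h2 : ⁅commutator P, (⊤ : Subgroup P)⁆ = ⊥) (g : P) (hg : g ∈ Subgroup.closure {x : P | x ^ p = 1}) : g ^ p = 1 := by
  exact Cfsg.Agent.Lib.PGroup.Extraspecial.pow_eq_one_of_mem_closure hp (aux h2) hg

end Cfsg.Agent.S0096
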