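import Cfsg.Statements.S0098
import Mathlib
import Cfsg.Agent.Lib.PGroup.ExtraspecialPair
-- import your own Cfsg.Agent.* helpers here

set_option autoImplicit false
open Cfsg

namespace Cfsg.Agent.S0098

section
open scoped commutatorElement
open Subgroup Cfsg.Agent.Lib.PGroup.Extraspecial Cfsg.Agent.Lib.PGroup.ExtraspecialPair

universe u v

theorem aux (n : ℕ) : ∀ (G₁ : Type u) (G₂ : Type v) [Group G₁] [Group G₂] [Finite G₁] [Finite G₂]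
    {p : ℕ} [hp : Fact p.Prime] (_ : p ≠ 2) (_ : IsPGroup p G₁) (_ : IsPGroup p G₂)
    (_ : ∀ a b : G₁, ⁅a, b⁆ ∈ center G₁) (_ : ∀ a b : G₂, ⁅a, b⁆ ∈ center G₂)
    (_ : Nat.card (center G₁) = p) (_ : Nat.card (center G₂) = p)
    (_ : ∀ g : G₁, g ^ p = 1) (_ : ∀ g : G₂, g ^ p = 1)
    (_ : Nat.card G₁ = p ^ (2 * n + 1)) (_ : Nat.card G₂ = p ^ (2 * n + 1))
    {z₁ : G₁} {z₂ : G₂} (_ : z₁ ∈ center G₁) (_ : z₂ ∈ center G₂) (_ : z₁ ≠ 1) (_ : z₂ ≠ 1),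
    ∃ Φ : G₁ ≃* G₂, Φ z₁ = z₂ := by
  induction n with
  | zero =>
    intro G₁ G₂ _ _ _ _ p hp hodd hG₁ hG₂ hc₁ hc₂ hZ₁ hZ₂ he₁ he₂ hcard₁ hcard₂ z₁ z₂ hz₁ hz₂ hz₁' hz₂'
    have h1 : Nat.card G₁ = p := by simpa using hcard₁
    have h2 : Nat.card G₂ = p := by simpa using hcard₂
    refine ⟨mulEquivOfOrderOfEq (g := z₁) (g' := z₂) (fun x => mem_zpowers_of_prime_card h1 hz₁')
      (fun x => mem_zpowers_of_prime_card h2 hz₂') ?_, ?_⟩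
    · rw [orderOf_eq_prime (he₁ z₁) hz₁', orderOf_eq_prime (he₂ z₂) hz₂']
    · exact mulEquivOfOrderOfEq_apply_gen _ _ _
  | succ n ih =>
    intro G₁ G₂ _ _ _ _ p hp hodd hG₁ hG₂ hc₁ hc₂ hZ₁ hZ₂ he₁ he₂ hcard₁ hcard₂ z₁ z₂ hz₁ hz₂ hz₁' hz₂'
    have hpos : 0 < p := hp.out.pos
    have hlt : p < p ^ (2 * (n + 1) + 1) := by
      calc p = p ^ 1 := (pow_one p).symm
        _ < p ^ (2 * (n + 1) + 1) := Nat.pow_lt_pow_right hp.out.one_lt (by omega)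
    obtain ⟨y₁, x₁, hyx₁⟩ := exists_comm_eq hc₁ hZ₁ (by rw [hcard₁]; exact hlt) hz₁ hz₁'
    obtain ⟨y₂, x₂, hyx₂⟩ := exists_comm_eq hc₂ hZ₂ (by rw [hcard₂]; exact hlt) hz₂ hz₂'
    have hxy₁ : ⁅x₁, y₁⁆ ≠ 1 := ne_one_comm_swap (by rw [hyx₁]; exact hz₁')
    have hxy₂ : ⁅x₂, y₂⁆ ≠ 1 := ne_one_comm_swap (by rw [hyx₂]; exact hz₂')
    have hS : ∀ {c : ℕ}, c * (p * p) = p ^ (2 * (n + 1) + 1) → c = p ^ (2 * n + 1) := by
      intro c hc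
      have h2 : c * (p * p) = p ^ (2 * n + 1) * (p * p) := by rw [hc]; ring
      exact Nat.eq_of_mul_eq_mul_right (by positivity) h2
    have hcS₁ : Nat.card (pairC x₁ y₁) = p ^ (2 * n + 1) :=
      hS ((card_eq_card_pairC_mul hc₁ hZ₁ hxy₁).symm.trans hcard₁)
    have hcS₂ : Nat.card (pairC x₂ y₂) = p ^ (2 * n + 1) :=
      hS ((card_eq_card_pairC_mul hc₂ hZ₂ hxy₂).symm.trans hcard₂)
    have hT₁ : elemT hc₁ x₁ y₁ ≠ 1 := fun h => hz₁' (by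
      have := congrArg Subtype.val h
      rw [← hyx₁]; exact this)
    have hT₂ : elemT hc₂ x₂ y₂ ≠ 1 := fun h => hz₂' (by
      have := congrArg Subtype.val h
      rw [← hyx₂]; exact this)
    obtain ⟨φ, hφ⟩ := ih (pairC x₁ y₁) (pairC x₂ y₂) hodd (hG₁.to_subgroup _) (hG₂.to_subgroup _)
      (comm_mem_center_pairC hc₁) (comm_mem_center_pairC hc₂)
      (card_center_pairC hc₁ hZ₁ hxy₁) (card_center_pairC hc₂ hZ₂ hxy₂)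
      (fun g => Subtype.ext (he₁ g)) (fun g => Subtype.ext (he₂ g)) hcS₁ hcS₂
      (z₁ := elemT hc₁ x₁ y₁) (z₂ := elemT hc₂ x₂ y₂)
      (mk_mem_center_pairC (hc₁ y₁ x₁)) (mk_mem_center_pairC (hc₂ y₂ x₂)) hT₁ hT₂
    have hA₁ : elemA hc₁ hZ₁ x₁ y₁ = 1 := Subtype.ext (he₁ x₁)
    have hA₂ : elemA hc₂ hZ₂ x₂ y₂ = 1 := Subtype.ext (he₂ x₂)
    have hB₁ : elemB hc₁ hZ₁ x₁ y₁ = 1 := Subtype.ext (he₁ y₁)
    have hB₂ : elemB hc₂ hZ₂ x₂ y₂ = 1 := Subtype.ext (he₂ y₂)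
    obtain ⟨Φ, hΦ⟩ := exists_mulEquiv_of_pair hc₁ hc₂ hZ₁ hZ₂ hxy₁ hxy₂ φ hφ
      (by rw [hA₁, hA₂, map_one]) (by rw [hB₁, hB₂, map_one])
    refine ⟨Φ, ?_⟩
    have h1 := hΦ (elemT hc₁ x₁ y₁)
    rw [hφ] at h1
    have h2 : ((elemT hc₁ x₁ y₁ : pairC x₁ y₁) : G₁) = z₁ := hyx₁
    have h3 : ((elemT hc₂ x₂ y₂ : pairC x₂ y₂) : G₂) = z₂ := hyx₂
    rw [h2, h3] at h1
    exact h1

end

/-- For odd p, extraspecial p-groups of exponent p are determined up to isomorphism by their order. -/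
theorem result {E₁ : Type*} {E₂ : Type*} [Group E₁] [Group E₂] [Finite E₁] [Finite E₂] {p : ℕ} [Fact p.Prime] (hp : p ≠ 2) (h₁ : Cfsg.IsExtraspecial p E₁) (h₂ : Cfsg.IsExtraspecial p E₂) (he₁ : Monoid.exponent E₁ = p) (he₂ : Monoid.exponent E₂ = p) (hc : Nat.card E₁ = Nat.card E₂) : Nonempty (E₁ ≃* E₂) := by
  obtain ⟨n, -, hcard⟩ := Cfsg.Agent.Lib.PGroup.Extraspecial.IsExtraspecial.exists_card_eq h₁
  obtain ⟨z₁, hz₁, hz₁'⟩ := Cfsg.Agent.Lib.PGroup.ExtraspecialPair.exists_ne_one_of_card_center h₁.2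
  obtain ⟨z₂, hz₂, hz₂'⟩ := Cfsg.Agent.Lib.PGroup.ExtraspecialPair.exists_ne_one_of_card_center h₂.2
  obtain ⟨Φ, -⟩ := aux n E₁ E₂ hp h₁.1.1 h₂.1.1
    (Cfsg.Agent.Lib.PGroup.Extraspecial.IsExtraspecial.comm_mem_center h₁)
    (Cfsg.Agent.Lib.PGroup.Extraspecial.IsExtraspecial.comm_mem_center h₂) h₁.2 h₂.2
    (fun g => by rw [← he₁]; exact Monoid.pow_exponent_eq_one g)
    (fun g => by rw [← he₂]; exact Monoid.pow_exponent_eq_one g) hcard (hc ▸ hcard) hz₁ hz₂ hz₁' hz₂'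
  exact ⟨Φ⟩

end Cfsg.Agent.S0098
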