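import Cfsg.Statements.S0099
import Mathlib
import Cfsg.Agent.Lib.PGroup.ExtraspecialPair
-- import your own Cfsg.Agent.* helpers here

set_option autoImplicit false
open Cfsg

namespace Cfsg.Agent.S0099

section
open scoped commutatorElement
open Subgroup Cfsg.Agent.Lib.PGroup.Extraspecial Cfsg.Agent.Lib.PGroup.ExtraspecialPair

universe u v w

variable {G : Type*} [Group G]

/-- In a centre of order 2, two nontrivial elements are equal. -/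
theorem eq_of_ne_one (hZ : Nat.card (center G) = 2) {a b : G} (ha : a ∈ center G) (hb : b ∈ center G)
    (ha1 : a ≠ 1) (hb1 : b ≠ 1) : a = b := by
  have : Finite (center G) := Nat.finite_of_card_ne_zero (by omega)
  have h1 : (⟨a, ha⟩ : center G) ≠ 1 := fun h => ha1 (congrArg Subtype.val h)
  have h2 : (⟨b, hb⟩ : center G) ≠ 1 := fun h => hb1 (congrArg Subtype.val h)
  have h3 : Nat.card (center G) = 2 := hZ
  obtain ⟨x, y, hxy, huniv⟩ := Nat.card_eq_two_iff.mp h3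
  have hmem : ∀ c : center G, c = x ∨ c = y := fun c => by
    have : c ∈ ({x, y} : Set (center G)) := by rw [huniv]; trivial
    simpa using this
  have h4 : (⟨a, ha⟩ : center G) = ⟨b, hb⟩ := by
    rcases hmem (⟨a, ha⟩ : center G) with ha' | ha' <;> rcases hmem (⟨b, hb⟩ : center G) with hb' | hb'
    · rw [ha', hb']
    · exfalso
      rcases hmem 1 with h1' | h1'
      · exact h1 (by rw [ha', h1'])
      · exact h2 (by rw [hb', h1'])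
    · exfalso
      rcases hmem 1 with h1' | h1'
      · exact h2 (by rw [hb', h1'])
      · exact h1 (by rw [ha', h1'])
    · rw [ha', hb']
  exact congrArg Subtype.val h4

variable [Finite G]

/-- A noncentral involution is part of a hyperbolic pair of involutions. -/
theorem exists_pair_of_involution (hc : ∀ a b : G, ⁅a, b⁆ ∈ center G) (hZ : Nat.card (center G) = 2)
    {a : G} (ha : a ∉ center G) (ha2 : a ^ 2 = 1) : ∃ b : G, ⁅a, b⁆ ≠ 1 ∧ b ^ 2 = 1 := by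
  have hb : ∃ b : G, ⁅a, b⁆ ≠ 1 := by
    by_contra hcon
    push Not at hcon
    apply ha
    rw [mem_center_iff]
    intro g
    exact ((commutatorElement_eq_one_iff_mul_comm).mp (hcon g)).symm
  obtain ⟨b, hb⟩ := hb
  by_cases hb2 : b ^ 2 = 1
  · exact ⟨b, hb, hb2⟩
  have hb2c : b ^ 2 ∈ center G := pow_mem_center_of_card hc hZ b
  have hbz : b ^ 2 = ⁅a, b⁆ := eq_of_ne_one hZ hb2c (hc a b) hb2 hb
  refine ⟨a * b, ?_, ?_⟩
  · rw [comm_mul_right hc, commutatorElement_self, one_mul]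
    exact hb
  · rw [mul_pow_class_two hc, ha2, one_mul, hbz]
    have h1 : Nat.choose 2 2 = 1 := rfl
    rw [h1, pow_one, ← commutatorElement_inv a b]
    exact mul_inv_cancel _

/-- Large groups have a noncentral involution. -/
theorem exists_involution (hc : ∀ a b : G, ⁅a, b⁆ ∈ center G) (hZ : Nat.card (center G) = 2)
    (hcard : 32 ≤ Nat.card G) : ∃ a : G, a ∉ center G ∧ a ^ 2 = 1 := by
  obtain ⟨z, hz, hz1⟩ := exists_ne_one_of_card_center (p := 2) hZ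
  obtain ⟨x, y, hxy⟩ := exists_comm_eq hc hZ (by omega) hz hz1
  have hxy1 : ⁅x, y⁆ ≠ 1 := by rw [hxy]; exact hz1
  have hxc : x ∉ center G := by
    intro h
    apply hxy1
    rw [commutatorElement_eq_one_iff_mul_comm]
    exact (mem_center_iff.mp h y).symm
  by_cases hx2 : x ^ 2 = 1
  · exact ⟨x, hxc, hx2⟩
  -- a noncentral element of the joint centralizer
  have hcS := card_eq_card_pairC_mul (p := 2) hc hZ hxy1
  have hcZS := card_center_pairC (p := 2) hc hZ hxy1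
  have hne : center (pairC x y) ≠ ⊤ := by
    intro h
    rw [h, Subgroup.card_top] at hcZS
    omega
  obtain ⟨u, hu⟩ : ∃ u : pairC x y, u ∉ center (pairC x y) := by
    by_contra hcon
    push Not at hcon
    exact hne (eq_top_iff.mpr fun a _ => hcon a)
  have huc : (u : G) ∉ center G := by
    intro h
    exact hu (mk_mem_center_pairC (x := x) (y := y) h)
  by_cases hu2 : (u : G) ^ 2 = 1
  · exact ⟨u, huc, hu2⟩
  have hxu : x ^ 2 = (u : G) ^ 2 :=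
    eq_of_ne_one hZ (pow_mem_center_of_card hc hZ x) (pow_mem_center_of_card hc hZ _) hx2 hu2
  have hux : ⁅(u : G), x⁆ = 1 :=
    (commutatorElement_eq_one_iff_mul_comm).mpr (mem_pairC.mp u.2).1
  have huy : ⁅(u : G), y⁆ = 1 :=
    (commutatorElement_eq_one_iff_mul_comm).mpr (mem_pairC.mp u.2).2
  refine ⟨x * u, ?_, ?_⟩
  · intro h
    have h1 : ⁅x * u, y⁆ = 1 := by
      rw [commutatorElement_eq_one_iff_mul_comm]
      exact (mem_center_iff.mp h y).symm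
    rw [comm_mul_left hc, huy, mul_one] at h1
    exact hxy1 h1
  · rw [mul_pow_class_two hc, hux, one_pow, mul_one, ← hxu]
    have := pow_eq_one_of_mem_center hZ (pow_mem_center_of_card hc hZ x)
    rw [← this]
    group

omit [Finite G] in
theorem map_mem_center {H : Type*} [Group H] (φ : G ≃* H) {c : G} (hc : c ∈ center G) :
    φ c ∈ center H := by
  rw [mem_center_iff]
  intro g
  have h := mem_center_iff.mp hc (φ.symm g)
  have h2 := congrArg φ h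
  simpa using h2

/-- Extension of isomorphisms for `p = 2`. -/
theorem iso_of_pairs {G₁ : Type*} {G₂ : Type*} [Group G₁] [Group G₂] [Finite G₁] [Finite G₂]
    (hc₁ : ∀ a b : G₁, ⁅a, b⁆ ∈ center G₁) (hc₂ : ∀ a b : G₂, ⁅a, b⁆ ∈ center G₂)
    (hZ₁ : Nat.card (center G₁) = 2) (hZ₂ : Nat.card (center G₂) = 2)
    {x₁ y₁ : G₁} {x₂ y₂ : G₂} (h₁ : ⁅x₁, y₁⁆ ≠ 1) (h₂ : ⁅x₂, y₂⁆ ≠ 1)
    (φ : pairC x₁ y₁ ≃* pairC x₂ y₂)
    (hA : x₁ ^ 2 = 1 ↔ x₂ ^ 2 = 1) (hB : y₁ ^ 2 = 1 ↔ y₂ ^ 2 = 1) :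
    Nonempty (G₁ ≃* G₂) := by
  have hcZ₂ := card_center_pairC (p := 2) hc₂ hZ₂ h₂
  -- central nontrivial elements match
  have key : ∀ (a : G₁) (b : G₂), a ∈ center G₁ → b ∈ center G₂ → (a = 1 ↔ b = 1) →
      ∀ (ha : a ∈ pairC x₁ y₁) (hb : b ∈ pairC x₂ y₂),
      φ ⟨a, ha⟩ = ⟨b, hb⟩ := by
    intro a b ha hb hab ha' hb'
    by_cases ha1 : a = 1
    · subst ha1
      have hb1 : b = 1 := hab.mp rfl
      subst hb1
      exact map_one φ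
    · have hb1 : b ≠ 1 := fun h => ha1 (hab.mpr h)
      have h1 : (⟨a, ha'⟩ : pairC x₁ y₁) ∈ center (pairC x₁ y₁) := mk_mem_center_pairC ha
      have h2 : (⟨b, hb'⟩ : pairC x₂ y₂) ∈ center (pairC x₂ y₂) := mk_mem_center_pairC hb
      refine eq_of_ne_one hcZ₂ (map_mem_center φ h1) h2 ?_ ?_
      · intro h
        rw [map_eq_one_iff φ φ.injective] at h
        exact ha1 (congrArg Subtype.val h)
      · intro h
        exact hb1 (congrArg Subtype.val h)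
      
  obtain ⟨Φ, -⟩ := exists_mulEquiv_of_pair (p := 2) hc₁ hc₂ hZ₁ hZ₂ h₁ h₂ φ
    (key _ _ (hc₁ _ _) (hc₂ _ _) (by
      constructor
      · intro h
        exact absurd h (fun h' => h₁ (by rw [← commutatorElement_inv, h', inv_one]))
      · intro h
        exact absurd h (fun h' => h₂ (by rw [← commutatorElement_inv, h', inv_one]))) _ _)
    (key _ _ (pow_mem_center_of_card hc₁ hZ₁ x₁) (pow_mem_center_of_card hc₂ hZ₂ x₂) hA _ _)
    (key _ _ (pow_mem_center_of_card hc₁ hZ₁ y₁) (pow_mem_center_of_card hc₂ hZ₂ y₂) hB _ _)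
  exact ⟨Φ⟩

theorem exists_pair_card (hc : ∀ a b : G, ⁅a, b⁆ ∈ center G) (hZ : Nat.card (center G) = 2)
    (hcard : 2 < Nat.card G) : ∃ x y : G, ⁅x, y⁆ ≠ 1 := by
  obtain ⟨z, hz, hz1⟩ := exists_ne_one_of_card_center (p := 2) hZ
  obtain ⟨x, y, hxy⟩ := exists_comm_eq hc hZ hcard hz hz1
  exact ⟨x, y, by rw [hxy]; exact hz1⟩

omit [Finite G] in
theorem not_mem_center_left {x y : G} (h : ⁅x, y⁆ ≠ 1) : x ∉ center G := by
  intro hx
  apply h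
  rw [commutatorElement_eq_one_iff_mul_comm]
  exact (mem_center_iff.mp hx y).symm

omit [Finite G] in
theorem not_mem_center_right {x y : G} (h : ⁅x, y⁆ ≠ 1) : y ∉ center G := by
  intro hy
  apply h
  rw [commutatorElement_eq_one_iff_mul_comm]
  exact mem_center_iff.mp hy x

theorem card_pairC_of_eight (hc : ∀ a b : G, ⁅a, b⁆ ∈ center G) (hZ : Nat.card (center G) = 2)
    (hcard : Nat.card G = 8) {x y : G} (hxy : ⁅x, y⁆ ≠ 1) : Nat.card (pairC x y) = 2 := by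
  have := card_eq_card_pairC_mul (p := 2) hc hZ hxy
  omega

/-- Base case: two groups of order 8 of the same kind are isomorphic. -/
theorem base_iso {G₁ : Type*} {G₂ : Type*} [Group G₁] [Group G₂] [Finite G₁] [Finite G₂]
    (hc₁ : ∀ a b : G₁, ⁅a, b⁆ ∈ center G₁) (hc₂ : ∀ a b : G₂, ⁅a, b⁆ ∈ center G₂)
    (hZ₁ : Nat.card (center G₁) = 2) (hZ₂ : Nat.card (center G₂) = 2)
    (hcard₁ : Nat.card G₁ = 8) (hcard₂ : Nat.card G₂ = 8)
    (hD : (∃ a : G₁, a ∉ center G₁ ∧ a ^ 2 = 1) ↔ (∃ a : G₂, a ∉ center G₂ ∧ a ^ 2 = 1)) :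
    Nonempty (G₁ ≃* G₂) := by
  by_cases h : ∃ a : G₁, a ∉ center G₁ ∧ a ^ 2 = 1
  · obtain ⟨a₁, h1, h1'⟩ := h
    obtain ⟨a₂, h2, h2'⟩ := hD.mp ⟨a₁, h1, h1'⟩
    obtain ⟨b₁, hb₁, hb₁'⟩ := exists_pair_of_involution hc₁ hZ₁ h1 h1'
    obtain ⟨b₂, hb₂, hb₂'⟩ := exists_pair_of_involution hc₂ hZ₂ h2 h2'
    exact iso_of_pairs hc₁ hc₂ hZ₁ hZ₂ hb₁ hb₂
      (mulEquivOfPrimeCardEq (p := 2) (card_pairC_of_eight hc₁ hZ₁ hcard₁ hb₁)
        (card_pairC_of_eight hc₂ hZ₂ hcard₂ hb₂))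
      (iff_of_true h1' h2') (iff_of_true hb₁' hb₂')
  · have h' : ¬ ∃ a : G₂, a ∉ center G₂ ∧ a ^ 2 = 1 := fun hh => h (hD.mpr hh)
    obtain ⟨x₁, y₁, h₁⟩ := exists_pair_card hc₁ hZ₁ (by omega)
    obtain ⟨x₂, y₂, h₂⟩ := exists_pair_card hc₂ hZ₂ (by omega)
    exact iso_of_pairs hc₁ hc₂ hZ₁ hZ₂ h₁ h₂
      (mulEquivOfPrimeCardEq (p := 2) (card_pairC_of_eight hc₁ hZ₁ hcard₁ h₁)
        (card_pairC_of_eight hc₂ hZ₂ hcard₂ h₂))
      (iff_of_false (fun e => h ⟨x₁, not_mem_center_left h₁, e⟩)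
        (fun e => h' ⟨x₂, not_mem_center_left h₂, e⟩))
      (iff_of_false (fun e => h ⟨y₁, not_mem_center_right h₁, e⟩)
        (fun e => h' ⟨y₂, not_mem_center_right h₂, e⟩))

theorem aux (n : ℕ) (hn : 1 ≤ n) : ∀ (G₁ : Type u) (G₂ : Type v) (G₃ : Type w) [Group G₁] [Group G₂] [Group G₃]
    [Finite G₁] [Finite G₂] [Finite G₃]
    (_ : IsPGroup 2 G₁) (_ : IsPGroup 2 G₂) (_ : IsPGroup 2 G₃)
    (_ : ∀ a b : G₁, ⁅a, b⁆ ∈ center G₁) (_ : ∀ a b : G₂, ⁅a, b⁆ ∈ center G₂) (_ : ∀ a b : G₃, ⁅a, b⁆ ∈ center G₃)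
    (_ : Nat.card (center G₁) = 2) (_ : Nat.card (center G₂) = 2) (_ : Nat.card (center G₃) = 2)
    (_ : Nat.card G₁ = 2 ^ (2 * n + 1)) (_ : Nat.card G₂ = 2 ^ (2 * n + 1)) (_ : Nat.card G₃ = 2 ^ (2 * n + 1)),
    Nonempty (G₁ ≃* G₂) ∨ Nonempty (G₂ ≃* G₃) ∨ Nonempty (G₁ ≃* G₃) := by
  induction n, hn using Nat.le_induction with
  | base =>
    intro G₁ G₂ G₃ _ _ _ _ _ _ hG₁ hG₂ hG₃ hc₁ hc₂ hc₃ hZ₁ hZ₂ hZ₃ hcard₁ hcard₂ hcard₃
    have h8₁ : Nat.card G₁ = 8 := by rw [hcard₁]; norm_num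
    have h8₂ : Nat.card G₂ = 8 := by rw [hcard₂]; norm_num
    have h8₃ : Nat.card G₃ = 8 := by rw [hcard₃]; norm_num
    by_cases h12 : (∃ a : G₁, a ∉ center G₁ ∧ a ^ 2 = 1) ↔ (∃ a : G₂, a ∉ center G₂ ∧ a ^ 2 = 1)
    · exact Or.inl (base_iso hc₁ hc₂ hZ₁ hZ₂ h8₁ h8₂ h12)
    by_cases h23 : (∃ a : G₂, a ∉ center G₂ ∧ a ^ 2 = 1) ↔ (∃ a : G₃, a ∉ center G₃ ∧ a ^ 2 = 1)
    · exact Or.inr (Or.inl (base_iso hc₂ hc₃ hZ₂ hZ₃ h8₂ h8₃ h23))
    · refine Or.inr (Or.inr (base_iso hc₁ hc₃ hZ₁ hZ₃ h8₁ h8₃ ?_))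
      have key : ∀ P Q R : Prop, ¬(P ↔ Q) → ¬(Q ↔ R) → (P ↔ R) := by
        intro P Q R
        by_cases P <;> by_cases Q <;> by_cases R <;> simp [*]
      exact key _ _ _ h12 h23
  | succ n hn ih =>
    intro G₁ G₂ G₃ _ _ _ _ _ _ hG₁ hG₂ hG₃ hc₁ hc₂ hc₃ hZ₁ hZ₂ hZ₃ hcard₁ hcard₂ hcard₃
    have hbig : 32 ≤ 2 ^ (2 * (n + 1) + 1) := by
      calc 32 = 2 ^ 5 := by norm_num
        _ ≤ 2 ^ (2 * (n + 1) + 1) := Nat.pow_le_pow_right (by norm_num) (by omega)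
    obtain ⟨a₁, h1, h1'⟩ := exists_involution hc₁ hZ₁ (by rw [hcard₁]; exact hbig)
    obtain ⟨a₂, h2, h2'⟩ := exists_involution hc₂ hZ₂ (by rw [hcard₂]; exact hbig)
    obtain ⟨a₃, h3, h3'⟩ := exists_involution hc₃ hZ₃ (by rw [hcard₃]; exact hbig)
    obtain ⟨b₁, hb₁, hb₁'⟩ := exists_pair_of_involution hc₁ hZ₁ h1 h1'
    obtain ⟨b₂, hb₂, hb₂'⟩ := exists_pair_of_involution hc₂ hZ₂ h2 h2'
    obtain ⟨b₃, hb₃, hb₃'⟩ := exists_pair_of_involution hc₃ hZ₃ h3 h3'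
    have hS : ∀ {c : ℕ}, c * (2 * 2) = 2 ^ (2 * (n + 1) + 1) → c = 2 ^ (2 * n + 1) := by
      intro c hc
      have h4 : c * (2 * 2) = 2 ^ (2 * n + 1) * (2 * 2) := by rw [hc]; ring
      exact Nat.eq_of_mul_eq_mul_right (by norm_num) h4
    have hcS₁ : Nat.card (pairC a₁ b₁) = 2 ^ (2 * n + 1) :=
      hS ((card_eq_card_pairC_mul hc₁ hZ₁ hb₁).symm.trans hcard₁)
    have hcS₂ : Nat.card (pairC a₂ b₂) = 2 ^ (2 * n + 1) :=
      hS ((card_eq_card_pairC_mul hc₂ hZ₂ hb₂).symm.trans hcard₂)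
    have hcS₃ : Nat.card (pairC a₃ b₃) = 2 ^ (2 * n + 1) :=
      hS ((card_eq_card_pairC_mul hc₃ hZ₃ hb₃).symm.trans hcard₃)
    rcases ih (pairC a₁ b₁) (pairC a₂ b₂) (pairC a₃ b₃)
      (hG₁.to_subgroup _) (hG₂.to_subgroup _) (hG₃.to_subgroup _)
      (comm_mem_center_pairC hc₁) (comm_mem_center_pairC hc₂) (comm_mem_center_pairC hc₃)
      (card_center_pairC hc₁ hZ₁ hb₁) (card_center_pairC hc₂ hZ₂ hb₂) (card_center_pairC hc₃ hZ₃ hb₃)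
      hcS₁ hcS₂ hcS₃ with ⟨⟨φ⟩⟩ | ⟨⟨φ⟩⟩ | ⟨⟨φ⟩⟩
    · exact Or.inl (iso_of_pairs hc₁ hc₂ hZ₁ hZ₂ hb₁ hb₂ φ (iff_of_true h1' h2') (iff_of_true hb₁' hb₂'))
    · exact Or.inr (Or.inl (iso_of_pairs hc₂ hc₃ hZ₂ hZ₃ hb₂ hb₃ φ (iff_of_true h2' h3') (iff_of_true hb₂' hb₃')))
    · exact Or.inr (Or.inr (iso_of_pairs hc₁ hc₃ hZ₁ hZ₃ hb₁ hb₃ φ (iff_of_true h1' h3') (iff_of_true hb₁' hb₃')))

end

/-- Among three extraspecial 2-groups of equal order, some two are isomorphic. -/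
theorem result {E₁ : Type*} {E₂ : Type*} {E₃ : Type*} [Group E₁] [Group E₂] [Group E₃] [Finite E₁] [Finite E₂] [Finite E₃] (h₁ : Cfsg.IsExtraspecial 2 E₁) (h₂ : Cfsg.IsExtraspecial 2 E₂) (h₃ : Cfsg.IsExtraspecial 2 E₃) (h12 : Nat.card E₁ = Nat.card E₂) (h23 : Nat.card E₂ = Nat.card E₃) : Nonempty (E₁ ≃* E₂) ∨ Nonempty (E₂ ≃* E₃) ∨ Nonempty (E₁ ≃* E₃) := by
  obtain ⟨n, hn, hcard⟩ := Cfsg.Agent.Lib.PGroup.Extraspecial.IsExtraspecial.exists_card_eq h₁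
  exact aux n hn E₁ E₂ E₃ h₁.1.1 h₂.1.1 h₃.1.1
    (Cfsg.Agent.Lib.PGroup.Extraspecial.IsExtraspecial.comm_mem_center h₁)
    (Cfsg.Agent.Lib.PGroup.Extraspecial.IsExtraspecial.comm_mem_center h₂)
    (Cfsg.Agent.Lib.PGroup.Extraspecial.IsExtraspecial.comm_mem_center h₃)
    h₁.2 h₂.2 h₃.2 hcard (h12 ▸ hcard) (h23 ▸ h12 ▸ hcard)

end Cfsg.Agent.S0099
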