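import Cfsg.Statements.S0101
import Mathlib
import Cfsg.Agent.Lib.Transfer.Basic
import Cfsg.Agent.Lib.PGroup.Basic

set_option autoImplicit false
open Cfsg

namespace Cfsg.Agent.S0101

open Cfsg.Agent.Lib.Transfer.Basic Cfsg.Agent.Lib.PGroup.Basic

private theorem transfer_central {H : Type*} [Group H] [Finite H] (P : Subgroup H) {A : Type*}
    [CommGroup A] (ϕ : P →* A) (z : P) (hz : (z : H) ∈ Subgroup.center H) :
    MonoidHom.transfer ϕ (z : H) = ϕ z ^ P.index := by
  apply transfer_eq_pow_of_fusion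
  intro k g₀ h
  have h1 : g₀⁻¹ * (z : H) ^ k * g₀ = (z : H) ^ k := by
    have hzk : (z : H) ^ k ∈ Subgroup.center H := Subgroup.pow_mem _ hz k
    have := Subgroup.mem_center_iff.1 hzk g₀⁻¹
    rw [this]; simp
  have h2 : (⟨g₀⁻¹ * (z : H) ^ k * g₀, h⟩ : P) = z ^ k := Subtype.ext h1
  rw [h2, map_pow]

/-- In a perfect central extension, the kernel meets each Sylow p-subgroup P inside the Frattini subgroup of P. -/
theorem result {H : Type*} {G : Type*} [Group H] [Group G] [Finite H] (σ : H →* G) (hσ : Function.Surjective σ) (hc : σ.ker ≤ Subgroup.center H) (hH : commutator H = ⊤) {p : ℕ} [Fact p.Prime] (P : Sylow p H) : σ.ker ⊓ (P : Subgroup H) ≤ (frattini P).map (P : Subgroup H).subtype := by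
  rintro z ⟨hzk, hzP⟩
  refine ⟨⟨z, hzP⟩, ?_, rfl⟩
  have hpP : IsPGroup p (P : Subgroup H) := P.isPGroup'
  rw [SetLike.mem_coe]
  simp_rw [frattini, Order.radical, Subgroup.mem_iInf]
  intro M hM
  haveI hMn : M.Normal := normal_of_isCoatom hpP hM
  have hMi : M.index = p := index_eq_of_isCoatom hpP hM
  haveI : Fact (Nat.card ((P : Subgroup H) ⧸ M)).Prime := by
    rw [← Subgroup.index_eq_card, hMi]
    infer_instance
  haveI : IsCyclic ((P : Subgroup H) ⧸ M) := isCyclic_of_prime_card rfl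
  letI : CommGroup ((P : Subgroup H) ⧸ M) := IsCyclic.commGroup
  let ϕ : (P : Subgroup H) →* (P : Subgroup H) ⧸ M := QuotientGroup.mk' M
  have hϕ : ∀ x, ϕ x = 1 ↔ x ∈ M := fun x => QuotientGroup.eq_one_iff x
  set z' : (P : Subgroup H) := ⟨z, hzP⟩ with hz'
  have h1 := transfer_central (P : Subgroup H) ϕ z' (hc hzk)
  have h2 : MonoidHom.transfer ϕ z = 1 := by
    have h3 := commutator_le_ker_transfer (P : Subgroup H) ϕ
    rw [hH] at h3
    exact h3 (Subgroup.mem_top z)
  have h4 : ϕ z' ^ (P : Subgroup H).index = 1 := h1 ▸ h2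
  have h5 : ϕ z' ^ p = 1 := by
    have h6 := pow_card_eq_one' (G := (P : Subgroup H) ⧸ M) (x := ϕ z')
    rwa [← Subgroup.index_eq_card, hMi] at h6
  have hcop : Nat.Coprime p (P : Subgroup H).index :=
    (Nat.Prime.coprime_iff_not_dvd Fact.out).2 P.not_dvd_index
  have h7 := (pow_gcd_eq_one (a := ϕ z')).2 ⟨h5, h4⟩
  rw [hcop, pow_one] at h7
  exact (hϕ z').1 h7

end Cfsg.Agent.S0101
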