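import Cfsg.Statements.S0103
import Mathlib
-- import your own Cfsg.Agent.* helpers here

set_option autoImplicit false
open Cfsg

namespace Cfsg.Agent.S0103

/-- If a Sylow p-subgroup P intersects every distinct conjugate trivially, then its normalizer controls fusion in P. -/
theorem result {G : Type*} [Group G] [Finite G] {p : ℕ} [Fact p.Prime] (P : Sylow p G) (hTI : ∀ g : G, (P : Subgroup G).map (MulAut.conj g).toMonoidHom ≠ (P : Subgroup G) → (P : Subgroup G) ⊓ (P : Subgroup G).map (MulAut.conj g).toMonoidHom = ⊥) (x y : G) (hx : x ∈ P) (hy : y ∈ P) (hc : ∃ g : G, g * x * g⁻¹ = y) : ∃ n ∈ Subgroup.normalizer (P : Set G), n * x * n⁻¹ = y := by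
  classical
  obtain ⟨g, hg⟩ := hc
  by_cases hy1 : y = 1
  · subst hy1
    have hx1 : x = 1 := by
      have h2 : g * x = g := by
        have := congrArg (· * g) hg
        simpa using this
      simpa using h2
    exact ⟨1, one_mem _, by simp [hx1]⟩
  · have hm : (P : Subgroup G).map (MulAut.conj g).toMonoidHom = P := by
      by_contra hne
      have hbot := hTI g hne
      have hmem : y ∈ (P : Subgroup G) ⊓ (P : Subgroup G).map (MulAut.conj g).toMonoidHom :=
        ⟨hy, ⟨x, hx, by simpa [MulAut.conj_apply] using hg⟩⟩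
      rw [hbot] at hmem
      exact hy1 (Subgroup.mem_bot.mp hmem)
    refine ⟨g, ?_, hg⟩
    show g ∈ Subgroup.normalizer ((P : Subgroup G) : Set G)
    rw [Subgroup.mem_normalizer_iff]
    intro h
    constructor
    · intro hh
      have : g * h * g⁻¹ ∈ (P : Subgroup G).map (MulAut.conj g).toMonoidHom :=
        ⟨h, hh, by simp [MulAut.conj_apply]⟩
      rwa [hm] at this
    · intro hh
      have : g * h * g⁻¹ ∈ (P : Subgroup G).map (MulAut.conj g).toMonoidHom := by rwa [hm]
      obtain ⟨k, hk, hke⟩ := this
      have : k = h := by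
        have h3 : g * k * g⁻¹ = g * h * g⁻¹ := by simpa [MulAut.conj_apply] using hke
        simpa using h3
      rwa [← this]

end Cfsg.Agent.S0103
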