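import Cfsg.Statements.S0104
import Mathlib
-- import your own Cfsg.Agent.* helpers here

set_option autoImplicit false
open Cfsg

namespace Cfsg.Agent.S0104

/-- A subgroup Z of a Sylow p-subgroup P that is normalized by N_G(P) is weakly closed in P exactly when it is normal in every Sylow p-subgroup containing it. -/
theorem result {G : Type*} [Group G] [Finite G] {p : ℕ} [Fact p.Prime] (P : Sylow p G) (Z : Subgroup G) (hZP : Z ≤ (P : Subgroup G)) (hZN : Subgroup.normalizer (P : Set G) ≤ Subgroup.normalizer (Z : Set G)) : Cfsg.IsWeaklyClosed Z P ↔ ∀ R : Sylow p G, Z ≤ (R : Subgroup G) → (R : Subgroup G) ≤ Subgroup.normalizer (Z : Set G) := by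
  classical
  constructor
  · rintro ⟨-, hw⟩ R hZR
    obtain ⟨g, hg⟩ := MulAction.exists_smul_eq G R P
    have hgP : ∀ r ∈ (R : Subgroup G), g * r * g⁻¹ ∈ (P : Subgroup G) := by
      intro r hr
      rw [← hg, Sylow.coe_subgroup_smul]
      exact Subgroup.smul_mem_pointwise_smul _ (MulAut.conj g) _ hr
    have hZg : Z.map (MulAut.conj g).toMonoidHom ≤ (P : Subgroup G) := by
      rintro _ ⟨z, hz, rfl⟩
      exact hgP z (hZR hz)
    have hgN : g ∈ Subgroup.normalizer (Z : Set G) :=
      Subgroup.mem_normalizer_iff_map_conj_eq.2 (hw g hZg)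
    intro r hr
    have h1 : g * r * g⁻¹ ∈ Subgroup.normalizer (Z : Set G) :=
      hZN (Subgroup.le_normalizer (hgP r hr))
    have h2 : r = g⁻¹ * (g * r * g⁻¹) * g := by group
    rw [h2]
    exact mul_mem (mul_mem (inv_mem hgN) h1) hgN
  · intro h
    refine ⟨hZP, ?_⟩
    intro g hg
    set R : Sylow p G := g⁻¹ • P with hR
    have hZR : Z ≤ (R : Subgroup G) := by
      intro z hz
      rw [hR, Sylow.coe_subgroup_smul]
      have h1 : g * z * g⁻¹ ∈ (P : Subgroup G) := hg ⟨z, hz, rfl⟩
      have := Subgroup.smul_mem_pointwise_smul _ (MulAut.conj g⁻¹) (P : Subgroup G) h1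
      convert this using 1
      simp [MulAut.smul_def, MulAut.conj_apply]
      group
    have hRN := h R hZR
    have hPN : (P : Subgroup G) ≤ Subgroup.normalizer (Z : Set G) :=
      Subgroup.le_normalizer.trans hZN
    obtain ⟨c, hc⟩ := MulAction.exists_smul_eq (↥(Subgroup.normalizer (Z : Set G)))
      (R.subtype hRN) (P.subtype hPN)
    rw [Sylow.smul_subtype hRN c] at hc
    have hc' : c • R = P := Sylow.subtype_injective hc
    have hc'' : ((c : G) * g⁻¹) • P = P := by
      rw [mul_smul]
      exact hc'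
    have h3 : (c : G) * g⁻¹ ∈ Subgroup.normalizer (P : Set G) :=
      Sylow.smul_eq_iff_mem_normalizer.1 hc''
    have h4 := hZN h3
    have h5 : g ∈ Subgroup.normalizer (Z : Set G) := by
      have : g = ((c : G) * g⁻¹)⁻¹ * (c : G) := by group
      rw [this]
      exact mul_mem (inv_mem h4) c.2
    exact Subgroup.mem_normalizer_iff_map_conj_eq.1 h5

end Cfsg.Agent.S0104
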