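import Cfsg.Statements.S0105
import Cfsg.Agent.Lib.Transfer.AbelianSylow
import Cfsg.Agent.S0090
import Mathlib
-- import your own Cfsg.Agent.* helpers here

set_option autoImplicit false
open Cfsg

namespace Cfsg.Agent.S0105

/-- With an abelian Sylow p-subgroup P, some quotient of G is isomorphic to the part of P central in N_G(P). -/
theorem result {G : Type*} [Group G] [Finite G] {p : ℕ} [Fact p.Prime] (P : Sylow p G) (hP : IsMulCommutative P) : ∃ (N : Subgroup G) (hN : N.Normal), Nonempty (G ⧸ N ≃* ((P : Subgroup G) ⊓ Subgroup.centralizer (Subgroup.normalizer (P : Set G) : Set G) : Subgroup G)) := by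
  have := hP
  classical
  let C₀ : Subgroup G := (P : Subgroup G) ⊓ Subgroup.centralizer (Subgroup.normalizer (P : Set G) : Set G)
  let Nn : Subgroup G := Subgroup.normalizer (P : Set G)
  have hPN : (P : Subgroup G) ≤ Nn := Subgroup.le_normalizer
  let A : Subgroup Nn := (P : Subgroup G).subgroupOf Nn
  have hAn : A.Normal := Subgroup.normal_in_normalizer
  have hAc : IsMulCommutative A := by
    rw [isMulCommutative_iff]
    intro a b
    apply Subtype.ext
    apply Subtype.ext
    have h1 : ((a : Nn) : G) ∈ (P : Subgroup G) := a.2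
    have h2 : ((b : Nn) : G) ∈ (P : Subgroup G) := b.2
    have := mul_comm' (⟨_, h1⟩ : (P : Subgroup G)) ⟨_, h2⟩
    have h3 : ((a : Nn) : G) * (b : Nn) = (b : Nn) * (a : Nn) := congrArg Subtype.val this
    exact h3
  have hAHall : Nat.Coprime (Nat.card A) A.index := by
    have h1 : Nat.card A = Nat.card (P : Subgroup G) :=
      Nat.card_congr (Subgroup.subgroupOfEquivOfLe hPN).toEquiv
    have h2 : A.index ∣ (P : Subgroup G).index :=
      ⟨Nn.index, (Subgroup.relIndex_mul_index hPN).symm⟩
    rw [h1]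
    exact Nat.Coprime.coprime_dvd_right h2 P.card_coprime_index
  have hres := Cfsg.Agent.S0090.result A hAc hAHall
  have hmapc : (⁅A, (⊤ : Subgroup Nn)⁆).map Nn.subtype = ⁅(P : Subgroup G), Nn⁆ := by
    rw [Subgroup.map_commutator]
    congr 1
    · rw [Subgroup.map_subgroupOf_eq_of_le hPN]
    · rw [← MonoidHom.range_eq_map, Subgroup.range_subtype]
  have hdisj : ∀ x : G, x ∈ C₀ → x ∈ ⁅(P : Subgroup G), Nn⁆ → x = 1 := by
    intro x hx hxc
    rw [← hmapc] at hxc
    obtain ⟨w, hw, rfl⟩ := hxc
    have h1 : w ∈ (commutator Nn ⊓ A) ⊓ (Subgroup.center Nn ⊓ A) := by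
      have hA : w ∈ A := by
        rw [hres.1] at hw
        exact hw.2
      refine ⟨by rwa [← hres.1], Subgroup.mem_center_iff.2 ?_, hA⟩
      intro g
      apply Subtype.ext
      have := Subgroup.mem_centralizer_iff.1 hx.2 g g.2
      exact this
    rw [hres.2.1, Subgroup.mem_bot] at h1
    rw [h1]; rfl
  have hsplit : ∀ y : (P : Subgroup G), ∃ z : C₀, ∃ c ∈ ⁅(P : Subgroup G), Nn⁆, (y : G) = z * c := by
    intro y
    have hy : (⟨y, hPN y.2⟩ : Nn) ∈ A := y.2
    obtain ⟨z, hz, hzA, c, hc, hyz⟩ := Cfsg.Agent.S0090.key A hAHall _ hy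
    refine ⟨⟨z, hzA, Subgroup.mem_centralizer_iff.2 ?_⟩, (c : G), ?_, ?_⟩
    · intro g hg
      have := Subgroup.mem_center_iff.1 hz ⟨g, hg⟩
      exact congrArg Subtype.val this
    · rw [← hmapc]
      exact ⟨c, hc, rfl⟩
    · exact congrArg Subtype.val hyz
  let f : C₀ →* (P : Subgroup G) ⧸ (Cfsg.Agent.Lib.Transfer.AbelianSylow.commN P).subgroupOf (P : Subgroup G) :=
    (Cfsg.Agent.Lib.Transfer.AbelianSylow.mkN P).comp (Subgroup.inclusion inf_le_left)
  have hf : Function.Bijective f := by
    constructor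
    · rw [injective_iff_map_eq_one]
      intro x hx
      have h1 : (Subgroup.inclusion inf_le_left x : (P : Subgroup G)) ∈ (Cfsg.Agent.Lib.Transfer.AbelianSylow.commN P).subgroupOf (P : Subgroup G) :=
        (QuotientGroup.eq_one_iff _).1 hx
      have h2 := hdisj x x.2 h1
      exact Subtype.ext h2
    · intro y
      obtain ⟨y', rfl⟩ := QuotientGroup.mk'_surjective _ y
      obtain ⟨z, c, hc, hyz⟩ := hsplit y'
      refine ⟨z, ?_⟩
      simp only [f, MonoidHom.comp_apply]
      change (QuotientGroup.mk' _) _ = (QuotientGroup.mk' _) _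
      rw [QuotientGroup.mk'_apply, QuotientGroup.mk'_apply, QuotientGroup.eq, Subgroup.mem_subgroupOf]
      have : ((Subgroup.inclusion inf_le_left z)⁻¹ * y' : (P : Subgroup G)).1 = c := by
        simp only [Subgroup.coe_mul, Subgroup.coe_inv, hyz, Subgroup.coe_inclusion]
        group
      rw [this]
      exact hc
  refine ⟨(Cfsg.Agent.Lib.Transfer.AbelianSylow.transferN P).ker, inferInstance, ⟨?_⟩⟩
  exact (QuotientGroup.quotientKerEquivOfSurjective _
    (Cfsg.Agent.Lib.Transfer.AbelianSylow.transferN_surjective P)).trans (MulEquiv.ofBijective f hf).symm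

end Cfsg.Agent.S0105
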