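import Cfsg.Statements.S0109
import Cfsg.Agent.S0618
import Cfsg.Agent.Lib.PSL2.Quat
import Mathlib
-- import your own Cfsg.Agent.* helpers here

set_option autoImplicit false
open Cfsg

namespace Cfsg.Agent.S0109

open Cfsg.Agent.Lib.Solvable.PSeries (isPSolvable_of_solvable)

/-- `SL₂(3)` is not a quotient of a group with abelian Sylow `2`-subgroups. -/
theorem no_sl23_quotient {Γ : Type*} [Group Γ] [Finite Γ] {Δ : Subgroup Γ}
    (h : ∀ T : Sylow 2 Γ, IsMulCommutative T) (C : Subgroup Γ) [hC : (C.subgroupOf Δ).Normal]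
    (e : ↥Δ ⧸ C.subgroupOf Δ ≃* Matrix.SpecialLinearGroup (Fin 2) (ZMod 3)) : False := by
  classical
  let f : ↥Δ →* Matrix.SpecialLinearGroup (Fin 2) (ZMod 3) := e.toMonoidHom.comp (QuotientGroup.mk' _)
  have hf : Function.Surjective f := e.surjective.comp (QuotientGroup.mk'_surjective _)
  have hodd : Odd (Fintype.card (ZMod 3)) := by
    rw [ZMod.card]
    decide
  let R : Sylow 2 ↥Δ := default
  let T' : Sylow 2 (Matrix.SpecialLinearGroup (Fin 2) (ZMod 3)) := R.mapSurjective hf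
  obtain ⟨k, hk, ⟨i⟩⟩ := Cfsg.Agent.Lib.PSL2.Quat.sylow_two_equiv_quaternion hodd T'
  have hcomm : ∀ x y : ↥(T' : Subgroup (Matrix.SpecialLinearGroup (Fin 2) (ZMod 3))), x * y = y * x := by
    have hRp : IsPGroup 2 ↥((R : Subgroup ↥Δ).map Δ.subtype) :=
      R.isPGroup'.map Δ.subtype
    obtain ⟨T, hT⟩ := hRp.exists_le_sylow
    have hTc := h T
    rintro ⟨_, r, hr, rfl⟩ ⟨_, r', hr', rfl⟩
    apply Subtype.ext
    show f r * f r' = f r' * f r
    rw [← map_mul, ← map_mul]
    congr 1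
    apply Subtype.ext
    have h1 := hTc.is_comm.comm ⟨r, hT ⟨r, hr, rfl⟩⟩ ⟨r', hT ⟨r', hr', rfl⟩⟩
    have h2 : ((r : ↥Δ) : Γ) * r' = r' * r := congrArg Subtype.val h1
    exact h2
  have hq : ∀ x y : QuaternionGroup (2 ^ k), x * y = y * x := by
    intro x y
    have h1 := hcomm (i.symm x) (i.symm y)
    have h2 := congrArg i h1
    simpa using h2
  have h3 := hq (QuaternionGroup.a 1) (QuaternionGroup.xa 0)
  rw [QuaternionGroup.a_mul_xa, QuaternionGroup.xa_mul_a] at h3
  have h4 : (0 - 1 : ZMod (2 * 2 ^ k)) = 0 + 1 := QuaternionGroup.xa.inj h3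
  have h5 : ((2 : ℕ) : ZMod (2 * 2 ^ k)) = 0 := by
    push_cast
    have : (2 : ZMod (2 * 2 ^ k)) = (0 + 1) - (0 - 1) := by ring
    rw [this, ← h4, sub_self]
  rw [ZMod.natCast_eq_zero_iff] at h5
  have h6 : 2 * 2 ^ k ≤ 2 := Nat.le_of_dvd (by norm_num) h5
  have h7 : 2 ≤ 2 ^ k := by
    calc 2 = 2 ^ 1 := rfl
      _ ≤ 2 ^ k := Nat.pow_le_pow_right (by norm_num) hk
  omega

/-- The Thompson factorization Theorem for solvable groups states that, with p odd (and abelian Sylow 2-subgroups when p = 3) and no nontrivial normal subgroup of order prime to p, every element of G is a product of an element normalizing J(P) and an element centralizing the elements of order dividing p in the centre of P. -/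
theorem result {G : Type*} [Group G] [Finite G] {p : ℕ} [Fact p.Prime] (hp : p ≠ 2) (hs : Group.IsSolvable G) (h3 : p = 3 → ∀ T : Sylow 2 G, IsMulCommutative T) (hF : ∀ N : Subgroup G, N.Normal → Nat.Coprime (Nat.card N) p → N = ⊥) (P : Sylow p G) (g : G) : ∃ a ∈ Subgroup.normalizer (Cfsg.thompsonSubgroupOf p (P : Subgroup G) : Set G), ∃ c ∈ Subgroup.centralizer {x : G | x ∈ (P : Subgroup G) ∧ (∀ y ∈ (P : Subgroup G), x * y = y * x) ∧ x ^ p = 1}, g = a * c := by
  classical
  haveI : Group.IsSolvable G := hs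
  have hsep : Cfsg.IsPSolvable p G := isPSolvable_of_solvable
  have hO : Cfsg.pPrimeCore p G = ⊥ := by
    apply hF
    · infer_instance
    · exact Cfsg.Agent.Lib.Solvable.PSeries.pPrimeCore_coprime p
  have hTF : Cfsg.IsThompsonFactorizable p G := by
    by_contra hnf
    obtain ⟨hp23, E, -, -, -, hn, ⟨e⟩⟩ := Cfsg.Agent.S0618.result hsep hO hnf
    have hp3 : p = 3 := by
      rcases hp23 with h | h
      · exact absurd h hp
      · exact h
    subst hp3
    exact no_sl23_quotient (h3 rfl) _ e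
  obtain ⟨x, hx, c, hc, n, hn, hgi⟩ := hTF P g⁻¹
  rw [hO, Subgroup.mem_bot] at hx
  subst hx
  refine ⟨n⁻¹, Subgroup.inv_mem _ hn, c⁻¹, Subgroup.inv_mem _ ?_, ?_⟩
  · rw [Subgroup.mem_centralizer_iff] at hc ⊢
    rintro y ⟨hy1, hy2, hy3⟩
    refine hc y ?_
    apply Subgroup.subset_closure
    refine ⟨Subgroup.mem_inf.mpr ⟨hy1, ?_⟩, hy3⟩
    rw [Subgroup.mem_centralizer_iff]
    intro z hz
    exact (hy2 z hz).symm
  · have h1 : g = (1 * c * n)⁻¹ := by
      rw [← hgi, inv_inv]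
    rw [h1]
    group

end Cfsg.Agent.S0109
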