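import Cfsg.Statements.S0110
import Mathlib
import Cfsg.Agent.Lib.PGroup.Extraspecial
-- import your own Cfsg.Agent.* helpers here

set_option autoImplicit false
open Cfsg

namespace Cfsg.Agent.S0110

section
open scoped commutatorElement
open Subgroup Cfsg.Agent.Lib.PGroup.Extraspecial

theorem aux {G : Type*} [Group G] [Finite G] {p : ℕ} [hp : Fact p.Prime] (hG : IsPGroup p G)
    (E : Subgroup G) (hE : Cfsg.IsExtraspecial p E)
    (h : ⁅(⊤ : Subgroup G), E⁆ ≤ E ⊓ Subgroup.centralizer (E : Set G)) :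
    E ⊔ Subgroup.centralizer (E : Set G) = ⊤ := by
  classical
  have hcomm : ∀ (g : G) (x : E), ⁅g, (x : G)⁆ ∈ E ⊓ centralizer (E : Set G) := fun g x =>
    h (commutator_mem_commutator (mem_top g) x.2)
  -- the centre of `E` viewed in `G`
  let N : Subgroup G := (center E).map E.subtype
  have hNcard : Nat.card N = p := by
    rw [← hE.2]
    exact Nat.card_congr (Subgroup.equivMapOfInjective _ _ E.subtype_injective).toEquiv.symm
  have hNmem : ∀ x : G, x ∈ N ↔ x ∈ E ⊓ centralizer (E : Set G) := by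
    intro x
    constructor
    · rintro ⟨z, hz, rfl⟩
      refine ⟨z.2, mem_centralizer_iff.mpr fun y hy => ?_⟩
      have := mem_center_iff.mp hz ⟨y, hy⟩
      exact congrArg Subtype.val this
    · rintro ⟨hx1, hx2⟩
      refine ⟨⟨x, hx1⟩, ?_, rfl⟩
      rw [SetLike.mem_coe, mem_center_iff]
      rintro ⟨y, hy⟩
      exact Subtype.ext (mem_centralizer_iff.mp hx2 y hy)
  have hNnormal : N.Normal := by
    constructor
    intro z hz g
    have hz' := (hNmem z).mp hz
    have h1 := hcomm g ⟨z, hz'.1⟩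
    have h2 : g * z * g⁻¹ = ⁅g, z⁆ * z := by
      rw [commutatorElement_def]; group
    rw [h2]
    apply (hNmem _).mpr
    exact (E ⊓ centralizer (E : Set G)).mul_mem h1 hz'
  have hNcentral : N ≤ center G := by
    have hne : N ≠ ⊥ := by
      intro hb
      rw [hb, Subgroup.card_bot] at hNcard
      exact hp.out.one_lt.ne hNcard
    have h1 := Cfsg.Agent.Lib.PGroup.Basic.inf_center_ne_bot hG (N := N) hne
    have h2 : (N ⊓ center G).subgroupOf N = ⊤ := by
      have h3 : Nat.card N = p := hNcard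
      obtain h4 | h4 := ((N ⊓ center G).subgroupOf N).eq_bot_or_eq_top_of_prime_card
        (hp := by rw [h3]; exact hp)
      · exfalso
        apply h1
        rw [Subgroup.subgroupOf_eq_bot] at h4
        exact (h4.eq_bot_of_le inf_le_left)
      · exact h4
    rw [Subgroup.subgroupOf_eq_top] at h2
    exact le_inf_iff.mp h2 |>.2
  -- every `g` differs from an element of `E` by an element centralizing `E`
  rw [eq_top_iff]
  rintro g -
  have hcE : ∀ x y : E, ⁅x, y⁆ ∈ center E := IsExtraspecial.comm_mem_center hE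
  -- the hom `E → Z(E)`, `x ↦ ⁅g, x⁆`
  have hcmem : ∀ x : E, (⟨⁅g, (x : G)⁆, (hcomm g x).1⟩ : E) ∈ center E := by
    intro x
    rw [mem_center_iff]
    rintro ⟨y, hy⟩
    exact Subtype.ext (mem_centralizer_iff.mp (hcomm g x).2 y hy)
  let c : E →* center E :=
    { toFun := fun x => ⟨⟨⁅g, (x : G)⁆, (hcomm g x).1⟩, hcmem x⟩
      map_one' := by
        apply Subtype.ext
        apply Subtype.ext
        simp
      map_mul' := fun a b => by
        apply Subtype.ext
        apply Subtype.ext
        simp only [Subgroup.coe_mul, MulMemClass.coe_mul]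
        have h1 := commutatorElement_mul_right_eq_mul_conj g (a : G) (b : G)
        have h2 : (a : G) * ⁅g, (b : G)⁆ = ⁅g, (b : G)⁆ * (a : G) :=
          (mem_centralizer_iff.mp (hcomm g b).2 a a.2)
        rw [h1, mul_assoc ⁅g, (a : G)⁆ (a : G), h2]
        group }
  have hcZ : ∀ z ∈ center E, c z = 1 := by
    intro z hz
    apply Subtype.ext
    apply Subtype.ext
    change ⁅g, (z : G)⁆ = 1
    have hzN : (z : G) ∈ N := ⟨z, hz, rfl⟩
    rw [commutatorElement_eq_one_iff_mul_comm]
    exact (mem_center_iff.mp (hNcentral hzN) g)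
  obtain ⟨e, he⟩ := exists_comm_eq_of_hom hE.1.1 hcE hE.2 c hcZ
  -- now `e⁻¹ g` centralizes `E`
  have hcent : (e : G)⁻¹ * g ∈ centralizer (E : Set G) := by
    rw [mem_centralizer_iff]
    intro x hx
    have h1 : ⁅g, x⁆ = ⁅(e : G), x⁆ := by
      have := he ⟨x, hx⟩
      have h2 := congrArg Subtype.val this
      exact h2
    -- `g x g⁻¹ = e x e⁻¹`
    have h3 : g * x * g⁻¹ = (e : G) * x * (e : G)⁻¹ := by
      simp only [commutatorElement_def] at h1
      have := congrArg (· * x) h1
      simpa using this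
    have h4 : g * x = (e : G) * x * (e : G)⁻¹ * g := by
      rw [← h3]; group
    calc x * ((e : G)⁻¹ * g) = (e : G)⁻¹ * ((e : G) * x * (e : G)⁻¹ * g) := by group
      _ = (e : G)⁻¹ * (g * x) := by rw [h4]
      _ = (e : G)⁻¹ * g * x := by group
  have h5 : g = (e : G) * ((e : G)⁻¹ * g) := by group
  rw [h5]
  exact mul_mem_sup e.2 hcent

end

/-- In a p-group G, an extraspecial subgroup E with [G, E] ≤ Z(E) satisfies G = E C_G(E). -/
theorem result {G : Type*} [Group G] [Finite G] {p : ℕ} [Fact p.Prime] (hG : IsPGroup p G) (E : Subgroup G) (hE : Cfsg.IsExtraspecial p E) (h : ⁅(⊤ : Subgroup G), E⁆ ≤ E ⊓ Subgroup.centralizer (E : Set G)) : E ⊔ Subgroup.centralizer (E : Set G) = ⊤ := by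
  exact aux hG E hE h

end Cfsg.Agent.S0110
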