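import Cfsg.Statements.S0114
import Mathlib
import Cfsg.Agent.Lib.PGroup.Taussky
-- import your own Cfsg.Agent.* helpers here

set_option autoImplicit false
open Cfsg

namespace Cfsg.Agent.S0114

/-- The central quotient of a 2-group of maximal class is dihedral. -/
theorem result {X : Type*} [Group X] [Finite X] (n : ℕ) (hn : 3 ≤ n) (hX : Nat.card X = 2 ^ n) (hc : Group.nilpotencyClass X = n - 1) : Nonempty (X ⧸ Subgroup.center X ≃* DihedralGroup (2 ^ (n - 2))) := by
  obtain ⟨m, rfl⟩ : ∃ m, n = m + 1 := ⟨n - 1, by omega⟩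
  have hl := Cfsg.Agent.Lib.PGroup.Taussky.lcs_ne_bot_of_class hn hX hc
  obtain ⟨u, b, h⟩ := Cfsg.Agent.Lib.PGroup.Taussky.MC_of_lcs_ne_bot (m := m) (by omega) hX hl
  have e : m + 1 - 2 = m - 1 := by omega
  rw [e]
  exact h.quotient_center_dihedral

end Cfsg.Agent.S0114
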