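import Cfsg.Statements.S0118
import Cfsg.Agent.Lib.PGroup.GenControlZC
-- import your own Cfsg.Agent.* helpers here

set_option autoImplicit false
open Cfsg

namespace Cfsg.Agent.S0118

/-- Glauberman's ZJ-Theorem, in the case of groups with no section isomorphic to SL(2,p), p odd: conjugation of subsets of a Sylow p-subgroup P inside P is always induced from the normalizer of Z(J(P)). -/
theorem result {G : Type*} [Group G] [Finite G] {p : ℕ} [Fact p.Prime] (hp : p ≠ 2) (hfree : ¬ ∃ (H K : Subgroup G) (hK : (K.subgroupOf H).Normal), Nonempty ((H ⧸ K.subgroupOf H) ≃* Matrix.SpecialLinearGroup (Fin 2) (ZMod p))) (P : Sylow p G) (A : Set G) (hA : A ⊆ (P : Set G)) (g : G) (hAg : (fun a => g⁻¹ * a * g) '' A ⊆ (P : Set G)) : ∃ n ∈ Subgroup.normalizer (Cfsg.centerThompsonOf p (P : Subgroup G) : Set G), ∀ a ∈ A, n⁻¹ * a * n = g⁻¹ * a * g := by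
  classical
  open Cfsg.Agent.Lib.PGroup.GenControlZC in
  have hfree' := not_sec_of_free hfree
  have hW := Cfsg.Agent.Lib.PGroup.GenControlZC.qcw_ZC hp _ G rfl hfree'
  have hB : Subgroup.closure A ≤ (P : Subgroup G) := (Subgroup.closure_le _).mpr hA
  have hgB : ∀ b ∈ Subgroup.closure A, g⁻¹ * b * g⁻¹⁻¹ ∈ (P : Subgroup G) := by
    have : Subgroup.closure A ≤ ((P : Subgroup G)).comap (MulAut.conj g⁻¹).toMonoidHom := by
      rw [Subgroup.closure_le]
      intro a ha
      have h1 : g⁻¹ * a * g ∈ (P : Subgroup G) := hAg ⟨a, ha, rfl⟩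
      show (MulAut.conj g⁻¹).toMonoidHom a ∈ (P : Subgroup G)
      simpa [MulAut.conj_apply] using h1
    exact fun b hb => this hb
  obtain ⟨x, hx, e⟩ := hW P (Subgroup.closure A) g⁻¹ hB hgB
  have hcen : Cfsg.centerThompsonOf p (P : Subgroup G) = Cfsg.Agent.Lib.PGroup.GTFunctor.ZC p (P : Subgroup G) := by
    unfold Cfsg.centerThompsonOf Cfsg.Agent.Lib.PGroup.GTFunctor.ZC
    rw [Cfsg.Agent.Lib.PGroup.ZJ.thompsonSubgroupOf_eq]
  refine ⟨x⁻¹, ?_, fun a ha => ?_⟩
  · rw [hcen]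
    exact inv_mem hx
  · have h1 := e a (Subgroup.subset_closure ha)
    simp only [inv_inv] at h1 ⊢
    exact h1.symm

end Cfsg.Agent.S0118
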