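import Cfsg.Statements.S0119
import Cfsg.Agent.Lib.Coprime.AutAction
import Cfsg.Agent.Lib.PGroup.KInf
import Mathlib

set_option autoImplicit false
open Cfsg

namespace Cfsg.Agent.S0119

open Cfsg.Agent.Lib.Coprime.AutAction Cfsg.Agent.Lib.PGroup.Basic
open scoped commutatorElement

theorem inf_char {G : Type*} [Group G] (H K : Subgroup G) [hH : H.Characteristic]
    [hK : K.Characteristic] : (H ⊓ K).Characteristic :=
  ⟨fun φ => by rw [Subgroup.comap_inf, hH.fixed, hK.fixed]⟩

/-- If a p'-group A of automorphisms of a p-group G satisfies G = [G, A] and acts trivially on every characteristic abelian subgroup, then G is special with centre equal to the fixed points of A. -/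
theorem result {G : Type*} [Group G] [Finite G] {p : ℕ} [Fact p.Prime] (hG : IsPGroup p G) (A : Subgroup (MulAut G)) (hA : Nat.Coprime (Nat.card A) p) (hGA : Subgroup.closure {x : G | ∃ g : G, ∃ a ∈ A, x = g⁻¹ * a g} = ⊤) (hchar : ∀ H : Subgroup G, H.Characteristic → IsMulCommutative H → ∀ a ∈ A, ∀ h ∈ H, a h = h) : Cfsg.IsSpecial p G ∧ (∀ g : G, (g ∈ Subgroup.center G ↔ ∀ a ∈ A, a g = g)) := by
  classical
  let ρ : A →* MulAut G := A.subtype
  have hρ : ∀ (b : A) (g : G), ρ b g = (b : MulAut G) g := fun _ _ => rfl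
  have hgen : commClosure ρ = ⊤ := by
    rw [← hGA, commClosure]
    congr 1
    ext x
    constructor
    · rintro ⟨g, b, rfl⟩
      exact ⟨g, b, b.2, rfl⟩
    · rintro ⟨g, a, ha, rfl⟩
      exact ⟨g, ⟨a, ha⟩, rfl⟩
  have hnil : Group.IsNilpotent G := hG.isNilpotent
  -- commutativity from the centre
  have hzcomm : ∀ z ∈ Subgroup.center G, ∀ g : G, g * z = z * g := fun z hz g =>
    (Subgroup.mem_center_iff.mp hz) g
  -- the centre is fixed
  have hZfix : ∀ z ∈ Subgroup.center G, ∀ b : A, ρ b z = z := by
    intro z hz b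
    exact hchar (Subgroup.center G) inferInstance
      ⟨⟨fun x y => by
        apply Subtype.ext
        exact ((Subgroup.mem_center_iff.mp x.2) y).symm⟩⟩ b b.2 z hz
  -- fixed elements with central commutators are central
  have hb : ∀ y : G, (∀ b : A, ρ b y = y) → (∀ g : G, ⁅g, y⁆ ∈ Subgroup.center G) →
      y ∈ Subgroup.center G := by
    intro y hy hcz
    exact mem_center_of_fixed ρ hgen hy (fun g b => hZfix _ (hcz g) b)
  -- the second centre
  let Y : Subgroup G := Subgroup.upperCentralSeriesStep (Subgroup.center G)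
  have hYmem : ∀ y, y ∈ Y ↔ ∀ g, ⁅y, g⁆ ∈ Subgroup.center G := fun y => Iff.rfl
  have hcenter_bot : ∀ K : Subgroup G, ⁅Subgroup.center G, K⁆ = ⊥ := by
    intro K
    rw [Subgroup.commutator_eq_bot_iff_le_centralizer]
    intro z hz
    refine Subgroup.mem_centralizer_iff.mpr ?_
    intro k _
    exact hzcomm z hz k
  have hYC : ⁅commutator G, Y⁆ = ⊥ := by
    rw [commutator_def]
    apply Subgroup.commutator_commutator_eq_bot_of_rotate
    · have h1 : ⁅(⊤ : Subgroup G), Y⁆ ≤ Subgroup.center G := by
        rw [Subgroup.commutator_le]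
        intro g _ y hy
        have := (hYmem y).mp hy g
        rw [← commutatorElement_inv]
        exact inv_mem this
      exact le_bot_iff.mp ((hcenter_bot ⊤) ▸ Subgroup.commutator_mono h1 le_rfl)
    · have h1 : ⁅Y, (⊤ : Subgroup G)⁆ ≤ Subgroup.center G := by
        rw [Subgroup.commutator_le]
        intro y hy g _
        exact (hYmem y).mp hy g
      exact le_bot_iff.mp ((hcenter_bot ⊤) ▸ Subgroup.commutator_mono h1 le_rfl)
  -- `G'` is central
  have hCZ : commutator G ≤ Subgroup.center G := by
    by_contra hnot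
    obtain ⟨x, hxC, hxZ, hxq⟩ := Cfsg.Agent.Lib.PGroup.KInf.exists_commutator_mem_of_nilpotent
      (Subgroup.center G) (commutator G) ⊤ hnot (Subgroup.commutator_le_left _ _)
    apply hxZ
    have hxY : x ∈ Y := (hYmem x).mpr (fun g => hxq g trivial)
    have hW : IsMulCommutative (commutator G ⊓ Y : Subgroup G) := by
      refine ⟨⟨fun u v => ?_⟩⟩
      apply Subtype.ext
      have h1 : ⁅(u : G), (v : G)⁆ ∈ ⁅commutator G, Y⁆ :=
        Subgroup.commutator_mem_commutator u.2.1 v.2.2
      rw [hYC, Subgroup.mem_bot] at h1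
      exact commutatorElement_eq_one_iff_mul_comm.mp h1
    have hfix : ∀ b : A, ρ b x = x := fun b =>
      hchar _ (inf_char _ _) hW b b.2 x ⟨hxC, hxY⟩
    refine hb x hfix (fun g => ?_)
    rw [← commutatorElement_inv]
    exact inv_mem (hxq g trivial)
  have hall : ∀ x y : G, ⁅x, y⁆ ∈ Subgroup.center G := fun x y => by
    apply hCZ
    rw [commutator_def]
    exact Subgroup.commutator_mem_commutator trivial trivial
  have hfixZ : ∀ y : G, (∀ b : A, ρ b y = y) → y ∈ Subgroup.center G := fun y hy =>
    hb y hy (fun g => hall g y)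
  have hZC : Subgroup.center G ≤ commutator G := fun z hz =>
    mem_commutator_of_fixed hG ρ hA hgen (hZfix z hz)
  -- powers are central
  have hcx : ∀ x y : G, Commute x ⁅x, y⁆ := fun x y =>
    (Subgroup.mem_center_iff.mp (hall x y)) x
  have hcy : ∀ x y : G, Commute y ⁅x, y⁆ := fun x y =>
    (Subgroup.mem_center_iff.mp (hall x y)) y
  let S : Subgroup G :=
    { carrier := {s | s ^ p ∈ Subgroup.center G}
      one_mem' := by simp
      mul_mem' := by
        intro s t hs ht
        have h1 := mul_pow_of_commutator_central (x := s) (y := t) (hcy t s) (hcx t s) p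
        show (s * t) ^ p ∈ Subgroup.center G
        rw [h1]
        exact Subgroup.mul_mem _ (Subgroup.mul_mem _ hs ht) (Subgroup.pow_mem _ (hall t s) _)
      inv_mem' := by
        intro s hs
        show s⁻¹ ^ p ∈ Subgroup.center G
        rw [inv_pow]
        exact Subgroup.inv_mem _ hs }
  have hSmem : ∀ s, s ∈ S ↔ s ^ p ∈ Subgroup.center G := fun s => Iff.rfl
  have hcenterφ : ∀ (φ : G ≃* G) (z : G), z ∈ Subgroup.center G → φ z ∈ Subgroup.center G := by
    intro φ z hz
    exact (Subgroup.characteristic_iff_map_le.mp inferInstance φ) ⟨z, hz, rfl⟩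
  have hSchar : S.Characteristic := by
    rw [Subgroup.characteristic_iff_map_le]
    intro φ
    rintro _ ⟨s, hs, rfl⟩
    show (φ s) ^ p ∈ Subgroup.center G
    rw [← map_pow]
    exact hcenterφ φ _ hs
  let S₀ : Set G := {x | (∃ y : G, y ^ p = x) ∨ x ∈ Subgroup.center G}
  let R : Subgroup G := Subgroup.closure S₀
  have hRchar : R.Characteristic := by
    rw [Subgroup.characteristic_iff_le_map]
    intro φ
    rw [Subgroup.closure_le]
    intro x hx
    refine ⟨φ.symm x, Subgroup.subset_closure ?_, by simp⟩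
    rcases hx with ⟨y, rfl⟩ | hx
    · left
      exact ⟨φ.symm y, by simp⟩
    · right
      exact hcenterφ φ.symm x hx
  have hRS : R ≤ Subgroup.centralizer (S : Set G) := by
    rw [Subgroup.closure_le]
    intro x hx
    refine Subgroup.mem_centralizer_iff.mpr ?_
    intro s hs
    rcases hx with ⟨y, rfl⟩ | hx
    · have h1 : ⁅y ^ p, s⁆ = 1 := by
        rw [commutator_pow_left (hcx y s) p, ← commutator_pow_right (hcy y s) p]
        have hsp : s ^ p ∈ Subgroup.center G := hs
        have h2 : y * s ^ p = s ^ p * y := ((hzcomm _ hsp y))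
        exact commutatorElement_eq_one_iff_mul_comm.mpr h2
      exact (commutatorElement_eq_one_iff_mul_comm.mp h1).symm
    · exact hzcomm x hx s
  have hU : IsMulCommutative (R ⊓ S : Subgroup G) := by
    refine ⟨⟨fun u v => ?_⟩⟩
    apply Subtype.ext
    exact ((Subgroup.mem_centralizer_iff.mp (hRS u.2.1)) v v.2.2).symm
  have hUZ : ∀ t ∈ (R ⊓ S : Subgroup G), t ∈ Subgroup.center G := by
    intro t ht
    apply hfixZ
    intro b
    have hRc := hRchar
    have hSc := hSchar
    exact hchar _ (inf_char _ _) hU b b.2 t ht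
  have hpow : ∀ x : G, x ^ p ∈ Subgroup.center G := by
    intro x
    by_contra hx
    obtain ⟨n, hn⟩ := hG x
    have hex : ∃ k, x ^ (p ^ k) ∈ Subgroup.center G := ⟨n, by rw [hn]; exact Subgroup.one_mem _⟩
    classical
    set k := Nat.find hex with hk
    have hkspec : x ^ (p ^ k) ∈ Subgroup.center G := Nat.find_spec hex
    have hk2 : 2 ≤ k := by
      by_contra hlt
      have hk01 : k = 0 ∨ k = 1 := by omega
      rcases hk01 with h0 | h1
      · rw [h0, pow_zero, pow_one] at hkspec
        exact hx (Subgroup.pow_mem _ hkspec _)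
      · rw [h1, pow_one] at hkspec
        exact hx hkspec
    obtain ⟨j, hj⟩ : ∃ j, k = j + 2 := ⟨k - 2, by omega⟩
    set t := x ^ (p ^ (j + 1)) with ht
    have htZ : t ∉ Subgroup.center G := by
      have := Nat.find_min hex (m := j + 1) (by omega)
      exact this
    have htS : t ∈ S := by
      rw [hSmem, ht, ← pow_mul, ← pow_succ, ← hj]
      exact hkspec
    have htR : t ∈ R := by
      apply Subgroup.subset_closure
      left
      refine ⟨x ^ (p ^ j), ?_⟩
      rw [ht, ← pow_mul, pow_succ]
    exact htZ (hUZ t ⟨htR, htS⟩)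
  refine ⟨⟨hG, ?_, le_antisymm hCZ hZC⟩, ?_⟩
  · apply le_antisymm
    · exact (frattini_le_iff hG).mpr ⟨hpow, hall⟩
    · exact hZC.trans (commutator_le_frattini hG)
  · intro g
    constructor
    · intro hg a ha
      exact hZfix g hg ⟨a, ha⟩
    · intro hg
      exact hfixZ g (fun b => hg b b.2)

end Cfsg.Agent.S0119
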