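import Cfsg.Statements.S0122
import Cfsg.Agent.Lib.PGroup.RankThree

set_option autoImplicit false
open Cfsg
open scoped commutatorElement
open Subgroup

namespace Cfsg.Agent.S0122

open Cfsg.Agent.Lib.PGroup.Critical (exists_mem_central_mod exists_normal_le_card card_sup_zpowers
  normal_sup_zpowers prime_dvd_choose_two)
open Cfsg.Agent.Lib.PGroup.RankThree (exists_central_mod_of_mem_centralizer
  index_centralizer_le_of_card_sq exists_mem_centralizer_notMem normal_card_sq_structure)
open Cfsg.Agent.Lib.PGroup.Basic (isElementaryAbelian_iff mul_pow_of_commutator_central)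

theorem comm_of_comm_eq {P : Type*} [Group P] {x y z : P} (h : ⁅x, y⁆ = ⁅x, z⁆) :
    x * (z⁻¹ * y) = (z⁻¹ * y) * x := by
  rw [commutatorElement_def, commutatorElement_def] at h
  have h1 : y * x⁻¹ * y⁻¹ = z * x⁻¹ * z⁻¹ := by
    have := congrArg (x⁻¹ * ·) h
    simpa [mul_assoc] using this
  have h2 : y * x * y⁻¹ = z * x * z⁻¹ := by
    have := congrArg (·⁻¹) h1
    simpa [mul_assoc] using this
  symm
  calc z⁻¹ * y * x = z⁻¹ * (y * x * y⁻¹) * y := by group
    _ = z⁻¹ * (z * x * z⁻¹) * y := by rw [h2]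
    _ = x * (z⁻¹ * y) := by group

/-- The commutator map `k ↦ ⁅v, k⁆` into a subgroup centralized by `K`. -/
theorem relIndex_le {R : Type*} [Group R] [Finite R] (K W : Subgroup R) (v : R)
    (hW : ∀ k ∈ K, ∀ w ∈ W, k * w = w * k) (h : ∀ k ∈ K, ⁅v, k⁆ ∈ W) :
    (centralizer ({v} : Set R)).relIndex K ≤ Nat.card W := by
  have hmulc : ∀ k ∈ K, ∀ k' ∈ K, ⁅v, k * k'⁆ = ⁅v, k⁆ * ⁅v, k'⁆ := by
    intro k hk k' hk'
    have e1 : ⁅v, k * k'⁆ = ⁅v, k⁆ * (k * ⁅v, k'⁆ * k⁻¹) := by
      simp only [commutatorElement_def]; group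
    rw [e1, hW k hk _ (h k' hk'), mul_inv_cancel_right]
  let φ : K →* W :=
    { toFun := fun k => ⟨⁅v, (k : R)⁆, h k k.2⟩
      map_one' := by ext; simp
      map_mul' := by
        intro a b
        ext
        simpa using hmulc a a.2 b b.2 }
  have hker : φ.ker = (centralizer ({v} : Set R)).subgroupOf K := by
    ext k
    rw [MonoidHom.mem_ker, mem_subgroupOf, mem_centralizer_singleton_iff]
    constructor
    · intro hk
      have h2 : ⁅v, (k : R)⁆ = 1 := congrArg Subtype.val hk
      rw [commutatorElement_eq_one_iff_mul_comm] at h2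
      exact h2.symm
    · intro hk
      have h2 : ⁅v, (k : R)⁆ = 1 := by
        rw [commutatorElement_eq_one_iff_mul_comm]; exact hk.symm
      exact Subtype.ext h2
  rw [relIndex, ← hker, index_ker]
  exact Subgroup.card_le_card_group _

theorem card_eq_mul_relIndex' {R : Type*} [Group R] (M K : Subgroup R) :
    Nat.card K = Nat.card (M ⊓ K : Subgroup R) * M.relIndex K := by
  have := (M.subgroupOf K).card_mul_index
  have h2 : Nat.card (M.subgroupOf K) = Nat.card (M ⊓ K : Subgroup R) := by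
    rw [← Subgroup.inf_subgroupOf_right]
    exact Nat.card_congr (Subgroup.subgroupOfEquivOfLe inf_le_right).toEquiv
  rw [h2] at this
  exact this.symm

section Core

variable {R : Type*} [Group R] [Finite R] {p : ℕ} [hp : Fact p.Prime]

/-- The plane `W = E ∩ A`. -/
theorem exists_plane (hR : IsPGroup p R) (A : Subgroup R) [hAn : A.Normal]
    (hA : IsElementaryAbelian p A) (hAc : Nat.card A = p ^ 3)
    (hC : ∀ y : R, y ^ p = 1 → y ∈ centralizer (A : Set R) → y ∈ A)
    (E : Subgroup R) (hE : IsElementaryAbelian p E) (hEc : Nat.card E = p ^ 4) :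
    ∃ (W : Subgroup R) (a : R), W ≤ A ∧ W ≤ E ∧ W.Normal ∧ Nat.card W = p ^ 2 ∧ a ∈ A ∧ a ∉ W ∧
      (∀ g : R, ⁅a, g⁆ ∈ W) ∧ E ⊓ centralizer (A : Set R) ≤ W := by
  classical
  have hp1 := hp.out.one_lt
  have hp0 := hp.out.pos
  have hAab := (isElementaryAbelian_iff.mp hA)
  have hEab := (isElementaryAbelian_iff.mp hE)
  obtain ⟨M, hMA, hMn, hMc⟩ := exists_normal_le_card hR A (k := 2) (by
    rw [hAc]; exact pow_dvd_pow p (by norm_num))
  have hnle : ¬ A ≤ M := fun h => by
    have h1 := Subgroup.card_le_card_group (Subgroup.inclusion h).range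
    have h2 := Subgroup.card_le_of_le h
    rw [hAc, hMc] at h2
    have h3 : p ^ 2 < p ^ 3 := Nat.pow_lt_pow_right hp1 (by norm_num)
    omega
  obtain ⟨a, haA, haM, -, hac⟩ := exists_mem_central_mod hR M A hnle
  -- generation of `A`
  have hgen : ∀ w ∈ A, w ∉ M → M ⊔ zpowers w = A := by
    intro w hwA hwM
    have hwp : w ^ p ∈ M := by rw [hAab.2 w hwA]; exact one_mem _
    apply Subgroup.eq_of_le_of_card_ge
    · exact sup_le hMA (zpowers_le.mpr hwA)
    · rw [card_sup_zpowers M hwM hwp, hMc, hAc]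
      apply le_of_eq
      ring
  have hcentA : ∀ (w : R), w ∈ A → w ∉ M → ∀ x : R, (∀ m ∈ M, x * m = m * x) → x * w = w * x →
      x ∈ centralizer (A : Set R) := by
    intro w hwA hwM x hx1 hx2
    rw [mem_centralizer_iff]
    have hle : A ≤ centralizer ({x} : Set R) := by
      rw [← hgen w hwA hwM]
      refine sup_le ?_ ?_
      · intro m hm
        rw [mem_centralizer_singleton_iff]
        exact (hx1 m hm).symm
      · rw [zpowers_le, mem_centralizer_singleton_iff]
        exact hx2.symm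
    intro b hb
    exact (mem_centralizer_singleton_iff.mp (hle hb))
  set W : Subgroup R := E ⊓ A with hWdef
  have hWker : E ⊓ centralizer (A : Set R) ≤ W := by
    intro e he
    exact ⟨he.1, hC e (hEab.2 e he.1) he.2⟩
  have hnAE : ¬ A ≤ E := by
    intro hAE
    have hle : E ≤ A := by
      intro e he
      apply hC e (hEab.2 e he)
      rw [mem_centralizer_iff]
      intro b hb
      exact hEab.1 b (hAE hb) e he
    have h2 := Subgroup.card_le_of_le hle
    rw [hAc, hEc] at h2
    have h3 : p ^ 3 < p ^ 4 := Nat.pow_lt_pow_right hp1 (by norm_num)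
    omega
  have hMnormal : (centralizer (M : Set R)).Normal := Subgroup.normal_centralizer
  set E₁ : Subgroup R := centralizer (M : Set R) ⊓ E with hE₁
  have hE₁card : Nat.card E ≤ Nat.card E₁ * p := by
    have h1 := card_eq_mul_relIndex' (centralizer (M : Set R)) E
    have h2 : (centralizer (M : Set R)).relIndex E ≤ p := by
      refine le_trans ?_ (index_centralizer_le_of_card_sq hR M hMc)
      exact Nat.le_of_dvd (Nat.pos_of_ne_zero (Subgroup.index_ne_zero_of_finite))
        (Subgroup.relIndex_dvd_index_of_normal _ _)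
    rw [h1]
    exact Nat.mul_le_mul_left _ h2
  have hW_lt : Nat.card W < p ^ 3 := by
    have hle : Nat.card W ≤ p ^ 3 := by
      rw [← hAc]; exact Subgroup.card_le_of_le inf_le_right
    refine lt_of_le_of_ne hle ?_
    intro h
    apply hnAE
    have : W = A := Subgroup.eq_of_le_of_card_ge inf_le_right (by rw [h, hAc])
    rw [← this]
    exact inf_le_left
  -- `W ≤ M`
  have hWM : W ≤ M := by
    intro w hw
    by_contra hwM
    have hE₁W : E₁ ≤ W := by
      intro e he
      apply hWker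
      refine ⟨he.2, hcentA w hw.2 hwM e ?_ (hEab.1 e he.2 w hw.1)⟩
      intro m hm
      exact (mem_centralizer_iff.mp he.1 m hm).symm
    have h1 := Subgroup.card_le_of_le hE₁W
    have h2 : p ^ 3 * p ≤ Nat.card W * p := by
      calc p ^ 3 * p = Nat.card E := by rw [hEc]; ring
        _ ≤ Nat.card E₁ * p := hE₁card
        _ ≤ Nat.card W * p := Nat.mul_le_mul_right _ h1
    have h3 := Nat.le_of_mul_le_mul_right h2 hp0
    omega
  -- the order of `W`
  have hE₂ : E₁ ⊓ centralizer ({a} : Set R) ≤ W := by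
    intro e he
    apply hWker
    refine ⟨he.1.2, hcentA a haA haM e ?_ ?_⟩
    · intro m hm
      exact (mem_centralizer_iff.mp he.1.1 m hm).symm
    · exact (mem_centralizer_singleton_iff.mp he.2)
  have hMab : ∀ m ∈ M, ∀ n ∈ M, m * n = n * m := fun m hm n hn => hAab.1 m (hMA hm) n (hMA hn)
  have hWcard : p ^ 2 ≤ Nat.card W := by
    by_cases hEM : E ≤ centralizer (M : Set R)
    · have hEE : E₁ = E := inf_eq_right.mpr hEM
      have h1 := relIndex_le E₁ M a (fun k hk w hw => (mem_centralizer_iff.mp hk.1 w hw).symm)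
        (fun k _ => hac k)
      have h2 := card_eq_mul_relIndex' (centralizer ({a} : Set R)) E₁
      have h3 : Nat.card (centralizer ({a} : Set R) ⊓ E₁ : Subgroup R) ≤ Nat.card W :=
        Subgroup.card_le_of_le (by rw [inf_comm]; exact hE₂)
      rw [hEE] at h2 h1
      have h4 : p ^ 2 * p ^ 2 ≤ Nat.card W * p ^ 2 := by
        calc p ^ 2 * p ^ 2 = Nat.card E := by rw [hEc]; ring
          _ = _ := h2
          _ ≤ Nat.card W * p ^ 2 := by
            rw [hMc] at h1
            rw [hEE] at h3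
            exact Nat.mul_le_mul h3 h1
      exact Nat.le_of_mul_le_mul_right h4 (pow_pos hp0 2)
    · obtain ⟨e₁, he₁E, he₁M⟩ := SetLike.not_le_iff_exists.mp hEM
      obtain ⟨z, v, hzM, hvM, hzc, hzo, hMeq, hvz, -, hvc⟩ := normal_card_sq_structure hR M hMc
      -- the fixed points of `e₁` on `M`
      set Y : Subgroup R := M ⊓ centralizer ({e₁} : Set R) with hY
      have hzY : zpowers z ≤ Y := by
        rw [zpowers_le]
        refine ⟨hzM, mem_centralizer_singleton_iff.mpr ?_⟩
        exact (mem_center_iff.mp hzc e₁).symm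
      have hYlt : Y ≠ M := by
        intro hYM
        apply he₁M
        rw [mem_centralizer_iff]
        intro m hm
        have : m ∈ Y := by rw [hYM]; exact hm
        exact (mem_centralizer_singleton_iff.mp this.2)
      have hYz : Y = zpowers z := by
        symm
        apply Subgroup.eq_of_le_of_card_ge hzY
        rw [Nat.card_zpowers, hzo]
        have hYM : Nat.card Y ∣ p ^ 2 := by
          rw [← hMc]; exact Subgroup.card_dvd_of_le inf_le_left
        obtain ⟨i, hi, hi2⟩ := (Nat.dvd_prime_pow hp.out).mp hYM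
        have hne : i ≠ 2 := by
          rintro rfl
          apply hYlt
          exact Subgroup.eq_of_le_of_card_ge inf_le_left (by rw [hi2, hMc])
        have : i ≤ 1 := by omega
        rw [hi2]
        calc p ^ i ≤ p ^ 1 := Nat.pow_le_pow_right hp0 this
          _ = p := pow_one p
      have hval : ∀ k ∈ E₁, ⁅a, k⁆ ∈ zpowers z := by
        intro k hk
        rw [← hYz]
        refine ⟨hac k, mem_centralizer_singleton_iff.mpr ?_⟩
        have hn : ⁅e₁, a⁆ ∈ M := by
          have := inv_mem (hac e₁)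
          rwa [commutatorElement_inv] at this
        have hke : k * e₁ = e₁ * k := hEab.1 k hk.2 e₁ he₁E
        have hkn : k * ⁅e₁, a⁆ = ⁅e₁, a⁆ * k :=
          (mem_centralizer_iff.mp hk.1 _ hn).symm
        have hna : a * ⁅e₁, a⁆ = ⁅e₁, a⁆ * a := hAab.1 a haA _ (hMA hn)
        have hkM : ⁅a, k⁆ * ⁅e₁, a⁆ = ⁅e₁, a⁆ * ⁅a, k⁆ := hMab _ (hac k) _ hn
        -- conjugating the commutator
        have hea : e₁ * a * e₁⁻¹ = ⁅e₁, a⁆ * a := by
          simp only [commutatorElement_def]; group
        have hek : e₁ * k * e₁⁻¹ = k := by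
          rw [← hke]; group
        have hconj : e₁ * ⁅a, k⁆ * e₁⁻¹ = ⁅e₁ * a * e₁⁻¹, e₁ * k * e₁⁻¹⁆ := by
          simp only [commutatorElement_def]; group
        have hfin : ⁅⁅e₁, a⁆ * a, k⁆ = ⁅a, k⁆ := by
          generalize ⁅e₁, a⁆ = n at hkn hna hkM ⊢
          have e2 : ⁅n * a, k⁆ = n * ⁅a, k⁆ * (k * n⁻¹ * k⁻¹) := by
            simp only [commutatorElement_def]; group
          have e3 : k * n⁻¹ * k⁻¹ = n⁻¹ := by
            have : k * n⁻¹ = n⁻¹ * k := by
              have h5 := congrArg (fun t => n⁻¹ * t * n⁻¹) hkn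
              have h6 : n⁻¹ * k = k * n⁻¹ := by simpa [mul_assoc] using h5
              exact h6.symm
            rw [this]; group
          rw [e2, e3, ← hkM]
          group
        rw [hea, hek] at hconj
        rw [hfin] at hconj
        -- so `⁅a, k⁆` commutes with `e₁`
        have := congrArg (· * e₁) hconj
        have h7 : e₁ * ⁅a, k⁆ = ⁅a, k⁆ * e₁ := by simpa [mul_assoc] using this
        exact h7.symm
      have h1 := relIndex_le E₁ (zpowers z) a (fun k _ w hw => by
        have : w ∈ center R := (zpowers_le.mpr hzc) hw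
        exact (mem_center_iff.mp this k)) hval
      rw [Nat.card_zpowers, hzo] at h1
      have h2 := card_eq_mul_relIndex' (centralizer ({a} : Set R)) E₁
      have h3 : Nat.card (centralizer ({a} : Set R) ⊓ E₁ : Subgroup R) ≤ Nat.card W :=
        Subgroup.card_le_of_le (by rw [inf_comm]; exact hE₂)
      have h4 : p ^ 2 * (p * p) ≤ Nat.card W * (p * p) := by
        calc p ^ 2 * (p * p) = Nat.card E := by rw [hEc]; ring
          _ ≤ Nat.card E₁ * p := hE₁card
          _ = (Nat.card (centralizer ({a} : Set R) ⊓ E₁ : Subgroup R) *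
                (centralizer ({a} : Set R)).relIndex E₁) * p := by rw [← h2]
          _ ≤ (Nat.card W * p) * p := Nat.mul_le_mul_right _ (Nat.mul_le_mul h3 h1)
          _ = Nat.card W * (p * p) := by ring
      exact Nat.le_of_mul_le_mul_right h4 (Nat.mul_pos hp0 hp0)
  have hWeq : W = M := by
    apply Subgroup.eq_of_le_of_card_ge hWM
    rw [hMc]; exact hWcard
  refine ⟨W, a, inf_le_right, inf_le_left, hWeq ▸ hMn, by rw [hWeq, hMc], haA, ?_, ?_, hWker⟩
  · rw [hWeq]; exact haM
  · rw [hWeq]; exact hac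

/-- Every element of `C(W)` is the product of an element of `E` and an element of `C(A)`. -/
theorem exists_factor (A E W : Subgroup R) (a : R) (hE : IsElementaryAbelian p E)
    (hEc : Nat.card E = p ^ 4) (hWE : W ≤ E) (hWc : Nat.card W = p ^ 2) (haW : ∀ g : R, ⁅a, g⁆ ∈ W)
    (hgen : ∀ x : R, (∀ w ∈ W, x * w = w * x) → x * a = a * x → x ∈ centralizer (A : Set R))
    (hker : E ⊓ centralizer (A : Set R) ≤ W) {y : R} (hy : ∀ w ∈ W, y * w = w * y) :
    ∃ e ∈ E, e⁻¹ * y ∈ centralizer (A : Set R) := by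
  classical
  have hp0 := hp.out.pos
  have hEab := isElementaryAbelian_iff.mp hE
  have hmulc : ∀ k ∈ E, ∀ k' ∈ E, ⁅a, k * k'⁆ = ⁅a, k⁆ * ⁅a, k'⁆ := by
    intro k hk k' hk'
    have e1 : ⁅a, k * k'⁆ = ⁅a, k⁆ * (k * ⁅a, k'⁆ * k⁻¹) := by
      simp only [commutatorElement_def]; group
    rw [e1, hEab.1 k hk _ (hWE (haW k')), mul_inv_cancel_right]
  let φ : E →* W :=
    { toFun := fun k => ⟨⁅a, (k : R)⁆, haW k⟩
      map_one' := by ext; simp
      map_mul' := by
        intro x y
        ext
        simpa using hmulc x x.2 y y.2 }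
  have hkerle : Nat.card φ.ker ≤ p ^ 2 := by
    rw [← hWc]
    let ι : φ.ker → W := fun k => ⟨(k.1 : R), by
      apply hker
      refine ⟨k.1.2, hgen _ (fun w hw => hEab.1 _ k.1.2 _ (hWE hw)) ?_⟩
      have h2 : ⁅a, ((k.1 : E) : R)⁆ = 1 := congrArg Subtype.val (MonoidHom.mem_ker.mp k.2)
      rw [commutatorElement_eq_one_iff_mul_comm] at h2
      exact h2.symm⟩
    refine Nat.card_le_card_of_injective ι ?_
    intro x y hxy
    apply Subtype.ext
    apply Subtype.ext
    have h5 : ((ι x : W) : R) = ((ι y : W) : R) := congrArg Subtype.val hxy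
    exact h5
  have hrange : φ.range = ⊤ := by
    apply Subgroup.eq_top_of_card_eq
    have h1 := φ.ker.card_mul_index
    rw [Subgroup.index_ker, hEc] at h1
    have hle : Nat.card φ.range ≤ Nat.card W := Subgroup.card_le_card_group _
    rw [hWc] at hle ⊢
    have h2 : p ^ 2 * p ^ 2 ≤ p ^ 2 * Nat.card φ.range := by
      calc p ^ 2 * p ^ 2 = p ^ 4 := by ring
        _ = _ := h1.symm
        _ ≤ p ^ 2 * Nat.card φ.range := Nat.mul_le_mul_right _ hkerle
    have h3 := Nat.le_of_mul_le_mul_left h2 (pow_pos hp0 2)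
    omega
  obtain ⟨e, he⟩ : (⟨⁅a, y⁆, haW y⟩ : W) ∈ φ.range := by rw [hrange]; trivial
  have he' : ⁅a, (e : R)⁆ = ⁅a, y⁆ := congrArg Subtype.val he
  refine ⟨e, e.2, hgen _ ?_ ?_⟩
  · intro w hw
    have h1 : (e : R)⁻¹ * w = w * (e : R)⁻¹ := by
      have h2 := hEab.1 _ e.2 _ (hWE hw)
      have h3 := congrArg (fun t => (e : R)⁻¹ * t * (e : R)⁻¹) h2
      have h4 : w * (e : R)⁻¹ = (e : R)⁻¹ * w := by simpa [mul_assoc] using h3
      exact h4.symm
    rw [mul_assoc, hy w hw, ← mul_assoc, h1, mul_assoc]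
  · exact (comm_of_comm_eq he'.symm).symm

end Core

/-- For odd p, a p-group containing an elementary abelian subgroup of order p^4 has a normal elementary abelian subgroup of order p^4. -/
theorem result {G : Type*} [Group G] [Finite G] {p : ℕ} [Fact p.Prime] (hp : p ≠ 2) (hG : IsPGroup p G) (E : Subgroup G) (hE : Cfsg.IsElementaryAbelian p E) (hE4 : Nat.card E = p ^ 4) : ∃ A : Subgroup G, A.Normal ∧ Cfsg.IsElementaryAbelian p A ∧ Nat.card A = p ^ 4 := by
  classical
  have hp1 := (Fact.out : p.Prime).one_lt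
  have hp0 := (Fact.out : p.Prime).pos
  have hEab := isElementaryAbelian_iff.mp hE
  -- a maximal normal elementary abelian subgroup
  let F : Subgroup G → Prop := fun A => A.Normal ∧ IsElementaryAbelian p A
  have hF0 : F ⊥ := ⟨inferInstance, Cfsg.Agent.Lib.PGroup.Basic.isElementaryAbelian_bot⟩
  obtain ⟨A, hAmax⟩ : ∃ A : Subgroup G, Maximal F A := by
    obtain ⟨X, _, hX⟩ := (Set.toFinite {X : Subgroup G | F X}).exists_le_maximal (a := ⊥) hF0
    exact ⟨X, hX⟩
  obtain ⟨hAn, hA⟩ := hAmax.prop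
  have hAab := isElementaryAbelian_iff.mp hA
  obtain ⟨k, hk⟩ := IsPGroup.iff_card.mp (hG.to_subgroup A)
  by_cases hk4 : 4 ≤ k
  · obtain ⟨M, hMA, hMn, hMc⟩ := exists_normal_le_card hG A (k := 4) (by
      rw [hk]; exact pow_dvd_pow p hk4)
    exact ⟨M, hMn, Cfsg.Agent.Lib.PGroup.Basic.IsElementaryAbelian.mono hA hMA, hMc⟩
  -- `Ω₁(C(A)) = A`
  have hC : ∀ y : G, y ^ p = 1 → y ∈ centralizer (A : Set G) → y ∈ A := by
    intro y hyp hyC
    by_contra hyA
    obtain ⟨x, hxC, hxp, hxA, hxc⟩ := exists_central_mod_of_mem_centralizer hp hG A hA hyC hyp hyA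
    have hF2 : F (A ⊔ zpowers x) := ⟨normal_sup_zpowers A hxc,
      Cfsg.Agent.Lib.PGroup.Basic.IsElementaryAbelian.sup_zpowers hA hxp
        (fun a ha => (mem_centralizer_iff.mp hxC a ha).symm)⟩
    have hle := hAmax.2 hF2 le_sup_left
    exact hxA (hle ((le_sup_right : zpowers x ≤ A ⊔ zpowers x) (mem_zpowers x)))
  have hk3 : k = 3 := by
    by_contra hk3
    have hk2 : k ≤ 2 := by omega
    rcases Nat.lt_or_ge k 2 with hlt | hge
    · -- `A` is central
      have hAc : ∀ a ∈ A, a ∈ center G := by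
        intro a ha
        by_cases hbot : A = ⊥
        · rw [hbot, Subgroup.mem_bot] at ha
          rw [ha]; exact one_mem _
        · have h1 := Cfsg.Agent.Lib.PGroup.Basic.inf_center_ne_bot hG hbot
          have h2 : A ⊓ center G = A := by
            have hk1 : k = 1 := by
              rcases Nat.eq_zero_or_pos k with h0 | h0
              · exfalso
                apply hbot
                rw [Subgroup.eq_bot_iff_card, hk, h0, pow_zero]
              · omega
            apply Subgroup.eq_of_le_of_card_ge inf_le_left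
            have hd : Nat.card (A ⊓ center G : Subgroup G) ∣ p := by
              have := Subgroup.card_dvd_of_le (inf_le_left : A ⊓ center G ≤ A)
              rwa [hk, hk1, pow_one] at this
            rcases (Nat.dvd_prime (Fact.out : p.Prime)).mp hd with h3 | h3
            · exfalso
              exact h1 ((Subgroup.eq_bot_iff_card _).mpr h3)
            · rw [h3, hk, hk1, pow_one]
          rw [← h2] at ha
          exact ha.2
      have hlt2 : Nat.card A < Nat.card E := by
        rw [hk, hE4]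
        exact Nat.pow_lt_pow_right hp1 (by omega)
      have hnle : ¬ E ≤ A := fun h => by
        have := Subgroup.card_le_of_le h
        omega
      obtain ⟨y, hyE, hyA⟩ := SetLike.not_le_iff_exists.mp hnle
      apply hyA
      apply hC y (hEab.2 y hyE)
      rw [mem_centralizer_iff]
      intro a ha
      exact (mem_center_iff.mp (hAc a ha) y).symm
    · have hk2' : k = 2 := by omega
      rw [hk2'] at hk
      obtain ⟨y, hyE, hyC, hyA⟩ := exists_mem_centralizer_notMem hG A hA hk E hE (by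
        rw [hE4]; exact Nat.pow_le_pow_right hp0 (by norm_num))
      exact hyA (hC y (hEab.2 y hyE) hyC)
  rw [hk3] at hk
  obtain ⟨W, a, hWA, hWE, hWn, hWc, haA, haW, hac, hker⟩ := exists_plane hG A hA hk hC E hE hE4
  have hgenA : ∀ d ∈ A, d ∉ W → W ⊔ zpowers d = A := by
    intro d hdA hdW
    have hdp : d ^ p ∈ W := by rw [hAab.2 d hdA]; exact one_mem _
    apply Subgroup.eq_of_le_of_card_ge
    · exact sup_le hWA (zpowers_le.mpr hdA)
    · rw [card_sup_zpowers W hdW hdp, hWc, hk]
      apply le_of_eq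
      ring
  have hcentA : ∀ d ∈ A, d ∉ W → ∀ x : G, (∀ w ∈ W, x * w = w * x) → x * d = d * x →
      x ∈ centralizer (A : Set G) := by
    intro d hdA hdW x hx1 hx2
    rw [mem_centralizer_iff]
    have hle : A ≤ centralizer ({x} : Set G) := by
      rw [← hgenA d hdA hdW]
      refine sup_le ?_ ?_
      · intro m hm
        exact mem_centralizer_singleton_iff.mpr (hx1 m hm).symm
      · rw [zpowers_le]
        exact mem_centralizer_singleton_iff.mpr hx2.symm
    intro b hb
    exact (mem_centralizer_singleton_iff.mp (hle hb))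
  have hfactor : ∀ {y : G}, (∀ w ∈ W, y * w = w * y) →
      ∃ e ∈ E, e⁻¹ * y ∈ centralizer (A : Set G) := fun hy =>
    exists_factor A E W a hE hE4 hWE hWc hac (fun x h1 h2 => hcentA a haA haW x h1 h2) hker hy
  -- normality of `E`
  by_contra hnormal
  have hnot : ¬ E.Normal := fun h =>
    hnormal ⟨E, h, hE, hE4⟩
  set N : Subgroup G := normalizer (E : Set G) with hN
  have hNtop : N ≠ ⊤ := by
    intro h
    apply hnot
    exact Subgroup.normalizer_eq_top_iff.mp h
  haveI : Group.IsNilpotent G := hG.isNilpotent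
  have hcond := normalizerCondition_of_isNilpotent (G := G) N (lt_top_iff_ne_top.mpr hNtop)
  obtain ⟨g, hgN', hgN⟩ := SetLike.exists_of_lt hcond
  have hEN : E ≤ N := Subgroup.le_normalizer
  have hginv : g⁻¹ ∈ normalizer (N : Set G) := inv_mem hgN'
  have hgmem : ∀ u : G, u ∈ N ↔ g * u * g⁻¹ ∈ N := fun u => mem_normalizer_iff.mp hgN' u
  set E' : Subgroup G := E.map (MulAut.conj g).toMonoidHom with hE'
  have hE'mem : ∀ x, x ∈ E' ↔ g⁻¹ * x * g ∈ E := by
    intro x
    constructor
    · rintro ⟨e, he, rfl⟩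
      have : g⁻¹ * (MulAut.conj g).toMonoidHom e * g = e := by
        simp [MulAut.conj_apply]; group
      rw [this]; exact he
    · intro hx
      refine ⟨_, hx, ?_⟩
      simp [MulAut.conj_apply]; group
  have hE'N : E' ≤ N := by
    rintro _ ⟨e, he, rfl⟩
    simpa [MulAut.conj_apply] using (hgmem e).1 (hEN he)
  have hE'n : ∀ u ∈ N, ∀ x ∈ E', u * x * u⁻¹ ∈ E' := by
    intro u hu x hx
    rw [hE'mem] at hx ⊢
    have hu' : g⁻¹ * u * g ∈ N := by
      have := (mem_normalizer_iff.mp hginv u).1 hu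
      simpa using this
    have h1 := (mem_normalizer_iff.mp hu' _).1 hx
    convert h1 using 1
    group
  have hE'ab : ∀ x ∈ E', ∀ y ∈ E', x * y = y * x := by
    intro x hx y hy
    rw [hE'mem] at hx hy
    have := hEab.1 _ hx _ hy
    have h2 := congrArg (fun t => g * t * g⁻¹) this
    convert h2 using 1 <;> group
  have hE'p : ∀ x ∈ E', x ^ p = 1 := by
    rintro _ ⟨e, he, rfl⟩
    rw [← map_pow, hEab.2 e he, map_one]
  have hWE' : W ≤ E' := by
    intro w hw
    rw [hE'mem]
    apply hWE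
    have := hWn.conj_mem w hw g⁻¹
    simpa using this
  have hE'c : Nat.card E' = p ^ 4 := by
    rw [hE', Subgroup.card_map_of_injective (MulAut.conj g).injective, hE4]
  -- elements of `E'` centralize `W`
  have hcW : ∀ x ∈ E', ∀ w ∈ W, x * w = w * x := fun x hx w hw => hE'ab x hx w (hWE' hw)
  -- `E'` is not in `E`
  have hnle : ¬ E' ≤ E := by
    intro hle
    have heq : E' = E := Subgroup.eq_of_le_of_card_ge hle (by rw [hE'c, hE4])
    apply hgN
    rw [mem_normalizer_iff]
    intro h
    constructor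
    · intro hh
      rw [← heq]
      exact ⟨h, hh, rfl⟩
    · intro hh
      rw [← heq, hE'mem] at hh
      simpa [mul_assoc] using hh
  -- decomposition
  have hchoose : p ∣ p.choose 2 := prime_dvd_choose_two hp
  have hdecomp : ∀ x ∈ E', ∃ e ∈ E, e⁻¹ * x ∈ A := by
    intro x hx
    obtain ⟨e, he, hd⟩ := hfactor (hcW x hx)
    refine ⟨e, he, hC _ ?_ hd⟩
    have hu : e⁻¹ ∈ E := inv_mem he
    have hc1 : ⁅x, e⁻¹⁆ ∈ E := by
      rw [commutatorElement_def]
      have := (mem_normalizer_iff.mp (hE'N hx) _).1 hu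
      exact mul_mem this (inv_mem hu)
    have hc2 : ⁅x, e⁻¹⁆ ∈ E' := by
      have h3 := hE'n _ (hEN hu) _ (inv_mem hx)
      have e1 : ⁅x, e⁻¹⁆ = x * (e⁻¹ * x⁻¹ * e⁻¹⁻¹) := by
        simp only [commutatorElement_def]; group
      rw [e1]
      exact mul_mem hx h3
    have hcu : Commute e⁻¹ ⁅x, e⁻¹⁆ := hEab.1 _ hu _ hc1
    have hcx : Commute x ⁅x, e⁻¹⁆ := hE'ab _ hx _ hc2
    rw [mul_pow_of_commutator_central hcu hcx p, hEab.2 _ hu, hE'p x hx]
    obtain ⟨t, ht⟩ := hchoose
    rw [ht, pow_mul, hEab.2 _ hc1, one_pow]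
    simp
  obtain ⟨x, hxE', hxE⟩ := SetLike.not_le_iff_exists.mp hnle
  have hxW : x ∉ W := fun h => hxE (hWE h)
  obtain ⟨e₀, he₀, hd⟩ := hdecomp x hxE'
  set d : G := e₀⁻¹ * x with hddef
  have hdW : d ∉ W := by
    intro hdW
    apply hxE
    have : x = e₀ * d := by rw [hddef]; group
    rw [this]
    exact mul_mem he₀ (hWE hdW)
  have hxnorm : zpowers x ≤ normalizer (E : Set G) := zpowers_le.mpr (hE'N hxE')
  have hsub : E' ≤ W ⊔ zpowers x := by
    intro x' hx'
    obtain ⟨e₁, he₁, hd'⟩ := hdecomp x' hx'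
    -- `x'` lies in `E ⟨x⟩`
    have hdT : d ∈ E ⊔ zpowers x :=
      mul_mem ((le_sup_left : E ≤ E ⊔ zpowers x) (inv_mem he₀))
        ((le_sup_right : zpowers x ≤ E ⊔ zpowers x) (mem_zpowers x))
    have hAT : A ≤ E ⊔ zpowers x := by
      rw [← hgenA d hd hdW]
      refine sup_le (le_trans hWE le_sup_left) ?_
      rw [zpowers_le]
      exact hdT
    have hx'T : x' ∈ E ⊔ zpowers x := by
      have : x' = e₁ * (e₁⁻¹ * x') := by group
      rw [this]
      exact mul_mem ((le_sup_left : E ≤ E ⊔ zpowers x) he₁) (hAT hd')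
    have hx'T' : x' ∈ ((E ⊔ zpowers x : Subgroup G) : Set G) := hx'T
    rw [Subgroup.coe_mul_of_right_le_normalizer_left E (zpowers x) hxnorm] at hx'T'
    obtain ⟨e₂, he₂, t, ht, hx't⟩ := Set.mem_mul.mp hx'T'
    have he₂e : e₂ = x' * t⁻¹ := by
      rw [← hx't]; group
    have htE' : t ∈ E' := (zpowers_le.mpr hxE') ht
    have he₂E' : e₂ ∈ E' := by
      rw [he₂e]
      exact mul_mem hx' (inv_mem htE')
    have he₂W : e₂ ∈ W := by
      apply hker
      refine ⟨he₂, hcentA d hd hdW e₂ (fun w hw => hEab.1 _ he₂ _ (hWE hw)) ?_⟩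
      have h1 : e₂ * x = x * e₂ := hE'ab _ he₂E' _ hxE'
      have h2 : e₂ * e₀⁻¹ = e₀⁻¹ * e₂ := hEab.1 _ he₂ _ (inv_mem he₀)
      rw [hddef, ← mul_assoc, h2, mul_assoc, h1, mul_assoc]
    rw [← hx't]
    exact mul_mem ((le_sup_left : W ≤ W ⊔ zpowers x) he₂W)
      ((le_sup_right : zpowers x ≤ W ⊔ zpowers x) ht)
  have hcard := Subgroup.card_le_of_le hsub
  rw [hE'c, card_sup_zpowers W hxW (by rw [hE'p x hxE']; exact one_mem _), hWc] at hcard
  have h3 : p ^ 2 * p < p ^ 4 := by
    calc p ^ 2 * p = p ^ 3 := by ring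
      _ < p ^ 4 := Nat.pow_lt_pow_right hp1 (by norm_num)
  omega

end Cfsg.Agent.S0122
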