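import Cfsg.Statements.S0123
import Mathlib
import Cfsg.Agent.Lib.PGroup.ClassThree
-- import your own Cfsg.Agent.* helpers here

set_option autoImplicit false
open Cfsg

namespace Cfsg.Agent.S0123

/-- For a p-group of small class relative to p (class ≤ 2 with p odd, or class ≤ 3 with p > 3) whose derived subgroup is generated by elements of order dividing p, the p-th power map is multiplicative. -/
theorem result {R : Type*} [Group R] [Finite R] {p : ℕ} [Fact p.Prime] (hR : IsPGroup p R) (hcl : (p ≠ 2 ∧ ⁅commutator R, (⊤ : Subgroup R)⁆ = ⊥) ∨ (3 < p ∧ ⁅⁅commutator R, (⊤ : Subgroup R)⁆, (⊤ : Subgroup R)⁆ = ⊥)) (hder : commutator R ≤ Subgroup.closure {x : R | x ^ p = 1}) (x y : R) : (x * y) ^ p = x ^ p * y ^ p := by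
  have hp' : p.Prime := Fact.out
  open scoped commutatorElement in
  have hmem : ∀ a b : R, ⁅a, b⁆ ∈ commutator R := fun a b => by
    rw [commutator_def]
    exact Subgroup.commutator_mem_commutator (Subgroup.mem_top _) (Subgroup.mem_top _)
  rcases hcl with ⟨hp2, hc⟩ | ⟨hp3, hc⟩
  · have hcl3 : ⁅⁅commutator R, (⊤ : Subgroup R)⁆, (⊤ : Subgroup R)⁆ = ⊥ := by
      rw [hc, Subgroup.commutator_bot_left]
    have hexp : ∀ g ∈ commutator R, g ^ p = 1 := fun g hg =>
      Cfsg.Agent.Lib.PGroup.ClassThree.closure_pow_eq_one hcl3 hp' hp2 (Or.inr hc) (hder hg)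
    open scoped commutatorElement in
    have hz : ∀ a z : R, ⁅a, z⁆ ∈ commutator R → ∀ w : R, ⁅⁅a, z⁆, w⁆ = 1 := fun a z h w => by
      have := Subgroup.commutator_mem_commutator h (Subgroup.mem_top w)
      rwa [hc, Subgroup.mem_bot] at this
    exact Cfsg.Agent.Lib.PGroup.ClassThree.mul_pow_eq_of_comm hcl3 hp' hp2 x y
      (Or.inr ⟨hz _ _ (hmem _ _) _, hz _ _ (hmem _ _) _⟩) (hexp _ (hmem _ _)) (hexp _ (hmem _ _))
      (hexp _ (hmem _ _))
  · have hexp : ∀ g ∈ commutator R, g ^ p = 1 := fun g hg =>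
      Cfsg.Agent.Lib.PGroup.ClassThree.closure_pow_eq_one hc hp' (by omega) (Or.inl hp3) (hder hg)
    exact Cfsg.Agent.Lib.PGroup.ClassThree.mul_pow_eq_of_comm hc hp' (by omega) x y
      (Or.inl hp3) (hexp _ (hmem _ _)) (hexp _ (hmem _ _)) (hexp _ (hmem _ _))

end Cfsg.Agent.S0123
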