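import Cfsg.Statements.S0125
import Cfsg.Agent.Lib.Transfer.Frobenius
import Mathlib
-- import your own Cfsg.Agent.* helpers here

set_option autoImplicit false
open Cfsg

namespace Cfsg.Agent.S0125

/-- The centralizer of a self-centralizing normal subgroup A of a Sylow p-subgroup is the direct product of A with a normal p'-subgroup. -/
theorem result {G : Type*} [Group G] [Finite G] {p : ℕ} [Fact p.Prime] (R : Sylow p G) (A : Subgroup G) (hAR : A ≤ (R : Subgroup G)) (hAn : (R : Subgroup G) ≤ Subgroup.normalizer (A : Set G)) (hC : (R : Subgroup G) ⊓ Subgroup.centralizer (A : Set G) = A) : ∃ H : Subgroup G, H ≤ Subgroup.centralizer (A : Set G) ∧ Nat.Coprime (Nat.card H) p ∧ Subgroup.centralizer (A : Set G) ≤ Subgroup.normalizer (H : Set G) ∧ H ⊓ A = ⊥ ∧ H ⊔ A = Subgroup.centralizer (A : Set G) := by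
  classical
  set C := Subgroup.centralizer (A : Set G) with hCdef
  have hAC : A ≤ C := hC ▸ inf_le_right
  have hAp : IsPGroup p A := R.isPGroup'.to_le hAR
  have hCN : C ≤ Subgroup.normalizer (A : Set G) := Subgroup.centralizer_le_normalizer _
  -- every p-subgroup of C containing A equals A
  have hmax : ∀ T : Subgroup G, IsPGroup p T → A ≤ T → T ≤ C → T ≤ A := by
    intro T hT hAT hTC
    obtain ⟨y, hy⟩ : ∃ y : Subgroup.normalizer (A : Set G), ∀ t : G, t ∈ T → (y : G) * t * (y : G)⁻¹ ∈ (R : Subgroup G) := by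
      have hW : IsPGroup p (T.subgroupOf (Subgroup.normalizer (A : Set G))) :=
        hT.of_equiv (Subgroup.subgroupOfEquivOfLe (hTC.trans hCN)).symm
      obtain ⟨y, hy⟩ := Cfsg.Agent.Lib.Transfer.Frobenius.exists_conj_mem_of_isPGroup (R.subtype hAn) hW
      refine ⟨y, fun t ht => ?_⟩
      have h1 := hy ⟨t, hTC.trans hCN ht⟩ (by rw [Subgroup.mem_subgroupOf]; exact ht)
      rw [Sylow.coe_subtype, Subgroup.mem_subgroupOf] at h1
      exact h1
    intro t ht
    have h1 : (y : G) * t * (y : G)⁻¹ ∈ (R : Subgroup G) ⊓ C := by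
      refine ⟨hy t ht, Subgroup.mem_centralizer_iff.2 ?_⟩
      intro a ha
      have ha' : (y : G)⁻¹ * a * y ∈ A := by
        have := (Subgroup.mem_normalizer_iff.1 (Subgroup.inv_mem _ y.2) a).1 ha
        simpa using this
      have hcomm := Subgroup.mem_centralizer_iff.1 (hTC ht) _ ha'
      calc a * ((y : G) * t * (y : G)⁻¹) = y * (((y : G)⁻¹ * a * y) * t) * (y : G)⁻¹ := by group
        _ = y * (t * ((y : G)⁻¹ * a * y)) * (y : G)⁻¹ := by rw [hcomm]
        _ = (y : G) * t * (y : G)⁻¹ * a := by group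
    rw [hC] at h1
    have h2 := (Subgroup.mem_normalizer_iff.1 (Subgroup.inv_mem _ y.2) _).1 h1
    have e : (y : G)⁻¹ * ((y : G) * t * (y : G)⁻¹) * (y : G)⁻¹⁻¹ = t := by group
    rwa [e] at h2
  let P_C : Sylow p C :=
    { toSubgroup := A.subgroupOf C
      isPGroup' := hAp.of_equiv (Subgroup.subgroupOfEquivOfLe hAC).symm
      is_maximal' := by
        intro Q hQ hle
        apply le_antisymm _ hle
        intro q hq
        have h1 : (q : G) ∈ A := by
          apply hmax (Q.map C.subtype) (hQ.map _) _ (Subgroup.map_subtype_le _) ⟨q, hq, rfl⟩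
          intro a ha
          exact ⟨⟨a, hAC ha⟩, hle (by rw [Subgroup.mem_subgroupOf]; exact ha), rfl⟩
        rw [Subgroup.mem_subgroupOf]
        exact h1 }
  have hnorm : Subgroup.normalizer ((P_C : Subgroup C) : Set C) ≤ Subgroup.centralizer ((P_C : Subgroup C) : Set C) := by
    intro x _
    rw [Subgroup.mem_centralizer_iff]
    intro h hh
    apply Subtype.ext
    exact Subgroup.mem_centralizer_iff.1 x.2 _ hh
  have hcomp := MonoidHom.ker_transferSylow_isComplement' P_C hnorm
  refine ⟨(MonoidHom.transferSylow P_C hnorm).ker.map C.subtype, Subgroup.map_subtype_le _, ?_, ?_, ?_, ?_⟩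
  · rw [Subgroup.card_map_of_injective Subtype.val_injective]
    exact ((Nat.Prime.coprime_iff_not_dvd Fact.out).2 (MonoidHom.not_dvd_card_ker_transferSylow P_C hnorm)).symm
  · have h1 := Subgroup.le_normalizer_map (H := (MonoidHom.transferSylow P_C hnorm).ker) C.subtype
    rw [Subgroup.normalizer_eq_top, ← MonoidHom.range_eq_map, Subgroup.range_subtype] at h1
    exact h1
  · rw [eq_bot_iff]
    rintro _ ⟨⟨k, hk, rfl⟩, hkA⟩
    have hkP : k ∈ (P_C : Subgroup C) := hkA
    have := (Subgroup.disjoint_def.1 hcomp.disjoint) hk hkP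
    rw [Subgroup.mem_bot, this]
    rfl
  · have h := congrArg (Subgroup.map C.subtype) hcomp.sup_eq_top
    rw [Subgroup.map_sup, ← MonoidHom.range_eq_map, Subgroup.range_subtype] at h
    have h2 : (P_C : Subgroup C).map C.subtype = A := Subgroup.map_subgroupOf_eq_of_le hAC
    rw [h2] at h
    exact h

end Cfsg.Agent.S0125
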