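import Cfsg.Statements.S0127
import Mathlib
import Cfsg.Agent.Lib.PGroup.ModularCyclic
import Cfsg.Agent.Lib.PGroup.Critical
-- import your own Cfsg.Agent.* helpers here

set_option autoImplicit false
open Cfsg

namespace Cfsg.Agent.S0127

open Subgroup Cfsg.Agent.Lib.PGroup.CyclicMax Cfsg.Agent.Lib.PGroup.CyclicMax2 Cfsg.Agent.Lib.PGroup.ModularCyclic

theorem abelian_case {R : Type*} [Group R] [Finite R] {p : ℕ} [hp : Fact p.Prime] (hR : IsPGroup p R)
    (hnc : ¬ IsCyclic R) (C : Subgroup R) (hC : IsCyclic C) (hCi : C.index = p)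
    (hcomm : ∀ x y : R, x * y = y * x) :
    Cfsg.IsElementaryAbelian p (Subgroup.closure {x : R | x ^ p = 1}) ∧
      Nat.card (Subgroup.closure {x : R | x ^ p = 1}) = p ^ 2 := by
  classical
  have hp' := hp.out
  have hEl : ∀ x ∈ Subgroup.closure {x : R | x ^ p = 1}, x ^ p = 1 := by
    intro x hx
    induction hx using Subgroup.closure_induction with
    | mem x hx => exact hx
    | one => exact one_pow p
    | mul x y _ _ hx hy => rw [(show Commute x y from hcomm x y).mul_pow, hx, hy, one_mul]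
    | inv x _ hx => rw [inv_pow, hx, inv_one]
  have hE : Cfsg.IsElementaryAbelian p (Subgroup.closure {x : R | x ^ p = 1}) := by
    rw [Cfsg.Agent.Lib.PGroup.Basic.isElementaryAbelian_iff]
    exact ⟨fun a _ b _ => hcomm a b, hEl⟩
  refine ⟨hE, ?_⟩
  have hu : ¬ UniqueP p R := fun hu => hnc (isCyclic_of_comm_uniqueP hcomm hR hu)
  obtain ⟨E, hEc, hEe⟩ := exists_order_sq_of_not_uniqueP hR hu
  have hEle : E ≤ Subgroup.closure {x : R | x ^ p = 1} := by
    intro x hx
    apply Subgroup.subset_closure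
    exact (Cfsg.Agent.Lib.PGroup.Basic.isElementaryAbelian_iff.mp hEe).2 x hx
  have h1 := Subgroup.card_le_of_le hEle
  rw [hEc] at h1
  -- upper bound
  set W := Subgroup.closure {x : R | x ^ p = 1} with hW
  have h2 : Nat.card (W ⊓ C : Subgroup R) ≤ p := by
    haveI := Fintype.ofFinite C
    have h3 := IsCyclic.card_pow_eq_one_le (α := C) hp'.pos
    let f : (W ⊓ C : Subgroup R) → (Finset.univ.filter (fun a : C => a ^ p = 1)) := fun x =>
      ⟨⟨x.1, (Subgroup.mem_inf.mp x.2).2⟩, by
        simp only [Finset.mem_filter, Finset.mem_univ, true_and]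
        apply Subtype.ext
        simpa using hEl _ (Subgroup.mem_inf.mp x.2).1⟩
    have hf : Function.Injective f := by
      intro x y hxy
      have h5 : ((f x : C) : R) = ((f y : C) : R) := by rw [hxy]
      exact Subtype.ext h5
    have h4 := Nat.card_le_card_of_injective f hf
    rw [Nat.card_eq_fintype_card (α := (Finset.univ.filter (fun a : C => a ^ p = 1))), Fintype.card_coe] at h4
    exact h4.trans h3
  have h3 : C.relIndex W ≤ p := by
    rw [← hCi, ← Subgroup.relIndex_top_right]
    apply Subgroup.relIndex_le_of_le_right le_top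
    rw [Subgroup.relIndex_top_right, hCi]
    exact hp'.ne_zero
  have h4 := Cfsg.Agent.Lib.PGroup.Critical.card_eq_mul_relIndex (inf_le_left : W ⊓ C ≤ W)
  rw [Subgroup.inf_relIndex_left] at h4
  have h5 : Nat.card W ≤ p * p := by
    rw [h4]
    exact Nat.mul_le_mul h2 h3
  rw [pow_two] at h1 ⊢
  omega

theorem nonabelian_case {R : Type*} [Group R] [Finite R] {p : ℕ} [hp : Fact p.Prime] (hodd : p ≠ 2) (hR : IsPGroup p R)
    (C : Subgroup R) (hC : IsCyclic C) (hCi : C.index = p)
    (hna : ∃ x y : R, x * y ≠ y * x) :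
    Cfsg.IsElementaryAbelian p (Subgroup.closure {x : R | x ^ p = 1}) ∧
      Nat.card (Subgroup.closure {x : R | x ^ p = 1}) = p ^ 2 := by
  have hp' := hp.out
  obtain ⟨c, rfl⟩ := exists_zpowers_eq_of_isCyclic C hC
  obtain ⟨k, hk⟩ := IsPGroup.iff_card.mp hR
  have hk0 : k ≠ 0 := by
    rintro rfl
    have h1 := Subgroup.card_mul_index (Subgroup.zpowers c)
    rw [hCi, hk, pow_zero] at h1
    have h2 : p ∣ 1 := ⟨_, by rw [← h1, mul_comm]⟩
    exact hp'.one_lt.ne' (Nat.dvd_one.mp h2)
  obtain ⟨m, rfl⟩ : ∃ m, k = m + 1 := ⟨k - 1, by omega⟩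
  have hc : orderOf c = p ^ m := by
    have h1 := Subgroup.card_mul_index (Subgroup.zpowers c)
    rw [Nat.card_zpowers, hCi, hk, pow_succ] at h1
    exact Nat.eq_of_mul_eq_mul_right hp'.pos h1
  have hsc : SC p m c := sc_of_index hk c hc hna
  have hne : Subgroup.zpowers c ≠ ⊤ := by
    intro ht
    rw [ht, Subgroup.index_top] at hCi
    exact hp'.one_lt.ne hCi
  have hm2 := hsc.two_le hp' hne
  obtain ⟨b, hb, hb2, hb3⟩ := hsc.odd_case hodd hne
  have hO := omegaOne_eq hsc hm2 (Or.inl hodd) hb2 hb3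
  have hE := EE_elementary hsc hm2 hb2
  have hEc := EE_card hsc hm2 hb hb2
  have hrel := relIndex_eq hsc hm2 hb hb2 hb3
  have hle : Subgroup.zpowers c ≤ MM p c := by
    rw [zpowers_le, MM, mem_centralizer_powerClosure]
    exact ((Commute.refl c).pow_right p).eq
  have hcardM := Cfsg.Agent.Lib.PGroup.Critical.card_eq_mul_relIndex hle
  rw [hrel, Nat.card_zpowers, hc] at hcardM
  have htop : MM p c = ⊤ := by
    apply Subgroup.eq_top_of_card_eq
    rw [hcardM, hk, pow_succ]
  have hW : Subgroup.closure {x : R | x ^ p = 1} = EE p m c b := by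
    rw [← hO, htop, Cfsg.omegaOne]
    simp
  rw [hW]
  exact ⟨hE, hEc⟩

/-- For odd p, in a non-cyclic p-group with a cyclic subgroup of index p, the elements of order dividing p generate an elementary abelian subgroup of order p^2. -/
theorem result {R : Type*} [Group R] [Finite R] {p : ℕ} [Fact p.Prime] (hp : p ≠ 2) (hR : IsPGroup p R) (hnc : ¬ IsCyclic R) (C : Subgroup R) (hC : IsCyclic C) (hCi : C.index = p) : Cfsg.IsElementaryAbelian p (Subgroup.closure {x : R | x ^ p = 1}) ∧ Nat.card (Subgroup.closure {x : R | x ^ p = 1}) = p ^ 2 := by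
  by_cases hcomm : ∀ x y : R, x * y = y * x
  · exact abelian_case hR hnc C hC hCi hcomm
  · push Not at hcomm
    exact nonabelian_case hp hR C hC hCi hcomm

end Cfsg.Agent.S0127
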