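import Cfsg.Statements.S3771
import Mathlib
import Cfsg.Agent.Lib.PGroup.RankThree

set_option autoImplicit false
open Cfsg

namespace Cfsg.Agent.S3771

/-- Let p be a prime and R a finite p-group of p-rank at most 2 (no elementary abelian subgroup of order p³) in which every element has order dividing p. Then R has order at most p³. -/
theorem result {R : Type*} [Group R] [Finite R] {p : ℕ} [Fact p.Prime] (hR : IsPGroup p R) (hrank : Cfsg.PRankLE p 2 R) (hexp : ∀ x : R, x ^ p = 1) : Nat.card R ≤ p ^ 3 := by
  have hpp := (Fact.out : p.Prime)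
  obtain ⟨A, -, hAn, hAc, hAcent⟩ := Cfsg.Agent.Lib.PGroup.RankThree.exists_max_normal_abelian_ge
    hR (⊥ : Subgroup R) inferInstance
  haveI := hAn
  have hAle : Nat.card A ≤ p ^ 2 := hrank A hAc (fun a _ => hexp a)
  obtain ⟨k, hk⟩ := IsPGroup.iff_card.mp (hR.to_subgroup A)
  have hk2 : k ≤ 2 := by
    rw [hk] at hAle
    exact (Nat.pow_le_pow_iff_right hpp.one_lt).mp hAle
  have hidx : Nat.card R = Nat.card A * A.index := (Subgroup.card_mul_index A).symm
  by_cases hk2' : k = 2
  · subst hk2'
    have h1 := Cfsg.Agent.Lib.PGroup.RankThree.index_centralizer_le_of_card_sq hR A hk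
    rw [hAcent] at h1
    rw [hidx, hk]
    calc p ^ 2 * A.index ≤ p ^ 2 * p := Nat.mul_le_mul_left _ h1
      _ = p ^ 3 := by ring
  · -- `A` has order at most `p` and so is central
    have hcent : A ≤ Subgroup.center R := by
      by_cases hbot : A = ⊥
      · rw [hbot]; exact bot_le
      · have hk1 : k = 1 := by
          have : k ≠ 0 := by
            rintro rfl
            apply hbot
            rw [pow_zero] at hk
            exact Subgroup.card_eq_one.mp hk
          omega
        subst hk1
        rw [pow_one] at hk
        have hinf := Cfsg.Agent.Lib.PGroup.Basic.inf_center_ne_bot hR hbot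
        have hle : A ⊓ Subgroup.center R ≤ A := inf_le_left
        have hcard : Nat.card (A ⊓ Subgroup.center R : Subgroup R) ∣ p := by
          rw [← hk]; exact Subgroup.card_dvd_of_le hle
        rcases (Nat.dvd_prime hpp).mp hcard with h1 | h1
        · exact absurd (Subgroup.card_eq_one.mp h1) hinf
        · have : A ⊓ Subgroup.center R = A :=
            Subgroup.eq_of_le_of_card_ge hle (by rw [h1, hk])
          exact inf_eq_left.mp this
    have htop : A = ⊤ := by
      rw [← hAcent]
      rw [eq_top_iff]
      intro x _
      rw [Subgroup.mem_centralizer_iff]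
      intro a ha
      exact (Subgroup.mem_center_iff.mp (hcent ha) x).symm
    rw [hidx, htop, Subgroup.index_top, mul_one, ← htop, hk]
    exact Nat.pow_le_pow_right hpp.pos (by omega)

end Cfsg.Agent.S3771
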