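import Cfsg.Statements.S0128
import Mathlib
import Cfsg.Agent.Lib.PGroup.HallPetrescu
import Cfsg.Agent.Lib.PGroup.NormalRank
import Cfsg.Agent.S3771

set_option autoImplicit false
open Cfsg

namespace Cfsg.Agent.S0128

open Subgroup
open scoped commutatorElement
open Cfsg.Agent.Lib.PGroup.Critical

/-- In a `p`-group of class possibly large: the lower central series strictly decreases. -/
theorem lcs_card_step {R : Type*} [Group R] [Finite R] {p : ℕ} [hp : Fact p.Prime]
    (hR : IsPGroup p R) (n j : ℕ)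
    (h : Nat.card ((⊤ : Subgroup R).lowerCentralSeries n) ≤ p ^ (j + 1)) :
    Nat.card ((⊤ : Subgroup R).lowerCentralSeries (n + 1)) ≤ p ^ j := by
  have hle : (⊤ : Subgroup R).lowerCentralSeries (n + 1) ≤ (⊤ : Subgroup R).lowerCentralSeries n :=
    Subgroup.lowerCentralSeries_antitone _ (Nat.le_succ n)
  by_cases heq : (⊤ : Subgroup R).lowerCentralSeries (n + 1) = (⊤ : Subgroup R).lowerCentralSeries n
  · -- constant from then on, hence trivial
    have hnil : Group.IsNilpotent R := hR.isNilpotent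
    obtain ⟨m, hm⟩ := (_root_.nilpotent_iff_lowerCentralSeries).mp hnil
    have hconst : ∀ k, (⊤ : Subgroup R).lowerCentralSeries (n + k) = (⊤ : Subgroup R).lowerCentralSeries n := by
      intro k
      induction k with
      | zero => rfl
      | succ k ih =>
        have e : (⊤ : Subgroup R).lowerCentralSeries (n + (k + 1)) =
            ⁅(⊤ : Subgroup R).lowerCentralSeries (n + k), (⊤ : Subgroup R)⁆ := rfl
        rw [e, ih]
        exact heq
    have hbot : (⊤ : Subgroup R).lowerCentralSeries n = ⊥ := by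
      rw [← hconst m]
      exact le_bot_iff.mp (hm ▸ Subgroup.lowerCentralSeries_antitone _ (by omega))
    rw [heq, hbot]
    simpa using Nat.one_le_pow _ _ hp.out.pos
  · have hlt : (⊤ : Subgroup R).lowerCentralSeries (n + 1) < (⊤ : Subgroup R).lowerCentralSeries n :=
      lt_of_le_of_ne hle heq
    have h1 := Cfsg.Agent.Lib.PGroup.Regular.card_lt_of_lt hlt
    by_contra hcon
    push Not at hcon
    have h2 := Cfsg.Agent.Lib.PGroup.RankThree.pow_succ_le_card_of_lt hR _ hcon
    omega

universe u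

theorem key {p : ℕ} [hp : Fact p.Prime] (hp3 : 3 < p) :
    ∀ (n : ℕ) (R : Type u) [Group R] [Finite R], Nat.card R = n → IsPGroup p R →
      (∀ E : Subgroup R, Cfsg.IsElementaryAbelian p E → Nat.card E ≤ p ^ 2) →
      ∀ x y : R, x ^ p = 1 → y ^ p = 1 → (x * y) ^ p = 1 := by
  intro n
  induction n using Nat.strong_induction_on with
  | _ n ih =>
  intro R _ _ hn hR hrk x y hx hy
  -- the induction hypothesis for subgroups
  have hsub : ∀ H : Subgroup R, H ≠ ⊤ → ∀ a ∈ H, ∀ b ∈ H, a ^ p = 1 → b ^ p = 1 →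
      (a * b) ^ p = 1 := by
    intro H hH a ha b hb ha' hb'
    have hlt : Nat.card H < n := by
      rw [← hn]
      have := Cfsg.Agent.Lib.PGroup.Regular.card_lt_of_lt (lt_top_iff_ne_top.mpr hH)
      rwa [Subgroup.card_top] at this
    have := ih (Nat.card H) hlt H rfl (hR.to_subgroup H) (fun E hE => by
      have h1 := hrk (E.map H.subtype) ?_
      · rwa [Subgroup.card_map_of_injective H.subtype_injective] at h1
      · rw [Cfsg.Agent.Lib.PGroup.Basic.isElementaryAbelian_iff] at hE ⊢
        constructor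
        · rintro _ ⟨u, hu, rfl⟩ _ ⟨v, hv, rfl⟩
          exact congrArg Subtype.val (hE.1 u hu v hv)
        · rintro _ ⟨u, hu, rfl⟩
          exact congrArg Subtype.val (hE.2 u hu))
      ⟨a, ha⟩ ⟨b, hb⟩ (Subtype.ext ha') (Subtype.ext hb')
    exact congrArg Subtype.val this
  by_cases hcl : closure ({x, y} : Set R) = ⊤
  swap
  · exact hsub _ hcl x (Cfsg.Agent.Lib.PGroup.Regular.mem_closure_pair_left x y) y
      (Cfsg.Agent.Lib.PGroup.Regular.mem_closure_pair_right x y) hx hy
  by_cases hz : zpowers x = ⊤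
  · have hyz : y ∈ zpowers x := by rw [hz]; trivial
    obtain ⟨k, rfl⟩ := mem_zpowers_iff.mp hyz
    have hc : Commute x (x ^ k) := (Commute.refl x).zpow_right k
    rw [hc.mul_pow, hx, hy, one_mul]
  obtain ⟨M, hMc, hxM⟩ := (eq_top_or_exists_le_coatom (zpowers x)).resolve_left hz
  haveI hMn : M.Normal := Cfsg.Agent.Lib.PGroup.Basic.normal_of_isCoatom hR hMc
  have hMtop : M ≠ ⊤ := hMc.1
  have hxM' : x ∈ M := hxM (mem_zpowers x)
  have hyM : y ∉ M := by
    intro hyM
    apply hMtop
    rw [eq_top_iff, ← hcl]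
    exact Cfsg.Agent.Lib.PGroup.Regular.closure_pair_le hxM' hyM
  let M₁ : Subgroup R :=
    { carrier := {m | m ∈ M ∧ m ^ p = 1}
      one_mem' := ⟨M.one_mem, one_pow p⟩
      mul_mem' := fun {a b} ha hb => ⟨M.mul_mem ha.1 hb.1, hsub M hMtop a ha.1 b hb.1 ha.2 hb.2⟩
      inv_mem' := fun {a} ha => ⟨M.inv_mem ha.1, by rw [inv_pow, ha.2, inv_one]⟩ }
  haveI hM₁n : M₁.Normal := by
    constructor
    rintro a ⟨ha1, ha2⟩ g
    exact ⟨hMn.conj_mem a ha1 g, by rw [conj_pow, ha2]; group⟩
  have hM₁rank : Cfsg.PRankLE p 2 M₁ := by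
    intro E hE hEe
    have h1 := hrk (E.map M₁.subtype) ?_
    · rwa [Subgroup.card_map_of_injective M₁.subtype_injective] at h1
    · rw [Cfsg.Agent.Lib.PGroup.Basic.isElementaryAbelian_iff]
      constructor
      · rintro _ ⟨u, hu, rfl⟩ _ ⟨v, hv, rfl⟩
        have := hE.is_comm.comm (⟨u, hu⟩ : E) ⟨v, hv⟩
        exact congrArg (fun w : E => ((w : M₁) : R)) this
      · rintro _ ⟨u, hu, rfl⟩
        exact congrArg Subtype.val (hEe u hu)
  have hM₁card : Nat.card M₁ ≤ p ^ 3 :=
    Cfsg.Agent.S3771.result (hR.to_subgroup M₁) hM₁rank (fun a => Subtype.ext a.2.2)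
  have hyM₁ : y ∉ M₁ := fun h => hyM h.1
  have hsup : M₁ ⊔ zpowers y = ⊤ := by
    rw [eq_top_iff, ← hcl]
    exact Cfsg.Agent.Lib.PGroup.Regular.closure_pair_le
      (Subgroup.mem_sup_left ⟨hxM', hx⟩) (Subgroup.mem_sup_right (mem_zpowers y))
  have hcardR : Nat.card R = Nat.card M₁ * p := by
    rw [← card_sup_zpowers M₁ hyM₁ (by rw [hy]; exact one_mem _), hsup, Subgroup.card_top]
  have hindex : M₁.index = p := by
    have := Subgroup.card_mul_index M₁
    rw [hcardR] at this
    exact Nat.eq_of_mul_eq_mul_left Nat.card_pos this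
  have hcomm : commutator R ≤ M₁ := by
    haveI : Fact (Nat.card (R ⧸ M₁)).Prime := by
      rw [← Subgroup.index_eq_card, hindex]; exact hp
    haveI : IsCyclic (R ⧸ M₁) := isCyclic_of_prime_card rfl
    intro z hz
    rw [_root_.commutator_def] at hz
    have hle : ⁅(⊤ : Subgroup R), (⊤ : Subgroup R)⁆ ≤ M₁ := by
      rw [Subgroup.commutator_le]
      intro a _ b _
      rw [← QuotientGroup.eq_one_iff]
      have h3 : ((⁅a, b⁆ : R) : R ⧸ M₁) = ⁅(a : R ⧸ M₁), (b : R ⧸ M₁)⁆ :=
        map_commutatorElement (QuotientGroup.mk' M₁) _ _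
      rw [h3, commutatorElement_eq_one_iff_mul_comm]
      exact IsCyclic.commutative.is_comm.comm _ _
    exact hle hz
  -- the class is small
  have hlcs1 : (⊤ : Subgroup R).lowerCentralSeries 1 ≤ M₁ := hcomm
  have h1 : Nat.card ((⊤ : Subgroup R).lowerCentralSeries 1) ≤ p ^ 3 :=
    le_trans (Subgroup.card_le_of_le hlcs1) hM₁card
  have h2 := lcs_card_step hR 1 2 h1
  have h3 := lcs_card_step hR 2 1 h2
  have h4 := lcs_card_step hR 3 0 h3
  have hbot : (⊤ : Subgroup R).lowerCentralSeries 4 = ⊥ := by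
    rw [pow_zero] at h4
    exact Subgroup.eq_bot_of_card_eq _ (le_antisymm h4 Nat.card_pos)
  have hclass : (⊤ : Subgroup R).lowerCentralSeries (p - 1) = ⊥ := by
    have h4ne : p ≠ 4 := by
      rintro rfl
      exact absurd hp.out (by norm_num)
    have h5 : 4 ≤ p - 1 := by omega
    exact le_bot_iff.mp (hbot ▸ Subgroup.lowerCentralSeries_antitone _ h5)
  obtain ⟨c, hc, law⟩ := Cfsg.Agent.Lib.PGroup.HallPetrescu.powerLaw_of_class_lt hp.out hclass x y
  have hc1 : c = 1 := Cfsg.Agent.Lib.PGroup.Regular.eq_one_of_mem_pw (fun z hz => ?_) hc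
  · rw [law, hx, hy, hc1]; group
  · have : z ∈ commutator R := by
      rw [_root_.commutator_def]
      exact Subgroup.commutator_mono le_top le_top hz
    exact (hcomm this).2

/-- For p > 3, in a p-group of p-rank at most 2 the elements of order dividing p generate a subgroup of exponent dividing p. -/
theorem result {R : Type*} [Group R] [Finite R] {p : ℕ} [Fact p.Prime] (hp : 3 < p) (hR : IsPGroup p R) (hrk : ∀ E : Subgroup R, Cfsg.IsElementaryAbelian p E → Nat.card E ≤ p ^ 2) (g : R) (hg : g ∈ Subgroup.closure {x : R | x ^ p = 1}) : g ^ p = 1 := by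
  induction hg using Subgroup.closure_induction with
  | mem x hx => exact hx
  | one => exact one_pow p
  | mul x y _ _ hx hy => exact key hp _ R rfl hR hrk x y hx hy
  | inv x _ hx => rw [inv_pow, hx, inv_one]

end Cfsg.Agent.S0128
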