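import Cfsg.Statements.S0129
import Mathlib
import Cfsg.Agent.Lib.PGroup.NormalRank
-- import your own Cfsg.Agent.* helpers here

set_option autoImplicit false
open Cfsg

namespace Cfsg.Agent.S0129

open Subgroup Cfsg.Agent.Lib.PGroup.Critical Cfsg.Agent.Lib.PGroup.NormalRank
open scoped commutatorElement

theorem index_step {G : Type*} [Group G] [Finite G] (B : Subgroup G) {x : G}
    (hx : ∀ g : G, ⁅x, g⁆ ∈ B) :
    (centralizer ((B ⊔ zpowers x : Subgroup G) : Set G)).index ≤
      (centralizer (B : Set G)).index * Nat.card B := by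
  have hle : centralizer ((B ⊔ zpowers x : Subgroup G) : Set G) ≤ centralizer (B : Set G) :=
    Subgroup.centralizer_le (SetLike.coe_subset_coe.mpr le_sup_left)
  rw [← Subgroup.relIndex_mul_index hle, mul_comm]
  apply Nat.mul_le_mul_left
  let C := centralizer (B : Set G)
  let C' := centralizer ((B ⊔ zpowers x : Subgroup G) : Set G)
  let f : C ⧸ (C'.subgroupOf C) → B := fun a => ⟨⁅(a.out : G), x⁆, by
    have := B.inv_mem (hx (a.out : G))
    rwa [commutatorElement_inv] at this⟩
  have hf : Function.Injective f := by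
    intro a c hac
    have h1 : ⁅(a.out : G), x⁆ = ⁅(c.out : G), x⁆ := congrArg Subtype.val hac
    rw [commutatorElement_def, commutatorElement_def] at h1
    have h2 : (a.out : G) * x * (a.out : G)⁻¹ = (c.out : G) * x * (c.out : G)⁻¹ := mul_right_cancel h1
    rw [← QuotientGroup.out_eq' a, ← QuotientGroup.out_eq' c, QuotientGroup.eq, Subgroup.mem_subgroupOf]
    have h3 : ((a.out : G)⁻¹ * (c.out : G)) * x = x * ((a.out : G)⁻¹ * (c.out : G)) := by
      have h4 : (c.out : G) * x = (a.out : G) * x * (a.out : G)⁻¹ * (c.out : G) := by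
        rw [h2]; group
      calc ((a.out : G)⁻¹ * (c.out : G)) * x = (a.out : G)⁻¹ * ((c.out : G) * x) := by group
        _ = (a.out : G)⁻¹ * ((a.out : G) * x * (a.out : G)⁻¹ * (c.out : G)) := by rw [h4]
        _ = x * ((a.out : G)⁻¹ * (c.out : G)) := by group
    have h5 : (a.out : G)⁻¹ * (c.out : G) ∈ C := C.mul_mem (C.inv_mem a.out.2) c.out.2
    show ((a.out⁻¹ * c.out : C) : G) ∈ C'
    push_cast
    rw [Subgroup.mem_centralizer_iff]
    have hle2 : (B ⊔ zpowers x : Subgroup G) ≤ centralizer ({(a.out : G)⁻¹ * (c.out : G)} : Set G) := by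
      apply sup_le
      · intro b hb
        rw [Subgroup.mem_centralizer_singleton_iff]
        have := (Subgroup.mem_centralizer_iff.mp h5) b hb
        exact this
      · rw [zpowers_le, Subgroup.mem_centralizer_singleton_iff]
        exact h3.symm
    intro b hb
    have := hle2 hb
    rw [Subgroup.mem_centralizer_singleton_iff] at this
    exact this
  exact Nat.card_le_card_of_injective f hf

theorem chain {G : Type*} [Group G] [Finite G] {p : ℕ} [hp : Fact p.Prime] (hG : IsPGroup p G)
    (A : Subgroup G) [hAn : A.Normal] (a : ℕ) (ha : Nat.card A = p ^ a) (b : ℕ) (hb : b ≤ a) :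
    ∃ B : Subgroup G, B ≤ A ∧ B.Normal ∧ Nat.card B = p ^ b ∧
      (centralizer (B : Set G)).index ≤ p ^ (b.choose 2) := by
  have hp' := hp.out
  induction b with
  | zero =>
    refine ⟨⊥, bot_le, inferInstance, by simp, ?_⟩
    have : centralizer ((⊥ : Subgroup G) : Set G) = ⊤ := by
      rw [eq_top_iff]
      intro g _
      rw [Subgroup.mem_centralizer_iff]
      intro h hh
      rw [SetLike.mem_coe, Subgroup.mem_bot] at hh
      rw [hh]; group
    rw [this]
    simp
  | succ b ih =>
    obtain ⟨B, hBA, hBn, hBc, hBi⟩ := ih (by omega)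
    haveI := hBn
    have hnle : ¬ A ≤ B := by
      intro hle
      have h1 := Subgroup.card_le_of_le hle
      rw [ha, hBc] at h1
      have := (Nat.pow_le_pow_iff_right hp'.one_lt).mp h1
      omega
    obtain ⟨x, hxA, hxB, hxp, hxc⟩ := exists_mem_central_mod hG B A hnle
    refine ⟨B ⊔ zpowers x, sup_le hBA (zpowers_le.mpr hxA), normal_sup_zpowers B hxc, ?_, ?_⟩
    · rw [card_sup_zpowers B hxB hxp, hBc, pow_succ]
    · refine (index_step B hxc).trans ?_
      rw [hBc, Nat.choose_succ_succ' b 1, Nat.choose_one_right, add_comm, pow_add]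
      exact Nat.mul_le_mul_right _ hBi

theorem centralizer_eq {G : Type*} [Group G] [Finite G] {p : ℕ} [hp : Fact p.Prime] (hG : IsPGroup p G)
    (A : Subgroup G) [hAn : A.Normal] (hA : IsMulCommutative A)
    (hmax : ∀ B : Subgroup G, B.Normal → IsMulCommutative B → A ≤ B → B = A) :
    centralizer (A : Set G) ≤ A := by
  by_contra hcon
  obtain ⟨x, hxC, hxA, hxp, hxc⟩ := exists_mem_central_mod hG A (centralizer (A : Set G)) hcon
  have h1 := hmax (A ⊔ zpowers x) (normal_sup_zpowers A hxc) (isMulCommutative_sup_zpowers hA hxC) le_sup_left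
  apply hxA
  rw [← h1]
  exact (le_sup_right : zpowers x ≤ A ⊔ zpowers x) (mem_zpowers x)

/-- The order of a p-group is bounded by p^(a(a+1)/2) when it has a maximal normal abelian subgroup of order p^a. -/
theorem result {G : Type*} [Group G] [Finite G] {p : ℕ} [Fact p.Prime] (hG : IsPGroup p G) (A : Subgroup G) [A.Normal] (hA : IsMulCommutative A) (hmax : ∀ B : Subgroup G, B.Normal → IsMulCommutative B → A ≤ B → B = A) (a : ℕ) (ha : Nat.card A = p ^ a) : Nat.card G ≤ p ^ (a * (a + 1) / 2) := by
  have hp' : p.Prime := Fact.out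
  obtain ⟨B, hBA, hBn, hBc, hBi⟩ := chain hG A a ha a le_rfl
  have hBeq : B = A := by
    apply Subgroup.eq_of_le_of_card_ge hBA
    rw [ha, hBc]
  subst hBeq
  have hC := centralizer_eq hG B hA hmax
  have hCi : B.index ≤ (centralizer (B : Set G)).index := by
    have hC' : centralizer (B : Set G) = B := by
      apply le_antisymm hC
      intro y hy
      rw [Subgroup.mem_centralizer_iff]
      intro h hh
      have := hA.is_comm.comm ⟨h, hh⟩ ⟨y, hy⟩
      exact congrArg Subtype.val this
    rw [hC']
  have hcm := Subgroup.card_mul_index B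
  rw [← hcm, ha]
  have e : a * (a + 1) / 2 = a + a.choose 2 := by
    have h2 : (a + 1).choose 2 = a + a.choose 2 := by
      rw [Nat.choose_succ_succ' a 1, Nat.choose_one_right]
    rw [← h2, Nat.choose_two_right]
    simp [mul_comm]
  rw [e, pow_add]
  exact Nat.mul_le_mul_left _ (hCi.trans hBi)

end Cfsg.Agent.S0129
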