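import Cfsg.Statements.S0130
import Mathlib
import Cfsg.Agent.Lib.PGroup.Basic
import Cfsg.Agent.Lib.PGroup.KInf
import Cfsg.Agent.Lib.PGroup.NormalRank

set_option autoImplicit false
open Cfsg

namespace Cfsg.Agent.S0130

open scoped commutatorElement

section aux
variable {G : Type*} [Group G]

/-- The pair `(x, h)` commutes modulo the normal subgroup `A`: closed under products on the right. -/
theorem comm_mul_right_mem (A : Subgroup G) [A.Normal] {x h₁ h₂ : G} (h1 : ⁅x, h₁⁆ ∈ A)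
    (h2 : ⁅x, h₂⁆ ∈ A) : ⁅x, h₁ * h₂⁆ ∈ A := by
  have e : ⁅x, h₁ * h₂⁆ = ⁅x, h₁⁆ * (h₁ * ⁅x, h₂⁆ * h₁⁻¹) := by
    simp only [commutatorElement_def]; group
  rw [e]
  exact A.mul_mem h1 (Subgroup.Normal.conj_mem inferInstance _ h2 _)

theorem comm_mul_left_mem (A : Subgroup G) [A.Normal] {x₁ x₂ h : G} (h1 : ⁅x₁, h⁆ ∈ A)
    (h2 : ⁅x₂, h⁆ ∈ A) : ⁅x₁ * x₂, h⁆ ∈ A := by
  have e : ⁅x₁ * x₂, h⁆ = (x₁ * ⁅x₂, h⁆ * x₁⁻¹) * ⁅x₁, h⁆ := by
    simp only [commutatorElement_def]; group
  rw [e]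
  exact A.mul_mem (Subgroup.Normal.conj_mem inferInstance _ h2 _) h1

theorem comm_inv_left_mem (A : Subgroup G) [A.Normal] {x h : G} (h1 : ⁅x, h⁆ ∈ A) :
    ⁅x⁻¹, h⁆ ∈ A := by
  have e : ⁅x⁻¹, h⁆ = x⁻¹ * (⁅x, h⁆)⁻¹ * x⁻¹⁻¹ := by
    simp only [commutatorElement_def]; group
  rw [e]
  exact Subgroup.Normal.conj_mem inferInstance _ (A.inv_mem h1) _

theorem comm_pow_left_mem (A : Subgroup G) [A.Normal] {x h : G} (h1 : ⁅x, h⁆ ∈ A) (k : ℕ) :
    ⁅x ^ k, h⁆ ∈ A := by
  induction k with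
  | zero => simp [commutatorElement_def, A.one_mem]
  | succ k ih =>
    rw [pow_succ]
    exact comm_mul_left_mem A ih h1

theorem choose_two_mul (q : ℕ) : 2 * q.choose 2 = q * (q - 1) := by
  rw [Nat.choose_two_right]
  exact Nat.mul_div_cancel' (Nat.even_mul_pred_self q).two_dvd

/-- Elements of `C(A) ∩ M` central in `M` modulo `A`. -/
def modCent (A M : Subgroup G) [A.Normal] : Subgroup G where
  carrier := {x | x ∈ Subgroup.centralizer (A : Set G) ∧ x ∈ M ∧ ∀ m ∈ M, ⁅x, m⁆ ∈ A}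
  mul_mem' := by
    rintro a b ⟨ha1, ha2, ha3⟩ ⟨hb1, hb2, hb3⟩
    exact ⟨Subgroup.mul_mem _ ha1 hb1, M.mul_mem ha2 hb2,
      fun m hm => comm_mul_left_mem A (ha3 m hm) (hb3 m hm)⟩
  one_mem' := ⟨Subgroup.one_mem _, M.one_mem, fun m _ => by simp [A.one_mem]⟩
  inv_mem' := by
    rintro a ⟨ha1, ha2, ha3⟩
    exact ⟨Subgroup.inv_mem _ ha1, M.inv_mem ha2, fun m hm => comm_inv_left_mem A (ha3 m hm)⟩

theorem conj_mem_centralizer (A : Subgroup G) [A.Normal] {x : G}
    (hx : x ∈ Subgroup.centralizer (A : Set G)) (h : G) :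
    h * x * h⁻¹ ∈ Subgroup.centralizer (A : Set G) := by
  refine Subgroup.mem_centralizer_iff.2 fun a ha => ?_
  have hb : h⁻¹ * a * h ∈ A := by
    have := Subgroup.Normal.conj_mem (inferInstance : A.Normal) a ha h⁻¹
    simpa using this
  have h1 := (Subgroup.mem_centralizer_iff.1 hx) _ hb
  calc a * (h * x * h⁻¹) = h * ((h⁻¹ * a * h) * x) * h⁻¹ := by group
    _ = h * (x * (h⁻¹ * a * h)) * h⁻¹ := by rw [h1]
    _ = h * x * h⁻¹ * a := by group

end aux

/-- The heart: fixed point for the action on `S / A`. -/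
theorem key {G : Type*} [Group G] [Finite G] {p : ℕ} [Fact p.Prime] (hG : IsPGroup p G) (n : ℕ)
    (hn : p ^ n ≠ 2) (A : Subgroup G) [A.Normal] (hA : IsMulCommutative A)
    (hAe : ∀ a ∈ A, a ^ p ^ n = 1) :
    ∀ (k : ℕ) (H : Subgroup G), Nat.card H = k → A ≤ H → ∀ y0 ∈ H,
      y0 ∈ Subgroup.centralizer (A : Set G) → y0 ^ p ^ n = 1 → y0 ∉ A →
      ∃ y ∈ H, y ∈ Subgroup.centralizer (A : Set G) ∧ y ^ p ^ n = 1 ∧ y ∉ A ∧
        ∀ h ∈ H, ⁅y, h⁆ ∈ A := by
  have hp : p.Prime := Fact.out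
  intro k
  induction k using Nat.strong_induction_on with
  | _ k ih =>
  intro H hk hAH y0 hy0H hy0C hy0n hy0A
  have hKle : A ⊔ Subgroup.zpowers y0 ≤ H := sup_le hAH (by rwa [Subgroup.zpowers_le])
  by_cases hK : A ⊔ Subgroup.zpowers y0 = H
  · refine ⟨y0, hy0H, hy0C, hy0n, hy0A, ?_⟩
    intro h hh
    have hle : A ⊔ Subgroup.zpowers y0 ≤ Subgroup.centralizer {y0} := by
      apply sup_le
      · intro a ha
        rw [Subgroup.mem_centralizer_singleton_iff]
        exact ((Subgroup.mem_centralizer_iff.1 hy0C) a ha)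
      · rw [Subgroup.zpowers_le, Subgroup.mem_centralizer_singleton_iff]
    rw [← hK] at hh
    have h1 := hle hh
    rw [Subgroup.mem_centralizer_singleton_iff] at h1
    have : ⁅y0, h⁆ = 1 := by
      rw [commutatorElement_eq_one_iff_commute]
      exact h1.symm
    rw [this]
    exact A.one_mem
  · have hK' : (A ⊔ Subgroup.zpowers y0).subgroupOf H ≠ ⊤ := by
      intro h
      rw [Subgroup.subgroupOf_eq_top] at h
      exact hK (le_antisymm hKle h)
    obtain ⟨M', hM', hKM⟩ := (eq_top_or_exists_le_coatom _).resolve_left hK'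
    have hHp : IsPGroup p H := hG.to_subgroup H
    have hM'n := Cfsg.Agent.Lib.PGroup.Basic.normal_of_isCoatom hHp hM'
    have hM'i := Cfsg.Agent.Lib.PGroup.Basic.index_eq_of_isCoatom hHp hM'
    set M : Subgroup G := M'.map H.subtype with hMdef
    have hMH : M ≤ H := Subgroup.map_subtype_le M'
    have hmemM : ∀ x (hx : x ∈ H), x ∈ M ↔ (⟨x, hx⟩ : H) ∈ M' := by
      intro x hx
      constructor
      · rintro ⟨y, hy, rfl⟩
        exact hy
      · intro h
        exact ⟨_, h, rfl⟩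
    have hKM' : A ⊔ Subgroup.zpowers y0 ≤ M := by
      intro x hx
      refine (hmemM x (hKle hx)).2 (hKM ?_)
      exact hx
    have hAM : A ≤ M := le_sup_left.trans hKM'
    have hy0M : y0 ∈ M := hKM' ((le_sup_right : _ ≤ A ⊔ Subgroup.zpowers y0) (Subgroup.mem_zpowers y0))
    have hMnorm : ∀ h ∈ H, ∀ m ∈ M, h * m * h⁻¹ ∈ M := by
      intro h hh m hm
      have hm' := (hmemM m (hMH hm)).1 hm
      have := hM'n.conj_mem _ hm' ⟨h, hh⟩
      exact (hmemM _ (H.mul_mem (H.mul_mem hh (hMH hm)) (H.inv_mem hh))).2 this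
    have hMcard : Nat.card M < Nat.card H := by
      have h1 : Nat.card M = Nat.card M' :=
        Subgroup.card_map_of_injective H.subtype_injective
      have h2 := Subgroup.card_mul_index M'
      rw [hM'i] at h2
      have h3 : Nat.card M' * 1 < Nat.card M' * p :=
        Nat.mul_lt_mul_of_pos_left hp.one_lt Nat.card_pos
      rw [h1, ← h2]
      simpa using h3
    obtain ⟨g, hgH, hgM⟩ : ∃ g ∈ H, g ∉ M := by
      by_contra hcon
      push Not at hcon
      have h5 : Nat.card ↥H ≤ Nat.card ↥M := Nat.card_mono (Set.toFinite _) hcon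
      omega
    obtain ⟨y, hyM, hyC, hyn, hyA, hyc⟩ := ih (Nat.card M) (by omega) M rfl hAM y0 hy0M hy0C hy0n hy0A
    have hVconj : ∀ h ∈ H, ∀ x ∈ modCent A M, h * x * h⁻¹ ∈ modCent A M := by
      rintro h hh x ⟨hx1, hx2, hx3⟩
      refine ⟨conj_mem_centralizer A hx1 h, hMnorm h hh x hx2, fun m hm => ?_⟩
      have hm' : h⁻¹ * m * h ∈ M := by
        have := hMnorm h⁻¹ (H.inv_mem hh) m hm
        simpa using this
      have e : ⁅h * x * h⁻¹, m⁆ = h * ⁅x, h⁻¹ * m * h⁆ * h⁻¹ := by
        simp only [commutatorElement_def]; group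
      rw [e]
      exact Subgroup.Normal.conj_mem inferInstance _ (hx3 _ hm') h
    have hyV : y ∈ modCent A M := ⟨hyC, hyM, hyc⟩
    by_cases hp2 : p = 2
    · subst hp2
      -- `n ≥ 2`
      have hn2 : 2 ≤ n := by
        rcases n with _ | _ | n
        · exfalso
          apply hy0A
          have : y0 = 1 := by simpa using hy0n
          rw [this]
          exact A.one_mem
        · exact absurd (by norm_num) hn
        · omega
      have hprod : ∀ a ∈ H, ∀ b ∈ H, a ∉ M → b ∉ M → a * b ∈ M := by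
        intro a ha b hb ha' hb'
        have h1 := Subgroup.mul_mem_iff_of_index_two hM'i (a := (⟨a, ha⟩ : H)) (b := (⟨b, hb⟩ : H))
        have h2 : (⟨a, ha⟩ : H) ∉ M' := fun h => ha' ((hmemM a ha).2 h)
        have h3 : (⟨b, hb⟩ : H) ∉ M' := fun h => hb' ((hmemM b hb).2 h)
        have h4 : (⟨a, ha⟩ : H) * ⟨b, hb⟩ ∈ M' := h1.2 (iff_of_false h2 h3)
        exact (hmemM (a * b) (H.mul_mem ha hb)).2 h4
      have hginv : g⁻¹ ∉ M := fun h => hgM (by simpa using M.inv_mem h)
      have hggM : g * g ∈ M := hprod g hgH g hgH hgM hgM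
      have hext : ∀ x : G, (∀ m ∈ M, ⁅x, m⁆ ∈ A) → ⁅x, g⁆ ∈ A → ∀ h ∈ H, ⁅x, h⁆ ∈ A := by
        intro x hx1 hx2 h hh
        by_cases hhM : h ∈ M
        · exact hx1 h hhM
        · have h1 : h * g⁻¹ ∈ M := hprod h hh g⁻¹ (H.inv_mem hgH) hhM hginv
          have h2 : h = (h * g⁻¹) * g := by group
          rw [h2]
          exact comm_mul_right_mem A (hx1 _ h1) hx2
      set q := 2 ^ n with hq
      set z := g * y * g⁻¹ with hz
      have hzV : z ∈ modCent A M := hVconj g hgH y hyV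
      have hzn : z ^ q = 1 := by
        rw [hz, conj_pow, hyn]; group
      have hc : ⁅z, y⁆ ∈ A := hzV.2.2 y hyM
      have hcy : Commute y ⁅z, y⁆ := ((Subgroup.mem_centralizer_iff.1 hyC) _ hc).symm
      have hcz : Commute z ⁅z, y⁆ := ((Subgroup.mem_centralizer_iff.1 hzV.1) _ hc).symm
      set u := y * z with hu
      have huq : u ^ q = ⁅z, y⁆ ^ q.choose 2 := by
        rw [hu, Cfsg.Agent.Lib.PGroup.Basic.mul_pow_of_commutator_central hcy hcz, hyn, hzn]
        group
      have huV : u ∈ modCent A M := Subgroup.mul_mem _ hyV hzV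
      have hug : ⁅u, g⁆ ∈ A := by
        have e : ⁅u, g⁆ = ⁅y, z⁆ * (z * ⁅y, g * g⁆ * z⁻¹) := by
          simp only [hu, hz, commutatorElement_def]; group
        rw [e]
        exact A.mul_mem (hyc z hzV.2.1) (Subgroup.Normal.conj_mem inferInstance _ (hyc _ hggM) _)
      have huc : ∀ h ∈ H, ⁅u, h⁆ ∈ A := hext u huV.2.2 hug
      by_cases huA : u ∈ A
      · -- `z ≡ y⁻¹` modulo `A`
        have hex : ∃ j, y ^ 2 ^ j ∈ A := ⟨n, by rw [hyn]; exact A.one_mem⟩
        classical
        have hj0 := Nat.find_spec hex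
        have hj1 : Nat.find hex ≠ 0 := by
          intro h
          rw [h] at hj0
          exact hyA (by simpa using hj0)
        obtain ⟨j, hj⟩ := Nat.exists_eq_succ_of_ne_zero hj1
        have hj2 : y ^ 2 ^ j ∉ A := Nat.find_min hex (by omega)
        rw [hj, Nat.succ_eq_add_one, pow_succ, pow_mul] at hj0
        set v := y ^ 2 ^ j with hv
        have hvC : v ∈ Subgroup.centralizer (A : Set G) := Subgroup.pow_mem _ hyC _
        refine ⟨v, H.pow_mem (hMH hyM) _, hvC, ?_, hj2, ?_⟩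
        · rw [hv, ← pow_mul, mul_comm, pow_mul, hyn, one_pow]
        refine hext v (fun m hm => comm_pow_left_mem A (hyc m hm) _) ?_
        -- compute
        have hzform : z = y⁻¹ * u := by rw [hu]; group
        have hcom : Commute y⁻¹ u := by
          have := (Subgroup.mem_centralizer_iff.1 (Subgroup.inv_mem _ hyC)) u huA
          exact this.symm
        have hzpow : z ^ 2 ^ j = v⁻¹ * u ^ 2 ^ j := by
          rw [hzform, hcom.mul_pow, inv_pow]
        have hgv : g * v * g⁻¹ = v⁻¹ * u ^ 2 ^ j := by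
          rw [← hzpow, hz, conj_pow]
        have hwA : u ^ 2 ^ j ∈ A := A.pow_mem huA _
        have e : ⁅v, g⁆ = v * (u ^ 2 ^ j)⁻¹ * v := by
          have : ⁅v, g⁆ = v * (g * v * g⁻¹)⁻¹ := by
            simp only [commutatorElement_def]; group
          rw [this, hgv]; group
        have hcm := (Subgroup.mem_centralizer_iff.1 hvC) _ (A.inv_mem hwA)
        rw [e, mul_assoc, hcm, ← mul_assoc]
        have h3 : v * v = v ^ 2 := (pow_two v).symm
        rw [h3]
        exact A.mul_mem hj0 (A.inv_mem hwA)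
      · by_cases hu2 : u * u ∈ A
        · -- `c ^ 2 = 1`
          have e1 : u * y * u⁻¹ = ⁅z, y⁆ * y := by
            have : u * y * u⁻¹ = y * ⁅z, y⁆ := by
              simp only [hu, commutatorElement_def]; group
            rw [this]
            exact hcy
          have hcu : Commute u ⁅z, y⁆ := ((Subgroup.mem_centralizer_iff.1 huV.1) _ hc).symm
          have e2 : (u * u) * y * (u * u)⁻¹ = ⁅z, y⁆ * ⁅z, y⁆ * y := by
            calc (u * u) * y * (u * u)⁻¹ = u * (u * y * u⁻¹) * u⁻¹ := by group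
              _ = u * (⁅z, y⁆ * y) * u⁻¹ := by rw [e1]
              _ = (u * ⁅z, y⁆) * y * u⁻¹ := by group
              _ = (⁅z, y⁆ * u) * y * u⁻¹ := by rw [hcu.eq]
              _ = ⁅z, y⁆ * (u * y * u⁻¹) := by group
              _ = ⁅z, y⁆ * ⁅z, y⁆ * y := by rw [e1]; group
          have e3 : (u * u) * y * (u * u)⁻¹ = y := by
            have := (Subgroup.mem_centralizer_iff.1 hyC) _ hu2
            rw [this]; group
          have hc2 : ⁅z, y⁆ * ⁅z, y⁆ = 1 := by
            rw [e3] at e2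
            exact (mul_eq_right.1 e2.symm)
          refine ⟨u, hMH huV.2.1, huV.1, ?_, huA, huc⟩
          rw [huq]
          obtain ⟨r, hr⟩ : ∃ r, q = 4 * r := by
            refine ⟨2 ^ (n - 2), ?_⟩
            rw [hq, show (4 : ℕ) = 2 ^ 2 by norm_num, ← pow_add]
            congr 1
            omega
          have hch : q.choose 2 = 2 * (r * (q - 1)) := by
            have h5 := choose_two_mul q
            have h6 : 2 * q.choose 2 = 2 * (2 * (r * (q - 1))) := by
              rw [h5]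
              calc q * (q - 1) = 4 * r * (q - 1) := by rw [← hr]
                _ = 2 * (2 * (r * (q - 1))) := by ring
            omega
          rw [hch, pow_mul, pow_two, hc2, one_pow]
        · refine ⟨u * u, H.mul_mem (hMH huV.2.1) (hMH huV.2.1), Subgroup.mul_mem _ huV.1 huV.1, ?_, hu2,
            fun h hh => comm_mul_left_mem A (huc h hh) (huc h hh)⟩
          have hcq : ⁅z, y⁆ ^ q = 1 := hAe _ hc
          rw [(Commute.refl u).mul_pow, huq, ← pow_add, ← two_mul, choose_two_mul, pow_mul, hcq, one_pow]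
    · -- `p` odd: the elements of exponent `p ^ n` of `V` form a subgroup
      have hodd : Odd (p ^ n) := (hp.odd_of_ne_two hp2).pow
      let Y : Subgroup G :=
        { carrier := {x | x ∈ modCent A M ∧ x ^ p ^ n = 1}
          mul_mem' := by
            rintro a b ⟨ha, ha'⟩ ⟨hb, hb'⟩
            refine ⟨Subgroup.mul_mem _ ha hb, ?_⟩
            have hc : ⁅b, a⁆ ∈ A := hb.2.2 a ha.2.1
            have hca : Commute a ⁅b, a⁆ := ((Subgroup.mem_centralizer_iff.1 ha.1) _ hc).symm
            have hcb : Commute b ⁅b, a⁆ := ((Subgroup.mem_centralizer_iff.1 hb.1) _ hc).symm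
            rw [Cfsg.Agent.Lib.PGroup.Basic.mul_pow_of_commutator_central hca hcb, ha', hb', one_mul,
              one_mul]
            obtain ⟨r, hr⟩ := hodd
            have hch : (p ^ n).choose 2 = p ^ n * r := by
              have h5 := choose_two_mul (p ^ n)
              have h6 : p ^ n - 1 = 2 * r := by omega
              rw [h6] at h5
              have h7 : 2 * (p ^ n).choose 2 = 2 * (p ^ n * r) := by rw [h5]; ring
              omega
            rw [hch, pow_mul, hAe _ hc, one_pow]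
          one_mem' := ⟨Subgroup.one_mem _, one_pow _⟩
          inv_mem' := by
            rintro a ⟨ha, ha'⟩
            exact ⟨Subgroup.inv_mem _ ha, by rw [inv_pow, ha', inv_one]⟩ }
      have hYconj : ∀ h ∈ H, ∀ x ∈ Y, h * x * h⁻¹ ∈ Y := by
        rintro h hh x ⟨hx, hx'⟩
        refine ⟨hVconj h hh x hx, ?_⟩
        rw [conj_pow, hx']; group
      have hYH : ⁅Y, H⁆ ≤ Y := by
        rw [Subgroup.commutator_le]
        intro x hx h hh
        have e : ⁅x, h⁆ = x * (h * x⁻¹ * h⁻¹) := by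
          simp only [commutatorElement_def]; group
        rw [e]
        exact Y.mul_mem hx (hYconj h hh _ (Y.inv_mem hx))
      have hYA : ¬ Y ≤ A := fun h => hyA (h ⟨hyV, hyn⟩)
      have hnil : Group.IsNilpotent G := hG.isNilpotent
      obtain ⟨x, hxY, hxA, hxc⟩ :=
        Cfsg.Agent.Lib.PGroup.KInf.exists_commutator_mem_of_nilpotent A Y H hYA hYH
      exact ⟨x, hMH hxY.1.2.1, hxY.1.1, hxY.2, hxA, hxc⟩

/-- If A is maximal among the normal abelian subgroups of exponent dividing p^n of a p-group (p^n ≠ 2), then A contains every element of order dividing p^n in its centralizer. -/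
theorem result {G : Type*} [Group G] [Finite G] {p : ℕ} [Fact p.Prime] (hG : IsPGroup p G) (n : ℕ) (hn : p ^ n ≠ 2) (A : Subgroup G) [A.Normal] (hA : IsMulCommutative A) (hAe : ∀ a ∈ A, a ^ p ^ n = 1) (hmax : ∀ B : Subgroup G, B.Normal → IsMulCommutative B → (∀ b ∈ B, b ^ p ^ n = 1) → A ≤ B → B = A) (x : G) (hx : x ∈ Subgroup.centralizer (A : Set G)) (hxn : x ^ p ^ n = 1) : x ∈ A := by
  by_contra hxA
  obtain ⟨y, _, hyC, hyn, hyA, hyc⟩ := key hG n hn A hA hAe _ ⊤ rfl le_top x trivial hx hxn hxA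
  have hnorm : (A ⊔ Subgroup.zpowers y : Subgroup G).Normal :=
    Cfsg.Agent.Lib.PGroup.Critical.normal_sup_zpowers A (fun g => hyc g trivial)
  have hcomm : IsMulCommutative ↥(A ⊔ Subgroup.zpowers y) :=
    Cfsg.Agent.Lib.PGroup.NormalRank.isMulCommutative_sup_zpowers hA hyC
  have hexp : ∀ b ∈ A ⊔ Subgroup.zpowers y, b ^ p ^ n = 1 := by
    intro b hb
    have hb' : b ∈ ((A ⊔ Subgroup.zpowers y : Subgroup G) : Set G) := hb
    rw [Subgroup.normal_mul] at hb'
    obtain ⟨a, ha, c, hc, rfl⟩ := hb'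
    obtain ⟨i, rfl⟩ := Subgroup.mem_zpowers_iff.1 hc
    have hcm : Commute a (y ^ i) := by
      have h1 : y ^ i ∈ Subgroup.centralizer (A : Set G) := Subgroup.zpow_mem _ hyC i
      exact (Subgroup.mem_centralizer_iff.1 h1) a ha
    rw [hcm.mul_pow, hAe a ha, one_mul, ← zpow_natCast, ← zpow_mul, mul_comm, zpow_mul, zpow_natCast, hyn,
      one_zpow]
  have h1 := hmax _ hnorm hcomm hexp le_sup_left
  exact hyA (h1 ▸ (le_sup_right : _ ≤ A ⊔ Subgroup.zpowers y) (Subgroup.mem_zpowers y))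

end Cfsg.Agent.S0130
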