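import Cfsg.Statements.S0131
import Mathlib
-- import your own Cfsg.Agent.* helpers here

set_option autoImplicit false
open Cfsg

namespace Cfsg.Agent.S0131

/-- P/P' has a normal complement in G exactly when the focal subgroup G' ∩ P is as small as possible, namely P'. -/
theorem result {G : Type*} [Group G] [Finite G] {p : ℕ} [Fact p.Prime] (P : Sylow p G) : (∃ N : Subgroup G, N.Normal ∧ N ⊓ (P : Subgroup G) = ⁅(P : Subgroup G), (P : Subgroup G)⁆ ∧ N ⊔ (P : Subgroup G) = ⊤) ↔ commutator G ⊓ (P : Subgroup G) = ⁅(P : Subgroup G), (P : Subgroup G)⁆ := by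
  have hPP : ⁅(P : Subgroup G), (P : Subgroup G)⁆ ≤ commutator G ⊓ (P : Subgroup G) := by
    apply le_inf
    · rw [commutator_def]
      exact Subgroup.commutator_mono le_top le_top
    · exact Subgroup.commutator_le_self _
  constructor
  · rintro ⟨N, hN, hinf, hsup⟩
    apply le_antisymm _ hPP
    have hcomm : commutator G ≤ N := by
      rw [commutator_def, Subgroup.commutator_le]
      intro a _ b _
      have ha : a ∈ (P : Subgroup G) ⊔ N := by rw [sup_comm, hsup]; trivial
      have hb : b ∈ (P : Subgroup G) ⊔ N := by rw [sup_comm, hsup]; trivial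
      obtain ⟨x, hx, n, hn, rfl⟩ := Subgroup.mem_sup_of_normal_right.mp ha
      obtain ⟨y, hy, m, hm, rfl⟩ := Subgroup.mem_sup_of_normal_right.mp hb
      change x * n * (y * m) * (x * n)⁻¹ * (y * m)⁻¹ ∈ N
      rw [← QuotientGroup.eq_one_iff (N := N)]
      have h1 : (QuotientGroup.mk n : G ⧸ N) = 1 := (QuotientGroup.eq_one_iff n).mpr hn
      have h2 : (QuotientGroup.mk m : G ⧸ N) = 1 := (QuotientGroup.eq_one_iff m).mpr hm
      have h3 : x * y * x⁻¹ * y⁻¹ ∈ N := by
        have : x * y * x⁻¹ * y⁻¹ ∈ ⁅(P : Subgroup G), (P : Subgroup G)⁆ := Subgroup.commutator_mem_commutator hx hy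
        rw [← hinf] at this
        exact this.1
      have h4 : (QuotientGroup.mk (x * y * x⁻¹ * y⁻¹) : G ⧸ N) = 1 := (QuotientGroup.eq_one_iff _).mpr h3
      simp only [QuotientGroup.mk_mul, QuotientGroup.mk_inv, mul_inv_rev, h1, h2, mul_one, one_mul, inv_one] at h4 ⊢
      exact h4
    rw [← hinf]
    exact inf_le_inf_right _ hcomm
  · intro hG
    set A := Abelianization G with hA
    set π : G →* A := Abelianization.of with hπ
    set c := Nat.card A with hc
    have hc0 : c ≠ 0 := Nat.card_pos.ne'
    set m := ordCompl[p] c with hm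
    have hcop : Nat.Coprime p m := Nat.coprime_ordCompl Fact.out hc0
    let ψ : G →* A := (powMonoidHom m).comp π
    have hψ : ∀ g, ψ g = (π g) ^ m := fun g => rfl
    refine ⟨ψ.ker, inferInstance, ?_, ?_⟩
    · apply le_antisymm
      · rw [← hG]
        rintro x ⟨hx1, hx2⟩
        refine ⟨?_, hx2⟩
        -- x ∈ P, π x ^ m = 1, so π x = 1
        have h1 : (π x) ^ m = 1 := hx1
        obtain ⟨k, hk⟩ := (P.isPGroup') ⟨x, hx2⟩
        have h2 : (π x) ^ (p ^ k) = 1 := by
          have h3 : x ^ (p ^ k) = 1 := congrArg Subtype.val hk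
          rw [← map_pow, h3, map_one]
        have h3 := pow_gcd_eq_one.mpr ⟨h1, h2⟩
        have h4 : Nat.gcd m (p ^ k) = 1 := (Nat.Coprime.pow_left k hcop).symm
        rw [h4, pow_one] at h3
        exact (QuotientGroup.eq_one_iff x).mp h3
      · apply le_inf
        · refine le_trans (hPP.trans inf_le_left) ?_
          intro x hx
          have h1 : π x = 1 := (QuotientGroup.eq_one_iff x).mpr hx
          rw [MonoidHom.mem_ker, hψ, h1, one_pow]
        · exact Subgroup.commutator_le_self _
    · -- indices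
      have hpg : IsPGroup p ψ.range := by
        rintro ⟨_, g, rfl⟩
        refine ⟨c.factorization p, ?_⟩
        apply Subtype.ext
        show ((π g) ^ m) ^ (p ^ c.factorization p) = 1
        rw [← pow_mul, mul_comm, hm, Nat.ordProj_mul_ordCompl_eq_self]
        exact pow_card_eq_one'
      obtain ⟨j, hj⟩ := IsPGroup.iff_card.mp hpg
      have hindex : ψ.ker.index = p ^ j := by
        rw [Subgroup.index_ker, hj]
      have hP1 : (P : Subgroup G).index.Coprime p := (P.not_dvd_index |> (Nat.Prime.coprime_iff_not_dvd Fact.out).mpr).symm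
      have h2 : (ψ.ker ⊔ (P : Subgroup G)).index ∣ ψ.ker.index := Subgroup.index_dvd_of_le le_sup_left
      have h3 : (ψ.ker ⊔ (P : Subgroup G)).index ∣ (P : Subgroup G).index := Subgroup.index_dvd_of_le le_sup_right
      rw [hindex] at h2
      have h4 : Nat.Coprime (p ^ j) (P : Subgroup G).index := (Nat.Coprime.pow_left j hP1.symm)
      have h5 : (ψ.ker ⊔ (P : Subgroup G)).index = 1 := Nat.eq_one_of_dvd_coprimes h4 h2 h3
      exact Subgroup.index_eq_one.mp h5

end Cfsg.Agent.S0131
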