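import Cfsg.Statements.S0135
import Mathlib
import Cfsg.Agent.Lib.Char.Integrality

set_option autoImplicit false
open Cfsg

namespace Cfsg.Agent.S0135

/-- The degree of an irreducible complex representation of a finite group divides the group order. -/
theorem result {G : Type*} [Group G] [Finite G] {V : Type*} [AddCommGroup V] [Module ℂ V] [FiniteDimensional ℂ V] (ρ : Representation ℂ G V) [ρ.IsIrreducible] : Module.finrank ℂ V ∣ Nat.card G := by
  exact Cfsg.Agent.Lib.Char.Integrality.finrank_dvd_card ρ

end Cfsg.Agent.S0135
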