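import Cfsg.Statements.S0149
import Mathlib
-- import your own Cfsg.Agent.* helpers here

set_option autoImplicit false
open Cfsg

namespace Cfsg.Agent.S0149

/-- Let T be a subset of G meeting each of its conjugates by elements outside its normalizer N only in the identity, and let ψ be a class function of N vanishing on N away from T. Then the function induced from ψ agrees with ψ at every non-identity element of T. -/
theorem result {G : Type*} [Group G] [Fintype G] (T : Set G) (hTI : ∀ g : G, g ∉ Subgroup.normalizer T → ∀ t ∈ T, g * t * g⁻¹ ∈ T → t = 1) (hTN : T ⊆ Subgroup.normalizer T) (ψ : Subgroup.normalizer T → ℂ) (hψ : Cfsg.IsClassFunction (Subgroup.normalizer T) ψ) (hψT : ∀ x : Subgroup.normalizer T, (x : G) ∉ T → ψ x = 0) (t : Subgroup.normalizer T) (htT : (t : G) ∈ T) (ht1 : t ≠ 1) : Cfsg.indFun (Subgroup.normalizer T) ψ t = ψ t := by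
  classical
  have hT1 : (t : G) ≠ 1 := fun h => ht1 (Subtype.ext h)
  have hext1 : ∀ y (hy : y ∈ Subgroup.normalizer T),
      Cfsg.extendByZero (Subgroup.normalizer T) ψ y = ψ ⟨y, hy⟩ := fun y hy =>
    Subtype.val_injective.extend_apply ψ 0 ⟨y, hy⟩
  have hext0 : ∀ y, y ∉ Subgroup.normalizer T →
      Cfsg.extendByZero (Subgroup.normalizer T) ψ y = 0 := fun y hy =>
    Function.extend_apply' _ _ _ (by rintro ⟨a, rfl⟩; exact hy a.2)
  have hsum : ∀ x : G, Cfsg.extendByZero (Subgroup.normalizer T) ψ (x⁻¹ * (t : G) * x) =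
      if x ∈ Subgroup.normalizer T then ψ t else 0 := by
    intro x
    by_cases hx : x ∈ Subgroup.normalizer T
    · rw [if_pos hx]
      have hmem : x⁻¹ * (t : G) * x ∈ Subgroup.normalizer T :=
        Subgroup.mul_mem _ (Subgroup.mul_mem _ (Subgroup.inv_mem _ hx) t.2) hx
      rw [hext1 _ hmem]
      have := hψ t (⟨x, hx⟩⁻¹)
      rw [← this]
      congr 1
      apply Subtype.ext
      simp
    · rw [if_neg hx]
      by_cases hmem : x⁻¹ * (t : G) * x ∈ Subgroup.normalizer T
      · rw [hext1 _ hmem]
        apply hψT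
        intro hT
        have hx' : x⁻¹ ∉ Subgroup.normalizer T := fun h => hx (by simpa using Subgroup.inv_mem _ h)
        exact hT1 (hTI x⁻¹ hx' t htT (by simpa using hT))
      · exact hext0 _ hmem
  unfold Cfsg.indFun
  simp only [hsum]
  rw [Finset.sum_ite, Finset.sum_const_zero, add_zero, Finset.sum_const, nsmul_eq_mul]
  have hcard : ((Finset.univ.filter (fun x => x ∈ Subgroup.normalizer T)).card : ℂ) =
      (Nat.card (Subgroup.normalizer T) : ℂ) := by
    congr 1
    rw [Nat.card_eq_fintype_card, Fintype.card_subtype]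
  rw [hcard]
  have hne : (Nat.card (Subgroup.normalizer T) : ℂ) ≠ 0 := by
    exact_mod_cast (Nat.card_pos (α := Subgroup.normalizer T)).ne'
  field_simp

end Cfsg.Agent.S0149
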