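import Cfsg.Statements.S0157
import Mathlib
import Cfsg.Agent.Lib.Char.PermChar
import Cfsg.Agent.Lib.Char.Virtual
import Cfsg.Agent.Lib.Char.Burnside2

set_option autoImplicit false
open Cfsg

namespace Cfsg.Agent.S0157

open Cfsg.Agent.Lib.Char.PermChar Cfsg.Agent.Lib.Char.Virtual MulAction

theorem count_iff {G : Type*} [Group G] [Finite G] (X : Type*) [MulAction G X] [Finite X]
    [MulAction.IsPretransitive G X] (hX : 2 ≤ Nat.card X) :
    Nat.card (orbitRel.Quotient G (X × X)) = 2 ↔ IsMultiplyPretransitive G X 2 := by
  classical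
  have hne : Nontrivial X := (Finite.one_lt_card_iff_nontrivial).1 (by omega)
  let f : orbitRel.Quotient G (X × X) → Bool :=
    Quotient.lift (fun p : X × X => decide (p.1 = p.2)) (by
      rintro ⟨a, b⟩ ⟨c, d⟩ ⟨g, hg⟩
      have h1 : g • c = a := congrArg Prod.fst hg
      have h2 : g • d = b := congrArg Prod.snd hg
      simp only [decide_eq_decide]
      rw [← h1, ← h2, smul_left_cancel_iff])
  have hfmk : ∀ p : X × X, f (Quotient.mk'' p) = decide (p.1 = p.2) := fun p => rfl
  have hsurj : Function.Surjective f := by
    intro b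
    obtain ⟨x, y, hxy⟩ := exists_pair_ne X
    cases b
    · exact ⟨Quotient.mk'' (x, y), by simp [hfmk, hxy]⟩
    · exact ⟨Quotient.mk'' (x, x), by simp [hfmk]⟩
  haveI : Fintype (orbitRel.Quotient G (X × X)) := Fintype.ofFinite _
  constructor
  · intro h
    have hbij : Function.Bijective f := by
      refine (Fintype.bijective_iff_surjective_and_card f).2 ⟨hsurj, ?_⟩
      rw [← Nat.card_eq_fintype_card, h]
      rfl
    rw [is_two_pretransitive_iff]
    intro a b c d hab hcd
    have h1 : f (Quotient.mk'' (c, d)) = f (Quotient.mk'' (a, b)) := by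
      simp [hfmk, hab, hcd]
    have h2 := hbij.1 h1
    have h3 : (c, d) ∈ orbit G (a, b) := Quotient.exact' h2
    obtain ⟨g, hg⟩ := h3
    exact ⟨g, congrArg Prod.fst hg, congrArg Prod.snd hg⟩
  · intro h
    have hinj : Function.Injective f := by
      intro q q' hq
      induction q using Quotient.inductionOn' with | _ p => ?_
      induction q' using Quotient.inductionOn' with | _ p' => ?_
      obtain ⟨a, b⟩ := p
      obtain ⟨c, d⟩ := p'
      rw [hfmk, hfmk] at hq
      simp only [decide_eq_decide] at hq
      apply Quotient.sound'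
      show (a, b) ∈ orbit G (c, d)
      by_cases hab : a = b
      · obtain ⟨g, hg⟩ := exists_smul_eq G c a
        have hcd := hq.1 hab
        refine ⟨g, ?_⟩
        show (g • c, g • d) = (a, b)
        rw [← hcd, hg, hab]
      · have hcd : c ≠ d := fun h' => hab (hq.2 h')
        obtain ⟨g, h1, h2⟩ := (is_two_pretransitive_iff.1 h) hcd hab
        exact ⟨g, Prod.ext h1 h2⟩
    have := Nat.card_congr (Equiv.ofBijective f ⟨hinj, hsurj⟩)
    rw [this, Nat.card_eq_fintype_card, Fintype.card_bool]


/-- For a transitive action of a finite group on a finite set with at least two points: the action is 2-transitive if and only if the function sending g to (number of fixed points of g) − 1 is an irreducible character. -/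
theorem result {G : Type*} [Group G] [Finite G] (X : Type*) [MulAction G X] [Finite X] [MulAction.IsPretransitive G X] (hX : 2 ≤ Nat.card X) : Cfsg.IsIrrCharacter G (fun g => (Nat.card (MulAction.fixedBy X g) : ℂ) - 1) ↔ MulAction.IsMultiplyPretransitive G X 2 := by
  classical
  haveI := Fintype.ofFinite G
  haveI := Fintype.ofFinite X
  have hne : Nontrivial X := (Finite.one_lt_card_iff_nontrivial).1 (by omega)
  let one : G → ℂ := fun _ => 1
  let θ : G → ℂ := fun g => (Nat.card (MulAction.fixedBy X g) : ℂ) - 1
  have hθ : θ = permChar G X - one := rfl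
  have hπ1 : Cfsg.classInner (permChar G X) one = 1 := classInner_perm_one_of_transitive
  have h1π : Cfsg.classInner one (permChar G X) = 1 := by
    rw [← classInner_conj_symm, hπ1, map_one]
  have h11 : Cfsg.classInner one one = 1 :=
    Cfsg.Agent.Lib.Char.Ortho.classInner_irr_self Cfsg.Agent.Lib.Char.Burnside2.isIrrCharacter_one
  have hnorm : Cfsg.classInner θ θ = (Nat.card (orbitRel.Quotient G (X × X)) : ℂ) - 1 := by
    rw [hθ, classInner_sub_left, classInner_sub_right, classInner_sub_right,
      classInner_perm_self_eq_orbits, hπ1, h1π, h11]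
    ring
  rw [← count_iff X hX]
  constructor
  · intro h
    have h1 := Cfsg.Agent.Lib.Char.Ortho.classInner_irr_self h
    have h2 : Cfsg.classInner θ θ = 1 := h1
    rw [hnorm] at h2
    have h3 : (Nat.card (orbitRel.Quotient G (X × X)) : ℂ) = 2 := by
      linear_combination h2
    exact_mod_cast h3
  · intro h
    have hn : Cfsg.classInner θ θ = 1 := by
      rw [hnorm, h]
      norm_num
    have hgen : Cfsg.IsGeneralizedCharacter G θ :=
      ⟨permChar G X, one, isCharacter_perm, Cfsg.Agent.Lib.Char.Basic.isCharacter_of_isIrrCharacter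
        Cfsg.Agent.Lib.Char.Burnside2.isIrrCharacter_one, rfl⟩
    rcases isSignedIrr_of_norm_one hgen hn with h3 | h3
    · exact h3
    · exfalso
      obtain ⟨d, hd⟩ := Cfsg.Agent.Lib.Char.Basic.exists_degree_of_isCharacter
        (Cfsg.Agent.Lib.Char.Basic.isCharacter_of_isIrrCharacter h3)
      have h4 : (-θ) 1 = (1 : ℂ) - Nat.card X := by
        show -((Nat.card (MulAction.fixedBy X (1 : G)) : ℂ) - 1) = _
        have h5 : Nat.card (MulAction.fixedBy X (1 : G)) = Nat.card X := by
          rw [MulAction.fixedBy_one_eq_univ]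
          exact Nat.card_congr (Equiv.Set.univ X)
        rw [h5]
        ring
      rw [h4] at hd
      have h6 : (1 : ℤ) - (Nat.card X : ℤ) = (d : ℤ) := by
        have : (((1 : ℤ) - (Nat.card X : ℤ) : ℤ) : ℂ) = ((d : ℤ) : ℂ) := by
          push_cast
          exact hd
        exact_mod_cast this
      omega

end Cfsg.Agent.S0157
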