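import Cfsg.Statements.S0158
import Mathlib
import Cfsg.Agent.Lib.CharFS.Tri

set_option autoImplicit false
open Cfsg

namespace Cfsg.Agent.S0158

open Cfsg.Agent.Lib.CharFS.Tri Cfsg.Agent.Lib.CharFS.Indicator in

/-- The Frobenius–Schur indicator of an irreducible complex representation of a finite group — the average over s of the character at s * s — is 0, 1 or −1, and it vanishes exactly when some character value is not real. -/
theorem result {G : Type*} [Group G] [Fintype G] {V : Type*} [AddCommGroup V] [Module ℂ V] [FiniteDimensional ℂ V] (ρ : Representation ℂ G V) [ρ.IsIrreducible] : ((Nat.card G : ℂ)⁻¹ * ∑ s : G, ρ.character (s * s) = 0 ∨ (Nat.card G : ℂ)⁻¹ * ∑ s : G, ρ.character (s * s) = 1 ∨ (Nat.card G : ℂ)⁻¹ * ∑ s : G, ρ.character (s * s) = -1) ∧ ((Nat.card G : ℂ)⁻¹ * ∑ s : G, ρ.character (s * s) = 0 ↔ ∃ s : G, (ρ.character s).im ≠ 0) := by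
  have hχ : IsIrrCharacter G ρ.character := Cfsg.Agent.Lib.Char.OrthoBasic.isIrrCharacter_character ρ inferInstance
  have hnu : (Nat.card G : ℂ)⁻¹ * ∑ s : G, ρ.character (s * s) = nu ρ.character := by
    simp only [nu, pow_two]
  rw [hnu]
  by_cases h : ∃ s : G, (ρ.character s).im ≠ 0
  · have h0 : nu ρ.character = 0 := by
      apply nu_of_not_real hχ
      obtain ⟨s, hs⟩ := h
      refine ⟨s, fun h2 => hs ?_⟩
      exact Complex.conj_eq_iff_im.1 h2
    exact ⟨Or.inl h0, ⟨fun _ => h, fun _ => h0⟩⟩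
  · have hreal : ∀ g, (starRingEnd ℂ) (ρ.character g) = ρ.character g := by
      intro g
      by_contra hg
      exact h ⟨g, fun h2 => hg (Complex.conj_eq_iff_im.2 h2)⟩
    have h1 := nu_of_real hχ hreal
    refine ⟨Or.inr h1, fun h0 => ?_, fun h2 => absurd h2 h⟩
    rcases h1 with h1 | h1 <;> rw [h0] at h1 <;> norm_num at h1

end Cfsg.Agent.S0158
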