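import Cfsg.Statements.S0162
import Mathlib
import Cfsg.Agent.S0160
import Cfsg.Agent.Lib.Char.Burnside2
import Cfsg.Agent.Lib.Char.Integrality
import Cfsg.Agent.Lib.Char.IndNormal
import Cfsg.Agent.Lib.Char.CompleteCor

set_option autoImplicit false
open Cfsg

namespace Cfsg.Agent.S0162

theorem isConj_inv_odd {G : Type*} [Group G] [Finite G] (hodd : Odd (Nat.card G)) (g : G)
    (h : IsConj g g⁻¹) : g = 1 := by
  obtain ⟨c, hc⟩ := isConj_iff.1 h
  have h1 : Commute (c ^ 2) g := by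
    have h2 : c * g⁻¹ * c⁻¹ = g := by
      have h0 : c * g⁻¹ * c⁻¹ = (c * g * c⁻¹)⁻¹ := by group
      rw [h0, hc, inv_inv]
    show c ^ 2 * g = g * c ^ 2
    have h3 : c ^ 2 * g * (c ^ 2)⁻¹ = g := by
      calc c ^ 2 * g * (c ^ 2)⁻¹ = c * (c * g * c⁻¹) * c⁻¹ := by
            simp only [sq, mul_inv_rev]
            group
        _ = g := by rw [hc, h2]
    calc c ^ 2 * g = c ^ 2 * g * (c ^ 2)⁻¹ * c ^ 2 := by group
      _ = g * c ^ 2 := by rw [h3]
  obtain ⟨m, hm⟩ := hodd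
  have h2 : (c ^ 2) ^ (m + 1) = c := by
    rw [← pow_mul]
    have : 2 * (m + 1) = Nat.card G + 1 := by omega
    rw [this, pow_succ, pow_card_eq_one', one_mul]
  have h3 : Commute c g := h2 ▸ h1.pow_left (m + 1)
  have h4 : g = g⁻¹ := by
    rw [← hc, h3.eq]
    simp
  have h5 : g ^ 2 = 1 := by
    rw [sq]
    nth_rewrite 2 [h4]
    exact mul_inv_cancel g
  have h6 : orderOf g ∣ 2 := orderOf_dvd_of_pow_eq_one h5
  have h7 : orderOf g ∣ Nat.card G := orderOf_dvd_natCard g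
  have h8 : orderOf g ∣ Nat.gcd 2 (Nat.card G) := Nat.dvd_gcd h6 h7
  have h9 : Nat.gcd 2 (Nat.card G) = 1 := by
    rw [hm]
    simp
  rw [h9] at h8
  exact orderOf_eq_one_iff.1 (Nat.dvd_one.1 h8)

open Cfsg.Agent.Lib.Char.OrthoBasic in
theorem sq_odd_mod (d : ℕ) (hd : Odd d) : ∃ g : ℕ, d ^ 2 = 1 + 8 * g := by
  obtain ⟨k, rfl⟩ := hd
  obtain ⟨j, hj⟩ : ∃ j, k * (k + 1) = 2 * j := by
    have := Nat.even_mul_succ_self k
    obtain ⟨j, hj⟩ := this
    exact ⟨j, by omega⟩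
  refine ⟨j, ?_⟩
  have : (2 * k + 1) ^ 2 = 4 * (k * (k + 1)) + 1 := by ring
  rw [this, hj]
  ring


/-- If a finite group has odd order, its order is congruent to its number of conjugacy classes modulo 16. -/
theorem result {G : Type*} [Group G] [Finite G] (hodd : Odd (Nat.card G)) : Nat.card G ≡ Nat.card (ConjClasses G) [MOD 16] := by
  classical
  haveI := Fintype.ofFinite G
  let one : Cfsg.IrrCharacter G := ⟨fun _ => 1, Cfsg.Agent.Lib.Char.Burnside2.isIrrCharacter_one⟩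
  have hone : ∀ χ : Cfsg.IrrCharacter G, (∀ g : G, ((χ : G → ℂ) g).im = 0) → χ = one := by
    have hS := Cfsg.Agent.S0160.result (G := G)
    have hC : Nat.card {C : ConjClasses G // ∀ g : G, ConjClasses.mk g = C → IsConj g g⁻¹} = 1 := by
      have hall : ∀ C : {C : ConjClasses G // ∀ g : G, ConjClasses.mk g = C → IsConj g g⁻¹},
          C.1 = ConjClasses.mk 1 := by
        rintro ⟨C, hC⟩
        obtain ⟨x, rfl⟩ := ConjClasses.mk_surjective C
        have := isConj_inv_odd hodd x (hC x rfl)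
        show ConjClasses.mk x = ConjClasses.mk 1
        rw [this]
      rw [Nat.card_eq_one_iff_unique]
      refine ⟨⟨fun a b => Subtype.ext ((hall a).trans (hall b).symm)⟩, ⟨⟨ConjClasses.mk 1, ?_⟩⟩⟩
      intro g hg
      have h1 : IsConj g 1 := ConjClasses.mk_eq_mk_iff_isConj.1 hg
      have h2 : g = 1 := isConj_one_right.1 h1.symm
      rw [h2]
      simp
    rw [hC, Nat.card_eq_one_iff_unique] at hS
    haveI := hS.1
    intro χ hχ
    have h1 := Subsingleton.elim (⟨χ, hχ⟩ : {χ : Cfsg.IrrCharacter G // ∀ g : G, ((χ : G → ℂ) g).im = 0})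
      ⟨one, fun g => by simp [one]⟩
    exact congrArg Subtype.val h1
  -- degrees
  have hdeg : ∀ χ : Cfsg.IrrCharacter G, ∃ d : ℕ, (χ : G → ℂ) 1 = d ∧ d ∣ Nat.card G := by
    rintro ⟨χ, n, ρ, hρ, rfl⟩
    refine ⟨Module.finrank ℂ (Fin n → ℂ), ρ.char_one, ?_⟩
    exact Cfsg.Agent.Lib.Char.Integrality.finrank_dvd_card ρ
  choose d hd1 hd2 using hdeg
  have hdodd : ∀ χ, Odd (d χ) := fun χ => Odd.of_dvd_nat hodd (hd2 χ)
  choose f hf using fun χ => sq_odd_mod (d χ) (hdodd χ)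
  -- conjugation
  let τ : Cfsg.IrrCharacter G → Cfsg.IrrCharacter G := fun χ =>
    ⟨fun g => (starRingEnd ℂ) ((χ : G → ℂ) g), Cfsg.Agent.Lib.Char.IndNormal.isIrrCharacter_conj χ.2⟩
  have hτ2 : ∀ χ, τ (τ χ) = χ := fun χ => by
    apply Subtype.ext
    funext g
    simp [τ]
  have hτd : ∀ χ, d (τ χ) = d χ := fun χ => by
    have h1 := hd1 (τ χ)
    have h2 : ((τ χ : Cfsg.IrrCharacter G) : G → ℂ) 1 = (starRingEnd ℂ) ((χ : G → ℂ) 1) := rfl
    rw [h2, hd1 χ, Complex.conj_natCast] at h1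
    exact_mod_cast h1.symm
  have hτf : ∀ χ, f (τ χ) = f χ := fun χ => by
    have h1 := hf (τ χ)
    rw [hτd, hf χ] at h1
    omega
  have hτne : ∀ χ, χ ≠ one → τ χ ≠ χ := by
    intro χ hχ h
    apply hχ
    apply hone χ
    intro g
    have h1 := congrFun (congrArg Subtype.val h) g
    exact Complex.conj_eq_iff_im.1 h1
  have hτone : τ one = one := by
    apply Subtype.ext
    funext g
    simp [τ, one]
  let T : Finset (Cfsg.IrrCharacter G) := Finset.univ.erase one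
  -- sum over T
  have hpar : ∑ χ ∈ T, ((f χ : ℕ) : ZMod 2) = 0 := by
    refine Finset.sum_involution (fun χ _ => τ χ) ?_ ?_ ?_ ?_
    · intro χ _
      rw [hτf]
      exact CharTwo.add_self_eq_zero _
    · intro χ hχ _
      exact hτne χ (Finset.ne_of_mem_erase hχ)
    · intro χ hχ
      refine Finset.mem_erase.2 ⟨?_, Finset.mem_univ _⟩
      intro h
      apply Finset.ne_of_mem_erase hχ
      rw [← hτ2 χ, h, hτone]
    · intro χ _
      exact hτ2 χ
  have hpar2 : 2 ∣ ∑ χ ∈ T, f χ := by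
    rw [← ZMod.natCast_eq_zero_iff]
    push_cast
    exact hpar
  obtain ⟨e, he⟩ := hpar2
  -- the sum of squares
  have hsq := Cfsg.Agent.Lib.Char.CompleteCor.sum_sq_degrees (G := G)
  have hsq2 : ∑ χ : Cfsg.IrrCharacter G, (d χ) ^ 2 = Nat.card G := by
    have : ((∑ χ : Cfsg.IrrCharacter G, (d χ) ^ 2 : ℕ) : ℂ) = (Nat.card G : ℂ) := by
      rw [← hsq]
      push_cast
      exact Finset.sum_congr rfl fun χ _ => by rw [hd1]
    exact_mod_cast this
  have hdone : d one = 1 := by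
    have h1 := hd1 one
    have h2 : ((one : Cfsg.IrrCharacter G) : G → ℂ) 1 = 1 := rfl
    rw [h2] at h1
    exact_mod_cast h1.symm
  have hsplit : ∑ χ : Cfsg.IrrCharacter G, (d χ) ^ 2 = d one ^ 2 + ∑ χ ∈ T, (d χ) ^ 2 :=
    (Finset.add_sum_erase _ _ (Finset.mem_univ one)).symm
  have hT : ∑ χ ∈ T, (d χ) ^ 2 = T.card + 8 * ∑ χ ∈ T, f χ := by
    rw [Finset.mul_sum, Finset.card_eq_sum_ones, ← Finset.sum_add_distrib]
    exact Finset.sum_congr rfl fun χ _ => hf χ
  have hcardT : T.card + 1 = Nat.card (ConjClasses G) := by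
    rw [← Cfsg.Agent.Lib.Char.CompleteCor.card_irr_eq_card_conjClasses, Nat.card_eq_fintype_card,
      ← Finset.card_univ]
    exact Finset.card_erase_add_one (Finset.mem_univ one)
  rw [← hsq2, hsplit, hT, he, hdone, ← hcardT]
  show (1 ^ 2 + (T.card + 8 * (2 * e))) % 16 = (T.card + 1) % 16
  have : 1 ^ 2 + (T.card + 8 * (2 * e)) = T.card + 1 + 16 * e := by ring
  rw [this]
  simp [Nat.add_mul_mod_self_left]

end Cfsg.Agent.S0162
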