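import Cfsg.Statements.S0166
import Mathlib
import Cfsg.Agent.Lib.Char.SplitField
-- import your own Cfsg.Agent.* helpers here

set_option autoImplicit false
open Cfsg

namespace Cfsg.Agent.S0166



/-- Brauer's splitting field Theorem: a complex representation of a finite group of exponent m is equivalent to a representation by matrices with entries in ℚ adjoined exp(2πi/m). -/
theorem result {G : Type*} [Group G] [Finite G] (n : ℕ) (ρ : Representation ℂ G (Fin n → ℂ)) : ∃ σ : Representation ℂ G (Fin n → ℂ), Nonempty (ρ.Equiv σ) ∧ ∀ g : G, ∀ i j : Fin n, LinearMap.toMatrix' (σ g) i j ∈ Algebra.adjoin ℚ ({Complex.exp (2 * Real.pi * Complex.I / (Monoid.exponent G : ℂ))} : Set ℂ) := by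
  classical
  letI := Fintype.ofFinite G
  have hm : Monoid.exponent G ≠ 0 := Monoid.exponent_ne_zero_of_finite
  have hζ : IsPrimitiveRoot (Complex.exp (2 * Real.pi * Complex.I / (Monoid.exponent G : ℂ)))
      (Monoid.exponent G) := Complex.isPrimitiveRoot_exp _ hm
  set ζ := Complex.exp (2 * Real.pi * Complex.I / (Monoid.exponent G : ℂ)) with hζdef
  let K : IntermediateField ℚ ℂ := IntermediateField.adjoin ℚ ({ζ} : Set ℂ)
  have hζK : ζ ∈ K := IntermediateField.mem_adjoin_simple_self ℚ ζ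
  have hroots : ∀ z : ℂ, z ^ Monoid.exponent G = 1 → z ∈ (algebraMap K ℂ).fieldRange := by
    intro z hz
    obtain ⟨i, -, rfl⟩ := hζ.eq_pow_of_pow_eq_one hz
    exact ⟨(⟨ζ, hζK⟩ : K) ^ i, by simp⟩
  obtain ⟨σ, h1, h2⟩ := Cfsg.Agent.Lib.Char.SplitField.exists_equiv_rep (K := K) hroots ρ
  refine ⟨σ, h1, fun g i j => ?_⟩
  have hint : IsIntegral ℚ ζ := (hζ.isIntegral (Nat.pos_of_ne_zero hm)).tower_top
  rw [← IntermediateField.adjoin_simple_toSubalgebra_of_isAlgebraic hint.isAlgebraic]
  obtain ⟨x, hx⟩ := h2 g i j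
  rw [← hx]
  exact x.2

end Cfsg.Agent.S0166
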