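import Cfsg.Statements.S0168
import Mathlib
import Cfsg.Agent.Lib.Char.Virtual
import Cfsg.Agent.Lib.Char.Values
-- import your own Cfsg.Agent.* helpers here

set_option autoImplicit false
open Cfsg

namespace Cfsg.Agent.S0168

open Polynomial in
theorem vandermonde_aux (s : Finset ℂ) (b : ℂ → ℂ)
    (h : ∀ i < s.card, ∑ a ∈ s, a ^ i * b a = 0) : ∀ a₀ ∈ s, b a₀ = 0 := by
  classical
  intro a₀ ha₀
  let p : ℂ[X] := ∏ a ∈ s.erase a₀, (X - C a)
  have hdeg : p.natDegree < s.card := by
    have hp : p.natDegree = (s.erase a₀).card := by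
      simp only [p]
      rw [Polynomial.natDegree_prod_of_monic _ _ (fun a _ => monic_X_sub_C a)]
      simp
    rw [hp, Finset.card_erase_of_mem ha₀]
    have : 0 < s.card := Finset.card_pos.mpr ⟨a₀, ha₀⟩
    omega
  have hsum : ∑ a ∈ s, p.eval a * b a = 0 := by
    simp_rw [Polynomial.eval_eq_sum_range, Finset.sum_mul]
    rw [Finset.sum_comm]
    refine Finset.sum_eq_zero fun i hi => ?_
    have hi' : i < s.card := by
      have := Finset.mem_range.mp hi
      omega
    have := h i hi'
    calc ∑ a ∈ s, p.coeff i * a ^ i * b a = p.coeff i * ∑ a ∈ s, a ^ i * b a := by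
          rw [Finset.mul_sum]
          refine Finset.sum_congr rfl fun a _ => ?_
          ring
      _ = 0 := by rw [this, mul_zero]
  rw [Finset.sum_eq_single_of_mem a₀ ha₀] at hsum
  · have hne : p.eval a₀ ≠ 0 := by
      simp only [p]
      rw [Polynomial.eval_prod, Finset.prod_ne_zero_iff]
      intro a ha
      simp only [eval_sub, eval_X, eval_C]
      exact sub_ne_zero.mpr (Finset.ne_of_mem_erase ha).symm
    exact (mul_eq_zero.mp hsum).resolve_left hne
  · intro a ha hne
    have : p.eval a = 0 := by
      simp only [p]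
      rw [Polynomial.eval_prod]
      apply Finset.prod_eq_zero (Finset.mem_erase.mpr ⟨hne, ha⟩)
      simp
    rw [this, zero_mul]

/-- The Burnside–Brauer Theorem. Let χ be the character of a faithful complex representation of a finite group, taking m distinct values. Then every irreducible character has nonzero inner product with χ ^ i for some i < m. -/
theorem result {G : Type*} [Group G] [Fintype G] {V : Type*} [AddCommGroup V] [Module ℂ V] [FiniteDimensional ℂ V] (ρ : Representation ℂ G V) (hfaithful : Function.Injective ρ) (ψ : G → ℂ) (hψ : Cfsg.IsIrrCharacter G ψ) : ∃ i : ℕ, i < Nat.card (Set.range ρ.character) ∧ Cfsg.classInner (fun g => ρ.character g ^ i) ψ ≠ 0 := by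
  classical
  by_contra hcon
  push Not at hcon
  set χ := ρ.character with hχdef
  let s : Finset ℂ := Finset.univ.image χ
  have hcard : Nat.card (Set.range χ) = s.card := by
    rw [Nat.card_eq_fintype_card, ← Set.toFinset_card]
    congr 1
    ext a
    simp [s]
  let b : ℂ → ℂ := fun a => ∑ g ∈ Finset.univ.filter (fun g => χ g = a),
    (starRingEnd ℂ) (ψ g)
  have hv := vandermonde_aux s b (fun i hi => by
    have h0 := hcon i (by rw [hcard]; exact hi)
    have hG : (Nat.card G : ℂ) ≠ 0 := by
      have : Nat.card G ≠ 0 := Nat.card_pos.ne'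
      exact_mod_cast this
    rw [classInner, mul_eq_zero] at h0
    have h1 := h0.resolve_left (inv_ne_zero hG)
    rw [← h1]
    rw [← Finset.sum_fiberwise_of_maps_to (s := Finset.univ) (t := s) (g := χ)
      (fun g _ => Finset.mem_image_of_mem χ (Finset.mem_univ g))]
    refine Finset.sum_congr rfl fun a _ => ?_
    rw [Finset.mul_sum]
    refine Finset.sum_congr rfl fun g hg => ?_
    rw [(Finset.mem_filter.mp hg).2]) (χ 1) (Finset.mem_image_of_mem χ (Finset.mem_univ 1))
  have hfilter : Finset.univ.filter (fun g => χ g = χ 1) = {1} := by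
    ext g
    simp only [Finset.mem_filter, Finset.mem_univ, true_and, Finset.mem_singleton]
    constructor
    · intro hg
      have h1 : χ 1 = (Module.finrank ℂ V : ℂ) := by
        simp [hχdef]
      rw [h1] at hg
      have := (Cfsg.Agent.Lib.Char.Values.character_eq_finrank_iff ρ g).mp hg
      apply hfaithful
      rw [this, map_one]
      rfl
    · rintro rfl
      rfl
  simp only [b] at hv
  rw [hfilter, Finset.sum_singleton, map_eq_zero] at hv
  exact Cfsg.Agent.Lib.Char.Virtual.irr_one_ne_zero hψ hv

end Cfsg.Agent.S0168
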