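import Cfsg.Statements.S0198
import Mathlib
import Cfsg.Agent.Lib.Char.Virtual
-- import your own Cfsg.Agent.* helpers here

set_option autoImplicit false
open Cfsg
open Cfsg.Agent.Lib.Char.Virtual

namespace Cfsg.Agent.S0198

theorem trivial_isIrr {G : Type*} [Group G] : IsIrrCharacter G (fun _ => (1 : ℂ)) := by
  refine ⟨1, Representation.trivial ℂ G _, ?_, ?_⟩
  · refine { exists_pair_ne := ⟨⊥, ⊤, fun h => ?_⟩, eq_bot_or_eq_top := ?_ }
    · have h2 : (⊥ : Submodule ℂ (Fin 1 → ℂ)) = ⊤ :=
        congrArg Subrepresentation.toSubmodule h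
      exact bot_ne_top h2
    · intro S
      have hS : S.toSubmodule = ⊥ ∨ S.toSubmodule = ⊤ := by
        by_cases h : S.toSubmodule = ⊥
        · exact Or.inl h
        · right
          obtain ⟨v, hv, hv0⟩ := (Submodule.ne_bot_iff _).mp h
          rw [eq_top_iff]
          intro w _
          have hv00 : v 0 ≠ 0 := by
            intro h0
            apply hv0
            funext i
            rw [Subsingleton.elim i 0, h0]
            rfl
          have : w = (w 0 / v 0) • v := by
            funext i
            rw [Subsingleton.elim i 0]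
            simp [hv00]
          rw [this]
          exact S.toSubmodule.smul_mem _ hv
      rcases hS with h | h
      · left; exact Subrepresentation.toSubmodule_injective h
      · right; exact Subrepresentation.toSubmodule_injective h
  · funext g
    simp [Representation.character]

/-- The isometry lemma behind exceptional characters. Let τ be a family of generalized characters of a finite group G indexed by Fin n, with τ i₀ = 0, every τ i vanishing at the identity, and inner products ⟨τ i, τ j⟩ = 2 if i = j and 1 otherwise for i, j ≠ i₀. Then there are a sign ε and pairwise distinct irreducible characters μ i with τ i = ε (μ i − μ i₀) for all i. -/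
theorem result {G : Type*} [Group G] [Fintype G] (n : ℕ) (i₀ : Fin n) (τ : Fin n → (G → ℂ)) (h0 : τ i₀ = 0) (hgen : ∀ i, Cfsg.IsGeneralizedCharacter G (τ i)) (hone : ∀ i, τ i 1 = 0) (hgram : ∀ i j, i ≠ i₀ → j ≠ i₀ → Cfsg.classInner (τ i) (τ j) = if i = j then 2 else 1) : ∃ ε : ℂ, (ε = 1 ∨ ε = -1) ∧ ∃ μ : Fin n → (G → ℂ), (∀ i, Cfsg.IsIrrCharacter G (μ i)) ∧ Function.Injective μ ∧ ∀ i, τ i = ε • (μ i - μ i₀) := by
  classical
  by_cases hne : ∃ i₁, i₁ ≠ i₀
  swap
  · -- only `i₀`
    push Not at hne
    refine ⟨1, Or.inl rfl, fun _ => fun _ => 1, ?_, ?_, ?_⟩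
    · intro _
      exact trivial_isIrr
    · intro i j _
      rw [hne i, hne j]
    · intro i
      rw [hne i, h0]
      simp
  obtain ⟨i₁, hi₁⟩ := hne
  have hdiff : ∀ i, i ≠ i₀ → ∃ a b : G → ℂ, IsIrrCharacter G a ∧ IsIrrCharacter G b ∧ a ≠ b ∧
      τ i = a - b := by
    intro i hi
    apply exists_of_norm_two_of_one (hgen i) _ (hone i)
    rw [hgram i i hi hi, if_pos rfl]
  choose! a b ha hb hab hτ using hdiff
  have key : ∀ i j, i ≠ i₀ → j ≠ i₀ → i ≠ j →
      (a i = a j ∧ b i ≠ b j) ∨ (b i = b j ∧ a i ≠ a j) := by
    intro i j hi hj hij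
    have h := hgram i j hi hj
    rw [if_neg hij, hτ i hi, hτ j hj, classInner_sub_left, classInner_sub_right,
      classInner_sub_right, Cfsg.Agent.Lib.Char.OrthoBasic.classInner_irr_irr (ha i hi) (ha j hj),
      Cfsg.Agent.Lib.Char.OrthoBasic.classInner_irr_irr (ha i hi) (hb j hj),
      Cfsg.Agent.Lib.Char.OrthoBasic.classInner_irr_irr (hb i hi) (ha j hj),
      Cfsg.Agent.Lib.Char.OrthoBasic.classInner_irr_irr (hb i hi) (hb j hj)] at h
    have hi' := hab i hi
    have hj' := hab j hj
    by_cases h1 : a i = a j <;> by_cases h2 : b i = b j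
    · exfalso
      have h3 : a i ≠ b j := by rw [h1]; exact hj'
      have h4 : b i ≠ a j := by rw [h2]; exact hj'.symm
      simp only [h1, h2, if_true] at h
      rw [if_neg hj', if_neg hj'.symm] at h
      norm_num at h
    · exact Or.inl ⟨h1, h2⟩
    · exact Or.inr ⟨h2, h1⟩
    · exfalso
      rw [if_neg h1, if_neg h2] at h
      by_cases h3 : a i = b j <;> by_cases h4 : b i = a j <;>
        simp only [h3, h4, if_true, if_false] at h <;> norm_num at h
  -- uniformity
  have huni : (∀ i, i ≠ i₀ → b i = b i₁) ∨ (∀ i, i ≠ i₀ → a i = a i₁) := by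
    by_contra hcon
    push Not at hcon
    obtain ⟨⟨j, hj, hbj⟩, ⟨k, hk, hak⟩⟩ := hcon
    have hj1 : i₁ ≠ j := fun h => hbj (by rw [h])
    have hk1 : i₁ ≠ k := fun h => hak (by rw [h])
    have h1 := key i₁ j hi₁ hj hj1
    have h2 := key i₁ k hi₁ hk hk1
    have hjk : j ≠ k := by
      rintro rfl
      rcases h1 with ⟨h, _⟩ | ⟨h, _⟩
      · exact hak h.symm
      · exact hbj h.symm
    have h3 := key j k hj hk hjk
    rcases h1 with ⟨e1, _⟩ | ⟨e1, _⟩
    · rcases h2 with ⟨e2, _⟩ | ⟨e2, e3⟩
      · exact hak e2.symm
      · rcases h3 with ⟨e4, _⟩ | ⟨e4, _⟩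
        · exact hak (by rw [← e4, ← e1])
        · exact hbj (by rw [e4, ← e2])
    · exact hbj e1.symm
  rcases huni with huni | huni
  · -- common `b`
    refine ⟨1, Or.inl rfl, fun i => if i = i₀ then b i₁ else a i, ?_, ?_, ?_⟩
    · intro i
      by_cases hi : i = i₀
      · simp only [hi, if_true]; exact hb i₁ hi₁
      · simp only [if_neg hi]; exact ha i hi
    · intro i j hij
      simp only at hij
      by_contra hne
      by_cases hi : i = i₀
      · have hj : j ≠ i₀ := fun h => hne (by rw [hi, h])
        simp only [hi, if_true, if_neg hj] at hij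
        apply hab j hj
        rw [← hij, huni j hj]
      · by_cases hj : j = i₀
        · simp only [if_neg hi, hj, if_true] at hij
          apply hab i hi
          rw [hij, huni i hi]
        · simp only [if_neg hi, if_neg hj] at hij
          rcases key i j hi hj hne with ⟨_, h2⟩ | ⟨_, h2⟩
          · exact h2 (by rw [huni i hi, huni j hj])
          · exact h2 hij
    · intro i
      by_cases hi : i = i₀
      · subst hi; rw [h0]; simp
      · simp only [if_neg hi, if_true, one_smul]
        rw [hτ i hi, huni i hi]
  · -- common `a`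
    refine ⟨-1, Or.inr rfl, fun i => if i = i₀ then a i₁ else b i, ?_, ?_, ?_⟩
    · intro i
      by_cases hi : i = i₀
      · simp only [hi, if_true]; exact ha i₁ hi₁
      · simp only [if_neg hi]; exact hb i hi
    · intro i j hij
      simp only at hij
      by_contra hne
      by_cases hi : i = i₀
      · have hj : j ≠ i₀ := fun h => hne (by rw [hi, h])
        simp only [hi, if_true, if_neg hj] at hij
        apply hab j hj
        rw [← hij, huni j hj]
      · by_cases hj : j = i₀
        · simp only [if_neg hi, hj, if_true] at hij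
          apply hab i hi
          rw [hij, huni i hi]
        · simp only [if_neg hi, if_neg hj] at hij
          rcases key i j hi hj hne with ⟨_, h2⟩ | ⟨_, h2⟩
          · exact h2 hij
          · exact h2 (by rw [huni i hi, huni j hj])
    · intro i
      by_cases hi : i = i₀
      · subst hi; rw [h0]; simp
      · simp only [if_neg hi, if_true, neg_smul, one_smul, neg_sub]
        rw [hτ i hi, huni i hi]

end Cfsg.Agent.S0198
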