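import Cfsg.Statements.S0170
import Mathlib
import Cfsg.Agent.S0198
import Cfsg.Agent.Lib.Char.Virtual
import Cfsg.Agent.Lib.Char.Induced
import Cfsg.Agent.Lib.Char.IndRep
import Cfsg.Agent.Lib.Char.Basic

set_option autoImplicit false
open Cfsg

namespace Cfsg.Agent.S0170

open Cfsg.Agent.Lib.Char

theorem indFun_sub' {G : Type*} [Group G] [Fintype G] (H : Subgroup G) (a b : H → ℂ) :
    indFun H (a - b) = indFun H a - indFun H b := by
  classical
  funext g
  simp only [Pi.sub_apply, Induced.indFun_apply]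
  rw [← mul_sub, ← Finset.sum_sub_distrib]
  congr 1
  refine Finset.sum_congr rfl fun x _ => ?_
  by_cases hx : x⁻¹ * g * x ∈ H
  · rw [Induced.extendByZero_of_mem _ _ hx, Induced.extendByZero_of_mem _ _ hx,
      Induced.extendByZero_of_mem _ _ hx]
    rfl
  · rw [Induced.extendByZero_of_notMem _ _ hx, Induced.extendByZero_of_notMem _ _ hx,
      Induced.extendByZero_of_notMem _ _ hx, sub_zero]

/-- Exceptional characters. Let S be a subset of a finite group contained in its normalizer N and meeting its conjugates by elements outside N only in the identity. Given n ≥ 2 distinct irreducible characters of N of equal degree that vanish on N away from S, there exist a sign ε and n distinct irreducible characters θ_i of G such that inducing χ_i − χ_j to G gives ε (θ_i − θ_j) for all i, j. -/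
theorem result {G : Type*} [Group G] [Fintype G] (S : Set G) (hSN : S ⊆ Subgroup.normalizer S) (hTI : ∀ g : G, g ∉ Subgroup.normalizer S → ∀ s ∈ S, g * s * g⁻¹ ∈ S → s = 1) (n : ℕ) (hn : 2 ≤ n) (χ : Fin n → (Subgroup.normalizer S → ℂ)) (hirr : ∀ i, Cfsg.IsIrrCharacter (Subgroup.normalizer S) (χ i)) (hinj : Function.Injective χ) (hvan : ∀ i, ∀ x : Subgroup.normalizer S, (x : G) ∉ S → χ i x = 0) (hdeg : ∀ i j, χ i 1 = χ j 1) : ∃ ε : ℂ, (ε = 1 ∨ ε = -1) ∧ ∃ θ : Fin n → (G → ℂ), (∀ i, Cfsg.IsIrrCharacter G (θ i)) ∧ Function.Injective θ ∧ ∀ i j, Cfsg.indFun (Subgroup.normalizer S) (χ i) - Cfsg.indFun (Subgroup.normalizer S) (χ j) = ε • (θ i - θ j) := by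
  classical
  letI : Fintype (Subgroup.normalizer S) := Fintype.ofFinite _
  let i₀ : Fin n := ⟨0, by omega⟩
  let τ : Fin n → (G → ℂ) := fun i =>
    indFun (Subgroup.normalizer S) (χ i) - indFun (Subgroup.normalizer S) (χ i₀)
  have hτ : ∀ i, τ i = indFun (Subgroup.normalizer S) (χ i - χ i₀) := fun i =>
    (indFun_sub' _ _ _).symm
  have hcl : ∀ i j, IsClassFunction (Subgroup.normalizer S) (χ i - χ j) := by
    intro i j g h
    have h1 := Basic.isClassFunction_of_isCharacter (Basic.isCharacter_of_isIrrCharacter (hirr i)) g h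
    have h2 := Basic.isClassFunction_of_isCharacter (Basic.isCharacter_of_isIrrCharacter (hirr j)) g h
    simp only [Pi.sub_apply, h1, h2]
  have hv : ∀ i j, ∀ x : Subgroup.normalizer S, (x : G) ∉ S → (χ i - χ j) x = 0 := by
    intro i j x hx
    simp [hvan i x hx, hvan j x hx]
  have h1 : ∀ i j, (χ i - χ j) 1 = 0 := by
    intro i j
    simp [hdeg i j]
  obtain ⟨ε, hε, μ, hμ, hinjμ, hμτ⟩ := Cfsg.Agent.S0198.result n i₀ τ (by simp [τ])
    (fun i => ⟨_, _, IndRep.isCharacter_indFun _ (Basic.isCharacter_of_isIrrCharacter (hirr i)),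
      IndRep.isCharacter_indFun _ (Basic.isCharacter_of_isIrrCharacter (hirr i₀)), rfl⟩)
    (fun i => by
      rw [hτ, Induced.indFun_one, h1, mul_zero])
    (fun i j hi hj => by
      rw [hτ, hτ, Induced.classInner_indFun_ti S hTI _ _ (hcl j i₀) (hv i i₀) (hv j i₀) (h1 i i₀)]
      have hi' : χ i ≠ χ i₀ := fun h => hi (hinj h)
      have hj' : χ j ≠ χ i₀ := fun h => hj (hinj h)
      rw [Virtual.classInner_sub_left, Virtual.classInner_sub_right, Virtual.classInner_sub_right,
        Virtual.classInner_irr_self (hirr i₀), Virtual.classInner_irr_of_ne (hirr i) (hirr i₀) hi',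
        Virtual.classInner_irr_of_ne (hirr i₀) (hirr j) hj'.symm]
      split_ifs with hij
      · subst hij
        rw [Virtual.classInner_irr_self (hirr i)]
        norm_num
      · rw [Virtual.classInner_irr_of_ne (hirr i) (hirr j) (fun h => hij (hinj h))]
        norm_num)
  refine ⟨ε, hε, μ, hμ, hinjμ, fun i j => ?_⟩
  have hi := hμτ i
  have hj := hμτ j
  have : indFun (Subgroup.normalizer S) (χ i) - indFun (Subgroup.normalizer S) (χ j) = τ i - τ j := by
    simp only [τ]
    abel
  rw [this, hi, hj, ← smul_sub]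
  congr 1
  abel

end Cfsg.Agent.S0170
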