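import Cfsg.Statements.S0172
import Mathlib
import Cfsg.Agent.Lib.Frobenius.Partition

set_option autoImplicit false
open Cfsg

namespace Cfsg.Agent.S0172

open Cfsg.Agent.Lib.Frobenius.Partition

section

variable {A : Type*} [Group A]

/-- The number of elements commuting with `x`. -/
noncomputable def cnt (x : A) : ℕ := Nat.card {y : A // Commute x y}

theorem cnt_one [Finite A] : cnt (1 : A) = Nat.card A := by
  unfold cnt
  exact Nat.card_congr (Equiv.subtypeUnivEquiv (fun y => Commute.one_left y))

theorem sum_cnt [Fintype A] :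
    ∑ x : A, cnt x = Nat.card (ConjClasses A) * Nat.card A := by
  classical
  rw [← card_comm_eq_card_conjClasses_mul_card]
  rw [Nat.card_congr (Equiv.subtypeProdEquivSigmaSubtype Commute)]
  rw [Nat.card_sigma]
  rfl

theorem cnt_conj [Finite A] (u x : A) : cnt (u * x * u⁻¹) = cnt x := by
  unfold cnt
  apply Nat.card_congr
  refine
    { toFun := fun y => ⟨u⁻¹ * y * u, ?_⟩
      invFun := fun y => ⟨u * y * u⁻¹, ?_⟩
      left_inv := fun y => Subtype.ext (by simp only; group)
      right_inv := fun y => Subtype.ext (by simp only; group) }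
  · have h : (u * x * u⁻¹) * (y : A) = (y : A) * (u * x * u⁻¹) := y.2
    show x * (u⁻¹ * y * u) = (u⁻¹ * y * u) * x
    calc x * (u⁻¹ * y * u) = u⁻¹ * ((u * x * u⁻¹) * y) * u := by group
      _ = u⁻¹ * ((y : A) * (u * x * u⁻¹)) * u := by rw [h]
      _ = _ := by group
  · have h : x * (y : A) = (y : A) * x := y.2
    show (u * x * u⁻¹) * (u * y * u⁻¹) = (u * y * u⁻¹) * (u * x * u⁻¹)
    calc (u * x * u⁻¹) * (u * y * u⁻¹) = u * (x * y) * u⁻¹ := by group
      _ = u * ((y : A) * x) * u⁻¹ := by rw [h]
      _ = _ := by group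

/-- If everything commuting with `x` lies in `B`, the count can be taken in `B`. -/
theorem cnt_subgroup [Finite A] (B : Subgroup A) (x : B)
    (hx : ∀ y : A, (x : A) * y = y * x → y ∈ B) : cnt (x : A) = cnt x := by
  unfold cnt
  apply Nat.card_congr
  exact
    { toFun := fun y => ⟨⟨y, hx y y.2⟩, Subtype.ext y.2⟩
      invFun := fun y => ⟨y, congrArg Subtype.val y.2⟩
      left_inv := fun y => rfl
      right_inv := fun y => rfl }

/-- Sums agreeing off `1`. -/
theorem sum_add_eq [Fintype A] (f g : A → ℕ) (h : ∀ x, x ≠ 1 → f x = g x) :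
    ∑ x, f x + g 1 = f 1 + ∑ x, g x := by
  classical
  rw [← Finset.add_sum_erase _ f (Finset.mem_univ (1 : A)),
    ← Finset.add_sum_erase _ g (Finset.mem_univ (1 : A))]
  have : ∑ x ∈ Finset.univ.erase (1 : A), f x = ∑ x ∈ Finset.univ.erase (1 : A), g x :=
    Finset.sum_congr rfl fun x hx => h x (Finset.ne_of_mem_erase hx)
  rw [this]
  ring

end

/-- Class number of a Frobenius group: if G = K H with K normal, K ⊓ H trivial and no non-identity element of H commuting with a non-identity element of K, then |H| * k(G) + 1 = |H| * k(H) + k(K), where k denotes the number of conjugacy classes. -/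
theorem result {G : Type*} [Group G] [Finite G] (K H : Subgroup G) [K.Normal] (hKH : K ⊓ H = ⊥) (hKH' : K ⊔ H = ⊤) (hfpf : ∀ h ∈ H, h ≠ 1 → ∀ k ∈ K, h * k = k * h → k = 1) : Nat.card H * Nat.card (ConjClasses G) + 1 = Nat.card H * Nat.card (ConjClasses H) + Nat.card (ConjClasses K) := by
  classical
  haveI := Fintype.ofFinite G
  letI : Fintype K := Subtype.fintype (· ∈ K)
  haveI := Fintype.ofFinite H
  have hc : K.IsComplement' H := by
    apply Subgroup.isComplement'_of_disjoint_and_mul_eq_univ
    · exact disjoint_iff.mpr hKH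
    · rw [← Subgroup.normal_mul, hKH']
      rfl
  have hG : Nat.card K * Nat.card H = Nat.card G := hc.card_mul_card
  -- elements of `K`
  have h1 : ∑ k : K, cnt (k : G) + Nat.card K = Nat.card G + ∑ k : K, cnt k := by
    have := sum_add_eq (fun k : K => cnt (k : G)) (fun k : K => cnt k) (by
      intro k hk
      apply cnt_subgroup K k
      intro y hy
      exact mem_of_commute_kernel hc hfpf k.2 (fun h0 => hk (Subtype.ext h0)) hy.symm)
    simp only [OneMemClass.coe_one, cnt_one] at this
    exact this
  -- elements outside `K`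
  have h2 : ∑ x : {x : G // x ∉ K}, cnt (x : G) = Nat.card K * ∑ h : {h : H // h ≠ 1}, cnt (h : H) := by
    rw [← Equiv.sum_comp (partEquiv hc hfpf), Fintype.sum_prod_type]
    have h0 : ∀ (u : K) (h : {h : H // h ≠ 1}),
        cnt ((partEquiv hc hfpf (u, h) : {x : G // x ∉ K}) : G) = cnt h.1 := by
      intro u h
      rw [partEquiv_apply, cnt_conj]
      apply cnt_subgroup H h.1
      intro y hy
      exact mem_of_commute_complement hc hfpf (h.1).2 (fun h0 => h.2 (Subtype.ext h0)) hy.symm
    simp only [h0, Finset.sum_const, Finset.card_univ, smul_eq_mul, Nat.card_eq_fintype_card]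
  have h3 : ∑ h : {h : H // h ≠ 1}, cnt (h : H) + Nat.card H = ∑ h : H, cnt h := by
    rw [← cnt_one, add_comm]
    have := Fintype.sum_eq_add_sum_subtype_ne (fun h : H => cnt h) (1 : H)
    exact this.symm
  have h4 : ∑ x : G, cnt x = ∑ k : K, cnt (k : G) + ∑ x : {x : G // x ∉ K}, cnt (x : G) :=
    by
      have h5 := (Fintype.sum_subtype_add_sum_subtype (· ∈ K) (fun x : G => cnt x)).symm
      exact h5
  rw [sum_cnt] at h4
  rw [sum_cnt] at h1 h3
  set kG := Nat.card (ConjClasses G)
  set kK := Nat.card (ConjClasses K)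
  set kH := Nat.card (ConjClasses H)
  set a := Nat.card K
  set b := Nat.card H
  have hapos : 0 < a := Nat.card_pos
  set s1 := ∑ k : K, cnt (k : G)
  set s2 := ∑ h : {h : H // h ≠ 1}, cnt (h : H)
  rw [h2] at h4
  rw [← hG] at h4 h1
  apply Nat.eq_of_mul_eq_mul_left hapos
  have e1 : kG * (a * b) + a + a * b = a * b + kK * a + a * (kH * b) := by
    have e2 : kH * b = s2 + b := h3.symm
    rw [h4, e2]
    nlinarith
  nlinarith

end Cfsg.Agent.S0172
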