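import Cfsg.Statements.S0173
import Mathlib
import Cfsg.Agent.S0860
import Cfsg.Agent.Lib.Char.Basic

set_option autoImplicit false
open Cfsg

namespace Cfsg.Agent.S0173

open Cfsg.Agent.Lib.Char.Basic in

/-- Brauer's permutation lemma for a single automorphism: the number of conjugacy classes mapped to themselves equals the number of irreducible complex characters χ with χ ∘ α = χ. -/
theorem result {G : Type*} [Group G] [Finite G] (α : G ≃* G) : Nat.card {C : ConjClasses G // ConjClasses.map α.toMonoidHom C = C} = Nat.card {χ : Cfsg.IrrCharacter G // (χ : G → ℂ) ∘ α = (χ : G → ℂ)} := by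
  classical
  haveI := Fintype.ofFinite G
  letI inst1 : MulAction (MulAut G) (Cfsg.IrrCharacter G) :=
    { smul := fun a χ => ⟨fun g => (χ : G → ℂ) ((a⁻¹ : MulAut G) g),
        isIrrCharacter_comp_surjective χ.2 ((a⁻¹ : MulAut G) : G ≃* G).toMonoidHom
          (MulEquiv.surjective _)⟩
      one_smul := fun χ => by
        apply Subtype.ext
        funext g
        rfl
      mul_smul := fun a b χ => by
        apply Subtype.ext
        funext g
        rfl }
  letI inst2 : MulAction (MulAut G) (ConjClasses G) :=
    { smul := fun a C => ConjClasses.map (a : G ≃* G).toMonoidHom C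
      one_smul := fun C => by
        obtain ⟨g, rfl⟩ := ConjClasses.mk_surjective C
        rfl
      mul_smul := fun a b C => by
        obtain ⟨g, rfl⟩ := ConjClasses.mk_surjective C
        rfl }
  have hcompat : ∀ (a : MulAut G) (χ : Cfsg.IrrCharacter G) (g g' : G),
      ConjClasses.mk g' = a • ConjClasses.mk g →
        ((a • χ : Cfsg.IrrCharacter G) : G → ℂ) g' = (χ : G → ℂ) g := by
    intro a χ g g' h
    have h1 : ConjClasses.mk g' = ConjClasses.mk (a g) := h
    have h2 : IsConj g' (a g) := ConjClasses.mk_eq_mk_iff_isConj.1 h1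
    have h3 : IsConj ((a⁻¹ : MulAut G) g') ((a⁻¹ : MulAut G) (a g)) :=
      ((a⁻¹ : MulAut G) : G ≃* G).toMonoidHom.map_isConj h2
    have h4 : (a⁻¹ : MulAut G) (a g) = g := by
      show (a⁻¹ * a : MulAut G) g = g
      rw [inv_mul_cancel]
      rfl
    rw [h4] at h3
    exact Cfsg.Agent.Lib.Char.CompleteCor.irr_apply_of_isConj h3 χ
  have key := Cfsg.Agent.S0860.result hcompat α
  have e1 : Nat.card {χ : Cfsg.IrrCharacter G // (χ : G → ℂ) ∘ α = (χ : G → ℂ)}
      = Nat.card {χ : Cfsg.IrrCharacter G // α • χ = χ} := by
    refine Nat.card_congr (Equiv.subtypeEquivRight fun χ => ?_)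
    constructor
    · intro h
      apply Subtype.ext
      funext g
      have h1 := congrFun h ((α⁻¹ : MulAut G) g)
      have h2 : α ((α⁻¹ : MulAut G) g) = g := by
        show (α * α⁻¹ : MulAut G) g = g
        rw [mul_inv_cancel]
        rfl
      simp only [Function.comp_apply, h2] at h1
      exact h1.symm
    · intro h
      funext x
      have h1 : (α⁻¹ : MulAut G) (α x) = x := by
        show (α⁻¹ * α : MulAut G) x = x
        rw [inv_mul_cancel]
        rfl
      have h2 := congrFun (congrArg Subtype.val h) (α x)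
      have h3 : ((α • χ : Cfsg.IrrCharacter G) : G → ℂ) (α x) = (χ : G → ℂ) x := by
        show (χ : G → ℂ) ((α⁻¹ : MulAut G) (α x)) = _
        rw [h1]
      rw [h3] at h2
      exact h2.symm
  rw [e1, key]
  rfl

end Cfsg.Agent.S0173
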