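import Cfsg.Statements.S0177
import Mathlib
import Cfsg.Agent.Lib.Char.Basic
import Cfsg.Agent.Lib.Char.Induced
-- import your own Cfsg.Agent.* helpers here

set_option autoImplicit false
open Cfsg

namespace Cfsg.Agent.S0177

open Cfsg Cfsg.Agent.Lib.Char.Basic Cfsg.Agent.Lib.Char.Induced

section Linear

variable {A : Type*} [Group A]

/-- An irreducible character of a commutative finite group is a homomorphism into `ℂˣ`. -/
lemma exists_hom_of_irr (hA : ∀ a b : A, a * b = b * a) {ψ : A → ℂ} (hψ : IsIrrCharacter A ψ) :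
    ∃ l : A →* ℂˣ, ∀ a, ψ a = (l a : ℂ) := by
  classical
  obtain ⟨n, ρ, hρ, rfl⟩ := hψ
  have : IsMulCommutative A := ⟨⟨hA⟩⟩
  have hfin : Module.finrank ℂ (Fin n → ℂ) = 1 :=
    Representation.IsIrreducible.finrank_eq_one_of_isMulCommutative ρ
  have hn : n = 1 := by simpa using hfin
  subst hn
  -- the trace is multiplicative on a one dimensional space
  have htr : ∀ S T : Module.End ℂ (Fin 1 → ℂ),
      LinearMap.trace ℂ _ (S * T) = LinearMap.trace ℂ _ S * LinearMap.trace ℂ _ T := by
    intro S T
    rw [LinearMap.trace_eq_matrix_trace ℂ (Pi.basisFun ℂ (Fin 1)) S,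
      LinearMap.trace_eq_matrix_trace ℂ (Pi.basisFun ℂ (Fin 1)) T,
      LinearMap.trace_eq_matrix_trace ℂ (Pi.basisFun ℂ (Fin 1)) (S * T),
      LinearMap.toMatrix_mul]
    simp [Matrix.trace, Matrix.mul_apply]
  let f : A →* ℂ :=
    { toFun := ρ.character
      map_one' := by simp [Representation.char_one]
      map_mul' := by
        intro a b
        simp only [Representation.character, map_mul]
        exact htr _ _ }
  exact ⟨f.toHomUnits, fun a => by simp [f]⟩

end Linear

variable {G : Type*} [Group G] [Fintype G]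

/-- Predicate of being an integer combination of functions induced from linear characters of cyclic
subgroups, in the list form of the statement. -/
def Good (f : G → ℂ) : Prop :=
  ∃ l : List ((A : Subgroup G) × ((A →* ℂˣ) × ℤ)), (∀ t ∈ l, IsCyclic t.1) ∧
    f = (l.map fun t => (t.2.2 : ℂ) • Cfsg.indFun t.1 (fun a => (t.2.1 a : ℂ))).sum

lemma good_zero : Good (0 : G → ℂ) := ⟨[], by simp, by simp⟩

lemma good_add {f g : G → ℂ} (hf : Good f) (hg : Good g) : Good (f + g) := by
  obtain ⟨l₁, h₁, rfl⟩ := hf
  obtain ⟨l₂, h₂, rfl⟩ := hg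
  refine ⟨l₁ ++ l₂, ?_, by simp⟩
  intro t ht
  rcases List.mem_append.mp ht with h | h
  · exact h₁ t h
  · exact h₂ t h

lemma good_sum {ι : Type*} (s : Finset ι) (f : ι → G → ℂ) (h : ∀ i ∈ s, Good (f i)) :
    Good (∑ i ∈ s, f i) := by
  classical
  induction s using Finset.induction_on with
  | empty => simpa using good_zero
  | insert a s ha ih =>
    rw [Finset.sum_insert ha]
    exact good_add (h a (Finset.mem_insert_self a s))
      (ih fun i hi => h i (Finset.mem_insert_of_mem hi))

lemma indFun_zero' (A : Subgroup G) : Cfsg.indFun A (0 : A → ℂ) = 0 := by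
  funext g
  rw [indFun_apply]
  have : ∀ x : G, extendByZero A (0 : A → ℂ) (x⁻¹ * g * x) = 0 := by
    intro x
    by_cases h : x⁻¹ * g * x ∈ A
    · rw [extendByZero_of_mem A _ h]; rfl
    · rw [extendByZero_of_notMem A _ h]
  simp [this]

lemma indFun_add' (A : Subgroup G) (θ₁ θ₂ : A → ℂ) :
    Cfsg.indFun A (θ₁ + θ₂) = Cfsg.indFun A θ₁ + Cfsg.indFun A θ₂ := by
  funext g
  simp only [Pi.add_apply, indFun_apply]
  rw [← mul_add, ← Finset.sum_add_distrib]
  congr 1
  refine Finset.sum_congr rfl fun x _ => ?_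
  by_cases h : x⁻¹ * g * x ∈ A
  · rw [extendByZero_of_mem A _ h, extendByZero_of_mem A _ h, extendByZero_of_mem A _ h]; rfl
  · rw [extendByZero_of_notMem A _ h, extendByZero_of_notMem A _ h, extendByZero_of_notMem A _ h]
    simp

/-- For a cyclic subgroup, every integer multiple of a function induced from a character is good. -/
lemma good_ind (A : Subgroup G) (hA : IsCyclic A) (c : ℤ) {θ : A → ℂ} (hθ : IsCharacter A θ) :
    Good ((c : ℂ) • Cfsg.indFun A θ) := by
  classical
  have hcomm : ∀ a b : A, a * b = b * a := by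
    intro a b
    exact (IsCyclic.commGroup (α := A)).mul_comm a b
  refine isCharacter_induction_on_irr (P := fun θ => Good ((c : ℂ) • Cfsg.indFun A θ))
    ?_ ?_ ?_ hθ
  · rw [indFun_zero']
    simpa using good_zero
  · intro ψ hψ
    obtain ⟨l, hl⟩ := exists_hom_of_irr hcomm hψ
    refine ⟨[⟨A, (l, c)⟩], by simpa using hA, ?_⟩
    simp only [List.map_cons, List.map_nil, List.sum_cons, List.sum_nil, add_zero]
    congr 2
    funext a
    exact hl a
  · intro ψ₁ ψ₂ _ _ h₁ h₂
    rw [indFun_add', smul_add]
    exact good_add h₁ h₂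

open Classical in
/-- Integer weights on cyclic subgroups whose sum over the cyclic overgroups of any cyclic subgroup
is `1` (Möbius inversion on the poset of cyclic subgroups). -/
lemma exists_weights : ∃ d : Subgroup G → ℤ, ∀ C : Subgroup G, IsCyclic C →
    (∑ D : Subgroup G, (if IsCyclic D ∧ C ≤ D then d D else 0 : ℤ)) = 1 := by
  have wf : WellFounded (fun a b : Subgroup G => a > b) := wellFounded_gt
  let F : (C : Subgroup G) → ((D : Subgroup G) → D > C → ℤ) → ℤ := fun C rec =>
    1 - ∑ D : Subgroup G, if h : D > C ∧ IsCyclic D then rec D h.1 else 0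
  let d : Subgroup G → ℤ := wf.fix F
  have hd : ∀ C, d C = 1 - ∑ D : Subgroup G, if D > C ∧ IsCyclic D then d D else 0 := by
    intro C
    show wf.fix F C = _
    rw [WellFounded.fix_eq]
    show 1 - _ = 1 - _
    congr 1
  refine ⟨d, fun C hC => ?_⟩
  have hsplit : ∀ D : Subgroup G, (if IsCyclic D ∧ C ≤ D then d D else 0) =
      (if D = C then d C else 0) + (if D > C ∧ IsCyclic D then d D else 0) := by
    intro D
    by_cases hDC : D = C
    · subst hDC
      simp [hC]
    · have h1 : C ≤ D ↔ D > C := ⟨fun h => lt_of_le_of_ne h (Ne.symm hDC), fun h => h.le⟩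
      simp only [h1, hDC, if_false, zero_add, and_comm]
  simp_rw [hsplit]
  rw [Finset.sum_add_distrib, Finset.sum_ite_eq' Finset.univ C]
  rw [if_pos (Finset.mem_univ C)]
  have := hd C
  omega


/-- The Artin induction Theorem: for a character χ of a finite group, |G| • χ is a ℤ-linear combination of functions induced from homomorphisms of cyclic subgroups into ℂˣ. -/
theorem result {G : Type*} [Group G] [Fintype G] (χ : G → ℂ) (hχ : Cfsg.IsCharacter G χ) : ∃ l : List ((A : Subgroup G) × ((A →* ℂˣ) × ℤ)), (∀ t ∈ l, IsCyclic t.1) ∧ (Nat.card G : ℂ) • χ = (l.map fun t => (t.2.2 : ℂ) • Cfsg.indFun t.1 (fun a => (t.2.1 a : ℂ))).sum := by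
  classical
  obtain ⟨d, hd⟩ := exists_weights (G := G)
  have hclass := isClassFunction_of_isCharacter hχ
  -- the key identity
  have key : (Nat.card G : ℂ) • χ = ∑ D : Subgroup G, if IsCyclic D then
      (((d D * (Nat.card D : ℤ) : ℤ) : ℂ) • Cfsg.indFun D (fun a : D => χ a)) else 0 := by
    funext g
    rw [Pi.smul_apply, Finset.sum_apply]
    have hterm : ∀ D : Subgroup G,
        (if IsCyclic D then (((d D * (Nat.card D : ℤ) : ℤ) : ℂ) •
          Cfsg.indFun D (fun a : D => χ a)) else 0) g
        = ∑ x : G, χ g * (if IsCyclic D ∧ Subgroup.zpowers (x⁻¹ * g * x) ≤ D then ((d D : ℤ) : ℂ) else 0) := by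
      intro D
      by_cases hD : IsCyclic D
      · have hpos : (Nat.card D : ℂ) ≠ 0 := by exact_mod_cast (Nat.card_pos (α := D)).ne'
        rw [if_pos hD, Pi.smul_apply, indFun_apply, smul_eq_mul]
        have hin : ∀ x : G, extendByZero D (fun a : D => χ a) (x⁻¹ * g * x) =
            χ g * (if Subgroup.zpowers (x⁻¹ * g * x) ≤ D then 1 else 0) := by
          intro x
          by_cases hx : x⁻¹ * g * x ∈ D
          · rw [extendByZero_of_mem D _ hx, if_pos ((Subgroup.zpowers_le).mpr hx), mul_one]
            have := hclass g x⁻¹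
            simpa using this
          · rw [extendByZero_of_notMem D _ hx, if_neg (fun h => hx ((Subgroup.zpowers_le).mp h)), mul_zero]
        simp_rw [hin]
        push_cast
        rw [Finset.mul_sum, Finset.mul_sum]
        refine Finset.sum_congr rfl fun x _ => ?_
        by_cases hx : Subgroup.zpowers (x⁻¹ * g * x) ≤ D
        · simp only [hx, if_true, hD, and_self]
          field_simp
        · simp [hx]
      · simp [hD]
    simp_rw [hterm]
    rw [Finset.sum_comm]
    have hinner : ∀ x : G, ∑ D : Subgroup G, χ g * (if IsCyclic D ∧ Subgroup.zpowers (x⁻¹ * g * x) ≤ D then ((d D : ℤ) : ℂ) else 0) = χ g := by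
      intro x
      rw [← Finset.mul_sum]
      have h1 := hd (Subgroup.zpowers (x⁻¹ * g * x)) inferInstance
      have h2 : (∑ D : Subgroup G, (if IsCyclic D ∧ Subgroup.zpowers (x⁻¹ * g * x) ≤ D then ((d D : ℤ) : ℂ) else 0)) = 1 := by
        have := congrArg (Int.cast : ℤ → ℂ) h1
        push_cast at this
        rw [← this]
      rw [h2, mul_one]
    simp_rw [hinner]
    simp [Finset.card_univ, Nat.card_eq_fintype_card]
  rw [key]
  have hgood : Good (∑ D : Subgroup G, if IsCyclic D then
      (((d D * (Nat.card D : ℤ) : ℤ) : ℂ) • Cfsg.indFun D (fun a : D => χ a)) else 0) := by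
    refine good_sum _ _ fun D _ => ?_
    by_cases hD : IsCyclic D
    · rw [if_pos hD]
      exact good_ind D hD _ (isCharacter_restrict hχ D)
    · rw [if_neg hD]
      exact good_zero
  exact hgood

end Cfsg.Agent.S0177
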