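import Cfsg.Statements.S0180
import Mathlib
import Cfsg.Agent.Lib.Char.Galois
import Cfsg.Agent.Lib.Char.CompleteCor

set_option autoImplicit false
open Cfsg

namespace Cfsg.Agent.S0180

open Cfsg.Agent.Lib.Char.Galois in

/-- Every irreducible complex character of a finite group takes only rational values if and only if g is conjugate to g ^ m for every element g and every m coprime to the group order. -/
theorem result {G : Type*} [Group G] [Finite G] : (∀ χ : Cfsg.IrrCharacter G, ∀ g : G, ∃ q : ℚ, (χ : G → ℂ) g = (q : ℂ)) ↔ ∀ m : ℕ, m.Coprime (Nat.card G) → ∀ g : G, IsConj g (g ^ m) := by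
  classical
  have := Fintype.ofFinite G
  constructor
  · intro hrat m hm g
    apply Cfsg.Agent.Lib.Char.CompleteCor.isConj_of_forall_irr
    intro χ
    obtain ⟨τ, hτ⟩ := exists_ringHom_pow (Nat.card G) Nat.card_pos m hm
    obtain ⟨q, hq⟩ := hrat χ g
    obtain ⟨n, ρ, hρ, hχ⟩ := χ.2
    have h1 := map_character τ Nat.card_pos hτ ρ g (pow_card_eq_one')
    rw [hχ] at h1
    rw [← h1, hq]
    simp
  · intro hconj χ g
    obtain ⟨n, ρ, hρ, hχ⟩ := χ.2
    haveI : NeZero (Nat.card G) := ⟨Nat.card_pos.ne'⟩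
    obtain ⟨ι, hι, z, h1, h2⟩ := character_eigen ρ g (n := Nat.card G) Nat.card_pos pow_card_eq_one'
    have h3 : ρ.character g = ∑ i, z i := by
      have := h2 1
      simpa using this
    have hfix : ∀ u : (ZMod (Nat.card G))ˣ, ∑ i, z i ^ (u : ZMod (Nat.card G)).val = ∑ i, z i := by
      intro u
      rw [← h2, ← h3]
      have hc : (u : ZMod (Nat.card G)).val.Coprime (Nat.card G) := ZMod.val_coe_unit_coprime u
      have h4 := Cfsg.Agent.Lib.Char.CompleteCor.irr_apply_of_isConj (hconj _ hc g) χ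
      rw [hχ]
      exact h4.symm
    obtain ⟨q, hq⟩ := rat_of_fixed (Nat.card G) z h1 hfix
    exact ⟨q, by rw [← hχ, h3, hq]⟩

end Cfsg.Agent.S0180
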