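import Cfsg.Statements.S0181
import Mathlib

set_option autoImplicit false

namespace Cfsg.Agent.S0181

/-- Let H be a normal subgroup of a finite group G and ρ an irreducible complex representation whose kernel does not contain H. If g commutes with no non-identity element of H, then the character of ρ vanishes at g. -/
theorem result {G : Type*} [Group G] [Finite G] {V : Type*} [AddCommGroup V] [Module ℂ V] [FiniteDimensional ℂ V] (ρ : Representation ℂ G V) [ρ.IsIrreducible] (H : Subgroup G) [H.Normal] (hker : ∃ h ∈ H, ρ h ≠ LinearMap.id) (g : G) (hg : ∀ h ∈ H, h * g = g * h → h = 1) : ρ.character g = 0 := by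
  classical
  have := Fintype.ofFinite G
  have hfin : Fintype H := Fintype.ofFinite H
  -- the fixed space of `H`, a subrepresentation
  let W : Subrepresentation ρ :=
    { toSubmodule :=
        { carrier := {v | ∀ h ∈ H, ρ h v = v}
          add_mem' := fun {a b} ha hb h hh => by simp [ha h hh, hb h hh]
          zero_mem' := fun h _ => by simp
          smul_mem' := fun c v hv h hh => by simp [hv h hh] }
      apply_mem_toSubmodule := fun x v hv h hh => by
        have hh' : x⁻¹ * h * x ∈ H := by
          have := Subgroup.Normal.conj_mem (inferInstance : H.Normal) h hh x⁻¹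
          simpa using this
        have h1 : ρ (x⁻¹ * h * x) v = v := hv _ hh'
        have h2 : h * x = x * (x⁻¹ * h * x) := by group
        show ρ h (ρ x v) = ρ x v
        rw [← Module.End.mul_apply, ← map_mul, h2, map_mul, Module.End.mul_apply, h1] }
  have hWmem : ∀ v, v ∈ W ↔ ∀ h ∈ H, ρ h v = v := fun v => Iff.rfl
  have hWbot : W = ⊥ := by
    rcases eq_bot_or_eq_top W with h | h
    · exact h
    · exfalso
      obtain ⟨h0, hh0, hne⟩ := hker
      apply hne
      ext v
      have hv : v ∈ W := by rw [h]; exact (Submodule.mem_top : v ∈ (⊤ : Submodule ℂ V))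
      simpa using (hWmem v).1 hv h0 hh0
  -- the sum over `H` vanishes
  have hsum : ∑ h : H, ρ (h : G) = 0 := by
    ext v
    have hmem : (∑ h : H, ρ (h : G)) v ∈ W := by
      rw [hWmem]
      intro x hx
      rw [LinearMap.sum_apply, map_sum]
      have := Equiv.sum_comp (Equiv.mulLeft (⟨x, hx⟩ : H)) (fun h : H => ρ (h : G) v)
      rw [← this]
      refine Finset.sum_congr rfl fun h _ => ?_
      simp [← Module.End.mul_apply, ← map_mul]
    rw [hWbot] at hmem
    have : (∑ h : H, ρ (h : G)) v = 0 := (Submodule.mem_bot ℂ).1 hmem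
    simpa using this
  have hzero : ∑ h : H, ρ.character (g * h) = 0 := by
    have : ∑ h : H, ρ.character (g * h) = LinearMap.trace ℂ V (ρ g * ∑ h : H, ρ (h : G)) := by
      rw [Finset.mul_sum, map_sum]
      refine Finset.sum_congr rfl fun h _ => ?_
      simp [Representation.character, map_mul]
    rw [this, hsum, mul_zero, map_zero]
  -- commutator map
  let φ : H → H := fun h => ⟨g⁻¹ * h * g * (h : G)⁻¹, by
    have := Subgroup.Normal.conj_mem (inferInstance : H.Normal) h h.2 g⁻¹
    refine H.mul_mem ?_ (H.inv_mem h.2)
    simpa using this⟩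
  have hφ : Function.Injective φ := by
    intro a b hab
    have hab' : g⁻¹ * a * g * (a : G)⁻¹ = g⁻¹ * b * g * (b : G)⁻¹ := congrArg Subtype.val hab
    have h1 : ((b : G)⁻¹ * a) * g = g * ((b : G)⁻¹ * a) := by
      have h2 : (a : G) * g * (a : G)⁻¹ = (b : G) * g * (b : G)⁻¹ := by
        have := congrArg (fun t => g * t) hab'
        simpa [mul_assoc] using this
      have h3 : (b : G)⁻¹ * (a * g * (a : G)⁻¹) * a = (b : G)⁻¹ * (b * g * (b : G)⁻¹) * a := by
        rw [h2]
      simpa [mul_assoc] using h3
    have h4 := hg _ (H.mul_mem (H.inv_mem b.2) a.2) h1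
    apply Subtype.ext
    have : (a : G) = b := by
      have h5 : (b : G) * ((b : G)⁻¹ * a) = b := by rw [h4, mul_one]
      simpa using h5
    exact this
  have hφb : Function.Bijective φ := Finite.injective_iff_bijective.1 hφ
  have hval : ∀ h : H, ρ.character (g * φ h) = ρ.character g := by
    intro h
    have h1 : g * (φ h : G) = (h : G) * (g * (h : G)⁻¹) := by
      show g * (g⁻¹ * h * g * (h : G)⁻¹) = _
      group
    rw [h1, Representation.char_mul_comm]
    congr 1
    group
  have hfinal : ∑ h : H, ρ.character (g * φ h) = ∑ h : H, ρ.character (g * h) :=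
    hφb.sum_comp (fun h : H => ρ.character (g * h))
  rw [hzero] at hfinal
  simp only [hval, Finset.sum_const, Finset.card_univ, nsmul_eq_mul] at hfinal
  have hcard : ((Fintype.card H : ℕ) : ℂ) ≠ 0 := by
    exact_mod_cast Fintype.card_ne_zero
  exact (mul_eq_zero.1 hfinal).resolve_left hcard

end Cfsg.Agent.S0181
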