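import Cfsg.Statements.S0184
import Mathlib
import Cfsg.Agent.Lib.Char.ClassMul
import Cfsg.Agent.Lib.Char.Burnside2
import Cfsg.Agent.Lib.PGroup.Basic

set_option autoImplicit false
open Cfsg

namespace Cfsg.Agent.S0184

open Cfsg.Agent.Lib.Char.Integrality Cfsg.Agent.Lib.Char.CompleteCor

/-- A faithful irreducible representation forces a cyclic centre. -/
theorem cyclic_center {G : Type*} [Group G] [Finite G] {n : ℕ} (ρ : Representation ℂ G (Fin n → ℂ))
    [ρ.IsIrreducible] (hinj : Function.Injective ρ) : IsCyclic (Subgroup.center G) := by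
  classical
  have hd0 := finrank_ne_zero_of_isIrreducible ρ
  rw [Module.finrank_fin_fun] at hd0
  have hd : (n : ℂ) ≠ 0 := Nat.cast_ne_zero.mpr hd0
  have hsc : ∀ z : Subgroup.center G, ρ (z : G) = (LinearMap.trace ℂ _ (ρ (z : G)) / (n : ℂ)) •
      (LinearMap.id : (Fin n → ℂ) →ₗ[ℂ] (Fin n → ℂ)) := by
    intro z
    have h := eq_trace_div_smul_of_commute ρ (ρ (z : G)) (fun g => by
      show ρ (z : G) * ρ g = ρ g * ρ (z : G)
      rw [← map_mul, ← map_mul, (Subgroup.mem_center_iff.1 z.2 g).symm])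
    rwa [Module.finrank_fin_fun] at h
  let a : Subgroup.center G → ℂ := fun z => LinearMap.trace ℂ _ (ρ (z : G)) / (n : ℂ)
  have ha : ∀ z : Subgroup.center G, ρ (z : G) = a z • (LinearMap.id : (Fin n → ℂ) →ₗ[ℂ] (Fin n → ℂ)) := hsc
  haveI : Nontrivial (Fin n → ℂ) := nontrivial_of_isIrreducible ρ
  obtain ⟨v, hv⟩ := exists_ne (0 : Fin n → ℂ)
  have hev : ∀ z : Subgroup.center G, ρ (z : G) v = a z • v := fun z => by rw [ha z]; rfl
  let f : Subgroup.center G →* ℂ :=
    { toFun := a
      map_one' := by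
        have h := hev 1
        simp only [Subgroup.coe_one, map_one, Module.End.one_apply] at h
        have h2 : (a 1 - 1) • v = 0 := by rw [sub_smul, ← h, one_smul, sub_self]
        have := (smul_eq_zero.1 h2).resolve_right hv
        exact sub_eq_zero.1 this
      map_mul' := fun x y => by
        have h := hev (x * y)
        rw [Subgroup.coe_mul, map_mul, Module.End.mul_apply, hev y, map_smul, hev x, smul_smul] at h
        have h2 : (a (x * y) - a y * a x) • v = 0 := by rw [sub_smul, ← h, sub_self]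
        have := (smul_eq_zero.1 h2).resolve_right hv
        rw [sub_eq_zero.1 this, mul_comm] }
  have hf : Function.Injective f := by
    intro x y hxy
    have hxy' : a x = a y := hxy
    apply Subtype.ext
    apply hinj
    rw [ha x, ha y, hxy']
  exact isCyclic_of_subgroup_isDomain f hf

/-- A cyclic centre forces a faithful irreducible representation. -/
theorem exists_faithful {G : Type*} [Group G] [Finite G] (p : ℕ) [hp : Fact p.Prime] (hG : IsPGroup p G)
    (hc : IsCyclic (Subgroup.center G)) :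
    ∃ (n : ℕ) (ρ : Representation ℂ G (Fin n → ℂ)), ρ.IsIrreducible ∧ Function.Injective ρ := by
  classical
  cases nonempty_fintype G
  by_cases htriv : Subsingleton G
  · obtain ⟨n, ρ, hirr, -⟩ := Cfsg.Agent.Lib.Char.Burnside2.isIrrCharacter_one (G := G)
    exact ⟨n, ρ, hirr, Function.injective_of_subsingleton _⟩
  rw [not_subsingleton_iff_nontrivial] at htriv
  -- an element of order `p` in the centre
  haveI := hG.center_nontrivial
  have hZp : IsPGroup p (Subgroup.center G) := hG.to_subgroup _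
  obtain ⟨z₁, hz₁⟩ := exists_ne (1 : Subgroup.center G)
  have hdvd : p ∣ orderOf z₁ := hZp.dvd_orderOf hz₁
  let z₀ : Subgroup.center G := z₁ ^ (orderOf z₁ / p)
  have hz₀ : orderOf z₀ = p := orderOf_pow_orderOf_div (orderOf_pos z₁).ne' hdvd
  have hz₀1 : (z₀ : G) ≠ 1 := by
    intro h
    have : z₀ = 1 := Subtype.ext h
    rw [this, orderOf_one] at hz₀
    exact hp.out.one_lt.ne hz₀
  -- a character not trivial on it
  obtain ⟨ψ, hψ⟩ : ∃ ψ : Cfsg.IrrCharacter G, (ψ : G → ℂ) (z₀ : G) ≠ (ψ : G → ℂ) 1 := by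
    by_contra hcon
    push Not at hcon
    have := isConj_of_forall_irr hcon
    exact hz₀1 (isConj_one_right.1 this.symm)
  obtain ⟨f, n, ρ, hirr, rfl⟩ := ψ
  refine ⟨n, ρ, hirr, ?_⟩
  rw [← MonoidHom.ker_eq_bot_iff]
  by_contra hker
  have hinf := Cfsg.Agent.Lib.PGroup.Basic.inf_center_ne_bot hG hker
  obtain ⟨w, hw, hw1⟩ : ∃ w ∈ ρ.ker ⊓ Subgroup.center G, w ≠ 1 :=
    (Subgroup.ne_bot_iff_exists_ne_one).1 hinf |>.elim fun w hw => ⟨w, w.2, fun h => hw (Subtype.ext h)⟩
  let zw : Subgroup.center G := ⟨w, hw.2⟩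
  have hzw : zw ≠ 1 := fun h => hw1 (congrArg Subtype.val h)
  have hdvd' : p ∣ orderOf zw := hZp.dvd_orderOf hzw
  let w₁ : Subgroup.center G := zw ^ (orderOf zw / p)
  have hw₁ : orderOf w₁ = p := orderOf_pow_orderOf_div (orderOf_pos zw).ne' hdvd'
  have hw₁ker : (w₁ : G) ∈ ρ.ker := by
    show ((zw ^ (orderOf zw / p) : Subgroup.center G) : G) ∈ ρ.ker
    rw [Subgroup.coe_pow]
    exact Subgroup.pow_mem _ hw.1 _
  -- uniqueness of the subgroup of order `p`
  have hmem : w₁ ∈ Subgroup.zpowers z₀ := by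
    cases nonempty_fintype (Subgroup.center G)
    have hle := IsCyclic.card_pow_eq_one_le (α := Subgroup.center G) (n := p) hp.out.pos
    let T : Finset (Subgroup.center G) := Finset.univ.filter (· ∈ Subgroup.zpowers z₀)
    have hT : T.card = p := by
      have : T.card = Nat.card (Subgroup.zpowers z₀) := by
        rw [Nat.card_eq_fintype_card, Fintype.card_subtype]
      rw [this, Nat.card_zpowers, hz₀]
    have hsub : T ⊆ Finset.univ.filter (fun a : Subgroup.center G => a ^ p = 1) := by
      intro y hy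
      simp only [T, Finset.mem_filter, Finset.mem_univ, true_and] at hy ⊢
      obtain ⟨k, rfl⟩ := hy
      show (z₀ ^ k) ^ p = 1
      rw [← zpow_natCast, zpow_comm, zpow_natCast, ← hz₀, pow_orderOf_eq_one, one_zpow]
    have heq := Finset.eq_of_subset_of_card_le hsub (by rw [hT]; exact hle)
    have : w₁ ∈ Finset.univ.filter (fun a : Subgroup.center G => a ^ p = 1) := by
      simp only [Finset.mem_filter, Finset.mem_univ, true_and]
      rw [← hw₁]
      exact pow_orderOf_eq_one w₁
    rw [← heq] at this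
    simpa [T] using this
  have hzp : Subgroup.zpowers w₁ = Subgroup.zpowers z₀ := by
    refine Subgroup.eq_of_le_of_card_ge ((Subgroup.zpowers_le).2 hmem) ?_
    rw [Nat.card_zpowers, Nat.card_zpowers, hw₁, hz₀]
  have hz₀mem : z₀ ∈ Subgroup.zpowers w₁ := by
    rw [hzp]
    exact Subgroup.mem_zpowers z₀
  obtain ⟨k, hk⟩ := hz₀mem
  have hz₀ker : (z₀ : G) ∈ ρ.ker := by
    rw [← hk, Subgroup.coe_zpow]
    exact Subgroup.zpow_mem _ hw₁ker _
  apply hψ
  have h1 : ρ (z₀ : G) = 1 := hz₀ker
  show LinearMap.trace ℂ _ (ρ (z₀ : G)) = LinearMap.trace ℂ _ (ρ 1)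
  rw [h1, MonoidHom.map_one ρ]

/-- A finite p-group admits a faithful irreducible complex representation if and only if its centre is cyclic. -/
theorem result {G : Type*} [Group G] [Finite G] (p : ℕ) [Fact p.Prime] (hG : IsPGroup p G) : (∃ (n : ℕ) (ρ : Representation ℂ G (Fin n → ℂ)), ρ.IsIrreducible ∧ Function.Injective ρ) ↔ IsCyclic (Subgroup.center G) := by
  constructor
  · rintro ⟨n, ρ, hirr, hinj⟩
    haveI := hirr
    exact cyclic_center ρ hinj
  · exact exists_faithful p hG

end Cfsg.Agent.S0184
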