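import Cfsg.Statements.S0186
import Mathlib
import Cfsg.Agent.Lib.Char.SimpleFaithful

set_option autoImplicit false
open Cfsg

namespace Cfsg.Agent.S0186

/-- Let G be a finite simple group of order n and p a prime dividing n. If G has more than n / p^2 conjugacy classes, then every Sylow p-subgroup of G is abelian. -/
theorem result {G : Type*} [Group G] [Finite G] [IsSimpleGroup G] (p : ℕ) [Fact p.Prime] (hp : p ∣ Nat.card G) (hmany : Nat.card G < p ^ 2 * Nat.card (ConjClasses G)) (P : Sylow p G) (a b : G) (ha : a ∈ P) (hb : b ∈ P) : a * b = b * a := by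
  exact Cfsg.Agent.Lib.Char.SimpleFaithful.sylow_commute_of_many_classes p hp hmany P a b ha hb

end Cfsg.Agent.S0186
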