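import Cfsg.Statements.S0187
import Cfsg.Agent.Lib.CharT.Transfer
import Mathlib

set_option autoImplicit false
open Cfsg

namespace Cfsg.Agent.S0187

open Module Representation
open scoped MonoidAlgebra

/-- Endomorphisms of a one-dimensional space commute. -/
lemma end_comm_of_finrank_one {V : Type*} [AddCommGroup V] [Module ℂ V] (h : finrank ℂ V = 1)
    (S T : End ℂ V) : S * T = T * S := by
  obtain ⟨v, hv0, hv⟩ := finrank_eq_one_iff'.mp h
  have hscal : ∀ U : End ℂ V, ∃ c : ℂ, ∀ w, U w = c • w := by
    intro U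
    obtain ⟨c, hc⟩ := hv (U v)
    refine ⟨c, fun w => ?_⟩
    obtain ⟨d, rfl⟩ := hv w
    rw [map_smul, ← hc, smul_comm]
  obtain ⟨c, hc⟩ := hscal S
  obtain ⟨d, hd⟩ := hscal T
  ext w
  simp only [Module.End.mul_apply, hc, hd, map_smul]
  rw [smul_comm]

set_option backward.isDefEq.respectTransparency false in
theorem backward {G : Type*} [Group G] [Finite G]
    (h : ∀ χ : Cfsg.IrrCharacter G, (χ : G → ℂ) 1 = 1) (g h' : G) : g * h' = h' * g := by
  classical
  have : NeZero (Nat.card G : ℂ) := ⟨by
    have : Nat.card G ≠ 0 := Nat.card_pos.ne'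
    exact_mod_cast this⟩
  -- `a` kills every simple module
  let a : ℂ[G] := MonoidAlgebra.of ℂ G (g * h') - MonoidAlgebra.of ℂ G (h' * g)
  have hkill : ∀ (M : Submodule ℂ[G] ℂ[G]), IsSimpleModule ℂ[G] M → ∀ x ∈ M, a * x = 0 := by
    intro M hM x hx
    let ρ := Representation.ofModule (k := ℂ) (G := G) M
    have hirr : ρ.IsIrreducible := (isSimpleModule_iff_irreducible_ofModule (k := ℂ) (G := G) M).mp hM
    let f : RestrictScalars ℂ ℂ[G] M →ₗ[ℂ] ℂ[G] :=
      { toFun := fun y => ((RestrictScalars.addEquiv ℂ ℂ[G] M y : M) : ℂ[G])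
        map_add' := by intro y z; simp
        map_smul' := by
          intro c y
          simp only [RestrictScalars.addEquiv_map_smul, RingHom.id_apply]
          rw [Submodule.coe_smul, Algebra.smul_def, smul_eq_mul] }
    have hf : Function.Injective f := by
      intro y z hyz
      exact (RestrictScalars.addEquiv ℂ ℂ[G] M).injective (Subtype.ext hyz)
    have : Module.Finite ℂ ℂ[G] := inferInstance
    have : Module.Finite ℂ (RestrictScalars ℂ ℂ[G] M) := Module.Finite.of_injective f hf
    have hχ := Cfsg.Agent.Lib.CharT.Transfer.isIrrCharacter_character ρ hirr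
    have hone : ρ.character 1 = 1 := h ⟨ρ.character, hχ⟩
    have hfin : finrank ℂ (RestrictScalars ℂ ℂ[G] M) = 1 := by
      have : ρ.character 1 = (finrank ℂ (RestrictScalars ℂ ℂ[G] M) : ℂ) := by simp
      rw [this] at hone
      exact_mod_cast hone
    have hcomm : ρ (g * h') = ρ (h' * g) := by
      rw [map_mul, map_mul]
      exact end_comm_of_finrank_one hfin _ _
    let y : RestrictScalars ℂ ℂ[G] M := (RestrictScalars.addEquiv ℂ ℂ[G] M).symm ⟨x, hx⟩
    have key : ∀ k : G, (MonoidAlgebra.of ℂ G k) * x = f (ρ k y) := by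
      intro k
      have := ofModule_asAlgebraHom_apply_apply (k := ℂ) (G := G) M (MonoidAlgebra.of ℂ G k) y
      simp only [MonoidAlgebra.of_apply, Representation.asAlgebraHom_single, one_smul] at this
      change ρ k y = _ at this
      rw [this]
      simp [f, y, MonoidAlgebra.of_apply]
    change (MonoidAlgebra.of ℂ G (g * h') - MonoidAlgebra.of ℂ G (h' * g)) * x = 0
    rw [sub_mul, key, key, hcomm, sub_self]
  -- the left ideal of elements killed
  let N : Submodule ℂ[G] ℂ[G] :=
    { carrier := {x | ∀ r : ℂ[G], a * (r * x) = 0}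
      add_mem' := by
        intro x y hx hy r
        rw [mul_add, mul_add, hx r, hy r, add_zero]
      zero_mem' := by intro r; simp
      smul_mem' := by
        intro s x hx r
        have := hx (r * s)
        simpa [mul_assoc] using this }
  have hN : (⊤ : Submodule ℂ[G] ℂ[G]) ≤ N := by
    rw [← IsSemisimpleModule.sSup_simples_eq_top ℂ[G] ℂ[G]]
    refine sSup_le ?_
    intro M hM x hx r
    exact hkill M hM (r * x) (M.smul_mem r hx)
  have h1 : (1 : ℂ[G]) ∈ N := hN trivial
  have h2 : a = 0 := by simpa using h1 1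
  have h3 : MonoidAlgebra.of ℂ G (g * h') = MonoidAlgebra.of ℂ G (h' * g) := sub_eq_zero.mp h2
  exact MonoidAlgebra.of_injective h3

/-- A finite group is commutative if and only if every irreducible complex character has degree 1. -/
theorem result {G : Type*} [Group G] [Finite G] : (∀ a b : G, a * b = b * a) ↔ ∀ χ : Cfsg.IrrCharacter G, (χ : G → ℂ) 1 = 1 := by
  constructor
  · intro hcomm χ
    obtain ⟨χ, n, ρ, hirr, rfl⟩ := χ
    have : IsMulCommutative G := ⟨⟨hcomm⟩⟩
    have := Representation.IsIrreducible.finrank_eq_one_of_isMulCommutative ρ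
    simp [this]
  · intro h g k
    exact backward h g k

end Cfsg.Agent.S0187
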