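import Cfsg.Statements.S0189
import Cfsg.Agent.Lib.Char.Values
import Mathlib

set_option autoImplicit false
open Cfsg

namespace Cfsg.Agent.S0189

/-- If a character vanishes on the non-identity elements of a subgroup `H`, then `|H|` divides its
degree. -/
theorem aux {G : Type*} [Group G] [Finite G] (H : Subgroup G) (χ : G → ℂ)
    (hχ : Cfsg.IsCharacter G χ) (hvan : ∀ g : G, g ∈ H → g ≠ 1 → χ g = 0) :
    ∃ k : ℕ, χ 1 = (Nat.card H : ℂ) * k := by
  classical
  obtain ⟨n, ρ, rfl⟩ := hχ
  let σ : Representation ℂ H (Fin n → ℂ) := ρ.comp H.subtype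
  letI : Fintype H := Fintype.ofFinite H
  have hne : (Nat.card H : ℂ) ≠ 0 := by
    have : Nat.card H ≠ 0 := Nat.card_pos.ne'
    exact_mod_cast this
  letI : Invertible (Nat.card H : ℂ) := invertibleOfNonzero hne
  have h := σ.card_inv_mul_sum_char_eq_finrank
  have hsum : ∑ g : H, σ.character g = ρ.character 1 := by
    rw [Finset.sum_eq_single (1 : H)]
    · simp [σ, Representation.character]
    · intro b _ hb
      have hb' : (b : G) ≠ 1 := by simpa using hb
      exact hvan b b.2 hb'
    · intro h; exact absurd (Finset.mem_univ _) h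
  rw [hsum] at h
  refine ⟨Module.finrank ℂ (Representation.invariants σ), ?_⟩
  rw [← h]
  field_simp

/-- If a complex character of a finite group vanishes at every non-identity element of a Sylow p-subgroup P, then |P| divides its degree. -/
theorem result {G : Type*} [Group G] [Finite G] (p : ℕ) [Fact p.Prime] (P : Sylow p G) (χ : G → ℂ) (hχ : Cfsg.IsCharacter G χ) (hvan : ∀ g : G, g ∈ P → g ≠ 1 → χ g = 0) : ∃ k : ℕ, χ 1 = (Nat.card P : ℂ) * k := by
  exact aux (P : Subgroup G) χ hχ hvan

end Cfsg.Agent.S0189
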