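import Cfsg.Statements.S0192
import Mathlib
import Cfsg.Agent.Lib.Char.Burnside2
import Cfsg.Agent.Lib.Char.Ortho

set_option autoImplicit false
open Cfsg

namespace Cfsg.Agent.S0192

open Cfsg.Agent.Lib.Char.Ortho in
theorem inner_eq {G : Type*} [Group G] [Fintype G] {n : ℕ} (ρ : Representation ℂ G (Fin n → ℂ))
    (H : Subgroup G) [Fintype H] :
    classInner (fun x : H => ρ.character x) (fun _ => 1)
      = (Module.finrank ℂ (Representation.invariants (ρ.comp H.subtype)) : ℂ) := by
  haveI : Invertible (Nat.card H : ℂ) := invertibleOfNonzero (Nat.cast_ne_zero.mpr Nat.card_pos.ne')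
  have h := Representation.card_inv_mul_sum_char_eq_finrank (ρ.comp H.subtype)
  rw [← h]
  unfold classInner
  simp only [map_one, mul_one]
  rfl


/-- Brauer's generation criterion. Let G be a finite simple group, H₁ and H₂ subgroups, and χ a non-principal irreducible character. If the multiplicity of the principal character in χ restricted to H₁ ⊓ H₂ is less than the sum of the corresponding multiplicities for H₁ and H₂, then H₁ and H₂ do not generate G. -/
theorem result {G : Type*} [Group G] [Fintype G] [IsSimpleGroup G] (H₁ H₂ : Subgroup G) [Fintype H₁] [Fintype H₂] [Fintype ↥(H₁ ⊓ H₂)] (χ : G → ℂ) (hχ : Cfsg.IsIrrCharacter G χ) (hχ1 : χ ≠ fun _ => 1) (hlt : (Cfsg.classInner (fun x : ↥(H₁ ⊓ H₂) => χ x) (fun _ => 1)).re < (Cfsg.classInner (fun x : H₁ => χ x) (fun _ => 1)).re + (Cfsg.classInner (fun x : H₂ => χ x) (fun _ => 1)).re) : H₁ ⊔ H₂ ≠ ⊤ := by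
  classical
  intro htop
  obtain ⟨n, ρ, hρ, rfl⟩ := hχ
  let A : Subgroup G → Submodule ℂ (Fin n → ℂ) := fun H => Representation.invariants (ρ.comp H.subtype)
  have hmem : ∀ H : Subgroup G, ∀ v, v ∈ A H ↔ ∀ h ∈ H, ρ h v = v := by
    intro H v
    constructor
    · intro hv h hh
      exact hv ⟨h, hh⟩
    · intro hv h
      exact hv h h.2
  have h1 := inner_eq ρ H₁
  have h2 := inner_eq ρ H₂
  have h3 := inner_eq ρ (H₁ ⊓ H₂)
  rw [h1, h2, h3] at hlt
  simp only [Complex.natCast_re] at hlt
  have hlt2 : Module.finrank ℂ (A (H₁ ⊓ H₂)) < Module.finrank ℂ (A H₁) + Module.finrank ℂ (A H₂) := by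
    exact_mod_cast hlt
  have hG : Representation.invariants ρ = ⊥ := by
    haveI : Invertible (Nat.card G : ℂ) := invertibleOfNonzero (Nat.cast_ne_zero.mpr Nat.card_pos.ne')
    have h4 := Representation.card_inv_mul_sum_char_eq_finrank ρ
    have h5 : Cfsg.classInner ρ.character (fun _ => 1) = 0 :=
      Cfsg.Agent.Lib.Char.Ortho.classInner_irr_of_ne ⟨n, ρ, hρ, rfl⟩
        Cfsg.Agent.Lib.Char.Burnside2.isIrrCharacter_one hχ1
    have h6 : (Nat.card G : ℂ)⁻¹ * ∑ g : G, ρ.character g = 0 := by
      unfold Cfsg.classInner at h5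
      simpa using h5
    rw [h6] at h4
    have h7 : Module.finrank ℂ (Representation.invariants ρ) = 0 := by
      exact_mod_cast h4.symm
    exact Submodule.finrank_eq_zero.1 h7
  have hinf : A H₁ ⊓ A H₂ = ⊥ := by
    rw [eq_bot_iff, ← hG]
    intro v hv
    have hv1 := (hmem H₁ v).1 hv.1
    have hv2 := (hmem H₂ v).1 hv.2
    let S : Subgroup G :=
      { carrier := {g | ρ g v = v}
        mul_mem' := by
          intro a b ha hb
          show ρ (a * b) v = v
          rw [map_mul]
          show ρ a (ρ b v) = v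
          rw [show ρ b v = v from hb]
          exact ha
        one_mem' := by
          show ρ 1 v = v
          simp
        inv_mem' := by
          intro a ha
          show ρ a⁻¹ v = v
          have h : ρ a v = v := ha
          conv_lhs => rw [← h]
          show (ρ a⁻¹ * ρ a) v = v
          rw [← map_mul]
          simp }
    have hle : H₁ ⊔ H₂ ≤ S := sup_le (fun x hx => hv1 x hx) (fun x hx => hv2 x hx)
    rw [htop] at hle
    intro g
    exact hle (Subgroup.mem_top g)
  have hsup : A H₁ ⊔ A H₂ ≤ A (H₁ ⊓ H₂) := by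
    refine sup_le (fun v hv => ?_) (fun v hv => ?_)
    · exact (hmem _ v).2 fun h hh => (hmem H₁ v).1 hv h hh.1
    · exact (hmem _ v).2 fun h hh => (hmem H₂ v).1 hv h hh.2
  have h8 := Submodule.finrank_sup_add_finrank_inf_eq (A H₁) (A H₂)
  rw [hinf] at h8
  have h9 := Submodule.finrank_mono hsup
  simp only [finrank_bot, add_zero] at h8
  omega

end Cfsg.Agent.S0192
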