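import Cfsg.Statements.S0196
import Mathlib
-- import your own Cfsg.Agent.* helpers here

set_option autoImplicit false
open Cfsg

namespace Cfsg.Agent.S0196

/-- Let A be a subgroup of a finite group G that equals the centralizer of each of its non-identity elements, and let N be its normalizer. Then the index of A in N divides |A| − 1 (N/A permutes the non-identity elements of A in orbits of full length). -/
theorem result {G : Type*} [Group G] [Finite G] (A : Subgroup G) (hA : ∀ x ∈ A, x ≠ 1 → Subgroup.centralizer ({x} : Set G) = A) : (A.subgroupOf (Subgroup.normalizer (A : Set G))).index ∣ Nat.card A - 1 := by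
  classical
  have : Fintype G := Fintype.ofFinite G
  set N := Subgroup.normalizer (A : Set G) with hN
  let X := {x : G // x ∈ A ∧ x ≠ 1}
  have hmem : ∀ (n : ↥N) (x : G), x ∈ A → (n : G) * x * (n : G)⁻¹ ∈ A := by
    intro n x hx
    exact ((Subgroup.mem_set_normalizer_iff).1 n.2 x).1 hx
  let act : MulAction ↥N X :=
    { smul := fun n x => ⟨(n : G) * x.1 * (n : G)⁻¹, hmem n x.1 x.2.1, by
        intro h
        apply x.2.2
        have e : x.1 = (n : G)⁻¹ * ((n : G) * x.1 * (n : G)⁻¹) * (n : G) := by group
        rw [e, h]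
        group⟩
      one_smul := fun x => Subtype.ext (by
        show ((1 : ↥N) : G) * x.1 * ((1 : ↥N) : G)⁻¹ = x.1
        simp)
      mul_smul := fun a b x => Subtype.ext (by
        show ((a * b : ↥N) : G) * x.1 * ((a * b : ↥N) : G)⁻¹
          = (a : G) * ((b : G) * x.1 * (b : G)⁻¹) * (a : G)⁻¹
        simp only [Subgroup.coe_mul, mul_inv_rev]
        group) }
  have hst : ∀ y : X, MulAction.stabilizer ↥N y = A.subgroupOf N := by
    intro y
    ext n
    rw [MulAction.mem_stabilizer_iff, Subgroup.mem_subgroupOf]
    have hc := hA y.1 y.2.1 y.2.2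
    have e : n • y = y ↔ (n : G) * y.1 * (n : G)⁻¹ = y.1 :=
      ⟨fun h => congrArg Subtype.val h, fun h => Subtype.ext h⟩
    have e2 : (n : G) ∈ A ↔ (n : G) ∈ Subgroup.centralizer ({y.1} : Set G) := by rw [hc]
    rw [e, e2, Subgroup.mem_centralizer_iff]
    constructor
    · intro h z hz
      have hz' : z = y.1 := hz
      rw [hz']
      exact (mul_inv_eq_iff_eq_mul.1 h).symm
    · intro h
      have := h y.1 rfl
      rw [mul_inv_eq_iff_eq_mul]
      exact this.symm
  have hcard : Nat.card X = Nat.card ↥A - 1 := by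
    have e : X ≃ {a : ↥A // a ≠ 1} :=
      { toFun := fun x => ⟨⟨x.1, x.2.1⟩, fun h => x.2.2 (congrArg Subtype.val h)⟩
        invFun := fun a => ⟨a.1.1, a.1.2, fun h => a.2 (Subtype.ext h)⟩
        left_inv := fun x => rfl
        right_inv := fun a => rfl }
    rw [Nat.card_congr e, Nat.card_eq_fintype_card, Nat.card_eq_fintype_card]
    rw [Fintype.card_subtype_compl (fun a : ↥A => a = 1), Fintype.card_subtype_eq]
  rw [← hcard]
  have : Fintype (MulAction.orbitRel.Quotient ↥N X) := Fintype.ofFinite _
  have e := Nat.card_congr (MulAction.selfEquivSigmaOrbitsQuotientStabilizer ↥N X)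
  rw [Nat.card_sigma] at e
  rw [e]
  apply Finset.dvd_sum
  intro ω _
  rw [hst]
  exact dvd_rfl

end Cfsg.Agent.S0196
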