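import Cfsg.Statements.S0207
import Mathlib

set_option autoImplicit false
open Cfsg

namespace Cfsg.Agent.S0207

/-- If x, y are distinct involutions, every element of the subgroup they generate that lies outside the cyclic subgroup generated by xy is an involution. -/
theorem result {G : Type*} [Group G] [Finite G] (x y : G) (hx : orderOf x = 2) (hy : orderOf y = 2) (hxy : x ≠ y) (d : G) (hd : d ∈ Subgroup.closure ({x, y} : Set G)) (hd' : d ∉ Subgroup.zpowers (x * y)) : orderOf d = 2 := by
  have hx2 : x * x = 1 := by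
    have := pow_orderOf_eq_one x
    rw [hx, pow_two] at this; exact this
  have hy2 : y * y = 1 := by
    have := pow_orderOf_eq_one y
    rw [hy, pow_two] at this; exact this
  have hxi : x⁻¹ = x := inv_eq_of_mul_eq_one_left hx2
  have hyi : y⁻¹ = y := inv_eq_of_mul_eq_one_left hy2
  set w := x * y with hw
  have hwinv : w⁻¹ = y * x := by rw [hw, mul_inv_rev, hxi, hyi]
  have hconj1 : x * w * x⁻¹ = w⁻¹ := by
    rw [hwinv, hw, hxi]
    calc x * (x * y) * x = (x * x) * y * x := by group
      _ = y * x := by rw [hx2]; group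
  have hconj : ∀ k : ℤ, x * w ^ k * x⁻¹ = w ^ (-k) := by
    intro k
    rw [← conj_zpow, hconj1, inv_zpow, zpow_neg]
  have hcomm : ∀ k : ℤ, x * w ^ k = w ^ (-k) * x := by
    intro k
    rw [← hconj k]; group
  have hform : ∀ z ∈ Subgroup.closure ({x, y} : Set G), (∃ k : ℤ, z = w ^ k) ∨ (∃ k : ℤ, z = x * w ^ k) := by
    intro z hz
    induction hz using Subgroup.closure_induction with
    | mem z hz =>
      rcases hz with rfl | hz
      · right; exact ⟨0, by simp⟩
      · rw [Set.mem_singleton_iff] at hz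
        subst hz
        right; refine ⟨1, ?_⟩
        rw [zpow_one, hw, ← mul_assoc, hx2, one_mul]
    | one => left; exact ⟨0, by simp⟩
    | mul a b _ _ ha hb =>
      rcases ha with ⟨k, rfl⟩ | ⟨k, rfl⟩ <;> rcases hb with ⟨l, rfl⟩ | ⟨l, rfl⟩
      · left; exact ⟨k + l, by rw [zpow_add]⟩
      · right; refine ⟨-k + l, ?_⟩
        rw [zpow_add, ← mul_assoc, ← mul_assoc, hcomm (-k)]
        simp
      · right; exact ⟨k + l, by rw [zpow_add, mul_assoc]⟩
      · left; refine ⟨-k + l, ?_⟩
        calc x * w ^ k * (x * w ^ l) = (w ^ (-k) * x) * (x * w ^ l) := by rw [hcomm k]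
          _ = w ^ (-k) * (x * x) * w ^ l := by group
          _ = w ^ (-k + l) := by rw [hx2, zpow_add]; group
    | inv a _ ha =>
      rcases ha with ⟨k, rfl⟩ | ⟨k, rfl⟩
      · left; exact ⟨-k, by rw [zpow_neg]⟩
      · right; refine ⟨k, ?_⟩
        rw [mul_inv_rev, hxi, ← zpow_neg, ← hcomm k]
  rcases hform d hd with ⟨k, rfl⟩ | ⟨k, rfl⟩
  · exact absurd (Subgroup.zpow_mem_zpowers w k) hd'
  · have h1 : (x * w ^ k) ^ 2 = 1 := by
      rw [pow_two, hcomm k]
      calc w ^ (-k) * x * (w ^ (-k) * x) = w ^ (-k) * (x * w ^ (-k)) * x := by group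
        _ = w ^ (-k) * (w ^ (- -k) * x) * x := by rw [hcomm (-k)]
        _ = 1 := by
          rw [neg_neg]
          calc w ^ (-k) * (w ^ k * x) * x = (w ^ (-k) * w ^ k) * (x * x) := by group
            _ = 1 := by rw [hx2, zpow_neg]; group
    refine orderOf_eq_prime h1 ?_
    intro h2
    apply hd'
    rw [h2]
    exact one_mem _

end Cfsg.Agent.S0207
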