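import Cfsg.Statements.S0209
import Mathlib
-- import your own Cfsg.Agent.* helpers here

set_option autoImplicit false
open Cfsg

namespace Cfsg.Agent.S0209

/-- If x, y are involutions whose product has even order n, the element (xy)^(n/2) is an involution that commutes with x and with y. -/
theorem result {G : Type*} [Group G] [Finite G] (x y : G) (hx : orderOf x = 2) (hy : orderOf y = 2) (heven : Even (orderOf (x * y))) : orderOf ((x * y) ^ (orderOf (x * y) / 2)) = 2 ∧ Commute ((x * y) ^ (orderOf (x * y) / 2)) x ∧ Commute ((x * y) ^ (orderOf (x * y) / 2)) y := by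
  have hx2 : x * x = 1 := by
    have := pow_orderOf_eq_one x
    rw [hx, pow_two] at this
    exact this
  have hy2 : y * y = 1 := by
    have := pow_orderOf_eq_one y
    rw [hy, pow_two] at this
    exact this
  set w := x * y with hw
  have hn : orderOf w ≠ 0 := (orderOf_pos w).ne'
  have h2 : 2 ∣ orderOf w := heven.two_dvd
  have hord : orderOf (w ^ (orderOf w / 2)) = 2 := orderOf_pow_orderOf_div hn h2
  set m := orderOf w / 2 with hm
  have hm2 : (w ^ m) * (w ^ m) = 1 := by
    have := pow_orderOf_eq_one (w ^ m)
    rw [hord, pow_two] at this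
    exact this
  have hinv : (w ^ m)⁻¹ = w ^ m := inv_eq_of_mul_eq_one_left hm2
  have hxinv : x * x = 1 := hx2
  have hxw : x * w * x = w⁻¹ := by
    rw [hw]
    apply eq_inv_of_mul_eq_one_left
    calc x * (x * y) * x * (x * y) = (x * x) * y * (x * x) * y := by group
      _ = 1 := by rw [hx2]; simpa using hy2
  have hyw : y * w * y = w⁻¹ := by
    rw [hw]
    apply eq_inv_of_mul_eq_one_left
    calc y * (x * y) * y * (x * y) = y * x * (y * y) * x * y := by group
      _ = y * (x * x) * y := by rw [hy2]; group
      _ = 1 := by rw [hx2]; simpa using hy2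
  have hconj : ∀ z : G, z * z = 1 → z * w * z = w⁻¹ → Commute (w ^ m) z := by
    intro z hz hzw
    have hzinv : z⁻¹ = z := inv_eq_of_mul_eq_one_left hz
    have h1 : z * w ^ m * z⁻¹ = (z * w * z⁻¹) ^ m := (conj_pow).symm
    rw [hzinv, hzw, inv_pow, hinv] at h1
    have : z * w ^ m = w ^ m * z := by
      calc z * w ^ m = z * w ^ m * (z * z) := by rw [hz, mul_one]
        _ = (z * w ^ m * z) * z := by group
        _ = w ^ m * z := by rw [h1]
    exact this.symm
  exact ⟨hord, hconj x hx2 hxw, hconj y hy2 hyw⟩

end Cfsg.Agent.S0209
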