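import Cfsg.Statements.S0210
import Mathlib
-- import your own Cfsg.Agent.* helpers here

set_option autoImplicit false
open Cfsg

namespace Cfsg.Agent.S0210

/-- If x, y are involutions whose product has even order, no element of the subgroup generated by x and y conjugates x to y. -/
theorem result {G : Type*} [Group G] [Finite G] (x y : G) (hx : orderOf x = 2) (hy : orderOf y = 2) (heven : Even (orderOf (x * y))) (d : G) (hd : d ∈ Subgroup.closure ({x, y} : Set G)) : d * x * d⁻¹ ≠ y := by
  classical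
  have hx2 : x * x = 1 := by
    have h1 := pow_orderOf_eq_one x
    rwa [hx, pow_two] at h1
  have hy2 : y * y = 1 := by
    have h1 := pow_orderOf_eq_one y
    rwa [hy, pow_two] at h1
  have hxi : x⁻¹ = x := inv_eq_of_mul_eq_one_left hx2
  have hyi : y⁻¹ = y := inv_eq_of_mul_eq_one_left hy2
  set w := x * y with hw
  have hconj : ∀ k : ℤ, x * w ^ k * x⁻¹ = w ^ (-k) := by
    intro k
    have h1 : x * w * x⁻¹ = w⁻¹ := by
      rw [hw, mul_inv_rev, hyi, hxi]
      calc x * (x * y) * x = (x * x) * y * x := by group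
        _ = y * x := by rw [hx2, one_mul]
    rw [← conj_zpow, h1, zpow_neg, inv_zpow]
  have hcomm : ∀ k : ℤ, w ^ k * x = x * w ^ (-k) := by
    intro k
    have h1 := hconj (-k)
    rw [neg_neg] at h1
    rw [← h1, hxi]
    simp only [mul_assoc, hx2, mul_one]
  have hyw : y = x * w := by
    rw [hw, ← mul_assoc, hx2, one_mul]
  have hform : ∃ k : ℤ, d = w ^ k ∨ d = x * w ^ k := by
    induction hd using Subgroup.closure_induction with
    | mem a ha =>
      rcases ha with rfl | ha
      · exact ⟨0, Or.inr (by simp)⟩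
      · rw [Set.mem_singleton_iff] at ha
        subst ha
        exact ⟨1, Or.inr (by rw [zpow_one]; exact hyw)⟩
    | one => exact ⟨0, Or.inl (by simp)⟩
    | mul a b _ _ ha hb =>
      obtain ⟨k, hk⟩ := ha
      obtain ⟨l, hl⟩ := hb
      rcases hk with rfl | rfl <;> rcases hl with rfl | rfl
      · exact ⟨k + l, Or.inl (zpow_add _ _ _).symm⟩
      · refine ⟨-k + l, Or.inr ?_⟩
        rw [← mul_assoc, hcomm, zpow_add, mul_assoc]
      · refine ⟨k + l, Or.inr ?_⟩
        rw [mul_assoc, zpow_add]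
      · refine ⟨-k + l, Or.inl ?_⟩
        calc x * w ^ k * (x * w ^ l) = x * (w ^ k * x) * w ^ l := by group
          _ = x * (x * w ^ (-k)) * w ^ l := by rw [hcomm]
          _ = (x * x) * (w ^ (-k) * w ^ l) := by group
          _ = w ^ (-k + l) := by rw [hx2, one_mul, zpow_add]
    | inv a _ ha =>
      obtain ⟨k, hk⟩ := ha
      rcases hk with rfl | rfl
      · exact ⟨-k, Or.inl (zpow_neg _ _).symm⟩
      · refine ⟨k, Or.inr ?_⟩
        rw [mul_inv_rev, hxi, ← zpow_neg, hcomm, neg_neg]
  have hodd : ∀ m : ℤ, w ^ (2 * m + 1) ≠ 1 := by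
    intro m h1
    rw [← orderOf_dvd_iff_zpow_eq_one] at h1
    obtain ⟨r, hr⟩ := heven
    have : (2 : ℤ) ∣ 2 * m + 1 := by
      refine Dvd.dvd.trans ?_ h1
      rw [hr]
      push_cast
      exact ⟨r, by ring⟩
    omega
  intro hd'
  obtain ⟨k, hk⟩ := hform
  rcases hk with rfl | rfl
  · -- w^k x w^-k = x w^(-2k) = x w
    have h1 : w ^ k * x * (w ^ k)⁻¹ = x * w ^ (-k) * w ^ (-k) := by
      rw [hcomm, zpow_neg]
    rw [h1, hyw, mul_assoc] at hd'
    have h2 : w ^ (-k) * w ^ (-k) = w := mul_left_cancel hd'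
    apply hodd k
    calc w ^ (2 * k + 1) = w ^ (2 * k) * w := by rw [zpow_add, zpow_one]
      _ = w ^ (2 * k) * (w ^ (-k) * w ^ (-k)) := by rw [h2]
      _ = 1 := by
        rw [← zpow_add, ← zpow_add]
        have : 2 * k + (-k + -k) = 0 := by ring
        rw [this, zpow_zero]
  · -- (x w^k) x (x w^k)⁻¹ = w^k x w^-k x = 
    have h1 : x * w ^ k * x * (x * w ^ k)⁻¹ = w ^ (-(2 * k)) * x := by
      rw [mul_inv_rev, hxi]
      have h2 : x * w ^ k * x = w ^ (-k) := by
        have := hconj k
        rwa [hxi] at this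
      rw [h2]
      have h3 : (w ^ k)⁻¹ * x = w ^ (-k) * x := by rw [zpow_neg]
      rw [h3, ← mul_assoc, ← zpow_add]
      congr 2
      ring
    rw [h1] at hd'
    have h2 : y = w⁻¹ * x := by
      rw [hyw]
      have := hcomm (-1)
      rw [zpow_neg_one, neg_neg, zpow_one] at this
      exact this.symm
    rw [h2] at hd'
    have h3 : w ^ (-(2 * k)) = w⁻¹ := mul_right_cancel hd'
    apply hodd (k - 1)
    have h4 : (2 * (k - 1) + 1 : ℤ) = 2 * k + (-1) := by ring
    rw [h4, zpow_add, zpow_neg_one, zpow_mul]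
    have h5 : w ^ (2 * k) = w := by
      have := congrArg (fun z => z⁻¹) h3
      simp only [inv_inv] at this
      rw [← zpow_neg, neg_neg] at this
      exact this
    rw [← zpow_mul, h5]
    exact mul_inv_cancel w

end Cfsg.Agent.S0210
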