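import Cfsg.Statements.S0211
import Mathlib
-- import your own Cfsg.Agent.* helpers here

set_option autoImplicit false
open Cfsg

namespace Cfsg.Agent.S0211

/-- Let x, y be involutions with xy of even order n and z = (xy)^(n/2). Then xz is conjugate to x by an element of the subgroup generated by x, y if and only if 4 divides n. -/
theorem result {G : Type*} [Group G] [Finite G] (x y : G) (hx : orderOf x = 2) (hy : orderOf y = 2) (heven : Even (orderOf (x * y))) : (∃ d ∈ Subgroup.closure ({x, y} : Set G), d * x * d⁻¹ = x * (x * y) ^ (orderOf (x * y) / 2)) ↔ 4 ∣ orderOf (x * y) := by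
  have hxx : x * x = 1 := by
    have := pow_orderOf_eq_one x
    rwa [hx, pow_two] at this
  have hyy : y * y = 1 := by
    have := pow_orderOf_eq_one y
    rwa [hy, pow_two] at this
  have hxinv : x⁻¹ = x := inv_eq_of_mul_eq_one_left hxx
  have hyinv : y⁻¹ = y := inv_eq_of_mul_eq_one_left hyy
  set w := x * y with hw
  have hxw0 : x * w * x⁻¹ = w⁻¹ := by
    rw [hw, mul_inv_rev, hxinv, hyinv, ← mul_assoc, hxx, one_mul]
  have hxw : ∀ k : ℤ, x * w ^ k * x = w ^ (-k) := by
    intro k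
    have : x * w ^ k * x⁻¹ = (w⁻¹) ^ k := by
      rw [← hxw0, conj_zpow]
    rw [hxinv] at this
    rw [this, inv_zpow, zpow_neg]
  have hxw2 : ∀ k : ℤ, x * w ^ k = w ^ (-k) * x := by
    intro k
    rw [← hxw k, mul_assoc, mul_assoc, hxx, mul_one]
  obtain ⟨m, hm⟩ := heven
  have hmdiv : (m + m) / 2 = m := by omega
  rw [hm, hmdiv]
  have hwm : w ^ ((m : ℤ) + m) = 1 := by
    have := pow_orderOf_eq_one w
    rw [hm] at this
    exact_mod_cast this
  have hdvd : ∀ a : ℤ, w ^ a = 1 → ((m : ℤ) + m) ∣ a := by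
    intro a ha
    have := orderOf_dvd_iff_zpow_eq_one.mpr ha
    rw [hm] at this
    exact_mod_cast this
  have hform : ∀ d ∈ Subgroup.closure ({x, y} : Set G), ∃ k : ℤ, d = w ^ k ∨ d = x * w ^ k := by
    intro d hd
    induction hd using Subgroup.closure_induction with
    | mem a ha =>
      rcases ha with rfl | rfl
      · exact ⟨0, Or.inr (by simp)⟩
      · refine ⟨1, Or.inr ?_⟩
        rw [zpow_one, hw, ← mul_assoc, hxx, one_mul]
    | one => exact ⟨0, Or.inl (by simp)⟩
    | mul a b _ _ iha ihb =>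
      obtain ⟨k, hk⟩ := iha
      obtain ⟨l, hl⟩ := ihb
      rcases hk with rfl | rfl <;> rcases hl with rfl | rfl
      · exact ⟨k + l, Or.inl (zpow_add _ _ _).symm⟩
      · refine ⟨-k + l, Or.inr ?_⟩
        rw [zpow_add, ← mul_assoc, ← mul_assoc, hxw2 (-k), neg_neg]
      · exact ⟨k + l, Or.inr (by rw [zpow_add, mul_assoc])⟩
      · refine ⟨-k + l, Or.inl ?_⟩
        rw [zpow_add, ← hxw k]
        simp only [mul_assoc]
    | inv a _ iha =>
      obtain ⟨k, hk⟩ := iha
      rcases hk with rfl | rfl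
      · exact ⟨-k, Or.inl (zpow_neg _ _).symm⟩
      · refine ⟨k, Or.inr ?_⟩
        rw [mul_inv_rev, hxinv, ← zpow_neg, hxw2 k]
  have hconj1 : ∀ k : ℤ, w ^ k * x * (w ^ k)⁻¹ = w ^ (k + k) * x := by
    intro k
    rw [zpow_add, mul_assoc, ← zpow_neg, hxw2 (-k), neg_neg, mul_assoc]
  have hconj2 : ∀ k : ℤ, (x * w ^ k) * x * (x * w ^ k)⁻¹ = w ^ (-k + -k) * x := by
    intro k
    rw [mul_inv_rev, hxinv, ← zpow_neg, hxw k, zpow_add, mul_assoc]
  have hz : x * w ^ m = w ^ (-(m : ℤ)) * x := by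
    rw [← zpow_natCast, hxw2]
  have hfinal : ∀ k : ℤ, w ^ (k + k) * x = x * w ^ m → 4 ∣ m + m := by
    intro k ha
    rw [hz] at ha
    have h1 : w ^ (k + k) = w ^ (-(m : ℤ)) := mul_right_cancel ha
    have h2 : w ^ (k + k + m) = 1 := by
      rw [zpow_add, h1, ← zpow_add]
      simp
    obtain ⟨t, ht⟩ := hdvd _ h2
    have h3 : (m : ℤ) = 2 * (m * t - k) := by linarith
    have h4 : (2 : ℤ) ∣ (m : ℤ) := ⟨_, h3⟩
    have h5 : 2 ∣ m := by exact_mod_cast h4
    omega
  constructor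
  · rintro ⟨d, hd, hdx⟩
    obtain ⟨k, hk | hk⟩ := hform d hd
    · subst hk
      rw [hconj1] at hdx
      exact hfinal _ hdx
    · subst hk
      rw [hconj2] at hdx
      exact hfinal _ hdx
  · intro h4
    obtain ⟨j, hj⟩ : ∃ j, m = 2 * j := by
      obtain ⟨c, hc⟩ := h4
      exact ⟨c, by omega⟩
    refine ⟨w ^ j, ?_, ?_⟩
    · apply Subgroup.pow_mem
      exact Subgroup.mul_mem _ (Subgroup.subset_closure (by simp)) (Subgroup.subset_closure (by simp))
    · have h1 := hconj1 (j : ℤ)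
      rw [zpow_natCast] at h1
      rw [h1, hz]
      have h2 : w ^ ((j : ℤ) + j) = w ^ (-(m : ℤ)) := by
        have h3 : ((j : ℤ) + j) = m := by omega
        rw [h3, zpow_neg, eq_inv_iff_mul_eq_one, ← zpow_add]
        exact hwm
      rw [h2]

end Cfsg.Agent.S0211
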