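import Cfsg.Statements.S0212
import Mathlib
import Cfsg.Agent.Lib.Basic.ConjCount
-- import your own Cfsg.Agent.* helpers here

set_option autoImplicit false
open Cfsg

namespace Cfsg.Agent.S0212

/-- The arithmetic at the heart of the Brauer–Fowler bound. -/
theorem arith (k n idx ν h N : ℕ) (hk : 2 ≤ k) (hn : 0 < n) (h1 : k * n = N) (h2 : idx * h = N)
    (h3 : ν ≤ h) (h4 : k * k - k ≤ (N - 1) * ν) : idx ≤ 2 * n ^ 2 := by
  by_contra hcon
  push Not at hcon
  have h5 : idx * ν ≤ N := h2 ▸ Nat.mul_le_mul_left idx h3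
  obtain ⟨m, rfl⟩ : ∃ m, k = m + 1 := ⟨k - 1, by omega⟩
  have hm : 1 ≤ m := by omega
  have hNpos : 1 ≤ N := by
    rw [← h1]
    exact Nat.mul_pos (by omega) hn
  obtain ⟨M, rfl⟩ : ∃ M, N = M + 1 := ⟨N - 1, by omega⟩
  have h4' : (m + 1) * m ≤ M * ν := by
    have : (m + 1) * (m + 1) - (m + 1) = (m + 1) * m := by
      rw [Nat.mul_add, Nat.mul_one, Nat.add_sub_cancel]
    rw [this] at h4
    simpa using h4
  have h6 : idx * ((m + 1) * m) ≤ M * ((m + 1) * n) := by
    calc idx * ((m + 1) * m) ≤ idx * (M * ν) := Nat.mul_le_mul_left _ h4'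
      _ = M * (idx * ν) := by ring
      _ ≤ M * (M + 1) := Nat.mul_le_mul_left _ h5
      _ = M * ((m + 1) * n) := by rw [h1]
  have h7 : idx * m ≤ M * n := by
    have : (m + 1) * (idx * m) ≤ (m + 1) * (M * n) := by
      calc (m + 1) * (idx * m) = idx * ((m + 1) * m) := by ring
        _ ≤ M * ((m + 1) * n) := h6
        _ = (m + 1) * (M * n) := by ring
    exact Nat.le_of_mul_le_mul_left this (by omega)
  have h8 : (2 * n ^ 2 + 1) * m ≤ M * n := le_trans (Nat.mul_le_mul_right _ hcon) h7
  have h9 : M * n + n = (m + 1) * n * n := by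
    rw [h1]; ring
  nlinarith [Nat.mul_pos hn hn, Nat.mul_le_mul_right (n * n) hm]

theorem mem_normalizer_of_invert {G : Type*} [Group G] {x g : G} (hx : x * x = 1)
    (h : x * g * x⁻¹ = g⁻¹) :
    x ∈ Subgroup.normalizer ((Subgroup.zpowers g : Subgroup G) : Set G) := by
  have hconj : ∀ i : ℤ, x * g ^ i * x⁻¹ = (g⁻¹) ^ i := by
    intro i
    rw [← h, conj_zpow]
  have hxi : x⁻¹ = x := inv_eq_of_mul_eq_one_left hx
  rw [Subgroup.mem_normalizer_iff]
  intro y
  constructor
  · rintro ⟨i, rfl⟩
    simp only at *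
    rw [hconj]
    exact Subgroup.zpow_mem _ (inv_mem (Subgroup.mem_zpowers g)) i
  · rintro ⟨j, hj⟩
    simp only at hj
    have h1 : y = x * (g ^ j) * x⁻¹ := by
      rw [hj, hxi]
      calc y = (x * x) * y * (x * x) := by rw [hx]; group
        _ = x * (x * y * x) * x := by group
    rw [h1, hconj]
    exact Subgroup.zpow_mem _ (inv_mem (Subgroup.mem_zpowers g)) j

theorem invert_of_involutions {G : Type*} [Group G] {x y : G} (hx : x * x = 1) (hy : y * y = 1) :
    x * (x * y) * x⁻¹ = (x * y)⁻¹ := by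
  have hxi : x⁻¹ = x := inv_eq_of_mul_eq_one_left hx
  have hyi : y⁻¹ = y := inv_eq_of_mul_eq_one_left hy
  rw [hxi, mul_inv_rev, hxi, hyi]
  calc x * (x * y) * x = (x * x) * y * x := by group
    _ = y * x := by rw [hx, one_mul]

/-- The Brauer–Fowler bound: if G is a finite simple group and t an involution of G whose centralizer has order n, then |G| ≤ (2n^2)!. -/
theorem result {G : Type*} [Group G] [Finite G] [IsSimpleGroup G] (t : G) (ht : orderOf t = 2) : Nat.card G ≤ Nat.factorial (2 * (Nat.card (Subgroup.centralizer ({t} : Set G))) ^ 2) := by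
  classical
  have := Fintype.ofFinite G
  set n := Nat.card (Subgroup.centralizer ({t} : Set G)) with hn
  have hnpos : 0 < n := Nat.card_pos
  have hGpos : 0 < Nat.card G := Nat.card_pos
  by_cases hcomm : ∀ a b : G, a * b = b * a
  · have hC : Subgroup.centralizer ({t} : Set G) = ⊤ := by
      rw [eq_top_iff]
      intro x _
      rw [Subgroup.mem_centralizer_singleton_iff]
      exact hcomm x t
    have h1 : n = Nat.card G := by rw [hn, hC, Subgroup.card_top]
    rw [h1]
    calc Nat.card G ≤ 2 * Nat.card G ^ 2 := by nlinarith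
      _ ≤ _ := Nat.self_le_factorial _
  push Not at hcomm
  have htt : t * t = 1 := by
    have := pow_orderOf_eq_one t
    rw [ht, pow_two] at this
    exact this
  have ht1 : t ≠ 1 := by
    rintro rfl
    simp at ht
  -- the centralizer of `t` is proper
  have hCne : Subgroup.centralizer ({t} : Set G) ≠ ⊤ := by
    intro hC
    have hmem : t ∈ Subgroup.center G := by
      rw [Subgroup.mem_center_iff]
      intro x
      have : x ∈ Subgroup.centralizer ({t} : Set G) := by rw [hC]; trivial
      rwa [Subgroup.mem_centralizer_singleton_iff] at this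
    rcases (inferInstance : (Subgroup.center G).Normal).eq_bot_or_eq_top with h | h
    · rw [h, Subgroup.mem_bot] at hmem
      exact ht1 hmem
    · obtain ⟨a, b, hab⟩ := hcomm
      have : b ∈ Subgroup.center G := by rw [h]; trivial
      exact hab ((Subgroup.mem_center_iff.mp this a))
  let K : Finset G := Finset.univ.filter (fun x => IsConj t x)
  have hKcard : K.card * n = Nat.card G := by
    have h1 := Cfsg.Agent.Lib.Basic.ConjCount.card_isConj_mul_card_centralizer t
    rwa [Nat.subtype_card K (by simp [K])] at h1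
  have hk2 : 2 ≤ K.card := by
    by_contra hlt
    have hle : K.card ≤ 1 := by omega
    have hpos : 0 < K.card := by
      by_contra h0
      have : K.card = 0 := by omega
      rw [this, zero_mul] at hKcard
      omega
    have h1 : K.card = 1 := by omega
    rw [h1, one_mul] at hKcard
    apply hCne
    apply Subgroup.eq_top_of_card_eq
    exact hKcard
  have hKinv : ∀ x ∈ K, x * x = 1 := by
    intro x hx
    obtain ⟨c, hc⟩ := isConj_iff.mp (Finset.mem_filter.mp hx).2
    rw [← hc]
    calc c * t * c⁻¹ * (c * t * c⁻¹) = c * (t * t) * c⁻¹ := by group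
      _ = 1 := by rw [htt]; group
  let S : Finset (G × G) := K.offDiag
  have hS : S.card = K.card * K.card - K.card := Finset.offDiag_card K
  let T : Finset G := Finset.univ.erase 1
  have hT : T.card = Nat.card G - 1 := by
    rw [Finset.card_erase_of_mem (Finset.mem_univ _), Finset.card_univ, Nat.card_eq_fintype_card]
  have hmaps : ∀ p ∈ S, p.1 * p.2 ∈ T := by
    intro p hp
    obtain ⟨hp1, hp2, hne⟩ := Finset.mem_offDiag.mp hp
    refine Finset.mem_erase.mpr ⟨?_, Finset.mem_univ _⟩
    intro h1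
    apply hne
    have h2 := hKinv _ hp1
    calc p.1 = p.1 * (p.1 * p.2) := by rw [h1, mul_one]
      _ = p.1 * p.1 * p.2 := by rw [mul_assoc]
      _ = p.2 := by rw [h2, one_mul]
  have hTne : T.Nonempty := ⟨t, Finset.mem_erase.mpr ⟨ht1, Finset.mem_univ _⟩⟩
  obtain ⟨g, hgT, hgmax⟩ := Finset.exists_max_image T (fun y => (S.filter (fun p => p.1 * p.2 = y)).card) hTne
  have hg1 : g ≠ 1 := (Finset.mem_erase.mp hgT).1
  have hSle : S.card ≤ (Nat.card G - 1) * (S.filter (fun p => p.1 * p.2 = g)).card := by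
    rw [Finset.card_eq_sum_card_fiberwise hmaps, ← hT, ← smul_eq_mul]
    exact Finset.sum_le_card_nsmul _ _ _ hgmax
  let H : Subgroup G := Subgroup.normalizer ((Subgroup.zpowers g : Subgroup G) : Set G)
  have hνH : (S.filter (fun p => p.1 * p.2 = g)).card ≤ Nat.card H := by
    rw [Nat.card_eq_fintype_card, ← Fintype.card_coe]
    let ι : {x // x ∈ S.filter (fun p => p.1 * p.2 = g)} → H := fun p => ⟨p.1.1, by
      obtain ⟨hp, hpg⟩ := Finset.mem_filter.mp p.2
      obtain ⟨hp1, hp2, _⟩ := Finset.mem_offDiag.mp hp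
      have hx := hKinv _ hp1
      have hy := hKinv _ hp2
      have hinv : p.1.1 * g * (p.1.1)⁻¹ = g⁻¹ := by
        have := invert_of_involutions hx hy
        rwa [hpg] at this
      exact mem_normalizer_of_invert hx hinv⟩
    refine Fintype.card_le_of_injective ι ?_
    intro p q hpq
    have h1 : p.1.1 = q.1.1 := congrArg Subtype.val hpq
    obtain ⟨_, hpg⟩ := Finset.mem_filter.mp p.2
    obtain ⟨_, hqg⟩ := Finset.mem_filter.mp q.2
    have h2 : p.1.2 = q.1.2 := by
      have : p.1.1 * p.1.2 = q.1.1 * q.1.2 := hpg.trans hqg.symm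
      rw [h1] at this
      exact mul_left_cancel this
    exact Subtype.ext (Prod.ext h1 h2)
  have hHne : H ≠ ⊤ := by
    intro hH
    have hnorm : (Subgroup.zpowers g).Normal := Subgroup.normalizer_eq_top_iff.mp hH
    rcases hnorm.eq_bot_or_eq_top with h | h
    · exact hg1 (Subgroup.zpowers_eq_bot.mp h)
    · obtain ⟨a, b, hab⟩ := hcomm
      have ha : a ∈ Subgroup.zpowers g := by rw [h]; trivial
      have hb : b ∈ Subgroup.zpowers g := by rw [h]; trivial
      obtain ⟨i, rfl⟩ := ha
      obtain ⟨j, rfl⟩ := hb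
      exact hab (zpow_mul_comm g i j)
  have hidx : H.index ≤ 2 * n ^ 2 :=
    arith K.card n H.index _ (Nat.card H) (Nat.card G) hk2 hnpos hKcard (Subgroup.index_mul_card H) hνH
      (by rw [← hS]; exact hSle)
  -- `G` embeds in the symmetric group on the cosets of `H`
  let φ : G →* Equiv.Perm (G ⧸ H) := MulAction.toPermHom G (G ⧸ H)
  have hker : φ.ker = ⊥ := by
    rcases (MonoidHom.normal_ker φ).eq_bot_or_eq_top with h | h
    · exact h
    · exfalso
      apply hHne
      rw [eq_top_iff]
      intro x _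
      have hx : x ∈ φ.ker := by rw [h]; trivial
      have h1 : φ x ((1 : G) : G ⧸ H) = ((1 : G) : G ⧸ H) := by
        rw [MonoidHom.mem_ker.mp hx]; rfl
      have h2 : ((x * 1 : G) : G ⧸ H) = ((1 : G) : G ⧸ H) := h1
      have h3 := QuotientGroup.eq.mp h2
      simpa using h3
  have hinj : Function.Injective φ := (MonoidHom.ker_eq_bot_iff φ).mp hker
  calc Nat.card G ≤ Nat.card (Equiv.Perm (G ⧸ H)) := Nat.card_le_card_of_injective φ hinj
    _ = Nat.factorial (Nat.card (G ⧸ H)) := Nat.card_perm
    _ = Nat.factorial H.index := by rw [Subgroup.index]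
    _ ≤ _ := Nat.factorial_le hidx

end Cfsg.Agent.S0212
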