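import Cfsg.Statements.S0213
import Mathlib
import Cfsg.Agent.S0208
-- import your own Cfsg.Agent.* helpers here

set_option autoImplicit false
open Cfsg

namespace Cfsg.Agent.S0213

lemma card_class_mul_centralizer {G : Type*} [Group G] [Fintype G] (x : G) (c : Finset G)
    (hc : ∀ t, t ∈ c ↔ IsConj x t) :
    c.card * Nat.card (Subgroup.centralizer ({x} : Set G)) = Nat.card G := by
  classical
  have hmaps : ((Finset.univ : Finset G) : Set G).MapsTo (fun g => g * x * g⁻¹) (c : Set G) := by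
    intro g _
    show g * x * g⁻¹ ∈ c
    rw [hc, isConj_iff]
    exact ⟨g, rfl⟩
  have h := Finset.card_eq_sum_card_fiberwise hmaps
  have hf : ∀ t ∈ c, (Finset.univ.filter (fun g : G => g * x * g⁻¹ = t)).card =
      Nat.card (Subgroup.centralizer ({x} : Set G)) := by
    intro t ht
    obtain ⟨h', rfl⟩ := isConj_iff.1 ((hc t).1 ht)
    rw [← Fintype.card_subtype, ← Nat.card_eq_fintype_card]
    refine Nat.card_congr
      { toFun := fun g => ⟨h'⁻¹ * g.1, ?_⟩
        invFun := fun c => ⟨h' * c.1, ?_⟩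
        left_inv := ?_
        right_inv := ?_ }
    · rw [Subgroup.mem_centralizer_iff]
      intro y hy
      rw [Set.mem_singleton_iff.1 hy]
      have hg : g.1 * x * g.1⁻¹ = h' * x * h'⁻¹ := g.2
      have e1 : g.1 * x = h' * x * h'⁻¹ * g.1 := by
        calc g.1 * x = (g.1 * x * g.1⁻¹) * g.1 := by group
          _ = h' * x * h'⁻¹ * g.1 := by rw [hg]
      calc x * (h'⁻¹ * g.1) = h'⁻¹ * (h' * x * h'⁻¹ * g.1) := by group
        _ = h'⁻¹ * (g.1 * x) := by rw [e1]
        _ = h'⁻¹ * g.1 * x := by group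
    · have hc' := Subgroup.mem_centralizer_iff.1 c.2 x rfl
      show h' * c.1 * x * (h' * c.1)⁻¹ = h' * x * h'⁻¹
      calc h' * c.1 * x * (h' * c.1)⁻¹ = h' * (c.1 * x) * c.1⁻¹ * h'⁻¹ := by group
        _ = h' * (x * c.1) * c.1⁻¹ * h'⁻¹ := by rw [hc']
        _ = h' * x * h'⁻¹ := by group
    · intro g
      apply Subtype.ext
      show h' * (h'⁻¹ * g.1) = g.1
      group
    · intro c
      apply Subtype.ext
      show h'⁻¹ * (h' * c.1) = c.1
      group
  rw [Finset.card_univ] at h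
  rw [Finset.sum_congr rfl hf, Finset.sum_const, smul_eq_mul] at h
  rw [Nat.card_eq_fintype_card (α := G)]
  exact h.symm

lemma unique_invol {G : Type*} [Group G] [Finite G] (w t : G) (hw : Even (orderOf w))
    (ht : t ∈ Subgroup.zpowers w) (ht2 : orderOf t = 2) : t = w ^ (orderOf w / 2) := by
  obtain ⟨m, hm⟩ := hw
  have hm0 : 0 < m := by
    have := orderOf_pos w
    omega
  have hdiv : orderOf w / 2 = m := by omega
  rw [hdiv]
  obtain ⟨k, hk⟩ := (mem_powers_iff_mem_zpowers).2 ht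
  replace hk : w ^ k = t := hk
  have h2 : t ^ 2 = 1 := by
    have := pow_orderOf_eq_one t
    rwa [ht2] at this
  have h3 : orderOf w ∣ k * 2 := by
    apply orderOf_dvd_of_pow_eq_one
    rw [pow_mul, hk, h2]
  have h4 : m ∣ k := by
    rw [hm, ← two_mul, mul_comm] at h3
    exact (Nat.mul_dvd_mul_iff_right (by norm_num)).1 h3
  obtain ⟨j, rfl⟩ := h4
  have hw2 : (w ^ m) ^ 2 = 1 := by
    rw [← pow_mul, mul_comm, two_mul, ← hm, pow_orderOf_eq_one]
  rcases Nat.even_or_odd j with hj | hj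
  · exfalso
    obtain ⟨i, rfl⟩ := hj
    have : t = 1 := by
      rw [← hk, pow_mul, ← two_mul, pow_mul, hw2, one_pow]
    rw [this, orderOf_one] at ht2
    omega
  · obtain ⟨i, rfl⟩ := hj
    rw [← hk, pow_mul, pow_succ, pow_mul, hw2, one_pow, one_mul]

lemma conj_mem_zpowers {G : Type*} [Group G] (g t w : G) (h : t ∈ Subgroup.zpowers w) :
    g * t * g⁻¹ ∈ Subgroup.zpowers (g * w * g⁻¹) := by
  obtain ⟨k, hk⟩ := h
  refine ⟨k, ?_⟩
  rw [← hk]
  exact conj_zpow

lemma card_filter_conj {G : Type*} [Group G] (x₁ x₂ g t : G) (P Q : Finset (G × G))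
    (hP : ∀ p, p ∈ P ↔ (IsConj x₁ p.1 ∧ IsConj x₂ p.2) ∧ g * t * g⁻¹ ∈ Subgroup.zpowers (p.1 * p.2))
    (hQ : ∀ p, p ∈ Q ↔ (IsConj x₁ p.1 ∧ IsConj x₂ p.2) ∧ t ∈ Subgroup.zpowers (p.1 * p.2)) :
    P.card = Q.card := by
  have key : ∀ (g t : G) (p : G × G), (IsConj x₁ p.1 ∧ IsConj x₂ p.2) → t ∈ Subgroup.zpowers (p.1 * p.2) →
      (IsConj x₁ (g * p.1 * g⁻¹) ∧ IsConj x₂ (g * p.2 * g⁻¹)) ∧
        g * t * g⁻¹ ∈ Subgroup.zpowers ((g * p.1 * g⁻¹) * (g * p.2 * g⁻¹)) := by
    intro g t p hp ht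
    obtain ⟨h1, h2⟩ := hp
    refine ⟨⟨h1.trans (isConj_iff.2 ⟨g, rfl⟩), h2.trans (isConj_iff.2 ⟨g, rfl⟩)⟩, ?_⟩
    have e : (g * p.1 * g⁻¹) * (g * p.2 * g⁻¹) = g * (p.1 * p.2) * g⁻¹ := by group
    rw [e]
    exact conj_mem_zpowers g t _ ht
  symm
  refine Finset.card_bij' (fun p _ => (g * p.1 * g⁻¹, g * p.2 * g⁻¹))
    (fun p _ => (g⁻¹ * p.1 * g⁻¹⁻¹, g⁻¹ * p.2 * g⁻¹⁻¹)) ?_ ?_ ?_ ?_
  · intro p hp
    rw [hQ] at hp
    rw [hP]
    exact ⟨(key g t p hp.1 hp.2).1, (key g t p hp.1 hp.2).2⟩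
  · intro p hp
    rw [hP] at hp
    rw [hQ]
    have := key g⁻¹ _ p hp.1 hp.2
    refine ⟨this.1, ?_⟩
    have e : g⁻¹ * (g * t * g⁻¹) * g⁻¹⁻¹ = t := by group
    rw [e] at this
    exact this.2
  · intro p _
    apply Prod.ext <;> simp <;> group
  · intro p _
    apply Prod.ext <;> simp <;> group


/-- Thompson Order Formula, two-class case: if every involution of the finite group G is conjugate to exactly one of the non-conjugate involutions x₁, x₂, and nᵢ is the number of pairs (u, v) with u conjugate to x₁, v conjugate to x₂ and xᵢ in the cyclic group generated by uv, then |G| = |C(x₂)| n₁ + |C(x₁)| n₂. -/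
theorem result {G : Type*} [Group G] [Finite G] (x₁ x₂ : G) (h₁ : orderOf x₁ = 2) (h₂ : orderOf x₂ = 2) (hnc : ¬ IsConj x₁ x₂) (hall : ∀ t : G, orderOf t = 2 → IsConj x₁ t ∨ IsConj x₂ t) : Nat.card G = Nat.card (Subgroup.centralizer ({x₂} : Set G)) * Nat.card {p : G × G // IsConj x₁ p.1 ∧ IsConj x₂ p.2 ∧ x₁ ∈ Subgroup.zpowers (p.1 * p.2)} + Nat.card (Subgroup.centralizer ({x₁} : Set G)) * Nat.card {p : G × G // IsConj x₁ p.1 ∧ IsConj x₂ p.2 ∧ x₂ ∈ Subgroup.zpowers (p.1 * p.2)} := by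
  classical
  have : Fintype G := Fintype.ofFinite G
  set c₁ : Finset G := Finset.univ.filter (fun t => IsConj x₁ t) with hc₁
  set c₂ : Finset G := Finset.univ.filter (fun t => IsConj x₂ t) with hc₂
  have hc₁' : ∀ t, t ∈ c₁ ↔ IsConj x₁ t := by intro t; simp [hc₁]
  have hc₂' : ∀ t, t ∈ c₂ ↔ IsConj x₂ t := by intro t; simp [hc₂]
  set Ω : Finset (G × G) := c₁ ×ˢ c₂ with hΩdef
  have hΩ : ∀ p, p ∈ Ω ↔ IsConj x₁ p.1 ∧ IsConj x₂ p.2 := by
    intro p
    rw [hΩdef, Finset.mem_product, hc₁', hc₂']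
  -- order lemma
  have hconjord : ∀ a b : G, IsConj a b → orderOf b = orderOf a := by
    intro a b hab
    obtain ⟨c, rfl⟩ := isConj_iff.1 hab
    have := orderOf_injective (MulAut.conj c).toMonoidHom (MulAut.conj c).injective a
    simpa [MulAut.conj_apply] using this
  have hdisj : Disjoint c₁ c₂ := by
    rw [Finset.disjoint_left]
    intro t h1 h2
    exact hnc (((hc₁' t).1 h1).trans ((hc₂' t).1 h2).symm)
  -- the even order fact
  have heven : ∀ p ∈ Ω, Even (orderOf (p.1 * p.2)) := by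
    intro p hp
    obtain ⟨h1, h2⟩ := (hΩ p).1 hp
    by_contra hodd
    have hodd' := Nat.not_even_iff_odd.1 hodd
    obtain ⟨d, -, hd⟩ := Cfsg.Agent.S0208.result p.1 p.2
      ((hconjord _ _ h1).trans h₁) ((hconjord _ _ h2).trans h₂) hodd'
    exact hnc (h1.trans ((isConj_iff.2 ⟨d, hd⟩).trans h2.symm))
  let z : G × G → G := fun p => (p.1 * p.2) ^ (orderOf (p.1 * p.2) / 2)
  have hzord : ∀ p ∈ Ω, orderOf (z p) = 2 := by
    intro p hp
    exact orderOf_pow_orderOf_div (orderOf_pos _).ne' (heven p hp).two_dvd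
  have hzmem : ∀ p, z p ∈ Subgroup.zpowers (p.1 * p.2) := fun p => pow_mem (Subgroup.mem_zpowers _) _
  have hmaps : (Ω : Set (G × G)).MapsTo z ((c₁ ∪ c₂ : Finset G) : Set G) := by
    intro p hp
    have hz := hzord p hp
    rcases hall _ hz with h | h
    · exact Finset.mem_coe.2 (Finset.mem_union_left _ ((hc₁' _).2 h))
    · exact Finset.mem_coe.2 (Finset.mem_union_right _ ((hc₂' _).2 h))
  have hfib := Finset.card_eq_sum_card_fiberwise hmaps
  rw [Finset.sum_union hdisj] at hfib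
  have hfilt : ∀ t, orderOf t = 2 → Ω.filter (fun p => z p = t) =
      Ω.filter (fun p => t ∈ Subgroup.zpowers (p.1 * p.2)) := by
    intro t ht
    apply Finset.filter_congr
    intro p hp
    constructor
    · rintro rfl
      exact hzmem p
    · intro h
      exact (unique_invol _ _ (heven p hp) h ht).symm
  have hsum1 : ∀ t ∈ c₁, (Ω.filter (fun p => z p = t)).card =
      (Ω.filter (fun p => x₁ ∈ Subgroup.zpowers (p.1 * p.2))).card := by
    intro t ht
    have ht' := (hc₁' t).1 ht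
    rw [hfilt t ((hconjord _ _ ht').trans h₁)]
    obtain ⟨g, rfl⟩ := isConj_iff.1 ht'
    exact card_filter_conj x₁ x₂ g x₁ _ _ (by intro p; rw [Finset.mem_filter, hΩ])
      (by intro p; rw [Finset.mem_filter, hΩ])
  have hsum2 : ∀ t ∈ c₂, (Ω.filter (fun p => z p = t)).card =
      (Ω.filter (fun p => x₂ ∈ Subgroup.zpowers (p.1 * p.2))).card := by
    intro t ht
    have ht' := (hc₂' t).1 ht
    rw [hfilt t ((hconjord _ _ ht').trans h₂)]
    obtain ⟨g, rfl⟩ := isConj_iff.1 ht'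
    exact card_filter_conj x₁ x₂ g x₂ _ _ (by intro p; rw [Finset.mem_filter, hΩ])
      (by intro p; rw [Finset.mem_filter, hΩ])
  rw [Finset.sum_congr rfl hsum1, Finset.sum_congr rfl hsum2, Finset.sum_const, Finset.sum_const,
    smul_eq_mul, smul_eq_mul, hΩdef, Finset.card_product, ← hΩdef] at hfib
  have hn₁ : Nat.card {p : G × G // IsConj x₁ p.1 ∧ IsConj x₂ p.2 ∧ x₁ ∈ Subgroup.zpowers (p.1 * p.2)} =
      (Ω.filter (fun p => x₁ ∈ Subgroup.zpowers (p.1 * p.2))).card := by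
    rw [Nat.card_eq_fintype_card, Fintype.card_subtype]
    congr 1
    ext p
    simp only [Finset.mem_filter, Finset.mem_univ, true_and, hΩ, and_assoc]
  have hn₂ : Nat.card {p : G × G // IsConj x₁ p.1 ∧ IsConj x₂ p.2 ∧ x₂ ∈ Subgroup.zpowers (p.1 * p.2)} =
      (Ω.filter (fun p => x₂ ∈ Subgroup.zpowers (p.1 * p.2))).card := by
    rw [Nat.card_eq_fintype_card, Fintype.card_subtype]
    congr 1
    ext p
    simp only [Finset.mem_filter, Finset.mem_univ, true_and, hΩ, and_assoc]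
  rw [hn₁, hn₂]
  have hC₁ := card_class_mul_centralizer x₁ c₁ hc₁'
  have hC₂ := card_class_mul_centralizer x₂ c₂ hc₂'
  set a := c₁.card
  set b := c₂.card
  set A := Nat.card (Subgroup.centralizer ({x₁} : Set G))
  set B := Nat.card (Subgroup.centralizer ({x₂} : Set G))
  set n₁ := (Ω.filter (fun p => x₁ ∈ Subgroup.zpowers (p.1 * p.2))).card
  set n₂ := (Ω.filter (fun p => x₂ ∈ Subgroup.zpowers (p.1 * p.2))).card
  set g := Nat.card G
  have hg : 0 < g := Nat.card_pos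
  apply Nat.eq_of_mul_eq_mul_left hg
  calc g * g = (a * A) * (b * B) := by rw [hC₁, hC₂]
    _ = (a * b) * (A * B) := by ring
    _ = (a * n₁ + b * n₂) * (A * B) := by rw [hfib]
    _ = (a * A) * (B * n₁) + (b * B) * (A * n₂) := by ring
    _ = g * (B * n₁ + A * n₂) := by rw [hC₁, hC₂]; ring

end Cfsg.Agent.S0213
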