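import Cfsg.Statements.S0216
import Mathlib
-- import your own Cfsg.Agent.* helpers here

set_option autoImplicit false
open Cfsg

namespace Cfsg.Agent.S0216

/-- For an involution u in a Sylow 2-subgroup P of a finite group G, the following are equivalent: no G-conjugate of u other than u lies in P; every commutator of u with an element of G has odd order. -/
theorem result {G : Type*} [Group G] [Finite G] (P : Sylow 2 G) (u : G) (hu : orderOf u = 2) (huP : u ∈ P) : (∀ g : G, g * u * g⁻¹ ∈ P → g * u * g⁻¹ = u) ↔ (∀ g : G, Odd (orderOf (u * g * u⁻¹ * g⁻¹))) := by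
  classical
  have hu2 : u * u = 1 := by
    rw [← pow_two, ← hu]; exact pow_orderOf_eq_one u
  have hui : u⁻¹ = u := inv_eq_of_mul_eq_one_left hu2
  constructor
  · intro ha g
    by_contra hnot
    rw [Nat.not_odd_iff_even] at hnot
    set t := g * u * g⁻¹ with ht
    have htu : t * t = 1 := by
      rw [ht]
      calc g * u * g⁻¹ * (g * u * g⁻¹) = g * (u * u) * g⁻¹ := by group
        _ = 1 := by rw [hu2]; group
    have hti : t⁻¹ = t := inv_eq_of_mul_eq_one_left htu
    have hx : u * g * u⁻¹ * g⁻¹ = u * t := by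
      rw [ht, hui]; group
    rw [hx] at hnot
    set x := u * t with hxdef
    obtain ⟨m, hm⟩ := hnot
    have hmpos : 0 < m := by
      have := orderOf_pos x
      omega
    have hm2 : orderOf x = 2 * m := by omega
    set z := x ^ m with hz
    have hz2 : z * z = 1 := by
      rw [hz, ← pow_add, ← two_mul, ← hm2, pow_orderOf_eq_one]
    have hzne : z ≠ 1 := by
      intro h
      have := orderOf_le_of_pow_eq_one hmpos h
      omega
    -- conjugation formula
    have hform : ∀ w : G, w * x * w⁻¹ = x⁻¹ → ∀ j : ℕ, x ^ j * w * (x ^ j)⁻¹ = x ^ (2 * j) * w := by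
      intro w hw j
      have hw' : w * x⁻¹ * w⁻¹ = x := by
        have := congrArg (·⁻¹) hw
        simpa [mul_assoc] using this
      induction j with
      | zero => simp
      | succ j ih =>
        calc x ^ (j + 1) * w * (x ^ (j + 1))⁻¹ = x * (x ^ j * w * (x ^ j)⁻¹) * x⁻¹ := by
              rw [pow_succ']; group
          _ = x * (x ^ (2 * j) * w) * x⁻¹ := by rw [ih]
          _ = x * x ^ (2 * j) * (w * x⁻¹ * w⁻¹) * w := by group
          _ = x * x ^ (2 * j) * x * w := by rw [hw']
          _ = x ^ (2 * (j + 1)) * w := by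
              rw [← pow_succ', ← pow_succ, show 2 * (j + 1) = 2 * j + 1 + 1 by ring]
    -- u inverts x
    have huinv : u * x * u⁻¹ = x⁻¹ := by
      rw [hxdef, hui, mul_inv_rev, hui, hti]
      calc u * (u * t) * u = (u * u) * t * u := by group
        _ = t * u := by rw [hu2, one_mul]
    -- z commutes with u
    have hzu : u * z = z * u := by
      have h1 : u * z * u⁻¹ = z⁻¹ := by
        rw [hz, ← conj_pow, huinv, inv_pow]
      have hzi : z⁻¹ = z := inv_eq_of_mul_eq_one_left hz2
      rw [hzi, mul_inv_eq_iff_eq_mul] at h1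
      exact h1
    -- z * u is conjugate to u
    have hconj : ∃ k : G, k * u * k⁻¹ = z * u := by
      obtain ⟨j, hj | hj⟩ := Nat.even_or_odd' m
      · refine ⟨x ^ j, ?_⟩
        rw [hform u huinv j, hz, hj]
      · -- the element x * u inverts x
        have hxu : (x * u) * x * (x * u)⁻¹ = x⁻¹ := by
          calc (x * u) * x * (x * u)⁻¹ = x * (u * x * u⁻¹) * x⁻¹ := by group
            _ = x⁻¹ := by rw [huinv]; group
        refine ⟨x ^ j * (u * g), ?_⟩
        have e1 : (x ^ j * (u * g)) * u * (x ^ j * (u * g))⁻¹ =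
            x ^ j * (u * t * u⁻¹) * (x ^ j)⁻¹ := by
          rw [ht]; group
        have e2 : u * t * u⁻¹ = x * u := by
          rw [hxdef, hui]
        rw [e1, e2]
        calc x ^ j * (x * u) * (x ^ j)⁻¹ = x ^ (2 * j) * (x * u) := hform _ hxu j
          _ = z * u := by
            rw [hz, hj, pow_succ, mul_assoc (x ^ (2 * j)) x u]
    obtain ⟨k, hk⟩ := hconj
    -- Sylow containing u, z
    have hp1 : IsPGroup 2 (Subgroup.zpowers u) := by
      apply IsPGroup.of_card (n := 1)
      rw [Nat.card_zpowers, hu, pow_one]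
    have hp2 : IsPGroup 2 (Subgroup.zpowers z) := by
      apply IsPGroup.of_card (n := 1)
      have : orderOf z = 2 := orderOf_eq_prime (by rw [pow_two]; exact hz2) hzne
      rw [Nat.card_zpowers, this, pow_one]
    have hnorm : Subgroup.zpowers u ≤ Subgroup.normalizer (Subgroup.zpowers z : Set G) := by
      rw [Subgroup.zpowers_le, Subgroup.mem_normalizer_iff]
      intro y
      have hcz : ∀ y' ∈ Subgroup.zpowers z, u * y' * u⁻¹ = y' := by
        rintro _ ⟨n, rfl⟩
        have : Commute u (z ^ n) := (show Commute u z from hzu).zpow_right n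
        simp only [this.eq, mul_inv_cancel_right]
      constructor
      · intro hy
        rw [hcz y hy]; exact hy
      · intro hy
        have h3 := hcz _ hy
        have h4 : y = u * y * u⁻¹ := by
          have h5 : u * (u * y * u⁻¹) * u⁻¹ = y := by
            rw [hui]
            calc u * (u * y * u) * u = (u * u) * y * (u * u) := by group
              _ = y := by rw [hu2]; simp
          rw [h3] at h5
          exact h5.symm
        rw [h4]; exact hy
    have hp3 := IsPGroup.to_sup_of_normal_right' hp1 hp2 hnorm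
    obtain ⟨Q, hQ⟩ := hp3.exists_le_sylow
    have huQ : u ∈ (Q : Subgroup G) := hQ (Subgroup.mem_sup_left (Subgroup.mem_zpowers u))
    have hzQ : z ∈ (Q : Subgroup G) := hQ (Subgroup.mem_sup_right (Subgroup.mem_zpowers z))
    have hwQ : z * u ∈ (Q : Subgroup G) := Subgroup.mul_mem _ hzQ huQ
    obtain ⟨h, hh⟩ : ∃ h : G, h • P = Q := MulAction.exists_smul_eq G P Q
    have hmem : ∀ y : G, y ∈ (Q : Subgroup G) → h⁻¹ * y * h ∈ (P : Subgroup G) := by
      intro y hy
      rw [← hh, Sylow.coe_subgroup_smul, Subgroup.mem_pointwise_smul_iff_inv_smul_mem] at hy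
      simpa [MulAut.smul_def] using hy
    have h1 : h⁻¹ * u * h = u := by
      have := ha h⁻¹ (by rw [inv_inv]; exact hmem u huQ)
      rwa [inv_inv] at this
    have h2 : h⁻¹ * (z * u) * h = u := by
      have h3 := ha (h⁻¹ * k) (by
        have h5 := hmem (z * u) hwQ
        rw [← hk] at h5
        have e : (h⁻¹ * k) * u * (h⁻¹ * k)⁻¹ = h⁻¹ * (k * u * k⁻¹) * h := by group
        rw [e]
        exact h5)
      rw [← hk]
      calc h⁻¹ * (k * u * k⁻¹) * h = (h⁻¹ * k) * u * (h⁻¹ * k)⁻¹ := by group
        _ = u := h3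
    have h3 : z * u = u := by
      have : h⁻¹ * (z * u) * h = h⁻¹ * u * h := by rw [h1, h2]
      exact mul_left_cancel (mul_right_cancel this)
    exact hzne (mul_eq_right.mp h3)
  · intro hb g hg
    set t := g * u * g⁻¹ with ht
    have hc := hb g
    have hx : u * g * u⁻¹ * g⁻¹ = u * t⁻¹ := by
      rw [ht]; group
    rw [hx] at hc
    have hm : u * t⁻¹ ∈ (P : Subgroup G) := Subgroup.mul_mem _ huP (Subgroup.inv_mem _ hg)
    obtain ⟨k, hk⟩ := (IsPGroup.iff_orderOf.mp P.2) ⟨u * t⁻¹, hm⟩
    rw [Subgroup.orderOf_mk] at hk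
    rw [hk] at hc
    have hk0 : k = 0 := by
      by_contra hne
      have := (Nat.even_pow (m := 2) (n := k)).mpr ⟨even_two, hne⟩
      exact (Nat.not_even_iff_odd.mpr hc) this
    rw [hk0, pow_zero, orderOf_eq_one_iff] at hk
    have := mul_inv_eq_one.mp hk
    exact this.symm

end Cfsg.Agent.S0216
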