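import Cfsg.Statements.S0218
import Mathlib
-- import your own Cfsg.Agent.* helpers here

set_option autoImplicit false
open Cfsg

namespace Cfsg.Agent.S0218

/-- The generalized quaternion group of order 2^(n+3) contains exactly one element of order 2. -/
theorem result (n : ℕ) : Nat.card {x : QuaternionGroup (2 ^ (n + 1)) // orderOf x = 2} = 1 := by
  classical
  set N := 2 ^ (n + 1) with hN
  haveI : NeZero N := ⟨by positivity⟩
  have hxa : ∀ i : ZMod (2 * N), orderOf (QuaternionGroup.xa i) ≠ 2 := by
    intro i
    rw [QuaternionGroup.orderOf_xa]
    norm_num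
  have ha2 : ∀ i : ZMod (2 * N), orderOf (QuaternionGroup.a i) = 2 ↔ i = (N : ZMod (2 * N)) := by
    intro i
    have hcard : (ZMod.val (N : ZMod (2 * N))) = N := by
      rw [ZMod.val_natCast]
      exact Nat.mod_eq_of_lt (by have : 0 < N := by positivity
                                 omega)
    have hmain : (QuaternionGroup.a i) ^ 2 = 1 ↔ i + i = 0 := by
      rw [pow_two, QuaternionGroup.a_mul_a, QuaternionGroup.one_def]
      constructor
      · intro h; exact QuaternionGroup.a.inj h
      · intro h; rw [h]
    constructor
    · intro h
      have h1 : (QuaternionGroup.a i) ^ 2 = 1 := by rw [← h]; exact pow_orderOf_eq_one _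
      have hii := hmain.mp h1
      have hne : i ≠ 0 := by
        intro h0
        rw [h0] at h
        have : (QuaternionGroup.a (0 : ZMod (2 * N))) = 1 := rfl
        rw [this, orderOf_one] at h
        omega
      -- `2 * val i` is divisible by `2 * N`
      have hval : 2 * N ∣ i.val + i.val := by
        have : ((i.val + i.val : ℕ) : ZMod (2 * N)) = 0 := by
          push_cast
          rw [ZMod.natCast_zmod_val]
          exact hii
        exact (ZMod.natCast_eq_zero_iff _ _).mp this
      have hlt := ZMod.val_lt i
      have hpos : 0 < i.val := by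
        rcases Nat.eq_zero_or_pos i.val with h0 | h0
        · exact absurd ((ZMod.val_eq_zero i).mp h0) hne
        · exact h0
      obtain ⟨k, hk⟩ := hval
      have hk1 : k = 1 := by
        have h3 : 0 < k := by
          rcases Nat.eq_zero_or_pos k with h0 | h0
          · subst h0; omega
          · exact h0
        have h4 : k < 2 := by
          by_contra hge
          have : 2 * N * 2 ≤ 2 * N * k := Nat.mul_le_mul_left _ (by omega)
          omega
        omega
      subst hk1
      have hv : i.val = N := by omega
      have : i = ((i.val : ℕ) : ZMod (2 * N)) := (ZMod.natCast_zmod_val i).symm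
      rw [this, hv]
    · rintro rfl
      apply orderOf_eq_prime
      · rw [hmain]
        have : ((N : ZMod (2 * N)) + (N : ZMod (2 * N))) = ((2 * N : ℕ) : ZMod (2 * N)) := by
          push_cast; ring
        rw [this]
        exact ZMod.natCast_self _
      · intro h
        have h0 : (N : ZMod (2 * N)) = 0 := QuaternionGroup.a.inj h
        rw [← ZMod.val_eq_zero, hcard] at h0
        have : 0 < N := by positivity
        omega
  rw [Nat.card_eq_one_iff_unique]
  refine ⟨⟨?_⟩, ⟨⟨QuaternionGroup.a (N : ZMod (2 * N)), (ha2 _).mpr rfl⟩⟩⟩
  rintro ⟨x, hx⟩ ⟨y, hy⟩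
  apply Subtype.ext
  show x = y
  cases x with
  | xa i => exact absurd hx (hxa i)
  | a i =>
    cases y with
    | xa j => exact absurd hy (hxa j)
    | a j =>
      rw [(ha2 i).mp hx, (ha2 j).mp hy]

end Cfsg.Agent.S0218
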