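import Cfsg.Statements.S0221
import Mathlib
import Cfsg.Agent.Lib.PGroup.NormalFour
import Cfsg.Agent.Lib.PGroup.Basic
import Cfsg.Agent.Lib.Transfer.Frobenius
import Cfsg.Agent.S0111
-- import your own Cfsg.Agent.* helpers here

set_option autoImplicit false
open Cfsg

namespace Cfsg.Agent.S0221

open Subgroup

theorem comm_of_sq {P : Type*} [Group P] {A : Subgroup P} (hA : ∀ a ∈ A, a ^ 2 = 1) :
    ∀ a ∈ A, ∀ b ∈ A, a * b = b * a := by
  intro a ha b hb
  have h1 := hA _ (A.mul_mem ha hb)
  have h2 := hA a ha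
  have h3 := hA b hb
  rw [pow_two] at h1 h2 h3
  calc a * b = a * (a * b * (a * b)) * b := by rw [h1]; simp
    _ = (a * a) * b * a * (b * b) := by group
    _ = b * a := by rw [h2, h3]; simp

theorem card_mul_relIndex {G : Type*} [Group G] {H K : Subgroup G} (h : H ≤ K) :
    Nat.card H * H.relIndex K = Nat.card K := by
  rw [← Nat.card_congr (subgroupOfEquivOfLe h).toEquiv]
  exact (H.subgroupOf K).card_mul_index

/-- Adjoining a commuting involution outside `A` doubles the order. -/
theorem card_sup {P : Type*} [Group P] [Finite P] {A : Subgroup P} (hA : ∀ a ∈ A, a ^ 2 = 1)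
    {y : P} (hy : y ^ 2 = 1) (hyA : ∀ a ∈ A, y * a = a * y) (hn : y ∉ A) :
    Nat.card (A ⊔ zpowers y : Subgroup P) = Nat.card A * 2 ∧
      ∀ e ∈ A ⊔ zpowers y, e ^ 2 = 1 := by
  haveI : Fact (Nat.Prime 2) := ⟨Nat.prime_two⟩
  have hEA : Cfsg.IsElementaryAbelian 2 A :=
    Cfsg.Agent.Lib.PGroup.Basic.isElementaryAbelian_iff.mpr ⟨comm_of_sq hA, hA⟩
  have hE := Cfsg.Agent.Lib.PGroup.Basic.IsElementaryAbelian.sup_zpowers hEA hy hyA
  refine ⟨?_, hE.2⟩
  let W : Subgroup P := A ⊔ zpowers y
  have hAW : A ≤ W := le_sup_left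
  have hyW : y ∈ W := (le_sup_right : zpowers y ≤ W) (mem_zpowers y)
  let M : Subgroup W := A.subgroupOf W
  haveI hc : IsMulCommutative W := hE.1
  haveI hM : M.Normal := inferInstance
  have hy' : (⟨y, hyW⟩ : W) ∉ M := fun h => hn (Subgroup.mem_subgroupOf.mp h)
  have hyp : (⟨y, hyW⟩ : W) ^ 2 ∈ M := by
    have : (⟨y, hyW⟩ : W) ^ 2 = 1 := Subtype.ext hy
    rw [this]
    exact M.one_mem
  have h1 := Cfsg.Agent.Lib.PGroup.Critical.card_sup_zpowers (p := 2) M hy' hyp
  have h2 : M ⊔ zpowers (⟨y, hyW⟩ : W) = ⊤ := by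
    apply Subgroup.map_injective W.subtype_injective
    rw [Subgroup.map_sup, MonoidHom.map_zpowers, Subgroup.map_subgroupOf_eq_of_le hAW]
    rw [← MonoidHom.range_eq_map, Subgroup.range_subtype]
    rfl
  rw [h2] at h1
  have h3 : Nat.card (⊤ : Subgroup W) = Nat.card W := Nat.card_congr Subgroup.topEquiv.toEquiv
  have h4 : Nat.card M = Nat.card A := Nat.card_congr (subgroupOfEquivOfLe hAW).toEquiv
  rw [h3, h4] at h1
  exact h1

/-- The `2`-group core. -/
theorem two_group_core {P : Type*} [Group P] [Finite P] (hP : IsPGroup 2 P) (F : Subgroup P)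
    (hF : ∀ e ∈ F, e ^ 2 = 1) (hFc : Nat.card F = 8) :
    ∃ C : Subgroup P, (∀ x, x ∉ C → C.index = 2) ∧
      ∀ y ∈ C, y ^ 2 = 1 → ∃ E : Subgroup P, (∀ e ∈ E, e * y = y * e) ∧ Nat.card E = 8 ∧
        ∀ e ∈ E, e ^ 2 = 1 := by
  classical
  haveI : Fact (Nat.Prime 2) := ⟨Nat.prime_two⟩
  obtain ⟨U, hUn, hUe, hUc⟩ := Cfsg.Agent.Lib.PGroup.NormalFour.exists_normal_four hP F
    (Cfsg.Agent.Lib.PGroup.Basic.isElementaryAbelian_iff.mpr ⟨comm_of_sq hF, hF⟩) (by rw [hFc]; norm_num)
  haveI := hUn
  have hUe' := Cfsg.Agent.Lib.PGroup.Basic.isElementaryAbelian_iff.mp hUe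
  let C : Subgroup P := centralizer (U : Set P)
  have hUC : U ≤ C := fun u hu => Subgroup.mem_centralizer_iff.mpr fun v hv => hUe'.1 v hv u hu
  have hmemC : ∀ t, t ∈ C → ∀ u ∈ U, u * t = t * u := fun t ht u hu =>
    Subgroup.mem_centralizer_iff.mp ht u hu
  have part1 : ∀ x, x ∉ C → C.index = 2 := by
    intro x hxC
    -- the central element
    have hUne : U ≠ ⊥ := by
      intro h
      rw [h] at hUc
      simp at hUc
    have hz := Cfsg.Agent.Lib.PGroup.Basic.inf_center_ne_bot hP hUne
    obtain ⟨z, ⟨hzU, hzc⟩, hz1⟩ := (Subgroup.bot_or_exists_ne_one _).resolve_left hz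
    have hzz : z * z = 1 := by
      have := hUe'.2 z hzU
      rwa [pow_two] at this
    obtain ⟨w, hwU, hw1, hwz⟩ : ∃ w ∈ U, w ≠ 1 ∧ w ≠ z := by
      by_contra hcon
      push Not at hcon
      have hsub : (U : Set P) ⊆ {1, z} := by
        intro u hu
        by_cases hu1 : u = 1
        · exact Or.inl hu1
        · exact Or.inr (hcon u hu hu1)
      have h1 : (U : Set P).ncard ≤ ({1, z} : Set P).ncard := Set.ncard_le_ncard hsub (Set.toFinite _)
      rw [Set.ncard_pair (Ne.symm hz1)] at h1
      have h2 : (U : Set P).ncard = Nat.card U := rfl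
      omega
    have hwwz : w * z ≠ 1 := by
      intro h
      apply hwz
      have : w = w * (z * z) := by rw [hzz, mul_one]
      rw [this, ← mul_assoc, h, one_mul]
    have hne1 : w * z ≠ z := by
      intro h
      exact hw1 (mul_right_cancel (h.trans (one_mul z).symm))
    have hne2 : w * z ≠ w := by
      intro h
      exact hz1 (mul_left_cancel (h.trans (mul_one w).symm))
    have hU4 : ∀ u ∈ U, u = 1 ∨ u = z ∨ u = w ∨ u = w * z := by
      have hsub : ({1, z, w, w * z} : Set P) ⊆ (U : Set P) := by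
        rintro u (rfl | rfl | rfl | rfl)
        · exact U.one_mem
        · exact hzU
        · exact hwU
        · exact U.mul_mem hwU hzU
      have hS : ({1, z, w, w * z} : Set P).ncard = 4 := by
        rw [Set.ncard_insert_of_notMem (by
              simp only [Set.mem_insert_iff, Set.mem_singleton_iff, not_or]
              exact ⟨Ne.symm hz1, Ne.symm hw1, Ne.symm hwwz⟩),
          Set.ncard_insert_of_notMem (by
              simp only [Set.mem_insert_iff, Set.mem_singleton_iff, not_or]
              exact ⟨Ne.symm hwz, Ne.symm hne1⟩),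
          Set.ncard_pair (Ne.symm hne2)]
      have h2 : (U : Set P).ncard = 4 := by
        have : (U : Set P).ncard = Nat.card U := rfl
        rw [this, hUc]
        norm_num
      have := Set.eq_of_subset_of_ncard_le hsub (by rw [h2, hS])
      intro u hu
      have hu' : u ∈ (U : Set P) := hu
      rw [← this] at hu'
      exact hu'
    have hcomz : ∀ t : P, t * z = z * t := fun t => Subgroup.mem_center_iff.mp hzc t
    have hCiff : ∀ t, t * w = w * t → t ∈ C := by
      intro t ht
      refine Subgroup.mem_centralizer_iff.mpr fun u hu => ?_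
      rcases hU4 u hu with rfl | rfl | rfl | rfl
      · simp
      · exact (hcomz t).symm
      · exact ht.symm
      · rw [mul_assoc, ← hcomz t, ← mul_assoc, ← ht, mul_assoc]
    have hcase : ∀ t : P, (t ∈ C ∧ t * w * t⁻¹ = w) ∨ (t ∉ C ∧ t * w * t⁻¹ = w * z) := by
      intro t
      by_cases ht : t ∈ C
      · left
        refine ⟨ht, ?_⟩
        rw [← hmemC t ht w hwU]
        group
      · right
        refine ⟨ht, ?_⟩
        have hm := hUn.conj_mem w hwU t
        rcases hU4 _ hm with h | h | h | h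
        · exfalso
          apply hw1
          have : w = t⁻¹ * (t * w * t⁻¹) * t := by group
          rw [this, h]
          group
        · exfalso
          apply hwz
          have : w = t⁻¹ * (t * w * t⁻¹) * t := by group
          rw [this, h, mul_assoc, ← hcomz t]
          group
        · exfalso
          apply ht
          apply hCiff
          rw [mul_inv_eq_iff_eq_mul] at h
          exact h
        · exact h
    have hxw : x * w * x⁻¹ = w * z := by
      rcases hcase x with ⟨h, -⟩ | ⟨-, h⟩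
      · exact absurd h hxC
      · exact h
    rw [Subgroup.index_eq_two_iff]
    refine ⟨x, fun b => ?_⟩
    have hbz : b * z * b⁻¹ = z := by rw [hcomz b]; group
    rcases hcase b with ⟨hb, hbw⟩ | ⟨hb, hbw⟩
    · right
      refine ⟨hb, fun hbx => ?_⟩
      have h1 : (b * x) * w * (b * x)⁻¹ = w * z := by
        calc (b * x) * w * (b * x)⁻¹ = b * (x * w * x⁻¹) * b⁻¹ := by group
          _ = (b * w * b⁻¹) * (b * z * b⁻¹) := by rw [hxw]; group
          _ = w * z := by rw [hbw, hbz]
      rcases hcase (b * x) with ⟨-, h⟩ | ⟨h, -⟩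
      · exact hne2 (h1.symm.trans h)
      · exact h hbx
    · left
      refine ⟨?_, hb⟩
      have h1 : (b * x) * w * (b * x)⁻¹ = w := by
        calc (b * x) * w * (b * x)⁻¹ = b * (x * w * x⁻¹) * b⁻¹ := by group
          _ = (b * w * b⁻¹) * (b * z * b⁻¹) := by rw [hxw]; group
          _ = w * (z * z) := by rw [hbw, hbz, mul_assoc]
          _ = w := by rw [hzz, mul_one]
      rcases hcase (b * x) with ⟨h, -⟩ | ⟨-, h⟩
      · exact h
      · exact absurd (h.symm.trans h1) hne2
  refine ⟨C, part1, ?_⟩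
  · -- existence of an `E8` in `C`
    have hE8C : ∃ E : Subgroup P, E ≤ C ∧ Nat.card E = 8 ∧ ∀ e ∈ E, e ^ 2 = 1 := by
      by_cases hFC : F ≤ C
      · exact ⟨F, hFC, hFc, hF⟩
      · obtain ⟨f, hfF, hfC⟩ := SetLike.not_le_iff_exists.mp hFC
        have hCi := part1 f hfC
        let F₀ : Subgroup P := C ⊓ F
        have hF₀F : F₀ ≤ F := inf_le_right
        have h1 := card_mul_relIndex hF₀F
        rw [Subgroup.inf_relIndex_right] at h1
        have h2 : C.relIndex F ≤ 2 := by
          have := Subgroup.relIndex_le_of_le_right (H := C) (le_top : F ≤ ⊤)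
            (by rw [relIndex_top_right]; omega)
          rwa [relIndex_top_right, hCi] at this
        have h3 : C.relIndex F ≠ 1 := fun h => hFC (relIndex_eq_one.mp h)
        have h4 : C.relIndex F ≠ 0 := by
          intro h
          rw [h, mul_zero, hFc] at h1
          omega
        have h5 : C.relIndex F = 2 := by omega
        have h6 : Nat.card F₀ = 4 := by
          rw [h5, hFc] at h1
          omega
        obtain ⟨u, huU, huF₀⟩ : ∃ u ∈ U, u ∉ F₀ := by
          by_contra hcon
          push Not at hcon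
          apply hFC
          intro e he
          rw [Subgroup.mem_centralizer_iff]
          intro v hv
          exact comm_of_sq hF v (hcon v hv).2 e he
        have hF₀e : ∀ a ∈ F₀, a ^ 2 = 1 := fun a ha => hF a ha.2
        have hu2 := hUe'.2 u huU
        obtain ⟨h7, h8⟩ := card_sup hF₀e hu2 (fun a ha => hmemC a ha.1 u huU) huF₀
        exact ⟨F₀ ⊔ zpowers u, sup_le inf_le_left (zpowers_le.mpr (hUC huU)),
          by rw [h7, h6], h8⟩
    intro y hyC hy2
    by_cases hyU : y ∈ U
    · obtain ⟨E, hEC, hEc, hEe⟩ := hE8C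
      exact ⟨E, fun e he => (hmemC e (hEC he) y hyU).symm, hEc, hEe⟩
    · obtain ⟨h1, h2⟩ := card_sup hUe'.2 hy2 (fun a ha => (hmemC y hyC a ha).symm) hyU
      refine ⟨U ⊔ zpowers y, ?_, by rw [h1, hUc]; norm_num, h2⟩
      intro e he
      have hle : U ⊔ zpowers y ≤ centralizer ({y} : Set P) := by
        apply sup_le
        · intro u hu
          rw [Subgroup.mem_centralizer_iff]
          rintro _ rfl
          exact (hmemC _ hyC u hu).symm
        · rw [zpowers_le, Subgroup.mem_centralizer_iff]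
          rintro _ rfl
          rfl
      exact (Subgroup.mem_centralizer_iff.mp (hle he) y rfl).symm

/-- Let G be a finite group with no subgroup of index 2 whose 2-rank is at least 3 (it contains an elementary abelian subgroup of order 8). Then the centralizer of every involution of G also contains an elementary abelian subgroup of order 8. -/
theorem result {G : Type*} [Group G] [Finite G] (hno : ∀ H : Subgroup G, H.index ≠ 2) (hrank : ∃ E : Subgroup G, Nat.card E = 8 ∧ ∀ e ∈ E, e ^ 2 = 1) (x : G) (hx : orderOf x = 2) : ∃ E : Subgroup G, E ≤ Subgroup.centralizer ({x} : Set G) ∧ Nat.card E = 8 ∧ ∀ e ∈ E, e ^ 2 = 1 := by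
  
  classical
  haveI : Fact (Nat.Prime 2) := ⟨Nat.prime_two⟩
  obtain ⟨E, hEc, hEe⟩ := hrank
  have hW : IsPGroup 2 (zpowers x) :=
    IsPGroup.of_card (n := 1) (by rw [Nat.card_zpowers, hx, pow_one])
  obtain ⟨T, hT⟩ := hW.exists_le_sylow
  have hxT : x ∈ (T : Subgroup G) := hT (mem_zpowers x)
  have hE2 : IsPGroup 2 E := fun a => ⟨1, Subtype.ext (by simpa using hEe a a.2)⟩
  obtain ⟨y, hy⟩ := Cfsg.Agent.Lib.Transfer.Frobenius.exists_conj_mem_of_isPGroup T hE2
  let E₁ : Subgroup G := E.map (MulAut.conj y).toMonoidHom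
  have hE₁T : E₁ ≤ T := by
    rintro _ ⟨w, hw, rfl⟩
    exact hy w hw
  let F : Subgroup (T : Subgroup G) := E₁.subgroupOf T
  have hFc : Nat.card F = 8 := by
    have h1 : Nat.card F = Nat.card E₁ := Nat.card_congr (subgroupOfEquivOfLe hE₁T).toEquiv
    have h2 : Nat.card E₁ = Nat.card E :=
      Nat.card_congr (E.equivMapOfInjective _ (MulAut.conj y).injective).toEquiv.symm
    rw [h1, h2, hEc]
  have hFe : ∀ e ∈ F, e ^ 2 = 1 := by
    intro e he
    have he' := Subgroup.mem_subgroupOf.mp he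
    obtain ⟨w, hw, hwe⟩ := he'
    apply Subtype.ext
    show (e : G) ^ 2 = 1
    rw [← hwe, ← map_pow, hEe w hw, map_one]
  obtain ⟨C, hC1, hC2⟩ := two_group_core T.isPGroup' F hFe hFc
  have htrans : ∀ y' (hy' : y' ∈ (T : Subgroup G)), (⟨y', hy'⟩ : (T : Subgroup G)) ∈ C → y' ^ 2 = 1 →
      ∃ E : Subgroup G, E ≤ Subgroup.centralizer ({y'} : Set G) ∧ Nat.card E = 8 ∧
        ∀ e ∈ E, e ^ 2 = 1 := by
    intro y' hy' hC hsq
    obtain ⟨E', h1, h2, h3⟩ := hC2 ⟨y', hy'⟩ hC (Subtype.ext hsq)
    refine ⟨E'.map (T : Subgroup G).subtype, ?_, ?_, ?_⟩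
    · rintro _ ⟨e, he, rfl⟩
      rw [Subgroup.mem_centralizer_iff]
      rintro _ rfl
      exact (congrArg Subtype.val (h1 e he)).symm
    · rw [← h2]
      exact Nat.card_congr (E'.equivMapOfInjective _ (T : Subgroup G).subtype_injective).toEquiv.symm
    · rintro _ ⟨e, he, rfl⟩
      exact congrArg Subtype.val (h3 e he)
  have hxsq : x ^ 2 = 1 := by
    rw [← hx]
    exact pow_orderOf_eq_one x
  by_cases hxC : (⟨x, hxT⟩ : (T : Subgroup G)) ∈ C
  · exact htrans x hxT hxC hxsq
  · have hCi := hC1 _ hxC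
    let Q : Subgroup G := C.map (T : Subgroup G).subtype
    have hQT : Q ≤ T := by
      rintro _ ⟨c, -, rfl⟩
      exact c.2
    have hQi : Q.relIndex T = 2 := by
      rw [Subgroup.relIndex, Subgroup.subgroupOf,
        Subgroup.comap_map_eq_self_of_injective (T : Subgroup G).subtype_injective]
      exact hCi
    have hxQ : x ∉ Q := by
      rintro ⟨c, hc, hce⟩
      apply hxC
      have : c = ⟨x, hxT⟩ := Subtype.ext hce
      rwa [← this]
    rcases Cfsg.Agent.S0111.result T Q hQT hQi x hx hxT hxQ with ⟨M, -, hMi, -⟩ | ⟨g, hg⟩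
    · exact absurd hMi (hno M)
    · have hy'T : g * x * g⁻¹ ∈ (T : Subgroup G) := hQT hg
      obtain ⟨c, hc, hce⟩ := hg
      have hcc : c = ⟨g * x * g⁻¹, hy'T⟩ := Subtype.ext hce
      rw [hcc] at hc
      have hsq : (g * x * g⁻¹) ^ 2 = 1 := by
        rw [conj_pow, hxsq]
        group
      obtain ⟨E', h1, h2, h3⟩ := htrans _ hy'T hc hsq
      refine ⟨E'.map (MulAut.conj g⁻¹).toMonoidHom, ?_, ?_, ?_⟩
      · rintro _ ⟨e, he, rfl⟩
        rw [Subgroup.mem_centralizer_iff]
        intro h hh
        have hh' : h = x := hh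
        rw [hh']
        have h4 := Subgroup.mem_centralizer_iff.mp (h1 he) _ rfl
        show x * (g⁻¹ * e * g⁻¹⁻¹) = (g⁻¹ * e * g⁻¹⁻¹) * x
        have h5 : x = g⁻¹ * (g * x * g⁻¹) * g := by group
        rw [h5]
        calc g⁻¹ * (g * x * g⁻¹) * g * (g⁻¹ * e * g⁻¹⁻¹) = g⁻¹ * ((g * x * g⁻¹) * e) * g := by group
          _ = g⁻¹ * (e * (g * x * g⁻¹)) * g := by rw [h4]
          _ = _ := by group
      · rw [← h2]
        exact Nat.card_congr (E'.equivMapOfInjective _ (MulAut.conj g⁻¹).injective).toEquiv.symm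
      · rintro _ ⟨e, he, rfl⟩
        rw [← map_pow, h3 e he, map_one]

end Cfsg.Agent.S0221
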