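import Cfsg.Statements.S0225
import Cfsg.Agent.S0215
import Cfsg.Agent.Lib.PSL2.KleinPairs
import Cfsg.Agent.Lib.Components.ZStarApps

set_option autoImplicit false
open Cfsg

namespace Cfsg.Agent.S0225

open Cfsg.Agent.Lib.PSL2.KleinPairs Cfsg.Agent.Lib.Components.ZStarApps

/-- If a finite group G has even order but contains no Klein four-subgroup (2-rank 1), then some involution z of G is central modulo a normal subgroup of odd order: there is a normal subgroup N of odd order containing every commutator z g z⁻¹ g⁻¹. -/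
theorem result {G : Type*} [Group G] [Finite G] (heven : Even (Nat.card G)) (hrank : ∀ E : Subgroup G, ¬ IsKleinFour E) : ∃ z : G, orderOf z = 2 ∧ ∃ N : Subgroup G, N.Normal ∧ Odd (Nat.card N) ∧ ∀ g : G, z * g * z⁻¹ * g⁻¹ ∈ N := by
  obtain ⟨S⟩ : Nonempty (Sylow 2 G) := inferInstance
  obtain ⟨z, hzS, hz, hzc⟩ := exists_central_involution S heven
  refine ⟨z, hz, ?_⟩
  have hz2 : z * z = 1 := by rw [← sq, ← hz]; exact pow_orderOf_eq_one z
  have hz1 : z ≠ 1 := by rintro rfl; simp at hz
  refine Cfsg.Agent.S0215.result S z hz hzS ?_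
  intro g hg
  by_contra hne
  have hy1 : g * z * g⁻¹ ≠ 1 := by
    intro h
    apply hz1
    have : z = g⁻¹ * (g * z * g⁻¹) * g := by group
    rw [this, h]; group
  have hy2 : (g * z * g⁻¹) * (g * z * g⁻¹) = 1 := by
    calc (g * z * g⁻¹) * (g * z * g⁻¹) = g * (z * z) * g⁻¹ := by group
      _ = 1 := by rw [hz2]; group
  have hPP : IsPP z (g * z * g⁻¹) :=
    ⟨hz1, hy1, fun h => hne h.symm, hz2, hy2, (hzc _ hg).symm⟩
  exact hrank _ (isKleinFour_fourOf hPP)

end Cfsg.Agent.S0225
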