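import Cfsg.Statements.S0226
import Mathlib
-- import your own Cfsg.Agent.* helpers here

set_option autoImplicit false
open Cfsg

namespace Cfsg.Agent.S0226

/-- A finite group of even order has an odd number of involutions. -/
theorem result {G : Type*} [Group G] [Finite G] (heven : Even (Nat.card G)) : Odd (Nat.card {t : G // orderOf t = 2}) := by
  classical
  have := Fintype.ofFinite G
  let f : Function.End G := fun x : G => x⁻¹
  have hf : f ^ 2 ^ 1 = 1 := by
    rw [pow_one, pow_two]
    funext x
    exact inv_inv x
  have h := Equiv.Perm.card_fixedPoints_modEq (p := 2) (n := 1) (f := f) hf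
  have hfix : Fintype.card (Function.fixedPoints f) =
      Fintype.card {t : G // orderOf t = 2} + 1 := by
    rw [← Fintype.card_option]
    refine Fintype.card_congr ?_
    refine Equiv.ofBijective (fun x => if h : (x : G) = 1 then none else some ⟨x, ?_⟩) ?_
    · have hx : (x : G)⁻¹ = x := x.2
      rw [orderOf_eq_prime_iff]
      refine ⟨?_, h⟩
      rw [pow_two]
      nth_rewrite 1 [← hx]
      simp
    · constructor
      · rintro ⟨a, ha⟩ ⟨b, hb⟩ hab
        by_cases h1 : a = 1 <;> by_cases h2 : b = 1
        · subst h1; subst h2; rfl
        · simp [h1, h2] at hab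
        · simp [h1, h2] at hab
        · simp only [h1, h2, dite_false, Option.some.injEq, Subtype.mk.injEq] at hab
          exact Subtype.ext hab
      · intro y
        cases y with
        | none =>
          refine ⟨⟨1, inv_one⟩, by simp⟩
        | some t =>
          have hne : (t : G) ≠ 1 := by
            intro h1
            have := t.2
            rw [h1] at this
            simp at this
          have h2 : (t : G) ^ 2 = 1 := by
            have := pow_orderOf_eq_one (t : G)
            rwa [t.2] at this
          have hinv : (t : G)⁻¹ = t := by
            rw [inv_eq_iff_mul_eq_one, ← pow_two, h2]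
          refine ⟨⟨t, hinv⟩, ?_⟩
          simp [hne]
  have hcard := Nat.card_eq_fintype_card (α := G)
  have hcard2 := Nat.card_eq_fintype_card (α := {t : G // orderOf t = 2})
  rw [hcard] at heven
  rw [hcard2]
  rw [hfix] at h
  have h3 : (Fintype.card G) % 2 = (Fintype.card {t : G // orderOf t = 2} + 1) % 2 := h
  rw [Nat.odd_iff]
  have h4 := Nat.even_iff.mp heven
  omega

end Cfsg.Agent.S0226
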