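import Cfsg.Statements.S0229
import Mathlib
import Cfsg.Agent.S0208
-- import your own Cfsg.Agent.* helpers here

set_option autoImplicit false
open Cfsg

namespace Cfsg.Agent.S0229

/-- Let t be an involution of a Sylow 2-subgroup S of a finite group G, conjugate in G to no other element of S, and let s be an involution of G not conjugate to t. Then the order of st is twice an odd number. -/
theorem result {G : Type*} [Group G] [Finite G] (S : Sylow 2 G) (t : G) (ht : orderOf t = 2) (htS : t ∈ S) (hiso : ∀ g : G, g * t * g⁻¹ ∈ S → g * t * g⁻¹ = t) (s : G) (hs : orderOf s = 2) (hns : ¬ IsConj s t) : orderOf (s * t) % 4 = 2 := by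
  classical
  have hconjord : ∀ a b : G, IsConj a b → orderOf b = orderOf a := by
    intro a b hab
    obtain ⟨c, rfl⟩ := isConj_iff.1 hab
    have := orderOf_injective (MulAut.conj c).toMonoidHom (MulAut.conj c).injective a
    simpa [MulAut.conj_apply] using this
  have ht2 : t * t = 1 := by
    have := pow_orderOf_eq_one t
    rwa [ht, pow_two] at this
  have hs2 : s * s = 1 := by
    have := pow_orderOf_eq_one s
    rwa [hs, pow_two] at this
  have htinv : t⁻¹ = t := inv_eq_of_mul_eq_one_left ht2
  have hsinv : s⁻¹ = s := inv_eq_of_mul_eq_one_left hs2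
  set w := s * t with hw
  have heven : Even (orderOf w) := by
    by_contra hodd
    obtain ⟨d, -, hd⟩ := Cfsg.Agent.S0208.result s t hs ht (Nat.not_even_iff_odd.1 hodd)
    exact hns (isConj_iff.2 ⟨d, hd⟩)
  have hnot4 : ¬ 4 ∣ orderOf w := by
    intro h4
    set y := w ^ (orderOf w / 4) with hy
    have hyord : orderOf y = 4 := orderOf_pow_orderOf_div (orderOf_pos w).ne' h4
    have htw : t * w * t⁻¹ = w⁻¹ := by
      rw [hw, htinv, mul_inv_rev, hsinv, htinv]
      calc t * (s * t) * t = t * s * (t * t) := by group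
        _ = t * s := by rw [ht2, mul_one]
    have hty : t * y * t⁻¹ = y⁻¹ := by
      rw [hy, ← conj_pow, htw, inv_pow]
    have hynorm : Subgroup.zpowers t ≤ Subgroup.normalizer (Subgroup.zpowers y : Set G) := by
      rw [Subgroup.zpowers_le]
      apply Subgroup.mem_normalizer_iff_map_conj_eq.2
      have hm := MonoidHom.map_zpowers (MulAut.conj t).toMonoidHom y
      have e1 : (MulAut.conj t).toMonoidHom y = y⁻¹ := by
        simp only [MulEquiv.toMonoidHom_eq_coe, MonoidHom.coe_coe, MulAut.conj_apply]
        exact hty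
      rw [e1, Subgroup.zpowers_inv] at hm
      exact hm
    have h2t : IsPGroup 2 ↥(Subgroup.zpowers t) := by
      rw [IsPGroup.iff_card, Nat.card_zpowers, ht]
      exact ⟨1, by norm_num⟩
    have h2y : IsPGroup 2 ↥(Subgroup.zpowers y) := by
      rw [IsPGroup.iff_card, Nat.card_zpowers, hyord]
      exact ⟨2, by norm_num⟩
    have hD := h2t.to_sup_of_normal_right' h2y hynorm
    obtain ⟨T, hT⟩ := hD.exists_le_sylow
    obtain ⟨g, hg⟩ := MulAction.exists_smul_eq G T S
    have hgS : ∀ z ∈ (T : Subgroup G), g * z * g⁻¹ ∈ (S : Subgroup G) := by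
      intro z hz
      rw [← hg, Sylow.coe_subgroup_smul]
      exact Subgroup.smul_mem_pointwise_smul _ (MulAut.conj g) _ hz
    have htT : t ∈ (T : Subgroup G) := hT (Subgroup.mem_sup_left (Subgroup.mem_zpowers t))
    have hyT : y ∈ (T : Subgroup G) := hT (Subgroup.mem_sup_right (Subgroup.mem_zpowers y))
    have hgt : g * t * g⁻¹ = t := hiso g (hgS t htT)
    set y' := g * y * g⁻¹ with hy'
    have hy'S : y' ∈ (S : Subgroup G) := hgS y hyT
    have hyt : y' * t * y'⁻¹ = t := by
      apply hiso
      exact mul_mem (mul_mem hy'S htS) (inv_mem hy'S)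
    -- so y commutes with t
    have hcomm : y * t = t * y := by
      have h1 : y' * t = t * y' := mul_inv_eq_iff_eq_mul.1 hyt
      rw [hy'] at h1
      have h2 : g * (y * t) * g⁻¹ = g * (t * y) * g⁻¹ := by
        calc g * (y * t) * g⁻¹ = (g * y * g⁻¹) * (g * t * g⁻¹) := by group
          _ = (g * y * g⁻¹) * t := by rw [hgt]
          _ = t * (g * y * g⁻¹) := h1
          _ = (g * t * g⁻¹) * (g * y * g⁻¹) := by rw [hgt]
          _ = g * (t * y) * g⁻¹ := by group
      exact mul_left_cancel (mul_right_cancel h2)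
    have hyy : y = y⁻¹ := by
      rw [← hty, ← hcomm, htinv, mul_assoc, ht2, mul_one]
    have hy2 : y ^ 2 = 1 := by
      rw [pow_two]
      nth_rewrite 1 [hyy]
      exact inv_mul_cancel y
    have := orderOf_dvd_of_pow_eq_one hy2
    rw [hyord] at this
    omega
  obtain ⟨m, hm⟩ := heven
  omega

end Cfsg.Agent.S0229
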