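import Cfsg.Statements.S0230
import Cfsg.Agent.Lib.Basic.InvolutionPairs
import Cfsg.Agent.Lib.Basic.ConjCount
import Mathlib

set_option autoImplicit false
open Cfsg

namespace Cfsg.Agent.S0230

open Cfsg.Agent.Lib.Basic.InvolutionPairs

/-- Let G be a finite group with two non-conjugate involutions, and let t be an involution whose centralizer has maximal order among centralizers of involutions. Then |G| < |C_G(t)|^3. -/
theorem result {G : Type*} [Group G] [Finite G] (s t : G) (hs : orderOf s = 2) (ht : orderOf t = 2) (hnc : ¬ IsConj s t) (hmax : ∀ u : G, orderOf u = 2 → Nat.card (Subgroup.centralizer ({u} : Set G)) ≤ Nat.card (Subgroup.centralizer ({t} : Set G))) : Nat.card G < Nat.card (Subgroup.centralizer ({t} : Set G)) ^ 3 := by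
  classical
  haveI := Fintype.ofFinite G
  set m := Nat.card (Subgroup.centralizer ({t} : Set G)) with hm
  have hm0 : 0 < m := Nat.card_pos
  -- the conjugates of t
  let T : Finset G := Finset.univ.filter (fun y => IsConj t y)
  -- the involutions in C(s)
  let Z : Finset G := Finset.univ.filter (fun z => orderOf z = 2 ∧ z * s = s * z)
  let C : G → Finset G := fun z => Finset.univ.filter (fun y => y * z = z * y)
  have hCcard : ∀ z ∈ Z, (C z).card ≤ m := by
    intro z hz
    have h1 : (C z).card = Nat.card (Subgroup.centralizer ({z} : Set G)) := by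
      rw [Nat.card_eq_fintype_card, Fintype.card_subtype]
      congr 1
      ext y
      simp [C, Subgroup.mem_centralizer_singleton_iff]
    rw [h1]
    exact hmax z (Finset.mem_filter.mp hz).2.1
  have hsub : T ⊆ Z.biUnion C := by
    intro y hy
    have hyconj : IsConj t y := (Finset.mem_filter.mp hy).2
    have hyord : orderOf y = 2 := by
      rw [← Cfsg.Agent.Lib.Basic.ConjCount.orderOf_eq_of_isConj hyconj]; exact ht
    have hsy : ¬ IsConj s y := fun h => hnc (h.trans hyconj.symm)
    obtain ⟨z, hz, hz1, hz2⟩ := exists_common_involution_of_not_isConj hs hyord hsy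
    refine Finset.mem_biUnion.mpr ⟨z, Finset.mem_filter.mpr ⟨Finset.mem_univ _, hz, hz1⟩, ?_⟩
    exact Finset.mem_filter.mpr ⟨Finset.mem_univ _, hz2.symm⟩
  have hZcard : Z.card + 1 ≤ m := by
    -- Z together with 1 lies in C(s)
    have hsubZ : insert (1 : G) Z ⊆ Finset.univ.filter (fun y => y * s = s * y) := by
      intro z hz
      rcases Finset.mem_insert.mp hz with rfl | hz
      · simp
      · exact Finset.mem_filter.mpr ⟨Finset.mem_univ _, (Finset.mem_filter.mp hz).2.2⟩
    have h1Z : (1 : G) ∉ Z := by
      intro h
      have := (Finset.mem_filter.mp h).2.1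
      rw [orderOf_one] at this
      omega
    have h2 := Finset.card_le_card hsubZ
    rw [Finset.card_insert_of_notMem h1Z] at h2
    have h3 : (Finset.univ.filter (fun y => y * s = s * y)).card =
        Nat.card (Subgroup.centralizer ({s} : Set G)) := by
      rw [Nat.card_eq_fintype_card, Fintype.card_subtype]
      congr 1
      ext y
      simp [Subgroup.mem_centralizer_singleton_iff]
    rw [h3] at h2
    exact h2.trans (hmax s hs)
  have hTcard : T.card * m = Nat.card G := by
    -- orbit-stabilizer for the conjugation action
    have h1 : T.card = Nat.card {y : G // IsConj t y} := by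
      rw [Nat.card_eq_fintype_card, Fintype.card_subtype]
    have h2 := Cfsg.Agent.Lib.Basic.ConjCount.card_isConj_mul_card_centralizer t
    rw [h1, hm]
    exact h2
  have hle : T.card ≤ Z.card * m := by
    calc T.card ≤ (Z.biUnion C).card := Finset.card_le_card hsub
      _ ≤ ∑ z ∈ Z, (C z).card := Finset.card_biUnion_le
      _ ≤ ∑ _z ∈ Z, m := Finset.sum_le_sum hCcard
      _ = Z.card * m := by rw [Finset.sum_const, smul_eq_mul]
  rw [← hTcard]
  calc T.card * m ≤ Z.card * m * m := Nat.mul_le_mul_right _ hle
    _ < m * m * m := by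
        apply Nat.mul_lt_mul_of_pos_right _ hm0
        apply Nat.mul_lt_mul_of_pos_right _ hm0
        omega
    _ = m ^ 3 := by ring

end Cfsg.Agent.S0230
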