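import Cfsg.Statements.S0231
import Mathlib
import Cfsg.Agent.S0208
import Cfsg.Agent.S0209
-- import your own Cfsg.Agent.* helpers here

set_option autoImplicit false
open scoped Pointwise
open Cfsg

namespace Cfsg.Agent.S0231

lemma two_group_of_commute {G : Type*} [Group G] [Finite G] (z s : G) (hz : orderOf z = 2)
    (hs : orderOf s = 2) (hc : Commute z s) :
    ∃ T : Sylow 2 G, z ∈ (T : Subgroup G) ∧ s ∈ (T : Subgroup G) := by
  have h2z : IsPGroup 2 ↥(Subgroup.zpowers z) := by
    rw [IsPGroup.iff_card, Nat.card_zpowers, hz]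
    exact ⟨1, by norm_num⟩
  have h2s : IsPGroup 2 ↥(Subgroup.zpowers s) := by
    rw [IsPGroup.iff_card, Nat.card_zpowers, hs]
    exact ⟨1, by norm_num⟩
  have hnorm : Subgroup.zpowers z ≤ Subgroup.normalizer (Subgroup.zpowers s : Set G) := by
    rw [Subgroup.zpowers_le]
    apply Subgroup.mem_normalizer_iff_map_conj_eq.2
    have hm := MonoidHom.map_zpowers (MulAut.conj z).toMonoidHom s
    have e1 : (MulAut.conj z).toMonoidHom s = s := by
      simp only [MulEquiv.toMonoidHom_eq_coe, MonoidHom.coe_coe, MulAut.conj_apply]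
      rw [hc.eq]
      group
    rw [e1] at hm
    exact hm
  have hD := h2z.to_sup_of_normal_right' h2s hnorm
  obtain ⟨T, hT⟩ := hD.exists_le_sylow
  exact ⟨T, hT (Subgroup.mem_sup_left (Subgroup.mem_zpowers z)),
    hT (Subgroup.mem_sup_right (Subgroup.mem_zpowers s))⟩


/-- Let T be a Sylow 2-subgroup of the finite group G which is not normal and which intersects every other Sylow 2-subgroup trivially. Then G has a single conjugacy class of involutions. -/
theorem result {G : Type*} [Group G] [Finite G] (T : Sylow 2 G) (hnn : ¬ (T : Subgroup G).Normal) (hTI : ∀ g : G, MulAut.conj g • (T : Subgroup G) ≠ T → MulAut.conj g • (T : Subgroup G) ⊓ T = ⊥) (s t : G) (hs : orderOf s = 2) (ht : orderOf t = 2) : IsConj s t := by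
  classical
  -- any two distinct Sylow subgroups meet trivially
  have hTI' : ∀ A B : Sylow 2 G, A ≠ B → (A : Subgroup G) ⊓ (B : Subgroup G) = ⊥ := by
    intro A B hAB
    obtain ⟨a, ha⟩ := MulAction.exists_smul_eq G T A
    obtain ⟨b, hb⟩ := MulAction.exists_smul_eq G T B
    have hne : MulAut.conj (a⁻¹ * b) • (T : Subgroup G) ≠ T := by
      intro h
      apply hAB
      have h1 : (a⁻¹ * b) • T = T := by
        apply Sylow.ext
        rw [Sylow.coe_subgroup_smul]
        exact h
      rw [mul_smul, inv_smul_eq_iff] at h1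
      rw [← ha, ← hb, h1]
    have h1 := hTI _ hne
    rw [eq_bot_iff]
    rintro x ⟨hxA, hxB⟩
    have hxA' : a⁻¹ * x * a ∈ (T : Subgroup G) := by
      have : x ∈ ((a • T : Sylow 2 G) : Subgroup G) := by rw [ha]; exact hxA
      rw [Sylow.coe_subgroup_smul, Subgroup.mem_pointwise_smul_iff_inv_smul_mem, MulAut.smul_def] at this
      have e0 : (MulAut.conj a)⁻¹ = MulAut.conj a⁻¹ := (map_inv _ _).symm
      rw [e0, MulAut.conj_apply, inv_inv] at this
      exact this
    have hxB' : b⁻¹ * x * b ∈ (T : Subgroup G) := by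
      have : x ∈ ((b • T : Sylow 2 G) : Subgroup G) := by rw [hb]; exact hxB
      rw [Sylow.coe_subgroup_smul, Subgroup.mem_pointwise_smul_iff_inv_smul_mem, MulAut.smul_def] at this
      have e0 : (MulAut.conj b)⁻¹ = MulAut.conj b⁻¹ := (map_inv _ _).symm
      rw [e0, MulAut.conj_apply, inv_inv] at this
      exact this
    have hm : a⁻¹ * x * a ∈ MulAut.conj (a⁻¹ * b) • (T : Subgroup G) ⊓ (T : Subgroup G) := by
      refine Subgroup.mem_inf.2 ⟨?_, hxA'⟩
      rw [Subgroup.mem_pointwise_smul_iff_inv_smul_mem, MulAut.smul_def]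
      have e0 : (MulAut.conj (a⁻¹ * b))⁻¹ = MulAut.conj (a⁻¹ * b)⁻¹ := (map_inv _ _).symm
      rw [e0, MulAut.conj_apply]
      have e : (a⁻¹ * b)⁻¹ * (a⁻¹ * x * a) * (a⁻¹ * b)⁻¹⁻¹ = b⁻¹ * x * b := by group
      rw [e]
      exact hxB'
    rw [h1, Subgroup.mem_bot] at hm
    rw [Subgroup.mem_bot]
    have : x = a * (a⁻¹ * x * a) * a⁻¹ := by group
    rw [this, hm]
    group
  have hne1 : ∀ r : G, orderOf r = 2 → r ≠ 1 := by
    rintro r hr rfl
    rw [orderOf_one] at hr
    omega
  -- the key lemma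
  have key : ∀ (A B : Sylow 2 G) (a b : G), A ≠ B → a ∈ (A : Subgroup G) → b ∈ (B : Subgroup G) →
      orderOf a = 2 → orderOf b = 2 → IsConj a b := by
    intro A B a b hAB ha hb hao hbo
    by_cases hev : Even (orderOf (a * b))
    · exfalso
      obtain ⟨hz, hza, hzb⟩ := Cfsg.Agent.S0209.result a b hao hbo hev
      set z := (a * b) ^ (orderOf (a * b) / 2) with hzdef
      obtain ⟨C, hzC, haC⟩ := two_group_of_commute z a hz hao hza
      obtain ⟨D, hzD, hbD⟩ := two_group_of_commute z b hz hbo hzb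
      have hCA : C = A := by
        by_contra hne
        have := hTI' C A hne
        have hm : a ∈ (C : Subgroup G) ⊓ (A : Subgroup G) := ⟨haC, ha⟩
        rw [this, Subgroup.mem_bot] at hm
        exact hne1 a hao hm
      have hDB : D = B := by
        by_contra hne
        have := hTI' D B hne
        have hm : b ∈ (D : Subgroup G) ⊓ (B : Subgroup G) := ⟨hbD, hb⟩
        rw [this, Subgroup.mem_bot] at hm
        exact hne1 b hbo hm
      subst hCA hDB
      have hm : z ∈ (C : Subgroup G) ⊓ (D : Subgroup G) := ⟨hzC, hzD⟩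
      rw [hTI' C D hAB, Subgroup.mem_bot] at hm
      exact hne1 z hz hm
    · obtain ⟨d, -, hd⟩ := Cfsg.Agent.S0208.result a b hao hbo (Nat.not_even_iff_odd.1 hev)
      exact isConj_iff.2 ⟨d, hd⟩
  -- choose Sylow subgroups containing s, t
  have hsyl : ∀ r : G, orderOf r = 2 → ∃ A : Sylow 2 G, r ∈ (A : Subgroup G) := by
    intro r hr
    have h2 : IsPGroup 2 ↥(Subgroup.zpowers r) := by
      rw [IsPGroup.iff_card, Nat.card_zpowers, hr]
      exact ⟨1, by norm_num⟩
    obtain ⟨A, hA⟩ := h2.exists_le_sylow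
    exact ⟨A, hA (Subgroup.mem_zpowers r)⟩
  obtain ⟨A, hsA⟩ := hsyl s hs
  obtain ⟨B, htB⟩ := hsyl t ht
  by_cases hAB : A = B
  · subst hAB
    -- another Sylow subgroup
    have hex : ∃ C : Sylow 2 G, C ≠ A := by
      by_contra hcon
      push Not at hcon
      apply hnn
      refine ⟨?_⟩
      intro n hn g
      have h1 : g • T = T := by rw [hcon (g • T), hcon T]
      have h2 : g * n * g⁻¹ ∈ ((g • T : Sylow 2 G) : Subgroup G) := by
        rw [Sylow.coe_subgroup_smul]
        exact Subgroup.smul_mem_pointwise_smul _ (MulAut.conj g) _ hn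
      rwa [h1] at h2
    obtain ⟨C, hC⟩ := hex
    -- a nontrivial element of C
    have hTne : (T : Subgroup G) ≠ ⊥ := by
      intro hbot
      apply hnn
      rw [hbot]
      infer_instance
    have hCcard : 2 ∣ Nat.card ↥(C : Subgroup G) := by
      obtain ⟨c, hc⟩ := MulAction.exists_smul_eq G T C
      have hcard : Nat.card ↥(C : Subgroup G) = Nat.card ↥(T : Subgroup G) := by
        rw [← hc, Sylow.coe_subgroup_smul]
        exact Nat.card_congr (Subgroup.equivSMul (MulAut.conj c) (T : Subgroup G)).symm.toEquiv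
      rw [hcard]
      have hnt : Nontrivial ↥(T : Subgroup G) := (Subgroup.nontrivial_iff_ne_bot _).2 hTne
      obtain ⟨n, hn⟩ := IsPGroup.iff_card.1 T.isPGroup'
      rw [hn]
      have hn0 : n ≠ 0 := by
        rintro rfl
        rw [pow_zero] at hn
        have := Finite.one_lt_card (α := ↥(T : Subgroup G))
        omega
      exact dvd_pow_self 2 hn0
    have hf2 : Fact (Nat.Prime 2) := ⟨Nat.prime_two⟩
    obtain ⟨u, hu⟩ := exists_prime_orderOf_dvd_card' (G := ↥(C : Subgroup G)) 2 hCcard
    have hu' : orderOf (u : G) = 2 := by rwa [Subgroup.orderOf_coe]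
    exact (key A C s u hC.symm hsA u.2 hs hu').trans (key C A u t hC u.2 htB hu' ht)
  · exact key A B s t hAB hsA htB hs ht

end Cfsg.Agent.S0231
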