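import Cfsg.Statements.S0232
import Cfsg.Agent.S0230
import Cfsg.Agent.S0233
import Cfsg.Agent.Lib.Basic.ConjCount
import Mathlib

set_option autoImplicit false
open Cfsg

namespace Cfsg.Agent.S0232

/-- The case of a group with odd centre (no induction needed). -/
theorem odd_center_case {G : Type*} [Group G] [Finite G] (heven : Even (Nat.card G))
    (hgt : 2 < Nat.card G) (hZ : Odd (Nat.card (Subgroup.center G))) :
    ∃ H : Subgroup G, H ≠ ⊤ ∧ Nat.card G < (Nat.card H) ^ 3 := by
  classical
  haveI := Fintype.ofFinite G
  -- an involution with largest centralizer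
  obtain ⟨t₁, ht₁⟩ : ∃ t : G, orderOf t = 2 :=
    exists_prime_orderOf_dvd_card' (G := G) 2 (even_iff_two_dvd.mp heven)
  have hIne : (Finset.univ.filter (fun t : G => orderOf t = 2)).Nonempty :=
    ⟨t₁, by simp [ht₁]⟩
  obtain ⟨t, htmem, htmax⟩ := Finset.exists_max_image _
    (fun u : G => Nat.card (Subgroup.centralizer ({u} : Set G))) hIne
  have ht : orderOf t = 2 := by simpa using htmem
  have hmax : ∀ u : G, orderOf u = 2 → Nat.card (Subgroup.centralizer ({u} : Set G)) ≤
      Nat.card (Subgroup.centralizer ({t} : Set G)) := by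
    intro u hu
    exact htmax u (by simp [hu])
  -- the centralizer is proper
  have hCne : Subgroup.centralizer ({t} : Set G) ≠ ⊤ := by
    intro htop
    have hmem : t ∈ Subgroup.center G := by
      rw [Subgroup.mem_center_iff]
      intro g
      have : g ∈ Subgroup.centralizer ({t} : Set G) := by rw [htop]; trivial
      exact Subgroup.mem_centralizer_singleton_iff.mp this
    have h3 : orderOf (⟨t, hmem⟩ : Subgroup.center G) = 2 := by
      rw [Subgroup.orderOf_mk]; exact ht
    have h4 := orderOf_dvd_natCard (⟨t, hmem⟩ : Subgroup.center G)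
    rw [h3] at h4
    exact (Nat.not_even_iff_odd.mpr hZ) (even_iff_two_dvd.mpr h4)
  by_cases hcl : ∀ s : G, orderOf s = 2 → IsConj t s
  · -- one class of involutions
    set m := Nat.card (Subgroup.centralizer ({t} : Set G)) with hm
    set n := Nat.card {u : G // orderOf u = 2} with hn
    set N := Nat.card G with hN
    have hmn : n * m = N := by
      have h := Cfsg.Agent.Lib.Basic.ConjCount.card_isConj_mul_card_centralizer t
      have h2 : Nat.card {y : G // IsConj t y} = n := by
        apply Nat.card_congr
        refine Equiv.subtypeEquivRight (fun y => ⟨fun hy => ?_, fun hy => hcl y hy⟩)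
        rw [← ht]
        exact (Cfsg.Agent.Lib.Basic.ConjCount.orderOf_eq_of_isConj hy).symm
      rw [h2] at h
      exact h
    have hNpos : 0 < N := Nat.card_pos
    have hnpos : 0 < n := Nat.pos_of_ne_zero (fun h => by rw [h] at hmn; omega)
    have hmpos : 0 < m := Nat.pos_of_ne_zero (fun h => by rw [h] at hmn; omega)
    obtain ⟨H, hH, hcase⟩ := Cfsg.Agent.S0233.result heven hZ
    rw [← hn, ← hN] at hcase
    have hidx := Subgroup.card_mul_index H
    rw [← hN] at hidx
    set h := Nat.card H with hh
    have hhpos : 0 < h := Nat.card_pos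
    rcases hcase with h2 | h2
    · refine ⟨H, hH, ?_⟩
      rw [h2] at hidx
      have hh2 : 2 ≤ h := by omega
      nlinarith [Nat.mul_le_mul hh2 hh2]
    · -- `2 * idx < m * (m + 1)`
      have h3 : 2 * H.index < m * (m + 1) := by
        have h4 : n ^ 2 * (2 * H.index) < n ^ 2 * (m * (m + 1)) := by
          calc n ^ 2 * (2 * H.index) = 2 * H.index * n ^ 2 := by ring
            _ < N * (N + n) := h2
            _ = n ^ 2 * (m * (m + 1)) := by rw [← hmn]; ring
        exact Nat.lt_of_mul_lt_mul_left h4
      have h4 : H.index < m ^ 2 := by nlinarith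
      have h5 : N < m ^ 2 * h := by
        rw [← hidx, mul_comm h]
        exact Nat.mul_lt_mul_of_pos_right h4 hhpos
      by_cases hle : m ≤ h
      · refine ⟨H, hH, lt_of_lt_of_le h5 ?_⟩
        calc m ^ 2 * h ≤ h ^ 2 * h := Nat.mul_le_mul_right _ (Nat.pow_le_pow_left hle 2)
          _ = h ^ 3 := by ring
      · refine ⟨_, hCne, lt_of_lt_of_le h5 ?_⟩
        rw [← hm]
        push Not at hle
        calc m ^ 2 * h ≤ m ^ 2 * m := Nat.mul_le_mul_left _ hle.le
          _ = m ^ 3 := by ring
  · -- two classes
    push Not at hcl
    obtain ⟨s, hs, hst⟩ := hcl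
    refine ⟨_, hCne, Cfsg.Agent.S0230.result s t hs ht (fun h => hst h.symm) hmax⟩

/-- The Brauer–Fowler theorem. -/
theorem result {G : Type*} [Group G] [Finite G] (heven : Even (Nat.card G)) (hgt : 2 < Nat.card G) : ∃ H : Subgroup G, H ≠ ⊤ ∧ Nat.card G < (Nat.card H) ^ 3 := by
  classical
  induction' hN : Nat.card G using Nat.strong_induction_on with N ih generalizing G
  rw [hN] at heven hgt
  rcases Nat.even_or_odd (Nat.card (Subgroup.center G)) with hZ | hZ
  · -- central involution
    obtain ⟨z', hz'⟩ : ∃ z : Subgroup.center G, orderOf z = 2 :=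
      exists_prime_orderOf_dvd_card' (G := Subgroup.center G) 2 (even_iff_two_dvd.mp hZ)
    set z : G := z'.1 with hz
    have hzord : orderOf z = 2 := by rw [hz, Subgroup.orderOf_coe]; exact hz'
    have hzc : ∀ g : G, g * z = z * g := by
      intro g
      exact (Subgroup.mem_center_iff.mp z'.2 g)
    set Z := Subgroup.zpowers z with hZdef
    have hZnorm : Z.Normal := by
      constructor
      intro n hn g
      obtain ⟨k, rfl⟩ := Subgroup.mem_zpowers_iff.mp hn
      have hcomm : Commute g (z ^ k) := (Commute.zpow_right (hzc g) k)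
      rw [hcomm.eq, mul_inv_cancel_right]
      exact Subgroup.zpow_mem _ (Subgroup.mem_zpowers z) k
    have hZcard : Nat.card Z = 2 := by
      rw [hZdef, Nat.card_zpowers, hzord]
    have hQ : Nat.card (G ⧸ Z) * 2 = N := by
      have := Subgroup.card_mul_index Z
      rw [hZcard, Subgroup.index_eq_card] at this
      rw [← hN, ← this]
      ring
    set q := Nat.card (G ⧸ Z) with hq
    rcases Nat.even_or_odd q with hqe | hqo
    · by_cases hq2 : 2 < q
      · obtain ⟨Hb, hHb, hcard⟩ := ih q (by omega) hqe hq2 hq.symm
        refine ⟨Hb.comap (QuotientGroup.mk' Z), ?_, ?_⟩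
        · intro htop
          have h1 : (Hb.comap (QuotientGroup.mk' Z)).index = Hb.index :=
            Subgroup.index_comap_of_surjective _ (QuotientGroup.mk'_surjective Z)
          rw [htop, Subgroup.index_top] at h1
          exact hHb (Subgroup.index_eq_one.mp h1.symm)
        · have h1 : (Hb.comap (QuotientGroup.mk' Z)).index = Hb.index :=
            Subgroup.index_comap_of_surjective _ (QuotientGroup.mk'_surjective Z)
          have h2 := Subgroup.card_mul_index (Hb.comap (QuotientGroup.mk' Z))
          have h3 : Nat.card Hb * Hb.index = q := Subgroup.card_mul_index Hb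
          rw [h1] at h2
          rw [hN] at h2
          have hpos : 0 < Hb.index := Nat.pos_of_ne_zero Subgroup.index_ne_zero_of_finite
          have h4 : Nat.card (Hb.comap (QuotientGroup.mk' Z)) = 2 * Nat.card Hb := by
            apply Nat.eq_of_mul_eq_mul_right hpos
            rw [h2, ← hQ, ← h3]
            ring
          rw [h4, ← hQ]
          have h5 : (2 * Nat.card Hb) ^ 3 = 8 * Nat.card Hb ^ 3 := by ring
          rw [h5]
          omega
      · -- `|G| = 4`
        have hq2' : q = 2 := by
          rcases hqe with ⟨r, hr⟩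
          omega
        refine ⟨Z, ?_, ?_⟩
        · intro h
          rw [h, Subgroup.card_top, hN] at hZcard
          omega
        · rw [hZcard]
          omega
    · -- `|G| = 2q`, `q` odd: complement
      have hidx : Z.index = q := Subgroup.index_eq_card Z
      have hcop : Nat.Coprime (Nat.card Z) Z.index := by
        rw [hZcard, hidx]
        exact Nat.coprime_two_left.mpr hqo
      obtain ⟨K, hK⟩ := Subgroup.exists_right_complement'_of_coprime hcop
      have hKcard : Nat.card K = q := by
        have := hK.card_mul
        rw [hZcard, hN] at this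
        omega
      have hq3 : 3 ≤ q := by
        rcases hqo with ⟨r, hr⟩
        omega
      refine ⟨K, ?_, ?_⟩
      · intro h
        rw [h, Subgroup.card_top, hN] at hKcard
        omega
      · rw [hKcard, ← hQ]
        nlinarith [Nat.mul_le_mul hq3 hq3, Nat.mul_le_mul (Nat.mul_le_mul hq3 hq3) hq3]
  · subst hN
    exact odd_center_case heven hgt hZ

end Cfsg.Agent.S0232
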