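import Cfsg.Statements.S0234
import Cfsg.Agent.S0233
import Mathlib

set_option autoImplicit false
open Cfsg

namespace Cfsg.Agent.S0234

open Equiv.Perm in
theorem card_even_involutions_five :
    (Finset.univ.filter (fun σ : Equiv.Perm (Fin 5) => σ * σ = 1 ∧ σ ≠ 1 ∧ sign σ = 1)).card = 15 := by
  decide +kernel

/-- A simple group with a self-normalizing Sylow subgroup of prime order has prime order. -/
theorem card_eq_of_self_normalizing {G : Type*} [Group G] [Finite G] [IsSimpleGroup G] (p : ℕ)
    [hp : Fact p.Prime] (P : Sylow p G) (hcard : Nat.card P = p)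
    (hnorm : Subgroup.normalizer (P : Set G) ≤ (P : Subgroup G)) : Nat.card G = p := by
  have hcyc : IsCyclic P := isCyclic_of_prime_card (p := p) hcard
  have hle : Subgroup.normalizer (P : Set G) ≤ Subgroup.centralizer (P : Set G) := by
    intro x hx
    rw [Subgroup.mem_centralizer_iff]
    intro y hy
    have hx' : x ∈ (P : Subgroup G) := hnorm hx
    have := hcyc.exists_generator
    obtain ⟨c, hc⟩ := this
    obtain ⟨a, ha⟩ := Subgroup.mem_zpowers_iff.mp (hc ⟨x, hx'⟩)
    obtain ⟨b, hb⟩ := Subgroup.mem_zpowers_iff.mp (hc ⟨y, hy⟩)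
    have hx2 : x = ((c : G)) ^ a := by
      have := congrArg Subtype.val ha
      simpa using this.symm
    have hy2 : y = ((c : G)) ^ b := by
      have := congrArg Subtype.val hb
      simpa using this.symm
    rw [hx2, hy2, ← zpow_add, ← zpow_add, add_comm]
  have hc := MonoidHom.ker_transferSylow_isComplement' P hle
  have hcm := hc.card_mul
  rw [hcard] at hcm
  haveI hnormal : (MonoidHom.transferSylow P hle).ker.Normal := inferInstance
  rcases hnormal.eq_bot_or_eq_top with h | h
  · rw [h, Subgroup.card_bot, one_mul] at hcm
    exact hcm.symm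
  · rw [h, Subgroup.card_top] at hcm
    have hpos : 0 < Nat.card G := Nat.card_pos
    have hp1 := hp.out.one_lt
    nlinarith

/-- No simple group of order `p * m` with `p ∤ m`, `m > 1` such that the divisors of `m` congruent
to one mod `p` are only `1` and `m`. -/
theorem false_of_sylow {G : Type*} [Group G] [Finite G] [IsSimpleGroup G] (p m : ℕ)
    (hp : p.Prime) (hN : Nat.card G = p * m) (hpm : ¬ p ∣ m) (hm : 1 < m)
    (hd : ∀ d ∈ m.divisors, d % p = 1 % p → d = 1 ∨ d = m) : False := by
  haveI : Fact p.Prime := ⟨hp⟩
  obtain ⟨P⟩ : Nonempty (Sylow p G) := inferInstance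
  have hidx := Subgroup.card_mul_index (P : Subgroup G)
  have hcard : Nat.card P = p := by
    obtain ⟨k, hk⟩ := P.2.exists_card_eq
    have hk0 : k ≠ 0 := by
      rintro rfl
      rw [pow_zero] at hk
      rw [hk, one_mul, hN] at hidx
      exact P.not_dvd_index (hidx ▸ dvd_mul_right p m)
    have hk2 : k < 2 := by
      by_contra h
      push Not at h
      have h1 : p ^ 2 ∣ Nat.card P := hk ▸ pow_dvd_pow p h
      have h2 : p ^ 2 ∣ p * m := by
        rw [← hN]
        exact h1.trans (Subgroup.card_subgroup_dvd_card _)
      rw [pow_two] at h2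
      exact hpm (Nat.dvd_of_mul_dvd_mul_left hp.pos h2)
    have : k = 1 := by omega
    rw [hk, this, pow_one]
  have hpidx : (P : Subgroup G).index = m := by
    rw [hcard, hN] at hidx
    exact Nat.eq_of_mul_eq_mul_left hp.pos hidx
  have h1 : Nat.card (Sylow p G) % p = 1 % p := card_sylow_modEq_one p G
  have h2 : Nat.card (Sylow p G) ∣ m := hpidx ▸ P.card_dvd_index
  have hmem : Nat.card (Sylow p G) ∈ m.divisors :=
    Nat.mem_divisors.mpr ⟨h2, by omega⟩
  have hnidx : (Subgroup.normalizer (P : Set G)).index = Nat.card (Sylow p G) :=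
    (Sylow.card_eq_index_normalizer P).symm
  rcases hd _ hmem h1 with h3 | h3
  · -- normal Sylow subgroup
    rw [h3, Subgroup.index_eq_one] at hnidx
    haveI hnormal : (P : Subgroup G).Normal := Subgroup.normalizer_eq_top_iff.mp hnidx
    rcases hnormal.eq_bot_or_eq_top with h | h
    · rw [h, Subgroup.card_bot] at hcard
      exact hp.one_lt.ne hcard
    · rw [h, Subgroup.card_top, hN] at hcard
      have := hp.pos
      nlinarith
  · -- self-normalizing
    rw [h3] at hnidx
    have h4 := Subgroup.card_mul_index (Subgroup.normalizer (P : Set G))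
    rw [hnidx, hN] at h4
    have h5 : Nat.card (Subgroup.normalizer (P : Set G)) = p :=
      Nat.eq_of_mul_eq_mul_right (by omega) h4
    have h6 : Subgroup.normalizer (P : Set G) ≤ (P : Subgroup G) := by
      have h7 : (P : Subgroup G) = Subgroup.normalizer (P : Set G) :=
        Subgroup.eq_of_le_of_card_ge Subgroup.le_normalizer (by rw [h5, hcard])
      exact h7.ge
    have := card_eq_of_self_normalizing p P hcard h6
    rw [hN] at this
    have := hp.pos
    nlinarith

/-- In a finite simple group G of even order greater than 2, the number n of involutions satisfies 3n < |G|. -/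
theorem result {G : Type*} [Group G] [Finite G] [IsSimpleGroup G] (heven : Even (Nat.card G)) (hgt : 2 < Nat.card G) : 3 * Nat.card {t : G // orderOf t = 2} < Nat.card G := by
  classical
  haveI := Fintype.ofFinite G
  by_contra hcon
  push Not at hcon
  obtain ⟨t, ht⟩ : ∃ t : G, orderOf t = 2 :=
    exists_prime_orderOf_dvd_card' (G := G) 2 (even_iff_two_dvd.mp heven)
  -- the centre is trivial
  have hcenter : Subgroup.center G = ⊥ := by
    rcases (inferInstance : (Subgroup.center G).Normal).eq_bot_or_eq_top with h | h
    · exact h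
    · exfalso
      have hnormal : (Subgroup.zpowers t).Normal := by
        constructor
        intro n hn g
        have hc : n ∈ Subgroup.center G := by rw [h]; trivial
        rw [(Subgroup.mem_center_iff.mp hc g), mul_inv_cancel_right]
        exact hn
      have hcard : Nat.card (Subgroup.zpowers t) = 2 := by rw [Nat.card_zpowers, ht]
      rcases hnormal.eq_bot_or_eq_top with h2 | h2
      · rw [h2, Subgroup.card_bot] at hcard
        omega
      · rw [h2, Subgroup.card_top] at hcard
        omega
  have hZ : Odd (Nat.card (Subgroup.center G)) := by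
    rw [hcenter, Subgroup.card_bot]
    exact odd_one
  obtain ⟨H, hH, hcase⟩ := Cfsg.Agent.S0233.result heven hZ
  set n := Nat.card {t : G // orderOf t = 2} with hn
  set N := Nat.card G with hN
  have hNpos : 0 < N := Nat.card_pos
  have hnpos : 0 < n := by omega
  have hidx : H.index ≤ 5 := by
    rcases hcase with h2 | h2
    · exfalso
      have hnormal : H.Normal := Subgroup.normal_of_index_eq_two h2
      have hc := Subgroup.card_mul_index H
      rcases hnormal.eq_bot_or_eq_top with h3 | h3
      · rw [h3] at hc h2
        rw [Subgroup.card_bot, h2] at hc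
        omega
      · exact hH h3
    · have h3 : N * (N + n) ≤ 3 * n * (3 * n + n) := Nat.mul_le_mul hcon (by omega)
      have h4 : n ^ 2 * (2 * H.index) < n ^ 2 * 12 := by
        calc n ^ 2 * (2 * H.index) = 2 * H.index * n ^ 2 := by ring
          _ < N * (N + n) := h2
          _ ≤ 3 * n * (3 * n + n) := h3
          _ = n ^ 2 * 12 := by ring
      have := Nat.lt_of_mul_lt_mul_left h4
      omega
  -- the coset action
  let f₀ := MulAction.toPermHom G (G ⧸ H)
  have hf₀ : Function.Injective f₀ := by
    rw [← MonoidHom.ker_eq_bot_iff]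
    rcases (inferInstance : f₀.ker.Normal).eq_bot_or_eq_top with h | h
    · exact h
    · exfalso
      apply hH
      rw [eq_top_iff]
      intro g _
      have hg : g ∈ f₀.ker := by rw [h]; trivial
      have h1 : f₀ g = 1 := hg
      have h2 : g • ((1 : G) : G ⧸ H) = ((1 : G) : G ⧸ H) := by
        have := congrArg (fun σ : Equiv.Perm (G ⧸ H) => σ ((1 : G) : G ⧸ H)) h1
        simpa [f₀] using this
      have h3 : ((g : G) : G ⧸ H) = ((1 : G) : G ⧸ H) := by
        simpa [MulAction.Quotient.smul_mk] using h2
      have h4 := QuotientGroup.eq.mp h3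
      simpa using h4
  haveI : Fintype (G ⧸ H) := Fintype.ofFinite _
  have hemb : Nonempty ((G ⧸ H) ↪ Fin 5) := by
    apply Function.Embedding.nonempty_of_card_le
    rw [Fintype.card_fin, ← Nat.card_eq_fintype_card]
    exact hidx
  obtain ⟨ι⟩ := hemb
  let f : G →* Equiv.Perm (Fin 5) := (Equiv.Perm.viaEmbeddingHom ι).comp f₀
  have hf : Function.Injective f :=
    (Equiv.Perm.viaEmbeddingHom_injective ι).comp hf₀
  let s : G →* ℤˣ := (Equiv.Perm.sign).comp f
  have hs : ∀ g, Equiv.Perm.sign (f g) = 1 := by
    have : s.ker = ⊤ := by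
      rcases (inferInstance : s.ker.Normal).eq_bot_or_eq_top with h | h
      · exfalso
        have hinj : Function.Injective s := (MonoidHom.ker_eq_bot_iff s).mp h
        have := Nat.card_le_card_of_injective s hinj
        rw [Nat.card_eq_fintype_card (α := ℤˣ)] at this
        have h2 : Fintype.card ℤˣ = 2 := rfl
        omega
      · exact h
    intro g
    have hg : g ∈ s.ker := by rw [this]; trivial
    exact hg
  -- bound on `n`
  have hn15 : n ≤ 15 := by
    rw [← card_even_involutions_five, hn, Nat.card_eq_fintype_card, Fintype.card_subtype]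
    apply Finset.card_le_card_of_injOn f
    · intro x hx
      have hx' : orderOf x = 2 := by simpa using hx
      refine Finset.mem_coe.mpr (Finset.mem_filter.mpr ⟨Finset.mem_univ _, ?_, ?_, hs x⟩)
      · rw [← map_mul, ← pow_two, ← hx', pow_orderOf_eq_one, map_one]
      · intro h
        have : x = 1 := hf (by rw [h, map_one])
        rw [this, orderOf_one] at hx'
        omega
    · exact hf.injOn
  have hN45 : N ≤ 45 := by omega
  -- divisibility
  have hdvd : N ∣ 60 := by
    let g : G →* alternatingGroup (Fin 5) :=
      f.codRestrict (alternatingGroup (Fin 5)) (fun x => Equiv.Perm.mem_alternatingGroup.mpr (hs x))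
    have hg : Function.Injective g := by
      intro a b hab
      apply hf
      have := congrArg Subtype.val hab
      exact this
    have h1 := Subgroup.card_dvd_of_injective g hg
    have h2 : Nat.card (alternatingGroup (Fin 5)) = 60 := by
      rw [Nat.card_eq_fintype_card]
      decide +kernel
    rwa [h2] at h1
  have hcases : N = 4 ∨ N = 6 ∨ N = 10 ∨ N = 12 ∨ N = 20 ∨ N = 30 := by
    have hE := even_iff_two_dvd.mp heven
    clear_value N
    interval_cases N <;> omega
  rcases hcases with h | h | h | h | h | h
  · -- order four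
    haveI : Fact (Nat.Prime 2) := ⟨Nat.prime_two⟩
    have hp : IsPGroup 2 G := IsPGroup.of_card (n := 2) (by rw [← hN, h]; norm_num)
    haveI : Nontrivial G := Finite.one_lt_card_iff_nontrivial.mp (by omega)
    have := hp.center_nontrivial
    rw [hcenter] at this
    exact (not_nontrivial_iff_subsingleton.mpr inferInstance) this
  · exact false_of_sylow 3 2 (by norm_num) (by rw [← hN, h]) (by norm_num) (by norm_num) (by decide)
  · exact false_of_sylow 5 2 (by norm_num) (by rw [← hN, h]) (by norm_num) (by norm_num) (by decide)
  · exact false_of_sylow 3 4 (by norm_num) (by rw [← hN, h]) (by norm_num) (by norm_num) (by decide)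
  · exact false_of_sylow 5 4 (by norm_num) (by rw [← hN, h]) (by norm_num) (by norm_num) (by decide)
  · exact false_of_sylow 5 6 (by norm_num) (by rw [← hN, h]) (by norm_num) (by norm_num) (by decide)

end Cfsg.Agent.S0234
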