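import Cfsg.Statements.S0235
import Mathlib
-- import your own Cfsg.Agent.* helpers here

set_option autoImplicit false
open Cfsg

namespace Cfsg.Agent.S0235

/-- If x² ≠ 1, the ordered pairs (u, v) of involutions with uv = x correspond bijectively to the involutions t with t x t⁻¹ = x⁻¹ (via (u, v) ↦ u), so the two counts agree. -/
theorem result {G : Type*} [Group G] [Finite G] (x : G) (hx : x ^ 2 ≠ 1) : Nat.card {p : G × G // orderOf p.1 = 2 ∧ orderOf p.2 = 2 ∧ p.1 * p.2 = x} = Nat.card {t : G // orderOf t = 2 ∧ t * x * t⁻¹ = x⁻¹} := by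
  classical
  refine Nat.card_congr ?_
  refine ⟨fun p => ⟨p.1.1, p.2.1, ?_⟩, fun t => ⟨((t : G), (t : G) * x), t.2.1, ?_, ?_⟩, ?_, ?_⟩
  · obtain ⟨⟨u, v⟩, hu, hv, huv⟩ := p
    simp only at hu hv huv ⊢
    have hu2 : u ^ 2 = 1 := by rw [← hu]; exact pow_orderOf_eq_one u
    have hv2 : v ^ 2 = 1 := by rw [← hv]; exact pow_orderOf_eq_one v
    have hui : u⁻¹ = u := by rw [inv_eq_iff_mul_eq_one, ← pow_two, hu2]
    have hvi : v⁻¹ = v := by rw [inv_eq_iff_mul_eq_one, ← pow_two, hv2]
    rw [← huv, mul_inv_rev, hui, hvi]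
    group
    rw [← pow_two, hu2, one_mul]
  · obtain ⟨t, ht, htx⟩ := t
    simp only at *
    have ht2 : t ^ 2 = 1 := by rw [← ht]; exact pow_orderOf_eq_one t
    have hti : t⁻¹ = t := by rw [inv_eq_iff_mul_eq_one, ← pow_two, ht2]
    rw [orderOf_eq_prime_iff]
    constructor
    · rw [hti] at htx
      calc (t * x) ^ 2 = t * x * t * x := by rw [pow_two]; group
        _ = x⁻¹ * x := by rw [htx]
        _ = 1 := by group
    · intro h1
      have : x = t⁻¹ := by
        exact eq_inv_of_mul_eq_one_right h1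
      apply hx
      rw [this, hti, ht2]
  · obtain ⟨t, ht, htx⟩ := t
    simp only at *
    have ht2 : t ^ 2 = 1 := by rw [← ht]; exact pow_orderOf_eq_one t
    rw [← mul_assoc, ← pow_two, ht2, one_mul]
  · rintro ⟨⟨u, v⟩, hu, hv, huv⟩
    simp only at *
    have hu2 : u ^ 2 = 1 := by rw [← hu]; exact pow_orderOf_eq_one u
    ext
    · rfl
    · simp only
      rw [← huv, ← mul_assoc, ← pow_two, hu2, one_mul]
  · rintro ⟨t, ht, htx⟩
    rfl

end Cfsg.Agent.S0235
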