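import Cfsg.Statements.S0236
import Mathlib
-- import your own Cfsg.Agent.* helpers here

set_option autoImplicit false
open Cfsg

namespace Cfsg.Agent.S0236

/-- If x is an involution, the number of ordered pairs (u, v) of involutions with uv = x, plus one, equals the number of involutions in the centralizer of x. -/
theorem result {G : Type*} [Group G] [Finite G] (x : G) (hx : orderOf x = 2) : Nat.card {p : G × G // orderOf p.1 = 2 ∧ orderOf p.2 = 2 ∧ p.1 * p.2 = x} + 1 = Nat.card {t : G // orderOf t = 2 ∧ Commute t x} := by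
  classical
  have hx2 : x ^ 2 = 1 := by rw [← hx]; exact pow_orderOf_eq_one x
  have hxi : x⁻¹ = x := by rw [inv_eq_iff_mul_eq_one, ← pow_two, hx2]
  have hne : x ≠ 1 := by
    intro h1
    rw [h1] at hx
    simp at hx
  rw [← Nat.card_congr (Equiv.refl _)]
  have key : Nat.card {p : G × G // orderOf p.1 = 2 ∧ orderOf p.2 = 2 ∧ p.1 * p.2 = x} + 1 =
      Nat.card (Option {p : G × G // orderOf p.1 = 2 ∧ orderOf p.2 = 2 ∧ p.1 * p.2 = x}) := by
    rw [Finite.card_option]
  rw [key]
  refine Nat.card_congr ?_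
  refine ⟨fun o => match o with
    | none => ⟨x, hx, Commute.refl x⟩
    | some p => ⟨p.1.1, p.2.1, ?_⟩, fun t => if h : (t : G) = x then none else some ⟨((t : G), (t : G) * x), t.2.1, ?_, ?_⟩, ?_, ?_⟩
  · obtain ⟨⟨u, v⟩, hu, hv, huv⟩ := p
    simp only at hu hv huv ⊢
    have hu2 : u ^ 2 = 1 := by rw [← hu]; exact pow_orderOf_eq_one u
    have hv2 : v ^ 2 = 1 := by rw [← hv]; exact pow_orderOf_eq_one v
    have hui : u⁻¹ = u := by rw [inv_eq_iff_mul_eq_one, ← pow_two, hu2]
    have hvi : v⁻¹ = v := by rw [inv_eq_iff_mul_eq_one, ← pow_two, hv2]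
    have hcomm : u * v = v * u := by
      have h3 : (u * v)⁻¹ = u * v := by rw [huv, hxi]
      rw [mul_inv_rev, hui, hvi] at h3
      exact h3.symm
    show u * x = x * u
    rw [← huv, ← mul_assoc, ← pow_two, hu2, one_mul, mul_assoc, ← hcomm, ← mul_assoc, ← pow_two, hu2, one_mul]
  · obtain ⟨t, ht, htx⟩ := t
    simp only at *
    have ht2 : t ^ 2 = 1 := by rw [← ht]; exact pow_orderOf_eq_one t
    have hti : t⁻¹ = t := by rw [inv_eq_iff_mul_eq_one, ← pow_two, ht2]
    rw [orderOf_eq_prime_iff]
    constructor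
    · have : (t * x) ^ 2 = t ^ 2 * x ^ 2 := htx.mul_pow 2
      rw [this, ht2, hx2, one_mul]
    · intro h1
      apply h
      have : x = t⁻¹ := eq_inv_of_mul_eq_one_right h1
      rw [this, hti]
  · obtain ⟨t, ht, htx⟩ := t
    simp only at *
    have ht2 : t ^ 2 = 1 := by rw [← ht]; exact pow_orderOf_eq_one t
    rw [← mul_assoc, ← pow_two, ht2, one_mul]
  · intro o
    cases o with
    | none => simp
    | some p =>
      obtain ⟨⟨u, v⟩, hu, hv, huv⟩ := p
      have hv1 : v ≠ 1 := by
        intro h1
        rw [h1] at hv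
        simp at hv
      have hu2 : u ^ 2 = 1 := by rw [← hu]; exact pow_orderOf_eq_one u
      have hux : u ≠ x := by
        intro h1
        apply hv1
        rw [← h1] at huv
        exact mul_eq_left.mp huv
      simp only [hux, dite_false, Option.some.injEq]
      ext
      · rfl
      · simp only
        rw [← huv, ← mul_assoc, ← pow_two, hu2, one_mul]
  · rintro ⟨t, ht, htx⟩
    by_cases h : t = x
    · subst h
      simp
    · simp [h]

end Cfsg.Agent.S0236
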