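import Cfsg.Statements.S0237
import Mathlib
-- import your own Cfsg.Agent.* helpers here

set_option autoImplicit false
open Cfsg

namespace Cfsg.Agent.S0237

/-- If x is real (conjugate to x⁻¹) in a finite group G, the number of g with g x g⁻¹ = x⁻¹ equals |C_G(x)|. -/
theorem result {G : Type*} [Group G] [Finite G] (x : G) (hreal : IsConj x x⁻¹) : Nat.card {g : G // g * x * g⁻¹ = x⁻¹} = Nat.card (Subgroup.centralizer ({x} : Set G)) := by
  classical
  obtain ⟨c, hc⟩ := isConj_iff.mp hreal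
  refine Nat.card_congr ?_
  refine ⟨fun g => ⟨c⁻¹ * g, ?_⟩, fun k => ⟨c * k, ?_⟩, ?_, ?_⟩
  · rw [Subgroup.mem_centralizer_singleton_iff]
    have hg := g.2
    have this : (g : G) * x = x⁻¹ * g := by
      calc (g : G) * x = ((g : G) * x * (g : G)⁻¹) * g := by group
        _ = x⁻¹ * g := by rw [hg]
    have h2 : c⁻¹ * x⁻¹ = x * c⁻¹ := by
      have h3 : x⁻¹ = c * x * c⁻¹ := hc.symm
      rw [h3]; group
    calc c⁻¹ * g * x = c⁻¹ * (g * x) := by group
      _ = c⁻¹ * (x⁻¹ * g) := by rw [this]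
      _ = (c⁻¹ * x⁻¹) * g := by group
      _ = (x * c⁻¹) * g := by rw [h2]
      _ = x * (c⁻¹ * g) := by group
  · have h2 := (Subgroup.mem_centralizer_singleton_iff).mp k.2
    have hk2 : (k : G) * x * (k : G)⁻¹ = x := by rw [h2]; group
    calc c * k * x * (c * k)⁻¹ = c * ((k : G) * x * (k : G)⁻¹) * c⁻¹ := by group
      _ = c * x * c⁻¹ := by rw [hk2]
      _ = x⁻¹ := hc
  · intro g
    ext
    simp
  · intro k
    ext
    simp

end Cfsg.Agent.S0237
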