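import Cfsg.Statements.S0238
import Mathlib
import Cfsg.Agent.S0236
import Cfsg.Agent.S0237
-- import your own Cfsg.Agent.* helpers here

set_option autoImplicit false
open Cfsg

namespace Cfsg.Agent.S0238

/-- For every x in a finite group G, the number c of ordered pairs (u, v) of involutions with uv = x is at most |C_G(x)|; c = 0 when x is not conjugate to x⁻¹; and c + 2 ≤ |C_G(x)| when x is an involution. -/
theorem result {G : Type*} [Group G] [Finite G] (x : G) : Nat.card {p : G × G // orderOf p.1 = 2 ∧ orderOf p.2 = 2 ∧ p.1 * p.2 = x} ≤ Nat.card (Subgroup.centralizer ({x} : Set G)) ∧ (¬ IsConj x x⁻¹ → Nat.card {p : G × G // orderOf p.1 = 2 ∧ orderOf p.2 = 2 ∧ p.1 * p.2 = x} = 0) ∧ (orderOf x = 2 → Nat.card {p : G × G // orderOf p.1 = 2 ∧ orderOf p.2 = 2 ∧ p.1 * p.2 = x} + 2 ≤ Nat.card (Subgroup.centralizer ({x} : Set G))) := by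
  classical
  have := Fintype.ofFinite G
  -- injection pairs -> inverting elements
  have hinj : Nat.card {p : G × G // orderOf p.1 = 2 ∧ orderOf p.2 = 2 ∧ p.1 * p.2 = x} ≤
      Nat.card {g : G // g * x * g⁻¹ = x⁻¹} := by
    refine Nat.card_le_card_of_injective (fun p => ⟨p.1.1, ?_⟩) ?_
    · obtain ⟨⟨u, v⟩, hu, hv, huv⟩ := p
      simp only at hu hv huv ⊢
      have hu2 : u ^ 2 = 1 := by rw [← hu]; exact pow_orderOf_eq_one u
      have hv2 : v ^ 2 = 1 := by rw [← hv]; exact pow_orderOf_eq_one v
      have hui : u⁻¹ = u := by rw [inv_eq_iff_mul_eq_one, ← pow_two, hu2]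
      have hvi : v⁻¹ = v := by rw [inv_eq_iff_mul_eq_one, ← pow_two, hv2]
      rw [← huv, mul_inv_rev, hui, hvi]
      group
      rw [← pow_two, hu2, one_mul]
    · rintro ⟨⟨u, v⟩, hu, hv, huv⟩ ⟨⟨u', v'⟩, hu', hv', huv'⟩ h
      simp only [Subtype.mk.injEq] at h
      subst h
      simp only at huv huv'
      have : v = v' := mul_left_cancel (huv.trans huv'.symm)
      subst this
      rfl
  have hzero : ¬ IsConj x x⁻¹ → Nat.card {p : G × G // orderOf p.1 = 2 ∧ orderOf p.2 = 2 ∧ p.1 * p.2 = x} = 0 := by
    intro hn
    have : IsEmpty {g : G // g * x * g⁻¹ = x⁻¹} := by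
      constructor
      rintro ⟨g, hg⟩
      exact hn (isConj_iff.mpr ⟨g, hg⟩)
    have h0 : Nat.card {g : G // g * x * g⁻¹ = x⁻¹} = 0 := Nat.card_of_isEmpty
    omega
  refine ⟨?_, hzero, ?_⟩
  · by_cases hr : IsConj x x⁻¹
    · rw [← Cfsg.Agent.S0237.result x hr]
      exact hinj
    · rw [hzero hr]
      exact Nat.zero_le _
  · intro hx
    have h1 := Cfsg.Agent.S0236.result x hx
    have h2 : Nat.card {t : G // orderOf t = 2 ∧ Commute t x} + 1 ≤
        Nat.card (Subgroup.centralizer ({x} : Set G)) := by
      rw [← Finite.card_option]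
      refine Nat.card_le_card_of_injective (fun o => match o with
        | none => 1
        | some t => ⟨t.1, Subgroup.mem_centralizer_singleton_iff.mpr t.2.2⟩) ?_
      intro a b hab
      cases a with
      | none =>
        cases b with
        | none => rfl
        | some t =>
          exfalso
          have h3 : (1 : G) = t.1 := congrArg Subtype.val hab
          have h4 := t.2.1
          rw [← h3] at h4
          simp at h4
      | some s =>
        cases b with
        | none =>
          exfalso
          have h3 : (s.1 : G) = 1 := congrArg Subtype.val hab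
          have h4 := s.2.1
          rw [h3] at h4
          simp at h4
        | some t =>
          have h3 : (s : G) = t := by simpa [Subtype.ext_iff] using hab
          have : s = t := Subtype.ext h3
          rw [this]
    omega

end Cfsg.Agent.S0238
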