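import Cfsg.Statements.S0239
import Mathlib

set_option autoImplicit false

namespace Cfsg.Agent.S0239

/-- If some nontrivial element x of a finite group G is conjugate to x⁻¹, then |G| is even. -/
theorem result {G : Type*} [Group G] [Finite G] (x : G) (hx : x ≠ 1) (hreal : IsConj x x⁻¹) : Even (Nat.card G) := by
  by_contra hodd
  rw [Nat.not_even_iff_odd] at hodd
  obtain ⟨g, hg⟩ := isConj_iff.mp hreal
  -- conjugation by g inverts x; so g^2 centralizes x
  have hinv : g * x⁻¹ * g⁻¹ = x := by
    have : g * x⁻¹ * g⁻¹ = (g * x * g⁻¹)⁻¹ := by group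
    rw [this, hg, inv_inv]
  have hcomm : Commute (g * g) x := by
    show g * g * x = x * (g * g)
    have h1 : g * x = x⁻¹ * g := by rw [← hg]; group
    have h2 : g * x⁻¹ = x * g := by
      calc g * x⁻¹ = (g * x⁻¹ * g⁻¹) * g := by group
        _ = x * g := by rw [hinv]
    calc g * g * x = g * (g * x) := by group
      _ = g * (x⁻¹ * g) := by rw [h1]
      _ = (g * x⁻¹) * g := by group
      _ = (x * g) * g := by rw [h2]
      _ = x * (g * g) := by group
  -- g is a power of g * g
  obtain ⟨m, hm⟩ : Odd (orderOf g) := hodd.of_dvd_nat (orderOf_dvd_natCard g)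
  have hpow : (g * g) ^ (m + 1) = g := by
    rw [← pow_two, ← pow_mul]
    have : 2 * (m + 1) = orderOf g + 1 := by omega
    rw [this, pow_succ, pow_orderOf_eq_one, one_mul]
  have hgx : Commute g x := by
    rw [← hpow]
    exact hcomm.pow_left _
  have hxinv : x⁻¹ = x := by
    rw [← hg, hgx.eq]
    group
  have hx2 : x ^ 2 = 1 := by
    rw [pow_two]
    nth_rewrite 2 [← hxinv]
    simp
  have hord : orderOf x = 2 := orderOf_eq_prime hx2 hx
  have hdvd : 2 ∣ Nat.card G := hord ▸ orderOf_dvd_natCard x
  exact (Nat.not_even_iff_odd.mpr hodd) (even_iff_two_dvd.mpr hdvd)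

end Cfsg.Agent.S0239
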