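import Cfsg.Statements.S0240
import Mathlib
-- import your own Cfsg.Agent.* helpers here

set_option autoImplicit false
open Cfsg

namespace Cfsg.Agent.S0240

/-- Let G be a finite group with n involutions and H a subgroup with |H|·(n+1) > |G|. Then some nontrivial h ∈ H is strongly real in G: an involution t of G satisfies t h t⁻¹ = h⁻¹. -/
theorem result {G : Type*} [Group G] [Finite G] (H : Subgroup G) (hH : Nat.card G < Nat.card H * (Nat.card {t : G // orderOf t = 2} + 1)) : ∃ h : G, h ∈ H ∧ h ≠ 1 ∧ ∃ t : G, orderOf t = 2 ∧ t * h * t⁻¹ = h⁻¹ := by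
  classical
  have := Fintype.ofFinite G
  have hcard : Nat.card (G ⧸ H) < Nat.card (Option {t : G // orderOf t = 2}) := by
    rw [Finite.card_option]
    have h1 : Nat.card G = Nat.card H * H.index := (Subgroup.card_mul_index H).symm
    have hpos : 0 < Nat.card H := Nat.card_pos
    rw [h1] at hH
    have h2 : H.index < Nat.card {t : G // orderOf t = 2} + 1 := lt_of_mul_lt_mul_left hH (Nat.zero_le _)
    exact h2
  let f : Option {t : G // orderOf t = 2} → G ⧸ H := fun o => match o with
    | none => ((1 : G) : G ⧸ H)
    | some t => ((t.1 : G) : G ⧸ H)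
  have hni : ¬ Function.Injective f :=
    fun hinj => absurd (Nat.card_le_card_of_injective f hinj) (not_le.mpr hcard)
  obtain ⟨a, b, hfab, hab⟩ := Function.not_injective_iff.mp hni
  -- unify
  let v : Option {t : G // orderOf t = 2} → G := fun o => match o with
    | none => 1
    | some t => t.1
  have hv2 : ∀ o, v o * v o = 1 := by
    intro o
    cases o with
    | none => simp [v]
    | some t =>
      have h1 := pow_orderOf_eq_one (t.1 : G)
      rw [t.2, pow_two] at h1
      exact h1
  have hvi : ∀ o, (v o)⁻¹ = v o := fun o => inv_eq_of_mul_eq_one_left (hv2 o)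
  have hinj : v a ≠ v b := by
    intro h
    apply hab
    cases a with
    | none =>
      cases b with
      | none => rfl
      | some t =>
        exfalso
        have h4 := t.2
        have h3 : (1 : G) = t.1 := h
        rw [← h3] at h4
        simp at h4
    | some s =>
      cases b with
      | none =>
        exfalso
        have h4 := s.2
        have h3 : (s.1 : G) = 1 := h
        rw [h3] at h4
        simp at h4
      | some t =>
        have h3 : (s.1 : G) = t.1 := h
        have : s = t := Subtype.ext h3
        rw [this]
  have hfv : ∀ o, f o = ((v o : G) : G ⧸ H) := by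
    intro o
    cases o <;> rfl
  have hmem : (v a)⁻¹ * v b ∈ H := by
    rw [hfv, hfv] at hfab
    exact QuotientGroup.eq.mp hfab
  refine ⟨(v a)⁻¹ * v b, hmem, ?_, ?_⟩
  · intro h1
    apply hinj
    rw [inv_mul_eq_one] at h1
    exact h1
  · have hinv : ((v a)⁻¹ * v b)⁻¹ = v b * v a := by
      rw [mul_inv_rev, inv_inv, hvi]
    rw [hinv, hvi]
    have hh : ∀ t : G, orderOf t = 2 → t * (t * v b) * t⁻¹ = v b * t := by
      intro t ht
      have h1 := pow_orderOf_eq_one t
      rw [ht, pow_two] at h1
      have hti : t⁻¹ = t := inv_eq_of_mul_eq_one_left h1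
      rw [hti, ← mul_assoc, h1, one_mul]
    cases ha : a with
    | some s =>
      refine ⟨s.1, s.2, ?_⟩
      simpa [v] using hh s.1 s.2
    | none =>
      -- v a = 1, so v b is an involution
      have hvb : v a = 1 := by rw [ha]
      cases hb : b with
      | none =>
        exfalso
        apply hinj
        rw [ha, hb]
      | some t =>
        refine ⟨t.1, t.2, ?_⟩
        have h1 := pow_orderOf_eq_one (t.1 : G)
        rw [t.2, pow_two] at h1
        have hti : (t.1 : G)⁻¹ = t.1 := inv_eq_of_mul_eq_one_left h1
        simp only [v]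
        rw [one_mul, mul_one, hti, h1, one_mul]

end Cfsg.Agent.S0240
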