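import Cfsg.Statements.S0241
import Mathlib
-- import your own Cfsg.Agent.* helpers here

set_option autoImplicit false
open Cfsg

namespace Cfsg.Agent.S0241

/-- If x ≠ 1 is conjugate to x⁻¹ in a finite group G and |C_G(x)| is odd, then some involution t satisfies t x t⁻¹ = x⁻¹. -/
theorem result {G : Type*} [Group G] [Finite G] (x : G) (hx : x ≠ 1) (hreal : IsConj x x⁻¹) (hodd : Odd (Nat.card (Subgroup.centralizer ({x} : Set G)))) : ∃ t : G, orderOf t = 2 ∧ t * x * t⁻¹ = x⁻¹ := by
  classical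
  obtain ⟨g, hg⟩ := isConj_iff.mp hreal
  have hpos : 0 < orderOf g := orderOf_pos g
  obtain ⟨a, m, hm, hnm⟩ := Nat.exists_eq_two_pow_mul_odd hpos.ne'
  -- odd powers of g invert x
  have hev : ∀ k : ℕ, g ^ k * x * (g ^ k)⁻¹ = if Even k then x else x⁻¹ := by
    intro k
    induction k with
    | zero => simp
    | succ k ih =>
      have e1 : g ^ (k + 1) * x * (g ^ (k + 1))⁻¹ = g * (g ^ k * x * (g ^ k)⁻¹) * g⁻¹ := by
        rw [pow_succ']
        group
      rw [e1, ih]
      have hg' : g * x⁻¹ * g⁻¹ = x := by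
        have := congrArg (·⁻¹) hg
        simpa [mul_assoc] using this
      by_cases hk : Even k
      · have hk' : ¬ Even (k + 1) := by
          rw [Nat.even_add_one]; simpa using hk
        simp [hk, hk', hg]
      · have hk' : Even (k + 1) := by
          rw [Nat.even_add_one]; exact hk
        simp [hk, hk', hg']
  have hinv : g ^ m * x * (g ^ m)⁻¹ = x⁻¹ := by
    rw [hev m, if_neg (Nat.not_even_iff_odd.mpr hm)]
  set t := g ^ m with ht
  -- x ≠ x⁻¹
  have hxx : x ≠ x⁻¹ := by
    intro h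
    have h2 : x ^ 2 = 1 := by
      rw [pow_two]
      nth_rewrite 1 [h]
      simp
    have hord : orderOf x = 2 := orderOf_eq_prime h2 hx
    have hxc : x ∈ Subgroup.centralizer ({x} : Set G) := by
      rw [Subgroup.mem_centralizer_singleton_iff]
    have : orderOf (⟨x, hxc⟩ : Subgroup.centralizer ({x} : Set G)) ∣
        Nat.card (Subgroup.centralizer ({x} : Set G)) := orderOf_dvd_natCard _
    rw [Subgroup.orderOf_mk, hord] at this
    exact (Nat.not_even_iff_odd.mpr hodd) (even_iff_two_dvd.mpr this)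
  have ht1 : t ≠ 1 := by
    intro h
    rw [h] at hinv
    simp at hinv
    exact hxx hinv
  -- t² centralizes x
  have ht2 : t ^ 2 ∈ Subgroup.centralizer ({x} : Set G) := by
    rw [Subgroup.mem_centralizer_singleton_iff]
    have : t * t * x * (t * t)⁻¹ = x := by
      have e : t * t * x * (t * t)⁻¹ = t * (t * x * t⁻¹) * t⁻¹ := by group
      rw [e, hinv]
      have := congrArg (·⁻¹) hinv
      simpa [mul_assoc] using this
    rw [pow_two]
    rw [mul_inv_eq_iff_eq_mul] at this
    exact this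
  -- the order of t² is a power of two
  have hpow : (t ^ 2) ^ (2 ^ a) = 1 := by
    have h1 : t ^ (2 ^ a) = 1 := by
      rw [ht, ← pow_mul, mul_comm, ← hnm, pow_orderOf_eq_one]
    rw [← pow_mul, mul_comm, pow_mul, h1, one_pow]
  have hord : orderOf (⟨t ^ 2, ht2⟩ : Subgroup.centralizer ({x} : Set G)) ∣
      Nat.card (Subgroup.centralizer ({x} : Set G)) := orderOf_dvd_natCard _
  rw [Subgroup.orderOf_mk] at hord
  have hd2 : orderOf (t ^ 2) ∣ 2 ^ a := orderOf_dvd_of_pow_eq_one hpow
  have hcop : Nat.Coprime (orderOf (t ^ 2)) 2 := by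
    obtain ⟨k, hk⟩ := hord
    have hodd' : Odd (orderOf (t ^ 2)) := by
      rw [hk] at hodd
      exact (Nat.odd_mul.mp hodd).1
    exact (Nat.coprime_two_right.mpr hodd')
  have hone : orderOf (t ^ 2) = 1 :=
    Nat.eq_one_of_dvd_coprimes (Nat.Coprime.pow_right a hcop) dvd_rfl hd2
  have ht3 : t ^ 2 = 1 := orderOf_eq_one_iff.mp hone
  exact ⟨t, orderOf_eq_prime ht3 ht1, hinv⟩

end Cfsg.Agent.S0241
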