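import Cfsg.Statements.S0244
import Mathlib
-- import your own Cfsg.Agent.* helpers here

set_option autoImplicit false
open Cfsg

namespace Cfsg.Agent.S0244

/-- Sp_2 = SL_2: a matrix on Fin 1 ⊕ Fin 1 lies in Mathlib's symplectic group iff its determinant is 1. -/
theorem result {R : Type*} [CommRing R] (A : Matrix (Fin 1 ⊕ Fin 1) (Fin 1 ⊕ Fin 1) R) : A ∈ Matrix.symplecticGroup (Fin 1) R ↔ A.det = 1 := by
  classical
  have hdet : A.det = A (Sum.inl 0) (Sum.inl 0) * A (Sum.inr 0) (Sum.inr 0)
      - A (Sum.inl 0) (Sum.inr 0) * A (Sum.inr 0) (Sum.inl 0) := by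
    rw [← Matrix.det_submatrix_equiv_self (finSumFinEquiv (m := 1) (n := 1)).symm A,
      Matrix.det_fin_two]
    rfl
  have hkey : ∀ i j, (A * Matrix.J (Fin 1) R * A.transpose) i j = A.det * Matrix.J (Fin 1) R i j := by
    intro i j
    rw [hdet]
    rcases i with i | i <;> rcases j with j | j <;> obtain rfl : i = 0 := Subsingleton.elim _ _ <;>
      obtain rfl : j = 0 := Subsingleton.elim _ _ <;>
      simp [Matrix.J, Matrix.mul_apply, Fintype.sum_sum_type, Matrix.fromBlocks] <;> ring
  rw [SymplecticGroup.mem_iff]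
  constructor
  · intro h
    have h1 := hkey (Sum.inl 0) (Sum.inr 0)
    rw [h] at h1
    simp [Matrix.J, Matrix.fromBlocks] at h1
    exact h1.symm
  · intro h
    ext i j
    rw [hkey, h, one_mul]

end Cfsg.Agent.S0244
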