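import Cfsg.Statements.S0247
import Mathlib
import Cfsg.Agent.Lib.Classical.Symp.Count
-- import your own Cfsg.Agent.* helpers here

set_option autoImplicit false
open Cfsg

namespace Cfsg.Agent.S0247

open Matrix Cfsg Cfsg.Agent.Lib.Classical.Symp.Basic Cfsg.Agent.Lib.Classical.Symp.AltForm
  Cfsg.Agent.Lib.Classical.Symp.Count

variable {F : Type*} [Field F]

/-- The section from `F^4` to the even-weight vectors. -/
def l : (Fin 2 ⊕ Fin 2 → F) →ₗ[F] (Fin 6 → F) where
  toFun x := ![x (Sum.inl 0), x (Sum.inl 0) + x (Sum.inr 0), x (Sum.inr 0),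
    x (Sum.inl 1), x (Sum.inl 1) + x (Sum.inr 1), x (Sum.inr 1)]
  map_add' x y := by
    funext i
    fin_cases i <;> simp <;> ring
  map_smul' c x := by
    funext i
    fin_cases i <;> simp <;> ring

/-- The projection to `F^4`. -/
def p : (Fin 6 → F) →ₗ[F] (Fin 2 ⊕ Fin 2 → F) where
  toFun u := Sum.elim ![u 1 + u 2, u 4 + u 5] ![u 0 + u 1, u 3 + u 4]
  map_add' x y := by
    funext i
    rcases i with i | i <;> fin_cases i <;> simp <;> ring
  map_smul' c x := by
    funext i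
    rcases i with i | i <;> fin_cases i <;> simp <;> ring

/-- The action on `F^6`. -/
def act (σ : Equiv.Perm (Fin 6)) : (Fin 6 → F) →ₗ[F] (Fin 6 → F) :=
  LinearMap.funLeft F F (⇑σ⁻¹)

theorem act_apply (σ : Equiv.Perm (Fin 6)) (u : Fin 6 → F) (i : Fin 6) : act σ u i = u (σ⁻¹ i) := rfl

theorem act_mul (σ τ : Equiv.Perm (Fin 6)) (u : Fin 6 → F) : act (σ * τ) u = act σ (act τ u) := by
  funext i
  simp [act_apply, _root_.mul_inv_rev]

theorem act_one (u : Fin 6 → F) : act 1 u = u := by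
  funext i
  simp [act_apply]

theorem act_ones (σ : Equiv.Perm (Fin 6)) : act σ (fun _ => (1 : F)) = fun _ => 1 := rfl

theorem act_sum (σ : Equiv.Perm (Fin 6)) (u : Fin 6 → F) : ∑ i, act σ u i = ∑ i, u i :=
  Equiv.sum_comp σ⁻¹ u

theorem act_dot (σ : Equiv.Perm (Fin 6)) (u v : Fin 6 → F) :
    ∑ i, act σ u i * act σ v i = ∑ i, u i * v i :=
  Equiv.sum_comp σ⁻¹ (fun i => u i * v i)

section Char

variable [CharP F 2]

theorem two0 : (2 : F) = 0 := CharTwo.two_eq_zero

theorem p_l (x : Fin 2 ⊕ Fin 2 → F) : p (l x) = x := by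
  funext i
  have h := two0 (F := F)
  rcases i with i | i <;> fin_cases i
  · change (x (Sum.inl 0) + x (Sum.inr 0)) + x (Sum.inr 0) = x (Sum.inl 0)
    linear_combination (x (Sum.inr 0)) * h
  · change (x (Sum.inl 1) + x (Sum.inr 1)) + x (Sum.inr 1) = x (Sum.inl 1)
    linear_combination (x (Sum.inr 1)) * h
  · change x (Sum.inl 0) + (x (Sum.inl 0) + x (Sum.inr 0)) = x (Sum.inr 0)
    linear_combination (x (Sum.inl 0)) * h
  · change x (Sum.inl 1) + (x (Sum.inl 1) + x (Sum.inr 1)) = x (Sum.inr 1)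
    linear_combination (x (Sum.inl 1)) * h

theorem sum_l (x : Fin 2 ⊕ Fin 2 → F) : ∑ i, l x i = 0 := by
  have h := two0 (F := F)
  simp only [Fin.sum_univ_six]
  change x (Sum.inl 0) + (x (Sum.inl 0) + x (Sum.inr 0)) + x (Sum.inr 0) +
    x (Sum.inl 1) + (x (Sum.inl 1) + x (Sum.inr 1)) + x (Sum.inr 1) = 0
  linear_combination (x (Sum.inl 0) + x (Sum.inr 0) + x (Sum.inl 1) + x (Sum.inr 1)) * h

theorem p_ones : p (fun _ : Fin 6 => (1 : F)) = 0 := by
  funext i
  have h := two0 (F := F)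
  rcases i with i | i <;> fin_cases i
  · change (1 : F) + 1 = 0
    linear_combination h
  · change (1 : F) + 1 = 0
    linear_combination h
  · change (1 : F) + 1 = 0
    linear_combination h
  · change (1 : F) + 1 = 0
    linear_combination h

theorem l_p {u : Fin 6 → F} (hu : ∑ i, u i = 0) :
    l (p u) = u + (u 0 + u 1 + u 2) • (fun _ => (1 : F)) := by
  have h := two0 (F := F)
  simp only [Fin.sum_univ_six] at hu
  funext i
  fin_cases i
  · change u 1 + u 2 = u 0 + (u 0 + u 1 + u 2) * 1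
    linear_combination (-(u 0)) * h
  · change u 1 + u 2 + (u 0 + u 1) = u 1 + (u 0 + u 1 + u 2) * 1
    ring
  · change u 0 + u 1 = u 2 + (u 0 + u 1 + u 2) * 1
    linear_combination (-(u 2)) * h
  · change u 4 + u 5 = u 3 + (u 0 + u 1 + u 2) * 1
    linear_combination (-1 : F) * hu + (u 4 + u 5) * h
  · change u 4 + u 5 + (u 3 + u 4) = u 4 + (u 0 + u 1 + u 2) * 1
    linear_combination hu - (u 0 + u 1 + u 2) * h
  · change u 3 + u 4 = u 5 + (u 0 + u 1 + u 2) * 1
    linear_combination (-1 : F) * hu + (u 3 + u 4) * h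

theorem form_p {u v : Fin 6 → F} (hu : ∑ i, u i = 0) (hv : ∑ i, v i = 0) :
    sympForm 2 F (p u) (p v) = ∑ i, u i * v i := by
  have h := two0 (F := F)
  simp only [Fin.sum_univ_six] at hu hv ⊢
  rw [sympForm_apply, Fin.sum_univ_two]
  change (u 0 + u 1) * (v 1 + v 2) - (u 1 + u 2) * (v 0 + v 1) +
    ((u 3 + u 4) * (v 4 + v 5) - (u 4 + u 5) * (v 3 + v 4)) = _
  linear_combination (u 0 + u 1 + u 2) * hv + (v 3 + v 4 + v 5) * hu +
    (-(u 0 + u 1 + u 2) * (v 3 + v 4 + v 5) -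
      (u 0 * v 0 + u 1 * v 1 + u 2 * v 2 + u 3 * v 3 + u 4 * v 4 + u 5 * v 5) -
      (u 1 * v 0 + u 2 * v 0 + u 2 * v 1 + u 4 * v 3 + u 5 * v 3 + u 5 * v 4)) * h

/-- The linear map on `F^4` induced by a permutation. -/
def gLin (σ : Equiv.Perm (Fin 6)) : (Fin 2 ⊕ Fin 2 → F) →ₗ[F] (Fin 2 ⊕ Fin 2 → F) :=
  p ∘ₗ act σ ∘ₗ l

theorem gLin_apply (σ : Equiv.Perm (Fin 6)) (x : Fin 2 ⊕ Fin 2 → F) :
    gLin σ x = p (act σ (l x)) := rfl

theorem p_act_even (σ : Equiv.Perm (Fin 6)) {u : Fin 6 → F} (hu : ∑ i, u i = 0) :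
    p (act σ u) = gLin σ (p u) := by
  rw [gLin_apply, l_p hu, map_add, map_add, map_smul, map_smul, act_ones, p_ones]
  simp

theorem gLin_mul (σ τ : Equiv.Perm (Fin 6)) (x : Fin 2 ⊕ Fin 2 → F) :
    gLin (σ * τ) x = gLin σ (gLin τ x) := by
  rw [gLin_apply, act_mul, p_act_even σ (by rw [act_sum, sum_l])]
  rfl

theorem gLin_one (x : Fin 2 ⊕ Fin 2 → F) : gLin 1 x = x := by
  rw [gLin_apply, act_one, p_l]

theorem gLin_form (σ : Equiv.Perm (Fin 6)) (x y : Fin 2 ⊕ Fin 2 → F) :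
    sympForm 2 F (gLin σ x) (gLin σ y) = sympForm 2 F x y := by
  rw [gLin_apply, gLin_apply, form_p (by rw [act_sum, sum_l]) (by rw [act_sum, sum_l]), act_dot,
    ← form_p (sum_l x) (sum_l y), p_l, p_l]

/-- The homomorphism from `S_6` to the isometry group. -/
noncomputable def phi : Equiv.Perm (Fin 6) →* IsomGroup (sympBilin 2 F) where
  toFun σ := ⟨LinearEquiv.ofLinearMap (gLin σ) (gLin σ⁻¹)
      (LinearMap.ext fun x => by
        rw [LinearMap.comp_apply, ← gLin_mul, mul_inv_cancel, gLin_one]; rfl)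
      (LinearMap.ext fun x => by
        rw [LinearMap.comp_apply, ← gLin_mul, inv_mul_cancel, gLin_one]; rfl),
    fun x y => gLin_form σ x y⟩
  map_one' := by
    apply Subtype.ext
    apply LinearEquiv.ext
    intro x
    exact gLin_one x
  map_mul' σ τ := by
    apply Subtype.ext
    apply LinearEquiv.ext
    intro x
    exact gLin_mul σ τ x

theorem phi_apply (σ : Equiv.Perm (Fin 6)) (x : Fin 2 ⊕ Fin 2 → F) :
    ((phi σ : IsomGroup (sympBilin 2 F)) : (Fin 2 ⊕ Fin 2 → F) ≃ₗ[F] (Fin 2 ⊕ Fin 2 → F)) x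
      = gLin σ x := rfl

theorem exists_ne_two : ∀ a b : Fin 6, ∃ k, k ≠ a ∧ k ≠ b := by decide

theorem exists_ne_four : ∀ a b c d : Fin 6, ∃ e, e ≠ a ∧ e ≠ b ∧ e ≠ c ∧ e ≠ d := by decide

theorem phi_injective : Function.Injective (phi (F := F)) := by
  rw [injective_iff_map_eq_one]
  intro σ hσ
  by_contra hne
  have hfix : ∀ x : Fin 2 ⊕ Fin 2 → F, gLin σ x = x := fun x => by
    have := congrArg (fun g : IsomGroup (sympBilin 2 F) =>
      (g : (Fin 2 ⊕ Fin 2 → F) ≃ₗ[F] (Fin 2 ⊕ Fin 2 → F)) x) hσ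
    exact this
  -- the difference is a constant vector
  have hconst : ∀ v : Fin 6 → F, ∑ i, v i = 0 → ∀ a b : Fin 6,
      act σ v a - v a = act σ v b - v b := by
    intro v hv a b
    have h1 : p (act σ v) = p v := by rw [p_act_even σ hv, hfix]
    have hs : ∑ i, act σ v i = 0 := by rw [act_sum, hv]
    have h2 := l_p hs
    have h3 := l_p hv
    rw [h1, h3] at h2
    have ha := congrFun h2 a
    have hb := congrFun h2 b
    simp only [Pi.add_apply, Pi.smul_apply, smul_eq_mul, mul_one] at ha hb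
    linear_combination hb - ha
  obtain ⟨i, hi⟩ : ∃ i, σ i ≠ i := by
    by_contra hcon
    push Not at hcon
    exact hne (Equiv.ext hcon)
  obtain ⟨k, hk1, hk2⟩ := exists_ne_two i (σ i)
  obtain ⟨c, hc1, hc2, hc3, hc4⟩ := exists_ne_four i k (σ i) (σ k)
  let v : Fin 6 → F := Pi.single i 1 + Pi.single k 1
  have hv : ∑ a, v a = 0 := by
    simp only [v, Pi.add_apply, Finset.sum_add_distrib, Finset.sum_pi_single', Finset.mem_univ,
      if_true]
    linear_combination two0 (F := F)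
  have key := hconst v hv (σ i) c
  have e1 : act σ v (σ i) = 1 := by
    rw [act_apply]
    have h0 : σ⁻¹ (σ i) = i := by simp
    rw [h0]
    simp [v, Pi.single_apply, hk1.symm]
  have e2 : v (σ i) = 0 := by
    simp [v, Pi.single_apply, hi, hk2.symm]
  have e3 : act σ v c = 0 := by
    rw [act_apply]
    have h1 : σ⁻¹ c ≠ i := fun h => hc3 (by rw [← h]; simp)
    have h2 : σ⁻¹ c ≠ k := fun h => hc4 (by rw [← h]; simp)
    simp only [v, Pi.add_apply, Pi.single_apply, if_neg h1, if_neg h2, add_zero]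
  have e4 : v c = 0 := by
    simp [v, Pi.single_apply, hc1, hc2]
  rw [e1, e2, e3, e4] at key
  simp at key

end Char

/-- Sp_4(2) is isomorphic to the symmetric group S_6. -/
theorem result {F : Type*} [Field F] [Fintype F] (hF : Fintype.card F = 2) : Nonempty (Matrix.symplecticGroup (Fin 2) F ≃* Equiv.Perm (Fin 6)) := by
  haveI : CharP F 2 := ringChar.of_eq (FiniteField.even_card_iff_char_two.mpr (by rw [hF]))
  have hcard : Nat.card (IsomGroup (sympBilin 2 F)) = Nat.card (Equiv.Perm (Fin 6)) := by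
    rw [← Nat.card_congr (spEquivIsom (m := 2) (F := F)).toEquiv,
      card_symplecticGroup (q := 2) (by rw [Nat.card_eq_fintype_card, hF]) 2]
    simp [Finset.prod_range_succ, Nat.card_eq_fintype_card, Fintype.card_perm, Nat.factorial]
  haveI : Finite (IsomGroup (sympBilin 2 F)) :=
    Finite.of_equiv _ (spEquivIsom (m := 2) (F := F)).toEquiv
  have hbij : Function.Bijective (phi (F := F)) :=
    phi_injective.bijective_of_nat_card_le hcard.le
  exact ⟨(spEquivIsom (m := 2) (F := F)).trans (MulEquiv.ofBijective _ hbij).symm⟩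

end Cfsg.Agent.S0247
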