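import Cfsg.Statements.S0250
import Mathlib
import Cfsg.Agent.Lib.Compute.SmallField

set_option autoImplicit false
open Cfsg

namespace Cfsg.Agent.S0250

/-- SL_2(2) is isomorphic to S_3. -/
theorem result {F : Type*} [Field F] [Fintype F] (hF : Fintype.card F = 2) : Nonempty (Matrix.SpecialLinearGroup (Fin 2) F ≃* Equiv.Perm (Fin 3)) := by
  exact Cfsg.Agent.Lib.Compute.SmallField.sl2_card2 hF

end Cfsg.Agent.S0250
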