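import Cfsg.Statements.S2427
import Mathlib
-- import your own Cfsg.Agent.* helpers here

set_option autoImplicit false
open Cfsg

namespace Cfsg.Agent.S2427

abbrev G := Matrix.SpecialLinearGroup (Fin 2) (ZMod 3)

set_option maxRecDepth 100000

theorem card_G : Fintype.card G = 24 := by decide +kernel

theorem mul4 : ∀ a b : G, a ^ 4 = 1 → b ^ 4 = 1 → (a * b) ^ 4 = 1 := by decide +kernel

theorem comm4 : ∀ a b : G, (a * b * a⁻¹ * b⁻¹) ^ 4 = 1 := by decide +kernel

theorem is_comm : ∀ x : G, x ^ 4 = 1 → ∃ a b : G, x = a * b * a⁻¹ * b⁻¹ := by decide +kernel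

/-- the subgroup of elements with fourth power one -/
def Q : Subgroup G where
  carrier := {g | g ^ 4 = 1}
  mul_mem' := fun {a b} ha hb => mul4 a b ha hb
  one_mem' := one_pow 4
  inv_mem' := fun {a} ha => by
    show a⁻¹ ^ 4 = 1
    rw [inv_pow, show a ^ 4 = 1 from ha, inv_one]

theorem mem_Q (g : G) : g ∈ Q ↔ g ^ 4 = 1 := Iff.rfl

theorem comm_eq : commutator G = Q := by
  apply le_antisymm
  · rw [commutator_def, Subgroup.commutator_le]
    intro a _ b _
    exact comm4 a b
  · intro x hx
    obtain ⟨a, b, rfl⟩ := is_comm x hx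
    exact Subgroup.commutator_mem_commutator (Subgroup.mem_top a) (Subgroup.mem_top b)

def matA : G := ⟨!![0, 1; 2, 0], by decide +kernel⟩
def matX : G := ⟨!![1, 1; 1, 2], by decide +kernel⟩

def fQ : QuaternionGroup 2 → G
  | .a i => matA ^ i.val
  | .xa i => matX * matA ^ i.val

theorem fQ_mul : ∀ p q : QuaternionGroup 2, fQ (p * q) = fQ p * fQ q := by decide +kernel
theorem fQ_inj : ∀ p q : QuaternionGroup 2, fQ p = fQ q → p = q := by decide +kernel
theorem fQ_mem : ∀ p : QuaternionGroup 2, (fQ p) ^ 4 = 1 := by decide +kernel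
theorem fQ_surj : ∀ x : G, x ^ 4 = 1 → ∃ p : QuaternionGroup 2, fQ p = x := by decide +kernel

def fHom : QuaternionGroup 2 →* G := MonoidHom.mk' fQ fQ_mul

theorem fHom_range : fHom.range = commutator G := by
  rw [comm_eq]
  ext x
  constructor
  · rintro ⟨p, rfl⟩
    exact fQ_mem p
  · intro hx
    obtain ⟨p, rfl⟩ := fQ_surj x hx
    exact ⟨p, rfl⟩

noncomputable def equivQ : commutator G ≃* QuaternionGroup 2 :=
  (MulEquiv.subgroupCongr fHom_range.symm).trans
    (MonoidHom.ofInjective (f := fHom) (fun p q h => fQ_inj p q h)).symm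

theorem card_comm : Nat.card (commutator G) = 8 := by
  rw [Nat.card_congr equivQ.toEquiv, Nat.card_eq_fintype_card, QuaternionGroup.card]

theorem center_iff : ∀ x : G, x ∈ Subgroup.center G ↔ x ^ 2 = 1 := by
  intro x
  rw [Subgroup.mem_center_iff]
  revert x
  decide +kernel

theorem card_center : Fintype.card {x : G // x ^ 2 = 1} = 2 := by decide +kernel

theorem F1 : ∀ x y : G, x ^ 4 = 1 → x ^ 2 ≠ 1 → y ^ 4 = 1 →
    y = 1 ∨ y = x ^ 2 ∨ ∃ g : G, y = g * x * g⁻¹ := by decide +kernel
theorem F2 : ∀ x : G, x ^ 4 ≠ 1 → ∃ a : G, (a * x * a⁻¹ * x⁻¹) ^ 4 = 1 ∧ (a * x * a⁻¹ * x⁻¹) ^ 2 ≠ 1 := by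
  decide +kernel
theorem F3 : ∀ x y : G, x ^ 4 ≠ 1 → y ^ 4 = 1 ∨ (y * x) ^ 4 = 1 ∨ (y * x * x) ^ 4 = 1 := by decide +kernel
theorem F5 : ∀ x y : G, x ^ 2 = 1 → x ≠ 1 → y ^ 2 = 1 → y = 1 ∨ y = x := by decide +kernel

theorem Q_le_of (N : Subgroup G) (hN : N.Normal) (x : G) (hx : x ∈ N) (h4 : x ^ 4 = 1) (h2 : x ^ 2 ≠ 1) :
    Q ≤ N := by
  intro y hy
  rcases F1 x y h4 h2 hy with rfl | rfl | ⟨g, rfl⟩
  · exact one_mem N
  · exact pow_mem hx 2
  · exact hN.conj_mem x hx g

theorem normal_classif (N : Subgroup G) (hN : N.Normal) :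
    N = ⊥ ∨ N = ⊤ ∨ N = Subgroup.center G ∨ N = commutator G := by
  by_cases hc : ∀ x ∈ N, x ^ 2 = 1
  · by_cases hb : N = ⊥
    · exact Or.inl hb
    · right; right; left
      obtain ⟨x, hxN, hx1⟩ := (Subgroup.ne_bot_iff_exists_ne_one).1 hb |> fun ⟨x, hx⟩ => (⟨x.1, x.2, fun h => hx (Subtype.ext h)⟩ : ∃ x ∈ N, x ≠ (1 : G))
      apply le_antisymm
      · intro y hy
        exact (center_iff y).2 (hc y hy)
      · intro y hy
        rcases F5 x y (hc x hxN) hx1 ((center_iff y).1 hy) with rfl | rfl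
        · exact one_mem N
        · exact hxN
  · simp only [not_forall] at hc
    obtain ⟨x, hxN, hx2⟩ := hc
    have hQ : Q ≤ N := by
      by_cases h4 : x ^ 4 = 1
      · exact Q_le_of N hN x hxN h4 hx2
      · obtain ⟨a, ha4, ha2⟩ := F2 x h4
        refine Q_le_of N hN _ ?_ ha4 ha2
        exact mul_mem (hN.conj_mem x hxN a) (inv_mem hxN)
    by_cases hle : N ≤ Q
    · right; right; right
      rw [comm_eq]
      exact le_antisymm hle hQ
    · right; left
      obtain ⟨y, hyN, hyQ⟩ := SetLike.not_le_iff_exists.1 hle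
      rw [eq_top_iff]
      intro z _
      rcases F3 y z hyQ with h | h | h
      · exact hQ h
      · have := mul_mem (hQ h) (inv_mem hyN)
        simpa using this
      · have := mul_mem (mul_mem (hQ h) (inv_mem hyN)) (inv_mem hyN)
        simpa using this

/-- The group SL₂ over the field with 3 elements has order 24 and centre of order 2; its commutator subgroup has order 8, is isomorphic to the quaternion group of order 8 and is complemented by every Sylow 3-subgroup (so the group is a semidirect product of a quaternion group of order 8 by a cyclic group of order 3); and its only normal subgroups besides the trivial subgroup and the whole group are the centre and the commutator subgroup. -/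
theorem result :
    Nat.card (Matrix.SpecialLinearGroup (Fin 2) (ZMod 3)) = 24 ∧
    Nat.card (Subgroup.center (Matrix.SpecialLinearGroup (Fin 2) (ZMod 3))) = 2 ∧
    Nat.card (commutator (Matrix.SpecialLinearGroup (Fin 2) (ZMod 3))) = 8 ∧
    Nonempty (commutator (Matrix.SpecialLinearGroup (Fin 2) (ZMod 3)) ≃* QuaternionGroup 2) ∧
    (∀ P : Sylow 3 (Matrix.SpecialLinearGroup (Fin 2) (ZMod 3)),
      Subgroup.IsComplement' (commutator (Matrix.SpecialLinearGroup (Fin 2) (ZMod 3)))
        (P : Subgroup (Matrix.SpecialLinearGroup (Fin 2) (ZMod 3)))) ∧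
    ∀ N : Subgroup (Matrix.SpecialLinearGroup (Fin 2) (ZMod 3)), N.Normal →
      N = ⊥ ∨ N = ⊤ ∨ N = Subgroup.center (Matrix.SpecialLinearGroup (Fin 2) (ZMod 3)) ∨
        N = commutator (Matrix.SpecialLinearGroup (Fin 2) (ZMod 3)) := by
  have hG : Nat.card G = 24 := by rw [Nat.card_eq_fintype_card]; exact card_G
  refine ⟨hG, ?_, card_comm, ⟨equivQ⟩, ?_, normal_classif⟩
  · have : Nat.card (Subgroup.center G) = Nat.card {x : G // x ^ 2 = 1} :=
      Nat.card_congr (Equiv.subtypeEquivRight center_iff)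
    rw [this, Nat.card_eq_fintype_card, card_center]
  · intro P
    have hP : Nat.card (P : Subgroup G) = 3 := by
      have h := P.card_eq_multiplicity
      rw [hG] at h
      rw [h]
      have : (24 : ℕ).factorization 3 = 1 := by
        rw [show (24 : ℕ) = 3 * 8 by norm_num, Nat.factorization_mul (by norm_num) (by norm_num)]
        simp [Nat.Prime.factorization (by norm_num : Nat.Prime 3)]
        exact Nat.factorization_eq_zero_of_not_dvd (by norm_num)
      rw [this, pow_one]
    apply Subgroup.isComplement'_of_coprime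
    · rw [card_comm, hP, hG]
    · rw [card_comm, hP]; norm_num

end Cfsg.Agent.S2427
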