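import Cfsg.Statements.S0257
import Mathlib
import Cfsg.Agent.S2427
import Cfsg.Agent.Lib.Compute.SmallField
-- import your own Cfsg.Agent.* helpers here

set_option autoImplicit false
open Cfsg

namespace Cfsg.Agent.S0257

open Cfsg.Agent.S2427 Cfsg.Agent.Lib.Compute.SmallField

theorem center_card : Nat.card (Subgroup.center G) = 2 := by
  have : Nat.card (Subgroup.center G) = Nat.card {x : G // x ^ 2 = 1} :=
    Nat.card_congr (Equiv.subtypeEquivRight center_iff)
  rw [this, Nat.card_eq_fintype_card, card_center]

theorem comm_index : (commutator G).index = 3 := by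
  have h := (commutator G).card_mul_index
  rw [card_comm, Nat.card_eq_fintype_card, card_G] at h
  omega

/-- SL_2(3) has a normal subgroup of index 3 isomorphic to the quaternion group of order 8, and its centre has order 2. -/
theorem result {F : Type*} [Field F] [Fintype F] (hF : Fintype.card F = 3) : (∃ Q : Subgroup (Matrix.SpecialLinearGroup (Fin 2) F), Q.Normal ∧ Q.index = 3 ∧ Nonempty (Q ≃* QuaternionGroup 2)) ∧ Nat.card (Subgroup.center (Matrix.SpecialLinearGroup (Fin 2) F)) = 2 := by
  classical
  let e0 : ZMod 3 ≃+* F := ZMod.ringEquivOfPrime F Nat.prime_three hF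
  let E : Matrix.SpecialLinearGroup (Fin 2) F ≃* G := slCongr e0.symm
  refine ⟨⟨(commutator G).comap E.toMonoidHom, ?_, ?_, ?_⟩, ?_⟩
  · exact Subgroup.Normal.comap inferInstance _
  · exact (Subgroup.index_comap_of_surjective (f := E.toMonoidHom) _ E.surjective).trans comm_index
  · refine ⟨?_⟩
    have e1 : (commutator G).comap E.toMonoidHom ≃* commutator G :=
      { toFun := fun x => ⟨E x.1, x.2⟩
        invFun := fun x => ⟨E.symm x.1, by simp [Subgroup.mem_comap]⟩
        left_inv := fun x => Subtype.ext (by simp)
        right_inv := fun x => Subtype.ext (by simp)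
        map_mul' := fun x y => Subtype.ext (map_mul E x.1 y.1) }
    exact e1.trans equivQ
  · have h := Nat.card_congr (MulEquiv.subgroupMap E (Subgroup.center (Matrix.SpecialLinearGroup (Fin 2) F))).toEquiv
    have h2 : Subgroup.map (E : Matrix.SpecialLinearGroup (Fin 2) F →* G)
        (Subgroup.center (Matrix.SpecialLinearGroup (Fin 2) F)) = Subgroup.center G := map_center_eq E
    rw [h, h2, center_card]

end Cfsg.Agent.S0257
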