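import Cfsg.Statements.S0258
import Mathlib
-- import your own Cfsg.Agent.* helpers here

set_option autoImplicit false
open Cfsg

namespace Cfsg.Agent.S0258

open Matrix
open scoped MatrixGroups

/-- The upper triangular subgroup of `GL₂`. -/
def borel (F : Type*) [Field F] : Subgroup (GL (Fin 2) F) where
  carrier := {g | (g : Matrix (Fin 2) (Fin 2) F) 1 0 = 0}
  mul_mem' := by
    intro a b ha hb
    simp only [Set.mem_setOf_eq] at *
    simp [Matrix.mul_apply, Fin.sum_univ_two, ha, hb]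
  one_mem' := by simp
  inv_mem' := by
    intro a ha
    simp only [Set.mem_setOf_eq] at *
    rw [Matrix.coe_units_inv, Matrix.inv_def, Matrix.adjugate_fin_two]
    simp [ha]

/-- The upper unitriangular subgroup of `GL₂`. -/
def unip (F : Type*) [Field F] : Subgroup (GL (Fin 2) F) where
  carrier := {g | (g : Matrix (Fin 2) (Fin 2) F) 1 0 = 0 ∧
    (g : Matrix (Fin 2) (Fin 2) F) 0 0 = 1 ∧ (g : Matrix (Fin 2) (Fin 2) F) 1 1 = 1}
  mul_mem' := by
    rintro a b ⟨ha1, ha2, ha3⟩ ⟨hb1, hb2, hb3⟩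
    simp only [Set.mem_setOf_eq]
    simp [Matrix.mul_apply, Fin.sum_univ_two, ha1, ha2, ha3, hb1, hb2, hb3]
  one_mem' := by simp
  inv_mem' := by
    rintro a ⟨ha1, ha2, ha3⟩
    simp only [Set.mem_setOf_eq]
    rw [Matrix.coe_units_inv, Matrix.inv_def, Matrix.adjugate_fin_two, Matrix.det_fin_two]
    simp [ha1, ha2, ha3]

variable {F : Type*} [Field F]

lemma card_unip [Fintype F] : Nat.card (unip F) = Fintype.card F := by
  classical
  let f : F → unip F := fun x =>
    ⟨Matrix.GeneralLinearGroup.mkOfDetNeZero !![1, x; 0, 1] (by simp [Matrix.det_fin_two_of]),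
      by simp [unip, Matrix.GeneralLinearGroup.mkOfDetNeZero]⟩
  have hf : Function.Bijective f := by
    constructor
    · intro x y h
      have h1 := congrArg (fun g : unip F => ((g : GL (Fin 2) F) : Matrix (Fin 2) (Fin 2) F) 0 1) h
      simpa [f, Matrix.GeneralLinearGroup.mkOfDetNeZero] using h1
    · rintro ⟨g, hg1, hg2, hg3⟩
      refine ⟨(g : Matrix (Fin 2) (Fin 2) F) 0 1, ?_⟩
      apply Subtype.ext
      apply Units.ext
      ext i j
      fin_cases i <;> fin_cases j <;>
        simp [f, Matrix.GeneralLinearGroup.mkOfDetNeZero, hg1, hg2, hg3]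
  rw [← Nat.card_congr (Equiv.ofBijective f hf), Nat.card_eq_fintype_card]

lemma card_borel [Fintype F] :
    Nat.card (borel F) = Fintype.card F * (Fintype.card F - 1) ^ 2 := by
  classical
  let f : Fˣ × Fˣ × F → borel F := fun p =>
    ⟨Matrix.GeneralLinearGroup.mkOfDetNeZero !![(p.1 : F), p.2.2; 0, (p.2.1 : F)]
        (by simp [Matrix.det_fin_two_of]),
      by simp [borel, Matrix.GeneralLinearGroup.mkOfDetNeZero]⟩
  have hf : Function.Bijective f := by
    constructor
    · rintro ⟨a, d, x⟩ ⟨a', d', x'⟩ h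
      have h1 := congrArg (fun g : borel F => ((g : GL (Fin 2) F) : Matrix (Fin 2) (Fin 2) F) 0 0) h
      have h2 := congrArg (fun g : borel F => ((g : GL (Fin 2) F) : Matrix (Fin 2) (Fin 2) F) 0 1) h
      have h3 := congrArg (fun g : borel F => ((g : GL (Fin 2) F) : Matrix (Fin 2) (Fin 2) F) 1 1) h
      simp [f, Matrix.GeneralLinearGroup.mkOfDetNeZero] at h1 h2 h3
      have ha : a = a' := Units.ext h1
      have hd : d = d' := Units.ext h3
      rw [ha, hd, h2]
    · rintro ⟨g, hg⟩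
      have hg' : (g : Matrix (Fin 2) (Fin 2) F) 1 0 = 0 := hg
      have hdet : IsUnit (g : Matrix (Fin 2) (Fin 2) F).det := (Matrix.isUnit_iff_isUnit_det _).mp g.isUnit
      rw [Matrix.det_fin_two, hg', mul_zero, sub_zero] at hdet
      have ha := isUnit_of_mul_isUnit_left hdet
      have hd := isUnit_of_mul_isUnit_right hdet
      refine ⟨(ha.unit, hd.unit, (g : Matrix (Fin 2) (Fin 2) F) 0 1), ?_⟩
      apply Subtype.ext
      apply Units.ext
      ext i j
      fin_cases i <;> fin_cases j <;>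
        simp [f, Matrix.GeneralLinearGroup.mkOfDetNeZero, hg']
  rw [← Nat.card_congr (Equiv.ofBijective f hf), Nat.card_eq_fintype_card]
  simp only [Fintype.card_prod, Fintype.card_units]
  ring

lemma mul00 (a b : GL (Fin 2) F) (hb : (b : Matrix (Fin 2) (Fin 2) F) 1 0 = 0) :
    ((a * b : GL (Fin 2) F) : Matrix (Fin 2) (Fin 2) F) 0 0 =
      (a : Matrix (Fin 2) (Fin 2) F) 0 0 * (b : Matrix (Fin 2) (Fin 2) F) 0 0 := by
  rw [Units.val_mul, Matrix.mul_apply, Fin.sum_univ_two, hb, mul_zero, add_zero]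

lemma mul11 (a b : GL (Fin 2) F) (ha : (a : Matrix (Fin 2) (Fin 2) F) 1 0 = 0) :
    ((a * b : GL (Fin 2) F) : Matrix (Fin 2) (Fin 2) F) 1 1 =
      (a : Matrix (Fin 2) (Fin 2) F) 1 1 * (b : Matrix (Fin 2) (Fin 2) F) 1 1 := by
  rw [Units.val_mul, Matrix.mul_apply, Fin.sum_univ_two, ha, zero_mul, zero_add]

lemma one00 : ((1 : GL (Fin 2) F) : Matrix (Fin 2) (Fin 2) F) 0 0 = 1 := by simp
lemma one11 : ((1 : GL (Fin 2) F) : Matrix (Fin 2) (Fin 2) F) 1 1 = 1 := by simp

lemma conj_mem_unip {g u : GL (Fin 2) F} (hg : g ∈ borel F) (hu : u ∈ unip F) :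
    g * u * g⁻¹ ∈ unip F := by
  have hgb : u ∈ borel F := hu.1
  have hgi : g⁻¹ ∈ borel F := (borel F).inv_mem hg
  have hgi' : ((g⁻¹ : GL (Fin 2) F) : Matrix (Fin 2) (Fin 2) F) 1 0 = 0 := hgi
  have hg' : (g : Matrix (Fin 2) (Fin 2) F) 1 0 = 0 := hg
  obtain ⟨hu1, hu2, hu3⟩ := hu
  have h00 := mul00 g g⁻¹ hgi'
  have h11 := mul11 g g⁻¹ hg'
  rw [mul_inv_cancel, one00] at h00
  rw [mul_inv_cancel, one11] at h11
  refine ⟨?_, ?_, ?_⟩
  · exact (borel F).mul_mem ((borel F).mul_mem hg hgb) hgi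
  · rw [mul00 _ _ hgi', mul00 _ _ hu1, hu2, mul_one]
    exact h00.symm
  · rw [mul11 _ _ ((borel F).mul_mem hg hgb), mul11 _ _ hg', hu3, mul_one]
    exact h11.symm

lemma normalizer_unip :
    Subgroup.normalizer ((unip F : Subgroup (GL (Fin 2) F)) : Set (GL (Fin 2) F)) = borel F := by
  apply le_antisymm
  · intro g hg
    rw [Subgroup.mem_normalizer_iff] at hg
    let u : GL (Fin 2) F := Matrix.GeneralLinearGroup.mkOfDetNeZero !![1, 1; 0, 1]
      (by simp [Matrix.det_fin_two_of])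
    have hu : u ∈ unip F := by
      simp [u, unip, Matrix.GeneralLinearGroup.mkOfDetNeZero]
    have hv := (hg u).mp hu
    obtain ⟨v, hvdef⟩ : ∃ v, v = g * u * g⁻¹ := ⟨_, rfl⟩
    rw [← hvdef] at hv
    obtain ⟨hv1, hv2, hv3⟩ := hv
    have heq : v * g = g * u := by rw [hvdef]; group
    have h1 : (v * g : GL (Fin 2) F).val 1 1 = (g * u : GL (Fin 2) F).val 1 1 := by rw [heq]
    rw [mul11 _ _ hv1, hv3, one_mul, Units.val_mul, Matrix.mul_apply, Fin.sum_univ_two] at h1
    have hu01 : (u : Matrix (Fin 2) (Fin 2) F) 0 1 = 1 := by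
      simp [u, Matrix.GeneralLinearGroup.mkOfDetNeZero]
    have hu11 : (u : Matrix (Fin 2) (Fin 2) F) 1 1 = 1 := by
      simp [u, Matrix.GeneralLinearGroup.mkOfDetNeZero]
    rw [hu01, hu11, mul_one, mul_one] at h1
    change (g : Matrix (Fin 2) (Fin 2) F) 1 0 = 0
    linear_combination -h1
  · intro g hg
    rw [Subgroup.mem_normalizer_iff]
    intro u
    constructor
    · exact conj_mem_unip hg
    · intro h
      have := conj_mem_unip ((borel F).inv_mem hg) h
      have h2 : g⁻¹ * (g * u * g⁻¹) * g⁻¹⁻¹ = u := by group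
      rwa [h2] at this


/-- GL_2(q), q a power of the prime p, has exactly q + 1 Sylow p-subgroups. -/
theorem result {F : Type*} [Field F] [Fintype F] {q : ℕ} (hF : Fintype.card F = q) (p : ℕ) [Fact p.Prime] [CharP F p] : Nat.card (Sylow p (Matrix.GeneralLinearGroup (Fin 2) F)) = q + 1 := by
  classical
  obtain ⟨n, hp', hqn⟩ := FiniteField.card F p
  rw [hF] at hqn
  have hq2 : 2 ≤ q := by rw [← hF]; exact Fintype.one_lt_card
  have hcard : Nat.card (Matrix.GeneralLinearGroup (Fin 2) F) = (q ^ 2 - 1) * (q ^ 2 - q) := by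
    rw [Matrix.card_GL_field, Fin.prod_univ_two, hF]
    simp
  have hqsq : q ^ 2 - q = q * (q - 1) := by
    rw [Nat.mul_sub, sq, mul_one]
  have hq21 : q ^ 2 - 1 = (q + 1) * (q - 1) := by
    have := Nat.sq_sub_sq q 1
    simpa using this
  have hU : IsPGroup p (unip F) := IsPGroup.of_card (n := n) (by rw [card_unip, hF, hqn])
  have hpq : p ∣ q := by rw [hqn]; exact dvd_pow_self p n.ne_zero
  have hindex : (unip F).index = (q ^ 2 - 1) * (q - 1) := by
    have h1 := (unip F).card_mul_index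
    rw [card_unip, hF, hcard, hqsq] at h1
    have hq0 : 0 < q := by omega
    apply Nat.eq_of_mul_eq_mul_left hq0
    rw [h1]
    ring
  have hnd : ¬ p ∣ (unip F).index := by
    rw [hindex]
    intro h
    have hp1 : ¬ p ∣ 1 := Nat.Prime.one_lt hp' |> fun h1 h2 => by
      have := Nat.le_of_dvd one_pos h2
      omega
    rcases (Nat.Prime.dvd_mul hp').mp h with h | h
    · apply hp1
      have h2 : p ∣ q ^ 2 := dvd_pow hpq two_ne_zero
      have h3 := Nat.dvd_sub h2 h
      have h4 : q ^ 2 - (q ^ 2 - 1) = 1 := by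
        have : 1 ≤ q ^ 2 := Nat.one_le_pow _ _ (by omega)
        omega
      rwa [h4] at h3
    · apply hp1
      have h3 := Nat.dvd_sub hpq h
      have h4 : q - (q - 1) = 1 := by omega
      rwa [h4] at h3
  let P₀ : Sylow p (Matrix.GeneralLinearGroup (Fin 2) F) := hU.toSylow hnd
  have hP₀ : (P₀ : Set (Matrix.GeneralLinearGroup (Fin 2) F)) = ((unip F : Subgroup _) : Set _) := rfl
  rw [Sylow.card_eq_index_normalizer P₀, hP₀, normalizer_unip]
  have h1 := (borel F).card_mul_index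
  rw [card_borel, hF, hcard, hqsq, hq21] at h1
  have h0 : 0 < q * (q - 1) ^ 2 := by
    have : 0 < q - 1 := by omega
    positivity
  apply Nat.eq_of_mul_eq_mul_left h0
  rw [h1]
  ring

end Cfsg.Agent.S0258
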