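import Cfsg.Statements.S0259
import Mathlib
import Cfsg.Agent.S0258
-- import your own Cfsg.Agent.* helpers here

set_option autoImplicit false
open Cfsg

namespace Cfsg.Agent.S0259

open Matrix
open scoped MatrixGroups Pointwise
open Cfsg.Agent.S0258

variable {F : Type*} [Field F]

/-- If `h` conjugates a non-identity element of `unip` into `unip`, then `h` is upper triangular. -/
lemma mem_borel_of_conj {h u' u : GL (Fin 2) F} (hu' : u' ∈ unip F) (hu : u ∈ unip F) (hne : u' ≠ 1)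
    (he : h * u' * h⁻¹ = u) : h ∈ borel F := by
  have heq : u * h = h * u' := by rw [← he]; group
  obtain ⟨hu1, hu2, hu3⟩ := hu
  obtain ⟨hv1, hv2, hv3⟩ := hu'
  have h1 : (u * h : GL (Fin 2) F).val 1 1 = (h * u' : GL (Fin 2) F).val 1 1 := by rw [heq]
  rw [mul11 _ _ hu1, hu3, one_mul, Units.val_mul, Matrix.mul_apply, Fin.sum_univ_two, hv3, mul_one]
    at h1
  have hc : (h : Matrix (Fin 2) (Fin 2) F) 1 0 * (u' : Matrix (Fin 2) (Fin 2) F) 0 1 = 0 := by
    linear_combination -h1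
  have hb : (u' : Matrix (Fin 2) (Fin 2) F) 0 1 ≠ 0 := by
    intro hb
    apply hne
    apply Units.ext
    ext i j
    fin_cases i <;> fin_cases j <;> simp [hv1, hv2, hv3, hb]
  exact (mul_eq_zero.1 hc).resolve_right hb

/-- `unip` is a Sylow subgroup. -/
lemma not_dvd_index_unip [Fintype F] (p : ℕ) [Fact p.Prime] [CharP F p] :
    ¬ p ∣ (unip F).index := by
  classical
  obtain ⟨n, hp', hqn⟩ := FiniteField.card F p
  set q := Fintype.card F with hq
  have hq2 : 2 ≤ q := Fintype.one_lt_card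
  have hcard : Nat.card (GL (Fin 2) F) = (q ^ 2 - 1) * (q ^ 2 - q) := by
    rw [Matrix.card_GL_field, Fin.prod_univ_two]
    simp [hq]
  have hqsq : q ^ 2 - q = q * (q - 1) := by
    rw [Nat.mul_sub, sq, mul_one]
  have hpq : p ∣ q := by rw [hqn]; exact dvd_pow_self p n.ne_zero
  have hindex : (unip F).index = (q ^ 2 - 1) * (q - 1) := by
    have h1 := (unip F).card_mul_index
    rw [card_unip, hcard, hqsq] at h1
    have hq0 : 0 < q := by omega
    apply Nat.eq_of_mul_eq_mul_left hq0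
    rw [h1]
    ring
  rw [hindex]
  intro h
  have hp1 : ¬ p ∣ 1 := Nat.Prime.one_lt hp' |> fun h1 h2 => by
    have := Nat.le_of_dvd one_pos h2
    omega
  rcases (Nat.Prime.dvd_mul hp').mp h with h | h
  · apply hp1
    have h2 : p ∣ q ^ 2 := dvd_pow hpq two_ne_zero
    have h3 := Nat.dvd_sub h2 h
    have h4 : q ^ 2 - (q ^ 2 - 1) = 1 := by
      have : 1 ≤ q ^ 2 := Nat.one_le_pow _ _ (by omega)
      omega
    rwa [h4] at h3
  · apply hp1
    have h3 := Nat.dvd_sub hpq h
    have h4 : q - (q - 1) = 1 := by omega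
    rwa [h4] at h3

lemma isPGroup_unip [Fintype F] (p : ℕ) [Fact p.Prime] [CharP F p] : IsPGroup p (unip F) := by
  obtain ⟨n, hp', hqn⟩ := FiniteField.card F p
  exact IsPGroup.of_card (n := n) (by rw [card_unip, hqn])

/-- Every Sylow `p`-subgroup of `GL₂` is a conjugate of `unip`. -/
lemma exists_conj_eq_unip [Fintype F] (p : ℕ) [Fact p.Prime] [CharP F p] (P : Sylow p (GL (Fin 2) F)) :
    ∃ g : GL (Fin 2) F, (P : Subgroup (GL (Fin 2) F)) = MulAut.conj g • unip F := by
  let P₀ : Sylow p (GL (Fin 2) F) := (isPGroup_unip p).toSylow (not_dvd_index_unip p)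
  obtain ⟨g, hg⟩ := MulAction.exists_smul_eq (GL (Fin 2) F) P₀ P
  refine ⟨g, ?_⟩
  rw [← hg, Sylow.coe_subgroup_smul]
  rfl

/-- Distinct Sylow p-subgroups of GL_2(q), p the characteristic, intersect trivially. -/
theorem result {F : Type*} [Field F] [Fintype F] (p : ℕ) [Fact p.Prime] [CharP F p] (P Q : Sylow p (Matrix.GeneralLinearGroup (Fin 2) F)) (h : P ≠ Q) : (P : Subgroup (Matrix.GeneralLinearGroup (Fin 2) F)) ⊓ (Q : Subgroup (Matrix.GeneralLinearGroup (Fin 2) F)) = ⊥ := by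
  classical
  rw [eq_bot_iff]
  intro x hx
  rw [Subgroup.mem_bot]
  by_contra hx1
  obtain ⟨g, hg⟩ := exists_conj_eq_unip p P
  obtain ⟨g', hg'⟩ := exists_conj_eq_unip p Q
  have hxP : x ∈ (P : Subgroup (Matrix.GeneralLinearGroup (Fin 2) F)) := hx.1
  have hxQ : x ∈ (Q : Subgroup (Matrix.GeneralLinearGroup (Fin 2) F)) := hx.2
  rw [hg] at hxP
  rw [hg'] at hxQ
  obtain ⟨u, hu, rfl⟩ := (Subgroup.mem_smul_pointwise_iff_exists _ _ _).1 hxP
  obtain ⟨u', hu', he⟩ := (Subgroup.mem_smul_pointwise_iff_exists _ _ _).1 hxQ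
  simp only [MulAut.smul_def, MulAut.conj_apply] at he hx1
  have hu'1 : u' ≠ 1 := by
    rintro rfl
    apply hx1
    rw [← he]
    group
  have he2 : (g⁻¹ * g') * u' * (g⁻¹ * g')⁻¹ = u := by
    calc (g⁻¹ * g') * u' * (g⁻¹ * g')⁻¹ = g⁻¹ * (g' * u' * g'⁻¹) * g := by group
      _ = u := by rw [he]; group
  have hb := mem_borel_of_conj hu' hu hu'1 he2
  have hnorm : MulAut.conj (g⁻¹ * g') • unip F = unip F := by
    have hb' : g⁻¹ * g' ∈ Subgroup.normalizer ((unip F : Subgroup _) : Set (Matrix.GeneralLinearGroup (Fin 2) F)) := by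
      rw [normalizer_unip]
      exact hb
    ext y
    rw [Subgroup.mem_pointwise_smul_iff_inv_smul_mem, MulAut.smul_def]
    simp only [map_inv, MulAut.conj_inv_apply]
    have := Subgroup.mem_normalizer_iff.1 ((Subgroup.normalizer _).inv_mem hb') y
    simp only [inv_inv] at this
    exact this.symm
  apply h
  apply Sylow.ext
  rw [hg, hg']
  have hc : MulAut.conj g' = MulAut.conj g * MulAut.conj (g⁻¹ * g') := by
    rw [← map_mul]
    congr 1
    group
  rw [hc, mul_smul, hnorm]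

end Cfsg.Agent.S0259
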