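import Cfsg.Statements.S5016
import Mathlib
-- import your own Cfsg.Agent.* helpers here

set_option autoImplicit false
open Cfsg

namespace Cfsg.Agent.S5016

open Matrix

variable {k : Type*} [Field k]

/-- Upper unitriangular element. -/
def up (s : k) : SpecialLinearGroup (Fin 2) k :=
  ⟨!![1, s; 0, 1], by simp [Matrix.det_fin_two]⟩

/-- Lower unitriangular element. -/
def lo (s : k) : SpecialLinearGroup (Fin 2) k :=
  ⟨!![1, 0; s, 1], by simp [Matrix.det_fin_two]⟩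

lemma sl_ext {g h : SpecialLinearGroup (Fin 2) k}
    (h00 : (g : Matrix (Fin 2) (Fin 2) k) 0 0 = (h : Matrix (Fin 2) (Fin 2) k) 0 0)
    (h01 : (g : Matrix (Fin 2) (Fin 2) k) 0 1 = (h : Matrix (Fin 2) (Fin 2) k) 0 1)
    (h10 : (g : Matrix (Fin 2) (Fin 2) k) 1 0 = (h : Matrix (Fin 2) (Fin 2) k) 1 0)
    (h11 : (g : Matrix (Fin 2) (Fin 2) k) 1 1 = (h : Matrix (Fin 2) (Fin 2) k) 1 1) : g = h := by
  apply Subtype.ext
  ext i j
  fin_cases i <;> fin_cases j <;> assumption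

@[simp] lemma up_coe (s : k) : (up s : Matrix (Fin 2) (Fin 2) k) = !![1, s; 0, 1] := rfl
@[simp] lemma lo_coe (s : k) : (lo s : Matrix (Fin 2) (Fin 2) k) = !![1, 0; s, 1] := rfl

lemma up_mul (s t : k) : up s * up t = up (s + t) := by
  apply sl_ext <;> simp [Matrix.mul_apply, Fin.sum_univ_two, add_comm]

lemma lo_mul (s t : k) : lo s * lo t = lo (s + t) := by
  apply sl_ext <;> simp [Matrix.mul_apply, Fin.sum_univ_two, add_comm]

lemma up_zero : up (0 : k) = 1 := by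
  apply sl_ext <;> simp

lemma lo_zero : lo (0 : k) = 1 := by
  apply sl_ext <;> simp

lemma up_inv (s : k) : (up s)⁻¹ = up (-s) := by
  rw [inv_eq_iff_mul_eq_one, up_mul]
  simp [up_zero]

lemma lo_inv (s : k) : (lo s)⁻¹ = lo (-s) := by
  rw [inv_eq_iff_mul_eq_one, lo_mul]
  simp [lo_zero]

lemma mem_upper_iff (g : SpecialLinearGroup (Fin 2) k) :
    g ∈ Cfsg.upperUnipotentSL2 k ↔ ∃ s, g = up s := by
  constructor
  · intro hg
    induction hg using Subgroup.closure_induction with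
    | mem x hx =>
      obtain ⟨h1, h2, h3⟩ := hx
      exact ⟨(x : Matrix (Fin 2) (Fin 2) k) 0 1, by apply sl_ext <;> simp [h1, h2, h3]⟩
    | one => exact ⟨0, up_zero.symm⟩
    | mul x y _ _ hx hy =>
      obtain ⟨s, rfl⟩ := hx
      obtain ⟨t, rfl⟩ := hy
      exact ⟨s + t, up_mul s t⟩
    | inv x _ hx =>
      obtain ⟨s, rfl⟩ := hx
      exact ⟨-s, up_inv s⟩
  · rintro ⟨s, rfl⟩
    exact Subgroup.subset_closure (show _ ∧ _ ∧ _ from ⟨by simp, by simp, by simp⟩)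

lemma mem_lower_iff (g : SpecialLinearGroup (Fin 2) k) :
    g ∈ Cfsg.lowerUnipotentSL2 k ↔ ∃ s, g = lo s := by
  constructor
  · intro hg
    induction hg using Subgroup.closure_induction with
    | mem x hx =>
      obtain ⟨h1, h2, h3⟩ := hx
      exact ⟨(x : Matrix (Fin 2) (Fin 2) k) 1 0, by apply sl_ext <;> simp [h1, h2, h3]⟩
    | one => exact ⟨0, lo_zero.symm⟩
    | mul x y _ _ hx hy =>
      obtain ⟨s, rfl⟩ := hx
      obtain ⟨t, rfl⟩ := hy
      exact ⟨s + t, lo_mul s t⟩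
    | inv x _ hx =>
      obtain ⟨s, rfl⟩ := hx
      exact ⟨-s, lo_inv s⟩
  · rintro ⟨s, rfl⟩
    exact Subgroup.subset_closure (show _ ∧ _ ∧ _ from ⟨by simp, by simp, by simp⟩)

lemma upper_comm : IsMulCommutative (Cfsg.upperUnipotentSL2 k) := by
  constructor
  constructor
  rintro ⟨a, ha⟩ ⟨b, hb⟩
  obtain ⟨s, rfl⟩ := (mem_upper_iff _).1 ha
  obtain ⟨t, rfl⟩ := (mem_upper_iff _).1 hb
  apply Subtype.ext
  show up s * up t = up t * up s
  rw [up_mul, up_mul, add_comm]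

lemma lower_comm : IsMulCommutative (Cfsg.lowerUnipotentSL2 k) := by
  constructor
  constructor
  rintro ⟨a, ha⟩ ⟨b, hb⟩
  obtain ⟨s, rfl⟩ := (mem_lower_iff _).1 ha
  obtain ⟨t, rfl⟩ := (mem_lower_iff _).1 hb
  apply Subtype.ext
  show lo s * lo t = lo t * lo s
  rw [lo_mul, lo_mul, add_comm]

/-- `b⁻¹ L(x) b = a⁻¹ U(-t²x) a` for `b = U(t)`, `a = L(s)`, `st = 1`. -/
lemma conj_formula {s t : k} (hst : s * t = 1) (x : k) :
    (up t)⁻¹ * lo x * (up t)⁻¹⁻¹ = (lo s)⁻¹ * up (-t ^ 2 * x) * (lo s)⁻¹⁻¹ := by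
  rw [inv_inv, inv_inv, up_inv, lo_inv]
  apply sl_ext <;> simp [Matrix.mul_apply, Fin.sum_univ_two]
  · linear_combination (-t * x) * hst
  · ring
  · linear_combination (-s * t * x - x) * hst
  · linear_combination (-t * x) * hst

lemma conj_formula' {s t : k} (hst : s * t = 1) (y : k) :
    (lo s)⁻¹ * up y * (lo s)⁻¹⁻¹ = (up t)⁻¹ * lo (-s ^ 2 * y) * (up t)⁻¹⁻¹ := by
  rw [conj_formula hst (-s ^ 2 * y)]
  congr 3
  have : t ^ 2 * s ^ 2 = 1 := by
    calc t ^ 2 * s ^ 2 = (s * t) ^ 2 := by ring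
      _ = 1 := by rw [hst]; ring
  linear_combination (-y) * this

lemma conjBy_eq {s t : k} (hst : s * t = 1) :
    Cfsg.conjBy (Cfsg.lowerUnipotentSL2 k) (up t)⁻¹ = Cfsg.conjBy (Cfsg.upperUnipotentSL2 k) (lo s)⁻¹ := by
  ext g
  simp only [Cfsg.conjBy, Subgroup.mem_map]
  constructor
  · rintro ⟨h, hh, rfl⟩
    obtain ⟨x, rfl⟩ := (mem_lower_iff _).1 hh
    refine ⟨up (-t ^ 2 * x), (mem_upper_iff _).2 ⟨_, rfl⟩, ?_⟩
    simp only [MulEquiv.coe_toMonoidHom, MulAut.conj_apply]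
    exact (conj_formula hst x).symm
  · rintro ⟨h, hh, rfl⟩
    obtain ⟨y, rfl⟩ := (mem_upper_iff _).1 hh
    refine ⟨lo (-s ^ 2 * y), (mem_lower_iff _).2 ⟨_, rfl⟩, ?_⟩
    simp only [MulEquiv.coe_toMonoidHom, MulAut.conj_apply]
    exact (conj_formula' hst y).symm

lemma up_ne_one {s : k} (h : up s ≠ 1) : s ≠ 0 := by
  rintro rfl
  exact h up_zero

lemma lo_ne_one {s : k} (h : lo s ≠ 1) : s ≠ 0 := by
  rintro rfl
  exact h lo_zero

lemma up_ne_one_of_ne {s : k} (h : s ≠ 0) : up s ≠ 1 := by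
  intro h1
  apply h
  have := congrFun (congrFun (congrArg (fun g : SpecialLinearGroup (Fin 2) k => (g : Matrix (Fin 2) (Fin 2) k)) h1) 0) 1
  simpa using this

lemma lo_ne_one_of_ne {s : k} (h : s ≠ 0) : lo s ≠ 1 := by
  intro h1
  apply h
  have := congrFun (congrFun (congrArg (fun g : SpecialLinearGroup (Fin 2) k => (g : Matrix (Fin 2) (Fin 2) k)) h1) 1) 0
  simpa using this

lemma pair : Cfsg.IsRankOnePair (Cfsg.lowerUnipotentSL2 k) (Cfsg.upperUnipotentSL2 k) := by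
  refine ⟨?_, ?_, ?_, ?_, ?_⟩
  · intro h
    have h1 : lo (1 : k) ∈ Cfsg.upperUnipotentSL2 k := by
      rw [← h]
      exact (mem_lower_iff _).2 ⟨_, rfl⟩
    obtain ⟨s, hs⟩ := (mem_upper_iff _).1 h1
    have := congrFun (congrFun (congrArg (fun g : SpecialLinearGroup (Fin 2) k => (g : Matrix (Fin 2) (Fin 2) k)) hs) 1) 0
    simp at this
  · have := lower_comm (k := k)
    let _ : CommGroup (Cfsg.lowerUnipotentSL2 k) := { (inferInstance : Group (Cfsg.lowerUnipotentSL2 k)) with mul_comm := this.is_comm.comm }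
    infer_instance
  · have := upper_comm (k := k)
    let _ : CommGroup (Cfsg.upperUnipotentSL2 k) := { (inferInstance : Group (Cfsg.upperUnipotentSL2 k)) with mul_comm := this.is_comm.comm }
    infer_instance
  · intro a ha ha1
    obtain ⟨s, rfl⟩ := (mem_lower_iff _).1 ha
    have hs := lo_ne_one ha1
    refine ⟨up s⁻¹, (mem_upper_iff _).2 ⟨_, rfl⟩, up_ne_one_of_ne (inv_ne_zero hs), ?_⟩
    exact conjBy_eq (mul_inv_cancel₀ hs)
  · intro b hb hb1
    obtain ⟨t, rfl⟩ := (mem_upper_iff _).1 hb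
    have ht := up_ne_one hb1
    refine ⟨lo t⁻¹, (mem_lower_iff _).2 ⟨_, rfl⟩, lo_ne_one_of_ne (inv_ne_zero ht), ?_⟩
    exact (conjBy_eq (inv_mul_cancel₀ ht)).symm

lemma sup_eq_top : Cfsg.lowerUnipotentSL2 k ⊔ Cfsg.upperUnipotentSL2 k = ⊤ := by
  rw [eq_top_iff]
  rintro g -
  have hup : ∀ s : k, up s ∈ Cfsg.lowerUnipotentSL2 k ⊔ Cfsg.upperUnipotentSL2 k := fun s =>
    Subgroup.mem_sup_right ((mem_upper_iff _).2 ⟨_, rfl⟩)
  have hlo : ∀ s : k, lo s ∈ Cfsg.lowerUnipotentSL2 k ⊔ Cfsg.upperUnipotentSL2 k := fun s =>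
    Subgroup.mem_sup_left ((mem_lower_iff _).2 ⟨_, rfl⟩)
  have key : ∀ h : SpecialLinearGroup (Fin 2) k, (h : Matrix (Fin 2) (Fin 2) k) 1 0 ≠ 0 →
      h ∈ Cfsg.lowerUnipotentSL2 k ⊔ Cfsg.upperUnipotentSL2 k := by
    intro h hc
    have hdet : (h : Matrix (Fin 2) (Fin 2) k) 0 0 * (h : Matrix (Fin 2) (Fin 2) k) 1 1 -
        (h : Matrix (Fin 2) (Fin 2) k) 0 1 * (h : Matrix (Fin 2) (Fin 2) k) 1 0 = 1 := by
      have := h.2
      rwa [Matrix.det_fin_two] at this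
    set a := (h : Matrix (Fin 2) (Fin 2) k) 0 0
    set b := (h : Matrix (Fin 2) (Fin 2) k) 0 1
    set c := (h : Matrix (Fin 2) (Fin 2) k) 1 0 with hcc
    set d := (h : Matrix (Fin 2) (Fin 2) k) 1 1
    have : h = up ((a - 1) / c) * lo c * up ((d - 1) / c) := by
      apply sl_ext
      · simp [Matrix.mul_apply, Fin.sum_univ_two]
        field_simp
        ring
      · simp [Matrix.mul_apply, Fin.sum_univ_two]
        field_simp
        linear_combination -hdet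
      · simp [Matrix.mul_apply, Fin.sum_univ_two, ← hcc]
      · simp [Matrix.mul_apply, Fin.sum_univ_two]
        field_simp
        ring
    rw [this]
    exact Subgroup.mul_mem _ (Subgroup.mul_mem _ (hup _) (hlo _)) (hup _)
  by_cases hc : (g : Matrix (Fin 2) (Fin 2) k) 1 0 = 0
  · have hdet : (g : Matrix (Fin 2) (Fin 2) k) 0 0 * (g : Matrix (Fin 2) (Fin 2) k) 1 1 -
        (g : Matrix (Fin 2) (Fin 2) k) 0 1 * (g : Matrix (Fin 2) (Fin 2) k) 1 0 = 1 := by
      have := g.2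
      rwa [Matrix.det_fin_two] at this
    have ha : (g : Matrix (Fin 2) (Fin 2) k) 0 0 ≠ 0 := by
      intro h0
      rw [h0, hc] at hdet
      simp at hdet
    have h1 : lo 1 * g ∈ Cfsg.lowerUnipotentSL2 k ⊔ Cfsg.upperUnipotentSL2 k := by
      apply key
      simp [Matrix.mul_apply, Fin.sum_univ_two, hc, ha]
    have h2 : g = (lo 1)⁻¹ * (lo 1 * g) := by group
    rw [h2]
    exact Subgroup.mul_mem _ (Subgroup.inv_mem _ (hlo 1)) h1
  · exact key g hc

lemma special : ∀ a ∈ Cfsg.lowerUnipotentSL2 k, a ≠ 1 → ∀ b ∈ Cfsg.upperUnipotentSL2 k, b ≠ 1 →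
    Cfsg.conjBy (Cfsg.lowerUnipotentSL2 k) b⁻¹ = Cfsg.conjBy (Cfsg.upperUnipotentSL2 k) a⁻¹ →
    b⁻¹ * a * b = a⁻¹ * b⁻¹ * a := by
  intro a ha ha1 b hb hb1 h
  obtain ⟨s, rfl⟩ := (mem_lower_iff _).1 ha
  obtain ⟨t, rfl⟩ := (mem_upper_iff _).1 hb
  have hs := lo_ne_one ha1
  have ht := up_ne_one hb1
  -- element `(up t)⁻¹ lo 1 (up t)` lies in the right-hand side
  have hmem : (up t)⁻¹ * lo 1 * (up t)⁻¹⁻¹ ∈ Cfsg.conjBy (Cfsg.upperUnipotentSL2 k) (lo s)⁻¹ := by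
    rw [← h]
    simp only [Cfsg.conjBy, Subgroup.mem_map]
    exact ⟨lo 1, (mem_lower_iff _).2 ⟨_, rfl⟩, rfl⟩
  simp only [Cfsg.conjBy, Subgroup.mem_map] at hmem
  obtain ⟨y', hy', hy⟩ := hmem
  obtain ⟨y, rfl⟩ := (mem_upper_iff _).1 hy'
  simp only [MulEquiv.coe_toMonoidHom, MulAut.conj_apply, inv_inv] at hy
  rw [lo_inv, up_inv] at hy
  have e00 := congrFun (congrFun (congrArg (fun g : SpecialLinearGroup (Fin 2) k => (g : Matrix (Fin 2) (Fin 2) k)) hy) 0) 0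
  have e01 := congrFun (congrFun (congrArg (fun g : SpecialLinearGroup (Fin 2) k => (g : Matrix (Fin 2) (Fin 2) k)) hy) 0) 1
  simp [Matrix.mul_apply, Fin.sum_univ_two] at e00 e01
  have hst : s * t = 1 := by
    have h1 : t * (s * t - 1) = 0 := by
      linear_combination (-1 : k) * e00 + s * e01
    exact sub_eq_zero.1 ((mul_eq_zero.1 h1).resolve_left ht)
  rw [up_inv, lo_inv]
  apply sl_ext <;> simp [Matrix.mul_apply, Fin.sum_univ_two]
  · left
    linear_combination -hst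
  · linear_combination (-s) * hst

/-- For any field k, the special linear group SL₂(k) is a special rank one group with abelian unipotent subgroups, the unipotent subgroups being the group of lower unitriangular matrices and the group of upper unitriangular matrices. -/
theorem result (k : Type*) [Field k] :
    Cfsg.IsRankOneGroup (Matrix.SpecialLinearGroup (Fin 2) k) (Cfsg.lowerUnipotentSL2 k) (Cfsg.upperUnipotentSL2 k) ∧
    Cfsg.IsSpecialRankOnePair (Cfsg.lowerUnipotentSL2 k) (Cfsg.upperUnipotentSL2 k) ∧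
    Cfsg.HasAbelianUnipotents (Cfsg.lowerUnipotentSL2 k) (Cfsg.upperUnipotentSL2 k) := by
  exact ⟨⟨sup_eq_top, pair⟩, ⟨pair, special⟩, lower_comm, upper_comm⟩

end Cfsg.Agent.S5016
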