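import Cfsg.Statements.S0260
import Mathlib
import Cfsg.Agent.Lib.PSL2.SylowU
import Cfsg.Agent.S5016
-- import your own Cfsg.Agent.* helpers here

set_option autoImplicit false
open Cfsg

namespace Cfsg.Agent.S0260

open Matrix
open scoped MatrixGroups Pointwise
open Cfsg.Agent.S5016 Cfsg.Agent.Lib.PSL2.SylowU

variable {F : Type*} [Field F]

lemma x_eq_up (t : F) : Cfsg.Agent.Lib.PSL2.Basic.x t = up t := by
  apply sl_ext <;> simp [Cfsg.Agent.Lib.PSL2.Basic.x]

lemma mem_U_iff (g : SL(2, F)) : g ∈ U F ↔ ∃ t, g = up t := by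
  rw [mem_U]
  constructor
  · rintro ⟨t, rfl⟩
    exact ⟨t, x_eq_up t⟩
  · rintro ⟨t, rfl⟩
    exact ⟨t, (x_eq_up t).symm⟩

/-- An upper triangular element normalises `U`. -/
lemma conj_up_of_upper (h : SL(2, F)) (hc : h.1 1 0 = 0) (t : F) : h * up t * h⁻¹ ∈ U F := by
  rw [mem_U_iff]
  have hdet : h.1 0 0 * h.1 1 1 = 1 := by
    have := h.2
    rw [Matrix.det_fin_two, hc] at this
    simpa using this
  refine ⟨h.1 0 0 * h.1 0 0 * t, ?_⟩
  rw [mul_inv_eq_iff_eq_mul]
  apply sl_ext <;> simp [Matrix.mul_apply, Fin.sum_univ_two, hc, mul_assoc]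
  linear_combination (-t * h.1 0 0) * hdet

/-- The main computation: a Sylow subgroup `h U h⁻¹` with `h` not upper triangular generates
together with `U` the whole of `SL₂`. -/
lemma sup_eq_top_of_lower (h : SL(2, F)) (hc : h.1 1 0 ≠ 0) {R : Subgroup SL(2, F)}
    (hR : ∀ t, h * up t * h⁻¹ ∈ R) : U F ⊔ R = ⊤ := by
  set c := h.1 1 0 with hcc
  set a := h.1 0 0 with haa
  set b := h.1 0 1 with hbb
  set d := h.1 1 1 with hdd
  have hdet : a * d - b * c = 1 := by
    have := h.2
    rwa [Matrix.det_fin_two] at this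
  have hup : ∀ t : F, up t ∈ U F ⊔ R := fun t => Subgroup.mem_sup_left ((mem_U_iff _).2 ⟨t, rfl⟩)
  set y := a / c with hy
  set g : SL(2, F) := up (-y) * h with hg
  have hg' : ∀ t, g * up t * g⁻¹ ∈ U F ⊔ R := by
    intro t
    have : g * up t * g⁻¹ = up (-y) * (h * up t * h⁻¹) * (up (-y))⁻¹ := by
      rw [hg]; group
    rw [this]
    exact Subgroup.mul_mem _ (Subgroup.mul_mem _ (hup _) (Subgroup.mem_sup_right (hR t)))
      (Subgroup.inv_mem _ (hup _))
  have hlo : ∀ s : F, lo s = g * up (-s / c ^ 2) * g⁻¹ := by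
    intro s
    rw [eq_mul_inv_iff_mul_eq]
    have g00 : g.1 0 0 = 0 := by
      rw [hg]
      simp [Matrix.mul_apply, Fin.sum_univ_two, ← haa, ← hcc, hy]
      field_simp
      ring
    have g01 : g.1 0 1 = - 1 / c := by
      rw [hg]
      simp [Matrix.mul_apply, Fin.sum_univ_two, ← hbb, ← hdd, hy]
      field_simp
      linear_combination -hdet
    have g10 : g.1 1 0 = c := by
      rw [hg]
      simp [Matrix.mul_apply, Fin.sum_univ_two, ← hcc]
    have g11 : g.1 1 1 = d := by
      rw [hg]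
      simp [Matrix.mul_apply, Fin.sum_univ_two, ← hdd]
    apply sl_ext <;> simp [Matrix.mul_apply, Fin.sum_univ_two, g00, g01, g10, g11]
    field_simp
  rw [eq_top_iff, ← Cfsg.Agent.S5016.sup_eq_top]
  apply sup_le
  · rw [Cfsg.lowerUnipotentSL2, Subgroup.closure_le]
    intro z hz
    have : z = lo (z.1 1 0) := by
      obtain ⟨h1, h2, h3⟩ := hz
      apply sl_ext <;> simp [h1, h2, h3]
    rw [this, hlo]
    exact hg' _
  · rw [Cfsg.upperUnipotentSL2, Subgroup.closure_le]
    intro z hz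
    have : z = up (z.1 0 1) := by
      obtain ⟨h1, h2, h3⟩ := hz
      apply sl_ext <;> simp [h1, h2, h3]
    rw [this]
    exact hup _

/-- Any two distinct Sylow p-subgroups of SL_2(q), p the characteristic, generate SL_2(q). -/
theorem result {F : Type*} [Field F] [Fintype F] (p : ℕ) [Fact p.Prime] [CharP F p] (P Q : Sylow p (Matrix.SpecialLinearGroup (Fin 2) F)) (h : P ≠ Q) : (P : Subgroup (Matrix.SpecialLinearGroup (Fin 2) F)) ⊔ (Q : Subgroup (Matrix.SpecialLinearGroup (Fin 2) F)) = ⊤ := by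
  classical
  have key : ∀ R : Sylow p (Matrix.SpecialLinearGroup (Fin 2) F), R ≠ sylowU F p →
      U F ⊔ (R : Subgroup (Matrix.SpecialLinearGroup (Fin 2) F)) = ⊤ := by
    intro R hR
    obtain ⟨h, rfl⟩ := MulAction.exists_smul_eq (Matrix.SpecialLinearGroup (Fin 2) F) (sylowU F p) R
    have hmem : ∀ t, h * up t * h⁻¹ ∈ ((h • sylowU F p : Sylow p _) : Subgroup (Matrix.SpecialLinearGroup (Fin 2) F)) := by
      intro t
      rw [Sylow.coe_subgroup_smul]
      exact Subgroup.smul_mem_pointwise_smul (up t) (MulAut.conj h) _ ((mem_U_iff _).2 ⟨t, rfl⟩)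
    by_cases hc : h.1 1 0 = 0
    · exfalso
      apply hR
      apply Sylow.ext
      rw [Sylow.coe_subgroup_smul, coe_sylowU]
      apply le_antisymm
      · rintro _ ⟨z, hz, rfl⟩
        obtain ⟨t, rfl⟩ := (mem_U_iff _).1 hz
        exact conj_up_of_upper h hc t
      · intro z hz
        obtain ⟨t, rfl⟩ := (mem_U_iff _).1 hz
        have hc' : (h⁻¹).1 1 0 = 0 := by
          rw [Matrix.SpecialLinearGroup.coe_inv, Matrix.adjugate_fin_two]
          simp [hc]
        have := conj_up_of_upper h⁻¹ hc' t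
        rw [Subgroup.mem_pointwise_smul_iff_inv_smul_mem]
        simpa [MulAut.smul_def] using this
    · exact sup_eq_top_of_lower h hc hmem
  obtain ⟨c, hc⟩ := MulAction.exists_smul_eq (Matrix.SpecialLinearGroup (Fin 2) F) P (sylowU F p)
  have hne : c • Q ≠ sylowU F p := fun h' => h (smul_left_cancel c (hc.trans h'.symm))
  have h1 := key (c • Q) hne
  rw [eq_top_iff]
  intro g _
  have h2 : MulAut.conj c • g ∈ MulAut.conj c • ((P : Subgroup (Matrix.SpecialLinearGroup (Fin 2) F)) ⊔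
      (Q : Subgroup (Matrix.SpecialLinearGroup (Fin 2) F))) := by
    rw [Subgroup.smul_sup, ← Sylow.coe_subgroup_smul, ← Sylow.coe_subgroup_smul, hc, coe_sylowU, h1]
    trivial
  exact (Subgroup.smul_mem_pointwise_smul_iff).1 h2

end Cfsg.Agent.S0260
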