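import Cfsg.Statements.S0262
import Mathlib
import Cfsg.Agent.Lib.PSL2.Nonsplit
-- import your own Cfsg.Agent.* helpers here

set_option autoImplicit false
open Cfsg

namespace Cfsg.Agent.S0262

/-- A Sylow subgroup is cyclic as soon as an element has the order of a Sylow subgroup. -/
lemma isCyclic_sylow_of_orderOf {G : Type*} [Group G] [Finite G] {r : ℕ} [Fact r.Prime]
    (R : Sylow r G) (g : G) (hg : orderOf g = Nat.card R) : IsCyclic R := by
  let S : Sylow r G := Sylow.ofCard (Subgroup.zpowers g) (by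
    rw [Nat.card_zpowers, hg, R.card_eq_multiplicity])
  have hS : IsCyclic S := inferInstanceAs (IsCyclic (Subgroup.zpowers g))
  exact isCyclic_of_surjective (Sylow.equiv S R) (Sylow.equiv S R).surjective

/-- A cyclic subgroup whose order is divisible by `n` contains an element of order `n`. -/
lemma exists_orderOf_of_dvd {G : Type*} [Group G] [Finite G] (T : Subgroup G) [IsCyclic T] {n : ℕ}
    (hn : n ∣ Nat.card T) : ∃ g : G, orderOf g = n := by
  obtain ⟨t, ht⟩ := IsCyclic.exists_ofOrder_eq_natCard (α := T)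
  have h0 : orderOf t ≠ 0 := by
    rw [ht]; exact Nat.card_pos.ne'
  refine ⟨((t ^ (orderOf t / n) : T) : G), ?_⟩
  rw [Subgroup.orderOf_coe]
  exact orderOf_pow_orderOf_div h0 (by rwa [ht])

/-- For an odd prime r different from the characteristic, the Sylow r-subgroups of SL_2(q) are cyclic. -/
theorem result {F : Type*} [Field F] [Fintype F] (p : ℕ) [Fact p.Prime] [CharP F p] (r : ℕ) [Fact r.Prime] (hr : r ≠ 2) (hrp : r ≠ p) (R : Sylow r (Matrix.SpecialLinearGroup (Fin 2) F)) : IsCyclic (R : Subgroup (Matrix.SpecialLinearGroup (Fin 2) F)) := by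
  classical
  have hr' : r.Prime := Fact.out
  have hp' : p.Prime := Fact.out
  set q := Fintype.card F with hq
  obtain ⟨n, hn, hqn⟩ := FiniteField.card F p
  have hq1 : 1 ≤ q := Fintype.card_pos
  have hrq : Nat.Coprime r q := by
    rw [hq, hqn]
    exact Nat.Coprime.pow_right _ ((Nat.coprime_primes hr' hp').2 hrp)
  obtain ⟨a, ha⟩ : ∃ a, Nat.card R = r ^ a := ⟨_, R.card_eq_multiplicity⟩
  have hdvd : Nat.card R ∣ q * ((q - 1) * (q + 1)) := by
    have h1 := Subgroup.card_subgroup_dvd_card (R : Subgroup (Matrix.SpecialLinearGroup (Fin 2) F))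
    rw [Cfsg.Agent.Lib.PSL2.Basic.card_SL2] at h1
    have h2 : q ^ 2 - 1 = (q - 1) * (q + 1) := by
      obtain ⟨m, hm⟩ : ∃ m, q = m + 1 := ⟨q - 1, by omega⟩
      rw [hm]
      simp only [Nat.add_sub_cancel]
      have : (m + 1) ^ 2 = m * (m + 1 + 1) + 1 := by ring
      omega
    rw [← h2]
    exact h1
  have hcop : ∀ m : ℕ, Nat.Coprime r m → Nat.Coprime (Nat.card R) m := by
    intro m hm
    rw [ha]
    exact Nat.Coprime.pow_left _ hm
  have hdvd2 : Nat.card R ∣ (q - 1) * (q + 1) := (hcop q hrq).dvd_of_dvd_mul_left hdvd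
  by_cases hr1 : r ∣ q + 1
  · have hr2 : ¬ r ∣ q - 1 := by
      intro hr2
      have h3 : r ∣ 2 := by
        have h4 : (q + 1) - (q - 1) = 2 := by omega
        rw [← h4]
        exact Nat.dvd_sub hr1 hr2
      have := (Nat.prime_dvd_prime_iff_eq hr' Nat.prime_two).1 h3
      exact hr this
    have h5 : Nat.card R ∣ q + 1 :=
      (hcop (q - 1) ((Nat.Prime.coprime_iff_not_dvd hr').2 hr2)).dvd_of_dvd_mul_left hdvd2
    obtain ⟨T, -, hcyc, hcard, -, -⟩ := Cfsg.Agent.Lib.PSL2.Nonsplit.exists_nonsplit F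
    obtain ⟨g, hg⟩ := exists_orderOf_of_dvd T (n := Nat.card R) (by rw [hcard]; exact h5)
    exact isCyclic_sylow_of_orderOf R g hg
  · have h5 : Nat.card R ∣ q - 1 :=
      (hcop (q + 1) ((Nat.Prime.coprime_iff_not_dvd hr').2 hr1)).dvd_of_dvd_mul_right hdvd2
    obtain ⟨g, hg⟩ := exists_orderOf_of_dvd (Cfsg.Agent.Lib.PSL2.TorusCore.splitT F) (n := Nat.card R)
      (by rw [Cfsg.Agent.Lib.PSL2.TorusCore.card_splitT]; exact h5)
    exact isCyclic_sylow_of_orderOf R g hg

end Cfsg.Agent.S0262
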