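import Cfsg.Statements.S0263
import Mathlib
-- import your own Cfsg.Agent.* helpers here

set_option autoImplicit false
open Cfsg

namespace Cfsg.Agent.S0263

/-- A Sylow p-subgroup of GL_n(q), p the characteristic, has order q^(n(n-1)/2). -/
theorem result {F : Type*} [Field F] [Fintype F] {q : ℕ} (hF : Fintype.card F = q) (p : ℕ) [Fact p.Prime] [CharP F p] (n : ℕ) (P : Sylow p (Matrix.GeneralLinearGroup (Fin n) F)) : Nat.card P = q ^ (n * (n - 1) / 2) := by
  classical
  subst hF
  set q := Fintype.card F with hq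
  obtain ⟨k, hk0, hk⟩ : ∃ k : ℕ, k ≠ 0 ∧ q = p ^ k := by
    obtain ⟨k, hp, hk⟩ := FiniteField.card F p
    exact ⟨k, k.ne_zero, hk⟩
  have hppos : 0 < p := (Fact.out : p.Prime).pos
  have hpp : p.Prime := Fact.out
  have hq1 : 1 ≤ q := Fintype.card_pos
  have hpq : p ∣ q := by
    rw [hk]
    exact dvd_pow_self p hk0
  rw [P.card_eq_multiplicity, Matrix.card_GL_field, ← hq]
  have hterm : ∀ i : Fin n, q ^ n - q ^ (i : ℕ) = q ^ (i : ℕ) * (q ^ (n - i) - 1) := by
    intro i
    have hi := i.2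
    rw [Nat.mul_sub, mul_one, ← pow_add]
    congr 2
    omega
  have hprod : ∏ i : Fin n, (q ^ n - q ^ (i : ℕ)) =
      q ^ (n * (n - 1) / 2) * ∏ i : Fin n, (q ^ (n - i) - 1) := by
    rw [Finset.prod_congr rfl (fun i _ => hterm i), Finset.prod_mul_distrib, Finset.prod_pow_eq_pow_sum,
      Fin.sum_univ_eq_sum_range (fun i => i) n, Finset.sum_range_id]
  rw [hprod]
  have hB0 : ∏ i : Fin n, (q ^ (n - i) - 1) ≠ 0 ∧ ¬ p ∣ ∏ i : Fin n, (q ^ (n - i) - 1) := by
    constructor
    · apply Finset.prod_ne_zero_iff.mpr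
      intro i _
      have hi := i.2
      have h1 : q ^ (n - i) ≠ 1 := by
        intro h
        have h2 : p ∣ q ^ (n - i) := dvd_pow hpq (by omega)
        rw [h] at h2
        exact hpp.one_lt.ne' (Nat.dvd_one.mp h2)
      have h3 := Nat.one_le_pow (n - i) q hq1
      omega
    · rw [Prime.dvd_finset_prod_iff hpp.prime]
      rintro ⟨i, _, hi⟩
      have hi' := i.2
      have h2 : p ∣ q ^ (n - i) := dvd_pow hpq (by omega)
      have h3 := Nat.one_le_pow (n - i) q hq1
      have h4 : p ∣ 1 := by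
        have := (Nat.dvd_sub h2 hi)
        rwa [show q ^ (n - i) - (q ^ (n - i) - 1) = 1 by omega] at this
      exact hpp.one_lt.ne' (Nat.dvd_one.mp h4)
  have hqs0 : q ^ (n * (n - 1) / 2) ≠ 0 := by positivity
  rw [Nat.factorization_mul hqs0 hB0.1, Finsupp.add_apply, Nat.factorization_eq_zero_of_not_dvd hB0.2,
    add_zero, hk, ← pow_mul, hpp.factorization_pow, Finsupp.single_eq_same]

end Cfsg.Agent.S0263
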