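import Cfsg.Statements.S0264
import Mathlib
import Cfsg.Agent.Lib.Classical.Lin.Transvections
-- import your own Cfsg.Agent.* helpers here

set_option autoImplicit false
open Cfsg

namespace Cfsg.Agent.S0264

/-- Dilation `diag(b at i, 1 elsewhere)` as an element of `GL`. -/
noncomputable def dilation {ι F : Type*} [Fintype ι] [DecidableEq ι] [Field F] (i : ι) (b : F) (hb : b ≠ 0) :
    Matrix.GeneralLinearGroup ι F where
  val := 1 + Matrix.single i i (b - 1)
  inv := 1 + Matrix.single i i (b⁻¹ - 1)
  val_inv := by
    simp only [mul_add, add_mul, one_mul, mul_one, Matrix.single_mul_single_same, add_assoc, ← Matrix.single_add]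
    have : (b - 1 + (b⁻¹ - 1 + (b - 1) * (b⁻¹ - 1))) = 0 := by field_simp; ring
    simp [this]
  inv_val := by
    simp only [mul_add, add_mul, one_mul, mul_one, Matrix.single_mul_single_same, add_assoc, ← Matrix.single_add]
    have : (b⁻¹ - 1 + (b - 1 + (b⁻¹ - 1) * (b - 1))) = 0 := by field_simp; ring
    simp [this]

open scoped commutatorElement in
theorem gl_transvection_eq_commutator {ι F : Type*} [Fintype ι] [DecidableEq ι] [Field F]
    {i j : ι} (hij : i ≠ j) {b : F} (hb0 : b ≠ 0) (hb1 : b ≠ 1) (a : F) :
    Matrix.SpecialLinearGroup.toGL (Matrix.SpecialLinearGroup.transvection hij a) =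
      ⁅dilation i b hb0, Matrix.SpecialLinearGroup.toGL
        (Matrix.SpecialLinearGroup.transvection hij (a / (b - 1)))⁆ := by
  rw [commutatorElement_def, ← map_inv, Matrix.SpecialLinearGroup.transvection_inv]
  apply Units.ext
  have hb1' : b - 1 ≠ 0 := sub_ne_zero_of_ne hb1
  have h1 : ∀ (x y : F), (Matrix.single i i x : Matrix ι ι F) * Matrix.single i j y = Matrix.single i j (x * y) :=
    fun x y => by simp
  have h2 : ∀ (x y : F), (Matrix.single i j x : Matrix ι ι F) * Matrix.single i i y = 0 := fun x y => by
    rw [Matrix.single_mul_single_of_ne _ _ _ _ hij.symm]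
  have h3 : ∀ (x y : F), (Matrix.single i j x : Matrix ι ι F) * Matrix.single i j y = 0 := fun x y => by
    rw [Matrix.single_mul_single_of_ne _ _ _ _ hij.symm]
  have h4 : ∀ (x y : F), (Matrix.single i i x : Matrix ι ι F) * Matrix.single i i y = Matrix.single i i (x * y) :=
    fun x y => by simp
  have h5 : ((dilation i b hb0)⁻¹ : Matrix.GeneralLinearGroup ι F).val = 1 + Matrix.single i i (b⁻¹ - 1) := rfl
  have h6 : (dilation i b hb0).val = 1 + Matrix.single i i (b - 1) := rfl
  simp only [Units.val_mul, h5, h6, Matrix.SpecialLinearGroup.coe_GL_coe_matrix,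
    Matrix.SpecialLinearGroup.transvection_coe, Matrix.transvection]
  simp only [mul_add, add_mul, one_mul, mul_one, h1, h2, h3, h4, zero_mul, mul_zero, add_zero, zero_add]
  have e : b * b⁻¹ = 1 := mul_inv_cancel₀ hb0
  ext k l
  simp only [Matrix.add_apply, Matrix.single_apply, Matrix.neg_apply]
  by_cases hki : i = k
  · subst hki
    by_cases hlj : j = l
    · subst hlj
      simp [hij, hij.symm]
      field_simp
      ring
    · by_cases hli : i = l
      · subst hli
        simp [hij, hij.symm]
        try field_simp
        try ring
      · simp [hlj, hli]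
  · simp [hki]

/-- GL_n(F)' = SL_n(F) (as the kernel of det), for every field F and every n, except n = 2 over the field of two elements. -/
theorem result {F : Type*} [Field F] (n : ℕ) (h : n = 2 → ∃ a : F, a ≠ 0 ∧ a ≠ 1) : commutator (Matrix.GeneralLinearGroup (Fin n) F) = (Matrix.GeneralLinearGroup.det : Matrix.GeneralLinearGroup (Fin n) F →* Fˣ).ker := by
  classical
  apply le_antisymm
  · -- the quotient by the kernel of `det` is commutative
    rw [commutator_def, Subgroup.commutator_le]
    intro g _ h _
    simp only [MonoidHom.mem_ker, map_commutatorElement, commutatorElement_eq_one_iff_commute]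
    exact Commute.all _ _
  · intro g hg
    have hgdet : (g : Matrix (Fin n) (Fin n) F).det = 1 := by
      have := congrArg Units.val (MonoidHom.mem_ker.1 hg)
      simpa using this
    let M : Matrix.SpecialLinearGroup (Fin n) F := ⟨(g : Matrix (Fin n) (Fin n) F), hgdet⟩
    have hgM : g = Matrix.SpecialLinearGroup.toGL M := by
      ext i j
      rfl
    rw [hgM]
    rcases Nat.lt_or_ge n 2 with hn | hn
    · -- `n ≤ 1`: `SL` is trivial
      have hM : M = 1 := by
        have : Subsingleton (Fin n) := Fin.subsingleton_iff_le_one.2 (by omega)
        apply Matrix.SpecialLinearGroup.ext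
        intro i j
        have hij : i = j := Subsingleton.elim i j
        subst hij
        have hdet : M.1 i i = 1 := by
          have h1 := M.2
          rcases n with _ | _ | n
          · exact (Fin.elim0 i)
          · have hi : i = 0 := Subsingleton.elim _ _
            subst hi
            simpa [Matrix.det_fin_one] using h1
          · omega
        simpa using hdet
      rw [hM, map_one]
      exact one_mem _
    · have : Nontrivial (Fin n) := Fin.nontrivial_iff_two_le.2 hn
      refine Cfsg.Agent.Lib.Classical.Lin.Transvections.transvection_induction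
        (F := F) (fun M => Matrix.SpecialLinearGroup.toGL M ∈
          commutator (Matrix.GeneralLinearGroup (Fin n) F)) ?_ ?_ M
      · intro i j hij a
        rcases Nat.lt_or_ge n 3 with hn3 | hn3
        · -- `n = 2`
          obtain ⟨b, hb0, hb1⟩ := h (by omega)
          rw [gl_transvection_eq_commutator hij hb0 hb1 a]
          exact Subgroup.commutator_mem_commutator (Subgroup.mem_top _) (Subgroup.mem_top _)
        · obtain ⟨k, hik, hkj⟩ := Cfsg.Agent.Lib.Classical.Lin.Transvections.exists_third_index
            (by simpa using hn3) i j
          rw [Cfsg.Agent.Lib.Classical.Lin.Transvections.transvection_eq_commutator hij hik hkj,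
            map_commutatorElement]
          exact Subgroup.commutator_mem_commutator (Subgroup.mem_top _) (Subgroup.mem_top _)
      · intro A B hA hB
        rw [map_mul]
        exact mul_mem hA hB

end Cfsg.Agent.S0264
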