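import Cfsg.Statements.S0266
import Mathlib

set_option autoImplicit false
open scoped MatrixGroups
open Cfsg

namespace Cfsg.Agent.S0266

section helpers

variable {F : Type*} [Field F]

/-- a field-independent decomposition: a third vector in the span of two independent ones. -/
lemma exists_coeffs (a b c : Projectivization F (Fin 2 → F)) (hab : a ≠ b) (hac : a ≠ c) (hbc : b ≠ c) :
    ∃ s t : F, s ≠ 0 ∧ t ≠ 0 ∧ s • a.rep + t • b.rep = c.rep := by
  have hli := (Projectivization.linearIndependent_pair_iff_ne).2 hab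
  have htop : Submodule.span F (Set.range ![a.rep, b.rep]) = ⊤ :=
    hli.span_eq_top_of_card_eq_finrank' (by simp)
  have hc : c.rep ∈ Submodule.span F ({a.rep, b.rep} : Set (Fin 2 → F)) := by
    have : Set.range ![a.rep, b.rep] = ({a.rep, b.rep} : Set (Fin 2 → F)) := by
      ext x
      simp [or_comm]
    rw [← this, htop]; trivial
  obtain ⟨s, t, hst⟩ := Submodule.mem_span_pair.1 hc
  refine ⟨s, t, ?_, ?_, hst⟩
  · rintro rfl
    apply hbc
    have htne : t ≠ 0 := by
      rintro rfl
      exact c.rep_nonzero (by simpa using hst.symm)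
    have : c = b := by
      rw [← c.mk_rep, ← b.mk_rep, Projectivization.mk_eq_mk_iff' F _ _ c.rep_nonzero b.rep_nonzero]
      exact ⟨t, by simpa using hst⟩
    exact this.symm
  · rintro rfl
    apply hac
    have hsne : s ≠ 0 := by
      rintro rfl
      exact c.rep_nonzero (by simpa using hst.symm)
    have : c = a := by
      rw [← c.mk_rep, ← a.mk_rep, Projectivization.mk_eq_mk_iff' F _ _ c.rep_nonzero a.rep_nonzero]
      exact ⟨s, by simpa using hst⟩
    exact this.symm

lemma exists_move (a b c : Projectivization F (Fin 2 → F)) (hab : a ≠ b) (hac : a ≠ c) (hbc : b ≠ c) :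
    ∃ g : Matrix.ProjGenLinGroup (Fin 2) F,
      g • Projectivization.mk F (![1, 0] : Fin 2 → F) (by simp) = a ∧
      g • Projectivization.mk F (![0, 1] : Fin 2 → F) (by simp) = b ∧
      g • Projectivization.mk F (![1, 1] : Fin 2 → F) (by simp) = c := by
  obtain ⟨s, t, hs, ht, hst⟩ := exists_coeffs a b c hab hac hbc
  have hli := (Projectivization.linearIndependent_pair_iff_ne).2 hab
  let M : Matrix (Fin 2) (Fin 2) F := Matrix.of ![s • a.rep, t • b.rep] |>.transpose
  have hMcol : M.col = ![s • a.rep, t • b.rep] := by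
    funext i j
    fin_cases i <;> simp [M, Matrix.col]
  have hu : IsUnit M := by
    rw [← Matrix.linearIndependent_cols_iff_isUnit (K := F), hMcol]
    rw [LinearIndependent.pair_iff] at hli ⊢
    intro x y hxy
    have := hli (x * s) (y * t) (by simpa [mul_smul] using hxy)
    exact ⟨by simpa [hs] using this.1, by simpa [ht] using this.2⟩
  let h : GL (Fin 2) F := hu.unit
  have hcoe : (h : Matrix (Fin 2) (Fin 2) F) = M := rfl
  have h0 : h • (![1, 0] : Fin 2 → F) = s • a.rep := by
    change (h : Matrix (Fin 2) (Fin 2) F).mulVec _ = _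
    rw [hcoe]
    funext i
    simp [M, Matrix.mulVec, dotProduct, Fin.sum_univ_two]
  have h1 : h • (![0, 1] : Fin 2 → F) = t • b.rep := by
    change (h : Matrix (Fin 2) (Fin 2) F).mulVec _ = _
    rw [hcoe]
    funext i
    simp [M, Matrix.mulVec, dotProduct, Fin.sum_univ_two]
  have h2 : h • (![1, 1] : Fin 2 → F) = c.rep := by
    change (h : Matrix (Fin 2) (Fin 2) F).mulVec _ = _
    rw [hcoe, ← hst]
    funext i
    simp [M, Matrix.mulVec, dotProduct, Fin.sum_univ_two]
  refine ⟨Matrix.ProjGenLinGroup.mk h, ?_, ?_, ?_⟩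
  · rw [Projectivization.PGL.mk_smul_mk, ← a.mk_rep, Projectivization.mk_eq_mk_iff' F _ _ _ a.rep_nonzero]
    exact ⟨s, h0.symm⟩
  · rw [Projectivization.PGL.mk_smul_mk, ← b.mk_rep, Projectivization.mk_eq_mk_iff' F _ _ _ b.rep_nonzero]
    exact ⟨t, h1.symm⟩
  · rw [Projectivization.PGL.mk_smul_mk, ← c.mk_rep, Projectivization.mk_eq_mk_iff' F _ _ _ c.rep_nonzero]
    exact ⟨1, by rw [h2, one_smul]⟩

lemma stab_trivial (g : Matrix.ProjGenLinGroup (Fin 2) F) (a b c : Projectivization F (Fin 2 → F))
    (hab : a ≠ b) (hac : a ≠ c) (hbc : b ≠ c) (ha : g • a = a) (hb : g • b = b) (hc : g • c = c) :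
    g = 1 := by
  obtain ⟨s, t, hs, ht, hst⟩ := exists_coeffs a b c hab hac hbc
  obtain ⟨h, rfl⟩ := Matrix.ProjGenLinGroup.mk_surjective g
  have key : ∀ p : Projectivization F (Fin 2 → F), Matrix.ProjGenLinGroup.mk h • p = p →
      ∃ α : F, h • p.rep = α • p.rep := by
    intro p hp
    have : Matrix.ProjGenLinGroup.mk h • Projectivization.mk F p.rep p.rep_nonzero
        = Projectivization.mk F p.rep p.rep_nonzero := by rw [p.mk_rep]; exact hp
    rw [Projectivization.PGL.mk_smul_mk, Projectivization.mk_eq_mk_iff' F _ _ _ p.rep_nonzero] at this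
    obtain ⟨α, hα⟩ := this
    exact ⟨α, hα.symm⟩
  obtain ⟨α, hα⟩ := key a ha
  obtain ⟨β, hβ⟩ := key b hb
  obtain ⟨γ, hγ⟩ := key c hc
  have hli := (Projectivization.linearIndependent_pair_iff_ne).2 hab
  -- linearity
  have hlin : h • c.rep = (s * α) • a.rep + (t * β) • b.rep := by
    rw [← hst, smul_add, smul_comm h s, smul_comm h t, hα, hβ, smul_smul, smul_smul]
  have hrel : (s * α - γ * s) • a.rep + (t * β - γ * t) • b.rep = 0 := by
    rw [sub_smul, sub_smul]
    have : (γ * s) • a.rep + (γ * t) • b.rep = γ • c.rep := by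
      rw [← hst, smul_add, smul_smul, smul_smul]
    rw [hγ, ← this] at hlin
    have h3 := sub_eq_zero.2 hlin.symm
    rw [← h3]
    abel
  rw [LinearIndependent.pair_iff] at hli
  obtain ⟨h1, h2⟩ := hli _ _ hrel
  have hαγ : α = γ := by
    have : s * (α - γ) = 0 := by linear_combination h1
    simpa [hs, sub_eq_zero] using this
  have hβγ : β = γ := by
    have : t * (β - γ) = 0 := by linear_combination h2
    simpa [ht, sub_eq_zero] using this
  rw [hαγ] at hα
  rw [hβγ] at hβ
  -- h is scalar
  rw [Matrix.ProjGenLinGroup.mk_eq_one, Matrix.GeneralLinearGroup.center_eq_range_scalar]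
  have hα0 : γ ≠ 0 := by
    rintro rfl
    have : h • a.rep = 0 := by rw [hα, zero_smul]
    exact a.rep_nonzero ((smul_eq_zero_iff_eq h).1 this)
  refine ⟨Units.mk0 γ hα0, ?_⟩
  have htop : Submodule.span F (Set.range ![a.rep, b.rep]) = ⊤ :=
    (Projectivization.linearIndependent_pair_iff_ne.2 hab).span_eq_top_of_card_eq_finrank' (by simp)
  have hall : ∀ v : Fin 2 → F, h • v = γ • v := by
    intro v
    have hv : v ∈ Submodule.span F (Set.range ![a.rep, b.rep]) := by rw [htop]; trivial
    induction hv using Submodule.span_induction with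
    | mem x hx =>
      obtain ⟨i, rfl⟩ := hx
      fin_cases i
      · exact hα
      · exact hβ
    | zero => simp
    | add x y _ _ hx hy => rw [smul_add, smul_add, hx, hy]
    | smul r x _ hx => rw [smul_comm, hx, smul_comm]
  apply Units.ext
  apply Matrix.ext_iff_mulVec.2
  intro v
  have hv : (h : Matrix (Fin 2) (Fin 2) F).mulVec v = γ • v := hall v
  rw [hv]
  funext i
  simp only [Matrix.mulVec, dotProduct, Fin.sum_univ_two, Matrix.GeneralLinearGroup.scalar]
  fin_cases i <;> simp

/-- the base triple -/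
def x0 : Fin 3 ↪ Projectivization F (Fin 2 → F) where
  toFun := ![Projectivization.mk F (![1, 0] : Fin 2 → F) (by simp),
    Projectivization.mk F (![0, 1] : Fin 2 → F) (by simp),
    Projectivization.mk F (![1, 1] : Fin 2 → F) (by simp)]
  inj' := by
    have h01 : Projectivization.mk F (![1, 0] : Fin 2 → F) (by simp) ≠ Projectivization.mk F (![0, 1] : Fin 2 → F) (by simp) := by
      rw [Ne, Projectivization.mk_eq_mk_iff' F _ _ (by simp) (by simp)]
      rintro ⟨a, ha⟩
      have := congrFun ha 0
      simp at this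
    have h02 : Projectivization.mk F (![1, 0] : Fin 2 → F) (by simp) ≠ Projectivization.mk F (![1, 1] : Fin 2 → F) (by simp) := by
      rw [Ne, Projectivization.mk_eq_mk_iff' F _ _ (by simp) (by simp)]
      rintro ⟨a, ha⟩
      have h0 := congrFun ha 0
      have h1 := congrFun ha 1
      simp at h0 h1
      simp [h0] at h1
    have h12 : Projectivization.mk F (![0, 1] : Fin 2 → F) (by simp) ≠ Projectivization.mk F (![1, 1] : Fin 2 → F) (by simp) := by
      rw [Ne, Projectivization.mk_eq_mk_iff' F _ _ (by simp) (by simp)]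
      rintro ⟨a, ha⟩
      have h0 := congrFun ha 0
      have h1 := congrFun ha 1
      simp at h0 h1
      simp [h0] at h1
    intro i j hij
    fin_cases i <;> fin_cases j <;> first
      | rfl
      | exact absurd hij h01 | exact absurd hij h02 | exact absurd hij h12
      | exact absurd hij.symm h01 | exact absurd hij.symm h02 | exact absurd hij.symm h12

end helpers

/-- PGL_2(F) is sharply 3-transitive on the projective line: it is 3-transitive and the stabiliser of three distinct points is trivial. -/
theorem result {F : Type*} [Field F] : MulAction.IsMultiplyPretransitive (Matrix.ProjGenLinGroup (Fin 2) F) (Projectivization F (Fin 2 → F)) 3 ∧ ∀ (g : Matrix.ProjGenLinGroup (Fin 2) F) (a b c : Projectivization F (Fin 2 → F)), a ≠ b → a ≠ c → b ≠ c → g • a = a → g • b = b → g • c = c → g = 1 := by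
  refine ⟨?_, fun g a b c hab hac hbc ha hb hc => stab_trivial g a b c hab hac hbc ha hb hc⟩
  have hp : ∀ (x : Fin 3 ↪ Projectivization F (Fin 2 → F)), ∃ g : Matrix.ProjGenLinGroup (Fin 2) F,
      g • x0 = x := by
    intro x
    have h01 : x 0 ≠ x 1 := fun h => by simpa using x.injective h
    have h02 : x 0 ≠ x 2 := fun h => by simpa using x.injective h
    have h12 : x 1 ≠ x 2 := fun h => by simpa using x.injective h
    obtain ⟨g, h0, h1, h2⟩ := exists_move (x 0) (x 1) (x 2) h01 h02 h12
    refine ⟨g, ?_⟩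
    ext i
    fin_cases i
    · exact h0
    · exact h1
    · exact h2
  constructor
  intro x y
  obtain ⟨g, hg⟩ := hp x
  obtain ⟨g', hg'⟩ := hp y
  exact ⟨g' * g⁻¹, by rw [← hg, ← hg', smul_smul, inv_mul_cancel_right]⟩

end Cfsg.Agent.S0266
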