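import Cfsg.Statements.S0267
import Mathlib
import Cfsg.Agent.S0266
-- import your own Cfsg.Agent.* helpers here

set_option autoImplicit false
open Cfsg

namespace Cfsg.Agent.S0267

open Projectivization

variable {F : Type*} [Field F]

lemma mulVec_ne (g : Matrix.SpecialLinearGroup (Fin 2) F) {v : Fin 2 → F} (hv : v ≠ 0) :
    (g : Matrix (Fin 2) (Fin 2) F).mulVec v ≠ 0 := by
  intro h
  apply hv
  have h1 := congrArg (fun w => ((g⁻¹ : Matrix.SpecialLinearGroup (Fin 2) F) :
    Matrix (Fin 2) (Fin 2) F).mulVec w) h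
  simp only [Matrix.mulVec_mulVec, Matrix.mulVec_zero] at h1
  rw [← Matrix.SpecialLinearGroup.coe_mul, inv_mul_cancel, Matrix.SpecialLinearGroup.coe_one,
    Matrix.one_mulVec] at h1
  exact h1

lemma smul_mk' (g : Matrix.SpecialLinearGroup (Fin 2) F) {v : Fin 2 → F} (hv : v ≠ 0) :
    g • Projectivization.mk F v hv =
      Projectivization.mk F ((g : Matrix (Fin 2) (Fin 2) F).mulVec v) (mulVec_ne g hv) := by
  rw [Projectivization.matrixSpecialLinearGroup_smul_def]
  rfl

lemma ne10 : (![1, 0] : Fin 2 → F) ≠ 0 := by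
  intro h
  have := congrFun h 0
  simp at this

lemma nea1 (a : F) : (![a, 1] : Fin 2 → F) ≠ 0 := by
  intro h
  have := congrFun h 1
  simp at this

/-- The point at infinity. -/
def pI : Projectivization F (Fin 2 → F) := Projectivization.mk F ![1, 0] ne10

/-- Affine points. -/
def pA (a : F) : Projectivization F (Fin 2 → F) := Projectivization.mk F ![a, 1] (nea1 a)

lemma pI_ne_pA (a : F) : (pI : Projectivization F (Fin 2 → F)) ≠ pA a := by
  intro h
  rw [pI, pA, Projectivization.mk_eq_mk_iff'] at h
  obtain ⟨c, hc⟩ := h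
  have h1 := congrFun hc 1
  have h0 := congrFun hc 0
  simp at h0 h1
  rw [h1] at h0
  simp at h0

lemma pA_ne_pA {a b : F} (hab : a ≠ b) : (pA a : Projectivization F (Fin 2 → F)) ≠ pA b := by
  intro h
  rw [pA, pA, Projectivization.mk_eq_mk_iff'] at h
  obtain ⟨c, hc⟩ := h
  have h0 := congrFun hc 0
  have h1 := congrFun hc 1
  simp at h0 h1
  subst h1
  simp at h0
  exact hab h0.symm

/-- The embedding given by three points. -/
def tri (a b c : Projectivization F (Fin 2 → F)) (hab : a ≠ b) (hac : a ≠ c) (hbc : b ≠ c) :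
    Fin 3 ↪ Projectivization F (Fin 2 → F) :=
  ⟨![a, b, c], by
    intro i j hij
    fin_cases i <;> fin_cases j <;> first
      | rfl
      | exact absurd hij hab | exact absurd hij hac | exact absurd hij hbc
      | exact absurd hij.symm hab | exact absurd hij.symm hac | exact absurd hij.symm hbc⟩

lemma forward [Fintype F]
    (h : MulAction.IsMultiplyPretransitive (Matrix.SpecialLinearGroup (Fin 2) F)
      (Projectivization F (Fin 2 → F)) 3) : ringChar F = 2 := by
  by_contra hc
  obtain ⟨a, ha⟩ := FiniteField.exists_nonsquare hc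
  have ha0 : a ≠ 0 := by
    rintro rfl
    exact ha IsSquare.zero
  have h01 : (0 : F) ≠ 1 := zero_ne_one
  obtain ⟨g, hg⟩ := h.exists_smul_eq
    (tri pI (pA 0) (pA 1) (pI_ne_pA _) (pI_ne_pA _) (pA_ne_pA h01))
    (tri pI (pA 0) (pA a) (pI_ne_pA _) (pI_ne_pA _) (pA_ne_pA (Ne.symm ha0)))
  have e0 : g • (pI : Projectivization F (Fin 2 → F)) = pI := congrArg (fun x => x 0) hg
  have e1 : g • (pA 0 : Projectivization F (Fin 2 → F)) = pA 0 := congrArg (fun x => x 1) hg
  have e2 : g • (pA 1 : Projectivization F (Fin 2 → F)) = pA a := congrArg (fun x => x 2) hg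
  rw [pI, smul_mk', Projectivization.mk_eq_mk_iff'] at e0
  rw [pA, smul_mk', Projectivization.mk_eq_mk_iff'] at e1
  rw [pA, pA, smul_mk', Projectivization.mk_eq_mk_iff'] at e2
  obtain ⟨c0, hc0⟩ := e0
  obtain ⟨c1, hc1⟩ := e1
  obtain ⟨c2, hc2⟩ := e2
  have hr : (g : Matrix (Fin 2) (Fin 2) F) 1 0 = 0 := by
    have := congrFun hc0 1
    simpa [Matrix.mulVec, dotProduct, Fin.sum_univ_two] using this.symm
  have hq : (g : Matrix (Fin 2) (Fin 2) F) 0 1 = 0 := by
    have := congrFun hc1 0
    simpa [Matrix.mulVec, dotProduct, Fin.sum_univ_two] using this.symm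
  have h20 := congrFun hc2 0
  have h21 := congrFun hc2 1
  simp [Matrix.mulVec, dotProduct, Fin.sum_univ_two, hr, hq] at h20 h21
  have hdet := g.2
  rw [Matrix.det_fin_two, hr, hq] at hdet
  simp only [mul_zero, sub_zero] at hdet
  apply ha
  rw [← h20, ← h21] at hdet
  have hc20 : c2 ≠ 0 := by
    rintro rfl
    simp at hdet
  refine ⟨c2⁻¹, ?_⟩
  field_simp
  linear_combination hdet

lemma backward [Fintype F] (hF : ringChar F = 2) :
    MulAction.IsMultiplyPretransitive (Matrix.SpecialLinearGroup (Fin 2) F)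
      (Projectivization F (Fin 2 → F)) 3 := by
  have h01 : (0 : F) ≠ 1 := zero_ne_one
  let x₀ := tri (F := F) pI (pA 0) (pA 1) (pI_ne_pA _) (pI_ne_pA _) (pA_ne_pA h01)
  have hp : ∀ x : Fin 3 ↪ Projectivization F (Fin 2 → F),
      ∃ g : Matrix.SpecialLinearGroup (Fin 2) F, g • x₀ = x := by
    intro x
    have hab : x 0 ≠ x 1 := fun h => by simpa using x.injective h
    have hac : x 0 ≠ x 2 := fun h => by simpa using x.injective h
    have hbc : x 1 ≠ x 2 := fun h => by simpa using x.injective h
    obtain ⟨s, t, hs, ht, hst⟩ := Cfsg.Agent.S0266.exists_coeffs (x 0) (x 1) (x 2) hab hac hbc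
    have hli := (Projectivization.linearIndependent_pair_iff_ne).2 hab
    set a := (x 0).rep with ha
    set b := (x 1).rep with hb
    have hd0 : a 0 * b 1 - a 1 * b 0 ≠ 0 := by
      intro h0
      rw [LinearIndependent.pair_iff] at hli
      have h1 : b 1 • a + (-a 1) • b = 0 := by
        funext i
        fin_cases i
        · simp
          linear_combination h0
        · simp
          ring
      have h2 : b 0 • a + (-a 0) • b = 0 := by
        funext i
        fin_cases i
        · simp
          ring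
        · simp
          linear_combination -h0
      obtain ⟨_, h3⟩ := hli _ _ h1
      obtain ⟨_, h4⟩ := hli _ _ h2
      have ha0 : a = 0 := by
        funext i
        fin_cases i
        · simpa using h4
        · simpa using h3
      exact (x 0).rep_nonzero ha0
    obtain ⟨e, he⟩ := FiniteField.isSquare_of_char_two hF (s * t * (a 0 * b 1 - a 1 * b 0))
    have he0 : e ≠ 0 := by
      rintro rfl
      rw [zero_mul] at he
      exact (mul_ne_zero (mul_ne_zero hs ht) hd0) he
    let M : Matrix (Fin 2) (Fin 2) F :=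
      !![e⁻¹ * s * a 0, e⁻¹ * t * b 0; e⁻¹ * s * a 1, e⁻¹ * t * b 1]
    have hM : M.det = 1 := by
      rw [Matrix.det_fin_two_of]
      field_simp
      linear_combination he
    let g : Matrix.SpecialLinearGroup (Fin 2) F := ⟨M, hM⟩
    have hgM : (g : Matrix (Fin 2) (Fin 2) F) = M := rfl
    refine ⟨g, ?_⟩
    have h0 : g • (pI : Projectivization F (Fin 2 → F)) = x 0 := by
      rw [pI, smul_mk']
      conv_rhs => rw [← (x 0).mk_rep]
      rw [Projectivization.mk_eq_mk_iff']
      refine ⟨e⁻¹ * s, ?_⟩
      funext i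
      rw [hgM]
      fin_cases i <;> simp [M, Matrix.mulVec, dotProduct, Fin.sum_univ_two, ha]
    have h1 : g • pA (0 : F) = x 1 := by
      rw [pA, smul_mk']
      conv_rhs => rw [← (x 1).mk_rep]
      rw [Projectivization.mk_eq_mk_iff']
      refine ⟨e⁻¹ * t, ?_⟩
      funext i
      rw [hgM]
      fin_cases i <;> simp [M, Matrix.mulVec, dotProduct, Fin.sum_univ_two, hb]
    have h2 : g • pA (1 : F) = x 2 := by
      rw [pA, smul_mk']
      conv_rhs => rw [← (x 2).mk_rep]
      rw [Projectivization.mk_eq_mk_iff']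
      refine ⟨e⁻¹, ?_⟩
      rw [← hst]
      funext i
      rw [hgM]
      fin_cases i <;> simp [M, Matrix.mulVec, dotProduct, Fin.sum_univ_two] <;> ring
    ext i
    fin_cases i
    · exact h0
    · exact h1
    · exact h2
  constructor
  intro x y
  obtain ⟨g, hg⟩ := hp x
  obtain ⟨g', hg'⟩ := hp y
  exact ⟨g' * g⁻¹, by rw [← hg, ← hg', smul_smul, inv_mul_cancel_right]⟩

/-- SL_2(q) is 3-transitive on the q+1 points of the projective line if and only if q is even. -/
theorem result {F : Type*} [Field F] [Fintype F] : MulAction.IsMultiplyPretransitive (Matrix.SpecialLinearGroup (Fin 2) F) (Projectivization F (Fin 2 → F)) 3 ↔ ringChar F = 2 := by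
  constructor
  · intro h
    exact forward h
  · intro h
    exact backward h

end Cfsg.Agent.S0267
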