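import Cfsg.Statements.S0268
import Mathlib
-- import your own Cfsg.Agent.* helpers here

set_option autoImplicit false
open Cfsg

namespace Cfsg.Agent.S0268

/-- For q odd, -1 is the unique involution of SL_2(q). -/
theorem result {F : Type*} [Field F] [Fintype F] (hF : Odd (Fintype.card F)) (g : Matrix.SpecialLinearGroup (Fin 2) F) (h1 : g ≠ 1) (h2 : g * g = 1) : (g : Matrix (Fin 2) (Fin 2) F) = -1 := by
  classical
  have h2ne : (2 : F) ≠ 0 := by
    apply Ring.two_ne_zero
    intro hchar
    have := FiniteField.even_card_iff_char_two.mp hchar
    rw [Nat.odd_iff] at hF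
    omega
  have hdet := g.det_coe
  rw [Matrix.det_fin_two] at hdet
  have hm : (g : Matrix (Fin 2) (Fin 2) F) * (g : Matrix (Fin 2) (Fin 2) F) = 1 := by
    have := congrArg (fun s : Matrix.SpecialLinearGroup (Fin 2) F => (s : Matrix (Fin 2) (Fin 2) F)) h2
    simpa using this
  set M : Matrix (Fin 2) (Fin 2) F := (g : Matrix (Fin 2) (Fin 2) F) with hMdef
  have e00 := congrFun (congrFun hm 0) 0
  have e01 := congrFun (congrFun hm 0) 1
  have e10 := congrFun (congrFun hm 1) 0
  have e11 := congrFun (congrFun hm 1) 1
  simp [Matrix.mul_apply, Fin.sum_univ_two] at e00 e01 e10 e11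
  set a := M 0 0
  set b := M 0 1
  set c := M 1 0
  set d := M 1 1
  have htr : a + d ≠ 0 := by
    intro htr
    have hd : d = -a := by linear_combination htr
    rw [hd] at hdet e11
    apply h2ne
    have : (2 : F) = 0 := by linear_combination (-1 : F) * e00 - hdet + 0 * e11
    exact this
  have hb : b = 0 := by
    have : b * (a + d) = 0 := by linear_combination e01
    exact (mul_eq_zero.mp this).resolve_right htr
  have hc : c = 0 := by
    have : c * (a + d) = 0 := by linear_combination e10
    exact (mul_eq_zero.mp this).resolve_right htr
  rw [hb] at e00 hdet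
  have ha2 : a * a = 1 := by simpa using e00
  have had : a * d = 1 := by simpa using hdet
  have hda : d = a := by
    have h3 : a * (d - a) = 0 := by linear_combination had - ha2
    have ha0 : a ≠ 0 := by
      intro h0; rw [h0] at ha2; simp at ha2
    have := (mul_eq_zero.mp h3).resolve_left ha0
    linear_combination this
  have hcase : a = 1 ∨ a = -1 := by
    have : (a - 1) * (a + 1) = 0 := by linear_combination ha2
    rcases mul_eq_zero.mp this with h | h
    · left; linear_combination h
    · right; linear_combination h
  rcases hcase with ha | ha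
  · exfalso
    apply h1
    apply Subtype.ext
    show M = 1
    ext i j
    fin_cases i <;> fin_cases j
    · simpa using ha
    · simpa using hb
    · simpa using hc
    · show d = 1
      rw [hda, ha]
  · ext i j
    fin_cases i <;> fin_cases j
    · simpa using ha
    · simpa using hb
    · simpa using hc
    · show d = (-1 : Matrix (Fin 2) (Fin 2) F) 1 1
      rw [hda, ha]; simp

end Cfsg.Agent.S0268
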