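import Cfsg.Statements.S0272
import Cfsg.Agent.S0258
import Mathlib
-- import your own Cfsg.Agent.* helpers here

set_option autoImplicit false
open Cfsg

namespace Cfsg.Agent.S0272

/-- The normaliser in GL_2(q) of a Sylow p-subgroup, p the characteristic, has order q (q-1)^2. -/
theorem result {F : Type*} [Field F] [Fintype F] {q : ℕ} (hF : Fintype.card F = q) (p : ℕ) [Fact p.Prime] [CharP F p] (P : Sylow p (Matrix.GeneralLinearGroup (Fin 2) F)) : Nat.card (Subgroup.normalizer ((P : Subgroup (Matrix.GeneralLinearGroup (Fin 2) F)) : Set (Matrix.GeneralLinearGroup (Fin 2) F))) = q * (q - 1) ^ 2 := by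
  have h := Cfsg.Agent.S0258.result hF p
  rw [Sylow.card_eq_index_normalizer P] at h
  have h1 := (Subgroup.normalizer ((P : Subgroup (Matrix.GeneralLinearGroup (Fin 2) F)) :
    Set (Matrix.GeneralLinearGroup (Fin 2) F))).card_mul_index
  have hcard : Nat.card (Matrix.GeneralLinearGroup (Fin 2) F) = (q ^ 2 - 1) * (q ^ 2 - q) := by
    rw [Matrix.card_GL_field, Fin.prod_univ_two, hF]
    simp
  have hqsq : q ^ 2 - q = q * (q - 1) := by
    rw [Nat.mul_sub, sq, mul_one]
  have hq21 : q ^ 2 - 1 = (q + 1) * (q - 1) := by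
    have := Nat.sq_sub_sq q 1
    simpa using this
  rw [hcard, hqsq, hq21] at h1
  have h' : (Subgroup.normalizer ((P : Subgroup (Matrix.GeneralLinearGroup (Fin 2) F)) :
    Set (Matrix.GeneralLinearGroup (Fin 2) F))).index = q + 1 := h
  rw [h'] at h1
  apply Nat.eq_of_mul_eq_mul_right (show 0 < q + 1 by omega)
  rw [h1]
  ring

end Cfsg.Agent.S0272
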