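import Cfsg.Statements.S0273
import Mathlib
import Cfsg.Agent.Lib.Linalg.RegularCentralizer
import Cfsg.Agent.Lib.Linalg.Unipotent
-- import your own Cfsg.Agent.* helpers here

set_option autoImplicit false
open Cfsg

namespace Cfsg.Agent.S0273

open Matrix

lemma rank_eq_one_of_sq_zero {F : Type*} [Field F] {N : Matrix (Fin 2) (Fin 2) F} (h0 : N ≠ 0)
    (h2 : N ^ 2 = 0) : N.rank = 1 := by
  have h1 : N * N = 0 := by rwa [← pow_two]
  have h3 := Matrix.rank_add_rank_le_card_of_mul_eq_zero h1
  simp only [Fintype.card_fin] at h3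
  have h4 : N.rank ≠ 0 := by
    intro h5
    apply h0
    have h6 : LinearMap.range N.mulVecLin = ⊥ := Submodule.finrank_eq_zero.1 h5
    rw [LinearMap.range_eq_bot] at h6
    apply Matrix.ext_of_mulVec_single
    intro i
    have h7 : N *ᵥ Pi.single i 1 = 0 := LinearMap.congr_fun h6 (Pi.single i 1)
    rw [h7, Matrix.zero_mulVec]
  omega

/-- In GL_2(q) the centraliser of a non-trivial element of a Sylow p-subgroup (p the characteristic) has order q (q-1): the Sylow subgroup times the scalars. -/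
theorem result {F : Type*} [Field F] [Fintype F] {q : ℕ} (hF : Fintype.card F = q) (p : ℕ) [Fact p.Prime] [CharP F p] (P : Sylow p (Matrix.GeneralLinearGroup (Fin 2) F)) (a : Matrix.GeneralLinearGroup (Fin 2) F) (ha : a ∈ P) (ha1 : a ≠ 1) : Nat.card (Subgroup.centralizer ({a} : Set (Matrix.GeneralLinearGroup (Fin 2) F))) = q * (q - 1) := by
  classical
  subst hF
  obtain ⟨k, hk⟩ := IsPGroup.iff_orderOf.1 P.isPGroup' ⟨a, ha⟩
  have hk' : orderOf a = p ^ k := by rwa [Subgroup.orderOf_mk] at hk
  have hnil := Cfsg.Agent.Lib.Linalg.Unipotent.isNilpotent_of_orderOf_eq_pow p a hk'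
  have h2 := Cfsg.Agent.Lib.Linalg.Unipotent.pow_card_eq_zero_of_isNilpotent hnil
  rw [Fintype.card_fin] at h2
  have hne : (a : Matrix (Fin 2) (Fin 2) F) - 1 ≠ 0 := by
    intro h
    apply ha1
    apply Units.ext
    simpa using sub_eq_zero.1 h
  have hr := rank_eq_one_of_sq_zero hne h2
  have := Cfsg.Agent.Lib.Linalg.RegularCentralizer.card_centralizer (m := 1) a h2 hr
  rw [this, pow_one, mul_comm]

end Cfsg.Agent.S0273
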