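import Cfsg.Statements.S0275
import Mathlib
import Cfsg.Agent.Lib.PSL2.DicksonSL
import Cfsg.Agent.Lib.PSL2.Quat
import Cfsg.Agent.Lib.PGroup.CyclicMax2
import Cfsg.Agent.Lib.PSL2.Torus
-- import your own Cfsg.Agent.* helpers here

set_option autoImplicit false
open Cfsg

namespace Cfsg.Agent.S0275

open Cfsg.Agent.Lib.PSL2.Basic Cfsg.Agent.Lib.PSL2.DicksonSL Cfsg.Agent.Lib.PGroup.CyclicMax2
open scoped MatrixGroups

/-- The quaternion groups are not cyclic. -/
theorem quaternion_not_cyclic (k : ℕ) (hk : 1 ≤ k) : ¬ IsCyclic (QuaternionGroup (2 ^ k)) := by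
  intro h
  have hd : (2 : ℕ) ∣ 2 ^ k := dvd_pow_self 2 (by omega)
  have hpos : 0 < 2 ^ k := by positivity
  have h1 := IsCyclic.exponent_eq_card (α := QuaternionGroup (2 ^ k))
  rw [QuaternionGroup.exponent, Nat.card_eq_fintype_card, QuaternionGroup.card] at h1
  have h2 : lcm (2 ^ k) 2 = 2 ^ k := by
    show Nat.lcm (2 ^ k) 2 = 2 ^ k
    exact Nat.lcm_eq_left hd
  rw [h2] at h1
  omega

/-- If p is odd and H is a subgroup of SL_2(q), q a power of p, with more than one Sylow p-subgroup, then the Sylow 2-subgroups of H are generalised quaternion. -/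
theorem result {F : Type*} [Field F] [Fintype F] (p : ℕ) [Fact p.Prime] [CharP F p] (hp : p ≠ 2) (H : Subgroup (Matrix.SpecialLinearGroup (Fin 2) F)) (hH : 1 < Nat.card (Sylow p H)) (S : Sylow 2 H) : ∃ k : ℕ, 1 ≤ k ∧ Nonempty ((S : Subgroup H) ≃* QuaternionGroup (2 ^ k)) := by
  classical
  haveI : Fact (Nat.Prime 2) := ⟨Nat.prime_two⟩
  have h2 : (2 : F) ≠ 0 := by
    intro h
    have h3 : ((2 : ℕ) : F) = 0 := by exact_mod_cast h
    have h4 := (CharP.cast_eq_zero_iff F p 2).1 h3
    exact hp ((Nat.prime_dvd_prime_iff_eq (Fact.out) Nat.prime_two).1 h4)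
  have hu : UniqueP 2 (S : Subgroup H) := by
    intro u v hu hv hu1 hv1
    have key : ∀ w : (S : Subgroup H), w ^ 2 = 1 → w ≠ 1 → (w.1.1 : SL(2, F)) = -1 := by
      intro w hw hw1
      have h3 : (w.1.1 : SL(2, F)) * w.1.1 = 1 := by
        rw [pow_two] at hw
        exact congrArg (fun z : (S : Subgroup H) => (z.1.1 : SL(2, F))) hw
      rcases (Cfsg.Agent.Lib.PSL2.Torus.mul_self_eq_one_iff h2 _).1 h3 with h4 | h4
      · exact absurd (Subtype.ext (Subtype.ext h4)) hw1
      · exact h4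
    have h5 : u = v := Subtype.ext (Subtype.ext ((key u hu hu1).trans (key v hv hv1).symm))
    rw [h5]
    exact Subgroup.mem_zpowers v
  obtain ⟨K, hKH, ⟨eK⟩⟩ := exists_copy hp H hH
  obtain ⟨P'⟩ : Nonempty (Sylow 2 SL(2, ZMod p)) := inferInstance
  have hoddcard : Odd (Fintype.card (ZMod p)) := by
    rw [ZMod.card]
    exact (Fact.out : p.Prime).odd_of_ne_two hp
  obtain ⟨k, hk, ⟨eQ⟩⟩ := Cfsg.Agent.Lib.PSL2.Quat.sylow_two_equiv_quaternion hoddcard P'
  have hnc : ¬ IsCyclic (S : Subgroup H) := by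
    intro hcyc
    let φ : SL(2, ZMod p) →* H := (Subgroup.inclusion hKH).comp eK.symm.toMonoidHom
    have hφ : Function.Injective φ :=
      (Subgroup.inclusion_injective hKH).comp eK.symm.injective
    have hT : IsPGroup 2 ((P' : Subgroup SL(2, ZMod p)).map φ) := P'.isPGroup'.map φ
    obtain ⟨S', hS'⟩ := hT.exists_le_sylow
    let e1 : (S' : Subgroup H) ≃* (S : Subgroup H) := S'.equiv S
    let r : (P' : Subgroup SL(2, ZMod p)) →* (S' : Subgroup H) :=
      (φ.comp (P' : Subgroup SL(2, ZMod p)).subtype).codRestrict _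
        (fun z => hS' ⟨z.1, z.2, rfl⟩)
    have hr : Function.Injective r := by
      intro u v h
      apply Subtype.ext
      apply hφ
      exact congrArg (fun z : (S' : Subgroup H) => (z : H)) h
    let ι : QuaternionGroup (2 ^ k) →* (S : Subgroup H) :=
      e1.toMonoidHom.comp (r.comp eQ.symm.toMonoidHom)
    have hι : Function.Injective ι := e1.injective.comp (hr.comp eQ.symm.injective)
    exact quaternion_not_cyclic k hk (isCyclic_of_injective ι hι)
  haveI : Finite (S : Subgroup H) := inferInstance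
  rcases cyclic_or_quaternion S.isPGroup' hu with h | ⟨-, u, b, n, hSC, hn, hcard, hb, hbu, hb2⟩
  · exact absurd h hnc
  · refine ⟨n - 1, by omega, ?_⟩
    exact quaternion_of_data (by omega) hSC.hu hcard hb hbu hb2

end Cfsg.Agent.S0275
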