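import Cfsg.Statements.S0276
import Cfsg.Agent.Lib.PSL2.Torus

set_option autoImplicit false
open Cfsg

namespace Cfsg.Agent.S0276

open Cfsg.Agent.Lib.PSL2.Basic Cfsg.Agent.Lib.PSL2.Torus
open scoped MatrixGroups

lemma two_ne_zero_aux {F : Type*} [Field F] [Fintype F] {q : ℕ} (hF : Fintype.card F = q)
    (hq : q % 8 = 3 ∨ q % 8 = 5) : (2 : F) ≠ 0 := by
  intro h2
  have hc : ringChar F = 2 := by
    have := CharP.ringChar_of_prime_eq_zero (R := F) Nat.prime_two (by exact_mod_cast h2)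
    exact this
  have := FiniteField.even_card_iff_char_two.1 hc
  omega

/-- In `PSL(2, F)` with `q = 3, 5 mod 8`, every element of order dividing 4 squares to one. -/
lemma sq_eq_one_of_pow_four {F : Type*} [Field F] [Fintype F] {q : ℕ} (hF : Fintype.card F = q)
    (hq : q % 8 = 3 ∨ q % 8 = 5) (x : PSL(2, F)) (hx : x ^ 4 = 1) : x ^ 2 = 1 := by
  have h2 := two_ne_zero_aux hF hq
  obtain ⟨g, rfl⟩ := mkP_surjective x
  rw [← map_pow, mkP_eq_one_iff] at hx
  rw [← map_pow, mkP_eq_one_iff]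
  have hh : (g ^ 2) * (g ^ 2) = g ^ 4 := by
    rw [← pow_add]
  rcases hx with hx | hx
  · rw [hx] at hh
    exact (mul_self_eq_one_iff h2 _).1 hh
  · exfalso
    rw [hx] at hh
    have ht := (mul_self_eq_neg_one_iff _).1 hh
    rw [pow_two, tr_mul_self] at ht
    have hsq : IsSquare (2 : F) := ⟨tr g, by linear_combination -ht⟩
    have := FiniteField.isSquare_two_iff.1 hsq
    rw [hF] at this
    omega

/-- For q = 3 or 5 mod 8 the Sylow 2-subgroups of PSL_2(q) are elementary abelian of order 4. -/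
theorem result {F : Type*} [Field F] [Fintype F] {q : ℕ} (hF : Fintype.card F = q) (hq : q % 8 = 3 ∨ q % 8 = 5) (P : Sylow 2 (Matrix.ProjectiveSpecialLinearGroup (Fin 2) F)) : IsKleinFour (P : Subgroup (Matrix.ProjectiveSpecialLinearGroup (Fin 2) F)) := by
  have h2 := two_ne_zero_aux hF hq
  have hcard : Nat.card (P : Subgroup (Matrix.ProjectiveSpecialLinearGroup (Fin 2) F)) = 4 := by
    rw [Sylow.card_eq_multiplicity]
    have h := card_PSL2_of_two_ne_zero h2
    rw [hF] at h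
    -- `q ^ 2 - 1 = 8 * m` with `m` odd, and `q` odd
    obtain ⟨m, hm, hmodd⟩ : ∃ m, q * (q ^ 2 - 1) = 8 * m ∧ m % 2 = 1 := by
      obtain ⟨k, r, rfl, hr⟩ : ∃ k r, q = 8 * k + r ∧ (r = 3 ∨ r = 5) :=
        ⟨q / 8, q % 8, (Nat.div_add_mod q 8).symm, hq⟩
      have h1 : (8 * k + r) ^ 2 - 1 = 8 * (8 * k ^ 2 + 2 * k * r + (r ^ 2 - 1) / 8) := by
        rcases hr with rfl | rfl
        · have : (8 * k + 3) ^ 2 = 8 * (8 * k ^ 2 + 2 * k * 3 + (3 ^ 2 - 1) / 8) + 1 := by
            norm_num; ring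
          omega
        · have : (8 * k + 5) ^ 2 = 8 * (8 * k ^ 2 + 2 * k * 5 + (5 ^ 2 - 1) / 8) + 1 := by
            norm_num; ring
          omega
      refine ⟨(8 * k + r) * (8 * k ^ 2 + 2 * k * r + (r ^ 2 - 1) / 8), by rw [h1]; ring, ?_⟩
      rcases hr with rfl | rfl
      · norm_num [Nat.mul_mod, Nat.add_mod, Nat.pow_mod]
      · norm_num [Nat.mul_mod, Nat.add_mod, Nat.pow_mod]
    have hPSL : Nat.card PSL(2, F) = 4 * m := by omega
    have hm0 : m ≠ 0 := by omega
    have hmcop : ¬ 2 ∣ m := by omega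
    show 2 ^ (Nat.card PSL(2, F)).factorization 2 = 4
    rw [hPSL, Nat.factorization_mul (by norm_num) hm0]
    simp only [Finsupp.add_apply]
    rw [Nat.factorization_eq_zero_of_not_dvd hmcop]
    have : (4 : ℕ).factorization 2 = 2 := by
      rw [show (4 : ℕ) = 2 ^ 2 by norm_num, Nat.Prime.factorization_pow Nat.prime_two]
      simp
    rw [this]
    norm_num
  refine ⟨hcard, ?_⟩
  have : Nontrivial (P : Subgroup (Matrix.ProjectiveSpecialLinearGroup (Fin 2) F)) := by
    apply Finite.one_lt_card_iff_nontrivial.1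
    rw [hcard]; norm_num
  rw [Monoid.exponent_eq_prime_iff Nat.prime_two]
  intro g hg
  have h4 : g ^ 4 = 1 := by
    have := pow_card_eq_one' (x := g)
    rwa [hcard] at this
  have hsq : (g : Matrix.ProjectiveSpecialLinearGroup (Fin 2) F) ^ 2 = 1 :=
    sq_eq_one_of_pow_four hF hq _ (by exact_mod_cast congrArg Subtype.val h4)
  have hg2 : g ^ 2 = 1 := by
    apply Subtype.ext
    exact_mod_cast hsq
  exact orderOf_eq_prime hg2 hg

end Cfsg.Agent.S0276
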