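import Cfsg.Statements.S0282
import Mathlib
import Cfsg.Agent.Lib.Compute.SU3Two
-- import your own Cfsg.Agent.* helpers here

set_option autoImplicit false
open Cfsg

namespace Cfsg.Agent.S0282

/-- PSU_3(2) is a solvable group of order 72. -/
theorem result {F : Type*} [Field F] [Fintype F] (hF : Fintype.card F = 4) : Nat.card (Cfsg.PSU 3 F 2) = 72 ∧ Group.IsSolvable (Cfsg.PSU 3 F 2) := by
  classical
  open Cfsg.Agent.Lib.Compute.SU3Two in
  refine ⟨card_PSU_eq hF, ?_⟩
  have hQ : IsPGroup 2 Q8 := IsPGroup.of_card (n := 3) (by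
    rw [Nat.card_eq_fintype_card, QuaternionGroup.card]; rfl)
  have hK : IsPGroup 3 (pi hF).ker := by
    intro g
    refine ⟨1, ?_⟩
    apply Subtype.ext
    have h := (pi_eq_one_iff hF g.1).1 g.2
    simpa using h
  have : Fact (Nat.Prime 2) := ⟨by norm_num⟩
  have : Fact (Nat.Prime 3) := ⟨by norm_num⟩
  have h1 : Group.IsNilpotent Q8 := hQ.isNilpotent
  have h2 : Group.IsNilpotent (pi hF).ker := hK.isNilpotent
  have h3 : Group.IsSolvable Q8 := inferInstance
  have h4 : Group.IsSolvable (pi hF).ker := inferInstance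
  exact Group.isSolvable_of_ker_le_range (pi hF).ker.subtype (pi hF) (by simp)

end Cfsg.Agent.S0282
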