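import Cfsg.Statements.S0294
import Mathlib
import Cfsg.Agent.Lib.Classical.Orth.Center
import Cfsg.Agent.Lib.Classical.Orth.Models
import Cfsg.Agent.Lib.Classical.Orth.NegPairs
import Cfsg.Agent.S0288
-- import your own Cfsg.Agent.* helpers here

set_option autoImplicit false
open Cfsg

namespace Cfsg.Agent.S0294

/-- gcd(4, q^m + 1) |PΩ^-_{2m}(q)| = q^(m(m-1)) (q^m + 1) prod_{i=1}^{m-1} (q^(2i) - 1), m at least 4 (type ²D_m). -/
theorem result {F : Type*} [Field F] [Fintype F] {q : ℕ} (hF : Fintype.card F = q) (m : ℕ) (hm : 4 ≤ m) (a b : F) (hab : ∀ z₁ z₂ : F, z₁ ^ 2 + a * z₁ * z₂ + b * z₂ ^ 2 = 0 → z₁ = 0 ∧ z₂ = 0) : Nat.gcd 4 (q ^ m + 1) * Nat.card (Cfsg.POmega F (Cfsg.quadFormMinus (m - 1) F a b)) = q ^ (m * (m - 1)) * (q ^ m + 1) * ∏ i ∈ Finset.range (m - 1), (q ^ (2 * (i + 1)) - 1) := by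
  have hO := Cfsg.Agent.S0288.result hF m (by omega) a b hab
  have hP : Nat.card (Cfsg.isometryGroup F (Cfsg.quadFormMinus (m - 1) F a b)) =
      2 * (q ^ (m * (m - 1)) * (q ^ m + 1) * ∏ i ∈ Finset.range (m - 1), (q ^ (2 * (i + 1)) - 1)) := by
    rw [hO, mul_assoc, mul_assoc, mul_assoc]
  set P := q ^ (m * (m - 1)) * (q ^ m + 1) * ∏ i ∈ Finset.range (m - 1), (q ^ (2 * (i + 1)) - 1) with hPdef
  have hnd := Cfsg.Agent.Lib.Classical.Orth.Models.minusForm_nondegenerate (m - 1) a b hab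
  have hcard : 5 ≤ Fintype.card ((Fin (m - 1) ⊕ Fin (m - 1)) ⊕ Fin 2) := by
    rw [Fintype.card_sum, Fintype.card_sum, Fintype.card_fin, Fintype.card_fin]
    omega
  have hq1 : 1 ≤ q ^ m := Nat.one_le_pow _ _ (by
    have : 1 < q := hF ▸ Fintype.one_lt_card
    omega)
  by_cases h2 : (2 : F) = 0
  · have heven : Even q := hF ▸ Cfsg.Agent.Lib.Classical.Orth.Center.card_even_iff h2
    have hev : Even (q ^ m) := heven.pow_of_ne_zero (by omega)
    have hg : Nat.gcd 4 (q ^ m + 1) = 1 := by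
      have h3 : (q ^ m + 1) % 2 = 1 := by
        rcases hev with ⟨k, hk⟩
        omega
      have h4 : Nat.Coprime 2 (q ^ m + 1) := Nat.coprime_two_left.2 (Nat.odd_iff.2 h3)
      exact Nat.Coprime.pow_left 2 h4
    rw [hg, one_mul]
    revert hP
    rw [← Cfsg.Agent.Lib.Classical.Orth.Models.coe_minusForm (m - 1) F a b]
    intro hP
    exact Cfsg.Agent.Lib.Classical.Orth.Center.card_core_char_two hnd hcard h2 hP
  · have hodd : Odd q := hF ▸ Cfsg.Agent.Lib.Classical.Orth.Center.card_odd_iff h2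
    have hoddm : Odd (q ^ m) := hodd.pow
    have hneg := Cfsg.Agent.Lib.Classical.Orth.NegPairs.minus_neg_one_iff hF hodd (m - 1) a b hab
    have hm1 : m - 1 + 1 = m := by omega
    rw [hm1] at hneg
    revert hP hneg
    rw [← Cfsg.Agent.Lib.Classical.Orth.Models.coe_minusForm (m - 1) F a b]
    intro hP hneg
    by_cases h4 : q ^ m % 4 = 3
    · obtain ⟨g₀, hg₀, hm'⟩ := hneg.2 h4
      have hg : Nat.gcd 4 (q ^ m + 1) = 4 := by
        apply Nat.gcd_eq_left
        omega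
      rw [hg]
      exact Cfsg.Agent.Lib.Classical.Orth.Center.card_core_odd_mem hnd hcard h2 hg₀ hm' hP
    · have hnot := fun h => h4 (hneg.1 h)
      have h3 : q ^ m % 4 = 1 := by
        rcases hoddm with ⟨k, hk⟩
        omega
      have hg : Nat.gcd 4 (q ^ m + 1) = 2 := by
        rw [Nat.gcd_rec]
        have : (q ^ m + 1) % 4 = 2 := by omega
        rw [this]
        rfl
      rw [hg]
      exact Cfsg.Agent.Lib.Classical.Orth.Center.card_core_odd_not hnd hcard h2 hnot hP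

end Cfsg.Agent.S0294
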