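import Cfsg.Statements.S0298
import Mathlib
import Cfsg.Agent.Lib.Classical.Herm.ExcTwo
import Cfsg.Agent.Lib.Classical.Orth.NegPairs
import Cfsg.Agent.S0286

set_option autoImplicit false
open Cfsg

namespace Cfsg.Agent.S0298

/-- PΩ_3(q) is isomorphic to PSL_2(q) for q odd. -/
theorem result {F : Type*} [Field F] [Fintype F] (hodd : Odd (Fintype.card F)) : Nonempty (Cfsg.POmega F (Cfsg.quadFormOdd 1 F) ≃* Matrix.ProjectiveSpecialLinearGroup (Fin 2) F) := by
  have h2 : (2 : F) ≠ 0 := Cfsg.Agent.Lib.Classical.Orth.NegPairs.odd_two_ne_zero rfl hodd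
  refine Cfsg.Agent.Lib.Classical.Herm.ExcTwo.main3 h2 ?_
  rw [Cfsg.Agent.S0286.result rfl hodd 1, Cfsg.Agent.Lib.Classical.Herm.ExcTwo.card_sl2 rfl]
  simp
  ring

end Cfsg.Agent.S0298
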