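import Cfsg.Statements.S0301
import Mathlib
import Cfsg.Agent.Lib.Classical.Herm.ExcOdd5
import Cfsg.Agent.Lib.Classical.Orth.NegPairs
import Cfsg.Agent.S0286

set_option autoImplicit false
open Cfsg

namespace Cfsg.Agent.S0301

/-- PΩ_5(q) is isomorphic to PSp_4(q) for q odd. -/
theorem result {F : Type*} [Field F] [Fintype F] (hodd : Odd (Fintype.card F)) : Nonempty (Cfsg.POmega F (Cfsg.quadFormOdd 2 F) ≃* Cfsg.PSp 2 F) := by
  have h2 : (2 : F) ≠ 0 := Cfsg.Agent.Lib.Classical.Orth.NegPairs.odd_two_ne_zero rfl hodd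
  have hq1 : 1 < Fintype.card F := Fintype.one_lt_card
  have hq : 3 ≤ Fintype.card F := by
    rcases hodd with ⟨c, hc⟩
    omega
  refine Cfsg.Agent.Lib.Classical.Herm.ExcOdd5.main h2 hq ?_
  rw [Cfsg.Agent.S0286.result rfl hodd 2,
    Cfsg.Agent.Lib.Classical.Symp.Count.card_symplecticGroup (q := Fintype.card F) (Nat.card_eq_fintype_card) 2]
  ring

end Cfsg.Agent.S0301
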