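import Cfsg.Statements.S0302
import Mathlib
import Cfsg.Agent.Lib.Classical.Herm.ExcKlein
import Cfsg.Agent.S0287
import Cfsg.Agent.S0242

set_option autoImplicit false
open Cfsg

namespace Cfsg.Agent.S0302

/-- PΩ^+_6(q) is isomorphic to PSL_4(q). -/
theorem result {F : Type*} [Field F] [Fintype F] : Nonempty (Cfsg.POmega F (Cfsg.quadFormPlus 3 F) ≃* Matrix.ProjectiveSpecialLinearGroup (Fin 4) F) := by
  apply Cfsg.Agent.Lib.Classical.Herm.ExcKlein.main
  have h2 : 2 ≤ Fintype.card F := Fintype.one_lt_card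
  exact Cfsg.Agent.Lib.Classical.Herm.ExcKlein.card_arith _ _ _ h2 (Cfsg.Agent.S0242.result rfl 4 (by norm_num))
    (Cfsg.Agent.S0287.result rfl 3 (by norm_num))

end Cfsg.Agent.S0302
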