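import Cfsg.Statements.S0304
import Mathlib
import Cfsg.Agent.Lib.Classical.Symp.Basic
import Cfsg.Agent.Lib.Classical.Geo.Basic
-- import your own Cfsg.Agent.* helpers here

set_option autoImplicit false
open Cfsg

namespace Cfsg.Agent.S0304

open Matrix Cfsg Cfsg.Agent.Lib.Classical.Symp.Basic Cfsg.Agent.Lib.Classical.Geo.Basic

variable {F : Type*} [Field F] {m : ℕ}

/-- The projection away from the first coordinate. -/
def pr (u : Unit ⊕ (Fin m ⊕ Fin m) → F) : Fin m ⊕ Fin m → F := fun x => u (Sum.inr x)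

/-- The inclusion of vectors with zero first coordinate. -/
def inc (x : Fin m ⊕ Fin m → F) : Unit ⊕ (Fin m ⊕ Fin m) → F := Sum.elim (fun _ => 0) x

@[simp] theorem pr_inc (x : Fin m ⊕ Fin m → F) : pr (inc x) = x := rfl

/-- The first basis vector. -/
def e₀ : Unit ⊕ (Fin m ⊕ Fin m) → F := Sum.elim (fun _ => 1) (fun _ => 0)

@[simp] theorem pr_e₀ : pr (e₀ (m := m) (F := F)) = 0 := rfl

theorem ext_vec {u v : Unit ⊕ (Fin m ⊕ Fin m) → F} (h1 : u (Sum.inl ()) = v (Sum.inl ()))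
    (h2 : pr u = pr v) : u = v := by
  funext x
  rcases x with ⟨⟩ | x
  · exact h1
  · exact congrFun h2 x

theorem pr_add (u v : Unit ⊕ (Fin m ⊕ Fin m) → F) : pr (u + v) = pr u + pr v := rfl
theorem pr_smul (c : F) (u : Unit ⊕ (Fin m ⊕ Fin m) → F) : pr (c • u) = c • pr u := rfl

theorem eq_add (u : Unit ⊕ (Fin m ⊕ Fin m) → F) : u = u (Sum.inl ()) • e₀ + inc (pr u) := by
  apply ext_vec
  · simp [e₀, inc]
  · rw [pr_add, pr_smul]
    simp

section CharTwo

variable [CharP F 2]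

theorem sub_eq_add' (a b : F) : a - b = a + b := CharTwo.sub_eq_add a b

theorem two_eq_zero' : (2 : F) = 0 := CharTwo.two_eq_zero

/-- The polarisation of the odd quadratic form. -/
theorem Q_add (u v : Unit ⊕ (Fin m ⊕ Fin m) → F) :
    quadFormOdd m F (u + v) = quadFormOdd m F u + quadFormOdd m F v + sympForm m F (pr u) (pr v) := by
  simp only [quadFormOdd, sympForm_apply, pr, Pi.add_apply]
  have h : (u (Sum.inl ()) + v (Sum.inl ())) ^ 2 = u (Sum.inl ()) ^ 2 + v (Sum.inl ()) ^ 2 := by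
    have : (u (Sum.inl ()) + v (Sum.inl ())) ^ 2 = u (Sum.inl ()) ^ 2 + v (Sum.inl ()) ^ 2 +
      2 * (u (Sum.inl ()) * v (Sum.inl ())) := by ring
    rw [this, two_eq_zero']
    simp
  rw [h]
  have h2 : ∀ i : Fin m, (u (Sum.inr (Sum.inl i)) + v (Sum.inr (Sum.inl i))) *
      (u (Sum.inr (Sum.inr i)) + v (Sum.inr (Sum.inr i))) =
      u (Sum.inr (Sum.inl i)) * u (Sum.inr (Sum.inr i)) + v (Sum.inr (Sum.inl i)) * v (Sum.inr (Sum.inr i)) +
      (u (Sum.inr (Sum.inr i)) * v (Sum.inr (Sum.inl i)) - u (Sum.inr (Sum.inl i)) * v (Sum.inr (Sum.inr i))) := by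
    intro i
    rw [sub_eq_add']
    ring
  simp only [h2, Finset.sum_add_distrib]
  ring

theorem sq_inj {a b : F} (h : a ^ 2 = b ^ 2) : a = b := by
  have h1 : (a + b) ^ 2 = 0 := by
    have : (a + b) ^ 2 = a ^ 2 + b ^ 2 + 2 * (a * b) := by ring
    rw [this, two_eq_zero', h]
    simp only [zero_mul, add_zero]
    rw [← two_mul, two_eq_zero', zero_mul]
  have h2 : a + b = 0 := pow_eq_zero_iff (two_ne_zero) |>.mp h1
  have h3 : a = -b := eq_neg_of_add_eq_zero_left h2
  rw [h3, CharTwo.neg_eq]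

theorem Q_eq (u : Unit ⊕ (Fin m ⊕ Fin m) → F) :
    quadFormOdd m F u = u (Sum.inl ()) ^ 2 + quadFormOdd m F (inc (pr u)) := by
  simp [quadFormOdd, inc, pr]

theorem Q_e₀ : quadFormOdd m F e₀ = 1 := by
  simp [quadFormOdd, e₀]

/-- The isometry group of the odd quadratic form. -/
abbrev OO (m : ℕ) (F : Type*) [Field F] := isometryGroup F (quadFormOdd m F)

theorem isom_Q {g : GL (Unit ⊕ (Fin m ⊕ Fin m)) F} (hg : g ∈ OO m F)
    (u : Unit ⊕ (Fin m ⊕ Fin m) → F) : quadFormOdd m F (g.1 *ᵥ u) = quadFormOdd m F u :=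
  hg u u

theorem polar_isom {g : GL (Unit ⊕ (Fin m ⊕ Fin m)) F} (hg : g ∈ OO m F)
    (u v : Unit ⊕ (Fin m ⊕ Fin m) → F) :
    sympForm m F (pr (g.1 *ᵥ u)) (pr (g.1 *ᵥ v)) = sympForm m F (pr u) (pr v) := by
  have h1 := Q_add (g.1 *ᵥ u) (g.1 *ᵥ v)
  have h2 := Q_add u v
  rw [← Matrix.mulVec_add, isom_Q hg, isom_Q hg, isom_Q hg, h2] at h1
  exact (add_left_cancel h1).symm

theorem g_e₀ {g : GL (Unit ⊕ (Fin m ⊕ Fin m)) F} (hg : g ∈ OO m F) : g.1 *ᵥ e₀ = e₀ := by
  set y := g.1 *ᵥ (e₀ : Unit ⊕ (Fin m ⊕ Fin m) → F) with hy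
  have h1 : pr y = 0 := by
    apply (sympBilin_nondegenerate (m := m) (F := F)).1
    intro x
    have h2 := polar_isom hg e₀ ((g⁻¹).1 *ᵥ inc x)
    rw [mulVec_inv_mulVec, pr_inc, pr_e₀] at h2
    rw [sympBilin_apply]
    rw [h2]
    simp [sympForm]
  have h2 : y (Sum.inl ()) = 1 := by
    have h3 := isom_Q hg (e₀ : Unit ⊕ (Fin m ⊕ Fin m) → F)
    rw [Q_eq, ← hy, h1, Q_e₀] at h3
    have h4 : quadFormOdd m F (inc (pr (0 : Unit ⊕ (Fin m ⊕ Fin m) → F))) = 0 := by
      simp [quadFormOdd, inc, pr]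
    have h5 : quadFormOdd m F (inc (0 : Fin m ⊕ Fin m → F)) = 0 := by
      simp [quadFormOdd, inc]
    rw [h5, add_zero] at h3
    apply sq_inj
    rw [h3, one_pow]
  apply ext_vec
  · rw [h2]
    rfl
  · rw [h1]
    rfl

/-- The lower right block of an isometry. -/
def blockA (g : GL (Unit ⊕ (Fin m ⊕ Fin m)) F) : Matrix (Fin m ⊕ Fin m) (Fin m ⊕ Fin m) F :=
  g.1.toBlocks₂₂

theorem g_col {g : GL (Unit ⊕ (Fin m ⊕ Fin m)) F} (hg : g ∈ OO m F) (x : Fin m ⊕ Fin m) :
    g.1 (Sum.inr x) (Sum.inl ()) = 0 := by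
  have h1 := congrFun (g_e₀ hg) (Sum.inr x)
  have h2 : (e₀ : Unit ⊕ (Fin m ⊕ Fin m) → F) = Pi.single (Sum.inl ()) 1 := by
    funext z
    rcases z with ⟨⟩ | z
    · simp [e₀]
    · simp [e₀]
  rw [h2, Matrix.mulVec_single] at h1
  simpa using h1

theorem pr_mulVec {g : GL (Unit ⊕ (Fin m ⊕ Fin m)) F} (hg : g ∈ OO m F)
    (u : Unit ⊕ (Fin m ⊕ Fin m) → F) : pr (g.1 *ᵥ u) = blockA g *ᵥ pr u := by
  funext x
  simp only [pr, blockA, Matrix.mulVec, dotProduct, Fintype.sum_sum_type, Matrix.toBlocks₂₂]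
  simp [g_col hg x, Matrix.of_apply]

theorem blockA_mem {g : GL (Unit ⊕ (Fin m ⊕ Fin m)) F} (hg : g ∈ OO m F) :
    blockA g ∈ symplecticGroup (Fin m) F := by
  rw [mem_symplecticGroup_iff_forall]
  intro u v
  have h1 := polar_isom hg (inc u) (inc v)
  rwa [pr_mulVec hg, pr_mulVec hg, pr_inc, pr_inc] at h1

/-- The morphism to the symplectic group. -/
noncomputable def toSp : OO m F →* symplecticGroup (Fin m) F where
  toFun g := ⟨blockA g.1, blockA_mem g.2⟩
  map_one' := by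
    apply Subtype.ext
    ext i j
    simp [blockA, Matrix.toBlocks₂₂, Matrix.one_apply]
  map_mul' a b := by
    apply Subtype.ext
    apply Matrix.toLin'.injective
    apply LinearMap.ext
    intro x
    have h1 : pr ((a.1 * b.1).1 *ᵥ inc x) = blockA (a.1 * b.1) *ᵥ x := by
      rw [pr_mulVec (mul_mem a.2 b.2), pr_inc]
    rw [Matrix.toLin'_apply, Matrix.toLin'_apply]
    change blockA (a.1 * b.1) *ᵥ x = (blockA a.1 * blockA b.1) *ᵥ x
    rw [← h1, Units.val_mul, ← Matrix.mulVec_mulVec, pr_mulVec a.2, pr_mulVec b.2, pr_inc,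
      Matrix.mulVec_mulVec]

theorem toSp_injective : Function.Injective (toSp (m := m) (F := F)) := by
  rw [injective_iff_map_eq_one]
  intro g hg
  have hA : blockA g.1 = 1 := congrArg Subtype.val hg
  apply Subtype.ext
  apply Units.ext
  apply Matrix.toLin'.injective
  apply LinearMap.ext
  intro u
  rw [Matrix.toLin'_apply, Matrix.toLin'_apply]
  change g.1.1 *ᵥ u = (1 : Matrix _ _ F) *ᵥ u
  rw [Matrix.one_mulVec]
  have hinc : ∀ x : Fin m ⊕ Fin m → F, g.1.1 *ᵥ inc x = inc x := by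
    intro x
    have h1 : pr (g.1.1 *ᵥ inc x) = x := by
      rw [pr_mulVec g.2, pr_inc, hA, Matrix.one_mulVec]
    have h2 := isom_Q g.2 (inc x)
    rw [Q_eq, h1] at h2
    have h3 : (g.1.1 *ᵥ inc x) (Sum.inl ()) ^ 2 = 0 := by
      have h4 := add_eq_right.mp h2
      exact h4
    have h4 : (g.1.1 *ᵥ inc x) (Sum.inl ()) = 0 := pow_eq_zero_iff (two_ne_zero) |>.mp h3
    apply ext_vec
    · rw [h4]
      rfl
    · rw [h1]
      rfl
  conv_lhs => rw [eq_add u]
  rw [Matrix.mulVec_add, Matrix.mulVec_smul, g_e₀ g.2, hinc]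
  exact (eq_add u).symm

variable [Finite F]

/-- The Frobenius inverse. -/
noncomputable def rt : F →+* F := ((frobeniusEquiv F 2).symm : F ≃+* F).toRingHom

theorem rt_sq (a : F) : rt a ^ 2 = a := by
  have := frobenius_apply_frobeniusEquiv_symm F 2 a
  rwa [frobenius_def] at this

/-- The defect of a symplectic matrix with respect to `Q₀`. -/
noncomputable def lam (A : symplecticGroup (Fin m) F) : (Fin m ⊕ Fin m → F) →ₗ[F] F where
  toFun x := rt (quadFormOdd m F (inc x) + quadFormOdd m F (inc (A.1 *ᵥ x)))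
  map_add' x y := by
    rw [← map_add]
    congr 1
    have h1 := Q_add (inc x) (inc y)
    have h2 := Q_add (inc (A.1 *ᵥ x)) (inc (A.1 *ᵥ y))
    have e1 : inc (x + y) = inc x + inc y := by
      funext z
      rcases z with ⟨⟩ | z <;> simp [inc]
    have e2 : inc (A.1 *ᵥ (x + y)) = inc (A.1 *ᵥ x) + inc (A.1 *ᵥ y) := by
      rw [Matrix.mulVec_add]
      funext z
      rcases z with ⟨⟩ | z <;> simp [inc]
    rw [e1, e2, h1, h2, pr_inc, pr_inc, pr_inc, pr_inc, mem_symplecticGroup_iff_forall.mp A.2]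
    have h3 : ∀ a b c d e : F, a + b + e + (c + d + e) = a + c + (b + d) := by
      intro a b c d e
      have : e + e = 0 := CharTwo.add_self_eq_zero e
      linear_combination this
    exact h3 _ _ _ _ _
  map_smul' c x := by
    have e1 : ∀ (c : F) (y : Fin m ⊕ Fin m → F), quadFormOdd m F (inc (c • y)) = c ^ 2 * quadFormOdd m F (inc y) := by
      intro c y
      simp only [quadFormOdd, inc, Sum.elim_inl, Sum.elim_inr, Pi.smul_apply, smul_eq_mul]
      have h0 : ((0 : F) ^ 2) = 0 := by simp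
      rw [h0, zero_add, zero_add, Finset.mul_sum]
      exact Finset.sum_congr rfl fun i _ => by ring
    rw [Matrix.mulVec_smul, e1, e1, ← mul_add, map_mul, map_pow]
    have h1 : rt c ^ 2 = c := rt_sq c
    simp only [RingHom.id_apply, smul_eq_mul]
    congr 1

theorem lam_sq (A : symplecticGroup (Fin m) F) (x : Fin m ⊕ Fin m → F) :
    lam A x ^ 2 = quadFormOdd m F (inc x) + quadFormOdd m F (inc (A.1 *ᵥ x)) :=
  rt_sq _

/-- The linear map on the big space attached to `A`. -/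
noncomputable def bigLin (A : symplecticGroup (Fin m) F) :
    (Unit ⊕ (Fin m ⊕ Fin m) → F) →ₗ[F] (Unit ⊕ (Fin m ⊕ Fin m) → F) where
  toFun u := Sum.elim (fun _ => u (Sum.inl ()) + lam A (pr u)) (A.1 *ᵥ pr u)
  map_add' u v := by
    funext z
    rcases z with ⟨⟩ | z
    · simp only [Sum.elim_inl, Pi.add_apply, pr_add, map_add]
      ring
    · simp [pr_add, Matrix.mulVec_add]
  map_smul' c u := by
    funext z
    rcases z with ⟨⟩ | z
    · simp only [Sum.elim_inl, Pi.smul_apply, pr_smul, map_smul, smul_eq_mul, RingHom.id_apply]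
      ring
    · simp [pr_smul, Matrix.mulVec_smul]

@[simp] theorem bigLin_inl (A : symplecticGroup (Fin m) F) (u : Unit ⊕ (Fin m ⊕ Fin m) → F) :
    bigLin A u (Sum.inl ()) = u (Sum.inl ()) + lam A (pr u) := rfl

@[simp] theorem pr_bigLin (A : symplecticGroup (Fin m) F) (u : Unit ⊕ (Fin m ⊕ Fin m) → F) :
    pr (bigLin A u) = A.1 *ᵥ pr u := rfl

/-- The inverse. -/
noncomputable def bigEquiv (A : symplecticGroup (Fin m) F) :
    (Unit ⊕ (Fin m ⊕ Fin m) → F) ≃ₗ[F] (Unit ⊕ (Fin m ⊕ Fin m) → F) :=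
  LinearEquiv.ofBijective (bigLin A) (by
    have hinj : Function.Injective (bigLin A) := by
      rw [injective_iff_map_eq_zero]
      intro u hu
      have h1 : A.1 *ᵥ pr u = 0 := by
        rw [← pr_bigLin, hu]
        rfl
      have h2 : pr u = 0 := by
        have h3 : (A⁻¹).1 *ᵥ (A.1 *ᵥ pr u) = pr u := by
          rw [Matrix.mulVec_mulVec, ← Submonoid.coe_mul, inv_mul_cancel]
          simp
        rw [← h3, h1]
        simp
      have h3 : bigLin A u (Sum.inl ()) = 0 := by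
        rw [hu]
        rfl
      rw [bigLin_inl, h2, map_zero, add_zero] at h3
      apply ext_vec
      · exact h3
      · exact h2
    exact ⟨hinj, LinearMap.injective_iff_surjective.mp hinj⟩)

theorem toSp_surjective : Function.Surjective (toSp (m := m) (F := F)) := by
  intro A
  let G := bigEquiv A
  have hG : ∀ u, G u = bigLin A u := fun u => rfl
  let g : GL (Unit ⊕ (Fin m ⊕ Fin m)) F := glOfEquiv G
  have hg : ∀ u, g.1 *ᵥ u = bigLin A u := fun u => (glOfEquiv_mulVec G u).trans (hG u)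
  have hgO : g ∈ OO m F := by
    intro u _
    change quadFormOdd m F (g.1 *ᵥ u) = quadFormOdd m F u
    rw [hg, Q_eq, pr_bigLin, bigLin_inl]
    conv_rhs => rw [Q_eq]
    have h1 : (u (Sum.inl ()) + lam A (pr u)) ^ 2 = u (Sum.inl ()) ^ 2 + lam A (pr u) ^ 2 := by
      have : (u (Sum.inl ()) + lam A (pr u)) ^ 2 = u (Sum.inl ()) ^ 2 + lam A (pr u) ^ 2 +
        2 * (u (Sum.inl ()) * lam A (pr u)) := by ring
      rw [this, two_eq_zero']
      simp
    rw [h1, lam_sq]
    have h2 : ∀ a b c : F, a + (b + c) + c = a + b := by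
      intro a b c
      have : c + c = 0 := CharTwo.add_self_eq_zero c
      linear_combination this
    exact h2 _ _ _
  refine ⟨⟨g, hgO⟩, ?_⟩
  apply Subtype.ext
  apply Matrix.toLin'.injective
  apply LinearMap.ext
  intro x
  rw [Matrix.toLin'_apply, Matrix.toLin'_apply]
  change blockA g *ᵥ x = A.1 *ᵥ x
  have h1 := pr_mulVec hgO (inc x)
  rw [pr_inc, hg, pr_bigLin, pr_inc] at h1
  exact h1.symm

end CharTwo

/-- In characteristic 2, O_{2m+1}(q) is isomorphic to Sp_{2m}(q). -/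
theorem result {F : Type*} [Field F] [Fintype F] [CharP F 2] (m : ℕ) : Nonempty (Cfsg.isometryGroup F (Cfsg.quadFormOdd m F) ≃* Matrix.symplecticGroup (Fin m) F) := by
  exact ⟨MulEquiv.ofBijective toSp ⟨toSp_injective, toSp_surjective⟩⟩

end Cfsg.Agent.S0304
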