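import Cfsg.Statements.S0305
import Mathlib
import Cfsg.Agent.Lib.Linalg.BinaryAniso
import Cfsg.Agent.S0287
-- import your own Cfsg.Agent.* helpers here

set_option autoImplicit false
open Cfsg

namespace Cfsg.Agent.S0305

variable {F : Type*} [Field F]

/-- The group of isometries of `xy`. -/
def hypGroup (F : Type*) [Field F] : Subgroup ((F × F) ≃ₗ[F] (F × F)) where
  carrier := {g | ∀ z, (g z).1 * (g z).2 = z.1 * z.2}
  mul_mem' {x y} hx hy z := by rw [LinearEquiv.mul_apply, hx, hy]
  one_mem' z := rfl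
  inv_mem' {x} hx z := by
    have h := hx (x⁻¹ z)
    rw [← LinearEquiv.mul_apply, mul_inv_cancel] at h
    exact h.symm

/-- `diag(u, u⁻¹)`. -/
def diagE : Fˣ →* ((F × F) ≃ₗ[F] (F × F)) where
  toFun u :=
    { toFun := fun z => ((u : F) * z.1, ((u⁻¹ : Fˣ) : F) * z.2)
      invFun := fun z => (((u⁻¹ : Fˣ) : F) * z.1, (u : F) * z.2)
      map_add' := fun x y => by ext <;> simp <;> ring
      map_smul' := fun c x => by ext <;> simp <;> ring
      left_inv := fun z => by ext <;> simp
      right_inv := fun z => by ext <;> simp }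
  map_one' := by ext <;> simp
  map_mul' u v := by ext <;> simp <;> ring

@[simp] theorem diagE_fst (u : Fˣ) (z : F × F) : (diagE u z).1 = u * z.1 := rfl
@[simp] theorem diagE_snd (u : Fˣ) (z : F × F) : (diagE u z).2 = ((u⁻¹ : Fˣ) : F) * z.2 := rfl

theorem diagE_injective : Function.Injective (diagE : Fˣ →* ((F × F) ≃ₗ[F] (F × F))) := by
  intro u v h
  have := congrArg (fun g : (F × F) ≃ₗ[F] (F × F) => (g (1, 0)).1) h
  simp only [diagE_fst, mul_one] at this
  exact Units.ext this

/-- Coordinates. -/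
def coordP (F : Type*) [Field F] : (Fin 1 ⊕ Fin 1 → F) ≃ₗ[F] (F × F) where
  toFun v := (v (.inl 0), v (.inr 0))
  invFun z := Sum.elim (fun _ => z.1) (fun _ => z.2)
  map_add' x y := by ext <;> simp
  map_smul' c x := by ext <;> simp
  left_inv v := by
    funext x
    match x with
    | .inl i => fin_cases i; rfl
    | .inr i => fin_cases i; rfl
  right_inv z := by ext <;> simp

theorem hyp_group_dihedral [Fintype F] {q : ℕ} (hF : Fintype.card F = q) (hcard : Nat.card (hypGroup F) = 2 * (q - 1)) :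
    Nonempty (hypGroup F ≃* DihedralGroup (q - 1)) := by
  classical
  have hq2 : 1 < q := hF ▸ Fintype.one_lt_card
  obtain ⟨g, hg⟩ := IsCyclic.exists_generator (α := Fˣ)
  have hord : orderOf g = q - 1 := by
    rw [orderOf_eq_card_of_forall_mem_zpowers hg, Nat.card_eq_fintype_card, Fintype.card_units, hF]
  let r : hypGroup F := ⟨diagE g, fun z => by
    simp only [diagE_fst, diagE_snd]
    have : (g : F) * ((g⁻¹ : Fˣ) : F) = 1 := by simp
    linear_combination (z.1 * z.2) * this⟩
  let s : hypGroup F := ⟨LinearEquiv.prodComm F F F, fun z => mul_comm _ _⟩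
  have hr : orderOf r = q - 1 := by
    rw [← hord, ← orderOf_injective (hypGroup F).subtype (Subgroup.subtype_injective _) r]
    exact orderOf_injective diagE diagE_injective g
  have hs : s * s = 1 := by
    ext z : 2
    rfl
  have hrs : s * r * s⁻¹ = r⁻¹ := by
    have hinv : s⁻¹ = s := by rw [inv_eq_iff_mul_eq_one]; exact hs
    rw [eq_inv_iff_mul_eq_one, hinv]
    ext z
    · change ((g⁻¹ : Fˣ) : F) * ((g : F) * z.1) = z.1
      simp
    · change ((g : F)) * (((g⁻¹ : Fˣ) : F) * z.2) = z.2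
      simp
  have hsn : s ∉ Subgroup.zpowers r := by
    rintro ⟨k, hk⟩
    have h1 : ∀ k : ℤ, ((r ^ k : hypGroup F) : (F × F) ≃ₗ[F] (F × F)) = diagE (g ^ k) := by
      intro k
      rw [map_zpow]
      rfl
    have h2 := congrArg (fun t : hypGroup F => (t.1 (1, 0)).2) hk
    simp only [h1, diagE_snd] at h2
    have h3 : (s.1 (1, 0)).2 = (1 : F) := rfl
    rw [h3] at h2
    simp at h2
  haveI : NeZero (q - 1) := ⟨by omega⟩
  haveI : Finite (hypGroup F) := by
    haveI : Finite ((F × F) ≃ₗ[F] (F × F)) :=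
      Finite.of_injective (fun g : (F × F) ≃ₗ[F] (F × F) => (g : F × F → F × F)) DFunLike.coe_injective
    infer_instance
  exact Cfsg.Agent.Lib.PGroup.PowZ.nonempty_mulEquiv_dihedralGroup hr hs hrs hsn hcard


/-- GO^+_2(q) is dihedral of order 2(q-1). -/
theorem result {F : Type*} [Field F] [Fintype F] {q : ℕ} (hF : Fintype.card F = q) : Nonempty (Cfsg.isometryGroup F (Cfsg.quadFormPlus 1 F) ≃* DihedralGroup (q - 1)) := by
  obtain ⟨e⟩ := Cfsg.Agent.Lib.Linalg.BinaryAniso.isometry_equiv_of_coord (Cfsg.quadFormPlus 1 F) (coordP F)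
    (fun z => z.1 * z.2) (fun v => by simp [coordP, Cfsg.quadFormPlus]) (hypGroup F) (fun _ => Iff.rfl)
  have hq2 : 1 < q := hF ▸ Fintype.one_lt_card
  have hc := Cfsg.Agent.S0287.result hF 1 le_rfl
  simp only [Nat.sub_self, Finset.range_zero, Finset.prod_empty, mul_zero, pow_zero, mul_one, pow_one] at hc
  rw [Nat.card_congr e.toEquiv] at hc
  obtain ⟨e2⟩ := hyp_group_dihedral hF hc
  exact ⟨e.trans e2⟩

end Cfsg.Agent.S0305
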