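import Cfsg.Statements.S0307
import Mathlib
-- import your own Cfsg.Agent.* helpers here

set_option autoImplicit false
open Cfsg

namespace Cfsg.Agent.S0307

open scoped MatrixGroups
set_option linter.style.haveILetI false

/-- PSL_n(q) is normal in PGL_n(q) with cyclic quotient of order gcd(n, q-1): the image of the natural map PSL_n → PGL_n is the kernel of a surjective homomorphism onto the cyclic group of that order. -/
theorem result {F : Type*} [Field F] [Fintype F] {q : ℕ} (hF : Fintype.card F = q) (n : ℕ) (hn : 1 ≤ n) : ∃ g : Matrix.ProjGenLinGroup (Fin n) F →* Multiplicative (ZMod (Nat.gcd n (q - 1))), Function.Surjective g ∧ g.ker = (Matrix.ProjectiveSpecialLinearGroup.toPGL : Matrix.ProjectiveSpecialLinearGroup (Fin n) F →* Matrix.ProjGenLinGroup (Fin n) F).range := by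
  classical
  subst hF
  set d := Nat.gcd n (Fintype.card F - 1) with hd
  have hdpos : 0 < d := Nat.gcd_pos_of_pos_left _ hn
  haveI : NeZero d := ⟨hdpos.ne'⟩
  obtain ⟨γ, hγ⟩ := IsCyclic.exists_generator (α := Fˣ)
  have hord : orderOf γ = Fintype.card F - 1 := by
    rw [orderOf_eq_card_of_forall_mem_zpowers hγ, Nat.card_eq_fintype_card, Fintype.card_units]
  let t : Multiplicative (ZMod d) := Multiplicative.ofAdd 1
  have hordt : orderOf t = d := by
    rw [orderOf_ofAdd_eq_addOrderOf, ZMod.addOrderOf_one]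
  let χ : Fˣ →* Multiplicative (ZMod d) :=
    monoidHomOfForallMemZpowers hγ (g' := t) (by rw [hordt, hord]; exact Nat.gcd_dvd_right _ _)
  have hχγ : χ γ = t := monoidHomOfForallMemZpowers_apply_gen hγ _
  have hpow : ∀ y : Multiplicative (ZMod d), y ^ n = 1 := by
    intro y
    have h1 : y ^ d = 1 := by
      have := pow_card_eq_one' (x := y)
      rwa [Nat.card_eq_fintype_card, Fintype.card_multiplicative, ZMod.card] at this
    obtain ⟨c, hc⟩ : d ∣ n := Nat.gcd_dvd_left _ _
    rw [hc, pow_mul, h1, one_pow]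
  let f : GL (Fin n) F →* Multiplicative (ZMod d) := χ.comp Matrix.GeneralLinearGroup.det
  have hf : f.comp (Matrix.GeneralLinearGroup.scalar (Fin n)) = 1 := by
    ext u
    simp [f, hpow]
  refine ⟨Matrix.ProjGenLinGroup.lift f hf, ?_, ?_⟩
  · intro y
    have hsurj : ∃ k : ℕ, t ^ k = y := by
      refine ⟨(Multiplicative.toAdd y).val, ?_⟩
      apply Multiplicative.toAdd.injective
      simp [t]
    obtain ⟨k, rfl⟩ := hsurj
    haveI : Nonempty (Fin n) := ⟨⟨0, hn⟩⟩
    obtain ⟨A, hA⟩ := Matrix.GeneralLinearGroup.det_surjective (n := Fin n) (R := F) (γ ^ k)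
    refine ⟨Matrix.ProjGenLinGroup.mk A, ?_⟩
    rw [Matrix.ProjGenLinGroup.lift_mk]
    simp [f, hA, hχγ]
  · ext x
    induction x using Matrix.ProjGenLinGroup.induction_on with
    | mk g0 =>
    rw [MonoidHom.mem_ker, Matrix.ProjGenLinGroup.lift_mk]
    constructor
    · intro hx
      obtain ⟨k, hk⟩ := Subgroup.mem_zpowers_iff.mp (hγ (Matrix.GeneralLinearGroup.det g0))
      have h1 : t ^ k = 1 := by
        have : f g0 = χ (Matrix.GeneralLinearGroup.det g0) := rfl
        rw [this, ← hk, map_zpow, hχγ] at hx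
        exact hx
      have h2 : (d : ℤ) ∣ k := by
        rw [← hordt]
        exact orderOf_dvd_iff_zpow_eq_one.mpr h1
      obtain ⟨m, hm⟩ := h2
      have hbez : (d : ℤ) = n * Nat.gcdA n (Fintype.card F - 1) + (Fintype.card F - 1 : ℕ) * Nat.gcdB n (Fintype.card F - 1) :=
        Nat.gcd_eq_gcd_ab _ _
      have hγq : γ ^ ((Fintype.card F - 1 : ℕ) : ℤ) = 1 := by
        rw [← hord, zpow_natCast, pow_orderOf_eq_one]
      set μ : Fˣ := γ ^ (Nat.gcdA n (Fintype.card F - 1) * m) with hμ
      have hμn : μ ^ n = Matrix.GeneralLinearGroup.det g0 := by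
        rw [← hk, hm, hbez, hμ, ← zpow_natCast, ← zpow_mul, add_mul, zpow_add, mul_assoc ((Fintype.card F - 1 : ℕ) : ℤ),
          zpow_mul _ ((Fintype.card F - 1 : ℕ) : ℤ), hγq, one_zpow, mul_one]
        congr 1
        ring
      let A : GL (Fin n) F := g0 * Matrix.GeneralLinearGroup.scalar (Fin n) μ⁻¹
      have hAdet : (A : Matrix (Fin n) (Fin n) F).det = 1 := by
        have h3 : Matrix.GeneralLinearGroup.det A = 1 := by
          simp [A, ← hμn]
        exact congrArg Units.val h3
      let S : Matrix.SpecialLinearGroup (Fin n) F := ⟨A, hAdet⟩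
      refine ⟨(QuotientGroup.mk S : Matrix.ProjectiveSpecialLinearGroup (Fin n) F), ?_⟩
      rw [Matrix.ProjectiveSpecialLinearGroup.toPGL_mk]
      rw [Matrix.ProjGenLinGroup.mk_eq_mk_iff]
      refine ⟨μ, ?_⟩
      have hSA : Matrix.SpecialLinearGroup.toGL S = A := Units.ext rfl
      rw [hSA]
      simp only [A, mul_assoc, ← map_mul, inv_mul_cancel, map_one, mul_one]
    · rintro ⟨y, hy⟩
      induction y using QuotientGroup.induction_on with
      | H S =>
      rw [Matrix.ProjectiveSpecialLinearGroup.toPGL_mk, Matrix.ProjGenLinGroup.mk_eq_mk_iff] at hy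
      obtain ⟨u, hu⟩ := hy
      have h1 : Matrix.GeneralLinearGroup.det g0 = u ^ n := by
        rw [← hu, map_mul]
        have h2 : Matrix.GeneralLinearGroup.det (Matrix.SpecialLinearGroup.toGL S) = 1 := by
          apply Units.ext
          exact S.2
        rw [h2, one_mul]
        simp
      change χ (Matrix.GeneralLinearGroup.det g0) = 1
      rw [h1, map_pow, hpow]

end Cfsg.Agent.S0307
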