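import Cfsg.Statements.S0320
import Cfsg.Agent.Lib.BNPair.Basic
import Cfsg.Agent.Lib.BNPair.CoxeterExchange
-- import your own Cfsg.Agent.* helpers here

set_option autoImplicit false
open Cfsg
open Cfsg.Agent.Lib.BNPair

namespace Cfsg.Agent.S0320

/-- The Weyl group `W = N / (B ⊓ N)` of a (B,N)-pair, with its distinguished involutions, is a Coxeter system. -/
theorem result {G : Type*} [Group G] (P : Cfsg.BNPair G)
    [hN : ((P.B ⊓ P.N).subgroupOf P.N).Normal] :
    ∃ (M : CoxeterMatrix P.S) (cs : CoxeterSystem M (P.N ⧸ (P.B ⊓ P.N).subgroupOf P.N)),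
      ∀ s : P.S, cs.simple s = QuotientGroup.mk (⟨(s : G), P.subset s.2⟩ : P.N) := by
  classical
  let T' : Subgroup P.N := (P.B ⊓ P.N).subgroupOf P.N
  let f : P.S → P.N ⧸ T' := fun s => QuotientGroup.mk (⟨(s : G), P.subset s.2⟩ : P.N)
  have mk_eq : ∀ a b : P.N, (QuotientGroup.mk a : P.N ⧸ T') = QuotientGroup.mk b ↔
      (a : G)⁻¹ * (b : G) ∈ P.B := by
    intro a b
    rw [QuotientGroup.eq]
    constructor
    · intro h
      have h2 : ((a⁻¹ * b : P.N) : G) ∈ P.B ⊓ P.N := Subgroup.mem_subgroupOf.1 h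
      exact h2.1
    · intro h
      exact Subgroup.mem_subgroupOf.2 ⟨h, (a⁻¹ * b : P.N).2⟩
  let L : (P.N ⧸ T') → ℕ := fun w => Basic.len P ((Quotient.out w : P.N) : G)
  have L_mk : ∀ n : P.N, L (QuotientGroup.mk n) = Basic.len P (n : G) := by
    intro n
    apply Basic.len_congr
    exact (mk_eq _ _).1 (QuotientGroup.out_eq' _)
  have hprodN : ∀ l : List P.S, (l.map Subtype.val).prod ∈ P.N := by
    intro l
    apply Basic.prod_mem_N
    intro x hx
    obtain ⟨y, _, rfl⟩ := List.mem_map.1 hx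
    exact y.2
  have hpr : ∀ l : List P.S, CoxeterExchange.pr f l =
      QuotientGroup.mk (⟨(l.map Subtype.val).prod, hprodN l⟩ : P.N) := by
    intro l
    induction l with
    | nil => rfl
    | cons i l ih =>
      rw [CoxeterExchange.pr_cons, ih]
      rfl
  have hlist : ∀ l : List P.S, ∀ x ∈ l.map Subtype.val, x ∈ P.S := by
    intro l x hx
    obtain ⟨y, _, rfl⟩ := List.mem_map.1 hx
    exact y.2
  have hs : CoxeterExchange.Setup f L := by
    refine ⟨?_, ?_, ?_, ?_, ?_⟩
    · intro i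
      show (QuotientGroup.mk (⟨(i : G), P.subset i.2⟩ * ⟨(i : G), P.subset i.2⟩ : P.N) : P.N ⧸ T') = 1
      rw [← QuotientGroup.mk_one, mk_eq]
      have := P.B.inv_mem (P.sq_mem i i.2)
      simpa using this
    · intro l
      rw [hpr, L_mk]
      have := Basic.len_prod_le (hlist l)
      simpa using this
    · intro w
      obtain ⟨n, rfl⟩ := QuotientGroup.mk_surjective w
      obtain ⟨l₀, hr, hlen⟩ := Basic.exists_min n.2
      have hl₀ := hr.1
      lift l₀ to List P.S using hl₀
      refine ⟨l₀, ?_, ?_⟩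
      · rw [hpr, eq_comm, mk_eq]
        exact hr.2
      · rw [L_mk, ← hlen]
        simp
    · intro i w
      obtain ⟨n, rfl⟩ := QuotientGroup.mk_surjective w
      show L (QuotientGroup.mk (⟨(i : G), P.subset i.2⟩ * n : P.N)) ≠ _
      rw [L_mk, L_mk]
      exact Basic.len_ne i.2 n.2
    · intro i l h1 h2
      rw [hpr, L_mk] at h1
      have h2' : Basic.len P ((i : G) * (l.map Subtype.val).prod) < l.length := by
        rw [hpr] at h2
        have e : f i * QuotientGroup.mk (⟨(l.map Subtype.val).prod, hprodN l⟩ : P.N) =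
            QuotientGroup.mk (⟨(i : G) * (l.map Subtype.val).prod,
              P.N.mul_mem (P.subset i.2) (hprodN l)⟩ : P.N) := rfl
        rw [e, L_mk] at h2
        exact h2
      obtain ⟨l₁', x, l₂', e, hb⟩ := Basic.exchange i.2 (l.map Subtype.val) (hlist l)
        (by rw [h1]; simp) (by simpa using h2')
      obtain ⟨l₁, l₃, rfl, rfl, h4⟩ := List.map_eq_append_iff.1 e
      obtain ⟨j, l₂, rfl, rfl, rfl⟩ := List.map_eq_cons_iff.1 h4
      refine ⟨l₁, j, l₂, rfl, ?_⟩
      rw [hpr]
      show QuotientGroup.mk (⟨(i : G) * (l₁.map Subtype.val).prod,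
          P.N.mul_mem (P.subset i.2) (hprodN l₁)⟩ : P.N) =
        QuotientGroup.mk (⟨(l₁.map Subtype.val).prod * (j : G),
          P.N.mul_mem (hprodN l₁) (P.subset j.2)⟩ : P.N)
      rw [mk_eq]
      exact hb
  have hinj : Function.Injective f := by
    intro i j h
    have h1 := (mk_eq _ _).1 h
    exact Subtype.ext (P.inj i i.2 j j.2 h1)
  exact CoxeterExchange.exists_coxeterSystem hs hinj

end Cfsg.Agent.S0320
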