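import Cfsg.Statements.S0323
import Mathlib

set_option autoImplicit false
open scoped Pointwise
open Cfsg

namespace Cfsg.Agent.S0323

theorem aux {G Ω : Type*} [Group G] [MulAction G Ω]
    (h2 : MulAction.IsMultiplyPretransitive G Ω 2) {x y z : Ω} (hxy : x ≠ y) (hyz : y ≠ z) (hxz : x ≠ z) :
    ∃ P : Cfsg.BNPair G, P.B = MulAction.stabilizer G x ∧
      P.N = MulAction.stabilizer G ({x, y} : Set Ω) ∧ P.rank = 1 := by
  classical
  have h2' : ∀ (a b c d : Ω), a ≠ b → c ≠ d → ∃ g : G, g • a = c ∧ g • b = d :=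
    fun a b c d h h' => MulAction.is_two_pretransitive_iff.1 h2 h h'
  obtain ⟨s, hsx, hsy⟩ := h2' x y y x hxy hxy.symm
  set B := MulAction.stabilizer G x with hB
  set N := MulAction.stabilizer G ({x, y} : Set Ω) with hN
  have memB : ∀ {g : G}, g ∈ B ↔ g • x = x := Iff.rfl
  have memN : ∀ {g : G}, g ∈ N ↔ g • ({x, y} : Set Ω) = {x, y} := Iff.rfl
  have memN' : ∀ {g : G}, g ∈ N → (g • x = x ∧ g • y = y) ∨ (g • x = y ∧ g • y = x) := by
    intro g hg
    have h := memN.1 hg
    have h1 : g • x ∈ ({x, y} : Set Ω) := by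
      rw [← h]; exact Set.smul_mem_smul_set (by simp)
    have h3 : g • y ∈ ({x, y} : Set Ω) := by
      rw [← h]; exact Set.smul_mem_smul_set (by simp)
    simp only [Set.mem_insert_iff, Set.mem_singleton_iff] at h1 h3
    have hinj : g • x ≠ g • y := fun e => hxy (MulAction.injective g e)
    rcases h1 with h1 | h1 <;> rcases h3 with h3 | h3
    · exact absurd (h1.trans h3.symm) hinj
    · exact Or.inl ⟨h1, h3⟩
    · exact Or.inr ⟨h1, h3⟩
    · exact absurd (h1.trans h3.symm) hinj
  have memN2 : ∀ {g : G}, (g • x = x ∧ g • y = y) ∨ (g • x = y ∧ g • y = x) → g ∈ N := by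
    intro g hg
    apply memN.2
    rw [Set.smul_set_insert, Set.smul_set_singleton]
    rcases hg with ⟨h1, h3⟩ | ⟨h1, h3⟩
    · rw [h1, h3]
    · rw [h1, h3, Set.pair_comm]
  have hsN : s ∈ N := memN2 (Or.inr ⟨hsx, hsy⟩)
  -- G = B ∪ BsB
  have hdec : ∀ g : G, g ∈ B ∨ ∃ b ∈ B, ∃ b' ∈ B, g = b * s * b' := by
    intro g
    by_cases hg : g • x = x
    · exact Or.inl hg
    · right
      obtain ⟨b, hbx, hby⟩ := h2' x y x (g • x) hxy (Ne.symm hg)
      refine ⟨b, hbx, (b * s)⁻¹ * g, ?_, by group⟩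
      apply memB.2
      rw [mul_smul, inv_smul_eq_iff, mul_smul, hsx, hby]
  have hsB : s ∉ B := fun h => hxy ((memB.1 h).symm.trans hsx)
  refine ⟨{ B := B, N := N, S := {s}, sup_eq_top := ?_, conj_mem := ?_, subset := ?_,
            sq_mem := ?_, inj := ?_, closure_sup := ?_, mul_mem_union := ?_, conj_ne := ?_ },
            rfl, rfl, ?_⟩
  · rw [eq_top_iff]
    intro g _
    rcases hdec g with h | ⟨b, hb, b', hb', rfl⟩
    · exact (le_sup_left : B ≤ B ⊔ N) h
    · have h1 := (le_sup_left : B ≤ B ⊔ N)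
      have h3 := (le_sup_right : N ≤ B ⊔ N)
      exact Subgroup.mul_mem _ (Subgroup.mul_mem _ (h1 hb) (h3 hsN)) (h1 hb')
  · rintro n hn t ⟨htB, htN⟩
    apply memB.2
    have htx : t • x = x := memB.1 htB
    have hty : t • y = y := by
      rcases memN' htN with ⟨_, h⟩ | ⟨h, _⟩
      · exact h
      · exact absurd (htx.symm.trans h) hxy
    have hninv := memN' (N.inv_mem hn)
    rw [mul_smul, mul_smul]
    rcases hninv with ⟨h1, _⟩ | ⟨h1, _⟩
    · rw [h1, htx]
      calc n • x = n • (n⁻¹ • x) := by rw [h1]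
        _ = x := smul_inv_smul n x
    · rw [h1, hty, ← h1, smul_inv_smul]
  · rintro _ rfl
    exact hsN
  · rintro _ rfl
    apply memB.2
    rw [mul_smul, hsx, hsy]
  · rintro _ rfl _ rfl _
    rfl
  · apply le_antisymm
    · refine sup_le ?_ inf_le_right
      rw [Subgroup.closure_le]
      rintro _ rfl
      exact hsN
    · intro n hn
      rcases memN' hn with ⟨h1, _⟩ | ⟨h1, _⟩
      · exact (le_sup_right : B ⊓ N ≤ _) ⟨h1, hn⟩
      · have h3 : s⁻¹ * n ∈ B ⊓ N := by
          refine ⟨?_, N.mul_mem (N.inv_mem hsN) hn⟩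
          apply memB.2
          rw [mul_smul, h1, inv_smul_eq_iff, hsx]
        have e : n = s * (s⁻¹ * n) := by group
        rw [e]
        exact Subgroup.mul_mem _
          ((le_sup_left : Subgroup.closure {s} ≤ _) (Subgroup.subset_closure rfl))
          ((le_sup_right : B ⊓ N ≤ _) h3)
  · rintro s' hs' n hn b hb
    rw [show s' = s from hs']
    rcases memN' hn with ⟨h1, _⟩ | ⟨h1, h3⟩
    · left
      have hnB : n ∈ B := h1
      refine DoubleCoset.mem_doubleCoset.2 ⟨1, B.one_mem, n⁻¹ * b * n,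
        B.mul_mem (B.mul_mem (B.inv_mem hnB) hb) hnB, by group⟩
    · rcases hdec (s * b * n) with h | ⟨b₁, hb₁, b₂, hb₂, e⟩
      · left
        have hsn : s * n ∈ B := by
          apply memB.2
          rw [mul_smul, h1, hsy]
        refine DoubleCoset.mem_doubleCoset.2 ⟨s * b * n, h, (s * n)⁻¹, B.inv_mem hsn, by group⟩
      · right
        have ht : n⁻¹ * s ∈ B := by
          apply memB.2
          rw [mul_smul, hsx]
          rw [inv_smul_eq_iff, h1]
        refine DoubleCoset.mem_doubleCoset.2 ⟨b₁, hb₁, n⁻¹ * s * b₂, B.mul_mem ht hb₂, ?_⟩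
        rw [e]; group
  · rintro s' hs' heq
    rw [show s' = s from hs'] at heq
    obtain ⟨b, hbx, hby⟩ := h2' x y x z hxy hxz
    have hbB : b ∈ B := hbx
    have hmem : s * b * s ∈ (B : Set G) := by
      rw [← heq]; exact ⟨b, hbB, rfl⟩
    have h1 : (s * b * s) • x = x := memB.1 hmem
    rw [mul_smul, mul_smul, hsx, hby] at h1
    have h3 : s • z = s • y := h1.trans hsy.symm
    exact hyz (MulAction.injective s h3).symm
  · simp [Cfsg.BNPair.rank]

/-- A doubly transitive action on a set with at least three points yields a (B,N)-pair of rank one: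
`B` is the stabiliser of a point `x`, `N` the setwise stabiliser of a pair `{x, y}`. -/
theorem result {G Ω : Type*} [Group G] [MulAction G Ω]
    (h2 : MulAction.IsMultiplyPretransitive G Ω 2) {x y z : Ω} (hxy : x ≠ y) (hyz : y ≠ z) (hxz : x ≠ z) :
    ∃ P : Cfsg.BNPair G, P.B = MulAction.stabilizer G x ∧
      P.N = MulAction.stabilizer G ({x, y} : Set Ω) ∧ P.rank = 1 := aux h2 hxy hyz hxz

end Cfsg.Agent.S0323
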