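import Cfsg.Statements.S0325
import Mathlib
import Cfsg.Agent.Lib.Suzuki.Gen

set_option autoImplicit false
open Cfsg

namespace Cfsg.Agent.S0325

/-- The Suzuki group over a field with `2^(2m+1)` elements, `m ≥ 1`, is a simple group. -/
theorem result {F : Type*} [Field F] [Fintype F] {m : ℕ} (hm : 1 ≤ m)
    (hF : Fintype.card F = 2 ^ (2 * m + 1)) :
    IsSimpleGroup (Cfsg.Sz F m) :=
  Cfsg.Agent.Lib.Suzuki.Gen.isSimple ⟨hm, hF⟩

end Cfsg.Agent.S0325
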