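import Cfsg.Statements.S0328
import Mathlib
import Cfsg.Agent.Lib.Suzuki.Order
-- import your own Cfsg.Agent.* helpers here

set_option autoImplicit false
open Cfsg

namespace Cfsg.Agent.S0328

/-- The stabiliser in the Suzuki group of the two ovoid points spanned by `(1,0,0,0)` and `(0,0,0,1)` is
isomorphic to the multiplicative group of the field (cyclic of order `q - 1`). -/
theorem result {F : Type*} [Field F] [Fintype F] {m : ℕ} (hm : 1 ≤ m)
    (hF : Fintype.card F = 2 ^ (2 * m + 1)) :
    Nonempty (↥(MulAction.stabilizer (Cfsg.Sz F m) (Cfsg.suzukiPointInfinity F) ⊓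
        MulAction.stabilizer (Cfsg.Sz F m) (Cfsg.suzukiPointZero F)) ≃* Fˣ) := by
  have H : Cfsg.Agent.Lib.Suzuki.Basic.Hyp F m := ⟨hm, hF⟩
  open Cfsg.Agent.Lib.Suzuki.Struct Cfsg.Agent.Lib.Suzuki.Basic in
  have hmem : ∀ k : Fˣ, Dg H k ∈ MulAction.stabilizer (Cfsg.Sz F m) (Cfsg.suzukiPointInfinity F) ⊓
        MulAction.stabilizer (Cfsg.Sz F m) (Cfsg.suzukiPointZero F) := by
    intro k
    rw [Subgroup.mem_inf, MulAction.mem_stabilizer_iff, MulAction.mem_stabilizer_iff]
    constructor
    · exact congrArg Subtype.val (Dg_oI H k)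
    · have := congrArg Subtype.val (Dg_oA H k 0 0)
      simp only [mul_zero] at this
      rw [← pA_zero H]
      exact this
  open Cfsg.Agent.Lib.Suzuki.Struct Cfsg.Agent.Lib.Suzuki.Basic in
  let φ : Fˣ →* ↥(MulAction.stabilizer (Cfsg.Sz F m) (Cfsg.suzukiPointInfinity F) ⊓
        MulAction.stabilizer (Cfsg.Sz F m) (Cfsg.suzukiPointZero F)) :=
    { toFun := fun k => ⟨Dg H k, hmem k⟩
      map_one' := Subtype.ext (Dg_one H)
      map_mul' := fun k l => Subtype.ext (Dg_mul H k l).symm }
  open Cfsg.Agent.Lib.Suzuki.Struct Cfsg.Agent.Lib.Suzuki.Basic in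
  have hφ : Function.Bijective φ := by
    constructor
    · intro k l hkl
      have h1 : Dg H k = Dg H l := congrArg Subtype.val hkl
      have h2 : Dg H k • (oA 1 0 : Om F m) = Dg H l • (oA 1 0 : Om F m) := by rw [h1]
      simp only [Dg_oA H] at h2
      have := (oA_inj h2).1
      exact Units.ext (by simpa using this)
    · rintro ⟨g, hg1, hg2⟩
      have hI : g • (oI : Om F m) = oI := by
        apply Subtype.ext
        exact (MulAction.mem_stabilizer_iff.mp hg1)
      have h0 : g • (oA 0 0 : Om F m) = oA 0 0 := by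
        apply Subtype.ext
        have := MulAction.mem_stabilizer_iff.mp hg2
        change (g : Matrix.SpecialLinearGroup (Fin 4) F) • (pA m (0 : F) 0) = pA m 0 0
        rw [pA_zero H]
        exact this
      obtain ⟨k, rfl⟩ := eq_Dg_of_fix H g hI h0
      exact ⟨k, rfl⟩
  exact ⟨(MulEquiv.ofBijective φ hφ).symm⟩

end Cfsg.Agent.S0328
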