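import Cfsg.Statements.S0330
import Mathlib
import Cfsg.Agent.Lib.Suzuki.Syl

set_option autoImplicit false
open Cfsg

namespace Cfsg.Agent.S0330

open Cfsg.Agent.Lib.Suzuki.Basic Cfsg.Agent.Lib.Suzuki.Syl Cfsg.Agent.Lib.Suzuki.Sub

theorem result {F : Type*} [Field F] [Fintype F] {m : ℕ} (hm : 1 ≤ m)
    (hF : Fintype.card F = 2 ^ (2 * m + 1)) (P : Sylow 2 (Cfsg.Sz F m)) :
    Nat.card P = (2 ^ (2 * m + 1)) ^ 2 ∧ Monoid.exponent P = 4 ∧
      Subgroup.center P = commutator P ∧ Nat.card (Subgroup.center P) = 2 ^ (2 * m + 1) := by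
  have h : Hyp F m := ⟨hm, hF⟩
  let e := sylEquiv h P
  refine ⟨?_, ?_, ?_, ?_⟩
  · rw [Nat.card_congr e.toEquiv, card_Usub h, hF]
  · rw [Monoid.exponent_eq_of_mulEquiv e, exponent_U h]
  · apply Cfsg.Agent.Lib.GroupUtil.center_eq_commutator_of_mulEquiv e
    rw [center_U h, commutator_U h]
  · rw [Nat.card_congr (Subgroup.centerCongr e).toEquiv, center_U h, card_subgroupOf_Z h, hF]

end Cfsg.Agent.S0330
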