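import Cfsg.Statements.S0333
import Mathlib
import Cfsg.Agent.Lib.Suzuki.Tori3

set_option autoImplicit false
open Cfsg
namespace Cfsg.Agent.S0333

open Cfsg.Agent.Lib.Suzuki.Basic Cfsg.Agent.Lib.Suzuki.Tori2 Cfsg.Agent.Lib.Suzuki.Tori3

/-- With `q = 2^(2m+1)` and `r = 2^m`, the Suzuki group has cyclic subgroups of orders `q + 2r + 1` and
`q - 2r + 1`; each is the centraliser of each of its non-identity elements and has index `4` in its normaliser. -/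
theorem result {F : Type*} [Field F] [Fintype F] {m : ℕ} (hm : 1 ≤ m)
    (hF : Fintype.card F = 2 ^ (2 * m + 1)) :
    ∀ k ∈ ({2 ^ (2 * m + 1) + 2 ^ (m + 1) + 1, 2 ^ (2 * m + 1) - 2 ^ (m + 1) + 1} : Set ℕ),
      ∃ U : Subgroup (Cfsg.Sz F m), IsCyclic U ∧ Nat.card U = k ∧
        (∀ u ∈ U, u ≠ 1 → Subgroup.centralizer {u} = U) ∧ Nat.card (Subgroup.normalizer (U : Set (Cfsg.Sz F m))) = 4 * k := by
  have h : Hyp F m := ⟨hm, hF⟩
  obtain ⟨A₁, A₂, -, h1, h2, h3, h4⟩ := tori_main h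
  intro k hk
  rcases hk with rfl | hk
  · exact ⟨A₁.1, tor_cyclic h A₁, h3, fun u hu hu1 => tor_cent h A₁ hu hu1, by rw [h1, h3]⟩
  · have hk' : k = 2 ^ (2 * m + 1) - 2 ^ (m + 1) + 1 := hk
    subst hk'
    exact ⟨A₂.1, tor_cyclic h A₂, h4, fun u hu hu1 => tor_cent h A₂ hu hu1, by rw [h2, h4]⟩

end Cfsg.Agent.S0333
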