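import Cfsg.Statements.S0335
import Mathlib
-- import your own Cfsg.Agent.* helpers here

set_option autoImplicit false
open Cfsg

namespace Cfsg.Agent.S0335

/-- The last coordinate-free part of the ovoid's affine parametrisation. -/
def sf {F : Type*} [Field F] (σ : ℕ) (x y : F) : F := x * y + x ^ σ * x ^ 2 + y ^ σ

section core

variable {F : Type*} [Field F] {σ : ℕ}

theorem sf_pow (h2 : (2 : F) = 0) (hadd : ∀ a b : F, (a + b) ^ σ = a ^ σ + b ^ σ)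
    (hθ : ∀ t : F, (t ^ σ) ^ σ = t ^ 2) (x y : F) :
    (sf σ x y) ^ σ = x ^ σ * y ^ σ + x ^ 2 * (x ^ σ) ^ 2 + y ^ 2 := by
  unfold sf
  rw [hadd, hadd, mul_pow, mul_pow, hθ, hθ, ← pow_mul x 2 σ, mul_comm 2 σ, pow_mul x σ 2]

/-- The core identity of the Suzuki-Tits ovoid, behind its flip symmetry. -/
theorem sf_core (h2 : (2 : F) = 0) (hadd : ∀ a b : F, (a + b) ^ σ = a ^ σ + b ^ σ)
    (hθ : ∀ t : F, (t ^ σ) ^ σ = t ^ 2) (x y : F) :
    x * y * (sf σ x y) ^ σ + y ^ σ * y ^ 2 + x ^ σ * (sf σ x y) ^ 2 =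
      (sf σ x y) ^ σ * sf σ x y := by
  rw [sf_pow h2 hadd hθ]
  unfold sf
  generalize x ^ σ = s
  generalize y ^ σ = r
  linear_combination (s ^ 2 * x ^ 3 * y + s * x * y * r) * h2

theorem sf_eq_zero (hσ : σ ≠ 0) (h2 : (2 : F) = 0) (hadd : ∀ a b : F, (a + b) ^ σ = a ^ σ + b ^ σ)
    (hθ : ∀ t : F, (t ^ σ) ^ σ = t ^ 2) (x y : F) (h : sf σ x y = 0) : x = 0 ∧ y = 0 := by
  have h1 := sf_core h2 hadd hθ x y
  rw [h, zero_pow hσ] at h1
  simp only [mul_zero, zero_add, ne_eq, OfNat.ofNat_ne_zero, not_false_eq_true, zero_pow,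
    add_zero] at h1
  have hy : y = 0 := by
    rcases mul_eq_zero.1 h1 with h3 | h3
    · exact pow_eq_zero_iff hσ |>.1 h3
    · exact pow_eq_zero_iff (by norm_num) |>.1 h3
  refine ⟨?_, hy⟩
  unfold sf at h
  rw [hy, mul_zero, zero_add, zero_pow hσ, add_zero] at h
  rcases mul_eq_zero.1 h with h3 | h3
  · exact pow_eq_zero_iff hσ |>.1 h3
  · exact pow_eq_zero_iff (by norm_num) |>.1 h3

theorem sf_scale (hσ : σ ≠ 0) (h2 : (2 : F) = 0) (hadd : ∀ a b : F, (a + b) ^ σ = a ^ σ + b ^ σ)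
    (hθ : ∀ t : F, (t ^ σ) ^ σ = t ^ 2) (u v t : F) (hf : sf σ u v ≠ 0) (ht : t ≠ 0)
    (h : sf σ (t * u) (t * v) = t * sf σ u v) : t = 1 := by
  have h1 := sf_core h2 hadd hθ u v
  have h3 := sf_core h2 hadd hθ (t * u) (t * v)
  rw [h, mul_pow t u σ, mul_pow t v σ, mul_pow t (sf σ u v) σ] at h3
  set f := sf σ u v with hfdef
  have hF : f ^ σ ≠ 0 := pow_ne_zero _ hf
  have hτ : t ^ σ ≠ 0 := pow_ne_zero _ ht
  have h4 : (t - 1) * (t * t ^ σ * (f ^ σ * f)) = 0 := by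
    linear_combination h3 - t ^ 2 * t ^ σ * h1
  rcases mul_eq_zero.1 h4 with h5 | h5
  · exact sub_eq_zero.1 h5
  · exact absurd h5 (mul_ne_zero (mul_ne_zero ht hτ) (mul_ne_zero hF hf))

theorem sf_trans (h2 : (2 : F) = 0) (hadd : ∀ a b : F, (a + b) ^ σ = a ^ σ + b ^ σ)
    (hθ : ∀ t : F, (t ^ σ) ^ σ = t ^ 2) (u v a b : F) :
    sf σ (u + a) (v + b + a ^ σ * u) =
      sf σ u v + (b + a ^ σ * a) * u + a * v + sf σ a b := by
  unfold sf
  rw [hadd u a, hadd, hadd, mul_pow, hθ]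
  generalize a ^ σ = s
  generalize b ^ σ = r
  generalize u ^ σ = U
  generalize v ^ σ = V
  linear_combination (s * u ^ 2 + U * u * a + s * u * a + U * a ^ 2) * h2

/-- Three distinct affine points of the ovoid are independent. -/
theorem affine_indep (hσ : σ ≠ 0) (h2 : (2 : F) = 0)
    (hadd : ∀ a b : F, (a + b) ^ σ = a ^ σ + b ^ σ)
    (hθ : ∀ t : F, (t ^ σ) ^ σ = t ^ 2) (x₁ y₁ x₂ y₂ x₃ y₃ g₁ g₂ g₃ : F)
    (h12 : ¬ (x₁ = x₂ ∧ y₁ = y₂)) (h13 : ¬ (x₁ = x₃ ∧ y₁ = y₃)) (h23 : ¬ (x₂ = x₃ ∧ y₂ = y₃))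
    (h1 : g₁ + g₂ + g₃ = 0) (hx : g₁ * x₁ + g₂ * x₂ + g₃ * x₃ = 0)
    (hy : g₁ * y₁ + g₂ * y₂ + g₃ * y₃ = 0)
    (hf : g₁ * sf σ x₁ y₁ + g₂ * sf σ x₂ y₂ + g₃ * sf σ x₃ y₃ = 0) :
    g₁ = 0 ∧ g₂ = 0 ∧ g₃ = 0 := by
  have hneg : ∀ z : F, z + z = 0 := fun z => by linear_combination z * h2
  set a := x₁ with ha
  set b := y₁ with hb
  set s := a ^ σ with hs
  -- new coordinates
  obtain ⟨u₂, hu₂⟩ : ∃ u, u = x₂ + a := ⟨_, rfl⟩
  obtain ⟨u₃, hu₃⟩ : ∃ u, u = x₃ + a := ⟨_, rfl⟩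
  obtain ⟨v₂, hv₂⟩ : ∃ v, v = y₂ + b + s * u₂ := ⟨_, rfl⟩
  obtain ⟨v₃, hv₃⟩ : ∃ v, v = y₃ + b + s * u₃ := ⟨_, rfl⟩
  have hx₂ : x₂ = u₂ + a := by rw [hu₂]; linear_combination (-a) * h2
  have hx₃ : x₃ = u₃ + a := by rw [hu₃]; linear_combination (-a) * h2
  have hy₂ : y₂ = v₂ + b + s * u₂ := by rw [hv₂]; linear_combination (-b - s * u₂) * h2
  have hy₃ : y₃ = v₃ + b + s * u₃ := by rw [hv₃]; linear_combination (-b - s * u₃) * h2
  have hf₂ : sf σ x₂ y₂ = sf σ u₂ v₂ + (b + s * a) * u₂ + a * v₂ + sf σ a b := by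
    rw [hx₂, hy₂]; exact sf_trans h2 hadd hθ u₂ v₂ a b
  have hf₃ : sf σ x₃ y₃ = sf σ u₃ v₃ + (b + s * a) * u₃ + a * v₃ + sf σ a b := by
    rw [hx₃, hy₃]; exact sf_trans h2 hadd hθ u₃ v₃ a b
  have hne₂ : sf σ u₂ v₂ ≠ 0 := by
    intro h0
    obtain ⟨h5, h6⟩ := sf_eq_zero hσ h2 hadd hθ _ _ h0
    apply h12
    constructor
    · rw [hx₂, h5, zero_add]
    · rw [hy₂, h5, h6]; ring
  have hne₃ : sf σ u₃ v₃ ≠ 0 := by
    intro h0
    obtain ⟨h5, h6⟩ := sf_eq_zero hσ h2 hadd hθ _ _ h0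
    apply h13
    constructor
    · rw [hx₃, h5, zero_add]
    · rw [hy₃, h5, h6]; ring
  -- the three relations in the new coordinates
  have e1 : g₂ * u₂ + g₃ * u₃ = 0 := by
    rw [hx₂, hx₃] at hx
    linear_combination hx - a * h1
  have e2 : g₂ * v₂ + g₃ * v₃ = 0 := by
    rw [hy₂, hy₃] at hy
    linear_combination hy - b * h1 - s * e1
  have e3 : g₂ * sf σ u₂ v₂ + g₃ * sf σ u₃ v₃ = 0 := by
    rw [hf₂, hf₃] at hf
    linear_combination hf - sf σ a b * h1 - (b + s * a) * e1 - a * e2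
  by_cases hg₃ : g₃ = 0
  · have hg₂ : g₂ = 0 := by
      rw [hg₃, zero_mul, add_zero] at e3
      exact (mul_eq_zero.1 e3).resolve_right hne₂
    have hg₁ : g₁ = 0 := by rw [hg₂, hg₃] at h1; simpa using h1
    exact ⟨hg₁, hg₂, hg₃⟩
  · exfalso
    obtain ⟨t, hg₂⟩ : ∃ t, g₂ = t * g₃ := ⟨g₂ / g₃, by field_simp⟩
    have hu : u₃ = t * u₂ := by
      rw [hg₂] at e1
      have : g₃ * (u₃ - t * u₂) = 0 := by linear_combination e1 - (g₃ * t * u₂) * h2
      exact sub_eq_zero.1 ((mul_eq_zero.1 this).resolve_left hg₃)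
    have hv : v₃ = t * v₂ := by
      rw [hg₂] at e2
      have : g₃ * (v₃ - t * v₂) = 0 := by linear_combination e2 - (g₃ * t * v₂) * h2
      exact sub_eq_zero.1 ((mul_eq_zero.1 this).resolve_left hg₃)
    have hff : sf σ u₃ v₃ = t * sf σ u₂ v₂ := by
      rw [hg₂] at e3
      have : g₃ * (sf σ u₃ v₃ - t * sf σ u₂ v₂) = 0 := by
        linear_combination e3 - (g₃ * t * sf σ u₂ v₂) * h2
      exact sub_eq_zero.1 ((mul_eq_zero.1 this).resolve_left hg₃)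
    have ht0 : t ≠ 0 := by
      intro h0
      rw [h0, zero_mul] at hff
      exact hne₃ hff
    have ht1 : t = 1 := by
      apply sf_scale hσ h2 hadd hθ u₂ v₂ t hne₂ ht0
      rw [← hu, ← hv, hff]
    apply h23
    constructor
    · rw [hx₂, hx₃, hu, ht1, one_mul]
    · rw [hy₂, hy₃, hv, hu, ht1, one_mul, one_mul]

/-- The point at infinity and two distinct affine points are independent. -/
theorem inf_indep (h2 : (2 : F) = 0) (x₂ y₂ x₃ y₃ f₂ f₃ g₁ g₂ g₃ : F)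
    (h23 : ¬ (x₂ = x₃ ∧ y₂ = y₃)) (h1 : g₂ + g₃ = 0) (hx : g₂ * x₂ + g₃ * x₃ = 0)
    (hy : g₂ * y₂ + g₃ * y₃ = 0) (hf : g₁ + g₂ * f₂ + g₃ * f₃ = 0) :
    g₁ = 0 ∧ g₂ = 0 ∧ g₃ = 0 := by
  have h3 : g₃ = g₂ := by linear_combination h1 - g₂ * h2
  have hg₂ : g₂ = 0 := by
    by_contra hne
    apply h23
    rw [h3] at hx hy
    constructor
    · have : g₂ * (x₂ - x₃) = 0 := by linear_combination hx - g₂ * x₃ * h2
      exact sub_eq_zero.1 ((mul_eq_zero.1 this).resolve_left hne)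
    · have : g₂ * (y₂ - y₃) = 0 := by linear_combination hy - g₂ * y₃ * h2
      exact sub_eq_zero.1 ((mul_eq_zero.1 this).resolve_left hne)
  have hg₃ : g₃ = 0 := by rw [h3, hg₂]
  refine ⟨?_, hg₂, hg₃⟩
  rw [hg₂, hg₃] at hf
  simpa using hf

end core

/-- The Suzuki–Tits point set is an ovoid: any three distinct points of it are projectively independent
(no line of projective 3-space meets it in more than two points). -/
theorem result {F : Type*} [Field F] [Fintype F] {m : ℕ} (hm : 1 ≤ m)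
    (hF : Fintype.card F = 2 ^ (2 * m + 1)) (p : Fin 3 ↪ Cfsg.suzukiOvoid F m) :
    Projectivization.Independent (fun i => (p i : Projectivization F (Fin 4 → F))) := by
  classical
  set σ := 2 ^ (m + 1) with hσdef
  have hσ : σ ≠ 0 := by positivity
  -- characteristic 2
  obtain ⟨p', hp'⟩ := CharP.exists F
  obtain ⟨n', hp'prime, hn'⟩ := FiniteField.card F p'
  have hp'2 : p' = 2 := by
    have h1 : p' ∣ 2 ^ (2 * m + 1) := by
      rw [← hF, hn']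
      exact dvd_pow_self _ n'.ne_zero
    exact (Nat.prime_dvd_prime_iff_eq hp'prime Nat.prime_two).1 (hp'prime.dvd_of_dvd_pow h1)
  subst hp'2
  have h2 : (2 : F) = 0 := by exact_mod_cast CharP.cast_eq_zero F 2
  have : Fact (Nat.Prime 2) := ⟨Nat.prime_two⟩
  have hadd : ∀ a b : F, (a + b) ^ σ = a ^ σ + b ^ σ := fun a b => add_pow_char_pow a b 2 (m + 1)
  have hθ : ∀ t : F, (t ^ σ) ^ σ = t ^ 2 := by
    intro t
    rw [← pow_mul, hσdef]
    have h3 : 2 ^ (m + 1) * 2 ^ (m + 1) = (2 ^ (2 * m + 1)) * 2 := by ring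
    rw [h3, pow_mul, ← hF, FiniteField.pow_card]
  have hpt : ∀ x y : F, ![x * y + x ^ (2 ^ (m + 1) + 2) + y ^ (2 ^ (m + 1)), y, x, 1] =
      (![sf σ x y, y, x, 1] : Fin 4 → F) := by
    intro x y
    simp only [sf, hσdef, pow_add x]
  choose v hv hp hor using fun i => (p i).2
  have hfun : (fun i => ((p i : Cfsg.suzukiOvoid F m) : Projectivization F (Fin 4 → F))) =
      fun i => Projectivization.mk F (v i) (hv i) := funext hp
  rw [hfun]
  refine Projectivization.Independent.mk v hv ?_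
  -- distinct points have distinct representatives
  have hvinj : ∀ i j, i ≠ j → v i ≠ v j := by
    intro i j hij h
    apply hij
    apply p.injective
    apply Subtype.ext
    rw [hp i, hp j]
    exact (Projectivization.mk_eq_mk_iff' F _ _ _ _).2 ⟨1, by rw [one_smul, h]⟩
  have h01 := hvinj 0 1 (by decide)
  have h02 := hvinj 0 2 (by decide)
  have h12 := hvinj 1 2 (by decide)
  rw [Fintype.linearIndependent_iff]
  intro g hg
  rw [Fin.sum_univ_three] at hg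
  have c0 : g 0 * v 0 0 + g 1 * v 1 0 + g 2 * v 2 0 = 0 := by simpa using congrFun hg 0
  have c1 : g 0 * v 0 1 + g 1 * v 1 1 + g 2 * v 2 1 = 0 := by simpa using congrFun hg 1
  have c2 : g 0 * v 0 2 + g 1 * v 1 2 + g 2 * v 2 2 = 0 := by simpa using congrFun hg 2
  have c3 : g 0 * v 0 3 + g 1 * v 1 3 + g 2 * v 2 3 = 0 := by simpa using congrFun hg 3
  have fin3 : ∀ (g : Fin 3 → F), g 0 = 0 → g 1 = 0 → g 2 = 0 → ∀ i, g i = 0 := by
    intro g a b c i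
    fin_cases i
    · exact a
    · exact b
    · exact c
  have hsame : ∀ (i j : Fin 3) (x y x' y' : F), i ≠ j →
      v i = (![sf σ x y, y, x, 1] : Fin 4 → F) → v j = (![sf σ x' y', y', x', 1] : Fin 4 → F) →
      ¬ (x = x' ∧ y = y') := by
    rintro i j x y x' y' hij hi hj ⟨rfl, rfl⟩
    exact hvinj i j hij (hi.trans hj.symm)
  have key : g 0 = 0 ∧ g 1 = 0 ∧ g 2 = 0 := by
    rcases hor 0 with e0 | ⟨x0, y0, e0⟩ <;> rcases hor 1 with e1 | ⟨x1, y1, e1⟩ <;>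
      rcases hor 2 with e2 | ⟨x2, y2, e2⟩
    · exact absurd (e0.trans e1.symm) h01
    · exact absurd (e0.trans e1.symm) h01
    · exact absurd (e0.trans e2.symm) h02
    · -- infinity first
      rw [hpt] at e1 e2
      rw [e0, e1, e2] at c0 c1 c2 c3
      simp at c0 c1 c2 c3
      exact inf_indep h2 x1 y1 x2 y2 _ _ _ _ _ (hsame 1 2 _ _ _ _ (by decide) e1 e2) c3 c2 c1 c0
    · exact absurd (e1.trans e2.symm) h12
    · -- infinity second
      rw [hpt] at e0 e2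
      rw [e0, e1, e2] at c0 c1 c2 c3
      simp at c0 c1 c2 c3
      obtain ⟨a1, a0, a2⟩ := inf_indep h2 x0 y0 x2 y2 (sf σ x0 y0) (sf σ x2 y2) (g 1) (g 0) (g 2)
        (hsame 0 2 _ _ _ _ (by decide) e0 e2) c3 c2 c1 (by linear_combination c0)
      exact ⟨a0, a1, a2⟩
    · -- infinity third
      rw [hpt] at e0 e1
      rw [e0, e1, e2] at c0 c1 c2 c3
      simp at c0 c1 c2 c3
      obtain ⟨a2, a0, a1⟩ := inf_indep h2 x0 y0 x1 y1 (sf σ x0 y0) (sf σ x1 y1) (g 2) (g 0) (g 1)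
        (hsame 0 1 _ _ _ _ (by decide) e0 e1) c3 c2 c1 (by linear_combination c0)
      exact ⟨a0, a1, a2⟩
    · -- three affine points
      rw [hpt] at e0 e1 e2
      rw [e0, e1, e2] at c0 c1 c2 c3
      simp at c0 c1 c2 c3
      exact affine_indep hσ h2 hadd hθ x0 y0 x1 y1 x2 y2 _ _ _
        (hsame 0 1 _ _ _ _ (by decide) e0 e1) (hsame 0 2 _ _ _ _ (by decide) e0 e2)
        (hsame 1 2 _ _ _ _ (by decide) e1 e2) c3 c2 c1 c0
  exact fin3 g key.1 key.2.1 key.2.2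

end Cfsg.Agent.S0335
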