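import Cfsg.Statements.S0341
import Mathlib
import Cfsg.Agent.Lib.Char.FrobeniusKernel
import Cfsg.Agent.Lib.Frobenius.SylowFpf
import Cfsg.Agent.S0739

set_option autoImplicit false
open Cfsg

namespace Cfsg.Agent.S0341

open MulAction

/-- A finite field with an automorphism of prime order `r` whose fixed field is `{0, 1}` has
`2 ^ r` elements. -/
theorem field_card {E : Type*} [Field E] [Finite E] (σ : E ≃+* E) {r : ℕ} (hr : r.Prime)
    (h1 : σ ^ r = 1) (h2 : σ ≠ 1) (h3 : ∀ x, σ x = x → x = 0 ∨ x = 1) : Nat.card E = 2 ^ r := by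
  classical
  haveI : Finite (E ≃+* E) := Finite.of_injective (fun τ : E ≃+* E => (τ : E → E))
    (fun a b hab => RingEquiv.ext (congrFun hab))
  let Γ : Subgroup (E ≃+* E) := Subgroup.zpowers σ
  haveI : Fact r.Prime := ⟨hr⟩
  haveI : Fintype Γ := Fintype.ofFinite _
  have hcard : Fintype.card Γ = r := by
    rw [← Nat.card_eq_fintype_card, Nat.card_zpowers]
    exact orderOf_eq_prime h1 h2
  have hfin := FixedPoints.finrank_eq_card Γ E
  let K := FixedPoints.subfield Γ E
  have hKmem : ∀ x : E, x ∈ K ↔ x = 0 ∨ x = 1 := by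
    intro x
    constructor
    · intro hx
      apply h3
      exact hx ⟨σ, Subgroup.mem_zpowers σ⟩
    · rintro (rfl | rfl)
      · exact K.zero_mem
      · exact K.one_mem
  have hKcard : Nat.card K = 2 := by
    have e : K ≃ Fin 2 := by
      refine ⟨fun x => if x.1 = 0 then 0 else 1, fun i => if i = 0 then 0 else 1, ?_, ?_⟩
      · intro x
        rcases (hKmem x.1).mp x.2 with h | h
        · apply Subtype.ext
          simp [h]
        · apply Subtype.ext
          simp [h]
      · intro i
        fin_cases i <;> simp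
    rw [Nat.card_congr e]
    simp
  haveI : Finite K := inferInstance
  haveI : Fintype E := Fintype.ofFinite E
  haveI : Fintype K := Fintype.ofFinite K
  have h4 := Module.card_eq_pow_finrank (K := K) (V := E)
  rw [hfin, hcard] at h4
  rw [Nat.card_eq_fintype_card, h4, ← Nat.card_eq_fintype_card (α := K), hKcard]

/-- The field built from a "Singer cycle". -/
theorem card_of_singer {V : Type*} [AddCommGroup V] [Finite V] (g h : AddMonoid.End V)
    {n r t : ℕ} (hn : 0 < n) (hgn : g ^ n = 1) (hr : r.Prime) (hhr : h ^ r = 1) (hne : h ≠ 1)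
    (hgt : h * g * h ^ (r - 1) = g ^ t) (c₀ : V) (hc₀ : c₀ ≠ 0)
    (htrans : ∀ w, w ≠ 0 → ∃ k : ℕ, (g ^ k) c₀ = w) (hfix₀ : h c₀ = c₀)
    (hfix : ∀ w, h w = w → w = 0 ∨ w = c₀) : Nat.card V = 2 ^ r := by
  classical
  let S : Subring (AddMonoid.End V) := Subring.closure ({g} : Set (AddMonoid.End V))
  have hgS : g ∈ S := Subring.subset_closure rfl
  letI : CommRing S := Subring.closureCommRingOfComm (by
    intro x hx y hy
    rw [Set.mem_singleton_iff] at hx hy
    rw [hx, hy])
  have hmul : ∀ (x y : AddMonoid.End V) (w : V), (x * y) w = x (y w) := fun _ _ _ => rfl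
  have hSval : ∀ x y : S, ((x * y : S) : AddMonoid.End V) = x.1 * y.1 := fun _ _ => rfl
  have hcomm : ∀ x y : AddMonoid.End V, x ∈ S → y ∈ S → x * y = y * x := by
    intro x y hx hy
    exact congrArg Subtype.val (mul_comm (⟨x, hx⟩ : S) ⟨y, hy⟩)
  haveI : Finite (AddMonoid.End V) := by
    change Finite (V →+ V)
    exact DFunLike.finite _
  haveI : Finite S := inferInstance
  let gi : AddMonoid.End V := g ^ (n - 1)
  have hgi : ∀ k, (gi ^ k) * (g ^ k) = 1 := by
    intro k
    have : gi * g = 1 := by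
      rw [← pow_succ]
      rw [Nat.sub_add_cancel hn, hgn]
    rw [← (Commute.pow_left (Commute.refl g) (n - 1)).mul_pow, this, one_pow]
  have hpowinj : ∀ k (w : V), (g ^ k) w = 0 → w = 0 := by
    intro k w hw
    have h1 : ((gi ^ k) * (g ^ k)) w = w := by rw [hgi]; rfl
    rw [hmul, hw, map_zero] at h1
    exact h1.symm
  have hev0 : ∀ e ∈ S, e c₀ = 0 → e = 0 := by
    intro e he hec
    ext w
    by_cases hw : w = 0
    · simp [hw]
    obtain ⟨k, rfl⟩ := htrans w hw
    have h1 : e * g ^ k = g ^ k * e := hcomm _ _ he (S.pow_mem hgS k)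
    have h2 : (e * g ^ k) c₀ = (g ^ k * e) c₀ := by rw [h1]
    rw [hmul, hmul, hec, map_zero] at h2
    exact h2
  have hinj : ∀ e ∈ S, ∀ w, e w = 0 → e = 0 ∨ w = 0 := by
    intro e he w hew
    by_cases hw : w = 0
    · exact Or.inr hw
    left
    obtain ⟨k, rfl⟩ := htrans w hw
    have h1 : e * g ^ k = g ^ k * e := hcomm _ _ he (S.pow_mem hgS k)
    have h2 : (e * g ^ k) c₀ = (g ^ k * e) c₀ := by rw [h1]
    rw [hmul, hmul, hew] at h2
    exact hev0 e he (hpowinj k _ h2.symm)
  haveI : Nontrivial S := by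
    refine ⟨⟨0, 1, ?_⟩⟩
    intro h01
    have h1 : ((1 : S) : AddMonoid.End V) c₀ = ((0 : S) : AddMonoid.End V) c₀ := by rw [h01]
    exact hc₀ h1
  haveI : IsDomain S := by
    haveI : NoZeroDivisors S := ⟨by
      intro x y hxy
      have h1 : x.1 (y.1 c₀) = 0 := by
        have := congrArg (fun u : S => u.1 c₀) hxy
        exact this
      rcases hinj x.1 x.2 _ h1 with h2 | h2
      · exact Or.inl (Subtype.ext h2)
      · exact Or.inr (Subtype.ext (hev0 y.1 y.2 h2))⟩
    exact NoZeroDivisors.to_isDomain S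
  letI : Field S := (Finite.isField_of_domain S).toField
  -- the evaluation bijection
  have hcardS : Nat.card S = Nat.card V := by
    apply Nat.card_congr
    refine Equiv.ofBijective (fun e : S => e.1 c₀) ⟨?_, ?_⟩
    · intro x y hxy
      apply Subtype.ext
      have h1 : (x.1 - y.1) c₀ = 0 := by
        have : (x.1 - y.1) c₀ = x.1 c₀ - y.1 c₀ := rfl
        rw [this]
        exact sub_eq_zero.mpr hxy
      exact sub_eq_zero.mp (hev0 _ (S.sub_mem x.2 y.2) h1)
    · intro w
      by_cases hw : w = 0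
      · exact ⟨0, by simp [hw]⟩
      · obtain ⟨k, rfl⟩ := htrans w hw
        exact ⟨⟨g ^ k, S.pow_mem hgS k⟩, rfl⟩
  rw [← hcardS]
  -- the automorphism
  let hi : AddMonoid.End V := h ^ (r - 1)
  have hr1 : 1 ≤ r := hr.one_lt.le
  have hhi : hi * h = 1 := by
    change h ^ (r - 1) * h = 1
    rw [← pow_succ, Nat.sub_add_cancel hr1, hhr]
  have hih : h * hi = 1 := by
    change h * h ^ (r - 1) = 1
    rw [← pow_succ', Nat.sub_add_cancel hr1, hhr]
  have hmem : ∀ e ∈ S, h * e * hi ∈ S := by
    intro e he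
    induction he using Subring.closure_induction with
    | mem x hx =>
      rw [Set.mem_singleton_iff] at hx
      rw [hx, hgt]
      exact S.pow_mem hgS t
    | zero => simp [S.zero_mem]
    | one => rw [mul_one, hih]; exact S.one_mem
    | add x y _ _ hx hy =>
      rw [mul_add, add_mul]
      exact S.add_mem hx hy
    | neg x _ hx =>
      rw [mul_neg, neg_mul]
      exact S.neg_mem hx
    | mul x y _ _ hx hy =>
      have : h * (x * y) * hi = (h * x * hi) * (h * y * hi) := by
        calc h * (x * y) * hi = h * x * 1 * y * hi := by simp only [mul_one, mul_assoc]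
          _ = h * x * (hi * h) * y * hi := by rw [hhi]
          _ = (h * x * hi) * (h * y * hi) := by simp only [mul_assoc]
      rw [this]
      exact S.mul_mem hx hy
  let σ₀ : S →+* S :=
    { toFun := fun e => ⟨h * e.1 * hi, hmem e.1 e.2⟩
      map_one' := Subtype.ext (by
        change h * 1 * hi = 1
        rw [mul_one, hih])
      map_mul' := fun x y => Subtype.ext (by
        change h * (x.1 * y.1) * hi = (h * x.1 * hi) * (h * y.1 * hi)
        calc h * (x.1 * y.1) * hi = h * x.1 * 1 * y.1 * hi := by simp only [mul_one, mul_assoc]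
          _ = h * x.1 * (hi * h) * y.1 * hi := by rw [hhi]
          _ = (h * x.1 * hi) * (h * y.1 * hi) := by simp only [mul_assoc])
      map_zero' := Subtype.ext (by
        change h * 0 * hi = 0
        simp)
      map_add' := fun x y => Subtype.ext (by
        change h * (x.1 + y.1) * hi = h * x.1 * hi + h * y.1 * hi
        rw [mul_add, add_mul]) }
  have hσ₀ : ∀ e : S, (σ₀ e).1 = h * e.1 * hi := fun _ => rfl
  have hbij : Function.Bijective σ₀ :=
    (Finite.injective_iff_bijective).mp σ₀.injective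
  let σ : S ≃+* S := RingEquiv.ofBijective σ₀ hbij
  have hσ : ∀ e : S, (σ e).1 = h * e.1 * hi := fun _ => rfl
  have hσpow : ∀ (k : ℕ) (e : S), ((σ ^ k) e).1 = h ^ k * e.1 * hi ^ k := by
    intro k
    induction k with
    | zero => intro e; simp
    | succ k ih =>
      intro e
      rw [pow_succ]
      have : (σ ^ k * σ) e = (σ ^ k) (σ e) := rfl
      rw [this, ih, hσ, pow_succ, pow_succ']
      simp only [mul_assoc]
  have hcomm_of_fix : ∀ e : S, σ e = e → h * e.1 = e.1 * h := by
    intro e he
    have h1 : h * e.1 * hi = e.1 := congrArg Subtype.val he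
    calc h * e.1 = h * e.1 * (hi * h) := by rw [hhi, mul_one]
      _ = (h * e.1 * hi) * h := by simp only [mul_assoc]
      _ = e.1 * h := by rw [h1]
  apply field_card σ hr
  · apply RingEquiv.ext
    intro e
    apply Subtype.ext
    rw [hσpow, hhr]
    have : hi ^ r = 1 := by
      change (h ^ (r - 1)) ^ r = 1
      rw [← pow_mul, mul_comm, pow_mul, hhr, one_pow]
    rw [this, one_mul, mul_one]
    rfl
  · intro hσ1
    apply hne
    ext w
    by_cases hw : w = 0
    · simp [hw]
    obtain ⟨k, rfl⟩ := htrans w hw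
    have h1 := hcomm_of_fix ⟨g ^ k, S.pow_mem hgS k⟩ (by rw [hσ1]; rfl)
    have h2 : (h * g ^ k) c₀ = (g ^ k * h) c₀ := by
      simpa using congrArg (fun u : AddMonoid.End V => u c₀) h1
    rw [hmul, hmul, hfix₀] at h2
    exact h2
  · intro x hx
    have h1 := hcomm_of_fix x hx
    have h2 : (h * x.1) c₀ = (x.1 * h) c₀ := by rw [h1]
    rw [hmul, hmul, hfix₀] at h2
    rcases hfix _ h2 with h3 | h3
    · left
      exact Subtype.ext (hev0 x.1 x.2 h3)
    · right
      apply Subtype.ext
      have : (x.1 - 1) c₀ = 0 := by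
        have h5 : (x.1 - 1) c₀ = x.1 c₀ - (1 : AddMonoid.End V) c₀ := rfl
        rw [h5, h3]
        exact sub_self _
      exact sub_eq_zero.mp (hev0 _ (S.sub_mem x.2 S.one_mem) this)

/-- A `Z`-group with a fixed point free automorphism is cyclic. -/
theorem cyclic_of_zgroup_fpf {F : Type*} [Group F] [Finite F] [IsZGroup F] (α : F ≃* F)
    (hα : ∀ x, α x = x → x = 1) : IsCyclic F := by
  classical
  let C : Subgroup F := commutator F
  haveI hCc : IsCyclic C := IsZGroup.isCyclic_commutator F
  haveI hCn : C.Normal := inferInstanceAs (commutator F).Normal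
  haveI hCch : (commutator F).Characteristic := inferInstance
  have hσC : ∀ (τ : F ≃* F), ∀ x ∈ C, τ x ∈ C := fun τ x hx =>
    (Subgroup.characteristic_iff_le_comap.mp hCch τ) hx
  -- `b⁻¹ α(b)` centralises `C`
  have hkey : ∀ b : F, b⁻¹ * α b ∈ Subgroup.centralizer (C : Set F) := by
    intro b
    rw [Subgroup.mem_centralizer_iff]
    intro z hz
    let τ₁ : C →* C := ((MulAut.conj b).toMonoidHom.comp C.subtype).codRestrict C (fun x =>
      hCn.conj_mem x.1 x.2 b)
    let τ₂ : C →* C := (α.toMonoidHom.comp C.subtype).codRestrict C (fun x => hσC α x.1 x.2)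
    have hy : α.symm z ∈ C := hσC α.symm z hz
    have h1 := Cfsg.Agent.S0739.endo_comm τ₂ τ₁ ⟨α.symm z, hy⟩
    have h2 : α (b * α.symm z * b⁻¹) = b * z * b⁻¹ := by
      have := congrArg Subtype.val h1
      simpa [τ₁, τ₂] using this
    rw [map_mul, map_mul, map_inv, MulEquiv.apply_symm_apply] at h2
    have h3 : z * (b⁻¹ * α b) * (b⁻¹ * α b)⁻¹ = (b⁻¹ * α b) * z * (b⁻¹ * α b)⁻¹ := by
      have h4 : α b * z * (α b)⁻¹ = b * z * b⁻¹ := h2
      simp only [mul_inv_rev, inv_inv]
      have h5 : b⁻¹ * α b * z * ((α b)⁻¹ * b) = b⁻¹ * (α b * z * (α b)⁻¹) * b := by group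
      rw [h5, h4]
      group
    exact mul_right_cancel h3
  -- the map is surjective
  have hsurj : Function.Surjective (fun b : F => b⁻¹ * α b) := by
    apply Finite.surjective_of_injective
    intro b c hbc
    simp only at hbc
    have h1 : α (c * b⁻¹) = c * b⁻¹ := by
      rw [map_mul, map_inv]
      have h2 : c * (c⁻¹ * α c) = α c := by group
      have h3 : α c * (α b)⁻¹ = c * (c⁻¹ * α c) * (α b)⁻¹ := by rw [h2]
      rw [h3, ← hbc]
      group
    have := hα _ h1
    rw [mul_inv_eq_one] at this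
    exact this.symm
  have hCZ : commutator F ≤ Subgroup.center F := by
    intro z hz
    rw [Subgroup.mem_center_iff]
    intro b
    obtain ⟨b', rfl⟩ := hsurj b
    have := Subgroup.mem_centralizer_iff.mp (hkey b') z hz
    exact this.symm
  haveI hnil : Group.IsNilpotent F := by
    apply Group.of_quotient_center_nilpotent
    have hc : IsMulCommutative (F ⧸ Subgroup.center F) :=
      Subgroup.Normal.quotient_commutative_iff_commutator_le.mpr hCZ
    letI : CommGroup (F ⧸ Subgroup.center F) :=
      { (inferInstance : Group (F ⧸ Subgroup.center F)) with mul_comm := hc.is_comm.comm }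
    infer_instance
  infer_instance

/-- The Frobenius kernel of a point stabiliser, as a subgroup of `G`. -/
theorem exists_kernel {G Ω : Type*} [Group G] [Finite G] [MulAction G Ω]
    (h2t : ∀ {x y x' y' : Ω}, x ≠ y → x' ≠ y' → ∃ g : G, g • x = x' ∧ g • y = y')
    (h3 : ∀ g : G, ∀ a b c : Ω, a ≠ b → b ≠ c → a ≠ c → g • a = a → g • b = b → g • c = c → g = 1)
    {o c : Ω} (hoc : o ≠ c) {x₀ : G} (hx₀1 : x₀ ≠ 1) (hx₀o : x₀ • o = o) (hx₀c : x₀ • c = c)
    (hthird : ∃ d : Ω, d ≠ o ∧ d ≠ c) :
    ∃ F : Subgroup G, (∀ u ∈ F, u • o = o) ∧ (∀ x : G, x • o = o → ∀ u ∈ F, x * u * x⁻¹ ∈ F) ∧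
      (∀ u ∈ F, u • c = c → u = 1) ∧ (∀ y, y ≠ o → ∃ u ∈ F, u • c = y) := by
  classical
  let A : Subgroup G := stabilizer G o
  let H' : Subgroup A := (stabilizer G c).subgroupOf A
  have hH'mem : ∀ x : A, x ∈ H' ↔ (x : G) • c = c := by
    intro x
    rw [Subgroup.mem_subgroupOf, mem_stabilizer_iff]
  obtain ⟨d, hdo, hdc⟩ := hthird
  have hfrob : Cfsg.IsFrobeniusComplement H' := by
    refine ⟨?_, ?_, ?_⟩
    · intro hbot
      have : (⟨x₀, hx₀o⟩ : A) ∈ H' := (hH'mem _).mpr hx₀c
      rw [hbot, Subgroup.mem_bot] at this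
      exact hx₀1 (congrArg Subtype.val this)
    · intro htop
      obtain ⟨u, hu1, hu2⟩ := h2t (x := o) (y := c) (x' := o) (y' := d) hoc hdo.symm
      have : (⟨u, hu1⟩ : A) ∈ H' := by rw [htop]; exact Subgroup.mem_top _
      rw [hH'mem] at this
      exact hdc (hu2.symm.trans this)
    · intro g hg
      rw [eq_bot_iff]
      intro x hx
      obtain ⟨hx1, hx2⟩ := Subgroup.mem_inf.mp hx
      rw [Subgroup.mem_pointwise_smul_iff_inv_smul_mem, MulAut.smul_def, MulAut.conj_inv_apply] at hx2
      rw [Subgroup.mem_bot]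
      apply Subtype.ext
      have h4 := (hH'mem _).mp hx1
      have h5 := (hH'mem _).mp hx2
      have h6 : (x : G) • ((g : G) • c) = (g : G) • c := by
        have h7 : ((g⁻¹ * x * g : A) : G) = (g : G)⁻¹ * x * g := rfl
        rw [h7, mul_smul, mul_smul, inv_smul_eq_iff] at h5
        exact h5
      have hgb : (g : G) • c ≠ c := fun h => hg ((hH'mem _).mpr h)
      have hga : (g : G) • c ≠ o := by
        intro h
        apply hoc
        have h7 : (g : G) • o = o := g.2
        exact (MulAction.injective (g : G) (h7.trans h.symm))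
      exact h3 (x : G) o c ((g : G) • c) hoc (Ne.symm hgb) (Ne.symm hga) x.2 h4 h6
  obtain ⟨N, -, hNn, hNc⟩ := Cfsg.Agent.Lib.Char.FrobeniusKernel.frobenius_theorem H' hfrob
  refine ⟨N.map A.subtype, ?_, ?_, ?_, ?_⟩
  · rintro _ ⟨u, -, rfl⟩
    exact u.2
  · rintro x hx _ ⟨u, hu, rfl⟩
    exact ⟨⟨x, hx⟩ * u * ⟨x, hx⟩⁻¹, hNn.conj_mem u hu _, rfl⟩
  · rintro _ ⟨u, hu, rfl⟩ huc
    have hvH' : u ∈ H' := (hH'mem u).mpr huc
    have := Subgroup.disjoint_def.mp hNc.disjoint hu hvH'
    exact congrArg Subtype.val this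
  · intro y hy
    obtain ⟨g, hg1, hg2⟩ := h2t (x := o) (y := c) (x' := o) (y' := y) hoc hy.symm
    obtain ⟨⟨u, x⟩, hux⟩ := hNc.surjective (⟨g, hg1⟩ : A)
    refine ⟨u.1, ⟨u.1, u.2, rfl⟩, ?_⟩
    have h4 : (u.1 : G) * (x.1 : G) = g := congrArg Subtype.val hux
    have h5 : (x.1 : G) • c = c := (hH'mem _).mp x.2
    rw [← hg2, ← h4, mul_smul, h5]

/-- If a finite group acts faithfully and doubly transitively, no non-identity element fixes three points, some
non-identity element fixes two points, and some normal subgroup acts regularly, then the number of points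
is `2^p` with `p` prime. -/
theorem result {G Ω : Type*} [Group G]
    [MulAction G Ω] [Fintype Ω] [FaithfulSMul G Ω] (h2 : MulAction.IsMultiplyPretransitive G Ω 2)
    (h3 : ∀ g : G, ∀ a b c : Ω, a ≠ b → b ≠ c → a ≠ c → g • a = a → g • b = b → g • c = c → g = 1)
    (hfix : ∃ g : G, g ≠ 1 ∧ ∃ a b : Ω, a ≠ b ∧ g • a = a ∧ g • b = b)
    (N : Subgroup G) [N.Normal] (hNt : MulAction.IsPretransitive N Ω)
    (hNr : ∀ a : Ω, MulAction.stabilizer N a = ⊥) :
    ∃ p : ℕ, p.Prime ∧ Fintype.card Ω = 2 ^ p := by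
  classical
  haveI : Finite G := Finite.of_injective (MulAction.toPerm : G → Equiv.Perm Ω)
    MulAction.toPerm_injective
  have h2t : ∀ {x y x' y' : Ω}, x ≠ y → x' ≠ y' → ∃ g : G, g • x = x' ∧ g • y = y' :=
    fun h1 h2' => is_two_pretransitive_iff.mp h2 h1 h2'
  obtain ⟨h₀, hh₀1, o, c, hoc, hh₀o, hh₀c⟩ := hfix
  -- an element of prime order
  have hord : orderOf h₀ ≠ 1 := fun h => hh₀1 (orderOf_eq_one_iff.mp h)
  obtain ⟨r, hr, hrd⟩ := Nat.exists_prime_and_dvd hord
  set h : G := h₀ ^ (orderOf h₀ / r) with hh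
  have hordh : orderOf h = r := orderOf_pow_orderOf_div (orderOf_pos h₀).ne' hrd
  have hh1 : h ≠ 1 := by
    intro he
    rw [he, orderOf_one] at hordh
    exact hr.one_lt.ne hordh
  have hho : h • o = o := by
    rw [hh]
    exact (stabilizer G o).pow_mem (mem_stabilizer_iff.mpr hh₀o) _
  have hhc : h • c = c := by
    rw [hh]
    exact (stabilizer G c).pow_mem (mem_stabilizer_iff.mpr hh₀c) _
  have hhfix : ∀ y, h • y = y → y = o ∨ y = c := by
    intro y hy
    by_contra hno
    push Not at hno
    exact hh1 (h3 h o c y hoc (Ne.symm hno.2) (Ne.symm hno.1) hho hhc hy)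
  have hthird : ∃ d : Ω, d ≠ o ∧ d ≠ c := by
    by_contra hno
    push Not at hno
    apply hh1
    apply FaithfulSMul.eq_of_smul_eq_smul (α := Ω)
    intro z
    rw [one_smul]
    by_cases hz : z = o
    · rw [hz]; exact hho
    · rw [hno z hz]; exact hhc
  -- regularity
  have hreg : ∀ n ∈ N, n • o = o → n = 1 := by
    intro n hn hno
    have : (⟨n, hn⟩ : N) ∈ stabilizer N o := by
      rw [mem_stabilizer_iff]
      exact hno
    rw [hNr o, Subgroup.mem_bot] at this
    exact congrArg Subtype.val this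
  have hNeq : ∀ n ∈ N, ∀ m ∈ N, n • o = m • o → n = m := by
    intro n hn m hm hnm
    have h1 : (m⁻¹ * n) • o = o := by rw [mul_smul, hnm, inv_smul_smul]
    have h2' := hreg _ (N.mul_mem (N.inv_mem hm) hn) h1
    rw [inv_mul_eq_one] at h2'
    exact h2'.symm
  have hNex : ∀ y, ∃ n ∈ N, n • o = y := by
    intro y
    obtain ⟨n, hn⟩ := hNt.exists_smul_eq o y
    exact ⟨n, n.2, hn⟩
  have hconjN : ∀ (x n : G), n ∈ N → x * n * x⁻¹ ∈ N := fun x n hn =>
    Subgroup.Normal.conj_mem inferInstance n hn x
  obtain ⟨v, hvN, hvo⟩ := hNex c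
  have hv1 : v ≠ 1 := by
    rintro rfl
    rw [one_smul] at hvo
    exact hoc hvo
  -- conjugation formula
  have hconjsmul : ∀ (x n : G), x • o = o → (x * n * x⁻¹) • o = x • (n • o) := by
    intro x n hx
    have : x⁻¹ • o = o := by rw [inv_smul_eq_iff, hx]
    rw [mul_smul, mul_smul, this]
  -- `h` centralises `v`
  have hcfix : ∀ n ∈ N, h * n * h⁻¹ = n ↔ n = 1 ∨ n = v := by
    intro n hn
    constructor
    · intro he
      have h1 : h • (n • o) = n • o := by
        rw [← hconjsmul h n hho, he]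
      rcases hhfix _ h1 with h2' | h2'
      · exact Or.inl (hreg n hn h2')
      · exact Or.inr (hNeq n hn v hvN (h2'.trans hvo.symm))
    · rintro (rfl | rfl)
      · simp
      · apply hNeq _ (hconjN _ _ hn) _ hn
        rw [hconjsmul h n hho, hvo, hhc]
  have hv2 : v * v = 1 := by
    have h1 := (hcfix v hvN).mpr (Or.inr rfl)
    have h2' : h * (v * v) * h⁻¹ = v * v := by
      calc h * (v * v) * h⁻¹ = (h * v * h⁻¹) * (h * v * h⁻¹) := by group
        _ = v * v := by rw [h1]
    rcases (hcfix _ (N.mul_mem hvN hvN)).mp h2' with h4 | h4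
    · exact h4
    · exfalso
      apply hv1
      have : v * v = v * 1 := by rw [h4, mul_one]
      exact mul_left_cancel this
  have hsq : ∀ n ∈ N, n * n = 1 := by
    intro n hn
    by_cases hn1 : n = 1
    · rw [hn1, one_mul]
    have hno : n • o ≠ o := fun he => hn1 (hreg n hn he)
    obtain ⟨g, hg1, hg2⟩ := h2t (x := o) (y := c) (x' := o) (y' := n • o) hoc hno.symm
    have h1 : g * v * g⁻¹ = n := by
      apply hNeq _ (hconjN _ _ hvN) _ hn
      rw [hconjsmul g v hg1, hvo, hg2]
    rw [← h1]
    calc g * v * g⁻¹ * (g * v * g⁻¹) = g * (v * v) * g⁻¹ := by group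
      _ = 1 := by rw [hv2]; group
  have hcommN : ∀ n ∈ N, ∀ m ∈ N, n * m = m * n := by
    intro n hn m hm
    have h1 := hsq _ (N.mul_mem hn hm)
    have h2' := hsq n hn
    have h4 := hsq m hm
    calc n * m = n * m * (m * n * (m * n)) := by
          have : m * n * (m * n) = 1 := hsq _ (N.mul_mem hm hn)
          rw [this, mul_one]
      _ = (n * (m * m) * n) * (m * n) := by group
      _ = m * n := by rw [h4, mul_one, h2', one_mul]
  obtain ⟨F, hFo, hFn, hFc, hFs⟩ := exists_kernel h2t h3 hoc hh1 hho hhc hthird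
  -- `|F| + 1 = |Ω|`
  have hcardF : Nat.card F + 1 = Fintype.card Ω := by
    have e : F ≃ {z : Ω // z ≠ o} := by
      refine Equiv.ofBijective (fun u => ⟨u.1 • c, ?_⟩) ⟨?_, ?_⟩
      · intro he
        apply hoc
        have h1 : u.1 • o = o := hFo u.1 u.2
        exact (MulAction.injective u.1 (h1.trans he.symm))
      · intro u w huw
        have huw' : u.1 • c = w.1 • c := congrArg Subtype.val huw
        have h1 : (w.1⁻¹ * u.1) • c = c := by rw [mul_smul, huw', inv_smul_smul]
        have h2' := hFc _ (F.mul_mem (F.inv_mem w.2) u.2) h1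
        rw [inv_mul_eq_one] at h2'
        exact Subtype.ext h2'.symm
      · rintro ⟨z, hz⟩
        obtain ⟨u, hu, huc⟩ := hFs z hz
        exact ⟨⟨u, hu⟩, Subtype.ext huc⟩
    rw [Nat.card_congr e, Nat.card_eq_fintype_card, Fintype.card_subtype_compl,
      Fintype.card_subtype_eq]
    have : 1 ≤ Fintype.card Ω := Fintype.card_pos_iff.mpr ⟨o⟩
    omega
  -- `|N| = |Ω|`
  have hcardN : Nat.card N = Fintype.card Ω := by
    rw [← Nat.card_eq_fintype_card]
    apply Nat.card_congr
    refine Equiv.ofBijective (fun n : N => n.1 • o) ⟨?_, ?_⟩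
    · intro n m hnm
      exact Subtype.ext (hNeq n.1 n.2 m.1 m.2 hnm)
    · intro y
      obtain ⟨n, hn, hny⟩ := hNex y
      exact ⟨⟨n, hn⟩, hny⟩
  have hNeven : 2 ∣ Nat.card N := by
    have h1 : orderOf (⟨v, hvN⟩ : N) = 2 := by
      apply orderOf_eq_prime
      · apply Subtype.ext
        simp [pow_two, hv2]
      · intro he
        exact hv1 (congrArg Subtype.val he)
    rw [← h1]
    exact orderOf_dvd_natCard _
  have hFodd : Odd (Nat.card F) := by
    rw [← hcardN] at hcardF
    rw [← Nat.not_even_iff_odd, even_iff_two_dvd]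
    intro h4
    have h5 : 2 ∣ Nat.card F + 1 := by rw [hcardF]; exact hNeven
    have h6 : 2 ∣ 1 := (Nat.dvd_add_right h4).mp h5
    omega
  -- `F` is a `Z`-group
  have hNne : N ≠ ⊥ := by
    intro he
    rw [he, Subgroup.mem_bot] at hvN
    exact hv1 hvN
  have hFfix : ∀ u ∈ F, u ≠ 1 → ∀ y, y ≠ o → u • y ≠ y := by
    intro u hu hu1 y hy huy
    obtain ⟨w, hw, rfl⟩ := hFs y hy
    apply hu1
    have h1 : (w⁻¹ * u * w) • c = c := by
      rw [mul_smul, mul_smul, huy, inv_smul_smul]
    have hwo : w • o = o := hFo w hw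
    have hwi : w⁻¹ • o = o := by rw [inv_smul_eq_iff, hwo]
    have h2' : w⁻¹ * u * w ∈ F := by
      have := hFn w⁻¹ hwi u hu
      simpa using this
    have h4 := hFc _ h2' h1
    have h5 : w * (w⁻¹ * u * w) * w⁻¹ = w * 1 * w⁻¹ := by rw [h4]
    simpa [mul_assoc] using h5
  haveI hzg : IsZGroup F := by
    refine ⟨fun p hp P => ?_⟩
    haveI : Fact p.Prime := ⟨hp⟩
    let P' : Subgroup G := (P : Subgroup F).map F.subtype
    have hP'F : P' ≤ F := by
      rintro _ ⟨x, -, rfl⟩
      exact x.2
    have hpg : IsPGroup p P' := P.isPGroup'.map F.subtype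
    have hnorm : P' ≤ Subgroup.normalizer (N : Set G) := by
      intro x _
      rw [Subgroup.mem_normalizer_iff]
      intro y
      constructor
      · exact hconjN x y
      · intro hy
        have := hconjN x⁻¹ _ hy
        simpa [mul_assoc] using this
    have hfpf : ∀ x ∈ P', x ≠ 1 → ∀ w ∈ N, x * w = w * x → w = 1 := by
      intro x hx hx1 w hw hcomm
      apply hreg w hw
      by_contra hwo
      apply hFfix x (hP'F hx) hx1 _ hwo
      rw [← mul_smul, hcomm, mul_smul, hFo x (hP'F hx)]
    have hcyc : IsCyclic P' := by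
      rcases Cfsg.Agent.Lib.Frobenius.SylowFpf.isCyclic_or_quaternion_of_fpf hNne hnorm hfpf hpg with
        h' | ⟨h2', -⟩
      · exact h'
      · haveI hsub : Subsingleton P' := by
          have hcd : Nat.card P' ∣ Nat.card F := Subgroup.card_dvd_of_le hP'F
          have hoddP : Odd (Nat.card P') := Odd.of_dvd_nat hFodd hcd
          rcases hpg.card_eq_or_dvd with h1 | h1
          · exact (Nat.card_eq_one_iff_unique.mp h1).1
          · rw [h2'] at h1
            exact absurd (even_iff_two_dvd.mpr h1) (Nat.not_even_iff_odd.mpr hoddP)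
        exact isCyclic_of_subsingleton
    exact isCyclic_of_surjective (Subgroup.equivMapOfInjective (P : Subgroup F) F.subtype
      F.subtype_injective).symm.toMonoidHom (MulEquiv.surjective _)
  -- `F` is cyclic
  have hhi : h⁻¹ • o = o := by rw [inv_smul_eq_iff, hho]
  have hFh : ∀ x ∈ F, h * x * h⁻¹ ∈ F := fun x hx => hFn h hho x hx
  have hFh' : ∀ x ∈ F, h⁻¹ * x * h ∈ F := fun x hx => by
    have := hFn h⁻¹ hhi x hx
    simpa using this
  let α : F ≃* F := Cfsg.Agent.S0739.swapEquiv F h hFh hFh'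
  have hα : ∀ x : F, ((α x : F) : G) = h * x * h⁻¹ := fun x => rfl
  haveI hcyc : IsCyclic F := by
    apply cyclic_of_zgroup_fpf α
    intro x hx
    have h1 : h * (x : G) * h⁻¹ = x := congrArg Subtype.val hx
    apply Subtype.ext
    apply hFc x.1 x.2
    have h4 : h • ((x : G) • c) = (x : G) • c := by
      have h5 : h * (x : G) = x * h := by
        rw [mul_inv_eq_iff_eq_mul] at h1
        exact h1
      rw [← mul_smul, h5, mul_smul, hhc]
    rcases hhfix _ h4 with h5 | h5
    · exfalso
      apply hoc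
      have h6 : (x : G) • o = o := hFo x.1 x.2
      exact MulAction.injective (x : G) (h6.trans h5.symm)
    · exact h5
  obtain ⟨g₁, hg₁⟩ := IsCyclic.exists_generator (α := F)
  set g₀ : G := (g₁ : G) with hg₀
  have hFpow : ∀ u ∈ F, ∃ k : ℕ, g₀ ^ k = u := by
    intro u hu
    obtain ⟨k, hk⟩ := (mem_powers_iff_mem_zpowers).mpr (hg₁ ⟨u, hu⟩)
    refine ⟨k, ?_⟩
    have := congrArg Subtype.val hk
    simpa using this
  -- the additive module
  letI : CommGroup N := { (inferInstance : Group N) with
    mul_comm := fun x y => Subtype.ext (hcommN x.1 x.2 y.1 y.2) }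
  let ρ : G →* AddMonoid.End (Additive N) :=
    { toFun := fun x =>
        { toFun := fun w => Additive.ofMul ⟨x * (w.toMul : G) * x⁻¹, hconjN _ _ w.toMul.2⟩
          map_zero' := by
            apply Additive.toMul.injective
            apply Subtype.ext
            simp
          map_add' := fun u w => by
            apply Additive.toMul.injective
            apply Subtype.ext
            simp [mul_assoc] }
      map_one' := by
        apply AddMonoidHom.ext
        intro w
        apply Additive.toMul.injective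
        apply Subtype.ext
        change (1 : G) * ((w.toMul : N) : G) * (1 : G)⁻¹ = (w.toMul : N)
        simp
      map_mul' := fun x y => by
        apply AddMonoidHom.ext
        intro w
        apply Additive.toMul.injective
        apply Subtype.ext
        change (x * y) * ((w.toMul : N) : G) * (x * y)⁻¹ = x * (y * ((w.toMul : N) : G) * y⁻¹) * x⁻¹
        group }
  have hρ : ∀ (x : G) (w : N), ((ρ x (Additive.ofMul w)).toMul : G) = x * w * x⁻¹ := fun _ _ => rfl
  have hV : Nat.card (Additive N) = 2 ^ r := by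
    obtain ⟨t, ht⟩ := hFpow _ (hFh g₀ g₁.2)
    have hrpos := hr.pos
    refine card_of_singer (ρ g₀) (ρ h) (n := orderOf g₀) (t := t) (orderOf_pos g₀) ?_ hr ?_ ?_ ?_
      (Additive.ofMul ⟨v, hvN⟩) ?_ ?_ ?_ ?_
    · rw [← map_pow, pow_orderOf_eq_one, map_one]
    · rw [← map_pow, ← hordh, pow_orderOf_eq_one, map_one]
    · intro he
      apply hh1
      apply FaithfulSMul.eq_of_smul_eq_smul (α := Ω)
      intro z
      obtain ⟨n, hn, rfl⟩ := hNex z
      rw [one_smul]
      have h1 : ρ h (Additive.ofMul ⟨n, hn⟩) = Additive.ofMul ⟨n, hn⟩ := by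
        rw [he]
        rfl
      have h2' : h * n * h⁻¹ = n := by
        have := hρ h ⟨n, hn⟩
        rw [h1] at this
        exact this.symm
      rw [← hconjsmul h n hho, h2']
    · have h1 : h ^ (r - 1) = h⁻¹ := by
        rw [eq_inv_iff_mul_eq_one, ← pow_succ, Nat.sub_add_cancel hrpos, ← hordh,
          pow_orderOf_eq_one]
      rw [← map_pow, ← map_mul, ← map_mul, h1, ← map_pow, ht]
    · intro he
      apply hv1
      have := congrArg (fun w : Additive N => ((w.toMul : N) : G)) he
      exact this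
    · intro w hw
      set n : N := w.toMul with hn
      have hn1 : (n : G) ≠ 1 := by
        intro he
        apply hw
        apply Additive.toMul.injective
        exact Subtype.ext he
      have hno : (n : G) • o ≠ o := fun he => hn1 (hreg n n.2 he)
      obtain ⟨u, hu, huc⟩ := hFs _ hno
      obtain ⟨k, rfl⟩ := hFpow u hu
      refine ⟨k, ?_⟩
      rw [← map_pow]
      apply Additive.toMul.injective
      apply Subtype.ext
      rw [hρ]
      apply hNeq _ (hconjN _ _ hvN) _ n.2
      rw [hconjsmul _ v (hFo _ hu), hvo, huc]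
    · apply Additive.toMul.injective
      apply Subtype.ext
      rw [hρ]
      exact (hcfix v hvN).mpr (Or.inr rfl)
    · intro w hw
      have h1 : h * ((w.toMul : N) : G) * h⁻¹ = (w.toMul : N) := by
        have := hρ h w.toMul
        rw [← this]
        have h4 : Additive.ofMul (w.toMul) = w := rfl
        rw [h4, hw]
      rcases (hcfix _ (w.toMul : N).2).mp h1 with h4 | h4
      · left
        apply Additive.toMul.injective
        exact Subtype.ext h4
      · right
        apply Additive.toMul.injective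
        exact Subtype.ext h4
  refine ⟨r, hr, ?_⟩
  rw [← hcardN, ← hV]
  rfl

end Cfsg.Agent.S0341
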