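import Cfsg.Statements.S0346
import Mathlib
import Cfsg.Agent.Lib.Zass.Rows8
import Cfsg.Agent.S0738
import Cfsg.Agent.S0741

set_option autoImplicit false
open Cfsg

namespace Cfsg.Agent.S0346

open MulAction Cfsg.Agent.Lib.Zass.Basic

/-- The number of points of a finite simple Zassenhaus group is `p^k + 1` for some prime power `p^k` (the regular normal
subgroup of a point stabiliser is a `p`-group). -/
theorem result {G Ω : Type*} [Group G] [Finite G] [MulAction G Ω] [Fintype Ω]
    (hZ : Cfsg.IsZassenhausGroup G Ω) [IsSimpleGroup G] :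
    IsPrimePow (Fintype.card Ω - 1) := by
  classical
  haveI := Fintype.ofFinite G
  obtain ⟨g, hg, a, b, hab, -, -⟩ := exists_ne_one_fix hZ
  have hk : Nat.card (kernel hZ a) + 1 = Fintype.card Ω := by
    rw [card_kernel_add_one, Nat.card_eq_fintype_card]
  have hne : kernel hZ a ≠ ⊥ := kernel_ne_bot hZ a
  have hH1 : 1 < Nat.card (kernel hZ a) := by
    have : Nontrivial (kernel hZ a) := (Subgroup.nontrivial_iff_ne_bot _).mpr hne
    exact Finite.one_lt_card
  by_cases hp : ∃ p : ℕ, p.Prime ∧ IsPGroup p (kernel hZ a)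
  · obtain ⟨p, hpp, hP⟩ := hp
    haveI : Fact p.Prime := ⟨hpp⟩
    obtain ⟨k, hk'⟩ := IsPGroup.iff_card.mp hP
    have hk0 : k ≠ 0 := by
      rintro rfl
      rw [pow_zero] at hk'
      omega
    have h1 : Fintype.card Ω - 1 = p ^ k := by omega
    rw [h1]
    exact (hpp.isPrimePow).pow hk0
  · push Not at hp
    have hd : Fintype.card Ω - 2 ≤ 2 * Nat.card ↥(stabilizer G a ⊓ stabilizer G b : Subgroup G) := by
      rcases Nat.even_or_odd (Nat.card ↥(stabilizer G a ⊓ stabilizer G b : Subgroup G)) with he | ho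
      · exact Cfsg.Agent.S0741.result hZ hab he
      · exact Cfsg.Agent.Lib.Zass.Rows8.feit_not_pgroup hZ hab ho hp
    obtain ⟨-, p, f, hpp, -, hcard⟩ := Cfsg.Agent.S0738.result hZ hab hd (kernel hZ a) (kernel_le hZ a)
      (by
        constructor
        intro x hx y
        rw [Subgroup.mem_subgroupOf] at hx ⊢
        exact conj_mem_kernel_of_fix hZ y.2 hx)
      (by
        intro y z hy hz
        obtain ⟨u, hu, huy⟩ := exists_kernel_smul hZ hy hz
        refine ⟨⟨u, hu⟩, huy, ?_⟩
        rintro ⟨v, hv⟩ hvy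
        apply Subtype.ext
        exact kernel_eq_of_smul_eq hZ hy hv hu (hvy.trans huy.symm))
    have hf0 : f ≠ 0 := by
      rintro rfl
      rw [pow_zero] at hcard
      omega
    have h1 : Fintype.card Ω - 1 = p ^ f := by omega
    rw [h1]
    exact (hpp.isPrimePow).pow hf0

end Cfsg.Agent.S0346
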