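import Cfsg.Statements.S0353
import Cfsg.Agent.S0352
import Mathlib

set_option autoImplicit false
open Cfsg

namespace Cfsg.Agent.S0353

open scoped symmDiff

theorem card_symmDiff_add {α : Type*} [DecidableEq α] (A C : Finset α) :
    (A ∆ C).card + 2 * (A ∩ C).card = A.card + C.card := by
  have h1 : (A ∆ C).card = (A \ C).card + (C \ A).card := by
    rw [Finset.symmDiff_def, Finset.card_union_of_disjoint]
    exact (Finset.disjoint_left.mpr (fun x hx hx' =>
      (Finset.mem_sdiff.mp hx').2 (Finset.mem_sdiff.mp hx).1))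
  have h2 := Finset.card_sdiff_add_card_inter A C
  have h3 := Finset.card_sdiff_add_card_inter C A
  rw [Finset.inter_comm] at h3
  omega

theorem even_symmDiff_inter {α : Type*} [DecidableEq α] (X Y O : Finset α)
    (hX : Even (X ∩ O).card) (hY : Even (Y ∩ O).card) : Even ((X ∆ Y) ∩ O).card := by
  have h : (X ∆ Y) ∩ O = (X ∩ O) ∆ (Y ∩ O) := by
    ext z; simp only [Finset.mem_inter, Finset.mem_symmDiff]; tauto
  rw [h]
  have := card_symmDiff_add (X ∩ O) (Y ∩ O)
  rcases hX with ⟨a, ha⟩
  rcases hY with ⟨b, hb⟩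
  refine ⟨a + b - ((X ∩ O) ∩ (Y ∩ O)).card, ?_⟩
  omega

/-- The core argument with the intersection numbers taken as a hypothesis. -/
theorem aux {α : Type*} [Fintype α] [DecidableEq α] (hα : Fintype.card α = 24) {B : Set (Finset α)}
    (hB : Cfsg.IsSteinerSystem 5 8 B)
    (hint : ∀ b ∈ B, ∀ c ∈ B, b ≠ c → (b ∩ c).card = 0 ∨ (b ∩ c).card = 2 ∨ (b ∩ c).card = 4)
    {b c : Finset α} (hb : b ∈ B) (hc : c ∈ B) (h4 : (b ∩ c).card = 4) : symmDiff b c ∈ B := by
  classical
  obtain ⟨hcard, huniq⟩ := hB
  -- every block meets every block evenly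
  have hev : ∀ d ∈ B, ∀ O ∈ B, Even (d ∩ O).card := by
    intro d hd O hO
    by_cases hdO : d = O
    · subst hdO
      rw [Finset.inter_self, hcard d hd]
      exact ⟨4, rfl⟩
    · rcases hint d hd O hO hdO with h | h | h <;> rw [h]
      · exact ⟨0, rfl⟩
      · exact ⟨1, rfl⟩
      · exact ⟨2, rfl⟩
  have hb8 := hcard b hb
  have hc8 := hcard c hc
  set W := b ∆ c with hW
  have hW8 : W.card = 8 := by
    have := card_symmDiff_add b c
    rw [← hW] at this
    omega
  have hWev : ∀ O ∈ B, Even (W ∩ O).card := fun O hO =>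
    even_symmDiff_inter b c O (hev b hb O hO) (hev c hc O hO)
  -- a five-subset of W lies in a block
  obtain ⟨s, hsW, hs5⟩ := Finset.exists_subset_card_eq (show 5 ≤ W.card by omega)
  obtain ⟨O, ⟨hO, hsO⟩, -⟩ := huniq s hs5
  have hO8 := hcard O hO
  have hge5 : 5 ≤ (W ∩ O).card := by
    rw [← hs5]
    exact Finset.card_le_card (Finset.subset_inter hsW hsO)
  have hle8 : (W ∩ O).card ≤ 8 := by
    have := Finset.card_le_card (Finset.inter_subset_left (s₁ := W) (s₂ := O))
    omega
  rcases hWev O hO with ⟨m, hm⟩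
  have hcases : (W ∩ O).card = 6 ∨ (W ∩ O).card = 8 := by omega
  rcases hcases with h6 | h8
  · -- V = W ∆ O is a 4-set meeting all blocks evenly: contradiction
    exfalso
    set V := W ∆ O with hV
    have hV4 : V.card = 4 := by
      have := card_symmDiff_add W O
      rw [← hV] at this
      omega
    have hVev : ∀ P ∈ B, Even (V ∩ P).card := fun P hP =>
      even_symmDiff_inter W O P (hWev P hP) (hev O hO P hP)
    -- pick p outside V
    obtain ⟨p, hp⟩ : (Finset.univ \ V).Nonempty := by
      rw [← Finset.card_pos, Finset.card_sdiff_of_subset (Finset.subset_univ V), Finset.card_univ, hα]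
      omega
    have hpV : p ∉ V := (Finset.mem_sdiff.mp hp).2
    have hs5' : (insert p V).card = 5 := by
      rw [Finset.card_insert_of_notMem hpV, hV4]
    obtain ⟨O1, ⟨hO1, hO1s⟩, hO1u⟩ := huniq _ hs5'
    have hO18 := hcard O1 hO1
    obtain ⟨q, hq⟩ : (Finset.univ \ O1).Nonempty := by
      rw [← Finset.card_pos, Finset.card_sdiff_of_subset (Finset.subset_univ O1), Finset.card_univ, hα]
      omega
    have hqO1 : q ∉ O1 := (Finset.mem_sdiff.mp hq).2
    have hqV : q ∉ V := fun h => hqO1 (hO1s (Finset.mem_insert_of_mem h))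
    have hqp : q ≠ p := fun h => hqO1 (hO1s (h ▸ Finset.mem_insert_self p V))
    -- choose three points of V
    obtain ⟨t, htV, ht3⟩ := Finset.exists_subset_card_eq (show 3 ≤ V.card by omega)
    have hpt : p ∉ t := fun h => hpV (htV h)
    have hqt : q ∉ t := fun h => hqV (htV h)
    have hs5'' : (insert q (insert p t)).card = 5 := by
      rw [Finset.card_insert_of_notMem, Finset.card_insert_of_notMem hpt, ht3]
      rw [Finset.mem_insert]
      exact fun h => h.elim hqp hqt
    obtain ⟨O2, ⟨hO2, hO2s⟩, -⟩ := huniq _ hs5''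
    have hO2ev := hVev O2 hO2
    have ht_sub : t ⊆ V ∩ O2 :=
      Finset.subset_inter htV (fun z hz => hO2s (Finset.mem_insert_of_mem (Finset.mem_insert_of_mem hz)))
    have h3le : 3 ≤ (V ∩ O2).card := by
      rw [← ht3]; exact Finset.card_le_card ht_sub
    have hle4 : (V ∩ O2).card ≤ 4 := by
      have := Finset.card_le_card (Finset.inter_subset_left (s₁ := V) (s₂ := O2))
      omega
    rcases hO2ev with ⟨k, hk⟩
    have h4' : (V ∩ O2).card = 4 := by omega
    have hVO2 : V ⊆ O2 := by
      have heq := Finset.eq_of_subset_of_card_le (Finset.inter_subset_left (s₁ := V) (s₂ := O2))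
        (by omega)
      exact fun z hz => (Finset.mem_inter.mp (heq ▸ hz)).2
    have hpO2 : p ∈ O2 := hO2s (Finset.mem_insert_of_mem (Finset.mem_insert_self p t))
    have hqO2 : q ∈ O2 := hO2s (Finset.mem_insert_self q _)
    have hO2eq : O2 = O1 := hO1u O2 ⟨hO2, by
      intro z hz
      rcases Finset.mem_insert.mp hz with rfl | hz
      · exact hpO2
      · exact hVO2 hz⟩
    exact hqO1 (hO2eq ▸ hqO2)
  · -- W ∩ O has eight points, so W = O
    have : W = O := by
      have h1 : W ∩ O = W := Finset.eq_of_subset_of_card_le Finset.inter_subset_left (by omega)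
      have h2 : W ∩ O = O := Finset.eq_of_subset_of_card_le Finset.inter_subset_right (by omega)
      exact h1.symm.trans h2
    rw [this]
    exact hO

/-- In an S(5, 8, 24), the symmetric difference of two blocks meeting in four points is a block. -/
theorem result {α : Type*} [Fintype α] [DecidableEq α] (hα : Fintype.card α = 24) {B : Set (Finset α)} (hB : Cfsg.IsSteinerSystem 5 8 B) {b c : Finset α} (hb : b ∈ B) (hc : c ∈ B) (h4 : (b ∩ c).card = 4) : symmDiff b c ∈ B :=
  aux hα hB (fun _ hb' _ hc' hne => Cfsg.Agent.S0352.result hα hB hb' hc' hne) hb hc h4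

end Cfsg.Agent.S0353
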