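import Cfsg.Statements.S0354
import Mathlib
import Cfsg.Agent.Lib.BasicSteiner.Count
-- import your own Cfsg.Agent.* helpers here

set_option autoImplicit false
open Cfsg

namespace Cfsg.Agent.S0354

/-- In an S(5, 8, 24), each block is disjoint from exactly 30 blocks. -/
theorem result {α : Type*} [Fintype α] [DecidableEq α] (hα : Fintype.card α = 24) {B : Set (Finset α)} (hB : Cfsg.IsSteinerSystem 5 8 B) {b : Finset α} (hb : b ∈ B) : {c : Finset α | c ∈ B ∧ Disjoint b c}.ncard = 30 := by
  classical
  open Cfsg.Agent.Lib.BasicSteiner.Count in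
  have hK : ∀ c ∈ blocks B, (c ∩ b).card < 9 := by
    intro c hc
    have h1 : (c ∩ b).card ≤ c.card := Finset.card_le_card Finset.inter_subset_left
    rw [hB.1 c (mem_blocks.mp hc)] at h1
    omega
  have hb8 : b.card = 8 := hB.1 b hb
  have hα' : Fintype.card α = 24 := hα
  open Cfsg.Agent.Lib.BasicSteiner.Count in
  have heq : ∀ j lam : ℕ, j ≤ 5 → 0 < (8 - j).choose (5 - j) →
      lam * (8 - j).choose (5 - j) = (24 - j).choose (5 - j) →
      ∑ i ∈ Finset.range 9, ((blocks B).filter (fun c => (c ∩ b).card = i)).card * i.choose j =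
        (8).choose j * lam := by
    intro j lam hj hpos hlam
    rw [← sum_choose_fiberwise B b j 9 hK, sum_choose_inter_eq hB b j lam hj hpos (by rw [hα]; exact hlam), hb8]
  open Cfsg.Agent.Lib.BasicSteiner.Count in
  have hbig : ∀ c ∈ blocks B, 5 ≤ (c ∩ b).card → c = b := by
    intro c hc h
    exact eq_of_card_inter_ge hB (mem_blocks.mp hc) hb h
  open Cfsg.Agent.Lib.BasicSteiner.Count in
  have hzero : ∀ i, 5 ≤ i → i ≠ 8 → ((blocks B).filter (fun c => (c ∩ b).card = i)).card = 0 := by
    intro i hi hi8
    rw [Finset.card_eq_zero, Finset.filter_eq_empty_iff]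
    intro c hc hci
    have := hbig c hc (by omega)
    subst this
    rw [Finset.inter_self, hb8] at hci
    omega
  open Cfsg.Agent.Lib.BasicSteiner.Count in
  have hone : ((blocks B).filter (fun c => (c ∩ b).card = 8)).card = 1 := by
    rw [Finset.card_eq_one]
    refine ⟨b, ?_⟩
    ext c
    simp only [Finset.mem_filter, Finset.mem_singleton]
    constructor
    · rintro ⟨hc, hci⟩
      exact hbig c hc (by omega)
    · rintro rfl
      exact ⟨mem_blocks.mpr hb, by rw [Finset.inter_self, hb8]⟩
  open Cfsg.Agent.Lib.BasicSteiner.Count in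
  have hset : {c : Finset α | c ∈ B ∧ Disjoint b c} =
      ((blocks B).filter (fun c => (c ∩ b).card = 0) : Finset (Finset α)) := by
    ext c
    simp only [Set.mem_ofPred_eq, Finset.coe_filter, mem_blocks, Finset.card_eq_zero]
    constructor
    · rintro ⟨hc, hd⟩
      exact ⟨hc, Finset.disjoint_iff_inter_eq_empty.mp hd.symm⟩
    · rintro ⟨hc, hd⟩
      exact ⟨hc, (Finset.disjoint_iff_inter_eq_empty.mpr hd).symm⟩
  rw [hset, Set.ncard_coe_finset]
  have e0 := heq 0 759 (by norm_num) (by decide) (by decide)
  have e1 := heq 1 253 (by norm_num) (by decide) (by decide)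
  have e2 := heq 2 77 (by norm_num) (by decide) (by decide)
  have e3 := heq 3 21 (by norm_num) (by decide) (by decide)
  have e4 := heq 4 5 (by norm_num) (by decide) (by decide)
  have z5 := hzero 5 (by norm_num) (by norm_num)
  have z6 := hzero 6 (by norm_num) (by norm_num)
  have z7 := hzero 7 (by norm_num) (by norm_num)
  simp only [Finset.sum_range_succ, Finset.sum_range_zero, z5, z6, z7, hone] at e0 e1 e2 e3 e4
  open Cfsg.Agent.Lib.BasicSteiner.Count in
  generalize ((blocks B).filter (fun c => (c ∩ b).card = 0)).card = x0 at *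
  open Cfsg.Agent.Lib.BasicSteiner.Count in
  generalize ((blocks B).filter (fun c => (c ∩ b).card = 1)).card = x1 at *
  open Cfsg.Agent.Lib.BasicSteiner.Count in
  generalize ((blocks B).filter (fun c => (c ∩ b).card = 2)).card = x2 at *
  open Cfsg.Agent.Lib.BasicSteiner.Count in
  generalize ((blocks B).filter (fun c => (c ∩ b).card = 3)).card = x3 at *
  open Cfsg.Agent.Lib.BasicSteiner.Count in
  generalize ((blocks B).filter (fun c => (c ∩ b).card = 4)).card = x4 at *
  norm_num [Nat.choose] at e0 e1 e2 e3 e4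
  omega

end Cfsg.Agent.S0354
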