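import Cfsg.Statements.S0357
import Mathlib
import Cfsg.Agent.Lib.BasicSteiner.Count
-- import your own Cfsg.Agent.* helpers here

set_option autoImplicit false
open Cfsg

namespace Cfsg.Agent.S0357

/-- In a Steiner system S(5, 6, 12), the complement of every block is again a block. -/
theorem result {α : Type*} [Fintype α] [DecidableEq α] (hα : Fintype.card α = 12) {B : Set (Finset α)} (hB : Cfsg.IsSteinerSystem 5 6 B) {b : Finset α} (hb : b ∈ B) : bᶜ ∈ B := by
  classical
  open Cfsg.Agent.Lib.BasicSteiner.Count in
  have hK : ∀ c ∈ blocks B, (c ∩ b).card < 7 := by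
    intro c hc
    have h1 : (c ∩ b).card ≤ c.card := Finset.card_le_card Finset.inter_subset_left
    rw [hB.1 c (mem_blocks.mp hc)] at h1
    omega
  have hb8 : b.card = 6 := hB.1 b hb
  open Cfsg.Agent.Lib.BasicSteiner.Count in
  have heq : ∀ j lam : ℕ, j ≤ 5 → 0 < (6 - j).choose (5 - j) →
      lam * (6 - j).choose (5 - j) = (12 - j).choose (5 - j) →
      ∑ i ∈ Finset.range 7, ((blocks B).filter (fun c => (c ∩ b).card = i)).card * i.choose j =
        (6).choose j * lam := by
    intro j lam hj hpos hlam
    rw [← sum_choose_fiberwise B b j 7 hK, sum_choose_inter_eq hB b j lam hj hpos (by rw [hα]; exact hlam), hb8]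
  open Cfsg.Agent.Lib.BasicSteiner.Count in
  have hbig : ∀ c ∈ blocks B, 5 ≤ (c ∩ b).card → c = b := by
    intro c hc h
    exact eq_of_card_inter_ge hB (mem_blocks.mp hc) hb h
  open Cfsg.Agent.Lib.BasicSteiner.Count in
  have hfive : ((blocks B).filter (fun c => (c ∩ b).card = 5)).card = 0 := by
    rw [Finset.card_eq_zero, Finset.filter_eq_empty_iff]
    intro c hc hci
    have := hbig c hc (by omega)
    subst this
    rw [Finset.inter_self, hb8] at hci
    omega
  open Cfsg.Agent.Lib.BasicSteiner.Count in
  have hone : ((blocks B).filter (fun c => (c ∩ b).card = 6)).card = 1 := by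
    rw [Finset.card_eq_one]
    refine ⟨b, ?_⟩
    ext c
    simp only [Finset.mem_filter, Finset.mem_singleton]
    constructor
    · rintro ⟨hc, hci⟩
      exact hbig c hc (by omega)
    · rintro rfl
      exact ⟨mem_blocks.mpr hb, by rw [Finset.inter_self, hb8]⟩
  have e0 := heq 0 132 (by norm_num) (by decide) (by decide)
  have e1 := heq 1 66 (by norm_num) (by decide) (by decide)
  have e2 := heq 2 30 (by norm_num) (by decide) (by decide)
  have e3 := heq 3 12 (by norm_num) (by decide) (by decide)
  have e4 := heq 4 4 (by norm_num) (by decide) (by decide)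
  simp only [Finset.sum_range_succ, Finset.sum_range_zero, hfive, hone] at e0 e1 e2 e3 e4
  open Cfsg.Agent.Lib.BasicSteiner.Count in
  obtain ⟨c, hc0⟩ : ∃ c, c ∈ (blocks B).filter (fun c => (c ∩ b).card = 0) := by
    refine Finset.card_pos.mp ?_
    revert e0 e1 e2 e3 e4
    generalize ((blocks B).filter (fun c => (c ∩ b).card = 0)).card = x0
    generalize ((blocks B).filter (fun c => (c ∩ b).card = 1)).card = x1
    generalize ((blocks B).filter (fun c => (c ∩ b).card = 2)).card = x2
    generalize ((blocks B).filter (fun c => (c ∩ b).card = 3)).card = x3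
    generalize ((blocks B).filter (fun c => (c ∩ b).card = 4)).card = x4
    norm_num [Nat.choose]
    omega
  rw [Finset.mem_filter] at hc0
  obtain ⟨hcm, hcd⟩ := hc0
  have hcB := Cfsg.Agent.Lib.BasicSteiner.Count.mem_blocks.mp hcm
  have hdisj : Disjoint c b := by
    rw [Finset.card_eq_zero] at hcd
    exact Finset.disjoint_iff_inter_eq_empty.mpr hcd
  have hcc : c = bᶜ := by
    apply Finset.eq_of_subset_of_card_le
    · exact Finset.subset_compl_iff_disjoint_right.mpr hdisj
    · rw [Finset.card_compl, hα, hb8, hB.1 c hcB]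
  rw [← hcc]
  exact hcB

end Cfsg.Agent.S0357
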