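import Cfsg.Statements.S0362
import Mathlib
-- import your own Cfsg.Agent.* helpers here

set_option autoImplicit false
open Cfsg

namespace Cfsg.Agent.S0362

theorem gens_orth : ∀ a ∈ (Set.range qrWord ∪ {1} : Set (GolayPt → ZMod 2)),
    ∀ b ∈ (Set.range qrWord ∪ {1} : Set (GolayPt → ZMod 2)), ∑ i, a i * b i = 0 := by
  have h1 : ∀ s t : ZMod 23, ∑ i, qrWord s i * qrWord t i = 0 := by decide +kernel
  have h2 : ∀ s : ZMod 23, ∑ i, qrWord s i * (1 : GolayPt → ZMod 2) i = 0 := by decide +kernel
  have h3 : ∀ s : ZMod 23, ∑ i, (1 : GolayPt → ZMod 2) i * qrWord s i = 0 := by decide +kernel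
  have h4 : ∑ i, (1 : GolayPt → ZMod 2) i * (1 : GolayPt → ZMod 2) i = 0 := by decide +kernel
  rintro a (⟨s, rfl⟩ | rfl) b (⟨t, rfl⟩ | rfl)
  · exact h1 s t
  · exact h2 s
  · exact h3 t
  · exact h4

/-- The length-24 code is self-orthogonal: the dot product over ZMod 2 of any two of its words vanishes (with dimension 12 this makes it self-dual). -/
theorem result (v w : Cfsg.GolayPt → ZMod 2) (hv : v ∈ Cfsg.golayCode) (hw : w ∈ Cfsg.golayCode) : ∑ i, v i * w i = 0 := by
  classical
  induction hv using Submodule.span_induction with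
  | mem a ha =>
    induction hw using Submodule.span_induction with
    | mem b hb => exact gens_orth a ha b hb
    | zero => simp
    | add x y _ _ hx hy =>
      simp only [Pi.add_apply, mul_add, Finset.sum_add_distrib, hx, hy, add_zero]
    | smul c x _ hx =>
      simp only [Pi.smul_apply, smul_eq_mul]
      have : ∀ i, a i * (c * x i) = c * (a i * x i) := fun i => by ring
      simp only [this, ← Finset.mul_sum, hx, mul_zero]
  | zero => simp
  | add x y _ _ hx hy =>
    simp only [Pi.add_apply, add_mul, Finset.sum_add_distrib, hx, hy, add_zero]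
  | smul c x _ hx =>
    simp only [Pi.smul_apply, smul_eq_mul, mul_assoc, ← Finset.mul_sum, hx, mul_zero]

end Cfsg.Agent.S0362
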