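import Cfsg.Statements.S0369
import Cfsg.Agent.Lib.Compute.M24

set_option autoImplicit false
open Cfsg
open scoped Pointwise

namespace Cfsg.Agent.S0369

open Cfsg.Agent.Lib.Compute.M24 Cfsg.Agent.Lib.Compute.Golay Cfsg.Agent.Lib.Compute.GolayFast

/-- Twelve octads spanning the code. -/
def octBasis : List ℕ := [8391797, 262637, 525274, 1050548, 2101096, 4196943, 36294, 69395, 133817, 5279, 10558, 18147]

/-- The reduced basis in terms of `octBasis`. -/
def octSel : List ℕ := [2, 4, 8, 16, 32, 64, 128, 256, 512, 1024, 2048, 1]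

theorem redBasis_eq : redBasis = octSel.map (encodeAux octBasis) := by decide +kernel

theorem octBasis_ok : ∀ m ∈ octBasis, isCode m = true ∧ pop m = 8 := by decide +kernel

/-- The group of the code is the group of the octads. -/
theorem result : Cfsg.M24 = Cfsg.setSystemAut Cfsg.octads := by
  ext σ
  constructor
  · intro hσ
    have hsub : σ • octads ⊆ octads := by
      rintro _ ⟨o, ho, rfl⟩
      exact smul_mem_octads hσ ho
    exact Set.eq_of_subset_of_ncard_le hsub (by rw [Set.ncard_smul_set]) (Set.toFinite _)
  · intro hσ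
    have hS : σ • octads = octads := hσ
    refine mem_M24_of_basis σ ?_
    have hgen : ∀ m ∈ octBasis, maskWord m ∘ (σ⁻¹ : P) ∈ golayCode := by
      intro m hm
      obtain ⟨h1, h2⟩ := octBasis_ok m hm
      have hO : maskSupport m ∈ octads :=
        mem_wordsOfWeight_iff.2 ⟨m, mem_codeMasks_of_isCode h1, h2, rfl⟩
      have h3 : σ • maskSupport m ∈ octads := by
        rw [← hS]
        exact Set.smul_mem_smul_set hO
      obtain ⟨⟨w, hw, h4⟩, _⟩ := h3
      have h5 : support₂ (maskWord m ∘ (σ⁻¹ : P)) = support₂ w := by
        rw [support₂_comp_inv, support_maskWord, h4]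
      rw [word_eq_of_support_eq h5]
      exact hw
    intro b hb
    rw [redBasis_eq] at hb
    obtain ⟨k, _, rfl⟩ := List.mem_map.1 hb
    have hspan := maskWord_encodeAux_mem_span octBasis k
    have hle : Submodule.span (ZMod 2) (maskWord '' {b | b ∈ octBasis}) ≤
        golayCode.comap (relabel σ) := by
      rw [Submodule.span_le]
      rintro _ ⟨m, hm, rfl⟩
      exact hgen m hm
    exact hle hspan

end Cfsg.Agent.S0369
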