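import Cfsg.Statements.S0371
import Cfsg.Agent.Lib.Compute.M24

set_option autoImplicit false
open Cfsg

namespace Cfsg.Agent.S0371

open Cfsg.Agent.Lib.Compute.M24 in
theorem check : ∀ r : (ZMod 23)ˣ,
    inM24 (toL (Equiv.optionCongr (Units.mulLeft (r * r)))) = true := by decide +kernel

open Cfsg.Agent.Lib.Compute.M24 in
/-- Multiplication by a nonzero square preserves the code. -/
theorem result (u : (ZMod 23)ˣ) (hu : IsSquare u) : Equiv.optionCongr (Units.mulLeft u) ∈ Cfsg.M24 := by
  obtain ⟨r, rfl⟩ := hu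
  exact mem_M24_of_inM24 (codes_toL _) (check r)

end Cfsg.Agent.S0371
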