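import Cfsg.Statements.S0372
import Cfsg.Agent.Lib.Compute.M24

set_option autoImplicit false
open Cfsg

namespace Cfsg.Agent.S0372

open Cfsg.Agent.Lib.Compute.M24 in
/-- The map `x ↦ -1/x` preserves the code. -/
theorem result : Cfsg.projInv ∈ Cfsg.M24 :=
  mem_M24_of_inM24 (codes_toL _) (by decide +kernel)

end Cfsg.Agent.S0372
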