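import Cfsg.Statements.S0375
import Mathlib
import Cfsg.Agent.S5622
import Cfsg.Agent.S0407
import Cfsg.Agent.S0363
import Cfsg.Agent.S0358
import Cfsg.Agent.Lib.Sporadic.GolayCore

set_option autoImplicit false
open Cfsg

namespace Cfsg.Agent.S0375

/-- A doubly even self-dual binary code of length 24 with no words of weight 4 is equivalent to the length-24 code built from the squares modulo 23. -/
theorem result (C : Submodule (ZMod 2) (Fin 24 → ZMod 2)) (hdim : Module.finrank (ZMod 2) C = 12) (horth : ∀ v ∈ C, ∀ w ∈ C, ∑ i, v i * w i = 0) (h4 : ∀ w ∈ C, 4 ∣ hammingNorm w) (hno4 : ∀ w ∈ C, hammingNorm w ≠ 4) : ∃ e : Fin 24 ≃ Cfsg.GolayPt, ∀ w : Cfsg.GolayPt → ZMod 2, w ∈ Cfsg.golayCode ↔ (fun i => w (e i)) ∈ C := by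
  classical
  have hmin : ∀ w ∈ C, w ≠ 0 → 8 ≤ hammingNorm w := by
    intro w hw hne
    have h1 := h4 w hw
    have h2 := hno4 w hw
    have h3 : hammingNorm w ≠ 0 := by
      rwa [Ne, hammingNorm_eq_zero]
    obtain ⟨k, hk⟩ := h1
    have : k ≠ 0 := by
      rintro rfl
      simp at hk
      exact hne hk
    have : k ≠ 1 := by
      rintro rfl
      simp at hk
      exact h2 hk
    omega
  have hS := (Cfsg.Agent.S5622.result C hdim horth hmin).2
  have hO := Cfsg.Agent.S0363.result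
  obtain ⟨e', he'⟩ := Cfsg.Agent.S0407.result (α := GolayPt) (β := Fin 24) (by decide) (by simp) hO hS
  let φ : (GolayPt → ZMod 2) ≃ₗ[ZMod 2] (Fin 24 → ZMod 2) := LinearEquiv.funCongrLeft (ZMod 2) (ZMod 2) e'.symm
  have hφ : ∀ w i, φ w i = w (e'.symm i) := fun w i => rfl
  have hb : ∀ b ∈ Cfsg.Agent.Lib.Sporadic.GolayCore.basisList, φ (Cfsg.Agent.Lib.Sporadic.GolayCore.wordOf b) ∈ C := by
    intro b hb
    have h1 : Cfsg.Agent.Lib.Sporadic.GolayCore.ofMask b ∈ octads := by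
      have hlt : b < 2 ^ 24 := by
        revert b
        decide +kernel
      rw [Cfsg.Agent.Lib.Sporadic.GolayCore.ofMask_mem_octads_iff hlt]
      revert b
      decide +kernel
    have h2 : (Cfsg.Agent.Lib.Sporadic.GolayCore.ofMask b).image e' ∈ wordsOfWeight (C : Set (Fin 24 → ZMod 2)) 8 := by
      rw [← he']
      exact ⟨_, h1, rfl⟩
    obtain ⟨⟨c, hc, hc2⟩, -⟩ := h2
    have h3 : φ (Cfsg.Agent.Lib.Sporadic.GolayCore.wordOf b) = c := by
      funext i
      rw [hφ]
      have h5 : i ∈ support₂ c ↔ e'.symm i ∈ Cfsg.Agent.Lib.Sporadic.GolayCore.ofMask b := by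
        rw [hc2, Finset.mem_image]
        constructor
        · rintro ⟨a, ha, rfl⟩
          simpa using ha
        · intro h
          exact ⟨_, h, by simp⟩
      have h6 : c i ≠ 0 ↔ e'.symm i ∈ Cfsg.Agent.Lib.Sporadic.GolayCore.ofMask b := by
        rw [← h5]
        simp [support₂]
      have h7 : Cfsg.Agent.Lib.Sporadic.GolayCore.wordOf b (e'.symm i) ≠ 0 ↔ e'.symm i ∈ Cfsg.Agent.Lib.Sporadic.GolayCore.ofMask b := by
        rw [← Cfsg.Agent.Lib.Sporadic.GolayCore.support_wordOf]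
        simp [support₂]
      by_cases h8 : c i = 0
      · have h9 : ¬ Cfsg.Agent.Lib.Sporadic.GolayCore.wordOf b (e'.symm i) ≠ 0 := by
          rw [h7, ← h6]
          simpa using h8
        rw [h8]
        simpa using h9
      · have h9 : Cfsg.Agent.Lib.Sporadic.GolayCore.wordOf b (e'.symm i) ≠ 0 := by
          rw [h7, ← h6]
          exact h8
        rw [Cfsg.Agent.Lib.Sporadic.GolayCore.zmod2_eq_one_of_ne h8, Cfsg.Agent.Lib.Sporadic.GolayCore.zmod2_eq_one_of_ne h9]
    rw [h3]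
    exact hc
  have hle : golayCode.map (φ : (GolayPt → ZMod 2) →ₗ[ZMod 2] (Fin 24 → ZMod 2)) ≤ C := by
    rw [Cfsg.Agent.Lib.Sporadic.GolayCore.golayCode_eq_span, Submodule.map_span, Submodule.span_le]
    rintro _ ⟨_, ⟨b, hb', rfl⟩, rfl⟩
    exact hb b hb'
  have heq : golayCode.map (φ : (GolayPt → ZMod 2) →ₗ[ZMod 2] (Fin 24 → ZMod 2)) = C := by
    apply Submodule.eq_of_le_of_finrank_eq hle
    rw [hdim, LinearEquiv.finrank_map_eq, Cfsg.Agent.S0358.result]
  refine ⟨e'.symm, fun w => ?_⟩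
  have h1 : (fun i => w (e'.symm i)) = φ w := rfl
  rw [h1, ← heq]
  constructor
  · intro hw
    exact ⟨w, hw, rfl⟩
  · rintro ⟨v, hv, hvw⟩
    have : v = w := φ.injective hvw
    rwa [← this]

end Cfsg.Agent.S0375
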