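import Cfsg.Statements.S0380
import Cfsg.Agent.Lib.Compute.M24Exhaust
import Cfsg.Agent.Lib.Compute.M2xSimple
import Cfsg.Agent.Lib.Compute.SmallField
import Cfsg.Agent.Lib.Linalg.Basic
import Cfsg.Agent.Lib.Classical.Lin.Transvections

set_option autoImplicit false
open Cfsg

namespace Cfsg.Agent.S0380

open Cfsg.Agent.Lib.Compute.M24 Cfsg.Agent.Lib.Compute.Golay Cfsg.Agent.Lib.Compute.GolayFast
open Cfsg.Agent.Lib.Compute.GFModel Cfsg.Agent.Lib.Compute.SLHom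
open Cfsg.Agent.Lib.Sporadic.M24Act (mem_stabilizer_M24 exists_map_three)
open Matrix
open scoped MatrixGroups

/-- Vectors of the natural module. -/
abbrev V := Fin 3 → GF4

/-- The labels of the nonzero vectors. -/
def lamTbl : List ℕ := [0,4,4,4,3,11,20,19,3,19,11,20,3,20,19,11,2,13,22,16,5,8,15,7,17,6,12,9,14,10,21,18,2,16,13,22,14,18,10,21,5,7,8,15,17,9,6,12,2,22,16,13,17,12,9,6,14,21,18,10,5,15,7,8]

/-- The images of the transvections, coded. -/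
def sigTbl : List (List ℕ) := [[0,1,2,3,4,5,6,7,8,9,10,11,12,13,14,15,16,17,18,19,20,21,22,23],
  [0,1,2,3,4,5,6,7,8,9,10,11,12,13,14,15,16,17,18,19,20,21,22,23],
  [0,1,2,3,4,5,6,7,8,9,10,11,12,13,14,15,16,17,18,19,20,21,22,23],
  [0,1,2,3,4,5,6,7,8,9,10,11,12,13,14,15,16,17,18,19,20,21,22,23],
  [0,1,2,3,4,5,6,7,8,9,10,11,12,13,14,15,16,17,18,19,20,21,22,23],
  [0,1,2,11,4,8,9,15,5,6,21,3,17,13,18,7,16,12,14,20,19,10,22,23],
  [0,1,2,20,4,15,12,8,7,17,14,19,6,13,10,5,16,9,21,11,3,18,22,23],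
  [0,1,2,19,4,7,17,5,15,12,18,20,9,13,21,8,16,6,10,3,11,14,22,23],
  [0,1,2,3,4,5,6,7,8,9,10,11,12,13,14,15,16,17,18,19,20,21,22,23],
  [0,1,13,3,4,8,17,15,5,12,14,11,9,2,10,7,22,6,21,19,20,18,16,23],
  [0,1,22,3,4,15,9,8,7,6,18,11,17,16,21,5,13,12,10,19,20,14,2,23],
  [0,1,16,3,4,7,12,5,15,17,21,11,6,22,18,8,2,9,14,19,20,10,13,23],
  [0,1,2,3,4,5,6,7,8,9,10,11,12,13,14,15,16,17,18,19,20,21,22,23],
  [0,1,2,3,11,5,10,9,13,7,6,4,22,8,14,21,18,17,16,20,19,15,12,23],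
  [0,1,2,3,19,5,13,16,10,18,8,20,15,6,14,12,7,17,9,4,11,22,21,23],
  [0,1,2,3,20,5,8,18,6,16,13,19,21,10,14,22,9,17,7,11,4,12,15,23],
  [0,1,2,3,4,5,6,7,8,9,10,11,12,13,14,15,16,17,18,19,20,21,22,23],
  [0,1,2,3,4,5,6,7,8,9,10,11,12,13,14,15,16,17,18,19,20,21,22,23],
  [0,1,2,3,4,5,6,7,8,9,10,11,12,13,14,15,16,17,18,19,20,21,22,23],
  [0,1,2,3,4,5,6,7,8,9,10,11,12,13,14,15,16,17,18,19,20,21,22,23],
  [0,1,2,3,4,5,6,7,8,9,10,11,12,13,14,15,16,17,18,19,20,21,22,23],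
  [0,1,5,3,4,2,10,16,13,18,6,11,21,8,17,22,7,14,9,19,20,12,15,23],
  [0,1,17,3,4,14,13,18,10,16,8,11,22,6,5,21,9,2,7,19,20,15,12,23],
  [0,1,14,3,4,17,8,9,6,7,13,11,15,10,2,12,18,5,16,19,20,22,21,23],
  [0,1,2,3,4,5,6,7,8,9,10,11,12,13,14,15,16,17,18,19,20,21,22,23],
  [0,1,2,3,13,5,19,21,11,15,20,8,18,4,14,9,22,17,12,6,10,7,16,23],
  [0,1,2,3,16,5,21,19,12,20,15,18,8,22,14,10,4,17,11,7,9,6,13,23],
  [0,1,2,3,22,5,7,6,18,10,9,12,11,16,14,20,13,17,8,21,15,19,4,23],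
  [0,1,2,3,4,5,6,7,8,9,10,11,12,13,14,15,16,17,18,19,20,21,22,23],
  [0,1,2,5,4,3,21,19,11,10,9,8,18,13,17,20,16,14,12,7,15,6,22,23],
  [0,1,2,14,4,17,7,6,12,15,20,18,8,13,3,9,16,5,11,21,10,19,22,23],
  [0,1,2,17,4,14,19,21,18,20,15,12,11,13,5,10,16,3,8,6,9,7,22,23],
  [0,1,2,3,4,5,6,7,8,9,10,11,12,13,14,15,16,17,18,19,20,21,22,23],
  [0,1,2,3,4,5,6,7,8,9,10,11,12,13,14,15,16,17,18,19,20,21,22,23],
  [0,1,2,3,4,5,6,7,8,9,10,11,12,13,14,15,16,17,18,19,20,21,22,23],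
  [0,1,2,3,4,5,6,7,8,9,10,11,12,13,14,15,16,17,18,19,20,21,22,23]]

/-- The code of a vector. -/
def code3 (v : V) : ℕ := gf4.enc (v 0) + 4 * (gf4.enc (v 1) + 4 * gf4.enc (v 2))

/-- The label of a vector. -/
def lam (v : V) : ℕ := lamTbl.getD (code3 v) 0

/-- The image of a transvection. -/
def sigmaL (i j : Fin 3) (c : GF4) : List ℕ := sigTbl.getD (i.val * 12 + j.val * 4 + gf4.enc c) []

theorem sigma_ok : ∀ (i j : Fin 3) (c : GF4), i ≠ j →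
    inM24 (sigmaL i j c) = true ∧ fixCheck [1, 0, 23] (sigmaL i j c) = true := by decide +kernel

set_option maxHeartbeats 0 in
theorem sigma_act : ∀ (i j : Fin 3) (h : i ≠ j) (c x y z : GF4), ¬ (x = 0 ∧ y = 0 ∧ z = 0) →
    (sigmaL i j c).getD (lam ![x, y, z]) 0 = lam ((SpecialLinearGroup.transvection h c).1 *ᵥ ![x, y, z]) := by
  decide +kernel

theorem lam_lt : ∀ x y z : GF4, lam ![x, y, z] < 24 := by decide +kernel

set_option maxHeartbeats 0 in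
theorem lam_scal : ∀ r x y z : GF4, r ≠ 0 → ¬ (x = 0 ∧ y = 0 ∧ z = 0) → lam ![r * x, r * y, r * z] = lam ![x, y, z] := by
  decide +kernel

set_option maxHeartbeats 0 in
theorem lam_surj : ∀ n : Fin 24, n.val ∈ ([1, 0, 23] : List ℕ) ∨
    ∃ x y z : GF4, ¬ (x = 0 ∧ y = 0 ∧ z = 0) ∧ lam ![x, y, z] = n.val := by decide +kernel

theorem eta3 (v : V) : ![v 0, v 1, v 2] = v := by
  funext i
  fin_cases i <;> rfl

theorem ne0_iff (v : V) (hv : v ≠ 0) : ¬ (v 0 = 0 ∧ v 1 = 0 ∧ v 2 = 0) := by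
  rintro ⟨h0, h1, h2⟩
  apply hv
  funext i
  fin_cases i
  · exact h0
  · exact h1
  · exact h2

theorem lam_lt' (v : V) : lam v < 24 := by
  have := lam_lt (v 0) (v 1) (v 2)
  rwa [eta3] at this

/-- A matrix acts on the labels through a group element. -/
def Good (A : SL(3, GF4)) : Prop :=
  ∃ σ ∈ fixIn M24 [1, 0, 23], ∀ v : V, v ≠ 0 → σ (idxPt (lam v)) = idxPt (lam (A.1 *ᵥ v))

theorem good_transvection (i j : Fin 3) (h : i ≠ j) (c : GF4) : Good (SpecialLinearGroup.transvection h c) := by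
  obtain ⟨h1, h2⟩ := sigma_ok i j c h
  obtain ⟨σ, hσ, hL⟩ := exists_of_check ctxM24 [1, 0, 23] h1 h2
  refine ⟨σ, hσ, fun v hv => ?_⟩
  have h3 := sigma_act i j h c (v 0) (v 1) (v 2) (ne0_iff v hv)
  rw [eta3] at h3
  rw [← h3, ← hL, getD_toL σ (lam_lt' v), idxPt_ptIdx]

theorem mulVec_ne_zero (A : SL(3, GF4)) {v : V} (hv : v ≠ 0) : A.1 *ᵥ v ≠ 0 := by
  intro h
  apply hv
  have h1 : (A⁻¹).1 *ᵥ (A.1 *ᵥ v) = v := by
    have h2 : (A⁻¹).1 * A.1 = 1 := congrArg Subtype.val (inv_mul_cancel A)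
    rw [Matrix.mulVec_mulVec, h2, Matrix.one_mulVec]
  rw [← h1, h, Matrix.mulVec_zero]

theorem good_all (A : SL(3, GF4)) : Good A := by
  refine Cfsg.Agent.Lib.Classical.Lin.Transvections.transvection_induction Good good_transvection ?_ A
  rintro A B ⟨σ, hσ, h1⟩ ⟨τ, hτ, h2⟩
  refine ⟨σ * τ, (fixIn M24 [1, 0, 23]).mul_mem hσ hτ, fun v hv => ?_⟩
  rw [Equiv.Perm.mul_apply, h2 v hv, h1 _ (mulVec_ne_zero B hv), Matrix.mulVec_mulVec]
  rfl

theorem uniq {σ τ : P} (hσ : σ ∈ fixIn M24 [1, 0, 23]) (hτ : τ ∈ fixIn M24 [1, 0, 23])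
    (h : ∀ v : V, v ≠ 0 → σ (idxPt (lam v)) = τ (idxPt (lam v))) : σ = τ := by
  ext p
  rcases lam_surj ⟨ptIdx p, ptIdx_lt p⟩ with h1 | ⟨x, y, z, h1, h2⟩
  · have h2 := hσ.2 _ h1
    have h3 := hτ.2 _ h1
    rw [idxPt_ptIdx] at h2 h3
    rw [h2, h3]
  · have hv : ![x, y, z] ≠ 0 := by
      intro h0
      apply h1
      refine ⟨congrFun h0 0, congrFun h0 1, congrFun h0 2⟩
    have := h _ hv
    rw [h2, idxPt_ptIdx] at this
    rw [this]

/-- The homomorphism from `SL₃(4)`. -/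
theorem exists_f : ∃ f : SL(3, GF4) →* fixIn M24 [1, 0, 23], ∀ A, ∀ v : V, v ≠ 0 →
    (f A : P) (idxPt (lam v)) = idxPt (lam (A.1 *ᵥ v)) := by
  choose φ hφ hact using good_all
  refine ⟨MonoidHom.mk' (fun A => ⟨φ A, hφ A⟩) (fun A B => Subtype.ext ?_), fun A v hv => hact A v hv⟩
  apply uniq (hφ _) ((fixIn M24 [1, 0, 23]).mul_mem (hφ A) (hφ B))
  intro v hv
  show φ (A * B) _ = (φ A * φ B) _
  rw [hact _ v hv, Equiv.Perm.mul_apply, hact B v hv, hact A _ (mulVec_ne_zero B hv), Matrix.mulVec_mulVec]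
  rfl

theorem lam_ne : lam ((SpecialLinearGroup.transvection (Fin.zero_ne_one (n := 1)) (1 : GF4)).1 *ᵥ ![0, 1, 0]) ≠
    lam ![0, 1, 0] := by decide +kernel

theorem card_SL3 : Nat.card SL(3, GF4) = 60480 := by
  have h1 := Cfsg.Agent.Lib.Linalg.Basic.card_GL_eq_mul_card_SL (ι := Fin 3) (F := GF4)
  rw [Matrix.card_GL_field, Fin.prod_univ_three, Nat.card_eq_fintype_card, card_GF4] at h1
  simp only [Fin.val_zero, Fin.val_one, Fin.val_two] at h1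
  norm_num at h1
  rw [Nat.card_eq_fintype_card]
  omega

theorem card_PSL3 : Nat.card (ProjectiveSpecialLinearGroup (Fin 3) GF4) = 20160 := by
  have h1 := Cfsg.Agent.Lib.Linalg.Basic.card_PSL_mul (ι := Fin 3) (F := GF4)
  rw [card_SL3, Nat.card_eq_fintype_card (α := GF4), card_GF4] at h1
  norm_num at h1
  rw [Nat.card_eq_fintype_card]
  omega

theorem m21Chain_ok : chainCheck inM24 [] [1, 0, 23] (m22Levels.drop 1) = true := by decide +kernel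

theorem card_m21 : Nat.card (fixIn M24 [1, 0, 23]) = 20160 := by
  rw [chain_card ctxM24 _ _ m21Chain_ok]
  decide +kernel

theorem base_equiv : Nonempty (ProjectiveSpecialLinearGroup (Fin 3) GF4 ≃* fixIn M24 [1, 0, 23]) := by
  obtain ⟨f, hf⟩ := exists_f
  have hc : Subgroup.center SL(3, GF4) ≤ f.ker := by
    intro A hA
    rw [MonoidHom.mem_ker]
    obtain ⟨r, hr, hA'⟩ := (Matrix.SpecialLinearGroup.mem_center_iff).1 hA
    have hr0 : r ≠ 0 := by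
      rintro rfl
      simp at hr
    apply Subtype.ext
    apply uniq (f A).2 (Subgroup.one_mem _)
    intro v hv
    rw [hf A v hv]
    have hv2 : A.1 *ᵥ v = ![r * v 0, r * v 1, r * v 2] := by
      rw [← hA', Matrix.scalar_apply]
      funext i
      rw [Matrix.mulVec_diagonal]
      fin_cases i <;> rfl
    rw [hv2, lam_scal r _ _ _ hr0 (ne0_iff v hv), eta3]
    rfl
  have hx : f (SpecialLinearGroup.transvection (Fin.zero_ne_one (n := 1)) (1 : GF4)) ≠ 1 := by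
    intro h
    have hv : (![0, 1, 0] : V) ≠ 0 := by decide +kernel
    have h1 := hf (SpecialLinearGroup.transvection (Fin.zero_ne_one (n := 1)) (1 : GF4)) _ hv
    rw [h] at h1
    have h2 : idxPt (lam (![0, 1, 0] : V)) = idxPt (lam ((SpecialLinearGroup.transvection (Fin.zero_ne_one (n := 1)) (1 : GF4)).1 *ᵥ ![0, 1, 0])) := h1
    have h3 := congrArg ptIdx h2
    rw [ptIdx_idxPt (lam_lt' _), ptIdx_idxPt (lam_lt' _)] at h3
    exact lam_ne h3.symm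
  have : IsSimpleGroup (ProjectiveSpecialLinearGroup (Fin 3) GF4) :=
    Cfsg.Agent.Lib.Classical.Lin.Transvections.psl_isSimpleGroup (by simp)
  exact psl_equiv_of_hom f hc _ hx (by rw [card_PSL3, card_m21])


/-- A three-point stabiliser in the group of the length-24 code is isomorphic to PSL(3, F) for the field F with 4 elements. -/
theorem result (p q r : Cfsg.GolayPt) (hpq : p ≠ q) (hpr : p ≠ r) (hqr : q ≠ r) (F : Type) [Field F] [Fintype F] (hF : Fintype.card F = 4) : Nonempty (↥(MulAction.stabilizer Cfsg.M24 p ⊓ MulAction.stabilizer Cfsg.M24 q ⊓ MulAction.stabilizer Cfsg.M24 r) ≃* Matrix.ProjectiveSpecialLinearGroup (Fin 3) F) := by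
  obtain ⟨u, hu, hup, huq, hur⟩ := exists_map_three (a := idxPt 23) (b := idxPt 0) (c := idxPt 1) (a' := p) (b' := q) (c' := r)
    (by decide) (by decide) (by decide) hpq hpr hqr
  have hmem : ∀ x : Cfsg.M24, x ∈ (MulAction.stabilizer Cfsg.M24 p ⊓ MulAction.stabilizer Cfsg.M24 q ⊓
      MulAction.stabilizer Cfsg.M24 r) ↔ (u⁻¹ * (x : P) * u⁻¹⁻¹) ∈ fixIn M24 [1, 0, 23] := by
    intro x
    rw [Subgroup.mem_inf, Subgroup.mem_inf, mem_stabilizer_M24, mem_stabilizer_M24, mem_stabilizer_M24, mem_fixIn, inv_inv]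
    simp only [List.mem_cons, List.not_mem_nil, or_false, forall_eq_or_imp, forall_eq, Equiv.Perm.mul_apply]
    have hmemM : u⁻¹ * (x : P) * u ∈ Cfsg.M24 := Cfsg.M24.mul_mem (Cfsg.M24.mul_mem (Cfsg.M24.inv_mem hu) x.2) hu
    rw [hup, huq, hur, Equiv.Perm.inv_eq_iff_eq, Equiv.Perm.inv_eq_iff_eq, Equiv.Perm.inv_eq_iff_eq, hup, huq, hur]
    constructor
    · rintro ⟨⟨h1, h2⟩, h3⟩
      exact ⟨hmemM, h3, h2, h1⟩
    · rintro ⟨-, h3, h2, h1⟩
      exact ⟨⟨h1, h2⟩, h3⟩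
  obtain ⟨e⟩ := base_equiv
  have hF' : Fintype.card F = Fintype.card GF4 := by rw [hF, card_GF4]
  exact ⟨(conjEquiv (B := fixIn M24 [1, 0, 23]) (Cfsg.M24.inv_mem hu) (fun g hg => hg.1) hmem).trans
    (e.symm.trans (Cfsg.Agent.Lib.Compute.SmallField.pslCongr (equivOfCard hF')).symm)⟩

end Cfsg.Agent.S0380
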