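import Cfsg.Statements.S0385
import Cfsg.Agent.Lib.Sporadic.M24Act
-- import your own Cfsg.Agent.* helpers here

set_option autoImplicit false
open Cfsg

namespace Cfsg.Agent.S0385

open Cfsg.Agent.Lib.Sporadic.GolayCore Cfsg.Agent.Lib.Sporadic.M24Act

theorem mem_list_of_octad {o : Finset GolayPt} (ho : o ∈ octads) : toMask o ∈ codeList :=
  (List.mem_filter.mp ((mem_octads_iff o).mp ho)).1

theorem mem_list_of_dodecad {o : Finset GolayPt} (ho : o ∈ dodecads) : toMask o ∈ codeList :=
  (List.mem_filter.mp ((mem_dodecads_iff o).mp ho)).1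

/-- An octad meeting a dodecad in at least 5 points meets it in exactly 6. -/
theorem inter_eq_six {o d : Finset GolayPt} (ho : o ∈ octads) (hd : d ∈ dodecads)
    (h : 5 ≤ (o ∩ d).card) : (o ∩ d).card = 6 := by
  have h1 := popc_xor_add (toMask o) (toMask d)
  have ho8 : popc (toMask o) = 8 := by rw [← card_eq_popc]; exact ho.2
  have hd12 : popc (toMask d) = 12 := by rw [← card_eq_popc]; exact hd.2
  have hi : popc (toMask o &&& toMask d) = (o ∩ d).card := by
    rw [card_eq_popc, toMask_inter]
  rw [ho8, hd12, hi] at h1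
  have hmem : toMask o ^^^ toMask d ∈ codeList :=
    xor_mem_spanList (mem_list_of_octad ho) (mem_list_of_dodecad hd)
  have hle : (o ∩ d).card ≤ 8 := by
    rw [← ho.2]
    exact Finset.card_le_card Finset.inter_subset_left
  have hno : codeAll (fun m => popc m != 10) = true := by decide +kernel
  have h10 := (codeAll_iff _).1 hno _ hmem
  simp only [bne_iff_ne, ne_eq] at h10
  rcases codeList_weights _ hmem with h0 | h8
  · rw [h0] at h1
    have : popc 0 = 0 := by decide
    omega
  · omega

/-- The 6-point intersections of octads with a fixed dodecad form a Steiner system S(5, 6, 12) on the dodecad. -/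
theorem result (d : Finset Cfsg.GolayPt) (hd : d ∈ Cfsg.dodecads) : Cfsg.IsSteinerSystem 5 6 {h : Finset {p : Cfsg.GolayPt // p ∈ d} | ∃ o ∈ Cfsg.octads, (o ∩ d).card = 6 ∧ h = Finset.subtype (fun p => p ∈ d) o} := by
  classical
  refine ⟨?_, ?_⟩
  · rintro b ⟨o, _, h6, rfl⟩
    rw [Finset.card_subtype, ← h6]
    congr 1
  · intro s hs
    let s' : Finset GolayPt := s.map (Function.Embedding.subtype _)
    have hs' : s'.card = 5 := by
      rw [Finset.card_map]; exact hs
    have hs'd : s' ⊆ d := by
      intro x hx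
      obtain ⟨y, _, rfl⟩ := Finset.mem_map.mp hx
      exact y.2
    obtain ⟨o, ⟨ho, hso⟩, huniq⟩ := steiner.2 s' hs'
    have h5 : 5 ≤ (o ∩ d).card := by
      rw [← hs']
      exact Finset.card_le_card (Finset.subset_inter hso hs'd)
    have h6 := inter_eq_six ho hd h5
    refine ⟨Finset.subtype (fun p => p ∈ d) o, ⟨⟨o, ho, h6, rfl⟩, ?_⟩, ?_⟩
    · intro y hy
      have : (y : GolayPt) ∈ s' := Finset.mem_map.mpr ⟨y, hy, rfl⟩
      exact Finset.mem_subtype.mpr (hso this)
    · rintro b ⟨⟨o', ho', h6', rfl⟩, hsb⟩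
      have hso' : s' ⊆ o' := by
        intro x hx
        obtain ⟨y, hy, rfl⟩ := Finset.mem_map.mp hx
        exact Finset.mem_subtype.mp (hsb hy)
      rw [huniq o' ⟨ho', hso'⟩]

end Cfsg.Agent.S0385
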