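import Cfsg.Statements.S0386
import Cfsg.Agent.Lib.Sporadic.M24Dodecad
import Cfsg.Agent.Lib.Sporadic.M24Count
import Cfsg.Prelude.Def_SporadicCombinatorics
-- import your own Cfsg.Agent.* helpers here

set_option autoImplicit false
open Cfsg

namespace Cfsg.Agent.S0386

open Cfsg.Agent.Lib.Sporadic.GolayCore Cfsg.Agent.Lib.Sporadic.M24Tbl Cfsg.Agent.Lib.Sporadic.M24Dodecad
open Cfsg.Agent.Lib.Sporadic.M24Count Cfsg.Agent.Lib.Sporadic.M24Act Cfsg.Agent.Lib.Sporadic.M24Chain
open scoped Pointwise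

theorem popc_inter_dod0 (o : Finset GolayPt) :
    (o ∩ ofMask dod0).card = popc (dod0 &&& toMask o) := by
  rw [Finset.inter_comm, card_eq_popc, toMask_inter, toMask_ofMask (by decide)]

theorem count0 (k : ℕ) : {o : Finset GolayPt | o ∈ octads ∧ (o ∩ ofMask dod0).card = k}.ncard =
    codeCount (fun m => popc m == 8 && popc (dod0 &&& m) == k) := by
  apply ncard_octads_filter
  · intro o ho
    have h8 : popc (toMask o) = 8 := by rw [← card_eq_popc]; exact ho.2
    rw [popc_inter_dod0]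
    simp [h8]
  · intro m hm
    simp only [Bool.and_eq_true, beq_iff_eq] at hm
    exact hm.1

theorem count_transport {d : Finset GolayPt} {g : Equiv.Perm GolayPt} (hg : g ∈ M24)
    (hgd : g • ofMask dod0 = d) (k : ℕ) :
    {o : Finset GolayPt | o ∈ octads ∧ (o ∩ d).card = k}.ncard =
      {o : Finset GolayPt | o ∈ octads ∧ (o ∩ ofMask dod0).card = k}.ncard := by
  symm
  apply ncard_smul_eq g
  intro s
  simp only [Set.mem_ofPred_eq]
  rw [← hgd, card_smul_inter, smul_mem_octads_iff hg]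

/-- For a fixed dodecad, 132 octads meet it in 6 points, 132 in 2 points and 495 in 4 points. -/
theorem result (d : Finset Cfsg.GolayPt) (hd : d ∈ Cfsg.dodecads) : {o : Finset Cfsg.GolayPt | o ∈ Cfsg.octads ∧ (o ∩ d).card = 6}.ncard = 132 ∧ {o : Finset Cfsg.GolayPt | o ∈ Cfsg.octads ∧ (o ∩ d).card = 2}.ncard = 132 ∧ {o : Finset Cfsg.GolayPt | o ∈ Cfsg.octads ∧ (o ∩ d).card = 4}.ncard = 495 := by
  obtain ⟨g, hg, hgd⟩ := exists_smul_dod0 hd
  refine ⟨?_, ?_, ?_⟩
  · rw [count_transport hg hgd, count0]; decide +kernel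
  · rw [count_transport hg hgd, count0]; decide +kernel
  · rw [count_transport hg hgd, count0]; decide +kernel

end Cfsg.Agent.S0386
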