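import Cfsg.Statements.S0406
import Mathlib
import Cfsg.Agent.Lib.LeechUniq.Ident

set_option autoImplicit false
open Matrix
open Cfsg

namespace Cfsg.Agent.S0406

open Matrix
open Cfsg.Agent.Lib.LeechUniq.Frame Cfsg.Agent.Lib.LeechUniq.Coord Cfsg.Agent.Lib.LeechUniq.Ident
open Cfsg.Agent.Lib.Sporadic.LeechBasic

theorem frame_of_cls {B : Matrix (Fin 24) (Fin 24) ℤ} {f : Fin 24 → LL} (h1 : ∀ i, QQ B (f i) = 8)
    (h2 : ∀ i j, i ≠ j → bil B (f i) (f j) = 0) (h3 : ∀ i j, cls (f i) = cls (f j)) : IsFrame B f := by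
  refine ⟨h1, h2, fun i j => ?_, fun i j => ?_⟩
  · obtain ⟨u, v, h4, h5⟩ := exists_half (h3 i j)
    refine ⟨v, ?_⟩
    rw [h4, h5]
    abel
  · obtain ⟨u, v, h4, h5⟩ := exists_half (h3 i j)
    refine ⟨u, ?_⟩
    rw [h4, h5]
    abel

/-- A rank-24 even lattice with no roots and the stated numbers of vectors of norms 4, 6, 8 is isomorphic to the Leech lattice. -/
theorem result (B : Matrix (Fin 24) (Fin 24) ℤ) (hsymm : B.IsSymm) (hpos : ∀ x : Fin 24 → ℤ, x ≠ 0 → 0 < x ⬝ᵥ (B *ᵥ x)) (heven : ∀ x : Fin 24 → ℤ, (2 : ℤ) ∣ x ⬝ᵥ (B *ᵥ x)) (h2 : ∀ x : Fin 24 → ℤ, x ⬝ᵥ (B *ᵥ x) ≠ 2) (h4 : {x : Fin 24 → ℤ | x ⬝ᵥ (B *ᵥ x) = 4}.ncard = 196560) (h6 : {x : Fin 24 → ℤ | x ⬝ᵥ (B *ᵥ x) = 6}.ncard = 16773120) (h8 : {x : Fin 24 → ℤ | x ⬝ᵥ (B *ᵥ x) = 8}.ncard = 398034000) : ∃ f : (Fin 24 → ℤ) ≃+ Cfsg.leechLattice, ∀ x : Fin 24 → ℤ, Cfsg.sqNorm ((f x : Cfsg.leechLattice) : Cfsg.GolayPt → ℤ) = 8 * (x ⬝ᵥ (B *ᵥ x)) := by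
  classical
  have h : Hyp B := ⟨hsymm, hpos, heven, h2⟩
  have h4' : {x : LL | QQ B x = 4}.ncard = 196560 := h4
  have h6' : {x : LL | QQ B x = 6}.ncard = 16773120 := h6
  have h8' : {x : LL | QQ B x = 8}.ncard = 398034000 := h8
  obtain ⟨f0, hf1, hf2, hf3⟩ := exists_frame h h4' h6' h8'
  have frame0 : IsFrame B f0 := frame_of_cls hf1 hf2 hf3
  obtain ⟨-, y₁, ⟨x₁, rfl⟩, hodd⟩ := Cfsg.Agent.Lib.LeechUniq.GoodB.main (good_of_frame frame0 h h4')
  -- the signs
  let f' : Fin 24 → LL := fun i => if Phi B f0 x₁ i % 4 = 1 then f0 i else -f0 i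
  have hf'1 : ∀ i, f' i = f0 i ∨ f' i = -f0 i := by
    intro i
    by_cases hi : Phi B f0 x₁ i % 4 = 1
    · left
      simp [f', hi]
    · right
      simp [f', hi]
  have frame' : IsFrame B f' := by
    refine frame_of_cls (fun i => ?_) (fun i j hij => ?_) (fun i j => ?_)
    · rcases hf'1 i with h1 | h1 <;> rw [h1]
      · exact hf1 i
      · rw [QQ_neg]
        exact hf1 i
    · rcases hf'1 i with h1 | h1 <;> rcases hf'1 j with h3 | h3 <;> rw [h1, h3] <;>
        simp only [bil_neg_left, bil_neg_right, hf2 i j hij, neg_zero]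
    · have e1 : ∀ k, cls (f' k) = cls (f0 k) := by
        intro k
        rcases hf'1 k with h1 | h1 <;> rw [h1]
        exact cls_neg _
      rw [e1, e1]
      exact hf3 i j
  have good' := good_of_frame frame' h h4'
  obtain ⟨hC, -⟩ := Cfsg.Agent.Lib.LeechUniq.GoodB.main good'
  have hy₁ : ∀ i, Phi B f' x₁ i % 4 = 1 := by
    intro i
    have h1 := hodd i
    by_cases hi : Phi B f0 x₁ i % 4 = 1
    · have e0 : f' i = f0 i := if_pos hi
      have e1 : Phi B f' x₁ i = Phi B f0 x₁ i := by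
        rw [Phi_apply, e0]
        rfl
      rw [e1]
      exact hi
    · have e0 : f' i = -f0 i := if_neg hi
      have e1 : Phi B f' x₁ i = -Phi B f0 x₁ i := by
        rw [Phi_apply, e0, bil_neg_left]
        rfl
      rw [e1]
      omega
  obtain ⟨e, he⟩ := exists_equiv hC
  have hmem := Y_eq good' (y₁ := Phi B f' x₁) ⟨x₁, rfl⟩ hy₁
  have hleech : ∀ z : LL, z ∈ (Phi B f').range ↔ z ∘ e.symm ∈ leechLattice := by
    intro z
    rw [hmem z, mem_leechLattice_iff]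
    have hsum : ∑ p, (z ∘ e.symm) p = ∑ i, z i := Equiv.sum_comp e.symm z
    have hw : wd (z ∘ e.symm) = wd z ∘ e.symm := rfl
    rw [hsum, hw, SetLike.mem_coe, ← he]
    constructor
    · rintro ⟨m, hm, h1, h3, h5⟩
      exact ⟨m, hm, fun p => h1 _, h3, h5⟩
    · rintro ⟨m, hm, h1, h3, h5⟩
      refine ⟨m, hm, fun i => ?_, h3, h5⟩
      have := h1 (e i)
      simpa using this
  have hinj := Phi_inj frame' h
  let g : (Fin 24 → ℤ) →+ leechLattice :=
    { toFun := fun x => ⟨(Phi B f' x) ∘ e.symm, (hleech _).1 ⟨x, rfl⟩⟩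
      map_zero' := by
        apply Subtype.ext
        funext p
        simp
      map_add' := fun x y => by
        apply Subtype.ext
        funext p
        simp }
  have hg : Function.Bijective g := by
    constructor
    · intro x y hxy
      apply hinj
      funext i
      have h1 := congrArg (fun t : leechLattice => (t : Cfsg.GolayPt → ℤ) (e i)) hxy
      simpa [g] using h1
    · rintro ⟨z, hz⟩
      have h1 : z ∘ e ∈ (Phi B f').range := by
        rw [hleech]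
        convert hz using 1
        funext p
        simp
      obtain ⟨x, hx⟩ := h1
      refine ⟨x, Subtype.ext ?_⟩
      funext p
      show (Phi B f' x) (e.symm p) = z p
      rw [hx]
      simp
  refine ⟨AddEquiv.ofBijective g hg, fun x => ?_⟩
  have h1 := parseval frame' h.symm x x
  show Cfsg.sqNorm ((Phi B f' x) ∘ e.symm) = 8 * (x ⬝ᵥ B *ᵥ x)
  have h3 : Cfsg.sqNorm ((Phi B f' x) ∘ e.symm) = ∑ i, Phi B f' x i * Phi B f' x i := by
    have h5 : ∑ p, ((Phi B f' x) ∘ e.symm) p ^ 2 = ∑ i, Phi B f' x i ^ 2 :=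
      Equiv.sum_comp e.symm (fun i => Phi B f' x i ^ 2)
    unfold Cfsg.sqNorm
    rw [h5]
    exact Finset.sum_congr rfl fun i _ => pow_two _
  rw [h3, h1]
  rfl

end Cfsg.Agent.S0406
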