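import Cfsg.Statements.S0412
import Cfsg.Agent.S0363
import Cfsg.Agent.S0407
import Cfsg.Agent.Lib.BasicSteiner.Witt.Aut
import Cfsg.Agent.Lib.Compute.M2xSimple

set_option autoImplicit false
open Cfsg

namespace Cfsg.Agent.S0412

/-- Aut of an S(5, 8, 24) is simple of order 244823040 and 5-transitive on points. -/
theorem result {α : Type*} [Fintype α] [DecidableEq α] (hα : Fintype.card α = 24) {B : Set (Finset α)} (hB : Cfsg.IsSteinerSystem 5 8 B) : Cfsg.IsM24 (Cfsg.setSystemAut B) ∧ MulAction.IsMultiplyPretransitive (Cfsg.setSystemAut B) α 5 := by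
  classical
  obtain ⟨e, he⟩ := Cfsg.Agent.S0407.result hα (by decide : Fintype.card Cfsg.GolayPt = 24) hB
    Cfsg.Agent.S0363.result
  have hE := Cfsg.Agent.Lib.BasicSteiner.WittAut.setSystemAut_octads
  refine ⟨⟨?_, ?_⟩, ?_⟩
  · have : IsSimpleGroup (Cfsg.setSystemAut Cfsg.octads) := by
      rw [hE]
      exact Cfsg.Agent.Lib.Compute.M24.m24_simple
    exact Cfsg.Agent.Lib.BasicSteiner.WittAut.isSimple_of_iso e he
  · rw [Cfsg.Agent.Lib.BasicSteiner.WittAut.card_of_iso e he, hE]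
    exact Cfsg.Agent.Lib.Sporadic.M24Basic.card_M24
  · have := Cfsg.Agent.Lib.BasicSteiner.WittAut.m24_fiveTrans_octads
    exact Cfsg.Agent.Lib.BasicSteiner.WittAut.pretransitive_of_iso e he 5

end Cfsg.Agent.S0412
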