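import Cfsg.Statements.S0413
import Cfsg.Agent.S0409
import Cfsg.Agent.S0376
import Cfsg.Agent.S0377
import Cfsg.Agent.Lib.BasicSteiner.Witt.Stab

set_option autoImplicit false
open Cfsg

namespace Cfsg.Agent.S0413

/-- Aut of an S(4, 7, 23) is simple of order 10200960 and 4-transitive. -/
theorem result {α : Type*} [Fintype α] [DecidableEq α] (hα : Fintype.card α = 23) {B : Set (Finset α)} (hB : Cfsg.IsSteinerSystem 4 7 B) : Cfsg.IsM23 (Cfsg.setSystemAut B) ∧ MulAction.IsMultiplyPretransitive (Cfsg.setSystemAut B) α 4 := by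
  classical
  obtain ⟨e, he⟩ := Cfsg.Agent.S0409.result hα
    (by decide : Fintype.card {a : Cfsg.GolayPt // a ≠ none} = 23) hB
    Cfsg.Agent.Lib.BasicSteiner.WittStab.der_steiner
  refine ⟨⟨?_, ?_⟩, ?_⟩
  · have : IsSimpleGroup (Cfsg.setSystemAut Cfsg.Agent.Lib.BasicSteiner.WittStab.Der) := by
      have := Cfsg.Agent.S0377.result none
      exact Cfsg.Agent.Lib.BasicSteiner.WittStab.stabEquiv.symm.isSimpleGroup
    exact Cfsg.Agent.Lib.BasicSteiner.WittAut.isSimple_of_iso e he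
  · rw [Cfsg.Agent.Lib.BasicSteiner.WittAut.card_of_iso e he,
      ← Nat.card_congr Cfsg.Agent.Lib.BasicSteiner.WittStab.stabEquiv.toEquiv]
    exact Cfsg.Agent.S0376.result none
  · have := Cfsg.Agent.Lib.BasicSteiner.WittStab.der_fourTrans
    exact Cfsg.Agent.Lib.BasicSteiner.WittAut.pretransitive_of_iso e he 4

end Cfsg.Agent.S0413
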