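import Cfsg.Statements.S0415
import Mathlib
import Cfsg.Agent.S0727
import Cfsg.Agent.S0680

set_option autoImplicit false
open Cfsg

namespace Cfsg.Agent.S0415


/-- exponent `p` gives a power of `p`. -/
theorem card_pow_of_exp {V : Type*} [AddCommGroup V] [Finite V] (p : ℕ) (hp : p.Prime)
    (h : ∀ v : V, p • v = 0) : ∃ k, Nat.card V = p ^ k := by
  haveI : Fact p.Prime := ⟨hp⟩
  have h1 : IsPGroup p (Multiplicative V) := by
    intro g
    refine ⟨1, ?_⟩
    rw [pow_one]
    exact h (Multiplicative.toAdd g)
  obtain ⟨k, hk⟩ := IsPGroup.iff_card.mp h1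
  refine ⟨k, ?_⟩
  rw [← hk]
  exact Nat.card_congr Multiplicative.ofAdd

theorem nearfield_char2 {V K : Type*} [AddCommGroup V] [Finite V] [Group K] [Finite K]
    [DistribMulAction K V]
    (hreg : ∀ u v : V, u ≠ 0 → v ≠ 0 → ∃ c : K, c • u = v)
    (hfree : ∀ (c : K) (v : V), v ≠ 0 → c • v = v → c = 1)
    (X : V →+ V) (φ : K →* K) (hφ : ∀ c, φ (φ c) = c)
    (hXφ : ∀ (c : K) (v : V), X (c • v) = φ c • X v)
    (e : V) (he : e ≠ 0) (hXe : X e = e)
    (hC : ∀ v, X v = v → v = 0 ∨ v = e ∨ v = -e)
    (hv2 : ∀ v : V, v + v = 0) :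
    Nat.card V = 2 ∨ Nat.card V = 4 := by
  have hneg : ∀ v : V, -v = v := fun v => neg_eq_of_add_eq_zero_left (hv2 v)
  have hsmul0 : ∀ (c : K) (v : V), c • v = 0 → v = 0 := by
    intro c v h
    have := congrArg (fun w => c⁻¹ • w) h
    simpa using this
  have hT : ∀ c, φ c = c → c = 1 := by
    intro c hc
    have h1 : X (c • e) = c • e := by rw [hXφ, hc, hXe]
    rcases hC _ h1 with h | h | h
    · exact absurd (hsmul0 _ _ h) he
    · exact hfree c e he h
    · rw [hneg] at h
      exact hfree c e he h
  obtain ⟨hinv, hcomm⟩ := S0727.fpf_involution φ hφ hT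
  -- the relation
  have hrel : ∀ c : K, c ≠ 1 → (c * c) • e = c • e + e := by
    intro c hc
    have h1 : X (c • e + c⁻¹ • e) = c • e + c⁻¹ • e := by
      rw [map_add, hXφ, hXφ, hXe, hinv, hinv, inv_inv, add_comm]
    have h2 : c • (c • e + c⁻¹ • e) = (c * c) • e + e := by
      rw [smul_add, smul_inv_smul, mul_smul]
    rcases hC _ h1 with h | h | h
    · exfalso
      rw [h, smul_zero] at h2
      -- (c*c) • e = e
      have h3 : (c * c) • e = e := by
        have : (c * c) • e + e = 0 := h2.symm
        have h5 : (c * c) • e = - e := eq_neg_of_add_eq_zero_left this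
        rw [h5, hneg]
      have h4 : c * c = 1 := hfree _ e he h3
      have h5 : c • (c • e + e) = c • e + e := by
        rw [smul_add, ← mul_smul, h3, add_comm]
      by_cases h6 : c • e + e = 0
      · have h7 : c • e = e := by
          have h5 : c • e = - e := eq_neg_of_add_eq_zero_left h6
          rw [h5, hneg]
        exact hc (hfree c e he h7)
      · exact hc (hfree c _ h6 h5)
    · rw [h] at h2
      have h3 : c • e + e = (c * c) • e + e + e := by rw [← h2]
      rw [add_assoc, hv2, add_zero] at h3
      exact h3.symm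
    · rw [h, hneg] at h2
      have h3 : c • e + e = (c * c) • e + e + e := by rw [← h2]
      rw [add_assoc, hv2, add_zero] at h3
      exact h3.symm
  -- for every vector
  have hrelv : ∀ c : K, c ≠ 1 → ∀ v : V, (c * c) • v = c • v + v := by
    intro c hc v
    by_cases hv : v = 0
    · simp [hv]
    obtain ⟨k, rfl⟩ := hreg e v he hv
    have h1 : (c * c) • k • e = k • (c * c) • e := by
      rw [← mul_smul, ← mul_smul]
      congr 1
      rw [mul_assoc, hcomm c k, ← mul_assoc, hcomm c k, mul_assoc]
    have h2 : c • k • e = k • c • e := by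
      rw [← mul_smul, ← mul_smul, hcomm]
    rw [h1, hrel c hc, smul_add, h2]
  have hcube : ∀ c : K, c ≠ 1 → c * c * c = 1 := by
    intro c hc
    apply hfree _ e he
    rw [mul_assoc, mul_smul, hrel c hc, smul_add, ← mul_smul, hrel c hc]
    rw [add_comm (c • e) e, add_assoc, hv2, add_zero]
  have h2pow : ∃ k, Nat.card V = 2 ^ k := by
    apply card_pow_of_exp 2 Nat.prime_two
    intro v
    rw [two_smul, hv2]
  have hgt : 1 < Nat.card V := by
    haveI : Nontrivial V := ⟨⟨e, 0, he⟩⟩
    exact Finite.one_lt_card
  have hle : Nat.card V ≤ 4 := by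
    by_cases hex : ∃ c : K, c ≠ 1
    · obtain ⟨c, hc⟩ := hex
      have hall : ∀ d : K, d = 1 ∨ d = c ∨ d = c * c := by
        intro d
        by_contra hd
        push Not at hd
        obtain ⟨hd1, hd2, hd3⟩ := hd
        have hcinv : c⁻¹ = c * c := by
          rw [inv_eq_iff_mul_eq_one, ← mul_assoc]
          exact hcube c hc
        have hdcube := hcube d hd1
        have hcd : c * d ≠ 1 := by
          intro h
          have : d = c⁻¹ := (inv_eq_of_mul_eq_one_right h).symm
          exact hd3 (this.trans hcinv)
        have hcd2 : c * (d * d) ≠ 1 := by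
          intro h
          have h1 : d * d = c⁻¹ := (inv_eq_of_mul_eq_one_right h).symm
          have h2 : d = c := by
            have h3 : d⁻¹ = d * d := by
              rw [inv_eq_iff_mul_eq_one, ← mul_assoc]
              exact hdcube
            have : d⁻¹ = c⁻¹ := h3.trans h1
            exact inv_injective this
          exact hd2 h2
        set f := d • e with hf
        set g := (d * d) • e with hg
        have hfg : g = f + e := hrel d hd1
        have hR1 := hrel (c * d) hcd
        have hR2 := hrel (c * (d * d)) hcd2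
        have e1 : (c * d) * (c * d) = (c * c) * (d * d) := by
          rw [mul_assoc c d, ← mul_assoc d c d, hcomm d c, mul_assoc c d d, ← mul_assoc]
        have e2 : (c * (d * d)) * (c * (d * d)) = (c * c) * d := by
          have h3 : (c * (d * d)) * (c * (d * d)) = (c * c) * ((d * d * d) * d) := by
            rw [mul_assoc c (d * d), ← mul_assoc (d * d) c, hcomm (d * d) c, mul_assoc c (d * d),
              ← mul_assoc]
            simp only [mul_assoc]
          rw [h3, hdcube, one_mul]
        rw [e1, mul_smul, mul_smul c d e, ← hf, ← hg, hrelv c hc] at hR1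
        rw [e2, mul_smul, mul_smul c (d * d) e, ← hf, ← hg, hrelv c hc] at hR2
        -- hR1 : c • g + g = c • f + e , hR2 : c • f + f = c • g + e
        have h4 : (c • g + g) + (c • f + f) = (c • f + e) + (c • g + e) := by rw [hR1, hR2]
        have h5 : g + f = 0 := by
          have h6 : (c • g + g) + (c • f + f) = (c • f + c • g) + (g + f) := by abel
          have h7 : (c • f + e) + (c • g + e) = (c • f + c • g) + (e + e) := by abel
          rw [h6, h7, hv2] at h4
          exact add_left_cancel h4
        rw [hfg] at h5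
        have h6 : f + e + f = e := by
          rw [add_comm f e, add_assoc, hv2, add_zero]
        rw [h6] at h5
        exact he h5
      have hsurj : Function.Surjective (![0, e, c • e, (c * c) • e] : Fin 4 → V) := by
        intro v
        by_cases hv : v = 0
        · exact ⟨0, hv.symm⟩
        obtain ⟨k, rfl⟩ := hreg e v he hv
        rcases hall k with rfl | rfl | rfl
        · exact ⟨1, by simp⟩
        · exact ⟨2, by simp⟩
        · exact ⟨3, by simp⟩
      have := Nat.card_le_card_of_surjective _ hsurj
      simpa using this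
    · push Not at hex
      have hsurj : Function.Surjective (![0, e] : Fin 2 → V) := by
        intro v
        by_cases hv : v = 0
        · exact ⟨0, hv.symm⟩
        obtain ⟨k, rfl⟩ := hreg e v he hv
        rw [hex k, one_smul]
        exact ⟨1, by simp⟩
      have := Nat.card_le_card_of_surjective _ hsurj
      simp at this
      omega
  obtain ⟨k, hk⟩ := h2pow
  rw [hk] at hgt hle ⊢
  have hk3 : k < 3 := by
    by_contra h
    push Not at h
    have : 2 ^ 3 ≤ 2 ^ k := Nat.pow_le_pow_right (by norm_num) h
    omega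
  interval_cases k
  · omega
  · left; rfl
  · right; rfl


theorem nearfield_char3 {V K : Type*} [AddCommGroup V] [Finite V] [Group K] [Finite K]
    [DistribMulAction K V]
    (hreg : ∀ u v : V, u ≠ 0 → v ≠ 0 → ∃ c : K, c • u = v)
    (hfree : ∀ (c : K) (v : V), v ≠ 0 → c • v = v → c = 1)
    (X : V →+ V) (φ : K →* K) (hX : ∀ v, X (X v) = v) (hφ : ∀ c, φ (φ c) = c)
    (hXφ : ∀ (c : K) (v : V), X (c • v) = φ c • X v)
    (e : V) (he : e ≠ 0) (hXe : X e = e)
    (hC : ∀ v, X v = v → v = 0 ∨ v = e ∨ v = -e)
    (hv3 : ∀ v : V, v + v + v = 0) (hene : e ≠ -e) :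
    Nat.card V = 3 ∨ Nat.card V = 9 := by
  have hsmul0 : ∀ (c : K) (v : V), c • v = 0 → v = 0 := by
    intro c v h
    have := congrArg (fun w => c⁻¹ • w) h
    simpa using this
  have hagree : ∀ c d : K, c • e = d • e → c = d := by
    intro c d h
    have h1 : (d⁻¹ * c) • e = e := by rw [mul_smul, h, inv_smul_smul]
    have h2 := hfree _ e he h1
    rw [inv_mul_eq_one] at h2
    exact h2.symm
  have hneg2 : ∀ v : V, v + v = - v := fun v => eq_neg_of_add_eq_zero_left (hv3 v)
  obtain ⟨z, hz⟩ := hreg e (-e) he (neg_ne_zero.mpr he)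
  have hzz : z * z = 1 := by
    apply hfree _ e he
    rw [mul_smul, hz, smul_neg, hz, neg_neg]
  have hz1 : z ≠ 1 := by
    rintro rfl
    rw [one_smul] at hz
    exact hene hz
  have hzinv : z⁻¹ = z := inv_eq_of_mul_eq_one_left hzz
  have hzv : ∀ v : V, z • v = - v := by
    intro v
    have h1 : z • (z • v + v) = z • v + v := by
      rw [smul_add, ← mul_smul, hzz, one_smul, add_comm]
    by_cases h2 : z • v + v = 0
    · exact eq_neg_of_add_eq_zero_left h2
    · exact absurd (hfree z _ h2 h1) hz1
  have hT : ∀ c, φ c = c → c = 1 ∨ c = z := by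
    intro c hc
    have h1 : X (c • e) = c • e := by rw [hXφ, hc, hXe]
    rcases hC _ h1 with h | h | h
    · exact absurd (hsmul0 _ _ h) he
    · exact Or.inl (hfree c e he h)
    · right
      apply hagree
      rw [h, hz]
  have hφz : φ z = z := by
    apply hagree
    have h1 := hXφ z e
    rw [hz, map_neg, hXe, ← hz, hz] at h1
    rw [hz]
    exact h1.symm
  -- inverted elements
  have hS : ∀ c, φ c = c⁻¹ → c = 1 ∨ c = z ∨ c * c = z := by
    intro c hc
    have h1 : X (c • e + c⁻¹ • e) = c • e + c⁻¹ • e := by
      rw [map_add, hXφ, hXφ, hXe, hc, map_inv, hc, inv_inv, add_comm]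
    have h2 : c • (c • e + c⁻¹ • e) = (c * c) • e + e := by
      rw [smul_add, smul_inv_smul, mul_smul]
    rcases hC _ h1 with h | h | h
    · right; right
      rw [h, smul_zero] at h2
      apply hagree
      rw [hz]
      exact eq_neg_of_add_eq_zero_left h2.symm
    · -- a = e
      right; left
      rw [h] at h2
      have h3 : (c * c) • e = c • e - e := by
        rw [h2]; abel
      set d := c • e + e with hd
      have h4 : c • d = - d := by
        rw [hd, smul_add, ← mul_smul, h3]
        have h5 := hneg2 (c • e)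
        calc c • e - e + c • e = (c • e + c • e) - e := by abel
          _ = - (c • e) - e := by rw [h5]
          _ = - (c • e + e) := by abel
      by_cases hd0 : d = 0
      · apply hagree
        rw [hz]
        exact eq_neg_of_add_eq_zero_left hd0
      · have h6 : (z * c) • d = d := by
          rw [mul_smul, h4, hzv, neg_neg]
        have h7 := hfree _ d hd0 h6
        have : c = z⁻¹ := eq_inv_of_mul_eq_one_right h7
        rw [this, hzinv]
    · -- a = -e
      left
      rw [h, smul_neg] at h2
      have h3 : (c * c) • e = - (c • e) - e := by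
        rw [eq_sub_iff_add_eq]
        exact h2.symm
      set d := c • e - e with hd
      have h4 : c • d = d := by
        rw [hd, smul_sub, ← mul_smul, h3]
        have h5 := hneg2 (c • e)
        calc - (c • e) - e - c • e = - (c • e + c • e) - e := by abel
          _ = c • e - e := by rw [h5, neg_neg]
      by_cases hd0 : d = 0
      · apply hfree c e he
        exact sub_eq_zero.mp hd0
      · exact hfree c d hd0 h4
  have h3pow : ∃ k, Nat.card V = 3 ^ k := by
    apply card_pow_of_exp 3 Nat.prime_three
    intro v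
    rw [show (3 : ℕ) = 2 + 1 from rfl, succ_nsmul, two_smul, hv3]
  have hgt : 1 < Nat.card V := by
    haveI : Nontrivial V := ⟨⟨e, 0, he⟩⟩
    exact Finite.one_lt_card
  have hle : Nat.card V ≤ 9 := by
    by_cases hA : ∃ c, φ c = c⁻¹ ∧ c * c = z
    · obtain ⟨c, hc, hcz⟩ := hA
      have hcinv : c⁻¹ = c * z := by
        rw [inv_eq_iff_mul_eq_one, ← mul_assoc, hcz, hzz]
      set w := c⁻¹ • e with hw
      have hminus : ∀ v, X v = -v → v = 0 ∨ v = w ∨ v = -w := by
        intro v hv
        have h1 : X (c • v) = c • v := by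
          rw [hXφ, hc, hv, hcinv, smul_neg, mul_smul, hzv, smul_neg, neg_neg]
        rcases hC _ h1 with h | h | h
        · left; exact hsmul0 _ _ h
        · right; left; rw [hw, ← h, inv_smul_smul]
        · right; right; rw [hw, ← smul_neg, ← h, inv_smul_smul]
      have hsurj : Function.Surjective
          (fun p : Fin 3 × Fin 3 => (![0, e, -e] : Fin 3 → V) p.1 + (![0, w, -w] : Fin 3 → V) p.2) := by
        intro v
        have ha : X (v + X v) = v + X v := by rw [map_add, hX, add_comm]
        have hb : X (v - X v) = -(v - X v) := by rw [map_sub, hX]; abel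
        have hv : v = -(v + X v) + -(v - X v) := by
          have h1 := hneg2 v
          calc v = -(v + v) := by rw [h1, neg_neg]
            _ = _ := by abel
        have hi : ∃ i, (![0, e, -e] : Fin 3 → V) i = -(v + X v) := by
          rcases hC _ ha with h | h | h
          · exact ⟨0, by simp [h]⟩
          · exact ⟨2, by simp [h]⟩
          · exact ⟨1, by simp [h]⟩
        have hj : ∃ j, (![0, w, -w] : Fin 3 → V) j = -(v - X v) := by
          rcases hminus _ hb with h | h | h
          · exact ⟨0, by simp [h]⟩
          · exact ⟨2, by simp [h]⟩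
          · exact ⟨1, by simp [h]⟩
        obtain ⟨i, hi⟩ := hi
        obtain ⟨j, hj⟩ := hj
        refine ⟨(i, j), ?_⟩
        simp only [hi, hj]
        exact hv.symm
      have := Nat.card_le_card_of_surjective _ hsurj
      simpa using this
    · push Not at hA
      have hB : ∀ c, φ c = c⁻¹ → c = 1 ∨ c = z := by
        intro c hc
        rcases hS c hc with h | h | h
        · exact Or.inl h
        · exact Or.inr h
        · exact absurd h (hA c hc)
      have hdich : ∀ c, φ c = c ∨ φ c = z * c := by
        intro c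
        have h1 : φ (c * (φ c)⁻¹) = (c * (φ c)⁻¹)⁻¹ := by
          rw [map_mul, map_inv, hφ]
          group
        rcases hB _ h1 with h | h
        · left
          rw [mul_inv_eq_one] at h
          exact h.symm
        · right
          rw [mul_inv_eq_iff_eq_mul] at h
          calc φ c = z * (z * φ c) := by rw [← mul_assoc, hzz, one_mul]
            _ = z * c := by rw [← h]
      have hsurjle : ∀ (n : ℕ) (f : Fin n → V), Function.Surjective f → Nat.card V ≤ n := by
        intro n f hf
        have := Nat.card_le_card_of_surjective _ hf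
        simpa using this
      by_cases hc0 : ∃ c₀, φ c₀ = z * c₀
      · obtain ⟨c₀, hc₀⟩ := hc0
        have : Nat.card V ≤ 5 := by
          apply hsurjle 5 ![0, e, -e, c₀ • e, (c₀ * z) • e]
          intro v
          by_cases hv : v = 0
          · exact ⟨0, hv.symm⟩
          obtain ⟨k, rfl⟩ := hreg e v he hv
          rcases hdich k with h | h
          · rcases hT k h with rfl | rfl
            · exact ⟨1, by simp⟩
            · exact ⟨2, by simp [hz]⟩
          · have h1 : φ (c₀⁻¹ * k) = c₀⁻¹ * k := by
              rw [map_mul, map_inv, h, hc₀]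
              group
            rcases hT _ h1 with h2 | h2
            · rw [inv_mul_eq_one] at h2
              rw [← h2]
              exact ⟨3, by simp⟩
            · rw [inv_mul_eq_iff_eq_mul] at h2
              rw [h2]
              exact ⟨4, by simp⟩
        omega
      · push Not at hc0
        have : Nat.card V ≤ 3 := by
          apply hsurjle 3 ![0, e, -e]
          intro v
          by_cases hv : v = 0
          · exact ⟨0, hv.symm⟩
          obtain ⟨k, rfl⟩ := hreg e v he hv
          rcases hdich k with h | h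
          · rcases hT k h with rfl | rfl
            · exact ⟨1, by simp⟩
            · exact ⟨2, by simp [hz]⟩
          · exact absurd h (hc0 k)
        omega
  obtain ⟨k, hk⟩ := h3pow
  rw [hk] at hgt hle ⊢
  have hk3 : k < 3 := by
    by_contra h
    push Not at h
    have : 3 ^ 3 ≤ 3 ^ k := Nat.pow_le_pow_right (by norm_num) h
    omega
  interval_cases k
  · omega
  · left; rfl
  · right; rfl

/-- The combined near-field computation. -/
theorem nearfield_card {V K : Type*} [AddCommGroup V] [Finite V] [Group K] [Finite K]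
    [DistribMulAction K V]
    (hreg : ∀ u v : V, u ≠ 0 → v ≠ 0 → ∃ c : K, c • u = v)
    (hfree : ∀ (c : K) (v : V), v ≠ 0 → c • v = v → c = 1)
    (X : V →+ V) (φ : K →* K) (hX : ∀ v, X (X v) = v) (hφ : ∀ c, φ (φ c) = c)
    (hXφ : ∀ (c : K) (v : V), X (c • v) = φ c • X v)
    (e : V) (he : e ≠ 0) (hXe : X e = e)
    (hC : ∀ v, X v = v → v = 0 ∨ v = e ∨ v = -e) :
    Nat.card V = 2 ∨ Nat.card V = 3 ∨ Nat.card V = 4 ∨ Nat.card V = 9 := by
  have h1 : X (e + e) = e + e := by rw [map_add, hXe]
  have h2 : e + e = 0 ∨ e + e + e = 0 := by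
    rcases hC _ h1 with h | h | h
    · exact Or.inl h
    · exact absurd (add_eq_left.mp h) he
    · right
      rw [h]
      abel
  rcases h2 with h2 | h2
  · have hv2 : ∀ v : V, v + v = 0 := by
      intro v
      by_cases hv : v = 0
      · simp [hv]
      obtain ⟨c, rfl⟩ := hreg e v he hv
      rw [← smul_add, h2, smul_zero]
    rcases nearfield_char2 hreg hfree X φ hφ hXφ e he hXe hC hv2 with h | h
    · exact Or.inl h
    · exact Or.inr (Or.inr (Or.inl h))
  · have hv3 : ∀ v : V, v + v + v = 0 := by
      intro v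
      by_cases hv : v = 0
      · simp [hv]
      obtain ⟨c, rfl⟩ := hreg e v he hv
      rw [← smul_add, ← smul_add, h2, smul_zero]
    have hene : e ≠ -e := by
      intro h
      apply he
      have h3 : e + e = 0 := by
        nth_rewrite 1 [h]
        abel
      rw [h3, zero_add] at h2
      exact h2
    rcases nearfield_char3 hreg hfree X φ hX hφ hXφ e he hXe hC hv3 hene with h | h
    · exact Or.inr (Or.inl h)
    · exact Or.inr (Or.inr (Or.inr h))


open MulAction in
theorem card_sharp2 {G α : Type*} [Group G] [Finite G] [MulAction G α] [Fintype α]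
    (htr : ∀ a b c d : α, a ≠ b → c ≠ d → ∃ g : G, g • a = c ∧ g • b = d)
    (hfix : ∀ (g : G) (a b : α), a ≠ b → g • a = a → g • b = b → g = 1)
    (o u : α) (hou : o ≠ u) :
    Nat.card G = Fintype.card α * (Fintype.card α - 1) := by
  classical
  have x₀inj : Function.Injective ![o, u] := by
    intro i j hij
    fin_cases i <;> fin_cases j <;> simp_all
  let x₀ : Fin 2 ↪ α := ⟨![o, u], x₀inj⟩
  have e : G ≃ (Fin 2 ↪ α) := by
    refine Equiv.ofBijective (fun g => ⟨fun i => g • x₀ i, ?_⟩) ⟨?_, ?_⟩
    · intro i j hij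
      exact x₀.injective (MulAction.injective g hij)
    · intro m n hmn
      have ha : m • x₀ 0 = n • x₀ 0 := congrArg (fun y : Fin 2 ↪ α => y 0) hmn
      have hb : m • x₀ 1 = n • x₀ 1 := congrArg (fun y : Fin 2 ↪ α => y 1) hmn
      have h4 : (n⁻¹ * m) = 1 := by
        apply hfix _ (x₀ 0) (x₀ 1)
        · exact hou
        · rw [mul_smul, ha, inv_smul_smul]
        · rw [mul_smul, hb, inv_smul_smul]
      rw [inv_mul_eq_one] at h4
      exact h4.symm
    · intro y
      have h01 : y 0 ≠ y 1 := fun h => absurd (y.injective h) (by decide)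
      obtain ⟨m, hm1, hm2⟩ := htr o u (y 0) (y 1) hou h01
      refine ⟨m, ?_⟩
      ext i
      fin_cases i
      · exact hm1
      · exact hm2
  rw [Nat.card_congr e, Nat.card_eq_fintype_card, Fintype.card_embedding_eq, Fintype.card_fin,
    show (2 : ℕ) = 1 + 1 from rfl, Nat.descFactorial_succ, Nat.descFactorial_one]
  ring_nf

open MulAction in
/-- A sharply 2-transitive action with a compatible involution with at most three fixed points. -/
theorem sharp2_involution {H A : Type*} [Group H] [Finite H] [Fintype A] [MulAction H A]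
    (htr : ∀ a b c d : A, a ≠ b → c ≠ d → ∃ g : H, g • a = c ∧ g • b = d)
    (hfix : ∀ (g : H) (a b : A), a ≠ b → g • a = a → g • b = b → g = 1)
    (σ : H →* H) (τ : A → A) (hσ : ∀ h, σ (σ h) = h) (hτ : ∀ a, τ (τ a) = a)
    (hστ : ∀ (h : H) (a : A), τ (h • a) = σ h • τ a)
    (o u : A) (hou : o ≠ u) (hτo : τ o = o) (hτu : τ u = u)
    (h4 : ∀ a b c d : A, τ a = a → τ b = b → τ c = c → τ d = d →
      a ≠ b → a ≠ c → a ≠ d → b ≠ c → b ≠ d → c ≠ d → False) :
    Fintype.card A = 2 ∨ Fintype.card A = 3 ∨ Fintype.card A = 4 ∨ Fintype.card A = 9 := by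
  classical
  have h2 : 2 ≤ Fintype.card A := Fintype.one_lt_card_iff.mpr ⟨o, u, hou⟩
  have hcard := card_sharp2 htr hfix o u hou
  obtain ⟨F, hFn, hFmem, hFcomm, hFtr, hFcard, -⟩ := S0680.core h2 htr hfix hcard
  have hσF : ∀ f ∈ F, σ f ∈ F := by
    intro f hf
    rw [hFmem] at hf ⊢
    rcases hf with rfl | hf
    · left; simp
    · right
      intro a ha
      apply hf (τ a)
      have := hστ (σ f) a
      rw [ha, hσ] at this
      exact this.symm
  have hFfree : ∀ f ∈ F, ∀ a : A, f • a = a → f = 1 := by
    intro f hf a ha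
    rcases (hFmem f).mp hf with h | h
    · exact h
    · exact absurd ha (h a)
  have hFinj : ∀ f ∈ F, ∀ g ∈ F, f • o = g • o → f = g := by
    intro f hf g hg h
    have h1 : (g⁻¹ * f) • o = o := by rw [mul_smul, h, inv_smul_smul]
    have h3 := hFfree _ (F.mul_mem (F.inv_mem hg) hf) o h1
    rw [inv_mul_eq_one] at h3
    exact h3.symm
  obtain ⟨e, heF, heo⟩ := hFtr o u
  have he1 : e ≠ 1 := by
    rintro rfl
    rw [one_smul] at heo
    exact hou heo
  have hσe : σ e = e := by
    apply hFinj _ (hσF e heF) _ heF
    have h1 := hστ e o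
    rw [heo, hτu, hτo] at h1
    rw [heo, h1]
  -- the fixed subgroup of F
  have hCpt : ∀ f ∈ F, σ f = f → τ (f • o) = f • o := by
    intro f _ h
    rw [hστ, h, hτo]
  have hC : ∀ v ∈ F, σ v = v → v = 1 ∨ v = e ∨ v = e⁻¹ := by
    intro v hv hσv
    by_contra hcon
    push Not at hcon
    obtain ⟨hv1, hve, hvi⟩ := hcon
    have hne : ∀ f ∈ F, ∀ g ∈ F, f ≠ g → f • o ≠ g • o := fun f hf g hg h h' => h (hFinj f hf g hg h')
    by_cases hei : e = e⁻¹
    · have hee : e * e = 1 := by
        nth_rewrite 2 [hei]
        simp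
      have hve' : v * e ∈ F := F.mul_mem hv heF
      have hs : σ (v * e) = v * e := by rw [map_mul, hσv, hσe]
      refine h4 _ _ _ _ (hCpt 1 F.one_mem (map_one σ)) (hCpt e heF hσe) (hCpt v hv hσv)
        (hCpt _ hve' hs) ?_ ?_ ?_ ?_ ?_ ?_
      · exact hne _ F.one_mem _ heF he1.symm
      · exact hne _ F.one_mem _ hv hv1.symm
      · apply hne _ F.one_mem _ hve'
        intro h
        apply hvi
        rw [← hei]
        have := h.symm
        rwa [mul_eq_one_iff_eq_inv, ← hei] at this
      · exact hne _ heF _ hv hve.symm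
      · apply hne _ heF _ hve'
        intro h
        apply hv1
        have h5 : v * e = 1 * e := by rw [← h, one_mul]
        exact mul_right_cancel h5
      · apply hne _ hv _ hve'
        intro h
        apply he1
        have h5 : v * e = v * 1 := by rw [← h, mul_one]
        exact mul_left_cancel h5
    · have hs : σ e⁻¹ = e⁻¹ := by rw [map_inv, hσe]
      have hei' := F.inv_mem heF
      refine h4 _ _ _ _ (hCpt 1 F.one_mem (map_one σ)) (hCpt e heF hσe) (hCpt e⁻¹ hei' hs)
        (hCpt v hv hσv) ?_ ?_ ?_ ?_ ?_ ?_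
      · exact hne _ F.one_mem _ heF he1.symm
      · apply hne _ F.one_mem _ hei'
        intro h
        exact he1 (inv_eq_one.mp h.symm)
      · exact hne _ F.one_mem _ hv hv1.symm
      · exact hne _ heF _ hei' hei
      · exact hne _ heF _ hv hve.symm
      · exact hne _ hei' _ hv hvi.symm
  let K := stabilizer H o
  letI iCG : CommGroup F :=
    { (inferInstance : Group F) with mul_comm := fun a b => Subtype.ext (hFcomm a a.2 b b.2) }
  letI iD : DistribMulAction K (Additive F) :=
    { smul := fun c v => Additive.ofMul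
        ⟨(c : H) * ((Additive.toMul v : F) : H) * (c : H)⁻¹, hFn.conj_mem _ (Additive.toMul v).2 _⟩
      one_smul := by
        intro v
        apply Additive.toMul.injective
        apply Subtype.ext
        change ((1 : K) : H) * ((Additive.toMul v : F) : H) * ((1 : K) : H)⁻¹ = _
        simp
      mul_smul := by
        intro c d v
        apply Additive.toMul.injective
        apply Subtype.ext
        change ((c * d : K) : H) * ((Additive.toMul v : F) : H) * ((c * d : K) : H)⁻¹ =
          (c : H) * ((d : H) * ((Additive.toMul v : F) : H) * (d : H)⁻¹) * (c : H)⁻¹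
        simp only [Subgroup.coe_mul]
        group
      smul_zero := by
        intro c
        apply Additive.toMul.injective
        apply Subtype.ext
        change (c : H) * (1 : H) * (c : H)⁻¹ = 1
        simp
      smul_add := by
        intro c v w
        apply Additive.toMul.injective
        apply Subtype.ext
        change (c : H) * (((Additive.toMul v : F) : H) * ((Additive.toMul w : F) : H)) * (c : H)⁻¹ =
          ((c : H) * ((Additive.toMul v : F) : H) * (c : H)⁻¹) *
            ((c : H) * ((Additive.toMul w : F) : H) * (c : H)⁻¹)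
        group }
  have hsmul : ∀ (c : K) (v : Additive F), ((Additive.toMul (c • v) : F) : H) =
      (c : H) * ((Additive.toMul v : F) : H) * (c : H)⁻¹ := fun _ _ => rfl
  let X : Additive F →+ Additive F :=
    { toFun := fun v => Additive.ofMul ⟨σ ((Additive.toMul v : F) : H), hσF _ (Additive.toMul v).2⟩
      map_zero' := by
        apply Additive.toMul.injective
        apply Subtype.ext
        change σ (1 : H) = 1
        simp
      map_add' := by
        intro v w
        apply Additive.toMul.injective
        apply Subtype.ext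
        change σ (((Additive.toMul v : F) : H) * ((Additive.toMul w : F) : H)) =
          σ ((Additive.toMul v : F) : H) * σ ((Additive.toMul w : F) : H)
        simp }
  have hXv : ∀ v : Additive F, ((Additive.toMul (X v) : F) : H) = σ ((Additive.toMul v : F) : H) :=
    fun _ => rfl
  have hτK : ∀ c ∈ K, σ c ∈ K := by
    intro c hc
    have hc' : c • o = o := hc
    have h1 := hστ c o
    rw [hc', hτo] at h1
    exact h1.symm
  let φ : K →* K :=
    { toFun := fun c => ⟨σ (c : H), hτK (c : H) c.2⟩
      map_one' := Subtype.ext (map_one σ)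
      map_mul' := fun a b => Subtype.ext (map_mul σ (a : H) (b : H)) }
  have hφv : ∀ c : K, ((φ c : K) : H) = σ (c : H) := fun _ => rfl
  have hcardV : Nat.card (Additive F) = Fintype.card A := by
    rw [← hFcard]
    exact Nat.card_congr Additive.toMul
  rw [← hcardV]
  refine nearfield_card (K := K) (φ := φ) (X := X) ?_ ?_ ?_ ?_ ?_ (Additive.ofMul ⟨e, heF⟩) ?_ ?_ ?_
  · -- regular
    intro v w hv hw
    have hv' : ((Additive.toMul v : F) : H) ≠ 1 := fun h => hv (Additive.toMul.injective (Subtype.ext h))
    have hw' : ((Additive.toMul w : F) : H) ≠ 1 := fun h => hw (Additive.toMul.injective (Subtype.ext h))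
    have hvo : o ≠ ((Additive.toMul v : F) : H) • o := fun h =>
      hv' (hFfree _ (Additive.toMul v).2 o h.symm)
    have hwo : o ≠ ((Additive.toMul w : F) : H) • o := fun h =>
      hw' (hFfree _ (Additive.toMul w).2 o h.symm)
    obtain ⟨g, hg1, hg2⟩ := htr _ _ _ _ hvo hwo
    refine ⟨⟨g, hg1⟩, ?_⟩
    apply Additive.toMul.injective
    apply Subtype.ext
    rw [hsmul]
    apply hFinj _ (hFn.conj_mem _ (Additive.toMul v).2 _) _ (Additive.toMul w).2
    change (g * ((Additive.toMul v : F) : H) * g⁻¹) • o = _
    rw [← hg2, mul_smul, mul_smul]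
    congr 2
    rw [inv_smul_eq_iff, hg1]
  · -- free
    intro c v hv hcv
    have hv' : ((Additive.toMul v : F) : H) ≠ 1 := fun h => hv (Additive.toMul.injective (Subtype.ext h))
    have hvo : o ≠ ((Additive.toMul v : F) : H) • o := fun h =>
      hv' (hFfree _ (Additive.toMul v).2 o h.symm)
    have h1 : (c : H) * ((Additive.toMul v : F) : H) * (c : H)⁻¹ = ((Additive.toMul v : F) : H) := by
      rw [← hsmul, hcv]
    have hco : (c : H) • o = o := c.2
    apply Subtype.ext
    apply hfix (c : H) o _ hvo hco
    have h2 : (c : H) * ((Additive.toMul v : F) : H) = ((Additive.toMul v : F) : H) * (c : H) := by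
      rw [mul_inv_eq_iff_eq_mul] at h1
      exact h1
    rw [← mul_smul, h2, mul_smul, hco]
  · intro v
    apply Additive.toMul.injective
    apply Subtype.ext
    exact hσ _
  · intro c
    exact Subtype.ext (hσ _)
  · intro c v
    apply Additive.toMul.injective
    apply Subtype.ext
    rw [hXv, hsmul, hsmul, hXv, hφv]
    simp
  · intro h
    exact he1 (congrArg Subtype.val (Additive.toMul.injective h))
  · apply Additive.toMul.injective
    apply Subtype.ext
    exact hσe
  · intro v hv
    have h1 : σ ((Additive.toMul v : F) : H) = ((Additive.toMul v : F) : H) := by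
      have := congrArg (fun w : Additive F => ((Additive.toMul w : F) : H)) hv
      exact this
    rcases hC _ (Additive.toMul v).2 h1 with h | h | h
    · left
      apply Additive.toMul.injective
      apply Subtype.ext
      exact h
    · right; left
      apply Additive.toMul.injective
      apply Subtype.ext
      exact h
    · right; right
      apply Additive.toMul.injective
      apply Subtype.ext
      exact h


/-- Build an embedding of `Fin 4` from four distinct points. -/
theorem exists_emb4 {α : Type*} (a b c d : α) (hab : a ≠ b) (hac : a ≠ c) (had : a ≠ d)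
    (hbc : b ≠ c) (hbd : b ≠ d) (hcd : c ≠ d) :
    ∃ x : Fin 4 ↪ α, x 0 = a ∧ x 1 = b ∧ x 2 = c ∧ x 3 = d := by
  refine ⟨⟨![a, b, c, d], ?_⟩, rfl, rfl, rfl, rfl⟩
  intro i j hij
  fin_cases i <;> fin_cases j <;> simp_all

open MulAction in
/-- Degrees of sharply 4-transitive actions. -/
theorem core4 {G α : Type*} [Group G] [Finite G] [Finite α] [MulAction G α]
    (h4 : 4 ≤ Nat.card α) [IsMultiplyPretransitive G α 4]
    (hsharp : ∀ x : Fin 4 ↪ α, stabilizer G x = ⊥) :
    Nat.card α = 4 ∨ Nat.card α = 5 ∨ Nat.card α = 6 ∨ Nat.card α = 11 := by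
  classical
  haveI := Fintype.ofFinite α
  rw [Nat.card_eq_fintype_card] at h4 ⊢
  have htr : ∀ a b c d a' b' c' d' : α, a ≠ b → a ≠ c → a ≠ d → b ≠ c → b ≠ d → c ≠ d →
      a' ≠ b' → a' ≠ c' → a' ≠ d' → b' ≠ c' → b' ≠ d' → c' ≠ d' →
      ∃ g : G, g • a = a' ∧ g • b = b' ∧ g • c = c' ∧ g • d = d' := by
    intro a b c d a' b' c' d' h1 h2 h3 h5 h6 h7 h8 h9 h10 h11 h12 h13
    obtain ⟨x, rfl, rfl, rfl, rfl⟩ := exists_emb4 a b c d h1 h2 h3 h5 h6 h7
    obtain ⟨y, rfl, rfl, rfl, rfl⟩ := exists_emb4 a' b' c' d' h8 h9 h10 h11 h12 h13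
    obtain ⟨g, hg⟩ := (inferInstance : IsMultiplyPretransitive G α 4).exists_smul_eq x y
    refine ⟨g, ?_, ?_, ?_, ?_⟩ <;> rw [← hg] <;> rfl
  have hfix : ∀ (g : G) (a b c d : α), a ≠ b → a ≠ c → a ≠ d → b ≠ c → b ≠ d → c ≠ d →
      g • a = a → g • b = b → g • c = c → g • d = d → g = 1 := by
    intro g a b c d h1 h2 h3 h5 h6 h7 h8 h9 h10 h11
    obtain ⟨x, rfl, rfl, rfl, rfl⟩ := exists_emb4 a b c d h1 h2 h3 h5 h6 h7
    have : g ∈ stabilizer G x := by
      rw [mem_stabilizer_iff]
      ext i
      fin_cases i
      · exact h8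
      · exact h9
      · exact h10
      · exact h11
    rw [hsharp x, Subgroup.mem_bot] at this
    exact this
  obtain ⟨x₀⟩ := Function.Embedding.nonempty_of_card_le (α := Fin 4) (β := α)
    (by simpa using h4)
  obtain ⟨s, t, o, u, hst, hso, hsu, hto, htu, hou⟩ : ∃ s t o u : α, s ≠ t ∧ s ≠ o ∧ s ≠ u ∧
      t ≠ o ∧ t ≠ u ∧ o ≠ u :=
    ⟨x₀ 0, x₀ 1, x₀ 2, x₀ 3, fun h => absurd (x₀.injective h) (by decide),
      fun h => absurd (x₀.injective h) (by decide), fun h => absurd (x₀.injective h) (by decide),
      fun h => absurd (x₀.injective h) (by decide), fun h => absurd (x₀.injective h) (by decide),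
      fun h => absurd (x₀.injective h) (by decide)⟩
  let H : Subgroup G := stabilizer G s ⊓ stabilizer G t
  have hHs : ∀ h : H, (h : G) • s = s := fun h => h.2.1
  have hHt : ∀ h : H, (h : G) • t = t := fun h => h.2.2
  have hmemH : ∀ g : G, g • s = s → g • t = t → g ∈ H := fun g h1 h2 => ⟨h1, h2⟩
  let A : SubMulAction H α :=
    { carrier := {a | a ≠ s ∧ a ≠ t}
      smul_mem' := by
        intro h a ha
        constructor
        · intro h1
          apply ha.1
          have h2 : (h : G) • a = s := h1
          rw [← hHs h, smul_left_cancel_iff] at h2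
          exact h2
        · intro h1
          apply ha.2
          have h2 : (h : G) • a = t := h1
          rw [← hHt h, smul_left_cancel_iff] at h2
          exact h2 }
  have hA : ∀ a : A, (a : α) ≠ s ∧ (a : α) ≠ t := fun a => a.2
  have hsmulA : ∀ (h : H) (a : A), ((h • a : A) : α) = (h : G) • (a : α) := fun _ _ => rfl
  obtain ⟨x, hxs, hxt, hxo, hxu⟩ := htr s t o u t s o u hst hso hsu hto htu hou hst.symm hto htu
    hso hsu hou
  have hxx : x * x = 1 := by
    apply hfix _ s t o u hst hso hsu hto htu hou
    · rw [mul_smul, hxs, hxt]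
    · rw [mul_smul, hxt, hxs]
    · rw [mul_smul, hxo, hxo]
    · rw [mul_smul, hxu, hxu]
  have hxi : x⁻¹ = x := inv_eq_of_mul_eq_one_left hxx
  have hσmem : ∀ h : H, x * (h : G) * x⁻¹ ∈ H := by
    intro h
    apply hmemH
    · rw [hxi, mul_smul, mul_smul, hxs, hHt, hxt]
    · rw [hxi, mul_smul, mul_smul, hxt, hHs, hxs]
  let σ : H →* H :=
    { toFun := fun h => ⟨x * (h : G) * x⁻¹, hσmem h⟩
      map_one' := Subtype.ext (by simp)
      map_mul' := fun a b => Subtype.ext (by simp only [Subgroup.coe_mul]; group) }
  have hσv : ∀ h : H, ((σ h : H) : G) = x * (h : G) * x⁻¹ := fun _ => rfl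
  have hτmem : ∀ a : A, x • (a : α) ∈ A := by
    intro a
    constructor
    · intro h
      apply (hA a).2
      rw [← hxt] at h
      exact smul_left_cancel x h
    · intro h
      apply (hA a).1
      rw [← hxs] at h
      exact smul_left_cancel x h
  let τ : A → A := fun a => ⟨x • (a : α), hτmem a⟩
  have hτv : ∀ a : A, ((τ a : A) : α) = x • (a : α) := fun _ => rfl
  have hoA : o ∈ A := ⟨hso.symm, hto.symm⟩
  have huA : u ∈ A := ⟨hsu.symm, htu.symm⟩
  have hcardA : Fintype.card A + 2 = Fintype.card α := by
    have h1 : Fintype.card A = (({s, t} : Finset α)ᶜ).card :=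
      Fintype.card_of_subtype _ (by
        intro a
        simp only [Finset.mem_compl, Finset.mem_insert, Finset.mem_singleton, not_or]
        rfl)
    rw [h1, Finset.card_compl, Finset.card_pair hst]
    omega
  have hmain := sharp2_involution (H := H) (A := A) ?_ ?_ σ τ ?_ ?_ ?_ ⟨o, hoA⟩ ⟨u, huA⟩ ?_ ?_ ?_ ?_
  · omega
  · -- 2-transitive
    intro a b c d hab hcd
    have hab' : (a : α) ≠ b := fun h => hab (Subtype.ext h)
    have hcd' : (c : α) ≠ d := fun h => hcd (Subtype.ext h)
    obtain ⟨g, h1, h2, h3, h5⟩ := htr s t a b s t c d hst (hA a).1.symm (hA b).1.symm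
      (hA a).2.symm (hA b).2.symm hab' hst (hA c).1.symm (hA d).1.symm (hA c).2.symm
      (hA d).2.symm hcd'
    exact ⟨⟨g, hmemH g h1 h2⟩, Subtype.ext h3, Subtype.ext h5⟩
  · intro g a b hab h1 h2
    have hab' : (a : α) ≠ b := fun h => hab (Subtype.ext h)
    apply Subtype.ext
    exact hfix (g : G) s t a b hst (hA a).1.symm (hA b).1.symm (hA a).2.symm (hA b).2.symm hab'
      (hHs g) (hHt g) (congrArg Subtype.val h1) (congrArg Subtype.val h2)
  · intro h
    apply Subtype.ext
    rw [hσv, hσv, hxi, ← mul_assoc, ← mul_assoc, hxx, one_mul, mul_assoc, hxx, mul_one]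
  · intro a
    apply Subtype.ext
    rw [hτv, hτv, ← mul_smul, hxx, one_smul]
  · intro h a
    apply Subtype.ext
    rw [hτv, hsmulA, hsmulA, hτv, hσv, ← mul_smul, ← mul_smul]
    congr 1
    group
  · intro h
    exact hou (congrArg Subtype.val h)
  · exact Subtype.ext hxo
  · exact Subtype.ext hxu
  · intro a b c d h1 h2 h3 h5 hab hac had hbc hbd hcd
    have hx1 := hfix x a b c d (fun h => hab (Subtype.ext h)) (fun h => hac (Subtype.ext h))
      (fun h => had (Subtype.ext h)) (fun h => hbc (Subtype.ext h)) (fun h => hbd (Subtype.ext h))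
      (fun h => hcd (Subtype.ext h)) (congrArg Subtype.val h1) (congrArg Subtype.val h2)
      (congrArg Subtype.val h3) (congrArg Subtype.val h5)
    rw [hx1, one_smul] at hxs
    exact hst hxs

theorem result {α : Type*} [Fintype α] [DecidableEq α] (G : Subgroup (Equiv.Perm α)) (h4 : 4 ≤ Fintype.card α) [MulAction.IsMultiplyPretransitive G α 4] (hsharp : ∀ x : Fin 4 ↪ α, MulAction.stabilizer G x = ⊥) : Fintype.card α = 4 ∨ Fintype.card α = 5 ∨ Fintype.card α = 6 ∨ Fintype.card α = 11 := by
  have := core4 (G := G) (α := α) (by rwa [Nat.card_eq_fintype_card]) hsharp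
  rwa [Nat.card_eq_fintype_card] at this

end Cfsg.Agent.S0415
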