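import Cfsg.Statements.S0416
import Mathlib
import Cfsg.Agent.S0415

set_option autoImplicit false
open Cfsg

namespace Cfsg.Agent.S0416

open MulAction SubMulAction

/-- Point stabilisers of sharply `(k+1)`-transitive actions are sharply `k`-transitive. -/
theorem descent {G α : Type*} [Group G] [MulAction G α] [Finite α] {k : ℕ}
    [IsMultiplyPretransitive G α (k + 1)] (hk : k + 1 ≤ Nat.card α)
    (hsharp : ∀ x : Fin (k + 1) ↪ α, stabilizer G x = ⊥) (a : α) :
    IsMultiplyPretransitive (stabilizer G a) (ofStabilizer G a) k ∧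
      ∀ x : Fin k ↪ ofStabilizer G a, stabilizer (stabilizer G a) x = ⊥ := by
  haveI : IsPretransitive G α := by
    haveI : IsMultiplyPretransitive G α 1 :=
      isMultiplyPretransitive_of_le (n := k + 1) (by omega) hk
    exact is_one_pretransitive_iff.mp this
  refine ⟨(ofStabilizer.isMultiplyPretransitive (G := G) (α := α) (n := k) (a := a)).mp
    (inferInstance : IsMultiplyPretransitive G α (k + 1)), ?_⟩
  intro x
  rw [eq_bot_iff]
  intro g hg
  rw [Subgroup.mem_bot]
  have hgx : g • x = x := hg
  have h1 : (g : G) ∈ stabilizer G (ofStabilizer.snoc x) := by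
    rw [mem_stabilizer_iff]
    ext i
    rcases Fin.eq_castSucc_or_eq_last i with ⟨i, rfl⟩ | ⟨rfl⟩
    · have h2 := congrArg (fun y : Fin k ↪ ofStabilizer G a => ((y i : ofStabilizer G a) : α)) hgx
      simp only [Function.Embedding.smul_apply] at h2 ⊢
      rw [ofStabilizer.snoc_castSucc]
      exact h2
    · simp only [Function.Embedding.smul_apply]
      rw [ofStabilizer.snoc_last]
      exact g.2
  rw [hsharp, Subgroup.mem_bot] at h1
  exact Subtype.ext h1

theorem core5 {G α : Type*} [Group G] [Finite G] [Finite α] [MulAction G α]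
    (h5 : 5 ≤ Nat.card α) [IsMultiplyPretransitive G α 5]
    (hsharp : ∀ x : Fin 5 ↪ α, stabilizer G x = ⊥) :
    Nat.card α = 5 ∨ Nat.card α = 6 ∨ Nat.card α = 7 ∨ Nat.card α = 12 := by
  haveI : Nonempty α := by
    apply (Nat.card_pos_iff.mp (by omega)).1
  obtain ⟨a⟩ := (inferInstance : Nonempty α)
  obtain ⟨h1, h2⟩ := descent (k := 4) h5 hsharp a
  have hc := nat_card_ofStabilizer_add_one_eq G a
  have := S0415.core4 (G := stabilizer G a) (α := ofStabilizer G a) (by omega) h2
  omega

theorem result {α : Type*} [Fintype α] [DecidableEq α] (G : Subgroup (Equiv.Perm α)) (h5 : 5 ≤ Fintype.card α) [MulAction.IsMultiplyPretransitive G α 5] (hsharp : ∀ x : Fin 5 ↪ α, MulAction.stabilizer G x = ⊥) : Fintype.card α = 5 ∨ Fintype.card α = 6 ∨ Fintype.card α = 7 ∨ Fintype.card α = 12 := by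
  have := core5 (G := G) (α := α) (by rwa [Nat.card_eq_fintype_card]) hsharp
  rwa [Nat.card_eq_fintype_card] at this

end Cfsg.Agent.S0416
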