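import Cfsg.Statements.S0417
import Mathlib
import Cfsg.Agent.S0416

set_option autoImplicit false
open Cfsg

namespace Cfsg.Agent.S0417

open MulAction SubMulAction

/-- Sylow count for a transitive group of prime degree, whose order is exactly divisible by the
prime. -/
theorem sylow_prime_degree {G α : Type*} [Group G] [Finite G] [Finite α] [MulAction G α]
    [FaithfulSMul G α] [IsPretransitive G α] (p m : ℕ) [hp : Fact p.Prime]
    (hα : Nat.card α = p) (hG : Nat.card G = p * m) (hm : ¬ p ∣ m) (P : Sylow p G) :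
    ∃ t, t ∣ p - 1 ∧ Nat.card (Subgroup.normalizer ((P : Subgroup G) : Set G)) = p * t ∧
      ∃ idx, idx * t = m ∧ idx ≡ 1 [MOD p] := by
  have hp' := hp.out
  have hPcard : Nat.card P = p := by
    rw [Sylow.card_eq_multiplicity, hG, Nat.factorization_mul hp'.ne_zero
      (fun h => hm (by rw [h]; exact dvd_zero p))]
    simp [Nat.factorization_eq_zero_of_not_dvd hm, hp'.factorization_self]
  haveI hne : Nonempty α := (Nat.card_pos_iff.mp (by rw [hα]; exact hp'.pos)).1
  -- P moves a point
  obtain ⟨a, g₀, hg₀P, hg₀a⟩ : ∃ a : α, ∃ g₀ ∈ (P : Subgroup G), g₀ • a ≠ a := by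
    have : ∃ g₀ ∈ (P : Subgroup G), g₀ ≠ 1 := by
      by_contra h
      push Not at h
      have : (P : Subgroup G) = ⊥ := (Subgroup.eq_bot_iff_forall _).mpr h
      rw [this] at hPcard
      simp at hPcard
      exact hp'.ne_one hPcard.symm
    obtain ⟨g₀, hg₀, hg₀1⟩ := this
    by_contra h
    push Not at h
    exact hg₀1 (eq_of_smul_eq_smul (fun b => by rw [h b g₀ hg₀, one_smul]))
  -- P is transitive
  have hPtrans : ∀ b : α, ∃ g ∈ (P : Subgroup G), g • a = b := by
    have h1 := Subgroup.card_mul_index (stabilizer (P : Subgroup G) a)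
    rw [index_stabilizer] at h1
    have h2 : (orbit (P : Subgroup G) a).ncard ∣ p := by
      rw [hPcard] at h1
      exact Dvd.intro_left _ h1
    have h3 : (orbit (P : Subgroup G) a).ncard ≠ 1 := by
      intro h
      rw [Set.ncard_eq_one] at h
      obtain ⟨c, hc⟩ := h
      have h4 : a ∈ orbit (P : Subgroup G) a := mem_orbit_self a
      have h5 : g₀ • a ∈ orbit (P : Subgroup G) a := ⟨⟨g₀, hg₀P⟩, rfl⟩
      rw [hc] at h4 h5
      exact hg₀a (h5.trans h4.symm)
    have h4 : (orbit (P : Subgroup G) a).ncard = p :=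
      (Nat.dvd_prime hp').mp h2 |>.resolve_left h3
    have h5 : orbit (P : Subgroup G) a = Set.univ := by
      apply Set.eq_of_subset_of_ncard_le (Set.subset_univ _)
      rw [Set.ncard_univ, hα, h4]
    intro b
    have : b ∈ orbit (P : Subgroup G) a := by rw [h5]; trivial
    obtain ⟨g, hg⟩ := this
    exact ⟨g, g.2, hg⟩
  let N := Subgroup.normalizer ((P : Subgroup G) : Set G)
  have hPN : (P : Subgroup G) ≤ N := Subgroup.le_normalizer
  haveI hNtrans : IsPretransitive N α := by
    refine ⟨fun x y => ?_⟩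
    obtain ⟨g, hg, hgx⟩ := hPtrans x
    obtain ⟨h, hh, hhy⟩ := hPtrans y
    refine ⟨⟨h * g⁻¹, hPN (P.1.mul_mem hh (P.1.inv_mem hg))⟩, ?_⟩
    change (h * g⁻¹) • x = y
    rw [mul_smul, ← hgx, inv_smul_smul, hhy]
  -- the order of the point stabiliser
  set t := Nat.card (stabilizer N a) with ht
  have hNcard : Nat.card N = p * t := by
    have h1 := Subgroup.card_mul_index (stabilizer N a)
    rw [index_stabilizer_of_transitive, hα] at h1
    rw [← h1, mul_comm]
  have hinj : Function.Injective
      ((P : Subgroup G).normalizerMonoidHom.comp (stabilizer N a).subtype) := by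
    rw [injective_iff_map_eq_one]
    intro c hc
    have h1 : ∀ g ∈ (P : Subgroup G), ((c : N) : G) * g * ((c : N) : G)⁻¹ = g := by
      intro g hg
      have h2 := congrArg (fun f : MulAut (P : Subgroup G) => ((f ⟨g, hg⟩ : (P : Subgroup G)) : G)) hc
      exact h2
    have h2 : ∀ b : α, ((c : N) : G) • b = b := by
      intro b
      obtain ⟨g, hg, rfl⟩ := hPtrans b
      have h3 : ((c : N) : G) * g = g * ((c : N) : G) := by
        rw [← mul_inv_eq_iff_eq_mul]
        exact h1 g hg
      rw [← mul_smul, h3, mul_smul]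
      congr 1
      exact c.2
    have h3 : ((c : N) : G) = 1 := eq_of_smul_eq_smul (fun b => by rw [h2 b, one_smul])
    exact Subtype.ext (Subtype.ext h3)
  have htdvd : t ∣ p - 1 := by
    haveI : IsCyclic (P : Subgroup G) := isCyclic_of_prime_card hPcard
    have h1 := Subgroup.card_dvd_of_injective _ hinj
    rw [IsCyclic.card_mulAut, hPcard, Nat.totient_prime hp'] at h1
    exact h1
  refine ⟨t, htdvd, hNcard, N.index, ?_, ?_⟩
  · have h1 := Subgroup.card_mul_index N
    rw [hNcard, hG] at h1
    have h2 : p * (t * N.index) = p * m := by rw [← h1]; ring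
    have h3 := Nat.eq_of_mul_eq_mul_left hp'.pos h2
    rw [mul_comm]
    exact h3
  · have h1 : Nat.card (Sylow p G) ≡ 1 [MOD p] := card_sylow_modEq_one p G
    rwa [Sylow.card_eq_index_normalizer P] at h1

/-- Sharp transitivity implies faithfulness. -/
theorem faithful_of_sharp {G α : Type*} [Group G] [MulAction G α] {k : ℕ} (x : Fin k ↪ α)
    (hsharp : stabilizer G x = ⊥) : FaithfulSMul G α := by
  refine ⟨fun {g h} hgh => ?_⟩
  have : g⁻¹ * h ∈ stabilizer G x := by
    rw [mem_stabilizer_iff]
    ext i
    simp [mul_smul, ← hgh]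
  rw [hsharp, Subgroup.mem_bot, inv_mul_eq_one] at this
  exact this

/-- The order of a sharply `k`-transitive group. -/
theorem card_sharp {G α : Type*} [Group G] [Finite α] [MulAction G α] {k : ℕ}
    [IsMultiplyPretransitive G α k] (hk : k ≤ Nat.card α)
    (hsharp : ∀ x : Fin k ↪ α, stabilizer G x = ⊥) :
    Nat.card G = (Nat.card α).descFactorial k := by
  classical
  haveI := Fintype.ofFinite α
  obtain ⟨x₀⟩ := Function.Embedding.nonempty_of_card_le (α := Fin k) (β := α)
    (by simpa using hk)
  have e : G ≃ (Fin k ↪ α) := by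
    refine Equiv.ofBijective (fun g => g • x₀) ⟨?_, ?_⟩
    · intro g h hgh
      have hgh' : g • x₀ = h • x₀ := hgh
      have : h⁻¹ * g ∈ stabilizer G x₀ := by
        rw [mem_stabilizer_iff, mul_smul, hgh', inv_smul_smul]
      rw [hsharp, Subgroup.mem_bot, inv_mul_eq_one] at this
      exact this.symm
    · intro y
      exact (inferInstance : IsMultiplyPretransitive G α k).exists_smul_eq x₀ y
  rw [Nat.card_congr e, Nat.card_eq_fintype_card, Fintype.card_embedding_eq, Fintype.card_fin,
    Nat.card_eq_fintype_card]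

/-- No sharply 6-transitive group of degree 13. -/
theorem no_thirteen {G α : Type*} [Group G] [Finite G] [Finite α] [MulAction G α]
    (h13 : Nat.card α = 13) [IsMultiplyPretransitive G α 6]
    (hsharp : ∀ x : Fin 6 ↪ α, stabilizer G x = ⊥) : False := by
  classical
  haveI : Fact (Nat.Prime 13) := ⟨by norm_num⟩
  have hG : Nat.card G = 13 * 95040 := by
    rw [card_sharp (by omega) hsharp, h13]
    decide
  haveI := Fintype.ofFinite α
  obtain ⟨x₀⟩ := Function.Embedding.nonempty_of_card_le (α := Fin 6) (β := α)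
    (by rw [Nat.card_eq_fintype_card] at h13; simp [h13])
  haveI := faithful_of_sharp x₀ (hsharp x₀)
  haveI : IsPretransitive G α := by
    haveI : IsMultiplyPretransitive G α 1 :=
      isMultiplyPretransitive_of_le (n := 6) (by omega) (by omega)
    exact is_one_pretransitive_iff.mp this
  obtain ⟨P⟩ : Nonempty (Sylow 13 G) := inferInstance
  obtain ⟨t, ht, -, idx, hidx, hmod⟩ := sylow_prime_degree 13 95040 h13 hG (by norm_num) P
  have ht12 : t ≤ 12 := Nat.le_of_dvd (by norm_num) ht
  have hmod' : idx % 13 = 1 := hmod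
  have hdiv : t ∣ 12 := ht
  interval_cases t <;> first | omega | (exfalso; revert hdiv; decide)

theorem corek (k : ℕ) (hk : 6 ≤ k) : ∀ {G α : Type*} [Group G] [Finite G] [Finite α]
    [MulAction G α] (_ : k ≤ Nat.card α) [IsMultiplyPretransitive G α k]
    (_ : ∀ x : Fin k ↪ α, stabilizer G x = ⊥),
    Nat.card α = k ∨ Nat.card α = k + 1 ∨ Nat.card α = k + 2 := by
  induction k, hk using Nat.le_induction with
  | base =>
    intro G α _ _ _ _ h6 _ hsharp
    haveI : Nonempty α := (Nat.card_pos_iff.mp (by omega)).1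
    obtain ⟨a⟩ := (inferInstance : Nonempty α)
    obtain ⟨h1, h2⟩ := S0416.descent (k := 5) h6 hsharp a
    have hc := nat_card_ofStabilizer_add_one_eq G a
    have := S0416.core5 (G := stabilizer G a) (α := ofStabilizer G a) (by omega) h2
    rcases this with h | h | h | h
    · omega
    · omega
    · omega
    · exact (no_thirteen (by omega) hsharp).elim
  | succ k hk ih =>
    intro G α _ _ _ _ hk1 _ hsharp
    haveI : Nonempty α := (Nat.card_pos_iff.mp (by omega)).1
    obtain ⟨a⟩ := (inferInstance : Nonempty α)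
    obtain ⟨h1, h2⟩ := S0416.descent (k := k) hk1 hsharp a
    have hc := nat_card_ofStabilizer_add_one_eq G a
    have := ih (G := stabilizer G a) (α := ofStabilizer G a) (by omega) h2
    omega

theorem result {α : Type*} [Fintype α] [DecidableEq α] (G : Subgroup (Equiv.Perm α)) (k : ℕ) (hk : 6 ≤ k) (hn : k ≤ Fintype.card α) [MulAction.IsMultiplyPretransitive G α k] (hsharp : ∀ x : Fin k ↪ α, MulAction.stabilizer G x = ⊥) : Fintype.card α = k ∨ Fintype.card α = k + 1 ∨ Fintype.card α = k + 2 := by
  have := corek k hk (G := G) (α := α) (by rwa [Nat.card_eq_fintype_card]) hsharp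
  rwa [Nat.card_eq_fintype_card] at this

end Cfsg.Agent.S0417
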