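import Cfsg.Statements.S0418
import Mathlib
import Cfsg.Agent.S0417

set_option autoImplicit false
open Cfsg

namespace Cfsg.Agent.S0418

open MulAction SubMulAction

/-- A normal subgroup moving a point of a 2-transitive action is transitive. -/
theorem normal_trans {G α : Type*} [Group G] [MulAction G α] [IsMultiplyPretransitive G α 2]
    (N : Subgroup G) [hN : N.Normal] {n : G} (hn : n ∈ N) {a : α} (hna : n • a ≠ a) :
    IsPretransitive N α := by
  have h2 : ∀ {a b c d : α}, a ≠ b → c ≠ d → ∃ g : G, g • a = c ∧ g • b = d :=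
    is_two_pretransitive_iff.mp (inferInstance : IsMultiplyPretransitive G α 2)
  refine ⟨fun x y => ?_⟩
  by_cases hxy : x = y
  · exact ⟨1, by rw [one_smul, hxy]⟩
  obtain ⟨g, hg1, hg2⟩ := h2 hna.symm hxy
  refine ⟨⟨g * n * g⁻¹, hN.conj_mem n hn g⟩, ?_⟩
  change (g * n * g⁻¹) • x = y
  rw [mul_smul, mul_smul, ← hg1, inv_smul_smul, hg2]

/-- The degree divides the order of a transitive group. -/
theorem card_dvd_of_trans {G α : Type*} [Group G] [MulAction G α] [IsPretransitive G α] (a : α) :
    Nat.card α ∣ Nat.card G := by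
  have h1 := Subgroup.card_mul_index (stabilizer G a)
  rw [index_stabilizer_of_transitive] at h1
  exact Dvd.intro_left _ h1

/-- The order of the point stabilizer in a transitive group. -/
theorem card_stab_mul {G α : Type*} [Group G] [MulAction G α] [IsPretransitive G α] (a : α) :
    Nat.card (stabilizer G a) * Nat.card α = Nat.card G := by
  have h1 := Subgroup.card_mul_index (stabilizer G a)
  rwa [index_stabilizer_of_transitive] at h1

/-- `N_a` as a subgroup of `N` and of `G_a`. -/
theorem card_subgroupOf_stab {G α : Type*} [Group G] [MulAction G α] (N : Subgroup G) (a : α) :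
    Nat.card (N.subgroupOf (stabilizer G a)) = Nat.card (stabilizer N a) := by
  apply Nat.card_congr
  exact
    { toFun := fun g => ⟨⟨g.1.1, g.2⟩, g.1.2⟩
      invFun := fun g => ⟨⟨g.1.1, g.2⟩, g.1.2⟩
      left_inv := fun _ => rfl
      right_inv := fun _ => rfl }

theorem core11 {G α : Type*} [Group G] [Finite G] [Finite α] [MulAction G α]
    (h11 : Nat.card α = 11) [IsMultiplyPretransitive G α 4]
    (hsharp : ∀ x : Fin 4 ↪ α, stabilizer G x = ⊥) :
    IsSimpleGroup G ∧ Nat.card G = 7920 := by
  classical
  haveI : Fact (Nat.Prime 11) := ⟨by norm_num⟩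
  have hG : Nat.card G = 11 * 720 := by
    rw [S0417.card_sharp (by omega) hsharp, h11]
    decide
  haveI := Fintype.ofFinite α
  obtain ⟨x₀⟩ := Function.Embedding.nonempty_of_card_le (α := Fin 4) (β := α)
    (by rw [Nat.card_eq_fintype_card] at h11; simp [h11])
  haveI := S0417.faithful_of_sharp x₀ (hsharp x₀)
  haveI h1tr : IsPretransitive G α := by
    haveI : IsMultiplyPretransitive G α 1 :=
      isMultiplyPretransitive_of_le (n := 4) (by omega) (by omega)
    exact is_one_pretransitive_iff.mp this
  haveI h2tr : IsMultiplyPretransitive G α 2 :=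
    isMultiplyPretransitive_of_le (n := 4) (by omega) (by omega)
  haveI h3tr : IsMultiplyPretransitive G α 3 :=
    isMultiplyPretransitive_of_le (n := 4) (by omega) (by omega)
  refine ⟨?_, by omega⟩
  haveI : Nontrivial G := by
    rw [← Finite.one_lt_card_iff_nontrivial]
    omega
  refine ⟨fun N hN => ?_⟩
  by_cases hbot : N = ⊥
  · exact Or.inl hbot
  right
  obtain ⟨n, hn1⟩ := (Subgroup.ne_bot_iff_exists_ne_one).mp hbot
  have hmove : ∀ {g : G}, g ≠ 1 → ∃ a : α, g • a ≠ a := by
    intro g hg
    by_contra h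
    push Not at h
    exact hg (eq_of_smul_eq_smul (fun b => by rw [h b, one_smul]))
  obtain ⟨a, hna⟩ := hmove (g := (n : G)) (fun h => hn1 (Subtype.ext h))
  haveI hNtr := normal_trans N n.2 hna
  have h11N : 11 ∣ Nat.card N := h11 ▸ card_dvd_of_trans (G := N) a
  obtain ⟨x, hx⟩ := exists_prime_orderOf_dvd_card' 11 h11N
  let Q := Subgroup.zpowers (x : G)
  have hQcard : Nat.card Q = 11 := by
    rw [Nat.card_zpowers, Subgroup.orderOf_coe, hx]
  have hQN : Q ≤ N := by
    rw [Subgroup.zpowers_le]
    exact x.2
  let P : Sylow 11 G := Sylow.ofCard Q (by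
    rw [hQcard, hG, Nat.factorization_mul (by norm_num) (by norm_num)]
    have h1 : (Nat.factorization 11) 11 = 1 := Nat.Prime.factorization_self (by norm_num)
    have h2 : (Nat.factorization 720) 11 = 0 :=
      Nat.factorization_eq_zero_of_not_dvd (by norm_num)
    simp [h1, h2])
  have hPN : (P : Subgroup G) ≤ N := hQN
  obtain ⟨t, ht, hNP, idx, hidx, hmod⟩ := S0417.sylow_prime_degree 11 720 h11 hG (by norm_num) P
  have ht5 : t = 5 := by
    have ht10 : t ≤ 10 := Nat.le_of_dvd (by norm_num) ht
    have hmod' : idx % 11 = 1 := hmod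
    have hdiv : t ∣ 10 := ht
    interval_cases t <;> first | omega | rfl | (exfalso; revert hdiv; decide)
  subst ht5
  set H := Subgroup.normalizer ((P : Subgroup G) : Set G) with hH
  have hsup : H ⊔ N = ⊤ := Sylow.normalizer_sup_eq_top' P hPN
  have hindex : N.index = (N.subgroupOf H).index := by
    have h1 := Subgroup.relIndex_sup_right (H := H) (K := N)
    rw [hsup, Subgroup.relIndex_top_right] at h1
    exact h1
  have hPH : (P : Subgroup G) ≤ H := Subgroup.le_normalizer
  have h11D : 11 ∣ Nat.card (N.subgroupOf H) := by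
    have h1 : ((P : Subgroup G).subgroupOf H) ≤ N.subgroupOf H :=
      Subgroup.subgroupOf_mono H hPN
    have h2 := Subgroup.card_dvd_of_le h1
    have h3 : Nat.card ((P : Subgroup G).subgroupOf H) = 11 := by
      rw [Nat.card_congr (Subgroup.subgroupOfEquivOfLe hPH).toEquiv]
      exact hQcard
    rwa [h3] at h2
  have hidx5 : N.index = 1 ∨ N.index = 5 := by
    have h1 := Subgroup.card_mul_index (N.subgroupOf H)
    rw [← hindex, hNP] at h1
    obtain ⟨k, hk⟩ := h11D
    rw [hk] at h1
    have h2 : k * N.index = 5 := by nlinarith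
    have h3 : N.index ∣ 5 := Dvd.intro_left _ h2
    exact (Nat.dvd_prime (by norm_num)).mp h3
  rcases hidx5 with h1 | h5
  · exact Subgroup.index_eq_one.mp h1
  exfalso
  have hNcard : Nat.card N = 1584 := by
    have h1 := Subgroup.card_mul_index N
    rw [h5, hG] at h1
    omega
  have hstab : Nat.card (stabilizer N a) = 144 := by
    have h1 := card_stab_mul (G := N) a
    rw [h11, hNcard] at h1
    omega
  -- a nontrivial element of `N_a`
  haveI : Nontrivial (stabilizer N a) := by
    rw [← Finite.one_lt_card_iff_nontrivial, hstab]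
    norm_num
  obtain ⟨c, hc1⟩ := exists_ne (1 : stabilizer N a)
  have hc1' : ((c : N) : G) ≠ 1 := fun h => hc1 (Subtype.ext (Subtype.ext h))
  obtain ⟨b, hb⟩ := hmove hc1'
  have hca : ((c : N) : G) • a = a := c.2
  have hba : b ≠ a := by
    rintro rfl
    exact hb hca
  obtain ⟨h1, -⟩ := S0416.descent (k := 3) (by omega) (fun x => by
    exact hsharp x) a
  -- transitivity of the stabilizer on the remaining points
  haveI h2' : IsMultiplyPretransitive (stabilizer G a) (ofStabilizer G a) 2 :=
    (ofStabilizer.isMultiplyPretransitive (G := G) (α := α) (n := 2) (a := a)).mp h3tr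
  let c' : stabilizer G a := ⟨((c : N) : G), hca⟩
  let b' : ofStabilizer G a := ⟨b, hba⟩
  have hc'N : c' ∈ N.subgroupOf (stabilizer G a) := (c : N).2
  have hc'b : c' • b' ≠ b' := by
    intro h
    exact hb (congrArg Subtype.val h)
  haveI hNn : (N.subgroupOf (stabilizer G a)).Normal := inferInstance
  haveI := normal_trans (N.subgroupOf (stabilizer G a)) hc'N hc'b
  have h10 := card_dvd_of_trans (G := N.subgroupOf (stabilizer G a)) b'
  rw [card_subgroupOf_stab, hstab] at h10
  have hcard : Nat.card (ofStabilizer G a) + 1 = 11 := by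
    rw [← h11]
    exact nat_card_ofStabilizer_add_one_eq G a
  have : Nat.card (ofStabilizer G a) = 10 := by omega
  rw [this] at h10
  revert h10
  decide

theorem result {α : Type*} [Fintype α] [DecidableEq α] (hα : Fintype.card α = 11) (G : Subgroup (Equiv.Perm α)) [MulAction.IsMultiplyPretransitive G α 4] (hsharp : ∀ x : Fin 4 ↪ α, MulAction.stabilizer G x = ⊥) : Cfsg.IsM11 G :=
  core11 (G := G) (α := α) (by rwa [Nat.card_eq_fintype_card]) hsharp

end Cfsg.Agent.S0418
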