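import Cfsg.Statements.S0419
import Mathlib
import Cfsg.Agent.S0418

set_option autoImplicit false
open Cfsg

namespace Cfsg.Agent.S0419

open MulAction SubMulAction

theorem core12 {G α : Type*} [Group G] [Finite G] [Finite α] [MulAction G α]
    (h12 : Nat.card α = 12) [IsMultiplyPretransitive G α 5]
    (hsharp : ∀ x : Fin 5 ↪ α, stabilizer G x = ⊥) :
    IsSimpleGroup G ∧ Nat.card G = 95040 := by
  classical
  have hG : Nat.card G = 95040 := by
    rw [S0417.card_sharp (by omega) hsharp, h12]
    decide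
  haveI := Fintype.ofFinite α
  obtain ⟨x₀⟩ := Function.Embedding.nonempty_of_card_le (α := Fin 5) (β := α)
    (by rw [Nat.card_eq_fintype_card] at h12; simp [h12])
  haveI := S0417.faithful_of_sharp x₀ (hsharp x₀)
  haveI h2tr : IsMultiplyPretransitive G α 2 :=
    isMultiplyPretransitive_of_le (n := 5) (by omega) (by omega)
  have h2 : ∀ {a b c d : α}, a ≠ b → c ≠ d → ∃ g : G, g • a = c ∧ g • b = d :=
    is_two_pretransitive_iff.mp h2tr
  refine ⟨?_, hG⟩
  haveI : Nontrivial G := by
    rw [← Finite.one_lt_card_iff_nontrivial]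
    omega
  refine ⟨fun N hN => ?_⟩
  by_cases hbot : N = ⊥
  · exact Or.inl hbot
  right
  obtain ⟨n, hn1⟩ := (Subgroup.ne_bot_iff_exists_ne_one).mp hbot
  have hmove : ∀ {g : G}, g ≠ 1 → ∃ a : α, g • a ≠ a := by
    intro g hg
    by_contra h
    push Not at h
    exact hg (eq_of_smul_eq_smul (fun b => by rw [h b, one_smul]))
  obtain ⟨a, hna⟩ := hmove (g := (n : G)) (fun h => hn1 (Subtype.ext h))
  haveI hNtr := S0418.normal_trans N n.2 hna
  obtain ⟨h1, h2'⟩ := S0416.descent (k := 4) (by omega) hsharp a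
  have hc := nat_card_ofStabilizer_add_one_eq G a
  obtain ⟨hsimple, -⟩ := S0418.core11 (G := stabilizer G a) (α := ofStabilizer G a) (by omega) h2'
  have hdich := hsimple.eq_bot_or_eq_top_of_normal (N.subgroupOf (stabilizer G a)) inferInstance
  rcases hdich with hbot' | htop
  · exfalso
    have hstab : Nat.card (stabilizer N a) = 1 := by
      rw [← S0418.card_subgroupOf_stab, hbot']
      exact Subgroup.card_bot
    have hNcard : Nat.card N = 12 := by
      have h3 := S0418.card_stab_mul (G := N) a
      rw [hstab, h12, one_mul] at h3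
      exact h3.symm
    have hfree : ∀ m : N, (m : G) • a = a → m = 1 := by
      intro m hm
      have h3 : (⟨m, hm⟩ : stabilizer N a) = 1 :=
        (Nat.card_eq_one_iff_unique.mp hstab).1.elim _ _
      exact congrArg Subtype.val h3
    haveI : Fact (Nat.Prime 2) := ⟨by norm_num⟩
    haveI : Fact (Nat.Prime 3) := ⟨by norm_num⟩
    obtain ⟨x, hx⟩ := exists_prime_orderOf_dvd_card' 2 (by rw [hNcard]; norm_num : 2 ∣ Nat.card N)
    obtain ⟨y, hy⟩ := exists_prime_orderOf_dvd_card' 3 (by rw [hNcard]; norm_num : 3 ∣ Nat.card N)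
    have hxa : a ≠ (x : G) • a := by
      intro h
      have := hfree x h.symm
      rw [this, orderOf_one] at hx
      omega
    have hya : a ≠ (y : G) • a := by
      intro h
      have := hfree y h.symm
      rw [this, orderOf_one] at hy
      omega
    -- conjugate `x` to `y`
    obtain ⟨g, hg1, hg2⟩ := h2 hxa hya
    let z : N := ⟨g * (x : G) * g⁻¹, hN.conj_mem _ x.2 _⟩
    have hzy : z = y := by
      have h3 : y⁻¹ * z = 1 := by
        apply hfree
        change ((y : G)⁻¹ * (g * (x : G) * g⁻¹)) • a = a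
        have h4 : g⁻¹ • a = a := by rw [inv_smul_eq_iff, hg1]
        rw [mul_smul, mul_smul, mul_smul, h4, hg2, inv_smul_smul]
      rw [inv_mul_eq_one] at h3
      exact h3.symm
    have h5 : orderOf (z : G) = orderOf (x : G) := by
      have h6 := orderOf_injective (MulAut.conj g).toMonoidHom (MulAut.conj g).injective (x : G)
      exact h6
    rw [hzy, Subgroup.orderOf_coe, Subgroup.orderOf_coe, hx, hy] at h5
    omega
  · rw [Subgroup.eq_top_iff']
    intro g
    obtain ⟨m, hm⟩ := exists_smul_eq N a (g • a)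
    have h3 : (m : G)⁻¹ * g ∈ stabilizer G a := by
      rw [mem_stabilizer_iff, mul_smul, inv_smul_eq_iff]
      exact hm.symm
    have h4 : (⟨(m : G)⁻¹ * g, h3⟩ : stabilizer G a) ∈ N.subgroupOf (stabilizer G a) := by
      rw [htop]
      trivial
    have h5 : (m : G)⁻¹ * g ∈ N := h4
    have h6 := N.mul_mem m.2 h5
    rwa [mul_inv_cancel_left] at h6

theorem result {α : Type*} [Fintype α] [DecidableEq α] (hα : Fintype.card α = 12) (G : Subgroup (Equiv.Perm α)) [MulAction.IsMultiplyPretransitive G α 5] (hsharp : ∀ x : Fin 5 ↪ α, MulAction.stabilizer G x = ⊥) : Cfsg.IsM12 G :=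
  core12 (G := G) (α := α) (by rwa [Nat.card_eq_fintype_card]) hsharp

end Cfsg.Agent.S0419
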