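import Cfsg.Statements.S0427
import Mathlib
import Cfsg.Agent.Lib.BasicSteiner.Count

set_option autoImplicit false
open Cfsg

namespace Cfsg.Agent.S0427

open Cfsg.Agent.Lib.BasicSteiner.Count Finset

section core

variable {α : Type*} [Fintype α] [DecidableEq α] {B : Set (Finset α)}

theorem card_through (hα : Fintype.card α = 22) (hB : Cfsg.IsSteinerSystem 3 6 B)
    (s : Finset α) (i lam : ℕ) (hs : s.card = i) (hi : i ≤ 3)
    (hpos : 0 < (6 - i).choose (3 - i))
    (hlam : lam * (6 - i).choose (3 - i) = (22 - i).choose (3 - i)) :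
    ((blocks B).filter (fun c => s ⊆ c)).card = lam := by
  have h := card_blocks_through hB s (by omega)
  rw [hα, hs, ← hlam] at h
  exact Nat.eq_of_mul_eq_mul_right hpos h

theorem card_blocks_eq (hα : Fintype.card α = 22) (hB : Cfsg.IsSteinerSystem 3 6 B) :
    (blocks B).card = 77 := by
  have h := card_through hα hB ∅ 0 77 (by simp) (by norm_num) (by decide) (by decide)
  simpa using h

theorem pt_one (hα : Fintype.card α = 22) (hB : Cfsg.IsSteinerSystem 3 6 B) (p : α) :
    ((blocks B).filter (fun c => p ∈ c)).card = 21 := by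
  have h := card_through hα hB {p} 1 21 (by simp) (by norm_num) (by decide) (by decide)
  simpa using h

theorem pt_two (hα : Fintype.card α = 22) (hB : Cfsg.IsSteinerSystem 3 6 B) {p q : α} (hpq : p ≠ q) :
    ((blocks B).filter (fun c => p ∈ c ∧ q ∈ c)).card = 5 := by
  have h := card_through hα hB {p, q} 2 5 (by simp [hpq]) (by norm_num) (by decide) (by decide)
  have : ((blocks B).filter (fun c => p ∈ c ∧ q ∈ c)) =
      ((blocks B).filter (fun c => ({p, q} : Finset α) ⊆ c)) := by
    ext c
    simp [Finset.insert_subset_iff]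
  rw [this]
  exact h

theorem eq_of_three_le (hB : Cfsg.IsSteinerSystem 3 6 B) {b c : Finset α} (hb : b ∈ B)
    (hc : c ∈ B) (h : 3 ≤ (c ∩ b).card) : c = b :=
  eq_of_card_inter_ge hB hc hb h

/-- the intersection numbers of a block: all other blocks meet `b` in zero or two points, and
there are sixteen of the first sort. -/
theorem inter_counts (hα : Fintype.card α = 22) (hB : Cfsg.IsSteinerSystem 3 6 B)
    {b : Finset α} (hb : b ∈ B) :
    ((blocks B).filter (fun c => (c ∩ b).card = 1)).card = 0 ∧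
    ((blocks B).filter (fun c => (c ∩ b).card = 0)).card = 16 := by
  have hK : ∀ c ∈ blocks B, (c ∩ b).card < 7 := by
    intro c hc
    have h1 : (c ∩ b).card ≤ c.card := Finset.card_le_card Finset.inter_subset_left
    rw [hB.1 c (mem_blocks.mp hc)] at h1
    omega
  have hb6 : b.card = 6 := hB.1 b hb
  have heq : ∀ j lam : ℕ, j ≤ 3 → 0 < (6 - j).choose (3 - j) →
      lam * (6 - j).choose (3 - j) = (22 - j).choose (3 - j) →
      ∑ i ∈ Finset.range 7, ((blocks B).filter (fun c => (c ∩ b).card = i)).card * i.choose j =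
        (6).choose j * lam := by
    intro j lam hj hpos hlam
    rw [← sum_choose_fiberwise B b j 7 hK,
      sum_choose_inter_eq hB b j lam hj hpos (by rw [hα]; exact hlam), hb6]
  have hbig : ∀ c ∈ blocks B, 3 ≤ (c ∩ b).card → c = b := by
    intro c hc h
    exact eq_of_three_le hB hb (mem_blocks.mp hc) h
  have hzero : ∀ i, 3 ≤ i → i ≠ 6 → ((blocks B).filter (fun c => (c ∩ b).card = i)).card = 0 := by
    intro i hi hi6
    rw [Finset.card_eq_zero, Finset.filter_eq_empty_iff]
    intro c hc hci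
    have := hbig c hc (by omega)
    subst this
    rw [Finset.inter_self, hb6] at hci
    omega
  have hone : ((blocks B).filter (fun c => (c ∩ b).card = 6)).card = 1 := by
    rw [Finset.card_eq_one]
    refine ⟨b, ?_⟩
    ext c
    simp only [Finset.mem_filter, Finset.mem_singleton]
    constructor
    · rintro ⟨hc, hci⟩
      exact hbig c hc (by omega)
    · rintro rfl
      exact ⟨mem_blocks.mpr hb, by rw [Finset.inter_self, hb6]⟩
  have e0 := heq 0 77 (by norm_num) (by decide) (by decide)
  have e1 := heq 1 21 (by norm_num) (by decide) (by decide)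
  have e2 := heq 2 5 (by norm_num) (by decide) (by decide)
  have z3 := hzero 3 (by norm_num) (by norm_num)
  have z4 := hzero 4 (by norm_num) (by norm_num)
  have z5 := hzero 5 (by norm_num) (by norm_num)
  simp only [Finset.sum_range_succ, Finset.sum_range_zero, z3, z4, z5, hone] at e0 e1 e2
  generalize ((blocks B).filter (fun c => (c ∩ b).card = 0)).card = x0 at *
  generalize ((blocks B).filter (fun c => (c ∩ b).card = 1)).card = x1 at *
  generalize ((blocks B).filter (fun c => (c ∩ b).card = 2)).card = x2 at *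
  norm_num [Nat.choose] at e0 e1 e2
  omega

theorem inter_zero_or_two (hα : Fintype.card α = 22) (hB : Cfsg.IsSteinerSystem 3 6 B)
    {b c : Finset α} (hb : b ∈ B) (hc : c ∈ B) (hne : c ≠ b) :
    (c ∩ b).card = 0 ∨ (c ∩ b).card = 2 := by
  have h1 := (inter_counts hα hB hb).1
  have h3 : (c ∩ b).card < 3 := by
    by_contra hcon
    exact hne (eq_of_three_le hB hb hc (by omega))
  have h4 : (c ∩ b).card ≠ 1 := by
    intro h
    rw [Finset.card_eq_zero, Finset.filter_eq_empty_iff] at h1
    exact h1 (mem_blocks.mpr hc) h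
  omega

theorem inter_eq_sum (d b : Finset α) : (d ∩ b).card = ∑ x ∈ b, if x ∈ d then 1 else 0 := by
  rw [← Finset.card_filter, Finset.filter_mem_eq_inter, Finset.inter_comm]

/-- Double counting of triples `(x, y, d)`. -/
theorem sum_mul_inter (hα : Fintype.card α = 22) (hB : Cfsg.IsSteinerSystem 3 6 B)
    {b c : Finset α} (hb : b ∈ B) (hc : c ∈ B) :
    ∑ d ∈ blocks B, (d ∩ b).card * (d ∩ c).card = 180 + 16 * (b ∩ c).card := by
  have hb6 : b.card = 6 := hB.1 b hb
  have hc6 : c.card = 6 := hB.1 c hc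
  have h1 : ∀ d, (d ∩ b).card * (d ∩ c).card =
      ∑ x ∈ b, ∑ y ∈ c, if x ∈ d ∧ y ∈ d then 1 else 0 := by
    intro d
    rw [inter_eq_sum d b, inter_eq_sum d c, Finset.sum_mul_sum]
    refine sum_congr rfl fun x _ => sum_congr rfl fun y _ => ?_
    by_cases hx : x ∈ d <;> by_cases hy : y ∈ d <;> simp [hx, hy]
  simp_rw [h1]
  rw [Finset.sum_comm]
  have h2 : ∀ x ∈ b, ∑ d ∈ blocks B, ∑ y ∈ c, (if x ∈ d ∧ y ∈ d then 1 else 0) =
      30 + 16 * (if x ∈ c then 1 else 0) := by
    intro x _
    rw [Finset.sum_comm]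
    have h3 : ∀ y ∈ c, ∑ d ∈ blocks B, (if x ∈ d ∧ y ∈ d then 1 else 0) =
        5 + if y = x then 16 else 0 := by
      intro y _
      rw [← Finset.card_filter]
      by_cases hxy : y = x
      · subst hxy
        simp only [and_self, if_true]
        exact pt_one hα hB y
      · rw [if_neg hxy, pt_two hα hB (Ne.symm hxy)]
    rw [sum_congr rfl h3, Finset.sum_add_distrib]
    simp only [sum_const, smul_eq_mul, hc6]
    rw [Finset.sum_ite_eq' c x]
    by_cases hx : x ∈ c <;> simp [hx]
  rw [sum_congr rfl h2, Finset.sum_add_distrib, ← Finset.mul_sum, ← inter_eq_sum c b,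
    Finset.inter_comm c b]
  simp only [sum_const, smul_eq_mul, hb6]

theorem sum_inter (hα : Fintype.card α = 22) (hB : Cfsg.IsSteinerSystem 3 6 B)
    {b : Finset α} (hb : b ∈ B) : ∑ d ∈ blocks B, (d ∩ b).card = 126 := by
  have h := sum_choose_inter_eq hB b 1 21 (by norm_num) (by decide)
    (by rw [hα]; decide)
  simp only [Nat.choose_one_right] at h
  rw [h, hB.1 b hb]

/-- The number of blocks disjoint from two distinct blocks. -/
theorem common_count (hα : Fintype.card α = 22) (hB : Cfsg.IsSteinerSystem 3 6 B)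
    {b c : Finset α} (hb : b ∈ B) (hc : c ∈ B) (hbc : b ≠ c) :
    (4 : ℤ) * ((blocks B).filter (fun d => (d ∩ b).card = 0 ∧ (d ∩ c).card = 0)).card +
      (2 - (b ∩ b).card) * (2 - (b ∩ c).card) + (2 - (c ∩ b).card) * (2 - (c ∩ c).card) =
      16 * (b ∩ c).card - 16 := by
  classical
  set h : Finset α → ℤ := fun d => (2 - ((d ∩ b).card : ℤ)) * (2 - ((d ∩ c).card : ℤ)) with hh
  have hbB : b ∈ blocks B := mem_blocks.mpr hb
  have hcB : c ∈ blocks B := mem_blocks.mpr hc
  have hb6 : b.card = 6 := hB.1 b hb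
  have hc6 : c.card = 6 := hB.1 c hc
  -- total
  have htot : ∑ d ∈ blocks B, h d = 16 * (b ∩ c).card - 16 := by
    have e1 : ∀ d, h d = 4 - 2 * ((d ∩ b).card : ℤ) - 2 * ((d ∩ c).card : ℤ) +
        (((d ∩ b).card * (d ∩ c).card : ℕ) : ℤ) := by
      intro d
      simp only [hh]
      push_cast
      ring
    simp_rw [e1]
    rw [Finset.sum_add_distrib, Finset.sum_sub_distrib, Finset.sum_sub_distrib,
      ← Finset.mul_sum, ← Finset.mul_sum, ← Nat.cast_sum, ← Nat.cast_sum, ← Nat.cast_sum,
      sum_inter hα hB hb, sum_inter hα hB hc, sum_mul_inter hα hB hb hc]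
    simp only [sum_const, card_blocks_eq hα hB, nsmul_eq_mul]
    push_cast
    ring
  -- split off `b`, `c`
  have hcE : c ∈ (blocks B).erase b := mem_erase.mpr ⟨hbc.symm, hcB⟩
  have hs : ∑ d ∈ blocks B, h d = h b + (h c + ∑ d ∈ ((blocks B).erase b).erase c, h d) := by
    rw [Finset.add_sum_erase _ h hcE, Finset.add_sum_erase _ h hbB]
  have hrest : ∑ d ∈ ((blocks B).erase b).erase c, h d =
      4 * ((blocks B).filter (fun d => (d ∩ b).card = 0 ∧ (d ∩ c).card = 0)).card := by
    have hfil : ((blocks B).filter (fun d => (d ∩ b).card = 0 ∧ (d ∩ c).card = 0)) =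
        (((blocks B).erase b).erase c).filter (fun d => (d ∩ b).card = 0 ∧ (d ∩ c).card = 0) := by
      ext d
      simp only [mem_filter, mem_erase]
      constructor
      · rintro ⟨hd, h1, h2⟩
        refine ⟨⟨?_, ?_, hd⟩, h1, h2⟩
        · rintro rfl
          rw [inter_self, hc6] at h2
          omega
        · rintro rfl
          rw [inter_self, hb6] at h1
          omega
      · rintro ⟨⟨-, -, hd⟩, h1, h2⟩
        exact ⟨hd, h1, h2⟩
    rw [hfil, Finset.card_filter]
    push_cast
    rw [Finset.mul_sum]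
    refine sum_congr rfl fun d hd => ?_
    simp only [mem_erase] at hd
    have hdB := mem_blocks.mp hd.2.2
    have h1 := inter_zero_or_two hα hB hb hdB hd.2.1
    have h2 := inter_zero_or_two hα hB hc hdB hd.1
    simp only [hh]
    rcases h1 with h1 | h1 <;> rcases h2 with h2 | h2 <;> simp [h1, h2]
  rw [hs, hrest] at htot
  simp only [hh] at htot
  linarith

theorem disjoint_iff_card {d b : Finset α} : Disjoint d b ↔ (d ∩ b).card = 0 := by
  rw [Finset.card_eq_zero, Finset.disjoint_iff_inter_eq_empty]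

theorem ncard_blocks (hα : Fintype.card α = 22) (hB : Cfsg.IsSteinerSystem 3 6 B) :
    B.ncard = 77 := by
  have : B = ↑(blocks B) := by
    ext c
    simp [mem_blocks]
  rw [this, Set.ncard_coe_finset]
  exact card_blocks_eq hα hB

theorem ncard_deg (hα : Fintype.card α = 22) (hB : Cfsg.IsSteinerSystem 3 6 B)
    {b : Finset α} (hb : b ∈ B) : {d | d ∈ B ∧ Disjoint d b}.ncard = 16 := by
  have : {d | d ∈ B ∧ Disjoint d b} = ↑((blocks B).filter (fun c => (c ∩ b).card = 0)) := by
    ext c
    simp [mem_blocks, disjoint_iff_card]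
  rw [this, Set.ncard_coe_finset]
  exact (inter_counts hα hB hb).2

theorem ncard_common (hα : Fintype.card α = 22) (hB : Cfsg.IsSteinerSystem 3 6 B)
    {b c : Finset α} (hb : b ∈ B) (hc : c ∈ B) (hbc : b ≠ c) :
    (Disjoint b c → {d | d ∈ B ∧ Disjoint d b ∧ Disjoint d c}.ncard = 0) ∧
    (¬ Disjoint b c → {d | d ∈ B ∧ Disjoint d b ∧ Disjoint d c}.ncard = 4) := by
  have hset : {d | d ∈ B ∧ Disjoint d b ∧ Disjoint d c} =
      ↑((blocks B).filter (fun d => (d ∩ b).card = 0 ∧ (d ∩ c).card = 0)) := by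
    ext d
    simp [mem_blocks, disjoint_iff_card]
  rw [hset, Set.ncard_coe_finset]
  have h := common_count hα hB hb hc hbc
  rw [Finset.inter_self, Finset.inter_self, hB.1 b hb, hB.1 c hc, Finset.inter_comm c b] at h
  have h2 := inter_zero_or_two hα hB hc hb hbc
  constructor
  · intro hd
    have h0 := disjoint_iff_card.mp hd
    rw [h0] at h
    have h' : (((blocks B).filter (fun d => (d ∩ b).card = 0 ∧ (d ∩ c).card = 0)).card : ℤ) = 0 := by
      push_cast at h
      linarith
    exact_mod_cast h'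
  · intro hd
    have h0 : (b ∩ c).card = 2 := by
      rcases h2 with h2 | h2
      · exact absurd (disjoint_iff_card.mpr h2) hd
      · exact h2
    rw [h0] at h
    have h' : (((blocks B).filter (fun d => (d ∩ b).card = 0 ∧ (d ∩ c).card = 0)).card : ℤ) = 4 := by
      push_cast at h
      linarith
    exact_mod_cast h'

/-- Blocks through a point outside a block and disjoint from it. -/
theorem ncard_point_block (hα : Fintype.card α = 22) (hB : Cfsg.IsSteinerSystem 3 6 B)
    {b : Finset α} (hb : b ∈ B) {p : α} (hp : p ∉ b) :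
    {d | d ∈ B ∧ p ∈ d ∧ Disjoint d b}.ncard = 6 := by
  classical
  have hb6 : b.card = 6 := hB.1 b hb
  set D := (blocks B).filter (fun c => p ∈ c) with hD
  have hset : {d | d ∈ B ∧ p ∈ d ∧ Disjoint d b} =
      ↑(D.filter (fun d => (d ∩ b).card = 0)) := by
    ext d
    simp [hD, mem_blocks, disjoint_iff_card, and_assoc]
  rw [hset, Set.ncard_coe_finset]
  have h1 : ∑ d ∈ D, (d ∩ b).card = 30 := by
    have h2 : ∀ d, (d ∩ b).card = ∑ x ∈ b, if x ∈ d then 1 else 0 := fun d => inter_eq_sum d b
    simp_rw [h2]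
    rw [Finset.sum_comm]
    have h3 : ∀ x ∈ b, ∑ d ∈ D, (if x ∈ d then 1 else 0) = 5 := by
      intro x hx
      rw [← Finset.card_filter, hD, Finset.filter_filter]
      exact pt_two hα hB (fun h => hp (h ▸ hx))
    rw [sum_congr rfl h3]
    simp [hb6]
  have h2 : D.card = 21 := pt_one hα hB p
  have h3 : ∀ d ∈ D, (d ∩ b).card = 2 * (if (d ∩ b).card = 0 then 0 else 1) := by
    intro d hd
    have hd' := mem_filter.mp hd
    have hne : d ≠ b := by
      rintro rfl
      exact hp hd'.2
    rcases inter_zero_or_two hα hB hb (mem_blocks.mp hd'.1) hne with h | h <;> simp [h]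
  rw [sum_congr rfl h3, ← Finset.mul_sum] at h1
  have h4 : D.card = (D.filter (fun d => (d ∩ b).card = 0)).card +
      ∑ d ∈ D, (if (d ∩ b).card = 0 then 0 else 1) := by
    rw [Finset.card_filter (fun d => (d ∩ b).card = 0) D, ← Finset.sum_add_distrib,
      Finset.card_eq_sum_ones]
    refine sum_congr rfl fun d _ => ?_
    by_cases h : (d ∩ b).card = 0 <;> simp [h]
  omega

theorem ncard_pt (hα : Fintype.card α = 22) (hB : Cfsg.IsSteinerSystem 3 6 B) (p : α) :
    {d | d ∈ B ∧ p ∈ d}.ncard = 21 := by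
  have hset : {d | d ∈ B ∧ p ∈ d} = ↑((blocks B).filter (fun c => p ∈ c)) := by
    ext d
    simp [mem_blocks]
  rw [hset, Set.ncard_coe_finset]
  exact pt_one hα hB p

theorem ncard_pt2 (hα : Fintype.card α = 22) (hB : Cfsg.IsSteinerSystem 3 6 B) {p q : α}
    (hpq : p ≠ q) : {d | d ∈ B ∧ p ∈ d ∧ q ∈ d}.ncard = 5 := by
  have hset : {d | d ∈ B ∧ p ∈ d ∧ q ∈ d} = ↑((blocks B).filter (fun c => p ∈ c ∧ q ∈ c)) := by
    ext d
    simp [mem_blocks]
  rw [hset, Set.ncard_coe_finset]
  exact pt_two hα hB hpq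

end core

theorem result_aux_adj {α : Type*} {B : Set (Finset α)} (hB : Cfsg.IsSteinerSystem 3 6 B)
    (v w : B) : (Cfsg.blockGraph B).Adj v w ↔ Disjoint (v : Finset α) w := by
  unfold Cfsg.blockGraph
  rw [SimpleGraph.fromRel_adj]
  constructor
  · rintro ⟨-, h | h⟩
    · exact h
    · exact h.symm
  · intro h
    refine ⟨?_, Or.inl h⟩
    rintro rfl
    have h1 := disjoint_self.mp h
    have h2 := hB.1 _ v.2
    rw [h1] at h2
    simp at h2

theorem ncard_val {α : Type*} {B : Set (Finset α)} (S : Set B) :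
    S.ncard = (Subtype.val '' S).ncard :=
  (Set.ncard_image_of_injective _ Subtype.val_injective).symm

/-- The block graph (adjacent = disjoint) of an S(3, 6, 22) is strongly regular with parameters (77, 16, 0, 4). -/
theorem result {α : Type*} [Fintype α] (hα : Fintype.card α = 22) {B : Set (Finset α)} (hB : Cfsg.IsSteinerSystem 3 6 B) [Fintype B] [DecidableRel (Cfsg.blockGraph B).Adj] : (Cfsg.blockGraph B).IsSRGWith 77 16 0 4 := by
  classical
  have hadj := result_aux_adj hB
  refine ⟨?_, ?_, ?_, ?_⟩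
  · rw [← Nat.card_eq_fintype_card, Nat.card_coe_set_eq]
    exact ncard_blocks hα hB
  · intro v
    rw [← SimpleGraph.card_neighborSet_eq_degree, ← Nat.card_eq_fintype_card,
      Nat.card_coe_set_eq, ncard_val]
    rw [← ncard_deg hα hB v.2]
    congr 1
    ext d
    constructor
    · rintro ⟨w, hw, rfl⟩
      exact ⟨w.2, ((hadj v w).mp hw).symm⟩
    · rintro ⟨hd, hdv⟩
      exact ⟨⟨d, hd⟩, (hadj v ⟨d, hd⟩).mpr hdv.symm, rfl⟩
  · intro v w hvw
    have hd := (hadj v w).mp hvw
    have hne : (v : Finset α) ≠ w := by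
      intro h
      exact (Cfsg.blockGraph B).ne_of_adj hvw (Subtype.ext h)
    rw [← Nat.card_eq_fintype_card, Nat.card_coe_set_eq, ncard_val]
    rw [← (ncard_common hα hB v.2 w.2 hne).1 hd]
    congr 1
    ext d
    constructor
    · rintro ⟨u, hu, rfl⟩
      rw [SimpleGraph.mem_commonNeighbors] at hu
      exact ⟨u.2, ((hadj v u).mp hu.1).symm, ((hadj w u).mp hu.2).symm⟩
    · rintro ⟨hd', h1, h2⟩
      refine ⟨⟨d, hd'⟩, ?_, rfl⟩
      rw [SimpleGraph.mem_commonNeighbors]
      exact ⟨(hadj v _).mpr h1.symm, (hadj w _).mpr h2.symm⟩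
  · intro v w hvw hnadj
    have hd : ¬ Disjoint (v : Finset α) w := fun h => hnadj ((hadj v w).mpr h)
    have hne : (v : Finset α) ≠ w := fun h => hvw (Subtype.ext h)
    rw [← Nat.card_eq_fintype_card, Nat.card_coe_set_eq, ncard_val]
    rw [← (ncard_common hα hB v.2 w.2 hne).2 hd]
    congr 1
    ext d
    constructor
    · rintro ⟨u, hu, rfl⟩
      rw [SimpleGraph.mem_commonNeighbors] at hu
      exact ⟨u.2, ((hadj v u).mp hu.1).symm, ((hadj w u).mp hu.2).symm⟩
    · rintro ⟨hd', h1, h2⟩
      refine ⟨⟨d, hd'⟩, ?_, rfl⟩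
      rw [SimpleGraph.mem_commonNeighbors]
      exact ⟨(hadj v _).mpr h1.symm, (hadj w _).mpr h2.symm⟩

end Cfsg.Agent.S0427
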