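import Cfsg.Statements.S0428
import Mathlib
import Cfsg.Agent.S0427

set_option autoImplicit false
open Cfsg

namespace Cfsg.Agent.S0428

open Cfsg.Agent.S0427

variable {α : Type*} {B : Set (Finset α)}

section adj

theorem adj_iff (x y : Option (α ⊕ B)) :
    (Cfsg.pointBlockGraph B).Adj x y ↔
      x ≠ y ∧ (Cfsg.pointBlockRel B x y ∨ Cfsg.pointBlockRel B y x) := by
  unfold Cfsg.pointBlockGraph
  rw [SimpleGraph.fromRel_adj]

theorem not_adj_none_none : ¬ (Cfsg.pointBlockGraph B).Adj none none := by
  simp [adj_iff]

theorem adj_none_inl (a : α) : (Cfsg.pointBlockGraph B).Adj none (some (Sum.inl a)) := by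
  simp [adj_iff, Cfsg.pointBlockRel]

theorem adj_inl_none (a : α) : (Cfsg.pointBlockGraph B).Adj (some (Sum.inl a)) none := by
  simp [adj_iff, Cfsg.pointBlockRel]

theorem not_adj_none_inr (b : B) : ¬ (Cfsg.pointBlockGraph B).Adj none (some (Sum.inr b)) := by
  simp [adj_iff, Cfsg.pointBlockRel]

theorem not_adj_inr_none (b : B) : ¬ (Cfsg.pointBlockGraph B).Adj (some (Sum.inr b)) none := by
  simp [adj_iff, Cfsg.pointBlockRel]

theorem not_adj_inl_inl (a a' : α) :
    ¬ (Cfsg.pointBlockGraph B).Adj (some (Sum.inl a)) (some (Sum.inl a')) := by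
  simp [adj_iff, Cfsg.pointBlockRel]

theorem adj_inl_inr (a : α) (b : B) :
    (Cfsg.pointBlockGraph B).Adj (some (Sum.inl a)) (some (Sum.inr b)) ↔ a ∈ (b : Finset α) := by
  simp [adj_iff, Cfsg.pointBlockRel]

theorem adj_inr_inl (a : α) (b : B) :
    (Cfsg.pointBlockGraph B).Adj (some (Sum.inr b)) (some (Sum.inl a)) ↔ a ∈ (b : Finset α) := by
  simp [adj_iff, Cfsg.pointBlockRel]

theorem adj_inr_inr (hB : Cfsg.IsSteinerSystem 3 6 B) (b c : B) :
    (Cfsg.pointBlockGraph B).Adj (some (Sum.inr b)) (some (Sum.inr c)) ↔
      Disjoint (b : Finset α) c := by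
  rw [adj_iff]
  simp only [Cfsg.pointBlockRel]
  constructor
  · rintro ⟨-, h | h⟩
    · exact h
    · exact h.symm
  · intro h
    refine ⟨?_, Or.inl h⟩
    intro he
    have he' : b = c := by
      simpa using he
    subst he'
    have h1 := disjoint_self.mp h
    have h2 := hB.1 _ b.2
    rw [h1] at h2
    simp at h2

end adj

theorem card_of [Finite α] (S : Set (Option (α ⊕ B))) (n : ℕ) (P : Set α) (Q : Set (Finset α))
    (h0 : (none ∈ S ∧ n = 1) ∨ (none ∉ S ∧ n = 0))
    (hP : ∀ a, some (Sum.inl a) ∈ S ↔ a ∈ P)
    (hQ : ∀ d : B, some (Sum.inr d) ∈ S ↔ (d : Finset α) ∈ Q) (hQB : Q ⊆ B) :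
    S.ncard = n + P.ncard + Q.ncard := by
  classical
  haveI : Finite (Option (α ⊕ B)) := by
    haveI : Finite (Finset α) := by
      haveI := Fintype.ofFinite α
      infer_instance
    infer_instance
  have hQB' : Q = Subtype.val '' {d : B | (d : Finset α) ∈ Q} := by
    ext d
    constructor
    · intro hd
      exact ⟨⟨d, hQB hd⟩, hd, rfl⟩
    · rintro ⟨w, hw, rfl⟩
      exact hw
  set f : α → Option (α ⊕ B) := fun a => some (Sum.inl a) with hf
  set g : B → Option (α ⊕ B) := fun d => some (Sum.inr d) with hg
  have hfi : Function.Injective f := by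
    intro a a' h
    simpa [hf] using h
  have hgi : Function.Injective g := by
    intro a a' h
    simpa [hg] using h
  have hS : S = (f '' P ∪ g '' {d : B | (d : Finset α) ∈ Q}) ∪ (if none ∈ S then {none} else ∅) := by
    ext x
    rcases x with _ | a | d
    · by_cases hn : none ∈ S <;> simp [hn, hf, hg]
    · simp only [Set.mem_union, Set.mem_image, hf, hg, Set.mem_setOf_eq]
      constructor
      · intro h
        exact Or.inl (Or.inl ⟨a, (hP a).mp h, rfl⟩)
      · rintro ((⟨a', ha', he⟩ | ⟨d, -, he⟩) | h)
        · have : a' = a := by simpa using he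
          subst this
          exact (hP a').mpr ha'
        · simp at he
        · by_cases hn : none ∈ S <;> simp [hn] at h
    · simp only [Set.mem_union, Set.mem_image, hf, hg, Set.mem_setOf_eq]
      constructor
      · intro h
        exact Or.inl (Or.inr ⟨d, (hQ d).mp h, rfl⟩)
      · rintro ((⟨a', -, he⟩ | ⟨d', hd', he⟩) | h)
        · simp at he
        · have : d' = d := by simpa using he
          subst this
          exact (hQ d').mpr hd'
        · by_cases hn : none ∈ S <;> simp [hn] at h
  have hd1 : Disjoint (f '' P) (g '' {d : B | (d : Finset α) ∈ Q}) := by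
    rw [Set.disjoint_left]
    rintro _ ⟨a, -, rfl⟩ ⟨d, -, he⟩
    simp [hf, hg] at he
  have hcard : (f '' P ∪ g '' {d : B | (d : Finset α) ∈ Q}).ncard = P.ncard + Q.ncard := by
    rw [Set.ncard_union_eq hd1 (Set.toFinite _) (Set.toFinite _),
      Set.ncard_image_of_injective _ hfi, Set.ncard_image_of_injective _ hgi]
    conv_rhs => rw [hQB', Set.ncard_image_of_injective _ Subtype.val_injective]
  rcases h0 with ⟨hn, rfl⟩ | ⟨hn, rfl⟩
  · rw [if_pos hn] at hS
    have hd2 : Disjoint (f '' P ∪ g '' {d : B | (d : Finset α) ∈ Q}) ({none} : Set (Option (α ⊕ B))) := by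
      rw [Set.disjoint_singleton_right]
      rintro (⟨a, -, he⟩ | ⟨d, -, he⟩)
      · simp [hf] at he
      · simp [hg] at he
    rw [hS, Set.ncard_union_eq hd2 (Set.toFinite _) (Set.toFinite _), hcard, Set.ncard_singleton]
    omega
  · rw [if_neg hn, Set.union_empty] at hS
    rw [hS, hcard]
    omega

/-- The point-block graph of an S(3, 6, 22) is strongly regular with parameters (100, 22, 0, 6). -/
theorem result {α : Type*} [Fintype α] (hα : Fintype.card α = 22) {B : Set (Finset α)} (hB : Cfsg.IsSteinerSystem 3 6 B) [Fintype B] [DecidableRel (Cfsg.pointBlockGraph B).Adj] : (Cfsg.pointBlockGraph B).IsSRGWith 100 22 0 6 := by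
  classical
  have hset : ∀ s : Set (Finset α), (s ⊆ B) → True := fun _ _ => trivial
  have hsubT : ∀ P : Finset α → Prop, {d | d ∈ B ∧ P d} ⊆ B := fun P d hd => hd.1
  have hna : ∀ b : B, ((b : Finset α) : Set α).ncard = 6 := by
    intro b
    rw [Set.ncard_coe_finset]
    exact hB.1 _ b.2
  refine ⟨?_, ?_, ?_, ?_⟩
  · rw [Fintype.card_option, Fintype.card_sum, hα, ← Nat.card_eq_fintype_card (α := B),
      Nat.card_coe_set_eq, ncard_blocks hα hB]
  · intro v
    rw [← SimpleGraph.card_neighborSet_eq_degree, ← Nat.card_eq_fintype_card, Nat.card_coe_set_eq]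
    rcases v with _ | a | b
    · rw [card_of _ 0 Set.univ ∅]
      · rw [Set.ncard_univ, Nat.card_eq_fintype_card, hα]
        simp
      · right
        exact ⟨not_adj_none_none, rfl⟩
      · intro a
        simp [adj_none_inl]
      · intro d
        simp [not_adj_none_inr]
      · simp
    · rw [card_of _ 1 ∅ {d | d ∈ B ∧ a ∈ d}]
      · rw [ncard_pt hα hB a]
        simp
      · left
        exact ⟨adj_inl_none a, rfl⟩
      · intro a'
        simp [not_adj_inl_inl]
      · intro d
        simp [adj_inl_inr]
      · exact hsubT _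
    · rw [card_of _ 0 ((b : Finset α) : Set α) {d | d ∈ B ∧ Disjoint d (b : Finset α)}]
      · rw [hna b, ncard_deg hα hB b.2]
      · right
        exact ⟨not_adj_inr_none b, rfl⟩
      · intro a'
        simp [adj_inr_inl]
      · intro d
        simp only [SimpleGraph.mem_neighborSet, adj_inr_inr hB, Set.mem_setOf_eq]
        exact ⟨fun h => ⟨d.2, h.symm⟩, fun h => h.2.symm⟩
      · exact hsubT _
  · intro v w hvw
    rw [← Nat.card_eq_fintype_card, Nat.card_coe_set_eq]
    -- the cases of adjacent pairs
    have key : ∀ (a : α), (Cfsg.pointBlockGraph B).commonNeighbors none (some (Sum.inl a)) = ∅ := by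
      intro a
      ext x
      simp only [SimpleGraph.mem_commonNeighbors, Set.mem_empty_iff_false, iff_false, not_and]
      rcases x with _ | a' | d
      · exact fun h => absurd h not_adj_none_none
      · exact fun _ => not_adj_inl_inl a a'
      · exact fun h => absurd h (not_adj_none_inr d)
    have key2 : ∀ (a : α) (b : B), a ∈ (b : Finset α) →
        (Cfsg.pointBlockGraph B).commonNeighbors (some (Sum.inl a)) (some (Sum.inr b)) = ∅ := by
      intro a b hab
      ext x
      simp only [SimpleGraph.mem_commonNeighbors, Set.mem_empty_iff_false, iff_false, not_and]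
      rcases x with _ | a' | d
      · exact fun _ => not_adj_inr_none b
      · exact fun h => absurd h (not_adj_inl_inl a a')
      · intro h1 h2
        rw [adj_inl_inr] at h1
        rw [adj_inr_inr hB] at h2
        exact (Finset.disjoint_left.mp h2) hab h1
    rcases v with _ | a | b <;> rcases w with _ | a' | c
    · exact absurd hvw not_adj_none_none
    · rw [key]; simp
    · exact absurd hvw (not_adj_none_inr c)
    · rw [SimpleGraph.commonNeighbors_symm, key]; simp
    · exact absurd hvw (not_adj_inl_inl a a')
    · rw [key2 a c ((adj_inl_inr a c).mp hvw)]; simp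
    · exact absurd hvw (not_adj_inr_none b)
    · rw [SimpleGraph.commonNeighbors_symm, key2 a' b ((adj_inr_inl a' b).mp hvw)]; simp
    · have hd := (adj_inr_inr hB b c).mp hvw
      have hne : (b : Finset α) ≠ c := by
        intro h
        have h1 := disjoint_self.mp (h ▸ hd)
        have h2 := hB.1 _ c.2
        rw [h1] at h2
        simp at h2
      rw [card_of _ 0 ∅ {d | d ∈ B ∧ Disjoint d (b : Finset α) ∧ Disjoint d (c : Finset α)}]
      · rw [(ncard_common hα hB b.2 c.2 hne).1 hd]
        simp
      · right
        refine ⟨?_, rfl⟩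
        rw [SimpleGraph.mem_commonNeighbors]
        exact fun h => not_adj_inr_none b h.1
      · intro a
        simp only [SimpleGraph.mem_commonNeighbors, adj_inr_inl, Set.mem_empty_iff_false, iff_false,
          not_and]
        exact fun h1 h2 => (Finset.disjoint_left.mp hd) h1 h2
      · intro d
        simp only [SimpleGraph.mem_commonNeighbors, adj_inr_inr hB, Set.mem_setOf_eq]
        exact ⟨fun h => ⟨d.2, h.1.symm, h.2.symm⟩, fun h => ⟨h.2.1.symm, h.2.2.symm⟩⟩
      · exact fun d hd => hd.1
  · intro v w hvw hnadj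
    rw [← Nat.card_eq_fintype_card, Nat.card_coe_set_eq]
    have key : ∀ (b : B), ((Cfsg.pointBlockGraph B).commonNeighbors none (some (Sum.inr b))).ncard = 6 := by
      intro b
      rw [card_of _ 0 ((b : Finset α) : Set α) ∅]
      · rw [hna b]
        simp
      · right
        refine ⟨?_, rfl⟩
        rw [SimpleGraph.mem_commonNeighbors]
        exact fun h => not_adj_none_none h.1
      · intro a
        simp [SimpleGraph.mem_commonNeighbors, adj_none_inl, adj_inr_inl]
      · intro d
        simp only [SimpleGraph.mem_commonNeighbors, Set.mem_empty_iff_false, iff_false, not_and]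
        exact fun h => absurd h (not_adj_none_inr d)
      · simp
    have key2 : ∀ (a : α) (b : B), a ∉ (b : Finset α) →
        ((Cfsg.pointBlockGraph B).commonNeighbors (some (Sum.inl a)) (some (Sum.inr b))).ncard = 6 := by
      intro a b hab
      rw [card_of _ 0 ∅ {d | d ∈ B ∧ a ∈ d ∧ Disjoint d (b : Finset α)}]
      · rw [ncard_point_block hα hB b.2 hab]
        simp
      · right
        refine ⟨?_, rfl⟩
        rw [SimpleGraph.mem_commonNeighbors]
        exact fun h => not_adj_inr_none b h.2
      · intro a'
        simp only [SimpleGraph.mem_commonNeighbors, Set.mem_empty_iff_false, iff_false, not_and]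
        exact fun h => absurd h (not_adj_inl_inl a a')
      · intro d
        simp only [SimpleGraph.mem_commonNeighbors, adj_inl_inr, adj_inr_inr hB, Set.mem_setOf_eq]
        exact ⟨fun h => ⟨d.2, h.1, h.2.symm⟩, fun h => ⟨h.2.1, h.2.2.symm⟩⟩
      · exact fun d hd => hd.1
    rcases v with _ | a | b <;> rcases w with _ | a' | c
    · exact absurd rfl hvw
    · exact absurd (adj_none_inl a') hnadj
    · exact key c
    · exact absurd (adj_inl_none a) hnadj
    · have hne : a ≠ a' := fun h => hvw (by rw [h])
      rw [card_of _ 1 ∅ {d | d ∈ B ∧ a ∈ d ∧ a' ∈ d}]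
      · rw [ncard_pt2 hα hB hne]
        simp
      · left
        refine ⟨?_, rfl⟩
        rw [SimpleGraph.mem_commonNeighbors]
        exact ⟨adj_inl_none a, adj_inl_none a'⟩
      · intro x
        simp only [SimpleGraph.mem_commonNeighbors, Set.mem_empty_iff_false, iff_false, not_and]
        exact fun h => absurd h (not_adj_inl_inl a x)
      · intro d
        simp only [SimpleGraph.mem_commonNeighbors, adj_inl_inr, Set.mem_setOf_eq]
        exact ⟨fun h => ⟨d.2, h.1, h.2⟩, fun h => ⟨h.2.1, h.2.2⟩⟩
      · exact fun d hd => hd.1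
    · exact key2 a c (fun h => hnadj ((adj_inl_inr a c).mpr h))
    · rw [SimpleGraph.commonNeighbors_symm]
      exact key b
    · rw [SimpleGraph.commonNeighbors_symm]
      exact key2 a' b (fun h => hnadj ((adj_inr_inl a' b).mpr h))
    · have hd : ¬ Disjoint (b : Finset α) c := fun h => hnadj ((adj_inr_inr hB b c).mpr h)
      have hne : (b : Finset α) ≠ c := fun h => hvw (by
        have : b = c := Subtype.ext h
        rw [this])
      rw [card_of _ 0 (((b : Finset α) ∩ (c : Finset α) : Finset α) : Set α)
        {d | d ∈ B ∧ Disjoint d (b : Finset α) ∧ Disjoint d (c : Finset α)}]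
      · rw [(ncard_common hα hB b.2 c.2 hne).2 hd, Set.ncard_coe_finset]
        have h2 := inter_zero_or_two hα hB c.2 b.2 hne
        rcases h2 with h2 | h2
        · exact absurd (disjoint_iff_card.mpr h2) hd
        · rw [h2]
      · right
        refine ⟨?_, rfl⟩
        rw [SimpleGraph.mem_commonNeighbors]
        exact fun h => not_adj_inr_none b h.1
      · intro a
        simp only [SimpleGraph.mem_commonNeighbors, adj_inr_inl, Finset.coe_inter, Set.mem_inter_iff,
          Finset.mem_coe]
      · intro d
        simp only [SimpleGraph.mem_commonNeighbors, adj_inr_inr hB, Set.mem_setOf_eq]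
        exact ⟨fun h => ⟨d.2, h.1.symm, h.2.symm⟩, fun h => ⟨h.2.1.symm, h.2.2.symm⟩⟩
      · exact fun d hd => hd.1

end Cfsg.Agent.S0428
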