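import Cfsg.Statements.S0432
import Mathlib
-- import your own Cfsg.Agent.* helpers here

set_option autoImplicit false
open Cfsg
open scoped Pointwise

namespace Cfsg.Agent.S0432

/-- Coordinate permutations from the code's group preserve the lattice. -/
theorem result (σ : Equiv.Perm Cfsg.GolayPt) (hσ : σ ∈ Cfsg.M24) (x : Cfsg.GolayPt → ℤ) (hx : x ∈ Cfsg.leechLattice) : (fun i => x (σ i)) ∈ Cfsg.leechLattice := by
  classical
  -- the stabilizer condition, element by element
  have hst : ∀ (τ : Equiv.Perm GolayPt), τ ∈ M24 → ∀ s ∈ supports (golayCode : Set (GolayPt → ZMod 2)),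
      s.map τ.toEmbedding ∈ supports (golayCode : Set (GolayPt → ZMod 2)) := by
    intro τ hτ s hs
    have h1 : τ • (supports (golayCode : Set (GolayPt → ZMod 2))) =
        supports (golayCode : Set (GolayPt → ZMod 2)) := hτ
    have h2 : τ • s ∈ τ • (supports (golayCode : Set (GolayPt → ZMod 2))) := Set.smul_mem_smul_set hs
    rw [h1] at h2
    have h3 : τ • s = s.map τ.toEmbedding := by
      ext a
      simp only [Finset.mem_smul_finset, Finset.mem_map, Equiv.Perm.smul_def, Equiv.coe_toEmbedding]
    rwa [h3] at h2
  have hset : ∀ y ∈ leechSet, (fun i => y (σ i)) ∈ leechSet := by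
    rintro y ⟨m, h1, h2, h3⟩
    refine ⟨m, fun i => h1 (σ i), ?_, fun k => ?_⟩
    · have : ∑ i, y (σ i) = ∑ i, y i := Equiv.sum_comp σ y
      rw [this]; exact h2
    · have hf : (Finset.univ.filter fun i => y (σ i) ≡ k [ZMOD 4]) =
          (Finset.univ.filter fun i => y i ≡ k [ZMOD 4]).map (σ⁻¹).toEmbedding := by
        ext a
        simp only [Finset.mem_filter, Finset.mem_univ, true_and, Equiv.Perm.inv_def,
          Finset.mem_map, Equiv.toEmbedding_apply]
        constructor
        · intro h
          exact ⟨σ a, h, by simp⟩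
        · rintro ⟨b, hb, rfl⟩
          simpa using hb
      rw [hf]
      exact hst σ⁻¹ (M24.inv_mem hσ) _ (h3 k)
  induction hx using AddSubgroup.closure_induction with
  | mem y hy => exact AddSubgroup.subset_closure (hset y hy)
  | zero => exact AddSubgroup.zero_mem _
  | add a b _ _ ha hb => exact AddSubgroup.add_mem _ ha hb
  | neg a _ ha => exact AddSubgroup.neg_mem _ ha

end Cfsg.Agent.S0432
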