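import Cfsg.Statements.S0435
import Mathlib
import Cfsg.Agent.Lib.M11Order.Final

set_option autoImplicit false
open Cfsg

namespace Cfsg.Agent.S0435

/-- Involution centralisers in a simple group of order 7920 have order 48. -/
theorem result {G : Type*} [Group G] [Finite G] (hG : Cfsg.IsM11 G) (x : G) (hx : orderOf x = 2) : Nat.card (Subgroup.centralizer ({x} : Set G)) = 48 := by
  cases nonempty_fintype G
  obtain ⟨hs, hc⟩ := hG
  haveI := hs
  obtain ⟨a1, a2, a3, b, e1, e2, c, g, d, T⟩ := Cfsg.Agent.Lib.M11Order.exists_T10 hc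
  have hx2 : x ^ 2 = 1 := by rw [← hx]; exact pow_orderOf_eq_one x
  have hx1 : x ≠ 1 := by
    rintro rfl
    rw [orderOf_one] at hx
    omega
  exact (Cfsg.Agent.Lib.M11Order.inv_main hc T hx2 hx1).1

end Cfsg.Agent.S0435
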