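import Cfsg.Statements.S0439
import Mathlib
-- import your own Cfsg.Agent.* helpers here

set_option autoImplicit false
open Cfsg

namespace Cfsg.Agent.S0439

/-- In the symmetric group of degree n ≥ 2, the set of transpositions is a conjugacy class of 3-transpositions which generates the group. -/
theorem result (n : ℕ) (hn : 2 ≤ n) : Cfsg.IsThreeTranspositionClass {σ : Equiv.Perm (Fin n) | σ.IsSwap} := by
  classical
  have hne : (⟨0, by omega⟩ : Fin n) ≠ ⟨1, by omega⟩ := by simp [Fin.ext_iff]
  have h3 : ∀ x y z : Fin n, x ≠ y → x ≠ z → y ≠ z →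
      (Equiv.swap x y * Equiv.swap x z) ^ 3 = 1 := by
    intro x y z hxy hxz hyz
    have := (Equiv.Perm.isThreeCycle_swap_mul_swap_same hxy hxz hyz).orderOf
    rw [← this]
    exact pow_orderOf_eq_one _
  have h1 : ∀ x y : Fin n, Equiv.swap x y * Equiv.swap x y = 1 := fun x y => Equiv.swap_mul_self x y
  refine ⟨⟨?_, ?_⟩, ⟨Equiv.swap ⟨0, by omega⟩ ⟨1, by omega⟩, ⟨_, _, hne, rfl⟩, ?_⟩, ?_⟩
  · rintro d ⟨a, b, hab, rfl⟩
    rw [orderOf_eq_prime_iff (p := 2)]
    refine ⟨by rw [pow_two]; exact h1 a b, fun h => hab ?_⟩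
    have := congrArg (fun f : Equiv.Perm (Fin n) => f a) h
    simpa using this.symm
  · rintro _ ⟨a, b, hab, rfl⟩ _ ⟨c, d, hcd, rfl⟩
    by_cases hac : a = c
    · subst hac
      by_cases hbd : b = d
      · subst hbd
        left
        rw [h1, one_pow]
      · right
        exact h3 a b d hab hcd hbd
    by_cases had : a = d
    · subst had
      rw [Equiv.swap_comm c a]
      by_cases hbc : b = c
      · subst hbc
        left
        rw [h1, one_pow]
      · right
        exact h3 a b c hab (Ne.symm hcd) hbc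
    by_cases hbc : b = c
    · subst hbc
      rw [Equiv.swap_comm a b]
      right
      exact h3 b a d (Ne.symm hab) hcd had
    by_cases hbd : b = d
    · subst hbd
      rw [Equiv.swap_comm a b, Equiv.swap_comm c b]
      right
      exact h3 b a c (Ne.symm hab) (Ne.symm hcd) hac
    · left
      have hnodup : [a, b, c, d].Nodup := by
        simp [hab, hac, had, hbc, hbd, hcd]
      have hcomm : Commute (Equiv.swap a b) (Equiv.swap c d) :=
        (Equiv.Perm.disjoint_swap_swap hnodup).commute
      rw [hcomm.mul_pow, pow_two, pow_two, h1, h1, one_mul]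
  · ext σ
    show σ.IsSwap ↔ IsConj _ σ
    constructor
    · rintro ⟨x, y, hxy, rfl⟩
      exact Equiv.Perm.isConj_swap hne hxy
    · intro h
      obtain ⟨c, rfl⟩ := isConj_iff.mp h
      refine ⟨c ⟨0, by omega⟩, c ⟨1, by omega⟩, fun h' => hne (c.injective h'), ?_⟩
      rw [Equiv.swap_apply_apply]
  · exact Equiv.Perm.closure_isSwap

end Cfsg.Agent.S0439
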