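import Cfsg.Statements.S0442
import Mathlib
-- import your own Cfsg.Agent.* helpers here

set_option autoImplicit false
open Cfsg

namespace Cfsg.Agent.S0442

/-- A standard trick for producing elements of an involution centraliser: for an involution a and an element g, let b be the conjugate g⁻¹ * a * g. If a * b has odd order 2m + 1 then g * (a * b) ^ m commutes with a; if a * b has even order 2m then (a * b) ^ m and (a * (g * a * g⁻¹)) ^ m commute with a. -/
theorem result {G : Type*} [Group G] (a g : G) (ha : orderOf a = 2) : (∀ m : ℕ, orderOf (a * (g⁻¹ * a * g)) = 2 * m + 1 → Commute (g * (a * (g⁻¹ * a * g)) ^ m) a) ∧ (∀ m : ℕ, orderOf (a * (g⁻¹ * a * g)) = 2 * m → Commute ((a * (g⁻¹ * a * g)) ^ m) a ∧ Commute ((a * (g * a * g⁻¹)) ^ m) a) := by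
  have ha2 : a * a = 1 := by
    have h2 : a ^ 2 = 1 := by rw [← ha]; exact pow_orderOf_eq_one a
    rwa [pow_two] at h2
  have hai : a⁻¹ = a := inv_eq_of_mul_eq_one_left ha2
  -- conjugating a power of `a * c` by an involution `a` inverts it
  have hinv : ∀ (c : G) (m : ℕ), c * c = 1 → a * (a * c) ^ m * a = ((a * c) ^ m)⁻¹ := by
    intro c m hc
    have hci : c⁻¹ = c := inv_eq_of_mul_eq_one_left hc
    have hbase : a * (a * c) * a = (a * c)⁻¹ := by
      rw [mul_inv_rev, hci, hai, ← mul_assoc, ha2, one_mul]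
    have hconj : a * (a * c) ^ m * a = (a * (a * c) * a) ^ m := by
      have : a * (a * c) ^ m * a = a * (a * c) ^ m * a⁻¹ := by rw [hai]
      rw [this]
      have h2 : a * (a * c) * a = a * (a * c) * a⁻¹ := by rw [hai]
      rw [h2, conj_pow]
    rw [hconj, hbase, inv_pow]
  set b := g⁻¹ * a * g with hb
  have hb2 : b * b = 1 := by
    rw [hb]
    calc g⁻¹ * a * g * (g⁻¹ * a * g) = g⁻¹ * (a * a) * g := by group
      _ = 1 := by rw [ha2]; group
  have hbi : b⁻¹ = b := inv_eq_of_mul_eq_one_left hb2
  refine ⟨?_, ?_⟩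
  · intro m hm
    have hu : (a * b) ^ (2 * m + 1) = 1 := by rw [← hm]; exact pow_orderOf_eq_one _
    set u := a * b with hu_def
    show g * u ^ m * a = a * (g * u ^ m)
    have hagb : a * g = g * b := by rw [hb]; group
    have h1 : u ^ m * a = b * u ^ m := by
      have h3 := hinv b m hb2
      rw [← hu_def] at h3
      have h4 : a * u ^ m = (u ^ m)⁻¹ * a := by
        calc a * u ^ m = a * u ^ m * a * a := by rw [mul_assoc _ a a, ha2, mul_one]
          _ = (u ^ m)⁻¹ * a := by rw [h3]
      -- `u ^ (2 m) = u⁻¹`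
      have h5 : u ^ m * u ^ m = u⁻¹ := by
        rw [← pow_add, ← two_mul]
        have : u ^ (2 * m) * u = 1 := by rw [← pow_succ]; exact hu
        exact eq_inv_of_mul_eq_one_left this
      have h6 : u⁻¹ = b * a := by
        rw [hu_def, mul_inv_rev, hbi, hai]
      have h7 : u ^ m = b * a * (u ^ m)⁻¹ := by
        rw [← h6, ← h5]; group
      calc u ^ m * a = b * a * (u ^ m)⁻¹ * a := by rw [← h7]
        _ = b * (a * (u ^ m)⁻¹ * a) := by group
        _ = b * ((a * u ^ m * a)⁻¹) := by rw [mul_inv_rev, mul_inv_rev, hai]; group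
        _ = b * u ^ m := by rw [h3, inv_inv]
    calc g * u ^ m * a = g * (u ^ m * a) := by group
      _ = g * (b * u ^ m) := by rw [h1]
      _ = g * b * u ^ m := by group
      _ = a * g * u ^ m := by rw [hagb]
      _ = a * (g * u ^ m) := by group
  · intro m hm
    have hgen : ∀ c : G, c * c = 1 → (a * c) ^ (2 * m) = 1 → Commute ((a * c) ^ m) a := by
      intro c hc hp
      have h3 := hinv c m hc
      have h8 : ((a * c) ^ m)⁻¹ = (a * c) ^ m := by
        apply inv_eq_of_mul_eq_one_left
        rw [← pow_add, ← two_mul]; exact hp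
      rw [h8] at h3
      show (a * c) ^ m * a = a * (a * c) ^ m
      calc (a * c) ^ m * a = a * (a * c) ^ m * a * a := by rw [h3]
        _ = a * (a * c) ^ m := by rw [mul_assoc _ a a, ha2, mul_one]
    have hu : (a * b) ^ (2 * m) = 1 := by rw [← hm]; exact pow_orderOf_eq_one _
    refine ⟨hgen b hb2 hu, ?_⟩
    set c := g * a * g⁻¹ with hc
    have hc2 : c * c = 1 := by
      rw [hc]
      calc g * a * g⁻¹ * (g * a * g⁻¹) = g * (a * a) * g⁻¹ := by group
        _ = 1 := by rw [ha2]; group
    have hci : c⁻¹ = c := inv_eq_of_mul_eq_one_left hc2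
    apply hgen c hc2
    -- `a * c` is conjugate to the inverse of `a * b`
    have hconj : a * c = g * (a * b)⁻¹ * g⁻¹ := by
      rw [mul_inv_rev, hbi, hai, hb, hc]; group
    rw [hconj, conj_pow, inv_pow, hu]
    simp

end Cfsg.Agent.S0442
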