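import Cfsg.Statements.S0443
import Mathlib
-- import your own Cfsg.Agent.* helpers here

set_option autoImplicit false
open Cfsg

namespace Cfsg.Agent.S0443

/-- Two definitions of a 2-central involution agree: an element t of order 2 of a finite group lies in the centre of some Sylow 2-subgroup if and only if its centraliser contains some Sylow 2-subgroup. -/
theorem result {G : Type*} [Group G] [Finite G] (t : G) (ht : orderOf t = 2) : Cfsg.IsTwoCentralInvolution t ↔ ∃ P : Sylow 2 G, (P : Subgroup G) ≤ Subgroup.centralizer ({t} : Set G) := by
  constructor
  · rintro ⟨-, P, htP, hc⟩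
    refine ⟨P, fun x hx => ?_⟩
    rw [Subgroup.mem_centralizer_singleton_iff]
    exact hc x hx
  · rintro ⟨P, hP⟩
    refine ⟨ht, P, ?_, fun x hx => ?_⟩
    · -- t normalizes P and is a 2-element
      have hz : IsPGroup 2 (Subgroup.zpowers t) := by
        apply IsPGroup.of_card (n := 1)
        rw [Nat.card_zpowers, ht, pow_one]
      have hn : t ∈ (Subgroup.normalizer ((P : Subgroup G) : Set G)) := by
        rw [Subgroup.mem_normalizer_iff]
        intro h
        have hc : ∀ x ∈ (P : Subgroup G), t * x * t⁻¹ = x := by
          intro x hx
          have := Subgroup.mem_centralizer_singleton_iff.mp (hP hx)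
          rw [← this]; group
        constructor
        · intro hh; rw [hc h hh]; exact hh
        · intro hh
          have h2 := hc _ hh
          have : t * (t * h * t⁻¹) * t⁻¹ = h := by
            have ht2 : t ^ 2 = 1 := by rw [← ht]; exact pow_orderOf_eq_one t
            have ht3 : t * t = 1 := by rw [← pow_two]; exact ht2
            have ht4 : t⁻¹ = t := inv_eq_of_mul_eq_one_left ht3
            rw [ht4]
            calc t * (t * h * t) * t = (t * t) * h * (t * t) := by group
              _ = h := by rw [ht3]; simp
          rw [← this, h2]
          exact hh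
      have := IsPGroup.inf_normalizer_sylow hz P
      have h3 : t ∈ Subgroup.zpowers t ⊓ (Subgroup.normalizer ((P : Subgroup G) : Set G)) :=
        ⟨Subgroup.mem_zpowers t, hn⟩
      have h4 : t ∈ Subgroup.zpowers t ⊓ (P : Subgroup G) := this ▸ h3
      exact h4.2
    · exact (Subgroup.mem_centralizer_singleton_iff.mp (hP hx))

end Cfsg.Agent.S0443
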