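import Cfsg.Statements.S0444
import Mathlib
-- import your own Cfsg.Agent.* helpers here

set_option autoImplicit false
open Cfsg

namespace Cfsg.Agent.S0444

/-- A group element pair `(d, x)` with the relations of the dihedral group of order 6. -/
theorem dihedral_hom {G : Type*} [Group G] {d x : G} (hd : d * d = 1) (hx3 : x * (x * x) = 1)
    (hxd : d * x = x * (x * d)) (hxne : x ≠ 1) :
    ∃ f : DihedralGroup 3 →* G, Function.Injective f ∧ f (DihedralGroup.sr 0) = d ∧
      f (DihedralGroup.r 1) = x ∧ f.range = Subgroup.closure ({d, x} : Set G) := by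
  classical
  have hd' : ∀ w : G, d * (d * w) = w := by intro w; rw [← mul_assoc, hd, one_mul]
  have hxd' : ∀ w : G, d * (x * w) = x * (x * (d * w)) := by
    intro w; rw [← mul_assoc, hxd]; simp only [mul_assoc]
  have hx3' : ∀ w : G, x * (x * (x * w)) = w := by
    intro w
    calc x * (x * (x * w)) = (x * (x * x)) * w := by simp only [mul_assoc]
      _ = w := by rw [hx3, one_mul]
  let pw : ZMod 3 → G := fun i => x ^ i.val
  have pw0 : pw 0 = 1 := by simp [pw]
  have pw1 : pw 1 = x := by
    show x ^ (1 : ZMod 3).val = x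
    have : (1 : ZMod 3).val = 1 := by decide
    rw [this, pow_one]
  have pw2 : pw 2 = x * x := by
    show x ^ (2 : ZMod 3).val = x * x
    have : (2 : ZMod 3).val = 2 := by decide
    rw [this, pow_two]
  let F : DihedralGroup 3 → G := fun g =>
    match g with
    | DihedralGroup.r i => pw i
    | DihedralGroup.sr i => d * pw i
  have hall : ∀ i : ZMod 3, i = 0 ∨ i = 1 ∨ i = 2 := by decide
  have hxd2 : ∀ w : G, d * (x * (x * w)) = x * (d * w) := by
    intro w; rw [hxd', hxd', hx3' ]
  -- `d pw i = pw (-i) d`, and additivity of `pw`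
  have padd : ∀ i j : ZMod 3, pw (i + j) = pw i * pw j := by
    intro i j
    rcases hall i with rfl | rfl | rfl <;> rcases hall j with rfl | rfl | rfl <;>
      simp only [show (0 + 0 : ZMod 3) = 0 by decide, show (0 + 1 : ZMod 3) = 1 by decide,
        show (0 + 2 : ZMod 3) = 2 by decide, show (1 + 0 : ZMod 3) = 1 by decide,
        show (1 + 1 : ZMod 3) = 2 by decide, show (1 + 2 : ZMod 3) = 0 by decide,
        show (2 + 0 : ZMod 3) = 2 by decide, show (2 + 1 : ZMod 3) = 0 by decide,
        show (2 + 2 : ZMod 3) = 1 by decide, pw0, pw1, pw2, one_mul, mul_one, mul_assoc, hx3, hx3']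
  have hxd3 : d * (x * x) = x * d := by simpa using hxd2 1
  have pneg : ∀ i : ZMod 3, d * pw i = pw (-i) * d := by
    intro i
    rcases hall i with rfl | rfl | rfl <;>
      simp only [show (-0 : ZMod 3) = 0 by decide, show (-1 : ZMod 3) = 2 by decide,
        show (-2 : ZMod 3) = 1 by decide, pw0, pw1, pw2, one_mul, mul_one, mul_assoc, hxd, hxd3]
  have Fmul : ∀ a b, F (a * b) = F a * F b := by
    intro a b
    rcases a with i | i <;> rcases b with j | j
    · show pw (i + j) = pw i * pw j
      exact padd i j
    · -- r i * sr j = sr (j - i)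
      show d * pw (j - i) = pw i * (d * pw j)
      rw [pneg (j - i), neg_sub, pneg j, ← mul_assoc, ← padd i (-j)]
      rw [show i - j = i + -j by ring]
    · -- sr i * r j = sr (i + j)
      show d * pw (i + j) = d * pw i * pw j
      rw [padd, mul_assoc]
    · -- sr i * sr j = r (j - i)
      show pw (j - i) = d * pw i * (d * pw j)
      rw [pneg i, mul_assoc, hd', ← padd]
      rw [show -i + j = j - i by ring]
  let f : DihedralGroup 3 →* G := MonoidHom.mk' F Fmul
  have hf : ∀ a, f a = F a := fun _ => rfl
  have hxxne : x * x ≠ 1 := by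
    intro h
    apply hxne
    have := hx3
    rw [h, mul_one] at this
    exact this
  refine ⟨f, ?_, ?_, ?_, ?_⟩
  · rw [injective_iff_map_eq_one]
    intro a ha
    rw [hf] at ha
    rcases a with i | i
    · rcases hall i with rfl | rfl | rfl
      · rfl
      · exact absurd (pw1 ▸ ha) hxne
      · exact absurd (pw2 ▸ ha) hxxne
    · exfalso
      have hdx : d * pw i = 1 := ha
      have hd1 : d = (pw i)⁻¹ := mul_eq_one_iff_eq_inv.mp hdx
      -- d is a power of x, so commutes with x, so x = x⁻¹
      have hcomm : d * x = x * d := by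
        have h1 : x * (pw i)⁻¹ = (pw i)⁻¹ * x := by
          rcases hall i with rfl | rfl | rfl
          · simp [pw0]
          · rw [pw1]; simp
          · rw [pw2]; simp [mul_assoc]
        rw [hd1, h1]
      have h2 : x * (x * d) = x * d := by rw [← hxd, hcomm]
      have h3 : x = 1 := by
        have := mul_left_cancel (a := x) (b := x * d) (c := d) (by rw [h2])
        exact mul_eq_right.mp this
      exact hxne h3
  · rw [hf]
    show d * pw 0 = d
    rw [pw0, mul_one]
  · rw [hf]
    exact pw1
  · apply le_antisymm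
    · rintro _ ⟨a, rfl⟩
      rw [hf]
      have hdm : d ∈ Subgroup.closure ({d, x} : Set G) := Subgroup.subset_closure (by simp)
      have hxm : x ∈ Subgroup.closure ({d, x} : Set G) := Subgroup.subset_closure (by simp)
      have hpm : ∀ i, pw i ∈ Subgroup.closure ({d, x} : Set G) := fun i => Subgroup.pow_mem _ hxm _
      rcases a with i | i
      · exact hpm i
      · exact Subgroup.mul_mem _ hdm (hpm i)
    · rw [Subgroup.closure_le]
      rintro y (rfl | rfl)
      · refine ⟨DihedralGroup.sr 0, ?_⟩
        rw [hf]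
        show y * pw 0 = y
        rw [pw0, mul_one]
      · refine ⟨DihedralGroup.r 1, ?_⟩
        rw [hf]
        exact pw1

/-- Two involutions with product of order 3 generate a copy of the dihedral group of order 6. -/
theorem dihedral_iso {G : Type*} [Group G] {d e : G} (hd : d * d = 1) (he : e * e = 1)
    (h3 : (d * e) ^ 3 = 1) (hnc : ¬ Commute d e) :
    Nonempty (Subgroup.closure ({d, e} : Set G) ≃* DihedralGroup 3) := by
  classical
  have hdi : d⁻¹ = d := inv_eq_of_mul_eq_one_left hd
  have hei : e⁻¹ = e := inv_eq_of_mul_eq_one_left he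
  have hx3 : (d * e) * ((d * e) * (d * e)) = 1 := by
    rw [← h3]; simp [pow_succ, mul_assoc]
  have hxd : d * (d * e) = (d * e) * ((d * e) * d) := by
    have h1 : (d * e)⁻¹ = (d * e) * (d * e) := by
      rw [inv_eq_iff_mul_eq_one]; exact hx3
    have h2 : d * (d * e) = (d * e)⁻¹ * d := by
      rw [mul_inv_rev, hei, hdi, ← mul_assoc, hd, one_mul, mul_assoc, hd, mul_one]
    rw [h2, h1, mul_assoc]
  have hxne : d * e ≠ 1 := by
    intro h
    apply hnc
    have h2 := mul_eq_one_iff_eq_inv.mp h
    rw [hei] at h2
    rw [h2]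
  obtain ⟨f, hinj, hfd, hfx, hr⟩ := dihedral_hom hd hx3 hxd hxne
  have hcl : Subgroup.closure ({d, d * e} : Set G) = Subgroup.closure ({d, e} : Set G) := by
    apply le_antisymm
    · rw [Subgroup.closure_le]
      rintro y (rfl | rfl)
      · exact Subgroup.subset_closure (by simp)
      · exact Subgroup.mul_mem _ (Subgroup.subset_closure (by simp)) (Subgroup.subset_closure (by simp))
    · rw [Subgroup.closure_le]
      rintro y (rfl | rfl)
      · exact Subgroup.subset_closure (by simp)
      · have h1 : d ∈ Subgroup.closure ({d, d * y} : Set G) := Subgroup.subset_closure (by simp)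
        have h2 : d * y ∈ Subgroup.closure ({d, d * y} : Set G) := Subgroup.subset_closure (by simp)
        have := Subgroup.mul_mem _ h1 h2
        rwa [← mul_assoc, hd, one_mul] at this
  rw [← hcl, ← hr]
  exact ⟨(MonoidHom.ofInjective hinj).symm⟩

/-- Two members of a set of 3-transpositions which do not commute generate a subgroup isomorphic to the symmetric group on three letters. -/
theorem result {G : Type*} [Group G] {E : Set G} (hE : Cfsg.IsThreeTranspositionSet E) {d e : G} (hd : d ∈ E) (he : e ∈ E) (h : ¬ Commute d e) : Nonempty (Subgroup.closure ({d, e} : Set G) ≃* Equiv.Perm (Fin 3)) := by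
  obtain ⟨hord, hprod⟩ := hE
  have hd2 : d * d = 1 := by rw [← pow_two, ← hord d hd]; exact pow_orderOf_eq_one d
  have he2 : e * e = 1 := by rw [← pow_two, ← hord e he]; exact pow_orderOf_eq_one e
  have hnc : (d * e) ^ 2 ≠ 1 := by
    intro h2
    apply h
    rw [pow_two] at h2
    -- d e d e = 1 so e d = d e
    have hdi : d⁻¹ = d := inv_eq_of_mul_eq_one_left hd2
    have hei : e⁻¹ = e := inv_eq_of_mul_eq_one_left he2
    have := mul_eq_one_iff_eq_inv.mp h2
    rw [mul_inv_rev, hei, hdi] at this
    exact this
  have h3 : (d * e) ^ 3 = 1 := by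
    rcases hprod d hd e he with h' | h'
    · exact absurd h' hnc
    · exact h'
  obtain ⟨f⟩ := dihedral_iso hd2 he2 h3 h
  -- the model in `Perm (Fin 3)`
  have h0 : ¬ Commute (Equiv.swap (0 : Fin 3) 1) (Equiv.swap (1 : Fin 3) 2) := by
    intro hc
    have := hc.eq
    revert this
    decide
  obtain ⟨f0⟩ := dihedral_iso (d := Equiv.swap (0 : Fin 3) 1) (e := Equiv.swap (1 : Fin 3) 2)
    (by decide) (by decide) (by decide) h0
  have htop : Subgroup.closure ({Equiv.swap (0 : Fin 3) 1, Equiv.swap (1 : Fin 3) 2} : Set (Equiv.Perm (Fin 3))) = ⊤ := by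
    apply Subgroup.eq_top_of_card_eq
    rw [Nat.card_congr f0.toEquiv]
    rw [DihedralGroup.nat_card, Nat.card_eq_fintype_card, Fintype.card_perm]
    decide
  exact ⟨f.trans (f0.symm.trans ((MulEquiv.subgroupCongr htop).trans Subgroup.topEquiv))⟩

end Cfsg.Agent.S0444
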