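import Cfsg.Statements.S0445
import Mathlib
-- import your own Cfsg.Agent.* helpers here

set_option autoImplicit false
open Cfsg

namespace Cfsg.Agent.S0445

set_option maxRecDepth 100000

abbrev R := ZMod 2
abbrev SL5 := Matrix.SpecialLinearGroup (Fin 5) R
abbrev SL3 := Matrix.SpecialLinearGroup (Fin 3) R

theorem det_shape (M : Matrix (Fin 5) (Fin 5) R) (h10 : M 1 0 = 0) (h20 : M 2 0 = 0)
    (h30 : M 3 0 = 0) (h40 : M 4 0 = 0) (h12 : M 1 2 = 0) (h13 : M 1 3 = 0) (h14 : M 1 4 = 0) :
    M.det = M 0 0 * M 1 1 * Matrix.det (fun i j : Fin 3 => M i.succ.succ j.succ.succ) := by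
  rw [Matrix.det_succ_column_zero]
  rw [Fin.sum_univ_succ]
  have hz : ∀ i : Fin 4, (-1 : R) ^ (i.succ : ℕ) * M i.succ 0 *
      Matrix.det (M.submatrix i.succ.succAbove Fin.succ) = 0 := by
    intro i
    fin_cases i
    · simp [h10]
    · simp [h20]
    · simp [h30]
    · simp [h40]
  rw [Finset.sum_eq_zero (fun i _ => hz i)]
  simp only [Fin.val_zero, pow_zero, one_mul, add_zero, Fin.succAbove_zero]
  rw [Matrix.det_succ_row_zero]
  rw [Fin.sum_univ_succ]
  have hz2 : ∀ j : Fin 3, (-1 : R) ^ (j.succ : ℕ) * (M.submatrix Fin.succ Fin.succ) 0 j.succ *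
      Matrix.det ((M.submatrix Fin.succ Fin.succ).submatrix Fin.succ j.succ.succAbove) = 0 := by
    intro j
    fin_cases j
    · simp [h12]
    · simp [h13]
    · simp [h14]
  rw [Finset.sum_eq_zero (fun j _ => hz2 j)]
  simp only [Fin.val_zero, pow_zero, one_mul, add_zero, Fin.succAbove_zero]
  rw [mul_assoc]
  rfl

/-- the matrix with given free entries `v` and lower block `B`. -/
def mk5 (v : Fin 7 → R) (B : Matrix (Fin 3) (Fin 3) R) : Matrix (Fin 5) (Fin 5) R :=
  !![1, v 0, v 1, v 2, v 3;
     0, 1, 0, 0, 0;
     0, v 4, B 0 0, B 0 1, B 0 2;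
     0, v 5, B 1 0, B 1 1, B 1 2;
     0, v 6, B 2 0, B 2 1, B 2 2]

theorem det_mk5 (v : Fin 7 → R) (B : Matrix (Fin 3) (Fin 3) R) : (mk5 v B).det = B.det := by
  rw [det_shape _ rfl rfl rfl rfl rfl rfl rfl]
  have : (fun i j : Fin 3 => mk5 v B i.succ.succ j.succ.succ) = B := by
    ext i j
    fin_cases i <;> fin_cases j <;> rfl
  rw [this]
  show 1 * 1 * B.det = B.det
  simp

theorem commute_mk5 (v : Fin 7 → R) (B : Matrix (Fin 3) (Fin 3) R) :
    mk5 v B * Matrix.transvection 0 1 1 = Matrix.transvection 0 1 1 * mk5 v B := by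
  rw [Matrix.transvection, Matrix.mul_add, Matrix.add_mul, Matrix.mul_one, Matrix.one_mul]
  congr 1
  ext i j
  rw [Matrix.mul_apply, Matrix.mul_apply]
  fin_cases i <;> fin_cases j <;>
    simp [Fin.sum_univ_five, Matrix.single_apply, mk5]

theorem card_SL3 : Fintype.card SL3 = 168 := by decide +kernel

/-- In the special linear group of dimension 5 over the field with two elements, the centraliser of a transvection has order 21504 = 2 ^ 7 · 168 (it is an extension of an extraspecial group of order 2 ^ 7 by the simple group of order 168). -/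
theorem result (s : Matrix.SpecialLinearGroup (Fin 5) (ZMod 2)) (hs : (s : Matrix (Fin 5) (Fin 5) (ZMod 2)) = Matrix.transvection 0 1 1) : Nat.card (Subgroup.centralizer ({s} : Set (Matrix.SpecialLinearGroup (Fin 5) (ZMod 2)))) = 21504 := by
  have hcent : ∀ g : SL5, g ∈ Subgroup.centralizer ({s} : Set SL5) ↔
      (g : Matrix (Fin 5) (Fin 5) R) * Matrix.transvection 0 1 1 =
        Matrix.transvection 0 1 1 * (g : Matrix (Fin 5) (Fin 5) R) := by
    intro g
    rw [Subgroup.mem_centralizer_singleton_iff]
    constructor
    · intro h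
      have := congrArg (fun x : SL5 => (x : Matrix (Fin 5) (Fin 5) R)) h
      simpa [hs] using this
    · intro h
      apply Subtype.ext
      simpa [hs] using h
  let Φ : (Fin 7 → R) × SL3 → Subgroup.centralizer ({s} : Set SL5) := fun p =>
    ⟨⟨mk5 p.1 p.2, by rw [det_mk5]; exact p.2.2⟩, (hcent _).2 (commute_mk5 _ _)⟩
  have hbij : Function.Bijective Φ := by
    constructor
    · rintro ⟨v, B⟩ ⟨v', B'⟩ h
      have h' : mk5 v B = mk5 v' B' := by
        have := congrArg (fun x : Subgroup.centralizer ({s} : Set SL5) =>
          ((x : SL5) : Matrix (Fin 5) (Fin 5) R)) h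
        exact this
      have hentry : ∀ i j, mk5 v B i j = mk5 v' B' i j := fun i j => by rw [h']
      refine Prod.ext ?_ (Subtype.ext ?_)
      · funext k
        fin_cases k
        · exact hentry 0 1
        · exact hentry 0 2
        · exact hentry 0 3
        · exact hentry 0 4
        · exact hentry 2 1
        · exact hentry 3 1
        · exact hentry 4 1
      · ext i j
        fin_cases i <;> fin_cases j
        · exact hentry 2 2
        · exact hentry 2 3
        · exact hentry 2 4
        · exact hentry 3 2
        · exact hentry 3 3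
        · exact hentry 3 4
        · exact hentry 4 2
        · exact hentry 4 3
        · exact hentry 4 4
    · rintro ⟨g, hg⟩
      have hc := (hcent g).1 hg
      let M : Matrix (Fin 5) (Fin 5) R := (g : Matrix (Fin 5) (Fin 5) R)
      have hdet : M.det = 1 := g.2
      have hc2 : M * Matrix.single 0 1 1 = Matrix.single 0 1 1 * M := by
        have h := hc
        rw [Matrix.transvection, Matrix.mul_add, Matrix.add_mul, Matrix.mul_one, Matrix.one_mul] at h
        exact add_left_cancel h
      have hentry : ∀ i j, M i 0 * (if j = 1 then 1 else 0) = (if i = 0 then 1 else 0) * M 1 j := by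
        intro i j
        have h2 := congrFun (congrFun hc2 i) j
        rw [Matrix.mul_apply, Matrix.mul_apply] at h2
        fin_cases i <;> fin_cases j <;>
          simpa [Fin.sum_univ_five, Matrix.single_apply] using h2
      have h10 : M 1 0 = 0 := by simpa using hentry 1 1
      have h20 : M 2 0 = 0 := by simpa using hentry 2 1
      have h30 : M 3 0 = 0 := by simpa using hentry 3 1
      have h40 : M 4 0 = 0 := by simpa using hentry 4 1
      have h12 : M 1 2 = 0 := by simpa using (hentry 0 2).symm
      have h13 : M 1 3 = 0 := by simpa using (hentry 0 3).symm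
      have h14 : M 1 4 = 0 := by simpa using (hentry 0 4).symm
      have hdiag : M 0 0 = M 1 1 := by simpa using hentry 0 1
      have hd := det_shape M h10 h20 h30 h40 h12 h13 h14
      rw [hdet] at hd
      have h00 : M 0 0 = 1 := by
        by_contra hne
        have h0 : M 0 0 = 0 := by
          have : ∀ x : R, x ≠ 1 → x = 0 := by decide
          exact this _ hne
        rw [h0, zero_mul, zero_mul] at hd
        exact one_ne_zero hd
      have h11 : M 1 1 = 1 := hdiag ▸ h00
      have hb : Matrix.det (fun i j : Fin 3 => M i.succ.succ j.succ.succ) = 1 := by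
        rw [h00, h11] at hd
        simpa using hd.symm
      refine ⟨(![M 0 1, M 0 2, M 0 3, M 0 4, M 2 1, M 3 1, M 4 1],
        ⟨fun i j : Fin 3 => M i.succ.succ j.succ.succ, hb⟩), ?_⟩
      apply Subtype.ext
      apply Subtype.ext
      show mk5 _ _ = M
      ext i j
      fin_cases i <;> fin_cases j <;> first
        | rfl
        | (simp only [mk5]; first | exact h00.symm | exact h10.symm | exact h20.symm | exact h30.symm | exact h40.symm | exact h11.symm | exact h12.symm | exact h13.symm | exact h14.symm)
  have hcard := Nat.card_congr (Equiv.ofBijective Φ hbij)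
  rw [← hcard, Nat.card_prod, Nat.card_eq_fintype_card, Nat.card_eq_fintype_card, card_SL3]
  simp [ZMod.card]

end Cfsg.Agent.S0445
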