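import Cfsg.Statements.S0446
import Mathlib
-- import your own Cfsg.Agent.* helpers here

set_option autoImplicit false
open Cfsg

namespace Cfsg.Agent.S0446

/-- Every finite group of even order contains a 2-central involution, i.e. an element of order 2 in the centre of some Sylow 2-subgroup. -/
theorem result {G : Type*} [Group G] [Finite G] (h : Even (Nat.card G)) : ∃ t : G, Cfsg.IsTwoCentralInvolution t := by
  classical
  have h2 : 2 ∣ Nat.card G := h.two_dvd
  have : Fact (Nat.Prime 2) := ⟨Nat.prime_two⟩
  obtain ⟨P⟩ : Nonempty (Sylow 2 G) := inferInstance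
  have hP : 2 ∣ Nat.card (P : Subgroup G) := by
    have := P.card_eq_multiplicity
    have hne : (Nat.card G).factorization 2 ≠ 0 := by
      have hpos : Nat.card G ≠ 0 := Nat.card_pos.ne'
      exact (Nat.Prime.factorization_pos_of_dvd Nat.prime_two hpos h2).ne'
    rw [this]
    exact ⟨2 ^ ((Nat.card G).factorization 2 - 1), by
      rw [← pow_succ']; congr 1; omega⟩
  have : Nontrivial (P : Subgroup G) := by
    apply Finite.one_lt_card_iff_nontrivial.mp
    have := Nat.le_of_dvd Nat.card_pos hP
    omega
  have hPg : IsPGroup 2 (P : Subgroup G) := P.isPGroup'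
  have hZ : Nontrivial (Subgroup.center (P : Subgroup G)) := hPg.center_nontrivial
  have hZ2 : 2 ∣ Nat.card (Subgroup.center (P : Subgroup G)) := by
    have hZp : IsPGroup 2 (Subgroup.center (P : Subgroup G)) := hPg.to_subgroup _
    obtain ⟨n, hn⟩ := IsPGroup.iff_card.mp hZp
    have hlt := Finite.one_lt_card_iff_nontrivial.mpr hZ
    rw [hn] at hlt ⊢
    have hn0 : n ≠ 0 := by
      rintro rfl
      simp at hlt
    exact dvd_pow_self 2 hn0
  obtain ⟨z, hz⟩ := exists_prime_orderOf_dvd_card' 2 hZ2
  refine ⟨((z : (P : Subgroup G)) : G), ?_, P, (z : (P : Subgroup G)).2, ?_⟩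
  · have h1 : orderOf ((z : (P : Subgroup G)) : G) = orderOf z := by
      rw [Subgroup.orderOf_coe, Subgroup.orderOf_coe]
    rw [h1, hz]
  · intro x hx
    have := (Subgroup.mem_center_iff.mp z.2) ⟨x, hx⟩
    have h' := congrArg (Subtype.val) this
    simpa using h'

end Cfsg.Agent.S0446
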