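import Cfsg.Statements.S0459
import Cfsg.Agent.Lib.Compute.Ru.Main

set_option autoImplicit false
open Cfsg

namespace Cfsg.Agent.S0459

open Cfsg.Agent.Lib.Compute.Ru.Main Cfsg.Agent.Lib.Compute.Ru.Defs

/-- The small group as a subgroup of the stabilizer. -/
theorem T_le_stab : T.subgroupOf P ≤ MulAction.stabilizer P (0 : Fin 4060) := by
  intro t ht
  exact T_fix0 t.1 ht

/-- The Rudvalis group exists as a transitive permutation group of degree 4060: simple of order 145926144000, with point stabiliser of order 35942400 containing a simple subgroup of order 17971200 (the order of the Tits group). -/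
theorem result : ∃ H : Subgroup (Equiv.Perm (Fin 4060)), Cfsg.IsRu H ∧ MulAction.IsPretransitive H (Fin 4060) ∧ Nat.card (MulAction.stabilizer H (0 : Fin 4060)) = 35942400 ∧ ∃ T : Subgroup (MulAction.stabilizer H (0 : Fin 4060)), Cfsg.IsTits T := by
  refine ⟨P, ⟨P_simple, card_P⟩, P_trans, P_stab, (T.subgroupOf P).subgroupOf (MulAction.stabilizer P (0 : Fin 4060)), ?_, ?_⟩
  · have e1 := Subgroup.subgroupOfEquivOfLe T_le_stab
    have e2 := Subgroup.subgroupOfEquivOfLe T_le_P
    have := T_simple
    have : IsSimpleGroup (T.subgroupOf P) := MulEquiv.isSimpleGroup e2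
    exact MulEquiv.isSimpleGroup e1
  · have e1 := Subgroup.subgroupOfEquivOfLe T_le_stab
    have e2 := Subgroup.subgroupOfEquivOfLe T_le_P
    rw [Nat.card_congr e1.toEquiv, Nat.card_congr e2.toEquiv, card_T]

end Cfsg.Agent.S0459
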