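import Cfsg.Statements.S0481
import Mathlib
import Cfsg.Agent.Lib.PGroup.Basic

set_option autoImplicit false
open Cfsg

namespace Cfsg.Agent.S0481

/-- Large extraspecial subgroups: let z be an involution of a finite group G whose centraliser C contains a normal 2-subgroup Q with centre of order 2 and all squares central, such that every element of G centralising Q lies in Q. Then C contains a Sylow 2-subgroup of G, and any involution of G whose centraliser contains a Sylow 2-subgroup of G is conjugate to z. -/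
theorem result {G : Type*} [Group G] [Finite G] (z : G) (hz : orderOf z = 2) (Q : Subgroup G) (hQC : Q ≤ Subgroup.centralizer ({z} : Set G)) (hQn : ∀ g ∈ Subgroup.centralizer ({z} : Set G), ∀ q ∈ Q, g * q * g⁻¹ ∈ Q) (hQ2 : IsPGroup 2 Q) (hZ : Nat.card (Subgroup.center Q) = 2) (hsq : ∀ x : Q, x ^ 2 ∈ Subgroup.center Q) (hlarge : Subgroup.centralizer (Q : Set G) ≤ Q) : (∃ P : Sylow 2 G, (P : Subgroup G) ≤ Subgroup.centralizer ({z} : Set G)) ∧ ∀ u : G, orderOf u = 2 → (∃ P : Sylow 2 G, (P : Subgroup G) ≤ Subgroup.centralizer ({u} : Set G)) → IsConj z u := by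
  classical
  have hzQ : z ∈ Q := hlarge (by
    rw [Subgroup.mem_centralizer_iff]
    intro q hq
    have := Subgroup.mem_centralizer_iff.mp (hQC hq) z (Set.mem_singleton z)
    exact this.symm)
  have hz1 : z ≠ 1 := by
    rintro rfl
    simp at hz
  -- central elements of `Q` are `1` or `z`
  have hcen : ∀ y ∈ Q, (∀ q ∈ Q, y * q = q * y) → y = 1 ∨ y = z := by
    intro y hy hyq
    by_contra hcon
    push Not at hcon
    have hzc : (⟨z, hzQ⟩ : Q) ∈ Subgroup.center Q := by
      rw [Subgroup.mem_center_iff]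
      rintro ⟨q, hq⟩
      apply Subtype.ext
      exact (Subgroup.mem_centralizer_iff.mp (hQC hq) z (Set.mem_singleton z)).symm
    have hyc : (⟨y, hy⟩ : Q) ∈ Subgroup.center Q := by
      rw [Subgroup.mem_center_iff]
      rintro ⟨q, hq⟩
      apply Subtype.ext
      exact (hyq q hq).symm
    obtain ⟨w, -, hw⟩ := (Nat.card_eq_two_iff' (1 : Subgroup.center Q)).mp hZ
    have h1 : (⟨⟨z, hzQ⟩, hzc⟩ : Subgroup.center Q) = w := hw _ (by
      intro h
      exact hz1 (congrArg (fun a : Subgroup.center Q => ((a : Q) : G)) h))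
    have h2 : (⟨⟨y, hy⟩, hyc⟩ : Subgroup.center Q) = w := hw _ (by
      intro h
      exact hcon.1 (congrArg (fun a : Subgroup.center Q => ((a : Q) : G)) h))
    exact hcon.2 (congrArg (fun a : Subgroup.center Q => ((a : Q) : G)) (h2.trans h1.symm))
  set C := Subgroup.centralizer ({z} : Set G) with hC
  -- a maximal 2-subgroup `T` in `C`
  obtain ⟨T, hT⟩ := (Set.toFinite {H : Subgroup G | H ≤ C ∧ IsPGroup 2 H}).exists_maximal
    ⟨⊥, bot_le, IsPGroup.of_bot⟩
  obtain ⟨⟨hTC, hTp⟩, hTmax⟩ := hT
  have hQT : Q ≤ T := by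
    have hn : T ≤ Subgroup.normalizer (Q : Set G) := by
      intro t ht
      rw [Subgroup.mem_normalizer_iff]
      intro q
      refine ⟨fun hq => hQn t (hTC ht) q hq, fun hq => ?_⟩
      have := hQn t⁻¹ (inv_mem (hTC ht)) _ hq
      have e : t⁻¹ * (t * q * t⁻¹) * t⁻¹⁻¹ = q := by group
      rwa [e] at this
    have hp : IsPGroup 2 (T ⊔ Q : Subgroup G) := hTp.to_sup_of_normal_right' hQ2 hn
    have hle : T ⊔ Q ≤ C := sup_le hTC (hQC)
    exact le_sup_right.trans (hTmax ⟨hle, hp⟩ le_sup_left)
  have hzT : z ∈ T := hQT hzQ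
  have hZT : ∀ y ∈ T, (∀ t ∈ T, y * t = t * y) → y = 1 ∨ y = z := by
    intro y hy hyt
    have hyQ : y ∈ Q := hlarge (by
      rw [Subgroup.mem_centralizer_iff]
      intro q hq
      exact (hyt q (hQT hq)).symm)
    exact hcen y hyQ fun q hq => hyt q (hQT hq)
  -- `T` is a Sylow subgroup of `G`
  obtain ⟨S, hTS⟩ := hTp.exists_le_sylow
  have hTS' : T = S := by
    by_contra hne
    have hlt : T < S := lt_of_le_of_ne hTS hne
    obtain ⟨x, hxS, hxT, hxn⟩ := Cfsg.Agent.Lib.PGroup.Basic.exists_mem_normalizer_of_lt S.isPGroup' hlt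
    have hxn' := Subgroup.mem_normalizer_iff.mp hxn
    have hxz : x * z * x⁻¹ = z := by
      have hcen' : x * z * x⁻¹ ∈ T := (hxn' z).mp hzT
      have hcomm : ∀ t ∈ T, (x * z * x⁻¹) * t = t * (x * z * x⁻¹) := by
        intro t ht
        have ht' : x⁻¹ * t * x ∈ T := by
          have := (hxn' (x⁻¹ * t * x)).mpr
          apply this
          have e : x * (x⁻¹ * t * x) * x⁻¹ = t := by group
          rwa [e]
        have hc : (x⁻¹ * t * x) * z = z * (x⁻¹ * t * x) :=
          Subgroup.mem_centralizer_iff.mp (hTC ht') z (Set.mem_singleton z) |>.symm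
        calc (x * z * x⁻¹) * t = x * (z * (x⁻¹ * t * x)) * x⁻¹ := by group
          _ = x * ((x⁻¹ * t * x) * z) * x⁻¹ := by rw [hc]
          _ = t * (x * z * x⁻¹) := by group
      rcases hZT _ hcen' hcomm with h | h
      · exfalso
        apply hz1
        have : z = x⁻¹ * (x * z * x⁻¹) * x := by group
        rw [this, h]; group
      · exact h
    have hxC : x ∈ C := by
      rw [hC, Subgroup.mem_centralizer_iff]
      intro w hw
      rw [Set.mem_singleton_iff] at hw
      subst hw
      have := hxz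
      calc w * x = (x * w * x⁻¹) * x := by rw [hxz]
        _ = x * w := by group
    have hleS : T ⊔ Subgroup.zpowers x ≤ S := sup_le hTS (by
      rw [Subgroup.zpowers_le]; exact hxS)
    have hle : T ⊔ Subgroup.zpowers x ≤ C := sup_le hTC (by
      rw [Subgroup.zpowers_le]; exact hxC)
    have hp : IsPGroup 2 (T ⊔ Subgroup.zpowers x : Subgroup G) := S.isPGroup'.to_le hleS
    have := hTmax ⟨hle, hp⟩ le_sup_left
    exact hxT (this (Subgroup.mem_sup_right (Subgroup.mem_zpowers x)))
  refine ⟨⟨S, hTS' ▸ hTC⟩, ?_⟩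
  rintro u hu ⟨P, hP⟩
  have hu1 : u ≠ 1 := by
    rintro rfl
    simp at hu
  have huP : u ∈ (P : Subgroup G) := by
    have hzp : IsPGroup 2 (Subgroup.zpowers u) := by
      rw [IsPGroup.iff_card (p := 2)]
      exact ⟨1, by rw [Nat.card_zpowers, hu]; rfl⟩
    have hn : (P : Subgroup G) ≤ Subgroup.normalizer (Subgroup.zpowers u : Set G) := by
      intro t ht
      rw [Subgroup.mem_normalizer_iff]
      have ec : t * u = u * t :=
        (Subgroup.mem_centralizer_iff.mp (hP ht) u (Set.mem_singleton u)).symm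
      have ec' : ∀ (w : G), w ∈ Subgroup.zpowers u → t * w * t⁻¹ = w := by
        rintro _ ⟨k, rfl⟩
        have : Commute t (u ^ k) := Commute.zpow_right ec k
        change t * u ^ k * t⁻¹ = u ^ k
        rw [this.eq]; group
      intro w
      refine ⟨fun hw => by rwa [ec' w hw], fun hw => ?_⟩
      have ec'' : ∀ (w : G), w ∈ Subgroup.zpowers u → t⁻¹ * w * t = w := by
        intro w hw
        have := ec' w hw
        calc t⁻¹ * w * t = t⁻¹ * (t * w * t⁻¹) * t := by rw [this]
          _ = w := by group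
      have := ec'' _ hw
      have e : t⁻¹ * (t * w * t⁻¹) * t = w := by group
      rw [e] at this
      rwa [this]
    have hp : IsPGroup 2 ((P : Subgroup G) ⊔ Subgroup.zpowers u : Subgroup G) :=
      P.isPGroup'.to_sup_of_normal_right' hzp hn
    have := P.is_maximal' hp le_sup_left
    rw [← this]
    exact Subgroup.mem_sup_right (Subgroup.mem_zpowers u)
  obtain ⟨g, hg⟩ := MulAction.exists_smul_eq G P S
  have hgu : g * u * g⁻¹ ∈ T := by
    rw [hTS', ← hg]
    rw [Sylow.smul_def, Sylow.pointwise_smul_def]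
    exact Subgroup.mem_pointwise_smul_iff_inv_smul_mem.mpr (by simpa [mul_assoc] using huP)
  have hcu : ∀ t ∈ T, (g * u * g⁻¹) * t = t * (g * u * g⁻¹) := by
    intro t ht
    have ht' : g⁻¹ * t * g ∈ (P : Subgroup G) := by
      rw [hTS', ← hg, Sylow.smul_def, Sylow.pointwise_smul_def] at ht
      have := Subgroup.mem_pointwise_smul_iff_inv_smul_mem.mp ht
      simpa [mul_assoc] using this
    have hc : (g⁻¹ * t * g) * u = u * (g⁻¹ * t * g) :=
      Subgroup.mem_centralizer_iff.mp (hP ht') u (Set.mem_singleton u) |>.symm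
    calc (g * u * g⁻¹) * t = g * (u * (g⁻¹ * t * g)) * g⁻¹ := by group
      _ = g * ((g⁻¹ * t * g) * u) * g⁻¹ := by rw [hc]
      _ = t * (g * u * g⁻¹) := by group
  rcases hZT _ hgu hcu with h | h
  · exfalso
    apply hu1
    have : u = g⁻¹ * (g * u * g⁻¹) * g := by group
    rw [this, h]; group
  · rw [isConj_iff]
    refine ⟨g⁻¹, ?_⟩
    rw [← h]; group

end Cfsg.Agent.S0481
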