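import Cfsg.Statements.S0498
import Mathlib
import Cfsg.Agent.Lib.PSL2.SimpleOrder

set_option autoImplicit false
set_option linter.style.haveILetI false
set_option linter.unusedVariables false
open Cfsg

namespace Cfsg.Agent.S0498

/-- A simple group of order 660, respectively 1092, is isomorphic to the projective special linear group of dimension 2
over the field with 11, respectively 13, elements. -/
theorem result {G : Type*} [Group G] [Finite G] [IsSimpleGroup G] (p : ℕ)
    (hp : p = 11 ∨ p = 13) (h : 2 * Nat.card G = p * (p ^ 2 - 1)) {F : Type*} [Field F] [Fintype F]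
    (hF : Fintype.card F = p) : Nonempty (G ≃* Matrix.ProjectiveSpecialLinearGroup (Fin 2) F) := by
  rcases hp with rfl | rfl
  · refine Cfsg.Agent.Lib.PSL2.SimpleOrder.iso_of_card (p := 11) (m := 60) (by norm_num) (by norm_num)
      (by norm_num) (by omega) ?_ hF
    intro n hn hmod
    have hle := Nat.le_of_dvd (by norm_num) hn
    interval_cases n <;> revert hn hmod <;> decide
  · refine Cfsg.Agent.Lib.PSL2.SimpleOrder.iso_of_card (p := 13) (m := 84) (by norm_num) (by norm_num)
      (by norm_num) (by omega) ?_ hF
    intro n hn hmod
    have hle := Nat.le_of_dvd (by norm_num) hn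
    interval_cases n <;> revert hn hmod <;> decide

end Cfsg.Agent.S0498
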