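import Cfsg.Statements.S0499
import Mathlib
import Cfsg.Agent.Lib.Transfer.Basic
import Cfsg.Agent.Lib.Transfer.Frobenius
-- import your own Cfsg.Agent.* helpers here

set_option autoImplicit false
open Cfsg

namespace Cfsg.Agent.S0499

open Subgroup

theorem numeric {r a b : ℕ} (hr : r.Prime) (hodd : r ≠ 2) (ha : a ≤ 3) (hb : b < a)
    (h : r ∣ 2 ^ a - 2 ^ b) : (r = 3 ∧ 2 ≤ a) ∨ (r = 7 ∧ a = 3) := by
  have h1 : r ∣ 1 → False := fun h => hr.one_lt.ne' (Nat.dvd_one.mp h)
  have h2 : r ∣ 2 → False := fun h => hodd ((Nat.prime_dvd_prime_iff_eq hr Nat.prime_two).mp h)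
  have h3 : r ∣ 3 → r = 3 := fun h => (Nat.prime_dvd_prime_iff_eq hr Nat.prime_three).mp h
  have h7 : r ∣ 7 → r = 7 := fun h => (Nat.prime_dvd_prime_iff_eq hr (by norm_num)).mp h
  have h4 : r ∣ 4 → False := fun h => h2 (hr.dvd_of_dvd_pow (n := 2) (by simpa using h))
  have h6 : r ∣ 6 → r = 3 := fun h => by
    have : r ∣ 2 * 3 := by simpa using h
    rcases (Nat.Prime.dvd_mul hr).mp this with h' | h'
    · exact (h2 h').elim
    · exact h3 h'
  have ha' : a = 1 ∨ a = 2 ∨ a = 3 := by omega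
  rcases ha' with rfl | rfl | rfl
  · have : b = 0 := by omega
    subst this
    exact (h1 (by simpa using h)).elim
  · have : b = 0 ∨ b = 1 := by omega
    rcases this with rfl | rfl
    · exact Or.inl ⟨h3 (by simpa using h), by norm_num⟩
    · exact (h2 (by simpa using h)).elim
  · have : b = 0 ∨ b = 1 ∨ b = 2 := by omega
    rcases this with rfl | rfl | rfl
    · exact Or.inr ⟨h7 (by simpa using h), rfl⟩
    · exact Or.inl ⟨h6 (by simpa using h), by norm_num⟩
    · exact (h4 (by simpa using h)).elim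

/-- A non-abelian finite simple group of even order has order divisible by 12, 16 or 56. -/
theorem result {G : Type*} [Group G] [Finite G] [IsSimpleGroup G]
    (hG : ¬ IsMulCommutative G) (h2 : Even (Nat.card G)) :
    12 ∣ Nat.card G ∨ 16 ∣ Nat.card G ∨ 56 ∣ Nat.card G := by
  
  classical
  haveI : Fact (Nat.Prime 2) := ⟨Nat.prime_two⟩
  by_contra hcon
  push Not at hcon
  obtain ⟨h12, h16, h56⟩ := hcon
  have hnf : ¬ Cfsg.Agent.Lib.Transfer.Frobenius.FrobeniusHyp 2 G := by
    intro hH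
    have hc := Cfsg.Agent.Lib.Transfer.Frobenius.hasNormalPComplement_of_hyp hH
    obtain ⟨N, hNn, hNc, hNq⟩ := Cfsg.Agent.Lib.Transfer.Basic.hasNormalPComplement_iff.mp hc
    rcases hNn.eq_bot_or_eq_top with rfl | rfl
    · have hp : IsPGroup 2 G := by
        apply hNq.of_equiv
        exact QuotientGroup.quotientBot
      have hzc := hp.center_nontrivial
      have htop : center G = ⊤ := by
        rcases (inferInstance : (center G).Normal).eq_bot_or_eq_top with h | h
        · exfalso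
          rw [h] at hzc
          exact not_nontrivial _ hzc
        · exact h
      apply hG
      exact ⟨⟨fun a b => Subgroup.mem_center_iff.mp (htop ▸ mem_top b) a⟩⟩
    · have : Nat.card (⊤ : Subgroup G) = Nat.card G := Nat.card_congr Subgroup.topEquiv.toEquiv
      rw [this] at hNc
      have hodd := Nat.coprime_two_right.mp hNc
      exact (Nat.not_even_iff_odd.mpr hodd) h2
  simp only [Cfsg.Agent.Lib.Transfer.Frobenius.FrobeniusHyp] at hnf
  push Not at hnf
  obtain ⟨Q, hQ, g, hg, hcop, hgc⟩ := hnf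
  have hgodd : Odd (orderOf g) := Nat.coprime_two_right.mp hcop
  have hgQ : ∀ q : Q, g * q * g⁻¹ ∈ Q := fun q => (mem_normalizer_iff.mp hg q).mp q.2
  have hgQ' : ∀ q : Q, g⁻¹ * q * g ∈ Q := fun q => by
    apply (mem_normalizer_iff.mp hg (g⁻¹ * q * g)).mpr
    have e : g * (g⁻¹ * (q : G) * g) * g⁻¹ = q := by group
    rw [e]
    exact q.2
  let σ : MulAut Q :=
    { toFun := fun q => ⟨g * q * g⁻¹, hgQ q⟩
      invFun := fun q => ⟨g⁻¹ * q * g, hgQ' q⟩
      left_inv := fun q => Subtype.ext (by simp [mul_assoc])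
      right_inv := fun q => Subtype.ext (by simp [mul_assoc])
      map_mul' := fun x y => Subtype.ext (by simp [mul_assoc]) }
  have hσa : ∀ q : Q, ((σ q : Q) : G) = g * q * g⁻¹ := fun _ => rfl
  have hpow : ∀ (k : ℕ) (q : Q), (((σ ^ k) q : Q) : G) = g ^ k * q * (g ^ k)⁻¹ := by
    intro k q
    induction k with
    | zero => simp
    | succ k ih' =>
      rw [pow_succ', MulAut.mul_apply, hσa, ih', pow_succ']
      group
  have hσn : σ ^ orderOf g = 1 := by
    apply MulEquiv.ext
    intro q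
    apply Subtype.ext
    rw [hpow, pow_orderOf_eq_one]
    simp
  have hne : σ ≠ 1 := by
    intro h1
    apply hgc
    rw [Subgroup.mem_centralizer_iff]
    intro q hq
    have h2 : σ ⟨q, hq⟩ = ⟨q, hq⟩ := by rw [h1]; rfl
    have h3 : g * q * g⁻¹ = q := congrArg Subtype.val h2
    calc q * g = (g * q * g⁻¹) * g := by rw [h3]
      _ = g * q := by group
  have hdvd : orderOf σ ∣ orderOf g := orderOf_dvd_of_pow_eq_one hσn
  have hgpos : 0 < orderOf g := orderOf_pos g
  have hσ0 : orderOf σ ≠ 0 := fun h => by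
    rw [h, zero_dvd_iff] at hdvd
    omega
  have hσ1 : orderOf σ ≠ 1 := fun h => hne (orderOf_eq_one_iff.mp h)
  let r := (orderOf σ).minFac
  have hr : r.Prime := Nat.minFac_prime hσ1
  haveI : Fact r.Prime := ⟨hr⟩
  have hrd : r ∣ orderOf σ := Nat.minFac_dvd _
  let τ : MulAut Q := σ ^ (orderOf σ / r)
  have hτ : orderOf τ = r := orderOf_pow_orderOf_div hσ0 hrd
  have hτr : τ ^ r ^ 1 = 1 := by
    rw [pow_one, ← hτ]
    exact pow_orderOf_eq_one τ
  have hrG : r ∣ Nat.card G := (hrd.trans hdvd).trans (_root_.orderOf_dvd_natCard g)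
  have hrodd : r ≠ 2 := by
    intro h
    have : 2 ∣ orderOf g := h ▸ (hrd.trans hdvd)
    exact (Nat.not_even_iff_odd.mpr hgodd) (even_iff_two_dvd.mpr this)
  -- fixed points
  let F : Subgroup Q :=
    { carrier := {y | τ y = y}
      mul_mem' := by
        rintro x y hx hy
        show τ (x * y) = x * y
        rw [map_mul, hx, hy]
      one_mem' := map_one _
      inv_mem' := by
        rintro x hx
        show τ x⁻¹ = x⁻¹
        rw [map_inv, hx] }
  have hFne : F ≠ ⊤ := by
    intro h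
    have : τ = 1 := by
      apply MulEquiv.ext
      intro q
      have : q ∈ F := h ▸ mem_top q
      exact this
    rw [this, orderOf_one] at hτ
    exact hr.one_lt.ne hτ
  have hmod : Nat.card Q ≡ Nat.card F [MOD r] := by
    haveI : Fintype Q := Fintype.ofFinite _
    let f : Function.End Q := ⇑τ
    have hfp : ∀ k : ℕ, f ^ k = ⇑(τ ^ k) := by
      intro k
      induction k with
      | zero => rfl
      | succ k ih =>
        rw [pow_succ', ih, pow_succ']
        rfl
    have hf : f ^ r ^ 1 = 1 := by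
      rw [hfp, hτr]
      rfl
    have h1 := Equiv.Perm.card_fixedPoints_modEq hf
    rw [← Nat.card_eq_fintype_card, ← Nat.card_eq_fintype_card] at h1
    exact h1
  obtain ⟨a, ha⟩ := IsPGroup.iff_card.mp hQ
  obtain ⟨b, hb⟩ := IsPGroup.iff_card.mp (IsPGroup.to_subgroup hQ F)
  have hQG : 2 ^ a ∣ Nat.card G := ha ▸ Subgroup.card_subgroup_dvd_card Q
  have ha3 : a ≤ 3 := by
    by_contra hcon
    exact h16 ((pow_dvd_pow 2 (show 4 ≤ a by omega)).trans hQG)
  have hFlt : Nat.card F < Nat.card Q := by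
    have h1 := Subgroup.one_lt_index_of_ne_top hFne
    have h2 := F.card_mul_index
    rw [← h2]
    exact lt_mul_of_one_lt_right Nat.card_pos h1
  have hba : b < a := by
    rw [ha, hb] at hFlt
    exact (Nat.pow_lt_pow_iff_right (by norm_num)).mp hFlt
  have hrdvd : r ∣ 2 ^ a - 2 ^ b := by
    rw [ha, hb] at hmod
    exact (Nat.modEq_iff_dvd' (Nat.pow_le_pow_right (by norm_num) hba.le)).mp hmod.symm
  rcases numeric hr hrodd ha3 hba hrdvd with ⟨hr3, h2a⟩ | ⟨hr7, h3a⟩
  · apply h12
    have h4 : 4 ∣ Nat.card G := (pow_dvd_pow 2 h2a).trans hQG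
    have h3 : 3 ∣ Nat.card G := hr3 ▸ hrG
    exact Nat.Coprime.mul_dvd_of_dvd_of_dvd (by norm_num) h4 h3
  · apply h56
    have h8 : 8 ∣ Nat.card G := by
      rw [h3a] at hQG
      exact hQG
    have h7 : 7 ∣ Nat.card G := hr7 ▸ hrG
    exact Nat.Coprime.mul_dvd_of_dvd_of_dvd (m := 8) (n := 7) (by norm_num) h8 h7

end Cfsg.Agent.S0499
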