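import Cfsg.Statements.S0501
import Cfsg.Agent.Lib.MacW.Main

set_option autoImplicit false
open Cfsg
open scoped commutatorElement

namespace Cfsg.Agent.S0501

/-- A finite 2-group in which every normal elementary abelian subgroup has order at most 4 has sectional rank at most
4: every quotient of every subgroup has no elementary abelian subgroup of order exceeding 16. -/
theorem result {P : Type*} [Group P] [Finite P] (hP : IsPGroup 2 P)
    (h : ∀ A : Subgroup P, A.Normal → IsMulCommutative A → (∀ a ∈ A, a ^ 2 = 1) → Nat.card A ≤ 4) :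
    Cfsg.SectionalPRankLE 2 4 P := by
  intro H N _ A hAc hAe
  have hcommA : ∀ a ∈ A, ∀ b ∈ A, a * b = b * a := fun a ha b hb =>
    congrArg Subtype.val (hAc.is_comm.comm ⟨a, ha⟩ ⟨b, hb⟩)
  set K' : Subgroup H := A.comap (QuotientGroup.mk' N) with hK'
  have hN_K' : N ≤ K' := by
    intro x hx
    show ((x : H) : H ⧸ N) ∈ A
    rw [(QuotientGroup.eq_one_iff x).2 hx]
    exact A.one_mem
  have hcardK : Nat.card (K'.map H.subtype) = Nat.card K' :=
    Nat.card_congr (K'.equivMapOfInjective H.subtype H.subtype_injective).toEquiv.symm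
  have hcardM : Nat.card (N.map H.subtype) = Nat.card N :=
    Nat.card_congr (N.equivMapOfInjective H.subtype H.subtype_injective).toEquiv.symm
  have hcardK' : Nat.card K' = Nat.card N * Nat.card A := by
    have h1 := Cfsg.Agent.Lib.MacW.card_ker_range ((QuotientGroup.mk' N).comp K'.subtype)
    have h2 : Nat.card ((QuotientGroup.mk' N).comp K'.subtype).ker = Nat.card N := by
      refine Nat.card_congr ⟨fun x => ⟨x.1.1, (QuotientGroup.eq_one_iff _).1 x.2⟩,
        fun x => ⟨⟨x.1, hN_K' x.2⟩, (QuotientGroup.eq_one_iff _).2 x.2⟩, ?_, ?_⟩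
      · intro x; rfl
      · intro x; rfl
    have h3 : ((QuotientGroup.mk' N).comp K'.subtype).range = A := by
      ext q
      constructor
      · rintro ⟨x, rfl⟩
        exact x.2
      · intro hq
        obtain ⟨x, rfl⟩ := QuotientGroup.mk'_surjective N q
        exact ⟨⟨x, hq⟩, rfl⟩
    rw [h1, h2, h3]
  have hbound := Cfsg.Agent.Lib.MacW.main_bound hP h (K := K'.map H.subtype) (M := N.map H.subtype)
    (Subgroup.map_mono hN_K')
    (by
      rintro _ ⟨y, hy, rfl⟩
      refine ⟨y ^ 2, ?_, by simp⟩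
      have h1 : ((y : H) : H ⧸ N) ^ 2 = 1 := hAe _ hy
      rw [← QuotientGroup.mk_pow] at h1
      exact (QuotientGroup.eq_one_iff _).1 h1)
    (by
      rintro _ ⟨y, hy, rfl⟩ _ ⟨z, hz, rfl⟩
      refine ⟨⁅y, z⁆, ?_, by simp [commutatorElement_def]⟩
      have h1 : ((y : H) : H ⧸ N) * (z : H) = (z : H) * ((y : H) : H ⧸ N) := hcommA _ hy _ hz
      have h2 : ((⁅y, z⁆ : H) : H ⧸ N) = 1 := by
        have h3 : ⁅((y : H) : H ⧸ N), ((z : H) : H ⧸ N)⁆ = 1 := commutatorElement_eq_one_iff_mul_comm.2 h1
        rw [← h3]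
        exact map_commutatorElement (QuotientGroup.mk' N) y z
      exact (QuotientGroup.eq_one_iff _).1 h2)
  rw [hcardK, hcardM, hcardK'] at hbound
  have hpos : 0 < Nat.card N := Nat.card_pos
  have hfin : Nat.card A ≤ 16 := by
    have h1 : Nat.card N * Nat.card A ≤ Nat.card N * 16 := by
      rw [mul_comm (Nat.card N) 16]
      exact hbound
    exact Nat.le_of_mul_le_mul_left h1 hpos
  simpa using hfin

end Cfsg.Agent.S0501
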