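import Cfsg.Statements.S0508
import Mathlib
import Cfsg.Agent.Lib.Zass.BSWDih2
import Cfsg.Agent.Lib.Transfer.Basic
import Cfsg.Agent.Lib.Basic.PCore
import Cfsg.Agent.Lib.Solvable.PSeries

set_option autoImplicit false
open Cfsg

namespace Cfsg.Agent.S0508

/-- Let G be a finite simple group with a dihedral Sylow 2-subgroup S (of order at least 4), t an involution in the
centre of S, C the centralizer of t and O the core of C (its largest normal subgroup of odd order). Suppose that: if O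
is nontrivial then the centralizer of O in S is cyclic of index 2 in S; every element of S not centralizing O inverts
every element of O; and the normalizer of every nontrivial subgroup of O lies in C. Then G is isomorphic to a projective
special linear group of dimension 2 over a field of odd order. -/
theorem result {G : Type*} [Group G] [Finite G] [IsSimpleGroup G] (S : Sylow 2 G) (n : ℕ)
    (hn : 2 ≤ n) (hS : Nonempty ((S : Subgroup G) ≃* DihedralGroup n)) (t : G) (ht : orderOf t = 2)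
    (htS : t ∈ (S : Subgroup G))
    (htZ : ∀ s ∈ (S : Subgroup G), s * t = t * s) (O : Subgroup G)
    (hO : O = (Cfsg.oddCore (Subgroup.centralizer ({t} : Set G))).map (Subgroup.centralizer ({t} : Set G)).subtype)
    (ha : O ≠ ⊥ → IsCyclic ((S : Subgroup G) ⊓ Subgroup.centralizer (O : Set G) : Subgroup G) ∧
      ((S : Subgroup G) ⊓ Subgroup.centralizer (O : Set G)).relIndex (S : Subgroup G) = 2)
    (hb : ∀ s ∈ (S : Subgroup G), s ∉ Subgroup.centralizer (O : Set G) → ∀ y ∈ O, s * y * s⁻¹ = y⁻¹)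
    (hc : ∀ Y : Subgroup G, Y ≤ O → Y ≠ ⊥ → Subgroup.normalizer (Y : Set G) ≤ Subgroup.centralizer ({t} : Set G)) :
    ∃ (F : Type) (_ : Field F) (_ : Fintype F), Odd (Fintype.card F) ∧ Nonempty (G ≃* Matrix.ProjectiveSpecialLinearGroup (Fin 2) F) := by
  classical
  obtain ⟨e⟩ := hS
  set C := Subgroup.centralizer ({t} : Set G) with hC
  have hSC : (S : Subgroup G) ≤ C := by
    intro x hx
    rw [hC, Subgroup.mem_centralizer_singleton_iff]
    exact htZ x hx
  have hOC : O ≤ C := by
    rw [hO]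
    rintro _ ⟨x, -, rfl⟩
    exact x.2
  have hOn : ∀ c ∈ C, ∀ o ∈ O, c * o * c⁻¹ ∈ O := by
    intro c hc' o ho
    rw [hO] at ho ⊢
    obtain ⟨x, hx, rfl⟩ := ho
    refine ⟨⟨c, hc'⟩ * x * ⟨c, hc'⟩⁻¹, ?_, rfl⟩
    exact (inferInstance : (Cfsg.oddCore C).Normal).conj_mem x hx ⟨c, hc'⟩
  have hOodd : Odd (Nat.card O) := by
    have h1 : Nat.card O = Nat.card (Cfsg.oddCore C) := by
      rw [hO]
      exact (Nat.card_congr (Subgroup.equivMapOfInjective _ _ C.subtype_injective).toEquiv).symm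
    rw [h1]
    exact Nat.coprime_two_right.1 (Cfsg.Agent.Lib.Solvable.PSeries.pPrimeCore_coprime 2)
  have htO : ∀ o ∈ O, o * t = t * o := by
    intro o ho
    have := hOC ho
    rwa [hC, Subgroup.mem_centralizer_singleton_iff] at this
  obtain ⟨R, hRS, hidx, hcyc, htR, hRO, hinvO⟩ : ∃ R : Subgroup G, R ≤ S ∧ R.relIndex S = 2 ∧
      IsCyclic R ∧ t ∈ R ∧ (∀ r ∈ R, ∀ o ∈ O, r * o = o * r) ∧
      (∀ x ∈ (S : Subgroup G), x ∉ R → ∀ y ∈ O, x * y * x⁻¹ = y⁻¹) := by
    by_cases hO1 : O = ⊥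
    · obtain ⟨R, h1, h2, h3, h4⟩ := Cfsg.Agent.Lib.Zass.BSWDih.exists_R_of_dih hn e htS ht htZ
      refine ⟨R, h1, h2, h3, h4, ?_, ?_⟩
      · intro r _ o ho
        rw [hO1, Subgroup.mem_bot] at ho
        rw [ho]
        group
      · intro x _ _ y hy
        rw [hO1, Subgroup.mem_bot] at hy
        rw [hy]
        group
    · obtain ⟨h1, h2⟩ := ha hO1
      refine ⟨(S : Subgroup G) ⊓ Subgroup.centralizer (O : Set G), inf_le_left, h2, h1, ?_, ?_, ?_⟩
      · refine Subgroup.mem_inf.2 ⟨htS, ?_⟩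
        rw [Subgroup.mem_centralizer_iff]
        intro o ho
        exact htO o ho
      · intro r hr o ho
        have h3 := (Subgroup.mem_inf.1 hr).2
        rw [Subgroup.mem_centralizer_iff] at h3
        exact (h3 o ho).symm
      · intro x hx hxR y hy
        refine hb x hx ?_ y hy
        intro h3
        exact hxR (Subgroup.mem_inf.2 ⟨hx, h3⟩)
  have hout := Cfsg.Agent.Lib.Zass.BSWDih.out_of_dih hn e hRS hidx hcyc
  -- the normal complement
  have hcomp : Cfsg.HasNormalPComplement 2 C := by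
    have hF : Fact (Nat.Prime 2) := ⟨Nat.prime_two⟩
    refine Cfsg.Agent.Lib.Zass.BSWDih.normal_complement (S.subtype hSC) (R.subgroupOf C) ?_ ?_ ?_ ?_
      (τ := ⟨t, ?_⟩) ?_ ?_ ?_
    · rw [Sylow.coe_subtype]
      intro x hx
      exact Subgroup.mem_subgroupOf.2 (hRS (Subgroup.mem_subgroupOf.1 hx))
    · rw [Sylow.coe_subtype, Subgroup.relIndex_subgroupOf hSC]
      exact hidx
    · have h1 : R ≤ C := hRS.trans hSC
      exact isCyclic_of_surjective (Subgroup.subgroupOfEquivOfLe h1).symm.toMonoidHom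
        (MulEquiv.surjective _)
    · intro x hx hxR
      rw [Sylow.coe_subtype, Subgroup.mem_subgroupOf] at hx
      rw [Subgroup.mem_subgroupOf] at hxR
      apply Subtype.ext
      exact (hout _ hx hxR).1
    · exact hSC htS
    · exact Subgroup.mem_subgroupOf.2 htR
    · rw [Subgroup.orderOf_mk]
      exact ht
    · intro g
      apply Subtype.ext
      have h1 : (g : G) ∈ Subgroup.centralizer ({t} : Set G) := g.2
      rw [Subgroup.mem_centralizer_singleton_iff] at h1
      exact h1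
  have hCsup : ∀ c ∈ C, ∃ o ∈ O, ∃ x ∈ (S : Subgroup G), c = o * x := by
    have hF : Fact (Nat.Prime 2) := ⟨Nat.prime_two⟩
    obtain ⟨N, hNn, hNc⟩ := Cfsg.Agent.Lib.Transfer.Basic.exists_complement_of_hasNormalPComplement
      hcomp (S.subtype hSC)
    have hNle : N ≤ Cfsg.oddCore C := Cfsg.Agent.Lib.Basic.PCore.le_pPrimeCore hNn
      (Cfsg.Agent.Lib.Transfer.Basic.coprime_card_of_isComplement' hNc)
    intro c hc'
    obtain ⟨⟨⟨a, ha'⟩, ⟨b, hb'⟩⟩, hab, -⟩ := hNc.existsUnique ⟨c, hc'⟩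
    refine ⟨(a : G), ?_, (b : G), ?_, ?_⟩
    · rw [hO]
      exact ⟨a, hNle ha', rfl⟩
    · have h1 : b ∈ ((S.subtype hSC : Sylow 2 C) : Subgroup C) := hb'
      rw [Sylow.coe_subtype, Subgroup.mem_subgroupOf] at h1
      exact h1
    · exact (congrArg Subtype.val hab).symm
  let D : Cfsg.Agent.Lib.Zass.BSWDih.Data G :=
    { S := S, t := t, R := R, O := O, ht := ht, hRS := hRS, hidx := hidx, hcyc := hcyc, htR := htR
      hSC := hSC, hOC := hOC, hOn := hOn, hOodd := hOodd, hCsup := hCsup, hRO := hRO, hout := hout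
      hinvO := hinvO, hc := hc }
  have hcard : 4 ≤ Nat.card (S : Subgroup G) := by
    rw [Nat.card_congr e.toEquiv, DihedralGroup.nat_card]
    omega
  obtain ⟨K, i1, i2, hK, hiso⟩ := D.psl hcard
  refine ⟨K, i1, i2, ?_, hiso⟩
  have := FiniteField.odd_card_of_char_ne_two hK
  exact Nat.odd_iff.2 this

end Cfsg.Agent.S0508
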