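import Cfsg.Statements.S0519
import Mathlib
import Cfsg.Agent.Lib.PGroup.ModularCyclic

set_option autoImplicit false
open Cfsg

namespace Cfsg.Agent.S0519

open Cfsg.Agent.Lib.PGroup.CyclicMax Cfsg.Agent.Lib.PGroup.CyclicMax2 Cfsg.Agent.Lib.PGroup.ModularCyclic

/-- An elementary abelian group of order `p²` is not cyclic. -/
theorem not_cyclic_of_elem {P : Type*} [Group P] {p : ℕ} (hp : p.Prime) {E : Subgroup P} (hE : Cfsg.IsElementaryAbelian p E)
    (hc : Nat.card E = p ^ 2) : ¬ IsCyclic E := by
  intro hcyc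
  obtain ⟨g, hg⟩ := hcyc.exists_generator
  have h1 : orderOf g = Nat.card E := orderOf_eq_card_of_forall_mem_zpowers hg
  have h2 : g ^ p = 1 := by
    apply Subtype.ext
    simpa using hE.2 g g.2
  have h3 := orderOf_dvd_of_pow_eq_one h2
  rw [h1, hc] at h3
  have h4 := Nat.le_of_dvd hp.pos h3
  have := hp.two_le
  nlinarith

/-- Let P be a finite p-group in which every abelian normal subgroup is cyclic, but which has a non-cyclic abelian
subgroup. Then p = 2 and P is generalized quaternion, dihedral of order at least 16, or quasi-dihedral. -/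
theorem result {P : Type*} [Group P] [Finite P] (p : ℕ) [Fact p.Prime]
    (hP : IsPGroup p P) (hn : ∀ A : Subgroup P, A.Normal → IsMulCommutative A → IsCyclic A)
    (hm : ∃ B : Subgroup P, IsMulCommutative B ∧ ¬ IsCyclic B) :
    p = 2 ∧ ((∃ n : ℕ, Nonempty (P ≃* QuaternionGroup n)) ∨ (∃ n : ℕ, 8 ≤ n ∧ Nonempty (P ≃* DihedralGroup n)) ∨
      Cfsg.IsQuasiDihedral P) := by
  have hp' : p.Prime := Fact.out
  obtain ⟨A, hAn, hAc, hAC⟩ := exists_selfCentralizing hP
  obtain ⟨u, n, rfl, hSC⟩ := sc_of_selfCentralizing hP hAn hAC (hn A hAn hAc)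
  have hne : Subgroup.zpowers u ≠ ⊤ := by
    intro ht
    obtain ⟨B, _, hB⟩ := hm
    apply hB
    have : IsCyclic P := isCyclic_iff_exists_zpowers_eq_top.mpr ⟨u, ht⟩
    exact Subgroup.isCyclic B
  obtain ⟨hn2, hmain⟩ := hSC.main hne
  rcases hmain with ⟨rfl, hcard, b, hb, hb2⟩ | ⟨hp2, b, hb, hbp, hbu⟩
  · refine ⟨rfl, ?_⟩
    rcases hb2 with ⟨h1, h2 | h2⟩ | ⟨h3, h1, h2⟩
    · right; left
      refine ⟨2 ^ n, ?_, dihedral_of_data hSC.hu hcard hb h1 h2⟩
      -- `n = 2` is impossible: the Klein four subgroup is normal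
      by_contra hlt
      have hn3 : n = 2 := by
        by_contra hne2
        apply hlt
        have : 3 ≤ n := by omega
        calc 8 = 2 ^ 3 := by norm_num
          _ ≤ 2 ^ n := Nat.pow_le_pow_right (by norm_num) this
      subst hn3
      have hE := EE_elementary hSC hn2 h2
      have hEc := EE_card hSC hn2 hb h2
      have hindex : (EE 2 2 u b).index = 2 := by
        have h4 := Subgroup.card_mul_index (EE 2 2 u b)
        rw [hEc, hcard] at h4
        omega
      have hnorm : (EE 2 2 u b).Normal := Subgroup.normal_of_index_eq_two hindex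
      exact not_cyclic_of_elem hp' hE hEc (hn _ hnorm hE.1)
    · left
      exact ⟨_, quaternion_of_data (by omega) hSC.hu hcard hb h1 h2⟩
    · right; right
      refine ⟨n, h3, hcard, u, b, hSC.hu, ?_, h1⟩
      apply orderOf_eq_prime h2
      rintro rfl
      exact hb (one_mem _)
  · exfalso
    have hE := EE_elementary hSC hn2 hbp
    have hEc := EE_card hSC hn2 hb hbp
    have hchar := omegaOne_characteristic hSC hn2 hp2 hb hbp hbu
    rw [omegaOne_eq hSC hn2 hp2 hbp hbu] at hchar
    exact not_cyclic_of_elem hp' hE hEc (hn _ inferInstance hE.1)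

end Cfsg.Agent.S0519
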