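import Cfsg.Statements.S0521
import Mathlib
import Cfsg.Agent.Lib.Solvable.Stability
import Cfsg.Agent.Lib.Coprime.Three

set_option autoImplicit false
open Cfsg

namespace Cfsg.Agent.S0521

open Subgroup Cfsg.Agent.Lib.Basic.PCore Cfsg.Agent.Lib.Solvable.PSeries
open Cfsg.Agent.Lib.Solvable.Stability
open scoped commutatorElement

set_option linter.style.haveILetI false

/-- A `p`-element acting on an element `τ` of order dividing `p` by a power map fixes `τ`. -/
theorem comm_of_pow_conj {Q : Type*} [Group Q] {p : ℕ} [Fact p.Prime] {b τ : Q} {k e : ℕ}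
    (h : b * τ * b⁻¹ = τ ^ k) (hb : b ^ p ^ e = 1) (hτ : τ ^ p = 1) : b * τ = τ * b := by
  have key : ∀ i : ℕ, b ^ i * τ * (b ^ i)⁻¹ = τ ^ (k ^ i) := by
    intro i
    induction i with
    | zero => simp
    | succ i ih =>
      have h1 : b ^ (i + 1) * τ * (b ^ (i + 1))⁻¹ = b * (b ^ i * τ * (b ^ i)⁻¹) * b⁻¹ := by
        rw [pow_succ']; group
      rw [h1, ih]
      have h2 : b * τ ^ (k ^ i) * b⁻¹ = (b * τ * b⁻¹) ^ (k ^ i) := by
        rw [conj_pow]
      rw [h2, h, ← pow_mul, pow_succ', mul_comm]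
  have h1 := key (p ^ e)
  rw [hb, one_mul, inv_one, mul_one] at h1
  have hm : k ^ p ^ e ≡ k [MOD p] := by
    rw [← ZMod.natCast_eq_natCast_iff]
    push_cast
    exact ZMod.pow_card_pow (p := p) _
  have h2 : τ ^ (k ^ p ^ e) = τ ^ k := by
    rw [pow_eq_pow_iff_modEq]
    exact Nat.ModEq.of_dvd (orderOf_dvd_of_pow_eq_one hτ) hm
  rw [← h2, ← h1] at h
  rwa [mul_inv_eq_iff_eq_mul] at h

/-- Conjugation by an element normalising a cyclic subgroup acts as a power map on each element. -/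
theorem exists_pow_conj {Q : Type*} [Group Q] [Finite Q] {Z : Subgroup Q} (hZ : IsCyclic Z) {a d : Q}
    (ha : a ∈ normalizer (Z : Set Q)) (hd : d ∈ Z) : ∃ k : ℕ, a * d * a⁻¹ = d ^ k := by
  obtain ⟨g, hg⟩ := hZ.exists_generator
  have hpow : ∀ x : Z, ∃ n : ℕ, g ^ n = x := by
    intro x
    have := hg x
    rw [← mem_powers_iff_mem_zpowers] at this
    exact this
  have hag : a * (g : Q) * a⁻¹ ∈ Z := (mem_normalizer_iff.mp ha g).mp g.2
  obtain ⟨k, hk⟩ := hpow ⟨_, hag⟩
  obtain ⟨j, hj⟩ := hpow ⟨d, hd⟩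
  have hk' : (g : Q) ^ k = a * g * a⁻¹ := congrArg Subtype.val hk
  have hj' : (g : Q) ^ j = d := congrArg Subtype.val hj
  refine ⟨k, ?_⟩
  rw [← hj', ← conj_pow, ← hk', ← pow_mul, ← pow_mul, mul_comm]


/-- Let X be a finite solvable group of odd order, p a prime and S a Sylow p-subgroup of X whose commutator subgroup is
cyclic. Then the product of the largest normal subgroup of X of order prime to p with S is a normal subgroup of X. -/
theorem result {X : Type*} [Group X] [Finite X] [Group.IsSolvable X]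
    (hX : Odd (Nat.card X)) (p : ℕ) [Fact p.Prime] (S : Sylow p X) (hS : IsCyclic (commutator (S : Subgroup X))) :
    (Cfsg.pPrimeCore p X ⊔ (S : Subgroup X)).Normal := by
  classical
  set K := pPrimeCore p X with hK
  haveI hKn : K.Normal := pPrimeCore_normal p X
  by_cases hp2 : p = 2
  · have hbot : (S : Subgroup X) = ⊥ := by
      rw [eq_bot_iff]
      intro a ha
      have h1 : orderOf a ∣ Nat.card (S : Subgroup X) := Subgroup.orderOf_dvd_natCard _ ha
      have h2 : orderOf a ∣ Nat.card X := h1.trans (Subgroup.card_subgroup_dvd_card _)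
      obtain ⟨k, hk⟩ := IsPGroup.iff_card.mp S.isPGroup'
      rw [hk] at h1
      have hodd' : Odd (orderOf a) := Odd.of_dvd_nat hX h2
      obtain ⟨j, -, hj⟩ := (Nat.dvd_prime_pow (Fact.out : p.Prime)).mp h1
      have ha1 : orderOf a = 1 := by
        rcases j with _ | j
        · simpa using hj
        · rw [hj, hp2] at hodd'
          simp [pow_succ, Nat.odd_iff] at hodd'
      rw [mem_bot]
      exact orderOf_eq_one_iff.mp ha1
    rw [hbot, sup_bot_eq]
    exact hKn
  set π : X →* X ⧸ K := QuotientGroup.mk' K with hπ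
  have hπs : Function.Surjective π := QuotientGroup.mk'_surjective K
  have hsol : IsPSolvable p (X ⧸ K) := isPSolvable_of_solvable
  have hq : QHyp p (Nat.card (X ⧸ K)) :=
    Or.inr ⟨hp2, Odd.of_dvd_nat hX (Subgroup.card_quotient_dvd_card K)⟩
  -- the image of the derived subgroup of `S`
  set f : (S : Subgroup X) →* X ⧸ K := π.comp (S : Subgroup X).subtype with hf
  set Zb : Subgroup (X ⧸ K) := (commutator (S : Subgroup X)).map f with hZb
  have hZc : IsCyclic Zb := by
    haveI := hS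
    exact isCyclic_of_surjective (f.subgroupMap _) (f.subgroupMap_surjective _)
  have hSP : pCore p (X ⧸ K) ≤ (S : Subgroup X).map π := by
    have h1 : pCore p (X ⧸ K) ≤ ((S.mapSurjective hπs : Sylow p (X ⧸ K)) : Subgroup (X ⧸ K)) :=
      pCore_le_sylow _
    rwa [Sylow.coe_mapSurjective] at h1
  have hmain : ∀ x ∈ (S : Subgroup X), π x ∈ pCore p (X ⧸ K) := by
    intro x hx
    apply mem_pCore_of_sectionQuad hq hsol (pPrimeCore_quotient p)
    intro R L hRn hLn hLR hRP hcomm hpow r hr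
    obtain ⟨s, hs, rfl⟩ := hSP (hRP hr)
    set a := π x with ha
    set d := a * π s * a⁻¹ * (π s)⁻¹ with hd
    have hdR : d ∈ R := R.mul_mem (hRn.conj_mem _ hr a) (R.inv_mem hr)
    have hdZ : d ∈ Zb := by
      refine ⟨⁅(⟨x, hx⟩ : (S : Subgroup X)), ⟨s, hs⟩⁆, ?_, ?_⟩
      · exact Subgroup.commutator_mem_commutator (mem_top _) (mem_top _)
      · simp [hf, commutatorElement_def, hd, ha]
    have haZ : a ∈ normalizer (Zb : Set (X ⧸ K)) := by
      apply Cfsg.Agent.Lib.Coprime.Three.mem_normalizer_of_conj_mem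
      rintro _ ⟨z, hz, rfl⟩
      refine ⟨(⟨x, hx⟩ : (S : Subgroup X)) * z * (⟨x, hx⟩ : (S : Subgroup X))⁻¹, ?_, ?_⟩
      · exact (show (_root_.commutator (S : Subgroup X)).Normal from inferInstance).conj_mem z hz _
      · simp [hf, ha]
    obtain ⟨k, hk⟩ := exists_pow_conj hZc haZ hdZ
    -- pass to the quotient by `L`
    set τ : (X ⧸ K) ⧸ L := ((d : X ⧸ K) : (X ⧸ K) ⧸ L) with hτ
    obtain ⟨e, he⟩ := S.isPGroup' ⟨x, hx⟩
    have he' : x ^ p ^ e = 1 := congrArg Subtype.val he
    have h1 : ((a : X ⧸ K) : (X ⧸ K) ⧸ L) * τ * ((a : X ⧸ K) : (X ⧸ K) ⧸ L)⁻¹ = τ ^ k := by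
      rw [hτ, ← QuotientGroup.mk_mul, ← QuotientGroup.mk_inv, ← QuotientGroup.mk_mul, hk,
        QuotientGroup.mk_pow]
    have h2 : ((a : X ⧸ K) : (X ⧸ K) ⧸ L) ^ p ^ e = 1 := by
      rw [← QuotientGroup.mk_pow, ha, ← map_pow, he', map_one, QuotientGroup.mk_one]
    have h3 : τ ^ p = 1 := by
      rw [hτ, ← QuotientGroup.mk_pow, QuotientGroup.eq_one_iff]
      exact hpow d hdR
    have h4 := comm_of_pow_conj h1 h2 h3
    rw [← QuotientGroup.eq_one_iff, QuotientGroup.mk_mul, QuotientGroup.mk_mul, QuotientGroup.mk_mul,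
      QuotientGroup.mk_inv, QuotientGroup.mk_inv, h4, mul_inv_cancel_right, hτ, mul_inv_cancel]
  have heq : K ⊔ (S : Subgroup X) = (pCore p (X ⧸ K)).comap π := by
    apply le_antisymm
    · apply sup_le
      · intro y hy
        have : π y = 1 := (QuotientGroup.eq_one_iff y).mpr hy
        rw [Subgroup.mem_comap, this]
        exact Subgroup.one_mem _
      · exact fun y hy => hmain y hy
    · intro y hy
      obtain ⟨s, hs, hsy⟩ := hSP hy
      have hk : s⁻¹ * y ∈ K := by
        rw [← QuotientGroup.eq_one_iff, QuotientGroup.mk_mul, QuotientGroup.mk_inv]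
        have : (s : X ⧸ K) = (y : X ⧸ K) := hsy
        rw [this, inv_mul_cancel]
      have h1 : y = s * (s⁻¹ * y) := by group
      rw [h1]
      exact Subgroup.mul_mem _ ((le_sup_right : (S : Subgroup X) ≤ _) hs) ((le_sup_left : K ≤ _) hk)
  rw [heq]
  exact Subgroup.Normal.comap (pCore_normal p _) _


end Cfsg.Agent.S0521
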