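import Cfsg.Statements.S1480
import Mathlib
import Cfsg.Agent.Lib.Coprime.TransCore
import Cfsg.Agent.Lib.Coprime.TransL
import Cfsg.Agent.Lib.Components.Transport
-- import your own Cfsg.Agent.* helpers here

set_option autoImplicit false
open Cfsg

namespace Cfsg.Agent.S1480

set_option linter.style.haveILetI false
set_option linter.unusedSectionVars false

open Cfsg.Agent.Lib.Coprime
open Cfsg.Agent.Lib.Components
open scoped commutatorElement

theorem comm3_of_class_le_two {S : Type*} [Group S] [Group.IsNilpotent S]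
    (h : Group.nilpotencyClass S ≤ 2) (a b c : S) : ⁅⁅a, b⁆, c⁆ = 1 := by
  have h1 : (⊤ : Subgroup S).lowerCentralSeries 2 = ⊥ := by
    rw [eq_bot_iff, ← Subgroup.lowerCentralSeries_nilpotencyClass]
    exact Subgroup.lowerCentralSeries_antitone _ h
  have h2 : ⁅⁅a, b⁆, c⁆ ∈ (⊤ : Subgroup S).lowerCentralSeries 2 := by
    rw [Subgroup.lowerCentralSeries_succ]
    refine Subgroup.commutator_mem_commutator ?_ (Subgroup.mem_top c)
    rw [Subgroup.lowerCentralSeries_succ]
    exact Subgroup.commutator_mem_commutator (by simp) (Subgroup.mem_top b)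
  rw [h1] at h2
  exact h2

/-- `p'`-elements of `C_G(E)` lie in `O_{p'}(C_G(E))` when `E` is an abelian group containing all
`p`-elements of `C_G(E)`. -/
theorem mem_piCoreOf_of_coprime {G : Type*} [Group G] [Finite G] (p : ℕ) [hp : Fact p.Prime]
    (E : Subgroup G) (hEp : IsPGroup p E) (hEc : IsMulCommutative E)
    (hEfull : ∀ x ∈ Subgroup.centralizer (E : Set G), IsPGroup p (Subgroup.zpowers x) → x ∈ E)
    (c : G) (hcC : c ∈ Subgroup.centralizer (E : Set G)) (hc : (orderOf c).Coprime p) :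
    c ∈ Cfsg.piCoreOf (Cfsg.primesNotDvd p) (Subgroup.centralizer (E : Set G)) := by
  classical
  set C : Subgroup G := Subgroup.centralizer (E : Set G) with hCdef
  have hEC : E ≤ C := by
    intro e he
    rw [hCdef, Subgroup.mem_centralizer_iff]
    intro d hd
    have := hEc.is_comm.comm ⟨d, hd⟩ ⟨e, he⟩
    simpa using congrArg Subtype.val this
  let N : Subgroup C := E.subgroupOf C
  have hNcentral : ∀ n ∈ N, ∀ g : C, n * g = g * n := by
    intro n hn g
    apply Subtype.ext
    have := Subgroup.mem_centralizer_iff.mp g.2 n (Subgroup.mem_subgroupOf.mp hn)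
    exact this
  haveI hNn : N.Normal := by
    constructor
    intro n hn g
    have : g * n * g⁻¹ = n := by
      rw [← hNcentral n hn g]; group
    rwa [this]
  have hNp : IsPGroup p N := hEp.comap_subtype
  -- the index of `N` is prime to `p`
  obtain ⟨P⟩ : Nonempty (Sylow p C) := inferInstance
  have hPN : (P : Subgroup C) ≤ N := by
    intro x hx
    rw [Subgroup.mem_subgroupOf]
    apply hEfull x x.2
    obtain ⟨k, hk⟩ := P.isPGroup' ⟨x, hx⟩
    have hk' : (x : G) ^ p ^ k = 1 := by
      have := congrArg (fun y : P => ((y : C) : G)) hk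
      simpa using this
    exact TransL.isPGroup_zpowers_of_pow_eq_one hk'
  have hidx : ¬ p ∣ N.index := fun h => P.not_dvd_index (h.trans (Subgroup.index_dvd_of_le hPN))
  have hcop : (Nat.card N).Coprime N.index := by
    obtain ⟨k, hk⟩ := IsPGroup.iff_card.mp hNp
    rw [hk]
    exact Nat.Coprime.pow_left k ((Nat.Prime.coprime_iff_not_dvd hp.out).mpr hidx)
  obtain ⟨H, hH⟩ := Subgroup.exists_right_complement'_of_coprime hcop
  have hHcard : ¬ p ∣ Nat.card H := by
    have h1 : N.index = Nat.card H := hH.symm.index_eq_card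
    rwa [← h1]
  have hsup : ∀ g : C, ∃ n ∈ N, ∃ h ∈ H, n * h = g := by
    intro g
    have h1 : g ∈ N ⊔ H := by rw [hH.sup_eq_top]; trivial
    exact Subgroup.mem_sup_of_normal_left.mp h1
  have hHn : H.Normal := by
    constructor
    intro h hh g
    obtain ⟨n, hn, h', hh', rfl⟩ := hsup g
    have h1 : n * h' * h * (n * h')⁻¹ = h' * h * h'⁻¹ := by
      have h2 : n * (h' * h) = (h' * h) * n := hNcentral n hn _
      calc n * h' * h * (n * h')⁻¹ = (n * (h' * h)) * h'⁻¹ * n⁻¹ := by group
        _ = (h' * h) * n * h'⁻¹ * n⁻¹ := by rw [h2]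
        _ = h' * h * (n * h'⁻¹ * n⁻¹) := by group
        _ = h' * h * h'⁻¹ := by
          have h3 : n * h'⁻¹ = h'⁻¹ * n := hNcentral n hn _
          rw [h3]; group
    rw [h1]
    exact H.mul_mem (H.mul_mem hh' hh) (H.inv_mem hh')
  have hHcore : H ≤ Cfsg.piCore (Cfsg.primesNotDvd p) C := by
    refine le_sSup ⟨hHn, fun r hr hrd => ⟨hr, fun hdvd => ?_⟩⟩
    have : r = p := (Nat.prime_dvd_prime_iff_eq hr hp.out).mp hdvd
    exact hHcard (this ▸ hrd)
  obtain ⟨n, hn, h, hh, hnh⟩ := hsup ⟨c, hcC⟩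
  have hn1 : n = 1 := by
    set m := orderOf c * Nat.card H with hm
    have hcomm : Commute n h := hNcentral n hn h
    have h1 : (⟨c, hcC⟩ : C) ^ m = 1 := by
      apply Subtype.ext
      simp [hm, pow_mul, pow_orderOf_eq_one]
    have h2 : h ^ m = 1 := by
      have h3 : (⟨h, hh⟩ : H) ^ Nat.card H = 1 := pow_card_eq_one'
      have h4 : h ^ Nat.card H = 1 := congrArg (fun y : H => (y : C)) h3
      rw [hm, mul_comm, pow_mul, h4, one_pow]
    have h3 : n ^ m = 1 := by
      have := hcomm.mul_pow m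
      rw [hnh, h1, h2, mul_one] at this
      exact this.symm
    obtain ⟨k, hk⟩ := hNp ⟨n, hn⟩
    have hk' : n ^ p ^ k = 1 := by simpa using congrArg Subtype.val hk
    have hmc : m.Coprime (p ^ k) := by
      apply Nat.Coprime.pow_right
      exact Nat.Coprime.mul_left hc ((Nat.Prime.coprime_iff_not_dvd hp.out).mpr hHcard).symm
    have h4 := orderOf_dvd_of_pow_eq_one h3
    have h5 := orderOf_dvd_of_pow_eq_one hk'
    exact orderOf_eq_one_iff.mp (Nat.eq_one_of_dvd_coprimes hmc h4 h5)
  rw [hn1, one_mul] at hnh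
  exact ⟨⟨c, hcC⟩, hHcore (hnh ▸ hh), rfl⟩

/-- Let G be a finite group and p a prime such that the normalizer of every nontrivial p-subgroup of G is p-constrained; if p = 2 assume also that the Sylow 2-subgroups of G have nilpotency class at most 2. Let E be an abelian p-subgroup containing an elementary abelian subgroup of order p ^ 3 and containing every element of p-power order of C_G(E). Then for every prime q ≠ p, any two maximal E-invariant q-subgroups of G are conjugate by an element of O_{p'}(C_G(E)). -/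
theorem result {G : Type*} [Group G] [Finite G] (p : ℕ) [Fact p.Prime]
    (hloc : ∀ T : Subgroup G, IsPGroup p T → T ≠ ⊥ → Cfsg.IsPConstrained p ↥(Subgroup.normalizer (T : Set G)))
    (h2 : p = 2 → ∀ S : Sylow p G, Group.IsNilpotent (S : Subgroup G) ∧ Group.nilpotencyClass (S : Subgroup G) ≤ 2)
    (E : Subgroup G) (hEp : IsPGroup p E) (hEc : IsMulCommutative E) (hE3 : ¬ Cfsg.PRankLE p 2 E)
    (hEfull : ∀ x ∈ Subgroup.centralizer (E : Set G), IsPGroup p (Subgroup.zpowers x) → x ∈ E)
    (q : ℕ) [Fact q.Prime] (hqp : q ≠ p) :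
    ∀ Q₁ ∈ Cfsg.maxInvSubgroups ⊤ E {q}, ∀ Q₂ ∈ Cfsg.maxInvSubgroups ⊤ E {q},
        ∃ k ∈ Cfsg.piCoreOf (Cfsg.primesNotDvd p) (Subgroup.centralizer (E : Set G)), Q₂ = Q₁.map (MulAut.conj k).toMonoidHom := by
  classical
  have hpp : p.Prime := Fact.out
  -- the elementary abelian subgroup
  have hE3' := hE3
  unfold Cfsg.PRankLE at hE3'
  push Not at hE3'
  obtain ⟨A, hAc, hAp, hAcard⟩ := hE3'
  set E₀ : Subgroup G := A.map E.subtype with hE₀def
  have hE₀E : E₀ ≤ E := by
    rintro _ ⟨a, _, rfl⟩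
    exact a.2
  have hEcomm : ∀ a ∈ E, ∀ b ∈ E, a * b = b * a := by
    intro a ha b hb
    have := hEc.is_comm.comm ⟨a, ha⟩ ⟨b, hb⟩
    simpa using congrArg Subtype.val this
  have hE₀c : E₀ ≤ Subgroup.centralizer (E : Set G) := by
    intro a ha
    rw [Subgroup.mem_centralizer_iff]
    intro b hb
    exact hEcomm b hb a (hE₀E ha)
  have hE₀ : Cfsg.IsElementaryAbelian p E₀ := by
    refine ⟨⟨⟨?_⟩⟩, ?_⟩
    · rintro ⟨a, ha⟩ ⟨b, hb⟩
      apply Subtype.ext
      exact hEcomm a (hE₀E ha) b (hE₀E hb)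
    · rintro _ ⟨a, ha, rfl⟩
      have h1 := hAp a ha
      have h2 := congrArg Subtype.val h1
      simpa using h2
  have hE₀3 : p ^ 2 < Nat.card E₀ := by
    have h1 : Nat.card E₀ = Nat.card A :=
      Nat.card_congr (Subgroup.equivMapOfInjective A _ E.subtype_injective).symm.toEquiv
    rw [h1]
    exact hAcard
  have hEcard : ∀ k : ℕ, Nat.card E = p ^ k → ¬ q ∣ Nat.card E := by
    intro k hk hdvd
    rw [hk] at hdvd
    exact hqp ((Nat.prime_dvd_prime_iff_eq Fact.out hpp).mp ((Fact.out : q.Prime).dvd_of_dvd_pow hdvd))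
  have hq : ¬ q ∣ Nat.card E := by
    obtain ⟨k, hk⟩ := IsPGroup.iff_card.mp hEp
    exact hEcard k hk
  have hsolv : Group.IsSolvable E := by
    have := hEp.isNilpotent
    infer_instance
  refine TransCore.trans_core E E₀ _ p q hsolv hq hE₀E hE₀c hE₀ hE₀3 ?_
  -- the local analysis
  intro a haE₀ ha1
  have haE : a ∈ E := hE₀E haE₀
  set X : Subgroup G := Subgroup.normalizer ((Subgroup.zpowers a : Subgroup G) : Set G) with hX
  have hzp : IsPGroup p (Subgroup.zpowers a) := hEp.to_le ((Subgroup.zpowers_le).mpr haE)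
  have hzne : Subgroup.zpowers a ≠ ⊥ := by
    intro h
    exact ha1 (Subgroup.zpowers_eq_bot.mp h)
  have hXcon : Cfsg.IsPConstrained p X := hloc _ hzp hzne
  -- centraliser of `a` lies in `X`
  have hCX : Subgroup.centralizer ({a} : Set G) ≤ X := by
    intro g hg
    rw [hX, Subgroup.mem_normalizer_iff]
    have hcomm : g * a = a * g := by
      exact Subgroup.mem_centralizer_singleton_iff.mp hg
    have hconj : g * a * g⁻¹ = a := by rw [hcomm]; group
    intro y
    constructor
    · rintro ⟨n, rfl⟩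
      refine ⟨n, ?_⟩
      show a ^ n = g * a ^ n * g⁻¹
      rw [← conj_zpow, hconj]
    · rintro ⟨n, hn⟩
      refine ⟨n, ?_⟩
      have hn' : a ^ n = g * y * g⁻¹ := hn
      have h1 : g * a ^ n * g⁻¹ = a ^ n := by rw [← conj_zpow, hconj]
      have h2 : g * a ^ n * g⁻¹ = g * y * g⁻¹ := h1.trans hn'
      show a ^ n = y
      simpa using h2
  have hEX : E ≤ X := by
    refine le_trans ?_ hCX
    intro e he
    rw [Subgroup.mem_centralizer_singleton_iff]
    exact hEcomm e he a haE
  refine ⟨(pPrimeCore p X).map X.subtype, ?_, ?_, ?_, ?_⟩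
  · -- coprimality
    have h1 : Nat.card ((pPrimeCore p X).map X.subtype) = Nat.card (pPrimeCore p X) :=
      Nat.card_congr (Subgroup.equivMapOfInjective _ _ X.subtype_injective).symm.toEquiv
    rw [h1]
    obtain ⟨k, hk⟩ := IsPGroup.iff_card.mp hEp
    rw [hk]
    exact Nat.Coprime.pow_left k (Cfsg.Agent.Lib.Components.Transport.coprime_card_pPrimeCore p).symm
  · -- normalised by `E`
    intro e he
    apply Three.mem_normalizer_of_conj_mem
    rintro _ ⟨k, hk, rfl⟩
    have := (Cfsg.Agent.Lib.Basic.PCore.pPrimeCore_normal p X).conj_mem k hk ⟨e, hEX he⟩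
    exact ⟨_, this, rfl⟩
  · -- intersection with the centraliser
    intro c hc
    obtain ⟨hc1, hc2⟩ := Subgroup.mem_inf.mp hc
    obtain ⟨k, hk, rfl⟩ := hc1
    refine mem_piCoreOf_of_coprime p E hEp hEc hEfull _ hc2 ?_
    have h1 : orderOf ((X.subtype) k) = orderOf k := Subgroup.orderOf_coe k
    rw [h1]
    exact Nat.Coprime.coprime_dvd_left (Subgroup.orderOf_dvd_natCard _ hk)
      (Cfsg.Agent.Lib.Components.Transport.coprime_card_pPrimeCore p)
  · -- the `q`-subgroups
    intro T hTq hET hTC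
    have hTX : T ≤ X := hTC.trans hCX
    have hL := TransL.L p hXcon (E.subgroupOf X) (T.subgroupOf X) hEp.comap_subtype ?_ ?_ ?_ ?_ ?_
    · intro t ht
      have := hL (Subgroup.mem_subgroupOf.mpr ht : (⟨t, hTX ht⟩ : X) ∈ T.subgroupOf X)
      exact ⟨_, this, rfl⟩
    · -- commutative
      refine ⟨⟨?_⟩⟩
      rintro ⟨a, ha⟩ ⟨b, hb⟩
      apply Subtype.ext
      apply Subtype.ext
      exact hEcomm _ (Subgroup.mem_subgroupOf.mp ha) _ (Subgroup.mem_subgroupOf.mp hb)
    · -- `p`-elements
      intro y hy hyp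
      rw [Subgroup.mem_subgroupOf]
      apply hEfull (y : G)
      · rw [Subgroup.mem_centralizer_iff]
        intro e he
        have h1 := Subgroup.mem_centralizer_iff.mp hy ⟨e, hEX he⟩
          (Subgroup.mem_subgroupOf.mpr he)
        simpa using congrArg Subtype.val h1
      · obtain ⟨k, hk⟩ := TransL.exists_pow_eq_one_of_isPGroup_zpowers hyp
        have hk' : (y : G) ^ p ^ k = 1 := by simpa using congrArg Subtype.val hk
        exact TransL.isPGroup_zpowers_of_pow_eq_one hk'
    · -- class two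
      intro hp2 P hP a ha b hb c hc
      obtain ⟨S₀, hS₀⟩ := (hP.map X.subtype).exists_le_sylow
      obtain ⟨h3, h4⟩ := h2 hp2 S₀
      have h5 := comm3_of_class_le_two h4 (⟨(a : G), hS₀ ⟨a, ha, rfl⟩⟩ : S₀)
        ⟨(b : G), hS₀ ⟨b, hb, rfl⟩⟩ ⟨(c : G), hS₀ ⟨c, hc, rfl⟩⟩
      apply Subtype.ext
      have h6 := congrArg Subtype.val h5
      simpa [commutatorElement_def] using h6
    · -- order
      intro hdvd
      have h1 : Nat.card (T.subgroupOf X) = Nat.card T :=
        Nat.card_congr (Subgroup.subgroupOfEquivOfLe hTX).toEquiv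
      rw [h1] at hdvd
      obtain ⟨k, hk⟩ := IsPGroup.iff_card.mp hTq
      rw [hk] at hdvd
      exact hqp ((Nat.prime_dvd_prime_iff_eq hpp Fact.out).mp (hpp.dvd_of_dvd_pow hdvd)).symm
    · -- invariance
      intro e he
      have h1 : (e : G) ∈ Subgroup.normalizer (T : Set G) := hET (Subgroup.mem_subgroupOf.mp he)
      rw [Subgroup.mem_normalizer_iff] at h1 ⊢
      intro y
      have := h1 y
      simpa [Subgroup.mem_subgroupOf] using this

end Cfsg.Agent.S1480
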