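import Cfsg.Statements.S0522
import Mathlib
import Cfsg.Agent.S1480
import Cfsg.Agent.Lib.Coprime.THBasic
import Cfsg.Agent.Lib.Coprime.TransCore
-- import your own Cfsg.Agent.* helpers here

set_option autoImplicit false
open Cfsg

namespace Cfsg.Agent.S0522

/-- Transitivity Theorem (odd-order setting). Let X be a finite group of odd order in which the normalizer of every
nontrivial p-subgroup is solvable, P a Sylow p-subgroup, and B an abelian subgroup of P, normalized by P, with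
C_P(B) = B and containing an elementary abelian subgroup of order p^3. Then for every prime q ≠ p, any two q-subgroups
that are maximal among the q-subgroups normalized by B are conjugate by an element of the centralizer of B. -/
theorem result {X : Type*} [Group X] [Finite X] (hX : Odd (Nat.card X)) (p : ℕ)
    [Fact p.Prime] (hloc : ∀ T : Subgroup X, IsPGroup p T → T ≠ ⊥ → Group.IsSolvable (Subgroup.normalizer (T : Set X)))
    (P : Sylow p X) (B : Subgroup X) (hBP : B ≤ (P : Subgroup X))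
    (hBn : ∀ x ∈ (P : Subgroup X), ∀ b ∈ B, x * b * x⁻¹ ∈ B) (hBa : IsMulCommutative B)
    (hBc : (P : Subgroup X) ⊓ Subgroup.centralizer (B : Set X) = B)
    (hB3 : ∃ E : Subgroup X, E ≤ B ∧ (∀ e ∈ E, e ^ p = 1) ∧ p ^ 3 ≤ Nat.card E)
    (q : ℕ) [Fact q.Prime] (hqp : q ≠ p) (Q₁ Q₂ : Subgroup X)
    (h₁ : IsPGroup q Q₁ ∧ B ≤ Subgroup.normalizer (Q₁ : Set X) ∧
      ∀ R : Subgroup X, IsPGroup q R → B ≤ Subgroup.normalizer (R : Set X) → Q₁ ≤ R → R = Q₁)
    (h₂ : IsPGroup q Q₂ ∧ B ≤ Subgroup.normalizer (Q₂ : Set X) ∧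
      ∀ R : Subgroup X, IsPGroup q R → B ≤ Subgroup.normalizer (R : Set X) → Q₂ ≤ R → R = Q₂) :
    ∃ c ∈ Subgroup.centralizer (B : Set X), Q₂ = Q₁.map (MulAut.conj c).toMonoidHom := by
  classical
  have hpp : p.Prime := Fact.out
  obtain ⟨E, hEB, hEp, hE3⟩ := hB3
  have hBp : IsPGroup p B := P.isPGroup'.to_le hBP
  have hBnorm : (P : Subgroup X) ≤ Subgroup.normalizer (B : Set X) :=
    fun x hx => Cfsg.Agent.Lib.Coprime.Three.mem_normalizer_of_conj_mem (fun b hb => hBn x hx b hb)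
  have hBcomm : ∀ a ∈ B, ∀ b ∈ B, a * b = b * a := by
    intro a ha b hb
    have := hBa.is_comm.comm ⟨a, ha⟩ ⟨b, hb⟩
    simpa using congrArg Subtype.val this
  have hloc' : ∀ T : Subgroup X, IsPGroup p T → T ≠ ⊥ →
      Cfsg.IsPConstrained p ↥(Subgroup.normalizer (T : Set X)) :=
    fun T h1 h2 => Cfsg.Agent.Lib.Coprime.THBasic.isPConstrained_of_isSolvable p (hloc T h1 h2)
  have h2 : p = 2 → ∀ S : Sylow p X, Group.IsNilpotent (S : Subgroup X) ∧
      Group.nilpotencyClass (S : Subgroup X) ≤ 2 := by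
    intro hp2
    exfalso
    have h1 : IsPGroup p E := hBp.to_le hEB
    obtain ⟨k, hk⟩ := IsPGroup.iff_card.mp h1
    have h3 : Nat.card E ∣ Nat.card X := Subgroup.card_subgroup_dvd_card E
    have h4 : Odd (Nat.card E) := Odd.of_dvd_nat hX h3
    rw [hk, hp2] at h4
    rcases k with _ | k
    · rw [hk, pow_zero, hp2] at hE3
      norm_num at hE3
    · exact (Nat.not_odd_iff_even.mpr (Nat.even_pow.mpr ⟨even_two, by omega⟩)) h4
  have hE3' : ¬ Cfsg.PRankLE p 2 B := by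
    intro hr
    have h1 := hr (E.subgroupOf B)
      ⟨⟨fun a b => Subtype.ext (Subtype.ext (hBcomm _ a.1.2 _ b.1.2))⟩⟩
      (fun a ha => Subtype.ext (by simpa using hEp _ (Subgroup.mem_subgroupOf.mp ha)))
    have h3 : Nat.card (E.subgroupOf B) = Nat.card E :=
      Nat.card_congr (Subgroup.subgroupOfEquivOfLe hEB).toEquiv
    rw [h3] at h1
    have h4 : p ^ 2 < p ^ 3 := Nat.pow_lt_pow_right hpp.one_lt (by norm_num)
    omega
  have hEfull : ∀ x ∈ Subgroup.centralizer (B : Set X), IsPGroup p (Subgroup.zpowers x) → x ∈ B :=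
    fun x hx hxp => Cfsg.Agent.Lib.Coprime.THBasic.mem_of_pelement_of_scn p P B hBP hBnorm hBc x hx hxp
  have hmem : ∀ Q : Subgroup X, (IsPGroup q Q ∧ B ≤ Subgroup.normalizer (Q : Set X) ∧
      ∀ R : Subgroup X, IsPGroup q R → B ≤ Subgroup.normalizer (R : Set X) → Q ≤ R → R = Q) →
      Q ∈ Cfsg.maxInvSubgroups ⊤ B {q} := by
    rintro Q ⟨h1, h2, h3⟩
    refine ⟨(Cfsg.Agent.Lib.Coprime.TransCore.mem_invSubgroups_iff B Q q).mpr ⟨h1, h2⟩, ?_⟩
    intro R hR hQR
    obtain ⟨h4, h5⟩ := (Cfsg.Agent.Lib.Coprime.TransCore.mem_invSubgroups_iff B R q).mp hR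
    exact h3 R h4 h5 hQR
  obtain ⟨k, hk, hk2⟩ := Cfsg.Agent.S1480.result p hloc' h2 B hBp hBa hE3' hEfull q hqp Q₁ (hmem Q₁ h₁) Q₂
    (hmem Q₂ h₂)
  refine ⟨k, ?_, hk2⟩
  obtain ⟨c, _, rfl⟩ := hk
  exact c.2

end Cfsg.Agent.S0522
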