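import Cfsg.Statements.S0530
import Cfsg.Agent.Lib.Solvable.Supersolvable2

set_option autoImplicit false
set_option linter.style.haveILetI false
open Cfsg

namespace Cfsg.Agent.S0530

open Cfsg.Agent.Lib.Solvable.Supersolvable Cfsg.Agent.Lib.Solvable.Supersolvable2

/-- A finite nilpotent group is supersolvable. -/
theorem isSupersolvable_of_isNilpotent : ∀ (n : ℕ) (G : Type _) [Group G] [Finite G],
    Nat.card G = n → Group.IsNilpotent G → IsSupersolvable G := by
  intro n
  induction n using Nat.strong_induction_on with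
  | _ n ih =>
    intro G _ _ hn hnil
    by_cases hnt : Nontrivial G
    · haveI := hnt
      have hc : Subgroup.center G ≠ ⊥ := Group.IsNilpotent.center_ne_bot G
      obtain ⟨⟨z, hz⟩, hz1⟩ := Subgroup.ne_bot_iff_exists_ne_one.mp hc
      have hz1' : z ≠ 1 := fun h => hz1 (Subtype.ext h)
      haveI hN : (Subgroup.zpowers z).Normal := by
        constructor
        intro x hx g
        obtain ⟨k, rfl⟩ := Subgroup.mem_zpowers_iff.mp hx
        have hcomm : g * z ^ k = z ^ k * g :=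
          ((Subgroup.center G).zpow_mem hz k |> Subgroup.mem_center_iff.mp) g
        rw [hcomm, mul_inv_cancel_right]
        exact Subgroup.zpow_mem_zpowers z k
      have hbot : Subgroup.zpowers z ≠ ⊥ := by
        simpa using hz1'
      have hlt := card_quotient_lt (Subgroup.zpowers z) hbot
      rw [hn] at hlt
      exact IsSupersolvable.of_normal_cyclic (Subgroup.zpowers z)
        (ih _ hlt (G ⧸ Subgroup.zpowers z) rfl inferInstance)
    · rw [not_nontrivial_iff_subsingleton] at hnt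
      rw [isSupersolvable_iff]
      have : (⊤ : Subgroup G) = ⊥ := Subsingleton.elim _ _
      rw [this]
      exact Reach.bot

/-- The inductive step for odd `p`. -/
theorem exists_normal_prime_of_two_mul {G : Type*} [Group G] [Finite G] (p n : ℕ) (hp : p.Prime)
    (hodd : p ≠ 2) (hG : Nat.card G = 2 * p ^ (n + 1)) :
    ∃ y : G, y ≠ 1 ∧ y ^ p = 1 ∧ (Subgroup.zpowers y).Normal := by
  haveI : Fact p.Prime := ⟨hp⟩
  obtain ⟨P, hP⟩ := Sylow.exists_subgroup_card_pow_prime (G := G) p (n := n + 1)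
    (hG ▸ Dvd.intro_left _ rfl)
  have hidx : P.index = 2 := by
    have h1 := Subgroup.card_mul_index P
    rw [hP, hG, mul_comm] at h1
    exact Nat.eq_of_mul_eq_mul_right (pow_pos hp.pos _) h1
  haveI hPn : P.Normal := Subgroup.normal_of_index_eq_two hidx
  have hPp : IsPGroup p P := IsPGroup.of_card hP
  haveI hPnt : Nontrivial P := by
    rw [← Finite.one_lt_card_iff_nontrivial, hP]
    exact Nat.one_lt_pow (by omega) hp.one_lt
  -- an element of order `p` in the centre of `P`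
  haveI := hPp.center_nontrivial
  have hcp : IsPGroup p (Subgroup.center P) := hPp.to_subgroup _
  have hpdvd : p ∣ Nat.card (Subgroup.center P) := by
    obtain ⟨k, hk⟩ := IsPGroup.iff_card.mp hcp
    have h1 : 1 < Nat.card (Subgroup.center P) := Finite.one_lt_card
    rw [hk] at h1 ⊢
    have hk0 : k ≠ 0 := by
      rintro rfl
      simp at h1
    exact dvd_pow_self p hk0
  obtain ⟨x, hx⟩ : ∃ x : Subgroup.center P, orderOf x = p := exists_prime_orderOf_dvd_card' p hpdvd
  set z₀ : G := ((x : P) : G) with hz₀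
  have hz₀P : z₀ ∈ P := (x : P).2
  have hz₀c : ∀ a ∈ P, a * z₀ = z₀ * a := by
    intro a ha
    have := (Subgroup.mem_center_iff.mp x.2) ⟨a, ha⟩
    exact congrArg Subtype.val this
  have hz₀o : orderOf z₀ = p := by
    rw [hz₀, Subgroup.orderOf_coe, Subgroup.orderOf_coe, hx]
  have hz₀p : z₀ ^ p = 1 := by rw [← hz₀o]; exact pow_orderOf_eq_one z₀
  obtain ⟨t, ht⟩ : ∃ t, t ∉ P := by
    by_contra hcon
    push Not at hcon
    have : P = ⊤ := eq_top_iff.mpr fun g _ => hcon g
    rw [this, Subgroup.index_top] at hidx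
    omega
  have htt : t * t ∈ P := Subgroup.mul_self_mem_of_index_two hidx t
  set z₁ : G := t * z₀ * t⁻¹ with hz₁
  have hz₁P : z₁ ∈ P := hPn.conj_mem z₀ hz₀P t
  have hz₁c : ∀ a ∈ P, a * z₁ = z₁ * a := by
    intro a ha
    have h1 : t⁻¹ * a * t ∈ P := by
      have := hPn.conj_mem a ha t⁻¹
      simpa using this
    have h2 := hz₀c _ h1
    calc a * z₁ = t * ((t⁻¹ * a * t) * z₀) * t⁻¹ := by rw [hz₁]; group
      _ = t * (z₀ * (t⁻¹ * a * t)) * t⁻¹ := by rw [h2]
      _ = z₁ * a := by rw [hz₁]; group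
  have htz₁ : t * z₁ * t⁻¹ = z₀ := by
    have h1 := hz₀c _ htt
    calc t * z₁ * t⁻¹ = (t * t) * z₀ * (t * t)⁻¹ := by rw [hz₁]; group
      _ = z₀ := by rw [h1]; group
  have hz₁p : z₁ ^ p = 1 := by
    rw [hz₁, conj_pow, hz₀p]; group
  have hcomm : Commute z₀ z₁ := (hz₀c z₁ hz₁P).symm
  -- normality criterion
  have hnormal : ∀ y : G, y ∈ P → (∀ a ∈ P, a * y = y * a) →
      t * y * t⁻¹ ∈ Subgroup.zpowers y → (Subgroup.zpowers y).Normal := by
    intro y _ hyc hty
    have hconj : ∀ g : G, g * y * g⁻¹ ∈ Subgroup.zpowers y := by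
      intro g
      by_cases hg : g ∈ P
      · rw [hyc g hg, mul_inv_cancel_right]
        exact Subgroup.mem_zpowers y
      · have ha : t⁻¹ * g ∈ P := by
          rw [Subgroup.mul_mem_iff_of_index_two hidx]
          simp [ht, hg]
        have h1 : g = t * (t⁻¹ * g) := by group
        have h2 : g * y * g⁻¹ = t * y * t⁻¹ := by
          calc g * y * g⁻¹ = t * ((t⁻¹ * g) * y) * (t⁻¹ * g)⁻¹ * t⁻¹ := by group
            _ = t * (y * (t⁻¹ * g)) * (t⁻¹ * g)⁻¹ * t⁻¹ := by rw [hyc _ ha]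
            _ = t * y * t⁻¹ := by group
        rw [h2]
        exact hty
    constructor
    intro u hu g
    obtain ⟨k, rfl⟩ := Subgroup.mem_zpowers_iff.mp hu
    rw [← conj_zpow]
    exact Subgroup.zpow_mem _ (hconj g) k
  have hcy : ∀ a ∈ P, ∀ u v : G, (∀ b ∈ P, b * u = u * b) → (∀ b ∈ P, b * v = v * b) →
      a * (u * v) = (u * v) * a := by
    intro a ha u v hu hv
    rw [← mul_assoc, hu a ha, mul_assoc, hv a ha, mul_assoc]
  have hinv : ∀ u : G, (∀ b ∈ P, b * u = u * b) → (∀ b ∈ P, b * u⁻¹ = u⁻¹ * b) := by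
    intro u hu b hb
    have := hu b hb
    calc b * u⁻¹ = u⁻¹ * (u * b) * u⁻¹ := by group
      _ = u⁻¹ * (b * u) * u⁻¹ := by rw [this]
      _ = u⁻¹ * b := by group
  by_cases hplus : z₀ * z₁ = 1
  · -- use `z₀ * z₁⁻¹`
    refine ⟨z₀ * z₁⁻¹, ?_, ?_, ?_⟩
    · intro h
      have h1 : z₁ = z₀⁻¹ := eq_inv_of_mul_eq_one_right hplus
      have h2 : z₀ = z₁ := by
        calc z₀ = z₀ * z₁⁻¹ * z₁ := by group
          _ = z₁ := by rw [h, one_mul]
      have h3 : z₀ ^ 2 = 1 := by
        rw [sq]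
        nth_rw 2 [h2]
        exact hplus
      have h4 : p ∣ 2 := hz₀o ▸ orderOf_dvd_of_pow_eq_one h3
      exact hodd ((Nat.prime_dvd_prime_iff_eq hp Nat.prime_two).mp h4)
    · rw [(hcomm.inv_right).mul_pow, inv_pow, hz₀p, hz₁p]; simp
    · apply hnormal _ (P.mul_mem hz₀P (P.inv_mem hz₁P))
      · intro a ha
        exact hcy a ha _ _ hz₀c (hinv _ hz₁c)
      · have h5 : t * (z₀ * z₁⁻¹) * t⁻¹ = (z₀ * z₁⁻¹) ^ (-1 : ℤ) := by
          have h6 : t * z₁⁻¹ * t⁻¹ = z₀⁻¹ := by
            have : t * z₁⁻¹ * t⁻¹ = (t * z₁ * t⁻¹)⁻¹ := by group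
            rw [this, htz₁]
          calc t * (z₀ * z₁⁻¹) * t⁻¹ = (t * z₀ * t⁻¹) * (t * z₁⁻¹ * t⁻¹) := by group
            _ = z₁ * z₀⁻¹ := by rw [h6]
            _ = (z₀ * z₁⁻¹) ^ (-1 : ℤ) := by rw [zpow_neg_one, mul_inv_rev, inv_inv]
        rw [h5]
        exact Subgroup.zpow_mem_zpowers _ _
  · refine ⟨z₀ * z₁, hplus, ?_, ?_⟩
    · rw [hcomm.mul_pow, hz₀p, hz₁p, one_mul]
    · apply hnormal _ (P.mul_mem hz₀P hz₁P)
      · intro a ha
        exact hcy a ha _ _ hz₀c hz₁c
      · have h5 : t * (z₀ * z₁) * t⁻¹ = z₀ * z₁ := by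
          calc t * (z₀ * z₁) * t⁻¹ = (t * z₀ * t⁻¹) * (t * z₁ * t⁻¹) := by group
            _ = z₁ * z₀ := by rw [htz₁]
            _ = z₀ * z₁ := hcomm.eq.symm
        rw [h5]
        exact Subgroup.mem_zpowers _

theorem key (p : ℕ) (hp : p.Prime) (hodd : p ≠ 2) : ∀ (n : ℕ) (G : Type _) [Group G] [Finite G],
    Nat.card G = 2 * p ^ n → IsSupersolvable G := by
  intro n
  induction n with
  | zero =>
    intro G _ _ hG
    haveI : Fact (Nat.Prime 2) := ⟨Nat.prime_two⟩
    have h2 : IsPGroup 2 G := IsPGroup.of_card (n := 1) (by simpa using hG)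
    exact isSupersolvable_of_isNilpotent _ G rfl h2.isNilpotent
  | succ n ih =>
    intro G _ _ hG
    obtain ⟨y, hy1, hyp, hyn⟩ := exists_normal_prime_of_two_mul p n hp hodd hG
    haveI := hyn
    haveI : Fact p.Prime := ⟨hp⟩
    have ho : orderOf y = p := orderOf_eq_prime hyp hy1
    have hc : Nat.card (Subgroup.zpowers y) = p := by rw [Nat.card_zpowers, ho]
    have hq : Nat.card (G ⧸ Subgroup.zpowers y) = 2 * p ^ n := by
      rw [← Subgroup.index_eq_card]
      have h1 := Subgroup.card_mul_index (Subgroup.zpowers y)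
      rw [hc, hG, pow_succ] at h1
      apply Nat.eq_of_mul_eq_mul_left hp.pos
      rw [h1]; ring
    exact IsSupersolvable.of_normal_cyclic (Subgroup.zpowers y) (ih _ hq)

/-- A finite group whose order is twice a prime power is supersolvable. -/
theorem result {G : Type*} [Group G] [Finite G] (p n : ℕ) (hp : p.Prime) (hG : Nat.card G = 2 * p ^ n) : Cfsg.IsSupersolvable G := by
  by_cases hodd : p = 2
  · subst hodd
    haveI : Fact (Nat.Prime 2) := ⟨Nat.prime_two⟩
    have h2 : IsPGroup 2 G := IsPGroup.of_card (n := n + 1) (by rw [hG, pow_succ, mul_comm])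
    exact isSupersolvable_of_isNilpotent _ G rfl h2.isNilpotent
  · exact key p hp hodd n G hG

end Cfsg.Agent.S0530
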