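import Cfsg.Statements.S0532
import Mathlib
-- import your own Cfsg.Agent.* helpers here

set_option autoImplicit false
open Cfsg

namespace Cfsg.Agent.S0532

universe u

lemma hasSub_of_equiv {A B : Type*} [Group A] [Group B] (e : A ≃* B)
    (h : Cfsg.HasSubgroupOfEveryOrder A) : Cfsg.HasSubgroupOfEveryOrder B := by
  intro d hd
  rw [← Nat.card_congr e.toEquiv] at hd
  obtain ⟨H, hH⟩ := h d hd
  refine ⟨H.map e.toMonoidHom, ?_⟩
  rw [← hH]
  exact Subgroup.card_map_of_injective e.injective

lemma card_eq {H : Type*} [Group H] [Finite H] {p : ℕ} [Fact p.Prime] (P : Sylow p H) :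
    Nat.card (Sylow p H) = (Subgroup.normalizer ((P : Subgroup H) : Set H)).index :=
  Sylow.card_eq_index_normalizer P

lemma aux (p : ℕ) [Fact p.Prime] (n : ℕ) :
    ∀ (H : Type u) [Group H] [Finite H], Nat.card H = n →
      (∀ L : Subgroup H, Cfsg.HasSubgroupOfEveryOrder L) → Cfsg.HasSubgroupOfEveryOrder H →
      (∀ q : ℕ, q.Prime → q ∣ Nat.card H → q ≤ p) → Nat.card (Sylow p H) = 1 := by
  induction n using Nat.strong_induction_on with
  | _ n ih =>
    intro H _ _ hn hL hH hmax
    by_cases hq : ∃ r : ℕ, r.Prime ∧ r ∣ Nat.card H ∧ r ≠ p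
    · obtain ⟨r, hr, hrd, hrp⟩ := hq
      have hrlt : r < p := lt_of_le_of_ne (hmax r hr hrd) hrp
      obtain ⟨K, hK⟩ := hH (Nat.card H / r) (Nat.div_dvd_of_dvd hrd)
      have hHpos : 0 < Nat.card H := Nat.card_pos
      have hcardH : Nat.card H = Nat.card K * r := by
        rw [hK, Nat.div_mul_cancel hrd]
      have hKidx : K.index = r := by
        have := K.card_mul_index
        have hKpos : 0 < Nat.card K := Nat.card_pos
        apply Nat.eq_of_mul_eq_mul_left hKpos
        rw [this, hcardH]
      have hKlt : Nat.card K < n := by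
        rw [← hn, hcardH]
        have hKpos : 0 < Nat.card K := Nat.card_pos
        nlinarith [hr.two_le]
      have hKL : ∀ L : Subgroup K, Cfsg.HasSubgroupOfEveryOrder L := by
        intro L
        exact hasSub_of_equiv (L.equivMapOfInjective K.subtype K.subtype_injective).symm (hL _)
      have hKs := ih _ hKlt K rfl hKL (hL K) (fun q hq hqd => hmax q hq (hcardH ▸ Dvd.dvd.mul_right hqd r))
      obtain ⟨Q⟩ : Nonempty (Sylow p K) := inferInstance
      have hQn : (Subgroup.normalizer ((Q : Subgroup K) : Set K)) = ⊤ := by
        have : (Subgroup.normalizer ((Q : Subgroup K) : Set K)).index = 1 := by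
          rw [← card_eq, hKs]
        rwa [Subgroup.index_eq_one] at this
      set Q' : Subgroup H := (Q : Subgroup K).map K.subtype with hQ'
      have hcardQ' : Nat.card Q' = p ^ (Nat.card H).factorization p := by
        rw [hQ', Subgroup.card_map_of_injective K.subtype_injective, Q.card_eq_multiplicity, hcardH,
          Nat.factorization_mul (Nat.card_pos.ne') hr.ne_zero]
        simp [Nat.factorization_eq_zero_of_not_dvd (fun h => hrp ((Nat.prime_dvd_prime_iff_eq (Fact.out) hr).mp h).symm)]
      let S : Sylow p H := Sylow.ofCard Q' hcardQ'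
      have hSQ : (S : Subgroup H) = Q' := rfl
      have hKN : K ≤ (Subgroup.normalizer ((S : Subgroup H) : Set H)) := by
        rw [hSQ, hQ']
        have := Subgroup.le_normalizer_map (H := (Q : Subgroup K)) K.subtype
        rw [hQn, ← MonoidHom.range_eq_map, Subgroup.range_subtype] at this
        exact this
      have hdvd : Nat.card (Sylow p H) ∣ r := by
        rw [card_eq S, ← hKidx]
        exact Subgroup.index_dvd_of_le hKN
      rcases (Nat.dvd_prime hr).mp hdvd with h1 | h1
      · exact h1
      · exfalso
        have hmod := card_sylow_modEq_one p H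
        rw [h1] at hmod
        have hp2 : 1 < p := (Fact.out : p.Prime).one_lt
        have h3 : r % p = 1 % p := hmod
        rw [Nat.mod_eq_of_lt hrlt, Nat.mod_eq_of_lt hp2] at h3
        exact hr.one_lt.ne' h3
    · -- H is a p-group
      push Not at hq
      have hpg : IsPGroup p H := by
        rw [IsPGroup.iff_card]
        refine ⟨(Nat.card H).primeFactorsList.length, ?_⟩
        apply Nat.eq_prime_pow_of_unique_prime_dvd Nat.card_pos.ne'
        intro d hd hdd
        exact hq d hd hdd
      obtain ⟨P⟩ : Nonempty (Sylow p H) := inferInstance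
      have hPtop : (P : Subgroup H) = ⊤ := by
        have := P.is_maximal' (Q := ⊤) (hpg.to_subgroup ⊤) le_top
        exact this.symm
      have hN : (Subgroup.normalizer ((P : Subgroup H) : Set H)).index = 1 := by
        rw [hPtop]
        have : Subgroup.normalizer ((⊤ : Subgroup H) : Set H) = ⊤ := Subgroup.normalizer_eq_top ⊤
        rw [this]
        exact Subgroup.index_top
      rw [card_eq P, hN]


/-- If each subgroup of a finite group satisfies the converse of Lagrange's theorem, then a Sylow subgroup for the largest prime dividing the group order is normal. -/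
theorem result {G : Type*} [Group G] [Finite G] (h : ∀ H : Subgroup G, Cfsg.HasSubgroupOfEveryOrder H) (p : ℕ) [Fact p.Prime] (hdvd : p ∣ Nat.card G) (hmax : ∀ q : ℕ, q.Prime → q ∣ Nat.card G → q ≤ p) (P : Sylow p G) : (P : Subgroup G).Normal := by
  have h' : ∀ L : Subgroup G, Cfsg.HasSubgroupOfEveryOrder L := h
  have hH : Cfsg.HasSubgroupOfEveryOrder G :=
    hasSub_of_equiv Subgroup.topEquiv (h ⊤)
  have := aux p (Nat.card G) G rfl h' hH hmax
  have hn : (Subgroup.normalizer ((P : Subgroup G) : Set G)).index = 1 := by
    rw [← card_eq, this]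
  rw [Subgroup.index_eq_one, Subgroup.normalizer_eq_top_iff] at hn
  exact hn

end Cfsg.Agent.S0532
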