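import Cfsg.Statements.S0533
import Cfsg.Agent.S0579
import Cfsg.Agent.S0532
import Cfsg.Agent.Lib.Solvable.Supersolvable2
import Cfsg.Agent.Lib.Solvable.MinimalNormal
import Cfsg.Agent.Lib.Coprime.Coset
import Cfsg.Agent.Lib.PGroup.Basic

set_option autoImplicit false
set_option linter.style.haveILetI false
open Cfsg Cfsg.Agent.Lib.Solvable.Supersolvable Cfsg.Agent.Lib.Solvable.Supersolvable2
open Cfsg.Agent.S0579

namespace Cfsg.Agent.S0533

theorem hasSubgroup_of_mulEquiv {A B : Type*} [Group A] [Group B] (e : A ≃* B)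
    (h : HasSubgroupOfEveryOrder B) : HasSubgroupOfEveryOrder A := by
  intro d hd
  have hc : Nat.card A = Nat.card B := Nat.card_congr e.toEquiv
  obtain ⟨L, hL⟩ := h d (hc ▸ hd)
  refine ⟨L.comap e.toMonoidHom, ?_⟩
  rw [← hL]
  exact Nat.card_congr (L.equivMapOfInjective e.symm.toMonoidHom e.symm.injective |>.toEquiv.trans
    (Equiv.setCongr (by
      ext x
      simp only [Subgroup.coe_map, Subgroup.coe_comap]
      constructor
      · rintro ⟨y, hy, rfl⟩
        simpa using hy
      · intro hx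
        exact ⟨e x, hx, by simp⟩))).symm

theorem hereditary_subgroup {G : Type*} [Group G]
    (h : ∀ H : Subgroup G, HasSubgroupOfEveryOrder H) (K : Subgroup G) :
    ∀ H : Subgroup K, HasSubgroupOfEveryOrder H := by
  intro H
  exact hasSubgroup_of_mulEquiv (H.equivMapOfInjective K.subtype K.subtype_injective)
    (h (H.map K.subtype))

theorem exists_hall_in {G : Type*} [Group G] [Finite G] {p : ℕ} [hp : Fact p.Prime]
    (P : Subgroup G) [hPn : P.Normal] (hP : IsPGroup p P) (hi : ¬ p ∣ P.index) (K : Subgroup G) :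
    ∃ H : Subgroup G, H ≤ K ∧ Nat.card H = P.relIndex K ∧ (P ⊓ K) ⊔ H = K := by
  have hTp : IsPGroup p (P.subgroupOf K) := hP.comap_of_injective K.subtype K.subtype_injective
  have hTi : ¬ p ∣ (P.subgroupOf K).index := fun hd =>
    hi (hd.trans (Subgroup.relIndex_dvd_index_of_normal P K))
  have hcop : (Nat.card (P.subgroupOf K)).Coprime (P.subgroupOf K).index := by
    obtain ⟨k, hk⟩ := hTp.exists_card_eq
    rw [hk]
    exact Nat.Coprime.pow_left k ((Nat.Prime.coprime_iff_not_dvd hp.out).mpr hTi)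
  obtain ⟨H₁, hH₁⟩ := Subgroup.exists_right_complement'_of_coprime hcop
  refine ⟨H₁.map K.subtype, Subgroup.map_subtype_le H₁, ?_, ?_⟩
  · have h1 : Nat.card (H₁.map K.subtype) = Nat.card H₁ :=
      (Nat.card_congr (H₁.equivMapOfInjective K.subtype K.subtype_injective).toEquiv).symm
    rw [h1]
    exact hH₁.symm.index_eq_card.symm
  · have h1 := congrArg (Subgroup.map K.subtype) hH₁.sup_eq_top
    rw [Subgroup.map_sup, Subgroup.subgroupOf_map_subtype, ← MonoidHom.range_eq_map,
      Subgroup.range_subtype] at h1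
    exact h1

theorem index_p_aux {G : Type*} [Group G] [Finite G] {p : ℕ} [hp : Fact p.Prime]
    (P : Subgroup G) [hPn : P.Normal] (hP : IsPGroup p P) (hi : ¬ p ∣ P.index) (U : Subgroup G)
    (hU : Nat.card U * p = Nat.card G) : P.relIndex U = P.index ∧ (U ⊓ P).relIndex P = p := by
  have hpp : p.Prime := hp.out
  have hWp : IsPGroup p (U ⊓ P : Subgroup G) := hP.to_le inf_le_right
  obtain ⟨b, hb⟩ := hWp.exists_card_eq
  obtain ⟨a, ha⟩ := hP.exists_card_eq
  have h1 : Nat.card (U ⊓ P : Subgroup G) * P.relIndex U = Nat.card U := by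
    have h0 : P.relIndex U = (U ⊓ P).relIndex U := by rw [inf_comm, Subgroup.inf_relIndex_right]
    rw [h0, ← Subgroup.relIndex_bot_left (U ⊓ P), ← Subgroup.relIndex_bot_left U]
    exact Subgroup.relIndex_mul_relIndex _ _ _ bot_le inf_le_left
  have h2 : Nat.card P * P.index = Nat.card G := Subgroup.card_mul_index P
  have hcm : P.relIndex U ∣ P.index := Subgroup.relIndex_dvd_index_of_normal P U
  have hcop1 : (p ^ a).Coprime (P.relIndex U) :=
    Nat.Coprime.pow_left a ((Nat.Prime.coprime_iff_not_dvd hpp).mpr (fun hd => hi (hd.trans hcm)))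
  have hcop2 : (p ^ (b + 1)).Coprime P.index :=
    Nat.Coprime.pow_left _ ((Nat.Prime.coprime_iff_not_dvd hpp).mpr hi)
  have h3 : p ^ (b + 1) * P.relIndex U = p ^ a * P.index := by
    rw [← ha, h2, ← hU, ← h1, hb, pow_succ]; ring
  have h4 : p ^ a ∣ p ^ (b + 1) :=
    hcop1.dvd_of_dvd_mul_right (h3 ▸ dvd_mul_right _ _)
  have h5 : p ^ (b + 1) ∣ p ^ a :=
    hcop2.dvd_of_dvd_mul_right (h3 ▸ dvd_mul_right _ _)
  have h6 : p ^ a = p ^ (b + 1) := Nat.dvd_antisymm h4 h5
  have hpos : 0 < p ^ (b + 1) := pow_pos hpp.pos _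
  constructor
  · rw [h6] at h3
    exact Nat.eq_of_mul_eq_mul_left hpos h3
  · have h7 : Nat.card (U ⊓ P : Subgroup G) * (U ⊓ P).relIndex P = Nat.card P := by
      rw [← Subgroup.relIndex_bot_left (U ⊓ P), ← Subgroup.relIndex_bot_left P]
      exact Subgroup.relIndex_mul_relIndex _ _ _ bot_le inf_le_right
    rw [ha, h6, hb, pow_succ] at h7
    exact Nat.eq_of_mul_eq_mul_left (pow_pos hpp.pos _) h7

/-- Chief-factor step in a supersolvable subgroup. -/
theorem exists_prime_step {G : Type*} [Group G] [Finite G] (U : Subgroup G) (hU : IsSupersolvable U)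
    (A B : Subgroup G) (hAB : A ≤ B) (hBU : B ≤ U) (hA : U ≤ Subgroup.normalizer (A : Set G))
    (hB : U ≤ Subgroup.normalizer (B : Set G)) (hne : ¬ B ≤ A) :
    ∃ C : Subgroup G, A ≤ C ∧ C ≤ B ∧ U ≤ Subgroup.normalizer (C : Set G) ∧ (A.relIndex C).Prime := by
  have hAU : A ≤ U := hAB.trans hBU
  haveI hA₁ : (A.subgroupOf U).Normal := Subgroup.normal_subgroupOf_of_le_normalizer hA
  haveI hB₁ : (B.subgroupOf U).Normal := Subgroup.normal_subgroupOf_of_le_normalizer hB
  let φ := QuotientGroup.mk' (A.subgroupOf U)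
  have hφs : Function.Surjective φ := QuotientGroup.mk'_surjective _
  have hQ : IsSupersolvable (U ⧸ A.subgroupOf U) := IsSupersolvable.quotient _ hU
  haveI hXn : ((B.subgroupOf U).map φ).Normal := Subgroup.Normal.map hB₁ φ hφs
  have hXb : (B.subgroupOf U).map φ ≠ ⊥ := by
    intro hb
    apply hne
    intro x hx
    have h1 : φ ⟨x, hBU hx⟩ = 1 := by
      have : φ ⟨x, hBU hx⟩ ∈ (B.subgroupOf U).map φ :=
        Subgroup.mem_map_of_mem φ (Subgroup.mem_subgroupOf.mpr hx)
      rwa [hb, Subgroup.mem_bot] at this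
    have h2 : (⟨x, hBU hx⟩ : U) ∈ φ.ker := h1
    rw [QuotientGroup.ker_mk', Subgroup.mem_subgroupOf] at h2
    exact h2
  obtain ⟨N, hNn, hNle, hNp⟩ := exists_normal_prime_le hQ ((B.subgroupOf U).map φ) hXb
  haveI := hNn
  let C₁ : Subgroup U := N.comap φ
  haveI hC₁n : C₁.Normal := Subgroup.Normal.comap hNn φ
  have hC₁card : Nat.card C₁ = Nat.card (A.subgroupOf U) * Nat.card N := card_comap_mk _ N
  have hAcard : Nat.card (A.subgroupOf U) = Nat.card A :=
    Nat.card_congr (Subgroup.subgroupOfEquivOfLe hAU).toEquiv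
  have hCcard : Nat.card (C₁.map U.subtype) = Nat.card C₁ :=
    (Nat.card_congr (C₁.equivMapOfInjective U.subtype U.subtype_injective).toEquiv).symm
  have hAC : A ≤ C₁.map U.subtype := by
    intro x hx
    refine ⟨⟨x, hAU hx⟩, ?_, rfl⟩
    show φ _ ∈ N
    have : φ ⟨x, hAU hx⟩ = 1 := by
      have h2 : (⟨x, hAU hx⟩ : U) ∈ φ.ker := by
        rw [QuotientGroup.ker_mk', Subgroup.mem_subgroupOf]; exact hx
      exact h2
    rw [this]
    exact N.one_mem
  refine ⟨C₁.map U.subtype, hAC, ?_, ?_, ?_⟩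
  · rintro _ ⟨y, hy, rfl⟩
    have h1 : φ y ∈ (B.subgroupOf U).map φ := hNle hy
    obtain ⟨z, hz, hzy⟩ := h1
    have h2 : z⁻¹ * y ∈ φ.ker := by
      show φ (z⁻¹ * y) = 1
      rw [map_mul, map_inv, hzy, inv_mul_cancel]
    rw [QuotientGroup.ker_mk', Subgroup.mem_subgroupOf] at h2
    have h3 : ((z⁻¹ * y : U) : G) ∈ B := hAB h2
    have h4 : (y : G) = (z : G) * ((z⁻¹ * y : U) : G) := by simp
    show (y : G) ∈ B
    rw [h4]
    exact B.mul_mem hz h3
  · refine le_normalizer_of_conj ?_
    rintro a ha _ ⟨y, hy, rfl⟩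
    exact ⟨⟨a, ha⟩ * y * ⟨a, ha⟩⁻¹, hC₁n.conj_mem y hy _, rfl⟩
  · have h1 : Nat.card A * A.relIndex (C₁.map U.subtype) = Nat.card (C₁.map U.subtype) := by
      rw [← Subgroup.relIndex_bot_left A, ← Subgroup.relIndex_bot_left (C₁.map U.subtype)]
      exact Subgroup.relIndex_mul_relIndex _ _ _ bot_le hAC
    rw [hCcard, hC₁card, hAcard] at h1
    have h2 := Nat.eq_of_mul_eq_mul_left Nat.card_pos h1
    rw [h2]
    exact hNp

open Cfsg.Agent.Lib.Solvable.MinimalNormal Cfsg.Agent.Lib.PGroup.Basic in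
theorem coatom_index_prime_aux {G : Type*} [Group G] [Finite G] {p : ℕ} [hp : Fact p.Prime]
    (P : Subgroup G) [hPn : P.Normal] (hP : IsPGroup p P) (M U H₁ : Subgroup G) (hM : IsCoatom M)
    (hPM : ¬ P ≤ M) (hMeq : (P ⊓ M) ⊔ H₁ = M) (hH₁U : H₁ ≤ U) (hW : (U ⊓ P).relIndex P = p)
    (hU : IsSupersolvable U) : M.index.Prime := by
  have hsup : M ⊔ P = ⊤ := (le_or_sup_eq_top_of_isCoatom hM P).resolve_left hPM
  have hidx : M.index = M.relIndex P := index_eq_relIndex_of_sup_eq_top hsup
  have hRn : (P ⊓ M).Normal := by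
    have hlt : P ⊓ M < P := lt_of_le_of_ne inf_le_left (fun h => hPM (inf_eq_left.mp h))
    obtain ⟨x, hxP, hxR, hxN⟩ := exists_mem_normalizer_of_lt hP hlt
    have hMN : M ≤ Subgroup.normalizer ((P ⊓ M : Subgroup G) : Set G) :=
      le_normalizer_of_conj (fun a ha y hy =>
        ⟨hPn.conj_mem y hy.1 a, M.mul_mem (M.mul_mem ha hy.2) (M.inv_mem ha)⟩)
    have hxM : x ∉ M := fun h => hxR ⟨hxP, h⟩
    have htop := hM.2 _ (lt_of_le_of_ne hMN (fun he => hxM (he ▸ hxN)))
    exact Subgroup.normalizer_eq_top_iff.mp htop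
  have hD : ∀ S : Subgroup G, S ≤ P → H₁ ≤ Subgroup.normalizer (S : Set G) → ¬ S ≤ M →
      S ⊔ (P ⊓ M) = P := by
    intro S hSP hSH hSM
    have hYP : S ⊔ (P ⊓ M) ≤ P := sup_le hSP inf_le_left
    have hMY : M ≤ Subgroup.normalizer ((S ⊔ (P ⊓ M) : Subgroup G) : Set G) := by
      refine (hMeq.symm.le).trans ?_
      refine sup_le ((le_sup_right : P ⊓ M ≤ S ⊔ (P ⊓ M)).trans Subgroup.le_normalizer) ?_
      refine le_normalizer_of_conj ?_
      intro a ha y hy
      obtain ⟨s, hs, r, hr, rfl⟩ := Subgroup.mem_sup_of_normal_right.mp hy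
      have h1 : a * (s * r) * a⁻¹ = (a * s * a⁻¹) * (a * r * a⁻¹) := by group
      rw [h1]
      refine Subgroup.mul_mem _ (Subgroup.mem_sup_left ?_) (Subgroup.mem_sup_right (hRn.conj_mem r hr a))
      exact (Subgroup.mem_normalizer_iff.mp (hSH ha) s).mp hs
    have hYM : ¬ (S ⊔ (P ⊓ M)) ≤ M := fun h => hSM (le_sup_left.trans h)
    have htop : M ⊔ (S ⊔ (P ⊓ M)) = ⊤ := (le_or_sup_eq_top_of_isCoatom hM _).resolve_left hYM
    refine le_antisymm hYP ?_
    intro x hx
    have hx' : x ∈ (S ⊔ (P ⊓ M)) ⊔ M := by rw [sup_comm, htop]; trivial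
    obtain ⟨n, hn, a, ha, rfl⟩ :=
      (Cfsg.Agent.Lib.Coprime.Coset.mem_sup_iff_of_le_normalizer hMY x).mp hx'
    have haP : a ∈ P := by
      have : a = n⁻¹ * (n * a) := by group
      rw [this]
      exact P.mul_mem (P.inv_mem (hYP hn)) hx
    exact Subgroup.mul_mem _ hn (Subgroup.mem_sup_right ⟨haP, ha⟩)
  by_cases hWM : U ⊓ P ≤ M
  · have hdvd : M.relIndex P ∣ (U ⊓ P).relIndex P := Subgroup.relIndex_dvd_of_le_left P hWM
    rw [hW] at hdvd
    rw [hidx]
    rcases (Nat.dvd_prime hp.out).mp hdvd with h1 | h1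
    · exfalso
      rw [← hidx, Subgroup.index_eq_one] at h1
      exact hM.1 h1
    · rw [h1]; exact hp.out
  · have hWU : U ⊓ P ≤ U := inf_le_left
    have hWP : U ⊓ P ≤ P := inf_le_right
    have hWn : U ≤ Subgroup.normalizer ((U ⊓ P : Subgroup G) : Set G) :=
      le_normalizer_of_conj (fun a ha y hy =>
        ⟨U.mul_mem (U.mul_mem ha hy.1) (U.inv_mem ha), hPn.conj_mem y hy.2 a⟩)
    have hTn : U ≤ Subgroup.normalizer (((U ⊓ P) ⊓ (P ⊓ M) : Subgroup G) : Set G) :=
      le_normalizer_of_conj (fun a ha y hy =>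
        ⟨(Subgroup.mem_normalizer_iff.mp (hWn ha) y).mp hy.1, hRn.conj_mem y hy.2 a⟩)
    have hne : ¬ (U ⊓ P) ≤ (U ⊓ P) ⊓ (P ⊓ M) := fun h => hWM (h.trans (inf_le_right.trans inf_le_right))
    obtain ⟨S, hTS, hSW, hSU, hSp⟩ := exists_prime_step U hU _ _ inf_le_left hWU hTn hWn hne
    have hSP : S ≤ P := hSW.trans hWP
    have hSR : ¬ S ≤ M := by
      intro h
      have h1 : S ≤ (U ⊓ P) ⊓ (P ⊓ M) := le_inf hSW (le_inf hSP h)
      have h2 : ((U ⊓ P) ⊓ (P ⊓ M)).relIndex S = 1 := Subgroup.relIndex_eq_one.mpr h1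
      rw [h2] at hSp
      exact Nat.not_prime_one hSp
    have hDS := hD S hSP (hH₁U.trans hSU) hSR
    have h1 : M.relIndex P = (P ⊓ M).relIndex P := by
      rw [inf_comm, Subgroup.inf_relIndex_right]
    have h2 : (P ⊓ M).relIndex P = (P ⊓ M).relIndex S := by
      have := Subgroup.relIndex_sup_right S (P ⊓ M)
      rwa [hDS] at this
    have h3 : (P ⊓ M).relIndex S = ((P ⊓ M) ⊓ S).relIndex S := (Subgroup.inf_relIndex_right _ _).symm
    have h4 : (P ⊓ M) ⊓ S = (U ⊓ P) ⊓ (P ⊓ M) := by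
      apply le_antisymm
      · exact le_inf (inf_le_right.trans hSW) inf_le_left
      · exact le_inf inf_le_right hTS
    rw [hidx, h1, h2, h3, h4]
    exact hSp

universe u

open Cfsg.Agent.Lib.Solvable.MinimalNormal in
theorem main : ∀ (n : ℕ) (G : Type u) [Group G] [Finite G], Nat.card G = n →
    (∀ H : Subgroup G, HasSubgroupOfEveryOrder H) → IsSupersolvable G := by
  intro n
  induction n using Nat.strong_induction_on with
  | _ n ih =>
    intro G _ _ hn h
    by_cases hnt : Nontrivial G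
    swap
    · rw [isSupersolvable_iff]
      rw [not_nontrivial_iff_subsingleton] at hnt
      have : (⊤ : Subgroup G) = ⊥ := Subsingleton.elim _ _
      rw [this]
      exact Reach.bot
    have hcardG : 1 < Nat.card G := Finite.one_lt_card
    have hsne : (Nat.card G).primeFactors.Nonempty := Nat.nonempty_primeFactors.mpr hcardG
    set p := (Nat.card G).primeFactors.max' hsne with hpdef
    have hpmem : p ∈ (Nat.card G).primeFactors := Finset.max'_mem _ hsne
    have hpp : p.Prime := Nat.prime_of_mem_primeFactors hpmem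
    haveI hp' : Fact p.Prime := ⟨hpp⟩
    have hpd : p ∣ Nat.card G := Nat.dvd_of_mem_primeFactors hpmem
    have hmax : ∀ q : ℕ, q.Prime → q ∣ Nat.card G → q ≤ p := fun q hq hd =>
      Finset.le_max' _ _ (Nat.mem_primeFactors.mpr ⟨hq, hd, Nat.card_pos.ne'⟩)
    let S : Sylow p G := default
    haveI hPn : (S : Subgroup G).Normal := Cfsg.Agent.S0532.result h p hpd hmax S
    have hP : IsPGroup p (S : Subgroup G) := S.isPGroup'
    have hi : ¬ p ∣ (S : Subgroup G).index := S.not_dvd_index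
    have hPne : (S : Subgroup G) ≠ ⊥ := by
      intro hb
      rw [hb, Subgroup.index_bot] at hi
      exact hi hpd
    have hsub : ∀ K : Subgroup G, K ≠ ⊤ → IsSupersolvable K := by
      intro K hK
      refine ih _ (hn ▸ lt_of_le_of_ne (Subgroup.card_le_card_group K)
        (mt (Subgroup.eq_top_of_card_eq K) hK)) K rfl (hereditary_subgroup h K)
    -- the quotient by the Sylow subgroup
    have hGP : IsSupersolvable (G ⧸ (S : Subgroup G)) := by
      obtain ⟨H', -, hcard, hsup⟩ := exists_hall_in (S : Subgroup G) hP hi ⊤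
      have hH'ne : H' ≠ ⊤ := by
        rintro rfl
        rw [Subgroup.card_top, Subgroup.relIndex_top_right] at hcard
        have h1 := Subgroup.card_mul_index (S : Subgroup G)
        rw [← hcard] at h1
        have h2 : Nat.card (S : Subgroup G) = 1 :=
          Nat.eq_of_mul_eq_mul_right Nat.card_pos (h1.trans (one_mul _).symm)
        exact hPne (Subgroup.eq_bot_of_card_eq _ h2)
      have hH' := hsub H' hH'ne
      refine IsSupersolvable.of_surjective
        ((QuotientGroup.mk' (S : Subgroup G)).comp H'.subtype) ?_ hH'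
      intro y
      obtain ⟨y, rfl⟩ := QuotientGroup.mk'_surjective _ y
      have hy : y ∈ ((S : Subgroup G) ⊓ ⊤) ⊔ H' := by rw [hsup]; trivial
      rw [inf_top_eq] at hy
      obtain ⟨a, ha, b, hb, rfl⟩ := Subgroup.mem_sup_of_normal_left.mp hy
      refine ⟨⟨b, hb⟩, ?_⟩
      simp only [MonoidHom.comp_apply, Subgroup.subtype_apply, map_mul]
      have h1 : QuotientGroup.mk' (S : Subgroup G) a = 1 := by
        have : a ∈ (QuotientGroup.mk' (S : Subgroup G)).ker := by
          rwa [QuotientGroup.ker_mk']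
        exact this
      rw [h1, one_mul]
    apply Cfsg.Agent.S0579.result
    intro M hM
    by_cases hPM : (S : Subgroup G) ≤ M
    · have h1 := index_prime_of_isCoatom _ (G ⧸ (S : Subgroup G)) rfl hGP
        (M.map (QuotientGroup.mk' (S : Subgroup G))) (isCoatom_map_mk _ M hPM hM)
      rwa [index_map_mk _ M hPM] at h1
    · -- a subgroup of index `p`
      obtain ⟨L, hL⟩ := h ⊤ (Nat.card G / p) (by
        rw [Subgroup.card_top]; exact Nat.div_dvd_of_dvd hpd)
      let U₀ : Subgroup G := L.map (⊤ : Subgroup G).subtype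
      have hU₀ : Nat.card U₀ * p = Nat.card G := by
        have h1 : Nat.card U₀ = Nat.card L :=
          (Nat.card_congr (L.equivMapOfInjective _ (Subgroup.subtype_injective _)).toEquiv).symm
        rw [h1, hL, Nat.div_mul_cancel hpd]
      have hc₀ := (index_p_aux (S : Subgroup G) hP hi U₀ hU₀).1
      obtain ⟨H₀, hH₀U, hH₀c, -⟩ := exists_hall_in (S : Subgroup G) hP hi U₀
      obtain ⟨H₁, hH₁M, hH₁c, hH₁eq⟩ := exists_hall_in (S : Subgroup G) hP hi M
      have hsup : M ⊔ (S : Subgroup G) = ⊤ := (le_or_sup_eq_top_of_isCoatom hM _).resolve_left hPM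
      have hc₁ : (S : Subgroup G).relIndex M = (S : Subgroup G).index := by
        have := Subgroup.relIndex_sup_right M (S : Subgroup G)
        rw [hsup, Subgroup.relIndex_top_right] at this
        exact this.symm
      have hH₀card : Nat.card H₀ = (S : Subgroup G).index := hH₀c.trans hc₀
      have hH₁card : Nat.card H₁ = (S : Subgroup G).index := hH₁c.trans hc₁
      have hcop : (Nat.card (S : Subgroup G)).Coprime (S : Subgroup G).index := by
        obtain ⟨k, hk⟩ := hP.exists_card_eq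
        rw [hk]
        exact Nat.Coprime.pow_left k ((Nat.Prime.coprime_iff_not_dvd hpp).mpr hi)
      have hcompl : Subgroup.IsComplement' (S : Subgroup G) H₀ :=
        Subgroup.isComplement'_of_coprime (by rw [hH₀card]; exact Subgroup.card_mul_index _)
          (by rw [hH₀card]; exact hcop)
      haveI : Group.IsNilpotent (S : Subgroup G) := hP.isNilpotent
      obtain ⟨m, hmP, hm⟩ := Cfsg.Agent.Lib.Coprime.Coset.exists_conj_eq_of_card_eq
        (A := H₀) (N := (S : Subgroup G)) (A' := H₁)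
        (by rw [Subgroup.normalizer_eq_top]; exact le_top)
        (by rw [hH₀card]; exact hcop.symm) (Or.inr inferInstance)
        (by rw [hcompl.sup_eq_top]; exact le_top)
        (hH₁card.trans hH₀card.symm)
      let U : Subgroup G := U₀.map (MulAut.conj m).toMonoidHom
      have hH₁U : H₁ ≤ U := by
        rw [← hm]
        exact Subgroup.map_mono hH₀U
      have hUc : Nat.card U = Nat.card U₀ :=
        (Nat.card_congr (U₀.equivMapOfInjective _ (MulAut.conj m).injective).toEquiv).symm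
      have hU : Nat.card U * p = Nat.card G := by rw [hUc, hU₀]
      have hUne : U ≠ ⊤ := by
        intro ht
        rw [ht, Subgroup.card_top] at hU
        have : 1 * Nat.card G < p * Nat.card G := Nat.mul_lt_mul_of_pos_right hpp.one_lt Nat.card_pos
        rw [one_mul, mul_comm p] at this
        omega
      exact coatom_index_prime_aux (S : Subgroup G) hP M U H₁ hM hPM hH₁eq hH₁U
        (index_p_aux (S : Subgroup G) hP hi U hU).2 (hsub U hUne)

/-- A finite group all of whose subgroups satisfy the converse of Lagrange's theorem is supersolvable. -/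
theorem result {G : Type*} [Group G] [Finite G] (h : ∀ H : Subgroup G, Cfsg.HasSubgroupOfEveryOrder H) : Cfsg.IsSupersolvable G :=
  main _ G rfl h

end Cfsg.Agent.S0533
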