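import Cfsg.Statements.S0534
import Mathlib
import Cfsg.Agent.Lib.Solvable.Hall
-- import your own Cfsg.Agent.* helpers here

set_option autoImplicit false
open Cfsg

namespace Cfsg.Agent.S0534

universe u v

/-- A finite commutative group has a subgroup of every order dividing its order. -/
theorem comm_exists_card_eq : ∀ (c : ℕ) (A : Type v) [CommGroup A] [Finite A], Nat.card A = c →
    ∀ d : ℕ, d ∣ c → ∃ B : Subgroup A, Nat.card B = d := by
  intro c
  induction c using Nat.strong_induction_on with
  | _ c ih =>
  intro A _ _ hc d hd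
  by_cases hd1 : d = 1
  · exact ⟨⊥, by rw [Subgroup.card_bot, hd1]⟩
  obtain ⟨p, hp, hpd⟩ := Nat.exists_prime_and_dvd hd1
  have : Fact p.Prime := ⟨hp⟩
  have hpc : p ∣ Nat.card A := by rw [hc]; exact hpd.trans hd
  obtain ⟨x, hx⟩ := exists_prime_orderOf_dvd_card' (G := A) p hpc
  set N : Subgroup A := Subgroup.zpowers x with hN
  have hNc : Nat.card N = p := by rw [hN, Nat.card_zpowers, hx]
  have hcq : Nat.card (A ⧸ N) * p = c := by
    rw [← hc, Subgroup.card_eq_card_quotient_mul_card_subgroup N, hNc]
  obtain ⟨e, rfl⟩ := hpd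
  have hdvd : e ∣ Nat.card (A ⧸ N) := by
    have h1 : p * e ∣ Nat.card (A ⧸ N) * p := by rw [hcq]; exact hd
    rw [mul_comm p e] at h1
    exact Nat.dvd_of_mul_dvd_mul_right hp.pos h1
  have hlt : Nat.card (A ⧸ N) < c := by
    rw [← hcq]
    exact lt_mul_of_one_lt_right Nat.card_pos hp.one_lt
  obtain ⟨Bb, hBb⟩ := ih _ hlt (A ⧸ N) rfl e hdvd
  refine ⟨Bb.comap (QuotientGroup.mk' N), ?_⟩
  rw [Cfsg.Agent.Lib.Solvable.Hall.card_comap_mk, hBb, hNc, mul_comm]

theorem aux {G : Type u} {A : Type v} [Group G] [CommGroup A] [Finite G] [Finite A] [Group.IsSolvable G]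
    (hA : ∀ p : ℕ, p.Prime → p ∣ Nat.card A → p ∣ Nat.card G)
    (hexp : ∀ p : ℕ, p.Prime → p ∣ Nat.card G → (Nat.card A).factorization p + 1 = (Nat.card G).factorization p) :
    Cfsg.HasSubgroupOfEveryOrder (G × A) := by
  classical
  intro d hd
  rw [Nat.card_prod] at hd
  have ha0 : Nat.card G ≠ 0 := Nat.card_pos.ne'
  have hb0 : Nat.card A ≠ 0 := Nat.card_pos.ne'
  have hd0 : d ≠ 0 := by
    rintro rfl
    exact (mul_ne_zero ha0 hb0) (zero_dvd_iff.mp hd)
  set a := Nat.card G with ha
  set b := Nat.card A with hb
  have hda : d.factorization ≤ (a * b).factorization :=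
    (Nat.factorization_le_iff_dvd hd0 (mul_ne_zero ha0 hb0)).mpr hd
  rw [Nat.factorization_mul ha0 hb0] at hda
  -- `m`: the part of `a` at the primes where `d` has at least the exponent of `a`
  let P : ℕ → Prop := fun p => a.factorization p ≤ d.factorization p
  let fm : ℕ →₀ ℕ := a.factorization.filter P
  let fn : ℕ →₀ ℕ := a.factorization.filter (fun p => ¬ P p)
  have hfm : ∀ p ∈ fm.support, p.Prime := by
    intro p hp
    have : p ∈ a.factorization.support := Finsupp.support_filter (f := a.factorization) P ▸ hp |> fun h => (Finset.mem_filter.mp h).1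
    rw [Nat.support_factorization] at this
    exact Nat.prime_of_mem_primeFactors this
  have hfn : ∀ p ∈ fn.support, p.Prime := by
    intro p hp
    have : p ∈ a.factorization.support := Finsupp.support_filter (f := a.factorization) (fun p => ¬ P p) ▸ hp |> fun h => (Finset.mem_filter.mp h).1
    rw [Nat.support_factorization] at this
    exact Nat.prime_of_mem_primeFactors this
  let m := fm.prod (· ^ ·)
  let n := fn.prod (· ^ ·)
  have hmf : m.factorization = fm := Nat.prod_pow_factorization_eq_self hfm
  have hnf : n.factorization = fn := Nat.prod_pow_factorization_eq_self hfn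
  have hm0 : m ≠ 0 := by
    apply Finset.prod_ne_zero_iff.mpr
    intro p hp
    exact pow_ne_zero _ (hfm p hp).ne_zero
  have hn0 : n ≠ 0 := by
    apply Finset.prod_ne_zero_iff.mpr
    intro p hp
    exact pow_ne_zero _ (hfn p hp).ne_zero
  have hmn : a = m * n := by
    apply Nat.eq_of_factorization_eq ha0 (mul_ne_zero hm0 hn0)
    intro p
    rw [Nat.factorization_mul hm0 hn0, hmf, hnf, Finsupp.add_apply]
    by_cases hpp : P p
    · simp [fm, fn, hpp]
    · simp [fm, fn, hpp]
  have hcop : m.Coprime n := by
    rw [← Nat.disjoint_primeFactors hm0 hn0, ← Nat.support_factorization, ← Nat.support_factorization,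
      hmf, hnf, Finset.disjoint_left]
    intro p hp1 hp2
    have h1 := Finsupp.mem_support_iff.mp hp1
    have h2 := Finsupp.mem_support_iff.mp hp2
    by_cases hpp : P p
    · simp [fn, hpp] at h2
    · simp [fm, hpp] at h1
  have hmd : m ∣ d := by
    rw [← Nat.factorization_le_iff_dvd hm0 hd0, hmf]
    intro p
    by_cases hpp : P p
    · have h3 : fm p = a.factorization p := by simp [fm, hpp]
      rw [h3]
      exact hpp
    · simp [fm, hpp]
  obtain ⟨e, hde⟩ := hmd
  have he0 : e ≠ 0 := by
    rintro rfl
    exact hd0 (by rw [hde, mul_zero])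
  have hdf : ∀ p, d.factorization p = fm p + e.factorization p := by
    intro p
    rw [hde, Nat.factorization_mul hm0 he0, Finsupp.add_apply, hmf]
  have heb : e ∣ b := by
    rw [← Nat.factorization_le_iff_dvd he0 hb0]
    intro p
    have h1 := hda p
    rw [Finsupp.add_apply, hdf] at h1
    by_cases hpa : p.Prime ∧ p ∣ a
    · have h2 := hexp p hpa.1 hpa.2
      by_cases hpp : P p
      · have h3 : fm p = a.factorization p := by simp [fm, hpp]
        rw [h3] at h1
        omega
      · have h3 : fm p = 0 := by simp [fm, hpp]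
        have h4 : ¬ a.factorization p ≤ d.factorization p := hpp
        rw [hdf, h3] at h4
        omega
    · have hae : a.factorization p = 0 := by
        by_cases hpr : p.Prime
        · exact Nat.factorization_eq_zero_of_not_dvd (fun h => hpa ⟨hpr, h⟩)
        · exact Nat.factorization_eq_zero_of_not_prime _ hpr
      have hbe : b.factorization p = 0 := by
        by_cases hpr : p.Prime
        · exact Nat.factorization_eq_zero_of_not_dvd (fun h => hpa ⟨hpr, hA p hpr h⟩)
        · exact Nat.factorization_eq_zero_of_not_prime _ hpr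
      rw [hae, hbe] at h1
      rw [hbe]
      omega
  obtain ⟨H, hH⟩ := Cfsg.Agent.Lib.Solvable.Hall.exists_card_eq (G := G) m n hmn hcop
  obtain ⟨B, hB⟩ := comm_exists_card_eq _ A rfl e heb
  refine ⟨H.prod B, ?_⟩
  rw [Nat.card_congr (Subgroup.prodEquiv H B).toEquiv, Nat.card_prod, hH, hB, hde]


/-- Let G be a finite solvable group and A a finite abelian group such that every prime dividing the order of A divides the order of G and, for each prime p dividing the order of G, the exponent of p in the order of A is one less than its exponent in the order of G. Then G × A has a subgroup of every order dividing its order. -/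
theorem result {G A : Type*} [Group G] [CommGroup A] [Finite G] [Finite A] [Group.IsSolvable G] (hA : ∀ p : ℕ, p.Prime → p ∣ Nat.card A → p ∣ Nat.card G) (hexp : ∀ p : ℕ, p.Prime → p ∣ Nat.card G → (Nat.card A).factorization p + 1 = (Nat.card G).factorization p) : Cfsg.HasSubgroupOfEveryOrder (G × A) := by
  exact aux hA hexp

end Cfsg.Agent.S0534
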