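import Cfsg.Statements.S0537
import Mathlib
import Cfsg.Agent.Lib.Nilpotent.MinNonNilpotent
-- import your own Cfsg.Agent.* helpers here

set_option autoImplicit false
open Cfsg

namespace Cfsg.Agent.S0537

/-- An element of order coprime to `q` acting on an abelian normal `q`-subgroup and centralizing
its elements of order dividing `q` centralizes it. -/
theorem commute_of_commute_omega {G : Type*} [Group G] [Finite G] {Q : Subgroup G} [hQn : Q.Normal]
    (hQc : ∀ a ∈ Q, ∀ b ∈ Q, a * b = b * a) {q : ℕ} (hq : q.Prime) (hQp : IsPGroup q Q) {x : G}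
    (hcop : (orderOf x).Coprime q) (hx : ∀ w ∈ Q, w ^ q = 1 → Commute x w) :
    ∀ y ∈ Q, Commute x y := by
  have main : ∀ k : ℕ, ∀ y ∈ Q, y ^ q ^ k = 1 → Commute x y := by
    intro k
    induction k with
    | zero =>
      intro y _ hy
      simp only [pow_zero, pow_one] at hy
      rw [hy]
      exact Commute.one_right x
    | succ k ih =>
      intro y hy hyk
      have h1 : Commute x (y ^ q) := by
        apply ih _ (Q.pow_mem hy q)
        rw [← pow_mul, ← pow_succ']
        exact hyk
      set w := x * y * x⁻¹ * y⁻¹ with hw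
      have hwQ : w ∈ Q := Q.mul_mem (hQn.conj_mem y hy x) (Q.inv_mem hy)
      have hconjQ : x * y * x⁻¹ ∈ Q := hQn.conj_mem y hy x
      have hcommQ : Commute (x * y * x⁻¹) y⁻¹ := hQc _ hconjQ _ (Q.inv_mem hy)
      have hwq : w ^ q = 1 := by
        rw [hw, hcommQ.mul_pow, conj_pow, inv_pow, h1.eq]
        simp
      have hcw : Commute x w := hx w hwQ hwq
      have hxy : x * y * x⁻¹ = w * y := by
        rw [hw]; group
      have key : ∀ n : ℕ, x ^ n * y * (x ^ n)⁻¹ = w ^ n * y := by
        intro n
        induction n with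
        | zero => simp
        | succ n ihn =>
          have h2 : x ^ (n + 1) * y * (x ^ (n + 1))⁻¹ = x * (x ^ n * y * (x ^ n)⁻¹) * x⁻¹ := by
            group
          rw [h2, ihn]
          have h3 : x * (w ^ n * y) * x⁻¹ = (x * w ^ n * x⁻¹) * (x * y * x⁻¹) := by group
          rw [h3, hxy]
          have h4 : x * w ^ n * x⁻¹ = w ^ n := by
            rw [(hcw.pow_right n).eq]; group
          rw [h4, pow_succ]
          exact (mul_assoc _ _ _).symm
      have h5 := key (orderOf x)
      rw [pow_orderOf_eq_one] at h5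
      simp only [one_mul, inv_one, mul_one] at h5
      have h6 : w ^ orderOf x = 1 := by
        have : w ^ orderOf x * y = 1 * y := by rw [← h5, one_mul]
        exact mul_right_cancel this
      have h7 : orderOf w = 1 := by
        have h8 := orderOf_dvd_of_pow_eq_one h6
        have h9 := orderOf_dvd_of_pow_eq_one hwq
        exact Nat.eq_one_of_dvd_coprimes hcop h8 h9
      rw [orderOf_eq_one_iff] at h7
      have h10 : x * y * x⁻¹ = y := by
        rw [hxy, h7, one_mul]
      show x * y = y * x
      calc x * y = x * y * x⁻¹ * x := by group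
        _ = y * x := by rw [h10]
  intro y hy
  obtain ⟨k, hk⟩ := hQp ⟨y, hy⟩
  apply main k y hy
  have := congrArg Subtype.val hk
  simpa using this

/-- A finite non-abelian group in which every proper subgroup is abelian is either of prime-power order, or is generated by a cyclic Sylow p-subgroup and a normal Sylow q-subgroup that is elementary abelian, for distinct primes p and q. -/
theorem result {G : Type*} [Group G] [Finite G] (hna : ¬ IsMulCommutative G) (h : ∀ H : Subgroup G, H ≠ ⊤ → IsMulCommutative H) : (∃ p : ℕ, p.Prime ∧ IsPGroup p G) ∨ ∃ p q : ℕ, p.Prime ∧ q.Prime ∧ p ≠ q ∧ ∃ (P : Sylow p G) (Q : Sylow q G), IsCyclic P ∧ (Q : Subgroup G).Normal ∧ Cfsg.IsElementaryAbelian q (Q : Subgroup G) ∧ (P : Subgroup G) ⊔ Q = ⊤ := by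
  classical
  by_cases hnil : Group.IsNilpotent G
  · -- the nilpotent case: a `p`-group
    left
    by_contra hno
    apply hna
    push Not at hno
    have hiff : Group.IsNilpotent G ↔ Nonempty
        ((∀ p : (Nat.card G).primeFactors, ∀ P : Sylow p G, (↑P : Subgroup G)) ≃* G) :=
      (Group.isNilpotent_of_finite_tfae (G := G)).out 0 4
    obtain ⟨e⟩ := hiff.1 hnil
    have hSy : ∀ (p : (Nat.card G).primeFactors) (P : Sylow p.1 G), (P : Subgroup G) ≠ ⊤ := by
      intro p P hP
      have hp : (p : ℕ).Prime := Nat.prime_of_mem_primeFactors p.2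
      apply hno p hp
      intro g
      have hg : g ∈ (P : Subgroup G) := by rw [hP]; exact Subgroup.mem_top g
      obtain ⟨k, hk⟩ := P.isPGroup' ⟨g, hg⟩
      refine ⟨k, ?_⟩
      have := congrArg Subtype.val hk
      simpa using this
    refine ⟨⟨fun a b => ?_⟩⟩
    apply e.symm.injective
    rw [map_mul, map_mul]
    funext p P
    have := (h _ (hSy p P)).is_comm.comm (e.symm a p P) (e.symm b p P)
    exact this
  · -- the non-nilpotent case
    right
    have hprop : ∀ H : Subgroup G, H ≠ ⊤ → Group.IsNilpotent H := by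
      intro H hH
      have hc := h H hH
      let _ : CommGroup H := { (inferInstance : Group H) with mul_comm := hc.is_comm.comm }
      exact CommGroup.isNilpotent
    obtain ⟨p, q, hp, hq, hpq, P, Q, hcyc, hQn, hsup⟩ :=
      Cfsg.Agent.Lib.Nilpotent.MinNonNilpotent.exists_structure hnil hprop
    refine ⟨p, q, hp, hq, hpq, P, Q, hcyc, hQn, ?_, hsup⟩
    have : Fact q.Prime := ⟨hq⟩
    have : Fact p.Prime := ⟨hp⟩
    -- `Q` is a proper subgroup
    have hQtop : (Q : Subgroup G) ≠ ⊤ := by
      intro hQ
      apply hnil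
      have hQnil : Group.IsNilpotent (Q : Subgroup G) := Q.isPGroup'.isNilpotent
      rw [hQ] at hQnil
      exact Group.isNilpotent_top.mp hQnil
    have hQc := h _ hQtop
    have hQcomm : ∀ a ∈ (Q : Subgroup G), ∀ b ∈ (Q : Subgroup G), a * b = b * a := by
      intro a ha b hb
      have := hQc.is_comm.comm ⟨a, ha⟩ ⟨b, hb⟩
      exact congrArg Subtype.val this
    refine ⟨hQc, ?_⟩
    by_contra hnotel
    push Not at hnotel
    obtain ⟨a₀, ha₀, ha₀ne⟩ := hnotel
    -- the subgroup of elements of order dividing `q`
    let Ω : Subgroup G :=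
      { carrier := {y | y ∈ (Q : Subgroup G) ∧ y ^ q = 1}
        mul_mem' := by
          rintro a b ⟨ha, ha'⟩ ⟨hb, hb'⟩
          refine ⟨Subgroup.mul_mem _ ha hb, ?_⟩
          have hcomm : Commute a b := hQcomm a ha b hb
          rw [hcomm.mul_pow, ha', hb', one_mul]
        one_mem' := ⟨Subgroup.one_mem _, by simp⟩
        inv_mem' := by
          rintro a ⟨ha, ha'⟩
          refine ⟨Subgroup.inv_mem _ ha, ?_⟩
          rw [inv_pow, ha', inv_one] }
    have hΩmem : ∀ {y : G}, y ∈ Ω ↔ y ∈ (Q : Subgroup G) ∧ y ^ q = 1 := Iff.rfl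
    have hΩn : Ω.Normal := by
      refine ⟨fun y hy g => ?_⟩
      rw [hΩmem] at hy ⊢
      refine ⟨hQn.conj_mem y hy.1 g, ?_⟩
      rw [conj_pow, hy.2]
      simp
    have hΩle : Ω ≤ (Q : Subgroup G) := fun y hy => hy.1
    have hΩne : Ω ≠ (Q : Subgroup G) := by
      intro hEq
      have : a₀ ∈ Ω := by rw [hEq]; exact ha₀
      exact ha₀ne this.2
    -- `Ω ⊔ P` is proper
    have hprime : q ∣ Ω.index := by
      have h1 : Ω.relIndex (Q : Subgroup G) * (Q : Subgroup G).index = Ω.index :=
        Subgroup.relIndex_mul_index hΩle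
      have h2 : Ω.relIndex (Q : Subgroup G) ≠ 1 := by
        intro h3
        exact hΩne (le_antisymm hΩle (Subgroup.relIndex_eq_one.mp h3))
      have h3 : Ω.relIndex (Q : Subgroup G) ∣ Nat.card Q := Subgroup.relIndex_dvd_card _ _
      obtain ⟨n, hn⟩ := IsPGroup.iff_card.mp Q.isPGroup'
      rw [show Nat.card Q = q ^ n from hn] at h3
      obtain ⟨m, hm, hm'⟩ := (Nat.dvd_prime_pow hq).mp h3
      have hm0 : m ≠ 0 := by
        rintro rfl
        exact h2 (by simpa using hm')
      rw [← h1, hm']
      exact Dvd.dvd.mul_right (dvd_pow_self q hm0) _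
    have hproper : (P : Subgroup G) ⊔ Ω ≠ ⊤ := by
      intro hEq
      have h1 := Subgroup.relIndex_sup_right (P : Subgroup G) Ω
      rw [hEq, Subgroup.relIndex_top_right] at h1
      have h2 : Ω.relIndex (P : Subgroup G) ∣ Nat.card P := Subgroup.relIndex_dvd_card _ _
      rw [← h1] at h2
      obtain ⟨n, hn⟩ := IsPGroup.iff_card.mp P.isPGroup'
      rw [show Nat.card P = p ^ n from hn] at h2
      have h3 : q ∣ p ^ n := hprime.trans h2
      have h4 := hq.dvd_of_dvd_pow h3
      exact hpq ((Nat.prime_dvd_prime_iff_eq hq hp).mp h4).symm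
    have hPΩc := h _ hproper
    have hPΩ : ∀ x ∈ (P : Subgroup G), ∀ w ∈ Ω, Commute x w := by
      intro x hx w hw
      have hx' : x ∈ (P : Subgroup G) ⊔ Ω := (le_sup_left : (P : Subgroup G) ≤ _) hx
      have hw' : w ∈ (P : Subgroup G) ⊔ Ω := (le_sup_right : Ω ≤ _) hw
      have := hPΩc.is_comm.comm ⟨x, hx'⟩ ⟨w, hw'⟩
      exact congrArg Subtype.val this
    -- `P` centralizes `Q`
    have hPQ : ∀ x ∈ (P : Subgroup G), ∀ y ∈ (Q : Subgroup G), Commute x y := by
      intro x hx
      obtain ⟨k, hk⟩ := (IsPGroup.iff_orderOf.mp P.isPGroup') ⟨x, hx⟩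
      rw [Subgroup.orderOf_mk] at hk
      have hcop : (orderOf x).Coprime q := by
        rw [hk]
        exact Nat.Coprime.pow_left _ ((Nat.coprime_primes hp hq).mpr hpq)
      exact commute_of_commute_omega hQcomm hq Q.isPGroup' hcop
        (fun w hw hwq => hPΩ x hx w ⟨hw, hwq⟩)
    -- hence `G` is commutative
    have hPc : ∀ a ∈ (P : Subgroup G), ∀ b ∈ (P : Subgroup G), a * b = b * a := by
      intro a ha b hb
      have : IsMulCommutative (P : Subgroup G) := IsCyclic.isMulCommutative
      have := this.is_comm.comm ⟨a, ha⟩ ⟨b, hb⟩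
      exact congrArg Subtype.val this
    apply hna
    have hcent : (⊤ : Subgroup G) ≤ Subgroup.center G := by
      rw [← hsup]
      refine sup_le ?_ ?_
      · intro a ha
        rw [Subgroup.mem_center_iff]
        have hb : ∀ g : G, g * a = a * g := by
          have hle : (P : Subgroup G) ⊔ Q ≤ Subgroup.centralizer {a} := by
            refine sup_le ?_ ?_
            · intro b hb
              rw [Subgroup.mem_centralizer_singleton_iff]
              exact hPc b hb a ha
            · intro b hb
              rw [Subgroup.mem_centralizer_singleton_iff]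
              exact ((hPQ a ha b hb).eq).symm
          intro g
          have hg : g ∈ (P : Subgroup G) ⊔ Q := by rw [hsup]; exact Subgroup.mem_top g
          exact Subgroup.mem_centralizer_singleton_iff.mp (hle hg)
        exact hb
      · intro a ha
        rw [Subgroup.mem_center_iff]
        have hb : ∀ g : G, g * a = a * g := by
          have hle : (P : Subgroup G) ⊔ Q ≤ Subgroup.centralizer {a} := by
            refine sup_le ?_ ?_
            · intro b hb
              rw [Subgroup.mem_centralizer_singleton_iff]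
              exact (hPQ b hb a ha).eq
            · intro b hb
              rw [Subgroup.mem_centralizer_singleton_iff]
              exact hQcomm b hb a ha
          intro g
          have hg : g ∈ (P : Subgroup G) ⊔ Q := by rw [hsup]; exact Subgroup.mem_top g
          exact Subgroup.mem_centralizer_singleton_iff.mp (hle hg)
        exact hb
    refine ⟨⟨fun a b => ?_⟩⟩
    exact (Subgroup.mem_center_iff.mp (hcent (Subgroup.mem_top b)) a)

end Cfsg.Agent.S0537
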