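import Cfsg.Statements.S0541
import Mathlib
import Cfsg.Agent.Lib.Basic.Conj
import Cfsg.Agent.Lib.PGroup.Basic
-- import your own Cfsg.Agent.* helpers here

set_option autoImplicit false
open Pointwise
open Cfsg

namespace Cfsg.Agent.S0541

theorem mem_normalizer_of_conj_le {G : Type*} [Group G] [Finite G] {x : G} {Q : Subgroup G}
    (h : MulAut.conj x • Q ≤ Q) : x ∈ Subgroup.normalizer (Q : Set G) := by
  have hQ : MulAut.conj x • Q = Q :=
    Subgroup.eq_of_le_of_card_ge h (by rw [Cfsg.Agent.Lib.Basic.Conj.card_conj_smul])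
  rw [Subgroup.mem_normalizer_iff]
  intro q
  constructor
  · intro hq
    exact h (Cfsg.Agent.Lib.Basic.Conj.conj_mem_conj_smul hq)
  · intro hq
    rw [← hQ, Cfsg.Agent.Lib.Basic.Conj.mem_conj_smul_iff] at hq
    have e : x⁻¹ * (x * q * x⁻¹) * x = q := by group
    rwa [e] at hq

/-- Let Z and Y be subgroups of a finite group G and p a prime. Suppose that for every g in G the subgroup generated by the conjugates of g Z g⁻¹ under Y is a p-group. Then there is a Sylow p-subgroup P of G such that Y normalizes the subgroup generated by all conjugates of Z contained in P. -/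
theorem result {G : Type*} [Group G] [Finite G] (p : ℕ) [Fact p.Prime] (Z Y : Subgroup G) (h : ∀ g : G, IsPGroup p ↥(⨆ y ∈ Y, MulAut.conj (y * g) • Z)) : ∃ P : Sylow p G, Y ≤ Subgroup.normalizer ((⨆ g ∈ {g : G | MulAut.conj g • Z ≤ (P : Subgroup G)}, MulAut.conj g • Z : Subgroup G) : Set G) := by
  classical
  let J : Set G → Subgroup G := fun A => ⨆ g ∈ A, MulAut.conj g • Z
  have hJle : ∀ {A : Set G} {g : G}, g ∈ A → MulAut.conj g • Z ≤ J A := fun {A g} hg =>
    le_iSup₂_of_le g hg le_rfl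
  let ℱ := {A : Set G // (∀ y ∈ Y, ∀ g ∈ A, y * g ∈ A) ∧ IsPGroup p (J A)}
  have hne : Nonempty ℱ := ⟨⟨∅, by simp, by
    have : J ∅ = ⊥ := by simp [J]
    rw [this]
    exact IsPGroup.of_bot⟩⟩
  obtain ⟨⟨A, hAc, hAp⟩, hmax⟩ := Finite.exists_max (fun F : ℱ => F.1.ncard)
  simp only at hmax
  set Q := J A with hQdef
  -- the conjugate of `Q`
  have hconjQ : ∀ x : G, MulAut.conj x • Q ≤ Q → x ∈ Subgroup.normalizer (Q : Set G) :=
    fun x hx => mem_normalizer_of_conj_le hx
  have hQle : ∀ (x : G) (L : Subgroup G), (∀ g ∈ A, MulAut.conj (x * g) • Z ≤ L) → MulAut.conj x • Q ≤ L := by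
    intro x L hL
    change Q.map (MulAut.conj x).toMonoidHom ≤ L
    rw [Subgroup.map_le_iff_le_comap]
    refine iSup₂_le fun g hg => ?_
    rw [← Subgroup.map_le_iff_le_comap]
    have := hL g hg
    rw [Cfsg.Agent.Lib.Basic.Conj.conj_mul_smul] at this
    exact this
  have hYN : Y ≤ Subgroup.normalizer (Q : Set G) := by
    intro y hy
    refine hconjQ y (hQle y Q fun g hg => hJle (hAc y hy g hg))
  -- every conjugate of `Z` inside `N(Q)` is in the family
  have hstar : ∀ t : G, MulAut.conj t • Z ≤ Subgroup.normalizer (Q : Set G) → t ∈ A := by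
    intro t hh
    let S : Subgroup G := ⨆ y ∈ Y, MulAut.conj (y * t) • Z
    have hSN : S ≤ Subgroup.normalizer (Q : Set G) := by
      refine iSup₂_le fun y hy => ?_
      intro z hz
      rw [Cfsg.Agent.Lib.Basic.Conj.mem_conj_smul_iff] at hz
      have h1 : t * ((y * t)⁻¹ * z * (y * t)) * t⁻¹ ∈ Subgroup.normalizer (Q : Set G) :=
        hh (Cfsg.Agent.Lib.Basic.Conj.conj_mem_conj_smul hz)
      have e : z = y * (t * ((y * t)⁻¹ * z * (y * t)) * t⁻¹) * y⁻¹ := by group
      rw [e]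
      exact mul_mem (mul_mem (hYN hy) h1) (inv_mem (hYN hy))
    have hSup : IsPGroup p (Q ⊔ S : Subgroup G) := hAp.to_sup_of_normal_left' (h t) hSN
    let A' : Set G := A ∪ {g | ∃ y ∈ Y, g = y * t}
    have hA'c : ∀ y ∈ Y, ∀ g ∈ A', y * g ∈ A' := by
      rintro y hy g (hg | ⟨y', hy', rfl⟩)
      · exact Or.inl (hAc y hy g hg)
      · exact Or.inr ⟨y * y', mul_mem hy hy', by rw [mul_assoc]⟩
    have hJA' : J A' ≤ Q ⊔ S := by
      refine iSup₂_le fun g hg => ?_
      rcases hg with hg | ⟨y, hy, rfl⟩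
      · exact le_sup_of_le_left (hJle hg)
      · exact le_sup_of_le_right (le_iSup₂_of_le y hy le_rfl)
    have hmem := hmax ⟨A', hA'c, hSup.to_le hJA'⟩
    simp only at hmem
    have hAA' : A = A' := Set.eq_of_subset_of_ncard_le Set.subset_union_left hmem
    rw [hAA']
    exact Or.inr ⟨1, one_mem _, by simp⟩
  -- weak closure of `Q`
  have hweak : ∀ x : G, MulAut.conj x • Q ≤ Subgroup.normalizer (Q : Set G) → MulAut.conj x • Q ≤ Q := by
    intro x hx
    refine hQle x Q fun g hg => hJle (hstar _ ?_)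
    refine le_trans ?_ hx
    rw [Cfsg.Agent.Lib.Basic.Conj.conj_mul_smul]
    exact Subgroup.pointwise_smul_le_pointwise_smul_iff.mpr (hJle hg)
  -- a Sylow subgroup containing `Q`
  obtain ⟨P, hP⟩ := hAp.exists_le_sylow
  refine ⟨P, ?_⟩
  -- `P` normalizes `Q`
  have hPN : (P : Subgroup G) ≤ Subgroup.normalizer (Q : Set G) := by
    by_contra hcon
    have hlt : (P : Subgroup G) ⊓ Subgroup.normalizer (Q : Set G) < (P : Subgroup G) :=
      lt_of_le_of_ne inf_le_left fun heq => hcon (inf_eq_left.mp heq)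
    obtain ⟨x, hxP, hxH, hxN⟩ := Cfsg.Agent.Lib.PGroup.Basic.exists_mem_normalizer_of_lt P.isPGroup' hlt
    apply hxH
    refine ⟨hxP, hconjQ x (hweak x ?_)⟩
    intro z hz
    rw [Cfsg.Agent.Lib.Basic.Conj.mem_conj_smul_iff] at hz
    have hq : x⁻¹ * z * x ∈ (P : Subgroup G) ⊓ Subgroup.normalizer (Q : Set G) :=
      ⟨hP hz, Subgroup.le_normalizer hz⟩
    have h2 := (Subgroup.mem_normalizer_iff.mp hxN _).mp hq
    have e : x * (x⁻¹ * z * x) * x⁻¹ = z := by group
    rw [e] at h2
    exact h2.2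
  -- the join of the conjugates of `Z` in `P` is `Q`
  have hW : (⨆ g ∈ {g : G | MulAut.conj g • Z ≤ (P : Subgroup G)}, MulAut.conj g • Z : Subgroup G) = Q := by
    apply le_antisymm
    · refine iSup₂_le fun g hg => hJle (hstar g (le_trans hg hPN))
    · refine iSup₂_le fun g hg => ?_
      exact le_iSup₂_of_le g (le_trans (hJle hg) hP) le_rfl
  rw [hW]
  exact hYN

end Cfsg.Agent.S0541
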