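import Cfsg.Statements.S0542
import Mathlib
import Cfsg.Agent.Lib.Basic.SylowUtil
-- import your own Cfsg.Agent.* helpers here

set_option autoImplicit false
open Cfsg

namespace Cfsg.Agent.S0542

/-- A Sylow p-subgroup of a finite group meets every subnormal subgroup H in a Sylow p-subgroup of H. -/
theorem result {G : Type*} [Group G] [Finite G] (p : ℕ) [Fact p.Prime] (H : Subgroup G) (hH : H.IsSubnormal) (S : Sylow p G) : ∃ Q : Sylow p H, (Q : Subgroup H) = (S : Subgroup G).subgroupOf H := by
  classical
  induction hH with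
  | top =>
    have hc : Nat.card ((S : Subgroup G).subgroupOf (⊤ : Subgroup G)) =
        p ^ (Nat.card (⊤ : Subgroup G)).factorization p := by
      have h1 : Nat.card ((S : Subgroup G).subgroupOf (⊤ : Subgroup G)) = Nat.card (S : Subgroup G) :=
        Nat.card_congr (Subgroup.subgroupOfEquivOfLe le_top).toEquiv
      rw [h1, S.card_eq_multiplicity, Subgroup.card_top]
    exact ⟨Sylow.ofCard _ hc, rfl⟩
  | step H K hle hK hN ih =>
    obtain ⟨Q, hQ⟩ := ih
    haveI := hN
    obtain ⟨R, hR⟩ := Cfsg.Agent.Lib.Basic.SylowUtil.exists_sylow_inf_normal Q (H.subgroupOf K)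
    have he : Nat.card (H.subgroupOf K) = Nat.card H :=
      Nat.card_congr (Subgroup.subgroupOfEquivOfLe hle).toEquiv
    have hc : Nat.card ((S : Subgroup G).subgroupOf H) = p ^ (Nat.card H).factorization p := by
      rw [← he, ← R.card_eq_multiplicity]
      have h1 : Nat.card R = Nat.card ((R : Subgroup (H.subgroupOf K)).map (H.subgroupOf K).subtype) :=
        (Subgroup.card_map_of_injective (Subgroup.subtype_injective _)).symm
      rw [h1, hR, hQ]
      -- both sides are `S ⊓ H`
      have h2 : Nat.card (((S : Subgroup G).subgroupOf K ⊓ H.subgroupOf K : Subgroup K)) =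
          Nat.card (((S : Subgroup G).subgroupOf K ⊓ H.subgroupOf K : Subgroup K).map K.subtype) :=
        (Subgroup.card_map_of_injective (Subgroup.subtype_injective _)).symm
      have h3 : Nat.card ((S : Subgroup G).subgroupOf H) =
          Nat.card (((S : Subgroup G).subgroupOf H).map H.subtype) :=
        (Subgroup.card_map_of_injective (Subgroup.subtype_injective _)).symm
      rw [h2, h3]
      congr 2
      ext x
      simp only [Subgroup.mem_map, Subgroup.mem_inf, Subgroup.mem_subgroupOf, Subgroup.coe_subtype]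
      constructor
      · rintro ⟨y, hy, rfl⟩
        exact ⟨⟨y, hle y.2⟩, ⟨hy, y.2⟩, rfl⟩
      · rintro ⟨y, ⟨hy, hy2⟩, rfl⟩
        exact ⟨⟨y, hy2⟩, hy, rfl⟩
    exact ⟨Sylow.ofCard _ hc, rfl⟩

end Cfsg.Agent.S0542
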