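import Cfsg.Statements.S0548
import Mathlib
import Cfsg.Agent.S0547
-- import your own Cfsg.Agent.* helpers here

set_option autoImplicit false
open Cfsg

namespace Cfsg.Agent.S0548

/-- Let a finite solvable group G act faithfully and primitively on a set, let M be a minimal normal subgroup and H the stabilizer of a point. Then H is a complement to M, no non-identity element of H centralizes M, and the only subgroups of M normalized by H are the trivial subgroup and M. -/
theorem result {G : Type*} [Group G] [Finite G] [Group.IsSolvable G] {Ω : Type*} [MulAction G Ω] [FaithfulSMul G Ω] (hprim : MulAction.IsPreprimitive G Ω) (M : Subgroup G) [M.Normal] (hM : M ≠ ⊥) (hmin : ∀ K : Subgroup G, K.Normal → K ≤ M → K = ⊥ ∨ K = M) (ω : Ω) : Subgroup.IsComplement' M (MulAction.stabilizer G ω) ∧ MulAction.stabilizer G ω ⊓ Subgroup.centralizer (M : Set G) = ⊥ ∧ ∀ K : Subgroup G, K ≤ M → MulAction.stabilizer G ω ≤ Subgroup.normalizer (K : Set G) → K = ⊥ ∨ K = M := by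
  classical
  haveI := hprim
  have hcomm := Cfsg.Agent.S0547.comm_of_minimal M hM hmin
  have htrans : MulAction.IsPretransitive M Ω :=
    Cfsg.Agent.Lib.Perm.Basic.isPretransitive_of_normal_of_ne_bot M hM
  have hfact : ∀ g : G, ∃ n ∈ M, ∃ s ∈ MulAction.stabilizer G ω, g = n * s :=
    fun g => Cfsg.Agent.Lib.Perm.Basic.exists_mem_mul_mem_stabilizer M ω g
  refine ⟨?_, ?_, ?_⟩
  · apply Subgroup.isComplement'_of_disjoint_and_mul_eq_univ
    · rw [Subgroup.disjoint_def]
      intro x hxM hxH
      exact Cfsg.Agent.Lib.Perm.Basic.eq_one_of_commutative_transitive M hcomm hxM hxH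
    · ext g
      simp only [Set.mem_mul, Set.mem_univ, iff_true]
      obtain ⟨n, hn, s, hs, rfl⟩ := hfact g
      exact ⟨n, hn, s, hs, rfl⟩
  · rw [eq_bot_iff]
    rintro x ⟨hxH, hxC⟩
    rw [Subgroup.mem_bot]
    exact Cfsg.Agent.Lib.Perm.Basic.eq_one_of_mem_centralizer_of_smul_eq M hxC hxH
  · intro K hKM hHK
    apply hmin K _ hKM
    refine ⟨?_⟩
    intro k hk g
    obtain ⟨n, hn, s, hs, rfl⟩ := hfact g
    have h1 : s * k * s⁻¹ ∈ K := (Subgroup.mem_normalizer_iff.mp (hHK hs) k).mp hk
    have h2 : n * (s * k * s⁻¹) * n⁻¹ = s * k * s⁻¹ := by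
      rw [hcomm n hn _ (hKM h1), mul_assoc, mul_inv_cancel, mul_one]
    have h3 : n * s * k * (n * s)⁻¹ = n * (s * k * s⁻¹) * n⁻¹ := by group
    rw [h3, h2]
    exact h1

end Cfsg.Agent.S0548
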