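import Cfsg.Statements.S0549
import Mathlib
-- import your own Cfsg.Agent.* helpers here

set_option autoImplicit false
open Cfsg

namespace Cfsg.Agent.S0549

/-- Let U be a maximal subgroup of a finite group G whose normal core is trivial, and N a nontrivial normal subgroup with centralizer C. Then C ∩ U = 1, and either C = 1 or C is a minimal normal subgroup of G. -/
theorem result {G : Type*} [Group G] [Finite G] (U : Subgroup G) (hU : IsCoatom U) (hcore : U.normalCore = ⊥) (N : Subgroup G) [N.Normal] (hN : N ≠ ⊥) : Subgroup.centralizer (N : Set G) ⊓ U = ⊥ ∧ (Subgroup.centralizer (N : Set G) = ⊥ ∨ (Subgroup.centralizer (N : Set G) ≠ ⊥ ∧ ∀ K : Subgroup G, K.Normal → K ≤ Subgroup.centralizer (N : Set G) → K = ⊥ ∨ K = Subgroup.centralizer (N : Set G))) := by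
  classical
  -- a normal subgroup inside U is trivial
  have hcoreN : ∀ K : Subgroup G, K.Normal → K ≤ U → K = ⊥ := by
    intro K hK hKU
    have := (Subgroup.normal_le_normalCore (H := U) (N := K) (hN := hK)).mpr hKU
    rw [hcore] at this
    exact le_bot_iff.mp this
  -- a nontrivial normal subgroup supplements U
  have hsup : ∀ K : Subgroup G, K.Normal → K ≠ ⊥ → ∀ g : G, ∃ k ∈ K, ∃ u ∈ U, g = k * u := by
    intro K hK hK1 g
    have h1 : U ≤ K ⊔ U := le_sup_right
    have h2 : K ⊔ U = ⊤ := by
      rcases hU.le_iff.mp h1 with h2 | h2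
      · exact h2
      · exfalso
        apply hK1
        apply hcoreN K hK
        rw [← h2]
        exact le_sup_left
    have h3 : g ∈ ((K ⊔ U : Subgroup G) : Set G) := by rw [h2]; trivial
    rw [Subgroup.normal_mul] at h3
    obtain ⟨k, hk, u, hu, rfl⟩ := Set.mem_mul.mp h3
    exact ⟨k, hk, u, hu, rfl⟩
  set C : Subgroup G := Subgroup.centralizer (N : Set G) with hC
  have hCn : C.Normal := inferInstance
  have hCU : C ⊓ U = ⊥ := by
    apply hcoreN
    · constructor
      intro x hx g
      obtain ⟨n, hn, u, hu, rfl⟩ := hsup N inferInstance hN g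
      refine ⟨?_, ?_⟩
      · exact hCn.conj_mem x hx.1 _
      · have h1 : u * x * u⁻¹ ∈ C := hCn.conj_mem x hx.1 u
        have h2 : n * (u * x * u⁻¹) * n⁻¹ = u * x * u⁻¹ := by
          have h3 := Subgroup.mem_centralizer_iff.mp h1 n hn
          rw [h3]
          group
        have h4 : n * u * x * (n * u)⁻¹ = n * (u * x * u⁻¹) * n⁻¹ := by group
        rw [h4, h2]
        exact U.mul_mem (U.mul_mem hu hx.2) (U.inv_mem hu)
    · exact inf_le_right
  refine ⟨hCU, ?_⟩
  by_cases hC1 : C = ⊥
  · exact Or.inl hC1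
  · refine Or.inr ⟨hC1, fun K hK hKC => ?_⟩
    by_cases hK1 : K = ⊥
    · exact Or.inl hK1
    · refine Or.inr (le_antisymm hKC fun x hx => ?_)
      obtain ⟨k, hk, u, hu, rfl⟩ := hsup K hK hK1 x
      have hu1 : u ∈ C ⊓ U := by
        refine ⟨?_, hu⟩
        have : u = k⁻¹ * (k * u) := by group
        rw [this]
        exact C.mul_mem (C.inv_mem (hKC hk)) hx
      rw [hCU, Subgroup.mem_bot] at hu1
      rw [hu1, mul_one]
      exact hk

end Cfsg.Agent.S0549
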