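import Cfsg.Statements.S0550
import Mathlib
import Cfsg.Agent.S0549
-- import your own Cfsg.Agent.* helpers here

set_option autoImplicit false
open Cfsg

namespace Cfsg.Agent.S0550

theorem iso_aux {G : Type*} [Group G] (A B U : Subgroup G) [A.Normal] (hAU : A ⊓ U = ⊥)
    (hsup : ∀ g : G, ∃ a ∈ A, ∃ u ∈ U, g = a * u) (hAB : A ⊓ B = ⊥) :
    Nonempty (B ≃* ↥((A ⊔ B) ⊓ U)) := by
  let π := QuotientGroup.mk' A
  let fB : B →* G ⧸ A := π.comp B.subtype
  let fD : ↥((A ⊔ B) ⊓ U) →* G ⧸ A := π.comp ((A ⊔ B) ⊓ U).subtype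
  have hfB : Function.Injective fB := by
    rw [injective_iff_map_eq_one]
    intro x hx
    have h1 : (x : G) ∈ A := (QuotientGroup.eq_one_iff _).mp hx
    have h2 : (x : G) ∈ A ⊓ B := ⟨h1, x.2⟩
    rw [hAB, Subgroup.mem_bot] at h2
    exact Subtype.ext h2
  have hfD : Function.Injective fD := by
    rw [injective_iff_map_eq_one]
    intro x hx
    have h1 : (x : G) ∈ A := (QuotientGroup.eq_one_iff _).mp hx
    have h2 : (x : G) ∈ A ⊓ U := ⟨h1, x.2.2⟩
    rw [hAU, Subgroup.mem_bot] at h2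
    exact Subtype.ext h2
  have hrange : fB.range = fD.range := by
    ext y
    constructor
    · rintro ⟨b, rfl⟩
      obtain ⟨a, ha, u, hu, hb⟩ := hsup b
      have hu2 : u ∈ (A ⊔ B) ⊓ U := by
        refine ⟨?_, hu⟩
        have : u = a⁻¹ * b := by rw [hb]; group
        rw [this]
        exact (A ⊔ B).mul_mem ((le_sup_left : A ≤ A ⊔ B) (A.inv_mem ha))
          ((le_sup_right : B ≤ A ⊔ B) b.2)
      refine ⟨⟨u, hu2⟩, ?_⟩
      show ((u : G) : G ⧸ A) = ((b : G) : G ⧸ A)
      rw [hb, QuotientGroup.mk_mul, (QuotientGroup.eq_one_iff a).mpr ha, one_mul]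
    · rintro ⟨d, rfl⟩
      have h3 : (d : G) ∈ ((A ⊔ B : Subgroup G) : Set G) := d.2.1
      rw [Subgroup.normal_mul] at h3
      obtain ⟨a, ha, b, hb, hd⟩ := Set.mem_mul.mp h3
      refine ⟨⟨b, hb⟩, ?_⟩
      show ((b : G) : G ⧸ A) = ((d : G) : G ⧸ A)
      rw [← hd, QuotientGroup.mk_mul, (QuotientGroup.eq_one_iff a).mpr ha, one_mul]
  exact ⟨(MonoidHom.ofInjective hfB).trans
    ((MulEquiv.subgroupCongr hrange).trans (MonoidHom.ofInjective hfD).symm)⟩


/-- Let U be a maximal subgroup with trivial normal core in a finite group G, and A ≠ B two minimal normal subgroups. Then A is the centralizer of B and B that of A, U complements each of them, A and B are non-abelian, and A, B and (A ⊔ B) ∩ U are pairwise isomorphic. -/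
theorem result {G : Type*} [Group G] [Finite G] (U : Subgroup G) (hU : IsCoatom U) (hcore : U.normalCore = ⊥) (A B : Subgroup G) [A.Normal] [B.Normal] (hA : A ≠ ⊥) (hB : B ≠ ⊥) (hAmin : ∀ K : Subgroup G, K.Normal → K ≤ A → K = ⊥ ∨ K = A) (hBmin : ∀ K : Subgroup G, K.Normal → K ≤ B → K = ⊥ ∨ K = B) (hAB : A ≠ B) : Subgroup.centralizer (B : Set G) = A ∧ Subgroup.centralizer (A : Set G) = B ∧ Subgroup.IsComplement' A U ∧ Subgroup.IsComplement' B U ∧ ¬ IsMulCommutative A ∧ Nonempty (A ≃* B) ∧ Nonempty (A ≃* ↥((A ⊔ B) ⊓ U)) := by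
  classical
  have hABinf : A ⊓ B = ⊥ := by
    rcases hAmin (A ⊓ B) inferInstance inf_le_left with h | h
    · exact h
    · exfalso
      have hle : A ≤ B := by
        rw [← h]
        exact inf_le_right
      rcases hBmin A inferInstance hle with h2 | h2
      · exact hA h2
      · exact hAB h2
  have hdis : Disjoint A B := disjoint_iff.mpr hABinf
  have hAC : A ≤ Subgroup.centralizer (B : Set G) := by
    intro a ha
    rw [Subgroup.mem_centralizer_iff]
    intro b hb
    exact (Subgroup.commute_of_normal_of_disjoint A B inferInstance inferInstance hdis a b ha hb).symm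
  have hBC : B ≤ Subgroup.centralizer (A : Set G) := by
    intro b hb
    rw [Subgroup.mem_centralizer_iff]
    intro a ha
    exact Subgroup.commute_of_normal_of_disjoint A B inferInstance inferInstance hdis a b ha hb
  obtain ⟨h1, h2⟩ := Cfsg.Agent.S0549.result U hU hcore B hB
  obtain ⟨h3, h4⟩ := Cfsg.Agent.S0549.result U hU hcore A hA
  have hCB : Subgroup.centralizer (B : Set G) = A := by
    rcases h2 with h2 | ⟨_, h2⟩
    · exfalso
      apply hA
      rw [h2] at hAC
      exact le_bot_iff.mp hAC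
    · rcases h2 A inferInstance hAC with h5 | h5
      · exact absurd h5 hA
      · exact h5.symm
  have hCA : Subgroup.centralizer (A : Set G) = B := by
    rcases h4 with h2 | ⟨_, h2⟩
    · exfalso
      apply hB
      rw [h2] at hBC
      exact le_bot_iff.mp hBC
    · rcases h2 B inferInstance hBC with h5 | h5
      · exact absurd h5 hB
      · exact h5.symm
  rw [hCB] at h1
  rw [hCA] at h3
  have hcoreN : ∀ K : Subgroup G, K.Normal → K ≤ U → K = ⊥ := by
    intro K hK hKU
    have := (Subgroup.normal_le_normalCore (H := U) (N := K) (hN := hK)).mpr hKU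
    rw [hcore] at this
    exact le_bot_iff.mp this
  have hsup : ∀ K : Subgroup G, K.Normal → K ≠ ⊥ → K ⊔ U = ⊤ := by
    intro K hK hK1
    have h1 : U ≤ K ⊔ U := le_sup_right
    rcases hU.le_iff.mp h1 with h2 | h2
    · exact h2
    · exfalso
      apply hK1
      apply hcoreN K hK
      rw [← h2]
      exact le_sup_left
  have hsupm : ∀ K : Subgroup G, K.Normal → K ≠ ⊥ → ∀ g : G, ∃ k ∈ K, ∃ u ∈ U, g = k * u := by
    intro K hK hK1 g
    have h3 : g ∈ ((K ⊔ U : Subgroup G) : Set G) := by rw [hsup K hK hK1]; trivial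
    rw [Subgroup.normal_mul] at h3
    obtain ⟨k, hk, u, hu, rfl⟩ := Set.mem_mul.mp h3
    exact ⟨k, hk, u, hu, rfl⟩
  have hcompl : ∀ K : Subgroup G, K.Normal → K ≠ ⊥ → K ⊓ U = ⊥ → Subgroup.IsComplement' K U := by
    intro K hK hK1 hKU
    apply Subgroup.isComplement'_of_disjoint_and_mul_eq_univ (disjoint_iff.mpr hKU)
    rw [← Subgroup.normal_mul, hsup K hK hK1]
    rfl
  have hBAinf : B ⊓ A = ⊥ := by rw [inf_comm]; exact hABinf
  obtain ⟨e1⟩ := iso_aux A B U h1 (hsupm A inferInstance hA) hABinf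
  obtain ⟨e2⟩ := iso_aux B A U h3 (hsupm B inferInstance hB) hBAinf
  rw [sup_comm] at e2
  refine ⟨hCB, hCA, hcompl A inferInstance hA h1, hcompl B inferInstance hB h3, ?_, ⟨e2.trans e1.symm⟩, ⟨e2⟩⟩
  intro hcomm
  have hle : A ≤ Subgroup.centralizer (A : Set G) := by
    intro a ha
    rw [Subgroup.mem_centralizer_iff]
    intro b hb
    have := hcomm.is_comm.comm (⟨b, hb⟩ : A) ⟨a, ha⟩
    exact congrArg Subtype.val this
  rw [hCA] at hle
  apply hA
  rw [← hABinf]
  exact le_antisymm (le_inf le_rfl hle) inf_le_left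

end Cfsg.Agent.S0550
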