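import Cfsg.Statements.S0551
import Cfsg.Agent.Lib.Solvable.Carter
import Cfsg.Agent.Lib.PGroup.Basic
-- import your own Cfsg.Agent.* helpers here

set_option autoImplicit false
open Pointwise
open Cfsg

namespace Cfsg.Agent.S0551

open Cfsg.Agent.Lib.Solvable

/-- In a finite solvable group all core-free maximal subgroups are conjugate. -/
theorem result {G : Type*} [Group G] [Finite G] [Group.IsSolvable G] (U V : Subgroup G) (hU : IsCoatom U) (hV : IsCoatom V) (hUc : U.normalCore = ⊥) (hVc : V.normalCore = ⊥) : ∃ g : G, MulAut.conj g • U = V := by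
  classical
  have hnt : Nontrivial G := by
    by_contra hc
    rw [not_nontrivial_iff_subsingleton] at hc
    exact hU.1 (Subsingleton.elim _ _)
  obtain ⟨N, hN⟩ := MinimalNormal.exists_isMinNormal (G := G)
  haveI hNn := hN.normal
  obtain ⟨p, hp, hpg, hcomm, -⟩ := hN.exists_isPGroup
  haveI : Fact p.Prime := ⟨hp⟩
  -- general facts about a core-free maximal subgroup
  have facts : ∀ {W : Subgroup G}, IsCoatom W → W.normalCore = ⊥ →
      W ⊔ N = ⊤ ∧ W ⊓ N = ⊥ ∧ Subgroup.centralizer (N : Set G) ≤ N := by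
    intro W hW hWc
    have hW1 : W ⊔ N = ⊤ := by
      rcases MinimalNormal.le_or_sup_eq_top_of_isCoatom hW N with hle | h
      · exfalso
        apply hN.ne_bot
        rw [eq_bot_iff, ← hWc]
        exact Subgroup.normal_le_normalCore.mpr hle
      · exact h
    have hW2 : W ⊓ N = ⊥ := by
      rw [eq_bot_iff, ← hWc]
      haveI : (W ⊓ N).Normal := by
        constructor
        intro x hx g
        have hg : g ∈ W ⊔ N := by rw [hW1]; trivial
        rw [Subgroup.mem_sup_of_normal_right] at hg
        obtain ⟨e, he, n, hn, rfl⟩ := hg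
        have hcm : n * x * n⁻¹ = x := by
          have := hcomm.is_comm.comm ⟨n, hn⟩ ⟨x, hx.2⟩
          have h' : n * x = x * n := congrArg Subtype.val this
          rw [h']; group
        have e1 : e * n * x * (e * n)⁻¹ = e * (n * x * n⁻¹) * e⁻¹ := by group
        rw [e1, hcm]
        exact ⟨W.mul_mem (W.mul_mem he hx.1) (W.inv_mem he), hNn.conj_mem x hx.2 e⟩
      exact Subgroup.normal_le_normalCore.mpr inf_le_left
    refine ⟨hW1, hW2, ?_⟩
    have hW3 : W ⊓ Subgroup.centralizer (N : Set G) = ⊥ := by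
      rw [eq_bot_iff, ← hWc]
      haveI : (W ⊓ Subgroup.centralizer (N : Set G)).Normal := by
        constructor
        intro x hx g
        have hg : g ∈ W ⊔ N := by rw [hW1]; trivial
        rw [Subgroup.mem_sup_of_normal_right] at hg
        obtain ⟨e, he, n, hn, rfl⟩ := hg
        have hcm : n * x * n⁻¹ = x := by
          have h' := Subgroup.mem_centralizer_iff.mp hx.2 n hn
          rw [h']; group
        have e1 : e * n * x * (e * n)⁻¹ = e * (n * x * n⁻¹) * e⁻¹ := by group
        rw [e1, hcm]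
        exact ⟨W.mul_mem (W.mul_mem he hx.1) (W.inv_mem he),
          (inferInstance : (Subgroup.centralizer (N : Set G)).Normal).conj_mem x hx.2 e⟩
      exact Subgroup.normal_le_normalCore.mpr inf_le_left
    intro c hc
    have hcW : c ∈ W ⊔ N := by rw [hW1]; trivial
    rw [Subgroup.mem_sup_of_normal_right] at hcW
    obtain ⟨u, hu, n, hn, rfl⟩ := hcW
    have hnC : n ∈ Subgroup.centralizer (N : Set G) := by
      rw [Subgroup.mem_centralizer_iff]
      intro y hy
      have := hcomm.is_comm.comm ⟨y, hy⟩ ⟨n, hn⟩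
      exact congrArg Subtype.val this
    have huC : u ∈ Subgroup.centralizer (N : Set G) := by
      have e : u = (u * n) * n⁻¹ := by group
      rw [e]
      exact Subgroup.mul_mem _ hc (Subgroup.inv_mem _ hnC)
    have hu1 : u ∈ W ⊓ Subgroup.centralizer (N : Set G) := ⟨hu, huC⟩
    rw [hW3, Subgroup.mem_bot] at hu1
    rw [hu1, one_mul]
    exact hn
  obtain ⟨hU1, hU2, hC⟩ := facts hU hUc
  obtain ⟨hV1, hV2, -⟩ := facts hV hVc
  -- the case N = G
  by_cases hNtop : N = ⊤
  · refine ⟨1, ?_⟩
    rw [map_one, one_smul]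
    rw [hNtop, inf_top_eq] at hU2 hV2
    rw [hU2, hV2]
  -- a minimal normal subgroup of G / N
  haveI hnt2 : Nontrivial (G ⧸ N) := by
    rw [QuotientGroup.nontrivial_iff]
    exact hNtop
  obtain ⟨Rb, hRb⟩ := MinimalNormal.exists_isMinNormal (G := G ⧸ N)
  haveI hRbn := hRb.normal
  obtain ⟨q, hq, hqg, -, -⟩ := hRb.exists_isPGroup
  haveI : Fact q.Prime := ⟨hq⟩
  let R : Subgroup G := Rb.comap (QuotientGroup.mk' N)
  haveI hRn : R.Normal := Subgroup.Normal.comap inferInstance _
  have hNR : N ≤ R := by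
    intro x hx
    change (QuotientGroup.mk x : G ⧸ N) ∈ Rb
    rw [(QuotientGroup.eq_one_iff x).mpr hx]
    exact Rb.one_mem
  have hRne : R ≠ N := by
    intro he
    apply hRb.ne_bot
    rw [eq_bot_iff]
    intro y hy
    obtain ⟨x, rfl⟩ := QuotientGroup.mk_surjective y
    have hxR : x ∈ R := hy
    rw [he] at hxR
    exact (QuotientGroup.eq_one_iff x).mpr hxR
  -- q ≠ p
  have hqp : q ≠ p := by
    rintro rfl
    have hRp : IsPGroup q R := by
      refine hqg.comap_of_ker_isPGroup (QuotientGroup.mk' N) ?_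
      rw [QuotientGroup.ker_mk']
      exact hpg
    have hinf : N ⊓ Subgroup.centralizer (R : Set G) ≠ ⊥ := by
      let N₀ : Subgroup R := N.subgroupOf R
      haveI : N₀.Normal := Subgroup.Normal.subgroupOf inferInstance R
      have hN₀ : N₀ ≠ ⊥ := by
        intro hb
        apply hN.ne_bot
        rw [eq_bot_iff]
        intro x hx
        have h1 : (⟨x, hNR hx⟩ : R) ∈ N₀ := hx
        rw [hb, Subgroup.mem_bot] at h1
        have := congrArg Subtype.val h1
        simpa using this
      have := Cfsg.Agent.Lib.PGroup.Basic.inf_center_ne_bot hRp hN₀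
      intro hb
      apply this
      rw [eq_bot_iff]
      intro z hz
      have hz1 : (z : G) ∈ N := hz.1
      have hz2 : (z : G) ∈ Subgroup.centralizer (R : Set G) := by
        rw [Subgroup.mem_centralizer_iff]
        intro r hr
        have := (Subgroup.mem_center_iff.mp hz.2) ⟨r, hr⟩
        exact congrArg Subtype.val this
      have hz3 : (z : G) ∈ N ⊓ Subgroup.centralizer (R : Set G) := ⟨hz1, hz2⟩
      rw [hb, Subgroup.mem_bot] at hz3
      exact Subtype.ext hz3
    have hnorm : (N ⊓ Subgroup.centralizer (R : Set G)).Normal := inferInstance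
    have heq : N ⊓ Subgroup.centralizer (R : Set G) = N :=
      (hN.eq_bot_or_eq _ hnorm inf_le_left).resolve_left hinf
    have hNcR : N ≤ Subgroup.centralizer (R : Set G) := inf_eq_left.mp heq
    apply hRne
    apply le_antisymm _ hNR
    intro r hr
    apply hC
    rw [Subgroup.mem_centralizer_iff]
    intro n hn
    exact ((Subgroup.mem_centralizer_iff.mp (hNcR hn)) r hr).symm
  -- Sylow pieces
  have piece : ∀ {W : Subgroup G}, W ⊔ N = ⊤ → W ⊓ N = ⊥ →
      (W ⊓ R) ⊓ N = ⊥ ∧ (W ⊓ R) ⊔ N = R ∧ (Nat.card N).Coprime (Nat.card ↥(W ⊓ R)) := by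
    intro W hW1 hW2
    refine ⟨?_, ?_, ?_⟩
    · rw [eq_bot_iff, ← hW2]
      exact inf_le_inf_right _ inf_le_left
    · apply le_antisymm (sup_le inf_le_right hNR)
      intro x hx
      have hxW : x ∈ W ⊔ N := by rw [hW1]; trivial
      rw [Subgroup.mem_sup_of_normal_right] at hxW
      obtain ⟨w, hw, n, hn, rfl⟩ := hxW
      have hwR : w ∈ R := by
        have e : w = (w * n) * n⁻¹ := by group
        rw [e]
        exact R.mul_mem hx (R.inv_mem (hNR hn))
      exact Subgroup.mul_mem_sup ⟨hw, hwR⟩ hn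
    · -- W ⊓ R is a q-group
      have hWq : IsPGroup q ↥(W ⊓ R) := by
        let f : ↥(W ⊓ R) →* Rb :=
          ((QuotientGroup.mk' N).comp (W ⊓ R).subtype).codRestrict Rb (fun u => u.2.2)
        refine hqg.of_injective f ?_
        rw [injective_iff_map_eq_one]
        intro y hy
        have h1 : (QuotientGroup.mk (y : G) : G ⧸ N) = 1 := congrArg Subtype.val hy
        have h2 : (y : G) ∈ N := (QuotientGroup.eq_one_iff (y : G)).mp h1
        have h3 : (y : G) ∈ W ⊓ N := ⟨y.2.1, h2⟩
        rw [hW2, Subgroup.mem_bot] at h3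
        exact Subtype.ext h3
      obtain ⟨a, ha⟩ := hpg.exists_card_eq
      obtain ⟨b, hb⟩ := hWq.exists_card_eq
      rw [ha, hb]
      exact Nat.Coprime.pow _ _ ((Nat.coprime_primes hp hq).mpr hqp.symm)
  obtain ⟨hU3, hU4, hU5⟩ := piece hU1 hU2
  obtain ⟨hV3, hV4, -⟩ := piece hV1 hV2
  obtain ⟨a, ha, hconj⟩ := Cfsg.Agent.Lib.Solvable.Carter.conj_of_complements_in hNR
    Subgroup.le_normalizer_of_normal hcomm hU5 hU3 hU4 hV3 hV4
  refine ⟨a, ?_⟩
  -- the conjugate of U
  let U₁ : Subgroup G := MulAut.conj a • U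
  let Q : Subgroup G := V ⊓ R
  have hU₁R : U₁ ⊓ R = Q := by
    have hR' : MulAut.conj a • R = R := Subgroup.Normal.conj_smul_eq_self a R
    have : MulAut.conj a • (U ⊓ R) = U₁ ⊓ MulAut.conj a • R := Subgroup.smul_inf _ _ _
    rw [hR'] at this
    rw [← this]
    exact hconj
  have hnormQ : ∀ {W : Subgroup G}, W ⊓ R = Q → W ≤ Subgroup.normalizer (Q : Set G) := by
    intro W hW w hw
    apply Cfsg.Agent.Lib.Solvable.Carter.mem_normalizer_of_forall_conj_mem
    intro x hx
    rw [← hW] at hx ⊢
    exact ⟨W.mul_mem (W.mul_mem hw hx.1) (W.inv_mem hw), hRn.conj_mem x hx.2 w⟩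
  have hQtop : Subgroup.normalizer (Q : Set G) ≠ ⊤ := by
    intro htop
    haveI hQn : Q.Normal := Subgroup.normalizer_eq_top_iff.mp htop
    have hQN : Q ⊓ N = ⊥ := hV3
    have hQc : Q ≤ Subgroup.centralizer (N : Set G) := by
      intro x hx
      rw [Subgroup.mem_centralizer_iff]
      intro n hn
      have hcomm' : n * x * n⁻¹ * x⁻¹ ∈ Q ⊓ N := by
        refine ⟨?_, ?_⟩
        · exact Q.mul_mem (hQn.conj_mem x hx n) (Q.inv_mem hx)
        · have e : n * x * n⁻¹ * x⁻¹ = n * (x * n⁻¹ * x⁻¹) := by group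
          rw [e]
          exact N.mul_mem hn (hNn.conj_mem _ (N.inv_mem hn) x)
      rw [hQN, Subgroup.mem_bot] at hcomm'
      have : n * x * n⁻¹ = x := by
        calc n * x * n⁻¹ = n * x * n⁻¹ * x⁻¹ * x := by group
          _ = x := by rw [hcomm']; simp
      calc n * x = n * x * n⁻¹ * n := by group
        _ = x * n := by rw [this]
    have hQN' : Q ≤ N := hQc.trans hC
    apply hRne
    rw [← hV4]
    exact sup_eq_right.mpr hQN'
  have hU₁c : IsCoatom U₁ := by
    constructor
    · intro h
      apply hU.1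
      have : MulAut.conj a⁻¹ • U₁ = ⊤ := by
        rw [h]; exact Subgroup.Normal.conj_smul_eq_self _ ⊤
      rw [Cfsg.Agent.Lib.Solvable.Carter.conj_smul_smul, inv_mul_cancel, map_one, one_smul] at this
      exact this
    · intro K hK
      have h1 : U < MulAut.conj a⁻¹ • K := by
        refine lt_of_le_of_ne ?_ ?_
        · have h2 := (Subgroup.pointwise_smul_le_pointwise_smul_iff (a := MulAut.conj a⁻¹)).mpr hK.le
          rwa [Cfsg.Agent.Lib.Solvable.Carter.conj_smul_smul, inv_mul_cancel, map_one, one_smul] at h2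
        · intro he
          apply hK.ne
          change MulAut.conj a • U = K
          rw [he, Cfsg.Agent.Lib.Solvable.Carter.conj_smul_smul, mul_inv_cancel, map_one, one_smul]
      have h3 := hU.2 _ h1
      have h4 : MulAut.conj a • MulAut.conj a⁻¹ • K = MulAut.conj a • ⊤ := by rw [h3]
      rw [Cfsg.Agent.Lib.Solvable.Carter.conj_smul_smul, mul_inv_cancel, map_one, one_smul] at h4
      rw [h4]
      exact Subgroup.Normal.conj_smul_eq_self _ ⊤
  have hU₁Q : U₁ = Subgroup.normalizer (Q : Set G) := by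
    by_contra hne
    have hlt : U₁ < Subgroup.normalizer (Q : Set G) := lt_of_le_of_ne (hnormQ hU₁R) hne
    exact hQtop (hU₁c.2 _ hlt)
  have hVQ : V = Subgroup.normalizer (Q : Set G) := by
    by_contra hne
    have hlt : V < Subgroup.normalizer (Q : Set G) := lt_of_le_of_ne (hnormQ rfl) hne
    exact hQtop (hV.2 _ hlt)
  change U₁ = V
  rw [hU₁Q, hVQ]

end Cfsg.Agent.S0551
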