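import Cfsg.Statements.S0552
import Mathlib
import Cfsg.Agent.S0044
import Cfsg.Agent.Lib.Nilpotent.Fitting

set_option autoImplicit false
open Cfsg

namespace Cfsg.Agent.S0552

/-- Let σ be an automorphism of a finite solvable group G fixing every element of the Fitting subgroup. If σ is not the identity then the order of σ and the order of G have a common prime factor. -/
theorem result {G : Type*} [Group G] [Finite G] [Group.IsSolvable G] (σ : G ≃* G) (hσ : ∀ x ∈ Cfsg.fittingSubgroup G, σ x = x) (hne : σ ≠ MulEquiv.refl G) : ¬ (orderOf σ).Coprime (Nat.card G) := by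
  intro hco
  apply hne
  ext g
  have hnormal : (Cfsg.fittingSubgroup G).Normal := Cfsg.Agent.Lib.Nilpotent.Fitting.fittingSubgroup_normal
  -- `f = g⁻¹ σ g` centralizes the Fitting subgroup, hence lies in it
  set f := g⁻¹ * σ g with hf
  have hfcent : f ∈ Subgroup.centralizer (Cfsg.fittingSubgroup G : Set G) := by
    rw [Subgroup.mem_centralizer_iff]
    intro x hx
    have h1 : σ (g * x * g⁻¹) = g * x * g⁻¹ := hσ _ (hnormal.conj_mem x hx g)
    rw [map_mul, map_mul, map_inv, hσ x hx] at h1
    have : g⁻¹ * σ g * x = x * (g⁻¹ * σ g) := by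
      have h2 : σ g * x = g * x * g⁻¹ * σ g := by
        rw [← h1]; group
      calc g⁻¹ * σ g * x = g⁻¹ * (σ g * x) := by group
        _ = g⁻¹ * (g * x * g⁻¹ * σ g) := by rw [h2]
        _ = x * (g⁻¹ * σ g) := by group
    exact this.symm
  have hfF : f ∈ Cfsg.fittingSubgroup G := Cfsg.Agent.S0044.result hfcent
  have hσf : σ f = f := hσ f hfF
  -- iterates
  have hpow : ∀ k : ℕ, (σ ^ k) g = g * f ^ k := by
    intro k
    induction k with
    | zero => simp
    | succ k ih =>
      have hgf : g * f = σ g := by rw [hf]; group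
      rw [pow_succ', MulAut.mul_apply, ih, map_mul, map_pow, hσf, pow_succ', ← mul_assoc, hgf]
  have hn : (σ ^ orderOf σ) g = g := by rw [pow_orderOf_eq_one]; rfl
  rw [hpow] at hn
  have hfn : f ^ orderOf σ = 1 := by simpa using hn
  have hfG : f ^ Nat.card G = 1 := pow_card_eq_one'
  have hf1 : f = 1 := by
    have := orderOf_dvd_of_pow_eq_one hfn
    have h' := orderOf_dvd_of_pow_eq_one hfG
    have h3 := Nat.dvd_gcd this h'
    rw [hco] at h3
    exact orderOf_eq_one_iff.mp (Nat.dvd_one.mp h3)
  rw [hf] at hf1
  have : σ g = g := by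
    have := congrArg (g * ·) hf1
    simpa using this
  simpa using this

end Cfsg.Agent.S0552
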