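import Cfsg.Statements.S0553
import Cfsg.Agent.Lib.Solvable.SylowTools
-- import your own Cfsg.Agent.* helpers here

set_option autoImplicit false
open Cfsg

namespace Cfsg.Agent.S0553

/-- Let G be a nontrivial finite solvable group in which every maximal subgroup has order coprime to its index. Then for some prime p dividing the order of G the Sylow p-subgroups of G are normal. -/
theorem result {G : Type*} [Group G] [Finite G] [Group.IsSolvable G] [Nontrivial G] (h : ∀ M : Subgroup G, IsCoatom M → (Nat.card M).Coprime M.index) : ∃ p : ℕ, p.Prime ∧ p ∣ Nat.card G ∧ ∀ P : Sylow p G, (P : Subgroup G).Normal := by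
  classical
  induction hn : Nat.card G using Nat.strong_induction_on generalizing G with
  | _ n ih =>
    obtain ⟨N, hN⟩ := Cfsg.Agent.Lib.Solvable.MinimalNormal.exists_isMinNormal (G := G)
    haveI hNn := hN.normal
    obtain ⟨p, hp, hpg, -, -⟩ := hN.exists_isPGroup
    haveI : Fact p.Prime := ⟨hp⟩
    have hpN : p ∣ Nat.card N := by
      rcases hpg.card_eq_or_dvd with h1 | h1
      · exact absurd (Subgroup.card_eq_one.mp h1) hN.ne_bot
      · exact h1
    have hpG : p ∣ Nat.card G := hpN.trans (Subgroup.card_subgroup_dvd_card N)
    by_cases hΦ : ∀ M : Subgroup G, IsCoatom M → N ≤ M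
    · rcases subsingleton_or_nontrivial (G ⧸ N) with hs | hnt
      · -- N = G
        refine ⟨p, hp, hn ▸ hpG, fun P => ?_⟩
        have hidx : N.index = 1 := by
          rw [Subgroup.index_eq_card]
          exact Nat.card_of_subsingleton (1 : G ⧸ N)
        exact Cfsg.Agent.Lib.Solvable.SylowTools.normal_of_normal_of_index_coprime hpg
          (by rw [hidx]; exact Nat.coprime_one_left p) P
      · -- induct on G / N
        have hlt := Cfsg.Agent.Lib.Solvable.MinimalNormal.card_quotient_lt N hN.ne_bot
        have hq : ∀ Mb : Subgroup (G ⧸ N), IsCoatom Mb → (Nat.card Mb).Coprime Mb.index := by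
          intro Mb hMb
          have hsurj := QuotientGroup.mk'_surjective N
          have hM := Subgroup.isCoatom_comap_of_surjective hsurj hMb
          have hc := h _ hM
          rw [Subgroup.index_comap_of_surjective _ hsurj] at hc
          refine Nat.Coprime.coprime_dvd_left ?_ hc
          have e : Mb = (Mb.comap (QuotientGroup.mk' N)).map (QuotientGroup.mk' N) :=
            (Subgroup.map_comap_eq_self_of_surjective hsurj Mb).symm
          conv_lhs => rw [e]
          exact Subgroup.card_map_dvd _ _
        obtain ⟨q, hqp, hqdvd, hqn⟩ := ih _ (hn ▸ hlt) (G := G ⧸ N) hq rfl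
        haveI : Fact q.Prime := ⟨hqp⟩
        refine ⟨q, hqp, hn ▸ hqdvd.trans (Subgroup.card_quotient_dvd_card N), fun P => ?_⟩
        let S : Sylow q G := Classical.arbitrary _
        let Qb : Sylow q (G ⧸ N) := Classical.arbitrary _
        have hR := Cfsg.Agent.Lib.Solvable.SylowTools.sup_eq_comap_of_normal_sylow S Qb (hqn Qb)
        haveI hRn : ((S : Subgroup G) ⊔ N).Normal := by
          rw [hR]
          haveI := hqn Qb
          exact Subgroup.Normal.comap inferInstance _
        have hfr := Sylow.normalizer_sup_eq_top' S (le_sup_left : (S : Subgroup G) ≤ (S : Subgroup G) ⊔ N)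
        have hfr2 : Subgroup.normalizer ((S : Subgroup G) : Set G) ⊔ N = ⊤ := by
          rw [eq_top_iff, ← hfr]
          exact sup_le le_sup_left (sup_le (Subgroup.le_normalizer.trans le_sup_left) le_sup_right)
        have htop := Cfsg.Agent.Lib.Solvable.SylowTools.eq_top_of_sup_eq_top_of_forall_coatom hΦ hfr2
        have hSn : (S : Subgroup G).Normal := Subgroup.normalizer_eq_top_iff.mp htop
        exact Cfsg.Agent.Lib.Solvable.SylowTools.normal_of_one_normal S P hSn
    · -- N is not in some maximal subgroup M
      push Not at hΦ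
      obtain ⟨M, hM, hle⟩ := hΦ
      have hsup : M ⊔ N = ⊤ :=
        (Cfsg.Agent.Lib.Solvable.MinimalNormal.le_or_sup_eq_top_of_isCoatom hM N).resolve_left hle
      have hidx : M.index = M.relIndex N :=
        Cfsg.Agent.Lib.Solvable.MinimalNormal.index_eq_relIndex_of_sup_eq_top hsup
      have hdvd : M.index ∣ Nat.card N := by
        rw [hidx]; exact Subgroup.relIndex_dvd_card M N
      obtain ⟨k, hk⟩ := hpg.exists_card_eq
      rw [hk] at hdvd
      obtain ⟨j, -, hj⟩ := (Nat.dvd_prime_pow hp).mp hdvd
      have hne : M.index ≠ 1 := by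
        rw [Ne, Subgroup.index_eq_one]
        exact hM.1
      have hj0 : j ≠ 0 := by
        rintro rfl
        exact hne (by simpa using hj)
      have hpidx : p ∣ M.index := by
        rw [hj]; exact dvd_pow_self p hj0
      have hMc : (Nat.card M).Coprime p := Nat.Coprime.coprime_dvd_right hpidx (h M hM)
      have hNidx : N.index = N.relIndex M := by
        have := Subgroup.relIndex_sup_right M N
        rwa [hsup, Subgroup.relIndex_top_right] at this
      have hNc : N.index.Coprime p := by
        rw [hNidx]
        exact Nat.Coprime.coprime_dvd_left (Subgroup.relIndex_dvd_card N M) hMc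
      exact ⟨p, hp, hn ▸ hpG, fun P =>
        Cfsg.Agent.Lib.Solvable.SylowTools.normal_of_normal_of_index_coprime hpg hNc P⟩

end Cfsg.Agent.S0553
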