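import Cfsg.Statements.S0554
import Mathlib
import Cfsg.Agent.Lib.Solvable.Hall
-- import your own Cfsg.Agent.* helpers here

set_option autoImplicit false
open Cfsg

namespace Cfsg.Agent.S0554

universe u

/-- Moving a factor of a normal subgroup to an arbitrary slot of a product. -/
theorem exists_update_prod {G : Type u} [Group G] (N : Subgroup G) [hN : N.Normal] (t : ℕ) :
    ∀ (s : Fin t → G) (j : Fin t) (n : G), n ∈ N →
      ∃ n' ∈ N, (List.ofFn (Function.update s j (s j * n'))).prod = (List.ofFn s).prod * n := by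
  classical
  induction t with
  | zero => intro s j; exact j.elim0
  | succ t ih =>
    intro s j n hn
    refine Fin.cases ?_ (fun i => ?_) j
    · set P := (List.ofFn fun i : Fin t => s i.succ).prod with hP
      refine ⟨P * n * P⁻¹, hN.conj_mem n hn P, ?_⟩
      rw [List.ofFn_succ, List.ofFn_succ]
      simp only [List.prod_cons, Function.update_self]
      have : (fun i : Fin t => Function.update s 0 (s 0 * (P * n * P⁻¹)) i.succ) =
          fun i : Fin t => s i.succ := by
        funext i
        rw [Function.update_of_ne (Fin.succ_ne_zero i)]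
      rw [this, ← hP]
      group
    · obtain ⟨n', hn', h⟩ := ih (fun i => s i.succ) i n hn
      refine ⟨n', hn', ?_⟩
      rw [List.ofFn_succ, List.ofFn_succ]
      simp only [List.prod_cons]
      rw [Function.update_of_ne (Fin.succ_ne_zero i).symm, mul_assoc, ← h]
      congr 3
      funext k
      by_cases hk : k = i
      · subst hk
        simp
      · rw [Function.update_of_ne (by simpa using hk), Function.update_of_ne hk]

theorem aux : ∀ (c : ℕ) (G : Type u) [Group G] [Finite G] [Group.IsSolvable G], Nat.card G = c →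
    ∀ (t : ℕ) (p : Fin t → ℕ) (hp : ∀ i, (p i).Prime),
    (∀ q : ℕ, q.Prime → q ∣ Nat.card G → ∃ i, p i = q) →
    ∀ (S : (i : Fin t) → Sylow (p i) G) (g : G),
    ∃ s : (i : Fin t) → G, (∀ i, s i ∈ (S i : Subgroup G)) ∧ g = (List.ofFn s).prod := by
  intro c
  induction c using Nat.strong_induction_on with
  | _ c ih =>
  intro G _ _ _ hc t p hp hall S g
  by_cases hnt : Nontrivial G
  swap
  · rw [not_nontrivial_iff_subsingleton] at hnt
    exact ⟨fun _ => 1, fun i => Subgroup.one_mem _, Subsingleton.elim _ _⟩
  classical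
  obtain ⟨q, N, hq, hNn, hNbot, hqN, -, -⟩ := Cfsg.Agent.Lib.Solvable.Hall.exists_normal_abelian_pSubgroup G
  have : Fact q.Prime := ⟨hq⟩
  have hNcard : Nat.card N ≠ 1 := fun h => hNbot (Subgroup.card_eq_one.mp h)
  obtain ⟨k, hk⟩ := IsPGroup.iff_card.mp hqN
  have hk0 : k ≠ 0 := by
    rintro rfl
    exact hNcard (by rw [hk, pow_zero])
  have hqdvd : q ∣ Nat.card G := by
    have h1 : q ∣ Nat.card N := by
      rw [hk]
      exact dvd_pow_self q hk0
    exact h1.trans N.card_subgroup_dvd_card
  obtain ⟨j, rfl⟩ := hall q hq hqdvd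
  have hNS : N ≤ (S j : Subgroup G) := by
    have h1 : IsPGroup (p j) (N ⊔ (S j : Subgroup G) : Subgroup G) :=
      hqN.to_sup_of_normal_left (S j).isPGroup'
    have h2 := (S j).is_maximal' h1 le_sup_right
    rw [← h2]
    exact le_sup_left
  have hapos : 1 < Nat.card N := lt_of_le_of_ne Nat.card_pos (Ne.symm hNcard)
  have hlt : Nat.card (G ⧸ N) < c := by
    rw [← hc, Subgroup.card_eq_card_quotient_mul_card_subgroup N]
    exact lt_mul_of_one_lt_right Nat.card_pos hapos
  have hf := QuotientGroup.mk'_surjective N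
  have hfact : ∀ i, Fact (p i).Prime := fun i => ⟨hp i⟩
  have hall' : ∀ r : ℕ, r.Prime → r ∣ Nat.card (G ⧸ N) → ∃ i, p i = r := by
    intro r hr hrd
    apply hall r hr
    rw [Subgroup.card_eq_card_quotient_mul_card_subgroup N]
    exact hrd.trans (dvd_mul_right _ _)
  obtain ⟨s, hs, hg⟩ := ih _ hlt (G ⧸ N) rfl t p hp hall'
    (fun i => (S i).mapSurjective hf) (QuotientGroup.mk' N g)
  have hlift : ∀ i, ∃ x ∈ (S i : Subgroup G), QuotientGroup.mk' N x = s i := by
    intro i
    have := hs i
    rw [Sylow.coe_mapSurjective] at this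
    obtain ⟨x, hx, hxs⟩ := this
    exact ⟨x, hx, hxs⟩
  choose x hx hxs using hlift
  have hprod : QuotientGroup.mk' N (List.ofFn x).prod = QuotientGroup.mk' N g := by
    rw [map_list_prod, List.map_ofFn, hg]
    congr 2
    funext i
    exact hxs i
  have hn : (List.ofFn x).prod⁻¹ * g ∈ N := by
    rw [← QuotientGroup.ker_mk' N, MonoidHom.mem_ker, map_mul, map_inv, hprod, inv_mul_cancel]
  obtain ⟨n', hn', hup⟩ := exists_update_prod N t x j _ hn
  refine ⟨Function.update x j (x j * n'), ?_, ?_⟩
  · intro i
    by_cases hi : i = j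
    · subst hi
      rw [Function.update_self]
      exact Subgroup.mul_mem _ (hx i) (hNS hn')
    · rw [Function.update_of_ne hi]
      exact hx i
  · rw [hup]
    group


/-- Let G be a finite solvable group and let S assign to each of t distinct primes, including every prime divisor of the order of G, a Sylow subgroup of G. Then every element of G is a product s_0 s_1 ⋯ s_(t-1) with s_i in S i, the factors taken in the given order. -/
theorem result {G : Type*} [Group G] [Finite G] [Group.IsSolvable G] (t : ℕ) (p : Fin t → ℕ) (hp : ∀ i, (p i).Prime) (hinj : Function.Injective p) (hall : ∀ q : ℕ, q.Prime → q ∣ Nat.card G → ∃ i, p i = q) (S : (i : Fin t) → Sylow (p i) G) : ∀ g : G, ∃ s : (i : Fin t) → G, (∀ i, s i ∈ (S i : Subgroup G)) ∧ g = (List.ofFn s).prod := by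
  exact aux _ G rfl t p hp hall S

end Cfsg.Agent.S0554
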