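import Cfsg.Statements.S0555
import Mathlib
-- import your own Cfsg.Agent.* helpers here

set_option autoImplicit false
open Cfsg

namespace Cfsg.Agent.S0555

open scoped commutatorElement


/-- Let i ≥ 1. If in the derived series of a group the quotient of the i-th term by the (i+1)-st and the quotient of the (i+1)-st by the (i+2)-nd are both cyclic, then the (i+1)-st and (i+2)-nd terms coincide. -/
theorem result {G : Type*} [Group G] (i : ℕ) (hi : 1 ≤ i) (h₁ : IsCyclic (↥(derivedSeries G i) ⧸ (derivedSeries G (i + 1)).subgroupOf (derivedSeries G i))) (h₂ : IsCyclic (↥(derivedSeries G (i + 1)) ⧸ (derivedSeries G (i + 2)).subgroupOf (derivedSeries G (i + 1)))) : derivedSeries G (i + 1) = derivedSeries G (i + 2) := by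
  obtain ⟨j, rfl⟩ : ∃ j, i = j + 1 := ⟨i - 1, by omega⟩
  have hAn : (derivedSeries G (j + 1 + 2)).Normal := derivedSeries_normal G _
  have hKn : (derivedSeries G (j + 1 + 1)).Normal := derivedSeries_normal G _
  let π := QuotientGroup.mk' (derivedSeries G (j + 1 + 2))
  have hπs : Function.Surjective π := QuotientGroup.mk'_surjective _
  have hπeq : ∀ a b : G, a⁻¹ * b ∈ derivedSeries G (j + 1 + 2) → π a = π b := by
    intro a b h
    exact QuotientGroup.eq.2 h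
  -- generator of K mod A
  obtain ⟨q, hq⟩ := h₂.exists_generator
  obtain ⟨g0, rfl⟩ := QuotientGroup.mk_surjective q
  set c := π (g0 : G) with hc
  have hK : ∀ y ∈ derivedSeries G (j + 1 + 1), ∃ k : ℤ, π y = c ^ k := by
    intro y hy
    obtain ⟨k, hk⟩ := hq (QuotientGroup.mk ⟨y, hy⟩)
    replace hk : QuotientGroup.mk (g0 ^ k) = (QuotientGroup.mk ⟨y, hy⟩ : ↥(derivedSeries G (j + 1 + 1)) ⧸ (derivedSeries G (j + 1 + 2)).subgroupOf (derivedSeries G (j + 1 + 1))) := by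
      rw [← hk]
      rfl
    have hmem := QuotientGroup.eq.1 hk
    rw [Subgroup.mem_subgroupOf] at hmem
    have h2 : π (((g0 ^ k : ↥(derivedSeries G (j + 1 + 1))) : G)) = π y := hπeq _ _ hmem
    refine ⟨k, ?_⟩
    rw [← h2, hc, Subgroup.coe_zpow, map_zpow]
  -- generator of H' mod K
  obtain ⟨q₁, hq₁⟩ := h₁.exists_generator
  obtain ⟨t0, rfl⟩ := QuotientGroup.mk_surjective q₁
  have hH : ∀ a ∈ derivedSeries G (j + 1), ∃ u : ℤ, ∃ k ∈ derivedSeries G (j + 1 + 1), a = ((t0 : G) ^ u) * k := by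
    intro a ha
    obtain ⟨u, hu⟩ := hq₁ (QuotientGroup.mk ⟨a, ha⟩)
    replace hu : QuotientGroup.mk (t0 ^ u) = (QuotientGroup.mk ⟨a, ha⟩ : ↥(derivedSeries G (j + 1)) ⧸ (derivedSeries G (j + 1 + 1)).subgroupOf (derivedSeries G (j + 1))) := by
      rw [← hu]
      rfl
    have hmem := QuotientGroup.eq.1 hu
    rw [Subgroup.mem_subgroupOf] at hmem
    refine ⟨u, _, hmem, ?_⟩
    show a = ((t0 : G) ^ u) * (((t0 ^ u : ↥(derivedSeries G (j + 1))) : G)⁻¹ * a)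
    rw [Subgroup.coe_zpow, mul_inv_cancel_left]
  -- every element of the quotient acts on c by a power
  have hact : ∀ h : G ⧸ derivedSeries G (j + 1 + 2), ∃ n : ℤ, h * c * h⁻¹ = c ^ n := by
    intro h
    obtain ⟨g, rfl⟩ := hπs h
    obtain ⟨n, hn⟩ := hK (g * g0 * g⁻¹) (hKn.conj_mem _ g0.2 g)
    refine ⟨n, ?_⟩
    rw [← hn]
    simp only [hc, map_mul, map_inv]
  have hpowconj : ∀ (h : G ⧸ derivedSeries G (j + 1 + 2)) (n : ℤ) (k : ℤ), h * c * h⁻¹ = c ^ n →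
      h * c ^ k * h⁻¹ = (c ^ k) ^ n := by
    intro h n k hn
    rw [← conj_zpow, hn, ← zpow_mul, ← zpow_mul, mul_comm]
  have hcomm : ∀ a b : G ⧸ derivedSeries G (j + 1 + 2), ⁅a, b⁆ * c = c * ⁅a, b⁆ := by
    intro a b
    obtain ⟨n₁, hn₁⟩ := hact a⁻¹
    obtain ⟨n₂, hn₂⟩ := hact b⁻¹
    have h1 : (a⁻¹ * b⁻¹) * c * (a⁻¹ * b⁻¹)⁻¹ = (b⁻¹ * a⁻¹) * c * (b⁻¹ * a⁻¹)⁻¹ := by
      calc (a⁻¹ * b⁻¹) * c * (a⁻¹ * b⁻¹)⁻¹ = a⁻¹ * (b⁻¹ * c * b⁻¹⁻¹) * a⁻¹⁻¹ := by group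
        _ = a⁻¹ * c ^ n₂ * a⁻¹⁻¹ := by rw [hn₂]
        _ = (c ^ n₂) ^ n₁ := hpowconj _ _ _ hn₁
        _ = (c ^ n₁) ^ n₂ := by rw [← zpow_mul, ← zpow_mul, mul_comm]
        _ = b⁻¹ * c ^ n₁ * b⁻¹⁻¹ := (hpowconj _ _ _ hn₂).symm
        _ = b⁻¹ * (a⁻¹ * c * a⁻¹⁻¹) * b⁻¹⁻¹ := by rw [hn₁]
        _ = (b⁻¹ * a⁻¹) * c * (b⁻¹ * a⁻¹)⁻¹ := by group
    -- rewrite
    have h2 : ⁅a, b⁆ = (a * b) * (a⁻¹ * b⁻¹) := by
      simp only [commutatorElement_def]
      group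
    have h3 : (a * b) * (b⁻¹ * a⁻¹) = 1 := by group
    rw [h2]
    have h4 : (a⁻¹ * b⁻¹) * c = (b⁻¹ * a⁻¹) * c * (b⁻¹ * a⁻¹)⁻¹ * (a⁻¹ * b⁻¹) := by
      rw [← h1]
      group
    calc (a * b) * (a⁻¹ * b⁻¹) * c = (a * b) * ((a⁻¹ * b⁻¹) * c) := by group
      _ = (a * b) * ((b⁻¹ * a⁻¹) * c * (b⁻¹ * a⁻¹)⁻¹ * (a⁻¹ * b⁻¹)) := by rw [h4]
      _ = ((a * b) * (b⁻¹ * a⁻¹)) * c * ((b⁻¹ * a⁻¹)⁻¹ * (a⁻¹ * b⁻¹)) := by group
      _ = c * ((a * b) * (a⁻¹ * b⁻¹)) := by rw [h3]; group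
  -- the image of D(j+1) commutes with c
  have hDc : ∀ a ∈ derivedSeries G (j + 1), π a * c = c * π a := by
    intro a ha
    have h1 : derivedSeries G (j + 1) ≤ derivedSeries G 1 := derivedSeries_antitone G (by omega)
    have h2 : derivedSeries G 1 ≤ (Subgroup.centralizer ({c} : Set (G ⧸ derivedSeries G (j + 1 + 2)))).comap π := by
      rw [show derivedSeries G 1 = ⁅(⊤ : Subgroup G), (⊤ : Subgroup G)⁆ from rfl, Subgroup.commutator_le]
      intro x _ y _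
      show π ⁅x, y⁆ ∈ Subgroup.centralizer ({c} : Set (G ⧸ derivedSeries G (j + 1 + 2)))
      rw [map_commutatorElement, Subgroup.mem_centralizer_iff]
      intro z hz
      rw [Set.mem_singleton_iff.1 hz]
      exact (hcomm _ _).symm
    have h3 := h2 (h1 ha)
    have h4 := Subgroup.mem_centralizer_iff.1 h3 c rfl
    exact h4.symm
  have hcpow : ∀ (a : G ⧸ derivedSeries G (j + 1 + 2)) (k : ℤ), a * c = c * a → Commute a (c ^ k) := by
    intro a k hac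
    exact Commute.zpow_right hac k
  have hτmem : (t0 : G) ∈ derivedSeries G (j + 1) := t0.2
  apply le_antisymm
  · show derivedSeries G (j + 1 + 1) ≤ derivedSeries G (j + 1 + 2)
    have hs : derivedSeries G (j + 1 + 1) = ⁅derivedSeries G (j + 1), derivedSeries G (j + 1)⁆ := rfl
    rw [hs, Subgroup.commutator_le]
    intro a ha b hb
    obtain ⟨u, k, hk, rfl⟩ := hH a ha
    obtain ⟨v, l, hl, rfl⟩ := hH b hb
    obtain ⟨r, hr⟩ := hK k hk
    obtain ⟨s, hs'⟩ := hK l hl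
    have hτc := hDc _ hτmem
    have e : π ⁅(t0 : G) ^ u * k, (t0 : G) ^ v * l⁆ = 1 := by
      rw [map_commutatorElement, commutatorElement_eq_one_iff_commute, map_mul, map_mul, map_zpow, hr, hs']
      have hc1 : Commute (π (t0 : G)) (c ^ r) := hcpow _ r hτc
      have hc2 : Commute (π (t0 : G)) (c ^ s) := hcpow _ s hτc
      have hc3 : Commute (c ^ r) (c ^ s) := (Commute.refl c).zpow_zpow r s
      have h1 : Commute ((π (t0 : G)) ^ u) (c ^ s) := hc2.zpow_left u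
      have h2 : Commute (c ^ r) ((π (t0 : G)) ^ v) := (hc1.zpow_left v).symm
      have h3 : Commute ((π (t0 : G)) ^ u) ((π (t0 : G)) ^ v) := (Commute.refl _).zpow_zpow u v
      exact (h3.mul_right h1).mul_left (h2.mul_right hc3)
    have h5 := (QuotientGroup.eq_one_iff _).1 (show ((⁅(t0 : G) ^ u * k, (t0 : G) ^ v * l⁆ : G) : G ⧸ derivedSeries G (j + 1 + 2)) = 1 from e)
    exact h5
  · exact derivedSeries_antitone G (by omega)

end Cfsg.Agent.S0555
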