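import Cfsg.Statements.S0558
import Mathlib
import Cfsg.Agent.Lib.Transfer.HallResidual
import Cfsg.Agent.Lib.Transfer.Frobenius
import Cfsg.Agent.Lib.Nilpotent.Elements
import Cfsg.Agent.Lib.Basic.SylowConj
-- import your own Cfsg.Agent.* helpers here

set_option autoImplicit false
open Cfsg

namespace Cfsg.Agent.S0558

open Subgroup
open Cfsg.Agent.Lib.Transfer.Frobenius Cfsg.Agent.Lib.Transfer.Basic

/-- Sylow of `H` with normalizer `H` is a Sylow subgroup of `G`. -/
theorem isSylow_step {G : Type*} [Group G] [Finite G] (H : Subgroup G) {p : ℕ} [Fact p.Prime]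
    (P : Sylow p H)
    (h : normalizer (((P : Subgroup H).map H.subtype : Subgroup G) : Set G) = H) :
    ∃ S : Sylow p G, (S : Subgroup G) = (P : Subgroup H).map H.subtype ∧ ¬ p ∣ H.index := by
  have hP' : IsPGroup p ((P : Subgroup H).map H.subtype : Subgroup G) := P.2.map _
  obtain ⟨S, hS⟩ := hP'.exists_le_sylow
  have heq : (S : Subgroup G) = (P : Subgroup H).map H.subtype := by
    by_contra hne
    have hlt : (P : Subgroup H).map H.subtype < S := lt_of_le_of_ne hS (Ne.symm hne)
    have h1 := lt_inf_normalizer S.2 hlt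
    rw [h] at h1
    -- `S ⊓ H` is a `p`-subgroup of `H` containing `P`
    have hp2 : IsPGroup p ((S : Subgroup G).subgroupOf H) := S.2.comap_of_injective _ H.subtype_injective
    have hle : (P : Subgroup H) ≤ (S : Subgroup G).subgroupOf H := by
      intro x hx
      exact hS ⟨x, hx, rfl⟩
    have := P.is_maximal' hp2 hle
    apply h1.not_ge
    rintro x ⟨hxS, hxH⟩
    refine ⟨⟨x, hxH⟩, ?_, rfl⟩
    rw [← this]
    exact hxS
  refine ⟨S, heq, fun hd => S.not_dvd_index (hd.trans (Subgroup.index_dvd_of_le ?_))⟩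
  rw [heq]
  exact map_subtype_le _

theorem frobenius_step {G : Type*} [Group G] [Finite G] (H : Subgroup G) (hnil : Group.IsNilpotent H)
    {p q : ℕ} [Fact p.Prime] [Fact q.Prime] (hpq : p ≠ q)
    (P : Sylow p G) (hPH : (P : Subgroup G) ≤ H) (Q : Sylow q G) (hQH : (Q : Subgroup G) ≤ H)
    (hQn : normalizer ((Q : Subgroup G) : Set G) = H) : Cfsg.HasNormalPComplement p G := by
  refine hasNormalPComplement_of_hyp (frobeniusHyp_of_sylow P ?_)
  intro R hRP g hg hco
  rw [Subgroup.mem_centralizer_iff]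
  -- `x` of order prime to `p` in `H` commutes with `P`
  have hcomm : ∀ (x : H), Nat.Coprime (orderOf x) p → ∀ r ∈ (P : Subgroup G), (x : G) * r = r * x := by
    intro x hx r hr
    obtain ⟨k, hk⟩ := (IsPGroup.iff_orderOf.mp P.2) ⟨r, hr⟩
    have hrord : orderOf (⟨r, hPH hr⟩ : H) = p ^ k := by
      rw [← hk]
      exact (Subgroup.orderOf_mk r (hPH hr)).trans (Subgroup.orderOf_mk r hr).symm
    have : Commute x (⟨r, hPH hr⟩ : H) :=
      Cfsg.Agent.Lib.Nilpotent.Elements.commute_of_coprime_orderOf (by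
        rw [hrord]; exact Nat.Coprime.pow_right _ hx)
    exact congrArg Subtype.val this.eq
  -- `Q` centralizes `R`
  have hQC : (Q : Subgroup G) ≤ centralizer (R : Set G) := by
    intro x hx
    rw [Subgroup.mem_centralizer_iff]
    intro r hr
    have hxo : Nat.Coprime (orderOf (⟨x, hQH hx⟩ : H)) p := by
      obtain ⟨k, hk⟩ := (IsPGroup.iff_orderOf.mp Q.2) ⟨x, hx⟩
      have e : orderOf (⟨x, hQH hx⟩ : H) = q ^ k := by
        rw [← hk]
        exact (Subgroup.orderOf_mk x (hQH hx)).trans (Subgroup.orderOf_mk x hx).symm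
      rw [e]
      exact Nat.Coprime.pow_left _ ((Nat.coprime_primes Fact.out Fact.out).mpr hpq.symm)
    exact (hcomm _ hxo r (hRP hr)).symm
  -- conjugate by `g`
  have hgQC : ((g • Q : Sylow q G) : Subgroup G) ≤ centralizer (R : Set G) := by
    intro x hx
    rw [Sylow.coe_subgroup_smul, Subgroup.mem_smul_pointwise_iff_exists] at hx
    obtain ⟨y, hy, rfl⟩ := hx
    rw [Subgroup.mem_centralizer_iff]
    intro r hr
    have hy' := Subgroup.mem_centralizer_iff.mp (hQC hy)
    have hr' : g⁻¹ * r * g ∈ R := by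
      have := (Subgroup.mem_normalizer_iff.mp (inv_mem hg) r).mp hr
      simpa using this
    have h2 := hy' _ hr'
    simp only [MulAut.smul_def, MulAut.conj_apply]
    calc r * (g * y * g⁻¹) = g * ((g⁻¹ * r * g) * y) * g⁻¹ := by group
      _ = g * (y * (g⁻¹ * r * g)) * g⁻¹ := by rw [h2]
      _ = _ := by group
  obtain ⟨c, hc, hcQ⟩ := Cfsg.Agent.Lib.Basic.SylowConj.exists_mem_smul_eq _ (g • Q) Q hgQC hQC
  -- `h = c g` lies in `H`
  have hh : c * g ∈ H := by
    rw [← hQn, Subgroup.mem_normalizer_iff_map_conj_eq]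
    have e : (((c * g) • Q : Sylow q G) : Subgroup G) = (Q : Subgroup G) := by
      rw [mul_smul, hcQ]
    rw [Sylow.coe_subgroup_smul] at e
    exact e
  obtain ⟨a, b, hab, hcab, -, -, ⟨k, hk⟩, hb⟩ := exists_pPart_decomp (p := p) (⟨c * g, hh⟩ : H)
  -- action of `g` on `R` is that of `a`
  have hcr : ∀ r ∈ R, c * r = r * c := fun r hr =>
    (Subgroup.mem_centralizer_iff.mp hc r hr).symm
  have hgn : ∀ r ∈ R, g * r * g⁻¹ ∈ R := fun r hr =>
    (Subgroup.mem_normalizer_iff.mp hg r).mp hr
  have hact : ∀ r ∈ R, g * r * g⁻¹ = (a : G) * r * (a : G)⁻¹ := by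
    intro r hr
    have e1 : c * g = (a : G) * (b : G) := by
      have := congrArg Subtype.val hab
      simpa using this.symm
    have e2 : (b : G) * r = r * b := hcomm b hb r (hRP hr)
    have e3 : c * (g * r * g⁻¹) * c⁻¹ = g * r * g⁻¹ := by
      rw [hcr _ (hgn r hr)]; group
    calc g * r * g⁻¹ = c * (g * r * g⁻¹) * c⁻¹ := e3.symm
      _ = (c * g) * r * (c * g)⁻¹ := by group
      _ = (a : G) * (b : G) * r * ((a : G) * (b : G))⁻¹ := by rw [e1]
      _ = (a : G) * ((b : G) * r) * (b : G)⁻¹ * (a : G)⁻¹ := by group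
      _ = (a : G) * r * (a : G)⁻¹ := by rw [e2]; group
  have hpow : ∀ n : ℕ, ∀ r ∈ R, g ^ n * r * (g ^ n)⁻¹ = (a : G) ^ n * r * ((a : G) ^ n)⁻¹ := by
    intro n
    induction n with
    | zero => intro r _; simp
    | succ n ih =>
      intro r hr
      calc g ^ (n + 1) * r * (g ^ (n + 1))⁻¹ = g ^ n * (g * r * g⁻¹) * (g ^ n)⁻¹ := by
            rw [pow_succ]; group
        _ = (a : G) ^ n * (g * r * g⁻¹) * ((a : G) ^ n)⁻¹ := ih _ (hgn r hr)
        _ = (a : G) ^ n * ((a : G) * r * (a : G)⁻¹) * ((a : G) ^ n)⁻¹ := by rw [hact r hr]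
        _ = _ := by rw [pow_succ]; group
  have ha1 : (a : G) ^ (p ^ k) = 1 := by
    have : a ^ (p ^ k) = 1 := by rw [← hk, pow_orderOf_eq_one]
    simpa using congrArg Subtype.val this
  have hcop : Nat.Coprime (p ^ k) (orderOf g) :=
    Nat.Coprime.pow_left _ hco.symm
  obtain ⟨m, hm⟩ := exists_pow_eq_self_of_coprime hcop
  intro r hr
  have h3 : g ^ (p ^ k) * r * (g ^ (p ^ k))⁻¹ = r := by
    rw [hpow _ r hr, ha1]; simp
  have h4 : g ^ (p ^ k) ∈ centralizer (R : Set G) := by
    rw [Subgroup.mem_centralizer_iff]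
    intro r' hr'
    have h3' : g ^ (p ^ k) * r' * (g ^ (p ^ k))⁻¹ = r' := by
      rw [hpow _ r' hr', ha1]; simp
    exact (mul_inv_eq_iff_eq_mul.mp h3').symm
  have h5 : g ∈ centralizer (R : Set G) := by
    rw [← hm]
    exact pow_mem h4 m
  exact Subgroup.mem_centralizer_iff.mp h5 r hr

/-- Let H be a subgroup of a finite group G that is not a Sylow subgroup of G for any prime, and suppose that for every prime p dividing the order of H and every Sylow p-subgroup P of H the normalizer of P in G is exactly H. Then some normal subgroup of G is a complement to H. -/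
theorem result {G : Type*} [Group G] [Finite G] (H : Subgroup G) (hnot : ∀ p : ℕ, p.Prime → ∀ P : Sylow p G, (P : Subgroup G) ≠ H) (hnorm : ∀ p : ℕ, p.Prime → p ∣ Nat.card H → ∀ P : Sylow p H, Subgroup.normalizer (((P : Subgroup H).map H.subtype : Subgroup G) : Set G) = H) : ∃ N : Subgroup G, N.Normal ∧ Subgroup.IsComplement' N H  := by
  classical
  -- Step 1: each Sylow subgroup of `H` is a Sylow subgroup of `G`
  have hS : ∀ p : ℕ, p.Prime → p ∣ Nat.card H → ¬ p ∣ H.index := by
    intro p hp hpd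
    haveI : Fact p.Prime := ⟨hp⟩
    obtain ⟨S, -, h⟩ := isSylow_step H (default : Sylow p H) (hnorm p hp hpd _)
    exact h
  have hHall : Nat.Coprime (Nat.card H) H.index := by
    rw [Nat.coprime_iff_gcd_eq_one]
    by_contra hne
    obtain ⟨q, hq, hq'⟩ := Nat.exists_prime_and_dvd hne
    exact hS q hq (hq'.trans (Nat.gcd_dvd_left _ _)) (hq'.trans (Nat.gcd_dvd_right _ _))
  -- Step 2: `H` is nilpotent
  have hnil : Group.IsNilpotent H := by
    have := (isNilpotent_of_finite_tfae (G := H)).out 0 3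
    refine this.mpr ?_
    intro p hp P
    by_cases hpd : p ∣ Nat.card H
    · have h1 := hnorm p hp.out hpd P
      have hle : (⊤ : Subgroup H) ≤ normalizer ((P : Subgroup H) : Set H) := by
        intro x _
        rw [Subgroup.mem_normalizer_iff]
        intro y
        have hx : (x : G) ∈ normalizer (((P : Subgroup H).map H.subtype : Subgroup G) : Set G) := by
          rw [h1]; exact x.2
        have := Subgroup.mem_normalizer_iff.mp hx (y : G)
        constructor
        · intro hy
          obtain ⟨z, hz, hze⟩ := this.mp ⟨y, hy, rfl⟩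
          have : z = x * y * x⁻¹ := Subtype.ext (by simpa using hze)
          rwa [← this]
        · intro hy
          obtain ⟨z, hz, hze⟩ := this.mpr ⟨x * y * x⁻¹, hy, rfl⟩
          have : z = y := Subtype.ext (by simpa using hze)
          rwa [← this]
      exact Subgroup.normalizer_eq_top_iff.mp (top_le_iff.mp hle)
    · have hcard : Nat.card (P : Subgroup H) = 1 := by
        obtain ⟨k, hk⟩ := IsPGroup.iff_card.mp P.2
        rcases Nat.eq_zero_or_pos k with rfl | hkpos
        · simpa using hk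
        · exfalso
          apply hpd
          have h2 : p ∣ Nat.card (P : Subgroup H) := by
            rw [hk]; exact dvd_pow_self p hkpos.ne'
          exact h2.trans (Subgroup.card_subgroup_dvd_card _)
      have : (P : Subgroup H) = ⊥ := (Subgroup.card_eq_one).mp hcard
      rw [this]
      infer_instance
  -- Step 3: normal `p`-complements
  refine Cfsg.Agent.Lib.Transfer.HallResidual.exists_normal_complement_of_residuals H hHall ?_
  intro p hp hpd
  haveI : Fact p.Prime := ⟨hp⟩
  rw [← hasNormalPComplement_iff_pResidual]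
  obtain ⟨S, hSe, hSi⟩ := isSylow_step H (default : Sylow p H) (hnorm p hp hpd _)
  have hSH : (S : Subgroup G) ≤ H := by rw [hSe]; exact map_subtype_le _
  -- another prime
  have hq : ∃ q : ℕ, q.Prime ∧ q ∣ Nat.card H ∧ q ≠ p := by
    by_contra hno
    push_neg at hno
    have hcard := Nat.eq_prime_pow_of_unique_prime_dvd (Nat.card_pos (α := H)).ne' (fun {d} hd hdH => hno d hd hdH)
    have hpg : IsPGroup p H := IsPGroup.of_card hcard
    exact hnot p hp (hpg.toSylow hSi) rfl
  obtain ⟨q, hqp, hqd, hne⟩ := hq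
  haveI : Fact q.Prime := ⟨hqp⟩
  obtain ⟨Q, hQe, -⟩ := isSylow_step H (default : Sylow q H) (hnorm q hqp hqd _)
  have hQH : (Q : Subgroup G) ≤ H := by rw [hQe]; exact map_subtype_le _
  exact frobenius_step H hnil hne.symm S hSH Q hQH (by rw [hQe]; exact hnorm q hqp hqd _)

end Cfsg.Agent.S0558
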