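import Cfsg.Statements.S0556
import Mathlib
import Cfsg.Agent.S0087
import Cfsg.Agent.S0558
-- import your own Cfsg.Agent.* helpers here

set_option autoImplicit false
open Cfsg

namespace Cfsg.Agent.S0556

open Subgroup
open scoped commutatorElement Pointwise
open Cfsg.Agent.S0087 (cj cj_mem card_cj cj_mul conj_abelian_hall)

section Basic

variable {G : Type*} [Group G]

/-- Normal abelian coatom: `G'' = 1`. -/
theorem normal_case [Finite G] (A : Subgroup G) (hA : IsCoatom A)
    (hc : ∀ a ∈ A, ∀ b ∈ A, a * b = b * a) (hn : A.Normal) : derivedSeries G 2 = ⊥ := by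
  -- the quotient is cyclic
  have hq : ∀ x y : G ⧸ A, x * y = y * x := by
    obtain ⟨g, hg⟩ : ∃ g : G, g ∉ A := by
      by_contra hno
      push_neg at hno
      exact hA.1 (eq_top_iff.mpr fun x _ => hno x)
    have hg' : (g : G ⧸ A) ≠ 1 := by
      rwa [Ne, QuotientGroup.eq_one_iff]
    have htop : zpowers (g : G ⧸ A) = ⊤ := by
      have hlt : A < (zpowers (g : G ⧸ A)).comap (QuotientGroup.mk' A) := by
        refine lt_of_le_of_ne ?_ ?_
        · intro a ha
          have : (a : G ⧸ A) = 1 := (QuotientGroup.eq_one_iff a).mpr ha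
          show (a : G ⧸ A) ∈ zpowers (g : G ⧸ A)
          rw [this]; exact one_mem _
        · intro he
          apply hg
          rw [he]
          exact mem_zpowers _
      have h2 := hA.2 _ hlt
      rw [eq_top_iff]
      intro x _
      obtain ⟨y, rfl⟩ := QuotientGroup.mk_surjective x
      have : y ∈ (zpowers (g : G ⧸ A)).comap (QuotientGroup.mk' A) := by rw [h2]; trivial
      exact this
    intro x y
    have hx : x ∈ zpowers (g : G ⧸ A) := by rw [htop]; trivial
    have hy : y ∈ zpowers (g : G ⧸ A) := by rw [htop]; trivial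
    obtain ⟨i, rfl⟩ := hx
    obtain ⟨j, rfl⟩ := hy
    simp only
    rw [← zpow_add, ← zpow_add, add_comm]
  have h1 : commutator G ≤ A := by
    rw [_root_.commutator_def, commutator_le]
    intro x _ y _
    rw [← QuotientGroup.eq_one_iff, commutatorElement_def]
    have := hq x y
    simp only [QuotientGroup.mk_mul, QuotientGroup.mk_inv]
    calc (x : G ⧸ A) * y * (x : G ⧸ A)⁻¹ * (y : G ⧸ A)⁻¹
        = (y : G ⧸ A) * x * (x : G ⧸ A)⁻¹ * (y : G ⧸ A)⁻¹ := by rw [this]
      _ = 1 := by group
  rw [derivedSeries_succ, derivedSeries_succ, derivedSeries_zero, eq_bot_iff]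
  have h2 : ⁅(⊤ : Subgroup G), (⊤ : Subgroup G)⁆ ≤ A := h1
  rw [commutator_le]
  intro x hx y hy
  rw [Subgroup.mem_bot, commutatorElement_def, mul_inv_eq_one]
  have := hc x (h2 hx) y (h2 hy)
  rw [mul_inv_eq_iff_eq_mul, this]

/-- A subgroup normalized by the coatom `A`, inside the complement `K`, and non trivial, is `K`. -/
theorem le_of_normalized (A K W : Subgroup G) (hA : IsCoatom A) (hd : Disjoint K A)
    (hWK : W ≤ K) (hW : W ≠ ⊥) (hnor : A ≤ normalizer (W : Set G)) : K ≤ W := by
  have hnot : ¬ W ≤ A := by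
    intro h
    apply hW
    rw [eq_bot_iff]
    intro x hx
    exact (Subgroup.disjoint_def.mp hd) (hWK hx) (h hx) |> fun e => by simp [e]
  have hlt : A < A ⊔ W := lt_of_le_of_ne le_sup_left (fun e => hnot (by rw [e]; exact le_sup_right))
  have htop := hA.2 _ hlt
  intro x hx
  have hx' : x ∈ ((A ⊔ W : Subgroup G) : Set G) := by rw [htop]; trivial
  rw [coe_mul_of_left_le_normalizer_right A W hnor] at hx'
  obtain ⟨a, ha, w, hw, rfl⟩ := Set.mem_mul.mp hx'
  have hw' : w ∈ W := hw
  have haK : a ∈ K := by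
    have : a = (a * w) * w⁻¹ := by group
    rw [this]
    exact K.mul_mem hx (K.inv_mem (hWK hw'))
  have ha1 : a = 1 := (Subgroup.disjoint_def.mp hd) haK ha
  simpa [ha1] using hw'

end Basic

variable {G : Type*} [Group G] [Finite G]

/-- The core-free case. -/
theorem corefree_case (A : Subgroup G) (hA : IsCoatom A)
    (hc : ∀ a ∈ A, ∀ b ∈ A, a * b = b * a)
    (hcore : ∀ M : Subgroup G, M.Normal → M ≤ A → M = ⊥) : derivedSeries G 2 = ⊥ := by
  classical
  by_cases hn : A.Normal
  · exact normal_case A hA hc hn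
  -- normalizers of nontrivial subgroups of `A`
  have hnorm : ∀ P : Subgroup G, P ≤ A → P ≠ ⊥ → normalizer (P : Set G) = A := by
    intro P hPA hP
    have hle : A ≤ normalizer (P : Set G) := fun a ha =>
      Cfsg.Agent.Lib.Transfer.Frobenius.mem_normalizer_of_conj_mem fun x hx => by
        have : a * x * a⁻¹ = x := by rw [hc a ha x (hPA hx)]; group
        rwa [this]
    by_contra hne
    have hlt : A < normalizer (P : Set G) := lt_of_le_of_ne hle (Ne.symm hne)
    have htop := hA.2 _ hlt
    exact hP (hcore P (normalizer_eq_top_iff.mp htop) hPA)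
  have hAbot : A ≠ ⊥ := by
    intro h
    apply hn
    rw [h]
    infer_instance
  have hnA : normalizer (A : Set G) ≤ centralizer (A : Set G) := by
    rw [hnorm A le_rfl hAbot]
    intro a ha
    rw [Subgroup.mem_centralizer_iff]
    intro b hb
    exact hc b hb a ha
  -- Hall
  have hHall : Nat.Coprime (Nat.card A) A.index := by
    rw [Nat.coprime_iff_gcd_eq_one]
    by_contra hne
    obtain ⟨p, hp, hp'⟩ := Nat.exists_prime_and_dvd hne
    have : Fact p.Prime := ⟨hp⟩
    have hpA := hp'.trans (Nat.gcd_dvd_left _ _)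
    have hpi := hp'.trans (Nat.gcd_dvd_right _ _)
    let P : Sylow p A := default
    have hPne : ((P : Subgroup A).map A.subtype : Subgroup G) ≠ ⊥ := by
      intro h
      have h0 : (P : Subgroup A) = ⊥ :=
        (Subgroup.map_eq_bot_iff_of_injective _ A.subtype_injective).mp h
      have hnd := P.not_dvd_index
      rw [h0, Subgroup.index_bot] at hnd
      exact hnd hpA
    obtain ⟨S, -, hS⟩ := Cfsg.Agent.S0558.isSylow_step A P (hnorm _ (map_subtype_le _) hPne)
    exact hS hpi
  obtain ⟨K, hKn, hK⟩ := Cfsg.Agent.S0087.result A hHall hnA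
  have hd : Disjoint K A := hK.disjoint
  have hKne : K ≠ ⊥ := by
    rintro rfl
    exact hA.1 (isComplement'_bot_left.mp hK)
  -- `G' ≤ K`
  have hG' : ∀ x y : G, ⁅x, y⁆ ∈ K := by
    have hs : (K : Set G) * (A : Set G) = Set.univ := by
      rw [← Subgroup.normal_mul, hK.sup_eq_top]
      rfl
    have hd : ∀ x : G, ∃ k ∈ K, ∃ a ∈ A, x = k * a := by
      intro x
      have : x ∈ (K : Set G) * (A : Set G) := by rw [hs]; trivial
      obtain ⟨k, hk, a, ha, rfl⟩ := Set.mem_mul.mp this
      exact ⟨k, hk, a, ha, rfl⟩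
    intro x y
    obtain ⟨k₁, hk₁, a₁, ha₁, rfl⟩ := hd x
    obtain ⟨k₂, hk₂, a₂, ha₂, rfl⟩ := hd y
    rw [← QuotientGroup.eq_one_iff]
    have e1 : (k₁ : G ⧸ K) = 1 := (QuotientGroup.eq_one_iff _).mpr hk₁
    have e2 : (k₂ : G ⧸ K) = 1 := (QuotientGroup.eq_one_iff _).mpr hk₂
    have e3 : (a₁ : G ⧸ K) * (a₂ : G ⧸ K) = (a₂ : G ⧸ K) * (a₁ : G ⧸ K) := by
      rw [← QuotientGroup.mk_mul, ← QuotientGroup.mk_mul, hc a₁ ha₁ a₂ ha₂]
    rw [commutatorElement_def]
    simp only [QuotientGroup.mk_mul, QuotientGroup.mk_inv, e1, e2, one_mul, mul_inv_rev, inv_one,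
      mul_one, QuotientGroup.mk_one]
    rw [e3]
    group
  -- a prime dividing `|K|`
  have hK1 : Nat.card K ≠ 1 := fun h => hKne ((Subgroup.card_eq_one).mp h)
  obtain ⟨q, hq, hqK⟩ := Nat.exists_prime_and_dvd hK1
  have : Fact q.Prime := ⟨hq⟩
  let Q : Sylow q K := default
  let Q' : Subgroup G := (Q : Subgroup K).map K.subtype
  have hQ'K : Q' ≤ K := map_subtype_le _
  have hQb : (Q : Subgroup K) ≠ ⊥ := by
    intro h0
    have hnd := Q.not_dvd_index
    rw [h0, Subgroup.index_bot] at hnd
    exact hnd hqK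
  have hcardQ' : Nat.card Q' = Nat.card (Q : Subgroup K) :=
    Subgroup.card_map_of_injective K.subtype_injective
  let L : Subgroup G := normalizer (Q' : Set G)
  have hLK : L ⊔ K = ⊤ := Sylow.normalizer_sup_eq_top Q
  let N₁ : Subgroup L := K.subgroupOf L
  have hidx : N₁.index = Nat.card A := by
    have h1 : N₁.index = K.relIndex L := rfl
    rw [h1, ← relIndex_sup_right, hLK, relIndex_top_right]
    exact hK.symm.index_eq_card
  have hcard : Nat.card A = K.index := hK.symm.index_eq_card.symm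
  have hAidx : A.index = Nat.card K := hK.index_eq_card
  have hcop : Nat.Coprime (Nat.card N₁) N₁.index := by
    rw [hidx]
    have hdvd : Nat.card N₁ ∣ Nat.card K := by
      have : N₁.map L.subtype ≤ K := by
        rintro _ ⟨x, hx, rfl⟩
        exact hx
      have h2 := Subgroup.card_dvd_of_le this
      rwa [Subgroup.card_map_of_injective L.subtype_injective] at h2
    rw [hAidx] at hHall
    exact (hHall.symm).coprime_dvd_left hdvd
  obtain ⟨A₁', hA₁'⟩ := exists_right_complement'_of_coprime hcop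
  let A₁ : Subgroup G := A₁'.map L.subtype
  have hcardA₁ : Nat.card A = Nat.card A₁ := by
    rw [← hidx, hA₁'.symm.index_eq_card]
    exact (Subgroup.card_map_of_injective L.subtype_injective).symm
  have hA₁L : A₁ ≤ L := map_subtype_le _
  have hA₁c : ∀ a ∈ A₁, ∀ b ∈ A₁, a * b = b * a := by
    rintro _ ⟨x, hx, rfl⟩ _ ⟨y, hy, rfl⟩
    have hm : ⁅x, y⁆ ∈ N₁ ⊓ A₁' := by
      refine ⟨?_, ?_⟩
      · show ((⁅x, y⁆ : L) : G) ∈ K
        exact hG' _ _
      · rw [commutatorElement_def]
        exact A₁'.mul_mem (A₁'.mul_mem (A₁'.mul_mem hx hy) (A₁'.inv_mem hx)) (A₁'.inv_mem hy)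
    have h1 : ⁅x, y⁆ = 1 := by
      have := disjoint_iff.mp hA₁'.disjoint
      rw [this] at hm
      exact hm
    have h2 : x * y = y * x := commutatorElement_eq_one_iff_mul_comm.mp h1
    simpa using congrArg Subtype.val h2
  obtain ⟨a, -, ha⟩ := conj_abelian_hall ⊤ A A₁ le_top le_top hc hA₁c hcardA₁ hHall
  let Q₁ : Subgroup G := cj a Q'
  have hQ₁K : Q₁ ≤ K := by
    rintro _ ⟨x, hx, rfl⟩
    exact hKn.conj_mem x (hQ'K hx) a
  have hQ₁ne : Q₁ ≠ ⊥ := by
    intro h
    have h1 := card_cj a Q'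
    have h2 : Nat.card Q₁ = 1 := by rw [h]; exact Nat.card_unique
    rw [show cj a Q' = Q₁ from rfl, h2, hcardQ'] at h1
    exact hQb ((Subgroup.card_eq_one).mp h1.symm)
  have hnor : A ≤ normalizer (Q₁ : Set G) := by
    rw [← ha]
    rintro _ ⟨y, hy, rfl⟩
    apply Cfsg.Agent.Lib.Transfer.Frobenius.mem_normalizer_of_conj_mem
    rintro _ ⟨w, hw, rfl⟩
    have hyL : y ∈ normalizer (Q' : Set G) := hA₁L hy
    have h3 := (Subgroup.mem_normalizer_iff.mp hyL w).mp hw
    refine ⟨y * w * y⁻¹, h3, ?_⟩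
    simp only [MulEquiv.coe_toMonoidHom, MulAut.conj_apply]
    group
  have hKQ := le_of_normalized A K Q₁ hA hd hQ₁K hQ₁ne hnor
  have hQ₁p : IsPGroup q Q₁ := by
    have hQ'p : IsPGroup q Q' := Q.2.map _
    exact hQ'p.map (MulAut.conj a).toMonoidHom
  have hKp : IsPGroup q K := hQ₁p.to_le hKQ
  -- `K` abelian
  have : Nontrivial K := by
    rw [Subgroup.nontrivial_iff_ne_bot]
    exact hKne
  have hZnt : Nontrivial (center K) := hKp.center_nontrivial
  let Z₀ : Subgroup G := (center K).map K.subtype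
  have hZ₀K : Z₀ ≤ K := map_subtype_le _
  have hZ₀ne : Z₀ ≠ ⊥ := by
    intro h
    have h0 : center K = ⊥ := (Subgroup.map_eq_bot_iff_of_injective _ K.subtype_injective).mp h
    rw [h0] at hZnt
    exact (Subgroup.nontrivial_iff_ne_bot _).mp hZnt rfl
  have hZ₀nor : ∀ g : G, g ∈ normalizer (Z₀ : Set G) := by
    intro g
    apply Cfsg.Agent.Lib.Transfer.Frobenius.mem_normalizer_of_conj_mem
    rintro _ ⟨z, hz, rfl⟩
    refine ⟨⟨g * z * g⁻¹, hKn.conj_mem z z.2 g⟩, ?_, rfl⟩
    refine Subgroup.mem_center_iff.mpr ?_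
    rintro ⟨k, hk⟩
    have hk' : g⁻¹ * k * g ∈ K := by
      have := hKn.conj_mem k hk g⁻¹
      simpa using this
    have h4 := (Subgroup.mem_center_iff.mp hz) ⟨_, hk'⟩
    have h5 : (g⁻¹ * k * g) * (z : G) = z * (g⁻¹ * k * g) := congrArg Subtype.val h4
    apply Subtype.ext
    show k * (g * z * g⁻¹) = g * z * g⁻¹ * k
    calc k * (g * z * g⁻¹) = g * ((g⁻¹ * k * g) * z) * g⁻¹ := by group
      _ = g * (z * (g⁻¹ * k * g)) * g⁻¹ := by rw [h5]
      _ = _ := by group
  have hKZ := le_of_normalized A K Z₀ hA hd hZ₀K hZ₀ne (fun g _ => hZ₀nor g)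
  have hKc : ∀ x ∈ K, ∀ y ∈ K, x * y = y * x := by
    intro x hx y hy
    obtain ⟨z, hz, rfl⟩ := hKZ hx
    have := (Subgroup.mem_center_iff.mp hz) ⟨y, hy⟩
    exact (congrArg Subtype.val this).symm
  -- conclusion
  have hD : derivedSeries G 1 ≤ K := by
    rw [derivedSeries_succ, derivedSeries_zero, commutator_le]
    intro x _ y _
    exact hG' x y
  rw [derivedSeries_succ, eq_bot_iff, commutator_le]
  intro x hx y hy
  rw [Subgroup.mem_bot, commutatorElement_eq_one_iff_mul_comm]
  exact hKc x (hD hx) y (hD hy)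

/-- If a finite group has a maximal subgroup that is abelian, then the third term of its derived series is trivial (so the group is solvable of derived length at most three). -/
theorem result {G : Type*} [Group G] [Finite G] (A : Subgroup G) (hA : IsCoatom A) [IsMulCommutative A] : derivedSeries G 3 = ⊥  := by
  classical
  have hc : ∀ a ∈ A, ∀ b ∈ A, a * b = b * a := fun a ha b hb =>
    congrArg Subtype.val (IsMulCommutative.is_comm.comm (⟨a, ha⟩ : A) ⟨b, hb⟩)
  have h3 : ∀ Z : Subgroup G, (∀ x ∈ Z, ∀ y ∈ Z, x * y = y * x) → derivedSeries G 2 ≤ Z →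
      derivedSeries G 3 = ⊥ := by
    intro Z hZ hle
    rw [derivedSeries_succ, eq_bot_iff, commutator_le]
    intro x hx y hy
    rw [Subgroup.mem_bot, commutatorElement_eq_one_iff_mul_comm]
    exact hZ x (hle hx) y (hle hy)
  by_cases hn : A.Normal
  · have := normal_case A hA hc hn
    exact h3 ⊥ (by simp) (by rw [this])
  -- the centre lies in `A`
  let Z : Subgroup G := center G
  have hNA : normalizer (A : Set G) = A := by
    by_contra hne
    have hlt : A < normalizer (A : Set G) := lt_of_le_of_ne le_normalizer (Ne.symm hne)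
    exact hn (normalizer_eq_top_iff.mp (hA.2 _ hlt))
  have hZA : Z ≤ A := by
    rw [← hNA]
    intro z hz
    apply Cfsg.Agent.Lib.Transfer.Frobenius.mem_normalizer_of_conj_mem
    intro x hx
    have : z * x * z⁻¹ = x := by
      rw [(Subgroup.mem_center_iff.mp hz x).symm]; group
    rwa [this]
  have hcentral : ∀ M : Subgroup G, M.Normal → M ≤ A → M ≤ Z := by
    intro M hM hMA
    let D : Subgroup G := centralizer (M : Set G)
    have hDn : D.Normal := by
      constructor
      intro x hx g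
      rw [Subgroup.mem_centralizer_iff] at hx ⊢
      intro m hm
      have hm' : g⁻¹ * m * g ∈ M := by
        have := hM.conj_mem m hm g⁻¹
        simpa using this
      have h5 := hx _ hm'
      calc m * (g * x * g⁻¹) = g * ((g⁻¹ * m * g) * x) * g⁻¹ := by group
        _ = g * (x * (g⁻¹ * m * g)) * g⁻¹ := by rw [h5]
        _ = _ := by group
    have hAD : A ≤ D := by
      intro a ha
      rw [Subgroup.mem_centralizer_iff]
      intro m hm
      exact hc m (hMA hm) a ha
    have hDtop : D = ⊤ := by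
      by_contra hne
      have hDA : D = A := by
        by_contra h2
        exact hne (hA.2 _ (lt_of_le_of_ne hAD (Ne.symm h2)))
      exact hn (hDA ▸ hDn)
    intro m hm
    rw [Subgroup.mem_center_iff]
    intro g
    have : g ∈ D := by rw [hDtop]; trivial
    exact (Subgroup.mem_centralizer_iff.mp this m hm).symm
  -- pass to the quotient
  let π : G →* G ⧸ Z := QuotientGroup.mk' Z
  have hπ : Function.Surjective π := QuotientGroup.mk'_surjective Z
  have hker : π.ker = Z := QuotientGroup.ker_mk' Z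
  let Ā : Subgroup (G ⧸ Z) := A.map π
  have hcomap : Ā.comap π = A := by
    rw [Subgroup.comap_map_eq, hker]
    exact sup_of_le_left hZA
  have hĀ : IsCoatom Ā := by
    refine ⟨?_, ?_⟩
    · intro h
      apply hA.1
      rw [← hcomap, h, comap_top]
    · intro b hb
      have hle : A ≤ b.comap π := fun a ha => hb.le ⟨a, ha, rfl⟩
      have hne : A ≠ b.comap π := by
        intro e
        apply hb.ne
        show A.map π = b
        rw [e, Subgroup.map_comap_eq_self_of_surjective hπ]
      have htop := hA.2 _ (lt_of_le_of_ne hle hne)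
      rw [eq_top_iff]
      intro y _
      obtain ⟨x, rfl⟩ := hπ y
      have : x ∈ b.comap π := by rw [htop]; trivial
      exact this
  have hĀc : ∀ a ∈ Ā, ∀ b ∈ Ā, a * b = b * a := by
    rintro _ ⟨x, hx, rfl⟩ _ ⟨y, hy, rfl⟩
    rw [← map_mul, ← map_mul, hc x hx y hy]
  have hĀcore : ∀ M : Subgroup (G ⧸ Z), M.Normal → M ≤ Ā → M = ⊥ := by
    intro M hM hMA
    have hMn : (M.comap π).Normal := hM.comap π
    have hle : M.comap π ≤ A := by
      rw [← hcomap]
      exact Subgroup.comap_mono hMA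
    have hZ' := hcentral _ hMn hle
    rw [eq_bot_iff]
    intro y hy
    obtain ⟨x, rfl⟩ := hπ y
    have hx : π x = 1 := by
      rw [← MonoidHom.mem_ker, hker]
      exact hZ' hy
    rw [hx]
    exact one_mem _
  have h2 := corefree_case Ā hĀ hĀc hĀcore
  rw [← map_derivedSeries_eq hπ] at h2
  refine h3 Z ?_ ?_
  · intro x hx y hy
    exact Subgroup.mem_center_iff.mp hx y |>.symm
  · rw [← hker]
    exact (Subgroup.map_eq_bot_iff _).mp h2

end Cfsg.Agent.S0556
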