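import Cfsg.Statements.S0557
import Mathlib
import Cfsg.Agent.Lib.Transfer.HallResidual
-- import your own Cfsg.Agent.* helpers here

set_option autoImplicit false
open Cfsg

namespace Cfsg.Agent.S0557

/-- Let H be a subgroup of a finite group G with order coprime to its index. If iterating the focal-subgroup construction starting from H reaches the trivial subgroup after finitely many steps, then H has a normal complement in G. -/
theorem result {G : Type*} [Group G] [Finite G] (H : Subgroup G) (hHall : (Nat.card H).Coprime H.index) (n : ℕ) (hfoc : (fun K : Subgroup G => Subgroup.focalSubgroup K)^[n] H = ⊥) : ∃ N : Subgroup G, N.Normal ∧ Subgroup.IsComplement' N H := by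
  refine Cfsg.Agent.Lib.Transfer.HallResidual.exists_normal_complement_of_residuals H hHall ?_
  intro p hp hpH
  haveI : Fact p.Prime := ⟨hp⟩
  have hpi : ¬ p ∣ H.index := fun hd => by
    have := Nat.dvd_gcd hpH hd
    rw [hHall.gcd_eq_one] at this
    exact hp.one_lt.ne' (Nat.dvd_one.mp this)
  obtain ⟨P, hP⟩ := Cfsg.Agent.Lib.Basic.SylowUtil.sylow_map_of_not_dvd_index hpi
    (default : Sylow p H)
  have hPH : (P : Subgroup G) ≤ H := by rw [hP]; exact Subgroup.map_subtype_le _
  refine Cfsg.Agent.Lib.Transfer.HallResidual.coprime_card_residual_of_inf_eq_bot P ?_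
  set T := (P : Subgroup G) ⊓ Cfsg.pResidual p G with hT
  have hfT : T ≤ Subgroup.focalSubgroup T := Cfsg.Agent.Lib.Transfer.HallResidual.inf_residual_le_focal P
  have key : ∀ i : ℕ, T ≤ (fun K : Subgroup G => Subgroup.focalSubgroup K)^[i] H := by
    intro i
    induction i with
    | zero => exact inf_le_left.trans hPH
    | succ i ih =>
      rw [Function.iterate_succ_apply']
      exact hfT.trans (Cfsg.Agent.Lib.Transfer.HallResidual.focalSubgroup_mono ih)
  have := key n
  rw [hfoc] at this
  exact le_bot_iff.mp this

end Cfsg.Agent.S0557
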