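import Cfsg.Statements.S0561
import Mathlib
import Cfsg.Agent.Lib.Solvable.Product
-- import your own Cfsg.Agent.* helpers here

set_option autoImplicit false
open Pointwise
open Cfsg

namespace Cfsg.Agent.S0561

/-- Let the finite solvable group G be the product HK of subgroups, and let A be normal in H and B normal in K, where A and B are Hall subgroups of G (order coprime to index). Then for all x, y the product set of xAx⁻¹ and yBy⁻¹ is a subgroup of G. -/
theorem result {G : Type*} [Group G] [Finite G] [Group.IsSolvable G] (H K A B : Subgroup G) (hHK : ∀ g : G, ∃ h ∈ H, ∃ k ∈ K, g = h * k) (hA : A ≤ H) (hAn : (A.subgroupOf H).Normal) (hB : B ≤ K) (hBn : (B.subgroupOf K).Normal) (hAh : (Nat.card A).Coprime A.index) (hBh : (Nat.card B).Coprime B.index) (x y : G) : ∃ S : Subgroup G, (S : Set G) = ((MulAut.conj x • A : Subgroup G) : Set G) * ((MulAut.conj y • B : Subgroup G) : Set G) := by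
  classical
  have hAnorm : ∀ h ∈ H, ∀ a ∈ A, h * a * h⁻¹ ∈ A := by
    intro h hh a ha
    have := hAn.conj_mem ⟨a, hA ha⟩ (Subgroup.mem_subgroupOf.mpr ha) ⟨h, hh⟩
    exact Subgroup.mem_subgroupOf.mp this
  have hBnorm : ∀ k ∈ K, ∀ b ∈ B, k * b * k⁻¹ ∈ B := by
    intro k hk b hb
    have := hBn.conj_mem ⟨b, hB hb⟩ (Subgroup.mem_subgroupOf.mpr hb) ⟨k, hk⟩
    exact Subgroup.mem_subgroupOf.mp this
  have hSg := Cfsg.Agent.Lib.Solvable.Product.exists_subgroup_eq_mul_of_hall H K A B hHK hAnorm hBnorm hAh hBh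
  obtain ⟨h, hh, k, hk, hxy⟩ := hHK (x⁻¹ * y)
  have hy : y = x * h * k := by
    rw [mul_assoc, ← hxy]
    group
  have e1 : MulAut.conj x • A = MulAut.conj (x * h) • A := by
    rw [map_mul, mul_smul, Cfsg.Agent.Lib.Solvable.Product.conj_smul_eq_self (hAnorm h hh)]
  have e2 : MulAut.conj y • B = MulAut.conj (x * h) • B := by
    rw [hy, map_mul, mul_smul, Cfsg.Agent.Lib.Solvable.Product.conj_smul_eq_self (hBnorm k hk)]
  refine ⟨MulAut.conj (x * h) • (A ⊔ B), ?_⟩
  rw [e1, e2, Subgroup.coe_pointwise_smul, hSg, Subgroup.coe_pointwise_smul, Subgroup.coe_pointwise_smul]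
  exact Set.image_mul (MulAut.conj (x * h))

end Cfsg.Agent.S0561
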