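import Cfsg.Statements.S0562
import Mathlib
-- import your own Cfsg.Agent.* helpers here

set_option autoImplicit false
open Cfsg

namespace Cfsg.Agent.S0562

/-- Let the finite group G be the product HK of subgroups, A normal in H, B normal in K, and L the normalizer of the subgroup generated by A and B. Then every element of L is a product of an element of L ∩ H and an element of L ∩ K. -/
theorem result {G : Type*} [Group G] [Finite G] (H K A B : Subgroup G) (hHK : ∀ g : G, ∃ h ∈ H, ∃ k ∈ K, g = h * k) (hA : A ≤ H) (hAn : (A.subgroupOf H).Normal) (hB : B ≤ K) (hBn : (B.subgroupOf K).Normal) : ∀ g ∈ Subgroup.normalizer ((A ⊔ B : Subgroup G) : Set G), ∃ h ∈ Subgroup.normalizer ((A ⊔ B : Subgroup G) : Set G) ⊓ H, ∃ k ∈ Subgroup.normalizer ((A ⊔ B : Subgroup G) : Set G) ⊓ K, g = h * k := by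
  intro g hg
  obtain ⟨h, hh, k, hk, rfl⟩ := hHK g
  set T : Subgroup G := A ⊔ B with hT
  have hnorm : ∀ x : G, (∀ t ∈ T, x * t * x⁻¹ ∈ T) → x ∈ Subgroup.normalizer (T : Set G) := by
    intro x hx
    rw [Subgroup.mem_normalizer_iff]
    intro t
    refine ⟨hx t, fun ht => ?_⟩
    let f : T → T := fun s => ⟨x * s * x⁻¹, hx s s.2⟩
    have hf : Function.Injective f := by
      intro a b hab
      have := congrArg Subtype.val hab
      simp only [f] at this
      exact Subtype.ext (by simpa using this)
    obtain ⟨s, hs⟩ := Finite.surjective_of_injective hf ⟨_, ht⟩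
    have h3 : x * (s : G) * x⁻¹ = x * t * x⁻¹ := congrArg Subtype.val hs
    have : (s : G) = t := by simpa using h3
    exact this ▸ s.2
  have hg' := Subgroup.mem_normalizer_iff.mp hg
  have hgi : ∀ t ∈ T, (h * k)⁻¹ * t * (h * k) ∈ T := by
    intro t ht
    have := (Subgroup.normalizer (T : Set G)).inv_mem hg
    have h2 := (Subgroup.mem_normalizer_iff.mp this t).mp ht
    simpa using h2
  -- conjugation by `k⁻¹` maps `T` into `T`
  have hkT : ∀ t ∈ T, k⁻¹ * t * k ∈ T := by
    have hle : T ≤ (T.comap (MulAut.conj k⁻¹).toMonoidHom) := by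
      apply sup_le
      · intro a ha
        show (MulAut.conj k⁻¹) a ∈ T
        have h4 : h * a * h⁻¹ ∈ A := by
          have := hAn.conj_mem (⟨a, hA ha⟩ : H) (by simpa [Subgroup.mem_subgroupOf] using ha) ⟨h, hh⟩
          simpa [Subgroup.mem_subgroupOf] using this
        have h5 := hgi _ ((le_sup_left : A ≤ T) h4)
        have h6 : (h * k)⁻¹ * (h * a * h⁻¹) * (h * k) = k⁻¹ * a * k := by group
        rw [h6] at h5
        simpa [MulAut.conj_apply] using h5
      · intro b hb
        show (MulAut.conj k⁻¹) b ∈ T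
        have h4 : k⁻¹ * b * k ∈ B := by
          have := hBn.conj_mem (⟨b, hB hb⟩ : K) (by simpa [Subgroup.mem_subgroupOf] using hb) ⟨k⁻¹, K.inv_mem hk⟩
          simpa [Subgroup.mem_subgroupOf] using this
        simpa [MulAut.conj_apply] using (le_sup_right : B ≤ T) h4
    intro t ht
    have := hle ht
    simpa [MulAut.conj_apply] using this
  have hkinv : k⁻¹ ∈ Subgroup.normalizer (T : Set G) := hnorm k⁻¹ (by simpa using hkT)
  have hkN : k ∈ Subgroup.normalizer (T : Set G) := by
    simpa using (Subgroup.normalizer (T : Set G)).inv_mem hkinv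
  have hhN : h ∈ Subgroup.normalizer (T : Set G) := by
    have := (Subgroup.normalizer (T : Set G)).mul_mem hg hkinv
    simpa using this
  exact ⟨h, ⟨hhN, hh⟩, k, ⟨hkN, hk⟩, rfl⟩

end Cfsg.Agent.S0562
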