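import Cfsg.Statements.S0563
import Cfsg.Agent.Lib.KW.Reduce

set_option autoImplicit false
open Pointwise
open Cfsg

namespace Cfsg.Agent.S0563

/-- If a finite group G is the product AB of two nilpotent subgroups of coprime orders, then G is solvable, and for every Sylow p-subgroup P of A and Sylow q-subgroup Q of B the product set PQ is a subgroup. -/
theorem result {G : Type*} [Group G] [Finite G] (A B : Subgroup G) (hA : Group.IsNilpotent A) (hB : Group.IsNilpotent B) (hcop : (Nat.card A).Coprime (Nat.card B)) (hAB : ∀ g : G, ∃ a ∈ A, ∃ b ∈ B, g = a * b) : Group.IsSolvable G ∧ ∀ (p q : ℕ) [Fact p.Prime] [Fact q.Prime] (P : Sylow p A) (Q : Sylow q B), ∃ S : Subgroup G, (S : Set G) = (((P : Subgroup A).map A.subtype : Subgroup G) : Set G) * (((Q : Subgroup B).map B.subtype : Subgroup G) : Set G) := by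
  refine ⟨Cfsg.Agent.Lib.KW.isSolvable_of_product _ G A B rfl hA hB hAB, ?_⟩
  intro p q _ _ P Q
  haveI : Group.IsSolvable G := Cfsg.Agent.Lib.KW.isSolvable_of_product _ G A B rfl hA hB hAB
  rw [Cfsg.Agent.Lib.KW.sylow_map_eq_pPart hA P, Cfsg.Agent.Lib.KW.sylow_map_eq_pPart hB Q]
  have hhall : ∀ (C D : Subgroup G) (r : ℕ) [Fact r.Prime], Group.IsNilpotent C →
      (Nat.card C).Coprime (Nat.card D) → (∀ g : G, ∃ c ∈ C, ∃ d ∈ D, g = c * d) →
      (Nat.card (Cfsg.Agent.Lib.KW.pPart r C)).Coprime (Cfsg.Agent.Lib.KW.pPart r C).index := by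
    intro C D r hr hC hcop hfac
    have hle := Cfsg.Agent.Lib.KW.pPart_le r C
    have hcard : Nat.card C * C.index = Nat.card C * Nat.card D := by
      have h1 := Cfsg.Agent.Lib.Solvable.Product.card_mul_card_inf hfac
      have h2 : C ⊓ D = ⊥ := by
        rw [eq_bot_iff]
        intro x hx
        have h3 : orderOf x ∣ Nat.card C := Subgroup.orderOf_dvd_natCard C hx.1
        have h4 : orderOf x ∣ Nat.card D := Subgroup.orderOf_dvd_natCard D hx.2
        exact orderOf_eq_one_iff.mp (Nat.eq_one_of_dvd_coprimes hcop h3 h4)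
      rw [h2, Subgroup.card_bot, mul_one] at h1
      rw [Subgroup.card_mul_index, h1]
    have hind : C.index = Nat.card D := Nat.eq_of_mul_eq_mul_left Nat.card_pos hcard
    obtain ⟨k, hk⟩ := IsPGroup.iff_card.mp (Cfsg.Agent.Lib.KW.isPGroup_pPart (p := r) C)
    by_cases hrD : r ∣ Nat.card D
    · -- then `r ∤ |C|`, so the `r`-part is trivial
      have hk0 : k = 0 := by
        by_contra hk0
        have h1 : r ∣ Nat.card C := by
          refine Dvd.dvd.trans ?_ (Subgroup.card_dvd_of_le hle)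
          rw [hk]
          exact dvd_pow_self r hk0
        exact hr.out.one_lt.ne' (Nat.eq_one_of_dvd_coprimes hcop h1 hrD)
      rw [hk, hk0, pow_zero]
      exact Nat.coprime_one_left _
    · rw [hk]
      refine Nat.Coprime.pow_left _ ((Nat.Prime.coprime_iff_not_dvd hr.out).2 ?_)
      rw [← Subgroup.relIndex_mul_index hle, hind]
      intro hd
      rcases (Nat.Prime.dvd_mul hr.out).1 hd with h1 | h1
      · exact Cfsg.Agent.Lib.KW.not_dvd_relIndex_pPart hC h1
      · exact hrD h1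
  have hBA : ∀ g : G, ∃ b ∈ B, ∃ a ∈ A, g = b * a :=
    Cfsg.Agent.Lib.Solvable.Product.exists_mul_of_inv hAB
  refine ⟨_, Cfsg.Agent.Lib.Solvable.Product.exists_subgroup_eq_mul_of_hall A B
    (Cfsg.Agent.Lib.KW.pPart p A) (Cfsg.Agent.Lib.KW.pPart q B) hAB ?_ ?_
    (hhall A B p hA hcop hAB) (hhall B A q hB hcop.symm hBA)⟩
  · intro h hh a ha
    exact Cfsg.Agent.Lib.KW.conj_mem_nz (Cfsg.Agent.Lib.KW.le_nz_pPart hA hh) ha
  · intro h hh a ha
    exact Cfsg.Agent.Lib.KW.conj_mem_nz (Cfsg.Agent.Lib.KW.le_nz_pPart hB hh) ha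

end Cfsg.Agent.S0563
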