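import Cfsg.Statements.S0565
import Cfsg.Agent.Lib.KW.Reduce
import Cfsg.Agent.Lib.Solvable.PSeries
import Cfsg.Agent.Lib.Nilpotent.Fitting

set_option autoImplicit false
open Cfsg

namespace Cfsg.Agent.S0565

open Cfsg.Agent.Lib.KW Cfsg.Agent.Lib.Solvable.Carter in
/-- The nilpotent case: a proper subgroup of a finite nilpotent group lies in a proper normal subgroup. -/
theorem nilpotent_case {G : Type*} [Group G] [Finite G] (hG : Group.IsNilpotent G) (A : Subgroup G)
    (hA : A ≠ ⊤) : ∃ N : Subgroup G, N.Normal ∧ N ≠ ⊤ ∧ A ≤ N := by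
  obtain ht | ⟨N, hN, hAN⟩ := (eq_top_or_exists_le_coatom A)
  · exact absurd ht hA
  · exact ⟨N, ((Group.isNilpotent_of_finite_tfae (G := G)).out 0 2 rfl rfl).mp hG N hN, hN.1, hAN⟩

open Cfsg.Agent.Lib.KW Cfsg.Agent.Lib.Solvable.Carter in
/-- A `p`-power index subgroup of a nilpotent group contains the `p'`-part. -/
theorem ppPart_le_of_index {G : Type*} [Group G] [Finite G] {A B M : Subgroup G} {p : ℕ} [hp : Fact p.Prime]
    (hB : Group.IsNilpotent B) (hM : IsPGroup p M) (hAB : ∀ g : G, ∃ a ∈ A, ∃ b ∈ B, g = a * b)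
    (hAM : ∀ g : G, ∃ a ∈ A, ∃ l ∈ M, g = a * l) : ppPart p B ≤ A := by
  have hBA := Cfsg.Agent.Lib.Solvable.Product.exists_mul_of_inv hAB
  have hMA := Cfsg.Agent.Lib.Solvable.Product.exists_mul_of_inv hAM
  -- `[G : A]` is a `p`-power
  have h1 : A.relIndex ⊤ ∣ Nat.card M :=
    relIndex_dvd_of_factor le_top le_top (fun g _ => hMA g)
  rw [Subgroup.relIndex_top_right] at h1
  obtain ⟨k, hk⟩ := IsPGroup.iff_card.mp hM
  rw [hk] at h1
  obtain ⟨j, -, hj⟩ := (Nat.dvd_prime_pow hp.out).1 h1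
  -- `[B : A ∩ B] = [G : A]`
  have h2 := Cfsg.Agent.Lib.Solvable.Product.card_mul_card_inf hAB
  have h3 := card_mul_relIndex_of_le (H := A ⊓ B) (K := B) inf_le_right
  have h4 := Subgroup.card_mul_index A
  have h5 : (A ⊓ B).relIndex B = A.index := by
    have hA0 : 0 < Nat.card A := Nat.card_pos
    have hI0 : 0 < Nat.card (A ⊓ B : Subgroup G) := Nat.card_pos
    apply Nat.eq_of_mul_eq_mul_left (Nat.mul_pos hA0 hI0)
    calc Nat.card A * Nat.card (A ⊓ B : Subgroup G) * (A ⊓ B).relIndex B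
        = Nat.card A * (Nat.card (A ⊓ B : Subgroup G) * (A ⊓ B).relIndex B) := by ring
      _ = Nat.card A * Nat.card B := by rw [h3]
      _ = Nat.card G * Nat.card (A ⊓ B : Subgroup G) := h2.symm
      _ = Nat.card A * A.index * Nat.card (A ⊓ B : Subgroup G) := by rw [h4]
      _ = Nat.card A * Nat.card (A ⊓ B : Subgroup G) * A.index := by ring
  intro b hb
  have hbB := ppPart_le p B hb
  haveI := hB
  have h6 := Cfsg.Agent.Lib.Nilpotent.Fitting.pow_index_mem_of_isNilpotent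
    ((A ⊓ B).subgroupOf B) (⟨b, hbB⟩ : B)
  have h7 : b ^ (A ⊓ B).relIndex B ∈ A ⊓ B := by
    have := Subgroup.mem_subgroupOf.mp h6
    simpa [Subgroup.relIndex] using this
  rw [h5, hj] at h7
  have hc : (orderOf b).Coprime (p ^ j) :=
    Nat.Coprime.pow_right _ (order_coprime_of_mem_ppPart hB hb)
  obtain ⟨m, hm⟩ := exists_pow_eq_self_of_coprime hc.symm
  rw [← hm]
  exact A.pow_mem h7.1 m

open Cfsg.Agent.Lib.KW Cfsg.Agent.Lib.Solvable.Carter in
/-- The induction. -/
theorem aux.{u} : ∀ (n : ℕ) (G : Type u) [Group G] [Finite G] (A B : Subgroup G), Nat.card G = n →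
    Group.IsNilpotent A → Group.IsNilpotent B → (∀ g : G, ∃ a ∈ A, ∃ b ∈ B, g = a * b) →
    (A ≠ ⊤ ∨ B ≠ ⊤) → ∃ N : Subgroup G, N.Normal ∧ N ≠ ⊤ ∧ (A ≤ N ∨ B ≤ N) := by
  intro n
  induction n using Nat.strong_induction_on with
  | _ n ih =>
  intro G _ _ A B hn hA hB hAB hprop
  by_cases hnil : Group.IsNilpotent G
  · rcases hprop with h | h
    · obtain ⟨N, h1, h2, h3⟩ := nilpotent_case hnil A h
      exact ⟨N, h1, h2, Or.inl h3⟩
    · obtain ⟨N, h1, h2, h3⟩ := nilpotent_case hnil B h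
      exact ⟨N, h1, h2, Or.inr h3⟩
  haveI hsolv : Group.IsSolvable G := isSolvable_of_product _ G A B rfl hA hB hAB
  haveI : Nontrivial G := by
    by_contra hnt
    rw [not_nontrivial_iff_subsingleton] at hnt
    apply hnil
    infer_instance
  obtain ⟨p, M, hp, hMn, hMb, hMp⟩ :=
    Cfsg.Agent.Lib.Solvable.PSeries.exists_normal_prime_power_of_solvable (H := G)
  haveI : Fact p.Prime := ⟨hp⟩
  have hBA : ∀ g : G, ∃ b ∈ B, ∃ a ∈ A, g = b * a :=
    Cfsg.Agent.Lib.Solvable.Product.exists_mul_of_inv hAB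
  have ihL : ∀ L : Subgroup G, L.Normal → L ≠ ⊥ → (A ⊔ L ≠ ⊤ ∨ B ⊔ L ≠ ⊤) →
      ∃ N : Subgroup G, N.Normal ∧ N ≠ ⊤ ∧ (A ≤ N ∨ B ≤ N) := by
    intro L hL hb hor
    haveI := hL
    have hmap : ∀ C : Subgroup G, C ⊔ L ≠ ⊤ → C.map (QuotientGroup.mk' L) ≠ ⊤ := by
      intro C hC ht
      apply hC
      have h1 := Subgroup.comap_map_eq (QuotientGroup.mk' L) C
      rw [QuotientGroup.ker_mk', ht, Subgroup.comap_top] at h1
      exact h1.symm
    obtain ⟨N, hN, hNt, hor'⟩ := ih (Nat.card (G ⧸ L)) (by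
        rw [← hn]
        have h1 := Subgroup.card_eq_card_quotient_mul_card_subgroup L
        have h2 : 2 ≤ Nat.card L := by
          have h3 : Nat.card L ≠ 1 := fun e => hb (Subgroup.card_eq_one.mp e)
          have h4 : 0 < Nat.card L := Nat.card_pos
          omega
        have h5 : 0 < Nat.card (G ⧸ L) := Nat.card_pos
        rw [h1]
        nlinarith) (G ⧸ L) (A.map (QuotientGroup.mk' L)) (B.map (QuotientGroup.mk' L)) rfl
      (Cfsg.Agent.Lib.Basic.PCore.isNilpotent_map hA _)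
      (Cfsg.Agent.Lib.Basic.PCore.isNilpotent_map hB _)
      (by
        intro g
        induction g using QuotientGroup.induction_on with
        | _ g =>
        obtain ⟨a, ha, b, hb, rfl⟩ := hAB g
        exact ⟨_, ⟨a, ha, rfl⟩, _, ⟨b, hb, rfl⟩, rfl⟩)
      (hor.imp (hmap A) (hmap B))
    refine ⟨N.comap (QuotientGroup.mk' L), Subgroup.Normal.comap hN _, ?_, ?_⟩
    · intro ht
      apply hNt
      rw [eq_top_iff]
      intro q _
      induction q using QuotientGroup.induction_on with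
      | _ g =>
      have : g ∈ N.comap (QuotientGroup.mk' L) := by rw [ht]; trivial
      exact this
    · rcases hor' with h1 | h1
      · left
        intro a ha
        exact h1 ⟨a, ha, rfl⟩
      · right
        intro a ha
        exact h1 ⟨a, ha, rfl⟩
  by_cases hsup : A ⊔ M ≠ ⊤ ∨ B ⊔ M ≠ ⊤
  · exact ihL M hMn hMb hsup
  push_neg at hsup
  obtain ⟨hAM, hBM⟩ := hsup
  haveI := hMn
  have hfacM : ∀ C : Subgroup G, C ⊔ M = ⊤ → ∀ g : G, ∃ c ∈ C, ∃ l ∈ M, g = c * l := by
    intro C hC g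
    have hg : g ∈ ((C ⊔ M : Subgroup G) : Set G) := by rw [hC]; trivial
    rw [Subgroup.mul_normal C M] at hg
    obtain ⟨c, hc, l, hl, e⟩ := Set.mem_mul.mp hg
    exact ⟨c, hc, l, hl, e.symm⟩
  have h2 : ppPart p B ≤ A := ppPart_le_of_index hB hMp hAB (hfacM A hAM)
  have h3 : ppPart p A ≤ B := ppPart_le_of_index hA hMp hBA (hfacM B hBM)
  have heq : ppPart p A = ppPart p B := by
    apply le_antisymm
    · intro x hx
      exact mem_ppPart_of hB (h3 hx) (order_coprime_of_mem_ppPart hA hx)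
    · intro x hx
      exact mem_ppPart_of hA (h2 hx) (order_coprime_of_mem_ppPart hB hx)
  have hHn : (ppPart p A).Normal := by
    constructor
    intro x hx g
    obtain ⟨a, ha, b, hb, rfl⟩ := hAB g
    have h4 : b * x * b⁻¹ ∈ ppPart p A := by
      rw [heq] at hx ⊢
      exact conj_mem_nz (le_nz_ppPart hB hb) hx
    have h5 := conj_mem_nz (le_nz_ppPart hA ha) h4
    have e : a * b * x * (a * b)⁻¹ = a * (b * x * b⁻¹) * a⁻¹ := by group
    rwa [e]
  by_cases hH : ppPart p A = ⊥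
  · exfalso
    apply hnil
    have hpA : IsPGroup p A := isPGroup_of_ppPart_eq_bot hA hH
    have hpB : IsPGroup p B := isPGroup_of_ppPart_eq_bot hB (by rw [← heq]; exact hH)
    obtain ⟨k, hk⟩ := IsPGroup.iff_card.mp hpA
    obtain ⟨l, hl⟩ := IsPGroup.iff_card.mp hpB
    have h1 := Cfsg.Agent.Lib.Solvable.Product.card_mul_card_inf hAB
    have h4 : Nat.card G ∣ p ^ (k + l) := by
      rw [pow_add, ← hk, ← hl, ← h1]
      exact Dvd.intro _ rfl
    obtain ⟨j, -, hj⟩ := (Nat.dvd_prime_pow hp).1 h4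
    have hG : IsPGroup p G := IsPGroup.of_card hj
    exact hG.isNilpotent
  · refine ihL _ hHn hH ?_
    rcases hprop with h | h
    · left
      rw [sup_eq_left.mpr (ppPart_le p A)]
      exact h
    · right
      rw [heq, sup_eq_left.mpr (ppPart_le p B)]
      exact h

/-- Let the finite group G be the product AB of nilpotent subgroups A and B, not both equal to G. Then there is a proper normal subgroup of G containing A or containing B. -/
theorem result {G : Type*} [Group G] [Finite G] (A B : Subgroup G) (hA : Group.IsNilpotent A) (hB : Group.IsNilpotent B) (hAB : ∀ g : G, ∃ a ∈ A, ∃ b ∈ B, g = a * b) (hproper : A ≠ ⊤ ∨ B ≠ ⊤) : ∃ N : Subgroup G, N.Normal ∧ N ≠ ⊤ ∧ (A ≤ N ∨ B ≤ N) := by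
  exact aux _ G A B rfl hA hB hAB hproper

end Cfsg.Agent.S0565
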