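import Cfsg.Statements.S0567
import Mathlib

set_option autoImplicit false
open Cfsg
open scoped commutatorElement

namespace Cfsg.Agent.S0567

variable {G : Type*} [Group G]

theorem conj_left_mem (A B : Subgroup G) (a : G) (ha : a ∈ A) (c : G) (hc : c ∈ ⁅A, B⁆) :
    a * c * a⁻¹ ∈ ⁅A, B⁆ := by
  rw [Subgroup.commutator_def] at hc ⊢
  induction hc using Subgroup.closure_induction with
  | mem z hz =>
    obtain ⟨x, hx, h, hh, rfl⟩ := hz
    have e : a * ⁅x, h⁆ * a⁻¹ = ⁅a * x, h⁆ * ⁅a, h⁆⁻¹ := by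
      simp only [commutatorElement_def]; group
    rw [e]
    exact Subgroup.mul_mem _ (Subgroup.subset_closure ⟨_, A.mul_mem ha hx, h, hh, rfl⟩)
      (Subgroup.inv_mem _ (Subgroup.subset_closure ⟨a, ha, h, hh, rfl⟩))
  | one => simp
  | mul x y _ _ hx hy =>
    have e : a * (x * y) * a⁻¹ = (a * x * a⁻¹) * (a * y * a⁻¹) := by group
    rw [e]; exact Subgroup.mul_mem _ hx hy
  | inv x _ hx =>
    have e : a * x⁻¹ * a⁻¹ = (a * x * a⁻¹)⁻¹ := by group
    rw [e]; exact Subgroup.inv_mem _ hx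

theorem normal_step (H A : Subgroup G) :
    ((H ⊔ ⁅A, H⁆).subgroupOf (H ⊔ A)).Normal := by
  have hDT : H ⊔ ⁅A, H⁆ ≤ H ⊔ A := by
    refine sup_le le_sup_left ?_
    rw [Subgroup.commutator_le]
    intro x hx y hy
    rw [commutatorElement_def]
    have hx' : x ∈ H ⊔ A := (le_sup_right : A ≤ H ⊔ A) hx
    have hy' : y ∈ H ⊔ A := (le_sup_left : H ≤ H ⊔ A) hy
    exact Subgroup.mul_mem _ (Subgroup.mul_mem _ (Subgroup.mul_mem _ hx' hy') (Subgroup.inv_mem _ hx'))
      (Subgroup.inv_mem _ hy')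
  -- conjugation by an element of `A`
  have hA1 : ∀ a ∈ A, ∀ d ∈ H ⊔ ⁅A, H⁆, a * d * a⁻¹ ∈ H ⊔ ⁅A, H⁆ := by
    intro a ha d hd
    have hle : H ⊔ ⁅A, H⁆ ≤ (H ⊔ ⁅A, H⁆).comap (MulAut.conj a).toMonoidHom := by
      refine sup_le ?_ ?_
      · intro h hh
        show a * h * a⁻¹ ∈ H ⊔ ⁅A, H⁆
        have e : a * h * a⁻¹ = ⁅a, h⁆ * h := by
          rw [commutatorElement_def]; group
        rw [e]
        exact Subgroup.mul_mem _ ((le_sup_right : ⁅A, H⁆ ≤ H ⊔ ⁅A, H⁆)
          (Subgroup.commutator_mem_commutator ha hh)) ((le_sup_left : H ≤ H ⊔ ⁅A, H⁆) hh)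
      · intro c hc
        show a * c * a⁻¹ ∈ H ⊔ ⁅A, H⁆
        exact (le_sup_right : ⁅A, H⁆ ≤ H ⊔ ⁅A, H⁆) (conj_left_mem A H a ha c hc)
    exact hle hd
  have hH1 : ∀ h ∈ H, ∀ d ∈ H ⊔ ⁅A, H⁆, h * d * h⁻¹ ∈ H ⊔ ⁅A, H⁆ := by
    intro h hh d hd
    have hh' : h ∈ H ⊔ ⁅A, H⁆ := (le_sup_left : H ≤ H ⊔ ⁅A, H⁆) hh
    exact Subgroup.mul_mem _ (Subgroup.mul_mem _ hh' hd) (Subgroup.inv_mem _ hh')
  have hN : H ⊔ A ≤ Subgroup.normalizer ((H ⊔ ⁅A, H⁆ : Subgroup G) : Set G) := by
    refine sup_le ?_ ?_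
    · intro h hh
      rw [Subgroup.mem_normalizer_iff]
      intro d
      constructor
      · exact hH1 h hh d
      · intro hd
        have := hH1 h⁻¹ (H.inv_mem hh) _ hd
        simpa [mul_assoc] using this
    · intro a ha
      rw [Subgroup.mem_normalizer_iff]
      intro d
      constructor
      · exact hA1 a ha d
      · intro hd
        have := hA1 a⁻¹ (A.inv_mem ha) _ hd
        simpa [mul_assoc] using this
  exact (Subgroup.normal_subgroupOf_iff_le_normalizer hDT).mpr hN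

/-- A subgroup H of a group G is subnormal exactly when, for some m, the subgroup obtained from G by taking the commutator with H m times in succession is contained in H. -/
theorem result {G : Type*} [Group G] (H : Subgroup G) : H.IsSubnormal ↔ ∃ m : ℕ, (fun K : Subgroup G => ⁅K, H⁆)^[m] ⊤ ≤ H := by
  constructor
  · intro hH
    induction hH with
    | top => exact ⟨0, le_refl _⟩
    | step H K hle _ hN ih =>
      obtain ⟨m, hm⟩ := ih
      refine ⟨m + 1, ?_⟩
      have hmono : ∀ n : ℕ, (fun L : Subgroup G => ⁅L, H⁆)^[n] ⊤ ≤ (fun L : Subgroup G => ⁅L, K⁆)^[n] ⊤ := by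
        intro n
        induction n with
        | zero => exact le_refl _
        | succ n ihn =>
          rw [Function.iterate_succ_apply', Function.iterate_succ_apply']
          exact Subgroup.commutator_mono ihn hle
      rw [Function.iterate_succ_apply']
      show ⁅(fun L : Subgroup G => ⁅L, H⁆)^[m] ⊤, H⁆ ≤ H
      rw [Subgroup.commutator_le]
      intro x hx h hh
      have hxK : x ∈ K := hm (hmono m hx)
      have h1 : (⟨x, hxK⟩ : K) * ⟨h, hle hh⟩ * (⟨x, hxK⟩ : K)⁻¹ ∈ H.subgroupOf K :=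
        hN.conj_mem _ (show (⟨h, hle hh⟩ : K) ∈ H.subgroupOf K from hh) _
      have h2 : x * h * x⁻¹ ∈ H := h1
      rw [commutatorElement_def]
      exact H.mul_mem h2 (H.inv_mem hh)
  · rintro ⟨m, hm⟩
    have key : ∀ n : ℕ, (H ⊔ (fun K : Subgroup G => ⁅K, H⁆)^[n] ⊤).IsSubnormal := by
      intro n
      induction n with
      | zero =>
        have : H ⊔ (fun K : Subgroup G => ⁅K, H⁆)^[0] ⊤ = ⊤ := by simp
        rw [this]
        exact Subgroup.IsSubnormal.top
      | succ n ihn =>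
        rw [Function.iterate_succ_apply']
        refine Subgroup.IsSubnormal.step _ _ ?_ ihn (normal_step H _)
        refine sup_le le_sup_left ?_
        rw [Subgroup.commutator_le]
        intro x hx y hy
        rw [commutatorElement_def]
        have hx' : x ∈ H ⊔ (fun K : Subgroup G => ⁅K, H⁆)^[n] ⊤ := (le_sup_right : _ ≤ H ⊔ _) hx
        have hy' : y ∈ H ⊔ (fun K : Subgroup G => ⁅K, H⁆)^[n] ⊤ := (le_sup_left : H ≤ H ⊔ _) hy
        exact Subgroup.mul_mem _ (Subgroup.mul_mem _ (Subgroup.mul_mem _ hx' hy') (Subgroup.inv_mem _ hx'))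
          (Subgroup.inv_mem _ hy')
    have := key m
    rwa [sup_eq_left.mpr hm] at this

end Cfsg.Agent.S0567
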