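import Cfsg.Statements.S0572
import Mathlib

set_option autoImplicit false
open Cfsg

namespace Cfsg.Agent.S0572

variable {G : Type*} [Group G]

/-- The textbook commutator. -/
def t (x y : G) : G := x⁻¹ * y⁻¹ * x * y

theorem t_mul_right {u w v : G} (h : u * w = w * u) : t u (w * v) = t u v := by
  unfold t
  have : u⁻¹ * (w * v)⁻¹ * u * (w * v) = u⁻¹ * v⁻¹ * (w⁻¹ * (u * w)) * v := by group
  rw [this, h]
  group

theorem t_mul_left {u w v : G} (h : w * v = v * w) : t (w * u) v = t u v := by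
  unfold t
  have : (w * u)⁻¹ * v⁻¹ * (w * u) * v = u⁻¹ * (w⁻¹ * v⁻¹ * w) * u * v := by group
  rw [this]
  have h2 : w⁻¹ * v⁻¹ * w = v⁻¹ := by
    have h3 : v⁻¹ * w = w * v⁻¹ := by
      have : v⁻¹ * (w * v) * v⁻¹ = v⁻¹ * (v * w) * v⁻¹ := by rw [h]
      have h4 : v⁻¹ * (w * v) * v⁻¹ = v⁻¹ * w := by group
      have h5 : v⁻¹ * (v * w) * v⁻¹ = w * v⁻¹ := by group
      rw [h4, h5] at this
      exact this
    rw [mul_assoc, h3]
    group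
  rw [h2]

theorem t_conj (g x y : G) : g⁻¹ * t x y * g = t (g⁻¹ * x * g) (g⁻¹ * y * g) := by
  unfold t
  group

theorem comm_conj {x y : G} (g : G) (h : x * y = y * x) :
    (g⁻¹ * x * g) * (g⁻¹ * y * g) = (g⁻¹ * y * g) * (g⁻¹ * x * g) := by
  calc (g⁻¹ * x * g) * (g⁻¹ * y * g) = g⁻¹ * (x * y) * g := by group
    _ = g⁻¹ * (y * x) * g := by rw [h]
    _ = _ := by group

/-- Itô's Theorem: if a group G is the product AB of two abelian subgroups, then the commutator subgroup of G is abelian, i.e. the second term of the derived series is trivial. -/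
theorem result {G : Type*} [Group G] (A B : Subgroup G) [IsMulCommutative A] [IsMulCommutative B] (hAB : ∀ g : G, ∃ a ∈ A, ∃ b ∈ B, g = a * b) : derivedSeries G 2 = ⊥ := by
  have hcA : ∀ x ∈ A, ∀ y ∈ A, x * y = y * x := fun x hx y hy =>
    congrArg Subtype.val (mul_comm' (⟨x, hx⟩ : A) ⟨y, hy⟩)
  have hcB : ∀ x ∈ B, ∀ y ∈ B, x * y = y * x := fun x hx y hy =>
    congrArg Subtype.val (mul_comm' (⟨x, hx⟩ : B) ⟨y, hy⟩)
  -- the conjugation formula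
  have hdecomp : ∀ a ∈ A, ∀ b ∈ B, ∀ a₁ ∈ A, ∀ b₁ ∈ B, ∃ a₃ ∈ A, ∃ b₂ ∈ B,
      (a₁ * b₁)⁻¹ * t a b * (a₁ * b₁) = t a₃ b₂ ∧ (b₁ * a₁)⁻¹ * t a b * (b₁ * a₁) = t a₃ b₂ := by
    intro a ha b hb a₁ ha₁ b₁ hb₁
    obtain ⟨a₂, ha₂, b₂, hb₂, h1⟩ := hAB (a₁⁻¹ * b * a₁)
    obtain ⟨a', ha', b', hb', h2⟩ := hAB (b₁⁻¹ * a * b₁)⁻¹
    have h2' : b₁⁻¹ * a * b₁ = b'⁻¹ * a'⁻¹ := by
      have := congrArg (·⁻¹) h2
      simpa [mul_assoc] using this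
    set b₃ := b'⁻¹ with hb₃
    set a₃ := a'⁻¹ with ha₃
    have hb₃B : b₃ ∈ B := B.inv_mem hb'
    have ha₃A : a₃ ∈ A := A.inv_mem ha'
    refine ⟨a₃, ha₃A, b₂, hb₂, ?_, ?_⟩
    · rw [t_conj]
      have e1 : (a₁ * b₁)⁻¹ * a * (a₁ * b₁) = b₃ * a₃ := by
        calc (a₁ * b₁)⁻¹ * a * (a₁ * b₁) = b₁⁻¹ * (a₁⁻¹ * (a * a₁)) * b₁ := by group
          _ = b₁⁻¹ * (a₁⁻¹ * (a₁ * a)) * b₁ := by rw [hcA a ha a₁ ha₁]
          _ = b₁⁻¹ * a * b₁ := by group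
          _ = _ := h2'
      have e2 : (a₁ * b₁)⁻¹ * b * (a₁ * b₁) = (b₁⁻¹ * a₂ * b₁) * b₂ := by
        calc (a₁ * b₁)⁻¹ * b * (a₁ * b₁) = b₁⁻¹ * (a₁⁻¹ * b * a₁) * b₁ := by group
          _ = b₁⁻¹ * a₂ * (b₂ * b₁) := by rw [h1]; group
          _ = b₁⁻¹ * a₂ * (b₁ * b₂) := by rw [hcB b₂ hb₂ b₁ hb₁]
          _ = _ := by group
      rw [e1, e2, t_mul_right, t_mul_left (hcB b₃ hb₃B b₂ hb₂)]
      rw [← h2']
      exact comm_conj b₁ (hcA a ha a₂ ha₂)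
    · rw [t_conj]
      have e1 : (b₁ * a₁)⁻¹ * b * (b₁ * a₁) = a₂ * b₂ := by
        calc (b₁ * a₁)⁻¹ * b * (b₁ * a₁) = a₁⁻¹ * (b₁⁻¹ * (b * b₁)) * a₁ := by group
          _ = a₁⁻¹ * (b₁⁻¹ * (b₁ * b)) * a₁ := by rw [hcB b hb b₁ hb₁]
          _ = a₁⁻¹ * b * a₁ := by group
          _ = _ := h1
      have e2 : (b₁ * a₁)⁻¹ * a * (b₁ * a₁) = (a₁⁻¹ * b₃ * a₁) * a₃ := by
        calc (b₁ * a₁)⁻¹ * a * (b₁ * a₁) = a₁⁻¹ * (b₁⁻¹ * a * b₁) * a₁ := by group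
          _ = a₁⁻¹ * b₃ * (a₃ * a₁) := by rw [h2']; group
          _ = a₁⁻¹ * b₃ * (a₁ * a₃) := by rw [hcA a₃ ha₃A a₁ ha₁]
          _ = _ := by group
      rw [e1, e2, t_mul_left, t_mul_right (hcA a₃ ha₃A a₂ ha₂)]
      rw [← h1]
      exact comm_conj a₁ (hcB b₃ hb₃B b hb)
  set C : Set G := {c | ∃ a ∈ A, ∃ b ∈ B, c = t a b} with hC
  set D : Subgroup G := Subgroup.closure C with hD
  -- C is invariant under conjugation
  have hconjC : ∀ g : G, ∀ c ∈ C, g * c * g⁻¹ ∈ C := by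
    rintro g c ⟨a, ha, b, hb, rfl⟩
    obtain ⟨a₁, ha₁, b₁, hb₁, hg⟩ := hAB g⁻¹
    obtain ⟨a₃, ha₃, b₂, hb₂, h1, -⟩ := hdecomp a ha b hb a₁ ha₁ b₁ hb₁
    refine ⟨a₃, ha₃, b₂, hb₂, ?_⟩
    rw [← h1, ← hg]
    group
  have hnorm : D.Normal := by
    constructor
    intro x hx g
    induction hx using Subgroup.closure_induction with
    | mem x hx => exact Subgroup.subset_closure (hconjC g x hx)
    | one => simp
    | mul x y _ _ hx hy =>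
      have : g * (x * y) * g⁻¹ = (g * x * g⁻¹) * (g * y * g⁻¹) := by group
      rw [this]
      exact D.mul_mem hx hy
    | inv x _ hx =>
      have : g * x⁻¹ * g⁻¹ = (g * x * g⁻¹)⁻¹ := by group
      rw [this]
      exact D.inv_mem hx
  -- members of C commute
  have hcommC : ∀ x ∈ C, ∀ y ∈ C, x * y = y * x := by
    rintro x ⟨a, ha, b, hb, rfl⟩ y ⟨a₁, ha₁, b₁, hb₁, rfl⟩
    obtain ⟨a₃, ha₃, b₂, hb₂, h1, h2⟩ := hdecomp a ha b hb a₁⁻¹ (A.inv_mem ha₁) b₁⁻¹ (B.inv_mem hb₁)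
    have h3 := h1.trans h2.symm
    have ht : t a₁ b₁ = (a₁⁻¹ * b₁⁻¹) * (b₁⁻¹ * a₁⁻¹)⁻¹ := by
      unfold t; group
    rw [ht]
    have h4 : t a b * (a₁⁻¹ * b₁⁻¹) * (b₁⁻¹ * a₁⁻¹)⁻¹ =
        (a₁⁻¹ * b₁⁻¹) * (b₁⁻¹ * a₁⁻¹)⁻¹ * t a b := by
      have h5 : (a₁⁻¹ * b₁⁻¹) * ((a₁⁻¹ * b₁⁻¹)⁻¹ * t a b * (a₁⁻¹ * b₁⁻¹)) * (b₁⁻¹ * a₁⁻¹)⁻¹ =
          (a₁⁻¹ * b₁⁻¹) * ((b₁⁻¹ * a₁⁻¹)⁻¹ * t a b * (b₁⁻¹ * a₁⁻¹)) * (b₁⁻¹ * a₁⁻¹)⁻¹ := by rw [h3]
      have h6 : (a₁⁻¹ * b₁⁻¹) * ((a₁⁻¹ * b₁⁻¹)⁻¹ * t a b * (a₁⁻¹ * b₁⁻¹)) * (b₁⁻¹ * a₁⁻¹)⁻¹ =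
          t a b * (a₁⁻¹ * b₁⁻¹) * (b₁⁻¹ * a₁⁻¹)⁻¹ := by group
      have h7 : (a₁⁻¹ * b₁⁻¹) * ((b₁⁻¹ * a₁⁻¹)⁻¹ * t a b * (b₁⁻¹ * a₁⁻¹)) * (b₁⁻¹ * a₁⁻¹)⁻¹ =
          (a₁⁻¹ * b₁⁻¹) * (b₁⁻¹ * a₁⁻¹)⁻¹ * t a b := by group
      rw [h6, h7] at h5
      exact h5
    rw [← mul_assoc, h4]
  have hDcomm : ∀ x ∈ D, ∀ y ∈ D, x * y = y * x := by
    intro x hx y hy
    letI := Subgroup.closureCommGroupOfComm hcommC
    have := mul_comm (⟨x, hx⟩ : D) ⟨y, hy⟩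
    exact congrArg Subtype.val this
  -- the derived subgroup lies in D
  have hquot : ∀ x y : G, (x * y * x⁻¹ * y⁻¹) ∈ D := by
    intro x y
    obtain ⟨a, ha, b, hb, rfl⟩ := hAB x
    obtain ⟨a', ha', b', hb', rfl⟩ := hAB y
    have hmk : ∀ u ∈ A, ∀ v ∈ B, (QuotientGroup.mk u : G ⧸ D) * QuotientGroup.mk v =
        QuotientGroup.mk v * QuotientGroup.mk u := by
      intro u hu v hv
      have h1 : t u v ∈ D := Subgroup.subset_closure ⟨u, hu, v, hv, rfl⟩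
      have h2 : (QuotientGroup.mk (t u v) : G ⧸ D) = 1 := (QuotientGroup.eq_one_iff _).mpr h1
      unfold t at h2
      rw [← QuotientGroup.mk_mul, ← QuotientGroup.mk_mul]
      rw [QuotientGroup.mk_mul, QuotientGroup.mk_mul, QuotientGroup.mk_mul,
        QuotientGroup.mk_inv, QuotientGroup.mk_inv] at h2
      have h3 := congrArg (fun z => (QuotientGroup.mk v : G ⧸ D) * (QuotientGroup.mk u * z)) h2
      simp only [mul_one] at h3
      rw [show (QuotientGroup.mk v : G ⧸ D) * (QuotientGroup.mk u * ((QuotientGroup.mk u)⁻¹ * (QuotientGroup.mk v)⁻¹ * QuotientGroup.mk u * QuotientGroup.mk v))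
        = QuotientGroup.mk u * QuotientGroup.mk v by group] at h3
      rw [← QuotientGroup.mk_mul, ← QuotientGroup.mk_mul] at h3
      exact h3
    have hA' : ∀ u ∈ A, ∀ v ∈ A, (QuotientGroup.mk u : G ⧸ D) * QuotientGroup.mk v =
        QuotientGroup.mk v * QuotientGroup.mk u := by
      intro u hu v hv
      rw [← QuotientGroup.mk_mul, ← QuotientGroup.mk_mul, hcA u hu v hv]
    have hB' : ∀ u ∈ B, ∀ v ∈ B, (QuotientGroup.mk u : G ⧸ D) * QuotientGroup.mk v =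
        QuotientGroup.mk v * QuotientGroup.mk u := by
      intro u hu v hv
      rw [← QuotientGroup.mk_mul, ← QuotientGroup.mk_mul, hcB u hu v hv]
    have hmain : (QuotientGroup.mk (a * b) : G ⧸ D) * QuotientGroup.mk (a' * b') =
        QuotientGroup.mk (a' * b') * QuotientGroup.mk (a * b) := by
      simp only [QuotientGroup.mk_mul]
      calc (QuotientGroup.mk a * QuotientGroup.mk b) * (QuotientGroup.mk a' * QuotientGroup.mk b' : G ⧸ D)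
          = QuotientGroup.mk a * (QuotientGroup.mk b * QuotientGroup.mk a') * QuotientGroup.mk b' := by group
        _ = QuotientGroup.mk a * (QuotientGroup.mk a' * QuotientGroup.mk b) * QuotientGroup.mk b' := by
            rw [hmk a' ha' b hb]
        _ = (QuotientGroup.mk a * QuotientGroup.mk a') * (QuotientGroup.mk b * QuotientGroup.mk b') := by group
        _ = (QuotientGroup.mk a' * QuotientGroup.mk a) * (QuotientGroup.mk b' * QuotientGroup.mk b) := by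
            rw [hA' a ha a' ha', hB' b hb b' hb']
        _ = QuotientGroup.mk a' * (QuotientGroup.mk a * QuotientGroup.mk b') * QuotientGroup.mk b := by group
        _ = QuotientGroup.mk a' * (QuotientGroup.mk b' * QuotientGroup.mk a) * QuotientGroup.mk b := by
            rw [hmk a ha b' hb']
        _ = _ := by group
    rw [← QuotientGroup.eq_one_iff, QuotientGroup.mk_mul, QuotientGroup.mk_mul, QuotientGroup.mk_mul,
      QuotientGroup.mk_inv, QuotientGroup.mk_inv, hmain]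
    group
  have h1 : derivedSeries G 1 ≤ D := by
    rw [derivedSeries_succ, derivedSeries_zero, Subgroup.commutator_le]
    intro x _ y _
    exact hquot x y
  rw [derivedSeries_succ, eq_bot_iff, Subgroup.commutator_le]
  intro x hx y hy
  rw [commutatorElement_def, Subgroup.mem_bot, hDcomm x (h1 hx) y (h1 hy)]
  group

end Cfsg.Agent.S0572
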