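import Cfsg.Statements.S0573
import Mathlib
import Cfsg.Agent.S0572
import Cfsg.Agent.Lib.Solvable.Factorization
import Cfsg.Agent.Lib.Solvable.MinimalNormal
import Cfsg.Agent.Lib.Solvable.Hall
import Cfsg.Agent.Lib.PGroup.Basic
-- import your own Cfsg.Agent.* helpers here

set_option autoImplicit false
open Cfsg

namespace Cfsg.Agent.S0573

open Cfsg.Agent.Lib.Solvable

variable {G : Type*} [Group G]

theorem normal_of_le_center {S : Subgroup G} (h : S ≤ Subgroup.center G) : S.Normal := by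
  constructor
  intro x hx g
  have := (Subgroup.mem_center_iff.mp (h hx)) g
  rw [this]
  simpa using hx

theorem part [Finite G] {X Y U : Subgroup G} [U.Normal] (hXY : ∀ g : G, ∃ x ∈ X, ∃ y ∈ Y, g = x * y)
    (hinf : X ⊓ Y = ⊥) (hUY : Y ⊓ U = ⊥) :
    Nat.card (X ⊓ (U ⊔ Y) : Subgroup G) = Nat.card U := by
  have h1 := Hall.card_sup_mul_card_inf Y U
  rw [hUY, Subgroup.card_bot, mul_one, sup_comm] at h1
  have h2 := Factorization.card_eq_mul_of_forall_mul (K := U ⊔ Y) (X := X ⊓ (U ⊔ Y)) (Y := Y)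
    inf_le_right le_sup_right
    (by
      rw [eq_bot_iff, ← hinf]
      exact inf_le_inf_right _ inf_le_left)
    (by
      intro k hk
      obtain ⟨x, hx, y, hy, rfl⟩ := hXY k
      refine ⟨x, ⟨hx, ?_⟩, y, hy, rfl⟩
      have e : x = (x * y) * y⁻¹ := by group
      rw [e]
      exact (U ⊔ Y).mul_mem hk (Subgroup.mem_sup_right (Y.inv_mem hy)))
  have hpos : 0 < Nat.card Y := Nat.card_pos
  rw [h2] at h1
  have h3 : Nat.card (X ⊓ (U ⊔ Y) : Subgroup G) * Nat.card Y = Nat.card U * Nat.card Y := by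
    rw [h1]; ring
  exact Nat.eq_of_mul_eq_mul_right hpos h3


/-- If a nontrivial finite group G is the product AB of abelian subgroups A and B, then some nontrivial normal subgroup of G is contained in A or in B. -/
theorem result {G : Type*} [Group G] [Finite G] [Nontrivial G] (A B : Subgroup G) [IsMulCommutative A] [IsMulCommutative B] (hAB : ∀ g : G, ∃ a ∈ A, ∃ b ∈ B, g = a * b) : ∃ N : Subgroup G, N.Normal ∧ N ≠ ⊥ ∧ (N ≤ A ∨ N ≤ B) := by
  classical
  by_contra hno
  push Not at hno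
  have hAc : ∀ x ∈ A, ∀ y ∈ A, x * y = y * x := fun x hx y hy => by
    have := (inferInstance : IsMulCommutative A).is_comm.comm ⟨x, hx⟩ ⟨y, hy⟩
    exact congrArg Subtype.val this
  have hBc : ∀ x ∈ B, ∀ y ∈ B, x * y = y * x := fun x hx y hy => by
    have := (inferInstance : IsMulCommutative B).is_comm.comm ⟨x, hx⟩ ⟨y, hy⟩
    exact congrArg Subtype.val this
  have hBA : ∀ g : G, ∃ b ∈ B, ∃ a ∈ A, g = b * a := by
    intro g
    obtain ⟨a, ha, b, hb, he⟩ := hAB g⁻¹
    refine ⟨b⁻¹, B.inv_mem hb, a⁻¹, A.inv_mem ha, ?_⟩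
    rw [← mul_inv_rev, ← he, inv_inv]
  have hcentral : ∀ z : G, (∀ a ∈ A, z * a = a * z) → (∀ b ∈ B, z * b = b * z) →
      z ∈ Subgroup.center G := by
    intro z h1 h2
    rw [Subgroup.mem_center_iff]
    intro g
    obtain ⟨a, ha, b, hb, rfl⟩ := hAB g
    calc a * b * z = a * (z * b) := by rw [mul_assoc, h2 b hb]
      _ = (a * z) * b := by group
      _ = (z * a) * b := by rw [h1 a ha]
      _ = z * (a * b) := by group
  have hzA : Subgroup.center G ⊓ A = ⊥ := by
    by_contra hne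
    exact (hno _ (normal_of_le_center inf_le_left) hne).1 inf_le_right
  have hzB : Subgroup.center G ⊓ B = ⊥ := by
    by_contra hne
    exact (hno _ (normal_of_le_center inf_le_left) hne).2 inf_le_right
  have hZA : ∀ z ∈ A, (∀ b ∈ B, z * b = b * z) → z = 1 := by
    intro z hz h
    have : z ∈ Subgroup.center G ⊓ A := ⟨hcentral z (fun a ha => hAc z hz a ha) h, hz⟩
    rw [hzA] at this
    exact this
  have hZB : ∀ z ∈ B, (∀ a ∈ A, z * a = a * z) → z = 1 := by
    intro z hz h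
    have : z ∈ Subgroup.center G ⊓ B := ⟨hcentral z h (fun b hb => hBc z hz b hb), hz⟩
    rw [hzB] at this
    exact this
  have hAB0 : A ⊓ B = ⊥ := by
    rw [eq_bot_iff]
    intro x hx
    exact hZA x hx.1 (fun b hb => hBc x hx.2 b hb)
  -- the derived subgroup is abelian
  have hder := Cfsg.Agent.S0572.result A B hAB
  have hsolv : Group.IsSolvable G := ⟨⟨2, hder⟩⟩
  haveI := hsolv
  have hder2 : ⁅commutator G, commutator G⁆ = ⊥ := by
    have h := hder
    rw [show (2 : ℕ) = 1 + 1 from rfl, derivedSeries_succ, derivedSeries_one] at h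
    exact h
  let V : Subgroup G := commutator G
  have hVn : V.Normal := inferInstance
  have hVc : ∀ x ∈ V, ∀ y ∈ V, x * y = y * x := by
    intro x hx y hy
    have h := Subgroup.commutator_eq_bot_iff_le_centralizer.mp hder2
    exact ((Subgroup.mem_centralizer_iff.mp (h hx)) y hy).symm
  have hcomm : ∀ g h : G, g * h * g⁻¹ * h⁻¹ ∈ V := by
    intro g h
    rw [← commutatorElement_def]
    exact Subgroup.commutator_mem_commutator (Subgroup.mem_top g) (Subgroup.mem_top h)
  have hconj : ∀ g h x : G, x ∈ V → g * (h * x * h⁻¹) * g⁻¹ = h * (g * x * g⁻¹) * h⁻¹ := by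
    intro g h x hx
    have hc : g⁻¹ * h⁻¹ * g * h ∈ V := by
      have := hcomm g⁻¹ h⁻¹
      simpa using this
    have hcx := hVc _ hc x hx
    have e : g * h = h * g * (g⁻¹ * h⁻¹ * g * h) := by group
    calc g * (h * x * h⁻¹) * g⁻¹ = (g * h) * x * (g * h)⁻¹ := by group
      _ = (h * g * (g⁻¹ * h⁻¹ * g * h)) * x * (h * g * (g⁻¹ * h⁻¹ * g * h))⁻¹ := by rw [← e]
      _ = h * g * ((g⁻¹ * h⁻¹ * g * h) * x) * (g⁻¹ * h⁻¹ * g * h)⁻¹ * g⁻¹ * h⁻¹ := by group
      _ = h * g * (x * (g⁻¹ * h⁻¹ * g * h)) * (g⁻¹ * h⁻¹ * g * h)⁻¹ * g⁻¹ * h⁻¹ := by rw [hcx]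
      _ = h * (g * x * g⁻¹) * h⁻¹ := by group
  have hfixn : ∀ U : Subgroup G, U.Normal → U ≤ V → ∀ T : Set G,
      (U ⊓ Subgroup.centralizer T).Normal := by
    intro U hU hUV T
    constructor
    intro x hx g
    refine ⟨hU.conj_mem x hx.1 g, ?_⟩
    change g * x * g⁻¹ ∈ Subgroup.centralizer T
    rw [Subgroup.mem_centralizer_iff]
    intro t ht
    have h1 : t * x = x * t := (Subgroup.mem_centralizer_iff.mp hx.2) t ht
    have h2 : t * x * t⁻¹ = x := by rw [h1]; group
    have h3 := hconj t g x (hUV hx.1)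
    rw [h2] at h3
    calc t * (g * x * g⁻¹) = t * (g * x * g⁻¹) * t⁻¹ * t := by group
      _ = (g * x * g⁻¹) * t := by rw [h3]
  have hVne : V ≠ ⊥ := by
    intro hb
    have hall : ∀ x y : G, x * y = y * x := by
      intro x y
      have h := hcomm x y
      rw [hb, Subgroup.mem_bot] at h
      calc x * y = (x * y * x⁻¹ * y⁻¹) * (y * x) := by group
        _ = y * x := by rw [h, one_mul]
    have hnorm : ∀ S : Subgroup G, S.Normal := by
      intro S
      constructor
      intro x hx g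
      rw [hall g x]
      simpa using hx
    obtain ⟨g, hg⟩ := exists_ne (1 : G)
    obtain ⟨a, ha, b, hb', rfl⟩ := hAB g
    by_cases ha1 : a = 1
    · have hb1 : b ≠ 1 := by
        intro h
        apply hg
        rw [ha1, h, one_mul]
      have hne : B ≠ ⊥ := by
        intro h
        rw [h, Subgroup.mem_bot] at hb'
        exact hb1 hb'
      exact (hno B (hnorm B) hne).2 le_rfl
    · have hne : A ≠ ⊥ := by
        intro h
        rw [h, Subgroup.mem_bot] at ha
        exact ha1 ha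
      exact (hno A (hnorm A) hne).1 le_rfl
  have hVA : V ⊓ Subgroup.centralizer (A : Set G) = ⊥ := by
    by_contra hne
    refine (hno _ (hfixn V hVn le_rfl _) hne).1 ?_
    rintro x ⟨-, hx⟩
    obtain ⟨a, ha, b, hb, rfl⟩ := hAB x
    have hb1 : b = 1 := by
      refine hZB b hb ?_
      intro a' ha'
      have h1 : a' * (a * b) = (a * b) * a' := (Subgroup.mem_centralizer_iff.mp hx) a' ha'
      have h2 : a * (b * a') = a * (a' * b) := by
        calc a * (b * a') = (a * b) * a' := by group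
          _ = a' * (a * b) := h1.symm
          _ = (a' * a) * b := by group
          _ = (a * a') * b := by rw [hAc a' ha' a ha]
          _ = a * (a' * b) := by group
      exact mul_left_cancel h2
    rw [hb1, mul_one]
    exact ha
  have hVB : V ⊓ Subgroup.centralizer (B : Set G) = ⊥ := by
    by_contra hne
    refine (hno _ (hfixn V hVn le_rfl _) hne).2 ?_
    rintro x ⟨-, hx⟩
    obtain ⟨a, ha, b, hb, rfl⟩ := hAB x
    have ha1 : a = 1 := by
      refine hZA a ha ?_
      intro b' hb'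
      have h1 : b' * (a * b) = (a * b) * b' := (Subgroup.mem_centralizer_iff.mp hx) b' hb'
      have h2 : (a * b') * b = (b' * a) * b := by
        calc (a * b') * b = a * (b' * b) := by group
          _ = a * (b * b') := by rw [hBc b' hb' b hb]
          _ = (a * b) * b' := by group
          _ = b' * (a * b) := h1.symm
          _ = (b' * a) * b := by group
      exact mul_right_cancel h2
    rw [ha1, one_mul]
    exact hb
  obtain ⟨U, hU, hUV⟩ := MinimalNormal.exists_isMinNormal_le V hVn hVne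
  haveI hUn := hU.normal
  obtain ⟨p, hp, hpg, -, hUp⟩ := hU.exists_isPGroup
  haveI : Fact p.Prime := ⟨hp⟩
  have hfixU : ∀ T : Set G, U ≤ Subgroup.centralizer T ∨ U ⊓ Subgroup.centralizer T = ⊥ := by
    intro T
    rcases hU.eq_bot_or_eq _ (hfixn U hUn hUV T) inf_le_left with h | h
    · exact Or.inr h
    · exact Or.inl (inf_eq_left.mp h)
  have hUCA : U ⊓ Subgroup.centralizer (A : Set G) = ⊥ := by
    rw [eq_bot_iff, ← hVA]
    exact inf_le_inf_right _ hUV
  have hUCB : U ⊓ Subgroup.centralizer (B : Set G) = ⊥ := by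
    rw [eq_bot_iff, ← hVB]
    exact inf_le_inf_right _ hUV
  have hUAinf : A ⊓ U = ⊥ := by
    rw [eq_bot_iff, ← hUCA]
    rintro x ⟨hxA, hxU⟩
    exact ⟨hxU, Subgroup.mem_centralizer_iff.mpr (fun a ha => hAc a ha x hxA)⟩
  have hUBinf : B ⊓ U = ⊥ := by
    rw [eq_bot_iff, ← hUCB]
    rintro x ⟨hxB, hxU⟩
    exact ⟨hxU, Subgroup.mem_centralizer_iff.mpr (fun a ha => hBc a ha x hxB)⟩
  have hUne : Nontrivial U := (Subgroup.nontrivial_iff_ne_bot U).mpr hU.ne_bot
  -- p-subgroups centralize U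
  have hpsub : ∀ S : Subgroup G, IsPGroup p S → ∀ s ∈ S, ∀ u ∈ U, s * u = u * s := by
    intro S hS
    have hR : IsPGroup p (S ⊔ U : Subgroup G) := hS.to_sup_of_normal_right hpg
    let U₀ : Subgroup (S ⊔ U : Subgroup G) := U.subgroupOf _
    haveI : U₀.Normal := Subgroup.Normal.subgroupOf inferInstance _
    have hU₀ : U₀ ≠ ⊥ := by
      intro hb
      apply hU.ne_bot
      rw [eq_bot_iff]
      intro x hx
      have h1 : (⟨x, Subgroup.mem_sup_right hx⟩ : (S ⊔ U : Subgroup G)) ∈ U₀ := hx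
      rw [hb, Subgroup.mem_bot] at h1
      have := congrArg Subtype.val h1
      simpa using this
    have hne := Cfsg.Agent.Lib.PGroup.Basic.inf_center_ne_bot hR hU₀
    obtain ⟨z, hz⟩ := Subgroup.ne_bot_iff_exists_ne_one.mp hne
    have hz1 : ((z : (S ⊔ U : Subgroup G)) : G) ∈ U := z.2.1
    have hz2 : ∀ s ∈ S, s * ((z : (S ⊔ U : Subgroup G)) : G) = ((z : (S ⊔ U : Subgroup G)) : G) * s := by
      intro s hs
      have := (Subgroup.mem_center_iff.mp z.2.2) ⟨s, Subgroup.mem_sup_left hs⟩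
      exact congrArg Subtype.val this
    have hz3 : ((z : (S ⊔ U : Subgroup G)) : G) ≠ 1 := by
      intro h
      apply hz
      apply Subtype.ext
      apply Subtype.ext
      exact h
    rcases hfixU S with h | h
    · intro s hs u hu
      exact (Subgroup.mem_centralizer_iff.mp (h hu)) s hs
    · exfalso
      have hmem : ((z : (S ⊔ U : Subgroup G)) : G) ∈ U ⊓ Subgroup.centralizer (S : Set G) :=
        ⟨hz1, Subgroup.mem_centralizer_iff.mpr hz2⟩
      rw [h, Subgroup.mem_bot] at hmem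
      exact hz3 hmem
  -- A₁ and B₁
  let A₁ : Subgroup G := A ⊓ (U ⊔ B)
  let B₁ : Subgroup G := B ⊓ (U ⊔ A)
  have hA₁card : Nat.card A₁ = Nat.card U := part hAB hAB0 hUBinf
  have hB₁card : Nat.card B₁ = Nat.card U := part hBA (by rw [inf_comm]; exact hAB0) hUAinf
  obtain ⟨k, hk⟩ := hpg.exists_card_eq
  have hA₁p : IsPGroup p A₁ := IsPGroup.of_card (n := k) (by rw [hA₁card, hk])
  have hB₁p : IsPGroup p B₁ := IsPGroup.of_card (n := k) (by rw [hB₁card, hk])
  have hA₁ne : A₁ ≠ ⊥ := by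
    intro hb
    have h1 : Nat.card U = 1 := by
      rw [← hA₁card, hb, Subgroup.card_bot]
    exact hU.ne_bot (Subgroup.card_eq_one.mp h1)
  have hdecA : ∀ x ∈ A₁, ∃ u ∈ U, ∃ y ∈ B₁, x = u * y := by
    intro x hx
    have h1 : x ∈ U ⊔ B := hx.2
    rw [Subgroup.mem_sup_of_normal_left] at h1
    obtain ⟨u, hu, y, hy, he⟩ := h1
    refine ⟨u, hu, y, ⟨hy, ?_⟩, he.symm⟩
    have e : y = u⁻¹ * x := by rw [← he]; group
    rw [e]
    exact Subgroup.mul_mem_sup (U.inv_mem hu) hx.1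
  have hdecB : ∀ y ∈ B₁, ∃ u ∈ U, ∃ x ∈ A₁, y = u * x := by
    intro y hy
    have h1 : y ∈ U ⊔ A := hy.2
    rw [Subgroup.mem_sup_of_normal_left] at h1
    obtain ⟨u, hu, x, hx, he⟩ := h1
    refine ⟨u, hu, x, ⟨hx, ?_⟩, he.symm⟩
    have e : x = u⁻¹ * y := by rw [← he]; group
    rw [e]
    exact Subgroup.mul_mem_sup (U.inv_mem hu) hy.1
  let W : Subgroup G := U ⊔ A₁
  have hW2 : U ⊔ B₁ = W := by
    apply le_antisymm
    · refine sup_le le_sup_left ?_
      intro y hy
      obtain ⟨u, hu, x, hx, rfl⟩ := hdecB y hy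
      exact Subgroup.mul_mem_sup hu hx
    · refine sup_le le_sup_left ?_
      intro x hx
      obtain ⟨u, hu, y, hy, rfl⟩ := hdecA x hx
      exact Subgroup.mul_mem_sup hu hy
  have hmodU : ∀ g : G, ∀ a₁ ∈ A₁, g * a₁ * g⁻¹ * a₁⁻¹ ∈ U := by
    intro g a₁ ha₁
    obtain ⟨u₀, hu₀, b₀, hb₀, he⟩ := hdecA a₁ ha₁
    obtain ⟨a, ha, b, hb, rfl⟩ := hAB g
    have hcb : b * b₀ = b₀ * b := hBc b hb b₀ hb₀.1
    have h1 : b * a₁ * b⁻¹ = (b * u₀ * b⁻¹ * u₀⁻¹) * a₁ := by
      rw [he]
      have hcb' : b₀ * b⁻¹ = b⁻¹ * b₀ := (show Commute b₀ b from hcb.symm).inv_right.eq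
      calc b * (u₀ * b₀) * b⁻¹ = b * u₀ * (b₀ * b⁻¹) := by group
        _ = b * u₀ * (b⁻¹ * b₀) := by rw [hcb']
        _ = (b * u₀ * b⁻¹ * u₀⁻¹) * (u₀ * b₀) := by group
    have hu₁ : b * u₀ * b⁻¹ * u₀⁻¹ ∈ U := U.mul_mem (hUn.conj_mem u₀ hu₀ b) (U.inv_mem hu₀)
    have hca : a * a₁ * a⁻¹ = a₁ := by
      rw [hAc a ha a₁ ha₁.1]; group
    have h2 : (a * b) * a₁ * (a * b)⁻¹ * a₁⁻¹ = a * (b * u₀ * b⁻¹ * u₀⁻¹) * a⁻¹ := by
      calc (a * b) * a₁ * (a * b)⁻¹ * a₁⁻¹ = a * (b * a₁ * b⁻¹) * a⁻¹ * a₁⁻¹ := by group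
        _ = a * ((b * u₀ * b⁻¹ * u₀⁻¹) * a₁) * a⁻¹ * a₁⁻¹ := by rw [h1]
        _ = a * (b * u₀ * b⁻¹ * u₀⁻¹) * a⁻¹ * (a * a₁ * a⁻¹) * a₁⁻¹ := by group
        _ = a * (b * u₀ * b⁻¹ * u₀⁻¹) * a⁻¹ := by rw [hca]; group
    rw [h2]
    exact hUn.conj_mem _ hu₁ a
  have hWn : W.Normal := by
    constructor
    intro w hw g
    rw [show W = U ⊔ A₁ from rfl, Subgroup.mem_sup_of_normal_left] at hw
    obtain ⟨u, hu, x, hx, rfl⟩ := hw
    have h1 := hmodU g x hx
    have e : g * (u * x) * g⁻¹ = (g * u * g⁻¹ * (g * x * g⁻¹ * x⁻¹)) * x := by group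
    rw [e]
    exact Subgroup.mul_mem_sup (U.mul_mem (hUn.conj_mem u hu g) h1) hx
  haveI := hWn
  let D : Subgroup G := Subgroup.centralizer (W : Set G)
  haveI hDn : D.Normal := inferInstance
  have hDmem : ∀ x : G, (∀ u ∈ U, x * u = u * x) → (∀ a₁ ∈ A₁, x * a₁ = a₁ * x) → x ∈ D := by
    intro x h1 h2
    rw [Subgroup.mem_centralizer_iff]
    intro w hw
    have hle : W ≤ Subgroup.centralizer ({x} : Set G) := by
      refine sup_le ?_ ?_
      · intro u hu
        rw [Subgroup.mem_centralizer_iff]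
        rintro y rfl
        exact h1 u hu
      · intro u hu
        rw [Subgroup.mem_centralizer_iff]
        rintro y rfl
        exact h2 u hu
    exact ((Subgroup.mem_centralizer_iff.mp (hle hw)) x rfl).symm
  have hDmem' : ∀ x : G, (∀ u ∈ U, x * u = u * x) → (∀ a₁ ∈ B₁, x * a₁ = a₁ * x) → x ∈ D := by
    intro x h1 h2
    rw [Subgroup.mem_centralizer_iff]
    intro w hw
    have hle : W ≤ Subgroup.centralizer ({x} : Set G) := by
      rw [← hW2]
      refine sup_le ?_ ?_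
      · intro u hu
        rw [Subgroup.mem_centralizer_iff]
        rintro y rfl
        exact h1 u hu
      · intro u hu
        rw [Subgroup.mem_centralizer_iff]
        rintro y rfl
        exact h2 u hu
    exact ((Subgroup.mem_centralizer_iff.mp (hle hw)) x rfl).symm
  -- the quotient by D has order prime to p
  have hXq : ∀ (X : Subgroup G), (∀ x ∈ X, (∀ u ∈ U, x * u = u * x) → x ∈ D) →
      (Nat.card (X.map (QuotientGroup.mk' D))).Coprime p := by
    intro X hX
    have hord : ∀ a ∈ X, (orderOf (QuotientGroup.mk a : G ⧸ D)).Coprime p := by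
      intro a ha
      set n := orderOf a with hn
      have hn0 : n ≠ 0 := (orderOf_pos a).ne'
      set m := ordCompl[p] n with hm
      have hmc : m.Coprime p := (Nat.coprime_ordCompl hp hn0).symm
      have hx : (a ^ m) ^ p ^ (n.factorization p) = 1 := by
        rw [← pow_mul, hm, mul_comm, Nat.ordProj_mul_ordCompl_eq_self, hn, pow_orderOf_eq_one]
      have hzp : IsPGroup p (Subgroup.zpowers (a ^ m)) := by
        apply IsPGroup.of_card_dvd_pow (n := n.factorization p)
        rw [Nat.card_zpowers]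
        exact orderOf_dvd_of_pow_eq_one hx
      have hxD : a ^ m ∈ D := hX _ (X.pow_mem ha m)
        (hpsub _ hzp _ (Subgroup.mem_zpowers _))
      have h1 : (QuotientGroup.mk a : G ⧸ D) ^ m = 1 := by
        rw [← QuotientGroup.mk_pow]
        exact (QuotientGroup.eq_one_iff _).mpr hxD
      exact Nat.Coprime.coprime_dvd_left (orderOf_dvd_of_pow_eq_one h1) hmc
    rw [Nat.coprime_comm, Nat.Prime.coprime_iff_not_dvd hp]
    intro hdvd
    obtain ⟨y, hy⟩ := exists_prime_orderOf_dvd_card' (G := X.map (QuotientGroup.mk' D)) p hdvd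
    obtain ⟨a, ha, he⟩ := y.2
    have hy2 : orderOf (y : G ⧸ D) = p := by
      rw [← Subgroup.orderOf_coe] at hy
      exact hy
    have := hord a ha
    have he' : (QuotientGroup.mk a : G ⧸ D) = y := he
    rw [he', hy2] at this
    have h2 : p = 1 := by simpa using this
    exact hp.one_lt.ne' h2
  have hAq := hXq A (fun x hx h1 => hDmem x h1 (fun a₁ ha₁ => hAc x hx a₁ ha₁.1))
  have hBq := hXq B (fun x hx h1 => hDmem' x h1 (fun a₁ ha₁ => hBc x hx a₁ ha₁.1))
  have hQ : (Nat.card (G ⧸ D)).Coprime p := by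
    have hd := Factorization.card_dvd_mul_of_forall_mul (G := G ⧸ D)
      (A := A.map (QuotientGroup.mk' D)) (B := B.map (QuotientGroup.mk' D)) (by
        intro q
        obtain ⟨g, rfl⟩ := QuotientGroup.mk_surjective q
        obtain ⟨a, ha, b, hb, rfl⟩ := hAB g
        exact ⟨_, ⟨a, ha, rfl⟩, _, ⟨b, hb, rfl⟩, QuotientGroup.mk_mul _ a b⟩)
    exact Nat.Coprime.coprime_dvd_left hd (Nat.Coprime.mul_left hAq hBq)
  -- V centralizes W
  have hVD : ∀ v ∈ V, v ∈ D := by
    intro v hv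
    have hvp : v ^ p ∈ D := by
      refine hDmem _ ?_ ?_
      · intro u hu
        exact hVc _ (V.pow_mem hv p) u (hUV hu)
      · intro a₁ ha₁
        set y := v * a₁ * v⁻¹ * a₁⁻¹ with hy
        have hyU : y ∈ U := hmodU v a₁ ha₁
        have hstep : ∀ j : ℕ, v ^ j * a₁ * (v ^ j)⁻¹ = y ^ j * a₁ := by
          intro j
          induction j with
          | zero => simp
          | succ j ih =>
            have hvy : v * y = y * v := hVc v hv y (hUV hyU)
            have hvy2 : v * y ^ j * v⁻¹ = y ^ j := by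
              rw [(Commute.pow_right hvy j).eq]; group
            have h1 : v * a₁ * v⁻¹ = y * a₁ := by rw [hy]; group
            calc v ^ (j + 1) * a₁ * (v ^ (j + 1))⁻¹ = v * (v ^ j * a₁ * (v ^ j)⁻¹) * v⁻¹ := by
                  rw [pow_succ']; group
              _ = v * (y ^ j * a₁) * v⁻¹ := by rw [ih]
              _ = (v * y ^ j * v⁻¹) * (v * a₁ * v⁻¹) := by group
              _ = y ^ j * (y * a₁) := by rw [hvy2, h1]
              _ = y ^ (j + 1) * a₁ := by rw [pow_succ]; group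
        have h1 := hstep p
        rw [hUp y hyU, one_mul] at h1
        calc v ^ p * a₁ = v ^ p * a₁ * (v ^ p)⁻¹ * v ^ p := by group
          _ = a₁ * v ^ p := by rw [h1]
    have h1 : (QuotientGroup.mk v : G ⧸ D) ^ p = 1 := by
      rw [← QuotientGroup.mk_pow]
      exact (QuotientGroup.eq_one_iff _).mpr hvp
    have h2 : orderOf (QuotientGroup.mk v : G ⧸ D) ∣ p := orderOf_dvd_of_pow_eq_one h1
    have h3 : orderOf (QuotientGroup.mk v : G ⧸ D) ∣ Nat.card (G ⧸ D) := orderOf_dvd_natCard _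
    have h4 : orderOf (QuotientGroup.mk v : G ⧸ D) = 1 :=
      Nat.Coprime.eq_one_of_dvd (Nat.Coprime.coprime_dvd_left h3 hQ) h2
    exact (QuotientGroup.eq_one_iff _).mp (orderOf_eq_one_iff.mp h4)
  have hVA₁ : ∀ v ∈ V, ∀ a₁ ∈ A₁, v * a₁ = a₁ * v := by
    intro v hv a₁ ha₁
    have h1 := hVD v hv
    exact ((Subgroup.mem_centralizer_iff.mp h1) a₁ (Subgroup.mem_sup_right ha₁)).symm
  -- pick t ∈ A acting nontrivially on U
  obtain ⟨t, ht, htU⟩ : ∃ t ∈ A, ¬ U ≤ Subgroup.centralizer ({t} : Set G) := by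
    by_contra hall
    push Not at hall
    apply hU.ne_bot
    rw [eq_bot_iff, ← hUCA]
    intro u hu
    refine ⟨hu, Subgroup.mem_centralizer_iff.mpr ?_⟩
    intro a ha
    exact (Subgroup.mem_centralizer_iff.mp (hall a ha hu)) a rfl
  have hCt : U ⊓ Subgroup.centralizer ({t} : Set G) = ⊥ := (hfixU {t}).resolve_left htU
  have hfinal : ∀ a₁ ∈ A₁, ∀ b ∈ B, a₁ * b = b * a₁ := by
    intro a₁ ha₁ b hb
    set u := b * a₁ * b⁻¹ * a₁⁻¹ with hu
    have huU : u ∈ U := hmodU b a₁ ha₁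
    set c := t * b * t⁻¹ * b⁻¹ with hc
    have hcV : c ∈ V := hcomm t b
    have hca : c * a₁ = a₁ * c := hVA₁ c hcV a₁ ha₁
    have hcu : c * u = u * c := hVc c hcV u (hUV huU)
    have hta : t * a₁ = a₁ * t := hAc t ht a₁ ha₁.1
    have h1 : b * a₁ * b⁻¹ = u * a₁ := by rw [hu]; group
    have h2 : t * (b * a₁ * b⁻¹) * t⁻¹ = u * a₁ := by
      calc t * (b * a₁ * b⁻¹) * t⁻¹ = (t * b * t⁻¹) * (t * a₁ * t⁻¹) * (t * b * t⁻¹)⁻¹ := by group
        _ = (t * b * t⁻¹) * a₁ * (t * b * t⁻¹)⁻¹ := by rw [hta]; group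
        _ = (c * b) * a₁ * (c * b)⁻¹ := by rw [hc]; group
        _ = c * (b * a₁ * b⁻¹) * c⁻¹ := by group
        _ = c * (u * a₁) * c⁻¹ := by rw [h1]
        _ = (c * u) * a₁ * c⁻¹ := by group
        _ = (u * c) * a₁ * c⁻¹ := by rw [hcu]
        _ = u * (c * a₁) * c⁻¹ := by group
        _ = u * (a₁ * c) * c⁻¹ := by rw [hca]
        _ = u * a₁ := by group
    have h3 : t * u * t⁻¹ = u := by
      have h4 : t * (u * a₁) * t⁻¹ = (t * u * t⁻¹) * (t * a₁ * t⁻¹) := by group
      have h5 : t * a₁ * t⁻¹ = a₁ := by rw [hta]; group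
      rw [← h1, h2, h5] at h4
      exact (mul_right_cancel h4).symm
    have h6 : u ∈ U ⊓ Subgroup.centralizer ({t} : Set G) := by
      refine ⟨huU, Subgroup.mem_centralizer_iff.mpr ?_⟩
      intro y hy
      have hy' : y = t := hy
      rw [hy']
      calc t * u = t * u * t⁻¹ * t := by group
        _ = u * t := by rw [h3]
    rw [hCt, Subgroup.mem_bot] at h6
    have h7 : b * a₁ * b⁻¹ = a₁ := by rw [h1, h6, one_mul]
    calc a₁ * b = (b * a₁ * b⁻¹) * b := by rw [h7]
      _ = b * a₁ := by group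
  apply hA₁ne
  rw [eq_bot_iff]
  intro a₁ ha₁
  exact hZA a₁ ha₁.1 (hfinal a₁ ha₁)

end Cfsg.Agent.S0573
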