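import Cfsg.Statements.S0571
import Mathlib
import Cfsg.Agent.S0573
import Cfsg.Agent.S0528
import Cfsg.Agent.Lib.Solvable.MinimalNormal
-- import your own Cfsg.Agent.* helpers here

set_option autoImplicit false
open Cfsg

namespace Cfsg.Agent.S0571

/-- If a finite group G is the product AB of two cyclic subgroups (every element is a product ab), then G is supersolvable. -/
theorem result {G : Type*} [Group G] [Finite G] (A B : Subgroup G) [IsCyclic A] [IsCyclic B] (hAB : ∀ g : G, ∃ a ∈ A, ∃ b ∈ B, g = a * b) : Cfsg.IsSupersolvable G := by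
  classical
  induction hn : Nat.card G using Nat.strong_induction_on generalizing G with
  | _ n ih =>
    rcases subsingleton_or_nontrivial G with hs | hnt
    · refine ⟨0, fun _ => ⊤, ?_, rfl, fun _ => inferInstance, fun i => i.elim0⟩
      exact Subsingleton.elim _ _
    haveI hAc : IsMulCommutative A := inferInstance
    haveI hBc : IsMulCommutative B := inferInstance
    obtain ⟨N, hNn, hNne, hle⟩ := Cfsg.Agent.S0573.result A B hAB
    haveI := hNn
    have hNc : IsCyclic N := by
      rcases hle with hle | hle
      · exact isCyclic_of_injective (Subgroup.inclusion hle) (Subgroup.inclusion_injective hle)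
      · exact isCyclic_of_injective (Subgroup.inclusion hle) (Subgroup.inclusion_injective hle)
    haveI := hNc
    have hlt := Cfsg.Agent.Lib.Solvable.MinimalNormal.card_quotient_lt N hNne
    haveI hA' : IsCyclic (A.map (QuotientGroup.mk' N)) :=
      isCyclic_of_surjective ((QuotientGroup.mk' N).subgroupMap A)
        ((QuotientGroup.mk' N).subgroupMap_surjective A)
    haveI hB' : IsCyclic (B.map (QuotientGroup.mk' N)) :=
      isCyclic_of_surjective ((QuotientGroup.mk' N).subgroupMap B)
        ((QuotientGroup.mk' N).subgroupMap_surjective B)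
    have hq := ih _ (hn ▸ hlt) (G := G ⧸ N) (A.map (QuotientGroup.mk' N)) (B.map (QuotientGroup.mk' N))
      (by
        intro q
        obtain ⟨g, rfl⟩ := QuotientGroup.mk_surjective q
        obtain ⟨a, ha, b, hb, rfl⟩ := hAB g
        exact ⟨_, ⟨a, ha, rfl⟩, _, ⟨b, hb, rfl⟩, QuotientGroup.mk_mul _ a b⟩) rfl
    exact Cfsg.Agent.S0528.result N hq

end Cfsg.Agent.S0571
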