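import Cfsg.Statements.S0574
import Cfsg.Agent.S0572
import Cfsg.Agent.Lib.KW.Reduce

set_option autoImplicit false
open Cfsg

namespace Cfsg.Agent.S0574

open Subgroup
open scoped commutatorElement

section Core

variable {G : Type*} [Group G] (A B : Subgroup G)

/-- Iterated commutators of a subgroup with itself. -/
def iter (H : Subgroup G) : ℕ → Subgroup G
  | 0 => H
  | n + 1 => ⁅iter H n, iter H n⁆

theorem iter_mono {H K : Subgroup G} (h : H ≤ K) (n : ℕ) : iter H n ≤ iter K n := by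
  induction n with
  | zero => exact h
  | succ n ih => exact Subgroup.commutator_mono ih ih

theorem iter_add (H : Subgroup G) (m n : ℕ) : iter (iter H m) n = iter H (m + n) := by
  induction n with
  | zero => rfl
  | succ n ih => show ⁅iter (iter H m) n, iter (iter H m) n⁆ = ⁅iter H (m + n), iter H (m + n)⁆; rw [ih]

theorem iter_top (n : ℕ) : iter (⊤ : Subgroup G) n = derivedSeries G n := by
  induction n with
  | zero => rfl
  | succ n ih => show ⁅iter (⊤ : Subgroup G) n, iter (⊤ : Subgroup G) n⁆ = _; rw [ih]; rfl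

theorem iter_bot (n : ℕ) : iter (⊥ : Subgroup G) n = ⊥ := by
  induction n with
  | zero => rfl
  | succ n ih => show ⁅iter (⊥ : Subgroup G) n, iter (⊥ : Subgroup G) n⁆ = _; rw [ih]; exact Subgroup.commutator_bot_left _

variable {A B}

theorem swap_product (hAB : ∀ g : G, ∃ a ∈ A, ∃ b ∈ B, g = a * b) (g : G) :
    ∃ b ∈ B, ∃ a ∈ A, g = b * a := by
  obtain ⟨a, ha, b, hb, e⟩ := hAB g⁻¹
  refine ⟨b⁻¹, B.inv_mem hb, a⁻¹, A.inv_mem ha, ?_⟩
  rw [← mul_inv_rev, ← e, inv_inv]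

/-- The computation behind Itô's theorem with `z`, `z'` central in `B`. -/
theorem key_comp (hA : ∀ x ∈ A, ∀ y ∈ A, x * y = y * x)
    (hAB : ∀ g : G, ∃ a ∈ A, ∃ b ∈ B, g = a * b)
    {z z' a a' : G} (hz : z ∈ B) (hz' : z' ∈ B)
    (hzc : ∀ b ∈ B, z * b = b * z) (hzc' : ∀ b ∈ B, z' * b = b * z')
    (ha : a ∈ A) (ha' : a' ∈ A) :
    ∃ a₂ ∈ A, ∃ b₂ ∈ B, ∃ b₁ ∈ B,
      ⁅⁅z', a'⁆, (a' * z') * ⁅a, z⁆ * (a' * z')⁻¹⁆ = a₂ * ⁅b₂, b₁⁆ * a₂⁻¹ := by
  obtain ⟨b₁, hb₁, a₁, ha₁, e₁⟩ := swap_product hAB (a' * z * a'⁻¹)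
  obtain ⟨a₂, ha₂, b₂, hb₂, e₂⟩ := hAB (z' * a * z'⁻¹)
  refine ⟨a₂, ha₂, b₂, hb₂, b₁, hb₁, ?_⟩
  -- conjugating by an element of `A`
  have hconjA : ∀ x ∈ A, a' * ⁅x, z⁆ * a'⁻¹ = ⁅x, b₁⁆ := by
    intro x hx
    have h1 : a' * ⁅x, z⁆ * a'⁻¹ = ⁅x, a' * z * a'⁻¹⁆ := by
      have : a' * x * a'⁻¹ = x := by rw [hA a' ha' x hx]; group
      rw [conjugate_commutatorElement, this]
    rw [h1, e₁, commutatorElement_def, commutatorElement_def]
    have h3 : a₁ * x⁻¹ * a₁⁻¹ = x⁻¹ := by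
      have : a₁ * x = x * a₁ := hA a₁ ha₁ x hx
      calc a₁ * x⁻¹ * a₁⁻¹ = x⁻¹ * (x * a₁) * x⁻¹ * a₁⁻¹ := by group
        _ = x⁻¹ * (a₁ * x) * x⁻¹ * a₁⁻¹ := by rw [this]
        _ = x⁻¹ := by group
    calc x * (b₁ * a₁) * x⁻¹ * (b₁ * a₁)⁻¹ = x * b₁ * (a₁ * x⁻¹ * a₁⁻¹) * b₁⁻¹ := by group
      _ = x * b₁ * x⁻¹ * b₁⁻¹ := by rw [h3]
  -- the element `z' * a * z'⁻¹`
  have hzz' : z' * z * z'⁻¹ = z := by rw [hzc' z hz]; group
  have hz'b₁ : z' * b₁ * z'⁻¹ = b₁ := by rw [hzc' b₁ hb₁]; group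
  have h1 : z' * ⁅a, z⁆ * z'⁻¹ = ⁅a₂, z⁆ := by
    rw [conjugate_commutatorElement, hzz', e₂, commutatorElement_def, commutatorElement_def]
    have hc : b₂ * z * b₂⁻¹ = z := by rw [← hzc b₂ hb₂]; group
    calc a₂ * b₂ * z * (a₂ * b₂)⁻¹ * z⁻¹ = a₂ * (b₂ * z * b₂⁻¹) * a₂⁻¹ * z⁻¹ := by group
      _ = a₂ * z * a₂⁻¹ * z⁻¹ := by rw [hc]
  have h2 : z' * ⁅a, b₁⁆ * z'⁻¹ = a₂ * ⁅b₂, b₁⁆ * a₂⁻¹ * ⁅a₂, b₁⁆ := by
    rw [conjugate_commutatorElement, hz'b₁, e₂, commutatorElement_def, commutatorElement_def,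
      commutatorElement_def]
    group
  -- the two orders
  have h3 : (a' * z') * ⁅a, z⁆ * (a' * z')⁻¹ = ⁅a₂, b₁⁆ := by
    rw [← hconjA a₂ ha₂, ← h1]; group
  have h4 : (z' * a') * ⁅a, z⁆ * (z' * a')⁻¹ = a₂ * ⁅b₂, b₁⁆ * a₂⁻¹ * ⁅a₂, b₁⁆ := by
    rw [← h2, ← hconjA a ha]; group
  rw [h3]
  have h5 : ⁅z', a'⁆ * ⁅a₂, b₁⁆ * ⁅z', a'⁆⁻¹ = (z' * a') * ⁅a, z⁆ * (z' * a')⁻¹ := by
    rw [← h3, commutatorElement_def]; group
  rw [commutatorElement_def ⁅z', a'⁆ ⁅a₂, b₁⁆, h5, h4]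
  group

/-- `⁅E, A⁆` is normal when `E` is central in `B`. -/
theorem W_normal (hAB : ∀ g : G, ∃ a ∈ A, ∃ b ∈ B, g = a * b) {E : Subgroup G}
    (hE : ∀ z ∈ E, z ∈ B ∧ ∀ b ∈ B, z * b = b * z) : (⁅E, A⁆ : Subgroup G).Normal := by
  have hAinv : ∀ a ∈ A, ∀ x ∈ (⁅E, A⁆ : Subgroup G), a * x * a⁻¹ ∈ (⁅E, A⁆ : Subgroup G) := by
    intro a ha x hx
    have : (⁅E, A⁆ : Subgroup G) ≤ (⁅E, A⁆ : Subgroup G).comap (MulAut.conj a).toMonoidHom := by
      rw [Subgroup.commutator_le]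
      intro z hz a₁ ha₁
      show a * ⁅z, a₁⁆ * a⁻¹ ∈ (⁅E, A⁆ : Subgroup G)
      have e : a * ⁅z, a₁⁆ * a⁻¹ = ⁅z, a⁆⁻¹ * ⁅z, a * a₁⁆ := by
        simp only [commutatorElement_def]; group
      rw [e]
      exact mul_mem (inv_mem (Subgroup.commutator_mem_commutator hz ha))
        (Subgroup.commutator_mem_commutator hz (A.mul_mem ha ha₁))
    exact this hx
  have hBinv : ∀ b ∈ B, ∀ x ∈ (⁅E, A⁆ : Subgroup G), b * x * b⁻¹ ∈ (⁅E, A⁆ : Subgroup G) := by
    intro b hb x hx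
    have : (⁅E, A⁆ : Subgroup G) ≤ (⁅E, A⁆ : Subgroup G).comap (MulAut.conj b).toMonoidHom := by
      rw [Subgroup.commutator_le]
      intro z hz a₁ ha₁
      show b * ⁅z, a₁⁆ * b⁻¹ ∈ (⁅E, A⁆ : Subgroup G)
      obtain ⟨hzB, hzc⟩ := hE z hz
      obtain ⟨a₂, ha₂, b₂, hb₂, e₂⟩ := hAB (b * a₁ * b⁻¹)
      have hc : b * z * b⁻¹ = z := by rw [← hzc b hb]; group
      rw [conjugate_commutatorElement, hc, e₂]
      have : ⁅z, a₂ * b₂⁆ = ⁅z, a₂⁆ := by
        simp only [commutatorElement_def]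
        have hc2 : b₂ * z⁻¹ * b₂⁻¹ = z⁻¹ := by
          have : b₂ * z = z * b₂ := (hzc b₂ hb₂).symm
          calc b₂ * z⁻¹ * b₂⁻¹ = z⁻¹ * (z * b₂) * z⁻¹ * b₂⁻¹ := by group
            _ = z⁻¹ * (b₂ * z) * z⁻¹ * b₂⁻¹ := by rw [this]
            _ = z⁻¹ := by group
        calc z * (a₂ * b₂) * z⁻¹ * (a₂ * b₂)⁻¹ = z * a₂ * (b₂ * z⁻¹ * b₂⁻¹) * a₂⁻¹ := by group
          _ = z * a₂ * z⁻¹ * a₂⁻¹ := by rw [hc2]
      rw [this]
      exact Subgroup.commutator_mem_commutator hz ha₂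
    exact this hx
  refine ⟨fun x hx g => ?_⟩
  obtain ⟨a, ha, b, hb, rfl⟩ := hAB g
  have := hAinv a ha _ (hBinv b hb x hx)
  convert this using 1
  group

/-- The map `E ↦ D ⊓ ⁅W, W⁆`. -/
def nextE (A : Subgroup G) (D E : Subgroup G) : Subgroup G :=
  D ⊓ ⁅(⁅E, A⁆ : Subgroup G), (⁅E, A⁆ : Subgroup G)⁆

theorem nextE_mono (D : Subgroup G) {E F : Subgroup G} (h : E ≤ F) : nextE A D E ≤ nextE A D F :=
  inf_le_inf_left _ (Subgroup.commutator_mono (Subgroup.commutator_mono h le_rfl)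
    (Subgroup.commutator_mono h le_rfl))

theorem W_le_N {E : Subgroup G} : (⁅E, A⁆ : Subgroup G) ≤ Subgroup.normalClosure (E : Set G) := by
  rw [Subgroup.commutator_le]
  intro z hz a _
  have h1 : z ∈ Subgroup.normalClosure (E : Set G) := Subgroup.subset_normalClosure hz
  rw [commutatorElement_def]
  have h2 : a * z⁻¹ * a⁻¹ ∈ Subgroup.normalClosure (E : Set G) :=
    (Subgroup.normalClosure_normal).conj_mem _ (inv_mem h1) a
  have := mul_mem h1 h2
  convert this using 1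
  group

/-- `N(E)' ≤ ⁅E, A⁆`. -/
theorem commN_le_W (hAB : ∀ g : G, ∃ a ∈ A, ∃ b ∈ B, g = a * b) {E : Subgroup G}
    (hE : ∀ z ∈ E, z ∈ B ∧ ∀ b ∈ B, z * b = b * z) :
    ⁅Subgroup.normalClosure (E : Set G), Subgroup.normalClosure (E : Set G)⁆ ≤ (⁅E, A⁆ : Subgroup G) := by
  haveI hW : (⁅E, A⁆ : Subgroup G).Normal := W_normal hAB hE
  let π := QuotientGroup.mk' (⁅E, A⁆ : Subgroup G)
  have hN : Subgroup.normalClosure (E : Set G) ≤ (E.map π).comap π := by
    refine Subgroup.closure_le _ |>.2 ?_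
    intro x hx
    rw [Group.mem_conjugatesOfSet_iff] at hx
    obtain ⟨z, hz, hc⟩ := hx
    obtain ⟨g, rfl⟩ := isConj_iff.1 hc
    obtain ⟨a, ha, b, hb, rfl⟩ := hAB g
    obtain ⟨hzB, hzc⟩ := hE z hz
    have e : a * b * z * (a * b)⁻¹ = ⁅a, z⁆ * z := by
      have hc : b * z * b⁻¹ = z := by rw [← hzc b hb]; group
      calc a * b * z * (a * b)⁻¹ = a * (b * z * b⁻¹) * a⁻¹ := by group
        _ = a * z * a⁻¹ := by rw [hc]
        _ = ⁅a, z⁆ * z := by rw [commutatorElement_def]; group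
    show π (a * b * z * (a * b)⁻¹) ∈ E.map π
    rw [e, map_mul]
    have h0 : π ⁅a, z⁆ = 1 := by
      rw [← MonoidHom.mem_ker, QuotientGroup.ker_mk', Subgroup.commutator_comm]
      exact Subgroup.commutator_mem_commutator ha hz
    rw [h0, one_mul]
    exact ⟨z, hz, rfl⟩
  rw [Subgroup.commutator_le]
  intro x hx y hy
  have hx' := hN hx
  have hy' := hN hy
  obtain ⟨z, hz, e1⟩ := hx'
  obtain ⟨z', hz', e2⟩ := hy'
  have e3 : π x * π y = π y * π x := by
    have h1 : π z * π z' = π z' * π z := by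
      rw [← map_mul, ← map_mul, (hE z hz).2 z' (hE z' hz').1]
    rw [← e1, ← e2]; exact h1
  have : π ⁅x, y⁆ = 1 := by
    rw [map_commutatorElement, commutatorElement_eq_one_iff_mul_comm]; exact e3
  rw [← QuotientGroup.ker_mk' (⁅E, A⁆ : Subgroup G)]
  exact this

/-- `W' ≤ N(E⁺)`. -/
theorem commW_le (hA : ∀ x ∈ A, ∀ y ∈ A, x * y = y * x)
    (hAB : ∀ g : G, ∃ a ∈ A, ∃ b ∈ B, g = a * b) {D E : Subgroup G}
    (hD : ∀ b₁ ∈ B, ∀ b₂ ∈ B, ⁅b₁, b₂⁆ ∈ D)
    (hE : ∀ z ∈ E, z ∈ B ∧ ∀ b ∈ B, z * b = b * z) :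
    ⁅(⁅E, A⁆ : Subgroup G), (⁅E, A⁆ : Subgroup G)⁆
      ≤ Subgroup.normalClosure (nextE A D E : Set G) := by
  haveI hW : (⁅E, A⁆ : Subgroup G).Normal := W_normal hAB hE
  set W : Subgroup G := ⁅E, A⁆ with hWdef
  haveI hWW : (⁅W, W⁆ : Subgroup G).Normal := Subgroup.commutator_normal W W
  set M : Subgroup G := Subgroup.normalClosure (nextE A D E : Set G) with hM
  haveI hMn : M.Normal := Subgroup.normalClosure_normal
  let π := QuotientGroup.mk' M
  have hπ : ∀ x y : G, ⁅x, y⁆ ∈ M ↔ Commute (π x) (π y) := by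
    intro x y
    have key : π ⁅x, y⁆ = 1 ↔ ⁅x, y⁆ ∈ M := QuotientGroup.eq_one_iff _
    rw [← key, map_commutatorElement, commutatorElement_eq_one_iff_commute]
  -- step 1
  have step1 : ∀ z' ∈ E, ∀ a' ∈ A, ∀ x ∈ W, ⁅⁅z', a'⁆, x⁆ ∈ M := by
    intro z' hz' a' ha' x hx
    set g := a' * z' with hg
    let Q : Subgroup G := ((Subgroup.centralizer {π ⁅z', a'⁆}).comap π).comap (MulAut.conj g).toMonoidHom
    have hWQ : W ≤ Q := by
      rw [hWdef, Subgroup.commutator_le]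
      intro z hz a ha
      have h0 : ⁅a, z⁆ ∈ Q := by
        obtain ⟨a₂, ha₂, b₂, hb₂, b₁, hb₁, e⟩ :=
          key_comp hA hAB (hE z hz).1 (hE z' hz').1 (hE z hz).2 (hE z' hz').2 ha ha'
        have hmem : ⁅⁅z', a'⁆, g * ⁅a, z⁆ * g⁻¹⁆ ∈ M := by
          rw [hg, e]
          have h1 : (⁅b₂, b₁⁆ : G) ∈ nextE A D E := by
            refine ⟨hD b₂ hb₂ b₁ hb₁, ?_⟩
            have hv : ⁅z', a'⁆ ∈ W := Subgroup.commutator_mem_commutator hz' ha'
            have ht : g * ⁅a, z⁆ * g⁻¹ ∈ W := by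
              refine hW.conj_mem _ ?_ g
              rw [hWdef, Subgroup.commutator_comm]
              exact Subgroup.commutator_mem_commutator ha hz
            have h2 := Subgroup.commutator_mem_commutator hv ht
            rw [hg, e] at h2
            have h3 := hWW.conj_mem _ h2 a₂⁻¹
            have h4 : a₂⁻¹ * (a₂ * ⁅b₂, b₁⁆ * a₂⁻¹) * a₂⁻¹⁻¹ = ⁅b₂, b₁⁆ := by group
            rw [h4] at h3
            exact h3
          exact hMn.conj_mem _ (Subgroup.subset_normalClosure h1) a₂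
        have hcomm := (hπ _ _).1 hmem
        show π (g * ⁅a, z⁆ * g⁻¹) ∈ Subgroup.centralizer {π ⁅z', a'⁆}
        rw [Subgroup.mem_centralizer_singleton_iff]
        exact hcomm.symm.eq
      have h1 : ⁅z, a⁆ = ⁅a, z⁆⁻¹ := by rw [commutatorElement_inv]
      rw [h1]
      exact inv_mem h0
    have hx' : g⁻¹ * x * g⁻¹⁻¹ ∈ W := hW.conj_mem _ hx g⁻¹
    have h2 := hWQ hx'
    have h3 : π (g * (g⁻¹ * x * g⁻¹⁻¹) * g⁻¹) ∈ Subgroup.centralizer {π ⁅z', a'⁆} := h2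
    have h4 : g * (g⁻¹ * x * g⁻¹⁻¹) * g⁻¹ = x := by group
    rw [h4, Subgroup.mem_centralizer_singleton_iff] at h3
    rw [hπ]
    exact (Commute.symm h3 : _)
  rw [Subgroup.commutator_le]
  intro y hy x hx
  have hWQ : W ≤ (Subgroup.centralizer {π x}).comap π := by
    rw [hWdef, Subgroup.commutator_le]
    intro z' hz' a' ha'
    have := step1 z' hz' a' ha' x hx
    rw [hπ] at this
    show π ⁅z', a'⁆ ∈ Subgroup.centralizer {π x}
    rw [Subgroup.mem_centralizer_singleton_iff]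
    exact this.eq
  have h3 : π y ∈ Subgroup.centralizer {π x} := hWQ hy
  rw [Subgroup.mem_centralizer_singleton_iff] at h3
  rw [hπ]
  exact h3

theorem iter2_le (hA : ∀ x ∈ A, ∀ y ∈ A, x * y = y * x)
    (hAB : ∀ g : G, ∃ a ∈ A, ∃ b ∈ B, g = a * b) {D E : Subgroup G}
    (hD : ∀ b₁ ∈ B, ∀ b₂ ∈ B, ⁅b₁, b₂⁆ ∈ D)
    (hE : ∀ z ∈ E, z ∈ B ∧ ∀ b ∈ B, z * b = b * z) :
    iter (Subgroup.normalClosure (E : Set G)) 2 ≤ Subgroup.normalClosure (nextE A D E : Set G) :=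
  le_trans (Subgroup.commutator_mono (commN_le_W hAB hE) (commN_le_W hAB hE)) (commW_le hA hAB hD hE)

/-- The perfect case. -/
theorem eq_bot_of_fixed [Group.IsSolvable G] (hAB : ∀ g : G, ∃ a ∈ A, ∃ b ∈ B, g = a * b)
    {D E : Subgroup G} (hE : ∀ z ∈ E, z ∈ B ∧ ∀ b ∈ B, z * b = b * z)
    (hfix : E ≤ nextE A D E) : E = ⊥ := by
  haveI hW : (⁅E, A⁆ : Subgroup G).Normal := W_normal hAB hE
  set W : Subgroup G := ⁅E, A⁆ with hWdef
  haveI hWW : (⁅W, W⁆ : Subgroup G).Normal := Subgroup.commutator_normal W W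
  have h1 : E ≤ ⁅W, W⁆ := fun z hz => (hfix hz).2
  have h2 : Subgroup.normalClosure (E : Set G) ≤ ⁅W, W⁆ :=
    Subgroup.normalClosure_le_normal h1
  have h3 : W ≤ ⁅W, W⁆ := le_trans W_le_N h2
  have h4 : ∀ n, W ≤ derivedSeries G n := by
    intro n
    induction n with
    | zero => exact le_top
    | succ n ih => exact le_trans h3 (Subgroup.commutator_mono ih ih)
  obtain ⟨n, hn⟩ := (Group.isSolvable_def G).1 inferInstance
  have h5 : W = ⊥ := le_bot_iff.1 (hn ▸ h4 n)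
  rw [eq_bot_iff]
  rw [h5, Subgroup.commutator_bot_left] at h1
  exact h1

end Core

section Main

variable {G : Type*} [Group G] [Finite G]

theorem length_lt_of_lt {H K : Subgroup G} (h : H < K) :
    (Nat.card H).primeFactorsList.length + 1 ≤ (Nat.card K).primeFactorsList.length := by
  obtain ⟨k, hk⟩ := Subgroup.card_dvd_of_le h.le
  have hH : Nat.card H ≠ 0 := Nat.card_pos.ne'
  have hK : Nat.card K ≠ 0 := Nat.card_pos.ne'
  have hk0 : k ≠ 0 := by
    rintro rfl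
    simp at hk
    exact hK hk
  have hlt : Nat.card H < Nat.card K := by
    have := Set.ncard_lt_ncard (s := (H : Set G)) (t := (K : Set G)) (by exact_mod_cast h) (Set.toFinite _)
    rw [← Nat.card_coe_set_eq, ← Nat.card_coe_set_eq] at this
    exact this
  have hk1 : k ≠ 1 := by
    rintro rfl
    omega
  have hperm := Nat.perm_primeFactorsList_mul hH hk0
  rw [← hk] at hperm
  rw [hperm.length_eq, List.length_append]
  have : 0 < k.primeFactorsList.length := by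
    rw [List.length_pos_iff]
    intro h0
    rw [Nat.primeFactorsList_eq_nil] at h0
    rcases h0 with h0 | h0 <;> omega
  omega

omit [Finite G] in
theorem nc_bot : Subgroup.normalClosure (((⊥ : Subgroup G) : Subgroup G) : Set G) = ⊥ :=
  le_bot_iff.1 (Subgroup.normalClosure_le_normal subset_rfl)

variable {A B : Subgroup G}

theorem chain_main [Group.IsSolvable G] (hA : ∀ x ∈ A, ∀ y ∈ A, x * y = y * x)
    (hAB : ∀ g : G, ∃ a ∈ A, ∃ b ∈ B, g = a * b) {D : Subgroup G}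
    (hD : ∀ b₁ ∈ B, ∀ b₂ ∈ B, ⁅b₁, b₂⁆ ∈ D)
    (hDc : ∀ z ∈ D, z ∈ B ∧ ∀ b ∈ B, z * b = b * z) :
    ∀ (n : ℕ) (E : Subgroup G), E ≤ D → nextE A D E ≤ E →
      (Nat.card E).primeFactorsList.length ≤ n →
      iter (Subgroup.normalClosure (E : Set G)) (2 * n) = ⊥ := by
  intro n
  induction n with
  | zero =>
    intro E _ _ hlen
    have h0 : (Nat.card E).primeFactorsList = [] := List.length_eq_zero_iff.1 (by omega)
    rw [Nat.primeFactorsList_eq_nil] at h0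
    have hE : E = ⊥ := by
      rcases h0 with h0 | h0
      · exact absurd h0 Nat.card_pos.ne'
      · exact Subgroup.eq_bot_of_card_eq _ h0
    subst hE
    rw [nc_bot]
    exact iter_bot _
  | succ n ih =>
    intro E hED hnext hlen
    have hEc : ∀ z ∈ E, z ∈ B ∧ ∀ b ∈ B, z * b = b * z := fun z hz => hDc z (hED hz)
    by_cases hbot : E = ⊥
    · subst hbot
      rw [nc_bot]
      exact iter_bot _
    have hlt : nextE A D E < E := by
      refine lt_of_le_of_ne hnext ?_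
      intro h
      exact hbot (eq_bot_of_fixed hAB hEc h.ge)
    have hlen' := length_lt_of_lt hlt
    have hrec := ih (nextE A D E) (inf_le_left) (nextE_mono D hnext) (by omega)
    have h2 := iter2_le hA hAB hD hEc
    have h3 := iter_mono h2 (2 * n)
    rw [iter_add, hrec] at h3
    have : 2 * (n + 1) = 2 + 2 * n := by ring
    rw [this]
    exact le_bot_iff.1 h3

end Main

/-- Let the finite group G be the product AB of an abelian subgroup A and a subgroup B of nilpotency class at most two, and let Ω be the number of prime factors, with multiplicity, of the order of the commutator subgroup of B. Then the term of index 2(1 + Ω) of the derived series of G is trivial. -/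
theorem result {G : Type*} [Group G] [Finite G] (A B : Subgroup G) [IsMulCommutative A] (hB : commutator ↥B ≤ Subgroup.center ↥B) (hAB : ∀ g : G, ∃ a ∈ A, ∃ b ∈ B, g = a * b) : derivedSeries G (2 * (1 + (Nat.card ↥(commutator ↥B)).primeFactorsList.length)) = ⊥ := by
  classical
  have hA : ∀ x ∈ A, ∀ y ∈ A, x * y = y * x := by
    intro x hx y hy
    have := congrArg Subtype.val ((inferInstance : IsMulCommutative A).is_comm.comm (⟨x, hx⟩ : A) ⟨y, hy⟩)
    exact this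
  -- nilpotency
  have hAnil : Group.IsNilpotent A := by
    refine ⟨⟨1, ?_⟩⟩
    rw [Subgroup.upperCentralSeries_one, eq_top_iff]
    intro x _
    rw [Subgroup.mem_center_iff]
    intro y
    exact (inferInstance : IsMulCommutative A).is_comm.comm y x
  have hBnil : Group.IsNilpotent B := by
    refine ⟨⟨2, ?_⟩⟩
    rw [eq_top_iff]
    intro x _
    rw [show (2 : ℕ) = 1 + 1 from rfl, Subgroup.mem_upperCentralSeries_succ_iff, Subgroup.upperCentralSeries_one]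
    intro y
    exact hB (Subgroup.commutator_mem_commutator (Subgroup.mem_top x) (Subgroup.mem_top y))
  haveI hsolv : Group.IsSolvable G :=
    Cfsg.Agent.Lib.KW.isSolvable_of_product _ G A B rfl hAnil hBnil hAB
  set D : Subgroup G := (commutator ↥B).map B.subtype with hDdef
  have hD : ∀ b₁ ∈ B, ∀ b₂ ∈ B, ⁅b₁, b₂⁆ ∈ D := by
    intro b₁ h₁ b₂ h₂
    refine ⟨⁅(⟨b₁, h₁⟩ : B), (⟨b₂, h₂⟩ : B)⁆, ?_, rfl⟩
    exact Subgroup.commutator_mem_commutator (Subgroup.mem_top _) (Subgroup.mem_top _)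
  have hDc : ∀ z ∈ D, z ∈ B ∧ ∀ b ∈ B, z * b = b * z := by
    rintro z ⟨w, hw, rfl⟩
    refine ⟨w.2, fun b hb => ?_⟩
    have h1 := hB hw
    rw [Subgroup.mem_center_iff] at h1
    exact (congrArg Subtype.val (h1 ⟨b, hb⟩)).symm
  have hcard : Nat.card D = Nat.card ↥(commutator ↥B) :=
    Subgroup.card_map_of_injective B.subtype_injective
  have hchain := chain_main hA hAB hD hDc (Nat.card D).primeFactorsList.length D le_rfl inf_le_left le_rfl
  -- Itô in the quotient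
  have hIto : derivedSeries G 2 ≤ Subgroup.normalClosure (D : Set G) := by
    haveI hNn : (Subgroup.normalClosure (D : Set G)).Normal := Subgroup.normalClosure_normal
    let π := QuotientGroup.mk' (Subgroup.normalClosure (D : Set G))
    haveI hAc : IsMulCommutative (A.map π) := by
      refine ⟨⟨?_⟩⟩
      rintro ⟨_, a, ha, rfl⟩ ⟨_, b, hb, rfl⟩
      apply Subtype.ext
      show π a * π b = π b * π a
      rw [← map_mul, ← map_mul, hA a ha b hb]
    haveI hBc : IsMulCommutative (B.map π) := by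
      refine ⟨⟨?_⟩⟩
      rintro ⟨_, a, ha, rfl⟩ ⟨_, b, hb, rfl⟩
      apply Subtype.ext
      show π a * π b = π b * π a
      have h1 : π ⁅a, b⁆ = 1 :=
        (QuotientGroup.eq_one_iff _).2 (Subgroup.subset_normalClosure (hD a ha b hb))
      rw [map_commutatorElement, commutatorElement_eq_one_iff_mul_comm] at h1
      exact h1
    have hAB' : ∀ q : G ⧸ Subgroup.normalClosure (D : Set G), ∃ a ∈ A.map π, ∃ b ∈ B.map π, q = a * b := by
      intro q
      obtain ⟨g, rfl⟩ := QuotientGroup.mk'_surjective _ q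
      obtain ⟨a, ha, b, hb, rfl⟩ := hAB g
      exact ⟨π a, ⟨a, ha, rfl⟩, π b, ⟨b, hb, rfl⟩, map_mul _ _ _⟩
    have hd := Cfsg.Agent.S0572.result (A.map π) (B.map π) hAB'
    have hm := map_derivedSeries_le_derivedSeries π 2
    rw [hd, le_bot_iff, Subgroup.map_eq_bot_iff, QuotientGroup.ker_mk'] at hm
    exact hm
  have h3 := iter_mono hIto (2 * (Nat.card D).primeFactorsList.length)
  rw [hchain, ← iter_top, iter_add] at h3
  rw [← hcard, ← iter_top]
  convert le_bot_iff.1 h3 using 2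
  ring

end Cfsg.Agent.S0574
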