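import Cfsg.Statements.S0576
import Mathlib
-- import your own Cfsg.Agent.* helpers here

set_option autoImplicit false
open Cfsg

namespace Cfsg.Agent.S0576

/-- Let H be a normal subgroup of a finite group G with H contained in the Frattini subgroup of G. Then the group of inner automorphisms of H is contained in the Frattini subgroup of the automorphism group of H. -/
theorem result {G : Type*} [Group G] [Finite G] (H : Subgroup G) [H.Normal] (hH : H ≤ frattini G) : (MulAut.conj : ↥H →* MulAut ↥H).range ≤ frattini (MulAut ↥H) := by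
  classical
  unfold frattini Order.radical
  refine le_iInf₂ fun M hM => ?_
  by_contra hcontra
  set R : Subgroup (MulAut ↥H) := (MulAut.conj : ↥H →* MulAut ↥H).range with hR
  have hRn : R.Normal := by
    refine ⟨?_⟩
    rintro _ ⟨h, rfl⟩ f
    refine ⟨f h, ?_⟩
    ext x
    simp [MulAut.mul_apply]
  have htop : R ⊔ M = ⊤ := by
    apply hM.2
    refine lt_of_le_of_ne le_sup_right ?_
    intro heq
    apply hcontra
    rw [heq]
    exact le_sup_left
  set φ : G →* MulAut ↥H := MulAut.conjNormal with hφ
  have hφH : ∀ h : ↥H, φ (h : G) = MulAut.conj h := by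
    intro h
    ext x
    simp [hφ, MulAut.conjNormal_apply]
  let K : Subgroup G := M.comap φ
  have hK : K ⊔ frattini G = ⊤ := by
    rw [eq_top_iff]
    intro g _
    have hg : φ g ∈ ((R ⊔ M : Subgroup (MulAut ↥H)) : Set (MulAut ↥H)) := by
      rw [htop]; trivial
    rw [Subgroup.normal_mul] at hg
    obtain ⟨r, hr, m, hm, hrm⟩ := hg
    obtain ⟨h, rfl⟩ := hr
    have hk : (h : G)⁻¹ * g ∈ K := by
      show φ ((h : G)⁻¹ * g) ∈ M
      rw [map_mul, map_inv, hφH, ← hrm]
      simpa using hm
    have h1 : (h : G) ∈ K ⊔ frattini G := (le_sup_right : frattini G ≤ K ⊔ frattini G) (hH h.2)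
    have h2 : (h : G)⁻¹ * g ∈ K ⊔ frattini G := (le_sup_left : K ≤ K ⊔ frattini G) hk
    simpa using mul_mem h1 h2
  have hKtop : K = ⊤ := frattini_nongenerating hK
  apply hcontra
  rintro _ ⟨h, rfl⟩
  have : (h : G) ∈ K := by rw [hKtop]; trivial
  have h3 : φ (h : G) ∈ M := this
  rw [hφH] at h3
  exact h3

end Cfsg.Agent.S0576
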