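import Cfsg.Statements.S0577
import Mathlib
import Cfsg.Agent.Lib.Nilpotent.MinNonNilpotent
-- import your own Cfsg.Agent.* helpers here

set_option autoImplicit false
open Cfsg

namespace Cfsg.Agent.S0577

open scoped commutatorElement

/-- Let G be a finite minimal non-nilpotent group and Q a normal Sylow q-subgroup of G, and let D be the commutator subgroup of Q regarded in G (a normal subgroup). Then G modulo D is non-abelian and all its proper subgroups are abelian. -/
theorem result {G : Type*} [Group G] [Finite G] (hG : Cfsg.IsMinimalNonNilpotent G) (q : ℕ) [Fact q.Prime] (hq : q ∣ Nat.card G) (Q : Sylow q G) (hQ : (Q : Subgroup G).Normal) (D : Subgroup G) [D.Normal] (hD : D = (commutator ↥(Q : Subgroup G)).map (Q : Subgroup G).subtype) : ¬ IsMulCommutative (G ⧸ D) ∧ ∀ K : Subgroup (G ⧸ D), K ≠ ⊤ → IsMulCommutative K := by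
  classical
  obtain ⟨hnot, hprop⟩ := hG
  have hqp : q.Prime := Fact.out
  obtain ⟨p, q', hp, hq', hpq, P, Q', hcyc, hQ'n, hsup⟩ :=
    Cfsg.Agent.Lib.Nilpotent.MinNonNilpotent.exists_structure hnot hprop
  have : Fact p.Prime := ⟨hp⟩
  have : Fact q'.Prime := ⟨hq'⟩
  -- the order of `G` divides `|P||Q'|`
  have hidx' : (Q' : Subgroup G).index ∣ Nat.card P := by
    have h1 := Subgroup.relIndex_sup_right (P : Subgroup G) (Q' : Subgroup G)
    rw [hsup, Subgroup.relIndex_top_right] at h1
    rw [h1]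
    exact Subgroup.relIndex_dvd_card _ _
  have hcard : Nat.card G ∣ Nat.card Q' * Nat.card P := by
    rw [← Subgroup.card_mul_index (Q' : Subgroup G)]
    exact mul_dvd_mul_left _ hidx'
  -- nilpotent if `P` is normal
  have hPnot : ¬ (P : Subgroup G).Normal := by
    intro hPn
    apply hnot
    have hPnil : Group.IsNilpotent (P : Subgroup G) := P.isPGroup'.isNilpotent
    have hQnil : Group.IsNilpotent (Q' : Subgroup G) := Q'.isPGroup'.isNilpotent
    have := Cfsg.Agent.Lib.Nilpotent.Fitting.isNilpotent_sup_of_normal hPnil hQnil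
    rw [hsup] at this
    exact Group.isNilpotent_top.mp this
  -- `q = q'`
  have hqq' : q = q' := by
    have h1 := hq.trans hcard
    rcases (Nat.Prime.dvd_mul hqp).mp h1 with h2 | h2
    · obtain ⟨n, hn⟩ := IsPGroup.iff_card.mp Q'.isPGroup'
      rw [show Nat.card Q' = q' ^ n from hn] at h2
      exact (Nat.prime_dvd_prime_iff_eq hqp hq').mp (hqp.dvd_of_dvd_pow h2)
    · exfalso
      obtain ⟨n, hn⟩ := IsPGroup.iff_card.mp P.isPGroup'
      rw [show Nat.card P = p ^ n from hn] at h2
      have hqpEq : q = p := (Nat.prime_dvd_prime_iff_eq hqp hp).mp (hqp.dvd_of_dvd_pow h2)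
      subst hqpEq
      apply hPnot
      have := Sylow.unique_of_normal Q hQ
      rw [Subsingleton.elim P Q]
      exact hQ
  subst hqq'
  have hQQ' : Q' = Q := by
    have := Sylow.unique_of_normal Q hQ
    exact Subsingleton.elim _ _
  subst hQQ'
  -- basic facts on `D`
  have hDle : D ≤ (Q' : Subgroup G) := by
    rw [hD]
    rintro _ ⟨x, _, rfl⟩
    exact x.2
  have hQnb : (Q' : Subgroup G) ≠ ⊥ := Q'.ne_bot_of_dvd_card hq
  have hDne : D ≠ (Q' : Subgroup G) := by
    intro hEq
    have hQnt : Nontrivial (Q' : Subgroup G) := (Subgroup.nontrivial_iff_ne_bot _).mpr hQnb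
    have hQnil : Group.IsNilpotent (Q' : Subgroup G) := Q'.isPGroup'.isNilpotent
    have hlt : commutator (Q' : Subgroup G) < ⊤ := Group.IsSolvable.commutator_lt_top_of_nontrivial _
    apply hlt.ne
    have h1 : (commutator (Q' : Subgroup G)).map (Q' : Subgroup G).subtype =
        (⊤ : Subgroup (Q' : Subgroup G)).map (Q' : Subgroup G).subtype := by
      rw [← hD, hEq, ← MonoidHom.range_eq_map, Subgroup.range_subtype]
    exact Subgroup.map_injective (Q' : Subgroup G).subtype_injective h1
  have hqdvd : q ∣ D.index := by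
    have h1 : D.relIndex (Q' : Subgroup G) * (Q' : Subgroup G).index = D.index :=
      Subgroup.relIndex_mul_index hDle
    have h2 : D.relIndex (Q' : Subgroup G) ≠ 1 := by
      intro h3
      exact hDne (le_antisymm hDle (Subgroup.relIndex_eq_one.mp h3))
    have h3 : D.relIndex (Q' : Subgroup G) ∣ Nat.card Q' := Subgroup.relIndex_dvd_card _ _
    obtain ⟨n, hn⟩ := IsPGroup.iff_card.mp Q'.isPGroup'
    rw [show Nat.card Q' = q ^ n from hn] at h3
    obtain ⟨m, hm, hm'⟩ := (Nat.dvd_prime_pow hqp).mp h3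
    have hm0 : m ≠ 0 := by
      rintro rfl
      exact h2 (by simpa using hm')
    rw [← h1, hm']
    exact Dvd.dvd.mul_right (dvd_pow_self q hm0) _
  have hproper : (P : Subgroup G) ⊔ D ≠ ⊤ := by
    intro hEq
    have h1 := Subgroup.relIndex_sup_right (P : Subgroup G) D
    rw [hEq, Subgroup.relIndex_top_right] at h1
    have h2 : D.relIndex (P : Subgroup G) ∣ Nat.card P := Subgroup.relIndex_dvd_card _ _
    rw [← h1] at h2
    obtain ⟨n, hn⟩ := IsPGroup.iff_card.mp P.isPGroup'
    rw [show Nat.card P = p ^ n from hn] at h2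
    have h3 : q ∣ p ^ n := hqdvd.trans h2
    have h4 := hqp.dvd_of_dvd_pow h3
    exact hpq ((Nat.prime_dvd_prime_iff_eq hqp hp).mp h4).symm
  constructor
  · -- non-abelian
    intro hcomm
    apply hPnot
    have hcle : commutator G ≤ D := by
      have hk : (QuotientGroup.mk' D).ker = D := QuotientGroup.ker_mk' D
      rw [← hk]
      rw [commutator_def, Subgroup.commutator_le]
      intro a _ b _
      rw [MonoidHom.mem_ker, map_commutatorElement, commutatorElement_eq_one_iff_commute]
      exact hcomm.is_comm.comm _ _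
    have hPDn : ((P : Subgroup G) ⊔ D).Normal := by
      refine ⟨fun m hm g => ?_⟩
      have h1 : g * m * g⁻¹ * m⁻¹ ∈ commutator G := by
        rw [commutator_def]
        exact Subgroup.commutator_mem_commutator (Subgroup.mem_top g) (Subgroup.mem_top m)
      have h2 := Subgroup.mul_mem _ ((le_sup_right : D ≤ (P : Subgroup G) ⊔ D) (hcle h1)) hm
      simpa using h2
    have hPDnil := hprop _ hproper
    have hle : (P : Subgroup G) ≤ Cfsg.pCore p G := by
      intro x hx
      obtain ⟨k, hk⟩ := (IsPGroup.iff_orderOf.mp P.isPGroup') ⟨x, hx⟩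
      rw [Subgroup.orderOf_mk] at hk
      exact Cfsg.Agent.Lib.Nilpotent.Fitting.mem_pCore_of_mem_nilpotent_normal hPDnil
        ((le_sup_left : (P : Subgroup G) ≤ _) hx) hk
    have hEq : (P : Subgroup G) = Cfsg.pCore p G :=
      le_antisymm hle (Cfsg.Agent.Lib.Nilpotent.Fitting.pCore_le_sylow p P)
    rw [hEq]
    exact Cfsg.Agent.Lib.Nilpotent.Fitting.pCore_normal p
  · -- all proper subgroups of the quotient are abelian
    intro K hK
    let K' : Subgroup G := K.comap (QuotientGroup.mk' D)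
    have hK'top : K' ≠ ⊤ := by
      intro hEq
      apply hK
      have := Subgroup.map_comap_eq_self_of_surjective (QuotientGroup.mk'_surjective D) K
      rw [← this]
      show K'.map _ = ⊤
      rw [hEq, ← MonoidHom.range_eq_map]
      exact MonoidHom.range_eq_top.mpr (QuotientGroup.mk'_surjective D)
    have hK'nil : Group.IsNilpotent K' := hprop K' hK'top
    -- `p`-elements of `K'` commute
    have hpp : ∀ a ∈ K', ∀ b ∈ K', (∃ k, orderOf a = p ^ k) → (∃ k, orderOf b = p ^ k) →
        Commute a b := by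
      rintro a ha b hb ⟨k, hk⟩ ⟨l, hl⟩
      let R₀ : Sylow p K' := default
      have ha' : (⟨a, ha⟩ : K') ∈ R₀ :=
        Cfsg.Agent.Lib.Nilpotent.Elements.mem_sylow_of_pow_eq_one R₀ (k := k) (by
          apply Subtype.ext
          simp [← hk, pow_orderOf_eq_one])
      have hb' : (⟨b, hb⟩ : K') ∈ R₀ :=
        Cfsg.Agent.Lib.Nilpotent.Elements.mem_sylow_of_pow_eq_one R₀ (k := l) (by
          apply Subtype.ext
          simp [← hl, pow_orderOf_eq_one])
      have hR : IsPGroup p ((R₀ : Subgroup K').map K'.subtype) := R₀.isPGroup'.map _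
      obtain ⟨P₁, hP₁⟩ := hR.exists_le_sylow
      obtain ⟨g, hg⟩ := MulAction.exists_smul_eq G P₁ P
      have hconj : ∀ x ∈ (P₁ : Subgroup G), g * x * g⁻¹ ∈ (P : Subgroup G) := by
        intro x hx
        rw [← hg, Sylow.coe_subgroup_smul]
        exact Subgroup.smul_mem_pointwise_smul x (MulAut.conj g) (P₁ : Subgroup G) hx
      have hac := hconj a (hP₁ ⟨⟨a, ha⟩, ha', rfl⟩)
      have hbc := hconj b (hP₁ ⟨⟨b, hb⟩, hb', rfl⟩)
      have hPc : IsMulCommutative (P : Subgroup G) := IsCyclic.isMulCommutative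
      have h1 := congrArg Subtype.val (hPc.is_comm.comm ⟨_, hac⟩ ⟨_, hbc⟩)
      have h2 : g * (a * b) * g⁻¹ = g * (b * a) * g⁻¹ := by
        simpa [mul_assoc] using h1
      exact mul_left_cancel (mul_right_cancel h2)
    -- decomposition
    have hdec : ∀ a ∈ K', ∃ a₁ a₂ : G, a = a₁ * a₂ ∧ a₁ ∈ K' ∧ a₂ ∈ K' ∧ (∃ k, orderOf a₁ = p ^ k) ∧
        (orderOf a₂).Coprime p ∧ a₂ ∈ (Q' : Subgroup G) := by
      intro a ha
      obtain ⟨a₁, a₂, rfl, hc, h1, h2, hk, hcop⟩ :=
        Cfsg.Agent.Lib.Transfer.Basic.exists_pPart_decomp (p := p) a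
      have hz : Subgroup.zpowers (a₁ * a₂) ≤ K' := by
        rw [Subgroup.zpowers_le]; exact ha
      refine ⟨a₁, a₂, rfl, hz h1, hz h2, hk, hcop, ?_⟩
      -- `a₂` is a `q`-element
      have hcopP : (orderOf a₂).Coprime (Nat.card P) := by
        obtain ⟨n, hn⟩ := IsPGroup.iff_card.mp P.isPGroup'
        rw [show Nat.card P = p ^ n from hn]
        exact Nat.Coprime.pow_right _ hcop
      have hd : orderOf a₂ ∣ Nat.card Q' := by
        have h3 : orderOf a₂ ∣ Nat.card Q' * Nat.card P := (orderOf_dvd_natCard a₂).trans hcard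
        exact hcopP.dvd_of_dvd_mul_right h3
      obtain ⟨n, hn⟩ := IsPGroup.iff_card.mp Q'.isPGroup'
      rw [show Nat.card Q' = q ^ n from hn] at hd
      have hpow : a₂ ^ q ^ n = 1 := orderOf_dvd_iff_pow_eq_one.mp hd
      exact Cfsg.Agent.Lib.Nilpotent.Elements.mem_sylow_of_normal Q' hQ hpow
    -- commuting elements of coprime orders
    have hcop : ∀ a ∈ K', ∀ b ∈ K', (orderOf a).Coprime (orderOf b) → Commute a b := by
      intro a ha b hb hc
      have hc' : (orderOf (⟨a, ha⟩ : K')).Coprime (orderOf (⟨b, hb⟩ : K')) := by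
        rwa [Subgroup.orderOf_mk, Subgroup.orderOf_mk]
      have := Cfsg.Agent.Lib.Nilpotent.Elements.commute_of_coprime_orderOf hc'
      exact congrArg Subtype.val this.eq
    -- the quotient of `K'`
    have hmain : ∀ a ∈ K', ∀ b ∈ K', (QuotientGroup.mk a : G ⧸ D) * QuotientGroup.mk b =
        QuotientGroup.mk b * QuotientGroup.mk a := by
      intro a ha b hb
      obtain ⟨a₁, a₂, rfl, ha₁, ha₂, hak, hac, haQ⟩ := hdec a ha
      obtain ⟨b₁, b₂, rfl, hb₁, hb₂, hbk, hbc, hbQ⟩ := hdec b hb
      have c11 : Commute a₁ b₁ := hpp _ ha₁ _ hb₁ hak hbk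
      have c12 : Commute a₁ b₂ := by
        apply hcop _ ha₁ _ hb₂
        obtain ⟨k, hk⟩ := hak
        rw [hk]
        exact Nat.Coprime.pow_left _ hbc.symm
      have c21 : Commute a₂ b₁ := by
        apply hcop _ ha₂ _ hb₁
        obtain ⟨k, hk⟩ := hbk
        rw [hk]
        exact Nat.Coprime.pow_right _ hac
      have c22 : Commute (QuotientGroup.mk a₂ : G ⧸ D) (QuotientGroup.mk b₂) := by
        have h1 : ⁅a₂, b₂⁆ ∈ D := by
          rw [hD]
          refine ⟨⁅(⟨a₂, haQ⟩ : (Q' : Subgroup G)), (⟨b₂, hbQ⟩ : (Q' : Subgroup G))⁆, ?_, rfl⟩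
          exact Subgroup.commutator_mem_commutator (Subgroup.mem_top _) (Subgroup.mem_top _)
        have h2 : ⁅(QuotientGroup.mk' D) a₂, (QuotientGroup.mk' D) b₂⁆ = 1 := by
          rw [← map_commutatorElement, QuotientGroup.mk'_apply, QuotientGroup.eq_one_iff]
          exact h1
        exact commutatorElement_eq_one_iff_commute.mp h2
      have c11' : Commute (QuotientGroup.mk a₁ : G ⧸ D) (QuotientGroup.mk b₁) :=
        c11.map (QuotientGroup.mk' D)
      have c12' : Commute (QuotientGroup.mk a₁ : G ⧸ D) (QuotientGroup.mk b₂) :=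
        c12.map (QuotientGroup.mk' D)
      have c21' : Commute (QuotientGroup.mk a₂ : G ⧸ D) (QuotientGroup.mk b₁) :=
        c21.map (QuotientGroup.mk' D)
      rw [QuotientGroup.mk_mul, QuotientGroup.mk_mul]
      exact ((c11'.mul_right c12').mul_left (c21'.mul_right c22)).eq
    refine ⟨⟨fun x y => ?_⟩⟩
    obtain ⟨x, hx⟩ := x
    obtain ⟨y, hy⟩ := y
    induction x using QuotientGroup.induction_on with | _ a =>
    induction y using QuotientGroup.induction_on with | _ b =>
    apply Subtype.ext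
    exact hmain a hx b hy

end Cfsg.Agent.S0577
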