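import Cfsg.Statements.S0578
import Mathlib

set_option autoImplicit false
open Cfsg

namespace Cfsg.Agent.S0578

open scoped commutatorElement

/-- If in a finite group the normalizer of each abelian subgroup coincides with its centralizer, then the group is abelian. -/
theorem result {G : Type*} [Group G] [Finite G] (h : ∀ A : Subgroup G, IsMulCommutative A → Subgroup.normalizer (A : Set G) = Subgroup.centralizer (A : Set G)) : IsMulCommutative G := by
  classical
  -- Sylow subgroups are abelian
  have hsyl : ∀ (p : ℕ) [Fact p.Prime] (P : Sylow p G), IsMulCommutative (P : Subgroup G) := by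
    intro p _ P
    let S : Set (Subgroup G) := {A | A ≤ (P : Subgroup G) ∧ IsMulCommutative A}
    have hSne : S.Nonempty := ⟨⊥, bot_le, ⟨⟨fun a b => by
      apply Subtype.ext
      have ha := a.2
      have hb := b.2
      rw [Subgroup.mem_bot] at ha hb
      simp [ha, hb]⟩⟩⟩
    obtain ⟨A, hAmax⟩ := (Set.toFinite S).exists_maximal hSne
    have hAS : A ∈ S := hAmax.prop
    have hAP : A ≤ (P : Subgroup G) := hAS.1
    by_cases hAeq : A = (P : Subgroup G)
    · rw [← hAeq]; exact hAS.2
    exfalso
    -- normalizer condition in P
    have hnil : Group.IsNilpotent (P : Subgroup G) := P.isPGroup'.isNilpotent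
    have hlt : A.subgroupOf (P : Subgroup G) < ⊤ := by
      rw [lt_top_iff_ne_top]
      intro htop
      apply hAeq
      apply le_antisymm hAP
      intro x hx
      have : (⟨x, hx⟩ : (P : Subgroup G)) ∈ A.subgroupOf (P : Subgroup G) := by
        rw [htop]; trivial
      exact Subgroup.mem_subgroupOf.1 this
    have hcond := normalizerCondition_of_isNilpotent (G := (P : Subgroup G))
    have hlt2 := hcond _ hlt
    obtain ⟨⟨y, hyP⟩, hyN, hyA⟩ := SetLike.exists_of_lt hlt2
    have hyA' : y ∉ A := fun hmem => hyA (Subgroup.mem_subgroupOf.2 hmem)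
    have hyN' : y ∈ Subgroup.normalizer (A : Set G) := by
      rw [Subgroup.mem_normalizer_iff]
      intro a
      have hyN2 := Subgroup.mem_normalizer_iff.1 hyN
      by_cases haP : a ∈ (P : Subgroup G)
      · have := hyN2 ⟨a, haP⟩
        simpa [Subgroup.mem_subgroupOf] using this
      · constructor
        · intro ha
          exact absurd (hAP ha) haP
        · intro ha
          exfalso
          apply haP
          have h2 := hAP ha
          have h3 : a = y⁻¹ * (y * a * y⁻¹) * y := by group
          rw [h3]
          exact Subgroup.mul_mem _ (Subgroup.mul_mem _ (Subgroup.inv_mem _ hyP) h2) hyP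
    have hyC : y ∈ Subgroup.centralizer (A : Set G) := by
      rw [← h A hAS.2]; exact hyN'
    -- A together with y is abelian
    let k : Set G := (A : Set G) ∪ {y}
    have hk : ∀ a ∈ k, ∀ b ∈ k, a * b = b * a := by
      have hA : ∀ a ∈ A, ∀ b ∈ A, a * b = b * a := by
        intro a ha b hb
        have := hAS.2.is_comm.comm (⟨a, ha⟩ : A) ⟨b, hb⟩
        exact congrArg Subtype.val this
      have hyc : ∀ a ∈ A, a * y = y * a := fun a ha =>
        Subgroup.mem_centralizer_iff.1 hyC a ha
      rintro a (ha | ha) b (hb | hb)
      · exact hA a ha b hb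
      · rw [Set.mem_singleton_iff] at hb; subst hb; exact hyc a ha
      · rw [Set.mem_singleton_iff] at ha; subst ha; exact (hyc b hb).symm
      · rw [Set.mem_singleton_iff] at ha hb; rw [ha, hb]
    have hclos : Subgroup.closure k ∈ S := by
      constructor
      · rw [Subgroup.closure_le]
        rintro a (ha | ha)
        · exact hAP ha
        · rw [Set.mem_singleton_iff] at ha; rw [ha]; exact hyP
      · exact Subgroup.isMulCommutative_closure hk
    have hle : A ≤ Subgroup.closure k := fun a ha => Subgroup.subset_closure (Or.inl ha)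
    have hge := hAmax.le_of_ge hclos hle
    exact hyA' (hge (Subgroup.subset_closure (Or.inr rfl)))
  -- Normal complement argument
  have hbot : ∀ x ∈ commutator G, x = 1 := by
    intro x hx
    by_contra hx1
    have hord : orderOf x ≠ 1 := by rwa [Ne, orderOf_eq_one_iff]
    set p := (orderOf x).minFac with hp
    have hpp : p.Prime := Nat.minFac_prime hord
    haveI : Fact p.Prime := ⟨hpp⟩
    set y := x ^ (orderOf x / p) with hy
    have hyord : orderOf y = p :=
      orderOf_pow_orderOf_div (orderOf_pos x).ne' (Nat.minFac_dvd _)
    have hyG : y ∈ commutator G := Subgroup.pow_mem _ hx _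
    have hy1 : y ≠ 1 := by
      intro h0
      rw [h0, orderOf_one] at hyord
      exact hpp.one_lt.ne hyord
    obtain ⟨P⟩ : Nonempty (Sylow p G) := inferInstance
    have hP := hsyl p P
    have hle : Subgroup.normalizer ((P : Subgroup G) : Set G) ≤ Subgroup.centralizer (P : Set G) :=
      (h (P : Subgroup G) hP).le
    have hQ : IsPGroup p (Subgroup.zpowers y) := by
      rw [IsPGroup.iff_card, Nat.card_zpowers, hyord]
      exact ⟨1, by simp⟩
    have hdisj := MonoidHom.ker_transferSylow_disjoint P hle _ hQ
    have hker : commutator G ≤ (MonoidHom.transferSylow P hle).ker := by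
      rw [commutator_def, Subgroup.commutator_le]
      intro a _ b _
      rw [MonoidHom.mem_ker, map_commutatorElement, commutatorElement_eq_one_iff_commute]
      exact hP.is_comm.comm _ _
    have hmem : y ∈ (MonoidHom.transferSylow P hle).ker ⊓ Subgroup.zpowers y :=
      ⟨hker hyG, Subgroup.mem_zpowers y⟩
    rw [hdisj.eq_bot, Subgroup.mem_bot] at hmem
    exact hy1 hmem
  refine ⟨⟨fun a b => ?_⟩⟩
  have h1 : ⁅a, b⁆ = 1 := hbot _ (Subgroup.commutator_mem_commutator (Subgroup.mem_top a) (Subgroup.mem_top b))
  exact commutatorElement_eq_one_iff_mul_comm.1 h1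

end Cfsg.Agent.S0578
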