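import Cfsg.Statements.S0582
import Cfsg.Agent.Lib.Solvable.Supersolvable2

set_option autoImplicit false
set_option linter.style.haveILetI false
open Pointwise
open Cfsg

namespace Cfsg.Agent.S0582

open Cfsg.Agent.Lib.Solvable.Supersolvable Cfsg.Agent.Lib.Solvable.Supersolvable2

/-- If the order of `H` is `1` then everything is trivial, otherwise the largest prime `p` gives a
normal `p`-subgroup of index prime to `p`. -/
theorem exists_sylow_part {G : Type*} [Group G] [Finite G] (H : Subgroup G)
    (hH : IsSupersolvable H) (hco : (Nat.card H).Coprime H.index) (p : ℕ) [Fact p.Prime]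
    (hpd : p ∣ Nat.card H) (hmax : ∀ q : ℕ, q.Prime → q ∣ Nat.card H → q ≤ p) :
    ∃ P : Sylow p G, (P : Subgroup G) ≤ H ∧ H ≤ Subgroup.normalizer ((P : Subgroup G) : Set G) := by
  have hpp : p.Prime := Fact.out
  obtain ⟨X, hXn, hXp, hXi⟩ := exists_normal_sylow_largest _ (↥H) rfl hH p hpd hmax
  have hnot : ¬ p ∣ (X.map H.subtype).index := by
    rw [Subgroup.index_map_subtype]
    intro h
    rcases (Nat.Prime.dvd_mul hpp).mp h with h | h
    · exact hXi h
    · exact Nat.Prime.one_lt hpp |>.ne' (Nat.eq_one_of_dvd_coprimes hco hpd h)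
  have hP : IsPGroup p (X.map H.subtype) := hXp.map _
  refine ⟨hP.toSylow hnot, ?_, ?_⟩
  · rw [IsPGroup.toSylow_coe]
    rintro _ ⟨x, _, rfl⟩
    exact x.2
  · rw [IsPGroup.toSylow_coe, Subgroup.le_normalizer_iff]
    rintro h hh _ ⟨x, hx, rfl⟩
    refine ⟨⟨h, hh⟩ * x * ⟨h, hh⟩⁻¹, hXn.conj_mem x hx _, rfl⟩

theorem key : ∀ (n : ℕ) (G : Type _) [Group G] [Finite G] (H K : Subgroup G),
    Nat.card H = n → IsSupersolvable H → IsSupersolvable K →
    Nat.card H = Nat.card K → (Nat.card H).Coprime H.index → ∃ x : G, MulAut.conj x • H = K := by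
  intro n
  induction n using Nat.strong_induction_on with
  | _ n ih =>
    intro G _ _ H K hn hH hK hcard hco
    by_cases hone : Nat.card H = 1
    · have h1 : H = ⊥ := Subgroup.eq_bot_of_card_eq H hone
      have h2 : K = ⊥ := Subgroup.eq_bot_of_card_eq K (hcard ▸ hone)
      exact ⟨1, by simp [h1, h2]⟩
    · have hne : (Nat.card H).primeFactors.Nonempty := by
        rw [Nat.nonempty_primeFactors]
        have := Nat.card_pos (α := H)
        omega
      obtain ⟨p, hpm, hpmax⟩ := (Nat.card H).primeFactors.exists_max_image id hne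
      have hpp : p.Prime := Nat.prime_of_mem_primeFactors hpm
      have hpd : p ∣ Nat.card H := Nat.dvd_of_mem_primeFactors hpm
      haveI : Fact p.Prime := ⟨hpp⟩
      have hmax : ∀ q : ℕ, q.Prime → q ∣ Nat.card H → q ≤ p := fun q hq hd =>
        hpmax q (Nat.mem_primeFactors.mpr ⟨hq, hd, Nat.card_pos.ne'⟩)
      have hcoK : (Nat.card K).Coprime K.index := by
        have hi : K.index = H.index := by
          have h1 := Subgroup.card_mul_index H
          have h2 := Subgroup.card_mul_index K
          rw [← hcard] at h2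
          exact Nat.eq_of_mul_eq_mul_left Nat.card_pos (h2.trans h1.symm)
        rw [← hcard, hi]; exact hco
      obtain ⟨P, hPH, hHN⟩ := exists_sylow_part H hH hco p hpd hmax
      obtain ⟨P', hPK, hKN⟩ := exists_sylow_part K hK hcoK p (hcard ▸ hpd) (hcard ▸ hmax)
      obtain ⟨y, hy⟩ := MulAction.exists_smul_eq G P' P
      -- Replace `K` by its conjugate under `y`.
      set K₁ := MulAut.conj y • K with hK₁
      have hyP : ((P : Subgroup G)) = MulAut.conj y • (P' : Subgroup G) := by
        rw [← hy]; rfl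
      have hPK₁ : (P : Subgroup G) ≤ K₁ := by
        rw [hyP, hK₁]
        exact Subgroup.pointwise_smul_le_pointwise_smul_iff.mpr hPK
      have hK₁N : K₁ ≤ Subgroup.normalizer ((P : Subgroup G) : Set G) := by
        rw [Subgroup.le_normalizer_iff]
        intro k hk x hx
        rw [hK₁, Subgroup.mem_pointwise_smul_iff_inv_smul_mem] at hk
        rw [hyP, Subgroup.mem_pointwise_smul_iff_inv_smul_mem] at hx ⊢
        have h1 := (Subgroup.le_normalizer_iff.mp hKN) _ hk _ hx
        simpa [MulAut.smul_def, MulAut.conj_apply, mul_assoc] using h1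
      have hcK₁ : Nat.card K₁ = Nat.card K := Nat.card_congr (Subgroup.equivSMul _ K).symm.toEquiv
      have hsK₁ : IsSupersolvable K₁ :=
        IsSupersolvable.of_mulEquiv (Subgroup.equivSMul (MulAut.conj y) K) hK
      -- Pass to the normalizer of `P`, modulo `P`.
      set N := Subgroup.normalizer ((P : Subgroup G) : Set G) with hN
      set P₀ := (P : Subgroup G).subgroupOf N with hP₀
      haveI hP₀n : P₀.Normal := by
        rw [hP₀]; exact Subgroup.normal_in_normalizer
      set φ := QuotientGroup.mk' P₀ with hφ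
      have hker : φ.ker = P₀ := QuotientGroup.ker_mk' P₀
      set H₀ := H.subgroupOf N with hH₀
      set K₀ := K₁.subgroupOf N with hK₀
      have hP₀H : P₀ ≤ H₀ := Subgroup.comap_mono hPH
      have hP₀K : P₀ ≤ K₀ := Subgroup.comap_mono hPK₁
      set H₁ := H₀.map φ with hH₁
      set K₂ := K₀.map φ with hK₂
      have hcH₀ : Nat.card H₀ = Nat.card H :=
        Nat.card_congr (Subgroup.subgroupOfEquivOfLe hHN).toEquiv
      have hcK₀ : Nat.card K₀ = Nat.card K₁ :=
        Nat.card_congr (Subgroup.subgroupOfEquivOfLe hK₁N).toEquiv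
      have hcomapH : H₁.comap φ = H₀ := by
        rw [hH₁, Subgroup.comap_map_eq, hker, sup_eq_left.mpr hP₀H]
      have hcomapK : K₂.comap φ = K₀ := by
        rw [hK₂, Subgroup.comap_map_eq, hker, sup_eq_left.mpr hP₀K]
      have hcH₁ : Nat.card H = Nat.card P₀ * Nat.card H₁ := by
        rw [← hcH₀, ← hcomapH]; exact card_comap_mk P₀ H₁
      have hcK₂ : Nat.card K = Nat.card P₀ * Nat.card K₂ := by
        rw [← hcK₁, ← hcK₀, ← hcomapK]; exact card_comap_mk P₀ K₂
      have hP₀card : Nat.card P₀ = Nat.card (P : Subgroup G) :=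
        Nat.card_congr (Subgroup.subgroupOfEquivOfLe (hPH.trans hHN)).toEquiv
      have hPlarge : 1 < Nat.card P₀ := by
        rw [hP₀card]
        have hd : p ∣ Nat.card (P : Subgroup G) := P.dvd_card_of_dvd_card
          (hpd.trans (Subgroup.card_subgroup_dvd_card H))
        exact lt_of_lt_of_le hpp.one_lt (Nat.le_of_dvd Nat.card_pos hd)
      have hlt : Nat.card H₁ < n := by
        rw [← hn, hcH₁]
        have : 0 < Nat.card H₁ := Nat.card_pos
        nlinarith
      have hcc : Nat.card H₁ = Nat.card K₂ := by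
        have h1 : Nat.card P₀ * Nat.card H₁ = Nat.card P₀ * Nat.card K₂ := by
          rw [← hcH₁, ← hcK₂, hcard]
        exact Nat.eq_of_mul_eq_mul_left (by omega) h1
      have hsH₁ : IsSupersolvable H₁ :=
        IsSupersolvable.of_surjective (φ.subgroupMap H₀) (φ.subgroupMap_surjective H₀)
          (IsSupersolvable.of_mulEquiv (Subgroup.subgroupOfEquivOfLe hHN).symm hH)
      have hsK₂ : IsSupersolvable K₂ :=
        IsSupersolvable.of_surjective (φ.subgroupMap K₀) (φ.subgroupMap_surjective K₀)
          (IsSupersolvable.of_mulEquiv (Subgroup.subgroupOfEquivOfLe hK₁N).symm hsK₁)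
      have hcoH₁ : (Nat.card H₁).Coprime H₁.index := by
        have h1 : H₁.index = H₀.index := index_map_mk P₀ H₀ hP₀H
        have h2 : H₀.index * N.index = H.index := Subgroup.relIndex_mul_index hHN
        have h3 : Nat.card H₁ ∣ Nat.card H := hcH₁ ▸ Dvd.intro_left _ rfl
        rw [h1]
        exact Nat.Coprime.coprime_dvd_left h3
          (Nat.Coprime.coprime_dvd_right (h2 ▸ Dvd.intro _ rfl) hco)
      obtain ⟨xb, hxb⟩ := ih _ hlt (↥N ⧸ P₀) H₁ K₂ rfl hsH₁ hsK₂ hcc hcoH₁
      obtain ⟨x, hx⟩ := QuotientGroup.mk'_surjective P₀ xb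
      have hle : MulAut.conj (x : G) • H ≤ K₁ := by
        intro g hg
        rw [Subgroup.mem_pointwise_smul_iff_inv_smul_mem] at hg
        have hg' : (x : G)⁻¹ * g * x ∈ H := by
          simpa [MulAut.smul_def, MulAut.conj_apply, mul_assoc] using hg
        have hgN : g ∈ N := by
          have h1 : ((x : G)⁻¹ * g * x) ∈ N := hHN hg'
          have h2 := N.mul_mem (N.mul_mem x.2 h1) (N.inv_mem x.2)
          have h3 : (x : G) * ((x : G)⁻¹ * g * x) * (x : G)⁻¹ = g := by group
          rwa [h3] at h2
        have hmem : (⟨(x : G)⁻¹ * g * x, hHN hg'⟩ : N) ∈ H₀ := hg'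
        have h1 : φ ⟨(x : G)⁻¹ * g * x, hHN hg'⟩ ∈ H₁ := ⟨_, hmem, rfl⟩
        have h2 : MulAut.conj xb • (φ ⟨(x : G)⁻¹ * g * x, hHN hg'⟩) ∈ K₂ := by
          rw [← hxb]
          exact Subgroup.smul_mem_pointwise_smul _ _ _ h1
        have h3 : MulAut.conj xb • (φ ⟨(x : G)⁻¹ * g * x, hHN hg'⟩) = φ ⟨g, hgN⟩ := by
          rw [MulAut.smul_def, MulAut.conj_apply, ← hx]
          have : (QuotientGroup.mk' P₀) = φ := rfl
          rw [this, ← map_inv, ← map_mul, ← map_mul]
          congr 1
          apply Subtype.ext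
          simp [mul_assoc]
        rw [h3] at h2
        have h4 : (⟨g, hgN⟩ : N) ∈ K₂.comap φ := h2
        rw [hcomapK] at h4
        exact h4
      have heq : MulAut.conj (x : G) • H = K₁ := by
        apply Subgroup.eq_of_le_of_card_ge hle
        have : Nat.card (MulAut.conj (x : G) • H : Subgroup G) = Nat.card H :=
          Nat.card_congr (Subgroup.equivSMul _ H).symm.toEquiv
        rw [this, hcK₁, hcard]
      refine ⟨y⁻¹ * x, ?_⟩
      rw [map_mul, mul_smul, heq, hK₁, map_inv, inv_smul_smul]

/-- Let H and K be supersolvable subgroups of a finite group G of the same order, that order being coprime to their index. Then H and K are conjugate in G. -/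
theorem result {G : Type*} [Group G] [Finite G] (H K : Subgroup G) (hH : Cfsg.IsSupersolvable H) (hK : Cfsg.IsSupersolvable K) (hcard : Nat.card H = Nat.card K) (hHall : (Nat.card H).Coprime H.index) : ∃ x : G, MulAut.conj x • H = K :=
  key _ G H K rfl hH hK hcard hHall

end Cfsg.Agent.S0582
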