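import Cfsg.Statements.S0583
import Mathlib
import Cfsg.Agent.Lib.Nilpotent.Fitting
-- import your own Cfsg.Agent.* helpers here

set_option autoImplicit false
open Cfsg

namespace Cfsg.Agent.S0583

/-- In a finite group the Fitting subgroup is contained in the centralizer of each minimal normal subgroup. -/
theorem result {G : Type*} [Group G] [Finite G] (M : Subgroup G) [M.Normal] (hM : M ≠ ⊥) (hmin : ∀ K : Subgroup G, K.Normal → K ≤ M → K = ⊥ ∨ K = M) : Cfsg.fittingSubgroup G ≤ Subgroup.centralizer (M : Set G) := by
  have hF : (Cfsg.fittingSubgroup G).Normal := Cfsg.Agent.Lib.Nilpotent.Fitting.fittingSubgroup_normal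
  have hc : ⁅M, Cfsg.fittingSubgroup G⁆ ≤ M := Subgroup.commutator_le_left M _
  have hn : (⁅M, Cfsg.fittingSubgroup G⁆).Normal := inferInstance
  rcases hmin _ hn hc with h | h
  · rw [Subgroup.commutator_eq_bot_iff_le_centralizer] at h
    exact Subgroup.le_centralizer_iff.mp h
  · exfalso
    apply hM
    have hle : M ≤ Cfsg.fittingSubgroup G := by
      rw [← h]
      exact Subgroup.commutator_le_right _ _
    have hlcs : ∀ n, M ≤ (Cfsg.fittingSubgroup G).lowerCentralSeries n := by
      intro n
      induction n with
      | zero => simpa using hle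
      | succ n ih =>
        rw [Subgroup.lowerCentralSeries_succ, ← h]
        exact Subgroup.commutator_mono ih le_rfl
    have hnil : Group.IsNilpotent (Cfsg.fittingSubgroup G) :=
      Cfsg.Agent.Lib.Nilpotent.Fitting.isNilpotent_fittingSubgroup
    have := Subgroup.lowerCentralSeries_eq_bot_of_nilpotencyClass_le (S := Cfsg.fittingSubgroup G) (le_refl _)
    exact le_bot_iff.mp (this ▸ hlcs _)

end Cfsg.Agent.S0583
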