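import Cfsg.Statements.S0586
import Mathlib
import Cfsg.Agent.Lib.Nilpotent.Fitting
import Cfsg.Agent.S0065

set_option autoImplicit false
open Cfsg
open scoped commutatorElement

namespace Cfsg.Agent.S0586

open Cfsg.Agent.Lib.Nilpotent.Fitting

variable {G : Type*} [Group G] [Finite G]

theorem exists_coatom_not_le (hΦ : frattini G = ⊥) {N : Subgroup G} (hN : N ≠ ⊥) :
    ∃ H : Subgroup G, IsCoatom H ∧ ¬ N ≤ H := by
  by_contra hcon
  push_neg at hcon
  apply hN
  rw [eq_bot_iff, ← hΦ]
  exact le_iInf₂ fun a ha => hcon a ha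

theorem isNilpotent_of_isMulCommutative (X : Type*) [Group X] (h : IsMulCommutative X) :
    Group.IsNilpotent X := by
  letI : CommGroup X := { (inferInstance : Group X) with mul_comm := h.is_comm.comm }
  exact CommGroup.isNilpotent

/-- The Fitting subgroup is abelian when the Frattini subgroup is trivial. -/
theorem fitting_comm (hΦ : frattini G = ⊥) : IsMulCommutative (Cfsg.fittingSubgroup G) := by
  by_contra hF
  set F := Cfsg.fittingSubgroup G with hFdef
  haveI hFnil : Group.IsNilpotent F := isNilpotent_fittingSubgroup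
  haveI hFn : F.Normal := fittingSubgroup_normal
  have hD : commutator ↥F ≠ ⊥ := fun h => hF ((commutator_eq_bot_iff _).1 h)
  have hcen := Cfsg.Agent.S0065.result (commutator ↥F) hD
  obtain ⟨z, ⟨hzD, hzZ⟩, hz1⟩ := (Subgroup.bot_or_exists_ne_one _).resolve_left hcen
  let N : Subgroup G := ⁅F, F⁆ ⊓ Subgroup.centralizer (F : Set G)
  haveI hNn : N.Normal := inferInstance
  have hzN : (z : G) ∈ N := by
    refine ⟨?_, ?_⟩
    · rw [← Subgroup.map_subtype_commutator]
      exact ⟨z, hzD, rfl⟩
    · show (z : G) ∈ Subgroup.centralizer (F : Set G)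
      rw [Subgroup.mem_centralizer_iff]
      intro f hf
      have := Subgroup.mem_center_iff.1 hzZ ⟨f, hf⟩
      exact congrArg Subtype.val this
  have hNne : N ≠ ⊥ := by
    intro hbot
    rw [hbot, Subgroup.mem_bot] at hzN
    exact hz1 (Subtype.ext hzN)
  obtain ⟨H, hH, hNH⟩ := exists_coatom_not_le hΦ hNne
  have hsup : N ⊔ H = ⊤ := by
    apply hH.2
    exact lt_of_le_of_ne le_sup_right (fun h => hNH (h ▸ le_sup_left))
  apply hNH
  refine le_trans inf_le_left ?_
  rw [Subgroup.commutator_le]
  have hdecomp : ∀ a ∈ F, ∃ n ∈ N, ∃ h ∈ H, a = n * h ∧ h ∈ F := by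
    intro a ha
    have : a ∈ (↑(N ⊔ H) : Set G) := by rw [hsup]; trivial
    rw [Subgroup.normal_mul] at this
    obtain ⟨n, hn, h, hh, rfl⟩ := Set.mem_mul.1 this
    refine ⟨n, hn, h, hh, rfl, ?_⟩
    have hnF : n ∈ F := by
      have h1 : n ∈ ⁅F, F⁆ := hn.1
      exact (Subgroup.commutator_le_left _ _) h1
    have : h = n⁻¹ * (n * h) := by group
    rw [this]
    exact F.mul_mem (F.inv_mem hnF) ha
  have hcomm : ∀ n ∈ N, ∀ f ∈ F, ⁅n, f⁆ = 1 := by
    intro n hn f hf
    have h1 := Subgroup.mem_centralizer_iff.1 hn.2 f hf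
    rw [commutatorElement_eq_one_iff_mul_comm]
    exact h1.symm
  intro a ha b hb
  obtain ⟨n, hn, h, hh, rfl, hhF⟩ := hdecomp a ha
  obtain ⟨n', hn', h', hh', rfl, hhF'⟩ := hdecomp b hb
  have hn'F : n' ∈ F := (Subgroup.commutator_le_left _ _) hn'.1
  have hcf : ⁅h, n' * h'⁆ ∈ F :=
    (Subgroup.commutator_le_left F F) (Subgroup.commutator_mem_commutator hhF hb)
  have h1 : ⁅n * h, n' * h'⁆ = ⁅h, n' * h'⁆ := by
    rw [commutatorElement_mul_left_eq_conj_mul, hcomm n hn _ hb, mul_one]
    have := Subgroup.mem_centralizer_iff.1 hn.2 _ hcf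
    rw [← this]
    group
  have h2 : ⁅h, n' * h'⁆ = ⁅h, h'⁆ := by
    rw [commutatorElement_mul_right_eq_mul_conj]
    have h3 : ⁅h, n'⁆ = 1 := by
      rw [← commutatorElement_inv, hcomm n' hn' h hhF, inv_one]
    rw [h3, one_mul]
    have hcf2 : ⁅h, h'⁆ ∈ F :=
      (Subgroup.commutator_le_left F F) (Subgroup.commutator_mem_commutator hhF hhF')
    have := Subgroup.mem_centralizer_iff.1 hn'.2 _ hcf2
    rw [← this]
    group
  rw [h1, h2]
  exact H.mul_mem (H.mul_mem (H.mul_mem hh hh') (H.inv_mem hh)) (H.inv_mem hh')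

/-- If the Frattini subgroup of a finite group G is trivial, then the Fitting subgroup of G equals the join of all abelian minimal normal subgroups of G. -/
theorem result {G : Type*} [Group G] [Finite G] (hΦ : frattini G = ⊥) : Cfsg.fittingSubgroup G = sSup {N : Subgroup G | N.Normal ∧ N ≠ ⊥ ∧ IsMulCommutative N ∧ ∀ K : Subgroup G, K.Normal → K ≤ N → K = ⊥ ∨ K = N} := by
  set M := sSup {N : Subgroup G | N.Normal ∧ N ≠ ⊥ ∧ IsMulCommutative N ∧ ∀ K : Subgroup G, K.Normal → K ≤ N → K = ⊥ ∨ K = N} with hM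
  have hFab := fitting_comm hΦ
  set F := Cfsg.fittingSubgroup G with hFdef
  haveI hFn : F.Normal := fittingSubgroup_normal
  apply le_antisymm
  · -- induction on normal subgroups of `F`
    have key : ∀ (n : ℕ) (N : Subgroup G), Nat.card N = n → N.Normal → N ≤ F → N ≤ M := by
      intro n
      induction n using Nat.strong_induction_on with
      | _ n ih =>
        intro N hn hNn hNF
        by_cases hbot : N = ⊥
        · rw [hbot]; exact bot_le
        -- a minimal normal subgroup `L` below `N`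
        have hfin : ({L : Subgroup G | L.Normal ∧ L ≠ ⊥ ∧ L ≤ N}).Finite := Set.toFinite _
        obtain ⟨L, hL⟩ := hfin.exists_minimal ⟨N, hNn, hbot, le_rfl⟩
        obtain ⟨⟨hLn, hLne, hLN⟩, hLmin⟩ := hL
        have hLF : L ≤ F := hLN.trans hNF
        have hLab : IsMulCommutative L := by
          refine ⟨⟨fun a b => ?_⟩⟩
          have := congrArg Subtype.val (hFab.is_comm.comm ⟨a.1, hLF a.2⟩ ⟨b.1, hLF b.2⟩)
          exact Subtype.ext this
        have hLM : L ≤ M := by
          apply le_sSup
          refine ⟨hLn, hLne, hLab, ?_⟩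
          intro K hKn hKL
          by_cases hK : K = ⊥
          · exact Or.inl hK
          · right
            exact le_antisymm hKL (hLmin ⟨hKn, hK, hKL.trans hLN⟩ hKL)
        obtain ⟨H, hH, hLH⟩ := exists_coatom_not_le hΦ hLne
        have hsup : L ⊔ H = ⊤ := by
          apply hH.2
          exact lt_of_le_of_ne le_sup_right (fun h => hLH (h ▸ le_sup_left))
        have hdecomp : ∀ g : G, ∃ l ∈ L, ∃ h ∈ H, g = l * h := by
          intro g
          have : g ∈ (↑(L ⊔ H) : Set G) := by rw [hsup]; trivial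
          rw [Subgroup.normal_mul] at this
          obtain ⟨l, hl, h, hh, rfl⟩ := Set.mem_mul.1 this
          exact ⟨l, hl, h, hh, rfl⟩
        -- the smaller normal subgroup
        have hN1n : (N ⊓ H).Normal := by
          constructor
          intro x hx g
          obtain ⟨l, hl, h, hh, rfl⟩ := hdecomp g
          have h1 : h * x * h⁻¹ ∈ N ⊓ H :=
            ⟨hNn.conj_mem x hx.1 h, H.mul_mem (H.mul_mem hh hx.2) (H.inv_mem hh)⟩
          have h2 : l * (h * x * h⁻¹) = (h * x * h⁻¹) * l := by
            have := hFab.is_comm.comm ⟨l, hLF hl⟩ ⟨h * x * h⁻¹, hNF h1.1⟩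
            exact congrArg Subtype.val this
          have h3 : l * h * x * (l * h)⁻¹ = h * x * h⁻¹ := by
            calc l * h * x * (l * h)⁻¹ = (l * (h * x * h⁻¹)) * l⁻¹ := by group
              _ = ((h * x * h⁻¹) * l) * l⁻¹ := by rw [h2]
              _ = h * x * h⁻¹ := by group
          rw [h3]
          exact h1
        have hlt : N ⊓ H < N := by
          refine lt_of_le_of_ne inf_le_left ?_
          intro heq
          exact hLH (hLN.trans (inf_eq_left.1 heq))
        have hcard : Nat.card ↥(N ⊓ H) < n := by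
          rw [← hn]
          exact Set.ncard_lt_ncard (SetLike.coe_ssubset_coe.2 hlt) (Set.toFinite _)
        have hN1 := ih _ hcard (N ⊓ H) rfl hN1n (inf_le_left.trans hNF)
        -- conclude
        intro x hx
        obtain ⟨l, hl, h, hh, rfl⟩ := hdecomp x
        have hhN : h ∈ N := by
          have : h = l⁻¹ * (l * h) := by group
          rw [this]
          exact N.mul_mem (N.inv_mem (hLN hl)) hx
        exact M.mul_mem (hLM hl) (hN1 ⟨hhN, hh⟩)
    exact key _ F rfl hFn le_rfl
  · apply sSup_le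
    rintro N ⟨hNn, _, hab, _⟩
    haveI := hNn
    exact le_fittingSubgroup (isNilpotent_of_isMulCommutative _ hab)

end Cfsg.Agent.S0586
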