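import Cfsg.Statements.S0587
import Mathlib
import Cfsg.Agent.Lib.Basic.PCore
import Cfsg.Agent.Lib.Solvable.MinimalNormal
import Cfsg.Agent.Lib.Solvable.Carter
import Cfsg.Agent.Lib.PGroup.Basic
-- import your own Cfsg.Agent.* helpers here

set_option autoImplicit false
open Pointwise
open Cfsg

namespace Cfsg.Agent.S0587

/-- A subgroup normalized by `A` and `B` with `A ⊔ B = ⊤` is normal. -/
theorem normal_of_sup_eq_top {G : Type*} [Group G] [Finite G] {A B X : Subgroup G}
    (hAB : A ⊔ B = ⊤) (hA : ∀ a ∈ A, ∀ x ∈ X, a * x * a⁻¹ ∈ X)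
    (hB : ∀ b ∈ B, ∀ x ∈ X, b * x * b⁻¹ ∈ X) : X.Normal := by
  have h : Subgroup.normalizer (X : Set G) = ⊤ := by
    rw [eq_top_iff, ← hAB, sup_le_iff]
    constructor
    · intro a ha
      exact Cfsg.Agent.Lib.Solvable.Carter.mem_normalizer_of_forall_conj_mem (hA a ha)
    · intro b hb
      exact Cfsg.Agent.Lib.Solvable.Carter.mem_normalizer_of_forall_conj_mem (hB b hb)
  exact Subgroup.normalizer_eq_top_iff.mp h

/-- Let G be a finite group whose largest normal p-subgroup L is nontrivial, and M a maximal subgroup of G with trivial normal core. Then L is elementary abelian, M is a complement to L, L is a minimal normal subgroup of G, the centralizer of L is L, and for every prime q such that the largest normal q-subgroup of M is nontrivial, the order of L is congruent to 1 modulo q and q ≠ p. -/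
theorem result {G : Type*} [Group G] [Finite G] (p : ℕ) [Fact p.Prime] (hL : Cfsg.pCore p G ≠ ⊥) (M : Subgroup G) (hM : IsCoatom M) (hcore : M.normalCore = ⊥) : Cfsg.IsElementaryAbelian p (Cfsg.pCore p G) ∧ Subgroup.IsComplement' (Cfsg.pCore p G) M ∧ (∀ K : Subgroup G, K.Normal → K ≤ Cfsg.pCore p G → K = ⊥ ∨ K = Cfsg.pCore p G) ∧ Subgroup.centralizer ((Cfsg.pCore p G : Subgroup G) : Set G) = Cfsg.pCore p G ∧ ∀ (q : ℕ) [Fact q.Prime], Cfsg.pCore q ↥M ≠ ⊥ → Nat.card (Cfsg.pCore p G) % q = 1 % q ∧ q ≠ p := by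
  classical
  set L := Cfsg.pCore p G with hLdef
  haveI hLn : L.Normal := Cfsg.Agent.Lib.Basic.PCore.pCore_normal p G
  have hLp : IsPGroup p L := Cfsg.Agent.Lib.Basic.PCore.pCore_isPGroup p
  -- normal subgroups inside `M` are trivial
  have hcoreb : ∀ X : Subgroup G, X.Normal → X ≤ M → X = ⊥ := by
    intro X hX hXM
    haveI := hX
    have : X ≤ M.normalCore := (Subgroup.normal_le_normalCore).mpr hXM
    rw [hcore] at this
    exact le_bot_iff.mp this
  obtain ⟨N, hNmin, hNL⟩ := Cfsg.Agent.Lib.Solvable.MinimalNormal.exists_isMinNormal_le L hLn hL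
  haveI hNn : N.Normal := hNmin.normal
  have hNp : IsPGroup p N := hLp.to_le hNL
  -- `N` is central in `L`
  have hNcen : N ≤ Subgroup.centralizer (L : Set G) := by
    have hne : N ⊓ Subgroup.centralizer (L : Set G) ≠ ⊥ := by
      haveI hN0 : (N.subgroupOf L).Normal := Subgroup.Normal.subgroupOf hNn L
      have hN0ne : N.subgroupOf L ≠ ⊥ := by
        intro hb
        apply hNmin.ne_bot
        rw [eq_bot_iff]
        intro x hx
        have : (⟨x, hNL hx⟩ : L) ∈ N.subgroupOf L := hx
        rw [hb, Subgroup.mem_bot] at this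
        exact Subgroup.mem_bot.mpr (congrArg Subtype.val this)
      have h1 := Cfsg.Agent.Lib.PGroup.Basic.inf_center_ne_bot hLp hN0ne
      obtain ⟨⟨⟨x, hxL⟩, hx⟩, hx1⟩ := Subgroup.ne_bot_iff_exists_ne_one.mp h1
      intro hb
      apply hx1
      apply Subtype.ext
      apply Subtype.ext
      have hxN : x ∈ N := (Subgroup.mem_inf.mp hx).1
      have hxc : x ∈ Subgroup.centralizer (L : Set G) := by
        rw [Subgroup.mem_centralizer_iff]
        intro y hy
        have := (Subgroup.mem_center_iff.mp (Subgroup.mem_inf.mp hx).2) ⟨y, hy⟩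
        exact congrArg Subtype.val this
      have : x ∈ N ⊓ Subgroup.centralizer (L : Set G) := ⟨hxN, hxc⟩
      rw [hb] at this
      exact this
    haveI : (Subgroup.centralizer (L : Set G)).Normal := Subgroup.normal_centralizer
    rcases hNmin.eq_bot_or_eq _ inferInstance (inf_le_left : N ⊓ Subgroup.centralizer (L : Set G) ≤ N) with h | h
    · exact absurd h hne
    · exact inf_eq_left.mp h
  -- `N ⊔ M = ⊤`
  have hNM : N ⊔ M = ⊤ := by
    have hnle : ¬ N ≤ M := fun h => hNmin.ne_bot (hcoreb N hNn h)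
    refine hM.2 _ ?_
    exact lt_of_le_of_ne le_sup_right (fun h => hnle (h ▸ le_sup_left))
  -- commuting of `N` with itself
  have hNcomm : ∀ a ∈ N, ∀ b ∈ N, a * b = b * a := by
    intro a ha b hb
    exact ((Subgroup.mem_centralizer_iff.mp (hNcen ha)) b (hNL hb)).symm
  -- centralizer of `N` is `N`
  have hCN : Subgroup.centralizer (N : Set G) = N := by
    haveI hCn : (Subgroup.centralizer (N : Set G)).Normal := Subgroup.normal_centralizer
    have hCM : Subgroup.centralizer (N : Set G) ⊓ M = ⊥ := by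
      apply hcoreb _ _ inf_le_right
      apply normal_of_sup_eq_top hNM
      · intro a ha x hx
        have hxc : x ∈ Subgroup.centralizer (N : Set G) := hx.1
        have : a * x = x * a := (Subgroup.mem_centralizer_iff.mp hxc a ha)
        rw [this]
        simpa using hx
      · intro b hb x hx
        exact ⟨hCn.conj_mem x hx.1 b, M.mul_mem (M.mul_mem hb hx.2) (M.inv_mem hb)⟩
    apply le_antisymm
    · intro c hc
      have hcmem : c ∈ ((N ⊔ M : Subgroup G) : Set G) := by rw [hNM]; trivial
      rw [Subgroup.normal_mul, Set.mem_mul] at hcmem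
      obtain ⟨n, hn, m, hm, rfl⟩ := hcmem
      have hnC : n ∈ Subgroup.centralizer (N : Set G) := by
        rw [Subgroup.mem_centralizer_iff]
        intro y hy
        exact hNcomm y hy n hn
      have hmC : m ∈ Subgroup.centralizer (N : Set G) := by
        have : m = n⁻¹ * (n * m) := by group
        rw [this]
        exact Subgroup.mul_mem _ (Subgroup.inv_mem _ hnC) hc
      have : m ∈ Subgroup.centralizer (N : Set G) ⊓ M := ⟨hmC, hm⟩
      rw [hCM, Subgroup.mem_bot] at this
      rw [this, mul_one]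
      exact hn
    · intro a ha
      rw [Subgroup.mem_centralizer_iff]
      intro y hy
      exact hNcomm y hy a ha
  -- `L = N`
  have hLN : L = N := by
    apply le_antisymm _ hNL
    rw [← hCN]
    intro x hx
    rw [Subgroup.mem_centralizer_iff]
    intro y hy
    exact (Subgroup.mem_centralizer_iff.mp (hNcen hy) x hx).symm
  have hLmin : ∀ K : Subgroup G, K.Normal → K ≤ L → K = ⊥ ∨ K = L := by
    intro K hK hKL
    rw [hLN] at hKL ⊢
    exact hNmin.eq_bot_or_eq K hK hKL
  have hLM : L ⊔ M = ⊤ := by rw [hLN]; exact hNM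
  have hLcomm : ∀ a ∈ L, ∀ b ∈ L, a * b = b * a := by
    rw [hLN]; exact hNcomm
  have hCL : Subgroup.centralizer (L : Set G) = L := by rw [hLN]; exact hCN
  have hLMb : L ⊓ M = ⊥ := by
    apply hcoreb _ _ inf_le_right
    apply normal_of_sup_eq_top hLM
    · intro a ha x hx
      rw [hLcomm a ha x hx.1]
      simpa using hx
    · intro b hb x hx
      exact ⟨hLn.conj_mem x hx.1 b, M.mul_mem (M.mul_mem hb hx.2) (M.inv_mem hb)⟩
  have hcompl : Subgroup.IsComplement' L M := by
    apply Subgroup.isComplement'_of_disjoint_and_mul_eq_univ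
    · rw [disjoint_iff]; exact hLMb
    · have : ((L ⊔ M : Subgroup G) : Set G) = (L : Set G) * (M : Set G) := Subgroup.normal_mul L M
      rw [← this, hLM]
      rfl
  -- elementary abelian
  have hLel : Cfsg.IsElementaryAbelian p L := by
    refine ⟨⟨⟨fun a b => Subtype.ext (hLcomm a a.2 b b.2)⟩⟩, ?_⟩
    let E : Subgroup G :=
      { carrier := {x | x ∈ L ∧ x ^ p = 1}
        mul_mem' := by
          rintro a b ⟨ha, hap⟩ ⟨hb, hbp⟩
          refine ⟨L.mul_mem ha hb, ?_⟩
          have hc : Commute a b := hLcomm a ha b hb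
          rw [hc.mul_pow, hap, hbp, mul_one]
        one_mem' := ⟨L.one_mem, one_pow _⟩
        inv_mem' := by
          rintro a ⟨ha, hap⟩
          exact ⟨L.inv_mem ha, by rw [inv_pow, hap, inv_one]⟩ }
    have hEn : E.Normal := by
      constructor
      rintro x ⟨hx, hxp⟩ g
      refine ⟨hLn.conj_mem x hx g, ?_⟩
      rw [conj_pow, hxp, mul_one, mul_inv_cancel]
    have hEL : E ≤ L := fun x hx => hx.1
    rcases hLmin E hEn hEL with hb | he
    · exfalso
      have hnt : Nontrivial L := (Subgroup.nontrivial_iff_ne_bot L).mpr hL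
      obtain ⟨n, hn⟩ := hLp.nontrivial_iff_card.mp hnt
      have hdvd : p ∣ Nat.card L := by
        rw [hn.2]; exact dvd_pow_self p hn.1.ne'
      obtain ⟨y, hy⟩ := exists_prime_orderOf_dvd_card' (G := L) p hdvd
      have hyE : (y : G) ∈ E := by
        refine ⟨y.2, ?_⟩
        have : y ^ p = 1 := by rw [← hy]; exact pow_orderOf_eq_one y
        exact_mod_cast congrArg Subtype.val this
      rw [hb, Subgroup.mem_bot] at hyE
      have hy1 : y = 1 := Subtype.ext hyE
      rw [hy1, orderOf_one] at hy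
      exact (Fact.out : p.Prime).one_lt.ne hy
    · intro a ha
      rw [← he] at ha
      exact ha.2
  refine ⟨hLel, hcompl, hLmin, hCL, ?_⟩
  intro q _ hQ
  set Q : Subgroup G := (Cfsg.pCore q ↥M).map M.subtype with hQdef
  have hQne : Q ≠ ⊥ := by
    intro hb
    apply hQ
    exact (Subgroup.map_eq_bot_iff_of_injective _ M.subtype_injective).mp hb
  have hQp : IsPGroup q Q := (Cfsg.Agent.Lib.Basic.PCore.pCore_isPGroup q).map _
  have hQM : Q ≤ M := Subgroup.map_subtype_le _
  have hQnorm : ∀ b ∈ M, ∀ x ∈ Q, b * x * b⁻¹ ∈ Q := by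
    intro b hb x hx
    obtain ⟨y, hy, rfl⟩ := Subgroup.mem_map.mp hx
    have hn : (Cfsg.pCore q ↥M).Normal := Cfsg.Agent.Lib.Basic.PCore.pCore_normal q M
    exact Subgroup.mem_map.mpr ⟨⟨b, hb⟩ * y * ⟨b, hb⟩⁻¹, hn.conj_mem y hy _, by simp⟩
  -- q ≠ p
  have hqp : q ≠ p := by
    rintro rfl
    have hX : IsPGroup q (L ⊔ Q : Subgroup G) := hLp.to_sup_of_normal_left hQp
    have hXn : (L ⊔ Q : Subgroup G).Normal := by
      apply normal_of_sup_eq_top hLM
      · intro a ha x hx
        exact (le_sup_left : L ≤ L ⊔ Q) |> fun h => Subgroup.mul_mem _ (Subgroup.mul_mem _ (h ha) hx) (Subgroup.inv_mem _ (h ha))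
      · intro b hb x hx
        have hx' : x ∈ ((L ⊔ Q : Subgroup G) : Set G) := hx
        rw [Subgroup.normal_mul, Set.mem_mul] at hx'
        obtain ⟨u, hu, v, hv, rfl⟩ := hx'
        have e : b * (u * v) * b⁻¹ = (b * u * b⁻¹) * (b * v * b⁻¹) := by group
        rw [e]
        exact Subgroup.mul_mem_sup (hLn.conj_mem u hu b) (hQnorm b hb v hv)
    have hle : (L ⊔ Q : Subgroup G) ≤ L := Cfsg.Agent.Lib.Basic.PCore.le_pCore hXn hX
    have hQL : Q ≤ L := le_trans le_sup_right hle
    apply hQne
    rw [eq_bot_iff, ← hLMb]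
    exact le_inf hQL hQM
  refine ⟨?_, hqp⟩
  -- the action
  let φ : Q →* MulAut L := (MulAut.conjNormal (H := L)).comp Q.subtype
  letI act : MulAction Q L := MulAction.compHom L φ
  have hsmul : ∀ (y : Q) (x : L), ((y • x : L) : G) = (y : G) * x * (y : G)⁻¹ := by
    intro y x
    rfl
  have hmod := hQp.card_modEq_card_fixedPoints L
  -- the centralizer of Q in L
  let F : Subgroup G :=
    { carrier := {x | x ∈ L ∧ ∀ y ∈ Q, y * x * y⁻¹ = x}
      mul_mem' := by
        rintro a b ⟨ha, hay⟩ ⟨hb, hby⟩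
        refine ⟨L.mul_mem ha hb, fun y hy => ?_⟩
        have e : y * (a * b) * y⁻¹ = (y * a * y⁻¹) * (y * b * y⁻¹) := by group
        rw [e, hay y hy, hby y hy]
      one_mem' := ⟨L.one_mem, fun y _ => by simp⟩
      inv_mem' := by
        rintro a ⟨ha, hay⟩
        refine ⟨L.inv_mem ha, fun y hy => ?_⟩
        have e : y * a⁻¹ * y⁻¹ = (y * a * y⁻¹)⁻¹ := by group
        rw [e, hay y hy] }
  have hFn : F.Normal := by
    apply normal_of_sup_eq_top hLM
    · rintro a ha x ⟨hx, hxy⟩
      have e : a * x * a⁻¹ = x := by rw [hLcomm a ha x hx]; group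
      rw [e]
      exact ⟨hx, hxy⟩
    · rintro b hb x ⟨hx, hxy⟩
      refine ⟨hLn.conj_mem x hx b, fun y hy => ?_⟩
      have hy' : b⁻¹ * y * b ∈ Q := by
        have := hQnorm b⁻¹ (M.inv_mem hb) y hy
        simpa using this
      have h1 := hxy _ hy'
      have e : y * (b * x * b⁻¹) * y⁻¹ = b * ((b⁻¹ * y * b) * x * (b⁻¹ * y * b)⁻¹) * b⁻¹ := by group
      rw [e, h1]
  have hFL : F ≤ L := fun x hx => hx.1
  have hFb : F = ⊥ := by
    rcases hLmin F hFn hFL with h | h
    · exact h
    · exfalso
      apply hQne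
      rw [eq_bot_iff, ← hLMb]
      refine le_inf ?_ hQM
      rw [← hCL]
      intro y hy
      rw [Subgroup.mem_centralizer_iff]
      intro x hx
      have hxF : x ∈ F := by rw [h]; exact hx
      have := hxF.2 y hy
      calc x * y = (y * x * y⁻¹) * y := by rw [this]
        _ = y * x := by group
  have hcardF : Nat.card (MulAction.fixedPoints Q L) = 1 := by
    rw [Nat.card_eq_one_iff_unique]
    refine ⟨⟨?_⟩, ⟨⟨1, ?_⟩⟩⟩
    · rintro ⟨x, hx⟩ ⟨x', hx'⟩
      have key : ∀ z : L, z ∈ MulAction.fixedPoints Q L → z = 1 := by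
        intro z hz
        have hzF : (z : G) ∈ F := by
          refine ⟨z.2, fun y hy => ?_⟩
          have := hz ⟨y, hy⟩
          have h2 := hsmul ⟨y, hy⟩ z
          rw [this] at h2
          exact h2.symm
        rw [hFb, Subgroup.mem_bot] at hzF
        exact Subtype.ext hzF
      apply Subtype.ext
      show x = x'
      rw [key x hx, key x' hx']
    · intro y
      apply Subtype.ext
      rw [hsmul]
      simp
  rw [hcardF] at hmod
  exact hmod

end Cfsg.Agent.S0587
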