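import Cfsg.Statements.S0588
import Mathlib

set_option autoImplicit false
open Cfsg

namespace Cfsg.Agent.S0588

/-- If a subgroup H of a finite group G contains the centralizer of every non-identity element of H, then the order of H is coprime to its index. -/
theorem result {G : Type*} [Group G] [Finite G] (H : Subgroup G) (h : ∀ x ∈ H, x ≠ 1 → Subgroup.centralizer ({x} : Set G) ≤ H) : (Nat.card H).Coprime H.index := by
  refine Nat.coprime_of_dvd fun p hp hpH hpI => ?_
  haveI := Fact.mk hp
  obtain ⟨x0, hx0⟩ := exists_prime_orderOf_dvd_card' (G := H) p hpH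
  have hxo : orderOf (x0 : G) = p := by rw [Subgroup.orderOf_coe]; exact hx0
  have hxp : IsPGroup p (Subgroup.zpowers (x0 : G)) := by
    rw [IsPGroup.iff_card]
    exact ⟨1, by rw [Nat.card_zpowers, hxo, pow_one]⟩
  obtain ⟨P, hP⟩ := hxp.exists_le_sylow
  have hxP : (x0 : G) ∈ (P : Subgroup G) := hP (Subgroup.mem_zpowers _)
  have hx1 : (x0 : G) ≠ 1 := by
    intro h1
    rw [h1, orderOf_one] at hxo
    exact hp.one_lt.ne hxo
  haveI hnt : Nontrivial (P : Subgroup G) :=
    ⟨⟨⟨x0, hxP⟩, 1, fun h2 => hx1 (by simpa using congrArg Subtype.val h2)⟩⟩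
  haveI := P.isPGroup'.center_nontrivial
  obtain ⟨z, hz⟩ := exists_ne (1 : Subgroup.center (P : Subgroup G))
  have hz1 : ((z : (P : Subgroup G)) : G) ≠ 1 := by
    intro h1
    apply hz
    ext
    simpa using h1
  have hzc : ∀ y ∈ (P : Subgroup G), y * ((z : (P : Subgroup G)) : G) = ((z : (P : Subgroup G)) : G) * y := by
    intro y hy
    have := (Subgroup.mem_center_iff.mp z.2) ⟨y, hy⟩
    simpa using congrArg Subtype.val this
  have hzH : ((z : (P : Subgroup G)) : G) ∈ H := by
    apply h (x0 : G) x0.2 hx1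
    rw [Subgroup.mem_centralizer_iff]
    intro y hy
    rw [Set.mem_singleton_iff] at hy
    subst hy
    exact hzc _ hxP
  have hPH : (P : Subgroup G) ≤ H := by
    intro y hy
    apply h _ hzH hz1
    rw [Subgroup.mem_centralizer_iff]
    intro w hw
    rw [Set.mem_singleton_iff] at hw
    subst hw
    exact (hzc y hy).symm
  exact P.not_dvd_index (hpI.trans (Subgroup.index_dvd_of_le hPH))

end Cfsg.Agent.S0588
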