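import Cfsg.Statements.S0589
import Mathlib
import Cfsg.Agent.S0042
import Cfsg.Agent.Lib.Coprime.SZ
import Cfsg.Agent.Lib.Frobenius.Basic
-- import your own Cfsg.Agent.* helpers here

set_option autoImplicit false
open Pointwise
open Cfsg

namespace Cfsg.Agent.S0589

/-- Let H be a Frobenius complement in a finite group G and L a subgroup of G whose order divides the order of H. Then L is contained in some conjugate of H. -/
theorem result {G : Type*} [Group G] [Finite G] (H : Subgroup G) (hH : Cfsg.IsFrobeniusComplement H) (L : Subgroup G) (hL : Nat.card L ∣ Nat.card H) : ∃ x : G, L ≤ MulAut.conj x • H := by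
    classical
  obtain ⟨K, hK, hKn, -⟩ := Cfsg.Agent.S0042.result H hH
  haveI := hKn
  have hnil : Group.IsNilpotent K := by
    obtain ⟨K', hK', _, hn⟩ := Cfsg.Agent.S0042.result H hH
    have : K' = K := SetLike.coe_injective (hK'.trans hK.symm)
    exact this ▸ hn
  have hc := Cfsg.Agent.Lib.Frobenius.Basic.kernel_isComplement' hH hK
  have hcop := Cfsg.Agent.Lib.Frobenius.Basic.coprime_kernel hH hK
  have hcopL : (Nat.card K).Coprime (Nat.card L) := Nat.Coprime.coprime_dvd_right hL hcop
  have hdisL : L ⊓ K = ⊥ := Subgroup.inf_eq_bot_of_coprime hcopL.symm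
  -- T = K ⊔ L, with K normal
  set T : Subgroup G := L ⊔ K with hT
  have hKT : K ≤ T := le_sup_right
  have hLT : L ≤ T := le_sup_left
  -- work inside T
  let K' : Subgroup T := K.subgroupOf T
  let L' : Subgroup T := L.subgroupOf T
  let H' : Subgroup T := H.subgroupOf T
  haveI hK'n : K'.Normal := Subgroup.Normal.subgroupOf hKn T
  have hcK' : Nat.card K' = Nat.card K :=
    Nat.card_congr (Subgroup.subgroupOfEquivOfLe hKT).toEquiv
  have hcL' : Nat.card L' = Nat.card L :=
    Nat.card_congr (Subgroup.subgroupOfEquivOfLe hLT).toEquiv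
  have hidx : K'.index = Nat.card L := by
    have h1 : K'.index = K.relIndex T := rfl
    rw [h1, hT, Subgroup.relIndex_sup_right]
    have h2 : K.relIndex L = (K.subgroupOf L).index := rfl
    have h3 : K.subgroupOf L = ⊥ := by
      rw [eq_bot_iff]
      intro x hx
      have hx' : (x : G) ∈ K := hx
      have : (x : G) ∈ L ⊓ K := ⟨x.2, hx'⟩
      rw [hdisL] at this
      exact Subgroup.mem_bot.mpr (Subtype.ext this)
    rw [h2, h3, Subgroup.index_bot]
  have hcompl : Subgroup.IsComplement' K' H' := by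
    apply Subgroup.isComplement'_of_disjoint_and_mul_eq_univ
    · rw [disjoint_iff, eq_bot_iff]
      intro x hx
      obtain ⟨h1, h2⟩ := Subgroup.mem_inf.mp hx
      have h1' : (x : G) ∈ K := h1
      have h2' : (x : G) ∈ H := h2
      have h3 : (x : G) ∈ K ⊓ H := ⟨h1', h2'⟩
      rw [Cfsg.Agent.Lib.Frobenius.Basic.kernel_inf hK] at h3
      exact Subgroup.mem_bot.mpr (Subtype.ext h3)
    · rw [Set.eq_univ_iff_forall]
      intro t
      obtain ⟨⟨k, h⟩, hkh⟩ := hc.existsUnique (t : G) |>.exists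
      have hkh' : (k : G) * (h : G) = t := hkh
      have hhT : (h : G) ∈ T := by
        have : (h : G) = (k : G)⁻¹ * t := by rw [← hkh']; group
        rw [this]
        exact T.mul_mem (T.inv_mem (hKT k.2)) t.2
      refine Set.mem_mul.mpr ⟨⟨k, hKT k.2⟩, ?_, ⟨h, hhT⟩, ?_, Subtype.ext hkh'⟩
      · exact k.2
      · exact h.2
  have hcH' : Nat.card H' = K'.index := hcompl.symm.index_eq_card.symm
  have hsol : Group.IsSolvable K' := by
    haveI : Group.IsSolvable K := inferInstance
    exact solvable_of_solvable_injective (f := (Subgroup.subgroupOfEquivOfLe hKT).toMonoidHom)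
      (Subgroup.subgroupOfEquivOfLe hKT).injective
  have hcop' : (Nat.card K').Coprime K'.index := by
    rw [hcK', hidx]; exact hcopL
  obtain ⟨g, hg⟩ := Cfsg.Agent.Lib.Coprime.SZ.conj_of_solvable K' hcop' (Or.inl hsol) L' H'
    (by rw [hcL', hidx]) hcH'
  refine ⟨(g : G)⁻¹, ?_⟩
  intro x hx
  rw [Cfsg.Agent.Lib.Coprime.SZ.mem_conj_smul]
  have h1 : (g * ⟨x, hLT hx⟩ * g⁻¹ : T) ∈ H' := by
    rw [← hg, Cfsg.Agent.Lib.Coprime.SZ.mem_conj_smul]
    have : g⁻¹ * (g * ⟨x, hLT hx⟩ * g⁻¹) * g = (⟨x, hLT hx⟩ : T) := by group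
    rw [this]
    exact hx
  have h2 : ((g * ⟨x, hLT hx⟩ * g⁻¹ : T) : G) ∈ H := h1
  simpa using h2

end Cfsg.Agent.S0589
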