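import Cfsg.Statements.S0590
import Mathlib
import Cfsg.Agent.Lib.PGroup.Basic
open scoped commutatorElement

set_option autoImplicit false
open Cfsg

namespace Cfsg.Agent.S0590

/-- Quadratic action on an elementary abelian p-group forces the acting group modulo the kernel of the action to be elementary abelian. -/
theorem result {G : Type*} [Group G] [Finite G] {p : ℕ} [Fact p.Prime] (V H : Subgroup G) (hV : Cfsg.IsElementaryAbelian p V) (hHV : H ≤ Subgroup.normalizer (V : Set G)) (hq : ⁅⁅V, H⁆, H⁆ = ⊥) : ⁅H, H⁆ ≤ Subgroup.centralizer (V : Set G) ∧ ∀ a ∈ H, a ^ p ∈ Subgroup.centralizer (V : Set G) := by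
  constructor
  · have h1 : ⁅⁅H, V⁆, H⁆ = ⊥ := by rw [Subgroup.commutator_comm H V]; exact hq
    have h3 := Subgroup.commutator_commutator_eq_bot_of_rotate h1 hq
    exact (Subgroup.commutator_eq_bot_iff_le_centralizer).mp h3
  · intro a ha
    rw [Subgroup.mem_centralizer_iff]
    intro v hv
    have hvV : v ∈ V := hv
    have hc : ⁅v, a⁆ ∈ ⁅V, H⁆ := Subgroup.commutator_mem_commutator hvV ha
    have hcomm : Commute a ⁅v, a⁆ := by
      have h1 : ⁅⁅v, a⁆, a⁆ ∈ ⁅⁅V, H⁆, H⁆ := Subgroup.commutator_mem_commutator hc ha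
      rw [hq, Subgroup.mem_bot] at h1
      exact (commutatorElement_eq_one_iff_commute.mp h1).symm
    have hinV : ⁅v, a⁆ ∈ V := by
      have : ⁅v, a⁆ = v * (a * v⁻¹ * a⁻¹) := by simp only [commutatorElement_def]; group
      rw [this]
      exact mul_mem hvV ((Subgroup.mem_normalizer_iff.mp (hHV ha) _).mp (inv_mem hvV))
    have h2 : ⁅v, a ^ p⁆ = 1 := by
      rw [Cfsg.Agent.Lib.PGroup.Basic.commutator_pow_right hcomm p]
      exact hV.2 _ hinV
    exact commutatorElement_eq_one_iff_mul_comm.mp h2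

end Cfsg.Agent.S0590
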