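import Cfsg.Statements.S0591
import Mathlib

set_option autoImplicit false
open Cfsg
open scoped commutatorElement

namespace Cfsg.Agent.S0591

/-- For a quadratically acting element a on an elementary abelian p-group V, the fixed points C_V(a) have order at least the square root of the order of V. -/
theorem result {G : Type*} [Group G] [Finite G] {p : ℕ} [Fact p.Prime] (V : Subgroup G) (hV : Cfsg.IsElementaryAbelian p V) (a : G) (ha : a ∈ Subgroup.normalizer (V : Set G)) (hq : ⁅⁅V, Subgroup.zpowers a⁆, Subgroup.zpowers a⁆ = ⊥) : Nat.card V ≤ Nat.card ↥(V ⊓ Subgroup.centralizer (Subgroup.zpowers a : Set G)) ^ 2 := by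
  have hVc : ∀ x ∈ V, ∀ y ∈ V, x * y = y * x := by
    intro x hx y hy
    have := hV.1
    exact Subgroup.mem_centralizer_iff.mp (Subgroup.le_centralizer V hy) x hx
  set C : Subgroup G := V ⊓ Subgroup.centralizer (Subgroup.zpowers a : Set G) with hC
  have hcomm : ∀ v ∈ V, a * ⁅v, a⁆ = ⁅v, a⁆ * a := by
    intro v hv
    have h1 : ⁅⁅v, a⁆, a⁆ ∈ ⁅⁅V, Subgroup.zpowers a⁆, Subgroup.zpowers a⁆ :=
      Subgroup.commutator_mem_commutator (Subgroup.commutator_mem_commutator hv (Subgroup.mem_zpowers a))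
        (Subgroup.mem_zpowers a)
    rw [hq, Subgroup.mem_bot, commutatorElement_eq_one_iff_mul_comm] at h1
    exact h1.symm
  have hmemV : ∀ v ∈ V, ⁅v, a⁆ ∈ V := by
    intro v hv
    rw [commutatorElement_def]
    have h1 : a * v⁻¹ * a⁻¹ ∈ V := (Subgroup.mem_normalizer_iff.mp ha v⁻¹).mp (V.inv_mem hv)
    have : v * a * v⁻¹ * a⁻¹ = v * (a * v⁻¹ * a⁻¹) := by group
    rw [this]
    exact V.mul_mem hv h1
  have hcen : ∀ x : G, a * x = x * a → x ∈ Subgroup.centralizer (Subgroup.zpowers a : Set G) := by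
    intro x hx
    rw [Subgroup.mem_centralizer_iff]
    intro y hy
    obtain ⟨k, rfl⟩ := Subgroup.mem_zpowers_iff.mp hy
    exact ((Commute.zpow_left (show Commute a x from hx) k))
  have hmemC : ∀ v : V, ⁅(v : G), a⁆ ∈ C := fun v => ⟨hmemV v v.2, hcen _ (hcomm v v.2)⟩
  let f : V →* C :=
    { toFun := fun v => ⟨⁅(v : G), a⁆, hmemC v⟩
      map_one' := by
        ext; simp
      map_mul' := by
        intro u v
        ext
        show ⁅(u : G) * v, a⁆ = ⁅(u : G), a⁆ * ⁅(v : G), a⁆
        have huv := hVc u u.2 _ (hmemV v v.2)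
        have huv2 := hVc _ (hmemV v v.2) _ (hmemV u u.2)
        rw [commutatorElement_def, commutatorElement_def, commutatorElement_def]
        rw [commutatorElement_def] at huv huv2
        rw [commutatorElement_def] at huv2
        calc (u : G) * v * a * ((u : G) * v)⁻¹ * a⁻¹
            = (u : G) * ((v : G) * a * (v : G)⁻¹ * a⁻¹) * (a * (u : G)⁻¹ * a⁻¹) := by group
          _ = ((v : G) * a * (v : G)⁻¹ * a⁻¹) * (u : G) * (a * (u : G)⁻¹ * a⁻¹) := by rw [huv]
          _ = ((v : G) * a * (v : G)⁻¹ * a⁻¹) * ((u : G) * a * (u : G)⁻¹ * a⁻¹) := by group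
          _ = ((u : G) * a * (u : G)⁻¹ * a⁻¹) * ((v : G) * a * (v : G)⁻¹ * a⁻¹) := huv2 }
  have hker : Nat.card f.ker ≤ Nat.card C := by
    refine Nat.card_le_card_of_injective (fun v : f.ker => (⟨(v : V), (v : V).2, ?_⟩ : C)) ?_
    · apply hcen
      have h1 : f (v : V) = 1 := v.2
      have h2 : ⁅((v : V) : G), a⁆ = 1 := congrArg Subtype.val h1
      rw [commutatorElement_eq_one_iff_mul_comm] at h2
      exact h2.symm
    · intro x y hxy
      have : ((x : V) : G) = ((y : V) : G) := by simpa using congrArg (fun w : C => (w : G)) hxy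
      exact Subtype.ext (Subtype.ext this)
  have hrange : Nat.card f.range ≤ Nat.card C := Subgroup.card_le_card_group _
  have hV' : Nat.card V = Nat.card f.ker * Nat.card f.range := by
    rw [← Subgroup.index_ker, Subgroup.card_mul_index]
  rw [hV', pow_two]
  exact Nat.mul_le_mul hker hrange

end Cfsg.Agent.S0591
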