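import Cfsg.Statements.S0592
import Mathlib
-- import your own Cfsg.Agent.* helpers here

set_option autoImplicit false
open Cfsg

namespace Cfsg.Agent.S0592

universe v

open Module

section gen

variable {Γ : Type*} [Group Γ]

lemma gen_induction {a b : Γ} (hgen : Subgroup.closure {a, b} = ⊤) (P : Γ → Prop)
    (h1 : P 1) (hm : ∀ x y, P x → P y → P (x * y)) (hi : ∀ x, P x → P x⁻¹) (ha : P a) (hb : P b) :
    ∀ g, P g := by
  intro g
  have hg : g ∈ Subgroup.closure ({a, b} : Set Γ) := by rw [hgen]; trivial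
  induction hg using Subgroup.closure_induction with
  | mem x hx =>
    rcases hx with rfl | rfl
    · exact ha
    · exact hb
  | one => exact h1
  | mul x y _ _ hx hy => exact hm x y hx hy
  | inv x _ hx => exact hi x hx

end gen

variable {K : Type*} [Field K]

/-- A `2 × 2` matrix with `(M - 1)² = 0` has determinant one. -/
lemma det_eq_one_of_sq {M : Matrix (Fin 2) (Fin 2) K} (h : (M - 1) * (M - 1) = 0) : M.det = 1 := by
  have h00 := congrFun (congrFun h 0) 0
  have h01 := congrFun (congrFun h 0) 1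
  have h10 := congrFun (congrFun h 1) 0
  have h11 := congrFun (congrFun h 1) 1
  simp [Matrix.mul_apply, Fin.sum_univ_two] at h00 h01 h10 h11
  rw [Matrix.det_fin_two]
  by_cases hsum : M 0 0 - 1 + (M 1 1 - 1) = 0
  · linear_combination -h00 + (M 0 0) * hsum
  · have hb : M 0 1 = 0 := by
      have : M 0 1 * (M 0 0 - 1 + (M 1 1 - 1)) = 0 := by linear_combination h01
      exact (mul_eq_zero.mp this).resolve_right hsum
    have hc : M 1 0 = 0 := by
      have : M 1 0 * (M 0 0 - 1 + (M 1 1 - 1)) = 0 := by linear_combination h10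
      exact (mul_eq_zero.mp this).resolve_right hsum
    rw [hb] at h00 h11
    simp at h00 h11
    have h3 : M 0 0 = 1 := sub_eq_zero.mp h00
    have h4 : M 1 1 = 1 := sub_eq_zero.mp h11
    rw [h3, h4, hb, hc]
    simp

/-- Eigenvectors exist for endomorphisms of order `p^e k`, with `k ∣ q - 1`. -/
lemma exists_eigenvector [Fintype K] {p : ℕ} [Fact p.Prime] [CharP K p]
    {W : Type*} [AddCommGroup W] [Module K W] [FiniteDimensional K W] [Nontrivial W]
    (t : Module.End K W) {e k : ℕ} (hk : k ∣ Fintype.card K - 1) (ht : t ^ (p ^ e * k) = 1) :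
    ∃ (c : K) (w : W), w ≠ 0 ∧ t w = c • w := by
  classical
  have hchar : CharP (Module.End K W) p :=
    charP_of_injective_algebraMap (algebraMap K (Module.End K W)).injective p
  set q := Fintype.card K with hq
  have hq1 : 1 ≤ q := Fintype.card_pos
  obtain ⟨m, hm⟩ := hk
  have hpow : t ^ (q * p ^ e) = t ^ p ^ e := by
    have h1 : q * p ^ e = p ^ e + (p ^ e * k) * m := by
      have : q = 1 + k * m := by omega
      rw [this]
      ring
    rw [h1, pow_add, pow_mul, ht, one_pow, mul_one]
  have hQ : Polynomial.aeval t ((Polynomial.X ^ q - Polynomial.X : Polynomial K) ^ p ^ e) = 0 := by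
    rw [map_pow, map_sub, map_pow, Polynomial.aeval_X]
    rw [sub_pow_char_pow_of_commute p e (Commute.pow_left (Commute.refl t) q), ← pow_mul,
      hpow, sub_self]
  have hdvd := minpoly.dvd K t hQ
  have hne0 : (Polynomial.X ^ q - Polynomial.X : Polynomial K) ≠ 0 :=
    FiniteField.X_pow_card_sub_X_ne_zero K Fintype.one_lt_card
  have hsplit : Polynomial.Splits ((Polynomial.X ^ q - Polynomial.X : Polynomial K) ^ p ^ e) :=
    Polynomial.Splits.pow (by
      have := Polynomial.splits_X_pow_nat_card_sub_X (K := K)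
      rwa [Nat.card_eq_fintype_card] at this) _
  have hsm := hsplit.of_dvd (pow_ne_zero _ hne0) hdvd
  have hint : IsIntegral K t := Algebra.IsIntegral.isIntegral t
  have hpos := minpoly.natDegree_pos hint
  obtain ⟨c, hc⟩ := hsm.exists_eval_eq_zero (ne_of_gt (Polynomial.natDegree_pos_iff_degree_pos.mp hpos))
  have hev : Module.End.HasEigenvalue t c := Module.End.hasEigenvalue_iff_isRoot.mpr hc
  obtain ⟨w, hw⟩ := hev.exists_hasEigenvector
  exact ⟨c, w, hw.2, hw.apply_eq_smul⟩

/-- Extension of unipotent. -/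
lemma unipotent_ext {p : ℕ} [Fact p.Prime] [CharP K p]
    {W : Type*} [AddCommGroup W] [Module K W] [Nontrivial W] {h : Module.End K W} {U : Submodule K W}
    (h1 : ∀ x, h x - x ∈ U) (h2 : ∀ u ∈ U, h u = u) : h ^ p = 1 := by
  classical
  have hchar : CharP (Module.End K W) p :=
    charP_of_injective_algebraMap (algebraMap K (Module.End K W)).injective p
  have hsq : (h - 1) * (h - 1) = 0 := by
    ext x
    have := h2 _ (h1 x)
    simp only [Module.End.mul_apply, LinearMap.sub_apply, Module.End.one_apply, LinearMap.zero_apply]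
    rw [this, sub_self]
  have h3 := sub_pow_char_of_commute p (Commute.one_right h)
  have hp2 : 2 ≤ p := (Fact.out : p.Prime).two_le
  have h4 : (h - 1) ^ p = 0 := by
    obtain ⟨r, hr⟩ := Nat.exists_eq_add_of_le hp2
    rw [hr, pow_add, pow_two, hsq, zero_mul]
  rw [h4, one_pow] at h3
  exact (sub_eq_zero.mp h3.symm)



section rep

variable {Γ : Type*} [Group Γ] {W : Type*} [AddCommGroup W] [Module K W]

lemma inv_apply (ρ : Representation K Γ W) (x : Γ) (h : (ρ x - 1) * (ρ x - 1) = 0) (v : W) :
    ρ x⁻¹ v = (2 : K) • v - ρ x v := by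
  have h0 := LinearMap.congr_fun h v
  simp only [Module.End.mul_apply, LinearMap.sub_apply, Module.End.one_apply, LinearMap.zero_apply,
    map_sub] at h0
  have h1 : ρ x ((2 : K) • v - ρ x v) = v := by
    rw [map_sub, map_smul, two_smul]
    have h2 : ρ x (ρ x v) = ρ x v + ρ x v - v := by
      rw [← sub_eq_zero, ← h0]
      abel
    rw [h2]
    abel
  have h3 : ρ x⁻¹ (ρ x ((2 : K) • v - ρ x v)) = (2 : K) • v - ρ x v := by
    rw [← Module.End.mul_apply, ← map_mul]
    simp
  rw [h1] at h3
  exact h3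

lemma sub_sq (ρ : Representation K Γ W) (U : Submodule K W) (hU : ∀ x, U ≤ U.comap (ρ x)) (x : Γ)
    (h : (ρ x - 1) * (ρ x - 1) = 0) :
    (ρ.subrepresentation U hU x - 1) * (ρ.subrepresentation U hU x - 1) = 0 := by
  ext u
  exact LinearMap.congr_fun h (u : W)

lemma quot_sq (ρ : Representation K Γ W) (U : Submodule K W) (hU : ∀ x, U ≤ U.comap (ρ x)) (x : Γ)
    (h : (ρ x - 1) * (ρ x - 1) = 0) :
    (ρ.quotient U hU x - 1) * (ρ.quotient U hU x - 1) = 0 := by
  apply Submodule.linearMap_qext
  ext v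
  have h0 := LinearMap.congr_fun h v
  have h1 : Submodule.mkQ U (((ρ x - 1) * (ρ x - 1)) v) = 0 := by
    rw [h0, LinearMap.zero_apply, map_zero]
  exact h1

lemma sub_pow (ρ : Representation K Γ W) (U : Submodule K W) (hU : ∀ x, U ≤ U.comap (ρ x)) (x : Γ) (m : ℕ)
    (u : U) : (((ρ.subrepresentation U hU x) ^ m) u : W) = ((ρ x) ^ m) (u : W) := by
  rw [← map_pow, ← map_pow]
  rfl

lemma quot_pow (ρ : Representation K Γ W) (U : Submodule K W) (hU : ∀ x, U ≤ U.comap (ρ x)) (x : Γ) (m : ℕ)
    (v : W) : ((ρ.quotient U hU x) ^ m) (Submodule.Quotient.mk v) = Submodule.Quotient.mk (((ρ x) ^ m) v) := by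
  rw [← map_pow, ← map_pow]
  rfl

lemma sub_pow_one (ρ : Representation K Γ W) (U : Submodule K W) (hU : ∀ x, U ≤ U.comap (ρ x)) (x : Γ) (m : ℕ)
    (h : (ρ x) ^ m = 1) : (ρ.subrepresentation U hU x) ^ m = 1 := by
  ext u
  rw [sub_pow, h]
  rfl

lemma quot_pow_one (ρ : Representation K Γ W) (U : Submodule K W) (hU : ∀ x, U ≤ U.comap (ρ x)) (x : Γ) (m : ℕ)
    (h : (ρ x) ^ m = 1) : (ρ.quotient U hU x) ^ m = 1 := by
  apply Submodule.linearMap_qext
  ext v
  have h1 := quot_pow ρ U hU x m v
  rw [h] at h1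
  exact h1

end rep

/-- Endomorphisms squaring to zero on a line are zero. -/
lemma eq_zero_of_finrank_one {W : Type*} [AddCommGroup W] [Module K W] (h1 : finrank K W = 1)
    {w : W} (hw : w ≠ 0) {N : Module.End K W} (hN : N * N = 0) : N = 0 := by
  have hspan := (finrank_eq_one_iff_of_nonzero' w hw).mp h1
  obtain ⟨d, hd⟩ := hspan (N w)
  have h2 : (d * d) • w = 0 := by
    have h3 := LinearMap.congr_fun hN w
    rw [Module.End.mul_apply, ← hd, map_smul, ← hd, smul_smul] at h3
    exact h3
  have hd0 : d = 0 := by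
    rcases smul_eq_zero.mp h2 with h4 | h4
    · exact mul_self_eq_zero.mp h4
    · exact absurd h4 hw
  ext x
  obtain ⟨c, rfl⟩ := hspan x
  rw [map_smul, ← hd, hd0]
  simp

theorem main [Fintype K] {p : ℕ} [Fact p.Prime] [CharP K p] {Γ : Type*} [Group Γ]
    (a b g : Γ) (hgen : Subgroup.closure {a, b} = ⊤) (e k : ℕ) (hk : k ∣ Fintype.card K - 1) (n : ℕ) :
    ∀ (W : Type v) [AddCommGroup W] [Module K W] [FiniteDimensional K W], finrank K W = n →
    ∀ (ρ : Representation K Γ W), (ρ a - 1) * (ρ a - 1) = 0 → (ρ b - 1) * (ρ b - 1) = 0 →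
      (ρ (a * b)) ^ (p ^ e * k) = 1 → (∀ m : ℕ, ρ g ^ p ^ m ≠ 1) →
      ∃ φ : Γ →* Matrix.SpecialLinearGroup (Fin 2) K, ∀ m : ℕ, φ g ^ p ^ m ≠ 1 := by
  classical
  induction n using Nat.strong_induction_on with
  | _ n ih =>
  intro W _ _ _ hn ρ ha hb hab hg
  have hnt : Nontrivial W := by
    by_contra hnt
    rw [not_nontrivial_iff_subsingleton] at hnt
    apply hg 0
    ext x
    exact Subsingleton.elim _ _
  by_cases hU : ∃ U : Submodule K W, U ≠ ⊥ ∧ U ≠ ⊤ ∧ ∀ x : Γ, U ≤ U.comap (ρ x)
  · obtain ⟨U, hU0, hU1, hUinv⟩ := hU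
    have hlt1 : finrank K U < n := by
      rw [← hn]
      exact Submodule.finrank_lt hU1
    have hlt2 : finrank K (W ⧸ U) < n := by
      have h1 := Submodule.finrank_quotient_add_finrank U
      have h2 : 0 < finrank K U := by
        rw [Nat.pos_iff_ne_zero]
        intro h0
        exact hU0 (Submodule.finrank_eq_zero.mp h0)
      omega
    by_cases h1 : ∀ m : ℕ, (ρ.subrepresentation U hUinv) g ^ p ^ m ≠ 1
    · exact ih _ hlt1 U rfl (ρ.subrepresentation U hUinv) (sub_sq ρ U hUinv a ha) (sub_sq ρ U hUinv b hb)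
        (sub_pow_one ρ U hUinv _ _ hab) h1
    by_cases h2 : ∀ m : ℕ, (ρ.quotient U hUinv) g ^ p ^ m ≠ 1
    · exact ih _ hlt2 (W ⧸ U) rfl (ρ.quotient U hUinv) (quot_sq ρ U hUinv a ha) (quot_sq ρ U hUinv b hb)
        (quot_pow_one ρ U hUinv _ _ hab) h2
    exfalso
    push Not at h1 h2
    obtain ⟨m₁, hm₁⟩ := h1
    obtain ⟨m₂, hm₂⟩ := h2
    apply hg (m₁ + m₂ + 1)
    have hu : ∀ u ∈ U, (ρ g ^ p ^ (m₁ + m₂)) u = u := by
      intro u hu
      have h3 := sub_pow ρ U hUinv g (p ^ m₁ * p ^ m₂) ⟨u, hu⟩
      have h4 : ((ρ.subrepresentation U hUinv) g) ^ (p ^ m₁ * p ^ m₂) = 1 := by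
        rw [pow_mul, hm₁, one_pow]
      rw [h4] at h3
      rw [pow_add]
      exact h3.symm
    have hq : ∀ x, (ρ g ^ p ^ (m₁ + m₂)) x - x ∈ U := by
      intro x
      have h3 := quot_pow ρ U hUinv g (p ^ m₂ * p ^ m₁) x
      have h4 : ((ρ.quotient U hUinv) g) ^ (p ^ m₂ * p ^ m₁) = 1 := by
        rw [pow_mul, hm₂, one_pow]
      rw [h4] at h3
      rw [add_comm m₁ m₂, pow_add]
      exact (Submodule.Quotient.eq U).mp h3.symm
    have h5 := unipotent_ext (p := p) hq hu
    rw [pow_succ (p) (m₁ + m₂), pow_mul]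
    exact h5
  · push Not at hU
    have hirr : ∀ U : Submodule K W, (∀ x, U ≤ U.comap (ρ x)) → U ≠ ⊥ → U = ⊤ := by
      intro U hU1 hU0
      by_contra hU2
      obtain ⟨x, hx⟩ := hU U hU0 hU2
      exact hx (hU1 x)
    obtain ⟨c, w, hw0, hw⟩ := exists_eigenvector (p := p) (ρ (a * b)) hk hab
    have hc0 : c ≠ 0 := by
      rintro rfl
      rw [zero_smul] at hw
      have h1 : ρ (a * b)⁻¹ (ρ (a * b) w) = w := by
        rw [← Module.End.mul_apply, ← map_mul]
        simp
      rw [hw, map_zero] at h1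
      exact hw0 h1.symm
    have hab' : ρ a (ρ b w) = c • w := by
      rw [← Module.End.mul_apply, ← map_mul]
      exact hw
    have hinva := inv_apply ρ a ha
    have hinvb := inv_apply ρ b hb
    have hAw : ρ a w = (2 : K) • w - c⁻¹ • ρ b w := by
      have h1 : ρ a⁻¹ (ρ a (ρ b w)) = ρ b w := by
        rw [← Module.End.mul_apply, ← map_mul]
        simp
      rw [hab', map_smul, hinva] at h1
      have h2 : c⁻¹ • ρ b w = (2 : K) • w - ρ a w := by
        rw [← h1, smul_smul, inv_mul_cancel₀ hc0, one_smul]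
      rw [h2, sub_sub_cancel]
    have hBBw : ρ b (ρ b w) = (2 : K) • ρ b w - w := by
      have h0 := LinearMap.congr_fun hb w
      simp only [Module.End.mul_apply, LinearMap.sub_apply, Module.End.one_apply, LinearMap.zero_apply,
        map_sub] at h0
      rw [two_smul, ← sub_eq_zero, ← h0]
      abel
    let U : Submodule K W := Submodule.span K {w, ρ b w}
    have hwU : w ∈ U := Submodule.subset_span (by simp)
    have hbwU : ρ b w ∈ U := Submodule.subset_span (by simp)
    have hUa : U ≤ U.comap (ρ a) := by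
      apply Submodule.span_le.mpr
      rintro x (rfl | rfl)
      · change ρ a x ∈ U
        rw [hAw]
        exact U.sub_mem (U.smul_mem _ hwU) (U.smul_mem _ hbwU)
      · change ρ a (ρ b w) ∈ U
        rw [hab']
        exact U.smul_mem _ hwU
    have hUb : U ≤ U.comap (ρ b) := by
      apply Submodule.span_le.mpr
      rintro x (rfl | rfl)
      · exact hbwU
      · change ρ b (ρ b w) ∈ U
        rw [hBBw]
        exact U.sub_mem (U.smul_mem _ hbwU) hwU
    have hUinv : ∀ x : Γ, U ≤ U.comap (ρ x) := by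
      have key : ∀ x : Γ, U ≤ U.comap (ρ x) ∧ U ≤ U.comap (ρ x⁻¹) := by
        apply gen_induction hgen
        · constructor <;> (intro v hv; simpa using hv)
        · rintro x y ⟨hx1, hx2⟩ ⟨hy1, hy2⟩
          constructor
          · intro v hv
            change ρ (x * y) v ∈ U
            rw [map_mul]
            exact hx1 (hy1 hv)
          · intro v hv
            change ρ (x * y)⁻¹ v ∈ U
            rw [mul_inv_rev, map_mul]
            exact hy2 (hx2 hv)
        · rintro x ⟨hx1, hx2⟩
          exact ⟨hx2, by simpa using hx1⟩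
        · refine ⟨hUa, ?_⟩
          intro v hv
          change ρ a⁻¹ v ∈ U
          rw [hinva]
          exact U.sub_mem (U.smul_mem _ hv) (hUa hv)
        · refine ⟨hUb, ?_⟩
          intro v hv
          change ρ b⁻¹ v ∈ U
          rw [hinvb]
          exact U.sub_mem (U.smul_mem _ hv) (hUb hv)
      exact fun x => (key x).1
    have hUtop : U = ⊤ := hirr U hUinv (fun h => hw0 (by simpa [h] using hwU))
    have hn2 : n ≤ 2 := by
      rw [← hn, ← finrank_top K W, ← hUtop]
      have h1 := finrank_span_finset_le_card (R := K) ({w, ρ b w} : Finset W)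
      have h2 : (({w, ρ b w} : Finset W) : Set W) = {w, ρ b w} := by simp
      rw [h2] at h1
      exact h1.trans Finset.card_le_two
    have hn0 : 0 < n := by
      rw [← hn]
      exact finrank_pos
    obtain rfl | rfl : n = 1 ∨ n = 2 := by omega
    · exfalso
      have hA : ρ a - 1 = 0 := eq_zero_of_finrank_one hn hw0 ha
      have hB : ρ b - 1 = 0 := eq_zero_of_finrank_one hn hw0 hb
      have hall : ∀ x : Γ, ρ x = 1 := by
        apply gen_induction hgen
        · simp
        · intro x y hx hy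
          rw [map_mul, hx, hy, one_mul]
        · intro x hx
          have h1 : ρ x⁻¹ * ρ x = 1 := by
            rw [← map_mul]
            simp
          rwa [hx, mul_one] at h1
        · exact sub_eq_zero.mp hA
        · exact sub_eq_zero.mp hB
      apply hg 0
      rw [hall g, one_pow]
    · let bas : Module.Basis (Fin 2) K W := Module.finBasisOfFinrankEq K W hn
      let Θ := LinearMap.toMatrixAlgEquiv bas
      have hmat : ∀ x, (ρ x - 1) * (ρ x - 1) = 0 → (Θ (ρ x) - 1) * (Θ (ρ x) - 1) = 0 := by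
        intro x h
        have h1 := congrArg Θ h
        rwa [map_mul, map_sub, map_one, map_zero] at h1
      have hdet : ∀ x : Γ, (Θ (ρ x)).det = 1 := by
        apply gen_induction hgen
        · simp
        · intro x y hx hy
          rw [map_mul, map_mul, Matrix.det_mul, hx, hy, one_mul]
        · intro x hx
          have h1 : ρ x⁻¹ * ρ x = 1 := by
            rw [← map_mul]
            simp
          have h2 := congrArg (fun z => (Θ z).det) h1
          simp only [map_mul, map_one, Matrix.det_mul, hx, mul_one, Matrix.det_one] at h2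
          exact h2
        · exact det_eq_one_of_sq (hmat a ha)
        · exact det_eq_one_of_sq (hmat b hb)
      let φ : Γ →* Matrix.SpecialLinearGroup (Fin 2) K :=
        { toFun := fun x => ⟨Θ (ρ x), hdet x⟩
          map_one' := by
            apply Subtype.ext
            simp
          map_mul' := fun x y => by
            apply Subtype.ext
            change Θ (ρ (x * y)) = Θ (ρ x) * Θ (ρ y)
            rw [map_mul, map_mul] }
      refine ⟨φ, fun m hm => hg m ?_⟩
      have h1 : Θ (ρ (g ^ p ^ m)) = 1 := by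
        have h2 := congrArg Subtype.val hm
        rw [← map_pow] at h2
        exact h2
      rw [← map_pow]
      apply Θ.injective
      rw [h1, map_one]

/-- Two quadratically acting generators of a linear group that is not a p-group, with the p'-part of the order of their product dividing q - 1, give a homomorphism onto a subgroup of SL(2, q) that is not a p-group. -/
theorem result {K : Type*} [Field K] [Fintype K] {p : ℕ} [Fact p.Prime] [CharP K p] {W : Type*} [AddCommGroup W] [Module K W] [FiniteDimensional K W] [Finite W] [Nontrivial W] (H : Subgroup (W ≃ₗ[K] W)) (a b : W ≃ₗ[K] W) (hH : H = Subgroup.closure {a, b}) (ha : ∀ w : W, a (a w - w) = a w - w) (hb : ∀ w : W, b (b w - w) = b w - w) (hnp : ¬ IsPGroup p H) (hk : ∃ e k : ℕ, orderOf (a * b) = p ^ e * k ∧ k ∣ Fintype.card K - 1) : ∃ φ : H →* Matrix.SpecialLinearGroup (Fin 2) K, ¬ IsPGroup p φ.range := by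
  classical
  obtain ⟨e, k, hek, hk⟩ := hk
  subst hH
  let a' : Subgroup.closure {a, b} := ⟨a, Subgroup.subset_closure (by simp)⟩
  let b' : Subgroup.closure {a, b} := ⟨b, Subgroup.subset_closure (by simp)⟩
  have hgen : Subgroup.closure {a', b'} = ⊤ := by
    have h1 := Subgroup.closure_closure_coe_preimage (k := ({a, b} : Set (W ≃ₗ[K] W)))
    rw [← h1]
    congr 1
    ext x
    constructor
    · rintro (rfl | rfl) <;> simp [a', b']
    · intro hx
      rcases hx with hx | hx
      · left; exact Subtype.ext hx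
      · right; exact Subtype.ext hx
  obtain ⟨g, hg⟩ : ∃ g : Subgroup.closure ({a, b} : Set (W ≃ₗ[K] W)), ∀ m : ℕ, g ^ p ^ m ≠ 1 := by
    by_contra h
    push Not at h
    exact hnp h
  let ρ : Representation K (Subgroup.closure ({a, b} : Set (W ≃ₗ[K] W))) W :=
    { toFun := fun x => ((x : W ≃ₗ[K] W) : W →ₗ[K] W)
      map_one' := rfl
      map_mul' := fun _ _ => rfl }
  have hρ : ∀ x v, ρ x v = (x : W ≃ₗ[K] W) v := fun _ _ => rfl
  have ha' : (ρ a' - 1) * (ρ a' - 1) = 0 := by
    ext w
    simp only [Module.End.mul_apply, LinearMap.sub_apply, Module.End.one_apply, LinearMap.zero_apply, hρ]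
    exact sub_eq_zero.mpr (by
      rw [map_sub]
      exact ha w |> fun h => by simpa [a'] using h)
  have hb' : (ρ b' - 1) * (ρ b' - 1) = 0 := by
    ext w
    simp only [Module.End.mul_apply, LinearMap.sub_apply, Module.End.one_apply, LinearMap.zero_apply, hρ]
    exact sub_eq_zero.mpr (by
      rw [map_sub]
      exact hb w |> fun h => by simpa [b'] using h)
  have hab' : (ρ (a' * b')) ^ (p ^ e * k) = 1 := by
    rw [← map_pow]
    have h1 : (a' * b') ^ (p ^ e * k) = 1 := by
      apply Subtype.ext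
      change (a * b) ^ (p ^ e * k) = 1
      rw [← hek]
      exact pow_orderOf_eq_one _
    rw [h1, map_one]
  have hg' : ∀ m : ℕ, ρ g ^ p ^ m ≠ 1 := by
    intro m hm
    apply hg m
    rw [← map_pow] at hm
    apply Subtype.ext
    apply LinearEquiv.ext
    intro v
    exact LinearMap.congr_fun hm v
  obtain ⟨φ, hφ⟩ := main a' b' g hgen e k hk _ W rfl ρ ha' hb' hab' hg'
  refine ⟨φ, ?_⟩
  intro hp
  obtain ⟨m, hm⟩ := hp ⟨φ g, ⟨g, rfl⟩⟩
  exact hφ m (congrArg Subtype.val hm)

end Cfsg.Agent.S0592
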