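import Cfsg.Statements.S0594
import Mathlib
import Cfsg.Agent.Lib.PGroup.QuadThree
import Cfsg.Agent.S0274
-- import your own Cfsg.Agent.* helpers here

set_option autoImplicit false
open Cfsg

namespace Cfsg.Agent.S0594

/-- For odd p, two quadratic generators of a faithful group that is not a p-group, one of which acts nontrivially on a normal subgroup of order prime to p, force p = 3 and a section isomorphic to SL(2,3). -/
theorem result {G : Type*} [Group G] [Finite G] {p : ℕ} [Fact p.Prime] (hp : p ≠ 2) (V H : Subgroup G) (hV : Cfsg.IsElementaryAbelian p V) (hHV : H ≤ Subgroup.normalizer (V : Set G)) (hf : H ⊓ Subgroup.centralizer (V : Set G) = ⊥) (a b : G) (hab : H = Subgroup.closure {a, b}) (ha : ⁅⁅V, Subgroup.zpowers a⁆, Subgroup.zpowers a⁆ = ⊥) (hb : ⁅⁅V, Subgroup.zpowers b⁆, Subgroup.zpowers b⁆ = ⊥) (hnp : ¬ IsPGroup p H) (Q : Subgroup G) (hQH : Q ≤ H) (hQn : H ≤ Subgroup.normalizer (Q : Set G))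 (hQ : (Nat.card Q).Coprime p) (hQa : ⁅Q, Subgroup.zpowers a⁆ ≠ ⊥) : p = 3 ∧ ∃ (K L : Subgroup G) (hL : (L.subgroupOf K).Normal), K ≤ H ∧ Nonempty ((K ⧸ L.subgroupOf K) ≃* Matrix.SpecialLinearGroup (Fin 2) (ZMod 3)) := by
  obtain ⟨h3, hsec⟩ := Cfsg.Agent.Lib.PGroup.QuadThree.two_quadratic_normal
    (fun F _ _ _ H hH => Cfsg.Agent.S0274.result p hp H hH) hp V H hV hHV hf a b hab ha hb Q hQH hQn
    hQ hQa
  subst h3
  obtain ⟨K, Φ, hK, hΦ⟩ := hsec.of_subgroup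
  obtain ⟨R, hR, ⟨e⟩⟩ := Cfsg.Agent.Lib.PGroup.QdSplit.quotient_form hΦ
  exact ⟨rfl, K, R, hR, hK, ⟨e⟩⟩

end Cfsg.Agent.S0594
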