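import Cfsg.Statements.S0595
import Cfsg.Agent.S0593
import Cfsg.Agent.S0590
import Cfsg.Agent.S0199

set_option autoImplicit false
open Cfsg

namespace Cfsg.Agent.S0595

lemma commutative_of_le_sylow {H : Type*} [Group H] [Finite H] (T Q : Sylow 2 H)
    (hT : IsMulCommutative T) : IsMulCommutative Q := by
  refine ⟨⟨?_⟩⟩
  intro x y
  let e : T ≃* Q := Sylow.equiv T Q
  obtain ⟨x', rfl⟩ := e.surjective x
  obtain ⟨y', rfl⟩ := e.surjective y
  rw [← map_mul, ← map_mul, hT.is_comm.comm x' y']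

/-- For odd p, a faithful action on an elementary abelian p-group that is not p-stable forces non-abelian Sylow 2-subgroups. -/
theorem result {G : Type*} [Group G] [Finite G] {p : ℕ} [Fact p.Prime] (hp : p ≠ 2) (V H : Subgroup G) (hV : Cfsg.IsElementaryAbelian p V) (hHV : H ≤ Subgroup.normalizer (V : Set G)) (hf : H ⊓ Subgroup.centralizer (V : Set G) = ⊥) (a : G) (haH : a ∈ H) (hq : ⁅⁅V, Subgroup.zpowers a⁆, Subgroup.zpowers a⁆ = ⊥) (hna : a ∉ (Cfsg.pCore p H).map H.subtype) (T : Sylow 2 H) : ¬ IsMulCommutative T := by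
  intro hT
  -- a has order dividing p
  have hap : a ^ p = 1 := by
    have h1 := (Cfsg.Agent.S0590.result V (Subgroup.zpowers a) hV
      ((Subgroup.zpowers_le.2 haH).trans hHV) hq).2 a (Subgroup.mem_zpowers a)
    have h2 : a ^ p ∈ H ⊓ Subgroup.centralizer (V : Set G) := ⟨H.pow_mem haH p, h1⟩
    rwa [hf, Subgroup.mem_bot] at h2
  let a' : H := ⟨a, haH⟩
  have hap' : a' ^ p = 1 := Subtype.ext hap
  let X : Subgroup H := Subgroup.zpowers a'
  have hXp : IsPGroup p X := by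
    rintro ⟨x, hx⟩
    obtain ⟨k, rfl⟩ := Subgroup.mem_zpowers_iff.1 hx
    refine ⟨1, Subtype.ext ?_⟩
    simp only [pow_one]
    show (a' ^ k) ^ p = 1
    rw [← zpow_natCast, ← zpow_mul, mul_comm, zpow_mul, zpow_natCast, hap', one_zpow]
  -- Baer-Suzuki
  have hex : ∃ g : H, ¬ IsPGroup p ↥(X ⊔ X.map (MulAut.conj g).toMonoidHom) := by
    by_contra hcon
    push Not at hcon
    obtain ⟨N, hN, hNp, hXN⟩ := Cfsg.Agent.S0199.result X hXp hcon
    apply hna
    refine ⟨a', ?_, rfl⟩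
    have : N ≤ Cfsg.pCore p H := le_sSup ⟨hN, hNp⟩
    exact this (hXN (Subgroup.mem_zpowers a'))
  obtain ⟨g, hg⟩ := hex
  let b : G := (g : G) * a * (g : G)⁻¹
  let H₀ : Subgroup G := Subgroup.closure {a, b}
  have hbH : b ∈ H := H.mul_mem (H.mul_mem g.2 haH) (H.inv_mem g.2)
  have hH₀H : H₀ ≤ H := by
    rw [Subgroup.closure_le]
    rintro x (rfl | rfl)
    · exact haH
    · exact hbH
  have hb : ⁅⁅V, Subgroup.zpowers b⁆, Subgroup.zpowers b⁆ = ⊥ := by
    let φ : G →* G := (MulAut.conj (g : G)).toMonoidHom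
    have hVφ : V.map φ = V := Subgroup.mem_normalizer_iff_map_conj_eq.1 (hHV g.2)
    have hzφ : (Subgroup.zpowers a).map φ = Subgroup.zpowers b := by
      rw [MonoidHom.map_zpowers]
      rfl
    rw [← hzφ, ← hVφ, ← Subgroup.map_commutator, ← Subgroup.map_commutator, hq, Subgroup.map_bot]
  have hmap : (X ⊔ X.map (MulAut.conj g).toMonoidHom).map H.subtype = H₀ := by
    rw [Subgroup.map_sup, Subgroup.map_map]
    simp only [X]
    rw [MonoidHom.map_zpowers, MonoidHom.map_zpowers]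
    have : (H.subtype.comp (MulAut.conj g).toMonoidHom) a' = b := rfl
    rw [this]
    show Subgroup.zpowers a ⊔ Subgroup.zpowers b = Subgroup.closure {a, b}
    rw [Subgroup.zpowers_eq_closure, Subgroup.zpowers_eq_closure, ← Subgroup.closure_union]
    rfl
  have hnp : ¬ IsPGroup p H₀ := by
    intro h
    apply hg
    have h' : IsPGroup p ↥((X ⊔ X.map (MulAut.conj g).toMonoidHom).map H.subtype) := by
      rw [hmap]; exact h
    exact h'.of_equiv (Subgroup.equivMapOfInjective _ H.subtype H.subtype_injective).symm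
  obtain ⟨T₀⟩ : Nonempty (Sylow 2 H₀) := inferInstance
  refine Cfsg.Agent.S0593.result hp V H₀ hV (hH₀H.trans hHV) ?_ a b rfl hq hb hnp T₀ ?_
  · rw [eq_bot_iff, ← hf]
    exact inf_le_inf_right _ hH₀H
  · -- `T₀` lies in a Sylow subgroup of `H`
    let ι : H₀ →* H := Subgroup.inclusion hH₀H
    have hι : Function.Injective ι := Subgroup.inclusion_injective hH₀H
    have hp2 : IsPGroup 2 ((T₀ : Subgroup H₀).map ι) := T₀.isPGroup'.map ι
    obtain ⟨Q, hQ⟩ := hp2.exists_le_sylow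
    have hQc := commutative_of_le_sylow T Q hT
    refine ⟨⟨?_⟩⟩
    rintro ⟨x, hx⟩ ⟨y, hy⟩
    have hxQ : ι x ∈ Q := hQ ⟨x, hx, rfl⟩
    have hyQ : ι y ∈ Q := hQ ⟨y, hy, rfl⟩
    have := hQc.is_comm.comm ⟨ι x, hxQ⟩ ⟨ι y, hyQ⟩
    have h3 := congrArg (fun z : Q => ((z : H) : G)) this
    apply Subtype.ext
    apply Subtype.ext
    exact h3

end Cfsg.Agent.S0595
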