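import Cfsg.Statements.S0597
import Mathlib
import Cfsg.Agent.Lib.Nilpotent.Subnormal
import Cfsg.Agent.Lib.Basic.PCore
import Cfsg.Agent.Lib.Components.Fitting
-- import your own Cfsg.Agent.* helpers here

set_option autoImplicit false
open Cfsg
open scoped commutatorElement

namespace Cfsg.Agent.S0597

/-- If two subnormal subgroups of a faithful group on an elementary abelian p-group satisfy [V, E₁, E₂] = 1, then their commutator lies in the largest normal p-subgroup. -/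
theorem result {G : Type*} [Group G] [Finite G] {p : ℕ} [Fact p.Prime] (V H : Subgroup G) (hV : Cfsg.IsElementaryAbelian p V) (hHV : H ≤ Subgroup.normalizer (V : Set G)) (hf : H ⊓ Subgroup.centralizer (V : Set G) = ⊥) (E₁ E₂ : Subgroup G) (h₁ : E₁ ≤ H) (h₂ : E₂ ≤ H) (hs₁ : (E₁.subgroupOf H).IsSubnormal) (hs₂ : (E₂.subgroupOf H).IsSubnormal) (hc : ⁅⁅V, E₁⁆, E₂⁆ = ⊥) : ⁅E₁, E₂⁆ ≤ (Cfsg.pCore p H).map H.subtype := by
  have hE1V : ∀ e ∈ E₁, ∀ v ∈ V, e * v * e⁻¹ ∈ V := fun e he v hv =>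
    (Subgroup.mem_normalizer_iff.mp (hHV (h₁ he)) v).mp hv
  have hUV : ⁅V, E₁⁆ ≤ V := by
    rw [Subgroup.commutator_le]
    intro v hv e he
    rw [commutatorElement_def]
    have : v * e * v⁻¹ * e⁻¹ = v * (e * v⁻¹ * e⁻¹) := by group
    rw [this]
    exact V.mul_mem hv (hE1V e he _ (V.inv_mem hv))
  set U := ⁅V, E₁⁆ with hU
  set Hp := E₁ ⊔ E₂ with hHp
  have hHpH : Hp ≤ H := sup_le h₁ h₂
  have hE2U : ∀ f ∈ E₂, ∀ u ∈ U, f * u = u * f := by
    intro f hf u hu
    have h := Subgroup.commutator_mem_commutator hu hf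
    rw [hc, Subgroup.mem_bot, commutatorElement_eq_one_iff_mul_comm] at h
    exact h.symm
  have hE1U : ∀ e ∈ E₁, ∀ u ∈ U, e * u * e⁻¹ ∈ U := by
    intro e he u hu
    have h : U ≤ U.comap (MulAut.conj e).toMonoidHom := by
      rw [hU, Subgroup.commutator_le]
      intro v hv e' he'
      rw [Subgroup.mem_comap]
      have : (MulAut.conj e).toMonoidHom ⁅v, e'⁆ = ⁅e * v * e⁻¹, e * e' * e⁻¹⁆ := by
        simp only [MulEquiv.toMonoidHom_eq_coe, MonoidHom.coe_coe, MulAut.conj_apply, commutatorElement_def]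
        group
      rw [this]
      exact Subgroup.commutator_mem_commutator (hE1V e he v hv)
        (E₁.mul_mem (E₁.mul_mem he he') (E₁.inv_mem he))
    have := h hu
    simpa using this
  have hHpU : ∀ g ∈ Hp, ∀ u, u ∈ U ↔ g * u * g⁻¹ ∈ U := by
    have hle : Hp ≤ Subgroup.normalizer (U : Set G) := by
      refine sup_le ?_ ?_
      · intro e he
        apply Cfsg.Agent.Lib.Components.Fitting.mem_normalizer_of_conj_mem
        · exact fun x hx => hE1U e he x hx
        · intro x hx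
          exact hE1U e⁻¹ (E₁.inv_mem he) x hx |> fun h => by simpa using h
      · intro f hf
        rw [Subgroup.mem_normalizer_iff]
        intro u
        have e1 : ∀ f ∈ E₂, ∀ u ∈ U, f * u * f⁻¹ = u := fun f hf u hu => by
          rw [hE2U f hf u hu]; group
        constructor
        · intro hu; rw [e1 f hf u hu]; exact hu
        · intro hu
          have := e1 f⁻¹ (E₂.inv_mem hf) _ hu
          have e2 : f⁻¹ * (f * u * f⁻¹) * f⁻¹⁻¹ = u := by group
          rw [e2] at this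
          rw [this]; exact hu
    exact fun g hg u => Subgroup.mem_normalizer_iff.mp (hle hg) u
  -- the subgroup acting trivially on `V / U`
  let A : Subgroup G :=
    { carrier := {x | x ∈ Hp ∧ ∀ v ∈ V, x * v * x⁻¹ * v⁻¹ ∈ U}
      one_mem' := ⟨Hp.one_mem, fun v _ => by simp [U.one_mem]⟩
      mul_mem' := by
        rintro x y ⟨hx, hx'⟩ ⟨hy, hy'⟩
        refine ⟨Hp.mul_mem hx hy, fun v hv => ?_⟩
        have e : x * y * v * (x * y)⁻¹ * v⁻¹ =
            x * (y * v * y⁻¹ * v⁻¹) * x⁻¹ * (x * v * x⁻¹ * v⁻¹) := by group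
        rw [e]
        exact U.mul_mem ((hHpU x hx _).mp (hy' v hv)) (hx' v hv)
      inv_mem' := by
        rintro x ⟨hx, hx'⟩
        refine ⟨Hp.inv_mem hx, fun v hv => ?_⟩
        have hw : x⁻¹ * v * x ∈ V := by
          have h := (Subgroup.mem_normalizer_iff.mp (hHV (hHpH (Hp.inv_mem hx))) v).mp hv
          simpa using h
        have h1 := hx' _ hw
        have e : x⁻¹ * v * x⁻¹⁻¹ * v⁻¹ = (x * (x⁻¹ * v * x) * x⁻¹ * (x⁻¹ * v * x)⁻¹)⁻¹ := by group
        rw [e]
        exact U.inv_mem h1 }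
  let B : Subgroup G := Hp ⊓ Subgroup.centralizer (U : Set G)
  have hAn : ∀ g ∈ Hp, ∀ x ∈ A, g * x * g⁻¹ ∈ A := by
    rintro g hg x ⟨hx, hx'⟩
    refine ⟨Hp.mul_mem (Hp.mul_mem hg hx) (Hp.inv_mem hg), fun v hv => ?_⟩
    have hw : g⁻¹ * v * g ∈ V := by
      have h := (Subgroup.mem_normalizer_iff.mp (hHV (hHpH (Hp.inv_mem hg))) v).mp hv
      simpa using h
    have e : g * x * g⁻¹ * v * (g * x * g⁻¹)⁻¹ * v⁻¹ =
        g * (x * (g⁻¹ * v * g) * x⁻¹ * (g⁻¹ * v * g)⁻¹) * g⁻¹ := by group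
    rw [e]
    exact (hHpU g hg _).mp (hx' _ hw)
  have hBn : ∀ g ∈ Hp, ∀ x ∈ B, g * x * g⁻¹ ∈ B := by
    rintro g hg x ⟨hx, hx'⟩
    refine ⟨Hp.mul_mem (Hp.mul_mem hg hx) (Hp.inv_mem hg), ?_⟩
    change x ∈ Subgroup.centralizer (U : Set G) at hx'
    change g * x * g⁻¹ ∈ Subgroup.centralizer (U : Set G)
    rw [Subgroup.mem_centralizer_iff] at hx' ⊢
    intro u hu
    have hu' : g⁻¹ * u * g ∈ U := by
      have := (hHpU g⁻¹ (Hp.inv_mem hg) u).mp hu
      simpa using this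
    have := hx' _ hu'
    calc u * (g * x * g⁻¹) = g * ((g⁻¹ * u * g) * x) * g⁻¹ := by group
      _ = g * (x * (g⁻¹ * u * g)) * g⁻¹ := by rw [this]
      _ = _ := by group
  have hE1A : E₁ ≤ A := by
    intro e he
    refine ⟨(le_sup_left : E₁ ≤ Hp) he, fun v hv => ?_⟩
    have h := Subgroup.commutator_mem_commutator hv he
    have e1 : e * v * e⁻¹ * v⁻¹ = (v * e * v⁻¹ * e⁻¹)⁻¹ := by group
    rw [e1]
    have : ⁅v, e⁆ ∈ U := h
    rw [commutatorElement_def] at this
    exact U.inv_mem this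
  have hE2B : E₂ ≤ B := by
    intro f hf
    refine ⟨(le_sup_right : E₂ ≤ Hp) hf, ?_⟩
    change f ∈ Subgroup.centralizer (U : Set G)
    rw [Subgroup.mem_centralizer_iff]
    exact fun u hu => (hE2U f hf u hu).symm
  have hcomm : ⁅E₁, E₂⁆ ≤ A ⊓ B := by
    rw [Subgroup.commutator_le]
    intro e he f hf
    refine ⟨?_, ?_⟩
    · have e1 : ⁅e, f⁆ = e * (f * e⁻¹ * f⁻¹) := by rw [commutatorElement_def]; group
      rw [e1]
      exact A.mul_mem (hE1A he) (hAn f ((le_sup_right : E₂ ≤ Hp) hf) _ (A.inv_mem (hE1A he)))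
    · have e1 : ⁅e, f⁆ = (e * f * e⁻¹) * f⁻¹ := by rw [commutatorElement_def]
      rw [e1]
      exact B.mul_mem (hBn e ((le_sup_left : E₁ ≤ Hp) he) _ (hE2B hf)) (B.inv_mem (hE2B hf))
  have hDHp : A ⊓ B ≤ Hp := inf_le_right.trans inf_le_left
  have hDH : A ⊓ B ≤ H := hDHp.trans hHpH
  have hHps : (Hp.subgroupOf H).IsSubnormal := by
    rw [hHp, Subgroup.subgroupOf_sup h₁ h₂]
    exact Cfsg.Agent.Lib.Nilpotent.Subnormal.isSubnormal_sup hs₁ hs₂
  have hDs : ((A ⊓ B).subgroupOf H).IsSubnormal := by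
    refine Subgroup.IsSubnormal.step _ (Hp.subgroupOf H) ?_ hHps ?_
    · intro x hx
      exact hDHp hx
    · refine ⟨fun x hx g => ?_⟩
      rw [Subgroup.mem_subgroupOf, Subgroup.mem_subgroupOf] at hx ⊢
      exact ⟨hAn _ g.2 _ hx.1, hBn _ g.2 _ hx.2⟩
  have hDp : IsPGroup p ↥((A ⊓ B).subgroupOf H) := by
    rintro ⟨x, hx⟩
    refine ⟨1, ?_⟩
    have hxD : (x : G) ∈ A ⊓ B := Subgroup.mem_subgroupOf.mp hx
    obtain ⟨⟨-, hxA⟩, ⟨-, hxB⟩⟩ := hxD
    change (x : G) ∈ Subgroup.centralizer (U : Set G) at hxB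
    rw [Subgroup.mem_centralizer_iff] at hxB
    have hpow : (x : G) ^ p ∈ H ⊓ Subgroup.centralizer (V : Set G) := by
      refine ⟨H.pow_mem x.2 p, ?_⟩
      change (x : G) ^ p ∈ Subgroup.centralizer (V : Set G)
      rw [Subgroup.mem_centralizer_iff]
      intro v hv
      set u := (x : G) * v * (x : G)⁻¹ * v⁻¹ with hu
      have huU : u ∈ U := hxA v hv
      have hc' : Commute (x : G) u := (hxB u huU).symm
      have hind : ∀ k : ℕ, (x : G) ^ k * v * ((x : G) ^ k)⁻¹ = u ^ k * v := by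
        intro k
        induction k with
        | zero => simp
        | succ k ih =>
          have e1 : (x : G) * v * (x : G)⁻¹ = u * v := by rw [hu]; group
          calc (x : G) ^ (k + 1) * v * ((x : G) ^ (k + 1))⁻¹
              = (x : G) * ((x : G) ^ k * v * ((x : G) ^ k)⁻¹) * (x : G)⁻¹ := by
                rw [pow_succ', mul_inv_rev]; group
            _ = (x : G) * (u ^ k * v) * (x : G)⁻¹ := by rw [ih]
            _ = u ^ k * ((x : G) * v * (x : G)⁻¹) := by
                rw [← mul_assoc (x : G), (hc'.pow_right k).eq]; group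
            _ = u ^ (k + 1) * v := by
                rw [e1, pow_succ]; exact (mul_assoc _ _ _).symm
      have h1 := hind p
      rw [hV.2 u (hUV huU), one_mul] at h1
      calc v * (x : G) ^ p = ((x : G) ^ p * v * ((x : G) ^ p)⁻¹) * (x : G) ^ p := by rw [h1]
        _ = _ := by group
    rw [hf, Subgroup.mem_bot] at hpow
    apply Subtype.ext
    apply Subtype.ext
    simpa using hpow
  have hfinal := Cfsg.Agent.Lib.Basic.PCore.le_pCore_of_subnormal hDs hDp
  intro x hx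
  have hxH : x ∈ H := hDH (hcomm hx)
  exact ⟨⟨x, hxH⟩, hfinal (Subgroup.mem_subgroupOf.mpr (hcomm hx)), rfl⟩

end Cfsg.Agent.S0597
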