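import Cfsg.Statements.S0600
import Mathlib
import Cfsg.Agent.Lib.Basic.PCore

set_option autoImplicit false
open Cfsg

namespace Cfsg.Agent.S0600

/-- A normal elementary abelian p-subgroup generated by the fixed points of the Sylow p-subgroups admits no nontrivial normal p-subgroup of G modulo its centralizer. -/
theorem result {G : Type*} [Group G] [Finite G] {p : ℕ} [Fact p.Prime] (V : Subgroup G) [V.Normal] (hV : Cfsg.IsElementaryAbelian p V) (hgen : V = ⨆ S : Sylow p G, V ⊓ Subgroup.centralizer ((S : Subgroup G) : Set G)) : Cfsg.pCore p (G ⧸ Subgroup.centralizer (V : Set G)) = ⊥ := by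
  rw [eq_bot_iff]
  intro y hy
  obtain ⟨x, rfl⟩ := QuotientGroup.mk_surjective y
  rw [Subgroup.mem_bot, QuotientGroup.eq_one_iff]
  have key : ∀ S : Sylow p G, ∀ v ∈ V ⊓ Subgroup.centralizer ((S : Subgroup G) : Set G),
      v ∈ Subgroup.centralizer ({x} : Set G) := by
    intro S v hv
    have hf := QuotientGroup.mk'_surjective (Subgroup.centralizer (V : Set G))
    have hle := Cfsg.Agent.Lib.Basic.PCore.pCore_le_sylow (S.mapSurjective hf) hy
    rw [Sylow.coe_mapSurjective] at hle
    obtain ⟨s, hs, hsx⟩ := hle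
    have hc : s⁻¹ * x ∈ Subgroup.centralizer (V : Set G) :=
      QuotientGroup.eq.mp hsx
    have h1 : v * (s⁻¹ * x) = (s⁻¹ * x) * v :=
      (Subgroup.mem_centralizer_iff.mp hc v hv.1)
    have h2 : s * v = v * s := (Subgroup.mem_centralizer_iff.mp hv.2 s hs)
    rw [Subgroup.mem_centralizer_iff]
    intro w hw
    have hw' : w = x := hw
    rw [hw']
    calc x * v = s * ((s⁻¹ * x) * v) := by group
      _ = s * (v * (s⁻¹ * x)) := by rw [h1]
      _ = (s * v) * (s⁻¹ * x) := by group
      _ = (v * s) * (s⁻¹ * x) := by rw [h2]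
      _ = v * x := by group
  have hVC : V ≤ Subgroup.centralizer ({x} : Set G) := by
    rw [hgen]
    exact iSup_le key
  rw [Subgroup.mem_centralizer_iff]
  intro v hv
  exact (Subgroup.mem_centralizer_iff.mp (hVC hv) x (Set.mem_singleton x)).symm

end Cfsg.Agent.S0600
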