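import Cfsg.Statements.S0604
import Mathlib
-- import your own Cfsg.Agent.* helpers here

set_option autoImplicit false
open Cfsg

namespace Cfsg.Agent.S0604

lemma ea_isPGroup {G : Type*} [Group G] {p : ℕ} {A : Subgroup G}
    (hA : Cfsg.IsElementaryAbelian p A) : IsPGroup p ↥A := by
  rintro ⟨a, ha⟩
  refine ⟨1, ?_⟩
  apply Subtype.ext
  simpa using hA.2 a ha

lemma ea_map {G H : Type*} [Group G] [Group H] {p : ℕ} {A : Subgroup G} (f : G →* H)
    (hA : Cfsg.IsElementaryAbelian p A) : Cfsg.IsElementaryAbelian p (A.map f) := by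
  refine ⟨⟨⟨?_⟩⟩, ?_⟩
  · rintro ⟨_, a, ha, rfl⟩ ⟨_, b, hb, rfl⟩
    apply Subtype.ext
    show f a * f b = f b * f a
    rw [← map_mul, ← map_mul]
    congr 1
    exact congrArg Subtype.val (hA.1.is_comm.comm ⟨a, ha⟩ ⟨b, hb⟩)
  · rintro _ ⟨a, ha, rfl⟩
    rw [← map_pow, hA.2 a ha, map_one]

lemma ea_comap {G H : Type*} [Group G] [Group H] {p : ℕ} {A : Subgroup H} (f : G →* H)
    (hf : Function.Injective f) (hA : Cfsg.IsElementaryAbelian p A) :
    Cfsg.IsElementaryAbelian p (A.comap f) := by
  refine ⟨⟨⟨?_⟩⟩, ?_⟩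
  · rintro ⟨a, ha⟩ ⟨b, hb⟩
    apply Subtype.ext
    apply hf
    show f (a * b) = f (b * a)
    rw [map_mul, map_mul]
    exact congrArg Subtype.val (hA.1.is_comm.comm ⟨f a, ha⟩ ⟨f b, hb⟩)
  · intro a ha
    apply hf
    rw [map_pow, map_one]
    exact hA.2 _ ha


/-- The Thompson subgroup of G is the join of the Thompson subgroups of its Sylow p-subgroups. -/
theorem result {G : Type*} [Group G] [Finite G] {p : ℕ} [Fact p.Prime] : Cfsg.thompsonSubgroup p G = ⨆ S : Sylow p G, Cfsg.thompsonSubgroupOf p (S : Subgroup G) := by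
  classical
  apply le_antisymm
  · -- each largest EA of G lies in a Sylow, and is largest there
    apply sSup_le
    intro A hA
    obtain ⟨S, hS⟩ := (ea_isPGroup hA.1).exists_le_sylow
    have hBmax : A.comap (S : Subgroup G).subtype ∈ Cfsg.maxElementaryAbelianSubgroups p ↥(S : Subgroup G) := by
      refine ⟨ea_comap _ (Subgroup.subtype_injective _) hA.1, fun B hB => ?_⟩
      have h1 := hA.2 (B.map (S : Subgroup G).subtype) (ea_map _ hB)
      rw [Subgroup.card_map_of_injective (Subgroup.subtype_injective _)] at h1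
      have h2 : Nat.card ↥(A.comap (S : Subgroup G).subtype) = Nat.card ↥A := by
        refine Nat.card_congr (Subgroup.subgroupOfEquivOfLe hS).toEquiv
      rwa [h2]
    have hJ : A ≤ Cfsg.thompsonSubgroupOf p (S : Subgroup G) := by
      intro a ha
      refine ⟨⟨a, hS ha⟩, ?_, rfl⟩
      exact (le_sSup hBmax : A.comap (S : Subgroup G).subtype ≤ _) ha
    exact hJ.trans (le_iSup (fun S : Sylow p G => Cfsg.thompsonSubgroupOf p (S : Subgroup G)) S)
  · apply iSup_le
    intro S
    unfold Cfsg.thompsonSubgroupOf Cfsg.thompsonSubgroup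
    rw [Subgroup.map_le_iff_le_comap]
    apply sSup_le
    intro B hB
    rw [← Subgroup.map_le_iff_le_comap]
    apply le_sSup
    -- B' is largest in G
    refine ⟨ea_map _ hB.1, fun C hC => ?_⟩
    rw [Subgroup.card_map_of_injective (Subgroup.subtype_injective _)]
    obtain ⟨T, hT⟩ := (ea_isPGroup hC).exists_le_sylow
    obtain ⟨g, hg⟩ := MulAction.exists_smul_eq G T S
    have hle : C.map (MulAut.conj g).toMonoidHom ≤ (S : Subgroup G) := by
      rintro _ ⟨c, hc, rfl⟩
      rw [← hg, Sylow.coe_subgroup_smul]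
      exact Subgroup.smul_mem_pointwise_smul _ (MulAut.conj g) _ (hT hc)
    have hEA : Cfsg.IsElementaryAbelian p ((C.map (MulAut.conj g).toMonoidHom).comap (S : Subgroup G).subtype) :=
      ea_comap _ (Subgroup.subtype_injective _) (ea_map _ hC)
    have h1 := hB.2 _ hEA
    have h2 : Nat.card ↥((C.map (MulAut.conj g).toMonoidHom).comap (S : Subgroup G).subtype) = Nat.card ↥C := by
      have e : Nat.card ↥((C.map (MulAut.conj g).toMonoidHom).comap (S : Subgroup G).subtype) =
          Nat.card ↥(C.map (MulAut.conj g).toMonoidHom) :=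
        Nat.card_congr (Subgroup.subgroupOfEquivOfLe hle).toEquiv
      rw [e, Subgroup.card_map_of_injective (MulAut.conj g).injective]
    rwa [h2] at h1

end Cfsg.Agent.S0604
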