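import Cfsg.Statements.S0614
import Cfsg.Agent.Lib.PGroup.FFStruct
import Cfsg.Agent.Lib.PSL2.Basic
import Mathlib
-- import your own Cfsg.Agent.* helpers here

set_option autoImplicit false
open Cfsg

namespace Cfsg.Agent.S0614

open Matrix Cfsg.Agent.Lib.PSL2.Basic
open scoped MatrixGroups

/-- Two elements of `SL(2, 3)` of order dividing `4` that do not commute. -/
theorem exists_noncomm : ∃ i j : SL(2, ZMod 3), i ^ 4 = 1 ∧ j ^ 4 = 1 ∧ i * j ≠ j * i := by
  refine ⟨w, sl2 1 1 1 (-1) (by decide), ?_, ?_, ?_⟩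
  · decide
  · decide
  · decide

open Cfsg.Agent.Lib.PGroup.Timmesfeld Cfsg.Agent.Lib.PGroup.FFPair Cfsg.Agent.Lib.PGroup.FFTv
  Cfsg.Agent.Lib.PGroup.FFDuo Cfsg.Agent.Lib.PGroup.FFDich Cfsg.Agent.Lib.PGroup.FFStruct

/-- The commutator of the p'-core with a minimal nontrivially-acting best offender is a 3-group (when p = 2) or a non-abelian 2-group (when p = 3). -/
theorem result {G : Type*} [Group G] [Finite G] {p : ℕ} [Fact p.Prime] (V H : Subgroup G) (hV : Cfsg.IsElementaryAbelian p V) (hHV : H ≤ Subgroup.normalizer (V : Set G)) (hf : H ⊓ Subgroup.centralizer (V : Set G) = ⊥) (hS1 : Subgroup.centralizer (Cfsg.pPrimeCore p ↥H : Set ↥H) ≤ Cfsg.pPrimeCore p ↥H) (hS3 : H = ⨆ A : {A : Subgroup G // A ≤ H ∧ Cfsg.IsBestOffenderOn p V A}, (A : Subgroup G)) (hH1 : H ≠ ⊥) (A : Subgroup G) (hAH : A ≤ H) (hA : Cfsg.IsBestOffenderOn p V A) (hAV : ⁅V, A⁆ ≠ ⊥) (hmin : ∀ B : Subgroup G, B ≤ A → Cfsg.IsBestOffenderOn p V B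 → ⁅V, B⁆ ≠ ⊥ → B = A) : (p = 2 ∧ IsPGroup 3 ↥(⁅((Cfsg.pPrimeCore p ↥H).map H.subtype), A⁆)) ∨ (p = 3 ∧ IsPGroup 2 ↥(⁅((Cfsg.pPrimeCore p ↥H).map H.subtype), A⁆) ∧ ¬ IsMulCommutative ↥(⁅((Cfsg.pPrimeCore p ↥H).map H.subtype), A⁆)) := by
  have S : Setup p V H := ⟨hV, hHV, hf, hS1⟩
  obtain ⟨a, rfl, ha⟩ := isTv_of_minimal S hAH hA hAV hmin
  obtain ⟨x, hx, D⟩ := exists_duo S ha
  obtain ⟨d₁, d₂, f, -⟩ := exists_equiv_E S D
  have hKX := comm_core_le (p := p) (H := H) a ha.mem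
  have hKE := comm_core_le_E S D
  have hcardE : Nat.card (EE a (x * a * x⁻¹)) = p * (p ^ 2 - 1) := by
    rw [Nat.card_congr f.toEquiv, card_SL2, ZMod.card]
  have hcop : ∀ g ∈ ⁅core p H, Subgroup.zpowers a⁆, (orderOf g).Coprime p := fun g hg =>
    coprime_of_mem_core (hKX hg)
  have hdvd : ∀ g ∈ ⁅core p H, Subgroup.zpowers a⁆, orderOf g ∣ p * (p ^ 2 - 1) := fun g hg => by
    rw [← hcardE]
    exact Subgroup.orderOf_dvd_natCard _ (hKE hg)
  rcases p_eq S D with rfl | rfl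
  · left
    refine ⟨rfl, ?_⟩
    rw [IsPGroup.iff_orderOf]
    intro g
    have h1 := hdvd g.1 g.2
    have h2 := hcop g.1 g.2
    have h3 : orderOf g.1 ∣ 3 := by
      have h4 : (2 : ℕ) * (2 ^ 2 - 1) = 2 * 3 := by norm_num
      rw [h4] at h1
      exact h2.dvd_of_dvd_mul_left h1
    obtain ⟨k, -, hk⟩ := (Nat.dvd_prime_pow Nat.prime_three (m := 1)).mp (by simpa using h3)
    exact ⟨k, by simpa using hk⟩
  · right
    refine ⟨rfl, ?_, ?_⟩
    · rw [IsPGroup.iff_orderOf]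
      intro g
      have h1 := hdvd g.1 g.2
      have h2 := hcop g.1 g.2
      have h3 : orderOf g.1 ∣ 2 ^ 3 := by
        have h4 : (3 : ℕ) * (3 ^ 2 - 1) = 3 * 2 ^ 3 := by norm_num
        rw [h4] at h1
        exact h2.dvd_of_dvd_mul_left h1
      obtain ⟨k, -, hk⟩ := (Nat.dvd_prime_pow Nat.prime_two).mp h3
      exact ⟨k, by simpa using hk⟩
    · intro hK
      obtain ⟨i, j, hi, hj, hij⟩ := exists_noncomm
      have hmem : ∀ m : SL(2, ZMod 3), m ^ 4 = 1 → (f.symm m).1 ∈ ⁅core 3 H, Subgroup.zpowers a⁆ := by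
        intro m hm
        apply mem_comm_of_mem_core S hx D (f.symm m).2
        apply mem_core_of_pow_eq_one S D (f.symm m).2 (n := 4) (by norm_num)
        have h1 : (f.symm m) ^ 4 = 1 := by
          rw [← map_pow, hm, map_one]
        simpa using congrArg Subtype.val h1
      have h1 := hK.is_comm.comm ⟨_, hmem i hi⟩ ⟨_, hmem j hj⟩
      have h2 : (f.symm i).1 * (f.symm j).1 = (f.symm j).1 * (f.symm i).1 := by
        simpa using congrArg Subtype.val h1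
      have h3 : f.symm i * f.symm j = f.symm j * f.symm i := Subtype.ext h2
      apply hij
      have h4 := congrArg f h3
      simpa using h4

end Cfsg.Agent.S0614
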