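import Cfsg.Statements.S0619
import Cfsg.Agent.Lib.PGroup.FFTrans
import Mathlib

set_option autoImplicit false
open Cfsg

namespace Cfsg.Agent.S0619

open Cfsg.Agent.Lib.PGroup.FFTrans Cfsg.Agent.Lib.PGroup.Timmesfeld
open scoped commutatorElement

variable {G : Type*} [Group G] [Finite G] {p : ℕ} [Fact p.Prime]

/-- `(A ∩ C) V` is again of largest order, and lies in `C`. -/
theorem sup_mem_maxEA {V : Subgroup G} [V.Normal] (hV : Cfsg.IsElementaryAbelian p V) (hsep : Cfsg.IsPSolvable p G)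
    (hOC : ∀ D : Subgroup G, D.Normal → Subgroup.centralizer (V : Set G) ≤ D →
      (∃ k : ℕ, (Subgroup.centralizer (V : Set G)).relIndex D = p ^ k) →
      D = Subgroup.centralizer (V : Set G)) {A : Subgroup G}
    (hA : A ∈ Cfsg.maxElementaryAbelianSubgroups p G) :
    (A ⊓ Subgroup.centralizer (V : Set G)) ⊔ V ∈ Cfsg.maxElementaryAbelianSubgroups p G := by
  have hAc : ∀ x ∈ A, ∀ y ∈ A, x * y = y * x := fun x hx y hy =>
    congrArg Subtype.val (hA.1.1.is_comm.comm ⟨x, hx⟩ ⟨y, hy⟩)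
  have hcomm : ∀ a ∈ A ⊓ Subgroup.centralizer (V : Set G), ∀ v ∈ V, a * v = v * a := by
    intro a ha v hv
    exact (Subgroup.mem_centralizer_iff.mp ha.2 v hv).symm
  have hEA₁ : Cfsg.IsElementaryAbelian p (A ⊓ Subgroup.centralizer (V : Set G)) := by
    refine ⟨⟨⟨?_⟩⟩, fun a ha => hA.1.2 a ha.1⟩
    rintro ⟨x, hx⟩ ⟨y, hy⟩
    exact Subtype.ext (hAc x hx.1 y hy.1)
  have hE := isEA_sup hEA₁ hV hcomm
  refine ⟨hE, fun B hB => (hA.2 B hB).trans ?_⟩
  have hn : A ⊓ Subgroup.centralizer (V : Set G) ≤ Subgroup.normalizer (V : Set G) :=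
    fun a _ => Subgroup.mem_normalizer_iff.mpr (fun v => by
      have hVn : V.Normal := inferInstance
      constructor
      · intro hv; exact hVn.conj_mem v hv a
      · intro hv
        have := hVn.conj_mem _ hv a⁻¹
        simpa [mul_assoc] using this)
  have h1 := card_sup_mul_card_inf_of_le_normalizer _ V hn
  have h2 := card_formula hV hsep hOC hA
  have hle : Nat.card ↥((A ⊓ Subgroup.centralizer (V : Set G)) ⊓ V) ≤
      Nat.card ↥(V ⊓ Subgroup.centralizer (A : Set G)) := by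
    apply Subgroup.card_le_of_le
    intro x hx
    refine Subgroup.mem_inf.mpr ⟨hx.2, ?_⟩
    rw [Subgroup.mem_centralizer_iff]
    intro a ha
    exact hAc a ha x hx.1.1
  have hpos : 0 < Nat.card ↥(V ⊓ Subgroup.centralizer (A : Set G)) := Nat.card_pos
  apply Nat.le_of_mul_le_mul_right _ hpos
  calc Nat.card A * Nat.card ↥(V ⊓ Subgroup.centralizer (A : Set G))
      = Nat.card ↥(A ⊓ Subgroup.centralizer (V : Set G)) * Nat.card V := by rw [h2, mul_comm]
    _ = Nat.card ↥((A ⊓ Subgroup.centralizer (V : Set G)) ⊔ V) * Nat.card ↥((A ⊓ Subgroup.centralizer (V : Set G)) ⊓ V) := h1.symm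
    _ ≤ _ := Nat.mul_le_mul_left _ hle

/-- For a p-separable group and a normal elementary abelian p-subgroup V with no nontrivial normal p-subgroup modulo its centralizer C, the Thompson subgroup J(G) moves Ω₁(Z(J(C))) only inside V. -/
theorem result {G : Type*} [Group G] [Finite G] {p : ℕ} [Fact p.Prime] (hsep : Cfsg.IsPSolvable p G) (V : Subgroup G) [V.Normal] (hV : Cfsg.IsElementaryAbelian p V) (hO : Cfsg.pCore p (G ⧸ Subgroup.centralizer (V : Set G)) = ⊥) : ⁅Cfsg.omegaOne p (Cfsg.centerThompsonOf p (Subgroup.centralizer (V : Set G))), Cfsg.thompsonSubgroup p G⁆ ≤ V := by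
  have hOC := hOC_of_pCore_eq_bot hO
  set C := Subgroup.centralizer (V : Set G) with hC
  have hVab : ∀ x ∈ V, ∀ y ∈ V, x * y = y * x := fun x hx y hy =>
    congrArg Subtype.val (hV.1.is_comm.comm ⟨x, hx⟩ ⟨y, hy⟩)
  have hVC : V ≤ C := by
    intro v hv
    rw [hC, Subgroup.mem_centralizer_iff]
    intro w hw
    exact hVab w hw v hv
  -- the key containment
  have hU : ∀ A ∈ Cfsg.maxElementaryAbelianSubgroups p G,
      Cfsg.omegaOne p (Cfsg.centerThompsonOf p C) ≤ (A ⊓ C) ⊔ V := by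
    intro A hA
    have hA₀ := sup_mem_maxEA hV hsep hOC hA
    rw [← hC] at hA₀
    set A₀ := (A ⊓ C) ⊔ V with hA₀def
    have hA₀C : A₀ ≤ C := sup_le inf_le_right hVC
    have hA₁ : A₀.subgroupOf C ∈ Cfsg.maxElementaryAbelianSubgroups p ↥C := by
      refine ⟨⟨⟨⟨?_⟩⟩, ?_⟩, ?_⟩
      · rintro ⟨⟨x, hx⟩, hx'⟩ ⟨⟨y, hy⟩, hy'⟩
        have h1 : x ∈ A₀ := Subgroup.mem_subgroupOf.mp hx'
        have h2 : y ∈ A₀ := Subgroup.mem_subgroupOf.mp hy'
        apply Subtype.ext
        apply Subtype.ext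
        show x * y = y * x
        exact congrArg Subtype.val (hA₀.1.1.is_comm.comm ⟨x, h1⟩ ⟨y, h2⟩)
      · rintro ⟨x, hx⟩ hx'
        apply Subtype.ext
        exact hA₀.1.2 x (Subgroup.mem_subgroupOf.mp hx')
      · intro B hB
        have hBE : Cfsg.IsElementaryAbelian p (B.map C.subtype) := by
          refine ⟨⟨⟨?_⟩⟩, ?_⟩
          · rintro ⟨_, ⟨x, hx, rfl⟩⟩ ⟨_, ⟨y, hy, rfl⟩⟩
            apply Subtype.ext
            have := hB.1.is_comm.comm ⟨x, hx⟩ ⟨y, hy⟩
            exact congrArg (fun z => ((z : ↥C) : G)) (congrArg Subtype.val this)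
          · rintro _ ⟨x, hx, rfl⟩
            have := hB.2 x hx
            exact congrArg Subtype.val this
        have h1 := hA₀.2 _ hBE
        have h2 : Nat.card ↥(B.map C.subtype) = Nat.card B :=
          (Nat.card_congr (Subgroup.equivMapOfInjective _ _ C.subtype_injective).toEquiv).symm
        have h3 : Nat.card ↥(A₀.subgroupOf C) = Nat.card A₀ :=
          Nat.card_congr (Subgroup.subgroupOfEquivOfLe hA₀C).toEquiv
        rw [h3, ← h2]
        exact h1
    have hA₀J : A₀ ≤ Cfsg.thompsonSubgroupOf p C := by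
      intro x hx
      refine ⟨⟨x, hA₀C hx⟩, ?_, rfl⟩
      exact (le_sSup hA₁ : A₀.subgroupOf C ≤ _) (Subgroup.mem_subgroupOf.mpr hx)
    rw [Cfsg.omegaOne, Subgroup.closure_le]
    rintro u ⟨hu, hup⟩
    have hcen := (Subgroup.mem_inf.mp hu).2
    exact mem_of_comm_maxEA hA₀ hup (fun a ha => Subgroup.mem_centralizer_iff.mp hcen a (hA₀J ha))
  rw [Subgroup.commutator_le]
  intro u hu j hj
  let M : Subgroup G := (Subgroup.centralizer {QuotientGroup.mk' V u}).comap (QuotientGroup.mk' V)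
  have hJM : Cfsg.thompsonSubgroup p G ≤ M := by
    apply sSup_le
    intro A hA a ha
    rw [Subgroup.mem_comap, Subgroup.mem_centralizer_singleton_iff]
    have hAc : ∀ x ∈ A, ∀ y ∈ A, x * y = y * x := fun x hx y hy =>
      congrArg Subtype.val (hA.1.1.is_comm.comm ⟨x, hx⟩ ⟨y, hy⟩)
    have hu' := hU A hA hu
    rw [← SetLike.mem_coe, Subgroup.mul_normal] at hu'
    obtain ⟨a₀, ha₀, v, hv, rfl⟩ := hu'
    have h1 : QuotientGroup.mk' V v = 1 := (QuotientGroup.eq_one_iff v).mpr hv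
    simp only [map_mul, h1, mul_one]
    rw [← map_mul, ← map_mul, hAc a ha a₀ ha₀.1]
  have h1 := hJM hj
  rw [Subgroup.mem_comap, Subgroup.mem_centralizer_singleton_iff] at h1
  have h2 : QuotientGroup.mk' V ⁅u, j⁆ = 1 := by
    rw [commutatorElement_def]
    simp only [map_mul, map_inv]
    rw [← h1]
    group
  exact (QuotientGroup.eq_one_iff _).mp h2

end Cfsg.Agent.S0619
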