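import Cfsg.Statements.S0620
import Cfsg.Agent.Lib.PGroup.FFOperK
import Mathlib

set_option autoImplicit false
open Cfsg

namespace Cfsg.Agent.S0620

open Cfsg.Agent.Lib.PGroup.FFOperK Cfsg.Agent.Lib.PGroup.FFTrans Cfsg.Agent.Lib.PGroup.FFStruct
open Cfsg.Agent.Lib.Coprime.Three (mem_normalizer_of_conj_mem)

/-- Under coprime action of an elementary abelian q-group X on a p-separable group K with trivial p'-core, K is generated by the normalizer of J(S), the centralizer of Ω₁(Z(S)) and the fixed points of X. -/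
theorem result {G : Type*} [Group G] [Finite G] {p : ℕ} [Fact p.Prime] {q : ℕ} [Fact q.Prime] (K X : Subgroup G) (hXK : X ≤ Subgroup.normalizer (K : Set G)) (hX : Cfsg.IsElementaryAbelian q X) (hq : ¬ q ∣ Nat.card K) (hsep : Cfsg.IsPSolvable p ↥K) (hO : Cfsg.pPrimeCore p ↥K = ⊥) (S : Sylow p ↥K) : (Subgroup.normalizer (Cfsg.thompsonSubgroupOf p (S : Subgroup ↥K) : Set ↥K) ⊔ Subgroup.centralizer (Cfsg.omegaOne p ((S : Subgroup ↥K) ⊓ Subgroup.centralizer ((S : Subgroup ↥K) : Set ↥K)) : Set ↥K) ⊔ (Subgroup.centralizer (X : Set G)).subgroupOf K) = ⊤ := by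
  classical
  obtain ⟨hS, hS3⟩ := ctx_setup p K hsep hO
  have hH := H_le_sSup hS hS3
  set L : Subgroup ↥K := Subgroup.normalizer (Cfsg.thompsonSubgroupOf p (S : Subgroup ↥K) : Set ↥K) ⊔ Subgroup.centralizer (Cfsg.omegaOne p ((S : Subgroup ↥K) ⊓ Subgroup.centralizer ((S : Subgroup ↥K) : Set ↥K)) : Set ↥K) ⊔ (Subgroup.centralizer (X : Set G)).subgroupOf K with hL
  have hN : Subgroup.normalizer (Cfsg.thompsonSubgroupOf p (S : Subgroup ↥K) : Set ↥K) ≤ L :=
    le_sup_left.trans le_sup_left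
  have hC : Subgroup.centralizer (Cfsg.omegaOne p ((S : Subgroup ↥K) ⊓ Subgroup.centralizer ((S : Subgroup ↥K) : Set ↥K)) : Set ↥K) ≤ L :=
    le_sup_right.trans le_sup_left
  have hX' : (Subgroup.centralizer (X : Set G)).subgroupOf K ≤ L := le_sup_right
  -- a Sylow subgroup normalizes its Thompson subgroup
  have hLS : (S : Subgroup ↥K) ≤ L := by
    refine le_trans ?_ hN
    intro s hs
    apply mem_normalizer_of_conj_mem
    rintro _ ⟨j, hj, rfl⟩
    haveI hJc : (Cfsg.thompsonSubgroup p ↥(S : Subgroup ↥K)).Characteristic :=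
      (Cfsg.Agent.S0602.result (p := p) (G := ↥(S : Subgroup ↥K))).1
    haveI hJn : (Cfsg.thompsonSubgroup p ↥(S : Subgroup ↥K)).Normal := Subgroup.normal_of_characteristic _
    exact ⟨_, hJn.conj_mem j hj ⟨s, hs⟩, rfl⟩
  have hCL : Subgroup.centralizer ((VV p ↥K : Subgroup ↥K) : Set ↥K) ≤ L := by
    refine le_trans (Subgroup.centralizer_le ?_) hC
    exact (le_iSup (fun S : Sylow p ↥K => Cfsg.omegaOne p ((S : Subgroup ↥K) ⊓ Subgroup.centralizer ((S : Subgroup ↥K) : Set ↥K))) S)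
  have hHL : HK K p ≤ L.map (pi (VV p ↥K)) := by
    rw [← idx_iSup hS hH]
    apply iSup_le
    intro E
    exact E_le K X hXK hX hq hsep hO S L hLS hX' E
  have hJL : Cfsg.thompsonSubgroup p ↥K ≤ L := by
    intro j hj
    obtain ⟨l, hl, hlj⟩ := hHL (⟨j, hj, rfl⟩ : pi (VV p ↥K) j ∈ HK K p)
    have hc : l⁻¹ * j ∈ Subgroup.centralizer ((VV p ↥K : Subgroup ↥K) : Set ↥K) := by
      rw [← pi_eq_one_iff, map_mul, map_inv, hlj]
      group
    have : j = l * (l⁻¹ * j) := by group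
    rw [this]
    exact L.mul_mem hl (hCL hc)
  haveI hJc : (Cfsg.thompsonSubgroup p ↥K).Characteristic :=
    (Cfsg.Agent.S0602.result (p := p) (G := ↥K)).1
  haveI hJn : (Cfsg.thompsonSubgroup p ↥K).Normal := Subgroup.normal_of_characteristic _
  haveI hCn : (Subgroup.centralizer ((VV p ↥K : Subgroup ↥K) : Set ↥K)).Normal := Subgroup.normal_centralizer
  rw [eq_top_iff]
  intro g _
  obtain ⟨d, hd, n, hn, rfl⟩ := exists_frattini (Cfsg.thompsonSubgroup p ↥K ⊔ Subgroup.centralizer ((VV p ↥K : Subgroup ↥K) : Set ↥K)) le_sup_left S g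
  exact L.mul_mem ((sup_le hJL hCL) hd) (hN hn)

end Cfsg.Agent.S0620
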