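import Cfsg.Statements.S0621
import Cfsg.Agent.Lib.PGroup.FFNorm
import Mathlib
-- import your own Cfsg.Agent.* helpers here

set_option autoImplicit false
open Cfsg

namespace Cfsg.Agent.S0621

open scoped commutatorElement
open Cfsg.Agent.Lib.PGroup.FFOperK Cfsg.Agent.Lib.PGroup.FFTrans Cfsg.Agent.Lib.PGroup.FFStruct
  Cfsg.Agent.Lib.PGroup.FFPair Cfsg.Agent.Lib.PGroup.FFNorm Cfsg.Agent.Lib.PGroup.FFOper
open Cfsg.Agent.Lib.Coprime.Three (mem_normalizer_of_conj_mem)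

/-- Let K be p-separable with O_p'(K) = 1, normalized by an elementary abelian q-group X for a prime q not dividing the order of K. If the Thompson factorization fails in K, then p is 2 or 3 and the fixed points of X contain a plane W of order p² and a subgroup inducing SL(2, p) on it. -/
theorem result {G : Type*} [Group G] [Finite G] {p : ℕ} [Fact p.Prime] {q : ℕ} [Fact q.Prime] (K X : Subgroup G) (hXK : X ≤ Subgroup.normalizer (K : Set G)) (hX : Cfsg.IsElementaryAbelian q X) (hq : ¬ q ∣ Nat.card K) (hsep : Cfsg.IsPSolvable p ↥K) (hO : Cfsg.pPrimeCore p ↥K = ⊥) (hnf : ¬ Cfsg.IsThompsonFactorizable p ↥K) : (p = 2 ∨ p = 3) ∧ ∃ W D : Subgroup G, W ≤ K ⊓ Subgroup.centralizer (X : Set G) ∧ D ≤ K ⊓ Subgroup.centralizer (X : Set G) ∧ Cfsg.IsElementaryAbelian p W ∧ Nat.card W = p ^ 2 ∧ D ≤ Subgroup.normalizer (W : Set G) ∧ ∃ hn : ((Subgroup.centralizer (W : Set G)).subgroupOf D).Normal, Nonempty ((↥D ⧸ (Subgroup.centralizer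 (W : Set G)).subgroupOf D) ≃* Matrix.SpecialLinearGroup (Fin 2) (ZMod p)) := by
  classical
  have hc := Cfsg.Agent.Lib.Solvable.PSeries.centralizer_pCore_le hsep hO
  obtain ⟨hVn, hV, hOC⟩ := Cfsg.Agent.S0601.result hc
  have hJ := (Cfsg.Agent.S0608.result hO).not.mp hnf
  obtain ⟨S, hS3⟩ := ctx_setup p K hsep hO
  have hHs := H_le_sSup S hS3
  have hHne : HK K p ≠ ⊥ := by
    intro h
    apply hJ
    intro j hj
    have : pi (VV p ↥K) j ∈ HK K p := ⟨j, hj, rfl⟩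
    rw [h, Subgroup.mem_bot] at this
    exact (pi_eq_one_iff j).mp this
  have hne : ({A | IsMinBO p (V0 (VV p ↥K)) (HK K p) A} : Set (Subgroup (TT (VV p ↥K)))).Nonempty := by
    by_contra hno
    rw [Set.not_nonempty_iff_eq_empty] at hno
    rw [hno, sSup_empty] at hHs
    exact hHne (le_bot_iff.mp hHs)
  obtain ⟨A, hAH, hAb, hAV, hAmin⟩ := hne
  let E : Idx p (V0 (VV p ↥K)) (HK K p) := ⟨_, A, hAH, hAb, hAV, hAmin, rfl⟩
  obtain ⟨hq2, hq3⟩ := q_ne K S hq E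
  obtain ⟨hp23, -, -⟩ := idx_data S E
  refine ⟨hp23, ?_⟩
  have hpg := isPGroup_X X hX
  haveI : Fintype ↥X := Fintype.ofFinite _
  haveI hcomm : IsMulCommutative ↥(V0 (VV p ↥K)) := (isEA_V0 hV).1
  have hqE : ¬ q ∣ Nat.card E.1 := fun h => hq (h.trans (card_E_dvd K (idx_E_le S E)))
  obtain ⟨Ŵ, F, hŴV, hŴc, hŴfix, hFH, hfixH, hnF, ⟨eQ⟩, hlift⟩ :=
    plane_data S hHs hpg (tK K X hXK p) (htV K X hXK) (htH K X hXK) hq2 hq3 E hqE
  -- pullback
  let inlV : ↥(VV p ↥K) →* TT (VV p ↥K) := SemidirectProduct.inl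
  let W_K : Subgroup ↥K := (Ŵ.comap inlV).map (VV p ↥K).subtype
  let W : Subgroup G := W_K.map K.subtype
  let D_K : Subgroup ↥K := (Subgroup.centralizer (X : Set G)).subgroupOf K ⊓ (HK K p).comap (pi (VV p ↥K))
  let D : Subgroup G := D_K.map K.subtype
  have memW : ∀ v : ↥(VV p ↥K), inlV v ∈ Ŵ → (((v : ↥K)) : G) ∈ W := fun v hv =>
    ⟨_, ⟨v, hv, rfl⟩, rfl⟩
  have elimŴ : ∀ u ∈ Ŵ, ∃ v : ↥(VV p ↥K), inlV v = u := fun u hu => hŴV hu
  have hfixc : ∀ c : ↥K, (c : G) ∈ Subgroup.centralizer (X : Set G) → ∀ x : ↥X,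
      tK K X hXK p x * pi (VV p ↥K) c * (tK K X hXK p x)⁻¹ = pi (VV p ↥K) c := by
    intro c hc x
    have h1 := tt_pi (W := VV p ↥K) (phi K X hXK) (fun x _ hv => VV_char _ hv) x c
    have h2 : phi K X hXK x c = c := by
      apply Subtype.ext
      rw [phi_coe]
      have h3 := (Subgroup.mem_centralizer_iff.mp hc) x x.2
      rw [h3]
      group
    rw [h2] at h1
    exact h1
  have hW_KC : W ≤ K ⊓ Subgroup.centralizer (X : Set G) := by
    rintro _ ⟨_, ⟨v, hv, rfl⟩, rfl⟩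
    refine Subgroup.mem_inf.mpr ⟨(v : ↥K).2, ?_⟩
    rw [Subgroup.mem_centralizer_iff]
    intro x hx
    have h1 := tt_inl (W := VV p ↥K) (phi K X hXK) (fun x _ hv => VV_char _ hv) ⟨x, hx⟩ v
    have h2 := hŴfix _ hv ⟨x, hx⟩
    have h3 : (tK K X hXK p ⟨x, hx⟩) * inlV v * (tK K X hXK p ⟨x, hx⟩)⁻¹ = inlV v := h2
    have h4 := h1.symm.trans h3
    have h5 := SemidirectProduct.inl_injective h4
    have h6 : phi K X hXK ⟨x, hx⟩ (v : ↥K) = (v : ↥K) := congrArg Subtype.val h5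
    have h7 := congrArg Subtype.val h6
    rw [phi_coe] at h7
    have h8 : (x : G) * ((v : ↥K) : G) * x⁻¹ = ((v : ↥K) : G) := h7
    calc (x : G) * ((v : ↥K) : G) = (x * ((v : ↥K) : G) * x⁻¹) * x := by group
      _ = ((v : ↥K) : G) * x := by rw [h8]
  have hDC : D ≤ K ⊓ Subgroup.centralizer (X : Set G) := by
    rintro _ ⟨c, hc, rfl⟩
    exact Subgroup.mem_inf.mpr ⟨c.2, Subgroup.mem_subgroupOf.mp (Subgroup.mem_inf.mp hc).1⟩
  have hEA : Cfsg.IsElementaryAbelian p W := by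
    constructor
    · refine ⟨⟨?_⟩⟩
      rintro ⟨_, _, ⟨v, hv, rfl⟩, rfl⟩ ⟨_, _, ⟨w, hw, rfl⟩, rfl⟩
      apply Subtype.ext
      have h1 := hV.1.is_comm.comm v w
      have h2 := congrArg (fun y : ↥(VV p ↥K) => (((y : ↥K)) : G)) h1
      exact h2
    · rintro _ ⟨_, ⟨v, hv, rfl⟩, rfl⟩
      have h1 := hV.2 _ v.2
      have h2 := congrArg (fun y : ↥K => (y : G)) h1
      exact h2
  have hcardW : Nat.card W = p ^ 2 := by
    have h1 : (Ŵ.comap inlV).map inlV = Ŵ := Subgroup.map_comap_eq_self (f := inlV) (by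
      intro u hu
      exact hŴV hu)
    have hinj : Function.Injective inlV := SemidirectProduct.inl_injective
    rw [← hŴc, ← h1, Subgroup.card_map_of_injective hinj]
    show Nat.card ↥(((Ŵ.comap inlV).map (VV p ↥K).subtype).map K.subtype) = _
    rw [Subgroup.card_map_of_injective K.subtype_injective, Subgroup.card_map_of_injective (VV p ↥K).subtype_injective]
  have hcD : ∀ c ∈ D_K, (c : G) ∈ Subgroup.centralizer (W : Set G) ↔ pi (VV p ↥K) c ∈ F := by
    intro c hc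
    obtain ⟨hc1, hc2⟩ := Subgroup.mem_inf.mp hc
    rw [← (hfixH _ hc2 (hfixc c (Subgroup.mem_subgroupOf.mp hc1))).2]
    constructor
    · intro h
      rw [Subgroup.mem_centralizer_iff]
      intro u hu
      obtain ⟨v, rfl⟩ := elimŴ u hu
      have h1 := (Subgroup.mem_centralizer_iff.mp h) _ (memW v hu)
      have h2 : c * (v : ↥K) = (v : ↥K) * c := Subtype.ext h1.symm
      exact ((commute_iff c v).mpr h2).symm
    · intro h
      rw [Subgroup.mem_centralizer_iff]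
      rintro _ ⟨_, ⟨v, hv, rfl⟩, rfl⟩
      have h1 := (Subgroup.mem_centralizer_iff.mp h) _ hv
      have h2 := (commute_iff c v).mp h1.symm
      exact (congrArg Subtype.val h2).symm
  have hDN : D ≤ Subgroup.normalizer (W : Set G) := by
    rintro _ ⟨c, hc, rfl⟩
    obtain ⟨hc1, hc2⟩ := Subgroup.mem_inf.mp hc
    apply mem_normalizer_of_conj_mem
    rintro _ ⟨_, ⟨v, hv, rfl⟩, rfl⟩
    have hN := (hfixH _ hc2 (hfixc c (Subgroup.mem_subgroupOf.mp hc1))).1
    have h1 := (Subgroup.mem_normalizer_iff.mp hN (inlV v)).mp hv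
    have h2 := inl_mul_pi (V := VV p ↥K) c v
    have h3 : pi (VV p ↥K) c * inlV v * (pi (VV p ↥K) c)⁻¹ ∈ Ŵ := h1
    have h4 : pi (VV p ↥K) c * inlV v * (pi (VV p ↥K) c)⁻¹ = inlV _ := h2
    rw [h4] at h3
    exact memW _ h3
  refine ⟨W, D, hW_KC, hDC, hEA, hcardW, hDN, ?_⟩
  haveI := hnF
  have hDK : D ≤ K := hDC.trans inf_le_left
  have hDK' : ∀ c : ↥D, Subgroup.inclusion hDK c ∈ D_K := by
    rintro ⟨_, c, hc, rfl⟩
    exact hc
  let f₁ : ↥D →* ↥(HK K p) := ((pi (VV p ↥K)).comp (Subgroup.inclusion hDK)).codRestrict (HK K p)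
    (fun c => (Subgroup.mem_inf.mp (hDK' c)).2)
  let f : ↥D →* ↥(HK K p) ⧸ F.subgroupOf (HK K p) := (QuotientGroup.mk' _).comp f₁
  have hker : (Subgroup.centralizer (W : Set G)).subgroupOf D = f.ker := by
    ext c
    rw [Subgroup.mem_subgroupOf, MonoidHom.mem_ker]
    show _ ↔ ((f₁ c : ↥(HK K p)) : ↥(HK K p) ⧸ F.subgroupOf (HK K p)) = 1
    rw [QuotientGroup.eq_one_iff, Subgroup.mem_subgroupOf]
    exact hcD _ (hDK' c)
  have hf : Function.Surjective f := by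
    intro y
    obtain ⟨h, rfl⟩ := QuotientGroup.mk'_surjective _ y
    obtain ⟨d, hd, hdfix, hdh⟩ := hlift h h.2
    obtain ⟨c, hcC, hcd⟩ := exists_fixed_lift K X hXK hX hq hd hdfix
    have hcD' : c ∈ D_K := Subgroup.mem_inf.mpr ⟨Subgroup.mem_subgroupOf.mpr hcC, by
      rw [Subgroup.mem_comap, hcd]
      exact hd⟩
    refine ⟨⟨c, c, hcD', rfl⟩, ?_⟩
    show QuotientGroup.mk' _ (f₁ _) = QuotientGroup.mk' _ h
    rw [QuotientGroup.mk'_apply, QuotientGroup.mk'_apply, QuotientGroup.eq, Subgroup.mem_subgroupOf]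
    have h1 : ((f₁ ⟨c, c, hcD', rfl⟩) : TT (VV p ↥K)) = d := hcd
    simp only [Subgroup.coe_mul, InvMemClass.coe_inv, h1]
    exact hdh
  haveI hn : ((Subgroup.centralizer (W : Set G)).subgroupOf D).Normal := by
    rw [hker]
    infer_instance
  exact ⟨hn, ⟨(QuotientGroup.quotientMulEquivOfEq hker).trans
    ((QuotientGroup.quotientKerEquivOfSurjective f hf).trans eQ)⟩⟩

end Cfsg.Agent.S0621
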