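import Cfsg.Statements.S0625
import Mathlib
import Cfsg.Agent.Lib.Solvable.Stability
import Cfsg.Prelude.Def_PLocal

set_option autoImplicit false
open Cfsg

namespace Cfsg.Agent.S0625

open Subgroup Cfsg.Agent.Lib.Basic.PCore Cfsg.Agent.Lib.Solvable.PSeries
open Cfsg.Agent.Lib.Solvable.Stability
open scoped commutatorElement

set_option linter.style.haveILetI false

/-- Stability on a section. -/
theorem section_stable {G : Type*} [Group G] [Finite G] {p : ℕ} [Fact p.Prime] (hp : 5 ≤ p)
    (hsep : Cfsg.IsPSolvable p G) (K N : Subgroup G) [hKn : K.Normal] [hNn : N.Normal]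
    (hK : IsPGroup p K) : IsPStableOnSection p K N := by
  classical
  intro a hquad
  set π : G →* G ⧸ N := QuotientGroup.mk' N with hπ
  have hπs : Function.Surjective π := QuotientGroup.mk'_surjective N
  set Kb : Subgroup (G ⧸ N) := K.map π with hKb
  haveI hKbn : Kb.Normal := Subgroup.Normal.map hKn π hπs
  have hKbp : IsPGroup p Kb := hK.map π
  set Cb : Subgroup (G ⧸ N) := centralizer (Kb : Set (G ⧸ N)) with hCb
  haveI hCbn : Cb.Normal := Subgroup.normal_centralizer
  set ρ : G ⧸ N →* (G ⧸ N) ⧸ Cb := QuotientGroup.mk' Cb with hρ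
  have hρs : Function.Surjective ρ := QuotientGroup.mk'_surjective Cb
  have hsec : sectionKernel K N = (ρ.comp π).ker := by
    ext x
    rw [MonoidHom.mem_ker, MonoidHom.comp_apply]
    show π x ∈ Cb ↔ _
    exact (QuotientGroup.eq_one_iff (π x)).symm
  have hs : Function.Surjective (ρ.comp π) := hρs.comp hπs
  refine ⟨(pCore p ((G ⧸ N) ⧸ Cb)).comap (ρ.comp π), Subgroup.Normal.comap (pCore_normal p _) _, ?_, ?_, ?_⟩
  · rw [hsec]
    intro x hx
    have hx' : (ρ.comp π) x = 1 := hx
    exact Subgroup.mem_comap.mpr (by rw [hx']; exact Subgroup.one_mem _)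
  · obtain ⟨k, hk⟩ := IsPGroup.iff_card.mp (pCore_isPGroup p (G := (G ⧸ N) ⧸ Cb))
    refine ⟨k, ?_⟩
    rw [hsec, ← MonoidHom.comap_bot, Subgroup.relIndex_comap,
      Subgroup.map_comap_eq_self_of_surjective hs, Subgroup.relIndex_bot_left, hk]
  · have hsq : SectionQuad p (π a) Kb := by
      apply sectionQuad_of_quadratic
      rintro _ ⟨x, hx, rfl⟩
      have h1 : a * x * a⁻¹ * x⁻¹ ∈ ⁅K, zpowers a⁆ := by
        have h2 := Subgroup.commutator_mem_commutator hx (mem_zpowers a)
        have h3 := inv_mem h2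
        simpa [commutatorElement_def, mul_assoc] using h3
      have h2 := hquad (Subgroup.commutator_mem_commutator h1 (mem_zpowers a))
      have h3 : π ⁅a * x * a⁻¹ * x⁻¹, a⁆ = 1 := (QuotientGroup.eq_one_iff _).mpr h2
      rw [map_commutatorElement, commutatorElement_eq_one_iff_mul_comm] at h3
      have h4 : π (a * x * a⁻¹ * x⁻¹) = π a * π x * (π a)⁻¹ * (π x)⁻¹ := by
        simp only [map_mul, map_inv]
      rw [← h4, ← h3, mul_inv_cancel_right]
    have h1 := stable_core (p := p) (Or.inl hp) (isPSolvable_quotient hsep N) Kb hKbp (π a) hsq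
    exact h1

/-- A p-separable group with p at least 5 is p-stable in the action sense. -/
theorem result {G : Type*} [Group G] [Finite G] {p : ℕ} [Fact p.Prime] (hp : 5 ≤ p) (hsep : Cfsg.IsPSolvable p G) : Cfsg.IsActionPStable p G := by
  classical
  refine ⟨?_, ?_, ?_⟩
  · intro V _ hV
    apply isPStableOn (Or.inl hp) hsep V
    intro x
    refine ⟨1, Subtype.ext ?_⟩
    simpa using hV.2 x x.2
  · exact section_stable hp hsep _ _ (pCore_isPGroup p)
  · intro S V _ hV
    apply isPStableOn (Or.inl hp) (isPSolvable_subgroup hsep _) V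
    have h1 : IsPGroup p (V.map (normalizer (thompsonSubgroupOf p (S : Subgroup G) : Set G)).subtype) := by
      refine IsPGroup.to_le ?_ hV
      exact (IsPGroup.map (S.isPGroup'.to_subgroup _) _)
    exact h1.of_equiv (V.equivMapOfInjective _ (subtype_injective _)).symm

end Cfsg.Agent.S0625
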