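import Cfsg.Statements.S0627
import Mathlib
import Cfsg.Agent.S0624
import Cfsg.Agent.S0625
import Cfsg.Agent.Lib.Solvable.ModCore
import Cfsg.Agent.Lib.PGroup.StableClosure
import Cfsg.Agent.Lib.Solvable.PSeries
-- import your own Cfsg.Agent.* helpers here

set_option autoImplicit false
open Cfsg

namespace Cfsg.Agent.S0627

set_option linter.style.haveILetI false

open Subgroup Cfsg.Agent.Lib.Basic.PCore Cfsg.Agent.Lib.Solvable.ModCore
open Cfsg.Agent.Lib.Solvable.PSeries

/-- In a p-separable group with p at least 5, the normalizer of W(S) supplements the largest normal subgroup of order prime to p. -/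
theorem result {G : Type*} [Group G] [Finite G] {p : ℕ} [Fact p.Prime] (hp : 5 ≤ p) (hsep : Cfsg.IsPSolvable p G) (S : Sylow p G) : Cfsg.pPrimeCore p G ⊔ Subgroup.normalizer (((Cfsg.stableNormalClosure p ↥(S : Subgroup G)).map (S : Subgroup G).subtype) : Set G) = ⊤ := by
  classical
  set K := Cfsg.pPrimeCore p G with hK
  haveI hKn : K.Normal := pPrimeCore_normal p G
  have hKc : (Nat.card K).Coprime p := pPrimeCore_coprime p
  set Z : Subgroup G := (Cfsg.stableNormalClosure p ↥(S : Subgroup G)).map (S : Subgroup G).subtype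
    with hZ
  have hZp : IsPGroup p Z := by
    apply S.isPGroup'.to_le
    rw [hZ]
    exact map_subtype_le _
  refine frattini_of_normal_image K hKc Z hZp ?_
  have hsep' : Cfsg.IsPSolvable p (G ⧸ K) := isPSolvable_quotient hsep K
  have hO' : Cfsg.pPrimeCore p (G ⧸ K) = ⊥ := pPrimeCore_quotient p
  have hst : Cfsg.IsActionPStable p (G ⧸ K) := Cfsg.Agent.S0625.result hp hsep'
  have hc : Subgroup.centralizer (Cfsg.pCore p (G ⧸ K) : Set (G ⧸ K)) ≤ Cfsg.pCore p (G ⧸ K) :=
    centralizer_pCore_le hsep' hO'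
  have hn := Cfsg.Agent.S0624.result hst hc (sylowImage K S)
  have heq : Z.map (QuotientGroup.mk' K) = (Cfsg.stableNormalClosure p ↥(sylowImage K S : Subgroup (G ⧸ K))).map
      (sylowImage K S : Subgroup (G ⧸ K)).subtype := by
    rw [← Cfsg.Agent.Lib.PGroup.StableClosure.stableNormalClosure_map (sylowEquiv K hKc S), hZ]
    ext x
    constructor
    · rintro ⟨_, ⟨y, hy, rfl⟩, rfl⟩
      exact ⟨sylowEquiv K hKc S y, ⟨y, hy, rfl⟩, rfl⟩
    · rintro ⟨_, ⟨y, hy, rfl⟩, rfl⟩
      exact ⟨(y : G), ⟨y, hy, rfl⟩, rfl⟩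
  rw [heq]
  exact hn

end Cfsg.Agent.S0627
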