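import Cfsg.Statements.S0630
import Mathlib
import Cfsg.Agent.Lib.PGroup.PConstr
-- import your own Cfsg.Agent.* helpers here

set_option autoImplicit false
open Cfsg

namespace Cfsg.Agent.S0630

open Subgroup Cfsg Cfsg.Agent.Lib.PGroup.PConstr Cfsg.Agent.Lib.Components.PConstrained Cfsg.Agent.Lib.Components.PComponent Cfsg.Agent.Lib.Basic.PCore

/-- p-constraint passes to and from the quotient by the largest normal subgroup of order prime to p. -/
theorem result {G : Type*} [Group G] [Finite G] {p : ℕ} [Fact p.Prime] : Cfsg.IsPConstrained p G ↔ Cfsg.IsPConstrained p (G ⧸ Cfsg.pPrimeCore p G) := by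
  exact isPConstrained_iff_of_surjective (QuotientGroup.mk' (pPrimeCore p G))
    (QuotientGroup.mk'_surjective _) (by
      rw [QuotientGroup.ker_mk']
      exact Cfsg.Agent.Lib.Components.Transport.coprime_card_pPrimeCore p)


end Cfsg.Agent.S0630
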