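import Cfsg.Statements.S0633
import Mathlib
import Cfsg.Agent.Lib.HallHigman.TheoremB
-- import your own Cfsg.Agent.* helpers here

set_option autoImplicit false
open Cfsg

namespace Cfsg.Agent.S0633

/-- Theorem B of Hall and Higman on the minimal polynomial of a p-element of order p^n in a p-solvable linear group on a nonzero vector space in characteristic p with no nontrivial normal p-subgroup: its degree is p^n, except when some p^n₀ - 1 (n₀ ≤ n) is a power of a prime q for which the Sylow q-subgroups are non-abelian, in which case the degree is at least p^(n-n₀)(p^n₀ - 1). -/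
theorem result {F : Type*} [Field F] {p : ℕ} [Fact p.Prime] [CharP F p] {V : Type*} [AddCommGroup V] [Module F V] [FiniteDimensional F V] [Nontrivial V] (H : Subgroup (V ≃ₗ[F] V)) [Finite H] (hsol : Cfsg.IsPSolvable p H) (hOp : Cfsg.pCore p H = ⊥) (x : V ≃ₗ[F] V) (hx : x ∈ H) (n : ℕ) (hn : orderOf x = p ^ n) (r : ℕ) (hr : minpoly F (x : Module.End F V) = (Polynomial.X - 1) ^ r) : r = p ^ n ∨ ∃ n₀ q m : ℕ, 1 ≤ n₀ ∧ n₀ ≤ n ∧ q.Prime ∧ 1 ≤ m ∧ p ^ n₀ - 1 = q ^ m ∧ (∀ Q : Sylow q H, ¬ IsMulCommutative Q) ∧ p ^ (n - n₀) * (p ^ n₀ - 1) ≤ r := by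
  classical
  haveI : CharP (AlgebraicClosure F) p := inferInstance
  let K := AlgebraicClosure F
  let W := TensorProduct F K V
  haveI : Nontrivial W := by
    apply Module.nontrivial_of_finrank_pos (R := K)
    rw [show Module.finrank K W = Module.finrank F V from Module.finrank_baseChange]
    exact Module.finrank_pos
  let ρ₀ : H →* Module.End F V :=
    { toFun := fun h => ((h : V ≃ₗ[F] V) : V →ₗ[F] V)
      map_one' := rfl
      map_mul' := fun _ _ => rfl }
  have hρ₀ : Function.Injective ρ₀ := by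
    intro a b hab
    apply Subtype.ext
    exact LinearEquiv.toLinearMap_injective hab
  let ρ : H →* Module.End K W := ((Module.End.baseChangeHom F K V).toMonoidHom).comp ρ₀
  have hρ : Function.Injective ρ := by
    intro a b hab
    apply hρ₀
    exact LinearMap.baseChangeHom_injective F V K hab
  have hxpow : (x : Module.End F V) ^ (p ^ n) = 1 := by
    have h1 : x ^ p ^ n = 1 := by rw [← hn]; exact pow_orderOf_eq_one x
    have h2 : ((x ^ p ^ n : V ≃ₗ[F] V) : Module.End F V) = (x : Module.End F V) ^ (p ^ n) := by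
      let φ : (V ≃ₗ[F] V) →* Module.End F V :=
        { toFun := fun h => (h : V →ₗ[F] V)
          map_one' := rfl
          map_mul' := fun _ _ => rfl }
      exact map_pow φ x (p ^ n)
    rw [← h2, h1]
    rfl
  have hrz : ((x : Module.End F V) - 1) ^ r = 0 := by
    have h1 := minpoly.aeval F (x : Module.End F V)
    rw [hr] at h1
    simpa using h1
  have hs : (ρ ⟨x, hx⟩ - 1) ^ r = 0 := by
    have e : ρ ⟨x, hx⟩ - 1 = Module.End.baseChangeHom F K V ((x : Module.End F V) - 1) := by
      rw [map_sub, map_one]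
      rfl
    rw [e, ← map_pow, hrz, map_zero]
  have hx' : orderOf (⟨x, hx⟩ : H) = p ^ n := by
    rw [Subgroup.orderOf_mk, hn]
  rcases Cfsg.Agent.Lib.HallHigman.TheoremB.theorem_b_closed (K := K) ρ hρ hsol hOp ⟨x, hx⟩ n hx' r hs with
    h1 | ⟨n₀, q, m, h1, h2, h3, h4, h5, h6, h7⟩
  · left
    apply le_antisymm _ h1
    have h2 : minpoly F (x : Module.End F V) ∣ (Polynomial.X - 1) ^ (p ^ n) := by
      apply minpoly.dvd
      have e : (Polynomial.X - 1 : Polynomial F) ^ (p ^ n) = Polynomial.X ^ (p ^ n) - 1 := by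
        rw [sub_pow_char_pow]
        simp
      rw [e]
      simp [hxpow]
    rw [hr] at h2
    have h3 : ¬ IsUnit (Polynomial.X - 1 : Polynomial F) := by
      have := Polynomial.not_isUnit_X_sub_C (1 : F)
      simpa using this
    have h4 : (Polynomial.X - 1 : Polynomial F) ≠ 0 := by
      have := Polynomial.X_sub_C_ne_zero (1 : F)
      simpa using this
    exact (pow_dvd_pow_iff h4 h3).mp h2
  · exact Or.inr ⟨n₀, q, m, h1, h2, h3, h4, h5, h6, h7⟩

end Cfsg.Agent.S0633
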