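import Cfsg.Statements.S0634
import Mathlib
import Cfsg.Agent.Lib.Solvable.PSeries
-- import your own Cfsg.Agent.* helpers here

set_option autoImplicit false
open Cfsg

namespace Cfsg.Agent.S0634

open Cfsg.Agent.Lib.Solvable.PSeries

/-- In a p-soluble group each p-factor of the upper p-series contains its own centralizer in the corresponding quotient. -/
theorem result {G : Type*} [Group G] [Finite G] {p : ℕ} [Fact p.Prime] (hsol : Cfsg.IsPSolvable p G) (k : ℕ) : Subgroup.centralizer ((((Cfsg.upperPSeries p G (2 * k + 2)).1.map (QuotientGroup.mk' (Cfsg.upperPSeries p G (2 * k + 1)).1)) : Subgroup (G ⧸ (Cfsg.upperPSeries p G (2 * k + 1)).1)) : Set (G ⧸ (Cfsg.upperPSeries p G (2 * k + 1)).1)) ≤ (Cfsg.upperPSeries p G (2 * k + 2)).1.map (QuotientGroup.mk' (Cfsg.upperPSeries p G (2 * k + 1)).1) := by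
  have hodd : ¬ Even (2 * k + 1) := by simp
  have hq : pPrimeCore p (G ⧸ (upperPSeries p G (2 * k + 1)).1) = ⊥ :=
    pPrimeCore_eq_bot_of_ker_odd (QuotientGroup.mk'_surjective _) hodd (QuotientGroup.ker_mk' _)
  have hmap : (upperPSeries p G (2 * k + 2)).1.map (QuotientGroup.mk' (upperPSeries p G (2 * k + 1)).1)
      = pCore p (G ⧸ (upperPSeries p G (2 * k + 1)).1) := by
    have h1 : (upperPSeries p G (2 * k + 1 + 1)).1 = stepP p (upperPSeries p G (2 * k + 1)).1 := by
      rw [upper_succ p G (2 * k + 1), stepAt, if_neg hodd]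
    show (upperPSeries p G (2 * k + 1 + 1)).1.map _ = _
    rw [h1, stepP, Subgroup.map_comap_eq_self_of_surjective (QuotientGroup.mk'_surjective _)]
  rw [hmap]
  exact centralizer_pCore_le (isPSolvable_quotient hsol _) hq

end Cfsg.Agent.S0634
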