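import Cfsg.Statements.S0635
import Mathlib
import Cfsg.Agent.Lib.Solvable.PSeries

set_option autoImplicit false
set_option linter.style.haveILetI false
open Cfsg

namespace Cfsg.Agent.S0635

open Cfsg.Agent.Lib.Solvable.PSeries Cfsg.Agent.Lib.Basic.PCore

universe u

/-- The centre of a Sylow subgroup lies in `O_{p',p}(G)` when `G` is `p`-soluble. -/
theorem sylow_center_le {G : Type u} [Group G] [Finite G] {p : ℕ} [Fact p.Prime]
    (hG : IsPSolvable p G) (S : Sylow p G) (z : G) (hz : z ∈ (S : Subgroup G))
    (hcent : ∀ y ∈ (S : Subgroup G), z * y = y * z) : z ∈ (upperPSeries p G 2).1 := by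
  rw [upper_two]
  let M := pPrimeCore p G
  haveI hMn : M.Normal := pPrimeCore_normal p G
  let π : G →* G ⧸ M := QuotientGroup.mk' M
  have hπ : Function.Surjective π := QuotientGroup.mk'_surjective M
  have hcore : pPrimeCore p (G ⧸ M) = ⊥ := pPrimeCore_quotient p
  have hHH := centralizer_pCore_le (isPSolvable_quotient hG M) hcore
  let S' : Sylow p (G ⧸ M) := S.mapSurjective hπ
  have hS' : (S' : Subgroup (G ⧸ M)) = (S : Subgroup G).map π := Sylow.coe_mapSurjective _ _
  have hle : pCore p (G ⧸ M) ≤ (S' : Subgroup (G ⧸ M)) := pCore_le_sylow S'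
  have : π z ∈ pCore p (G ⧸ M) := by
    apply hHH
    rw [Subgroup.mem_centralizer_iff]
    intro y hy
    have hy' := hle hy
    rw [hS'] at hy'
    obtain ⟨w, hw, rfl⟩ := hy'
    rw [← map_mul, ← map_mul, hcent w hw]
  exact this

/-- The central series claim. -/
theorem key {p : ℕ} [Fact p.Prime] (c : ℕ) : ∀ {G : Type u} [Group G] [Finite G], IsPSolvable p G →
    ∀ (S : Sylow p G), ∀ x : S, x ∈ Subgroup.upperCentralSeries (S : Subgroup G) c →
      (x : G) ∈ (upperPSeries p G (2 * c)).1 := by
  induction c with
  | zero =>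
    intro G _ _ _ S x hx
    have : x = 1 := by simpa using hx
    simp [this]
  | succ c ih =>
    intro G _ _ hG S x hx
    -- the quotient by `U₂`
    set U := (upperPSeries p G 2).1 with hU
    haveI hUn : U.Normal := upperPSeries_normal p G 2
    let π : G →* G ⧸ U := QuotientGroup.mk' U
    have hπ : Function.Surjective π := QuotientGroup.mk'_surjective U
    let S' : Sylow p (G ⧸ U) := S.mapSurjective hπ
    have hS' : (S' : Subgroup (G ⧸ U)) = (S : Subgroup G).map π := Sylow.coe_mapSurjective _ _
    -- the map between the Sylow subgroups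
    have hmaps : ∀ y ∈ (S : Subgroup G), π y ∈ (S' : Subgroup (G ⧸ U)) := by
      intro y hy
      rw [hS']
      exact ⟨y, hy, rfl⟩
    let φ : (S : Subgroup G) →* (S' : Subgroup (G ⧸ U)) :=
      (π.comp (S : Subgroup G).subtype).codRestrict _ (fun y => hmaps y y.2)
    have hφv : ∀ y : (S : Subgroup G), ((φ y : (S' : Subgroup (G ⧸ U))) : G ⧸ U) = π (y : G) := fun y => rfl
    have hφs : Function.Surjective φ := by
      rintro ⟨y, hy⟩
      rw [hS'] at hy
      obtain ⟨w, hw, rfl⟩ := hy
      exact ⟨⟨w, hw⟩, rfl⟩
    -- the image of the `(n+1)`-st term lies in the `n`-th term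
    have himg : ∀ n (y : (S : Subgroup G)), y ∈ Subgroup.upperCentralSeries (S : Subgroup G) (n + 1) →
        φ y ∈ Subgroup.upperCentralSeries (S' : Subgroup (G ⧸ U)) n := by
      intro n
      induction n with
      | zero =>
        intro y hy
        simp only [Subgroup.upperCentralSeries_zero, Subgroup.mem_bot]
        have hy1 : y ∈ Subgroup.center (S : Subgroup G) := by
          simpa [Subgroup.upperCentralSeries_one] using hy
        have hyU : (y : G) ∈ U := by
          apply sylow_center_le hG S (y : G) y.2
          intro w hw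
          have := (Subgroup.mem_center_iff.mp hy1) ⟨w, hw⟩
          exact (congrArg Subtype.val this).symm
        apply Subtype.ext
        rw [hφv]
        exact (QuotientGroup.eq_one_iff _).mpr hyU
      | succ n ih2 =>
        intro y hy
        rw [Subgroup.mem_upperCentralSeries_succ_iff] at hy ⊢
        intro w
        obtain ⟨v, rfl⟩ := hφs w
        have := ih2 _ (hy v)
        simpa [commutatorElement_def] using this
    have hx' := himg c x hx
    have hih := ih (isPSolvable_quotient hG U) S' (φ x) hx'
    rw [hφv] at hih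
    -- shift
    have hshift := comap_upper_of_ker_even (p := p) hπ (m := 2) (by decide)
      (QuotientGroup.ker_mk' U) (2 * c)
    have h2 : 2 * (c + 1) = 2 + 2 * c := by ring
    rw [h2, ← hshift]
    exact hih

/-- The p-length of a p-soluble group is at most the nilpotency class of its Sylow p-subgroups. -/
theorem result {G : Type*} [Group G] [Finite G] {p : ℕ} [Fact p.Prime] (hsol : Cfsg.IsPSolvable p G) (S : Sylow p G) : Cfsg.PLengthLE p (Group.nilpotencyClass ↥(S : Subgroup G)) G := by
  haveI hnil : Group.IsNilpotent (S : Subgroup G) := S.2.isNilpotent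
  set c := Group.nilpotencyClass (S : Subgroup G) with hc
  have htop : Subgroup.upperCentralSeries (S : Subgroup G) c = ⊤ :=
    (Subgroup.upperCentralSeries_eq_top_iff_nilpotencyClass_le).mpr le_rfl
  have hle : (S : Subgroup G) ≤ (upperPSeries p G (2 * c)).1 := by
    intro x hx
    exact key c hsol S ⟨x, hx⟩ (by rw [htop]; trivial)
  unfold PLengthLE
  rw [upper_succ]
  apply top_le_iff.mp
  apply le_stepAt_of_relIndex _ _ inferInstance
  simp only [GoodIdx, even_two, Even.mul_right, if_true, Subgroup.relIndex_top_right]
  have h1 : (upperPSeries p G (2 * c)).1.index ∣ (S : Subgroup G).index :=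
    Subgroup.index_dvd_of_le hle
  have h2 : ¬ p ∣ (S : Subgroup G).index := S.not_dvd_index
  have h3 : ¬ p ∣ (upperPSeries p G (2 * c)).1.index := fun h => h2 (h.trans h1)
  exact ((Nat.Prime.coprime_iff_not_dvd Fact.out).mpr h3).symm

end Cfsg.Agent.S0635
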