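import Cfsg.Statements.S0638
import Mathlib
import Cfsg.Agent.Lib.PGroup.MetaOmega
-- import your own Cfsg.Agent.* helpers here

set_option autoImplicit false
open Cfsg

namespace Cfsg.Agent.S0638

/-- For odd p, in a non-cyclic metacyclic p-group the elements of order dividing p generate an elementary abelian subgroup of order p². -/
theorem result {R : Type*} [Group R] [Finite R] {p : ℕ} [Fact p.Prime] (hp : p ≠ 2) (hR : IsPGroup p R) (hm : Cfsg.IsMetacyclic R) (hnc : ¬ IsCyclic R) : Cfsg.IsElementaryAbelian p (Cfsg.omegaOne p (⊤ : Subgroup R)) ∧ Nat.card ↥(Cfsg.omegaOne p (⊤ : Subgroup R)) = p ^ 2 := by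
  have hodd : Odd p := (Fact.out (p := p.Prime)).odd_of_ne_two hp
  obtain ⟨n, ⟨D⟩⟩ := Cfsg.Agent.Lib.PGroup.MetaBuild.exists_coord hodd hR hm
  obtain ⟨K, hK, hcard⟩ := D.exists_omega hodd hR hnc
  have hKeq : Cfsg.omegaOne p (⊤ : Subgroup R) = K := by
    apply le_antisymm
    · rw [Cfsg.omegaOne, Subgroup.closure_le]
      rintro x ⟨-, hx⟩
      exact (hK x).mpr hx
    · intro x hx
      exact Subgroup.subset_closure ⟨trivial, (hK x).mp hx⟩
  rw [hKeq]
  refine ⟨?_, hcard⟩
  rw [Cfsg.Agent.Lib.PGroup.Basic.isElementaryAbelian_iff]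
  refine ⟨fun a ha b hb => ?_, fun a ha => (hK a).mp ha⟩
  have hKp : IsPGroup p K := IsPGroup.to_subgroup hR K
  have := IsPGroup.commutative_of_card_eq_prime_sq hcard ⟨a, ha⟩ ⟨b, hb⟩
  exact congrArg Subtype.val this

end Cfsg.Agent.S0638
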