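import Cfsg.Statements.S0637
import Mathlib
import Cfsg.Agent.Lib.PGroup.HuppertC
import Cfsg.Agent.S0638
-- import your own Cfsg.Agent.* helpers here

set_option autoImplicit false
open Cfsg

namespace Cfsg.Agent.S0637

/-- For p greater than 3, the bound p² on the order of the subgroup generated by the elements of order dividing p passes from a p-group to all its quotients. -/
theorem result {R : Type*} [Group R] [Finite R] {p : ℕ} [Fact p.Prime] (hp : 3 < p) (hR : IsPGroup p R) (hO : Nat.card ↥(Cfsg.omegaOne p (⊤ : Subgroup R)) ≤ p ^ 2) (T : Subgroup R) [T.Normal] : Nat.card ↥(Cfsg.omegaOne p (⊤ : Subgroup (R ⧸ T))) ≤ p ^ 2 := by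
  have hm : Cfsg.IsMetacyclic R := Cfsg.Agent.Lib.PGroup.HuppertA.metacyclic_of_card_omegaOne_le hp hR hO
  have hmQ : Cfsg.IsMetacyclic (R ⧸ T) :=
    Cfsg.Agent.Lib.PGroup.HuppertA.metacyclic_of_surjective (QuotientGroup.mk' T)
      (QuotientGroup.mk'_surjective T) hm
  have hQp : IsPGroup p (R ⧸ T) := hR.to_quotient T
  have hp2 : p ≠ 2 := by omega
  have hppos : 0 < p := (Fact.out (p := p.Prime)).pos
  by_cases hc : IsCyclic (R ⧸ T)
  · have hcomm : ∀ a b : R ⧸ T, a * b = b * a := (IsCyclic.isMulCommutative (α := R ⧸ T)).is_comm.comm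
    have hexp : ∀ x ∈ Cfsg.omegaOne p (⊤ : Subgroup (R ⧸ T)), x ^ p = 1 := by
      intro x hx
      induction hx using Subgroup.closure_induction with
      | mem y hy => exact hy.2
      | one => exact one_pow _
      | mul y z _ _ hy hz => rw [(show Commute y z from hcomm y z).mul_pow, hy, hz, one_mul]
      | inv y _ hy => rw [inv_pow, hy, inv_one]
    have h1 : Nat.card ↥(Cfsg.omegaOne p (⊤ : Subgroup (R ⧸ T))) ≤ p :=
      Cfsg.Agent.Lib.PGroup.HuppertA.card_le_of_cyclic_exponent hppos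
        (fun x => Subtype.ext (by simpa using hexp x.1 x.2))
    calc Nat.card ↥(Cfsg.omegaOne p (⊤ : Subgroup (R ⧸ T))) ≤ p := h1
      _ ≤ p ^ 2 := Nat.le_self_pow (by norm_num) p
  · exact (Cfsg.Agent.S0638.result hp2 hQp hmQ hc).2.le

end Cfsg.Agent.S0637
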