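import Cfsg.Statements.S0645
import Mathlib
import Cfsg.Agent.Lib.PGroup.CyclicMax

set_option autoImplicit false
open Cfsg

namespace Cfsg.Agent.S0645

open Cfsg.Agent.Lib.PGroup.CyclicMax

/-- Classification of p-groups with a cyclic maximal subgroup, odd p: a non-abelian one of order p^n has generators a of order p^(n-1) and b of order p, b outside the cyclic subgroup generated by a, with b a b⁻¹ = a^(1 + p^(n-2)). -/
theorem result {G : Type*} [Group G] [Finite G] {p : ℕ} [Fact p.Prime] (hp : p ≠ 2) (n : ℕ) (hn : 3 ≤ n) (hG : Nat.card G = p ^ n) (C : Subgroup G) (hC : IsCyclic C) (hCi : C.index = p) (hna : ∃ x y : G, x * y ≠ y * x) : ∃ a b : G, orderOf a = p ^ (n - 1) ∧ orderOf b = p ∧ b ∉ Subgroup.zpowers a ∧ b * a * b⁻¹ = a ^ (1 + p ^ (n - 2)) := by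
  obtain ⟨m, rfl⟩ : ∃ m, n = m + 1 := ⟨n - 1, by omega⟩
  have hp' : p.Prime := Fact.out
  obtain ⟨c, rfl⟩ := exists_zpowers_eq_of_isCyclic C hC
  have hc : orderOf c = p ^ m := by
    have h1 := Subgroup.card_mul_index (Subgroup.zpowers c)
    rw [Nat.card_zpowers, hCi, hG, pow_succ] at h1
    exact Nat.eq_of_mul_eq_mul_right hp'.pos h1
  have hsc : SC p m c := sc_of_index hG c hc hna
  have hne : Subgroup.zpowers c ≠ ⊤ := by
    intro ht
    rw [ht, Subgroup.index_top] at hCi
    exact hp'.one_lt.ne hCi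
  have e1 : m + 1 - 1 = m := by omega
  have e2 : m + 1 - 2 = m - 1 := by omega
  rw [e1, e2]
  obtain ⟨b, hb, hb2, hb3⟩ := hsc.odd_case hp hne
  refine ⟨c, b, hc, ?_, hb, hb3⟩
  apply orderOf_eq_prime hb2
  rintro rfl
  exact hb (one_mem _)

end Cfsg.Agent.S0645
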