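import Cfsg.Statements.S0646
import Mathlib
import Cfsg.Agent.Lib.PGroup.CyclicMax

set_option autoImplicit false
open Cfsg

namespace Cfsg.Agent.S0646

open Cfsg.Agent.Lib.PGroup.CyclicMax

/-- Classification of non-abelian 2-groups with a cyclic maximal subgroup: dihedral, generalized quaternion, and for order at least 16 the modular group and the semidihedral group, each given by generators a (of index 2) and b with the stated relations. -/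
theorem result {G : Type*} [Group G] [Finite G] (n : ℕ) (hn : 3 ≤ n) (hG : Nat.card G = 2 ^ n) (C : Subgroup G) (hC : IsCyclic C) (hCi : C.index = 2) (hna : ∃ x y : G, x * y ≠ y * x) : ∃ a b : G, orderOf a = 2 ^ (n - 1) ∧ b ∉ Subgroup.zpowers a ∧ ((b ^ 2 = 1 ∧ b * a * b⁻¹ = a⁻¹) ∨ (b ^ 2 = a ^ (2 ^ (n - 2)) ∧ b * a * b⁻¹ = a⁻¹) ∨ (4 ≤ n ∧ b ^ 2 = 1 ∧ b * a * b⁻¹ = a ^ (1 + 2 ^ (n - 2))) ∨ (4 ≤ n ∧ b ^ 2 = 1 ∧ b * a * b⁻¹ = a ^ (2 ^ (n - 2) - 1))) := by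
  obtain ⟨m, rfl⟩ : ∃ m, n = m + 1 := ⟨n - 1, by omega⟩
  have : Fact (Nat.Prime 2) := ⟨Nat.prime_two⟩
  obtain ⟨c, rfl⟩ := exists_zpowers_eq_of_isCyclic C hC
  have hc : orderOf c = 2 ^ m := by
    have h1 := Subgroup.card_mul_index (Subgroup.zpowers c)
    rw [Nat.card_zpowers, hCi, hG, pow_succ] at h1
    exact Nat.eq_of_mul_eq_mul_right (by norm_num) h1
  have hsc : SC 2 m c := sc_of_index hG c hc hna
  have hne : Subgroup.zpowers c ≠ ⊤ := by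
    intro ht
    rw [ht, Subgroup.index_top] at hCi
    omega
  have e1 : m + 1 - 1 = m := by omega
  have e2 : m + 1 - 2 = m - 1 := by omega
  rw [e1, e2]
  obtain ⟨_, hmain⟩ := hsc.main hne
  rcases hmain with ⟨_, _, b, hb, hb2⟩ | ⟨_, b, hb, hb2, hb3⟩
  · refine ⟨c, b, hc, hb, ?_⟩
    rcases hb2 with ⟨h1, h2 | h2⟩ | ⟨h3, h1, h2⟩
    · exact Or.inl ⟨h2, h1⟩
    · exact Or.inr (Or.inl ⟨h2, h1⟩)
    · exact Or.inr (Or.inr (Or.inr ⟨by omega, h2, h1⟩))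
  · refine ⟨c, b, hc, hb, Or.inr (Or.inr (Or.inl ⟨?_, hb2, hb3⟩))⟩
    omega

end Cfsg.Agent.S0646
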