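import Cfsg.Statements.S0657
import Mathlib
import Cfsg.Agent.Lib.PGroup.QuadLocal
import Cfsg.Agent.S0274
-- import your own Cfsg.Agent.* helpers here

set_option autoImplicit false
open Cfsg

namespace Cfsg.Agent.S0657

/-- For odd p, a group that fails to be p-stable modulo its largest normal subgroup of order prime to p, and whose upper p-series does not stop there, has a section isomorphic to SL(2, p). -/
theorem result {G : Type*} [Group G] [Finite G] {p : ℕ} [Fact p.Prime] (hp : p ≠ 2) (hO : Cfsg.pPrimeCore p G < Cfsg.pPrimePCore p G) (hns : ¬ Cfsg.IsPStable p (G ⧸ Cfsg.pPrimeCore p G)) : ∃ (K L : Subgroup G) (hL : (L.subgroupOf K).Normal), K ≤ ⊤ ∧ Nonempty ((K ⧸ L.subgroupOf K) ≃* Matrix.SpecialLinearGroup (Fin 2) (ZMod p)) := by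
  have hO' : Cfsg.pCore p (G ⧸ Cfsg.pPrimeCore p G) ≠ ⊥ := by
    intro h
    apply hO.ne
    unfold Cfsg.pPrimePCore
    rw [h]
    exact (QuotientGroup.ker_mk' _).symm
  obtain ⟨K, Φ, hΦ⟩ := Cfsg.Agent.Lib.PGroup.QuadLocal.sec_sl2_of_not_pStable
    (fun F _ _ _ H hH => Cfsg.Agent.S0274.result p hp H hH) hp hO' hns
  obtain ⟨R, hR, ⟨e⟩⟩ := Cfsg.Agent.Lib.PGroup.QdSplit.quotient_form hΦ
  exact ⟨K, R, hR, le_top, ⟨e⟩⟩

end Cfsg.Agent.S0657
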