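import Cfsg.Statements.S0661
import Mathlib
import Cfsg.Agent.Lib.Coprime.InvSylow
import Cfsg.Agent.Lib.Basic.PCore
import Cfsg.Agent.S0028
import Cfsg.Agent.Lib.Solvable.PSeries

set_option autoImplicit false
open Cfsg

namespace Cfsg.Agent.S0661

/-- If, modulo the largest normal subgroup of order prime to p, the largest normal p-subgroup contains its centralizer, then for every p-subgroup P the p'-core of N_G(P) is just O_p'(G) ∩ N_G(P). -/
theorem result {G : Type*} [Group G] [Finite G] {p : ℕ} [Fact p.Prime] (hc : Subgroup.centralizer (Cfsg.pCore p (G ⧸ Cfsg.pPrimeCore p G) : Set (G ⧸ Cfsg.pPrimeCore p G)) ≤ Cfsg.pCore p (G ⧸ Cfsg.pPrimeCore p G)) (P : Subgroup G) (hP : IsPGroup p P) : (Cfsg.pPrimeCore p ↥(Subgroup.normalizer (P : Set G))).map (Subgroup.normalizer (P : Set G)).subtype = Cfsg.pPrimeCore p G ⊓ Subgroup.normalizer (P : Set G) := by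
  classical
  open Cfsg.Agent.Lib.Coprime.Coset Cfsg.Agent.Lib.Coprime.InvSylow Cfsg.Agent.Lib.Basic.PCore in
  have hp : p.Prime := Fact.out
  set N : Subgroup G := Subgroup.normalizer (P : Set G) with hN
  set O : Subgroup G := Cfsg.pPrimeCore p G with hO
  haveI hOnormal : O.Normal := pPrimeCore_normal p G
  have hOcop : (Nat.card O).Coprime p := Cfsg.Agent.Lib.Solvable.PSeries.pPrimeCore_coprime p
  apply le_antisymm
  swap
  · -- `O ⊓ N ≤ O_{p'}(N)`
    rintro x ⟨hxO, hxN⟩
    have hnorm : (O.subgroupOf N).Normal := inferInstance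
    have hcop : (Nat.card (O.subgroupOf N)).Coprime p := by
      refine Nat.Coprime.coprime_dvd_left ?_ hOcop
      have : O.subgroupOf N = O.comap N.subtype := rfl
      rw [this]
      exact Subgroup.card_comap_dvd_of_injective O N.subtype Subtype.coe_injective
    exact ⟨⟨x, hxN⟩, le_pPrimeCore hnorm hcop hxO, rfl⟩
  · -- `O_{p'}(N) ≤ O ⊓ N`
    set X' : Subgroup N := Cfsg.pPrimeCore p ↥N with hX'
    haveI hX'normal : X'.Normal := pPrimeCore_normal p N
    have hX'cop : (Nat.card X').Coprime p := Cfsg.Agent.Lib.Solvable.PSeries.pPrimeCore_coprime p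
    set X : Subgroup G := X'.map N.subtype with hX
    have hXN : X ≤ N := by
      rintro _ ⟨x, _, rfl⟩
      exact x.2
    have hXcard : Nat.card X = Nat.card X' :=
      (Nat.card_congr (Subgroup.equivMapOfInjective X' N.subtype Subtype.coe_injective).toEquiv).symm
    have hXcop : (Nat.card X).Coprime p := by rw [hXcard]; exact hX'cop
    have hXconj : ∀ n ∈ N, ∀ x ∈ X, n * x * n⁻¹ ∈ X := by
      intro n hn x hx
      obtain ⟨y, hy, rfl⟩ := hx
      exact ⟨⟨n, hn⟩ * y * ⟨n, hn⟩⁻¹, hX'normal.conj_mem y hy ⟨n, hn⟩, rfl⟩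
    -- `P` and `X` commute
    have hPX : ∀ u ∈ P, ∀ x ∈ X, u * x = x * u := by
      intro u hu x hx
      have hcomm : u * x * u⁻¹ * x⁻¹ ∈ P ⊓ X := by
        constructor
        · have : u * x * u⁻¹ * x⁻¹ = u * (x * u⁻¹ * x⁻¹) := by group
          rw [this]
          exact P.mul_mem hu ((Subgroup.mem_normalizer_iff.mp (hXN hx) _).mp (P.inv_mem hu))
        · exact X.mul_mem (hXconj u (Subgroup.le_normalizer hu) x hx) (X.inv_mem hx)
      have hcop' : (Nat.card P).Coprime (Nat.card X) := by
        obtain ⟨n, hn⟩ := IsPGroup.iff_card.mp hP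
        rw [hn]
        exact Nat.Coprime.pow_left n hXcop.symm
      rw [inf_eq_bot_of_coprime hcop'] at hcomm
      have h1 : u * x * u⁻¹ * x⁻¹ = 1 := (Subgroup.mem_bot).mp hcomm
      rw [mul_inv_eq_one, mul_inv_eq_iff_eq_mul] at h1
      exact h1
    -- pass to the quotient
    set π : G →* G ⧸ O := QuotientGroup.mk' O with hπ
    have hπsurj : Function.Surjective π := QuotientGroup.mk'_surjective O
    set Rb : Subgroup (G ⧸ O) := Cfsg.pCore p (G ⧸ O) with hRb
    haveI hRbnormal : Rb.Normal := pCore_normal p _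
    have hRbp : IsPGroup p Rb := pCore_isPGroup p
    set Pb : Subgroup (G ⧸ O) := P.map π with hPb
    set Xb : Subgroup (G ⧸ O) := X.map π with hXb
    have hPbp : IsPGroup p Pb := hP.map π
    have hXbcop : (Nat.card Xb).Coprime p := by
      refine Nat.Coprime.coprime_dvd_left ?_ hXcop
      exact Subgroup.card_map_dvd X π
    have hXbR : Xb ⊓ Rb = ⊥ := by
      apply inf_eq_bot_of_coprime
      obtain ⟨n, hn⟩ := IsPGroup.iff_card.mp hRbp
      rw [hn]
      exact Nat.Coprime.pow_right n hXbcop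
    -- the key centraliser condition
    have hCond : Rb ⊓ Subgroup.centralizer (Pb : Set (G ⧸ O)) ≤ Subgroup.centralizer (Xb : Set (G ⧸ O)) := by
      rintro tb ⟨htbR, htbC⟩
      obtain ⟨g, rfl⟩ := hπsurj tb
      -- `g P g⁻¹ ≤ O ⊔ P`
      have hle : P.map (MulAut.conj g).toMonoidHom ≤ O ⊔ P := by
        rintro _ ⟨u, hu, rfl⟩
        have h1 : π g * π u = π u * π g :=
          (Subgroup.mem_centralizer_iff.mp htbC (π u) ⟨u, hu, rfl⟩).symm
        have h2 : π (g * u * g⁻¹) = π u := by
          rw [map_mul, map_mul, map_inv, h1]; group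
        have h3 : (g * u * g⁻¹) * u⁻¹ ∈ O := by
          rw [← QuotientGroup.ker_mk' O, MonoidHom.mem_ker, map_mul, map_inv]
          exact mul_inv_eq_one.mpr h2
        have h4 : g * u * g⁻¹ = ((g * u * g⁻¹) * u⁻¹) * u := by group
        show g * u * g⁻¹ ∈ O ⊔ P
        rw [h4]
        exact Subgroup.mul_mem_sup h3 hu
      have hPnormO : P ≤ Subgroup.normalizer (O : Set G) := by
        intro u _
        rw [Subgroup.mem_normalizer_iff]
        intro y
        constructor
        · exact fun hy => hOnormal.conj_mem y hy u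
        · intro hy
          have := hOnormal.conj_mem _ hy u⁻¹
          simpa [mul_assoc] using this
      have hcopPO : (Nat.card P).Coprime (Nat.card O) := by
        obtain ⟨n, hn⟩ := IsPGroup.iff_card.mp hP
        rw [hn]
        exact Nat.Coprime.pow_left n hOcop.symm
      have hsolvP : Group.IsSolvable P ∨ Group.IsSolvable O := by
        left
        haveI := hP.isNilpotent
        infer_instance
      have hcardconj : Nat.card (P.map (MulAut.conj g).toMonoidHom) = Nat.card P :=
        (Nat.card_congr (Subgroup.equivMapOfInjective P (MulAut.conj g).toMonoidHom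
          (MulAut.conj g).injective).toEquiv).symm
      obtain ⟨o, ho, hoeq⟩ := exists_conj_eq_of_card_eq hPnormO hcopPO hsolvP hle hcardconj
      -- `h = o⁻¹ g` normalises `P`
      have hhN : o⁻¹ * g ∈ N := by
        apply mem_normalizer_of_map_conj_eq
        rw [map_conj_mul, ← hoeq, ← map_conj_mul, inv_mul_cancel]
        ext x
        simp
      have hπh : π (o⁻¹ * g) = π g := by
        rw [map_mul, map_inv]
        have : π o = 1 := by
          rw [← MonoidHom.mem_ker, QuotientGroup.ker_mk']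
          exact ho
        rw [this]; simp
      -- now commute
      rw [Subgroup.mem_centralizer_iff]
      rintro _ ⟨x, hx, rfl⟩
      have h1 : (π x * π g * (π x)⁻¹ * (π g)⁻¹) ∈ Xb ⊓ Rb := by
        constructor
        · have h2 : x * (o⁻¹ * g) * x⁻¹ * (o⁻¹ * g)⁻¹ = x * ((o⁻¹ * g) * x⁻¹ * (o⁻¹ * g)⁻¹) := by group
          have h3 : x * (o⁻¹ * g) * x⁻¹ * (o⁻¹ * g)⁻¹ ∈ X := by
            rw [h2]
            exact X.mul_mem hx (hXconj _ hhN _ (X.inv_mem hx))
          have h4' : ∀ w, π w = π g → π (x * w * x⁻¹ * w⁻¹) = π x * π g * (π x)⁻¹ * (π g)⁻¹ := by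
            intro w hw
            simp only [map_mul, map_inv, hw]
          have h4 := h4' _ hπh
          rw [← h4]
          exact ⟨_, h3, rfl⟩
        · have h2 : π x * π g * (π x)⁻¹ * (π g)⁻¹ = (π x * π g * (π x)⁻¹) * (π g)⁻¹ := rfl
          rw [h2]
          exact Rb.mul_mem (hRbnormal.conj_mem _ htbR _) (Rb.inv_mem htbR)
      rw [hXbR] at h1
      have h5 : π x * π g * (π x)⁻¹ * (π g)⁻¹ = 1 := (Subgroup.mem_bot).mp h1
      rw [mul_inv_eq_one, mul_inv_eq_iff_eq_mul] at h5
      exact h5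
    -- apply the P × Q lemma
    have hPbXb : Pb ≤ Subgroup.centralizer (Xb : Set (G ⧸ O)) := by
      rintro _ ⟨u, hu, rfl⟩
      rw [Subgroup.mem_centralizer_iff]
      rintro _ ⟨x, hx, rfl⟩
      change π x * π u = π u * π x
      rw [← map_mul, ← map_mul, hPX u hu x hx]
    have hnormR : ∀ S : Subgroup (G ⧸ O), S ≤ Subgroup.normalizer (Rb : Set (G ⧸ O)) := by
      intro S y _
      rw [Subgroup.mem_normalizer_iff]
      intro z
      constructor
      · exact fun hz => hRbnormal.conj_mem z hz y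
      · intro hz
        have := hRbnormal.conj_mem _ hz y⁻¹
        simpa [mul_assoc] using this
    have hXC : Xb ≤ Subgroup.centralizer (Rb : Set (G ⧸ O)) :=
      Cfsg.Agent.S0028.result p Pb Xb Rb hPbp hXbcop hRbp hPbXb (hnormR _) (hnormR _) hCond
    -- so `Xb` lies in `Rb` and is trivial
    have hXbbot : Xb = ⊥ := by
      rw [eq_bot_iff, ← hXbR]
      intro y hy
      exact ⟨hy, hc (hXC hy)⟩
    rintro _ ⟨x, hx, rfl⟩
    refine ⟨?_, x.2⟩
    have h1 : π (x : G) ∈ Xb := ⟨(x : G), ⟨x, hx, rfl⟩, rfl⟩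
    rw [hXbbot] at h1
    have h2 : π (x : G) = 1 := (Subgroup.mem_bot).mp h1
    rw [← MonoidHom.mem_ker, QuotientGroup.ker_mk'] at h2
    exact h2

end Cfsg.Agent.S0661
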