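import Cfsg.Statements.S0663
import Mathlib
import Cfsg.Agent.Lib.Coprime.PGroupComm
import Cfsg.Agent.Lib.PGroup.Replacement

set_option autoImplicit false
open Cfsg

namespace Cfsg.Agent.S0663

open scoped commutatorElement

section
variable {L : Type*} [Group L]

theorem conj_closure_aux (S : Set L) (K : Subgroup L) (a : L) (hS : ∀ x ∈ S, a * x * a⁻¹ ∈ K)
    {x : L} (hx : x ∈ Subgroup.closure S) : a * x * a⁻¹ ∈ K := by
  induction hx using Subgroup.closure_induction with
  | mem x hx => exact hS x hx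
  | one => simp [K.one_mem]
  | mul x y _ _ hx hy =>
    have e : a * (x * y) * a⁻¹ = (a * x * a⁻¹) * (a * y * a⁻¹) := by group
    rw [e]
    exact K.mul_mem hx hy
  | inv x _ hx =>
    have e : a * x⁻¹ * a⁻¹ = (a * x * a⁻¹)⁻¹ := by group
    rw [e]
    exact K.inv_mem hx

theorem comm_conj_left (A B : Subgroup L) {a x : L} (ha : a ∈ A) (hx : x ∈ ⁅A, B⁆) :
    a * x * a⁻¹ ∈ ⁅A, B⁆ := by
  rw [Subgroup.commutator_def] at hx
  refine conj_closure_aux _ _ a ?_ hx
  rintro _ ⟨a', ha', b, hb, rfl⟩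
  have e : a * ⁅a', b⁆ * a⁻¹ = ⁅a * a', b⁆ * ⁅a, b⁆⁻¹ := by
    simp only [commutatorElement_def]; group
  rw [e]
  exact Subgroup.mul_mem _ (Subgroup.commutator_mem_commutator (A.mul_mem ha ha') hb)
    (Subgroup.inv_mem _ (Subgroup.commutator_mem_commutator ha hb))

theorem comm_conj_right (A B : Subgroup L) {b x : L} (hb : b ∈ B) (hx : x ∈ ⁅A, B⁆) :
    b * x * b⁻¹ ∈ ⁅A, B⁆ := by
  rw [Subgroup.commutator_def] at hx
  refine conj_closure_aux _ _ b ?_ hx
  rintro _ ⟨a, ha, b', hb', rfl⟩
  have e : b * ⁅a, b'⁆ * b⁻¹ = ⁅a, b⁆⁻¹ * ⁅a, b * b'⁆ := by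
    simp only [commutatorElement_def]; group
  rw [e]
  exact Subgroup.mul_mem _ (Subgroup.inv_mem _ (Subgroup.commutator_mem_commutator ha hb))
    (Subgroup.commutator_mem_commutator ha (B.mul_mem hb hb'))

/-- `G` normalizes `H`, in elementwise form. -/
def GInv (G H : Subgroup L) : Prop := ∀ g ∈ G, ∀ x ∈ H, g * x * g⁻¹ ∈ H

theorem inv_of_le_normalizer {G H : Subgroup L} (h : G ≤ Subgroup.normalizer (H : Set L)) : GInv G H :=
  fun g hg x hx => ((Subgroup.mem_normalizer_iff.1 (h hg)) x).1 hx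

theorem le_normalizer_of_inv [Finite L] {G H : Subgroup L} (h : GInv G H) :
    G ≤ Subgroup.normalizer (H : Set L) :=
  fun g hg => Cfsg.Agent.Lib.PGroup.Replacement.mem_normalizer_of_conj_mem (fun x hx => h g hg x hx)

theorem comm_le_of_inv {G H : Subgroup L} (h : GInv G H) : ⁅H, G⁆ ≤ H := by
  rw [Subgroup.commutator_le]
  intro x hx g hg
  have e : ⁅x, g⁆ = x * (g * x⁻¹ * g⁻¹) := by
    simp only [commutatorElement_def]; group
  rw [e]
  exact H.mul_mem hx (h g hg _ (H.inv_mem hx))

theorem comm_ne_self [Finite L] {p : ℕ} [Fact p.Prime] {G H : Subgroup L} (h : GInv G H)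
    (hH : IsPGroup p H) (hG : IsPGroup p G) (hne : H ≠ ⊥) : ⁅H, G⁆ ≠ H := by
  intro heq
  have hY : IsPGroup p (H ⊔ G : Subgroup L) :=
    IsPGroup.to_sup_of_normal_left' hH hG (le_normalizer_of_inv h)
  have hnil : Group.IsNilpotent ↥(H ⊔ G) := hY.isNilpotent
  apply hne
  apply Cfsg.Agent.Lib.Coprime.PGroupComm.eq_bot_of_commutator_eq_self (Y := H ⊔ G) le_sup_left
  apply le_antisymm
  · rw [Subgroup.commutator_le]
    intro x hx y hy
    have hle : H ⊔ G ≤ Subgroup.normalizer (H : Set L) :=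
      sup_le Subgroup.le_normalizer (le_normalizer_of_inv h)
    have e : ⁅x, y⁆ = x * (y * x⁻¹ * y⁻¹) := by
      simp only [commutatorElement_def]; group
    rw [e]
    exact H.mul_mem hx (((Subgroup.mem_normalizer_iff.1 (hle hy)) _).1 (H.inv_mem hx))
  · conv_lhs => rw [← heq]
    exact Subgroup.commutator_mono le_rfl le_sup_right

theorem card_relIndex {K H : Subgroup L} (h : K ≤ H) : Nat.card K * K.relIndex H = Nat.card H := by
  have := Subgroup.relIndex_mul_relIndex (⊥ : Subgroup L) K H bot_le h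
  rwa [Subgroup.relIndex_bot_left, Subgroup.relIndex_bot_left] at this

end

section chain
variable {L : Type*} [Group L] {N G : Subgroup L}

theorem iter_inv (hGN : GInv G N) (i : ℕ) : GInv G (Cfsg.iterCommutator N G i) := by
  cases i with
  | zero => exact hGN
  | succ i => exact fun g hg x hx => comm_conj_right _ _ hg hx

theorem iter_succ_le (hGN : GInv G N) (i : ℕ) :
    Cfsg.iterCommutator N G (i + 1) ≤ Cfsg.iterCommutator N G i :=
  comm_le_of_inv (iter_inv hGN i)

theorem iter_antitone (hGN : GInv G N) {i j : ℕ} (h : i ≤ j) :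
    Cfsg.iterCommutator N G j ≤ Cfsg.iterCommutator N G i := by
  induction j, h using Nat.le_induction with
  | base => exact le_rfl
  | succ j _ ih => exact (iter_succ_le hGN j).trans ih

end chain

section main
variable {L : Type*} [Group L] [Finite L] {p : ℕ} [Fact p.Prime] {N G : Subgroup L}

theorem iter_le_N (hGN : GInv G N) (i : ℕ) : Cfsg.iterCommutator N G i ≤ N :=
  iter_antitone hGN (Nat.zero_le i)

theorem sizes_of_U (hGN : GInv G N) {n : ℕ} (hn : Nat.card N = p ^ n)
    (hU : ∀ H : Subgroup L, H ≤ N → GInv G H → H ≠ ⊥ → (⁅H, G⁆).relIndex H = p) :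
    ∀ i, i ≤ n → Nat.card (Cfsg.iterCommutator N G i) = p ^ (n - i) := by
  have hp : p.Prime := Fact.out
  intro i
  induction i with
  | zero => intro _; simpa [Cfsg.iterCommutator] using hn
  | succ i ih =>
    intro hi
    have h1 := ih (by omega)
    have hne : Cfsg.iterCommutator N G i ≠ ⊥ := by
      intro h
      rw [h, Subgroup.card_bot] at h1
      have : 1 < p ^ (n - i) := Nat.one_lt_pow (by omega) hp.one_lt
      omega
    have h2 := hU _ (iter_le_N hGN i) (iter_inv hGN i) hne
    have h3 := card_relIndex (iter_succ_le hGN i)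
    have h4 : (Cfsg.iterCommutator N G (i + 1)).relIndex (Cfsg.iterCommutator N G i) = p := h2
    rw [h4, h1] at h3
    have h5 : n - i = (n - (i + 1)) + 1 := by omega
    rw [h5, pow_succ] at h3
    exact Nat.eq_of_mul_eq_mul_right hp.pos h3

theorem sizes_of_long (hGN : GInv G N) (hNp : IsPGroup p N) (hGp : IsPGroup p G) {n : ℕ}
    (hn : Nat.card N = p ^ n) (hL : Cfsg.iterCommutator N G (n - 1) ≠ ⊥ ∨ n = 0) :
    ∀ i, i ≤ n → Nat.card (Cfsg.iterCommutator N G i) = p ^ (n - i) := by
  have hp : p.Prime := Fact.out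
  rcases Nat.eq_zero_or_pos n with hn0 | hn0
  · subst hn0
    intro i hi
    obtain rfl : i = 0 := by omega
    simpa [Cfsg.iterCommutator] using hn
  have hL' : Cfsg.iterCommutator N G (n - 1) ≠ ⊥ := by
    rcases hL with h | h
    · exact h
    · omega
  have hne : ∀ i, i < n → Cfsg.iterCommutator N G i ≠ ⊥ := by
    intro i hi h
    apply hL'
    have := iter_antitone hGN (show i ≤ n - 1 by omega)
    rw [h] at this
    exact le_bot_iff.1 this
  have hpg : ∀ i, IsPGroup p (Cfsg.iterCommutator N G i) := fun i => hNp.to_le (iter_le_N hGN i)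
  have hstep : ∀ i, i < n → Nat.card (Cfsg.iterCommutator N G (i + 1)) * p ≤
      Nat.card (Cfsg.iterCommutator N G i) := by
    intro i hi
    obtain ⟨a, ha⟩ := IsPGroup.iff_card.1 (hpg i)
    obtain ⟨b, hb⟩ := IsPGroup.iff_card.1 (hpg (i + 1))
    have hlt : Nat.card (Cfsg.iterCommutator N G (i + 1)) < Nat.card (Cfsg.iterCommutator N G i) := by
      have hle := iter_succ_le hGN i
      have hne' : Cfsg.iterCommutator N G (i + 1) ≠ Cfsg.iterCommutator N G i :=
        comm_ne_self (iter_inv hGN i) (hpg i) hGp (hne i hi)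
      by_contra hcon
      push Not at hcon
      exact hne' (Subgroup.eq_of_le_of_card_ge hle hcon)
    rw [ha, hb] at hlt ⊢
    have hba : b < a := (Nat.pow_lt_pow_iff_right hp.one_lt).1 hlt
    rw [← pow_succ]
    exact Nat.pow_le_pow_right hp.pos hba
  have hup : ∀ i, i ≤ n → Nat.card (Cfsg.iterCommutator N G i) * p ^ i ≤ p ^ n := by
    intro i
    induction i with
    | zero => intro _; simp [Cfsg.iterCommutator, hn]
    | succ i ih =>
      intro hi
      have h1 := ih (by omega)
      have h2 := hstep i (by omega)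
      calc Nat.card (Cfsg.iterCommutator N G (i + 1)) * p ^ (i + 1)
          = (Nat.card (Cfsg.iterCommutator N G (i + 1)) * p) * p ^ i := by ring
        _ ≤ Nat.card (Cfsg.iterCommutator N G i) * p ^ i := Nat.mul_le_mul_right _ h2
        _ ≤ p ^ n := h1
  have hlow : ∀ k, k < n → p ^ (k + 1) ≤ Nat.card (Cfsg.iterCommutator N G (n - 1 - k)) := by
    intro k
    induction k with
    | zero =>
      intro _
      obtain ⟨a, ha⟩ := IsPGroup.iff_card.1 (hpg (n - 1))
      simp only [Nat.sub_zero]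
      rw [ha, zero_add, pow_one]
      rcases Nat.eq_zero_or_pos a with h0 | h0
      · subst h0
        rw [pow_zero] at ha
        exact absurd (Subgroup.eq_bot_of_card_eq _ ha) hL'
      · exact Nat.le_self_pow (by omega) p
    | succ k ih =>
      intro hk
      have h1 := ih (by omega)
      have h2 := hstep (n - 1 - (k + 1)) (by omega)
      have e : n - 1 - (k + 1) + 1 = n - 1 - k := by omega
      rw [e] at h2
      calc p ^ (k + 1 + 1) = p ^ (k + 1) * p := pow_succ _ _
        _ ≤ Nat.card (Cfsg.iterCommutator N G (n - 1 - k)) * p := Nat.mul_le_mul_right _ h1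
        _ ≤ _ := h2
  intro i hi
  rcases Nat.lt_or_ge i n with hin | hin
  · have h1 := hlow (n - 1 - i) (by omega)
    have e1 : n - 1 - (n - 1 - i) = i := by omega
    have e2 : n - 1 - i + 1 = n - i := by omega
    rw [e1, e2] at h1
    have h2 := hup i hi
    have h3 : p ^ n = p ^ (n - i) * p ^ i := by
      rw [← pow_add]; congr 1; omega
    rw [h3] at h2
    have h4 := Nat.le_of_mul_le_mul_right h2 (pow_pos hp.pos i)
    exact le_antisymm h4 h1
  · obtain rfl : i = n := by omega
    have h2 := hup i le_rfl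
    have h3 : Nat.card (Cfsg.iterCommutator N G i) ≤ 1 := by
      have : Nat.card (Cfsg.iterCommutator N G i) * p ^ i ≤ 1 * p ^ i := by simpa using h2
      exact Nat.le_of_mul_le_mul_right this (pow_pos hp.pos i)
    have h4 : 0 < Nat.card (Cfsg.iterCommutator N G i) := Nat.card_pos
    simp only [Nat.sub_self, pow_zero]
    omega

theorem card_inj_aux (hp : p.Prime) {n k l : ℕ} (hk : k ≤ n) (hl : l ≤ n) (h : p ^ (n - k) = p ^ (n - l)) :
    k = l := by
  have := Nat.pow_right_injective hp.two_le h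
  omega

/-- Maximality of the terms of the chain. -/
theorem eq_of_chain_max (hNp : IsPGroup p N) (hGN : GInv G N) {n : ℕ}
    (hS : ∀ i, i ≤ n → Nat.card (Cfsg.iterCommutator N G i) = p ^ (n - i)) {i : ℕ} (hi : i < n)
    (W : Subgroup L) (h1 : Cfsg.iterCommutator N G (i + 1) ≤ W) (h2 : W ≤ Cfsg.iterCommutator N G i)
    {h : L} (hW : h ∈ W) (hh : h ∉ Cfsg.iterCommutator N G (i + 1)) :
    W = Cfsg.iterCommutator N G i := by
  have hp : p.Prime := Fact.out
  apply Subgroup.eq_of_le_of_card_ge h2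
  rw [hS i hi.le]
  obtain ⟨a, ha⟩ := IsPGroup.iff_card.1 (hNp.to_le (h2.trans (iter_le_N hGN i)))
  have hlt : Nat.card (Cfsg.iterCommutator N G (i + 1)) < Nat.card W := by
    by_contra hcon
    push Not at hcon
    have := Subgroup.eq_of_le_of_card_ge h1 hcon
    exact hh (this ▸ hW)
  rw [hS (i + 1) (by omega), ha] at hlt
  have := (Nat.pow_lt_pow_iff_right hp.one_lt).1 hlt
  rw [ha]
  exact Nat.pow_le_pow_right hp.pos (by omega)

/-- All invariant subgroups are terms of the chain. -/
theorem chain_terms (hNp : IsPGroup p N) (hGN : GInv G N) {n : ℕ}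
    (hS : ∀ i, i ≤ n → Nat.card (Cfsg.iterCommutator N G i) = p ^ (n - i)) :
    ∀ m i, i + m = n → ∀ H : Subgroup L, H ≤ Cfsg.iterCommutator N G i → GInv G H →
      ∃ j, i ≤ j ∧ j ≤ n ∧ H = Cfsg.iterCommutator N G j := by
  have hp : p.Prime := Fact.out
  have hbot : Cfsg.iterCommutator N G n = ⊥ := by
    apply Subgroup.eq_bot_of_card_eq
    rw [hS n le_rfl]; simp
  intro m
  induction m with
  | zero =>
    intro i hi H hH _
    obtain rfl : i = n := by omega
    refine ⟨i, le_rfl, le_rfl, ?_⟩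
    rw [hbot] at hH ⊢
    exact le_bot_iff.1 hH
  | succ m ih =>
    intro i hi H hH hHinv
    by_cases hle : H ≤ Cfsg.iterCommutator N G (i + 1)
    · obtain ⟨j, hj1, hj2, hj3⟩ := ih (i + 1) (by omega) H hle hHinv
      exact ⟨j, by omega, hj2, hj3⟩
    obtain ⟨h, hhH, hhI⟩ := SetLike.not_le_iff_exists.1 hle
    have hhi : h ∈ Cfsg.iterCommutator N G i := hH hhH
    have hDinv : GInv G (H ⊓ Cfsg.iterCommutator N G (i + 1)) := fun g hg x hx =>
      Subgroup.mem_inf.2 ⟨hHinv g hg x (Subgroup.mem_inf.1 hx).1,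
        iter_inv hGN (i + 1) g hg x (Subgroup.mem_inf.1 hx).2⟩
    obtain ⟨j, hj1, hj2, hj3⟩ := ih (i + 1) (by omega) _ inf_le_right hDinv
    have hcomm : ∀ g ∈ G, h⁻¹ * (g * h * g⁻¹) ∈ H ⊓ Cfsg.iterCommutator N G (i + 1) := by
      intro g hg
      refine Subgroup.mem_inf.2 ⟨H.mul_mem (H.inv_mem hhH) (hHinv g hg h hhH), ?_⟩
      have e : h⁻¹ * (g * h * g⁻¹) = ⁅h⁻¹, g⁆ := by
        simp only [commutatorElement_def]; group
      rw [e]
      exact Subgroup.commutator_mem_commutator (Subgroup.inv_mem _ hhi) hg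
    by_cases hj : j = i + 1
    · -- `I (i+1) ≤ H`
      have hle2 : Cfsg.iterCommutator N G (i + 1) ≤ H := by
        rw [hj] at hj3
        rw [← hj3]
        exact inf_le_left
      exact ⟨i, le_rfl, by omega, eq_of_chain_max hNp hGN hS (by omega) H hle2 hH hhH hhI⟩
    · exfalso
      have hj' : i + 2 ≤ j := by omega
      have hDY : H ⊓ Cfsg.iterCommutator N G (i + 1) ≤ Cfsg.iterCommutator N G (i + 2) := by
        rw [hj3]
        exact iter_antitone hGN hj'
      set Y := Cfsg.iterCommutator N G (i + 2) with hY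
      have hYinv : GInv G Y := iter_inv hGN (i + 2)
      have hYle : Y ≤ Cfsg.iterCommutator N G (i + 1) := iter_succ_le hGN (i + 1)
      -- the conjugate of `Y` by `h`
      set Y' := Y.map (MulAut.conj h).toMonoidHom with hY'
      have hY'le : Y' ≤ Cfsg.iterCommutator N G (i + 1) := by
        rintro _ ⟨y, hy, rfl⟩
        exact comm_conj_left _ _ hhi (hYle hy)
      have hYnorm : Cfsg.iterCommutator N G (i + 1) ≤ Subgroup.normalizer (Y : Set L) := by
        intro x hx
        apply Cfsg.Agent.Lib.PGroup.Replacement.mem_normalizer_of_conj_mem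
        intro y hy
        exact comm_conj_left _ _ hx hy
      have hY'inv : GInv G Y' := by
        rintro g hg _ ⟨y, hy, rfl⟩
        have hc := hDY (hcomm g hg)
        set c := h⁻¹ * (g * h * g⁻¹) with hc'
        refine ⟨c * (g * y * g⁻¹) * c⁻¹, ?_, ?_⟩
        · have h3 := hYinv g hg y hy
          have h4 := (Subgroup.mem_normalizer_iff.1 (hYnorm (hYle hc))) (g * y * g⁻¹)
          exact h4.1 h3
        · show h * (c * (g * y * g⁻¹) * c⁻¹) * h⁻¹ = g * (h * y * h⁻¹) * g⁻¹
          rw [hc']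
          group
      obtain ⟨k, hk1, hk2, hk3⟩ := ih (i + 1) (by omega) Y' hY'le hY'inv
      have hcardY' : Nat.card Y' = Nat.card Y :=
        Subgroup.card_map_of_injective (MulAut.conj h).injective
      have hk4 : k = i + 2 := by
        have h5 : Nat.card (Cfsg.iterCommutator N G k) = Nat.card Y := by rw [← hk3]; exact hcardY'
        rw [hS k hk2, hY, hS (i + 2) (by omega)] at h5
        exact card_inj_aux hp hk2 (by omega) h5
      have hY'eq : Y' = Y := by rw [hk3, hk4]
      have hhnorm : h ∈ Subgroup.normalizer (Y : Set L) := by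
        apply Cfsg.Agent.Lib.PGroup.Replacement.mem_normalizer_of_conj_mem
        intro y hy
        rw [← hY'eq]
        exact ⟨y, hy, rfl⟩
      -- the subgroup of elements acting trivially modulo `Y`
      let W : Subgroup L :=
        { carrier := {y | y ∈ Cfsg.iterCommutator N G i ∧ y ∈ Subgroup.normalizer (Y : Set L) ∧
            ∀ g ∈ G, ⁅y, g⁆ ∈ Y}
          mul_mem' := by
            rintro a b ⟨ha1, ha2, ha3⟩ ⟨hb1, hb2, hb3⟩
            refine ⟨Subgroup.mul_mem _ ha1 hb1, Subgroup.mul_mem _ ha2 hb2, fun g hg => ?_⟩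
            have e : ⁅a * b, g⁆ = (a * ⁅b, g⁆ * a⁻¹) * ⁅a, g⁆ := by
              simp only [commutatorElement_def]; group
            rw [e]
            exact Y.mul_mem (((Subgroup.mem_normalizer_iff.1 ha2) _).1 (hb3 g hg)) (ha3 g hg)
          one_mem' := ⟨Subgroup.one_mem _, Subgroup.one_mem _, fun g _ => by simp [Y.one_mem]⟩
          inv_mem' := by
            rintro a ⟨ha1, ha2, ha3⟩
            refine ⟨Subgroup.inv_mem _ ha1, Subgroup.inv_mem _ ha2, fun g hg => ?_⟩
            have e : ⁅a⁻¹, g⁆ = a⁻¹ * (⁅a, g⁆)⁻¹ * a⁻¹⁻¹ := by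
              simp only [commutatorElement_def]; group
            rw [e]
            exact ((Subgroup.mem_normalizer_iff.1 (Subgroup.inv_mem _ ha2)) _).1 (Y.inv_mem (ha3 g hg)) }
      have hW1 : Cfsg.iterCommutator N G (i + 1) ≤ W := by
        intro x hx
        exact ⟨iter_succ_le hGN i hx, hYnorm hx, fun g hg => Subgroup.commutator_mem_commutator hx hg⟩
      have hhW : h ∈ W := by
        refine ⟨hhi, hhnorm, fun g hg => ?_⟩
        have hc := hDY (hcomm g hg)
        have e : ⁅h, g⁆ = h * (h⁻¹ * (g * h * g⁻¹))⁻¹ * h⁻¹ := by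
          simp only [commutatorElement_def]; group
        rw [e]
        exact ((Subgroup.mem_normalizer_iff.1 hhnorm) _).1 (Y.inv_mem hc)
      have hW2 : W ≤ Cfsg.iterCommutator N G i := fun x hx => hx.1
      have hWeq := eq_of_chain_max hNp hGN hS (by omega) W hW1 hW2 hhW hhI
      have hfinal : Cfsg.iterCommutator N G (i + 1) ≤ Y := by
        show ⁅Cfsg.iterCommutator N G i, G⁆ ≤ Y
        rw [Subgroup.commutator_le]
        intro x hx g hg
        rw [← hWeq] at hx
        exact hx.2.2 g hg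
      have h6 : Nat.card (Cfsg.iterCommutator N G (i + 1)) ≤ Nat.card Y :=
        Nat.card_mono (Set.toFinite _) hfinal
      rw [hS (i + 1) (by omega), hY, hS (i + 2) (by omega)] at h6
      have h7 := (Nat.pow_le_pow_iff_right hp.one_lt).1 h6
      omega

theorem normal_part (hNp : IsPGroup p N) (hGN : GInv G N) {n : ℕ}
    (hS : ∀ i, i ≤ n → Nat.card (Cfsg.iterCommutator N G i) = p ^ (n - i))
    (H : Subgroup L) (hH : H ≤ N) (hHinv : GInv G H) : N ≤ Subgroup.normalizer (H : Set L) := by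
  have hp : p.Prime := Fact.out
  have hterms := chain_terms hNp hGN hS n 0 (by omega)
  have hGnorm : G ≤ Subgroup.normalizer (H : Set L) := le_normalizer_of_inv hHinv
  have hTinv : GInv G (N ⊓ Subgroup.normalizer (H : Set L)) := by
    intro g hg x hx
    refine Subgroup.mem_inf.2 ⟨hGN g hg x (Subgroup.mem_inf.1 hx).1, ?_⟩
    exact Subgroup.mul_mem _ (Subgroup.mul_mem _ (hGnorm hg) (Subgroup.mem_inf.1 hx).2)
      (Subgroup.inv_mem _ (hGnorm hg))
  obtain ⟨j, -, hj2, hj3⟩ := hterms (N ⊓ Subgroup.normalizer (H : Set L)) inf_le_left hTinv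
  rcases Nat.eq_zero_or_pos j with hj0 | hj0
  · subst hj0
    have : N ≤ N ⊓ Subgroup.normalizer (H : Set L) := by rw [hj3]; exact le_rfl
    exact this.trans inf_le_right
  exfalso
  obtain ⟨l, hl1, hl2, hl3⟩ := hterms H hH hHinv
  -- an element of the previous term outside this one
  obtain ⟨x, hx1, hx2⟩ : ∃ x ∈ Cfsg.iterCommutator N G (j - 1), x ∉ Cfsg.iterCommutator N G j := by
    by_contra hcon
    push Not at hcon
    have h1 : Nat.card (Cfsg.iterCommutator N G (j - 1)) ≤ Nat.card (Cfsg.iterCommutator N G j) :=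
      Nat.card_mono (Set.toFinite _) hcon
    rw [hS (j - 1) (by omega), hS j hj2] at h1
    have h2 := (Nat.pow_le_pow_iff_right hp.one_lt).1 h1
    omega
  have hxN : x ∈ N := iter_le_N hGN _ hx1
  have hcj : ∀ g ∈ G, x⁻¹ * (g * x * g⁻¹) ∈ N ⊓ Subgroup.normalizer (H : Set L) := by
    intro g hg
    rw [hj3]
    have e : x⁻¹ * (g * x * g⁻¹) = ⁅x⁻¹, g⁆ := by
      simp only [commutatorElement_def]; group
    rw [e]
    have h1 : ⁅x⁻¹, g⁆ ∈ Cfsg.iterCommutator N G (j - 1 + 1) :=
      Subgroup.commutator_mem_commutator (Subgroup.inv_mem _ hx1) hg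
    rwa [Nat.sub_add_cancel hj0] at h1
  set H' := H.map (MulAut.conj x).toMonoidHom with hH'
  have hH'le : H' ≤ N := by
    rintro _ ⟨y, hy, rfl⟩
    exact N.mul_mem (N.mul_mem hxN (hH hy)) (N.inv_mem hxN)
  have hH'inv : GInv G H' := by
    rintro g hg _ ⟨y, hy, rfl⟩
    have hc := Subgroup.mem_inf.1 (hcj g hg)
    set c := x⁻¹ * (g * x * g⁻¹) with hc'
    refine ⟨c * (g * y * g⁻¹) * c⁻¹, ?_, ?_⟩
    · exact ((Subgroup.mem_normalizer_iff.1 hc.2) _).1 (hHinv g hg y hy)
    · show x * (c * (g * y * g⁻¹) * c⁻¹) * x⁻¹ = g * (x * y * x⁻¹) * g⁻¹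
      rw [hc']
      group
  obtain ⟨k, -, hk2, hk3⟩ := hterms H' hH'le hH'inv
  have hcard : Nat.card H' = Nat.card H :=
    Subgroup.card_map_of_injective (MulAut.conj x).injective
  have hkl : k = l := by
    rw [hk3, hl3, hS k hk2, hS l hl2] at hcard
    exact card_inj_aux hp hk2 hl2 hcard
  have hH'eq : H' = H := by rw [hk3, hl3, hkl]
  apply hx2
  rw [← hj3]
  refine Subgroup.mem_inf.2 ⟨hxN, ?_⟩
  apply Cfsg.Agent.Lib.PGroup.Replacement.mem_normalizer_of_conj_mem
  intro y hy
  rw [← hH'eq]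
  exact ⟨y, hy, rfl⟩

end main

/-- A p-group acts uniserially on a p-group N of order p^n exactly when the iterated commutator chain from N has length n; in that case the chain terms are all the invariant subgroups of N and they are normal in N. -/
theorem result {L : Type*} [Group L] [Finite L] {p : ℕ} [Fact p.Prime] (N G : Subgroup L) (hN : IsPGroup p N) (hG : IsPGroup p G) (hGN : G ≤ Subgroup.normalizer (N : Set L)) (n : ℕ) (hn : Nat.card N = p ^ n) : ((∀ H : Subgroup L, H ≤ N → G ≤ Subgroup.normalizer (H : Set L) → H ≠ ⊥ → (⁅H, G⁆).relIndex H = p) ↔ Cfsg.iterCommutator N G (n - 1) ≠ ⊥ ∨ n = 0) ∧ ((∀ H : Subgroup L, H ≤ N → G ≤ Subgroup.normalizer (H : Set L) → H ≠ ⊥ → (⁅H, G⁆).relIndex H = p) → ∀ H : Subgroup L, H ≤ N → G ≤ Subgroup.normalizer (H : Set L) → (∃ i ≤ n, H = Cfsg.iterCommutator N G i) ∧ N ≤ Subgroup.normalizer (H : Set L)) := by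
  have hp : p.Prime := Fact.out
  have hGN' : GInv G N := inv_of_le_normalizer hGN
  have hUconv : (∀ H : Subgroup L, H ≤ N → G ≤ Subgroup.normalizer (H : Set L) → H ≠ ⊥ →
      (⁅H, G⁆).relIndex H = p) → ∀ H : Subgroup L, H ≤ N → GInv G H → H ≠ ⊥ →
      (⁅H, G⁆).relIndex H = p := fun h H h1 h2 h3 => h H h1 (le_normalizer_of_inv h2) h3
  refine ⟨⟨?_, ?_⟩, ?_⟩
  · intro hU
    have hS := sizes_of_U hGN' hn (hUconv hU)
    rcases Nat.eq_zero_or_pos n with h0 | h0
    · exact Or.inr h0
    · left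
      intro hbot
      have h1 := hS (n - 1) (by omega)
      rw [hbot, Subgroup.card_bot] at h1
      have h2 : n - (n - 1) = 1 := by omega
      rw [h2, pow_one] at h1
      exact hp.one_lt.ne h1
  · intro hL H hH hHG hne
    have hS := sizes_of_long hGN' hN hG hn hL
    obtain ⟨j, -, hj2, hj3⟩ := chain_terms hN hGN' hS n 0 (by omega) H hH (inv_of_le_normalizer hHG)
    have hjn : j ≠ n := by
      rintro rfl
      apply hne
      rw [hj3]
      apply Subgroup.eq_bot_of_card_eq
      rw [hS j le_rfl]; simp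
    subst hj3
    have h1 := card_relIndex (iter_succ_le hGN' j)
    have h2 : (⁅Cfsg.iterCommutator N G j, G⁆).relIndex (Cfsg.iterCommutator N G j) =
        (Cfsg.iterCommutator N G (j + 1)).relIndex (Cfsg.iterCommutator N G j) := rfl
    rw [h2]
    rw [hS (j + 1) (by omega), hS j hj2] at h1
    have h3 : n - j = (n - (j + 1)) + 1 := by omega
    rw [h3, pow_succ] at h1
    exact Nat.eq_of_mul_eq_mul_left (pow_pos hp.pos _) h1
  · intro hU H hH hHG
    have hS := sizes_of_U hGN' hn (hUconv hU)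
    have hinv := inv_of_le_normalizer hHG
    obtain ⟨j, -, hj2, hj3⟩ := chain_terms hN hGN' hS n 0 (by omega) H hH hinv
    exact ⟨⟨j, hj2, hj3⟩, normal_part hN hGN' hS H hH hinv⟩

end Cfsg.Agent.S0663
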