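import Cfsg.Statements.S0668
import Mathlib
-- import your own Cfsg.Agent.* helpers here

set_option autoImplicit false
open Cfsg

namespace Cfsg.Agent.S0668

/-- The equivariant linear maps between the permutation modules of two finite `G`-sets form a space whose dimension is the number of `G`-orbits on the product of the two sets. -/
theorem result {G : Type*} [Group G] {K : Type*} [Field K] {Ω₁ Ω₂ : Type*} [Fintype Ω₁] [Fintype Ω₂] [MulAction G Ω₁] [MulAction G Ω₂] : Module.finrank K ((Cfsg.permRep K G Ω₁).linHom (Cfsg.permRep K G Ω₂)).invariants = Nat.card (MulAction.orbitRel.Quotient G (Ω₁ × Ω₂)) := by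
  classical
  letI : Fintype (MulAction.orbitRel.Quotient G (Ω₁ × Ω₂)) := Fintype.ofFinite _
  -- from orbit functions to linear maps
  let Ψ : (MulAction.orbitRel.Quotient G (Ω₁ × Ω₂) → K) →ₗ[K] ((Ω₁ → K) →ₗ[K] (Ω₂ → K)) :=
    { toFun := fun φ => Matrix.toLin' (Matrix.of fun (y : Ω₂) (x : Ω₁) =>
        φ (Quotient.mk (MulAction.orbitRel G (Ω₁ × Ω₂)) (x, y)))
      map_add' := by
        intro φ₁ φ₂
        rw [← map_add]
        rfl
      map_smul' := by
        intro c φ
        rw [RingHom.id_apply, ← map_smul]
        rfl }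
  have hΨ : ∀ φ u y, Ψ φ u y =
      ∑ x, φ (Quotient.mk (MulAction.orbitRel G (Ω₁ × Ω₂)) (x, y)) * u x := by
    intro φ u y
    rfl
  have hinj : Function.Injective Ψ := by
    rw [← LinearMap.ker_eq_bot, LinearMap.ker_eq_bot']
    intro φ hφ
    funext q
    induction q using Quotient.inductionOn with
    | h p =>
      obtain ⟨x, y⟩ := p
      have h1 := hΨ φ (Pi.single x 1) y
      rw [hφ] at h1
      simp only [LinearMap.zero_apply, Pi.zero_apply] at h1
      rw [Finset.sum_eq_single x] at h1
      · simpa using h1.symm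
      · intro b _ hb
        simp [hb]
      · simp
  have hrange : LinearMap.range Ψ = ((Cfsg.permRep K G Ω₁).linHom (Cfsg.permRep K G Ω₂)).invariants := by
    apply le_antisymm
    · rintro _ ⟨φ, rfl⟩
      rw [Representation.mem_invariants]
      intro g
      rw [Representation.linHom_apply]
      apply LinearMap.ext
      intro u
      funext y
      change Ψ φ (fun z => u (g⁻¹⁻¹ • z)) (g⁻¹ • y) = Ψ φ u y
      rw [hΨ, hΨ]
      rw [← Equiv.sum_comp (MulAction.toPerm g⁻¹) (fun x =>
        φ (Quotient.mk (MulAction.orbitRel G (Ω₁ × Ω₂)) (x, g⁻¹ • y)) * u (g⁻¹⁻¹ • x))]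
      apply Finset.sum_congr rfl
      intro x _
      have h1 : (Quotient.mk (MulAction.orbitRel G (Ω₁ × Ω₂)) ((MulAction.toPerm g⁻¹) x, g⁻¹ • y)) =
          Quotient.mk (MulAction.orbitRel G (Ω₁ × Ω₂)) (x, y) := by
        apply Quotient.sound
        exact ⟨g⁻¹, rfl⟩
      rw [h1]
      congr 2
      simp [MulAction.toPerm]
    · intro f hf
      rw [Representation.mem_invariants] at hf
      let e : Ω₁ → (Ω₁ → K) := fun x j => if x = j then (1 : K) else 0
      have hfg : ∀ (g : G) (x : Ω₁) (y : Ω₂), f (e (g • x)) (g • y) = f (e x) y := by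
        intro g x y
        have h1 := hf g
        rw [Representation.linHom_apply] at h1
        have h2 := LinearMap.congr_fun h1 (e (g • x))
        have h3 := congrFun h2 (g • y)
        rw [← h3]
        change f (fun z => e (g • x) (g⁻¹⁻¹ • z)) (g⁻¹ • g • y) = _
        have h4 : (fun z => e (g • x) (g⁻¹⁻¹ • z)) = e x := by
          funext z
          simp [e, inv_inv, smul_left_cancel_iff]
        rw [h4, inv_smul_smul]
      let φ : MulAction.orbitRel.Quotient G (Ω₁ × Ω₂) → K := fun q =>
        Quotient.liftOn q (fun p => f (e p.1) p.2) (by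
          rintro a b ⟨g, rfl⟩
          exact hfg g b.1 b.2)
      refine ⟨φ, ?_⟩
      apply LinearMap.ext
      intro u
      funext y
      rw [hΨ, LinearMap.pi_apply_eq_sum_univ f u, Finset.sum_apply]
      apply Finset.sum_congr rfl
      intro x _
      simp only [Pi.smul_apply, smul_eq_mul]
      rw [mul_comm]
      rfl
  rw [← hrange, LinearMap.finrank_range_of_inj hinj, Module.finrank_fintype_fun_eq_card,
    Nat.card_eq_fintype_card]

end Cfsg.Agent.S0668
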