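import Cfsg.Statements.S0669
import Mathlib

set_option autoImplicit false
open Cfsg

namespace Cfsg.Agent.S0669

/-- The rank of a transitive action: orbits on ordered pairs correspond to orbits of a point stabiliser. -/
theorem result {G : Type*} [Group G] {Ω : Type*} [Finite Ω] [MulAction G Ω] [MulAction.IsPretransitive G Ω] (a : Ω) : Nat.card (MulAction.orbitRel.Quotient G (Ω × Ω)) = Nat.card (MulAction.orbitRel.Quotient (MulAction.stabilizer G a) Ω) := by
  symm
  let f : MulAction.orbitRel.Quotient (MulAction.stabilizer G a) Ω →
      MulAction.orbitRel.Quotient G (Ω × Ω) :=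
    Quotient.lift (fun y => Quotient.mk _ (a, y)) (by
      intro y y' h
      apply Quotient.sound
      have h' : y ∈ MulAction.orbit (MulAction.stabilizer G a) y' := h
      obtain ⟨s, hs⟩ := h'
      refine ⟨(s : G), ?_⟩
      have hsa : (s : G) • a = a := s.2
      have hsy : (s : G) • y' = y := hs
      exact Prod.ext hsa hsy)
  apply Nat.card_congr
  refine Equiv.ofBijective f ⟨?_, ?_⟩
  · intro q q'
    induction q using Quotient.inductionOn with | _ y => ?_
    induction q' using Quotient.inductionOn with | _ y' => ?_
    intro h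
    have h' : (a, y) ∈ MulAction.orbit G (a, y') := Quotient.exact h
    obtain ⟨g, hg⟩ := h'
    have h1 : g • a = a := congrArg Prod.fst hg
    have h2 : g • y' = y := congrArg Prod.snd hg
    apply Quotient.sound
    exact ⟨⟨g, h1⟩, h2⟩
  · intro q
    induction q using Quotient.inductionOn with | _ p => ?_
    obtain ⟨x, y⟩ := p
    obtain ⟨g, hg⟩ := MulAction.exists_smul_eq G x a
    refine ⟨Quotient.mk _ (g • y), ?_⟩
    apply Quotient.sound
    refine ⟨g, ?_⟩
    exact Prod.ext hg rfl

end Cfsg.Agent.S0669
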