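import Cfsg.Statements.S0672
import Mathlib

set_option autoImplicit false
open Cfsg

namespace Cfsg.Agent.S0672

open MulAction

section
variable {G : Type*} [Group G] {Ω : Type*} [DecidableEq Ω] [MulAction G Ω]

lemma mem_smul_pair (g : G) (x : Ω) (ρ : Set.powersetCard Ω 2) : g • x ∈ (g • ρ) ↔ x ∈ ρ := by
  rw [← Set.powersetCard.mem_coe_iff, Set.powersetCard.coe_smul, ← Set.powersetCard.mem_coe_iff]
  exact Finset.smul_mem_smul_finset_iff g

def mkPair (a b : Ω) (h : a ≠ b) : Set.powersetCard Ω 2 :=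
  ⟨({a, b} : Finset Ω), Finset.card_pair h⟩

lemma mem_mkPair {a b x : Ω} {h : a ≠ b} : x ∈ mkPair a b h ↔ x = a ∨ x = b := by
  rw [← Set.powersetCard.mem_coe_iff]
  show x ∈ ({a, b} : Finset Ω) ↔ _
  simp

lemma pair_cases {a b c d : Ω} {h1 : a ≠ b} {h2 : c ≠ d} {g : G}
    (h : g • mkPair a b h1 = mkPair c d h2) :
    (g • a = c ∧ g • b = d) ∨ (g • a = d ∧ g • b = c) := by
  have ha : g • a ∈ mkPair c d h2 := by
    rw [← h, mem_smul_pair, mem_mkPair]; left; rfl
  have hb : g • b ∈ mkPair c d h2 := by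
    rw [← h, mem_smul_pair, mem_mkPair]; right; rfl
  rw [mem_mkPair] at ha hb
  have hne : g • a ≠ g • b := fun e => h1 (smul_left_cancel g e)
  rcases ha with ha | ha <;> rcases hb with hb | hb
  · exact absurd (ha.trans hb.symm) hne
  · left; exact ⟨ha, hb⟩
  · right; exact ⟨ha, hb⟩
  · exact absurd (ha.trans hb.symm) hne

lemma exists_swap [Finite G] [FaithfulSMul G Ω]
    (heven : ∀ a : Ω, Even (Nat.card (stabilizer G a)))
    (hanti : ∀ (a a' : Ω) (π π' : Set.powersetCard Ω 2), a ∉ π → a' ∉ π' →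
      ∃ g : G, g • a = a' ∧ g • π = π')
    (y0 y1 y2 : Ω) (h01 : y0 ≠ y1) (h02 : y0 ≠ y2) (h12 : y1 ≠ y2) :
    ∃ s : G, s • y0 = y0 ∧ s • y1 = y2 ∧ s • y2 = y1 := by
  obtain ⟨t0, ht0⟩ := exists_prime_orderOf_dvd_card' (G := stabilizer G y0) 2
    (even_iff_two_dvd.mp (heven y0))
  set t : G := (t0 : G) with htdef
  have hty : t • y0 = y0 := t0.2
  have hto : orderOf t = 2 := by rw [htdef, Subgroup.orderOf_coe]; exact ht0
  have ht2 : t * t = 1 := by rw [← pow_two, ← hto]; exact pow_orderOf_eq_one t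
  have ht1 : t ≠ 1 := by
    intro h; rw [h, orderOf_one] at hto; omega
  obtain ⟨b, hb⟩ : ∃ b : Ω, t • b ≠ b := by
    by_contra hcon
    push Not at hcon
    apply ht1
    apply eq_of_smul_eq_smul (α := Ω)
    intro x
    rw [hcon x, one_smul]
  set c := t • b with hc
  have htc : t • c = b := by rw [hc, smul_smul, ht2, one_smul]
  have hyb : y0 ≠ b := by
    intro h
    apply hb
    show t • b = b
    rw [← h]; exact hty
  have hyc : y0 ≠ c := by
    intro h
    apply hyb
    rw [← htc, ← h, hty]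
  have hbc : b ≠ c := fun h => hb h.symm
  have h1 : y0 ∉ mkPair b c hbc := by
    rw [mem_mkPair]; push Not; exact ⟨hyb, hyc⟩
  have h2 : y0 ∉ mkPair y1 y2 h12 := by
    rw [mem_mkPair]; push Not; exact ⟨h01, h02⟩
  obtain ⟨h, hh0, hh⟩ := hanti y0 y0 _ _ h1 h2
  have hinv : h⁻¹ • y0 = y0 := by
    nth_rewrite 1 [← hh0]
    rw [inv_smul_smul]
  have hs0 : (h * t * h⁻¹) • y0 = y0 := by
    rw [mul_smul, mul_smul, hinv, hty, hh0]
  have hsb : (h * t * h⁻¹) • (h • b) = h • c := by
    rw [mul_smul, mul_smul, inv_smul_smul]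
  have hsc : (h * t * h⁻¹) • (h • c) = h • b := by
    rw [mul_smul, mul_smul, inv_smul_smul, htc]
  refine ⟨h * t * h⁻¹, hs0, ?_⟩
  rcases pair_cases hh with ⟨e1, e2⟩ | ⟨e1, e2⟩
  · rw [e1] at hsb; rw [e2] at hsc
    rw [e2] at hsb; rw [e1] at hsc
    exact ⟨hsb, hsc⟩
  · rw [e1] at hsb; rw [e2] at hsc
    rw [e2] at hsb; rw [e1] at hsc
    exact ⟨hsc, hsb⟩

theorem three_of_antiflag [Finite G] [FaithfulSMul G Ω]
    (heven : ∀ a : Ω, Even (Nat.card (stabilizer G a)))
    (hanti : ∀ (a a' : Ω) (π π' : Set.powersetCard Ω 2), a ∉ π → a' ∉ π' →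
      ∃ g : G, g • a = a' ∧ g • π = π') :
    IsMultiplyPretransitive G Ω 3 := by
  refine ⟨fun x y => ?_⟩
  have hx01 : x 0 ≠ x 1 := fun h => by simpa using x.injective h
  have hx02 : x 0 ≠ x 2 := fun h => by simpa using x.injective h
  have hx12 : x 1 ≠ x 2 := fun h => by simpa using x.injective h
  have hy01 : y 0 ≠ y 1 := fun h => by simpa using y.injective h
  have hy02 : y 0 ≠ y 2 := fun h => by simpa using y.injective h
  have hy12 : y 1 ≠ y 2 := fun h => by simpa using y.injective h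
  have h1 : x 0 ∉ mkPair (x 1) (x 2) hx12 := by
    rw [mem_mkPair]; push Not; exact ⟨hx01, hx02⟩
  have h2 : y 0 ∉ mkPair (y 1) (y 2) hy12 := by
    rw [mem_mkPair]; push Not; exact ⟨hy01, hy02⟩
  obtain ⟨g, hg0, hg⟩ := hanti _ _ _ _ h1 h2
  rcases pair_cases hg with ⟨e1, e2⟩ | ⟨e1, e2⟩
  · refine ⟨g, ?_⟩
    ext i
    fin_cases i
    · exact hg0
    · exact e1
    · exact e2
  · obtain ⟨s, hs0, hs1, hs2⟩ := exists_swap heven hanti (y 0) (y 1) (y 2) hy01 hy02 hy12
    refine ⟨s * g, ?_⟩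
    ext i
    fin_cases i
    · show (s * g) • x 0 = y 0
      rw [mul_smul, hg0, hs0]
    · show (s * g) • x 1 = y 1
      rw [mul_smul, e1, hs2]
    · show (s * g) • x 2 = y 2
      rw [mul_smul, e2, hs1]

def orb (a : Ω) (π : Set.powersetCard Ω 2) (x : Ω) (ρ : Set.powersetCard Ω 2) : Prop :=
  ∃ g : G, g • a = x ∧ g • π = ρ

lemma orb_smul (a : Ω) (π : Set.powersetCard Ω 2) (g : G) (x : Ω) (ρ : Set.powersetCard Ω 2) :
    orb (G := G) a π (g • x) (g • ρ) ↔ orb (G := G) a π x ρ := by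
  constructor
  · rintro ⟨h, h1, h2⟩
    refine ⟨g⁻¹ * h, ?_, ?_⟩
    · rw [mul_smul, h1, inv_smul_smul]
    · rw [mul_smul, h2, inv_smul_smul]
  · rintro ⟨h, h1, h2⟩
    refine ⟨g * h, ?_, ?_⟩
    · rw [mul_smul, h1]
    · rw [mul_smul, h2]

end

section
variable {K : Type*} [Field K] {Ω X : Type*} [Fintype Ω]

noncomputable def kernelMap (l : Ω → X → K) : (Ω → K) →ₗ[K] (X → K) where
  toFun f ρ := ∑ x, l x ρ * f x
  map_add' f g := by
    ext ρ
    simp [mul_add, Finset.sum_add_distrib]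
  map_smul' c f := by
    ext ρ
    simp [Finset.mul_sum, mul_left_comm]

end

/-- Let a finite group act faithfully and doubly transitively with point stabilisers of even order, and let `K` have characteristic `p` dividing the degree. If the heart of the permutation module admits no non-zero equivariant map to the permutation module on unordered pairs (phrased: every intertwining map from the sum-zero functions vanishing on the constants is zero), the action is triply transitive. -/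
theorem result {G : Type*} [Group G] [Finite G] {K : Type*} [Field K] {p : ℕ} [Fact p.Prime] [CharP K p] {Ω : Type*} [Fintype Ω] [DecidableEq Ω] [MulAction G Ω] [FaithfulSMul G Ω] (h2 : MulAction.IsMultiplyPretransitive G Ω 2) (hp : p ∣ Fintype.card Ω) (heven : ∀ a : Ω, Even (Nat.card (MulAction.stabilizer G a))) (h : ∀ f : Representation.IntertwiningMap (Cfsg.permSumZero K G Ω).toRepresentation (Cfsg.permRep K G (Set.powersetCard Ω 2)), (∀ v : (Cfsg.permSumZero K G Ω).toSubmodule, (v : Ω → K) ∈ (Cfsg.permConstants K G Ω).toSubmodule → f v = 0) → f = 0) : MulAction.IsMultiplyPretransitive G Ω 3 := by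
  classical
  by_contra hn3
  have hpairs : IsPretransitive G (Set.powersetCard Ω 2) :=
    Set.powersetCard.isPretransitive_of_isMultiplyPretransitive G h2
  have hdis : ∃ (a a' : Ω) (π π' : Set.powersetCard Ω 2), a ∉ π ∧ a' ∉ π' ∧
      ∀ g : G, ¬ (g • a = a' ∧ g • π = π') := by
    by_contra hcon
    push Not at hcon
    apply hn3
    apply three_of_antiflag heven
    intro a a' π π' h1 h2
    exact hcon a a' π π' h1 h2
  obtain ⟨a, a', π, π', ha, ha', hd⟩ := hdis
  -- the kernel
  set d2 : K := ∑ x : Ω, (if orb (G := G) a π x π then (1 : K) else 0) with hd2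
  set d3 : K := ∑ x : Ω, (if orb (G := G) a' π' x π then (1 : K) else 0) with hd3
  obtain ⟨μ, ν, hne, h0⟩ : ∃ μ ν : K, (μ ≠ 0 ∨ ν ≠ 0) ∧ μ * d2 + ν * d3 = 0 := by
    by_cases hz : d2 = 0
    · exact ⟨1, 0, Or.inl one_ne_zero, by rw [hz]; simp⟩
    · exact ⟨d3, -d2, Or.inr (neg_ne_zero.mpr hz), by ring⟩
  let l : Ω → Set.powersetCard Ω 2 → K := fun x ρ =>
    μ * (if orb (G := G) a π x ρ then (1 : K) else 0) + ν * (if orb (G := G) a' π' x ρ then (1 : K) else 0)
  have hl : ∀ (g : G) (x : Ω) (ρ : Set.powersetCard Ω 2), l (g • x) (g • ρ) = l x ρ := by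
    intro g x ρ
    simp only [l, orb_smul]
  have hrow : ∀ ρ, ∑ x, l x ρ = 0 := by
    intro ρ
    obtain ⟨g, rfl⟩ := exists_smul_eq G π ρ
    have e : ∑ x, l x (g • π) = ∑ x, l x π := by
      rw [← Fintype.sum_equiv (MulAction.toPerm g) (fun x => l (g • x) (g • π)) (fun x => l x (g • π)) (fun x => rfl)]
      exact Finset.sum_congr rfl (fun x _ => hl g x π)
    rw [e]
    simp only [l, Finset.sum_add_distrib, ← Finset.mul_sum]
    exact h0
  -- the intertwining map
  let F : Representation.IntertwiningMap (Cfsg.permSumZero K G Ω).toRepresentation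
      (Cfsg.permRep K G (Set.powersetCard Ω 2)) :=
    LinearMap.intertwiningMap_of_isIntertwiningMap _ _
      ((kernelMap l) ∘ₗ (Cfsg.permSumZero K G Ω).toSubmodule.subtype) (by
        intro g v
        ext ρ
        show ∑ x, l x ρ * ((v : Ω → K) (g⁻¹ • x)) = ∑ x, l x (g⁻¹ • ρ) * (v : Ω → K) x
        rw [← Fintype.sum_equiv (MulAction.toPerm g) (fun x => l (g • x) ρ * ((v : Ω → K) (g⁻¹ • (g • x))))
          (fun x => l x ρ * ((v : Ω → K) (g⁻¹ • x))) (fun x => rfl)]
        apply Finset.sum_congr rfl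
        intro x _
        rw [inv_smul_smul]
        congr 1
        have := hl g x (g⁻¹ • ρ)
        rwa [smul_inv_smul] at this)
  have hFv : ∀ (v : (Cfsg.permSumZero K G Ω).toSubmodule) ρ, F v ρ = ∑ x, l x ρ * (v : Ω → K) x :=
    fun v ρ => rfl
  have hF0 : F = 0 := by
    apply h
    intro v hv
    obtain ⟨c, hc⟩ := Submodule.mem_span_singleton.mp hv
    ext ρ
    rw [hFv]
    show _ = (0 : K)
    rw [← hc]
    simp only [Pi.smul_apply, smul_eq_mul, mul_one]
    rw [← Finset.sum_mul, hrow, zero_mul]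
  -- a nonzero value
  obtain ⟨y, hy⟩ : ∃ y, l y π ≠ 0 := by
    have nO3 : ¬ orb (G := G) a' π' a π := by
      rintro ⟨g, h1, h2⟩
      apply hd g⁻¹
      constructor
      · rw [← h1, inv_smul_smul]
      · rw [← h2, inv_smul_smul]
    rcases hne with hμ | hν
    · refine ⟨a, ?_⟩
      have h1 : orb (G := G) a π a π := ⟨1, one_smul _ _, one_smul _ _⟩
      simp only [l, if_pos h1, if_neg nO3]
      simpa using hμ
    · obtain ⟨h', hh'⟩ := exists_smul_eq G π' π
      refine ⟨h' • a', ?_⟩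
      have h1 : orb (G := G) a' π' (h' • a') π := ⟨h', rfl, hh'⟩
      have h2 : ¬ orb (G := G) a π (h' • a') π := by
        rintro ⟨g, e1, e2⟩
        apply hd (h'⁻¹ * g)
        constructor
        · rw [mul_smul, e1, inv_smul_smul]
        · rw [mul_smul, e2, ← hh', inv_smul_smul]
      simp only [l, if_pos h1, if_neg h2]
      simpa using hν
  -- the flag
  obtain ⟨b, hb⟩ : ∃ b, b ∈ π := by
    have hc := π.2
    have : (π : Finset Ω).Nonempty := by
      rw [← Finset.card_pos]
      have h3 : (π : Finset Ω).card = 2 := hc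
      omega
    obtain ⟨b, hb⟩ := this
    exact ⟨b, hb⟩
  have hl0 : l b π = 0 := by
    have n1 : ¬ orb (G := G) a π b π := by
      rintro ⟨g, e1, e2⟩
      apply ha
      rw [← mem_smul_pair g, e1, e2]
      exact hb
    have n2 : ¬ orb (G := G) a' π' b π := by
      rintro ⟨g, e1, e2⟩
      apply ha'
      rw [← mem_smul_pair g, e1, e2]
      exact hb
    simp only [l, if_neg n1, if_neg n2]
    simp
  have hyb : y ≠ b := by
    intro h
    rw [h] at hy
    exact hy hl0
  -- test function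
  let f0 : Ω → K := fun x => (if x = y then 1 else 0) - (if x = b then 1 else 0)
  have hf0 : f0 ∈ (Cfsg.permSumZero K G Ω).toSubmodule := by
    show ∑ x, f0 x = 0
    simp [f0, Finset.sum_sub_distrib]
  have e := congrFun (congrArg (fun Φ : Representation.IntertwiningMap (Cfsg.permSumZero K G Ω).toRepresentation
      (Cfsg.permRep K G (Set.powersetCard Ω 2)) => Φ ⟨f0, hf0⟩) hF0) π
  have e2 : F ⟨f0, hf0⟩ π = l y π - l b π := by
    rw [hFv]
    show ∑ x, l x π * f0 x = _
    simp [f0, mul_sub, Finset.sum_sub_distrib]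
  have e3 : F ⟨f0, hf0⟩ π = 0 := e
  rw [e2, hl0, sub_zero] at e3
  exact hy e3

end Cfsg.Agent.S0672
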