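import Cfsg.Statements.S0677
import Cfsg.Agent.Lib.Perm.PrimeDegBound

set_option autoImplicit false
open Cfsg

namespace Cfsg.Agent.S0677


open Cfsg.Agent.Lib.Perm.PrimeDegHeart Cfsg.Agent.Lib.Perm.PrimeDegBound

variable {p : ℕ} [Fact p.Prime]

/-- A `p'`-group of affine maps has a fixed point. -/
theorem fix_of_affine {G : Type*} [Group G] [Finite G] (π : G →* Equiv.Perm (ZMod p))
    (haff : AllAffine π) (H : Subgroup G) (hH : ¬ p ∣ Nat.card H) :
    ∃ x, ∀ h ∈ H, π h x = x := by
  classical
  haveI : Fintype H := Fintype.ofFinite H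
  set n : ZMod p := (Nat.card H : ZMod p) with hn
  have hn0 : n ≠ 0 := by
    rw [hn, Ne, ZMod.natCast_eq_zero_iff]
    exact hH
  set A : ZMod p := ∑ h : H, π (h : G) 0 with hA
  refine ⟨n⁻¹ * A, fun k hk => ?_⟩
  have h1 : ∑ h : H, π (k * (h : G)) 0 = A := by
    have := Equiv.sum_comp (Equiv.mulLeft (⟨k, hk⟩ : H)) (fun h : H => π (h : G) 0)
    simpa using this
  have h2 : ∑ h : H, π (k * (h : G)) 0 = (π k 1 - π k 0) * A + n * π k 0 := by
    simp only [map_mul, Equiv.Perm.mul_apply]
    have h3 : ∀ h : H, π k (π (h : G) 0) = (π k 1 - π k 0) * π (h : G) 0 + π k 0 := fun h => haff k _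
    simp only [h3, Finset.sum_add_distrib, ← Finset.mul_sum, ← hA, Finset.sum_const, Finset.card_univ]
    rw [hn, Nat.card_eq_fintype_card, nsmul_eq_mul]
  rw [haff k (n⁻¹ * A)]
  have h4 : A = (π k 1 - π k 0) * A + n * π k 0 := h1.symm.trans h2
  field_simp
  linear_combination -h4

/-- Parity of an involution with exactly one fixed point. -/
theorem card_parity {α : Type*} [DecidableEq α] (S : Finset α) (i : α → α) (hi : ∀ x ∈ S, i x ∈ S)
    (hii : ∀ x, i (i x) = x) (z : α) (hz : ∀ x, i x = x ↔ x = z) :
    Even S.card ↔ z ∉ S := by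
  have hev : ∀ T : Finset α, (∀ x ∈ T, i x ∈ T) → (∀ x ∈ T, i x ≠ x) → Even T.card := by
    intro T h1 h2
    have h3 : ∑ _x ∈ T, (1 : ZMod 2) = 0 := by
      refine Finset.sum_involution (fun a _ => i a) ?_ ?_ ?_ ?_
      · intro a _
        decide
      · intro a ha _
        exact h2 a ha
      · intro a ha
        exact h1 a ha
      · intro a _
        exact hii a
    simp only [Finset.sum_const, nsmul_eq_mul, mul_one] at h3
    exact (ZMod.natCast_eq_zero_iff_even).mp h3
  by_cases hzS : z ∈ S
  · have h1 : Even (S.erase z).card := by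
      apply hev
      · intro x hx
        rw [Finset.mem_erase] at hx ⊢
        refine ⟨?_, hi x hx.2⟩
        intro h
        apply hx.1
        rw [← hii x, h]
        exact (hz z).mpr rfl
      · intro x hx h
        exact (Finset.mem_erase.mp hx).1 ((hz x).mp h)
    have h2 := Finset.card_erase_add_one hzS
    constructor
    · intro h3
      rw [← h2] at h3
      rw [Nat.even_add_one] at h3
      exact absurd h1 h3
    · intro h3
      exact absurd hzS h3
  · constructor
    · intro _
      exact hzS
    · intro _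
      apply hev S hi
      intro x hx h
      rw [(hz x).mp h] at hx
      exact hzS hx

/-- The main case: a group containing all reflections, not affine and doubly transitive. -/
theorem index_fix_nonaffine {G : Type*} [Group G] [Finite G] (π : G →* Equiv.Perm (ZMod p))
    (hinj : Function.Injective π) (σ : G) (hσ : ∀ j, π σ j = j + 1) (h2 : (2 : ZMod p) ≠ 0)
    (hrefl : ∀ c : ZMod p, ∃ r : G, ∀ j, π r j = c - j)
    (h2t : ∀ a b a' b' : ZMod p, a ≠ b → a' ≠ b' → ∃ g : G, π g a = a' ∧ π g b = b')
    (H : Subgroup G) (hH : ¬ p ∣ Nat.card H) (hidx : H.index = p) :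
    ∃ x, ∀ h ∈ H, π h x = x := by
  classical
  have hp : p.Prime := Fact.out
  have hσp : σ ^ p = 1 := by
    apply hinj
    ext x
    rw [pow_translate π σ hσ]
    simp
  have hσ1 : σ ≠ 1 := by
    rintro rfl
    have := hσ 0
    simp at this
  have hord : orderOf σ = p := orderOf_eq_prime hσp hσ1
  have hcard : Nat.card (Subgroup.zpowers σ) * Nat.card H = Nat.card G := by
    rw [Nat.card_zpowers, hord, ← hidx, mul_comm, Subgroup.card_mul_index]
  have hcop : Nat.Coprime (Nat.card (Subgroup.zpowers σ)) (Nat.card H) := by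
    rw [Nat.card_zpowers, hord]
    exact (Nat.Prime.coprime_iff_not_dvd hp).mpr hH
  have hcompl := Subgroup.isComplement'_of_coprime hcard hcop
  have hdec : ∀ g : G, ∃ s : ZMod p, ∃ h ∈ H, ∀ y, π g y = π h y + s := by
    intro g
    obtain ⟨⟨a, b⟩, hab⟩ := hcompl.2 g
    obtain ⟨z, hz⟩ := Subgroup.mem_zpowers_iff.mp a.2
    refine ⟨(z : ZMod p), b.1, b.2, fun y => ?_⟩
    have h1 : g = (σ ^ z) * b.1 := by
      rw [hz]
      exact hab.symm
    rw [h1, map_mul, Equiv.Perm.mul_apply, zpow_translate π σ hσ]
  let D : Finset (ZMod p) := Finset.univ.filter fun x => ∃ h ∈ H, π h 0 = x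
  have hD : ∀ x, x ∈ D ↔ ∃ h ∈ H, π h 0 = x := by
    intro x
    simp [D]
  have hD0 : (0 : ZMod p) ∈ D := (hD 0).mpr ⟨1, H.one_mem, by simp⟩
  have hDinv : ∀ h ∈ H, ∀ x, π h x ∈ D ↔ x ∈ D := by
    intro h hh x
    rw [hD, hD]
    constructor
    · rintro ⟨k, hk, hkx⟩
      refine ⟨h⁻¹ * k, H.mul_mem (H.inv_mem hh) hk, ?_⟩
      simp [map_mul, Equiv.Perm.mul_apply, hkx]
    · rintro ⟨k, hk, rfl⟩
      exact ⟨h * k, H.mul_mem hh hk, by simp [map_mul, Equiv.Perm.mul_apply]⟩
  -- `D` is not everything
  have hDne : ∃ x, x ∉ D := by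
    by_contra hcon
    push Not at hcon
    letI : MulAction H (ZMod p) := MulAction.compHom _ (π.comp H.subtype)
    have h1 := MulAction.index_stabilizer H (0 : ZMod p)
    have h3 : MulAction.orbit H (0 : ZMod p) = Set.univ := by
      ext x
      simp only [Set.mem_univ, iff_true]
      obtain ⟨h, hh, hhx⟩ := (hD x).mp (hcon x)
      exact ⟨⟨h, hh⟩, hhx⟩
    rw [h3, Set.ncard_univ, Nat.card_zmod] at h1
    apply hH
    rw [← h1]
    exact Subgroup.index_dvd_card _
  -- translates
  have hTr : ∀ (g : G) (s : ZMod p), ∃ s' : ZMod p, ∀ x, π g x - s' ∈ D ↔ x - s ∈ D := by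
    intro g s
    obtain ⟨t, ht⟩ := exists_translate π σ hσ s
    obtain ⟨s', h, hh, hh'⟩ := hdec (g * t)
    refine ⟨s', fun x => ?_⟩
    have h1 : π g x = π h (x - s) + s' := by
      have := hh' (x - s)
      rw [map_mul, Equiv.Perm.mul_apply, ht, sub_add_cancel] at this
      exact this
    rw [h1, add_sub_cancel_right, hDinv h hh]
  have hstab : ∀ s s' : ZMod p, (∀ x, x - s ∈ D ↔ x - s' ∈ D) → s = s' := by
    intro s s' h
    by_contra hne
    obtain ⟨z, hz⟩ := hDne
    apply hz
    set d := s' - s with hd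
    have hd0 : d ≠ 0 := sub_ne_zero.mpr (Ne.symm hne)
    have hstep : ∀ x, x ∈ D → x - d ∈ D := by
      intro x hx
      have := (h (x + s)).mp (by simpa using hx)
      have e : x + s - s' = x - d := by
        rw [hd]
        ring
      rwa [e] at this
    have hn : ∀ n : ℕ, -(n : ZMod p) * d ∈ D := by
      intro n
      induction n with
      | zero => simpa using hD0
      | succ n ih =>
        have := hstep _ ih
        have e : -((n + 1 : ℕ) : ZMod p) * d = -(n : ZMod p) * d - d := by
          push_cast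
          ring
        rwa [e]
    have := hn (-(z / d)).val
    rw [ZMod.natCast_zmod_val] at this
    have e : - -(z / d) * d = z := by
      field_simp
    rwa [e] at this
  -- counting
  let Lam : ZMod p → ZMod p → ℕ := fun a b => (Finset.univ.filter fun s => a - s ∈ D ∧ b - s ∈ D).card
  have hLam : ∀ (g : G) (a b : ZMod p), Lam (π g a) (π g b) = Lam a b := by
    intro g a b
    choose φ hφ using hTr g
    have hφinj : Function.Injective φ := by
      intro s s' hss
      apply hstab
      intro x
      rw [← hφ s x, ← hφ s' x, hss]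
    have hφbij : Function.Bijective φ := Finite.injective_iff_bijective.mp hφinj
    symm
    apply Finset.card_bij (fun s _ => φ s)
    · intro s hs
      simp only [Finset.mem_filter, Finset.mem_univ, true_and] at hs ⊢
      rw [hφ, hφ]
      exact hs
    · intro s _ s' _ h
      exact hφinj h
    · intro s' hs'
      obtain ⟨s, rfl⟩ := hφbij.2 s'
      refine ⟨s, ?_, rfl⟩
      simp only [Finset.mem_filter, Finset.mem_univ, true_and] at hs' ⊢
      rw [hφ, hφ] at hs'
      exact hs'
  have hLamc : ∀ a b a' b' : ZMod p, a ≠ b → a' ≠ b' → Lam a b = Lam a' b' := by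
    intro a b a' b' hab hab'
    obtain ⟨g, hg1, hg2⟩ := h2t a b a' b' hab hab'
    rw [← hg1, ← hg2, hLam]
  -- symmetry of `D`
  obtain ⟨r₀, hr₀⟩ := hrefl 0
  obtain ⟨s₀, hs₀⟩ := hTr r₀ 0
  set c₀ := -s₀ with hc₀
  have hsym : ∀ x, c₀ - x ∈ D ↔ x ∈ D := by
    intro x
    have := hs₀ x
    rw [hr₀, sub_zero] at this
    rw [← this, hc₀]
    have e : -s₀ - x = 0 - x - s₀ := by ring
    rw [e]
  -- parity
  have hpar : ∀ d : ZMod p, d ≠ 0 → (Even (Lam d 0) ↔ (c₀ - d) / 2 ∉ D) := by
    intro d _
    have hsmem : ∀ s, (s ∈ Finset.univ.filter fun s => d - s ∈ D ∧ (0 : ZMod p) - s ∈ D) ↔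
        (d - s ∈ D ∧ (0 : ZMod p) - s ∈ D) := by
      intro s
      simp
    have := card_parity (Finset.univ.filter fun s => d - s ∈ D ∧ (0 : ZMod p) - s ∈ D)
      (fun s => (d - c₀) - s) ?_ ?_ ((d - c₀) / 2) ?_
    · rw [this, hsmem]
      have e1 : (0 : ZMod p) - (d - c₀) / 2 = (c₀ - d) / 2 := by
        field_simp
        ring
      have e2 : d - (d - c₀) / 2 = c₀ - (c₀ - d) / 2 := by
        field_simp
        ring
      rw [e1, e2, hsym]
      simp
    · intro s hs
      rw [hsmem] at hs ⊢
      constructor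
      · have e : d - (d - c₀ - s) = c₀ - (0 - s) := by ring
        rw [e, hsym]
        exact hs.2
      · have e : 0 - (d - c₀ - s) = c₀ - (d - s) := by ring
        rw [e, hsym]
        exact hs.1
    · intro s
      ring
    · intro s
      constructor
      · intro h
        field_simp
        linear_combination -h
      · intro h
        rw [h]
        field_simp
        ring
  have hone : (1 : ZMod p) ≠ 0 := one_ne_zero
  have hall : ∀ z z' : ZMod p, z ≠ c₀ / 2 → z' ≠ c₀ / 2 → (z ∈ D ↔ z' ∈ D) := by
    intro z z' hz hz'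
    have hd : c₀ - 2 * z ≠ 0 := by
      intro h
      apply hz
      field_simp
      linear_combination -h
    have hd' : c₀ - 2 * z' ≠ 0 := by
      intro h
      apply hz'
      field_simp
      linear_combination -h
    have e1 : (c₀ - (c₀ - 2 * z)) / 2 = z := by
      field_simp
      ring
    have e2 : (c₀ - (c₀ - 2 * z')) / 2 = z' := by
      field_simp
      ring
    have h3 := hpar _ hd
    have h4 := hpar _ hd'
    rw [e1] at h3
    rw [e2] at h4
    have h5 : Lam (c₀ - 2 * z) 0 = Lam (c₀ - 2 * z') 0 := hLamc _ _ _ _ hd hd'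
    rw [h5] at h3
    have := h3.symm.trans h4
    exact not_iff_not.mp this
  by_cases hcase : ∃ z, z ≠ c₀ / 2 ∧ z ∉ D
  · obtain ⟨z, hz, hzD⟩ := hcase
    refine ⟨0, fun h hh => ?_⟩
    have h1 : π h 0 ∈ D := (hD _).mpr ⟨h, hh, rfl⟩
    have h2' : ∀ w ∈ D, w = c₀ / 2 := by
      intro w hw
      by_contra hne
      exact hzD ((hall w z hne hz).mp hw)
    rw [h2' _ h1, ← h2' _ hD0]
  · push Not at hcase
    obtain ⟨z, hz⟩ := hDne
    have hz' : z = c₀ / 2 := by
      by_contra hne
      exact hz (hcase z hne)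
    refine ⟨z, fun h hh => ?_⟩
    by_contra hne
    have h1 : π h z ∈ D := by
      apply hcase
      rw [← hz']
      exact hne
    exact hz ((hDinv h hh z).mp h1)

/-- **P. Neumann.**  In a transitive group of prime degree whose Sylow normaliser has even order
all subgroups of index `p` are point stabilisers. -/
theorem index_p_stabilizer {G Ω : Type*} [Group G] [MulAction G Ω] [FaithfulSMul G Ω] [Finite Ω]
    (hΩ : Nat.card Ω = p) [MulAction.IsPretransitive G Ω] (Q : Sylow p G)
    (heven : Even (Nat.card (Subgroup.normalizer ((Q : Subgroup G) : Set G))))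
    (H : Subgroup G) (hH : H.index = p) : ∃ a : Ω, H = MulAction.stabilizer G a := by
  classical
  haveI : Finite G := finite_of_faithful (Ω := Ω)
  have hp : p.Prime := Fact.out
  obtain ⟨σ, e, π, hinj, he, hσ, hQ, hnsq⟩ := exists_coord hΩ Q
  have hHp : ¬ p ∣ Nat.card H := by
    intro h
    apply hnsq
    rw [← H.card_mul_index, hH, pow_two]
    exact Nat.mul_dvd_mul_right h p
  have hfix : ∃ x, ∀ h ∈ H, π h x = x := by
    by_cases haff : AllAffine π
    · exact fix_of_affine π haff H hHp
    · have hp5 : 5 ≤ p := by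
        by_contra hcon
        exact haff (allAffine_of_le_three π (by omega))
      have h2 := two_ne_zero_of_five hp5
      have hrefl := reflections_of_even π hinj σ hσ h2 (Q : Subgroup G) hQ heven
      have h3 := three_point π σ hσ haff h2 hrefl
      exact index_fix_nonaffine π hinj σ hσ h2 hrefl
        (fun a b a' b' hab hab' => two_trans_of π σ hσ hp5 h3 a b a' b' hab hab') H hHp hH
  obtain ⟨x, hx⟩ := hfix
  refine ⟨e x, ?_⟩
  have hle : H ≤ MulAction.stabilizer G (e x) := by
    intro h hh
    show h • e x = e x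
    rw [← he, hx h hh]
  have hidx := MulAction.index_stabilizer_of_transitive G (e x)
  rw [hΩ] at hidx
  apply Subgroup.eq_of_le_of_card_ge hle
  have h1 := H.card_mul_index
  have h2 := (MulAction.stabilizer G (e x)).card_mul_index
  rw [hH] at h1
  rw [hidx] at h2
  have : Nat.card (MulAction.stabilizer G (e x)) * p = Nat.card H * p := by rw [h1, h2]
  exact (Nat.eq_of_mul_eq_mul_right hp.pos this).le

/-- In a transitive permutation group of prime degree `p` whose Sylow `p`-normaliser has even order, the point stabilisers are the only subgroups of index `p`. -/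
theorem result {α : Type*} [Fintype α] [DecidableEq α] {p : ℕ} [Fact p.Prime] (hα : Fintype.card α = p) (G : Subgroup (Equiv.Perm α)) [MulAction.IsPretransitive G α] (P : Sylow p G) (heven : Even (Nat.card (Subgroup.normalizer ((P : Subgroup G) : Set G)))) (H : Subgroup G) (hH : H.index = p) : ∃ a : α, H = MulAction.stabilizer G a :=
  index_p_stabilizer (by rw [Nat.card_eq_fintype_card, hα]) P heven H hH

end Cfsg.Agent.S0677
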