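import Cfsg.Statements.S0678
import Mathlib
import Cfsg.Agent.Lib.Char.Burnside2

set_option autoImplicit false
open Cfsg

namespace Cfsg.Agent.S0678

open Equiv Equiv.Perm MulAction

inductive Lt where
  | C (i : ℕ) | T | I
  deriving DecidableEq

abbrev P7 := Equiv.Perm (Fin 7)

def c7 : P7 := finRotate 7

def tab (g : P7) : List ℕ := List.ofFn (fun i : Fin 7 => (g i).val)

def fT (t : List ℕ) (x : ℕ) : ℕ := t.getD x 0

def fI (t : List ℕ) (x : ℕ) : ℕ := t.idxOf x

def lfun (t : List ℕ) : Lt → ℕ → ℕ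
  | .C i, x => (x + i) % 7
  | .T, x => fT t x
  | .I, x => fI t x

def wfun (t : List ℕ) : List Lt → ℕ → ℕ
  | [], x => x
  | l :: w, x => lfun t l (wfun t w x)

def moved (f : ℕ → ℕ) : ℕ := ((Finset.univ : Finset (Fin 7)).filter (fun i => f i.val ≠ i.val)).card

def lperm (g : P7) : Lt → P7
  | .C i => c7 ^ i
  | .T => g
  | .I => g⁻¹

def wperm (g : P7) (w : List Lt) : P7 := (w.map (lperm g)).prod

theorem tab_eq (g : P7) : tab g = [(g 0).val, (g 1).val, (g 2).val, (g 3).val, (g 4).val, (g 5).val,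
    (g 6).val] := rfl

theorem fT_tab (g : P7) (x : Fin 7) : fT (tab g) x.val = (g x).val := by
  fin_cases x <;> rfl

theorem tab_nodup (g : P7) : (tab g).Nodup := by
  unfold tab
  rw [List.nodup_ofFn]
  intro a b h
  exact g.injective (Fin.ext h)

theorem fI_tab (g : P7) (x : Fin 7) : fI (tab g) x.val = (g⁻¹ x).val := by
  unfold fI
  have hlen : (g⁻¹ x).val < (tab g).length := by simp [tab]
  have h1 : (tab g)[(g⁻¹ x).val] = x.val := by
    simp only [tab, List.getElem_ofFn]
    have : g (g⁻¹ x) = x := Equiv.apply_symm_apply g x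
    simp [this]
  have h2 := (tab_nodup g).idxOf_getElem _ hlen
  rw [h1] at h2
  exact h2

theorem c7_val (x : Fin 7) : (c7 x).val = (x.val + 1) % 7 := by
  revert x; decide

theorem c7_pow_val (i : ℕ) (x : Fin 7) : ((c7 ^ i) x).val = (x.val + i) % 7 := by
  induction i with
  | zero =>
    have := x.2
    simp [Nat.mod_eq_of_lt this]
  | succ i ih =>
    rw [pow_succ', Equiv.Perm.mul_apply, c7_val, ih]
    omega

theorem lfun_spec (g : P7) (l : Lt) (x : Fin 7) : lfun (tab g) l x.val = ((lperm g l) x).val := by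
  cases l with
  | C i => exact (c7_pow_val i x).symm
  | T => exact fT_tab g x
  | I => exact fI_tab g x

theorem wfun_spec (g : P7) (w : List Lt) (x : Fin 7) : wfun (tab g) w x.val = ((wperm g w) x).val := by
  induction w with
  | nil => simp [wfun, wperm]
  | cons l w ih =>
    have h1 : wperm g (l :: w) = lperm g l * wperm g w := by simp [wperm]
    rw [h1, Equiv.Perm.mul_apply, wfun, ih, lfun_spec]

theorem iter_spec (r : P7) (f : ℕ → ℕ) (hf : ∀ x : Fin 7, f x.val = (r x).val) (k : ℕ) (x : Fin 7) :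
    f^[k] x.val = ((r ^ k) x).val := by
  induction k with
  | zero => simp
  | succ k ih =>
    rw [Function.iterate_succ_apply', ih, pow_succ', Equiv.Perm.mul_apply, hf]

theorem moved_card (r : P7) (f : ℕ → ℕ) (hf : ∀ x : Fin 7, f x.val = (r x).val) :
    r.support.card = moved f := by
  unfold moved
  congr 1
  ext i
  simp only [Equiv.Perm.mem_support, Finset.mem_filter, Finset.mem_univ, true_and, hf, ne_eq,
    Fin.val_inj]

theorem mem_closure_lperm {H : Subgroup P7} (hc : c7 ∈ H) {g : P7} (hg : g ∈ H) (l : Lt) :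
    lperm g l ∈ H := by
  cases l with
  | C i => exact H.pow_mem hc i
  | T => exact hg
  | I => exact H.inv_mem hg

theorem wperm_mem {H : Subgroup P7} (hc : c7 ∈ H) {g : P7} (hg : g ∈ H) (w : List Lt) :
    wperm g w ∈ H := by
  apply Subgroup.list_prod_mem
  intro x hx
  obtain ⟨l, _, rfl⟩ := List.mem_map.mp hx
  exact mem_closure_lperm hc hg l

def listA1 : List (List ℕ) := [[0,1,4,3,2,6,5], [0,1,5,3,6,2,4], [0,1,6,3,5,4,2], [0,2,1,6,4,5,3], [0,2,3,6,5,4,1], [0,2,5,6,3,1,4], [0,3,2,1,5,4,6], [0,3,4,1,6,2,5], [0,3,5,1,2,6,4], [0,3,6,1,4,5,2], [0,4,2,5,1,3,6], [0,4,3,5,6,2,1], [0,4,6,5,3,1,2], [0,5,1,4,6,2,3], [0,5,2,4,3,1,6], [0,5,3,4,2,6,1], [0,5,6,4,1,3,2], [0,6,1,2,5,4,3], [0,6,3,2,4,5,1], [0,6,4,2,3,1,5], [0,6,5,2,1,3,4]]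

def listA2 : List (List ℕ) := [[0,1,3,2,6,5,4], [0,1,4,6,2,5,3], [0,1,6,4,3,5,2], [0,2,1,5,4,3,6], [0,2,5,1,6,3,4], [0,2,6,4,5,3,1], [0,3,1,5,6,2,4], [0,3,4,6,5,2,1], [0,3,5,1,4,2,6], [0,3,6,4,1,2,5], [0,4,2,3,1,6,5], [0,4,3,2,5,6,1], [0,4,5,1,3,6,2], [0,5,2,3,6,1,4], [0,5,3,2,4,1,6], [0,5,4,6,3,1,2], [0,5,6,4,2,1,3], [0,6,1,5,3,4,2], [0,6,2,3,5,4,1], [0,6,3,2,1,4,5], [0,6,5,1,2,4,3]]

def listA3 : List (List ℕ) := [[0,3,6,2,5,1,4], [0,5,3,1,6,4,2], [0,6,5,4,3,2,1]]

def listC : List (List ℕ) := [[0,1,2,3,4,5,6], [0,2,4,6,1,3,5], [0,4,1,5,2,6,3]]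

def words : List (List Lt × ℕ) := [([.T, .C 1, .I, .C 3, .T, .C 6], 4), ([.T, .C 1, .I, .C 1, .T, .C 6], 4), ([.T, .C 4, .I, .C 4, .T, .C 6], 4), ([.T, .C 0, .I, .C 1, .T, .C 4], 4), ([.T, .C 1, .I, .C 6, .T, .C 2], 4), ([.T, .C 2, .I, .C 3, .T, .C 5], 4), ([.T, .C 2, .I, .C 3], 2), ([.T, .C 3, .I, .C 4, .T, .C 4], 4), ([.T, .C 1, .I, .C 5], 2), ([.T, .C 2, .I, .C 1], 2), ([.T, .C 4, .I, .C 3, .T, .C 5], 2), ([.T, .C 2, .I, .C 6], 2), ([.T, .C 3, .I, .C 2], 2), ([.T, .C 0, .T, .C 6], 2), ([.T, .C 0, .T, .C 2, .I, .C 1], 2), ([.T, .C 1, .T, .C 5, .I, .C 2], 2)]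

def U : List (List ℕ) := listA1 ++ listA2 ++ listA3 ++ listC

def GoodW (t : List ℕ) : Prop :=
  ∃ wk ∈ words, moved ((wfun t wk.1)^[wk.2]) = 2 ∨ moved ((wfun t wk.1)^[wk.2]) = 3

instance (t : List ℕ) : Decidable (GoodW t) := by
  unfold GoodW; infer_instance

def R6 : List ℕ := [1, 2, 3, 4, 5, 6]

def extL (l : List ℕ) : List (List ℕ) := (R6.filter (fun x => x ∉ l)).map (fun x => l ++ [x])

def perms6 : List (List ℕ) :=
  ((((((([[]] : List (List ℕ)).flatMap extL).flatMap extL).flatMap extL).flatMap extL).flatMap extL).flatMap extL)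

theorem mem_extL {l : List ℕ} {x : ℕ} (hx : x ∈ R6) (hl : x ∉ l) : l ++ [x] ∈ extL l := by
  unfold extL
  rw [List.mem_map]
  exact ⟨x, List.mem_filter.mpr ⟨hx, by simpa using hl⟩, rfl⟩

theorem mem_perms6 {a b c d e f : ℕ} (ha : a ∈ R6) (hb : b ∈ R6) (hc : c ∈ R6) (hd : d ∈ R6)
    (he : e ∈ R6) (hf : f ∈ R6) (h : [a, b, c, d, e, f].Nodup) : [a, b, c, d, e, f] ∈ perms6 := by
  simp only [List.nodup_cons, List.mem_cons, List.not_mem_nil, or_false, not_or,
    List.nodup_nil, and_true, not_false_eq_true] at h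
  unfold perms6
  rw [List.mem_flatMap]
  refine ⟨[a, b, c, d, e], ?_, mem_extL hf (by simp; tauto)⟩
  rw [List.mem_flatMap]
  refine ⟨[a, b, c, d], ?_, mem_extL he (by simp; tauto)⟩
  rw [List.mem_flatMap]
  refine ⟨[a, b, c], ?_, mem_extL hd (by simp; tauto)⟩
  rw [List.mem_flatMap]
  refine ⟨[a, b], ?_, mem_extL hc (by simp; tauto)⟩
  rw [List.mem_flatMap]
  refine ⟨[a], ?_, mem_extL hb (by simp; tauto)⟩
  rw [List.mem_flatMap]
  exact ⟨[], by simp, mem_extL ha (by simp)⟩

theorem check1 : ∀ s ∈ perms6, (0 :: s) ∈ U ∨ GoodW (0 :: s) := by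
  decide +kernel

def comp (s t : List ℕ) : List ℕ := List.ofFn (fun i : Fin 7 => fT s (fT t i.val))

theorem check2a : ∀ s ∈ listA1, ∀ t ∈ listA2, comp s t ∉ U := by decide +kernel
theorem check2b : ∀ s ∈ listA1, ∀ t ∈ listA3, comp s t ∉ U := by decide +kernel
theorem check2c : ∀ s ∈ listA2, ∀ t ∈ listA3, comp s t ∉ U := by decide +kernel
theorem check2d : ∀ s ∈ listA2, ∀ t ∈ listA1, comp s t ∉ U := by decide +kernel

theorem check3 : ∀ t ∈ U, ∀ x ∈ List.range 7, (fT t)^[12] x = x := by decide +kernel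

theorem check4 : (listA1 ++ listC).length = 24 ∧ (listA2 ++ listC).length = 24 ∧
    (listA3 ++ listC).length = 6 := by decide +kernel

section solv

universe u

theorem solv_two {K : Type u} [Group K] [Finite K] {p q a b : ℕ} (hp : p.Prime) (hq : q.Prime)
    (h : Nat.card K = p ^ a * q ^ b) : Group.IsSolvable K :=
  Cfsg.Agent.Lib.Char.Burnside2.isSolvable_of_card_eq hp hq _ K a b rfl h

theorem solv_seven {K : Type u} [Group K] [Finite K] {d a b : ℕ} (hc : Nat.card K = d * 7)
    (hd7 : ¬ 7 ∣ d) (hn : ∀ n, n ∣ d → n % 7 = 1 → n = 1) (hdab : d = 2 ^ a * 3 ^ b) :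
    Group.IsSolvable K := by
  haveI hf : Fact (Nat.Prime 7) := ⟨by norm_num⟩
  obtain ⟨P⟩ : Nonempty (Sylow 7 K) := inferInstance
  have hdvd : 7 ∣ Nat.card K := by rw [hc]; exact dvd_mul_left _ _
  have hd1 : 7 ∣ Nat.card (P : Subgroup K) := P.dvd_card_of_dvd_card hdvd
  have hPc : Nat.card (P : Subgroup K) = 7 := by
    obtain ⟨n, hn'⟩ := IsPGroup.iff_card.mp P.isPGroup'
    rcases n with _ | _ | n
    · rw [hn'] at hd1; norm_num at hd1
    · rw [hn']; norm_num
    · exfalso
      have h1 : 7 ^ 2 ∣ Nat.card (P : Subgroup K) := by rw [hn']; exact pow_dvd_pow 7 (by omega)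
      have h2 := h1.trans (Subgroup.card_subgroup_dvd_card _)
      rw [hc, pow_two] at h2
      obtain ⟨k, hk⟩ := h2
      have : d = 7 * k := by nlinarith
      exact hd7 ⟨k, this⟩
  have hidx : (P : Subgroup K).index = d := by
    have := Subgroup.card_mul_index (P : Subgroup K)
    rw [hPc, hc, mul_comm d] at this
    exact Nat.eq_of_mul_eq_mul_left (by norm_num) this
  have hcd : Nat.card (Sylow 7 K) ∣ d := hidx ▸ P.card_dvd_index
  have hmod : Nat.card (Sylow 7 K) % 7 = 1 % 7 := card_sylow_modEq_one 7 K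
  have h1 : Nat.card (Sylow 7 K) = 1 := hn _ hcd hmod
  have hnorm : (P : Subgroup K).Normal := by
    have h0 : Nat.card (Sylow 7 K) = (Subgroup.normalizer ((P : Subgroup K) : Set K)).index :=
      Sylow.card_eq_index_normalizer P
    rw [h1] at h0
    exact Subgroup.normalizer_eq_top_iff.mp (Subgroup.index_eq_one.mp h0.symm)
  haveI := hnorm
  haveI hs1 : Group.IsSolvable (P : Subgroup K) :=
    solv_two (p := 7) (q := 2) (a := 1) (b := 0) (by norm_num) (by norm_num) (by rw [hPc]; norm_num)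
  haveI hs2 : Group.IsSolvable (K ⧸ (P : Subgroup K)) := by
    apply solv_two (p := 2) (q := 3) (a := a) (b := b) (by norm_num) (by norm_num)
    rw [← hdab, ← hidx]
    rfl
  exact Group.isSolvable_of_ker_le_range (P : Subgroup K).subtype (QuotientGroup.mk' (P : Subgroup K))
    (by
      intro x hx
      have : x ∈ (P : Subgroup K) := by
        simpa using hx
      exact ⟨⟨x, this⟩, rfl⟩)

theorem solv_7d {K : Type u} [Group K] [Finite K] (d : ℕ) (hd0 : 0 < d) (hd : d ≤ 24)
    (hp : ∀ r, r.Prime → r ∣ d → r = 2 ∨ r = 3) (hne : d ≠ 24) (hc : Nat.card K = d * 7) :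
    Group.IsSolvable K := by
  have hn : ∀ k, k ∣ d → k % 7 = 1 → (k = 1 ∨ k = 8 ∨ k = 15 ∨ k = 22) := by
    intro k hk hk7
    have := Nat.le_of_dvd hd0 hk
    omega
  interval_cases d
  · exact solv_two (p := 7) (q := 2) (a := 1) (b := 0) (by norm_num) (by norm_num) (by rw [hc]; norm_num)
  · exact solv_two (p := 7) (q := 2) (a := 1) (b := 1) (by norm_num) (by norm_num) (by rw [hc]; norm_num)
  · exact solv_two (p := 7) (q := 3) (a := 1) (b := 1) (by norm_num) (by norm_num) (by rw [hc]; norm_num)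
  · exact solv_two (p := 7) (q := 2) (a := 1) (b := 2) (by norm_num) (by norm_num) (by rw [hc]; norm_num)
  · have := hp 5 (by norm_num) (by norm_num); omega
  · refine solv_seven (a := 1) (b := 1) hc (by norm_num) ?_ (by norm_num)
    intro n h1 h2
    have h3 := Nat.le_of_dvd (by norm_num) h1
    omega
  · have := hp 7 (by norm_num) (by norm_num); omega
  · exact solv_two (p := 7) (q := 2) (a := 1) (b := 3) (by norm_num) (by norm_num) (by rw [hc]; norm_num)
  · exact solv_two (p := 7) (q := 3) (a := 1) (b := 2) (by norm_num) (by norm_num) (by rw [hc]; norm_num)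
  · have := hp 5 (by norm_num) (by norm_num); omega
  · have := hp 11 (by norm_num) (by norm_num); omega
  · refine solv_seven (a := 2) (b := 1) hc (by norm_num) ?_ (by norm_num)
    intro n h1 h2
    have h3 := Nat.le_of_dvd (by norm_num) h1
    have h4 : n ≠ 8 := by rintro rfl; norm_num at h1
    omega
  · have := hp 13 (by norm_num) (by norm_num); omega
  · have := hp 7 (by norm_num) (by norm_num); omega
  · have := hp 5 (by norm_num) (by norm_num); omega
  · exact solv_two (p := 7) (q := 2) (a := 1) (b := 4) (by norm_num) (by norm_num) (by rw [hc]; norm_num)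
  · have := hp 17 (by norm_num) (by norm_num); omega
  · refine solv_seven (a := 1) (b := 2) hc (by norm_num) ?_ (by norm_num)
    intro n h1 h2
    have h3 := Nat.le_of_dvd (by norm_num) h1
    have h4 : n ≠ 8 := by rintro rfl; norm_num at h1
    have h5 : n ≠ 15 := by rintro rfl; norm_num at h1
    omega
  · have := hp 19 (by norm_num) (by norm_num); omega
  · have := hp 5 (by norm_num) (by norm_num); omega
  · have := hp 7 (by norm_num) (by norm_num); omega
  · have := hp 11 (by norm_num) (by norm_num); omega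
  · have := hp 23 (by norm_num) (by norm_num); omega
  · exact absurd rfl hne

theorem solv_div168 {K : Type u} [Group K] [Finite K] (h : Nat.card K ∣ 168) (hne : Nat.card K ≠ 168) :
    Group.IsSolvable K := by
  by_cases h7 : 7 ∣ Nat.card K
  · obtain ⟨d, hd⟩ := h7
    have hd24 : d ∣ 24 := by
      rw [hd] at h
      have : (168 : ℕ) = 7 * 24 := by norm_num
      rw [this] at h
      exact Nat.dvd_of_mul_dvd_mul_left (by norm_num) h
    have hd0 : 0 < d := Nat.pos_of_dvd_of_pos hd24 (by norm_num)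
    apply solv_7d d hd0 (Nat.le_of_dvd (by norm_num) hd24)
    · intro r hr hrd
      have h1 := hrd.trans hd24
      have : (24 : ℕ) = 2 ^ 3 * 3 := by norm_num
      rw [this] at h1
      rcases (Nat.Prime.dvd_mul hr).mp h1 with h2 | h2
      · exact Or.inl ((Nat.prime_dvd_prime_iff_eq hr Nat.prime_two).mp (hr.dvd_of_dvd_pow h2))
      · exact Or.inr ((Nat.prime_dvd_prime_iff_eq hr Nat.prime_three).mp h2)
    · rintro rfl
      exact hne (by rw [hd])
    · rw [hd, mul_comm]
  · have hm : Nat.card K ∣ 24 := by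
      have : (168 : ℕ) = 7 * 24 := by norm_num
      rw [this] at h
      exact (Nat.Coprime.dvd_of_dvd_mul_left
        (((Nat.Prime.coprime_iff_not_dvd (by norm_num)).mpr h7).symm) h)
    have hle := Nat.le_of_dvd (by norm_num) hm
    have hpos : 0 < Nat.card K := Nat.card_pos
    generalize hm' : Nat.card K = m at *
    interval_cases m <;> first
      | (exfalso; revert hm; norm_num; done)
      | skip
    · exact solv_two (p := 2) (q := 3) (a := 0) (b := 0) (by norm_num) (by norm_num) (by rw [hm']; norm_num)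
    · exact solv_two (p := 2) (q := 3) (a := 1) (b := 0) (by norm_num) (by norm_num) (by rw [hm']; norm_num)
    · exact solv_two (p := 2) (q := 3) (a := 0) (b := 1) (by norm_num) (by norm_num) (by rw [hm']; norm_num)
    · exact solv_two (p := 2) (q := 3) (a := 2) (b := 0) (by norm_num) (by norm_num) (by rw [hm']; norm_num)
    · exact solv_two (p := 2) (q := 3) (a := 1) (b := 1) (by norm_num) (by norm_num) (by rw [hm']; norm_num)
    · exact solv_two (p := 2) (q := 3) (a := 3) (b := 0) (by norm_num) (by norm_num) (by rw [hm']; norm_num)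
    · exact solv_two (p := 2) (q := 3) (a := 2) (b := 1) (by norm_num) (by norm_num) (by rw [hm']; norm_num)
    · exact solv_two (p := 2) (q := 3) (a := 3) (b := 1) (by norm_num) (by norm_num) (by rw [hm']; norm_num)

end solv

section main

theorem tab_zero {g : P7} (h0 : g 0 = 0) : ∃ s ∈ perms6, tab g = 0 :: s := by
  have hne : ∀ i : Fin 7, i ≠ 0 → (g i).val ∈ R6 := by
    intro i hi
    have h1 : g i ≠ 0 := by
      intro h2
      exact hi (g.injective (h2.trans h0.symm))
    have h3 : (g i).val ≠ 0 := fun h => h1 (Fin.ext h)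
    have h4 := (g i).2
    simp only [R6, List.mem_cons, List.not_mem_nil, or_false]
    omega
  have ht := tab_eq g
  rw [h0] at ht
  have hnd := tab_nodup g
  rw [ht] at hnd
  refine ⟨_, mem_perms6 (hne 1 (by decide)) (hne 2 (by decide)) (hne 3 (by decide)) (hne 4 (by decide))
    (hne 5 (by decide)) (hne 6 (by decide)) (List.nodup_cons.mp hnd).2, ht⟩

theorem tab_mul (g h : P7) : tab (g * h) = comp (tab g) (tab h) := by
  unfold comp tab
  congr 1
  funext i
  have h1 := fT_tab h i
  have h2 := fT_tab g (h i)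
  unfold tab at h1 h2
  rw [h1, h2]
  rfl

theorem tab_inj {g h : P7} (e : tab g = tab h) : g = h := by
  refine Equiv.ext fun x => Fin.ext ?_
  rw [← fT_tab g x, ← fT_tab h x, e]

variable (H : Subgroup P7)

theorem main (hc : c7 ∈ H) (htr : ∀ x y : Fin 7, ∃ h ∈ H, h x = y) (hns : ¬ Group.IsSolvable H)
    (hA : ¬ alternatingGroup (Fin 7) ≤ H) : Nat.card H = 168 ∧ IsSimpleGroup H := by
  classical
  haveI : MulAction.IsPretransitive H (Fin 7) := ⟨fun x y => by
    obtain ⟨h, hh, hxy⟩ := htr x y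
    exact ⟨⟨h, hh⟩, hxy⟩⟩
  have hprim : MulAction.IsPreprimitive H (Fin 7) :=
    MulAction.IsPreprimitive.of_prime_card (by simp; norm_num)
  have hno : ∀ r ∈ H, r.support.card ≠ 2 ∧ r.support.card ≠ 3 := by
    intro r hr
    constructor
    · intro h2
      have hs := Equiv.Perm.card_support_eq_two.mp h2
      have := Equiv.Perm.subgroup_eq_top_of_isPreprimitive_of_isSwap_mem hprim r hs hr
      exact hA (this ▸ le_top)
    · intro h3
      have hs := card_support_eq_three_iff.mp h3
      exact hA (Equiv.Perm.alternatingGroup_le_of_isPreprimitive_of_isThreeCycle_mem hprim hs hr)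
  have hU : ∀ g ∈ H, g 0 = 0 → tab g ∈ U := by
    intro g hg h0
    obtain ⟨s, hs, hgs⟩ := tab_zero h0
    rcases check1 s hs with h1 | h1
    · rw [hgs]; exact h1
    · exfalso
      rw [← hgs] at h1
      obtain ⟨wk, _, h2⟩ := h1
      set r := (wperm g wk.1) ^ wk.2 with hr
      have hrH : r ∈ H := H.pow_mem (wperm_mem hc hg _) _
      have hfr : ∀ x : Fin 7, (wfun (tab g) wk.1)^[wk.2] x.val = (r x).val :=
        iter_spec _ _ (wfun_spec g wk.1) wk.2
      rw [← moved_card r _ hfr] at h2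
      rcases h2 with h2 | h2
      · exact (hno r hrH).1 h2
      · exact (hno r hrH).2 h2
  have hmemU : ∀ t ∈ U, t ∈ listA1 ∨ t ∈ listA2 ∨ t ∈ listA3 ∨ t ∈ listC := by
    intro t ht
    simpa [U, or_assoc] using ht
  -- a short list containing all the point stabilizer
  obtain ⟨L, hL1, hL2, hL3⟩ : ∃ L : List (List ℕ), (∀ g ∈ H, g 0 = 0 → tab g ∈ L) ∧ L.length ≤ 24 ∧
      (∀ t ∈ L, t ∈ U) := by
    by_cases h1 : ∃ g ∈ H, g 0 = 0 ∧ tab g ∈ listA1
    · obtain ⟨g₁, hg₁, hg₁0, hg₁t⟩ := h1
      refine ⟨listA1 ++ listC, ?_, by rw [check4.1], ?_⟩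
      · intro h hh h0
        rcases hmemU _ (hU h hh h0) with h2 | h2 | h2 | h2
        · exact List.mem_append_left _ h2
        · exfalso
          have h3 := hU (g₁ * h) (H.mul_mem hg₁ hh) (by simp [hg₁0, h0])
          rw [tab_mul] at h3
          exact check2a _ hg₁t _ h2 h3
        · exfalso
          have h3 := hU (g₁ * h) (H.mul_mem hg₁ hh) (by simp [hg₁0, h0])
          rw [tab_mul] at h3
          exact check2b _ hg₁t _ h2 h3
        · exact List.mem_append_right _ h2
      · intro t ht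
        rcases List.mem_append.mp ht with h2 | h2 <;> simp [U, h2]
    · by_cases h2 : ∃ g ∈ H, g 0 = 0 ∧ tab g ∈ listA2
      · obtain ⟨g₁, hg₁, hg₁0, hg₁t⟩ := h2
        refine ⟨listA2 ++ listC, ?_, by rw [check4.2.1], ?_⟩
        · intro h hh h0
          rcases hmemU _ (hU h hh h0) with h2 | h2 | h2 | h2
          · exfalso
            have h3 := hU (g₁ * h) (H.mul_mem hg₁ hh) (by simp [hg₁0, h0])
            rw [tab_mul] at h3
            exact check2d _ hg₁t _ h2 h3
          · exact List.mem_append_left _ h2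
          · exfalso
            have h3 := hU (g₁ * h) (H.mul_mem hg₁ hh) (by simp [hg₁0, h0])
            rw [tab_mul] at h3
            exact check2c _ hg₁t _ h2 h3
          · exact List.mem_append_right _ h2
        · intro t ht
          rcases List.mem_append.mp ht with h2 | h2 <;> simp [U, h2]
      · push Not at h1 h2
        refine ⟨listA3 ++ listC, ?_, by rw [check4.2.2]; norm_num, ?_⟩
        · intro h hh h0
          rcases hmemU _ (hU h hh h0) with h3 | h3 | h3 | h3
          · exact absurd h3 (h1 h hh h0)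
          · exact absurd h3 (h2 h hh h0)
          · exact List.mem_append_left _ h3
          · exact List.mem_append_right _ h3
        · intro t ht
          rcases List.mem_append.mp ht with h2 | h2 <;> simp [U, h2]
  -- the stabilizer
  set S := MulAction.stabilizer H (0 : Fin 7) with hS
  have hSm : ∀ s : S, ((s : H) : P7) 0 = 0 := fun s => s.2
  have hdle : Nat.card S ≤ 24 := by
    let f : S → {t // t ∈ L.toFinset} := fun s =>
      ⟨tab ((s : H) : P7), List.mem_toFinset.mpr (hL1 _ (s : H).2 (hSm s))⟩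
    have hf : Function.Injective f := by
      intro a b hab
      have h1 : tab ((a : H) : P7) = tab ((b : H) : P7) := congrArg Subtype.val hab
      exact Subtype.ext (Subtype.ext (tab_inj h1))
    have h2 := Nat.card_le_card_of_injective f hf
    rw [Nat.card_eq_fintype_card (α := {t // t ∈ L.toFinset}), Fintype.card_coe] at h2
    exact h2.trans ((List.toFinset_card_le L).trans hL2)
  have hdpos : 0 < Nat.card S := Nat.card_pos
  have h12 : ∀ s : S, s ^ 12 = 1 := by
    intro s
    have h1 := hL3 _ (hL1 _ (s : H).2 (hSm s))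
    apply Subtype.ext
    apply Subtype.ext
    show ((s : H) : P7) ^ 12 = 1
    refine Equiv.ext fun x => Fin.ext ?_
    have h2 := iter_spec ((s : H) : P7) (fT (tab ((s : H) : P7))) (fT_tab _) 12 x
    rw [← h2]
    exact check3 _ h1 _ (List.mem_range.mpr x.2)
  have hprimes : ∀ r, r.Prime → r ∣ Nat.card S → r = 2 ∨ r = 3 := by
    intro r hr hd
    haveI := Fact.mk hr
    obtain ⟨s, hs⟩ := exists_prime_orderOf_dvd_card' r hd
    have h1 : orderOf s ∣ 12 := orderOf_dvd_of_pow_eq_one (h12 s)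
    rw [hs] at h1
    have : (12 : ℕ) = 2 ^ 2 * 3 := by norm_num
    rw [this] at h1
    rcases (Nat.Prime.dvd_mul hr).mp h1 with h2 | h2
    · exact Or.inl ((Nat.prime_dvd_prime_iff_eq hr Nat.prime_two).mp (hr.dvd_of_dvd_pow h2))
    · exact Or.inr ((Nat.prime_dvd_prime_iff_eq hr Nat.prime_three).mp h2)
  have hcardH : Nat.card H = Nat.card S * 7 := by
    have h1 := Subgroup.card_mul_index S
    have h2 : S.index = 7 := by
      rw [hS, MulAction.index_stabilizer, MulAction.orbit_eq_univ, Set.ncard_univ]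
      simp
    rw [h2] at h1
    exact h1.symm
  have h24 : Nat.card S = 24 := by
    by_contra hne
    exact hns (solv_7d _ hdpos hdle hprimes hne hcardH)
  have h168 : Nat.card H = 168 := by rw [hcardH, h24]
  refine ⟨h168, ?_⟩
  haveI : Nontrivial H := by
    apply (Finite.one_lt_card_iff_nontrivial).mp
    omega
  refine ⟨fun N hN => ?_⟩
  by_contra hcon
  push Not at hcon
  obtain ⟨hN1, hN2⟩ := hcon
  apply hns
  haveI := hN
  have hcq : Nat.card H = Nat.card (H ⧸ N) * Nat.card N := by
    rw [← Subgroup.card_mul_index N, Subgroup.index_eq_card, mul_comm]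
  have hNp : 0 < Nat.card N := Nat.card_pos
  have hQp : 0 < Nat.card (H ⧸ N) := Nat.card_pos
  have hNne1 : Nat.card N ≠ 1 := fun h => hN1 (Subgroup.card_eq_one.mp h)
  have hNne : Nat.card N ≠ 168 := by
    intro h
    apply hN2
    apply Subgroup.eq_top_of_card_eq
    rw [h, h168]
  have hQne : Nat.card (H ⧸ N) ≠ 168 := by
    intro h
    rw [h168, h] at hcq
    have : Nat.card N = 1 := by nlinarith
    exact hNne1 this
  haveI hsN : Group.IsSolvable N :=
    solv_div168 (by rw [← h168]; exact Subgroup.card_subgroup_dvd_card _) hNne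
  haveI hsQ : Group.IsSolvable (H ⧸ N) :=
    solv_div168 (by rw [← h168, hcq]; exact dvd_mul_right _ _) hQne
  exact Group.isSolvable_of_ker_le_range N.subtype (QuotientGroup.mk' N)
    (by
      intro x hx
      have : x ∈ N := by simpa using hx
      exact ⟨⟨x, this⟩, rfl⟩)

end main

section final

universe u

theorem transport {α : Type u} [Fintype α] [DecidableEq α] (hα : Fintype.card α = 7)
    (G : Subgroup (Equiv.Perm α)) [MulAction.IsPretransitive G α] (hG : ¬ Group.IsSolvable G)
    (hA : ¬ alternatingGroup α ≤ G) : Nat.card G = 168 ∧ IsSimpleGroup G := by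
  classical
  -- an element of order 7
  obtain ⟨a⟩ : Nonempty α := by
    apply Fintype.card_pos_iff.mp
    omega
  have h7 : 7 ∣ Nat.card G := by
    have h1 := Subgroup.card_mul_index (MulAction.stabilizer G a)
    have h2 : (MulAction.stabilizer G a).index = 7 := by
      rw [MulAction.index_stabilizer, MulAction.orbit_eq_univ, Set.ncard_univ,
        Nat.card_eq_fintype_card, hα]
    rw [h2] at h1
    exact ⟨_, by rw [← h1, mul_comm]⟩
  haveI : Fact (Nat.Prime 7) := ⟨by norm_num⟩
  obtain ⟨z, hz⟩ := exists_prime_orderOf_dvd_card' 7 h7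
  let e₀ : α ≃ Fin 7 := Fintype.equivFinOfCardEq hα
  have hz' : orderOf (e₀.permCongrHom (z : Equiv.Perm α)) = 7 := by
    rw [MulEquiv.orderOf_eq, Subgroup.orderOf_coe, hz]
  have hcyc : (e₀.permCongrHom (z : Equiv.Perm α)).cycleType = c7.cycleType := by
    have h2p : Nat.Prime (orderOf (e₀.permCongrHom (z : Equiv.Perm α))) := by
      rw [hz']; norm_num
    obtain ⟨n, hn⟩ := Equiv.Perm.cycleType_prime_order h2p
    have h3 := Equiv.Perm.sum_cycleType (e₀.permCongrHom (z : Equiv.Perm α))
    rw [hn, Multiset.sum_replicate, hz', smul_eq_mul] at h3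
    have h4 := Finset.card_le_univ (e₀.permCongrHom (z : Equiv.Perm α)).support
    simp only [Fintype.card_fin] at h4
    have hn0 : n = 0 := by omega
    rw [hn, hz', hn0]
    have : c7.cycleType = {5 + 2} := cycleType_finRotate
    rw [this]
    rfl
  obtain ⟨σ, hσ⟩ := isConj_iff.mp (Equiv.Perm.isConj_iff_cycleType_eq.mpr hcyc)
  let e : α ≃ Fin 7 := e₀.trans σ
  have hφz : e.permCongrHom (z : Equiv.Perm α) = c7 := by
    rw [← hσ]
    refine Equiv.ext fun x => ?_
    simp [e, Equiv.permCongrHom, Equiv.permCongr_apply]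
  let φ := e.permCongrHom
  set H : Subgroup P7 := G.map φ.toMonoidHom with hH
  let E : G ≃* H := φ.subgroupMap G
  have hc : c7 ∈ H := ⟨z, z.2, hφz⟩
  have htr : ∀ x y : Fin 7, ∃ h ∈ H, h x = y := by
    intro x y
    obtain ⟨g, hg⟩ := MulAction.exists_smul_eq G (e.symm x) (e.symm y)
    refine ⟨φ g, ⟨g, g.2, rfl⟩, ?_⟩
    have hg' : (g : Equiv.Perm α) (e.symm x) = e.symm y := hg
    show e ((g : Equiv.Perm α) (e.symm x)) = y
    rw [hg']
    simp
  have hns : ¬ Group.IsSolvable H := by
    intro hs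
    apply hG
    exact Group.isSolvable_of_isSolvable_injective (f := E.toMonoidHom) E.injective
  have hA' : ¬ alternatingGroup (Fin 7) ≤ H := by
    intro hle
    apply hA
    intro g hg
    have hg2 : φ g ∈ alternatingGroup (Fin 7) := by
      rw [Equiv.Perm.mem_alternatingGroup] at hg ⊢
      have := Equiv.Perm.sign_permCongr e g
      exact this.trans hg
    obtain ⟨g', hg', he⟩ := hle hg2
    have : g' = g := φ.injective he
    rw [← this]
    exact hg'
  obtain ⟨h1, h2⟩ := main H hc htr hns hA'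
  refine ⟨?_, E.isSimpleGroup⟩
  rw [Nat.card_congr E.toEquiv, h1]

end final

/-- A non-solvable transitive permutation group on 7 points that does not contain the alternating group is a simple group of order 168. -/
theorem result {α : Type*} [Fintype α] [DecidableEq α] (hα : Fintype.card α = 7) (G : Subgroup (Equiv.Perm α)) [MulAction.IsPretransitive G α] (hG : ¬ Group.IsSolvable G) (hA : ¬ alternatingGroup α ≤ G) : Nat.card G = 168 ∧ IsSimpleGroup G := by
  exact Cfsg.Agent.S0678.transport hα G hG hA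

end Cfsg.Agent.S0678
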