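import Cfsg.Statements.S0679
import Mathlib
import Cfsg.Agent.Lib.Perm.Deg11.Main

set_option autoImplicit false
open Cfsg

namespace Cfsg.Agent.S0679

open Equiv Equiv.Perm MulAction Cfsg.Agent.Lib.Perm.Deg11

universe u

theorem transport {α : Type u} [Fintype α] [DecidableEq α] (hα : Fintype.card α = 11)
    (G : Subgroup (Equiv.Perm α)) [MulAction.IsPretransitive G α] (hG : ¬ Group.IsSolvable G)
    (hA : ¬ alternatingGroup α ≤ G) :
    (MulAction.IsMultiplyPretransitive G α 4 ∧ ∀ x : Fin 4 ↪ α, MulAction.stabilizer G x = ⊥) ∨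
      Nonempty (G ≃* Matrix.ProjectiveSpecialLinearGroup (Fin 2) (ZMod 11)) := by
  classical
  -- an element of order 11
  obtain ⟨a⟩ : Nonempty α := by
    apply Fintype.card_pos_iff.mp
    omega
  have h11 : 11 ∣ Nat.card G := by
    have h1 := Subgroup.card_mul_index (MulAction.stabilizer G a)
    have h2 : (MulAction.stabilizer G a).index = 11 := by
      rw [MulAction.index_stabilizer, MulAction.orbit_eq_univ, Set.ncard_univ,
        Nat.card_eq_fintype_card, hα]
    rw [h2] at h1
    exact ⟨_, by rw [← h1, mul_comm]⟩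
  haveI : Fact (Nat.Prime 11) := ⟨by norm_num⟩
  obtain ⟨z, hz⟩ := exists_prime_orderOf_dvd_card' 11 h11
  let e₀ : α ≃ Fin 11 := Fintype.equivFinOfCardEq hα
  have hz' : orderOf (e₀.permCongrHom (z : Equiv.Perm α)) = 11 := by
    rw [MulEquiv.orderOf_eq, Subgroup.orderOf_coe, hz]
  have hcyc : (e₀.permCongrHom (z : Equiv.Perm α)).cycleType = A.cycleType := by
    have h2p : Nat.Prime (orderOf (e₀.permCongrHom (z : Equiv.Perm α))) := by
      rw [hz']; norm_num
    obtain ⟨n, hn⟩ := Equiv.Perm.cycleType_prime_order h2p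
    have h3 := Equiv.Perm.sum_cycleType (e₀.permCongrHom (z : Equiv.Perm α))
    rw [hn, Multiset.sum_replicate, hz', smul_eq_mul] at h3
    have h4 := Finset.card_le_univ (e₀.permCongrHom (z : Equiv.Perm α)).support
    simp only [Fintype.card_fin] at h4
    have hn0 : n = 0 := by omega
    rw [hn, hz', hn0]
    have : A.cycleType = {9 + 2} := cycleType_finRotate
    rw [this]
    rfl
  obtain ⟨σ, hσ⟩ := isConj_iff.mp (Equiv.Perm.isConj_iff_cycleType_eq.mpr hcyc)
  let e : α ≃ Fin 11 := e₀.trans σ
  have hφz : e.permCongrHom (z : Equiv.Perm α) = A := by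
    rw [← hσ]
    refine Equiv.ext fun x => ?_
    simp [e, Equiv.permCongrHom, Equiv.permCongr_apply]
  let φ := e.permCongrHom
  set H : Subgroup P := G.map φ.toMonoidHom with hH
  let E : G ≃* H := φ.subgroupMap G
  have hc : A ∈ H := ⟨z, z.2, hφz⟩
  have hns : ¬ Group.IsSolvable H := by
    intro hs
    apply hG
    exact Group.isSolvable_of_isSolvable_injective (f := E.toMonoidHom) E.injective
  have hA' : ¬ alternatingGroup (Fin 11) ≤ H := by
    intro hle
    apply hA
    intro g hg
    have hg2 : φ g ∈ alternatingGroup (Fin 11) := by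
      rw [Equiv.Perm.mem_alternatingGroup] at hg ⊢
      have := Equiv.Perm.sign_permCongr e g
      exact this.trans hg
    obtain ⟨g', hg', he⟩ := hle hg2
    have : g' = g := φ.injective he
    rw [← this]
    exact hg'
  rcases main_fin H hc hns hA' with ⟨h4, hfix⟩ | hcard
  · left
    -- the base embedding
    let c : Fin 4 ↪ α := b4.trans e.symm.toEmbedding
    have hreach : ∀ x : Fin 4 ↪ α, ∃ g : G, g • c = x := by
      intro x
      obtain ⟨h, ⟨g, hgG, rfl⟩, hh⟩ := h4 (x.trans e.toEmbedding)
      refine ⟨⟨g, hgG⟩, ?_⟩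
      ext i
      have h1 := hh i
      have h2 : e ((g : Equiv.Perm α) (e.symm (b4 i))) = e (x i) := h1
      have h3 := e.injective h2
      exact h3
    have hx : ∀ (g : G) (w : Fin 4 ↪ α) (i : Fin 4), (g • w) i = (g : Equiv.Perm α) (w i) :=
      fun _ _ _ => rfl
    refine ⟨⟨fun x y => ?_⟩, ?_⟩
    · obtain ⟨g1, hg1⟩ := hreach x
      obtain ⟨g2, hg2⟩ := hreach y
      refine ⟨g2 * g1⁻¹, ?_⟩
      ext i
      have h1 : x i = (g1 : Equiv.Perm α) (c i) := by rw [← hg1, hx]
      have h2 : y i = (g2 : Equiv.Perm α) (c i) := by rw [← hg2, hx]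
      rw [hx, h1, h2]
      simp [Equiv.Perm.mul_apply]
    · intro x
      rw [eq_bot_iff]
      intro g hg
      rw [Subgroup.mem_bot]
      obtain ⟨g1, hg1⟩ := hreach x
      have hg' : g • x = x := hg
      have hfixc : ∀ i, ((g1⁻¹ * g * g1 : G) : Equiv.Perm α) (c i) = c i := by
        intro i
        have h1 : x i = (g1 : Equiv.Perm α) (c i) := by rw [← hg1, hx]
        have h2 : (g : Equiv.Perm α) (x i) = x i := by rw [← hx, hg']
        rw [h1] at h2
        show (g1 : Equiv.Perm α)⁻¹ ((g : Equiv.Perm α) ((g1 : Equiv.Perm α) (c i))) = c i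
        rw [h2]
        simp
      have h1 : φ ((g1⁻¹ * g * g1 : G) : Equiv.Perm α) = 1 := by
        apply hfix _ ⟨_, (g1⁻¹ * g * g1).2, rfl⟩
        intro i
        have h3 : e (((g1⁻¹ * g * g1 : G) : Equiv.Perm α) (e.symm (b4 i))) = e (e.symm (b4 i)) :=
          congrArg e (hfixc i)
        rw [Equiv.apply_symm_apply] at h3
        exact h3
      have h2 : ((g1⁻¹ * g * g1 : G) : Equiv.Perm α) = 1 := by
        apply φ.injective
        rw [h1, map_one]
      have h3 : g1⁻¹ * g * g1 = 1 := Subtype.ext h2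
      have h4' : g = g1 * 1 * g1⁻¹ := by
        rw [← h3]
        group
      rw [h4', mul_one, mul_inv_cancel]
  · right
    haveI hsimpleH : IsSimpleGroup H := simple_of_660 H hc hcard
    haveI : IsSimpleGroup G := E.isSimpleGroup
    have hcG : Nat.card G = 660 := by
      rw [Nat.card_congr E.toEquiv, hcard]
    exact psl_of_660 hcG

/-- A non-solvable transitive permutation group on 11 points that does not contain the alternating group is either sharply 4-transitive (of order 7920) or isomorphic to the projective special linear group of degree 2 over the field with 11 elements. -/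
theorem result {α : Type*} [Fintype α] [DecidableEq α] (hα : Fintype.card α = 11) (G : Subgroup (Equiv.Perm α)) [MulAction.IsPretransitive G α] (hG : ¬ Group.IsSolvable G) (hA : ¬ alternatingGroup α ≤ G) : (MulAction.IsMultiplyPretransitive G α 4 ∧ ∀ x : Fin 4 ↪ α, MulAction.stabilizer G x = ⊥) ∨ Nonempty (G ≃* Matrix.ProjectiveSpecialLinearGroup (Fin 2) (ZMod 11)) := by
  exact Cfsg.Agent.S0679.transport hα G hG hA

end Cfsg.Agent.S0679
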