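import Cfsg.Statements.S0681
import Mathlib
-- import your own Cfsg.Agent.* helpers here

set_option autoImplicit false
open Cfsg

namespace Cfsg.Agent.S0681

open MulAction

variable {F : Type*} [Cfsg.NearField F]

theorem zero_mul' (c : F) : (0 : F) * c = 0 := by
  have h : (0 + 0 : F) * c = 0 * c + 0 * c := Cfsg.NearField.right_distrib 0 0 c
  rw [add_zero] at h
  exact (left_eq_add.mp h)

theorem neg_mul' (a c : F) : (-a) * c = -(a * c) := by
  have h : (-a + a : F) * c = (-a) * c + a * c := Cfsg.NearField.right_distrib (-a) a c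
  rw [neg_add_cancel, zero_mul'] at h
  exact eq_neg_of_add_eq_zero_left h.symm

theorem add_mul' (a b c : F) : (a + b) * c = a * c + b * c := Cfsg.NearField.right_distrib a b c

theorem exists_inv' (a : F) (ha : a ≠ 0) : ∃ b : F, a * b = 1 ∧ b * a = 1 :=
  Cfsg.NearField.exists_inv a ha

theorem mul_zero' (a : F) : a * 0 = 0 := Cfsg.NearField.mul_zero a

theorem zero_ne_one' : (0 : F) ≠ 1 := Cfsg.NearField.zero_ne_one

theorem mul_ne_zero' {a b : F} (ha : a ≠ 0) (hb : b ≠ 0) : a * b ≠ 0 := by
  intro h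
  obtain ⟨c, hc, hc'⟩ := exists_inv' a ha
  apply hb
  calc b = (c * a) * b := by rw [hc', one_mul]
    _ = c * (a * b) := mul_assoc _ _ _
    _ = 0 := by rw [h, mul_zero']

variable (F) in
/-- The affine group of a near-field. -/
def affineGroup : Subgroup (Equiv.Perm F) where
  carrier := {σ | ∃ a b : F, a ≠ 0 ∧ ∀ x : F, σ x = x * a + b}
  one_mem' := ⟨1, 0, (zero_ne_one' (F := F)).symm, fun x => by simp⟩
  mul_mem' := by
    rintro σ τ ⟨a, b, ha, hσ⟩ ⟨c, d, hc, hτ⟩
    refine ⟨c * a, d * a + b, mul_ne_zero' hc ha, fun x => ?_⟩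
    simp only [Equiv.Perm.coe_mul, Function.comp_apply, hτ, hσ, add_mul', mul_assoc, add_assoc]
  inv_mem' := by
    rintro σ ⟨a, b, ha, hσ⟩
    obtain ⟨c, hc, hc'⟩ := exists_inv' a ha
    have hcne : c ≠ 0 := by
      rintro rfl
      rw [mul_zero'] at hc
      exact zero_ne_one' hc
    refine ⟨c, (-b) * c, hcne, fun x => ?_⟩
    apply σ.injective
    rw [show σ (σ⁻¹ x) = x by simp, hσ]
    simp only [add_mul', mul_assoc, hc', mul_one, neg_add_cancel_right]

theorem mem_affineGroup_iff (σ : Equiv.Perm F) :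
    σ ∈ affineGroup F ↔ ∃ a b : F, a ≠ 0 ∧ ∀ x : F, σ x = x * a + b := Iff.rfl

/-- The affine map `x ↦ x * a + b` as a permutation. -/
noncomputable def affinePerm (a b : F) (ha : a ≠ 0) : Equiv.Perm F :=
  Equiv.ofBijective (fun x => x * a + b) (by
    obtain ⟨c, hc, hc'⟩ := exists_inv' a ha
    constructor
    · intro x y hxy
      have h1 : x * a = y * a := add_right_cancel hxy
      have h2 := congrArg (· * c) h1
      simpa [mul_assoc, hc] using h2
    · intro y
      refine ⟨(y + -b) * c, ?_⟩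
      simp only [mul_assoc, hc', mul_one, neg_add_cancel_right])

theorem affinePerm_apply (a b : F) (ha : a ≠ 0) (x : F) : affinePerm a b ha x = x * a + b := rfl

theorem affinePerm_mem (a b : F) (ha : a ≠ 0) : affinePerm a b ha ∈ affineGroup F :=
  ⟨a, b, ha, fun _ => rfl⟩

theorem sub_mul_eq (a b m t : F) : (a + -b) * m = (a * m + t) + -(b * m + t) := by
  rw [add_mul', neg_mul', neg_add_rev]
  simp only [add_assoc, add_neg_cancel_left]

/-- The affine maps `x ↦ x * a + b`, `a ≠ 0`, of a near-field form a sharply doubly transitive permutation group. -/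
theorem result {F : Type*} [Cfsg.NearField F] : ∃ H : Subgroup (Equiv.Perm F), (∀ σ : Equiv.Perm F, σ ∈ H ↔ ∃ a b : F, a ≠ 0 ∧ ∀ x : F, σ x = x * a + b) ∧ MulAction.IsMultiplyPretransitive H F 2 ∧ ∀ x : Fin 2 ↪ F, MulAction.stabilizer H x = ⊥ := by
  refine ⟨affineGroup F, fun σ => Iff.rfl, ?_, ?_⟩
  · rw [is_two_pretransitive_iff]
    intro a b c d hab hcd
    have hab' : a + -b ≠ 0 := fun h => hab (add_neg_eq_zero.mp h)
    have hcd' : c + -d ≠ 0 := fun h => hcd (add_neg_eq_zero.mp h)
    obtain ⟨i, hi, hi'⟩ := exists_inv' (a + -b) hab'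
    have hine : i ≠ 0 := by
      rintro rfl
      rw [mul_zero'] at hi
      exact zero_ne_one' hi
    set m := i * (c + -d) with hm
    have hmne : m ≠ 0 := mul_ne_zero' hine hcd'
    have hdiff : (a + -b) * m = c + -d := by
      rw [hm, ← mul_assoc, hi, one_mul]
    set t := -(b * m) + d with ht
    refine ⟨⟨affinePerm m t hmne, affinePerm_mem m t hmne⟩, ?_, ?_⟩
    · show a * m + t = c
      have h1 := sub_mul_eq a b m (0 : F)
      simp only [add_zero] at h1
      rw [ht, ← add_assoc]
      rw [← h1, hdiff, neg_add_cancel_right]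
    · show b * m + t = d
      rw [ht, add_neg_cancel_left]
  · intro x
    rw [eq_bot_iff]
    rintro ⟨σ, a, b, ha, hσ⟩ hg
    rw [Subgroup.mem_bot]
    have hg' : ∀ i, σ (x i) = x i := by
      intro i
      have := congrArg (fun y : Fin 2 ↪ F => y i) (mem_stabilizer_iff.mp hg)
      exact this
    have hne : x 0 ≠ x 1 := fun h => absurd (x.injective h) (by decide)
    have h0 := hg' 0
    have h1 := hg' 1
    rw [hσ] at h0 h1
    have hdiff := sub_mul_eq (x 0) (x 1) a b
    rw [h0, h1] at hdiff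
    have hne' : x 0 + -x 1 ≠ 0 := fun h => hne (add_neg_eq_zero.mp h)
    obtain ⟨i, hi, hi'⟩ := exists_inv' (x 0 + -x 1) hne'
    have ha1 : a = 1 := by
      calc a = (i * (x 0 + -x 1)) * a := by rw [hi', one_mul]
        _ = i * ((x 0 + -x 1) * a) := mul_assoc _ _ _
        _ = 1 := by rw [hdiff, hi']
    subst ha1
    have hb0 : b = 0 := by
      have : x 0 * 1 + b = x 0 := h0
      rw [mul_one] at this
      exact left_eq_add.mp this.symm
    subst hb0
    apply Subtype.ext
    ext y
    simp [hσ]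

end Cfsg.Agent.S0681
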