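import Cfsg.Statements.S0682
import Mathlib
import Cfsg.Agent.S0680
import Cfsg.Agent.S0681
-- import your own Cfsg.Agent.* helpers here

set_option autoImplicit false
open Cfsg

namespace Cfsg.Agent.S0682

/-- A finite near-field has prime-power order; its additive group is commutative of prime exponent. -/
theorem result {F : Type*} [Cfsg.NearField F] [Finite F] : ∃ p j : ℕ, p.Prime ∧ 1 ≤ j ∧ Nat.card F = p ^ j ∧ (∀ x y : F, x + y = y + x) ∧ ∀ x : F, p • x = 0 := by
  classical
  haveI := Fintype.ofFinite F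
  obtain ⟨H, hH, htwo, hsharp⟩ := Cfsg.Agent.S0681.result (F := F)
  have h2 : 2 ≤ Fintype.card F := by
    have : Nontrivial F := ⟨⟨0, 1, Cfsg.Agent.S0681.zero_ne_one'⟩⟩
    exact Fintype.one_lt_card
  haveI := htwo
  obtain ⟨p, j, hp, hj, hcard, hP⟩ := Cfsg.Agent.S0680.result H hsharp h2
  haveI hf : Fact p.Prime := ⟨hp⟩
  obtain ⟨P⟩ : Nonempty (Sylow p H) := inferInstance
  obtain ⟨-, hcomm, hexp, -, -, hmem⟩ := hP hf P
  have hone : (1 : F) ≠ 0 := Cfsg.Agent.S0681.zero_ne_one'.symm
  let tr : F → H := fun b =>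
    ⟨Cfsg.Agent.S0681.affinePerm 1 b hone, (hH _).mpr ⟨1, b, hone, fun _ => rfl⟩⟩
  have htr : ∀ b y : F, (tr b : Equiv.Perm F) y = y + b := by
    intro b y
    show y * 1 + b = y + b
    rw [mul_one]
  have htrP : ∀ b : F, tr b ∈ (P : Subgroup H) := by
    intro b
    rw [hmem]
    by_cases hb : b = 0
    · left
      apply Subtype.ext
      ext y
      rw [htr, hb, add_zero]
      rfl
    · right
      intro a ha
      apply hb
      have : a + b = a := by
        rw [← htr]
        exact ha
      exact left_eq_add.mp this.symm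
  refine ⟨p, j, hp, hj, ?_, ?_, ?_⟩
  · rw [Nat.card_eq_fintype_card, hcard]
  · intro x y
    have h1 : (⟨tr x, htrP x⟩ : (P : Subgroup H)) * ⟨tr y, htrP y⟩ = ⟨tr y, htrP y⟩ * ⟨tr x, htrP x⟩ :=
      hcomm.is_comm.comm _ _
    have h2 := congrArg (fun g : (P : Subgroup H) => ((g : H) : Equiv.Perm F) 0) h1
    simp only [Subgroup.coe_mul, Equiv.Perm.mul_apply, htr, zero_add] at h2
    exact h2.symm
  · intro x
    have hpow : ∀ (k : ℕ) (y : F), ((tr x ^ k : H) : Equiv.Perm F) y = y + k • x := by
      intro k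
      induction k with
      | zero => intro y; simp
      | succ k ih =>
        intro y
        rw [pow_succ, Subgroup.coe_mul, Equiv.Perm.mul_apply, ih, htr, succ_nsmul', add_assoc]
    have h1 := hexp (tr x) (htrP x)
    have h2 := hpow p 0
    rw [h1, zero_add] at h2
    exact h2.symm

end Cfsg.Agent.S0682
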