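import Cfsg.Statements.S0683
import Mathlib
import Cfsg.Agent.S0680
-- import your own Cfsg.Agent.* helpers here

set_option autoImplicit false
open Cfsg

namespace Cfsg.Agent.S0683

open MulAction

theorem exists_nearField {α G : Type*} [Group G] [MulAction G α] (z o : α) (hzo : z ≠ o)
    (T : Subgroup G) (hTn : T.Normal) (hTmem : ∀ g, g ∈ T ↔ g = 1 ∨ ∀ a : α, g • a ≠ a)
    (hTtrans : ∀ a b : α, ∃ g ∈ T, g • a = b)
    (htr : ∀ a b c d : α, a ≠ b → c ≠ d → ∃ g : G, g • a = c ∧ g • b = d)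
    (hfix : ∀ (g : G) (a b : α), a ≠ b → g • a = a → g • b = b → g = 1) :
    ∃ _ : Cfsg.NearField α,
      (∀ g : G, ∃ a b : α, a ≠ 0 ∧ ∀ x, g • x = x * a + b) ∧
      (∀ a b : α, a ≠ 0 → ∃ g : G, ∀ x, g • x = x * a + b) := by
  classical
  choose tr htrT htrz using (fun b => hTtrans z b)
  have tr_uniq : ∀ (s : G) (b : α), s ∈ T → s • z = b → s = tr b := by
    intro s b hs hsb
    have h1 : (tr b)⁻¹ * s ∈ T := mul_mem (inv_mem (htrT b)) hs
    rcases (hTmem _).mp h1 with h | h
    · exact (inv_mul_eq_one.mp h).symm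
    · exact absurd (by rw [mul_smul, hsb]; exact inv_smul_eq_iff.mpr (htrz b).symm) (h z)
  have htr0 : tr z = 1 := (tr_uniq 1 z (one_mem _) (one_smul _ _)).symm
  have hex : ∀ a : α, a ≠ z → ∃ g : G, g • z = z ∧ g • o = a :=
    fun a ha => htr z o z a hzo ha.symm
  choose! mu hmuz hmuo using hex
  have mu_uniq : ∀ (g : G) (a : α), a ≠ z → g • z = z → g • o = a → g = mu a := by
    intro g a ha hgz hgo
    have h1 := hfix ((mu a)⁻¹ * g) z o hzo
      (by rw [mul_smul, hgz]; exact inv_smul_eq_iff.mpr (hmuz a ha).symm)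
      (by rw [mul_smul, hgo]; exact inv_smul_eq_iff.mpr (hmuo a ha).symm)
    exact (inv_mul_eq_one.mp h1).symm
  let add : α → α → α := fun a b => tr b • a
  let neg : α → α := fun a => (tr a)⁻¹ • z
  let mul : α → α → α := fun x a => if a = z then z else mu a • x
  have add_assoc' : ∀ a b c, add (add a b) c = add a (add b c) := by
    intro a b c
    show tr c • tr b • a = tr (tr c • b) • a
    have : tr c * tr b = tr (tr c • b) :=
      tr_uniq _ _ (mul_mem (htrT c) (htrT b)) (by rw [mul_smul, htrz])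
    rw [← this, mul_smul]
  have zero_add' : ∀ a, add z a = a := fun a => htrz a
  have add_zero' : ∀ a, add a z = a := by
    intro a
    show tr z • a = a
    rw [htr0, one_smul]
  have neg_add' : ∀ a, add (neg a) a = z := by
    intro a
    show tr a • (tr a)⁻¹ • z = z
    rw [smul_inv_smul]
  have mul_z : ∀ x, mul x z = z := by
    intro x
    simp [mul]
  have mul_ne : ∀ x a, a ≠ z → mul x a = mu a • x := by
    intro x a ha
    simp [mul, ha]
  have z_mul : ∀ a, mul z a = z := by
    intro a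
    by_cases ha : a = z
    · rw [ha, mul_z]
    · rw [mul_ne _ _ ha, hmuz a ha]
  have mul_ne_z : ∀ x a, x ≠ z → a ≠ z → mul x a ≠ z := by
    intro x a hx ha h
    rw [mul_ne _ _ ha] at h
    apply hx
    exact smul_left_cancel _ (h.trans (hmuz a ha).symm)
  have mul_assoc' : ∀ x a b, mul (mul x a) b = mul x (mul a b) := by
    intro x a b
    by_cases hb : b = z
    · subst hb
      rw [mul_z, mul_z, mul_z]
    by_cases ha : a = z
    · subst ha
      rw [mul_z, z_mul, mul_z]
    have hab := mul_ne_z a b ha hb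
    rw [mul_ne _ _ hb, mul_ne _ _ ha, mul_ne _ _ hab, mul_ne _ _ hb]
    have : mu b * mu a = mu (mu b • a) :=
      mu_uniq _ _ (by rwa [← mul_ne _ _ hb]) (by rw [mul_smul, hmuz a ha, hmuz b hb])
        (by rw [mul_smul, hmuo a ha])
    rw [← this, mul_smul]
  have one_mul' : ∀ a, mul o a = a := by
    intro a
    by_cases ha : a = z
    · rw [ha, mul_z]
    · rw [mul_ne _ _ ha, hmuo a ha]
  have hoz : o ≠ z := hzo.symm
  have mu_o : mu o = 1 := (mu_uniq 1 o hoz (one_smul _ _) (one_smul _ _)).symm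
  have mul_one' : ∀ x, mul x o = x := by
    intro x
    rw [mul_ne _ _ hoz, mu_o, one_smul]
  have distrib' : ∀ a b c, mul (add a b) c = add (mul a c) (mul b c) := by
    intro a b c
    by_cases hc : c = z
    · subst hc
      rw [mul_z, mul_z, mul_z, add_zero']
    rw [mul_ne _ _ hc, mul_ne _ _ hc, mul_ne _ _ hc]
    show mu c • tr b • a = tr (mu c • b) • mu c • a
    have h1 : mu c * tr b * (mu c)⁻¹ = tr (mu c • b) :=
      tr_uniq _ _ (hTn.conj_mem _ (htrT b) _) (by
        rw [mul_smul, mul_smul, inv_smul_eq_iff.mpr (hmuz c hc).symm, htrz])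
    rw [← h1]
    simp only [mul_smul, inv_smul_smul]
  have exists_inv' : ∀ a, a ≠ z → ∃ b, mul a b = o ∧ mul b a = o := by
    intro a ha
    have hb : (mu a)⁻¹ • o ≠ z := by
      intro h
      apply hoz
      rw [inv_smul_eq_iff] at h
      rw [h, hmuz a ha]
    have hmub : (mu a)⁻¹ = mu ((mu a)⁻¹ • o) :=
      mu_uniq _ _ hb (inv_smul_eq_iff.mpr (hmuz a ha).symm) rfl
    refine ⟨(mu a)⁻¹ • o, ?_, ?_⟩
    · rw [mul_ne _ _ hb, ← hmub, inv_smul_eq_iff, hmuo a ha]
    · rw [mul_ne _ _ ha, smul_inv_smul]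
  let addG : AddGroup α :=
    letI : Add α := ⟨add⟩
    letI : Neg α := ⟨neg⟩
    letI : Zero α := ⟨z⟩
    AddGroup.ofLeftAxioms add_assoc' zero_add' neg_add'
  let mon : Monoid α :=
    { mul := mul
      one := o
      mul_assoc := mul_assoc'
      one_mul := one_mul'
      mul_one := mul_one' }
  let inst : Cfsg.NearField α :=
    { addG, mon with
      right_distrib := distrib'
      mul_zero := mul_z
      zero_ne_one := hzo
      exists_inv := exists_inv' }
  refine ⟨inst, ?_, ?_⟩
  · intro g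
    have hhz : ((tr (g • z))⁻¹ * g) • z = z := by
      rw [mul_smul, inv_smul_eq_iff, htrz]
    have ha : ((tr (g • z))⁻¹ * g) • o ≠ z := by
      intro haz
      exact hoz (smul_left_cancel _ (haz.trans hhz.symm))
    refine ⟨((tr (g • z))⁻¹ * g) • o, g • z, ha, fun x => ?_⟩
    show g • x = add (mul x (((tr (g • z))⁻¹ * g) • o)) (g • z)
    rw [mul_ne _ _ ha]
    show g • x = tr (g • z) • mu (((tr (g • z))⁻¹ * g) • o) • x
    have : (tr (g • z))⁻¹ * g = mu (((tr (g • z))⁻¹ * g) • o) := mu_uniq _ _ ha hhz rfl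
    rw [← this, mul_smul, smul_inv_smul]
  · intro a b ha
    have ha' : a ≠ z := ha
    refine ⟨tr b * mu a, fun x => ?_⟩
    show (tr b * mu a) • x = add (mul x a) b
    rw [mul_ne _ _ ha', mul_smul]

/-- A finite sharply doubly transitive permutation group is the affine group of a near-field: the permuted set carries a near-field structure for which the group consists exactly of the maps `x ↦ x * a + b` with `a ≠ 0`. -/
theorem result {α : Type*} [Fintype α] [DecidableEq α] (H : Subgroup (Equiv.Perm α)) [MulAction.IsMultiplyPretransitive H α 2] (hsharp : ∀ x : Fin 2 ↪ α, MulAction.stabilizer H x = ⊥) (h2 : 2 ≤ Fintype.card α) : ∃ _ : Cfsg.NearField α, ∀ σ : Equiv.Perm α, σ ∈ H ↔ ∃ a b : α, a ≠ 0 ∧ ∀ x : α, σ x = x * a + b := by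
  classical
  have htr : ∀ a b c d : α, a ≠ b → c ≠ d → ∃ g : H, g • a = c ∧ g • b = d := by
    intro a b c d hab hcd
    exact is_two_pretransitive_iff.mp inferInstance hab hcd
  have hemb : ∀ a b : α, a ≠ b → ∃ x : Fin 2 ↪ α, x 0 = a ∧ x 1 = b := by
    intro a b hab
    refine ⟨⟨![a, b], ?_⟩, rfl, rfl⟩
    intro i j hij
    fin_cases i <;> fin_cases j <;> simp_all
  have hfix : ∀ (g : H) (a b : α), a ≠ b → g • a = a → g • b = b → g = 1 := by
    intro g a b hab ha hb
    obtain ⟨x, rfl, rfl⟩ := hemb a b hab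
    have h1 : g ∈ stabilizer H x := by
      rw [mem_stabilizer_iff]
      ext i
      fin_cases i
      · exact ha
      · exact hb
    rw [hsharp x, Subgroup.mem_bot] at h1
    exact h1
  have hcard : Nat.card H = Fintype.card α * (Fintype.card α - 1) := by
    haveI hnt : Nontrivial α := Fintype.one_lt_card_iff_nontrivial.mp (by omega)
    obtain ⟨a, b, hab⟩ := exists_pair_ne α
    obtain ⟨x, -, -⟩ := hemb a b hab
    have hpre := ‹IsMultiplyPretransitive H α 2›
    have h1 : (stabilizer H x).index = Nat.card (Fin 2 ↪ α) := by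
      rw [index_stabilizer, (isPretransitive_iff_orbit_eq_univ x).mp hpre]
      simp
    rw [hsharp x, Subgroup.index_bot, Nat.card_eq_fintype_card (α := Fin 2 ↪ α),
      Fintype.card_embedding_eq, Fintype.card_fin] at h1
    rw [h1, show (2 : ℕ) = 1 + 1 from rfl, Nat.descFactorial_succ, Nat.descFactorial_one]
    ring
  obtain ⟨F, hFnorm, hFmem, -, hFtrans, -, -⟩ := Cfsg.Agent.S0680.core h2 htr hfix hcard
  haveI hnt : Nontrivial α := Fintype.one_lt_card_iff_nontrivial.mp (by omega)
  obtain ⟨z, o, hzo⟩ := exists_pair_ne α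
  obtain ⟨inst, h1, h2'⟩ := exists_nearField z o hzo F hFnorm hFmem hFtrans htr hfix
  refine ⟨inst, fun σ => ⟨fun hσ => ?_, ?_⟩⟩
  · obtain ⟨a, b, ha, hx⟩ := h1 ⟨σ, hσ⟩
    exact ⟨a, b, ha, hx⟩
  · rintro ⟨a, b, ha, hx⟩
    obtain ⟨g, hg⟩ := h2' a b ha
    have : σ = (g : Equiv.Perm α) := by
      ext x
      rw [hx x]
      exact (hg x).symm
    rw [this]
    exact g.2

end Cfsg.Agent.S0683
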