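import Cfsg.Statements.S0684
import Mathlib
import Cfsg.Agent.Lib.Linalg.FreeAbelian
-- import your own Cfsg.Agent.* helpers here

set_option autoImplicit false
open Cfsg

namespace Cfsg.Agent.S0684

/-- Point stabiliser of a sharply doubly transitive group not of semilinear type: a maximal normal abelian subgroup `A` of a linear group `H` that is regular on non-zero vectors and has no irreducible cyclic normal subgroup is cyclic and reducible, and the order of `A` divides `p ^ k - 1` for `k` the dimension of a minimal `A`-invariant subspace. -/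
theorem result {p : ℕ} [Fact p.Prime] {V : Type*} [AddCommGroup V] [Module (ZMod p) V] [Finite V] (H : Subgroup (V ≃ₗ[ZMod p] V)) (hreg : ∀ v w : V, v ≠ 0 → w ≠ 0 → ∃! h : H, (h : V ≃ₗ[ZMod p] V) v = w) (hI : ∀ A : Subgroup H, A.Normal → IsCyclic A → ∃ W : Submodule (ZMod p) V, W ≠ ⊥ ∧ W ≠ ⊤ ∧ ∀ a ∈ A, ∀ v ∈ W, ((a : H) : V ≃ₗ[ZMod p] V) v ∈ W) (A : Subgroup H) (hAn : A.Normal) (hAc : IsMulCommutative A) (hAmax : ∀ B : Subgroup H, B.Normal → IsMulCommutative B → A ≤ B → B = A) : IsCyclic A ∧ ∃ W : Submodule (ZMod p) V, W ≠ ⊥ ∧ W ≠ ⊤ ∧ (∀ a ∈ A, ∀ v ∈ W, ((a : H) : V ≃ₗ[ZMod p] V) v ∈ W) ∧ (∀ W' : Submodule (ZMod p) V, W' ≤ W → (∀ a ∈ A, ∀ v ∈ W', ((a : H) : V ≃ₗ[ZMod p] V) v ∈ W') → W' = ⊥ ∨ W' = W) ∧ Nat.card A ∣ p ^ Module.finrank (ZMod p) W - 1 := by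
  classical
  have hVfin : Finite (V ≃ₗ[ZMod p] V) :=
    Finite.of_injective (fun e : V ≃ₗ[ZMod p] V => (e : V → V)) DFunLike.coe_injective
  have hfree : ∀ a : H, ∀ v : V, v ≠ 0 → (a : V ≃ₗ[ZMod p] V) v = v → a = 1 := by
    intro a v hv ha
    exact (hreg v v hv hv).unique ha rfl
  have hbot : ∃ v : V, v ≠ 0 := by
    obtain ⟨W, hW, -, -⟩ := hI ⊥ inferInstance (by infer_instance)
    exact (Submodule.ne_bot_iff W).mp hW |>.imp fun v hv => hv.2
  let Inv : Submodule (ZMod p) V → Prop := fun U =>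
    ∀ a ∈ A, ∀ v ∈ U, ((a : H) : V ≃ₗ[ZMod p] V) v ∈ U
  have hfinS : Finite (Submodule (ZMod p) V) :=
    Finite.of_injective (fun U : Submodule (ZMod p) V => (U : Set V)) SetLike.coe_injective
  have hwf : WellFoundedLT (Submodule (ZMod p) V) := Finite.to_wellFoundedLT
  have hmin : ∀ U : Submodule (ZMod p) V, U ≠ ⊥ → Inv U →
      ∃ W : Submodule (ZMod p) V, W ≤ U ∧ W ≠ ⊥ ∧ Inv W ∧
        ∀ W' : Submodule (ZMod p) V, W' ≤ W → Inv W' → W' = ⊥ ∨ W' = W := by
    intro U hU hUi
    obtain ⟨W, ⟨hWU, hW0, hWi⟩, hWm⟩ := hwf.wf.has_min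
      {W : Submodule (ZMod p) V | W ≤ U ∧ W ≠ ⊥ ∧ Inv W} ⟨U, le_rfl, hU, hUi⟩
    refine ⟨W, hWU, hW0, hWi, ?_⟩
    intro W' hW'W hW'i
    by_contra h
    push Not at h
    exact hWm W' ⟨hW'W.trans hWU, h.1, hW'i⟩ (lt_of_le_of_ne hW'W h.2)
  -- `A` is cyclic
  have hcyc : IsCyclic A := by
    obtain ⟨W, -, hW0, hWi, hWm⟩ := hmin ⊤ (by
      obtain ⟨v, hv⟩ := hbot
      intro h
      apply hv
      have : v ∈ (⊤ : Submodule (ZMod p) V) := Submodule.mem_top
      rw [h] at this
      simpa using this) (fun _ _ _ _ => Submodule.mem_top)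
    haveI : Nontrivial W := Submodule.nontrivial_iff_ne_bot.mpr hW0
    let ρ : A →* Module.End (ZMod p) W :=
      { toFun := fun a => LinearMap.restrict (((a : H) : V ≃ₗ[ZMod p] V) : V →ₗ[ZMod p] V)
          (fun v hv => hWi a a.2 v hv)
        map_one' := by
          apply LinearMap.ext
          intro v
          rfl
        map_mul' := by
          intro a b
          apply LinearMap.ext
          intro v
          rfl }
    have hρ : ∀ (a : A) (v : W), ((ρ a v : W) : V) = ((a : H) : V ≃ₗ[ZMod p] V) v := fun a v => rfl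
    apply Cfsg.Agent.Lib.Linalg.FreeAbelian.isCyclic_of_free_irreducible
      (fun a b => hAc.is_comm.comm a b) ρ
    · intro a v hv hav
      have h1 : ((a : H) : V ≃ₗ[ZMod p] V) (v : V) = v := by
        rw [← hρ, hav]
      have h2 := hfree a v (by simpa using hv) h1
      exact Subtype.ext h2
    · intro U hU
      rcases hWm (U.map W.subtype) (by
          rintro _ ⟨u, -, rfl⟩
          exact u.2) (by
          rintro a ha _ ⟨u, hu, rfl⟩
          exact ⟨ρ ⟨a, ha⟩ u, hU _ u hu, rfl⟩) with h | h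
      · left
        have := (Submodule.map_injective_of_injective (f := W.subtype) W.injective_subtype)
        apply this
        rw [h, Submodule.map_bot]
      · right
        have := (Submodule.map_injective_of_injective (f := W.subtype) W.injective_subtype)
        apply this
        rw [h, Submodule.map_subtype_top]
  refine ⟨hcyc, ?_⟩
  -- the proper invariant subspace and a minimal one inside it
  obtain ⟨U, hU0, hUt, hUi⟩ := hI A hAn hcyc
  obtain ⟨W, hWU, hW0, hWi, hWm⟩ := hmin U hU0 hUi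
  refine ⟨W, hW0, ?_, hWi, hWm, ?_⟩
  · rintro rfl
    exact hUt (eq_top_iff.mpr hWU)
  -- the order of `A` divides `p^k - 1`
  have hWfin : Finite W := inferInstance
  let X := {w : W // w ≠ 0}
  letI : MulAction A X :=
    { smul := fun a x => ⟨⟨((a : H) : V ≃ₗ[ZMod p] V) (x.1 : V), hWi a a.2 _ x.1.2⟩, by
        intro h
        have h1 : ((a : H) : V ≃ₗ[ZMod p] V) (x.1 : V) = 0 := congrArg Subtype.val h
        have h2 : (x.1 : V) = 0 := by simpa using h1
        exact x.2 (Subtype.ext h2)⟩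
      one_smul := by
        intro x
        rfl
      mul_smul := by
        intro a b x
        rfl }
  have hsm : ∀ (a : A) (x : X), (((a • x : X) : W) : V) = ((a : H) : V ≃ₗ[ZMod p] V) (x.1 : V) :=
    fun a x => rfl
  have hd := Cfsg.Agent.Lib.Linalg.FreeAbelian.card_dvd_of_free (G := A) (X := X) (by
    intro a x hax
    have h1 : ((a : H) : V ≃ₗ[ZMod p] V) (x.1 : V) = (x.1 : V) := by
      rw [← hsm, hax]
    have h2 : (x.1 : V) ≠ 0 := fun h => x.2 (Subtype.ext h)
    have h3 := hfree a _ h2 h1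
    exact Subtype.ext h3)
  have hcardX : Nat.card X = p ^ Module.finrank (ZMod p) W - 1 := by
    have h1 : Module.Finite (ZMod p) W := Module.Finite.of_finite
    rw [Cfsg.Agent.Lib.Linalg.FreeAbelian.card_ne_zero, Module.natCard_eq_pow_finrank (K := ZMod p),
      Nat.card_zmod]
  rwa [hcardX] at hd

end Cfsg.Agent.S0684
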