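import Cfsg.Statements.S0685
import Mathlib

set_option autoImplicit false
open Cfsg

namespace Cfsg.Agent.S0685


section generalities

lemma aut_card_le {F E : Type*} [Field F] [Ring E] [Algebra F E] [Finite E] (hE : IsField E) :
    Nat.card (E ≃ₐ[F] E) ≤ Module.finrank F E := by
  letI : Field E := hE.toField
  haveI : FiniteDimensional F E := Module.Finite.of_finite
  rw [Nat.card_eq_fintype_card]
  exact AlgEquiv.card_le

lemma cyclic_of_isField {G E : Type*} [Group G] [Finite G] [Ring E] (hE : IsField E) (f : G →* E)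
    (hf : Function.Injective f) : IsCyclic G := by
  letI : Field E := hE.toField
  exact isCyclic_of_injective_ringHom f hf

lemma card_ne_zero_sub (V : Type*) [AddCommGroup V] [Finite V] :
    Nat.card {w : V // w ≠ 0} = Nat.card V - 1 := by
  classical
  have := Fintype.ofFinite V
  rw [Nat.card_eq_fintype_card, Nat.card_eq_fintype_card, Fintype.card_subtype_compl]
  simp

end generalities

section aux

variable {p : ℕ} [Fact p.Prime] {V : Type*} [AddCommGroup V] [Module (ZMod p) V]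

/-- The coercion from automorphisms to endomorphisms. -/
def E : (V ≃ₗ[ZMod p] V) →* Module.End (ZMod p) V where
  toFun f := f.toLinearMap
  map_one' := rfl
  map_mul' _ _ := rfl

@[simp] lemma E_apply (f : V ≃ₗ[ZMod p] V) (v : V) : E f v = f v := rfl

lemma E_injective : Function.Injective (E : (V ≃ₗ[ZMod p] V) →* Module.End (ZMod p) V) :=
  fun _ _ h => LinearEquiv.toLinearMap_injective h

variable {H : Subgroup (V ≃ₗ[ZMod p] V)}

/-- The image of `A` in the endomorphisms. -/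
def gens (A : Subgroup H) : Set (Module.End (ZMod p) V) := {f | ∃ a ∈ A, f = E (a : H).1}

/-- The enveloping algebra of `A`. -/
abbrev KK (A : Subgroup H) : Subalgebra (ZMod p) (Module.End (ZMod p) V) :=
  Algebra.adjoin (ZMod p) (gens A)

lemma gen_mem (A : Subgroup H) (a : H) (ha : a ∈ A) : E a.1 ∈ KK A :=
  Algebra.subset_adjoin ⟨a, ha, rfl⟩

lemma conj_mem (A : Subgroup H) (hAn : A.Normal) (h : H) {k : Module.End (ZMod p) V}
    (hk : k ∈ KK A) : E h.1 * k * E (h⁻¹ : H).1 ∈ KK A := by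
  induction hk using Algebra.adjoin_induction with
  | mem x hx =>
    obtain ⟨a, ha, rfl⟩ := hx
    have : E h.1 * E a.1 * E (h⁻¹ : H).1 = E (h * a * h⁻¹ : H).1 := by
      simp [map_mul]
    rw [this]
    exact gen_mem A _ (hAn.conj_mem a ha h)
  | algebraMap r =>
    have h1 : E h.1 * E (h⁻¹ : H).1 = 1 := by
      rw [← map_mul, ← Subgroup.coe_mul, mul_inv_cancel]
      simp
    rw [mul_assoc, Algebra.commutes, ← mul_assoc, h1, one_mul]
    exact (KK A).algebraMap_mem r
  | add x y _ _ hx hy =>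
    rw [mul_add, add_mul]
    exact (KK A).add_mem hx hy
  | mul x y _ _ hx hy =>
    have h1 : E (h⁻¹ : H).1 * E h.1 = 1 := by
      rw [← map_mul, ← Subgroup.coe_mul, inv_mul_cancel]
      simp
    have : E h.1 * (x * y) * E (h⁻¹ : H).1 =
        (E h.1 * x * E (h⁻¹ : H).1) * (E h.1 * y * E (h⁻¹ : H).1) := by
      simp only [mul_assoc]
      rw [← mul_assoc (E (h⁻¹ : H).1) (E h.1), h1, one_mul]
    rw [this]
    exact (KK A).mul_mem hx hy

lemma comm_gens (A : Subgroup H) (hAc : IsMulCommutative A) :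
    ∀ x ∈ gens A, ∀ y ∈ gens A, x * y = y * x := by
  rintro _ ⟨a, ha, rfl⟩ _ ⟨b, hb, rfl⟩
  have h1 : (⟨a, ha⟩ : A) * ⟨b, hb⟩ = ⟨b, hb⟩ * ⟨a, ha⟩ := hAc.is_comm.comm _ _
  have h2 : a * b = b * a := congrArg Subtype.val h1
  have h3 : a.1 * b.1 = b.1 * a.1 := congrArg Subtype.val h2
  rw [← map_mul, ← map_mul, h3]

lemma KK_comm (A : Subgroup H) (hAc : IsMulCommutative A) {x y : Module.End (ZMod p) V}
    (hx : x ∈ KK A) (hy : y ∈ KK A) : x * y = y * x := by
  have h1 : (⟨x, hx⟩ : KK A) * ⟨y, hy⟩ = ⟨y, hy⟩ * ⟨x, hx⟩ :=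
    (Algebra.isMulCommutative_adjoin (ZMod p) (comm_gens A hAc)).is_comm.comm _ _
  exact congrArg Subtype.val h1

variable [Finite V]

instance : Finite (Module.End (ZMod p) V) :=
  Finite.of_injective (fun f => (f : V → V)) DFunLike.coe_injective

lemma exists_min (A : Subgroup H) [Nontrivial V] :
    ∃ v : V, v ≠ 0 ∧ ∀ x ∈ KK A, x v ≠ 0 → ∃ y ∈ KK A, y (x v) = v := by
  let orb : V → Set V := fun v => {u | ∃ k ∈ KK A, k v = u}
  haveI : Nonempty {v : V // v ≠ 0} := by
    obtain ⟨v, hv⟩ := exists_ne (0 : V)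
    exact ⟨⟨v, hv⟩⟩
  obtain ⟨v, hv⟩ := Finite.exists_min (fun v : {v : V // v ≠ 0} => (orb v.1).ncard)
  refine ⟨v.1, v.2, fun x hx hxv => ?_⟩
  have hsub : orb (x v.1) ⊆ orb v.1 := by
    rintro _ ⟨k, hk, rfl⟩
    exact ⟨k * x, (KK A).mul_mem hk hx, rfl⟩
  have heq := Set.eq_of_subset_of_ncard_le hsub (hv ⟨x v.1, hxv⟩) (Set.toFinite _)
  have hmem : v.1 ∈ orb v.1 := ⟨1, (KK A).one_mem, rfl⟩
  rw [← heq] at hmem
  obtain ⟨y, hy, hyv⟩ := hmem
  exact ⟨y, hy, hyv⟩

lemma all_simple (A : Subgroup H) (hAn : A.Normal) [Nontrivial V]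
    (hreg : ∀ v w : V, v ≠ 0 → w ≠ 0 → ∃! h : H, (h : V ≃ₗ[ZMod p] V) v = w)
    {x : Module.End (ZMod p) V} (hx : x ∈ KK A) {w : V} (hw : w ≠ 0) (hxw : x w ≠ 0) :
    ∃ y ∈ KK A, y (x w) = w := by
  obtain ⟨v, hv, hmin⟩ := exists_min A
  obtain ⟨h, hh, -⟩ := hreg v w hv hw
  have hinv : (h⁻¹ : H).1 w = v := by
    rw [← hh]
    change ((h⁻¹ : H).1 * h.1) v = v
    rw [← Subgroup.coe_mul, inv_mul_cancel]
    rfl
  have hx' : E (h⁻¹ : H).1 * x * E h.1 ∈ KK A := by
    have := conj_mem A hAn h⁻¹ hx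
    simpa using this
  have hx'v : (E (h⁻¹ : H).1 * x * E h.1) v ≠ 0 := by
    change (h⁻¹ : H).1 (x (h.1 v)) ≠ 0
    rw [hh]
    simpa using hxw
  obtain ⟨y', hy', hy'v⟩ := hmin _ hx' hx'v
  refine ⟨E h.1 * y' * E (h⁻¹ : H).1, conj_mem A hAn h hy', ?_⟩
  change h.1 (y' ((h⁻¹ : H).1 (x w))) = w
  have h2 : (E (h⁻¹ : H).1 * x * E h.1) v = (h⁻¹ : H).1 (x w) := by
    change (h⁻¹ : H).1 (x (h.1 v)) = _
    rw [hh]
  rw [h2] at hy'v
  rw [hy'v]
  exact hh

lemma inj_of_ne (A : Subgroup H) (hAn : A.Normal) (hAc : IsMulCommutative A) [Nontrivial V]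
    (hreg : ∀ v w : V, v ≠ 0 → w ≠ 0 → ∃! h : H, (h : V ≃ₗ[ZMod p] V) v = w)
    {x : Module.End (ZMod p) V} (hx : x ∈ KK A) (hx0 : x ≠ 0) {u : V} (hu : u ≠ 0) : x u ≠ 0 := by
  intro hxu
  obtain ⟨z, hz⟩ : ∃ z, x z ≠ 0 := by
    by_contra hcon
    push Not at hcon
    exact hx0 (LinearMap.ext hcon)
  have hz0 : z ≠ 0 := by
    rintro rfl
    exact hz (map_zero x)
  have hxw : x (u + z) ≠ 0 := by
    rw [map_add, hxu, zero_add]
    exact hz
  have hw0 : u + z ≠ 0 := by
    intro h0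
    rw [h0, map_zero] at hxw
    exact hxw rfl
  obtain ⟨y, hy, hyw⟩ := all_simple A hAn hreg hx hw0 hxw
  obtain ⟨y₂, hy₂, hy₂z⟩ := all_simple A hAn hreg hx hz0 hz
  rw [map_add, hxu, zero_add] at hyw
  -- `u = t z` with `t = y x - 1`
  have hu' : u = (y * x - 1) z := by
    have : (y * x - 1) z = y (x z) - z := rfl
    rw [this, hyw]
    abel
  have ht : y * x - 1 ∈ KK A := (KK A).sub_mem ((KK A).mul_mem hy hx) (KK A).one_mem
  -- `t x z = x t z = x u = 0`
  have h0 : (y * x - 1) (x z) = 0 := by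
    have hc : (y * x - 1) * x = x * (y * x - 1) := KK_comm A hAc ht hx
    have : ((y * x - 1) * x) z = (x * (y * x - 1)) z := by rw [hc]
    change (y * x - 1) (x z) = x ((y * x - 1) z) at this
    rw [this, ← hu', hxu]
  -- `u = t z = t y₂ x z = y₂ t x z = 0`
  have hfinal : u = y₂ ((y * x - 1) (x z)) := by
    have hc : (y * x - 1) * y₂ = y₂ * (y * x - 1) := KK_comm A hAc ht hy₂
    have h1 : ((y * x - 1) * y₂) (x z) = (y₂ * (y * x - 1)) (x z) := by rw [hc]
    change (y * x - 1) (y₂ (x z)) = y₂ ((y * x - 1) (x z)) at h1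
    rw [hy₂z, ← hu'] at h1
    exact h1
  rw [h0, map_zero] at hfinal
  exact hu hfinal

lemma KK_isField (A : Subgroup H) (hAn : A.Normal) (hAc : IsMulCommutative A) [Nontrivial V]
    (hreg : ∀ v w : V, v ≠ 0 → w ≠ 0 → ∃! h : H, (h : V ≃ₗ[ZMod p] V) v = w) :
    IsField (KK A) := by
  haveI : Nontrivial (KK A) := by
    obtain ⟨v, hv⟩ := exists_ne (0 : V)
    refine ⟨⟨1, 0, fun h => ?_⟩⟩
    have h1 : ((1 : KK A) : Module.End (ZMod p) V) = ((0 : KK A) : Module.End (ZMod p) V) :=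
      congrArg Subtype.val h
    have h2 : (1 : Module.End (ZMod p) V) v = (0 : Module.End (ZMod p) V) v := by
      rw [show (1 : Module.End (ZMod p) V) = ((1 : KK A) : Module.End (ZMod p) V) from rfl, h1]
      rfl
    exact hv h2
  haveI : NoZeroDivisors (KK A) := by
    refine ⟨fun {a b} hab => ?_⟩
    by_contra hcon
    push Not at hcon
    obtain ⟨ha, hb⟩ := hcon
    have hb' : (b : Module.End (ZMod p) V) ≠ 0 := fun h => hb (Subtype.ext h)
    have ha' : (a : Module.End (ZMod p) V) ≠ 0 := fun h => ha (Subtype.ext h)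
    obtain ⟨z, hz⟩ : ∃ z, (b : Module.End (ZMod p) V) z ≠ 0 := by
      by_contra hcon
      push Not at hcon
      exact hb' (LinearMap.ext hcon)
    have h1 := inj_of_ne A hAn hAc hreg a.2 ha' hz
    have h2 : ((a * b : KK A) : Module.End (ZMod p) V) = 0 := by rw [hab]; rfl
    have h3 : (a : Module.End (ZMod p) V) ((b : Module.End (ZMod p) V) z) = 0 := by
      change ((a : Module.End (ZMod p) V) * (b : Module.End (ZMod p) V)) z = 0
      rw [show (a : Module.End (ZMod p) V) * (b : Module.End (ZMod p) V) =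
        ((a * b : KK A) : Module.End (ZMod p) V) from rfl, h2]
      rfl
    exact h1 h3
  haveI : IsDomain (KK A) := NoZeroDivisors.to_isDomain _
  exact Finite.isDomain_to_isField (KK A)

lemma E_mul_inv (h : H) : E h.1 * E (h⁻¹ : H).1 = 1 := by
  rw [← map_mul, ← Subgroup.coe_mul, mul_inv_cancel]
  simp

lemma E_inv_mul (h : H) : E (h⁻¹ : H).1 * E h.1 = 1 := by
  rw [← map_mul, ← Subgroup.coe_mul, inv_mul_cancel]
  simp

/-- Conjugation as an algebra automorphism of the enveloping algebra. -/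
noncomputable def sigma (A : Subgroup H) (hAn : A.Normal) : H →* (KK A ≃ₐ[ZMod p] KK A) where
  toFun h :=
    { toFun := fun k => ⟨E h.1 * k.1 * E (h⁻¹ : H).1, conj_mem A hAn h k.2⟩
      invFun := fun k => ⟨E (h⁻¹ : H).1 * k.1 * E h.1, by simpa using conj_mem A hAn h⁻¹ k.2⟩
      left_inv := fun k => by
        apply Subtype.ext
        change E (h⁻¹ : H).1 * (E h.1 * k.1 * E (h⁻¹ : H).1) * E h.1 = k.1
        rw [mul_assoc, mul_assoc, E_inv_mul, mul_one, ← mul_assoc, E_inv_mul, one_mul]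
      right_inv := fun k => by
        apply Subtype.ext
        change E h.1 * (E (h⁻¹ : H).1 * k.1 * E h.1) * E (h⁻¹ : H).1 = k.1
        rw [mul_assoc, mul_assoc, E_mul_inv, mul_one, ← mul_assoc, E_mul_inv, one_mul]
      map_mul' := fun x y => by
        apply Subtype.ext
        change E h.1 * (x.1 * y.1) * E (h⁻¹ : H).1 =
          (E h.1 * x.1 * E (h⁻¹ : H).1) * (E h.1 * y.1 * E (h⁻¹ : H).1)
        simp only [mul_assoc]
        rw [← mul_assoc (E (h⁻¹ : H).1) (E h.1), E_inv_mul, one_mul]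
      map_add' := fun x y => by
        apply Subtype.ext
        change E h.1 * (x.1 + y.1) * E (h⁻¹ : H).1 =
          (E h.1 * x.1 * E (h⁻¹ : H).1) + (E h.1 * y.1 * E (h⁻¹ : H).1)
        rw [mul_add, add_mul]
      commutes' := fun r => by
        apply Subtype.ext
        change E h.1 * (algebraMap (ZMod p) (Module.End (ZMod p) V) r) * E (h⁻¹ : H).1 =
          algebraMap (ZMod p) (Module.End (ZMod p) V) r
        rw [mul_assoc, Algebra.commutes, ← mul_assoc, E_mul_inv, one_mul] }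
  map_one' := by
    ext k : 2
    change E (1 : H).1 * k.1 * E ((1 : H)⁻¹ : H).1 = k.1
    simp
  map_mul' g h := by
    ext k : 2
    change E (g * h : H).1 * k.1 * E ((g * h)⁻¹ : H).1 =
      E g.1 * (E h.1 * k.1 * E (h⁻¹ : H).1) * E (g⁻¹ : H).1
    simp [mul_assoc, map_mul]

lemma sigma_ker_le (A : Subgroup H) (hAn : A.Normal) :
    (sigma A hAn).ker ≤ Subgroup.centralizer (A : Set H) := by
  intro h hh
  rw [Subgroup.mem_centralizer_iff]
  intro a ha
  have h1 : sigma A hAn h = 1 := hh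
  have h2 := congrArg (fun s : (KK A ≃ₐ[ZMod p] KK A) => ((s ⟨E a.1, gen_mem A a ha⟩ : KK A) :
    Module.End (ZMod p) V)) h1
  change E h.1 * E a.1 * E (h⁻¹ : H).1 = E a.1 at h2
  have h3 : E h.1 * E a.1 = E a.1 * E h.1 := by
    calc E h.1 * E a.1 = E h.1 * E a.1 * (E (h⁻¹ : H).1 * E h.1) := by rw [E_inv_mul, mul_one]
      _ = E h.1 * E a.1 * E (h⁻¹ : H).1 * E h.1 := by simp only [mul_assoc]
      _ = E a.1 * E h.1 := by rw [h2]
  have h4 : h.1 * a.1 = a.1 * h.1 := by
    apply E_injective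
    rw [map_mul, map_mul, h3]
  exact (Subtype.ext h4).symm

lemma card_H_of_reg [Nontrivial V]
    (hreg : ∀ v w : V, v ≠ 0 → w ≠ 0 → ∃! h : H, (h : V ≃ₗ[ZMod p] V) v = w) :
    Nat.card H = Nat.card V - 1 := by
  obtain ⟨v, hv⟩ := exists_ne (0 : V)
  rw [← card_ne_zero_sub V]
  refine Nat.card_congr (Equiv.ofBijective
    (fun h : H => (⟨(h : V ≃ₗ[ZMod p] V) v, by simpa using hv⟩ : {w : V // w ≠ 0})) ⟨?_, ?_⟩)
  · intro g h hgh
    have h1 : (g : V ≃ₗ[ZMod p] V) v = (h : V ≃ₗ[ZMod p] V) v := congrArg Subtype.val hgh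
    exact (hreg v _ hv (by simpa using hv)).unique rfl h1.symm
  · rintro ⟨w, hw⟩
    obtain ⟨h, hh, -⟩ := hreg v w hv hw
    exact ⟨h, Subtype.ext hh⟩

lemma card_sq_le (A : Subgroup H) (hAn : A.Normal) (hAc : IsMulCommutative A) [Nontrivial V]
    (hreg : ∀ v w : V, v ≠ 0 → w ≠ 0 → ∃! h : H, (h : V ≃ₗ[ZMod p] V) v = w)
    (W : Submodule (ZMod p) V) (hW0 : W ≠ ⊥) (hW1 : W ≠ ⊤)
    (hWA : ∀ a ∈ A, ∀ v ∈ W, ((a : H) : V ≃ₗ[ZMod p] V) v ∈ W) :
    Nat.card (KK A) * Nat.card (KK A) ≤ Nat.card V := by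
  have hK := KK_isField A hAn hAc hreg
  have hWK : ∀ k ∈ KK A, ∀ v ∈ W, k v ∈ W := by
    intro k hk v hv
    induction hk using Algebra.adjoin_induction generalizing v with
    | mem x hx =>
      obtain ⟨a, ha, rfl⟩ := hx
      exact hWA a ha v hv
    | algebraMap r =>
      have : (algebraMap (ZMod p) (Module.End (ZMod p) V) r) v = r • v := rfl
      rw [this]
      exact W.smul_mem r hv
    | add x y _ _ hx hy =>
      exact W.add_mem (hx v hv) (hy v hv)
    | mul x y _ _ hx hy =>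
      exact hx _ (hy v hv)
  obtain ⟨v, hv, hv0⟩ := Submodule.exists_mem_ne_zero_of_ne_bot hW0
  obtain ⟨u, hu⟩ : ∃ u, u ∉ W := by
    by_contra hcon
    push Not at hcon
    exact hW1 (eq_top_iff.2 fun x _ => hcon x)
  have hu0 : u ≠ 0 := by
    rintro rfl
    exact hu W.zero_mem
  rw [← Nat.card_prod]
  refine Nat.card_le_card_of_injective
    (fun x : KK A × KK A => (x.1 : Module.End (ZMod p) V) v + (x.2 : Module.End (ZMod p) V) u) ?_
  rintro ⟨a, b⟩ ⟨a', b'⟩ hab
  simp only at hab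
  have h1 : ((a' - a : KK A) : Module.End (ZMod p) V) v = ((b - b' : KK A) : Module.End (ZMod p) V) u := by
    have e1 : ((a' - a : KK A) : Module.End (ZMod p) V) v = (a' : Module.End (ZMod p) V) v - (a : Module.End (ZMod p) V) v := rfl
    have e2 : ((b - b' : KK A) : Module.End (ZMod p) V) u = (b : Module.End (ZMod p) V) u - (b' : Module.End (ZMod p) V) u := rfl
    rw [e1, e2, sub_eq_sub_iff_add_eq_add, add_comm ((b : Module.End (ZMod p) V) u)]
    exact hab.symm
  have hb : b = b' := by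
    by_contra hne
    have hc : b - b' ≠ 0 := sub_ne_zero.2 hne
    obtain ⟨c, hc'⟩ := hK.mul_inv_cancel hc
    have h2 : u = (c : Module.End (ZMod p) V) (((a' - a : KK A) : Module.End (ZMod p) V) v) := by
      rw [h1]
      have e3 : ((c * (b - b') : KK A) : Module.End (ZMod p) V) u =
          (c : Module.End (ZMod p) V) (((b - b' : KK A) : Module.End (ZMod p) V) u) := rfl
      rw [← e3, hK.mul_comm c, hc']
      rfl
    apply hu
    rw [h2]
    exact hWK _ c.2 _ (hWK _ (a' - a).2 _ hv)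
  subst hb
  have ha : a = a' := by
    by_contra hne
    have hc : a' - a ≠ 0 := sub_ne_zero.2 (Ne.symm hne)
    have hc' : ((a' - a : KK A) : Module.End (ZMod p) V) ≠ 0 := fun h => hc (Subtype.ext h)
    have := inj_of_ne A hAn hAc hreg (a' - a).2 hc' hv0
    rw [h1, sub_self] at this
    exact this rfl
  rw [ha]

lemma main_lt (A : Subgroup H) (hAn : A.Normal) (hAc : IsMulCommutative A) [Nontrivial V]
    (hreg : ∀ v w : V, v ≠ 0 → w ≠ 0 → ∃! h : H, (h : V ≃ₗ[ZMod p] V) v = w)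
    (hI : ∀ A : Subgroup H, A.Normal → IsCyclic A → ∃ W : Submodule (ZMod p) V, W ≠ ⊥ ∧ W ≠ ⊤ ∧ ∀ a ∈ A, ∀ v ∈ W, ((a : H) : V ≃ₗ[ZMod p] V) v ∈ W) :
    (Subgroup.centralizer (A : Set H)) ≠ A := by
  intro hC
  have hK := KK_isField A hAn hAc hreg
  have hfinH : Finite H := by
    have : Finite (V ≃ₗ[ZMod p] V) :=
      Finite.of_injective (fun f => (E f)) E_injective
    infer_instance
  -- the map `A → K`
  let f : A →* KK A :=
    { toFun := fun a => ⟨E a.1.1, gen_mem A a.1 a.2⟩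
      map_one' := by
        apply Subtype.ext
        change E ((1 : A) : H).1 = 1
        simp
      map_mul' := fun a b => by
        apply Subtype.ext
        change E ((a * b : A) : H).1 = E a.1.1 * E b.1.1
        simp [map_mul] }
  have hf : Function.Injective f := by
    intro a b hab
    have h1 : E a.1.1 = E b.1.1 := congrArg Subtype.val hab
    exact Subtype.ext (Subtype.ext (E_injective h1))
  have hcyc : IsCyclic A := cyclic_of_isField hK f hf
  obtain ⟨W, hW0, hW1, hWA⟩ := hI A hAn hcyc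
  have hsq := card_sq_le A hAn hAc hreg W hW0 hW1 hWA
  have hHcard := card_H_of_reg hreg
  -- the Galois bound
  have hgal : Nat.card (KK A ≃ₐ[ZMod p] KK A) ≤ Module.finrank (ZMod p) (KK A) := aut_card_le hK
  have hKcard := Module.natCard_eq_pow_finrank (K := ZMod p) (V := KK A)
  rw [Nat.card_zmod] at hKcard
  set d := Module.finrank (ZMod p) (KK A) with hd
  have hdlt : d < Nat.card (KK A) := by
    rw [hKcard]
    exact Nat.lt_pow_self (Fact.out : p.Prime).one_lt
  -- the count of `H`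
  have hH1 : Nat.card H ≤ Nat.card A * d := by
    have h1 := Subgroup.card_mul_index (sigma A hAn).ker
    rw [Subgroup.index_ker] at h1
    rw [← h1]
    have h2 : Nat.card (sigma A hAn).ker ≤ Nat.card A := by
      have := Subgroup.card_le_of_le (sigma_ker_le A hAn)
      rwa [hC] at this
    have : Finite (KK A ≃ₐ[ZMod p] KK A) :=
      Finite.of_injective (fun s => (s : KK A → KK A)) DFunLike.coe_injective
    have h3 : Nat.card (sigma A hAn).range ≤ d :=
      le_trans (Subgroup.card_le_card_group _) hgal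
    exact Nat.mul_le_mul h2 h3
  -- `|A| ≤ |K| - 1`
  have hA1 : Nat.card A ≤ Nat.card (KK A) - 1 := by
    rw [← card_ne_zero_sub (KK A)]
    refine Nat.card_le_card_of_injective (fun a : A => (⟨f a, ?_⟩ : {w : KK A // w ≠ 0})) ?_
    · intro h0
      have h1 : E a.1.1 = 0 := congrArg Subtype.val h0
      obtain ⟨v, hv⟩ := exists_ne (0 : V)
      have h2 : a.1.1 v = 0 := by
        have := congrArg (fun g : Module.End (ZMod p) V => g v) h1
        simpa using this
      exact hv (by simpa using h2)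
    · intro a b hab
      exact hf (congrArg Subtype.val hab)
  set κ := Nat.card (KK A) with hκ
  have hκ2 : 2 ≤ κ := by
    have : Nontrivial (KK A) := ⟨hK.exists_pair_ne⟩
    exact Finite.one_lt_card
  have hfinal : κ * κ - 1 ≤ (κ - 1) * d := by
    calc κ * κ - 1 ≤ Nat.card V - 1 := Nat.sub_le_sub_right hsq 1
      _ = Nat.card H := hHcard.symm
      _ ≤ Nat.card A * d := hH1
      _ ≤ (κ - 1) * d := Nat.mul_le_mul_right d hA1
  obtain ⟨c, hc⟩ : ∃ c, κ = c + 1 := ⟨κ - 1, by omega⟩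
  rw [hc] at hfinal hdlt
  have e1 : (c + 1) * (c + 1) - 1 = c * (c + 2) := by
    have : (c + 1) * (c + 1) = c * (c + 2) + 1 := by ring
    omega
  rw [e1, Nat.add_sub_cancel] at hfinal
  have hc0 : 0 < c := by omega
  have := Nat.le_of_mul_le_mul_left hfinal hc0
  omega

end aux

/-- In a linear group over the prime field that is regular on non-zero vectors and has no irreducible cyclic normal subgroup, a maximal normal abelian subgroup is properly contained in its centraliser, which is non-abelian. -/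
theorem result {p : ℕ} [Fact p.Prime] {V : Type*} [AddCommGroup V] [Module (ZMod p) V] [Finite V] (H : Subgroup (V ≃ₗ[ZMod p] V)) (hreg : ∀ v w : V, v ≠ 0 → w ≠ 0 → ∃! h : H, (h : V ≃ₗ[ZMod p] V) v = w) (hI : ∀ A : Subgroup H, A.Normal → IsCyclic A → ∃ W : Submodule (ZMod p) V, W ≠ ⊥ ∧ W ≠ ⊤ ∧ ∀ a ∈ A, ∀ v ∈ W, ((a : H) : V ≃ₗ[ZMod p] V) v ∈ W) (A : Subgroup H) (hAn : A.Normal) (hAc : IsMulCommutative A) (hAmax : ∀ B : Subgroup H, B.Normal → IsMulCommutative B → A ≤ B → B = A) : A < Subgroup.centralizer (A : Set H) ∧ ¬ IsMulCommutative (Subgroup.centralizer (A : Set H)) := by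
  have hnt : Nontrivial V := by
    obtain ⟨W, hW0, hW1, -⟩ := hI ⊥ inferInstance inferInstance
    obtain ⟨v, -, hv⟩ := Submodule.exists_mem_ne_zero_of_ne_bot hW0
    exact ⟨⟨v, 0, hv⟩⟩
  have hle : A ≤ Subgroup.centralizer (A : Set H) := Subgroup.le_centralizer A
  have hlt : A < Subgroup.centralizer (A : Set H) :=
    lt_of_le_of_ne hle (main_lt A hAn hAc hreg hI).symm
  refine ⟨hlt, fun hcomm => ?_⟩
  exact hlt.ne (hAmax _ inferInstance hcomm hle).symm

end Cfsg.Agent.S0685
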