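import Cfsg.Statements.S0686
import Mathlib
import Cfsg.Agent.Lib.SolvLin.Reg

set_option autoImplicit false
open Cfsg

namespace Cfsg.Agent.S0686

/-- In a linear group over the prime field that is regular on non-zero vectors and has no irreducible cyclic normal subgroup, let `A` be a maximal normal abelian subgroup and `N` a normal subgroup centralising `A` that is minimal among non-abelian normal subgroups centralising `A`. Then `N` is quaternion of order 8 or isomorphic to `SL(2,5)`. -/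
theorem result {p : ℕ} [Fact p.Prime] {V : Type*} [AddCommGroup V] [Module (ZMod p) V] [Finite V] (H : Subgroup (V ≃ₗ[ZMod p] V)) (hreg : ∀ v w : V, v ≠ 0 → w ≠ 0 → ∃! h : H, (h : V ≃ₗ[ZMod p] V) v = w) (hI : ∀ A : Subgroup H, A.Normal → IsCyclic A → ∃ W : Submodule (ZMod p) V, W ≠ ⊥ ∧ W ≠ ⊤ ∧ ∀ a ∈ A, ∀ v ∈ W, ((a : H) : V ≃ₗ[ZMod p] V) v ∈ W) (A : Subgroup H) (hAn : A.Normal) (hAc : IsMulCommutative A) (hAmax : ∀ B : Subgroup H, B.Normal → IsMulCommutative B → A ≤ B → B = A) (N : Subgroup H) (hNn : N.Normal) (hNle : N ≤ Subgroup.centralizer (A : Set H)) (hNna : ¬ IsMulCommutative N) (hNmin : ∀ M : Subgroup H, M.Normal → M ≤ N → ¬ IsMulCommutative M → M = N) : Nonempty (N ≃* QuaternionGroup 2) ∨ Nonempty (N ≃* Matrix.SpecialLinearGroup (Fin 2) (ZMod 5)) := by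
  classical
  have hna : ¬ ∀ x ∈ N, ∀ y ∈ N, x * y = y * x := fun hall =>
    hNna ⟨⟨fun a b => Subtype.ext (hall a a.2 b b.2)⟩⟩
  haveI hVn : Nontrivial V := by
    by_contra h
    rw [not_nontrivial_iff_subsingleton] at h
    apply hna
    intro x _ y _
    have h1 : ∀ z : H, z = 1 := fun z => by
      apply Subtype.ext
      apply LinearEquiv.ext
      intro v
      exact Subsingleton.elim _ _
    rw [h1 x, h1 y]
  haveI : Finite (V ≃ₗ[ZMod p] V) :=
    Finite.of_injective (fun e : V ≃ₗ[ZMod p] V => (e : V → V)) (fun a b h => LinearEquiv.ext (congrFun h))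
  let ρ : H →* (V ≃ₗ[ZMod p] V) := H.subtype
  have hreg' : ∀ v : V, v ≠ 0 → ∀ g : H, ρ g v = v → g = 1 :=
    fun v hv g hg => (hreg v v hv hv).unique hg (by simp)
  have hF := Cfsg.Agent.Lib.SolvLin.fpfAct_of_regular ρ hreg'
  haveI := hAn
  refine Cfsg.Agent.Lib.SolvLin.quat_or_sl25 hF A N hNn ?_ ?_ ?_ hna ?_
  · intro a ha b hb
    exact congrArg Subtype.val (hAc.is_comm.comm (⟨a, ha⟩ : A) ⟨b, hb⟩)
  · intro B hB hBc hAB
    exact hAmax B hB ⟨⟨fun a b => Subtype.ext (hBc a a.2 b b.2)⟩⟩ hAB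
  · intro n hn a ha
    exact (Subgroup.mem_centralizer_iff.1 (hNle hn) a ha).symm
  · intro M hM hMN hMna
    exact hNmin M hM hMN (fun hc => hMna fun x hx y hy =>
      congrArg Subtype.val (hc.is_comm.comm (⟨x, hx⟩ : M) ⟨y, hy⟩))

end Cfsg.Agent.S0686
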