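import Cfsg.Statements.S0687
import Mathlib
import Cfsg.Agent.Lib.SolvLin.Reg

set_option autoImplicit false
open Cfsg

namespace Cfsg.Agent.S0687

/-- In a linear group over the prime field that is regular on non-zero vectors and has no irreducible cyclic normal subgroup, a normal subgroup `N` minimal among the non-abelian normal subgroups centralising a maximal normal abelian subgroup `A` is irreducible on `V`, and its centraliser is `A`. -/
theorem result {p : ℕ} [Fact p.Prime] {V : Type*} [AddCommGroup V] [Module (ZMod p) V] [Finite V] (H : Subgroup (V ≃ₗ[ZMod p] V)) (hreg : ∀ v w : V, v ≠ 0 → w ≠ 0 → ∃! h : H, (h : V ≃ₗ[ZMod p] V) v = w) (hI : ∀ A : Subgroup H, A.Normal → IsCyclic A → ∃ W : Submodule (ZMod p) V, W ≠ ⊥ ∧ W ≠ ⊤ ∧ ∀ a ∈ A, ∀ v ∈ W, ((a : H) : V ≃ₗ[ZMod p] V) v ∈ W) (A : Subgroup H) (hAn : A.Normal) (hAc : IsMulCommutative A) (hAmax : ∀ B : Subgroup H, B.Normal → IsMulCommutative B → A ≤ B → B = A) (N : Subgroup H) (hNn : N.Normal)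 (hNle : N ≤ Subgroup.centralizer (A : Set H)) (hNna : ¬ IsMulCommutative N) (hNmin : ∀ M : Subgroup H, M.Normal → M ≤ N → ¬ IsMulCommutative M → M = N) : (∀ W : Submodule (ZMod p) V, (∀ n ∈ N, ∀ v ∈ W, ((n : H) : V ≃ₗ[ZMod p] V) v ∈ W) → W = ⊥ ∨ W = ⊤) ∧ Subgroup.centralizer (N : Set H) = A := by
  classical
  have hna : ¬ ∀ x ∈ N, ∀ y ∈ N, x * y = y * x := fun hall =>
    hNna ⟨⟨fun a b => Subtype.ext (hall a a.2 b b.2)⟩⟩
  -- `V` is nontrivial
  haveI hVn : Nontrivial V := by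
    by_contra h
    rw [not_nontrivial_iff_subsingleton] at h
    apply hna
    intro x _ y _
    have h1 : ∀ z : H, z = 1 := fun z => by
      apply Subtype.ext
      apply LinearEquiv.ext
      intro v
      exact Subsingleton.elim _ _
    rw [h1 x, h1 y]
  let ρ : H →* (V ≃ₗ[ZMod p] V) := H.subtype
  have hρ : Function.Injective ρ := H.subtype_injective
  have htrans : ∀ v w : V, v ≠ 0 → w ≠ 0 → ∃ g : H, ρ g v = w :=
    fun v w hv hw => (hreg v w hv hw).exists
  have hirr : ∀ W : Submodule (ZMod p) V, (∀ n ∈ N, ∀ v ∈ W, ρ n v ∈ W) → W = ⊥ ∨ W = ⊤ :=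
    fun W hW => Cfsg.Agent.Lib.SolvLin.irreducible_of_noncomm ρ N hρ htrans hna W hW
  refine ⟨fun W hW => hirr W hW, ?_⟩
  have hD := Cfsg.Agent.Lib.SolvLin.centralizer_comm_of_irreducible ρ N hρ hirr
  haveI := hNn
  apply hAmax (Subgroup.centralizer (N : Set H)) inferInstance
  · exact ⟨⟨fun a b => Subtype.ext (hD a a.2 b b.2)⟩⟩
  · intro a ha
    rw [Subgroup.mem_centralizer_iff]
    intro n hn
    have h1 := Subgroup.mem_centralizer_iff.1 (hNle hn) a ha
    exact h1.symm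

end Cfsg.Agent.S0687
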