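import Cfsg.Statements.S0688
import Mathlib
import Cfsg.Agent.Lib.SolvLin.Top

set_option autoImplicit false
open Cfsg

namespace Cfsg.Agent.S0688

/-- Degrees of the soluble exceptional sharply doubly transitive groups: if a solvable linear group over the prime field is regular on the non-zero vectors of `V` and has no irreducible cyclic normal subgroup, then `V` has 25, 49, 121 or 529 elements. -/
theorem result {p : ℕ} [Fact p.Prime] {V : Type*} [AddCommGroup V] [Module (ZMod p) V] [Finite V] (H : Subgroup (V ≃ₗ[ZMod p] V)) (hreg : ∀ v w : V, v ≠ 0 → w ≠ 0 → ∃! h : H, (h : V ≃ₗ[ZMod p] V) v = w) (hI : ∀ A : Subgroup H, A.Normal → IsCyclic A → ∃ W : Submodule (ZMod p) V, W ≠ ⊥ ∧ W ≠ ⊤ ∧ ∀ a ∈ A, ∀ v ∈ W, ((a : H) : V ≃ₗ[ZMod p] V) v ∈ W) (hsolv : Group.IsSolvable H) : Nat.card V = 25 ∨ Nat.card V = 49 ∨ Nat.card V = 121 ∨ Nat.card V = 529 := by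
  classical
  obtain ⟨W, hW, -, -⟩ := hI ⊥ inferInstance inferInstance
  obtain ⟨w, -, hw⟩ := (Submodule.ne_bot_iff _).1 hW
  haveI : Nontrivial V := ⟨⟨w, 0, hw⟩⟩
  haveI := hsolv
  haveI : Finite (V ≃ₗ[ZMod p] V) :=
    Finite.of_injective (fun e : V ≃ₗ[ZMod p] V => (e : V → V)) (fun a b h => LinearEquiv.ext (congrFun h))
  let ρ : H →* (V ≃ₗ[ZMod p] V) := H.subtype
  have hρ : Function.Injective ρ := H.subtype_injective
  have htrans : ∀ v w : V, v ≠ 0 → w ≠ 0 → ∃ g : H, ρ g v = w :=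
    fun v w hv hw => (hreg v w hv hw).exists
  have hreg' : ∀ v : V, v ≠ 0 → ∀ g : H, ρ g v = v → g = 1 :=
    fun v hv g hg => (hreg v v hv hv).unique hg (by simp)
  obtain ⟨A, hA, K, i1, i2, i3, ψ, i4, S⟩ := Cfsg.Agent.Lib.SolvLin.exists_setup ρ hρ htrans
  rcases S.core with hm | ⟨hf, ⟨N, hG, hcN⟩, h⟩
  · exfalso
    obtain ⟨W, hW, hWt, hWi⟩ := hI A hA S.card_A.1
    exact hWt (S.invariant_top hm W hW hWi)
  · rw [S.card_V, hf, one_mul]
    rcases h with ⟨hm, h2, h3⟩ | ⟨hm, h3⟩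
    · rw [hm]
      rcases Cfsg.Agent.Lib.SolvLin.prime_of_dvd24 (Fact.out : p.Prime) h2 h3 with rfl | rfl | rfl | rfl | rfl
      · exact (S.not_of_regular hreg' hf hG hcN (Or.inl ⟨hm, rfl⟩)).elim
      all_goals simp
    · exact (S.not_of_regular hreg' hf hG hcN (Or.inr ⟨hm, h3⟩)).elim

end Cfsg.Agent.S0688
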