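import Cfsg.Statements.S0689
import Mathlib
import Cfsg.Agent.Lib.Frobenius.Zass.Sharp

set_option autoImplicit false
set_option linter.style.haveILetI false
open Cfsg

namespace Cfsg.Agent.S0689

open Cfsg.Agent.Lib.Frobenius.Zass Subgroup
open scoped MatrixGroups

/-- The insoluble sharply doubly transitive groups: a non-solvable linear group over the prime field that is regular on the non-zero vectors of `V` occurs only for `|V| = 11², 29², 59²`, and is `SL(2,5) × C_m` with `m = 1, 7, 29` respectively. -/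
theorem result {p : ℕ} [Fact p.Prime] {V : Type*} [AddCommGroup V] [Module (ZMod p) V] [Finite V] (H : Subgroup (V ≃ₗ[ZMod p] V)) (hreg : ∀ v w : V, v ≠ 0 → w ≠ 0 → ∃! h : H, (h : V ≃ₗ[ZMod p] V) v = w) (hsolv : ¬ Group.IsSolvable H) : (Nat.card V = 121 ∧ Nonempty (H ≃* Matrix.SpecialLinearGroup (Fin 2) (ZMod 5))) ∨ (Nat.card V = 841 ∧ Nonempty (H ≃* Matrix.SpecialLinearGroup (Fin 2) (ZMod 5) × Multiplicative (ZMod 7))) ∨ (Nat.card V = 3481 ∧ Nonempty (H ≃* Matrix.SpecialLinearGroup (Fin 2) (ZMod 5) × Multiplicative (ZMod 29))) := by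
  classical
  haveI : Finite (V ≃ₗ[ZMod p] V) :=
    Finite.of_injective (fun f : V ≃ₗ[ZMod p] V => (f : V → V)) DFunLike.coe_injective
  haveI hVn : Nontrivial V := by
    by_contra h
    rw [not_nontrivial_iff_subsingleton] at h
    apply hsolv
    haveI : Subsingleton H := ⟨fun a b => Subtype.ext (LinearEquiv.ext fun v => Subsingleton.elim _ _)⟩
    infer_instance
  let ρ : H →* Module.End (ZMod p) V :=
    (LinearEquiv.automorphismGroup.toLinearMapMonoidHom).comp H.subtype
  have hρ : ∀ (g : H) (v : V), ρ g v = (g : V ≃ₗ[ZMod p] V) v := fun _ _ => rfl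
  have hfpf : ∀ g : H, g ≠ 1 → ∀ v, ρ g v = v → v = 0 := by
    intro g hg v hv
    by_contra hv0
    apply hg
    exact (hreg v v hv0 hv0).unique hv rfl
  let φ : H →* MulAut (Multiplicative V) :=
    { toFun := fun g => AddEquiv.toMultiplicative (g : V ≃ₗ[ZMod p] V).toAddEquiv
      map_one' := by
        ext v
        rfl
      map_mul' := by
        intro a b
        ext v
        rfl }
  have hA : FpfAct H := FpfAct.of_action φ (fun c hc n hn => by
    have h1 : ρ c (Multiplicative.toAdd n) = Multiplicative.toAdd n := congrArg Multiplicative.toAdd hn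
    have h2 := hfpf c hc _ h1
    exact Multiplicative.toAdd.injective h2)
  -- the order
  obtain ⟨v₀, hv₀⟩ := exists_ne (0 : V)
  have hcardH : Nat.card H = Nat.card V - 1 := by
    let F : H → {w : V // w ≠ 0} := fun h => ⟨(h : V ≃ₗ[ZMod p] V) v₀, fun h1 => hv₀ (by
      have := (h : V ≃ₗ[ZMod p] V).injective (h1.trans (map_zero _).symm)
      exact this)⟩
    have hF : Function.Bijective F := by
      constructor
      · intro a b hab
        have h1 : (a : V ≃ₗ[ZMod p] V) v₀ = (b : V ≃ₗ[ZMod p] V) v₀ := congrArg Subtype.val hab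
        exact (hreg v₀ _ hv₀ (F b).2).unique h1 rfl
      · rintro ⟨w, hw⟩
        obtain ⟨h, hh, -⟩ := hreg v₀ w hv₀ hw
        exact ⟨h, Subtype.ext hh⟩
    rw [Nat.card_congr (Equiv.ofBijective F hF)]
    have h1 : Nat.card {x : V // x = 0} + Nat.card {x : V // ¬ x = 0} = Nat.card V := by
      rw [← Nat.card_sum]
      exact Nat.card_congr (Equiv.sumCompl (fun x : V => x = 0))
    have h2 : Nat.card {x : V // x = 0} = 1 := Nat.card_unique
    have h3 : Nat.card {w : V // w ≠ 0} = Nat.card {x : V // ¬ x = 0} := rfl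
    omega
  obtain ⟨S, M, hSn, e, θ, hperf, hM, hdec, hθ, hker, hidx⟩ := exists_struct hA hsolv
  haveI := hSn
  have hsup := sup_M_eq e hM hdec
  have hinf := inf_M_eq_bot e hM
  have hc : ∀ s ∈ S, ∀ x ∈ M, s * x = x * s := fun s hs x hx =>
    Subgroup.mem_centralizer_iff.mp ((hM x).mp hx).1 s hs
  have hcardsup := Cfsg.Agent.Lib.Frobenius.Zass.card_sup_of_disjoint hinf
  rw [card_S e] at hcardsup
  have hidx' : (S ⊔ M).index = 1 ∨ (S ⊔ M).index = 2 := by rw [hsup]; exact hidx
  have hmulidx := (S ⊔ M).card_mul_index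
  rw [hcardsup, hcardH] at hmulidx
  -- `p` is odd
  have hV2 : Nat.card V = Nat.card H + 1 := by
    have : 1 < Nat.card V := Finite.one_lt_card
    omega
  have hpV : p ∣ Nat.card V := by
    haveI : Module.Finite (ZMod p) V := Module.Finite.of_finite
    rw [Module.natCard_eq_pow_finrank (K := ZMod p), Nat.card_zmod]
    exact dvd_pow_self p (Module.finrank_pos (R := ZMod p) (M := V)).ne'
  have hp2 : p ≠ 2 := by
    rintro rfl
    have h1 : 2 ∣ Nat.card H := by
      have h3 : Nat.card S ∣ Nat.card H := Subgroup.card_subgroup_dvd_card S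
      rw [card_S e] at h3
      exact Dvd.dvd.trans (by norm_num) h3
    rw [hV2] at hpV
    omega
  -- the half subspace
  have hσz := sigma_eq_neg_one (σ := ρ) (z_ne_one e) (zz e) hfpf
  have hI : ρ (iOf e) * ρ (iOf e) = -1 := by rw [← map_mul, ii, hσz]
  have hJ : ρ (jOf e) * ρ (jOf e) = -1 := by rw [← map_mul, jj, hσz]
  have hIJ : ρ (iOf e) * ρ (jOf e) = -(ρ (jOf e) * ρ (iOf e)) := by
    have h1 : iSL * jSL = -1 * (jSL * iSL) := by decide
    have h2 : e.symm iSL * e.symm jSL = e.symm (-1) * (e.symm jSL * e.symm iSL) := by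
      rw [← map_mul, ← map_mul, ← map_mul, h1]
    have h3 : iOf e * jOf e = zOf e * (jOf e * iOf e) := congrArg Subtype.val h2
    rw [← map_mul, h3, map_mul, hσz, map_mul]
    noncomm_ring
  obtain ⟨U, m, hUc, hVc, hUx⟩ := exists_half hp2 (ρ (iOf e)) (ρ (jOf e)) hI hJ hIJ
  -- `M` acts freely on `U`
  have hdvd : Nat.card M ∣ p ^ m - 1 := by
    let X : Type _ := {u : U // u ≠ 0}
    have hstab : ∀ (a : M) (u : U), ρ (a : H) u ∈ U := by
      intro a u
      apply hUx _ _ _ _ u.2
      · rw [← map_mul, ← map_mul, (hc _ (i_mem e) _ a.2).symm]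
      · rw [← map_mul, ← map_mul, (hc _ (j_mem e) _ a.2).symm]
    have hne : ∀ (a : M) (u : X), (⟨ρ (a : H) u.1, hstab a u.1⟩ : U) ≠ 0 := by
      intro a u h
      have h1 : ρ (a : H) (u.1 : V) = 0 := congrArg Subtype.val h
      have h2 : (u.1 : V) = 0 := by
        have h3 : ((a : H) : V ≃ₗ[ZMod p] V) (u.1 : V) = 0 := h1
        have h4 := ((a : H) : V ≃ₗ[ZMod p] V).injective (h3.trans (map_zero _).symm)
        exact h4
      exact u.2 (Subtype.ext h2)
    letI : MulAction M X :=
      { smul := fun a u => ⟨⟨ρ (a : H) u.1, hstab a u.1⟩, hne a u⟩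
        one_smul := fun u => Subtype.ext (Subtype.ext (by
          show ρ ((1 : M) : H) (u.1 : V) = u.1
          rw [OneMemClass.coe_one, map_one]
          rfl))
        mul_smul := fun a b u => Subtype.ext (Subtype.ext (by
          show ρ ((a * b : M) : H) (u.1 : V) = ρ (a : H) (ρ (b : H) (u.1 : V))
          rw [MulMemClass.coe_mul, map_mul]
          rfl)) }
    have hfree : ∀ (a : M) (x : X), a • x = x → a = 1 := by
      intro a x hx
      by_contra ha
      have h1 : ρ (a : H) (x.1 : V) = (x.1 : V) :=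
        congrArg (fun y : X => ((y.1 : U) : V)) hx
      have h2 := hfpf a (fun h => ha (Subtype.ext h)) _ h1
      exact x.2 (Subtype.ext h2)
    have h5 := Cfsg.Agent.Lib.Frobenius.Basic.card_dvd_of_free hfree
    have hX : Nat.card X = Nat.card U - 1 := by
      have h1 : Nat.card {x : U // x = 0} + Nat.card {x : U // ¬ x = 0} = Nat.card U := by
        rw [← Nat.card_sum]
        exact Nat.card_congr (Equiv.sumCompl (fun x : U => x = 0))
      have h2 : Nat.card {x : U // x = 0} = 1 := Nat.card_unique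
      have h3 : Nat.card X = Nat.card {x : U // ¬ x = 0} := rfl
      omega
    rwa [hX, hUc] at h5
  -- arithmetic
  have hpos : 0 < Nat.card M := Nat.card_pos
  have hpp : IsPrimePow (p ^ m) := by
    have hm : m ≠ 0 := by
      rintro rfl
      have : 1 < Nat.card V := Finite.one_lt_card
      rw [hVc] at this
      simp at this
    exact (Nat.Prime.isPrimePow Fact.out).pow hm
  have hu2 : 2 ≤ p ^ m := hpp.two_le
  have heq : (p ^ m) ^ 2 - 1 = (S ⊔ M).index * 120 * Nat.card M := by
    rw [← hVc, ← hmulidx]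
    ring
  rcases arith_sharp hu2 hpp hpos hdvd (coprime_M hA e hM) hidx' heq with ⟨h1, h2, h3⟩ | ⟨h1, h2, h3⟩ | ⟨h1, h2, h3⟩
  · left
    refine ⟨by rw [hVc, h1]; norm_num, ?_⟩
    have htop : S ⊔ M = ⊤ := Subgroup.index_eq_one.mp h3
    have hM1 : M = ⊥ := Subgroup.eq_bot_of_card_eq _ h2
    rw [hM1, sup_bot_eq] at htop
    exact ⟨(Subgroup.topEquiv.symm.trans (MulEquiv.subgroupCongr htop.symm)).trans e⟩
  · refine Or.inr (Or.inl ⟨by rw [hVc, h1]; norm_num, ?_⟩)
    have htop : S ⊔ M = ⊤ := Subgroup.index_eq_one.mp h3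
    obtain ⟨E⟩ := nonempty_equiv_prod hinf hc htop
    haveI : Fact (Nat.Prime 7) := ⟨by norm_num⟩
    have e' : M ≃* Multiplicative (ZMod 7) :=
      mulEquivOfPrimeCardEq (p := 7) h2 (by simp [Nat.card_zmod])
    exact ⟨E.symm.trans (MulEquiv.prodCongr e e')⟩
  · refine Or.inr (Or.inr ⟨by rw [hVc, h1]; norm_num, ?_⟩)
    have htop : S ⊔ M = ⊤ := Subgroup.index_eq_one.mp h3
    obtain ⟨E⟩ := nonempty_equiv_prod hinf hc htop
    haveI : Fact (Nat.Prime 29) := ⟨by norm_num⟩
    have e' : M ≃* Multiplicative (ZMod 29) :=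
      mulEquivOfPrimeCardEq (p := 29) h2 (by simp [Nat.card_zmod])
    exact ⟨E.symm.trans (MulEquiv.prodCongr e e')⟩

end Cfsg.Agent.S0689
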