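import Cfsg.Statements.S0691
import Mathlib
import Cfsg.Agent.Lib.Compute.Gl2Regular
-- import your own Cfsg.Agent.* helpers here

set_option autoImplicit false
open Cfsg

namespace Cfsg.Agent.S0691

open Cfsg.Agent.Lib.Compute.Gl2Regular

instance factPrime : Fact (Nat.Prime 5) := ⟨by norm_num⟩

def gens : List (ℕ × ℕ × ℕ × ℕ) := [(2, 0, 0, 3), (0, 4, 1, 0), (1, 2, 1, 3)]

def tcol : ℕ := 0x1101600700c00401001500600b00201301800900e00301201700800d00100500f00a014000
def tpar : ℕ := 0x1400901200600a00601500c00d01401100100a01800500300c01500500001400100a005000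
def tgen : ℕ := 0x2002002001000002000001002000002002002002000002002002002000001000001001000
def trank : ℕ := 0x3004004002002002003003003003004002002004001003003003001000003002002001000

def col2 (i : ℕ) : ℕ := Nat.land (Nat.shiftRight tcol (12 * i)) 4095
def par (i : ℕ) : ℕ := Nat.land (Nat.shiftRight tpar (12 * i)) 4095
def gidx (i : ℕ) : ℕ := Nat.land (Nat.shiftRight tgen (12 * i)) 4095
def rank (i : ℕ) : ℕ := Nat.land (Nat.shiftRight trank (12 * i)) 4095

set_option maxRecDepth 100000 in
theorem cert : check 5 gens col2 par gidx rank = true := by decide +kernel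

/-- An exceptional sharply doubly transitive group of degree 5^2: the listed matrices generate a subgroup of GL(2,5) of order 24 acting regularly on the non-zero vectors. -/
theorem result (A : Matrix.GeneralLinearGroup (Fin 2) (ZMod 5)) (B : Matrix.GeneralLinearGroup (Fin 2) (ZMod 5)) (C : Matrix.GeneralLinearGroup (Fin 2) (ZMod 5)) (hA : (A : Matrix (Fin 2) (Fin 2) (ZMod 5)) = !![2, 0; 0, -2]) (hB : (B : Matrix (Fin 2) (Fin 2) (ZMod 5)) = !![0, -1; 1, 0]) (hC : (C : Matrix (Fin 2) (Fin 2) (ZMod 5)) = !![1, 2; 1, -2]) : Nat.card (Subgroup.closure ({A, B, C} : Set (Matrix.GeneralLinearGroup (Fin 2) (ZMod 5)))) = 24 ∧ ∀ v w : Fin 2 → ZMod 5, v ≠ 0 → w ≠ 0 → ∃! h : Subgroup.closure ({A, B, C} : Set (Matrix.GeneralLinearGroup (Fin 2) (ZMod 5))), Matrix.mulVec ((h : Matrix.GeneralLinearGroup (Fin 2) (ZMod 5)) : Matrix (Fin 2) (Fin 2) (ZMod 5)) v = w := by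
  have hm0 : toMat 5 (2, 0, 0, 3) = !![2, 0; 0, -2] := by
    ext i j; fin_cases i <;> fin_cases j <;> simp [toMat] <;> decide +kernel
  have hm1 : toMat 5 (0, 4, 1, 0) = !![0, -1; 1, 0] := by
    ext i j; fin_cases i <;> fin_cases j <;> simp [toMat] <;> decide +kernel
  have hm2 : toMat 5 (1, 2, 1, 3) = !![1, 2; 1, -2] := by
    ext i j; fin_cases i <;> fin_cases j <;> simp [toMat] <;> decide +kernel
  have key := regular_of_check (p := 5) cert ({A, B, C} : Set (GL2 5))
    (by
      intro g hg
      rcases hg with rfl | rfl | rfl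
      · exact ⟨(2, 0, 0, 3), by simp [gens], hA.trans hm0.symm⟩
      · exact ⟨(0, 4, 1, 0), by simp [gens], hB.trans hm1.symm⟩
      · exact ⟨(1, 2, 1, 3), by simp [gens], hC.trans hm2.symm⟩
      )
    (by
      intro n hn
      simp only [gens, List.mem_cons, List.not_mem_nil, or_false] at hn
      rcases hn with rfl | rfl | rfl
      · exact ⟨A, by simp, hA.trans hm0.symm⟩
      · exact ⟨B, by simp, hB.trans hm1.symm⟩
      · exact ⟨C, by simp, hC.trans hm2.symm⟩
      )
  refine ⟨?_, key.2⟩
  rw [key.1]; norm_num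

end Cfsg.Agent.S0691
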