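import Cfsg.Statements.S0692
import Mathlib
import Cfsg.Agent.Lib.Compute.Gl2Regular
-- import your own Cfsg.Agent.* helpers here

set_option autoImplicit false
open Cfsg

namespace Cfsg.Agent.S0692

open Cfsg.Agent.Lib.Compute.Gl2Regular

instance factPrime : Fact (Nat.Prime 11) := ⟨by norm_num⟩

def gens : List (ℕ × ℕ × ℕ × ℕ) := [(0, 10, 1, 0), (2, 4, 1, 8)]

def tcol : ℕ := 0x7700c02c05203904405801a02506400a05006605e07103804300501802301503104f06505c07001903d02402f04500701200804205b05106300f03001702203b07606907403c04e04a05d00202a01101c02e06807305a00902703a03604801001b05604906206d05407501603302903700300e00403f05506004706b01402801f03507206f06106c00604104c01302601e03405302005f06a02104004b03204d07800d00100b04602d02b06701d05905703e06e000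
def tpar : ℕ := 0x6f06405905c00d03702d02201707100106e06505a04f04405901502306901a00201704c07605004500202c06101203c00303906301f04904602404e00a03400f00407300c05d05204704607002105600703100402e05801403e03d01902707801105302605000105406003e03b06501604b00704807202304d00903f03400e03806d01e06a01b06106f02b04003502a01f00b00901306d06205704207702802b02001500006e05f01003a06402004a07402500b000
def tgen : ℕ := 0x1001001000000000001000001000000000000001001000001001000001001001000000001001001001001000001001001001000001001001001000000000001000000000001001001001001001001001001001001000001000001000001001001001000001000001001001001000001001001001001000000001001001001001001000001001000000000000001000001000000000001001001000000000000000001001001001001001001001000000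
def trank : ℕ := 0x700800900c00700600800500200600200300a00c00400800900500b00900700500200800a00500c00500b00900b00800900900600c00b00400900c00400300b00800700600600a00500400300b00700a00700800900a00500600700b00800800900500c00500200c00b00600c00a00800700a00600900b00900700b00300800a00400a00500b00900700700a00600a00c00100700400400300a00800900a00700600500000300600a009008006007008004001000

def col2 (i : ℕ) : ℕ := Nat.land (Nat.shiftRight tcol (12 * i)) 4095
def par (i : ℕ) : ℕ := Nat.land (Nat.shiftRight tpar (12 * i)) 4095
def gidx (i : ℕ) : ℕ := Nat.land (Nat.shiftRight tgen (12 * i)) 4095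
def rank (i : ℕ) : ℕ := Nat.land (Nat.shiftRight trank (12 * i)) 4095

set_option maxRecDepth 100000 in
theorem cert : check 11 gens col2 par gidx rank = true := by decide +kernel

/-- An exceptional sharply doubly transitive group of degree 11^2: the listed matrices generate a subgroup of GL(2,11) of order 120 acting regularly on the non-zero vectors. -/
theorem result (A : Matrix.GeneralLinearGroup (Fin 2) (ZMod 11)) (B : Matrix.GeneralLinearGroup (Fin 2) (ZMod 11)) (hA : (A : Matrix (Fin 2) (Fin 2) (ZMod 11)) = !![0, -1; 1, 0]) (hB : (B : Matrix (Fin 2) (Fin 2) (ZMod 11)) = !![2, 4; 1, -3]) : Nat.card (Subgroup.closure ({A, B} : Set (Matrix.GeneralLinearGroup (Fin 2) (ZMod 11)))) = 120 ∧ ∀ v w : Fin 2 → ZMod 11, v ≠ 0 → w ≠ 0 → ∃! h : Subgroup.closure ({A, B} : Set (Matrix.GeneralLinearGroup (Fin 2) (ZMod 11))), Matrix.mulVec ((h : Matrix.GeneralLinearGroup (Fin 2) (ZMod 11)) : Matrix (Fin 2) (Fin 2) (ZMod 11)) v = w := by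
  have hm0 : toMat 11 (0, 10, 1, 0) = !![0, -1; 1, 0] := by
    ext i j; fin_cases i <;> fin_cases j <;> simp [toMat] <;> decide +kernel
  have hm1 : toMat 11 (2, 4, 1, 8) = !![2, 4; 1, -3] := by
    ext i j; fin_cases i <;> fin_cases j <;> simp [toMat] <;> decide +kernel
  have key := regular_of_check (p := 11) cert ({A, B} : Set (GL2 11))
    (by
      intro g hg
      rcases hg with rfl | rfl
      · exact ⟨(0, 10, 1, 0), by simp [gens], hA.trans hm0.symm⟩
      · exact ⟨(2, 4, 1, 8), by simp [gens], hB.trans hm1.symm⟩
      )
    (by
      intro n hn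
      simp only [gens, List.mem_cons, List.not_mem_nil, or_false] at hn
      rcases hn with rfl | rfl
      · exact ⟨A, by simp, hA.trans hm0.symm⟩
      · exact ⟨B, by simp, hB.trans hm1.symm⟩
      )
  refine ⟨?_, key.2⟩
  rw [key.1]; norm_num

end Cfsg.Agent.S0692
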