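import Cfsg.Statements.S0694
import Mathlib

set_option autoImplicit false
open Cfsg

namespace Cfsg.Agent.S0694

open Nat

lemma geom_modEq {A s : ℕ} (h : A ≡ 1 [MOD s]) (k : ℕ) :
    (∑ i ∈ Finset.range k, A ^ i) ≡ k [MOD s] := by
  induction k with
  | zero => simp; rfl
  | succ k ih =>
    rw [Finset.sum_range_succ]
    exact ih.add (by simpa using h.pow k)

lemma pow_sub_one_eq {A : ℕ} (hA : 1 ≤ A) (k : ℕ) :
    A ^ k - 1 = (∑ i ∈ Finset.range k, A ^ i) * (A - 1) := by
  have := geom_sum_mul_add (A - 1) k
  rw [Nat.sub_add_cancel hA] at this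
  omega

lemma dvd_sub_one_iff {A m : ℕ} (hA : 1 ≤ A) : A ≡ 1 [MOD m] ↔ m ∣ A - 1 := by
  constructor
  · intro h
    exact (Nat.modEq_iff_dvd' hA).mp h.symm
  · intro h
    exact ((Nat.modEq_iff_dvd' hA).mpr h).symm

lemma v_le_of_dvd {r a b : ℕ} [Fact r.Prime] (hb : b ≠ 0) (h : a ∣ b) :
    padicValNat r a ≤ padicValNat r b :=
  (padicValNat_dvd_iff_le hb).mp ((pow_padicValNat_dvd).trans h)

lemma dvd_of_v_le {a b : ℕ} (ha : a ≠ 0) (hb : b ≠ 0)
    (h : ∀ r : ℕ, r.Prime → padicValNat r a ≤ padicValNat r b) : a ∣ b := by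
  rw [← Nat.factorization_prime_le_iff_dvd ha hb]
  intro r hr
  haveI : Fact r.Prime := ⟨hr⟩
  rw [Nat.factorization_def _ hr, Nat.factorization_def _ hr]
  exact h r hr

/-- `r` odd, `r ∣ q - 1`: LTE. -/
lemma lte_odd {q r k : ℕ} [Fact r.Prime] (hq : 2 ≤ q) (hr : r ≠ 2) (hd : r ∣ q - 1) (hk : k ≠ 0) :
    padicValNat r (q ^ k - 1) = padicValNat r (q - 1) + padicValNat r k := by
  have hrp : r.Prime := Fact.out
  have hodd : Odd r := hrp.odd_of_ne_two hr
  have hnd : ¬ r ∣ q := by
    intro h
    have h1 : r ∣ q - (q - 1) := Nat.dvd_sub h hd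
    have h2 : q - (q - 1) = 1 := by omega
    rw [h2] at h1
    exact hrp.one_lt.ne' (Nat.dvd_one.mp h1)
  have := padicValNat.pow_sub_pow (p := r) hodd (x := q) (y := 1) (by omega) hd hnd hk
  rwa [one_pow] at this

/-- two-adic valuation for odd exponent. -/
lemma lte_two_odd {q k : ℕ} (hq : 2 ≤ q) (hq2 : ¬ 2 ∣ q) (hk : Odd k) :
    padicValNat 2 (q ^ k - 1) = padicValNat 2 (q - 1) := by
  have h1 : q ≡ 1 [MOD 2] := by
    have : q % 2 = 1 := by omega
    exact this
  have h2 := geom_modEq h1 k
  have h3 : ¬ 2 ∣ ∑ i ∈ Finset.range k, q ^ i := by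
    intro h
    have h4 : (∑ i ∈ Finset.range k, q ^ i) % 2 = k % 2 := h2
    obtain ⟨j, hj⟩ := hk
    omega
  rw [pow_sub_one_eq (by omega), mul_comm]
  haveI : Fact (Nat.Prime 2) := ⟨Nat.prime_two⟩
  have hne : ∑ i ∈ Finset.range k, q ^ i ≠ 0 := by
    intro h
    apply h3
    rw [h]; exact dvd_zero 2
  rw [padicValNat.mul (by omega) hne, padicValNat.eq_zero_of_not_dvd h3, add_zero]

/-- The Dickson pair condition: for a prime power `q` and `n > 1`, (every prime factor of `n` divides `q - 1`, and `4 ∣ n → 4 ∣ q - 1`) holds exactly when `q ^ n ≡ 1` modulo `n * (q - 1)` but `q ^ i` is not, for `0 < i < n`. -/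
theorem result (q n : ℕ) (hq : IsPrimePow q) (hn : 1 < n) : ((∀ r : ℕ, r.Prime → r ∣ n → r ∣ q - 1) ∧ (4 ∣ n → 4 ∣ q - 1)) ↔ (q ^ n ≡ 1 [MOD n * (q - 1)] ∧ ∀ i : ℕ, 0 < i → i < n → ¬ q ^ i ≡ 1 [MOD n * (q - 1)]) := by
  classical
  have hq2 : 2 ≤ q := hq.two_le
  have hq1 : q - 1 ≠ 0 := by omega
  have hn0 : n ≠ 0 := by omega
  have hm0 : n * (q - 1) ≠ 0 := mul_ne_zero hn0 hq1
  have hpow1 : ∀ i, 1 ≤ q ^ i := fun i => Nat.one_le_pow _ _ (by omega)
  have hpown : ∀ i, i ≠ 0 → q ^ i - 1 ≠ 0 := by
    intro i hi
    have : 2 ^ 1 ≤ q ^ i := by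
      calc 2 ^ 1 ≤ q ^ 1 := Nat.pow_le_pow_left hq2 1
        _ ≤ q ^ i := Nat.pow_le_pow_right (by omega) (by omega)
    omega
  have hqd : ∀ i, q - 1 ∣ q ^ i - 1 := by
    intro i
    have := Nat.sub_dvd_pow_sub_pow q 1 i
    rwa [one_pow] at this
  have hvm : ∀ r [Fact r.Prime], padicValNat r (n * (q - 1)) = padicValNat r n + padicValNat r (q - 1) :=
    fun r _ => padicValNat.mul hn0 hq1
  constructor
  · rintro ⟨H1, H2⟩
    -- forward
    have hF1 : n * (q - 1) ∣ q ^ n - 1 := by
      apply dvd_of_v_le hm0 (hpown n hn0)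
      intro r hr
      haveI : Fact r.Prime := ⟨hr⟩
      rw [hvm r]
      by_cases hrn : r ∣ n
      · have hrq := H1 r hr hrn
        by_cases hr2 : r = 2
        · subst hr2
          have hqodd : ¬ 2 ∣ q := by omega
          have := padicValNat.pow_two_sub_one (x := q) (n := n) (by omega) hqodd hn0 (even_iff_two_dvd.mpr hrn)
          have hv : 1 ≤ padicValNat 2 (q + 1) := by
            apply one_le_padicValNat_of_dvd (by omega)
            omega
          omega
        · rw [lte_odd hq2 hr2 hrq hn0]
          omega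
      · rw [padicValNat.eq_zero_of_not_dvd hrn, zero_add]
        exact v_le_of_dvd (hpown n hn0) (hqd n)
    refine ⟨(dvd_sub_one_iff (hpow1 n)).mpr hF1, ?_⟩
    intro i hi0 hin hcong
    -- reduce to gcd in ZMod
    have hz1 : ((q : ZMod (n * (q - 1)))) ^ i = 1 := by
      have := (ZMod.natCast_eq_natCast_iff _ _ _).mpr hcong
      simpa using this
    have hz2 : ((q : ZMod (n * (q - 1)))) ^ n = 1 := by
      have := (ZMod.natCast_eq_natCast_iff _ _ _).mpr ((dvd_sub_one_iff (hpow1 n)).mpr hF1)
      simpa using this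
    have hz3 : ((q : ZMod (n * (q - 1)))) ^ (i.gcd n) = 1 := pow_gcd_eq_one.mpr ⟨hz1, hz2⟩
    set d := i.gcd n with hd
    have hdn : d ∣ n := Nat.gcd_dvd_right i n
    have hdpos : 0 < d := Nat.gcd_pos_of_pos_left n hi0
    have hdlt : d < n := lt_of_le_of_lt (Nat.le_of_dvd hi0 (Nat.gcd_dvd_left i n)) hin
    obtain ⟨e, he⟩ := hdn
    have he1 : e ≠ 1 := by
      rintro rfl
      omega
    obtain ⟨r, hr, hre⟩ := Nat.exists_prime_and_dvd he1
    haveI : Fact r.Prime := ⟨hr⟩
    obtain ⟨f, hf⟩ := hre
    have hrn : r ∣ n := ⟨d * f, by rw [he, hf]; ring⟩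
    have hk : n = r * (d * f) := by rw [he, hf]; ring
    set k := d * f with hkdef
    have hk0 : k ≠ 0 := by
      intro h
      rw [h] at hk
      omega
    have hzk : ((q : ZMod (n * (q - 1)))) ^ k = 1 := by
      rw [hkdef, pow_mul, hz3, one_pow]
    have hkd : n * (q - 1) ∣ q ^ k - 1 := by
      apply (dvd_sub_one_iff (hpow1 k)).mp
      apply (ZMod.natCast_eq_natCast_iff _ _ _).mp
      simpa using hzk
    have hv := v_le_of_dvd (r := r) (hpown k hk0) hkd
    rw [hvm r] at hv
    have hvn : padicValNat r n = 1 + padicValNat r k := by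
      rw [hk, padicValNat.mul hr.ne_zero hk0, padicValNat_self]
    rw [hvn] at hv
    have hrq := H1 r hr hrn
    by_cases hr2 : r = 2
    · subst hr2
      have hqodd : ¬ 2 ∣ q := by omega
      by_cases hke : Even k
      · -- 4 ∣ n
        have h4 : 4 ∣ n := by
          obtain ⟨j, hj⟩ := hke
          rw [hk, hj]
          exact ⟨j, by ring⟩
        have h4q := H2 h4
        have hlte := padicValNat.pow_two_sub_one (x := q) (n := k) (by omega) hqodd hk0 hke
        have hv1 : padicValNat 2 (q + 1) = 1 := by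
          have h5 : q + 1 = 2 * ((q + 1) / 2) := by omega
          have h6 : ¬ 2 ∣ (q + 1) / 2 := by omega
          rw [h5, padicValNat.mul (by norm_num) (by omega), padicValNat_self,
            padicValNat.eq_zero_of_not_dvd h6]
        omega
      · have hkodd : Odd k := Nat.not_even_iff_odd.mp hke
        rw [lte_two_odd hq2 hqodd hkodd] at hv
        omega
    · rw [lte_odd hq2 hr2 hrq hk0] at hv
      omega
  · rintro ⟨hE, hN⟩
    have hE' : n * (q - 1) ∣ q ^ n - 1 := (dvd_sub_one_iff (hpow1 n)).mp hE
    -- every prime divisor of n divides q - 1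
    have hB1 : ∀ r : ℕ, r.Prime → r ∣ n → r ∣ q - 1 := by
      by_contra hcon
      push Not at hcon
      -- the largest counterexample
      have hne : (n.primeFactors.filter (fun r => ¬ r ∣ q - 1)).Nonempty := by
        obtain ⟨r, hr, hrn, hrq⟩ := hcon
        exact ⟨r, Finset.mem_filter.mpr ⟨Nat.mem_primeFactors.mpr ⟨hr, hrn, hn0⟩, hrq⟩⟩
      set r := (n.primeFactors.filter (fun r => ¬ r ∣ q - 1)).max' hne with hrdef
      have hrmem := Finset.max'_mem _ hne
      rw [← hrdef, Finset.mem_filter, Nat.mem_primeFactors] at hrmem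
      obtain ⟨⟨hr, hrn, -⟩, hrq⟩ := hrmem
      have hmax : ∀ s : ℕ, s.Prime → s ∣ n → ¬ s ∣ q - 1 → s ≤ r := by
        intro s hs hsn hsq
        apply Finset.le_max'
        exact Finset.mem_filter.mpr ⟨Nat.mem_primeFactors.mpr ⟨hs, hsn, hn0⟩, hsq⟩
      haveI : Fact r.Prime := ⟨hr⟩
      obtain ⟨a, n', hn'r, hnn⟩ := Nat.exists_eq_pow_mul_and_not_dvd hn0 r hr.ne_one
      have ha0 : a ≠ 0 := by
        rintro rfl
        rw [pow_zero, one_mul] at hnn
        rw [hnn] at hrn
        exact hn'r hrn
      obtain ⟨b, rfl⟩ : ∃ b, a = b + 1 := ⟨a - 1, by omega⟩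
      have hn'0 : n' ≠ 0 := by
        rintro rfl
        exact hn'r (dvd_zero r)
      set k := r ^ b * n' with hkdef
      have hnk : n = r * k := by rw [hnn, hkdef]; ring
      have hk0 : k ≠ 0 := mul_ne_zero (pow_ne_zero _ hr.ne_zero) hn'0
      have hklt : k < n := by
        rw [hnk]
        have : 2 * k ≤ r * k := Nat.mul_le_mul_right k hr.two_le
        omega
      set A := q ^ k with hA
      have hA1 : 1 ≤ A := hpow1 k
      set m' := n' * (q - 1) with hm'
      have hmm : n * (q - 1) = r ^ (b + 1) * m' := by rw [hm', hnn]; ring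
      have hrm' : ¬ r ∣ m' := by
        intro h
        rcases (Nat.Prime.dvd_mul hr).mp h with h1 | h1
        · exact hn'r h1
        · exact hrq h1
      have hcopm : Nat.Coprime (r ^ (b + 1)) m' :=
        Nat.Coprime.pow_left _ ((Nat.Prime.coprime_iff_not_dvd hr).mpr hrm')
      -- (i)
      have hi : r ^ (b + 1) ∣ A - 1 := by
        have hrm : r ^ (b + 1) ∣ q ^ n - 1 := (Dvd.intro _ hmm.symm).trans hE'
        have hrq' : ¬ r ∣ q := by
          intro h
          have h1 : r ∣ q ^ n := dvd_pow h hn0
          have h2 : r ∣ q ^ n - 1 := (dvd_pow_self r (Nat.succ_ne_zero b)).trans hrm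
          have h3 : r ∣ q ^ n - (q ^ n - 1) := Nat.dvd_sub h1 h2
          have h4 : q ^ n - (q ^ n - 1) = 1 := by
            have := hpow1 n
            omega
          rw [h4] at h3
          exact hr.one_lt.ne' (Nat.dvd_one.mp h3)
        have hcq : Nat.Coprime q (r ^ (b + 1)) :=
          Nat.Coprime.pow_right _ ((Nat.Prime.coprime_iff_not_dvd hr).mpr hrq').symm
        have hφ := Nat.ModEq.pow_totient hcq
        rw [Nat.totient_prime_pow_succ hr b] at hφ
        have hz1 : ((q : ZMod (r ^ (b + 1)))) ^ (r ^ b * (r - 1)) = 1 := by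
          have := (ZMod.natCast_eq_natCast_iff _ _ _).mpr hφ
          simpa using this
        have hz2 : ((q : ZMod (r ^ (b + 1)))) ^ n = 1 := by
          have := (ZMod.natCast_eq_natCast_iff _ _ _).mpr ((dvd_sub_one_iff (hpow1 n)).mpr hrm)
          simpa using this
        have hz3 := pow_gcd_eq_one.mpr ⟨hz1, hz2⟩
        have hgcd : (r ^ b * (r - 1)).gcd n ∣ k := by
          have e1 : n = r ^ b * (r * n') := by rw [hnn]; ring
          rw [e1, Nat.gcd_mul_left, hkdef]
          apply Nat.mul_dvd_mul_left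
          have hcop : Nat.Coprime (r - 1) r := by
            have : Nat.Coprime r (r - 1) := by
              apply (Nat.coprime_self_sub_right (by have := hr.one_lt; omega)).mpr
              simp
            exact this.symm
          exact (hcop.coprime_dvd_left (Nat.gcd_dvd_left _ _)).dvd_of_dvd_mul_left (Nat.gcd_dvd_right _ _)
        obtain ⟨c, hc⟩ := hgcd
        have hz4 : ((q : ZMod (r ^ (b + 1)))) ^ k = 1 := by
          rw [hc, pow_mul, hz3, one_pow]
        apply (dvd_sub_one_iff hA1).mp
        apply (ZMod.natCast_eq_natCast_iff _ _ _).mp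
        simpa [hA] using hz4
      -- (ii)
      have hii : m' ∣ A - 1 := by
        set B := ∑ i ∈ Finset.range r, A ^ i with hB
        have hAr : A ^ r - 1 = B * (A - 1) := pow_sub_one_eq hA1 r
        have hAn : A ^ r = q ^ n := by
          rw [hA, ← pow_mul, hnk, mul_comm]
        have hdvd : m' ∣ B * (A - 1) := by
          rw [← hAr, hAn]
          exact (Dvd.intro_left _ hmm.symm).trans hE'
        have hcop : Nat.Coprime m' B := by
          apply Nat.coprime_of_dvd
          intro s hs hsm hsB
          haveI : Fact s.Prime := ⟨hs⟩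
          have hsr : s ≠ r := by
            intro h
            rw [h] at hsm
            exact hrm' hsm
          have hsAr : s ∣ A ^ r - 1 := by rw [hAr]; exact Dvd.dvd.mul_right hsB _
          have hxr : ((A : ZMod s)) ^ r = 1 := by
            have := (ZMod.natCast_eq_natCast_iff _ _ _).mpr
              ((dvd_sub_one_iff (Nat.one_le_pow _ _ (by omega))).mpr hsAr)
            simpa using this
          by_cases hx1 : (A : ZMod s) = 1
          · have h1 : A ≡ 1 [MOD s] := by
              apply (ZMod.natCast_eq_natCast_iff _ _ _).mp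
              simpa using hx1
            have h2 := geom_modEq h1 r
            have h3 : s ∣ r := by
              have := (Nat.modEq_zero_iff_dvd.mpr hsB)
              exact Nat.modEq_zero_iff_dvd.mp (h2.symm.trans this)
            exact hsr ((Nat.prime_dvd_prime_iff_eq hs hr).mp h3)
          · have hord : orderOf (A : ZMod s) = r := orderOf_eq_prime hxr hx1
            have hx0 : (A : ZMod s) ≠ 0 := by
              intro h0
              rw [h0, zero_pow hr.ne_zero] at hxr
              exact zero_ne_one hxr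
            have hfer := ZMod.pow_card_sub_one_eq_one hx0
            have hrs : r ∣ s - 1 := by
              rw [← hord]
              exact orderOf_dvd_of_pow_eq_one hfer
            have hrlt : r < s := by
              have := Nat.le_of_dvd (by have := hs.two_le; omega) hrs
              have := hs.two_le
              omega
            rcases (Nat.Prime.dvd_mul hs).mp hsm with h1 | h1
            · have h2 : s ∣ n := by rw [hnn]; exact Dvd.dvd.mul_left h1 _
              by_cases h3 : s ∣ q - 1
              · apply hx1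
                have h4 : q ≡ 1 [MOD s] := (dvd_sub_one_iff (by omega)).mpr h3
                have h5 := h4.pow k
                rw [one_pow] at h5
                have := (ZMod.natCast_eq_natCast_iff _ _ _).mpr h5
                simpa [hA] using this
              · have := hmax s hs h2 h3
                omega
            · apply hx1
              have h4 : q ≡ 1 [MOD s] := (dvd_sub_one_iff (by omega)).mpr h1
              have h5 := h4.pow k
              rw [one_pow] at h5
              have := (ZMod.natCast_eq_natCast_iff _ _ _).mpr h5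
              simpa [hA] using this
        exact hcop.dvd_of_dvd_mul_left hdvd
      have hfin : n * (q - 1) ∣ A - 1 := by
        rw [hmm]
        exact Nat.Coprime.mul_dvd_of_dvd_of_dvd hcopm hi hii
      exact hN k (Nat.pos_of_ne_zero hk0) hklt ((dvd_sub_one_iff hA1).mpr hfin)
    refine ⟨hB1, ?_⟩
    intro h4
    by_contra h4q
    have h2n : 2 ∣ n := (by norm_num : 2 ∣ 4).trans h4
    have h2q := hB1 2 Nat.prime_two h2n
    have hqodd : ¬ 2 ∣ q := by omega
    obtain ⟨k, hk⟩ := h2n
    have hk2 : 2 ∣ k := by omega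
    have hk0 : k ≠ 0 := by omega
    have hklt : k < n := by omega
    have hfin : n * (q - 1) ∣ q ^ k - 1 := by
      apply dvd_of_v_le hm0 (hpown k hk0)
      intro s hs
      haveI : Fact s.Prime := ⟨hs⟩
      rw [hvm s]
      by_cases hsn : s ∣ n
      · by_cases hs2 : s = 2
        · subst hs2
          have hlte := padicValNat.pow_two_sub_one (x := q) (n := k) (by omega) hqodd hk0 (even_iff_two_dvd.mpr hk2)
          have hvn : padicValNat 2 n = 1 + padicValNat 2 k := by
            rw [hk, padicValNat.mul (by norm_num) hk0, padicValNat_self]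
          have hv1 : padicValNat 2 (q - 1) = 1 := by
            have h5 : q - 1 = 2 * ((q - 1) / 2) := by omega
            have h6 : ¬ 2 ∣ (q - 1) / 2 := by omega
            rw [h5, padicValNat.mul (by norm_num) (by omega), padicValNat_self,
              padicValNat.eq_zero_of_not_dvd h6]
          have hv2 : 2 ≤ padicValNat 2 (q + 1) := by
            apply (padicValNat_dvd_iff_le (by omega)).mp
            omega
          omega
        · have hsq := hB1 s hs hsn
          rw [lte_odd hq2 hs2 hsq hk0]
          have hvn : padicValNat s n = padicValNat s k := by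
            have hnd : ¬ s ∣ 2 := by
              intro h
              exact hs2 ((Nat.prime_dvd_prime_iff_eq hs Nat.prime_two).mp h)
            rw [hk, padicValNat.mul (by norm_num) hk0, padicValNat.eq_zero_of_not_dvd hnd, zero_add]
          omega
      · rw [padicValNat.eq_zero_of_not_dvd hsn, zero_add]
        exact v_le_of_dvd (hpown k hk0) (hqd k)
    exact hN k (by omega) hklt ((dvd_sub_one_iff (hpow1 k)).mpr hfin)

end Cfsg.Agent.S0694
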