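import Cfsg.Statements.S0695
import Mathlib
-- import your own Cfsg.Agent.* helpers here

set_option autoImplicit false
open Cfsg

namespace Cfsg.Agent.S0695

open MulAction
open scoped Pointwise

/-- Structure of a regular normal subgroup of a 2-transitive action. -/
theorem core {G : Type*} [Group G] {X : Type*} [Fintype X] [MulAction G X]
    (hX : 2 ≤ Fintype.card X)
    (htwo : ∀ {a b c d : X}, a ≠ b → c ≠ d → ∃ g : G, g • a = c ∧ g • b = d)
    (N : Subgroup G) [hNn : N.Normal] (htrans : IsPretransitive N X)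
    (hreg : ∀ x : X, stabilizer N x = ⊥) :
    ∃ p : ℕ, p.Prime ∧ (∀ n ∈ N, n ^ p = 1) ∧ (∀ a ∈ N, ∀ b ∈ N, a * b = b * a) ∧
      ∃ m : ℕ, Fintype.card X = p ^ m := by
  classical
  haveI hnt : Nontrivial X := Fintype.one_lt_card_iff_nontrivial.mp (by omega)
  obtain ⟨x⟩ : Nonempty X := inferInstance
  have hinj : ∀ a ∈ N, ∀ b ∈ N, a • x = b • x → a = b := by
    intro a ha b hb hab
    have h1 : ((⟨b, hb⟩ : N)⁻¹ * ⟨a, ha⟩) ∈ stabilizer N x := by
      rw [mem_stabilizer_iff, mul_smul]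
      show (⟨b, hb⟩ : N)⁻¹ • (a • x) = x
      rw [hab]
      exact inv_smul_smul (⟨b, hb⟩ : N) x
    rw [hreg x, Subgroup.mem_bot] at h1
    have h2 : (⟨a, ha⟩ : N) = ⟨b, hb⟩ := by
      rw [inv_mul_eq_one] at h1
      exact h1.symm
    exact congrArg Subtype.val h2
  have hfix : ∀ a ∈ N, a ≠ 1 → a • x ≠ x := by
    intro a ha hne h
    exact hne (hinj a ha 1 N.one_mem (by simpa using h))
  let φ : N → X := fun n => n • x
  have hφinj : Function.Injective φ := by
    intro a b hab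
    exact Subtype.ext (hinj a a.prop b b.prop hab)
  have hφsurj : Function.Surjective φ := fun y => exists_smul_eq N x y
  haveI : Finite N := Finite.of_injective φ hφinj
  have hcardN : Nat.card N = Fintype.card X := by
    rw [← Nat.card_eq_fintype_card]
    exact Nat.card_congr (Equiv.ofBijective φ ⟨hφinj, hφsurj⟩)
  have hconj : ∀ a ∈ N, ∀ b ∈ N, a ≠ 1 → b ≠ 1 → ∃ g : G, g * a * g⁻¹ = b := by
    intro a ha b hb ha1 hb1
    obtain ⟨g, hg1, hg2⟩ := htwo (a := x) (b := a • x) (c := x) (d := b • x)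
      (hfix a ha ha1).symm (hfix b hb hb1).symm
    refine ⟨g, hinj _ (hNn.conj_mem a ha g) b hb ?_⟩
    have h3 : g⁻¹ • x = x := by
      rw [inv_smul_eq_iff, hg1]
    rw [mul_smul, mul_smul, h3, hg2]
  -- a nontrivial element
  obtain ⟨n₀, hn₀⟩ : ∃ n₀ : N, n₀ ≠ 1 := by
    haveI : Nontrivial N := by
      rw [← Finite.one_lt_card_iff_nontrivial, hcardN]
      omega
    exact exists_ne 1
  have hn₀' : (n₀ : G) ≠ 1 := fun h => hn₀ (Subtype.ext h)
  have hord : orderOf n₀ ≠ 1 := by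
    rw [Ne, orderOf_eq_one_iff]
    exact hn₀
  let p := (orderOf n₀).minFac
  have hp : p.Prime := Nat.minFac_prime hord
  haveI : Fact p.Prime := ⟨hp⟩
  have hpdvd : p ∣ orderOf n₀ := Nat.minFac_dvd _
  let t : N := n₀ ^ (orderOf n₀ / p)
  have htord : orderOf t = p := orderOf_pow_orderOf_div (orderOf_pos n₀).ne' hpdvd
  have ht1 : (t : G) ≠ 1 := by
    intro h
    have : t = 1 := Subtype.ext h
    rw [this, orderOf_one] at htord
    exact hp.one_lt.ne htord
  have htp : (t : G) ^ p = 1 := by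
    have : t ^ p = 1 := by
      rw [← htord]
      exact pow_orderOf_eq_one t
    simpa using congrArg Subtype.val this
  have hexp : ∀ n ∈ N, n ^ p = 1 := by
    intro n hn
    by_cases hn1 : n = 1
    · simp [hn1]
    · obtain ⟨g, hg⟩ := hconj (t : G) t.prop n hn ht1 hn1
      rw [← hg, conj_pow, htp]
      group
  have hpg : IsPGroup p N := fun g => ⟨1, by
    apply Subtype.ext
    simpa using hexp g g.prop⟩
  haveI : Nontrivial N := ⟨⟨n₀, 1, hn₀⟩⟩
  haveI := hpg.center_nontrivial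
  obtain ⟨z, hz⟩ := exists_ne (1 : Subgroup.center N)
  have hz1 : ((z : N) : G) ≠ 1 := by
    intro h
    apply hz
    exact Subtype.ext (Subtype.ext h)
  have hcomm : ∀ a ∈ N, ∀ b ∈ N, a * b = b * a := by
    intro a ha b hb
    by_cases ha1 : a = 1
    · simp [ha1]
    obtain ⟨g, hg⟩ := hconj ((z : N) : G) (z : N).prop a ha hz1 ha1
    have hb' : g⁻¹ * b * g ∈ N := by
      have := hNn.conj_mem b hb g⁻¹
      simpa using this
    have h4 := (Subgroup.mem_center_iff.mp z.prop) ⟨_, hb'⟩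
    have h5 : (g⁻¹ * b * g) * ((z : N) : G) = ((z : N) : G) * (g⁻¹ * b * g) :=
      congrArg Subtype.val h4
    rw [← hg]
    calc g * ((z : N) : G) * g⁻¹ * b = g * (((z : N) : G) * (g⁻¹ * b * g)) * g⁻¹ := by group
      _ = g * ((g⁻¹ * b * g) * ((z : N) : G)) * g⁻¹ := by rw [h5]
      _ = b * (g * ((z : N) : G) * g⁻¹) := by group
  obtain ⟨m, hm⟩ := IsPGroup.iff_card.mp hpg
  exact ⟨p, hp, hexp, hcomm, m, by rw [← hcardN, hm]⟩

/-- A regular normal subgroup of a doubly primitive group of finite degree at least 2 is an elementary abelian 2-group (and the degree is a power of 2), unless the degree is 3. -/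
theorem result {G : Type*} [Group G] {X : Type*} [Fintype X] [MulAction G X] (hX : 2 ≤ Fintype.card X) (h2 : MulAction.IsMultiplyPreprimitive G X 2) (N : Subgroup G) [N.Normal] (htrans : MulAction.IsPretransitive N X) (hreg : ∀ x : X, MulAction.stabilizer N x = ⊥) : Fintype.card X = 3 ∨ (IsMulCommutative N ∧ (∀ n ∈ N, n ^ 2 = 1) ∧ ∃ m : ℕ, Fintype.card X = 2 ^ m) := by
  classical
  haveI := h2
  have hNn' := ‹N.Normal›.conj_mem
  haveI hm2 : IsMultiplyPretransitive G X 2 := IsMultiplyPreprimitive.isMultiplyPretransitive G X 2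
  have htwo : ∀ {a b c d : X}, a ≠ b → c ≠ d → ∃ g : G, g • a = c ∧ g • b = d :=
    is_two_pretransitive_iff.mp hm2
  obtain ⟨p, hp, hexp, hcomm, m, hm⟩ := core hX htwo N htrans hreg
  by_cases hp2 : p = 2
  · right
    subst hp2
    exact ⟨⟨⟨fun a b => Subtype.ext (hcomm a a.prop b b.prop)⟩⟩, hexp, m, hm⟩
  left
  haveI hnt : Nontrivial X := Fintype.one_lt_card_iff_nontrivial.mp (by omega)
  obtain ⟨x⟩ : Nonempty X := inferInstance
  haveI : IsPretransitive G X := isPretransitive_of_is_two_pretransitive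
  have hprim : IsPreprimitive (stabilizer G x) (SubMulAction.ofStabilizer G x) :=
    (is_one_preprimitive_iff _ _).mp (isMultiplyPreprimitive_ofStabilizer G X (n := 1) (a := x))
  have hinj : ∀ a ∈ N, ∀ b ∈ N, a • x = b • x → a = b := by
    intro a ha b hb hab
    have h1 : ((⟨b, hb⟩ : N)⁻¹ * ⟨a, ha⟩) ∈ stabilizer N x := by
      rw [mem_stabilizer_iff, mul_smul]
      show (⟨b, hb⟩ : N)⁻¹ • (a • x) = x
      rw [hab]
      exact inv_smul_smul (⟨b, hb⟩ : N) x
    rw [hreg x, Subgroup.mem_bot] at h1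
    have h2 : (⟨a, ha⟩ : N) = ⟨b, hb⟩ := by
      rw [inv_mul_eq_one] at h1
      exact h1.symm
    exact congrArg Subtype.val h2
  have hfix : ∀ a ∈ N, a ≠ 1 → a • x ≠ x := by
    intro a ha hne h
    exact hne (hinj a ha 1 N.one_mem (by simpa using h))
  -- a nontrivial element of `N`
  obtain ⟨y, hy⟩ := exists_ne x
  obtain ⟨n', hn'⟩ := exists_smul_eq N x y
  set n : G := (n' : G) with hn_def
  have hnN : n ∈ N := n'.prop
  have hnx : n • x = y := hn'
  have hn1 : n ≠ 1 := by
    intro h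
    rw [h, one_smul] at hnx
    exact hy hnx.symm
  have hninv : n⁻¹ ∈ N := N.inv_mem hnN
  have hinv1 : n⁻¹ ≠ 1 := by
    simpa using hn1
  have hnne : n ≠ n⁻¹ := by
    intro h
    have h2 : n ^ 2 = 1 := by
      rw [pow_two]
      nth_rewrite 2 [h]
      simp
    have h3 : n ^ p = 1 := hexp n hnN
    have hc : Nat.Coprime 2 p := by
      rw [Nat.coprime_primes Nat.prime_two hp]
      exact fun h => hp2 h.symm
    have h4 := (pow_gcd_eq_one (a := n) (m := 2) (n := p)).mpr ⟨h2, h3⟩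
    rw [hc.gcd_eq_one, pow_one] at h4
    exact hn1 h4
  let B : Set (SubMulAction.ofStabilizer G x) := {w | w.val = n • x ∨ w.val = n⁻¹ • x}
  have hmemsmul : ∀ (g : stabilizer G x) (w : SubMulAction.ofStabilizer G x),
      w ∈ g • B ↔ w.val = ((g : G) * n * (g : G)⁻¹) • x ∨ w.val = ((g : G) * n⁻¹ * (g : G)⁻¹) • x := by
    intro g w
    have hgx : (g : G) • x = x := g.prop
    have hgx' : (g : G)⁻¹ • x = x := by
      rw [inv_smul_eq_iff, hgx]
    rw [Set.mem_smul_set_iff_inv_smul_mem]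
    show (g⁻¹ • w).val = n • x ∨ (g⁻¹ • w).val = n⁻¹ • x ↔ _
    have h1 : (g⁻¹ • w).val = (g : G)⁻¹ • w.val := rfl
    rw [h1, mul_smul, mul_smul, mul_smul, mul_smul, hgx', inv_smul_eq_iff, inv_smul_eq_iff]
  have hB : IsBlock (stabilizer G x) B := by
    rw [isBlock_iff_smul_eq_or_disjoint]
    intro g
    by_cases hdisj : Disjoint (g • B) B
    · exact Or.inr hdisj
    left
    obtain ⟨w, hw1, hw2⟩ := Set.not_disjoint_iff.mp hdisj
    rw [hmemsmul] at hw1
    set h : G := (g : G) * n * (g : G)⁻¹ with hh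
    have hhN : h ∈ N := hNn' n hnN g
    have hh' : (g : G) * n⁻¹ * (g : G)⁻¹ = h⁻¹ := by
      rw [hh]; group
    rw [hh'] at hw1
    have hhinv : h⁻¹ ∈ N := N.inv_mem hhN
    have hcases : h = n ∨ h = n⁻¹ := by
      rcases hw1 with h1 | h1 <;> rcases hw2 with h2 | h2
      · exact Or.inl (hinj h hhN n hnN (h1.symm.trans h2))
      · exact Or.inr (hinj h hhN n⁻¹ hninv (h1.symm.trans h2))
      · exact Or.inr (by
          have := hinj h⁻¹ hhinv n hnN (h1.symm.trans h2)
          rw [← this, inv_inv])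
      · exact Or.inl (by
          have := hinj h⁻¹ hhinv n⁻¹ hninv (h1.symm.trans h2)
          exact inv_injective this)
    ext w
    rw [hmemsmul, hh']
    show w.val = h • x ∨ w.val = h⁻¹ • x ↔ w.val = n • x ∨ w.val = n⁻¹ • x
    rcases hcases with h1 | h1
    · rw [h1]
    · rw [h1, inv_inv, or_comm]
  have hnxne : n • x ≠ x := hfix n hnN hn1
  have hnxne' : n⁻¹ • x ≠ x := hfix n⁻¹ hninv hinv1
  have hnxne2 : n • x ≠ n⁻¹ • x := fun h => hnne (hinj n hnN n⁻¹ hninv h)
  have huniv : B = Set.univ := by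
    rcases hprim.isTrivialBlock_of_isBlock hB with hs | hu
    · exfalso
      have h1 : (⟨n • x, hnxne⟩ : SubMulAction.ofStabilizer G x) ∈ B := Or.inl rfl
      have h2 : (⟨n⁻¹ • x, hnxne'⟩ : SubMulAction.ofStabilizer G x) ∈ B := Or.inr rfl
      have := hs h1 h2
      exact hnxne2 (congrArg Subtype.val this)
    · exact hu
  rw [← Finset.card_univ, Finset.card_eq_three]
  refine ⟨x, n • x, n⁻¹ • x, hnxne.symm, hnxne'.symm, hnxne2, ?_⟩
  ext w
  simp only [Finset.mem_univ, Finset.mem_insert, Finset.mem_singleton, true_iff]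
  by_cases hwx : w = x
  · exact Or.inl hwx
  · right
    have : (⟨w, hwx⟩ : SubMulAction.ofStabilizer G x) ∈ B := by
      rw [huniv]
      exact Set.mem_univ _
    exact this

end Cfsg.Agent.S0695
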