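import Cfsg.Statements.S0696
import Mathlib
import Cfsg.Agent.S0695

set_option autoImplicit false
open Cfsg

namespace Cfsg.Agent.S0696

open MulAction
open scoped Pointwise

/-- A triply primitive group of degree at least 3 having a regular normal subgroup has degree 3 or 4. -/
theorem result {G : Type*} [Group G] {X : Type*} [Fintype X] [MulAction G X] (hX : 3 ≤ Fintype.card X) (h3 : MulAction.IsMultiplyPreprimitive G X 3) (N : Subgroup G) [N.Normal] (htrans : MulAction.IsPretransitive N X) (hreg : ∀ x : X, MulAction.stabilizer N x = ⊥) : Fintype.card X = 3 ∨ Fintype.card X = 4 := by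
  classical
  haveI := h3
  have hcard3 : ((3 : ℕ) : ℕ∞) ≤ ENat.card X := by
    rw [ENat.card_eq_coe_fintype_card]
    exact_mod_cast hX
  have h2 : IsMultiplyPreprimitive G X 2 :=
    isMultiplyPreprimitive_of_le G X h3 (by norm_num) hcard3
  rcases Cfsg.Agent.S0695.result (by omega) h2 N htrans hreg with h | ⟨hcomm, hexp, m, hm⟩
  · exact Or.inl h
  right
  have hinj : ∀ a ∈ N, ∀ b ∈ N, ∀ x : X, a • x = b • x → a = b := by
    intro a ha b hb x hab
    have h1 : ((⟨b, hb⟩ : N)⁻¹ * ⟨a, ha⟩) ∈ stabilizer N x := by
      rw [mem_stabilizer_iff, mul_smul]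
      show (⟨b, hb⟩ : N)⁻¹ • (a • x) = x
      rw [hab]
      exact inv_smul_smul (⟨b, hb⟩ : N) x
    rw [hreg x, Subgroup.mem_bot] at h1
    have h2 : (⟨a, ha⟩ : N) = ⟨b, hb⟩ := by
      rw [inv_mul_eq_one] at h1
      exact h1.symm
    exact congrArg Subtype.val h2
  haveI hnt : Nontrivial X := Fintype.one_lt_card_iff_nontrivial.mp (by omega)
  obtain ⟨x⟩ : Nonempty X := inferInstance
  obtain ⟨y, hy⟩ := exists_ne x
  obtain ⟨v', hv'⟩ := exists_smul_eq N x y
  set v : G := (v' : G) with hv_def
  have hvN : v ∈ N := v'.prop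
  have hvx : v • x = y := hv'
  have hv1 : v ≠ 1 := by
    intro h
    rw [h, one_smul] at hvx
    exact hy hvx.symm
  have hv2 : v * v = 1 := by
    have := hexp v hvN
    rwa [pow_two] at this
  have hvv : ∀ w : X, v • (v • w) = w := by
    intro w
    rw [← mul_smul, hv2, one_smul]
  have hvne : ∀ w : X, v • w ≠ w := by
    intro w h
    exact hv1 (hinj v hvN 1 N.one_mem w (by simpa using h))
  let s : Set X := {x, y}
  have hs : s.encard + 1 = ((3 : ℕ) : ℕ∞) := by
    rw [Set.encard_pair hy.symm]
    norm_num
  have hprim : IsPreprimitive (fixingSubgroup G s) (SubMulAction.ofFixingSubgroup G s) :=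
    IsMultiplyPreprimitive.isPreprimitive_ofFixingSubgroup G 3 hs
  have hgcomm : ∀ g ∈ fixingSubgroup G s, ∀ w : X, g • (v • w) = v • (g • w) := by
    intro g hg w
    rw [mem_fixingSubgroup_iff] at hg
    have hgx : g • x = x := hg x (by simp [s])
    have hgy : g • y = y := hg y (by simp [s])
    have hgx' : g⁻¹ • x = x := by
      rw [inv_smul_eq_iff, hgx]
    have h1 : g * v * g⁻¹ = v := by
      refine hinj _ (‹N.Normal›.conj_mem v hvN g) v hvN x ?_
      rw [mul_smul, mul_smul, hgx', hvx, hgy]
    have h2 : g * v = v * g := by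
      calc g * v = (g * v * g⁻¹) * g := by group
        _ = v * g := by rw [h1]
    rw [← mul_smul, h2, mul_smul]
  -- a point outside `{x, y}`
  obtain ⟨w, hw⟩ : ∃ w : X, w ∉ s := by
    by_contra hcon
    push Not at hcon
    have : (Finset.univ : Finset X) ⊆ {x, y} := by
      intro z _
      have := hcon z
      simpa [s] using this
    have h5 := Finset.card_le_card this
    rw [Finset.card_univ, Finset.card_pair hy.symm] at h5
    omega
  have hwx : w ≠ x := fun h => hw (by simp [s, h])
  have hwy : w ≠ y := fun h => hw (by simp [s, h])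
  have hvwx : v • w ≠ x := by
    intro h
    apply hwy
    rw [← hvv w, h, hvx]
  have hvwy : v • w ≠ y := by
    intro h
    apply hwx
    rw [← hvx] at h
    exact (hvne x |> fun _ => by
      have := congrArg (fun z => v • z) h
      simpa [hvv] using this)
  have hnotmem : ∀ z : X, z ∉ s → v • z ∉ s := by
    intro z hz hzs
    simp only [s, Set.mem_insert_iff, Set.mem_singleton_iff] at hzs hz
    push Not at hz
    rcases hzs with h | h
    · apply hz.2
      rw [← hvv z, h, hvx]
    · apply hz.1
      rw [← hvv z, h, ← hvx, hvv]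
  let B : Set (SubMulAction.ofFixingSubgroup G s) := {z | z.val = w ∨ z.val = v • w}
  have hwmem : w ∈ SubMulAction.ofFixingSubgroup G s := by
    rw [SubMulAction.mem_ofFixingSubgroup_iff]
    exact hw
  have hvwmem : v • w ∈ SubMulAction.ofFixingSubgroup G s := by
    rw [SubMulAction.mem_ofFixingSubgroup_iff]
    exact hnotmem w hw
  have hmemsmul : ∀ (g : fixingSubgroup G s) (z : SubMulAction.ofFixingSubgroup G s),
      z ∈ g • B ↔ z.val = (g : G) • w ∨ z.val = v • ((g : G) • w) := by
    intro g z
    rw [Set.mem_smul_set_iff_inv_smul_mem]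
    show (g⁻¹ • z).val = w ∨ (g⁻¹ • z).val = v • w ↔ _
    have h1 : (g⁻¹ • z).val = (g : G)⁻¹ • z.val := rfl
    rw [h1, inv_smul_eq_iff, inv_smul_eq_iff, hgcomm g g.prop]
  have hB : IsBlock (fixingSubgroup G s) B := by
    rw [isBlock_iff_smul_eq_or_disjoint]
    intro g
    by_cases hdisj : Disjoint (g • B) B
    · exact Or.inr hdisj
    left
    obtain ⟨z, hz1, hz2⟩ := Set.not_disjoint_iff.mp hdisj
    rw [hmemsmul] at hz1
    have hcases : (g : G) • w = w ∨ (g : G) • w = v • w := by
      rcases hz1 with h1 | h1 <;> rcases hz2 with h2 | h2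
      · exact Or.inl (h1.symm.trans h2)
      · exact Or.inr (h1.symm.trans h2)
      · right
        have : v • ((g : G) • w) = w := h1.symm.trans h2
        calc (g : G) • w = v • (v • ((g : G) • w)) := (hvv _).symm
          _ = v • w := by rw [this]
      · left
        have : v • ((g : G) • w) = v • w := h1.symm.trans h2
        exact smul_left_cancel v this
    ext z
    rw [hmemsmul]
    show z.val = (g : G) • w ∨ z.val = v • ((g : G) • w) ↔ z.val = w ∨ z.val = v • w
    rcases hcases with h1 | h1
    · rw [h1]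
    · rw [h1, hvv, or_comm]
  have huniv : B = Set.univ := by
    rcases hprim.isTrivialBlock_of_isBlock hB with hsub | hu
    · exfalso
      have h1 : (⟨w, hwmem⟩ : SubMulAction.ofFixingSubgroup G s) ∈ B := Or.inl rfl
      have h2 : (⟨v • w, hvwmem⟩ : SubMulAction.ofFixingSubgroup G s) ∈ B := Or.inr rfl
      have := hsub h1 h2
      exact hvne w (congrArg Subtype.val this).symm
    · exact hu
  have huniv' : (Finset.univ : Finset X) = {x, y, w, v • w} := by
    ext z
    simp only [Finset.mem_univ, Finset.mem_insert, Finset.mem_singleton, true_iff]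
    by_cases hzs : z ∈ s
    · simp only [s, Set.mem_insert_iff, Set.mem_singleton_iff] at hzs
      rcases hzs with h | h
      · exact Or.inl h
      · exact Or.inr (Or.inl h)
    · have hz : z ∈ SubMulAction.ofFixingSubgroup G s := by
        rw [SubMulAction.mem_ofFixingSubgroup_iff]
        exact hzs
      have : (⟨z, hz⟩ : SubMulAction.ofFixingSubgroup G s) ∈ B := by
        rw [huniv]
        exact Set.mem_univ _
      exact Or.inr (Or.inr this)
  rw [← Finset.card_univ, huniv']
  rw [Finset.card_insert_of_notMem, Finset.card_insert_of_notMem, Finset.card_pair (hvne w).symm]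
  · simp only [Finset.mem_insert, Finset.mem_singleton, not_or]
    exact ⟨hwy.symm, hvwy.symm⟩
  · simp only [Finset.mem_insert, Finset.mem_singleton, not_or]
    exact ⟨hy.symm, hwx.symm, hvwx.symm⟩

end Cfsg.Agent.S0696
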