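import Cfsg.Statements.S0697
import Mathlib
import Cfsg.Agent.S0696
import Cfsg.Agent.S0680
import Cfsg.Agent.Lib.Perm.Basic

set_option autoImplicit false
open Cfsg

namespace Cfsg.Agent.S0697

open MulAction
open scoped Pointwise

universe u v

/-- Lifting multiple transitivity from a point stabilizer. -/
theorem lift_trans {G : Type u} {X : Type v} [Group G] [MulAction G X] (H : Subgroup G) (a : X)
    [IsPretransitive H X] {k : ℕ}
    (h : IsMultiplyPretransitive (H.subgroupOf (stabilizer G a))
      (SubMulAction.ofStabilizer G a) k) :
    IsMultiplyPretransitive H X (k + 1) := by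
  have h2 : IsMultiplyPretransitive (stabilizer H a) (SubMulAction.ofStabilizer H a) k := by
    let σ : H.subgroupOf (stabilizer G a) → stabilizer H a :=
      fun x => ⟨⟨x.val.val, x.prop⟩, x.val.prop⟩
    let f : SubMulAction.ofStabilizer G a →ₑ[σ] SubMulAction.ofStabilizer H a :=
      { toFun := fun y => ⟨y.val, y.prop⟩
        map_smul' := fun m y => rfl }
    have hf : Function.Surjective f := fun y => ⟨⟨y.val, y.prop⟩, rfl⟩
    exact IsPretransitive.of_embedding (f := f) hf
  exact SubMulAction.ofStabilizer.isMultiplyPretransitive.mpr h2

theorem faithful_ofStabilizer {G : Type u} {X : Type v} [Group G] [MulAction G X]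
    [FaithfulSMul G X] (a : X) :
    FaithfulSMul (stabilizer G a) (SubMulAction.ofStabilizer G a) := by
  refine ⟨fun {m₁ m₂} h => ?_⟩
  apply Subtype.ext
  apply FaithfulSMul.eq_of_smul_eq_smul (α := X)
  intro y
  by_cases hy : y = a
  · subst hy
    rw [show (m₁ : G) • y = y from m₁.prop, show (m₂ : G) • y = y from m₂.prop]
  · have := h ⟨y, hy⟩
    exact congrArg Subtype.val this

/-- If the point stabilizer acts as the full symmetric group on the remaining points,
so does the group. -/
theorem surj_of_stabilizer {G : Type u} {X : Type v} [Group G] [Finite G] [MulAction G X]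
    [Fintype X] [FaithfulSMul G X] [IsPretransitive G X] (a : X)
    (hs : Function.Surjective (toPermHom (stabilizer G a) (SubMulAction.ofStabilizer G a))) :
    Function.Surjective (toPermHom G X) := by
  classical
  haveI := faithful_ofStabilizer (G := G) a
  have hinj' : Function.Injective (toPermHom (stabilizer G a) (SubMulAction.ofStabilizer G a)) := by
    intro m₁ m₂ h
    apply FaithfulSMul.eq_of_smul_eq_smul (α := SubMulAction.ofStabilizer G a)
    intro y
    have := congrArg (fun e => e y) h
    exact this
  have hinj : Function.Injective (toPermHom G X) := by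
    intro m₁ m₂ h
    apply FaithfulSMul.eq_of_smul_eq_smul (α := X)
    intro y
    have := congrArg (fun e => e y) h
    exact this
  have hc1 : Nat.card (stabilizer G a) = Nat.card (Equiv.Perm (SubMulAction.ofStabilizer G a)) :=
    Nat.card_congr (Equiv.ofBijective _ ⟨hinj', hs⟩)
  have hc2 : Nat.card G = Nat.card (Equiv.Perm X) := by
    have h1 := Subgroup.card_mul_index (stabilizer G a)
    rw [index_stabilizer_of_transitive, hc1, Nat.card_perm] at h1
    have h3 := SubMulAction.nat_card_ofStabilizer_add_one_eq G a
    rw [Nat.card_perm, ← h1, ← h3]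
    rw [Nat.factorial_succ, mul_comm]
  exact ((Nat.bijective_iff_injective_and_card _).mpr ⟨hinj, hc2⟩).2

/-- A `(card X - 1)`-transitive faithful action is the full symmetric group. -/
theorem surj_of_transitive {G : Type u} {X : Type v} [Group G] [MulAction G X] [Fintype X]
    (h : IsMultiplyPretransitive G X (Nat.card X - 1)) :
    Function.Surjective (toPermHom G X) := by
  classical
  have h2 : IsMultiplyPretransitive (toPermHom G X).range X (Nat.card X - 1) := by
    let σ : G → (toPermHom G X).range := (toPermHom G X).rangeRestrict
    let f : X →ₑ[σ] X :=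
      { toFun := fun y => y
        map_smul' := fun m y => rfl }
    have hf : Function.Surjective f := fun y => ⟨y, rfl⟩
    exact IsPretransitive.of_embedding (f := f) hf
  have h3 := Equiv.Perm.eq_top_of_isMultiplyPretransitive h2
  intro e
  have : e ∈ (toPermHom G X).range := by
    rw [h3]
    exact Subgroup.mem_top e
  exact this

/-- The main induction. -/
theorem main : ∀ (k : ℕ) {G : Type u} {X : Type v} [Group G] [Finite G] [MulAction G X]
    [Fintype X] [FaithfulSMul G X], k + 1 ≤ Fintype.card X → IsMultiplyPreprimitive G X (k + 1) →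
    (2 ≤ k → ¬ Function.Surjective (toPermHom G X)) →
    ∀ (H : Subgroup G) [H.Normal], H ≠ ⊥ → (∃ a : X, stabilizer H a ≠ ⊥) →
      IsMultiplyPretransitive H X (k + 1) := by
  intro k
  induction k with
  | zero =>
    intro G X _ _ _ _ _ hcard hprim _ H _ hH _
    have hp : IsPreprimitive G X := (is_one_preprimitive_iff _ _).mp hprim
    haveI : IsPretransitive H X :=
      Cfsg.Agent.Lib.Perm.Basic.isPretransitive_of_normal_of_ne_bot H hH
    exact is_one_pretransitive_iff.mpr inferInstance
  | succ k ih =>
    intro G X _ _ _ _ _ hcard hprim hsurj H hHn hH hnr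
    classical
    have hcE : ∀ m : ℕ, m ≤ Fintype.card X → ((m : ℕ) : ℕ∞) ≤ ENat.card X := by
      intro m hm
      rw [ENat.card_eq_coe_fintype_card]
      exact_mod_cast hm
    have hp : IsPreprimitive G X :=
      (is_one_preprimitive_iff _ _).mp
        (isMultiplyPreprimitive_of_le G X hprim (by omega) (hcE _ hcard))
    haveI hHtrans : IsPretransitive H X :=
      Cfsg.Agent.Lib.Perm.Basic.isPretransitive_of_normal_of_ne_bot H hH
    obtain ⟨a, ha⟩ := hnr
    haveI := hprim
    haveI hG' : IsMultiplyPreprimitive (stabilizer G a) (SubMulAction.ofStabilizer G a) (k + 1) :=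
      isMultiplyPreprimitive_ofStabilizer G X (n := k + 1) (a := a)
    haveI := faithful_ofStabilizer (G := G) a
    have hcardX' : Nat.card (SubMulAction.ofStabilizer G a) + 1 = Fintype.card X := by
      rw [← Nat.card_eq_fintype_card]
      exact SubMulAction.nat_card_ofStabilizer_add_one_eq G a
    haveI : Fintype (SubMulAction.ofStabilizer G a) := Fintype.ofFinite _
    have hcardX'' : Fintype.card (SubMulAction.ofStabilizer G a) + 1 = Fintype.card X := by
      rw [← Nat.card_eq_fintype_card]
      exact hcardX'
    obtain ⟨h₀, hh₀⟩ : ∃ h₀ : stabilizer H a, h₀ ≠ 1 := by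
      have := (Subgroup.ne_bot_iff_exists_ne_one).mp ha
      obtain ⟨x, hx⟩ := this
      exact ⟨x, hx⟩
    have hH' : H.subgroupOf (stabilizer G a) ≠ ⊥ := by
      intro hbot
      have hmem : (⟨(h₀ : H).val, h₀.prop⟩ : stabilizer G a) ∈ H.subgroupOf (stabilizer G a) :=
        (h₀ : H).prop
      rw [hbot, Subgroup.mem_bot] at hmem
      apply hh₀
      apply Subtype.ext
      apply Subtype.ext
      exact congrArg (fun x : stabilizer G a => (x : G)) hmem
    by_cases hsemi : ∃ h : G, h ∈ H ∧ h ≠ 1 ∧ h • a = a ∧ ∃ b : X, b ≠ a ∧ h • b = b
    · obtain ⟨h, hhH, hh1, hha, b, hb, hhb⟩ := hsemi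
      have hnr' : ∃ a' : SubMulAction.ofStabilizer G a,
          stabilizer (H.subgroupOf (stabilizer G a)) a' ≠ ⊥ := by
        refine ⟨⟨b, hb⟩, ?_⟩
        intro hbot
        have hmem : (⟨⟨h, hha⟩, hhH⟩ : H.subgroupOf (stabilizer G a)) ∈
            stabilizer (H.subgroupOf (stabilizer G a)) (⟨b, hb⟩ : SubMulAction.ofStabilizer G a) := by
          rw [mem_stabilizer_iff]
          exact Subtype.ext hhb
        rw [hbot, Subgroup.mem_bot] at hmem
        apply hh1
        exact congrArg (fun x => x.val.val) hmem
      have hk := ih (G := stabilizer G a) (X := SubMulAction.ofStabilizer G a)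
        (by omega) hG'
        (fun h2 hs => hsurj (by omega) (by
          haveI : IsPretransitive G X := hp.toIsPretransitive
          exact surj_of_stabilizer a hs))
        (H.subgroupOf (stabilizer G a)) hH' hnr'
      exact lift_trans H a hk
    · -- the semiregular case
      push Not at hsemi
      have hp' : IsPreprimitive (stabilizer G a) (SubMulAction.ofStabilizer G a) :=
        (is_one_preprimitive_iff _ _).mp
          (isMultiplyPreprimitive_of_le _ _ hG' (by omega) (by
            rw [ENat.card_eq_coe_fintype_card]
            exact_mod_cast (by omega : k + 1 ≤ Fintype.card (SubMulAction.ofStabilizer G a))))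
      haveI hH'trans : IsPretransitive (H.subgroupOf (stabilizer G a))
          (SubMulAction.ofStabilizer G a) :=
        Cfsg.Agent.Lib.Perm.Basic.isPretransitive_of_normal_of_ne_bot _ hH'
      have h2t : IsMultiplyPretransitive H X 2 :=
        lift_trans H a (is_one_pretransitive_iff.mpr hH'trans)
      rcases Nat.eq_zero_or_pos k with rfl | hkpos
      · exact h2t
      exfalso
      have hsurj' := hsurj (by omega)
      have hX3 : 3 ≤ Fintype.card X := by omega
      haveI hG3 : IsMultiplyPreprimitive G X 3 :=
        isMultiplyPreprimitive_of_le G X hprim (by omega) (hcE _ hcard)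
      -- `H` is sharply 2-transitive
      have htr : ∀ a b c d : X, a ≠ b → c ≠ d → ∃ g : H, g • a = c ∧ g • b = d :=
        fun a b c d h1 h2 => is_two_pretransitive_iff.mp h2t h1 h2
      have hfix : ∀ (g : H) (a₁ b₁ : X), a₁ ≠ b₁ → g • a₁ = a₁ → g • b₁ = b₁ → g = 1 := by
        intro g a₁ b₁ hab hga hgb
        obtain ⟨u, hu⟩ := exists_smul_eq H a₁ a
        have hcomp : ((u * g * u⁻¹ : H) : G) = 1 := by
          by_contra hne
          have h1 : (u * g * u⁻¹ : H) • a = a := by
            rw [mul_smul, mul_smul, ← hu, inv_smul_smul, hga]
          have h2 : (u * g * u⁻¹ : H) • (u • b₁) = u • b₁ := by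
            rw [mul_smul, mul_smul, inv_smul_smul, hgb]
          have h3 : u • b₁ ≠ a := by
            intro h
            rw [← hu] at h
            exact hab (smul_left_cancel u h).symm
          exact hsemi _ (u * g * u⁻¹ : H).prop hne h1 (u • b₁) h3 h2
        have h4 : u * g * u⁻¹ = 1 := Subtype.ext hcomp
        have h5 : g = u⁻¹ * (u * g * u⁻¹) * u := by group
        rw [h5, h4]
        group
      have hcardH : Nat.card H = Fintype.card X * (Fintype.card X - 1) := by
        have h1 := Subgroup.card_mul_index (stabilizer H a)
        rw [index_stabilizer_of_transitive, Nat.card_eq_fintype_card (α := X)] at h1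
        obtain ⟨b, hb⟩ : ∃ b : X, b ≠ a := by
          haveI : Nontrivial X := Fintype.one_lt_card_iff_nontrivial.mp (by omega)
          exact exists_ne a
        have hst : Nat.card (stabilizer H a) = Fintype.card X - 1 := by
          have hbij : Function.Bijective
              (fun h : stabilizer H a => (⟨(h : H).val • b, by
                  intro h'
                  have hfa : ((h : H) : G) • a = a := h.prop
                  rw [Set.mem_singleton_iff] at h'
                  apply hb
                  have := h'.trans hfa.symm
                  exact smul_left_cancel _ this⟩ : SubMulAction.ofStabilizer G a)) := by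
            constructor
            · intro x y hxy
              have h2 : ((x : H) : G) • b = ((y : H) : G) • b := congrArg Subtype.val hxy
              have h3 : (x : H)⁻¹ * (y : H) = 1 := by
                apply hfix _ a b hb.symm
                · rw [mul_smul]
                  have hy : (y : H) • a = a := y.prop
                  rw [hy, inv_smul_eq_iff]
                  exact x.prop.symm
                · rw [mul_smul, inv_smul_eq_iff]
                  exact h2.symm
              apply Subtype.ext
              rw [inv_mul_eq_one] at h3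
              exact h3
            · intro y
              obtain ⟨g, hg⟩ := exists_smul_eq (H.subgroupOf (stabilizer G a))
                (⟨b, hb⟩ : SubMulAction.ofStabilizer G a) y
              refine ⟨⟨⟨g.val.val, g.prop⟩, g.val.prop⟩, ?_⟩
              exact hg
          rw [Nat.card_congr (Equiv.ofBijective _ hbij), Nat.card_eq_fintype_card]
          omega
        rw [← h1, hst, mul_comm]
      obtain ⟨F, hFn, hFmem, -, hFtr, -, -⟩ := Cfsg.Agent.S0680.core (G := H) (α := X) (by omega)
        htr hfix hcardH
      let N : Subgroup G := F.map H.subtype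
      have hNmem : ∀ x : G, x ∈ N ↔ x = 1 ∨ (x ∈ H ∧ ∀ y : X, x • y ≠ y) := by
        intro x
        constructor
        · rintro ⟨f, hf, rfl⟩
          rcases (hFmem f).mp hf with h | h
          · left
            simp [h]
          · right
            exact ⟨f.prop, h⟩
        · rintro (h | ⟨h1, h2⟩)
          · rw [h]
            exact N.one_mem
          · exact ⟨⟨x, h1⟩, (hFmem _).mpr (Or.inr h2), rfl⟩
      haveI hNn : N.Normal := by
        refine ⟨fun x hx g => ?_⟩
        rw [hNmem] at hx ⊢
        rcases hx with h | ⟨h1, h2⟩
        · left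
          rw [h]
          group
        · right
          refine ⟨hHn.conj_mem x h1 g, ?_⟩
          intro y hy
          apply h2 (g⁻¹ • y)
          rw [mul_smul, mul_smul] at hy
          exact (smul_eq_iff_eq_inv_smul g).mp hy
      have hNtr : IsPretransitive N X := by
        refine ⟨fun p q => ?_⟩
        obtain ⟨f, hf, hfpq⟩ := hFtr p q
        exact ⟨⟨f.val, ⟨f, hf, rfl⟩⟩, hfpq⟩
      have hNreg : ∀ x : X, stabilizer N x = ⊥ := by
        intro x
        rw [eq_bot_iff]
        intro n hn
        rw [mem_stabilizer_iff] at hn
        rw [Subgroup.mem_bot]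
        rcases (hNmem n.val).mp n.prop with h | ⟨_, h⟩
        · exact Subtype.ext h
        · exact absurd hn (h x)
      rcases Cfsg.Agent.S0696.result hX3 hG3 N hNtr hNreg with h34 | h34
      · apply hsurj'
        apply surj_of_transitive
        rw [Nat.card_eq_fintype_card, h34]
        haveI : IsMultiplyPretransitive G X 3 := IsMultiplyPreprimitive.isMultiplyPretransitive G X 3
        exact isMultiplyPretransitive_of_le (n := 3) (by norm_num) (by rw [Nat.card_eq_fintype_card, h34])
      · apply hsurj'
        apply surj_of_transitive
        rw [Nat.card_eq_fintype_card, h34]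
        exact IsMultiplyPreprimitive.isMultiplyPretransitive G X 3

/-- In a `k`-primitive permutation group which is not the whole symmetric group, a non-trivial non-regular normal subgroup is `k`-transitive. -/
theorem result {α : Type*} [Fintype α] [DecidableEq α] (G : Subgroup (Equiv.Perm α)) {k : ℕ} (hk : 1 ≤ k) (hkn : k ≤ Fintype.card α) (hG : MulAction.IsMultiplyPreprimitive G α k) (htop : G ≠ ⊤) (H : Subgroup G) [H.Normal] (hH : H ≠ ⊥) (hnr : ∃ a : α, MulAction.stabilizer H a ≠ ⊥) : MulAction.IsMultiplyPretransitive H α k := by
  haveI := hG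
  obtain ⟨m, rfl⟩ : ∃ m, k = m + 1 := ⟨k - 1, by omega⟩
  refine main m hkn hG ?_ H hH hnr
  intro _ hs
  apply htop
  rw [eq_top_iff]
  intro σ _
  obtain ⟨g, hg⟩ := hs σ
  have : σ = (g : Equiv.Perm α) := by
    rw [← hg]
    ext x
    rfl
  rw [this]
  exact g.prop

end Cfsg.Agent.S0697
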