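import Cfsg.Statements.S0698
import Mathlib
import Cfsg.Agent.S0697

set_option autoImplicit false
open Cfsg

namespace Cfsg.Agent.S0698

open MulAction

/-- Jordan's Theorem on normal subgroups of multiply transitive groups: if `G` is `k`-transitive (`k > 1`) of degree greater than `k`, a non-trivial normal subgroup is `(k-1)`-transitive, except possibly for `k = 3` when it may be an elementary abelian 2-group. -/
theorem result {α : Type*} [Fintype α] [DecidableEq α] (G : Subgroup (Equiv.Perm α)) {k : ℕ} (hk : 1 < k) (hdeg : k < Fintype.card α) (hG : MulAction.IsMultiplyPretransitive G α k) (N : Subgroup G) [N.Normal] (hN : N ≠ ⊥) : MulAction.IsMultiplyPretransitive N α (k - 1) ∨ (k = 3 ∧ IsMulCommutative N ∧ ∀ n ∈ N, n ^ 2 = 1) := by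
  classical
  haveI := hG
  obtain ⟨m, rfl⟩ : ∃ m, k = m + 2 := ⟨k - 2, by omega⟩
  have hcE : ∀ m : ℕ, m ≤ Fintype.card α → ((m : ℕ) : ℕ∞) ≤ ENat.card α := by
    intro m hm
    rw [ENat.card_eq_coe_fintype_card]
    exact_mod_cast hm
  have hprim : IsMultiplyPreprimitive G α (m + 1) :=
    isMultiplyPreprimitive_of_isMultiplyPretransitive_succ G α (n := m + 1) (hcE _ hdeg.le)
  have hp : IsPreprimitive G α :=
    (is_one_preprimitive_iff _ _).mp
      (isMultiplyPreprimitive_of_le G α hprim (by omega) (hcE _ (by omega)))
  haveI hNtrans : IsPretransitive N α :=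
    Cfsg.Agent.Lib.Perm.Basic.isPretransitive_of_normal_of_ne_bot N hN
  by_cases hnr : ∃ a : α, stabilizer N a ≠ ⊥
  · left
    show IsMultiplyPretransitive N α (m + 1)
    by_cases hs : Function.Surjective (toPermHom G α)
    · -- `G` is the full symmetric group
      rcases Nat.lt_or_ge m 2 with hm | hm
      · exact Cfsg.Agent.S0697.main m (by omega) hprim (fun h => absurd h (by omega)) N hN hnr
      have hGtop : G = ⊤ := by
        rw [eq_top_iff]
        intro σ _
        obtain ⟨g, hg⟩ := hs σ
        have : σ = (g : Equiv.Perm α) := by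
          rw [← hg]
          ext x
          rfl
        rw [this]
        exact g.prop
      let N' : Subgroup (Equiv.Perm α) := N.map G.subtype
      haveI hN'n : N'.Normal := by
        refine ⟨fun x hx g => ?_⟩
        obtain ⟨n, hn, rfl⟩ := hx
        have hgG : g ∈ G := by
          rw [hGtop]
          exact Subgroup.mem_top g
        exact ⟨⟨g, hgG⟩ * n * ⟨g, hgG⟩⁻¹, ‹N.Normal›.conj_mem n hn _, rfl⟩
      have hN'nt : Nontrivial N' := by
        obtain ⟨n, hn⟩ := (Subgroup.ne_bot_iff_exists_ne_one).mp hN
        refine ⟨⟨⟨n.val.val, ⟨n.val, n.prop, rfl⟩⟩, 1, ?_⟩⟩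
        intro h
        apply hn
        apply Subtype.ext
        apply Subtype.ext
        exact congrArg (fun x : N' => (x : Equiv.Perm α)) h
      have hAle : alternatingGroup α ≤ N' :=
        Equiv.Perm.alternatingGroup_le_of_normal (by
          rw [Nat.card_eq_fintype_card]
          omega) hN'nt
      have hA : IsMultiplyPretransitive (alternatingGroup α) α (m + 1) := by
        haveI := alternatingGroup.isMultiplyPretransitive α
        exact isMultiplyPretransitive_of_le (n := Nat.card α - 2)
          (by rw [Nat.card_eq_fintype_card]; omega)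
          (by rw [Nat.card_eq_fintype_card]; omega)
      refine ⟨fun x y => ?_⟩
      obtain ⟨g, hg⟩ := hA.exists_smul_eq x y
      obtain ⟨n, hn, hng⟩ := hAle g.prop
      refine ⟨⟨n, hn⟩, ?_⟩
      ext i
      have := DFunLike.congr_fun hg i
      rw [← this]
      show (n : Equiv.Perm α) (x i) = (g : Equiv.Perm α) (x i)
      have h2 : (n : Equiv.Perm α) = g := hng
      rw [h2]
    · exact Cfsg.Agent.S0697.main m (by omega) hprim (fun _ => hs) N hN hnr
  · -- `N` is regular
    push Not at hnr
    rcases Nat.lt_or_ge m 1 with hm | hm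
    · left
      obtain rfl : m = 0 := by omega
      exact is_one_pretransitive_iff.mpr hNtrans
    rcases Nat.lt_or_ge m 2 with hm2 | hm2
    · obtain rfl : m = 1 := by omega
      right
      rcases Cfsg.Agent.S0695.result (by omega) hprim N hNtrans hnr with h | ⟨h1, h2, _⟩
      · omega
      · exact ⟨rfl, h1, h2⟩
    · exfalso
      have h3 : IsMultiplyPreprimitive G α 3 :=
        isMultiplyPreprimitive_of_le G α hprim (by omega) (hcE _ (by omega))
      rcases Cfsg.Agent.S0696.result (by omega) h3 N hNtrans hnr with h | h <;> omega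

end Cfsg.Agent.S0698
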