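import Cfsg.Statements.S0700
import Cfsg.Agent.Lib.Perm.Basic
import Cfsg.Agent.Lib.Char.FrobeniusKernel

set_option autoImplicit false
open Cfsg

namespace Cfsg.Agent.S0700

open MulAction
open scoped Pointwise
open Cfsg.Agent.Lib.Perm.Basic

section core

variable {Γ α : Type*} [Group Γ] [MulAction Γ α]

theorem isBlock_smul (N : Subgroup Γ) [hN : N.Normal] {B : Set α} (hB : IsBlock N B) (g : Γ) :
    IsBlock N (g • B) := by
  rw [isBlock_iff_smul_eq_or_disjoint] at hB ⊢
  intro n
  have hn : g⁻¹ * (n : Γ) * g ∈ N := by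
    have := hN.conj_mem n n.2 g⁻¹
    simpa using this
  have key : n • g • B = g • ((⟨_, hn⟩ : N) • B) := by
    ext a
    simp only [Set.mem_smul_set_iff_inv_smul_mem, Subgroup.smul_def, smul_smul, mul_inv_rev, inv_inv]
    have : (g⁻¹ * (n : Γ)⁻¹ * g * g⁻¹) = g⁻¹ * (n : Γ)⁻¹ := by group
    simp [Subgroup.smul_def, smul_smul, mul_assoc]
  rw [key]
  rcases hB ⟨_, hn⟩ with h | h
  · left; rw [h]
  · right
    exact (Set.disjoint_smul_set).mpr h

/-- The line through two points: the smallest `N`-block containing them. -/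
def line (N : Subgroup Γ) (x y : α) : Set α := ⋂₀ {B | IsBlock N B ∧ x ∈ B ∧ y ∈ B}

theorem line_isBlock (N : Subgroup Γ) (x y : α) : IsBlock N (line N x y) := by
  unfold line
  rw [Set.sInter_eq_iInter]
  exact IsBlock.iInter fun i => i.2.1

theorem mem_line_left (N : Subgroup Γ) (x y : α) : x ∈ line N x y :=
  Set.mem_sInter.mpr fun _ h => h.2.1

theorem mem_line_right (N : Subgroup Γ) (x y : α) : y ∈ line N x y :=
  Set.mem_sInter.mpr fun _ h => h.2.2

theorem line_subset (N : Subgroup Γ) {x y : α} {B : Set α} (hB : IsBlock N B) (hx : x ∈ B)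
    (hy : y ∈ B) : line N x y ⊆ B :=
  Set.sInter_subset_of_mem ⟨hB, hx, hy⟩

theorem line_comm (N : Subgroup Γ) (x y : α) : line N x y = line N y x := by
  apply Set.Subset.antisymm
  · exact line_subset N (line_isBlock N y x) (mem_line_right N y x) (mem_line_left N y x)
  · exact line_subset N (line_isBlock N x y) (mem_line_right N x y) (mem_line_left N x y)

theorem smul_line_subset (N : Subgroup Γ) [N.Normal] (g : Γ) (x y : α) :
    g • line N x y ⊆ line N (g • x) (g • y) := by
  rw [Set.smul_set_subset_iff_subset_inv_smul_set]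
  apply line_subset N (isBlock_smul N (line_isBlock N _ _) _)
  · rw [Set.mem_inv_smul_set_iff]; exact mem_line_left _ _ _
  · rw [Set.mem_inv_smul_set_iff]; exact mem_line_right _ _ _

theorem smul_line (N : Subgroup Γ) [N.Normal] (g : Γ) (x y : α) :
    g • line N x y = line N (g • x) (g • y) := by
  apply Set.Subset.antisymm (smul_line_subset N g x y)
  rw [Set.subset_smul_set_iff]
  have := smul_line_subset N g⁻¹ (g • x) (g • y)
  rw [inv_smul_smul, inv_smul_smul] at this
  exact this

variable [IsMultiplyPretransitive Γ α 2] [Finite α]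

theorem line_eq_of_mem (N : Subgroup Γ) [N.Normal] {x y z : α} (hy : y ∈ line N x z) (hyx : y ≠ x)
    (hzx : z ≠ x) : line N x y = line N x z := by
  have hsub : line N x y ⊆ line N x z :=
    line_subset N (line_isBlock N x z) (mem_line_left N x z) hy
  obtain ⟨g, hg, hgb⟩ := exists_mem_stabilizer_smul_eq (G := Γ) hzx hyx
  have hgx : g • x = x := mem_stabilizer_iff.mp hg
  have heq : g • line N x z = line N x y := by rw [smul_line, hgx, hgb]
  apply Set.eq_of_subset_of_ncard_le hsub _ (Set.toFinite _)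
  rw [← heq, Set.ncard_smul_set]

theorem line_unique (N : Subgroup Γ) [N.Normal] {x y u v : α} (hxy : y ≠ x) (hu : u ∈ line N x y)
    (hv : v ∈ line N x y) (huv : v ≠ u) : line N u v = line N x y := by
  by_cases hux : u = x
  · subst hux
    exact line_eq_of_mem N hv huv hxy
  · have h1 : line N x u = line N x y := line_eq_of_mem N hu hux hxy
    have hvm : v ∈ line N u x := by rw [line_comm, h1]; exact hv
    have h2 : line N u v = line N u x := line_eq_of_mem N hvm huv (Ne.symm hux)
    rw [h2, line_comm, h1]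

theorem smul_mem_line_of_fix (N : Subgroup Γ) {n : Γ} (hn : n ∈ N) {x y z : α} (hx : n • x = x)
    (hz : z ∈ line N x y) : n • z ∈ line N x y := by
  have hB := line_isBlock N x y
  rw [isBlock_iff_smul_eq_of_mem] at hB
  have : (⟨n, hn⟩ : N) • line N x y = line N x y := by
    apply hB (a := x) (mem_line_left N x y)
    change n • x ∈ _
    rw [hx]; exact mem_line_left N x y
  rw [← this]
  exact Set.smul_mem_smul_set (a := (⟨n, hn⟩ : N)) hz

theorem fix_off_line (N : Subgroup Γ) [N.Normal] {n : Γ} (hn : n ∈ N) {x y z : α} (hxy : y ≠ x)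
    (hx : n • x = x) (hy : n • y = y) (hz : z ∉ line N x y) : n • z = z := by
  by_contra hne
  have hzx : z ≠ x := fun h => hz (h ▸ mem_line_left N x y)
  have hzy : z ≠ y := fun h => hz (h ▸ mem_line_right N x y)
  have h1 : n • z ∈ line N x z :=
    smul_mem_line_of_fix N hn hx (mem_line_right N x z)
  have h2 : n • z ∈ line N y z :=
    smul_mem_line_of_fix N hn hy (mem_line_right N y z)
  have e1 : line N z (n • z) = line N x z :=
    line_unique N (Ne.symm hzx |>.symm) (mem_line_right N x z) h1 hne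
  have e2 : line N z (n • z) = line N y z :=
    line_unique N (hzy) (mem_line_right N y z) h2 hne
  have hyin : y ∈ line N x z := by
    rw [← e1, e2]; exact mem_line_left N y z
  have : line N x y = line N x z := line_eq_of_mem N hyin hxy hzx
  exact hz (this ▸ mem_line_right N x z)

theorem two_point_trivial [FaithfulSMul Γ α] (N : Subgroup Γ) [N.Normal]
    (hprop : ∀ x y : α, y ≠ x → line N x y ≠ Set.univ) {n : Γ} (hn : n ∈ N) {x y : α}
    (hxy : y ≠ x) (hx : n • x = x) (hy : n • y = y) : n = 1 := by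
  apply FaithfulSMul.eq_of_smul_eq_smul (α := α)
  intro z
  rw [one_smul]
  by_cases hz : z ∈ line N x y
  · by_cases hzx : z = x
    · rw [hzx, hx]
    · obtain ⟨w, hw⟩ : ∃ w, w ∉ line N x y := by
        by_contra hcon
        push Not at hcon
        exact hprop x y hxy (Set.eq_univ_of_forall hcon)
      have hwx : w ≠ x := fun h => hw (h ▸ mem_line_left N x y)
      have hnw := fix_off_line N hn hxy hx hy hw
      apply fix_off_line N hn hwx hx hnw
      intro hzw
      have h1 : line N x z = line N x w := line_eq_of_mem N hzw hzx hwx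
      have h2 : line N x z = line N x y := line_eq_of_mem N hz hzx hxy
      exact hw (by rw [← h2, h1]; exact mem_line_right N x w)
  · exact fix_off_line N hn hxy hx hy hz

/-- No minimal normal subgroup can be Frobenius on the points. -/
theorem false_of_frobenius [Finite Γ] [FaithfulSMul Γ α] (N : Subgroup Γ) [hNn : N.Normal]
    (hmin : ∀ M : Subgroup Γ, M.Normal → M ≤ N → M = ⊥ ∨ M = N)
    [hNt : IsPretransitive N α] (a : α) (hne : stabilizer N a ≠ ⊥)
    (h2 : ∀ n ∈ N, ∀ x y : α, y ≠ x → n • x = x → n • y = y → n = 1) : False := by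
  classical
  obtain ⟨b, hba⟩ : ∃ b : α, b ≠ a := by
    by_contra hcon
    push Not at hcon
    apply hne
    rw [eq_bot_iff]
    intro n _
    rw [Subgroup.mem_bot]
    apply Subtype.ext
    apply FaithfulSMul.eq_of_smul_eq_smul (α := α)
    intro z
    rw [hcon z]
    have : n • a = a := by
      by_contra h
      exact h (hcon _)
    simpa [Subgroup.smul_def] using this
  have hFr : IsFrobeniusComplement (stabilizer N a) := by
    refine ⟨hne, ?_, ?_⟩
    · intro htop
      obtain ⟨n, hn⟩ := exists_smul_eq N a b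
      have : n ∈ stabilizer N a := by rw [htop]; trivial
      rw [mem_stabilizer_iff, hn] at this
      exact hba this
    · intro g hg
      rw [eq_bot_iff]
      rintro x ⟨hx1, hx2⟩
      rw [Subgroup.mem_bot]
      have hx2' := Cfsg.Agent.Lib.Char.FrobeniusKernel.mem_conj_smul_iff.mp hx2
      have hgx : g • a ≠ a := fun h => hg (mem_stabilizer_iff.mpr h)
      have hx3 : x • (g • a) = g • a := by
        have := mem_stabilizer_iff.mp hx2'
        rw [mul_smul, mul_smul] at this
        exact inv_smul_eq_iff.mp this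
      apply Subtype.ext
      exact h2 x x.2 a (g • a) hgx (mem_stabilizer_iff.mp hx1) hx3
  obtain ⟨K, hKset, hKn, hKc⟩ := Cfsg.Agent.Lib.Char.FrobeniusKernel.frobenius_theorem _ hFr
  -- membership in `K` in terms of fixed points
  have hKmem : ∀ n : N, n ∈ K ↔ n = 1 ∨ ∀ z : α, n • z ≠ z := by
    intro n
    have : n ∈ K ↔ n ∈ frobeniusKernel (stabilizer N a) := by
      rw [← hKset]; rfl
    rw [this, Cfsg.Agent.Lib.Char.FrobeniusKernel.mem_frobeniusKernel_iff]
    refine or_congr_right ⟨fun h z hz => ?_, fun h x hx => ?_⟩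
    · obtain ⟨x, hx⟩ := exists_smul_eq N a z
      apply h x
      rw [mem_stabilizer_iff, mul_smul, mul_smul, hx, hz, ← hx, inv_smul_smul]
    · apply h (x • a)
      rw [mem_stabilizer_iff, mul_smul, mul_smul] at hx
      exact inv_smul_eq_iff.mp hx
  let K' : Subgroup Γ := K.map N.subtype
  have hK'mem : ∀ g : Γ, g ∈ K' ↔ g ∈ N ∧ (g = 1 ∨ ∀ z : α, g • z ≠ z) := by
    intro g
    constructor
    · rintro ⟨n, hn, rfl⟩
      refine ⟨n.2, ?_⟩
      rcases (hKmem n).mp hn with h | h
      · left; simp [h]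
      · right; exact h
    · rintro ⟨hg, h⟩
      refine ⟨⟨g, hg⟩, (hKmem _).mpr ?_, rfl⟩
      rcases h with h | h
      · left; exact Subtype.ext h
      · right; exact h
  have hK'n : K'.Normal := by
    refine ⟨fun n hn g => ?_⟩
    rw [hK'mem] at hn ⊢
    refine ⟨hNn.conj_mem n hn.1 g, ?_⟩
    rcases hn.2 with h | h
    · left; simp [h]
    · right
      intro z hz
      apply h (g⁻¹ • z)
      rw [← smul_left_cancel_iff g]
      simpa [mul_smul] using hz
  have hK'le : K' ≤ N := fun g hg => ((hK'mem g).mp hg).1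
  rcases hmin K' hK'n hK'le with hbot | htop
  · -- K trivial, so the stabilizer is everything
    have hK : K = ⊥ := by
      rw [eq_bot_iff]
      intro n hn
      have : (n : Γ) ∈ K' := ⟨n, hn, rfl⟩
      rw [hbot, Subgroup.mem_bot] at this
      rw [Subgroup.mem_bot]
      exact Subtype.ext this
    have hstab : stabilizer N a = ⊤ := by
      have := hKc.sup_eq_top
      rwa [hK, bot_sup_eq] at this
    apply hFr.2.1 hstab
  · -- K everything, so the stabilizer is trivial
    have hK : K = ⊤ := by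
      rw [eq_top_iff]
      rintro n -
      have : (n : Γ) ∈ K' := by rw [htop]; exact n.2
      obtain ⟨m, hm, hmn⟩ := this
      have : m = n := Subtype.ext hmn
      exact this ▸ hm
    have hdisj := hKc.disjoint
    rw [hK, disjoint_iff, top_inf_eq] at hdisj
    exact hne hdisj

/-- The primitivity of a nonregular minimal normal subgroup. -/
theorem isPreprimitive_of_nonregular [Finite Γ] [FaithfulSMul Γ α] (N : Subgroup Γ) [hNn : N.Normal]
    (hmin : ∀ M : Subgroup Γ, M.Normal → M ≤ N → M = ⊥ ∨ M = N)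
    [hNt : IsPretransitive N α] (a : α) (hne : stabilizer N a ≠ ⊥) : IsPreprimitive N α := by
  refine { hNt with isTrivialBlock_of_isBlock := ?_ }
  intro B hB
  by_contra hnt
  unfold IsTrivialBlock at hnt
  push Not at hnt
  obtain ⟨hns, hnu⟩ := hnt
  obtain ⟨x, hx, y, hy, hxy⟩ : ∃ x ∈ B, ∃ y ∈ B, x ≠ y := by
    obtain ⟨x, hx, y, hy, hxy⟩ := hns
    exact ⟨x, hx, y, hy, hxy⟩
  have hsub : line N x y ⊆ B := line_subset N hB hx hy
  have hprop : ∀ u v : α, v ≠ u → line N u v ≠ Set.univ := by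
    intro u v huv hu
    obtain ⟨g, hg1, hg2⟩ := is_two_pretransitive_iff.mp ‹IsMultiplyPretransitive Γ α 2› huv.symm hxy
    have : line N x y = Set.univ := by
      rw [← hg1, ← hg2, ← smul_line, hu, Set.smul_set_univ]
    apply hnu
    exact Set.eq_univ_of_univ_subset (this ▸ hsub)
  apply false_of_frobenius N hmin a hne
  intro n hn u v huv hnu' hnv
  exact two_point_trivial N hprop hn huv hnu' hnv

/-- If all non-identity elements of a finite nontrivial group have the same order, this order is a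
prime. -/
theorem exists_prime_of_same_order {H : Type*} [Group H] [Finite H] [Nontrivial H]
    (h : ∀ a b : H, a ≠ 1 → b ≠ 1 → orderOf a = orderOf b) :
    ∃ p : ℕ, p.Prime ∧ IsPGroup p H ∧ ∀ a : H, a ≠ 1 → orderOf a = p := by
  obtain ⟨c, hc⟩ := exists_ne (1 : H)
  have hpos : 0 < orderOf c := orderOf_pos c
  have h1 : orderOf c ≠ 1 := by
    rw [Ne, orderOf_eq_one_iff]; exact hc
  obtain ⟨p, hp, hpd⟩ := Nat.exists_prime_and_dvd h1
  have hord : orderOf (c ^ (orderOf c / p)) = p := orderOf_pow_orderOf_div hpos.ne' hpd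
  have hne : c ^ (orderOf c / p) ≠ 1 := by
    intro h0
    rw [h0, orderOf_one] at hord
    exact hp.one_lt.ne hord
  have hall : ∀ a : H, a ≠ 1 → orderOf a = p := fun a ha => (h a _ ha hne).trans hord
  refine ⟨p, hp, ?_, hall⟩
  have : Fact p.Prime := ⟨hp⟩
  rw [IsPGroup.iff_orderOf]
  intro g
  by_cases hg : g = 1
  · exact ⟨0, by simp [hg]⟩
  · exact ⟨1, by simp [hall g hg]⟩

theorem conj_of_regular [FaithfulSMul Γ α] (N : Subgroup Γ) [hNn : N.Normal]
    (hreg : ∀ a : α, stabilizer N a = ⊥) {a b : Γ} (ha : a ∈ N) (hb : b ∈ N) (ha1 : a ≠ 1)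
    (hb1 : b ≠ 1) (x : α) : ∃ g : Γ, g * a * g⁻¹ = b := by
  have hfix : ∀ n ∈ N, n • x = x → n = 1 := by
    intro n hn hnx
    have : (⟨n, hn⟩ : N) ∈ stabilizer N x := mem_stabilizer_iff.mpr hnx
    rw [hreg, Subgroup.mem_bot] at this
    exact congrArg Subtype.val this
  have hax : a • x ≠ x := fun h => ha1 (hfix a ha h)
  have hbx : b • x ≠ x := fun h => hb1 (hfix b hb h)
  obtain ⟨g, hg, hgb⟩ := exists_mem_stabilizer_smul_eq (G := Γ) hax hbx
  have hgx : g • x = x := mem_stabilizer_iff.mp hg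
  refine ⟨g, ?_⟩
  have hc : g * a * g⁻¹ ∈ N := hNn.conj_mem a ha g
  have h1 : (b⁻¹ * (g * a * g⁻¹)) • x = x := by
    have : g⁻¹ • x = x := by rw [inv_smul_eq_iff, hgx]
    rw [mul_smul, mul_smul, mul_smul, this, hgb, inv_smul_smul]
  have := hfix _ (N.mul_mem (N.inv_mem hb) hc) h1
  rw [inv_mul_eq_one] at this
  exact this.symm

theorem regular_case [Finite Γ] [FaithfulSMul Γ α] (N : Subgroup Γ) [hNn : N.Normal]
    (hNb : N ≠ ⊥) (hreg : ∀ a : α, stabilizer N a = ⊥) :
    IsMulCommutative N ∧ (∃ p : ℕ, p.Prime ∧ ∀ n ∈ N, n ^ p = 1) := by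
  classical
  have hnt : Nontrivial N := (Subgroup.nontrivial_iff_ne_bot N).mpr hNb
  obtain ⟨n₀, hn₀⟩ := exists_ne (1 : N)
  have hx : ∃ x : α, True := by
    by_contra hcon
    push Not at hcon
    apply hn₀
    apply Subtype.ext
    apply FaithfulSMul.eq_of_smul_eq_smul (α := α)
    intro z
    exact (hcon z).elim
  obtain ⟨x, -⟩ := hx
  have hconj : ∀ a b : N, a ≠ 1 → b ≠ 1 → ∃ g : Γ, g * (a : Γ) * g⁻¹ = b := by
    intro a b ha hb
    exact conj_of_regular N hreg a.2 b.2 (fun h => ha (Subtype.ext h)) (fun h => hb (Subtype.ext h)) x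
  have hsame : ∀ a b : N, a ≠ 1 → b ≠ 1 → orderOf a = orderOf b := by
    intro a b ha hb
    obtain ⟨g, hg⟩ := hconj a b ha hb
    rw [← Subgroup.orderOf_coe a, ← Subgroup.orderOf_coe b, ← hg]
    have := (MulAut.conj g).orderOf_eq (a : Γ)
    rw [MulAut.conj_apply] at this
    exact this.symm
  obtain ⟨p, hp, hpg, hord⟩ := exists_prime_of_same_order hsame
  have : Fact p.Prime := ⟨hp⟩
  refine ⟨?_, p, hp, ?_⟩
  · have hcen := hpg.center_nontrivial
    obtain ⟨z, hz⟩ := exists_ne (1 : Subgroup.center N)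
    have hz1 : (z : N) ≠ 1 := fun h => hz (Subtype.ext h)
    have hcentral : ∀ a : N, ∀ m : N, m * a = a * m := by
      intro a m
      by_cases ha : a = 1
      · simp [ha]
      obtain ⟨g, hg⟩ := hconj z a hz1 ha
      have hm' : g⁻¹ * (m : Γ) * g ∈ N := by
        have := hNn.conj_mem m m.2 g⁻¹
        simpa using this
      have hzc : (⟨g⁻¹ * (m : Γ) * g, hm'⟩ : N) * (z : N) = (z : N) * ⟨g⁻¹ * (m : Γ) * g, hm'⟩ :=
        (Subgroup.mem_center_iff.mp z.2 _)
      have hzc' : (g⁻¹ * (m : Γ) * g) * ((z : N) : Γ) = ((z : N) : Γ) * (g⁻¹ * (m : Γ) * g) :=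
        congrArg Subtype.val hzc
      apply Subtype.ext
      push_cast
      rw [← hg]
      calc (m : Γ) * (g * ((z : N) : Γ) * g⁻¹)
          = g * ((g⁻¹ * (m : Γ) * g) * ((z : N) : Γ)) * g⁻¹ := by group
        _ = g * (((z : N) : Γ) * (g⁻¹ * (m : Γ) * g)) * g⁻¹ := by rw [hzc']
        _ = g * ((z : N) : Γ) * g⁻¹ * (m : Γ) := by group
    exact ⟨⟨fun a b => hcentral b a⟩⟩
  · intro n hn
    by_cases hn1 : n = 1
    · simp [hn1]
    · have : orderOf (⟨n, hn⟩ : N) = p := hord _ (fun h => hn1 (congrArg Subtype.val h))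
      rw [Subgroup.orderOf_mk] at this
      rw [← this]
      exact pow_orderOf_eq_one n

theorem transitive_of_normalized [FaithfulSMul Γ α] (N : Subgroup Γ) [IsPreprimitive N α]
    (S : Subgroup Γ) (hS1 : S ≠ ⊥) (hSN : S ≤ N) (hSn : ∀ n ∈ N, ∀ t ∈ S, n * t * n⁻¹ ∈ S) :
    IsPretransitive S α := by
  have hnorm : (S.subgroupOf N).Normal := by
    refine ⟨fun n hn g => ?_⟩
    rw [Subgroup.mem_subgroupOf] at hn ⊢
    exact hSn g g.2 n hn
  have hne : S.subgroupOf N ≠ ⊥ := by
    intro h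
    apply hS1
    rw [eq_bot_iff]
    intro s hs
    have : (⟨s, hSN hs⟩ : N) ∈ S.subgroupOf N := by
      rw [Subgroup.mem_subgroupOf]; exact hs
    rw [h, Subgroup.mem_bot] at this
    rw [Subgroup.mem_bot]
    exact congrArg Subtype.val this
  have := isPretransitive_of_normal_of_ne_bot (G := N) (Ω := α) (S.subgroupOf N) hne
  apply isPretransitive_subgroup_of
  intro x y
  obtain ⟨n, hn, hnxy⟩ := exists_mem_smul_eq (S.subgroupOf N) x y
  exact ⟨n, Subgroup.mem_subgroupOf.mp hn, hnxy⟩

theorem eq_of_minimal_of_primitive [Finite Γ] [FaithfulSMul Γ α] (N : Subgroup Γ) [hNn : N.Normal]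
    (hmin : ∀ M : Subgroup Γ, M.Normal → M ≤ N → M = ⊥ ∨ M = N) [IsPreprimitive N α]
    (T : Subgroup Γ) (hT1 : T ≠ ⊥) (hTN : T ≤ N) (hTn : ∀ n ∈ N, ∀ t ∈ T, n * t * n⁻¹ ∈ T)
    (hTmin : ∀ S : Subgroup Γ, S ≠ ⊥ → S ≤ T → (∀ n ∈ N, ∀ t ∈ S, n * t * n⁻¹ ∈ S) → S = T) :
    T = N := by
  classical
  by_cases hnorm : T.Normal
  · exact (hmin T hnorm hTN).resolve_left hT1
  exfalso
  -- conjugates of `T`
  let Tg : Γ → Subgroup Γ := fun g => T.map (MulAut.conj g).toMonoidHom
  have hTgmem : ∀ g u : Γ, u ∈ Tg g ↔ g⁻¹ * u * g ∈ T := by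
    intro g u
    constructor
    · rintro ⟨t, ht, rfl⟩
      simpa [mul_assoc] using ht
    · intro h
      refine ⟨_, h, ?_⟩
      simp [mul_assoc]
  have hTgN : ∀ g, Tg g ≤ N := by
    rintro g _ ⟨t, ht, rfl⟩
    exact hNn.conj_mem t (hTN ht) g
  have hTgn : ∀ g, ∀ n ∈ N, ∀ t ∈ Tg g, n * t * n⁻¹ ∈ Tg g := by
    intro g n hn t ht
    rw [hTgmem] at ht ⊢
    have hn' : g⁻¹ * n * g ∈ N := by
      have := hNn.conj_mem n hn g⁻¹
      simpa using this
    have := hTn _ hn' _ ht
    convert this using 1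
    group
  have hTgne : ∀ g, Tg g ≠ ⊥ := by
    intro g h
    apply hT1
    rw [eq_bot_iff]
    intro t ht
    have : g * t * g⁻¹ ∈ Tg g := by
      rw [hTgmem]; simpa [mul_assoc] using ht
    rw [h, Subgroup.mem_bot] at this
    rw [Subgroup.mem_bot]
    have h2 : g⁻¹ * (g * t * g⁻¹) * g = g⁻¹ * 1 * g := by rw [this]
    simpa [mul_assoc] using h2
  have hdich : ∀ g, Tg g = T ∨ ((∀ t ∈ T, ∀ u ∈ Tg g, t * u = u * t) ∧ T ⊓ Tg g = ⊥) := by
    intro g
    by_cases hS : T ⊓ Tg g = ⊥
    · right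
      refine ⟨?_, hS⟩
      intro t ht u hu
      have h1 : t * u * t⁻¹ * u⁻¹ ∈ T := by
        have := hTn u (hTgN g hu) t⁻¹ (T.inv_mem ht)
        have h3 := T.mul_mem ht this
        convert h3 using 1
        group
      have h2 : t * u * t⁻¹ * u⁻¹ ∈ Tg g := by
        exact (Tg g).mul_mem (hTgn g t (hTN ht) u hu) ((Tg g).inv_mem hu)
      have h3 : t * u * t⁻¹ * u⁻¹ ∈ T ⊓ Tg g := ⟨h1, h2⟩
      rw [hS, Subgroup.mem_bot] at h3
      have : t * u * t⁻¹ = u := by
        rw [mul_inv_eq_one] at h3; exact h3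
      rw [mul_inv_eq_iff_eq_mul] at this
      exact this
    · left
      have h1 : T ⊓ Tg g = T := by
        apply hTmin _ hS inf_le_left
        intro n hn t ht
        exact ⟨hTn n hn t ht.1, hTgn g n hn t ht.2⟩
      have h2 : T ≤ Tg g := inf_eq_left.mp h1
      have hcard : Nat.card (Tg g) = Nat.card T :=
        Nat.card_congr ((MulEquiv.subgroupMap (MulAut.conj g) T).symm.toEquiv)
      exact (Subgroup.eq_of_le_of_card_ge h2 hcard.le).symm
  -- a conjugate different from `T`
  obtain ⟨g₀, hg₀⟩ : ∃ g, Tg g ≠ T := by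
    by_contra hcon
    push Not at hcon
    apply hnorm
    refine ⟨fun t ht g => ?_⟩
    have : g * t * g⁻¹ ∈ Tg g := by
      rw [hTgmem]; simpa [mul_assoc] using ht
    rwa [hcon g] at this
  obtain ⟨hcomm₀, hdisj₀⟩ := (hdich g₀).resolve_left hg₀
  have hTtrans : IsPretransitive T α := transitive_of_normalized N T hT1 hTN hTn
  have hT'trans : IsPretransitive (Tg g₀) α :=
    transitive_of_normalized N (Tg g₀) (hTgne g₀) (hTgN g₀) (hTgn g₀)
  -- `T` is regular
  have hreg : ∀ t ∈ T, ∀ x : α, t • x = x → t = 1 := by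
    intro t ht x hx
    refine eq_one_of_mem_centralizer_of_smul_eq (Tg g₀) ?_ hx
    rw [Subgroup.mem_centralizer_iff]
    intro u hu
    exact (hcomm₀ t ht u hu).symm
  have hcentsemi : ∀ c : Γ, (∀ t ∈ T, c * t = t * c) → ∀ x : α, c • x = x → c = 1 := by
    intro c hc x hx
    refine eq_one_of_mem_centralizer_of_smul_eq T ?_ hx
    rw [Subgroup.mem_centralizer_iff]
    intro u hu
    exact (hc u hu).symm
  -- a point
  have hntT : Nontrivial T := (Subgroup.nontrivial_iff_ne_bot T).mpr hT1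
  obtain ⟨t₀, ht₀⟩ := exists_ne (1 : T)
  obtain ⟨x, -⟩ : ∃ x : α, True := by
    by_contra hcon
    push Not at hcon
    apply ht₀
    apply Subtype.ext
    apply FaithfulSMul.eq_of_smul_eq_smul (α := α)
    intro z
    exact (hcon z).elim
  -- all non-identity elements of `T` have the same order
  have hsame : ∀ a b : T, a ≠ 1 → b ≠ 1 → orderOf a = orderOf b := by
    intro a b ha hb
    have hax : (a : Γ) • x ≠ x := fun h => ha (Subtype.ext (hreg a a.2 x h))
    have hbx : (b : Γ) • x ≠ x := fun h => hb (Subtype.ext (hreg b b.2 x h))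
    obtain ⟨g, hg, hgb⟩ := exists_mem_stabilizer_smul_eq (G := Γ) hax hbx
    have hgx : g • x = x := mem_stabilizer_iff.mp hg
    have hgx' : g⁻¹ • x = x := by rw [inv_smul_eq_iff, hgx]
    set c : Γ := g * (a : Γ) * g⁻¹ with hc
    have hcord : orderOf c = orderOf a := by
      rw [← Subgroup.orderOf_coe a, hc]
      have := (MulAut.conj g).orderOf_eq (a : Γ)
      rwa [MulAut.conj_apply] at this
    have hcx : c • x = (b : Γ) • x := by
      rw [hc, mul_smul, mul_smul, hgx', hgb]
    have hcmem : c ∈ Tg g := by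
      rw [hTgmem, hc]; simpa [mul_assoc] using a.2
    rw [← hcord, ← Subgroup.orderOf_coe b]
    rcases hdich g with he | ⟨hcomm, -⟩
    · rw [he] at hcmem
      have h1 : ((b : Γ)⁻¹ * c) • x = x := by rw [mul_smul, hcx, inv_smul_smul]
      have := hreg _ (T.mul_mem (T.inv_mem b.2) hcmem) x h1
      rw [inv_mul_eq_one] at this
      rw [this]
    · have hcb : Commute c (b : Γ) := (hcomm b b.2 c hcmem).symm
      have hpow : ∀ k : ℕ, c ^ k • x = (b : Γ) ^ k • x := by
        intro k
        induction k with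
        | zero => simp
        | succ k ih =>
          rw [pow_succ, mul_smul, hcx, ← mul_smul, (hcb.pow_left k).eq, mul_smul, ih, ← mul_smul,
            ← pow_succ']
      apply orderOf_eq_orderOf_iff.mpr
      intro k
      constructor
      · intro h
        have h1 := hpow k
        rw [h, one_smul] at h1
        exact hreg _ (T.pow_mem b.2 k) x h1.symm
      · intro h
        have h1 := hpow k
        rw [h, one_smul] at h1
        apply hcentsemi _ _ x h1
        intro t ht
        have := (hcomm t ht c hcmem)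
        exact ((Commute.pow_left (show Commute c t from this.symm) k)).eq
  obtain ⟨p, hp, hpg, hord⟩ := exists_prime_of_same_order hsame
  have : Fact p.Prime := ⟨hp⟩
  have hcen := hpg.center_nontrivial
  obtain ⟨z, hz⟩ := exists_ne (1 : Subgroup.center T)
  have hz1 : ((z : T) : Γ) ≠ 1 := fun h => hz (Subtype.ext (Subtype.ext h))
  -- the centre of `T` is `T`
  let Z : Subgroup Γ := T ⊓ Subgroup.centralizer (T : Set Γ)
  have hZmem : ((z : T) : Γ) ∈ Z := by
    refine ⟨(z : T).2, Subgroup.mem_centralizer_iff.mpr ?_⟩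
    intro t ht
    have := Subgroup.mem_center_iff.mp z.2 ⟨t, ht⟩
    exact congrArg Subtype.val this
  have hZ : Z = T := by
    apply hTmin Z
    · intro h
      rw [h, Subgroup.mem_bot] at hZmem
      exact hz1 hZmem
    · exact inf_le_left
    · intro n hn t ht
      refine ⟨hTn n hn t ht.1, Subgroup.mem_centralizer_iff.mpr ?_⟩
      intro s hs
      have hs' : n⁻¹ * s * n ∈ T := by
        have := hTn n⁻¹ (N.inv_mem hn) s hs
        simpa using this
      have := Subgroup.mem_centralizer_iff.mp ht.2 _ hs'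
      calc s * (n * t * n⁻¹) = n * ((n⁻¹ * s * n) * t) * n⁻¹ := by group
        _ = n * (t * (n⁻¹ * s * n)) * n⁻¹ := by rw [this]
        _ = n * t * n⁻¹ * s := by group
  have hTab : ∀ a ∈ T, ∀ b ∈ T, a * b = b * a := by
    intro a ha b hb
    have : b ∈ Z := hZ ▸ hb
    exact Subgroup.mem_centralizer_iff.mp this.2 a ha
  -- so `Tg g₀ ≤ T`
  have hle : Tg g₀ ≤ T := by
    intro u hu
    obtain ⟨t, ht, htx⟩ := exists_mem_smul_eq T x (u • x)
    have h1 : (t⁻¹ * u) • x = x := by rw [mul_smul, ← htx, inv_smul_smul]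
    have h2 := hcentsemi (t⁻¹ * u) ?_ x h1
    · rw [inv_mul_eq_one] at h2
      exact h2 ▸ ht
    · intro s hs
      have h3 := hcomm₀ s hs u hu
      have h4 := hTab s hs t ht
      calc t⁻¹ * u * s = t⁻¹ * (s * u) := by rw [mul_assoc, ← h3]
        _ = s * (t⁻¹ * u) := by
          rw [← mul_assoc, ← mul_assoc]
          congr 1
          rw [inv_mul_eq_iff_eq_mul, ← mul_assoc, ← h4, mul_assoc, mul_inv_cancel, mul_one]
  apply hTgne g₀
  rw [eq_bot_iff]
  intro u hu
  have : u ∈ T ⊓ Tg g₀ := ⟨hle hu, hu⟩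
  rwa [hdisj₀] at this

theorem isSimple_of_primitive [Finite Γ] [FaithfulSMul Γ α] (N : Subgroup Γ) [hNn : N.Normal]
    (hNb : N ≠ ⊥)
    (hmin : ∀ M : Subgroup Γ, M.Normal → M ≤ N → M = ⊥ ∨ M = N) [IsPreprimitive N α] :
    IsSimpleGroup N := by
  classical
  have : Nontrivial N := (Subgroup.nontrivial_iff_ne_bot N).mpr hNb
  refine ⟨fun S hS => ?_⟩
  by_contra hcon
  push Not at hcon
  obtain ⟨hS1, hS2⟩ := hcon
  let S' : Subgroup Γ := S.map N.subtype
  have hS'N : S' ≤ N := by
    rintro _ ⟨s, -, rfl⟩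
    exact s.2
  have hS'n : ∀ n ∈ N, ∀ t ∈ S', n * t * n⁻¹ ∈ S' := by
    rintro n hn _ ⟨s, hs, rfl⟩
    exact ⟨⟨n, hn⟩ * s * ⟨n, hn⟩⁻¹, hS.conj_mem s hs _, rfl⟩
  have hS'1 : S' ≠ ⊥ := by
    intro h
    apply hS1
    rw [eq_bot_iff]
    intro s hs
    have : (s : Γ) ∈ S' := ⟨s, hs, rfl⟩
    rw [h, Subgroup.mem_bot] at this
    rw [Subgroup.mem_bot]
    exact Subtype.ext this
  let 𝒮 : Set (Subgroup Γ) :=
    {T | T ≠ ⊥ ∧ T ≤ S' ∧ ∀ n ∈ N, ∀ t ∈ T, n * t * n⁻¹ ∈ T}
  have h𝒮 : 𝒮.Nonempty := ⟨S', hS'1, le_rfl, hS'n⟩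
  obtain ⟨T, hT⟩ := (Set.toFinite 𝒮).exists_minimal h𝒮
  have hTN : T = N := by
    apply eq_of_minimal_of_primitive (α := α) N hmin T hT.1.1 (hT.1.2.1.trans hS'N) hT.1.2.2
    intro R hR1 hRT hRn
    have hR : R ∈ 𝒮 := ⟨hR1, hRT.trans hT.1.2.1, hRn⟩
    exact le_antisymm hRT (hT.2 hR hRT)
  apply hS2
  rw [eq_top_iff]
  intro n _
  have hnT : (n : Γ) ∈ T := hTN ▸ n.2
  obtain ⟨s, hs, hsn⟩ := hT.1.2.1 hnT
  have : s = n := Subtype.ext hsn
  exact this ▸ hs

end core

/-- Burnside's Theorem on doubly transitive groups: a minimal normal subgroup of a finite doubly transitive permutation group is elementary abelian and regular, or simple and primitive. -/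
theorem result {α : Type*} [Fintype α] [DecidableEq α] (G : Subgroup (Equiv.Perm α)) (hG : MulAction.IsMultiplyPretransitive G α 2) (N : Subgroup G) [N.Normal] (hN : N ≠ ⊥) (hmin : ∀ M : Subgroup G, M.Normal → M ≤ N → M = ⊥ ∨ M = N) : (IsMulCommutative N ∧ (∃ p : ℕ, p.Prime ∧ ∀ n ∈ N, n ^ p = 1) ∧ ∀ a : α, MulAction.stabilizer N a = ⊥) ∨ (IsSimpleGroup N ∧ MulAction.IsPreprimitive N α) := by
  classical
  have := hG
  by_cases hreg : ∀ a : α, stabilizer N a = ⊥
  · left
    obtain ⟨h1, h2⟩ := regular_case (α := α) N hN hreg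
    exact ⟨h1, h2, hreg⟩
  · right
    push Not at hreg
    obtain ⟨a, ha⟩ := hreg
    -- `α` nontrivial since the stabilizer is nontrivial
    have hnt : Nontrivial α := by
      by_contra hcon
      rw [not_nontrivial_iff_subsingleton] at hcon
      apply ha
      rw [eq_bot_iff]
      intro n _
      rw [Subgroup.mem_bot]
      apply Subtype.ext
      apply Subtype.ext
      apply Equiv.ext
      intro z
      exact Subsingleton.elim _ _
    have hprim : IsPreprimitive G α := isPreprimitive_of_is_two_pretransitive hG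
    have htrans : IsPretransitive N α := isPretransitive_of_normal_of_ne_bot N hN
    have hNprim : IsPreprimitive N α := isPreprimitive_of_nonregular N hmin a ha
    exact ⟨isSimple_of_primitive (α := α) N hN hmin, hNprim⟩

end Cfsg.Agent.S0700
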