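import Cfsg.Statements.S0701
import Mathlib
-- import your own Cfsg.Agent.* helpers here

set_option autoImplicit false
open Cfsg

namespace Cfsg.Agent.S0701

/-- The centraliser in the full symmetric group of a transitive permutation group `G` is semiregular, and it is transitive if and only if `G` is regular. -/
theorem result {α : Type*} (G : Subgroup (Equiv.Perm α)) [MulAction.IsPretransitive G α] : (∀ c ∈ Subgroup.centralizer (G : Set (Equiv.Perm α)), ∀ a : α, c a = a → c = 1) ∧ (MulAction.IsPretransitive (Subgroup.centralizer (G : Set (Equiv.Perm α))) α ↔ ∀ a : α, MulAction.stabilizer G a = ⊥) := by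
  classical
  have htr : ∀ a b : α, ∃ g : G, (g : Equiv.Perm α) a = b := by
    intro a b
    obtain ⟨m, hm⟩ := MulAction.IsPretransitive.exists_smul_eq (M := G) a b
    exact ⟨m, hm⟩
  refine ⟨?_, ?_, ?_⟩
  · intro c hc a ha
    ext b
    obtain ⟨g, rfl⟩ := htr a b
    have h1 := Subgroup.mem_centralizer_iff.mp hc _ g.2
    have h2 := congrArg (fun f : Equiv.Perm α => f a) h1
    simp only [Equiv.Perm.mul_apply, ha] at h2
    simp only [Equiv.Perm.one_apply]
    exact h2.symm
  · intro hC a
    rw [eq_bot_iff]
    intro g hg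
    have hg' : (g : Equiv.Perm α) a = a := hg
    rw [Subgroup.mem_bot]
    apply Subtype.ext
    ext b
    obtain ⟨c, hc⟩ := MulAction.IsPretransitive.exists_smul_eq (M := Subgroup.centralizer (G : Set (Equiv.Perm α))) a b
    have hc' : (c : Equiv.Perm α) a = b := hc
    rw [← hc']
    have h1 := Subgroup.mem_centralizer_iff.mp c.2 _ g.2
    have h2 := congrArg (fun f : Equiv.Perm α => f a) h1
    simp only [Equiv.Perm.mul_apply, hg'] at h2
    simpa using h2
  · intro hreg
    refine ⟨fun a b => ?_⟩
    have hinj : ∀ a : α, Function.Injective (fun g : G => (g : Equiv.Perm α) a) := by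
      intro a g h hgh
      have h1 : h⁻¹ * g ∈ MulAction.stabilizer G a := by
        rw [MulAction.mem_stabilizer_iff]
        show ((h⁻¹ * g : G) : Equiv.Perm α) a = a
        have hgh' : (g : Equiv.Perm α) a = (h : Equiv.Perm α) a := hgh
        simp [hgh']
      rw [hreg a, Subgroup.mem_bot] at h1
      exact (inv_mul_eq_one.mp h1).symm
    have hsurj : ∀ a : α, Function.Surjective (fun g : G => (g : Equiv.Perm α) a) := by
      intro a b
      exact htr a b
    let ea : G ≃ α := Equiv.ofBijective _ ⟨hinj a, hsurj a⟩
    let eb : G ≃ α := Equiv.ofBijective _ ⟨hinj b, hsurj b⟩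
    let c : Equiv.Perm α := ea.symm.trans eb
    have hcg : ∀ g : G, c ((g : Equiv.Perm α) a) = (g : Equiv.Perm α) b := by
      intro g
      have : ea.symm ((g : Equiv.Perm α) a) = g := by
        apply ea.injective
        rw [Equiv.apply_symm_apply]
        rfl
      show eb (ea.symm _) = _
      rw [this]
      rfl
    have hcmem : c ∈ Subgroup.centralizer (G : Set (Equiv.Perm α)) := by
      rw [Subgroup.mem_centralizer_iff]
      intro h hh
      ext x
      obtain ⟨g, rfl⟩ := htr a x
      have h1 := hcg (⟨h, hh⟩ * g)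
      simp only [Subgroup.coe_mul, Equiv.Perm.mul_apply] at h1 ⊢
      rw [hcg g, h1]
    refine ⟨⟨c, hcmem⟩, ?_⟩
    show c a = b
    have := hcg 1
    simpa using this

end Cfsg.Agent.S0701
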