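import Cfsg.Statements.S0702
import Mathlib
-- import your own Cfsg.Agent.* helpers here

set_option autoImplicit false
open Cfsg

namespace Cfsg.Agent.S0702

open MulAction

/-- The key construction, for a general transitive action. -/
theorem core {α : Type*} {G : Type*} [Group G] [MulAction G α]
    [IsPretransitive G α] (a : α) :
    ∃ ψ : Subgroup.normalizer ((stabilizer G a : Subgroup G) : Set G) →* Equiv.Perm α,
      (∀ (g : Subgroup.normalizer ((stabilizer G a : Subgroup G) : Set G)) (h : G),
        ψ g (h • a) = h • ((g : G)⁻¹ • a)) := by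
  classical
  have hex : ∀ x : α, ∃ u : G, u • a = x := fun x => exists_smul_eq G a x
  choose u hu using hex
  set N := Subgroup.normalizer ((stabilizer G a : Subgroup G) : Set G) with hN
  let f : N → α → α := fun g x => u x • ((g : G)⁻¹ • a)
  have hf : ∀ (g : N) (h : G), f g (h • a) = h • ((g : G)⁻¹ • a) := by
    intro g h
    show u (h • a) • ((g : G)⁻¹ • a) = _
    have hs : (u (h • a))⁻¹ * h ∈ stabilizer G a := by
      rw [mem_stabilizer_iff, mul_smul, inv_smul_eq_iff, hu]
    have hs' : (g : G) * ((u (h • a))⁻¹ * h) * (g : G)⁻¹ ∈ stabilizer G a :=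
      (Subgroup.mem_normalizer_iff.mp g.prop _).mp hs
    rw [mem_stabilizer_iff] at hs'
    have h3 : h * (g : G)⁻¹ = u (h • a) * ((g : G)⁻¹ * ((g : G) * ((u (h • a))⁻¹ * h) * (g : G)⁻¹)) := by
      group
    rw [← mul_smul h, h3, mul_smul, mul_smul, hs']
  have hone : ∀ x, f 1 x = x := by
    intro x
    show u x • ((1 : G)⁻¹ • a) = x
    rw [inv_one, one_smul, hu]
  have hmul : ∀ (g g' : N) (x : α), f (g * g') x = f g (f g' x) := by
    intro g g' x
    show u x • (((g : G) * (g' : G))⁻¹ • a) = f g (u x • ((g' : G)⁻¹ • a))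
    have h1 : u x • ((g' : G)⁻¹ • a) = (u x * (g' : G)⁻¹) • a := (mul_smul _ _ _).symm
    rw [h1, hf, mul_inv_rev, mul_smul, mul_smul]
  let ψ : N →* Equiv.Perm α :=
    { toFun := fun g =>
        { toFun := f g
          invFun := f g⁻¹
          left_inv := fun x => by
            rw [← hmul, inv_mul_cancel, hone]
          right_inv := fun x => by
            rw [← hmul, mul_inv_cancel, hone] }
      map_one' := by
        ext x
        exact hone x
      map_mul' := fun g g' => by
        ext x
        exact hmul g g' x }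
  exact ⟨ψ, fun g h => hf g h⟩

/-- For a transitive permutation group `G` on a finite set, the centraliser of `G` in the symmetric group is isomorphic to `N_G(G_ω)/G_ω`, and its orbit of `ω` is the set of fixed points of `G_ω`. -/
theorem result {α : Type*} [Finite α] (G : Subgroup (Equiv.Perm α)) [MulAction.IsPretransitive G α] (a : α) : Nonempty (Subgroup.centralizer (G : Set (Equiv.Perm α)) ≃* Subgroup.normalizer ((MulAction.stabilizer G a : Subgroup G) : Set G) ⧸ (MulAction.stabilizer G a).subgroupOf (Subgroup.normalizer ((MulAction.stabilizer G a : Subgroup G) : Set G))) ∧ MulAction.orbit (Subgroup.centralizer (G : Set (Equiv.Perm α))) a = MulAction.fixedPoints (MulAction.stabilizer G a) α := by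
  classical
  haveI : Finite (Equiv.Perm α) := inferInstance
  haveI : Finite G := inferInstance
  set N := Subgroup.normalizer ((stabilizer G a : Subgroup G) : Set G) with hN
  obtain ⟨ψ, hψ⟩ := core (G := G) (α := α) a
  have hcent : ∀ g : N, ψ g ∈ Subgroup.centralizer (G : Set (Equiv.Perm α)) := by
    intro g
    rw [Subgroup.mem_centralizer_iff]
    intro k hk
    ext x
    obtain ⟨h, rfl⟩ := exists_smul_eq G a x
    show k (ψ g (h • a)) = ψ g (k (h • a))
    have h1 : k (h • a) = (⟨k, hk⟩ * h : G) • a := by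
      rw [mul_smul]
      rfl
    rw [h1, hψ, hψ, mul_smul]
    rfl
  let ψ' : N →* Subgroup.centralizer (G : Set (Equiv.Perm α)) := ψ.codRestrict _ hcent
  have hmemN : ∀ g : G, (∀ s : G, s • a = a → ((g⁻¹ : G) • a) = s • ((g⁻¹ : G) • a)) →
      (∀ s : G, s • ((g⁻¹ : G) • a) = (g⁻¹ : G) • a → s • a = a) →
      g ∈ N := by
    intro g h1 h2
    rw [hN, Subgroup.mem_normalizer_iff]
    intro s
    rw [mem_stabilizer_iff, mem_stabilizer_iff]
    constructor
    · intro hs
      rw [mul_smul, mul_smul, ← h1 s hs, smul_inv_smul]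
    · intro hs
      apply h2
      rw [mul_smul, mul_smul, smul_eq_iff_eq_inv_smul] at hs
      exact hs
  have hsurj : Function.Surjective ψ' := by
    intro c
    obtain ⟨g₀, hg₀⟩ := exists_smul_eq G a ((c : Equiv.Perm α) a)
    have hcc : ∀ s : G, s • ((c : Equiv.Perm α) a) = (c : Equiv.Perm α) (s • a) := by
      intro s
      have h1 := (Subgroup.mem_centralizer_iff.mp c.prop) s s.prop
      exact congrArg (fun e : Equiv.Perm α => e a) h1
    have hg : g₀⁻¹ ∈ N := by
      apply hmemN
      · intro s hs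
        rw [inv_inv, hg₀, hcc, hs]
      · intro s hs
        rw [inv_inv, hg₀, hcc] at hs
        exact (c : Equiv.Perm α).injective hs
    refine ⟨⟨g₀⁻¹, hg⟩, ?_⟩
    apply Subtype.ext
    ext x
    obtain ⟨h, rfl⟩ := exists_smul_eq G a x
    show ψ ⟨g₀⁻¹, hg⟩ (h • a) = (c : Equiv.Perm α) (h • a)
    rw [hψ]
    show h • ((g₀⁻¹)⁻¹ • a) = _
    rw [inv_inv, hg₀, hcc]
  have hker : (stabilizer G a).subgroupOf N = ψ'.ker := by
    ext g
    rw [Subgroup.mem_subgroupOf, mem_stabilizer_iff, MonoidHom.mem_ker]
    constructor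
    · intro h
      apply Subtype.ext
      ext x
      obtain ⟨k, rfl⟩ := exists_smul_eq G a x
      show ψ g (k • a) = k • a
      rw [hψ, inv_smul_eq_iff.mpr h.symm]
    · intro h
      have h1 : ψ g ((1 : G) • a) = (1 : G) • ((g : G)⁻¹ • a) := hψ g 1
      have h2 : ψ g = 1 := congrArg Subtype.val h
      rw [h2, one_smul, one_smul] at h1
      have h3 : a = (g : G)⁻¹ • a := h1
      exact (smul_eq_iff_eq_inv_smul (g : G)).mpr h3
  refine ⟨⟨((QuotientGroup.quotientMulEquivOfEq hker).trans
    (QuotientGroup.quotientKerEquivOfSurjective ψ' hsurj)).symm⟩, ?_⟩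
  ext b
  constructor
  · rintro ⟨c, rfl⟩
    rw [mem_fixedPoints]
    intro s
    have h1 := (Subgroup.mem_centralizer_iff.mp c.prop) (s : G) (s : G).prop
    have h2 := congrArg (fun e : Equiv.Perm α => e a) h1
    have hsa : (s : G) • a = a := s.prop
    show (s : G) • ((c : Equiv.Perm α) a) = (c : Equiv.Perm α) a
    have h3 : ((s : G) : Equiv.Perm α) ((c : Equiv.Perm α) a) =
      (c : Equiv.Perm α) (((s : G) : Equiv.Perm α) a) := h2
    have h4 : ((s : G) : Equiv.Perm α) a = a := hsa
    rw [h4] at h3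
    exact h3
  · intro hb
    rw [mem_fixedPoints] at hb
    obtain ⟨g₀, hg₀⟩ := exists_smul_eq G a b
    have hg : g₀⁻¹ ∈ N := by
      apply hmemN
      · intro s hs
        rw [inv_inv, hg₀]
        exact (hb ⟨s, hs⟩).symm
      · intro s hs
        rw [inv_inv, hg₀] at hs
        -- finiteness: conjugation by `g₀` is a bijection of `G_a` onto `G_b`
        have hle : ∀ t : stabilizer G a, g₀⁻¹ * (t : G) * g₀ ∈ stabilizer G a := by
          intro t
          rw [mem_stabilizer_iff, mul_smul, mul_smul, hg₀, inv_smul_eq_iff, ← hg₀]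
          have := hb t
          rw [← hg₀] at this
          exact this
        let φ : stabilizer G a → stabilizer G a := fun t => ⟨g₀⁻¹ * (t : G) * g₀, hle t⟩
        have hφinj : Function.Injective φ := by
          intro t t' h
          have h1 : g₀⁻¹ * (t : G) * g₀ = g₀⁻¹ * (t' : G) * g₀ := congrArg Subtype.val h
          apply Subtype.ext
          simpa using h1
        have hφsurj : Function.Surjective φ := Finite.injective_iff_surjective.mp hφinj
        have hsmem : g₀⁻¹ * s * g₀ ∈ stabilizer G a := by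
          rw [mem_stabilizer_iff, mul_smul, mul_smul, hg₀, hs, ← hg₀, inv_smul_smul]
        obtain ⟨t, ht⟩ := hφsurj ⟨_, hsmem⟩
        have h5 : g₀⁻¹ * (t : G) * g₀ = g₀⁻¹ * s * g₀ := congrArg Subtype.val ht
        have h6 : (t : G) = s := by simpa using h5
        rw [← h6]
        exact t.prop
    refine ⟨ψ' ⟨g₀⁻¹, hg⟩, ?_⟩
    show ψ ⟨g₀⁻¹, hg⟩ a = b
    have h7 := hψ ⟨g₀⁻¹, hg⟩ 1
    rw [one_smul, one_smul] at h7
    rw [h7]
    show (g₀⁻¹)⁻¹ • a = b
    rw [inv_inv, hg₀]

end Cfsg.Agent.S0702
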