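import Cfsg.Statements.S0703
import Mathlib
-- import your own Cfsg.Agent.* helpers here

set_option autoImplicit false
open Cfsg

namespace Cfsg.Agent.S0703

/-- An abelian transitive minimal normal subgroup `M` of a permutation group on a finite set is self-centralising in the symmetric group, regular, elementary abelian, and is the unique minimal normal subgroup. -/
theorem result {α : Type*} [Finite α] (G : Subgroup (Equiv.Perm α)) (M : Subgroup G) [M.Normal] (hM : M ≠ ⊥) (hmin : ∀ L : Subgroup G, L.Normal → L ≤ M → L = ⊥ ∨ L = M) (hab : IsMulCommutative M) (htrans : MulAction.IsPretransitive M α) : Subgroup.centralizer ((M.map G.subtype : Subgroup (Equiv.Perm α)) : Set (Equiv.Perm α)) = M.map G.subtype ∧ (∀ a : α, MulAction.stabilizer M a = ⊥) ∧ (∃ p : ℕ, p.Prime ∧ ∀ m ∈ M, m ^ p = 1) ∧ ∀ L : Subgroup G, L.Normal → L ≠ ⊥ → (∀ L' : Subgroup G, L'.Normal → L' ≤ L → L' = ⊥ ∨ L' = L) → L = M := by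
  classical
  set M' : Subgroup (Equiv.Perm α) := M.map G.subtype with hM'
  have hmem : ∀ m : M, ((m : G) : Equiv.Perm α) ∈ M' := fun m => ⟨m, m.2, rfl⟩
  have hcomm : ∀ x ∈ M, ∀ y ∈ M, x * y = y * x := by
    intro x hx y hy
    have := hab.is_comm.comm ⟨x, hx⟩ ⟨y, hy⟩
    simpa using congrArg Subtype.val this
  have htr : ∀ a b : α, ∃ m : M, ((m : G) : Equiv.Perm α) a = b := by
    intro a b
    obtain ⟨m, hm⟩ := htrans.exists_smul_eq a b
    exact ⟨m, hm⟩
  have hsemi : ∀ c ∈ Subgroup.centralizer (M' : Set (Equiv.Perm α)), ∀ a, c a = a → c = 1 := by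
    intro c hc a ha
    ext b
    obtain ⟨m, rfl⟩ := htr a b
    have h1 := Subgroup.mem_centralizer_iff.mp hc _ (hmem m)
    have h2 := congrArg (fun f : Equiv.Perm α => f a) h1
    simp only [Equiv.Perm.mul_apply, ha] at h2
    simp only [Equiv.Perm.one_apply]
    exact h2.symm
  have hle : M' ≤ Subgroup.centralizer (M' : Set (Equiv.Perm α)) := by
    rintro _ ⟨x, hx, rfl⟩
    rw [Subgroup.mem_centralizer_iff]
    rintro _ ⟨y, hy, rfl⟩
    have := hcomm x hx y hy
    have h3 := congrArg (fun g : G => (g : Equiv.Perm α)) this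
    simpa using h3.symm
  have hcent : Subgroup.centralizer (M' : Set (Equiv.Perm α)) = M' := by
    apply le_antisymm _ hle
    intro c hc
    by_cases hα : Nonempty α
    · obtain ⟨a⟩ := hα
      obtain ⟨m, hm⟩ := htr a (c a)
      have hm' := hmem m
      have h1 : ((m : G) : Equiv.Perm α)⁻¹ * c ∈ Subgroup.centralizer (M' : Set (Equiv.Perm α)) :=
        mul_mem (inv_mem (hle hm')) hc
      have h2 : ((m : G) : Equiv.Perm α)⁻¹ * c = 1 := by
        apply hsemi _ h1 a
        simp [Equiv.Perm.mul_apply, ← hm]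
      have h3 : c = ((m : G) : Equiv.Perm α) := by
        rw [inv_mul_eq_one] at h2
        exact h2.symm
      rw [h3]; exact hm'
    · have : c = 1 := by
        ext b
        exact (hα ⟨b⟩).elim
      rw [this]; exact one_mem _
  have hstab : ∀ a : α, MulAction.stabilizer M a = ⊥ := by
    intro a
    rw [eq_bot_iff]
    intro m hm
    have hm1 : ((m : G) : Equiv.Perm α) a = a := hm
    have := hsemi _ (hle (hmem m)) a hm1
    rw [Subgroup.mem_bot]
    ext1
    ext1
    simpa using this
  haveI : Finite G := inferInstance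
  have hprime : ∃ p : ℕ, p.Prime ∧ ∀ m ∈ M, m ^ p = 1 := by
    -- pick a prime dividing |M|
    have hMnt : Nontrivial M := (Subgroup.nontrivial_iff_ne_bot M).mpr hM
    obtain ⟨p, hp, hdvd⟩ := Nat.exists_prime_and_dvd (Finite.one_lt_card (α := M)).ne'
    haveI : Fact p.Prime := ⟨hp⟩
    refine ⟨p, hp, ?_⟩
    -- the subgroup of elements of order dividing p
    let L : Subgroup G :=
      { carrier := {x | x ∈ M ∧ x ^ p = 1}
        one_mem' := ⟨one_mem _, one_pow _⟩
        mul_mem' := by
          rintro x y ⟨hx, hx'⟩ ⟨hy, hy'⟩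
          refine ⟨mul_mem hx hy, ?_⟩
          have hc : Commute x y := hcomm x hx y hy
          rw [hc.mul_pow, hx', hy', one_mul]
        inv_mem' := by
          rintro x ⟨hx, hx'⟩
          exact ⟨inv_mem hx, by rw [inv_pow, hx', inv_one]⟩ }
    have hLn : L.Normal := by
      refine ⟨?_⟩
      rintro x ⟨hx, hx'⟩ g
      refine ⟨‹M.Normal›.conj_mem x hx g, ?_⟩
      rw [conj_pow, hx', mul_one, mul_inv_cancel]
    have hLle : L ≤ M := fun x hx => hx.1
    obtain ⟨x, hx⟩ := exists_prime_orderOf_dvd_card' (G := M) p hdvd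
    have hLne : L ≠ ⊥ := by
      intro h
      have hxL : (x : G) ∈ L := ⟨x.2, by
        have : x ^ p = 1 := by rw [← hx]; exact pow_orderOf_eq_one x
        simpa using congrArg Subtype.val this⟩
      rw [h, Subgroup.mem_bot] at hxL
      have hx1 : x = 1 := Subtype.ext hxL
      rw [hx1, orderOf_one] at hx
      exact hp.one_lt.ne hx
    rcases hmin L hLn hLle with h | h
    · exact (hLne h).elim
    · intro m hm
      rw [← h] at hm
      exact hm.2
  refine ⟨hcent, hstab, hprime, ?_⟩
  intro L hLn hLne hLmin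
  haveI := hLn
  have hinf : L ⊓ M ≤ M := inf_le_right
  rcases hmin (L ⊓ M) inferInstance hinf with h | h
  · -- L commutes with M
    exfalso
    apply hLne
    have hcomm' : ∀ l ∈ L, ∀ m ∈ M, l * m = m * l := by
      intro l hl m hm
      have h1 : l * m * l⁻¹ * m⁻¹ ∈ L ⊓ M := by
        constructor
        · have : l * (m * l⁻¹ * m⁻¹) ∈ L := mul_mem hl (hLn.conj_mem _ (inv_mem hl) m)
          simpa [mul_assoc] using this
        · have : (l * m * l⁻¹) * m⁻¹ ∈ M := mul_mem (‹M.Normal›.conj_mem m hm l) (inv_mem hm)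
          exact this
      rw [h, Subgroup.mem_bot] at h1
      have h2 : l * m * l⁻¹ = m := by
        rwa [mul_inv_eq_one] at h1
      rwa [mul_inv_eq_iff_eq_mul] at h2
    rw [eq_bot_iff]
    intro l hl
    have h1 : (l : Equiv.Perm α) ∈ Subgroup.centralizer (M' : Set (Equiv.Perm α)) := by
      rw [Subgroup.mem_centralizer_iff]
      rintro _ ⟨m, hm, rfl⟩
      have := hcomm' l hl m hm
      have h3 := congrArg (fun g : G => (g : Equiv.Perm α)) this
      simpa using h3.symm
    rw [hcent] at h1
    obtain ⟨m, hm, hml⟩ := h1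
    have hml' : m = l := Subtype.ext hml
    subst hml'
    have : m ∈ L ⊓ M := ⟨hl, hm⟩
    rwa [h] at this
  · -- M ≤ L
    have hML : M ≤ L := by
      intro m hm
      rw [← h] at hm
      exact hm.1
    rcases hLmin M inferInstance hML with h' | h'
    · exact (hM h').elim
    · exact h'.symm

end Cfsg.Agent.S0703
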