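import Cfsg.Statements.S0704
import Mathlib

set_option autoImplicit false
open Cfsg

namespace Cfsg.Agent.S0704

private lemma fix_eq_one {α : Type*} (A : Subgroup (Equiv.Perm α)) (hA : ∀ a b : α, ∃ x ∈ A, x a = b)
    (c : Equiv.Perm α) (hc : ∀ x ∈ A, x * c = c * x) (a : α) (hca : c a = a) : c = 1 := by
  ext b
  obtain ⟨x, hx, rfl⟩ := hA a b
  have := congrArg (fun f : Equiv.Perm α => f a) (hc x hx)
  simp only [Equiv.Perm.coe_mul, Function.comp_apply, hca] at this
  simpa using this.symm

private lemma centralizer_eq {α : Type*} (A B : Subgroup (Equiv.Perm α))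
    (hA : ∀ a b : α, ∃ x ∈ A, x a = b) (hB : ∀ a b : α, ∃ x ∈ B, x a = b)
    (hcomm : ∀ x ∈ A, ∀ y ∈ B, x * y = y * x) (a : α) :
    Subgroup.centralizer (A : Set (Equiv.Perm α)) = B := by
  ext c
  rw [Subgroup.mem_centralizer_iff]
  constructor
  · intro hc
    obtain ⟨y, hy, hya⟩ := hB a (c a)
    have h1 : y⁻¹ * c = 1 := by
      apply fix_eq_one A hA _ _ a
      · simp [hya.symm]
      · intro x hx
        have h2 := hc x hx
        have h3 := hcomm x hx y hy
        calc x * (y⁻¹ * c) = (x * y⁻¹) * c := by group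
          _ = (y⁻¹ * x) * c := by
              congr 1
              calc x * y⁻¹ = y⁻¹ * (y * x) * y⁻¹ := by group
                _ = y⁻¹ * (x * y) * y⁻¹ := by rw [h3]
                _ = y⁻¹ * x := by group
          _ = y⁻¹ * (x * c) := by group
          _ = y⁻¹ * (c * x) := by rw [← h2]
          _ = y⁻¹ * c * x := by group
    have : c = y := by
      have := congrArg (fun f => y * f) h1
      simpa using this
    rw [this]
    exact hy
  · intro hc x hx
    exact (hcomm x hx c hc)

/-- Two distinct transitive minimal normal subgroups `M`, `N` of a permutation group are regular, non-abelian, isomorphic, each other's centraliser in the symmetric group, and the only minimal normal subgroups. -/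
theorem result {α : Type*} (G : Subgroup (Equiv.Perm α)) (M N : Subgroup G) [M.Normal] [N.Normal] (hM : M ≠ ⊥) (hN : N ≠ ⊥) (hMmin : ∀ L : Subgroup G, L.Normal → L ≤ M → L = ⊥ ∨ L = M) (hNmin : ∀ L : Subgroup G, L.Normal → L ≤ N → L = ⊥ ∨ L = N) (hMN : M ≠ N) (hMt : MulAction.IsPretransitive M α) (hNt : MulAction.IsPretransitive N α) : (∀ a : α, MulAction.stabilizer M a = ⊥) ∧ (∀ a : α, MulAction.stabilizer N a = ⊥) ∧ ¬ IsMulCommutative M ∧ Nonempty (M ≃* N) ∧ Subgroup.centralizer ((M.map G.subtype : Subgroup (Equiv.Perm α)) : Set (Equiv.Perm α)) = N.map G.subtype ∧ Subgroup.centralizer ((N.map G.subtype : Subgroup (Equiv.Perm α)) : Set (Equiv.Perm α)) = M.map G.subtype ∧ ∀ L : Subgroup G, L.Normal → L ≠ ⊥ → (∀ L' : Subgroup G, L'.Normal → L' ≤ L → L' = ⊥ ∨ L' = L) → L = M ∨ L = N := by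
  classical
  -- general intersection lemma
  have hinf : ∀ X Y : Subgroup G, X.Normal → Y.Normal → X ≠ ⊥ → X ≠ Y →
      (∀ L : Subgroup G, L.Normal → L ≤ X → L = ⊥ ∨ L = X) →
      (∀ L : Subgroup G, L.Normal → L ≤ Y → L = ⊥ ∨ L = Y) → X ⊓ Y = ⊥ := by
    intro X Y hX hY hX1 hXY hXm hYm
    rcases hXm (X ⊓ Y) (by infer_instance) inf_le_left with h | h
    · exact h
    · exfalso
      have hle : X ≤ Y := by
        have : X ⊓ Y ≤ Y := inf_le_right
        rwa [h] at this
      rcases hYm X hX hle with h' | h'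
      · exact hX1 h'
      · exact hXY h'
  have hMNinf : M ⊓ N = ⊥ := hinf M N inferInstance inferInstance hM hMN hMmin hNmin
  -- commuting of normal subgroups with trivial intersection
  have hcommG : ∀ X Y : Subgroup G, X.Normal → Y.Normal → X ⊓ Y = ⊥ →
      ∀ x ∈ X, ∀ y ∈ Y, x * y = y * x := by
    intro X Y hX hY hXY x hx y hy
    have h1 : x * y * x⁻¹ * y⁻¹ ∈ X ⊓ Y := by
      constructor
      · have : y * x⁻¹ * y⁻¹ ∈ X := hX.conj_mem _ (X.inv_mem hx) y
        have h2 : x * (y * x⁻¹ * y⁻¹) ∈ X := X.mul_mem hx this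
        simpa [mul_assoc] using h2
      · have : x * y * x⁻¹ ∈ Y := hY.conj_mem _ hy x
        exact Y.mul_mem this (Y.inv_mem hy)
    rw [hXY, Subgroup.mem_bot] at h1
    have h2 : x * y * x⁻¹ = y := by
      have := mul_eq_one_iff_eq_inv.mp h1
      simpa using this
    calc x * y = x * y * x⁻¹ * x := by group
      _ = y * x := by rw [h2]
  have hcomm := hcommG M N inferInstance inferInstance hMNinf
  -- transitivity in terms of permutations
  set A : Subgroup (Equiv.Perm α) := M.map G.subtype with hA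
  set B : Subgroup (Equiv.Perm α) := N.map G.subtype with hB
  have hAt : ∀ a b : α, ∃ x ∈ A, x a = b := by
    intro a b
    obtain ⟨m, hm⟩ := hMt.exists_smul_eq a b
    refine ⟨((m : G) : Equiv.Perm α), ⟨(m : G), m.2, rfl⟩, hm⟩
  have hBt : ∀ a b : α, ∃ x ∈ B, x a = b := by
    intro a b
    obtain ⟨m, hm⟩ := hNt.exists_smul_eq a b
    refine ⟨((m : G) : Equiv.Perm α), ⟨(m : G), m.2, rfl⟩, hm⟩
  have hABcomm : ∀ x ∈ A, ∀ y ∈ B, x * y = y * x := by
    rintro x ⟨m, hm, rfl⟩ y ⟨n, hn, rfl⟩
    have := hcomm m hm n hn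
    have h2 := congrArg (fun g : G => (g : Equiv.Perm α)) this
    simpa using h2
  -- α nonempty
  obtain ⟨a₀⟩ : Nonempty α := by
    by_contra hempty
    rw [not_nonempty_iff] at hempty
    apply hM
    rw [Subgroup.eq_bot_iff_forall]
    intro m _
    apply Subtype.ext
    apply Equiv.ext
    intro a
    exact hempty.elim a
  have hcentA : Subgroup.centralizer (A : Set (Equiv.Perm α)) = B :=
    centralizer_eq A B hAt hBt hABcomm a₀
  have hcentB : Subgroup.centralizer (B : Set (Equiv.Perm α)) = A :=
    centralizer_eq B A hBt hAt (fun y hy x hx => (hABcomm x hx y hy).symm) a₀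
  have hMsemi : ∀ (a : α) (m : M), m • a = a → m = 1 := by
    intro a m hm
    have h1 : ((m : G) : Equiv.Perm α) = 1 := by
      apply fix_eq_one B hBt _ _ a hm
      intro y hy
      exact (hABcomm _ ⟨(m : G), m.2, rfl⟩ y hy).symm
    apply Subtype.ext
    apply Subtype.ext
    simpa using h1
  have hNsemi : ∀ (a : α) (n : N), n • a = a → n = 1 := by
    intro a n hn
    have h1 : ((n : G) : Equiv.Perm α) = 1 := by
      apply fix_eq_one A hAt _ _ a hn
      intro x hx
      exact (hABcomm x hx _ ⟨(n : G), n.2, rfl⟩)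
    apply Subtype.ext
    apply Subtype.ext
    simpa using h1
  refine ⟨?_, ?_, ?_, ?_, hcentA, hcentB, ?_⟩
  · intro a
    rw [Subgroup.eq_bot_iff_forall]
    intro m hm
    exact hMsemi a m hm
  · intro a
    rw [Subgroup.eq_bot_iff_forall]
    intro m hm
    exact hNsemi a m hm
  · -- M is not abelian
    intro hab
    have hAcomm : ∀ x ∈ A, ∀ y ∈ A, x * y = y * x := by
      rintro x ⟨m, hm, rfl⟩ y ⟨n, hn, rfl⟩
      have := hab.is_comm.comm (⟨m, hm⟩ : M) ⟨n, hn⟩
      have h2 := congrArg (fun g : M => ((g : G) : Equiv.Perm α)) this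
      simpa using h2
    have hcA' : Subgroup.centralizer (A : Set (Equiv.Perm α)) = A :=
      centralizer_eq A A hAt hAt hAcomm a₀
    have hBA : B = A := hcentA.symm.trans hcA'
    have hNM : N ≤ M := by
      intro n hn
      have : ((n : G) : Equiv.Perm α) ∈ B := ⟨n, hn, rfl⟩
      rw [hBA] at this
      obtain ⟨m, hm, hmn⟩ := this
      have : m = n := by
        apply Subtype.ext
        simpa using hmn
      rwa [← this]
    apply hN
    have : N ≤ M ⊓ N := le_inf hNM le_rfl
    rw [hMNinf] at this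
    exact le_bot_iff.mp this
  · -- isomorphism
    have hex : ∀ m : M, ∃ n : N, n • a₀ = m • a₀ := fun m => hNt.exists_smul_eq _ _
    choose φ hφ using hex
    have hφuniq : ∀ (m : M) (n : N), n • a₀ = m • a₀ → φ m = n := by
      intro m n hn
      have h1 : (φ m)⁻¹ * n = 1 := by
        apply hNsemi a₀
        rw [mul_smul, hn, ← hφ m, inv_smul_smul]
      have := congrArg (fun f => φ m * f) h1
      simpa using this.symm
    have hmul : ∀ m m' : M, φ (m * m') = φ m' * φ m := by
      intro m m'
      apply hφuniq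
      -- (n' * n) a = n' (n a) = n' (m a) = m (n' a) = m m' a
      have hc : ∀ (n : N) (m : M) (b : α), n • m • b = m • n • b := by
        intro n m b
        have := hcomm (m : G) m.2 (n : G) n.2
        have h2 := congrArg (fun g : G => ((g : Equiv.Perm α)) b) this
        exact h2.symm
      rw [mul_smul, hφ m, hc, hφ m', mul_smul]
    let f : M →* N := MonoidHom.mk' (fun m => (φ m)⁻¹) (by
      intro m m'
      simp only [hmul, mul_inv_rev])
    refine ⟨MulEquiv.ofBijective f ⟨?_, ?_⟩⟩
    · intro m m' hmm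
      have h1 : φ m = φ m' := by
        have : (φ m)⁻¹ = (φ m')⁻¹ := hmm
        exact inv_injective this
      have h2 : m • a₀ = m' • a₀ := by rw [← hφ m, ← hφ m', h1]
      have h3 : m⁻¹ * m' = 1 := by
        apply hMsemi a₀
        rw [mul_smul, ← h2, inv_smul_smul]
      have := congrArg (fun f => m * f) h3
      simpa using this.symm
    · intro n
      obtain ⟨m, hm⟩ := hMt.exists_smul_eq a₀ (n⁻¹ • a₀)
      refine ⟨m, ?_⟩
      have : φ m = n⁻¹ := hφuniq m n⁻¹ hm.symm
      change (φ m)⁻¹ = n
      rw [this, inv_inv]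
  · -- uniqueness
    intro L hL hL1 hLmin
    by_contra hcon
    push Not at hcon
    obtain ⟨hLM, hLN⟩ := hcon
    have hLMinf : L ⊓ M = ⊥ := hinf L M hL inferInstance hL1 hLM hLmin hMmin
    have hLNinf : L ⊓ N = ⊥ := hinf L N hL inferInstance hL1 hLN hLmin hNmin
    have hcLM := hcommG L M hL inferInstance hLMinf
    have hLN' : L ≤ N := by
      intro l hl
      have : ((l : G) : Equiv.Perm α) ∈ Subgroup.centralizer (A : Set (Equiv.Perm α)) := by
        rw [Subgroup.mem_centralizer_iff]
        rintro x ⟨m, hm, rfl⟩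
        have := hcLM l hl m hm
        have h2 := congrArg (fun g : G => (g : Equiv.Perm α)) this
        simpa using h2.symm
      rw [hcentA] at this
      obtain ⟨n, hn, hnl⟩ := this
      have : n = l := by
        apply Subtype.ext
        simpa using hnl
      rwa [← this]
    apply hL1
    have : L ≤ L ⊓ N := le_inf le_rfl hLN'
    rw [hLNinf] at this
    exact le_bot_iff.mp this

end Cfsg.Agent.S0704
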