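import Cfsg.Statements.S0705
import Mathlib
-- import your own Cfsg.Agent.* helpers here

set_option autoImplicit false
open scoped Pointwise
open Cfsg

namespace Cfsg.Agent.S0705

section
variable {α : Type*} [Fintype α] [DecidableEq α] (G : Subgroup (Equiv.Perm α)) {k : ℕ}

/-- One step: move one coordinate of a tuple to a new point. -/
theorem step (hgen : ∀ s : Finset α, s.card = k + 1 → ∀ σ : Equiv.Perm ↥s, ∃ g ∈ G, ∀ x : ↥s, g (x : α) = σ x)
    (x : Fin k ↪ α) (i : Fin k) (v : α) (hv : v ∉ Set.range x) :
    ∃ g ∈ G, ∀ j, g (x j) = Function.update x i v j := by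
  classical
  let s : Finset α := insert v (Finset.univ.map x)
  have hvs : v ∉ Finset.univ.map x := by
    simpa using hv
  have hcard : s.card = k + 1 := by
    rw [Finset.card_insert_of_notMem hvs, Finset.card_map, Finset.card_univ, Fintype.card_fin]
  have hxs : ∀ j, x j ∈ s := fun j =>
    Finset.mem_insert_of_mem (Finset.mem_map_of_mem x (Finset.mem_univ j))
  have hvs' : v ∈ s := Finset.mem_insert_self v _
  obtain ⟨g, hg, hgσ⟩ := hgen s hcard (Equiv.swap ⟨x i, hxs i⟩ ⟨v, hvs'⟩)
  refine ⟨g, hg, fun j => ?_⟩
  have h1 := hgσ ⟨x j, hxs j⟩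
  by_cases hj : j = i
  · subst hj
    rw [Function.update_self]
    simpa using h1
  · rw [Function.update_of_ne hj]
    have hne1 : (⟨x j, hxs j⟩ : ↥s) ≠ ⟨x i, hxs i⟩ := by
      intro h
      exact hj (x.injective (congrArg Subtype.val h))
    have hne2 : (⟨x j, hxs j⟩ : ↥s) ≠ ⟨v, hvs'⟩ := by
      intro h
      exact hv ⟨j, congrArg Subtype.val h⟩
    rw [Equiv.swap_apply_of_ne_of_ne hne1 hne2] at h1
    exact h1

/-- Transitivity on tuples by strong induction on the Hamming distance. -/
theorem tuple_trans (hk : k < Fintype.card α)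
    (hgen : ∀ s : Finset α, s.card = k + 1 → ∀ σ : Equiv.Perm ↥s, ∃ g ∈ G, ∀ x : ↥s, g (x : α) = σ x) :
    ∀ (n : ℕ) (x y : Fin k ↪ α), (Finset.univ.filter fun i => x i ≠ y i).card = n →
      ∃ g ∈ G, ∀ j, g (x j) = y j := by
  classical
  intro n
  induction n using Nat.strong_induction_on with
  | _ n ih =>
  intro x y hd
  by_cases hn : n = 0
  · subst hn
    refine ⟨1, G.one_mem, fun j => ?_⟩
    rw [Finset.card_eq_zero, Finset.filter_eq_empty_iff] at hd
    have := hd (Finset.mem_univ j)
    push Not at this
    simpa using this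
  -- a coordinate that differs
  obtain ⟨i, hi⟩ : ∃ i, x i ≠ y i := by
    by_contra h
    push Not at h
    apply hn
    rw [← hd, Finset.card_eq_zero, Finset.filter_eq_empty_iff]
    intro j _
    simpa using h j
  -- a general update step
  have hupd : ∀ (w : Fin k ↪ α), y i ∉ Set.range w →
      (Finset.univ.filter fun j => w j ≠ y j).card ≤ n → w i ≠ y i →
      ∃ g ∈ G, ∀ j, g (w j) = y j := by
    intro w hw hwd hwi
    obtain ⟨g₁, hg₁, hg₁w⟩ := step G hgen w i (y i) hw
    let w' : Fin k ↪ α := ⟨Function.update w i (y i), by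
      intro a b hab
      by_cases ha : a = i
      · by_cases hb : b = i
        · rw [ha, hb]
        · subst ha
          rw [Function.update_self, Function.update_of_ne hb] at hab
          exact absurd ⟨b, hab.symm⟩ hw
      · by_cases hb : b = i
        · subst hb
          rw [Function.update_self, Function.update_of_ne ha] at hab
          exact absurd ⟨a, hab⟩ hw
        · rw [Function.update_of_ne ha, Function.update_of_ne hb] at hab
          exact w.injective hab⟩
    have hw' : ∀ j, w' j = Function.update w i (y i) j := fun _ => rfl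
    have hlt : (Finset.univ.filter fun j => w' j ≠ y j).card < n := by
      refine lt_of_lt_of_le (Finset.card_lt_card ?_) hwd
      refine ⟨?_, ?_⟩
      · intro j hj
        simp only [Finset.mem_filter, Finset.mem_univ, true_and] at hj ⊢
        by_cases hji : j = i
        · subst hji
          rw [hw', Function.update_self] at hj
          exact absurd rfl hj
        · rw [hw', Function.update_of_ne hji] at hj
          exact hj
      · intro h
        have h2 := h (Finset.mem_filter.mpr ⟨Finset.mem_univ i, hwi⟩)
        simp only [Finset.mem_filter, Finset.mem_univ, true_and] at h2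
        rw [hw', Function.update_self] at h2
        exact h2 rfl
    obtain ⟨g₂, hg₂, hg₂w⟩ := ih _ hlt w' y rfl
    refine ⟨g₂ * g₁, G.mul_mem hg₂ hg₁, fun j => ?_⟩
    rw [Equiv.Perm.mul_apply, hg₁w, ← hw', hg₂w]
  by_cases hv : y i ∈ Set.range x
  · -- y i = x j: first move coordinate j away
    obtain ⟨j, hj⟩ := hv
    have hji : j ≠ i := by
      rintro rfl
      exact hi hj
    have hjd : x j ≠ y j := by
      rw [hj]
      intro h
      exact hji (y.injective h).symm
    -- a free point
    obtain ⟨z, hz⟩ : ∃ z, z ∉ Set.range x := by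
      by_contra h
      push Not at h
      have hsurj : Function.Surjective x := h
      have := Fintype.card_le_of_surjective x hsurj
      simp at this
      omega
    obtain ⟨g₁, hg₁, hg₁w⟩ := step G hgen x j z hz
    let w : Fin k ↪ α := ⟨Function.update x j z, by
      intro a b hab
      by_cases ha : a = j
      · by_cases hb : b = j
        · rw [ha, hb]
        · subst ha
          rw [Function.update_self, Function.update_of_ne hb] at hab
          exact absurd ⟨b, hab.symm⟩ hz
      · by_cases hb : b = j
        · subst hb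
          rw [Function.update_self, Function.update_of_ne ha] at hab
          exact absurd ⟨a, hab⟩ hz
        · rw [Function.update_of_ne ha, Function.update_of_ne hb] at hab
          exact x.injective hab⟩
    have hw : ∀ t, w t = Function.update x j z t := fun _ => rfl
    have hwv : y i ∉ Set.range w := by
      rintro ⟨t, ht⟩
      by_cases htj : t = j
      · rw [htj, hw, Function.update_self] at ht
        exact hz ⟨j, hj.trans ht.symm⟩
      · rw [hw, Function.update_of_ne htj, ← hj] at ht
        exact htj (x.injective ht)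
    have hwi : w i ≠ y i := by
      rw [hw, Function.update_of_ne hji.symm]
      exact hi
    have hwd : (Finset.univ.filter fun t => w t ≠ y t).card ≤ n := by
      rw [← hd]
      apply Finset.card_le_card
      intro t ht
      simp only [Finset.mem_filter, Finset.mem_univ, true_and] at ht ⊢
      by_cases htj : t = j
      · rw [htj]; exact hjd
      · rw [hw, Function.update_of_ne htj] at ht
        exact ht
    obtain ⟨g₂, hg₂, hg₂w⟩ := hupd w hwv hwd hwi
    refine ⟨g₂ * g₁, G.mul_mem hg₂ hg₁, fun t => ?_⟩
    rw [Equiv.Perm.mul_apply, hg₁w, ← hw, hg₂w]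
  · exact hupd x hv (le_of_eq hd) hi

end

/-- A generously `k`-transitive permutation group (every `(k+1)`-subset has its full symmetric group induced by the setwise stabiliser) of degree greater than `k` is `k`-transitive, and for a `k`-subset the setwise and pointwise stabilisers have the same orbits outside it. -/
theorem result {α : Type*} [Fintype α] [DecidableEq α] (G : Subgroup (Equiv.Perm α)) {k : ℕ} (hk : k < Fintype.card α) (hgen : ∀ s : Finset α, s.card = k + 1 → ∀ σ : Equiv.Perm ↥s, ∃ g ∈ G, ∀ x : ↥s, g (x : α) = σ x) : MulAction.IsMultiplyPretransitive G α k ∧ ∀ s : Finset α, s.card = k → ∀ a b : α, a ∉ s → b ∉ s → (∃ g ∈ G, g • s = s ∧ g a = b) → ∃ g ∈ G, (∀ x ∈ s, g x = x) ∧ g a = b := by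
  classical
  constructor
  · refine ⟨fun x y => ?_⟩
    obtain ⟨g, hg, hgj⟩ := tuple_trans G hk hgen _ x y rfl
    refine ⟨⟨g, hg⟩, ?_⟩
    ext j
    simpa using hgj j
  · rintro s hs a b has hbs ⟨g, hg, hgs, hgb⟩
    -- the permutation of s ∪ {a} which is g⁻¹ on s and fixes a
    have hgs' : ∀ x, x ∈ s → g⁻¹ x ∈ s := by
      intro x hx
      have h1 : x ∈ g • s := by rw [hgs]; exact hx
      obtain ⟨y, hy, rfl⟩ := Finset.mem_smul_finset.mp h1
      simpa using hy
    let t : Finset α := insert a s
    have htcard : t.card = k + 1 := by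
      rw [Finset.card_insert_of_notMem has, hs]
    let f : ↥t → ↥t := fun w =>
      if h : (w : α) = a then ⟨a, Finset.mem_insert_self a s⟩ else
        ⟨g⁻¹ w, Finset.mem_insert_of_mem (hgs' _ ((Finset.mem_insert.mp w.2).resolve_left h))⟩
    have hfinj : Function.Injective f := by
      intro w₁ w₂ h
      by_cases h1 : (w₁ : α) = a
      · by_cases h2 : (w₂ : α) = a
        · exact Subtype.ext (h1.trans h2.symm)
        · exfalso
          simp only [f, h1, h2, dif_pos, dif_neg, not_false_iff] at h
          have h3 : a = g⁻¹ (w₂ : α) := congrArg Subtype.val h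
          have h4 : g⁻¹ (w₂ : α) ∈ s := hgs' _ ((Finset.mem_insert.mp w₂.2).resolve_left h2)
          rw [← h3] at h4
          exact has h4
      · by_cases h2 : (w₂ : α) = a
        · exfalso
          simp only [f, h1, h2, dif_pos, dif_neg, not_false_iff] at h
          have h3 : g⁻¹ (w₁ : α) = a := congrArg Subtype.val h
          have h4 : g⁻¹ (w₁ : α) ∈ s := hgs' _ ((Finset.mem_insert.mp w₁.2).resolve_left h1)
          rw [h3] at h4
          exact has h4
        · simp only [f, h1, h2, dif_neg, not_false_iff] at h
          have h3 : g⁻¹ (w₁ : α) = g⁻¹ (w₂ : α) := congrArg Subtype.val h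
          exact Subtype.ext ((g⁻¹).injective h3)
    let σ : Equiv.Perm ↥t := Equiv.ofBijective f (Finite.injective_iff_bijective.mp hfinj)
    obtain ⟨h, hh, hhσ⟩ := hgen t htcard σ
    refine ⟨g * h, G.mul_mem hg hh, ?_, ?_⟩
    · intro x hx
      have hxt : x ∈ t := Finset.mem_insert_of_mem hx
      have hxa : x ≠ a := fun h => has (h ▸ hx)
      have h1 := hhσ ⟨x, hxt⟩
      have h2 : (σ ⟨x, hxt⟩ : α) = g⁻¹ x := by
        change ((f ⟨x, hxt⟩ : ↥t) : α) = g⁻¹ x
        simp [f, hxa]
      rw [Equiv.Perm.mul_apply]
      change g (h (⟨x, hxt⟩ : ↥t)) = x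
      rw [h1, h2]
      simp
    · have hat : a ∈ t := Finset.mem_insert_self a s
      have h1 := hhσ ⟨a, hat⟩
      have h2 : (σ ⟨a, hat⟩ : α) = a := by
        change ((f ⟨a, hat⟩ : ↥t) : α) = a
        simp [f]
      rw [Equiv.Perm.mul_apply]
      change g (h (⟨a, hat⟩ : ↥t)) = b
      rw [h1, h2, hgb]

end Cfsg.Agent.S0705
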