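import Cfsg.Statements.S0706
import Mathlib
import Cfsg.Agent.S0705
import Cfsg.Agent.Lib.Perm.SylowIn
-- import your own Cfsg.Agent.* helpers here

set_option autoImplicit false
open Cfsg

namespace Cfsg.Agent.S0706

open Cfsg.Agent.Lib.Perm.SylowIn

section
variable {α : Type*} [Fintype α] [DecidableEq α]

/-- A `p`-group with an invariant set of size prime to `p` has a fixed point in it. -/
theorem exists_fixed_point {p : ℕ} [Fact p.Prime] {R : Subgroup (Equiv.Perm α)} (hR : IsPGroup p R)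
    (O : Set α) (hO : ∀ r ∈ R, ∀ x ∈ O, r x ∈ O) (hcard : ¬ p ∣ Nat.card O) :
    ∃ x ∈ O, ∀ r ∈ R, r x = x := by
  classical
  let O' : SubMulAction R α :=
    { carrier := O
      smul_mem' := fun r x hx => hO r.1 r.2 x hx }
  have hfin : Finite O' := Finite.of_fintype _
  have h := hR.card_modEq_card_fixedPoints O'
  have hne : Nat.card (MulAction.fixedPoints R O') ≠ 0 := by
    intro h0
    rw [h0] at h
    apply hcard
    exact Nat.dvd_of_mod_eq_zero h
  have hne' : Nonempty (MulAction.fixedPoints R O') := by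
    by_contra hemp
    rw [not_nonempty_iff] at hemp
    exact hne Nat.card_of_isEmpty
  obtain ⟨⟨⟨x, hx⟩, hfix⟩⟩ := hne'
  refine ⟨x, hx, fun r hr => ?_⟩
  have := hfix ⟨r, hr⟩
  exact congrArg Subtype.val this

end

open scoped Pointwise in
/-- The core argument. -/
theorem core {α : Type*} [Fintype α] [DecidableEq α] (G : Subgroup (Equiv.Perm α)) {k : ℕ} (hk : k < Fintype.card α) (hgen : ∀ s : Finset α, s.card = k + 1 → ∀ σ : Equiv.Perm ↥s, ∃ g ∈ G, ∀ x : ↥s, g (x : α) = σ x) {p : ℕ} (hp : p.Prime) (hpk : p ≤ k) (Γ : Finset α) (hΓ : Γ.card = k) (f : Fin p → α) (hf : ∀ i, f i ∉ Γ) (hdist : ∀ i j, i ≠ j → f j ∉ MulAction.orbit (fixingSubgroup G (Γ : Set α)) (f i)) : ∃ i, p ∣ Nat.card (MulAction.orbit (fixingSubgroup G (Γ : Set α)) (f i)) := by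
  classical
  by_contra hcon
  push Not at hcon
  haveI : Fact p.Prime := ⟨hp⟩
  -- the pointwise stabiliser inside `Equiv.Perm α`
  let fix : Finset α → Subgroup (Equiv.Perm α) := fun s =>
    { carrier := {g | g ∈ G ∧ ∀ x ∈ s, g x = x}
      one_mem' := ⟨G.one_mem, fun x _ => rfl⟩
      mul_mem' := by
        rintro a b ⟨ha, ha'⟩ ⟨hb, hb'⟩
        exact ⟨G.mul_mem ha hb, fun x hx => by rw [Equiv.Perm.mul_apply, hb' x hx, ha' x hx]⟩
      inv_mem' := by
        rintro a ⟨ha, ha'⟩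
        refine ⟨G.inv_mem ha, fun x hx => ?_⟩
        rw [Equiv.Perm.inv_eq_iff_eq]
        exact (ha' x hx).symm }
  have hfixmem : ∀ s g, g ∈ fix s ↔ g ∈ G ∧ ∀ x ∈ s, g x = x := fun s g => Iff.rfl
  set A₀ := fix Γ with hA₀
  obtain ⟨P, hP⟩ := exists_isSylowIn p A₀
  -- a p-subset of Γ and an element of order p on it
  obtain ⟨T, hTΓ, hT⟩ := Finset.exists_subset_card_eq (hpk.trans hΓ.ge)
  have hpdvd : p ∣ Nat.card (Equiv.Perm ↥T) := by
    rw [Nat.card_eq_fintype_card, Fintype.card_perm, Fintype.card_coe, hT]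
    exact Nat.dvd_factorial hp.pos le_rfl
  obtain ⟨c₀, hc₀⟩ := exists_prime_orderOf_dvd_card' p hpdvd
  let c : Equiv.Perm α := Equiv.Perm.ofSubtype c₀
  have hcord : orderOf c = p := by
    rw [← hc₀]
    exact orderOf_injective (Equiv.Perm.ofSubtype) Equiv.Perm.ofSubtype_injective c₀
  have hcout : ∀ x, x ∉ T → c x = x := fun x hx => Equiv.Perm.ofSubtype_apply_of_not_mem _ hx
  have hcin : ∀ x, x ∈ T → c x ∈ T := by
    intro x hx
    have : c x = c₀ ⟨x, hx⟩ := Equiv.Perm.ofSubtype_apply_of_mem _ hx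
    rw [this]
    exact (c₀ ⟨x, hx⟩).2
  have hcΓ : ∀ x, x ∈ Γ → c x ∈ Γ := by
    intro x hx
    by_cases hxT : x ∈ T
    · exact hTΓ (hcin x hxT)
    · rw [hcout x hxT]; exact hx
  have hcinvΓ : ∀ x, x ∈ Γ → c⁻¹ x ∈ Γ := by
    intro x hx
    by_cases hxT : x ∈ T
    · have h1 : c⁻¹ = Equiv.Perm.ofSubtype c₀⁻¹ := (map_inv Equiv.Perm.ofSubtype c₀).symm
      rw [h1, Equiv.Perm.ofSubtype_apply_of_mem _ hxT]
      exact hTΓ (c₀⁻¹ ⟨x, hxT⟩).2
    · have h1 : c⁻¹ x = x := by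
        rw [Equiv.Perm.inv_eq_iff_eq]
        exact (hcout x hxT).symm
      rw [h1]; exact hx
  -- a realisation of c on Γ in G
  obtain ⟨z, hz⟩ : ∃ z, z ∉ Γ := by
    by_contra h
    push Not at h
    have : Γ = Finset.univ := Finset.eq_univ_of_forall h
    rw [this, Finset.card_univ] at hΓ
    omega
  let t : Finset α := insert z Γ
  have htcard : t.card = k + 1 := by rw [Finset.card_insert_of_notMem hz, hΓ]
  have hct : ∀ x, c x ∈ t ↔ x ∈ t := by
    intro x
    by_cases hxT : x ∈ T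
    · have h1 : c x ∈ t := Finset.mem_insert_of_mem (hTΓ (hcin x hxT))
      have h2 : x ∈ t := Finset.mem_insert_of_mem (hTΓ hxT)
      exact iff_of_true h1 h2
    · rw [hcout x hxT]
  obtain ⟨y', hy'G, hy'σ⟩ := hgen t htcard (c.subtypePerm hct)
  have hy'Γ : ∀ x ∈ Γ, y' x = c x := by
    intro x hx
    exact hy'σ ⟨x, Finset.mem_insert_of_mem hx⟩
  have hy'inv : ∀ x ∈ Γ, y'⁻¹ x = c⁻¹ x := by
    intro x hx
    rw [Equiv.Perm.inv_eq_iff_eq, hy'Γ _ (hcinvΓ x hx)]
    simp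
  -- Frattini
  have hg : ∀ q ∈ P, y' * q * y'⁻¹ ∈ A₀ := by
    intro q hq
    have hq' := hP.le hq
    refine ⟨G.mul_mem (G.mul_mem hy'G hq'.1) (G.inv_mem hy'G), fun x hx => ?_⟩
    rw [Equiv.Perm.mul_apply, Equiv.Perm.mul_apply, hy'inv x hx, hq'.2 _ (hcinvΓ x hx),
      hy'Γ _ (hcinvΓ x hx)]
    simp
  obtain ⟨h, hh, hN⟩ := hP.exists_mem_mul_mem_normalizer y' hg
  set y₀ := h * y' with hy₀
  have hy₀G : y₀ ∈ G := G.mul_mem hh.1 hy'G
  have hy₀Γ : ∀ x ∈ Γ, y₀ x = c x := by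
    intro x hx
    rw [hy₀, Equiv.Perm.mul_apply, hy'Γ x hx, hh.2 _ (hcΓ x hx)]
  -- the p-part
  obtain ⟨e, m, hm, hn⟩ := Nat.exists_eq_pow_mul_and_not_dvd
    (orderOf_pos y₀).ne' p hp.ne_one
  set y := y₀ ^ m with hy
  have hypow : y ^ (p ^ e) = 1 := by
    rw [hy, ← pow_mul, mul_comm, ← hn, pow_orderOf_eq_one]
  have hyG : y ∈ G := G.pow_mem hy₀G m
  have hyN : y ∈ Subgroup.normalizer (P : Set (Equiv.Perm α)) := Subgroup.pow_mem _ hN m
  have hpowΓ : ∀ j : ℕ, ∀ x ∈ Γ, (y₀ ^ j) x = (c ^ j) x := by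
    intro j
    induction j with
    | zero => intro x _; rfl
    | succ j ih =>
      intro x hx
      calc (y₀ ^ (j + 1)) x = (y₀ ^ j) (y₀ x) := by rw [pow_succ]; rfl
        _ = (y₀ ^ j) (c x) := by rw [hy₀Γ x hx]
        _ = (c ^ j) (c x) := ih _ (hcΓ x hx)
        _ = (c ^ (j + 1)) x := by rw [pow_succ]; rfl
  have hyΓ : ∀ x ∈ Γ, y x = (c ^ m) x := hpowΓ m
  have hcpowout : ∀ j : ℕ, ∀ x, x ∉ T → (c ^ j) x = x := by
    intro j
    induction j with
    | zero => intro x _; rfl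
    | succ j ih =>
      intro x hx
      calc (c ^ (j + 1)) x = (c ^ j) (c x) := by rw [pow_succ]; rfl
        _ = (c ^ j) x := by rw [hcout x hx]
        _ = x := ih x hx
  have hcpowΓ : ∀ j : ℕ, ∀ x ∈ Γ, (c ^ j) x ∈ Γ := by
    intro j
    induction j with
    | zero => intro x hx; exact hx
    | succ j ih =>
      intro x hx
      have h1 : (c ^ (j + 1)) x = (c ^ j) (c x) := by rw [pow_succ]; rfl
      rw [h1]
      exact ih _ (hcΓ x hx)
  -- y moves some point of Γ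
  obtain ⟨x₀, hx₀⟩ : ∃ x₀, (c ^ m) x₀ ≠ x₀ := by
    by_contra hall
    push Not at hall
    have h1 : c ^ m = 1 := Equiv.ext hall
    have h2 : p ∣ m := by rw [← hcord]; exact orderOf_dvd_of_pow_eq_one h1
    exact hm h2
  have hx₀T : x₀ ∈ T := by
    by_contra hT'
    exact hx₀ (hcpowout m x₀ hT')
  have hx₀Γ : x₀ ∈ Γ := hTΓ hx₀T
  have hyx₀ : y x₀ ≠ x₀ := by rw [hyΓ x₀ hx₀Γ]; exact hx₀
  -- the p-group R
  set R := P ⊔ Subgroup.zpowers y with hR
  have hzp : IsPGroup p (Subgroup.zpowers y) := by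
    rintro ⟨g, hg⟩
    obtain ⟨n, rfl⟩ := Subgroup.mem_zpowers_iff.mp hg
    refine ⟨e, ?_⟩
    apply Subtype.ext
    simp only [SubgroupClass.coe_pow, OneMemClass.coe_one]
    rw [← zpow_natCast, ← zpow_mul, mul_comm, zpow_mul, zpow_natCast, hypow, one_zpow]
  have hRp : IsPGroup p R :=
    hP.isPGroup.to_sup_of_normal_left' hzp ((Subgroup.zpowers_le).mpr hyN)
  -- R stabilises Γ
  have hsetw : ∀ g : Equiv.Perm α, (∀ x ∈ Γ, g x ∈ Γ) → g • Γ = Γ := by
    intro g hg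
    apply Finset.eq_of_subset_of_card_le
    · intro w hw
      obtain ⟨x, hx, rfl⟩ := Finset.mem_smul_finset.mp hw
      exact hg x hx
    · rw [Finset.card_smul_finset]
  let K : Subgroup (Equiv.Perm α) := G ⊓ MulAction.stabilizer (Equiv.Perm α) Γ
  have hPK : P ≤ K := by
    intro q hq
    have hq' := hP.le hq
    refine ⟨hq'.1, hsetw q (fun x hx => ?_)⟩
    rw [hq'.2 x hx]; exact hx
  have hyK : y ∈ K := by
    refine ⟨hyG, hsetw y (fun x hx => ?_)⟩
    rw [hyΓ x hx]; exact hcpowΓ m x hx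
  have hRK : R ≤ K := sup_le hPK ((Subgroup.zpowers_le).mpr hyK)
  -- R preserves the orbits
  have hpart2 := (Cfsg.Agent.S0705.result G hk hgen).2 Γ hΓ
  have hnotΓ : ∀ i, ∀ x ∈ MulAction.orbit (fixingSubgroup G (Γ : Set α)) (f i), x ∉ Γ := by
    rintro i x ⟨a, rfl⟩ hx
    apply hf i
    have h1 : (a : G) • (f i) ∈ Γ := hx
    have ha := (mem_fixingSubgroup_iff (M := G)).mp a.2 _ hx
    have h2 : (a : G) • ((a : G) • f i) = (a : G) • f i := ha
    have h3 : (a : G) • f i = f i := smul_left_cancel _ h2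
    rwa [h3] at h1
  have hRorb : ∀ i, ∀ r ∈ R, ∀ x ∈ MulAction.orbit (fixingSubgroup G (Γ : Set α)) (f i),
      r x ∈ MulAction.orbit (fixingSubgroup G (Γ : Set α)) (f i) := by
    intro i r hr x hx
    have hrK := hRK hr
    have hxΓ := hnotΓ i x hx
    have hrx : r x ∉ Γ := by
      intro h1
      apply hxΓ
      have h2 : r x ∈ r • Γ := by
        have h3 : r • Γ = Γ := hrK.2
        rw [h3]; exact h1
      obtain ⟨w, hw, hwx⟩ := Finset.mem_smul_finset.mp h2
      have h4 : w = x := r.injective hwx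
      rwa [← h4]
    obtain ⟨g, hg, hgΓ, hgx⟩ := hpart2 x (r x) hxΓ hrx ⟨r, hrK.1, hrK.2, rfl⟩
    let ā : fixingSubgroup G (Γ : Set α) := ⟨⟨g, hg⟩, by
      rw [mem_fixingSubgroup_iff]
      intro w hw
      exact hgΓ w hw⟩
    have hx' := MulAction.orbit_eq_iff.mpr hx
    rw [← hx', ← hgx]
    exact MulAction.mem_orbit x ā
  have hex := fun i => exists_fixed_point hRp
    (MulAction.orbit (fixingSubgroup G (Γ : Set α)) (f i)) (hRorb i) (hcon i)
  choose x hxO hxfix using hex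
  have hinj : Function.Injective x := by
    intro i j hij
    by_contra hne
    have h1 := MulAction.orbit_eq_iff.mpr (hxO i)
    have h2 := MulAction.orbit_eq_iff.mpr (hxO j)
    rw [hij] at h1
    have h3 : MulAction.orbit (fixingSubgroup G (Γ : Set α)) (f i) =
        MulAction.orbit (fixingSubgroup G (Γ : Set α)) (f j) := h1.symm.trans h2
    apply hdist i j hne
    rw [h3]
    exact MulAction.mem_orbit_self _
  have hxΓ : ∀ i, x i ∉ Γ := fun i => hnotΓ i _ (hxO i)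
  -- the new k-set
  let Γ₁ : Finset α := (Γ \ T) ∪ Finset.univ.image x
  have hdisj : Disjoint (Γ \ T) (Finset.univ.image x) := by
    rw [Finset.disjoint_left]
    intro w hw hw2
    obtain ⟨i, -, rfl⟩ := Finset.mem_image.mp hw2
    exact hxΓ i (Finset.mem_sdiff.mp hw).1
  have hΓ₁ : Γ₁.card = k := by
    rw [Finset.card_union_of_disjoint hdisj, Finset.card_image_of_injective _ hinj,
      Finset.card_sdiff_of_subset hTΓ, hT, hΓ, Finset.card_univ, Fintype.card_fin]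
    omega
  -- R fixes it
  have hRA₁ : R ≤ fix Γ₁ := by
    apply sup_le
    · intro q hq
      have hq' := hP.le hq
      refine ⟨hq'.1, fun w hw => ?_⟩
      rcases Finset.mem_union.mp hw with hw | hw
      · exact hq'.2 w (Finset.mem_sdiff.mp hw).1
      · obtain ⟨i, -, rfl⟩ := Finset.mem_image.mp hw
        exact hxfix i q (Subgroup.mem_sup_left hq)
    · rw [Subgroup.zpowers_le]
      refine ⟨hyG, fun w hw => ?_⟩
      rcases Finset.mem_union.mp hw with hw | hw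
      · obtain ⟨h1, h2⟩ := Finset.mem_sdiff.mp hw
        rw [hyΓ w h1]
        exact hcpowout m w h2
      · obtain ⟨i, -, rfl⟩ := Finset.mem_image.mp hw
        exact hxfix i y (Subgroup.mem_sup_right (Subgroup.mem_zpowers y))
  -- k-transitivity
  let e := Finset.equivFinOfCardEq hΓ
  let e₁ := Finset.equivFinOfCardEq hΓ₁
  let E : Fin k ↪ α := e.symm.toEmbedding.trans (Function.Embedding.subtype _)
  let E₁ : Fin k ↪ α := e₁.symm.toEmbedding.trans (Function.Embedding.subtype _)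
  obtain ⟨g, hgG, hgE⟩ := Cfsg.Agent.S0705.tuple_trans G hk hgen _ E E₁ rfl
  have hgΓ : ∀ w ∈ Γ, g w ∈ Γ₁ := by
    intro w hw
    have h1 : E (e ⟨w, hw⟩) = w := by simp [E]
    rw [← h1, hgE]
    exact (e₁.symm _).2
  have hgΓ₁ : ∀ w ∈ Γ₁, ∃ v ∈ Γ, g v = w := by
    intro w hw
    have h1 : E₁ (e₁ ⟨w, hw⟩) = w := by simp [E₁]
    refine ⟨E (e₁ ⟨w, hw⟩), (e.symm _).2, ?_⟩
    rw [hgE, h1]
  have hconj : fix Γ₁ = A₀.map (MulAut.conj g).toMonoidHom := by
    ext u
    rw [mem_map_conj_iff]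
    constructor
    · rintro ⟨hu, hu'⟩
      refine ⟨G.mul_mem (G.mul_mem (G.inv_mem hgG) hu) hgG, fun w hw => ?_⟩
      rw [Equiv.Perm.mul_apply, Equiv.Perm.mul_apply, hu' _ (hgΓ w hw)]
      simp
    · rintro ⟨hu, hu'⟩
      have hug : u = g * (g⁻¹ * u * g) * g⁻¹ := by group
      refine ⟨?_, fun w hw => ?_⟩
      · rw [hug]
        exact G.mul_mem (G.mul_mem hgG hu) (G.inv_mem hgG)
      · obtain ⟨v, hv, rfl⟩ := hgΓ₁ w hw
        have := hu' v hv
        rw [Equiv.Perm.mul_apply, Equiv.Perm.mul_apply] at this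
        have h2 := congrArg g this
        simpa using h2
  have hcard₁ : Nat.card (fix Γ₁) = Nat.card A₀ := by
    rw [hconj]; exact card_map_conj A₀ g
  -- numerics
  have hdvd : Nat.card R ∣ Nat.card (fix Γ₁) := Subgroup.card_dvd_of_le hRA₁
  obtain ⟨b, hb⟩ := (IsPGroup.iff_card).mp hRp
  have e1 := card_mul_relIndex hP.le
  rw [hcard₁, ← e1, hb] at hdvd
  have hcop : Nat.Coprime (p ^ b) (P.relIndex A₀) :=
    Nat.Coprime.pow_left b ((Nat.Prime.coprime_iff_not_dvd hp).mpr hP.not_dvd)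
  have hdvd2 : p ^ b ∣ Nat.card P := hcop.dvd_of_dvd_mul_right hdvd
  have hcardle : Nat.card R ≤ Nat.card P := by
    rw [hb]
    exact Nat.le_of_dvd Nat.card_pos hdvd2
  have hPR : P = R := Subgroup.eq_of_le_of_card_ge le_sup_left hcardle
  have hyP : y ∈ P := by
    rw [hPR]
    exact Subgroup.mem_sup_right (Subgroup.mem_zpowers y)
  exact hyx₀ ((hP.le hyP).2 x₀ hx₀Γ)

/-- In a generously `k`-transitive permutation group, for a prime `p ≤ k` and a `k`-set `Γ`, there are no `p` points outside `Γ` lying in distinct orbits of the pointwise stabiliser of `Γ` all of length prime to `p` (at most `p - 1` such orbits). -/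
theorem result {α : Type*} [Fintype α] [DecidableEq α] (G : Subgroup (Equiv.Perm α)) {k : ℕ} (hk : k < Fintype.card α) (hgen : ∀ s : Finset α, s.card = k + 1 → ∀ σ : Equiv.Perm ↥s, ∃ g ∈ G, ∀ x : ↥s, g (x : α) = σ x) {p : ℕ} (hp : p.Prime) (hpk : p ≤ k) (Γ : Finset α) (hΓ : Γ.card = k) (f : Fin p → α) (hf : ∀ i, f i ∉ Γ) (hdist : ∀ i j, i ≠ j → f j ∉ MulAction.orbit (fixingSubgroup G (Γ : Set α)) (f i)) : ∃ i, p ∣ Nat.card (MulAction.orbit (fixingSubgroup G (Γ : Set α)) (f i)) := by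
  exact core G hk hgen hp hpk Γ hΓ f hf hdist

end Cfsg.Agent.S0706
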