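import Cfsg.Statements.S0707
import Mathlib

set_option autoImplicit false
open Cfsg

namespace Cfsg.Agent.S0707

/-- In a primitive permutation group, distinct points have distinct stabilisers unless the group is regular of prime degree. -/
theorem result {α : Type*} (G : Subgroup (Equiv.Perm α)) [MulAction.IsPreprimitive G α] (h : ¬ (Nat.card α).Prime ∨ ∃ a : α, MulAction.stabilizer G a ≠ ⊥) {a b : α} (hab : a ≠ b) : MulAction.stabilizer G a ≠ MulAction.stabilizer G b := by
  intro hstab
  have : Nontrivial α := ⟨a, b, hab⟩
  have hco : IsCoatom (MulAction.stabilizer G a) :=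
    MulAction.IsPreprimitive.isCoatom_stabilizer_of_isPreprimitive G a
  obtain ⟨g, hg⟩ := MulAction.exists_smul_eq G a b
  have hgnot : g ∉ MulAction.stabilizer G a := by
    intro hmem
    have : g • a = a := hmem
    exact hab (this.symm.trans hg)
  have hgn : g ∈ Subgroup.normalizer (MulAction.stabilizer G a : Set G) := by
    rw [Subgroup.mem_normalizer_iff_map_conj_eq]
    have h1 := MulAction.stabilizer_smul_eq_stabilizer_map_conj g a
    rw [hg, ← hstab] at h1
    exact h1.symm
  have hlt : MulAction.stabilizer G a < Subgroup.normalizer (MulAction.stabilizer G a : Set G) :=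
    lt_of_le_of_ne Subgroup.le_normalizer (fun heq => hgnot (heq ▸ hgn))
  have hntop : Subgroup.normalizer (MulAction.stabilizer G a : Set G) = ⊤ := hco.2 _ hlt
  have hnormal : (MulAction.stabilizer G a).Normal := Subgroup.normalizer_eq_top_iff.mp hntop
  have hall : ∀ x : α, MulAction.stabilizer G x = MulAction.stabilizer G a := by
    intro x
    obtain ⟨k, rfl⟩ := MulAction.exists_smul_eq G a x
    rw [MulAction.stabilizer_smul_eq_stabilizer_map_conj]
    have hk : k ∈ Subgroup.normalizer (MulAction.stabilizer G a : Set G) := by
      rw [hntop]; trivial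
    exact Subgroup.mem_normalizer_iff_map_conj_eq.mp hk
  have hbot : MulAction.stabilizer G a = ⊥ := by
    rw [Subgroup.eq_bot_iff_forall]
    intro s hs
    apply Subtype.ext
    apply Equiv.ext
    intro x
    have : s ∈ MulAction.stabilizer G x := by rw [hall x]; exact hs
    exact this
  have hallbot : ∀ x : α, MulAction.stabilizer G x = ⊥ := fun x => (hall x).trans hbot
  rw [hbot] at hco
  have hg1 : g ≠ 1 := by
    rintro rfl
    apply hgnot
    exact Subgroup.one_mem _
  have hsub : ∀ K : Subgroup G, K = ⊥ ∨ K = ⊤ := by
    intro K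
    by_cases hK : K = ⊥
    · exact Or.inl hK
    · exact Or.inr (hco.2 K (bot_lt_iff_ne_bot.mpr hK))
  have hz : Subgroup.zpowers g = ⊤ := by
    rcases hsub (Subgroup.zpowers g) with h1 | h1
    · exact absurd (Subgroup.zpowers_eq_bot.mp h1) hg1
    · exact h1
  have hcyc : IsCyclic G := ⟨⟨g, fun x => by
    have : x ∈ Subgroup.zpowers g := by rw [hz]; trivial
    exact this⟩⟩
  have hcomm : IsMulCommutative G := IsCyclic.isMulCommutative
  have : Nontrivial G := ⟨g, 1, hg1⟩
  have hsimple : IsSimpleGroup G := by
    refine ⟨?_⟩
    intro K _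
    exact hsub K
  have hprime : (Nat.card G).Prime := (Group.is_simple_iff_prime_card (α := G)).mp hsimple
  have hcard : Nat.card G = Nat.card α := by
    apply Nat.card_congr
    refine Equiv.ofBijective (fun k : G => k • a) ⟨?_, ?_⟩
    · intro k k' hkk
      have hmem : k⁻¹ * k' ∈ MulAction.stabilizer G a := by
        change (k⁻¹ * k') • a = a
        have hkk' : k • a = k' • a := hkk
        rw [mul_smul, ← hkk', inv_smul_smul]
      rw [hbot, Subgroup.mem_bot] at hmem
      have := congrArg (fun f => k * f) hmem
      simpa using this.symm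
    · intro x
      exact MulAction.exists_smul_eq G a x
  rcases h with h | ⟨x, hx⟩
  · exact h (hcard ▸ hprime)
  · exact hx (hallbot x)

end Cfsg.Agent.S0707
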