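import Cfsg.Statements.S0708
import Mathlib
-- import your own Cfsg.Agent.* helpers here

set_option autoImplicit false
open Cfsg

namespace Cfsg.Agent.S0708

section Aux

variable {G : Type*} [Group G] {Ω : Type*} [MulAction G Ω]

/-- Pack four distinct points. -/
def mk4 (p q r s : Ω) (h : [p, q, r, s].Nodup) : Fin 4 ↪ Ω :=
  ⟨![p, q, r, s], by
    intro i j hij
    simp only [List.nodup_cons, List.mem_cons, not_or, List.not_mem_nil, not_false_eq_true,
      List.nodup_nil, and_true] at h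
    obtain ⟨⟨h1, h2, h3⟩, ⟨h4, h5⟩, h6⟩ := h
    fin_cases i <;> fin_cases j <;> simp_all⟩

theorem exists_map (h4 : MulAction.IsMultiplyPretransitive G Ω 4) {p q r s p' q' r' s' : Ω}
    (h : [p, q, r, s].Nodup) (h' : [p', q', r', s'].Nodup) :
    ∃ g : G, g • p = p' ∧ g • q = q' ∧ g • r = r' ∧ g • s = s' := by
  obtain ⟨g, hg⟩ := h4.exists_smul_eq (mk4 p q r s h) (mk4 p' q' r' s' h')
  refine ⟨g, ?_, ?_, ?_, ?_⟩
  · exact congrArg (fun f : Fin 4 ↪ Ω => f 0) hg
  · exact congrArg (fun f : Fin 4 ↪ Ω => f 1) hg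
  · exact congrArg (fun f : Fin 4 ↪ Ω => f 2) hg
  · exact congrArg (fun f : Fin 4 ↪ Ω => f 3) hg

theorem eq_of_agree (hsharp : ∀ x : Fin 4 ↪ Ω, MulAction.stabilizer G x = ⊥) {g h : G} {p q r s : Ω}
    (hd : [p, q, r, s].Nodup) (h1 : g • p = h • p) (h2 : g • q = h • q) (h3 : g • r = h • r)
    (h4 : g • s = h • s) : g = h := by
  have hmem : h⁻¹ * g ∈ MulAction.stabilizer G (mk4 p q r s hd) := by
    rw [MulAction.mem_stabilizer_iff]
    ext i
    have key : ∀ w : Ω, g • w = h • w → (h⁻¹ * g) • w = w := by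
      intro w hw
      rw [mul_smul, hw, inv_smul_smul]
    fin_cases i
    · exact key p h1
    · exact key q h2
    · exact key r h3
    · exact key s h4
  rw [hsharp] at hmem
  have := Subgroup.mem_bot.mp hmem
  exact (inv_mul_eq_one.mp this).symm

/-- Choose cycle representatives of an involution. -/
theorem exists_reps [DecidableEq Ω] (x : G) (hxx : ∀ p : Ω, x • x • p = p) (F : Finset Ω) (hF : ∀ p : Ω, x • p = p → p ∈ F)
    (N : ℕ) (H : ∀ T : Finset Ω, T.card ≤ N → ∃ w, w ∉ T) (k : ℕ) (hk : F.card + 2 * k ≤ N + 2) :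
    ∃ R : Finset Ω, R.card = k ∧ (∀ p ∈ R, p ∉ F) ∧ ∀ p ∈ R, ∀ q ∈ R, p ≠ q → p ≠ x • q := by
  induction k with
  | zero => exact ⟨∅, rfl, by simp, by simp⟩
  | succ k ih =>
    obtain ⟨R, hR, hRF, hRd⟩ := ih (by omega)
    let T : Finset Ω := F ∪ R ∪ R.image (fun p => x • p)
    have hT : T.card ≤ N := by
      have h1 : T.card ≤ (F ∪ R).card + (R.image (fun p => x • p)).card := Finset.card_union_le _ _
      have h2 : (F ∪ R).card ≤ F.card + R.card := Finset.card_union_le _ _
      have h3 : (R.image (fun p => x • p)).card ≤ R.card := Finset.card_image_le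
      omega
    obtain ⟨w, hw⟩ := H T hT
    simp only [T, Finset.mem_union, Finset.mem_image, not_or, not_exists, not_and] at hw
    obtain ⟨⟨hwF, hwR⟩, hwim⟩ := hw
    have hwim' : ∀ q ∈ R, w ≠ x • q := fun q hq h => hwim q hq h.symm
    refine ⟨insert w R, ?_, ?_, ?_⟩
    · rw [Finset.card_insert_of_notMem hwR, hR]
    · intro p hp
      rcases Finset.mem_insert.mp hp with rfl | hp
      · exact hwF
      · exact hRF p hp
    · intro p hp q hq hpq
      rcases Finset.mem_insert.mp hp with hp' | hp'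
      · rcases Finset.mem_insert.mp hq with hq' | hq'
        · exact absurd (hp'.trans hq'.symm) hpq
        · rw [hp']
          exact hwim' q hq'
      · rcases Finset.mem_insert.mp hq with hq' | hq'
        · intro h
          apply hwim' p hp'
          rw [hq'] at h
          rw [h, hxx]
        · exact hRd p hp' q hq' hpq

/-- The centralizing involution attached to two cycles. -/
theorem y_props (hsharp : ∀ x : Fin 4 ↪ Ω, MulAction.stabilizer G x = ⊥) {x y : G} (hxx : ∀ p : Ω, x • x • p = p)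
    {a b : Ω} (hd : [a, x • a, b, x • b].Nodup) (h1 : y • a = a) (h2 : y • (x • a) = x • a)
    (h3 : y • b = x • b) (h4 : y • (x • b) = b) :
    (∀ w : Ω, x • y • w = y • x • w) ∧ (∀ w : Ω, y • y • w = w) := by
  constructor
  · have : x * y = y * x := by
      refine eq_of_agree hsharp hd ?_ ?_ ?_ ?_
      · rw [mul_smul, mul_smul, h1, h2]
      · rw [mul_smul, mul_smul, h2, hxx, h1]
      · rw [mul_smul, mul_smul, h3, hxx, h4]
      · rw [mul_smul, mul_smul, h4, hxx, h3]
    intro w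
    rw [← mul_smul, this, mul_smul]
  · have : y * y = 1 := by
      refine eq_of_agree hsharp hd ?_ ?_ ?_ ?_
      · rw [mul_smul, one_smul, h1, h1]
      · rw [mul_smul, one_smul, h2, h2]
      · rw [mul_smul, one_smul, h3, h4]
      · rw [mul_smul, one_smul, h4, h3]
    intro w
    rw [← mul_smul, this, one_smul]

/-- The key contradiction: two such involutions agreeing at two further points. -/
theorem key_false (hsharp : ∀ x : Fin 4 ↪ Ω, MulAction.stabilizer G x = ⊥) {x y₁ y₂ : G}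
    {a b₁ b₂ p q : Ω} (hd : [a, x • a, p, q].Nodup) (hd' : [b₁, x • b₁, b₂, x • b₂].Nodup)
    (hxx : ∀ p : Ω, x • x • p = p)
    (h1 : y₁ • a = a) (h2 : y₁ • (x • a) = x • a) (h3 : y₁ • b₁ = x • b₁) (h4 : y₁ • (x • b₁) = b₁)
    (h1' : y₂ • a = a) (h2' : y₂ • (x • a) = x • a) (h3' : y₂ • b₂ = x • b₂) (h4' : y₂ • (x • b₂) = b₂)
    (hp : y₁ • p = y₂ • p) (hq : y₁ • q = y₂ • q) : False := by
  have h12 : y₁ = y₂ := eq_of_agree hsharp hd (by rw [h1, h1']) (by rw [h2, h2']) hp hq
  subst h12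
  have hx : y₁ = x := by
    refine eq_of_agree hsharp hd' h3 ?_ h3' ?_
    · rw [h4, hxx]
    · rw [h4', hxx]
  rw [hx] at h1
  simp only [List.nodup_cons, List.mem_cons, not_or, List.not_mem_nil, not_false_eq_true,
      List.nodup_nil, and_true] at hd
  exact hd.1.1 h1.symm

/-- Setting up cycle data from representatives. -/
theorem exists_y [DecidableEq Ω] (h4 : MulAction.IsMultiplyPretransitive G Ω 4)
    (hsharp : ∀ x : Fin 4 ↪ Ω, MulAction.stabilizer G x = ⊥) {x : G} (hxx : ∀ p : Ω, x • x • p = p)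
    (F : Finset Ω) (hF : ∀ p : Ω, x • p = p ↔ p ∈ F) (R : Finset Ω)
    (hRF : ∀ p ∈ R, p ∉ F) (hRd : ∀ p ∈ R, ∀ q ∈ R, p ≠ q → p ≠ x • q) {a b : Ω} (ha : a ∈ R) (hb : b ∈ R) (hab : a ≠ b) :
    [a, x • a, b, x • b].Nodup ∧ ∃ y : G, y • a = a ∧ y • (x • a) = x • a ∧ y • b = x • b ∧ y • (x • b) = b := by
  have hxa : x • a ≠ a := fun h => hRF a ha ((hF a).mp h)
  have hxb : x • b ≠ b := fun h => hRF b hb ((hF b).mp h)
  have h1 := hRd a ha b hb hab
  have h2 := hRd b hb a ha hab.symm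
  have hxab : x • a ≠ x • b := fun h => hab (smul_left_cancel x h)
  have hd : [a, x • a, b, x • b].Nodup := by
    simp only [List.nodup_cons, List.mem_cons, not_or, List.not_mem_nil, not_false_eq_true,
      List.nodup_nil, and_true]
    exact ⟨⟨hxa.symm, hab, h1⟩, ⟨h2.symm, hxab⟩, hxb.symm⟩
  have hd' : [a, x • a, x • b, b].Nodup := by
    simp only [List.nodup_cons, List.mem_cons, not_or, List.not_mem_nil, not_false_eq_true,
      List.nodup_nil, and_true]
    exact ⟨⟨hxa.symm, h1, hab⟩, ⟨hxab, h2.symm⟩, hxb⟩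
  exact ⟨hd, exists_map h4 hd hd'⟩

theorem eq_one_of_fix (hsharp : ∀ x : Fin 4 ↪ Ω, MulAction.stabilizer G x = ⊥) {u₁ u₂ u₃ u₄ : Ω} {y : G}
    (hd : [u₁, u₂, u₃, u₄].Nodup) (h1 : y • u₁ = u₁) (h2 : y • u₂ = u₂) (h3 : y • u₃ = u₃) (h4 : y • u₄ = u₄) :
    y = 1 := by
  refine eq_of_agree hsharp hd ?_ ?_ ?_ ?_ <;> simp [*]

theorem not_mem_of_smul {x : G} (hxx : ∀ p : Ω, x • x • p = p) [DecidableEq Ω] {F : Finset Ω}
    (hF : ∀ p : Ω, x • p = p ↔ p ∈ F) {a : Ω} (ha : a ∉ F) : x • a ∉ F := by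
  intro h
  have h1 := (hF _).mpr h
  rw [hxx] at h1
  exact ha ((hF a).mp h1.symm)

theorem two_fixed [DecidableEq Ω] (h4 : MulAction.IsMultiplyPretransitive G Ω 4)
    (hsharp : ∀ x : Fin 4 ↪ Ω, MulAction.stabilizer G x = ⊥) {x : G} (hxx : ∀ p : Ω, x • x • p = p)
    {e f : Ω} (hef : e ≠ f) (hF : ∀ p : Ω, x • p = p ↔ p ∈ ({e, f} : Finset Ω))
    (H : ∀ T : Finset Ω, T.card ≤ 6 → ∃ w, w ∉ T) : False := by
  obtain ⟨R, hR, hRF, hRd⟩ := exists_reps x hxx {e, f} (fun p => (hF p).mp) 6 H 3 (by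
    have : ({e, f} : Finset Ω).card ≤ 2 := Finset.card_le_two
    omega)
  obtain ⟨a, ha⟩ : R.Nonempty := by
    rw [← Finset.card_pos]; omega
  obtain ⟨b₁, hb₁, b₂, hb₂, hb⟩ : ∃ b₁ ∈ R.erase a, ∃ b₂ ∈ R.erase a, b₁ ≠ b₂ := by
    apply Finset.one_lt_card.mp
    rw [Finset.card_erase_of_mem ha, hR]
    norm_num
  have hb₁R := Finset.mem_of_mem_erase hb₁
  have hb₂R := Finset.mem_of_mem_erase hb₂
  have haF := hRF a ha
  have hxaF := not_mem_of_smul hxx hF haF
  have hxe : x • e = e := (hF e).mpr (by simp)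
  have hxf : x • f = f := (hF f).mpr (by simp)
  have haefd : [a, x • a, e, f].Nodup := by
    simp only [List.nodup_cons, List.mem_cons, not_or, List.not_mem_nil, not_false_eq_true,
      List.nodup_nil, and_true]
    simp only [Finset.mem_insert, Finset.mem_singleton, not_or] at haF hxaF
    refine ⟨⟨?_, haF.1, haF.2⟩, ⟨hxaF.1, hxaF.2⟩, hef⟩
    intro h
    exact hRF a ha ((hF a).mp h.symm)
  -- the general property
  have key : ∀ (b : Ω) (y : G), [a, x • a, b, x • b].Nodup → y • a = a → y • (x • a) = x • a → y • b = x • b →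
      y • (x • b) = b → y • e = f ∧ y • f = e := by
    intro b y hd h1 h2 h3 h4'
    obtain ⟨hc, hi⟩ := y_props hsharp hxx hd h1 h2 h3 h4'
    have he : y • e ∈ ({e, f} : Finset Ω) := (hF _).mp (by rw [hc, hxe])
    have hf : y • f ∈ ({e, f} : Finset Ω) := (hF _).mp (by rw [hc, hxf])
    simp only [Finset.mem_insert, Finset.mem_singleton] at he hf
    rcases he with he | he
    · exfalso
      rcases hf with hf | hf
      · exact hef (smul_left_cancel y (he.trans hf.symm))
      · have hy1 := eq_one_of_fix hsharp haefd h1 h2 he hf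
        rw [hy1, one_smul] at h3
        simp only [List.nodup_cons, List.mem_cons, not_or, List.not_mem_nil, not_false_eq_true,
          List.nodup_nil, and_true] at hd
        exact hd.2.2 h3
    · refine ⟨he, ?_⟩
      rw [← he, hi]
  obtain ⟨hd₁, y₁, h1, h2, h3, h4'⟩ := exists_y h4 hsharp hxx _ hF R hRF hRd ha hb₁R (Finset.ne_of_mem_erase hb₁).symm
  obtain ⟨hd₂, y₂, h1', h2', h3', h4''⟩ := exists_y h4 hsharp hxx _ hF R hRF hRd ha hb₂R (Finset.ne_of_mem_erase hb₂).symm
  obtain ⟨hd', -⟩ := exists_y h4 hsharp hxx _ hF R hRF hRd hb₁R hb₂R hb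
  obtain ⟨k1, k2⟩ := key b₁ y₁ hd₁ h1 h2 h3 h4'
  obtain ⟨k1', k2'⟩ := key b₂ y₂ hd₂ h1' h2' h3' h4''
  exact key_false hsharp haefd hd' hxx h1 h2 h3 h4' h1' h2' h3' h4'' (k1.trans k1'.symm) (k2.trans k2'.symm)

theorem three_fixed [DecidableEq Ω] (h4 : MulAction.IsMultiplyPretransitive G Ω 4)
    (hsharp : ∀ x : Fin 4 ↪ Ω, MulAction.stabilizer G x = ⊥) {x : G} (hxx : ∀ p : Ω, x • x • p = p)
    {e f g : Ω} (hef : e ≠ f) (heg : e ≠ g) (hfg : f ≠ g) (hF : ∀ p : Ω, x • p = p ↔ p ∈ ({e, f, g} : Finset Ω))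
    (H : ∀ T : Finset Ω, T.card ≤ 11 → ∃ w, w ∉ T) : False := by
  have hFc : ({e, f, g} : Finset Ω).card = 3 := Finset.card_eq_three.mpr ⟨e, f, g, hef, heg, hfg, rfl⟩
  obtain ⟨R, hR, hRF, hRd⟩ := exists_reps x hxx {e, f, g} (fun p => (hF p).mp) 11 H 5 (by omega)
  obtain ⟨a, ha⟩ : R.Nonempty := by
    rw [← Finset.card_pos]; omega
  have haF := hRF a ha
  have hxaF := not_mem_of_smul hxx hF haF
  have hxe : x • e = e := (hF e).mpr (by simp)
  have hxf : x • f = f := (hF f).mpr (by simp)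
  have hxg : x • g = g := (hF g).mpr (by simp)
  have haxa : a ≠ x • a := fun h => hRF a ha ((hF a).mp h.symm)
  have haefd : [a, x • a, e, f].Nodup := by
    simp only [List.nodup_cons, List.mem_cons, not_or, List.not_mem_nil, not_false_eq_true,
      List.nodup_nil, and_true]
    simp only [Finset.mem_insert, Finset.mem_singleton, not_or] at haF hxaF
    exact ⟨⟨haxa, haF.1, haF.2.1⟩, ⟨hxaF.1, hxaF.2.1⟩, hef⟩
  have haegd : [a, x • a, e, g].Nodup := by
    simp only [List.nodup_cons, List.mem_cons, not_or, List.not_mem_nil, not_false_eq_true,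
      List.nodup_nil, and_true]
    simp only [Finset.mem_insert, Finset.mem_singleton, not_or] at haF hxaF
    exact ⟨⟨haxa, haF.1, haF.2.2⟩, ⟨hxaF.1, hxaF.2.2⟩, heg⟩
  -- the general property
  have key : ∀ (b : Ω) (y : G), [a, x • a, b, x • b].Nodup → y • a = a → y • (x • a) = x • a → y • b = x • b →
      y • (x • b) = b → y • e ∈ ({e, f, g} : Finset Ω) ∧ (y • e = e → y • f = g) ∧ (y • e = f → y • f = e) ∧
        (y • e = g → y • g = e) := by
    intro b y hd h1 h2 h3 h4'
    obtain ⟨hc, hi⟩ := y_props hsharp hxx hd h1 h2 h3 h4'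
    have he : y • e ∈ ({e, f, g} : Finset Ω) := (hF _).mp (by rw [hc, hxe])
    have hf : y • f ∈ ({e, f, g} : Finset Ω) := (hF _).mp (by rw [hc, hxf])
    refine ⟨he, ?_, ?_, ?_⟩
    · intro he'
      simp only [Finset.mem_insert, Finset.mem_singleton] at hf
      rcases hf with hf | hf | hf
      · exact absurd (smul_left_cancel y (he'.trans hf.symm)) hef
      · exfalso
        have hy1 := eq_one_of_fix hsharp haefd h1 h2 he' hf
        rw [hy1, one_smul] at h3
        simp only [List.nodup_cons, List.mem_cons, not_or, List.not_mem_nil, not_false_eq_true,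
          List.nodup_nil, and_true] at hd
        exact hd.2.2 h3
      · exact hf
    · intro he'
      rw [← he', hi]
    · intro he'
      rw [← he', hi]
  -- choose for each representative
  have hex : ∀ b : Ω, ∃ y : G, b ∈ R.erase a → y • a = a ∧ y • (x • a) = x • a ∧ y • b = x • b ∧ y • (x • b) = b := by
    intro b
    by_cases hb : b ∈ R.erase a
    · obtain ⟨-, y, hy⟩ := exists_y h4 hsharp hxx _ hF R hRF hRd ha (Finset.mem_of_mem_erase hb) (Finset.ne_of_mem_erase hb).symm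
      exact ⟨y, fun _ => hy⟩
    · exact ⟨1, fun h => absurd h hb⟩
  choose Y hY using hex
  have hnd : ∀ b ∈ R.erase a, [a, x • a, b, x • b].Nodup := fun b hb =>
    (exists_y h4 hsharp hxx _ hF R hRF hRd ha (Finset.mem_of_mem_erase hb) (Finset.ne_of_mem_erase hb).symm).1
  have hcard : ({e, f, g} : Finset Ω).card < (R.erase a).card := by
    rw [Finset.card_erase_of_mem ha, hR, hFc]
    norm_num
  have hmaps : ∀ b ∈ R.erase a, Y b • e ∈ ({e, f, g} : Finset Ω) := by
    intro b hb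
    obtain ⟨h1, h2, h3, h4'⟩ := hY b hb
    exact (key b (Y b) (hnd b hb) h1 h2 h3 h4').1
  obtain ⟨b₁, hb₁, b₂, hb₂, hb, hval⟩ := Finset.exists_ne_map_eq_of_card_lt_of_maps_to hcard hmaps
  obtain ⟨h1, h2, h3, h4'⟩ := hY b₁ hb₁
  obtain ⟨h1', h2', h3', h4''⟩ := hY b₂ hb₂
  obtain ⟨hm, ke, kf, kg⟩ := key b₁ (Y b₁) (hnd b₁ hb₁) h1 h2 h3 h4'
  obtain ⟨-, ke', kf', kg'⟩ := key b₂ (Y b₂) (hnd b₂ hb₂) h1' h2' h3' h4''
  obtain ⟨hd', -⟩ := exists_y h4 hsharp hxx _ hF R hRF hRd (Finset.mem_of_mem_erase hb₁) (Finset.mem_of_mem_erase hb₂) hb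
  simp only [Finset.mem_insert, Finset.mem_singleton] at hm
  rcases hm with hm | hm | hm
  · exact key_false hsharp haefd hd' hxx h1 h2 h3 h4' h1' h2' h3' h4'' hval ((ke hm).trans (ke' (hval ▸ hm)).symm)
  · exact key_false hsharp haefd hd' hxx h1 h2 h3 h4' h1' h2' h3' h4'' hval ((kf hm).trans (kf' (hval ▸ hm)).symm)
  · exact key_false hsharp haegd hd' hxx h1 h2 h3 h4' h1' h2' h3' h4'' hval ((kg hm).trans (kg' (hval ▸ hm)).symm)

end Aux

/-- Tits' argument: a sharply 4-transitive group (no finiteness assumed) has finite degree at most 11, and at most 6 when the degree is even. -/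
theorem result {G : Type*} [Group G] {Ω : Type*} [MulAction G Ω] (h4 : MulAction.IsMultiplyPretransitive G Ω 4) (hsharp : ∀ x : Fin 4 ↪ Ω, MulAction.stabilizer G x = ⊥) (hne : Nonempty (Fin 4 ↪ Ω)) : Finite Ω ∧ Nat.card Ω ≤ 11 ∧ (Even (Nat.card Ω) → Nat.card Ω ≤ 6) := by
  classical
  -- four distinct points
  obtain ⟨v⟩ := hne
  have hv : [v 0, v 1, v 2, v 3].Nodup := by
    have hinj := v.injective
    simp only [List.nodup_cons, List.mem_cons, not_or, List.not_mem_nil, not_false_eq_true,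
      List.nodup_nil, and_true]
    refine ⟨⟨?_, ?_, ?_⟩, ⟨?_, ?_⟩, ?_⟩ <;> exact fun h => absurd (hinj h) (by decide)
  set p₀ := v 0
  set p₁ := v 1
  set p₂ := v 2
  set p₃ := v 3
  have hv' : [p₀, p₁, p₃, p₂].Nodup := by
    simp only [List.nodup_cons, List.mem_cons, not_or, List.not_mem_nil, not_false_eq_true,
      List.nodup_nil, and_true] at hv ⊢
    tauto
  obtain ⟨x, hx0, hx1, hx2, hx3⟩ := exists_map h4 hv hv'
  have hxx' : x * x = 1 := by
    refine eq_of_agree hsharp hv ?_ ?_ ?_ ?_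
    · rw [mul_smul, one_smul, hx0, hx0]
    · rw [mul_smul, one_smul, hx1, hx1]
    · rw [mul_smul, one_smul, hx2, hx3]
    · rw [mul_smul, one_smul, hx3, hx2]
  have hxx : ∀ w : Ω, x • x • w = w := by
    intro w
    rw [← mul_smul, hxx', one_smul]
  have hp23 : p₂ ≠ p₃ := by
    simp only [List.nodup_cons, List.mem_cons, not_or, List.not_mem_nil, not_false_eq_true,
      List.nodup_nil, and_true] at hv
    tauto
  have hp01 : p₀ ≠ p₁ := by
    simp only [List.nodup_cons, List.mem_cons, not_or, List.not_mem_nil, not_false_eq_true,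
      List.nodup_nil, and_true] at hv
    tauto
  have hnot1 : x ≠ 1 := by
    rintro rfl
    rw [one_smul] at hx2
    exact hp23 hx2
  -- no four fixed points
  have hno4 : ∀ {u₁ u₂ u₃ u₄ : Ω} {y : G}, [u₁, u₂, u₃, u₄].Nodup → y • u₁ = u₁ → y • u₂ = u₂ → y • u₃ = u₃ → y • u₄ = u₄ → y = 1 := by
    intro u₁ u₂ u₃ u₄ y hd h1 h2 h3 h4
    refine eq_of_agree hsharp hd ?_ ?_ ?_ ?_ <;> simp [*]
  by_cases hthird : ∃ h : Ω, h ≠ p₀ ∧ h ≠ p₁ ∧ x • h = h
  · -- three fixed points
    obtain ⟨h, hh0, hh1, hxh⟩ := hthird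
    have hF : ∀ w : Ω, x • w = w ↔ w ∈ ({p₀, p₁, h} : Finset Ω) := by
      intro w
      simp only [Finset.mem_insert, Finset.mem_singleton]
      constructor
      · intro hw
        by_contra hcon
        push Not at hcon
        apply hnot1
        refine hno4 (u₁ := p₀) (u₂ := p₁) (u₃ := h) (u₄ := w) ?_ hx0 hx1 hxh hw
        simp only [List.nodup_cons, List.mem_cons, not_or, List.not_mem_nil, not_false_eq_true,
          List.nodup_nil, and_true]
        exact ⟨⟨hp01, hh0.symm, hcon.1.symm⟩, ⟨hh1.symm, hcon.2.1.symm⟩, hcon.2.2.symm⟩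
      · rintro (rfl | rfl | rfl)
        · exact hx0
        · exact hx1
        · exact hxh
    have hcov : ∃ T : Finset Ω, T.card ≤ 11 ∧ ∀ w, w ∈ T := by
      by_contra hcon
      push Not at hcon
      exact three_fixed h4 hsharp hxx hp01 hh0.symm hh1.symm hF hcon
    obtain ⟨T, hT, hTall⟩ := hcov
    haveI : Finite Ω := Finite.of_injective (fun w => (⟨w, hTall w⟩ : T)) (fun a b h => congrArg (fun z : T => z.1) h)
    haveI : Fintype Ω := Fintype.ofFinite Ω
    have hcard : Nat.card Ω ≤ 11 := by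
      rw [Nat.card_eq_fintype_card]
      exact le_trans (Finset.card_le_card (fun w _ => hTall w)) hT
    refine ⟨inferInstance, hcard, fun heven => ?_⟩
    exfalso
    haveI : Fact (Nat.Prime 2) := ⟨Nat.prime_two⟩
    let φ : Function.End Ω := fun w => x • w
    have hφ : φ ^ 2 ^ 1 = 1 := by
      funext w
      show φ (φ w) = w
      exact hxx w
    have hmod := Equiv.Perm.card_fixedPoints_modEq hφ
    have hfixcard : Fintype.card (Function.fixedPoints φ) = 3 := by
      have h3 : ({p₀, p₁, h} : Finset Ω).card = 3 :=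
        Finset.card_eq_three.mpr ⟨p₀, p₁, h, hp01, hh0.symm, hh1.symm, rfl⟩
      rw [← h3]
      exact Fintype.card_of_subtype _ (fun w => (hF w).symm)
    rw [hfixcard] at hmod
    rw [Nat.card_eq_fintype_card] at heven
    have h2 : Fintype.card Ω % 2 = 3 % 2 := hmod
    have h3 := Nat.even_iff.mp heven
    omega
  · -- two fixed points
    push Not at hthird
    have hF : ∀ w : Ω, x • w = w ↔ w ∈ ({p₀, p₁} : Finset Ω) := by
      intro w
      simp only [Finset.mem_insert, Finset.mem_singleton]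
      constructor
      · intro hw
        by_contra hcon
        push Not at hcon
        exact hthird w hcon.1 hcon.2 hw
      · rintro (rfl | rfl)
        · exact hx0
        · exact hx1
    have hcov : ∃ T : Finset Ω, T.card ≤ 6 ∧ ∀ w, w ∈ T := by
      by_contra hcon
      push Not at hcon
      exact two_fixed h4 hsharp hxx hp01 hF hcon
    obtain ⟨T, hT, hTall⟩ := hcov
    haveI : Finite Ω := Finite.of_injective (fun w => (⟨w, hTall w⟩ : T)) (fun a b h => congrArg (fun z : T => z.1) h)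
    haveI : Fintype Ω := Fintype.ofFinite Ω
    have hcard : Nat.card Ω ≤ 6 := by
      rw [Nat.card_eq_fintype_card]
      exact le_trans (Finset.card_le_card (fun w _ => hTall w)) hT
    exact ⟨inferInstance, by omega, fun _ => hcard⟩

end Cfsg.Agent.S0708
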