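import Cfsg.Statements.S0709
import Mathlib

set_option autoImplicit false
set_option linter.unusedSectionVars false
open Cfsg

namespace Cfsg.Agent.S0709

open MulAction

/-- If `s² ∈ K` and `s K s⁻¹ ⊆ K ∪ K s K`, everything generated by `K` and `s` lies in `K ∪ K s K`. -/
theorem mem_doubleCoset_of_closure {Γ : Type*} [Group Γ] (K : Subgroup Γ) (s : Γ)
    (hs : s ^ 2 ∈ K)
    (hconj : ∀ g ∈ K, s * g * s⁻¹ ∈ K ∨ ∃ k ∈ K, ∃ k' ∈ K, s * g * s⁻¹ = k * s * k')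
    (T : Set Γ) (hT : ∀ x ∈ T, x ∈ K ∨ x = s) :
    ∀ x ∈ Subgroup.closure T, x ∈ K ∨ ∃ k ∈ K, ∃ k' ∈ K, x = k * s * k' := by
  have hleftK : ∀ k₀ ∈ K, ∀ y : Γ, (y ∈ K ∨ ∃ k ∈ K, ∃ k' ∈ K, y = k * s * k') →
      (k₀ * y ∈ K ∨ ∃ k ∈ K, ∃ k' ∈ K, k₀ * y = k * s * k') := by
    rintro k₀ hk₀ y (hy | ⟨k, hk, k', hk', rfl⟩)
    · exact Or.inl (K.mul_mem hk₀ hy)
    · exact Or.inr ⟨k₀ * k, K.mul_mem hk₀ hk, k', hk', by group⟩
  have hlefts : ∀ y : Γ, (y ∈ K ∨ ∃ k ∈ K, ∃ k' ∈ K, y = k * s * k') →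
      (s * y ∈ K ∨ ∃ k ∈ K, ∃ k' ∈ K, s * y = k * s * k') := by
    rintro y (hy | ⟨k, hk, k', hk', rfl⟩)
    · exact Or.inr ⟨1, K.one_mem, y, hy, by group⟩
    · have e : s * (k * s * k') = (s * k * s⁻¹) * (s ^ 2 * k') := by
        simp only [pow_succ, pow_zero, one_mul]; group
      rcases hconj k hk with h | ⟨a, ha, b, hb, hab⟩
      · left
        rw [e]
        exact K.mul_mem h (K.mul_mem hs hk')
      · right
        refine ⟨a, ha, b * (s ^ 2 * k'), K.mul_mem hb (K.mul_mem hs hk'), ?_⟩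
        rw [e, hab]
        group
  intro x hx
  induction hx using Subgroup.closure_induction_left with
  | one => exact Or.inl K.one_mem
  | mul_left x hx y hy ih =>
    rcases hT x hx with h | rfl
    · exact hleftK x h y ih
    · exact hlefts y ih
  | inv_mul_cancel x hx y hy ih =>
    rcases hT x hx with h | rfl
    · exact hleftK x⁻¹ (K.inv_mem h) y ih
    · have e : x⁻¹ * y = (x ^ 2)⁻¹ * (x * y) := by
        simp only [pow_succ, pow_zero, one_mul]; group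
      rw [e]
      exact hleftK _ (K.inv_mem hs) _ (hlefts y ih)

/-- The hypotheses of Witt's lemma. -/
structure Hyp {α : Type*} [Fintype α] [DecidableEq α] (t : ℕ) (q : ℕ → α)
    (G : Subgroup (Equiv.Perm α)) (s : ℕ → Equiv.Perm α) (H : Subgroup (Equiv.Perm α)) : Prop where
  ht : 2 ≤ t
  hq : ∀ i j : ℕ, 1 ≤ i → i ≤ t → 1 ≤ j → j ≤ t → q i = q j → i = j
  hfix : ∀ g ∈ G, ∀ i : ℕ, 3 ≤ i → i ≤ t → g (q i) = q i
  h2 : ∀ a b c d : α, (∀ i, 3 ≤ i → i ≤ t → a ≠ q i ∧ b ≠ q i ∧ c ≠ q i ∧ d ≠ q i) → a ≠ b → c ≠ d →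
    ∃ g ∈ G, g a = c ∧ g b = d
  hs1 : s 1 ∈ G
  hs1q : s 1 (q 1) = q 2 ∧ s 1 (q 2) = q 1
  hsq : ∀ i : ℕ, 2 ≤ i → i + 1 ≤ t → s i (q i) = q (i + 1) ∧ s i (q (i + 1)) = q i ∧
    ∀ j : ℕ, 1 ≤ j → j ≤ t → j ≠ i → j ≠ i + 1 → s i (q j) = q j
  hH : H = G ⊓ MulAction.stabilizer (Equiv.Perm α) (q 1) ⊓ MulAction.stabilizer (Equiv.Perm α) (q 2)
  hsq2 : ∀ i : ℕ, 1 ≤ i → i + 1 ≤ t → s i ^ 2 ∈ H
  hbraid : ∀ i : ℕ, 1 ≤ i → i + 2 ≤ t → (s i * s (i + 1)) ^ 3 ∈ H
  hcomm : ∀ i j : ℕ, 1 ≤ i → i + 2 ≤ j → j + 1 ≤ t → (s i * s j) ^ 2 ∈ H ∧ (s j * s i) ^ 2 ∈ H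
  hnorm : ∀ i : ℕ, 2 ≤ i → i + 1 ≤ t → ∀ g ∈ G ⊓ MulAction.stabilizer (Equiv.Perm α) (q 2),
    s i * g * (s i)⁻¹ ∈ G ⊓ MulAction.stabilizer (Equiv.Perm α) (q 2)

/-- The intermediate groups. -/
def KK {α : Type*} (G : Subgroup (Equiv.Perm α)) (s : ℕ → Equiv.Perm α) (r : ℕ) :
    Subgroup (Equiv.Perm α) :=
  Subgroup.closure ((G : Set (Equiv.Perm α)) ∪ {x | ∃ i : ℕ, 2 ≤ i ∧ i + 1 ≤ r ∧ x = s i})

section

variable {α : Type*} [Fintype α] [DecidableEq α] {t : ℕ} {q : ℕ → α}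
  {G : Subgroup (Equiv.Perm α)} {s : ℕ → Equiv.Perm α} {H : Subgroup (Equiv.Perm α)}

theorem G_le_KK (r : ℕ) : G ≤ KK G s r := fun _ hg => Subgroup.subset_closure (Or.inl hg)

theorem s_mem_KK {i r : ℕ} (hi : 2 ≤ i) (hr : i + 1 ≤ r) : s i ∈ KK G s r :=
  Subgroup.subset_closure (Or.inr ⟨i, hi, hr, rfl⟩)

theorem KK_mono {r r' : ℕ} (h : r ≤ r') : KK G s r ≤ KK G s r' := by
  apply Subgroup.closure_mono
  rintro x (hx | ⟨i, hi, hr, rfl⟩)
  · exact Or.inl hx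
  · exact Or.inr ⟨i, hi, by omega, rfl⟩

theorem H_le_G (A : Hyp t q G s H) : H ≤ G := by
  rw [A.hH]
  exact le_trans inf_le_left inf_le_left

theorem mem_H_iff (A : Hyp t q G s H) (h : Equiv.Perm α) :
    h ∈ H ↔ h ∈ G ∧ h (q 1) = q 1 ∧ h (q 2) = q 2 := by
  rw [A.hH, Subgroup.mem_inf, Subgroup.mem_inf, mem_stabilizer_iff, mem_stabilizer_iff, and_assoc]
  rfl

theorem qne (A : Hyp t q G s H) {i j : ℕ} (hi : 1 ≤ i) (hi' : i ≤ t) (hj : 1 ≤ j) (hj' : j ≤ t)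
    (hij : i ≠ j) : q i ≠ q j := fun h => hij (A.hq i j hi hi' hj hj' h)

theorem KK_fix (A : Hyp t q G s H) {r : ℕ} (hr : 2 ≤ r) {x : Equiv.Perm α} (hx : x ∈ KK G s r)
    {j : ℕ} (hj : r < j) (hj' : j ≤ t) : x (q j) = q j := by
  induction hx using Subgroup.closure_induction with
  | mem x hx =>
    rcases hx with hx | ⟨i, hi2, hir, rfl⟩
    · exact A.hfix x hx j (by omega) hj'
    · exact (A.hsq i hi2 (by omega)).2.2 j (by omega) hj' (by omega) (by omega)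
  | one => rfl
  | mul x y _ _ hx hy => rw [Equiv.Perm.mul_apply, hy, hx]
  | inv x _ hx => rw [Equiv.Perm.inv_eq_iff_eq]; exact hx.symm

/-- `s i`, `i ≥ 3`, normalises `G`. -/
theorem s_conj_G (A : Hyp t q G s H) {i : ℕ} (hi : 3 ≤ i) (hi' : i + 1 ≤ t) {g : Equiv.Perm α}
    (hg : g ∈ G) : s i * g * (s i)⁻¹ ∈ G := by
  have hnorm := A.hnorm i (by omega) hi'
  have hHG := H_le_G A
  have hL : ∀ l ∈ G, l (q 2) = q 2 → s i * l * (s i)⁻¹ ∈ G := by
    intro l hl hl2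
    have : l ∈ G ⊓ MulAction.stabilizer (Equiv.Perm α) (q 2) := ⟨hl, hl2⟩
    exact (hnorm l this).1
  by_cases hg2 : g (q 2) = q 2
  · exact hL g hg hg2
  set c := g (q 2) with hc
  have hq12 : q 2 ≠ q 1 := qne A (by omega) A.ht (by omega) (by have := A.ht; omega) (by omega)
  obtain ⟨l, hl, hl2, hl1⟩ := A.h2 (q 2) (q 1) (q 2) c (by
    intro j hj hj'
    have h21 : q 2 ≠ q j := qne A (by omega) A.ht (by omega) hj' (by omega)
    have h11 : q 1 ≠ q j := qne A (by omega) (by omega) (by omega) hj' (by omega)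
    refine ⟨h21, h11, h21, ?_⟩
    intro hcj
    rw [hc] at hcj
    have h3 := A.hfix g hg j hj hj'
    rw [← h3] at hcj
    exact h21 (g.injective hcj)) hq12 (Ne.symm hg2)
  set l' := (l * s 1)⁻¹ * g with hl'
  have hl'G : l' ∈ G := G.mul_mem (G.inv_mem (G.mul_mem hl A.hs1)) hg
  have hl'2 : l' (q 2) = q 2 := by
    rw [hl', Equiv.Perm.mul_apply, Equiv.Perm.inv_eq_iff_eq, Equiv.Perm.mul_apply, A.hs1q.2, hl1]
  have hgdec : g = l * s 1 * l' := by rw [hl']; group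
  have hcm := (A.hcomm 1 i (by omega) (by omega) hi').2
  have hs1conj : s i * s 1 * (s i)⁻¹ ∈ G := by
    have e : s i * s 1 * (s i)⁻¹ = (s i * s 1) ^ 2 * (s 1)⁻¹ * (s i ^ 2)⁻¹ := by
      simp only [pow_succ, pow_zero, one_mul]; group
    rw [e]
    exact G.mul_mem (G.mul_mem (hHG hcm) (G.inv_mem A.hs1))
      (G.inv_mem (hHG (A.hsq2 i (by omega) hi')))
  have e : s i * g * (s i)⁻¹ =
      (s i * l * (s i)⁻¹) * (s i * s 1 * (s i)⁻¹) * (s i * l' * (s i)⁻¹) := by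
    rw [hgdec]; group
  rw [e]
  exact G.mul_mem (G.mul_mem (hL l hl hl2) hs1conj) (hL l' hl'G hl'2)

/-- `s i`, `i ≥ r + 1`, normalises `K r`. -/
theorem s_conj_KK (A : Hyp t q G s H) {r i : ℕ} (hr : 2 ≤ r) (hi : r + 1 ≤ i) (hi' : i + 1 ≤ t)
    {x : Equiv.Perm α} (hx : x ∈ KK G s r) : s i * x * (s i)⁻¹ ∈ KK G s r := by
  have hHG := H_le_G A
  induction hx using Subgroup.closure_induction with
  | mem x hx =>
    rcases hx with hx | ⟨j, hj2, hjr, rfl⟩
    · exact G_le_KK r (s_conj_G A (by omega) hi' hx)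
    · have hcm := (A.hcomm j i (by omega) (by omega) hi').2
      have e : s i * s j * (s i)⁻¹ = (s i * s j) ^ 2 * (s j)⁻¹ * (s i ^ 2)⁻¹ := by
        simp only [pow_succ, pow_zero, one_mul]; group
      rw [e]
      have h1 : s j ∈ KK G s r := s_mem_KK hj2 hjr
      have h2 := G_le_KK (s := s) r (hHG hcm)
      have h3 := G_le_KK (s := s) r (hHG (A.hsq2 i (by omega) hi'))
      exact Subgroup.mul_mem _ (Subgroup.mul_mem _ h2 (Subgroup.inv_mem _ h1)) (Subgroup.inv_mem _ h3)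
  | one =>
    have e : s i * (1 : Equiv.Perm α) * (s i)⁻¹ = 1 := by group
    rw [e]; exact Subgroup.one_mem _
  | mul x y _ _ hx hy =>
    have e : s i * (x * y) * (s i)⁻¹ = (s i * x * (s i)⁻¹) * (s i * y * (s i)⁻¹) := by group
    rw [e]; exact Subgroup.mul_mem _ hx hy
  | inv x _ hx =>
    have e : s i * x⁻¹ * (s i)⁻¹ = (s i * x * (s i)⁻¹)⁻¹ := by group
    rw [e]; exact Subgroup.inv_mem _ hx

/-- The induction statement. -/
structure Pr (t : ℕ) (q : ℕ → α) (G : Subgroup (Equiv.Perm α)) (s : ℕ → Equiv.Perm α)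
    (H : Subgroup (Equiv.Perm α)) (r : ℕ) : Prop where
  P1 : ∀ x : ℕ → α, (∀ i j, 1 ≤ i → i ≤ r → 1 ≤ j → j ≤ r → x i = x j → i = j) →
    (∀ i j, 1 ≤ i → i ≤ r → r < j → j ≤ t → x i ≠ q j) →
    ∃ g ∈ KK G s r, ∀ i, 1 ≤ i → i ≤ r → g (q i) = x i
  P2 : ∀ g ∈ KK G s r, (∀ i, 1 ≤ i → i ≤ r → g (q i) = q i) → g ∈ H
  P3 : r < t → ∀ m ∈ KK G s r, m (q r) = q r → s r * m * (s r)⁻¹ ∈ KK G s r

theorem KK_two : KK G s 2 = G := by
  apply le_antisymm
  · apply (Subgroup.closure_le _).mpr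
    rintro x (hx | ⟨i, hi, hi', rfl⟩)
    · exact hx
    · omega
  · exact G_le_KK 2

theorem Pr_two (A : Hyp t q G s H) : Pr t q G s H 2 := by
  have ht := A.ht
  refine ⟨?_, ?_, ?_⟩
  · intro x hinj havoid
    rw [KK_two]
    have h12 : x 1 ≠ x 2 := fun h => by
      have := hinj 1 2 (by omega) (by omega) (by omega) (by omega) h
      omega
    obtain ⟨g, hg, h1, h2⟩ := A.h2 (q 1) (q 2) (x 1) (x 2) (by
      intro i hi hi'
      exact ⟨qne A (by omega) (by omega) (by omega) hi' (by omega),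
        qne A (by omega) (by omega) (by omega) hi' (by omega),
        havoid 1 i (by omega) (by omega) (by omega) hi',
        havoid 2 i (by omega) (by omega) (by omega) hi'⟩)
      (qne A (by omega) (by omega) (by omega) (by omega) (by omega)) h12
    refine ⟨g, hg, ?_⟩
    intro i hi hi'
    obtain rfl | rfl : i = 1 ∨ i = 2 := by omega
    · exact h1
    · exact h2
  · intro g hg hfixg
    rw [KK_two] at hg
    rw [mem_H_iff A]
    exact ⟨hg, hfixg 1 (by omega) (by omega), hfixg 2 (by omega) (by omega)⟩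
  · intro h2t m hm hm2
    rw [KK_two] at hm ⊢
    exact (A.hnorm 2 (by omega) (by omega) m ⟨hm, hm2⟩).1

/-- A useful tuple: the image of the standard tuple under a transposition. -/
theorem exists_swap (A : Hyp t q G s H) {r : ℕ} (P : Pr t q G s H r) (hrt : r ≤ t) {u : ℕ}
    (hu : 1 ≤ u) (hu' : u ≤ r) {c : α} (hc : ∀ j, r < j → j ≤ t → c ≠ q j) :
    ∃ m ∈ KK G s r, ∀ i, 1 ≤ i → i ≤ r → m (q i) = Equiv.swap (q u) c (q i) := by
  apply P.P1
  · intro i j hi hi' hj hj' h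
    exact A.hq i j hi (by omega) hj (by omega) ((Equiv.swap (q u) c).injective h)
  · intro i j hi hi' hj hj' h
    have h1 : Equiv.swap (q u) c (q j) = q j :=
      Equiv.swap_apply_of_ne_of_ne (qne A (by omega) hj' hu (by omega) (by omega))
        (Ne.symm (hc j hj hj'))
    rw [← h1] at h
    exact absurd (A.hq i j hi (by omega) (by omega) hj' ((Equiv.swap (q u) c).injective h))
      (by omega)

/-- The induction step. -/
theorem Pr_succ (A : Hyp t q G s H) {r : ℕ} (hr : 1 ≤ r) (hrt : r + 2 ≤ t)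
    (P : Pr t q G s H (r + 1)) : Pr t q G s H (r + 2) := by
  have hHG := H_le_G A
  have hHK : ∀ h ∈ H, h ∈ KK G s (r + 1) := fun h hh => G_le_KK _ (hHG hh)
  -- the generator
  have hamem : s r ∈ KK G s (r + 1) := by
    rcases Nat.lt_or_ge r 2 with h | h
    · obtain rfl : r = 1 := by omega
      exact G_le_KK _ A.hs1
    · exact s_mem_KK h (by omega)
  have hamove : s r (q (r + 1)) = q r := by
    rcases Nat.lt_or_ge r 2 with h | h
    · obtain rfl : r = 1 := by omega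
      exact A.hs1q.2
    · exact (A.hsq r h (by omega)).2.1
  have hs2 : s (r + 1) ^ 2 ∈ KK G s (r + 1) := hHK _ (A.hsq2 (r + 1) (by omega) (by omega))
  have hsmem : s (r + 1) ∈ KK G s (r + 2) := s_mem_KK (by omega) (by omega)
  -- (i) Decomposition of `K`
  have hdec : ∀ g ∈ KK G s (r + 1), g (q (r + 1)) = q (r + 1) ∨
      ∃ m ∈ KK G s (r + 1), ∃ m' ∈ KK G s (r + 1), m (q (r + 1)) = q (r + 1) ∧
        m' (q (r + 1)) = q (r + 1) ∧ g = m * s r * m' := by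
    intro g hg
    by_cases hg1 : g (q (r + 1)) = q (r + 1)
    · exact Or.inl hg1
    right
    set c := g (q (r + 1)) with hc
    have hcne : ∀ j, r + 1 < j → j ≤ t → c ≠ q j := by
      intro j hj hj' hcj
      rw [hc, ← KK_fix A (by omega) hg hj hj'] at hcj
      exact qne A (by omega) (by omega) (by omega) hj' (by omega) (g.injective hcj)
    obtain ⟨m, hm, hmq⟩ := exists_swap A P (by omega) (u := r) hr (by omega) hcne
    have hm1 : m (q (r + 1)) = q (r + 1) := by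
      rw [hmq (r + 1) (by omega) (by omega)]
      exact Equiv.swap_apply_of_ne_of_ne (qne A (by omega) (by omega) (by omega) (by omega) (by omega))
        (Ne.symm hg1)
    have hm2 : m (q r) = c := by
      rw [hmq r hr (by omega)]
      exact Equiv.swap_apply_left _ _
    refine ⟨m, hm, (m * s r)⁻¹ * g, Subgroup.mul_mem _ (Subgroup.inv_mem _ (Subgroup.mul_mem _ hm hamem)) hg,
      hm1, ?_, by group⟩
    rw [Equiv.Perm.mul_apply, Equiv.Perm.inv_eq_iff_eq, Equiv.Perm.mul_apply, hamove, hm2]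
  -- (ii) conjugation
  have hconj : ∀ g ∈ KK G s (r + 1), s (r + 1) * g * (s (r + 1))⁻¹ ∈ KK G s (r + 1) ∨
      ∃ k ∈ KK G s (r + 1), ∃ k' ∈ KK G s (r + 1), s (r + 1) * g * (s (r + 1))⁻¹ = k * s (r + 1) * k' := by
    intro g hg
    rcases hdec g hg with h | ⟨m, hm, m', hm', h1, h2, rfl⟩
    · exact Or.inl (P.P3 (by omega) g hg h)
    right
    have hA := P.P3 (by omega) m hm h1
    have hB := P.P3 (by omega) m' hm' h2
    have hb : (s r * s (r + 1)) ^ 3 ∈ KK G s (r + 1) := hHK _ (A.hbraid r hr (by omega))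
    refine ⟨(s (r + 1) * m * (s (r + 1))⁻¹) * (s r)⁻¹ * (s r * s (r + 1)) ^ 3,
      Subgroup.mul_mem _ (Subgroup.mul_mem _ hA (Subgroup.inv_mem _ hamem)) hb,
      (s (r + 1) ^ 2)⁻¹ * (s r)⁻¹ * (s (r + 1) ^ 2)⁻¹ * (s (r + 1) * m' * (s (r + 1))⁻¹),
      Subgroup.mul_mem _ (Subgroup.mul_mem _ (Subgroup.mul_mem _ (Subgroup.inv_mem _ hs2)
        (Subgroup.inv_mem _ hamem)) (Subgroup.inv_mem _ hs2)) hB, ?_⟩
    simp only [pow_succ, pow_zero, one_mul]
    group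
  -- (iii) everything is in `K ∪ K s K`
  have hclos : ∀ x ∈ KK G s (r + 2), x ∈ KK G s (r + 1) ∨
      ∃ k ∈ KK G s (r + 1), ∃ k' ∈ KK G s (r + 1), x = k * s (r + 1) * k' := by
    apply mem_doubleCoset_of_closure _ _ hs2 hconj
    rintro x (hx | ⟨i, hi, hi', rfl⟩)
    · exact Or.inl (G_le_KK _ hx)
    · rcases Nat.lt_or_ge i (r + 1) with h | h
      · exact Or.inl (s_mem_KK hi (by omega))
      · obtain rfl : i = r + 1 := by omega
        exact Or.inr rfl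
  -- (iv) stabiliser of the new point
  have hstab : ∀ x ∈ KK G s (r + 2), x (q (r + 2)) = q (r + 2) → x ∈ KK G s (r + 1) := by
    intro x hx hxq
    rcases hclos x hx with h | ⟨k, hk, k', hk', rfl⟩
    · exact h
    · exfalso
      have h1 : k' (q (r + 2)) = q (r + 2) := KK_fix A (by omega) hk' (by omega) (by omega)
      have h2 : k (q (r + 2)) = q (r + 2) := KK_fix A (by omega) hk (by omega) (by omega)
      have h3 : s (r + 1) (q (r + 1 + 1)) = q (r + 1) := (A.hsq (r + 1) (by omega) (by omega)).2.1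
      rw [Equiv.Perm.mul_apply, Equiv.Perm.mul_apply, h1] at hxq
      have h4 : s (r + 1) (q (r + 2)) = q (r + 1) := h3
      rw [h4] at hxq
      rw [← h2] at hxq
      have h5 := k.injective hxq
      exact qne A (by omega) (by omega) (by omega) (by omega) (by omega) h5
  refine ⟨?_, ?_, ?_⟩
  · -- (vi) transitivity
    intro x hinj havoid
    -- a `k` with `k (q (r+2)) = x (r+2)`
    have hk : ∃ k ∈ KK G s (r + 2), k (q (r + 2)) = x (r + 2) := by
      by_cases hc : x (r + 2) = q (r + 2)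
      · exact ⟨1, Subgroup.one_mem _, by rw [hc]; rfl⟩
      · have hcne : ∀ j, r + 1 < j → j ≤ t → x (r + 2) ≠ q j := by
          intro j hj hj'
          rcases Nat.lt_or_ge (r + 2) j with h | h
          · exact havoid (r + 2) j (by omega) (by omega) h hj'
          · obtain rfl : j = r + 2 := by omega
            exact hc
        obtain ⟨m, hm, hmq⟩ := exists_swap A P (by omega) (u := r + 1) (by omega) (by omega) hcne
        refine ⟨m * s (r + 1), Subgroup.mul_mem _ (KK_mono (by omega) hm) hsmem, ?_⟩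
        have h3 : s (r + 1) (q (r + 1 + 1)) = q (r + 1) := (A.hsq (r + 1) (by omega) (by omega)).2.1
        have h4 : s (r + 1) (q (r + 2)) = q (r + 1) := h3
        rw [Equiv.Perm.mul_apply, h4, hmq (r + 1) (by omega) (by omega)]
        exact Equiv.swap_apply_left _ _
    obtain ⟨k, hk, hkq⟩ := hk
    obtain ⟨m, hm, hmq⟩ := P.P1 (fun i => k⁻¹ (x i)) (by
        intro i j hi hi' hj hj' h
        exact hinj i j hi (by omega) hj (by omega) (k⁻¹.injective h))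
      (by
        intro i j hi hi' hj hj' h
        rcases Nat.lt_or_ge (r + 2) j with hlt | hge
        · apply havoid i j hi (by omega) hlt hj'
          have : k (q j) = q j := KK_fix A (by omega) hk hlt hj'
          rw [← this, ← h]
          simp
        · obtain rfl : j = r + 2 := by omega
          have h6 : x i = x (r + 2) := by
            rw [← hkq, ← h]; simp
          have := hinj i (r + 2) hi (by omega) (by omega) (by omega) h6
          omega)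
    refine ⟨k * m, Subgroup.mul_mem _ hk (KK_mono (by omega) hm), ?_⟩
    intro i hi hi'
    rw [Equiv.Perm.mul_apply]
    rcases Nat.lt_or_ge i (r + 2) with h | h
    · rw [hmq i hi (by omega)]
      simp
    · obtain rfl : i = r + 2 := by omega
      have : m (q (r + 2)) = q (r + 2) := KK_fix A (by omega) hm (by omega) (by omega)
      rw [this, hkq]
  · -- (P2)
    intro g hg hgfix
    have h1 := hstab g hg (hgfix (r + 2) (by omega) (by omega))
    exact P.P2 g h1 (fun i hi hi' => hgfix i hi (by omega))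
  · -- (P3)
    intro hrt' m hm hmq
    have h1 := hstab m hm hmq
    exact KK_mono (by omega) (s_conj_KK A (by omega) (by omega) (by omega) h1)

theorem Pr_all (A : Hyp t q G s H) : ∀ r, 2 ≤ r → r ≤ t → Pr t q G s H r := by
  intro r hr
  induction r, hr using Nat.le_induction with
  | base => exact fun _ => Pr_two A
  | succ r hr ih =>
    intro hrt
    obtain ⟨r₀, rfl⟩ : ∃ r₀, r = r₀ + 1 := ⟨r - 1, by omega⟩
    exact Pr_succ A (by omega) (by omega) (ih (by omega))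

end

/-- Witt's Lemma for constructing transitive extensions. Points `q 1, …, q t` (`t ≥ 2`) of a finite set are given; `G` fixes `q i` for `i ≥ 3` and is doubly transitive on the remaining points; `s 1 ∈ G` swaps `q 1, q 2`; for `2 ≤ i ≤ t-1`, `s i` swaps `q i, q (i+1)` and fixes the other `q j`; with `H` the stabiliser of `q 1, q 2` in `G`: `s i ^ 2 ∈ H`, `(s i * s (i+1)) ^ 3 ∈ H`, `(s i * s j) ^ 2 ∈ H` for `j ≥ i + 2`, and `s i` (`i ≥ 2`) normalises the stabiliser of `q 2` in `G`. Then `G` and the `s i` generate a `t`-transitive group whose pointwise stabiliser of the `q`'s is `H`. -/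
theorem result {α : Type*} [Fintype α] [DecidableEq α] (t : ℕ) (ht : 2 ≤ t) (q : ℕ → α) (hq : ∀ i j : ℕ, 1 ≤ i → i ≤ t → 1 ≤ j → j ≤ t → q i = q j → i = j) (G : Subgroup (Equiv.Perm α)) (hfix : ∀ g ∈ G, ∀ i : ℕ, 3 ≤ i → i ≤ t → g (q i) = q i) (h2 : ∀ a b c d : α, (∀ i, 3 ≤ i → i ≤ t → a ≠ q i ∧ b ≠ q i ∧ c ≠ q i ∧ d ≠ q i) → a ≠ b → c ≠ d → ∃ g ∈ G, g a = c ∧ g b = d) (s : ℕ → Equiv.Perm α) (hs1 : s 1 ∈ G) (hs1q : s 1 (q 1) = q 2 ∧ s 1 (q 2) = q 1) (hsq : ∀ i : ℕ, 2 ≤ i → i + 1 ≤ t → s i (q i) = q (i + 1) ∧ s i (q (i + 1)) = q i ∧ ∀ j : ℕ, 1 ≤ j → j ≤ t → j ≠ i → j ≠ i + 1 → s i (q j) = q j) (H : Subgroup (Equiv.Perm α)) (hH : H = G ⊓ MulAction.stabilizer (Equiv.Perm α) (q 1) ⊓ MulAction.stabilizer (Equiv.Perm α) (q 2)) (hsq2 : ∀ i : ℕ, 1 ≤ i → i + 1 ≤ t → s i ^ 2 ∈ H) (hbraid : ∀ i : ℕ, 1 ≤ i → i + 2 ≤ t → (s i * s (i + 1)) ^ 3 ∈ H) (hcomm : ∀ i j : ℕ, 1 ≤ i → i + 2 ≤ j → j + 1 ≤ t → (s i * s j) ^ 2 ∈ H ∧ (s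 j * s i) ^ 2 ∈ H) (hnorm : ∀ i : ℕ, 2 ≤ i → i + 1 ≤ t → ∀ g ∈ G ⊓ MulAction.stabilizer (Equiv.Perm α) (q 2), s i * g * (s i)⁻¹ ∈ G ⊓ MulAction.stabilizer (Equiv.Perm α) (q 2)) : MulAction.IsMultiplyPretransitive ↥(Subgroup.closure ((G : Set (Equiv.Perm α)) ∪ {x | ∃ i : ℕ, 2 ≤ i ∧ i + 1 ≤ t ∧ x = s i})) α t ∧ Subgroup.closure ((G : Set (Equiv.Perm α)) ∪ {x | ∃ i : ℕ, 2 ≤ i ∧ i + 1 ≤ t ∧ x = s i}) ⊓ fixingSubgroup (Equiv.Perm α) {x | ∃ i : ℕ, 1 ≤ i ∧ i ≤ t ∧ x = q i} = H := by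
  have A : Hyp t q G s H := ⟨ht, hq, hfix, h2, hs1, hs1q, hsq, hH, hsq2, hbraid, hcomm, hnorm⟩
  have P := Pr_all A t ht le_rfl
  have hHG := H_le_G A
  change MulAction.IsMultiplyPretransitive ↥(KK G s t) α t ∧
    KK G s t ⊓ fixingSubgroup (Equiv.Perm α) {x | ∃ i : ℕ, 1 ≤ i ∧ i ≤ t ∧ x = q i} = H
  constructor
  · have key : ∀ x : Fin t ↪ α, ∃ g ∈ KK G s t, ∀ i : Fin t, g (q (i + 1)) = x i := by
      intro x
      have h0 : 0 < t := by omega
      obtain ⟨g, hg, hgq⟩ := P.P1 (fun i => if h : i - 1 < t then x ⟨i - 1, h⟩ else x ⟨0, h0⟩) (by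
          intro i j hi hi' hj hj' h
          have h1 : i - 1 < t := by omega
          have h2 : j - 1 < t := by omega
          simp only [h1, h2, dif_pos] at h
          have := x.injective h
          simp only [Fin.mk.injEq] at this
          omega)
        (by
          intro i j _ _ hj hj'
          omega)
      refine ⟨g, hg, fun i => ?_⟩
      have := hgq (i + 1) (by omega) (by have := i.2; omega)
      rw [this]
      have h1 : (i : ℕ) + 1 - 1 < t := by have := i.2; omega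
      simp only [h1, dif_pos]
      congr 1
    refine ⟨fun x y => ?_⟩
    obtain ⟨g, hg, hgq⟩ := key x
    obtain ⟨g', hg', hgq'⟩ := key y
    refine ⟨⟨g' * g⁻¹, Subgroup.mul_mem _ hg' (Subgroup.inv_mem _ hg)⟩, ?_⟩
    ext i
    change (g' * g⁻¹) (x i) = y i
    rw [Equiv.Perm.mul_apply, ← hgq i]
    simp [hgq']
  · apply le_antisymm
    · rintro g ⟨hg, hgfix⟩
      apply P.P2 g hg
      intro i hi hi'
      have hgfix' : g ∈ fixingSubgroup (Equiv.Perm α) {x | ∃ i : ℕ, 1 ≤ i ∧ i ≤ t ∧ x = q i} := hgfix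
      rw [mem_fixingSubgroup_iff] at hgfix'
      exact hgfix' (q i) ⟨i, hi, hi', rfl⟩
    · intro h hh
      refine ⟨G_le_KK _ (hHG hh), ?_⟩
      change h ∈ fixingSubgroup (Equiv.Perm α) {x | ∃ i : ℕ, 1 ≤ i ∧ i ≤ t ∧ x = q i}
      rw [mem_fixingSubgroup_iff]
      rintro _ ⟨i, hi, hi', rfl⟩
      rw [mem_H_iff A] at hh
      change h (q i) = q i
      rcases Nat.lt_or_ge i 3 with hlt | hge
      · obtain rfl | rfl : i = 1 ∨ i = 2 := by omega
        · exact hh.2.1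
        · exact hh.2.2
      · exact hfix h hh.1 i hge hi'

end Cfsg.Agent.S0709
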