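import Cfsg.Statements.S0710
import Mathlib
import Cfsg.Agent.Lib.Perm.Basic
import Cfsg.Agent.Lib.Perm.SylowTrans

set_option autoImplicit false
open Cfsg

namespace Cfsg.Agent.S0710

open MulAction Subgroup

/-- No transitive permutation group on 13 points has order `13 * 12 * 11 * 10 * 9 * 8`. -/
theorem result {α : Type*} [Fintype α] [DecidableEq α] (hα : Fintype.card α = 13) (G : Subgroup (Equiv.Perm α)) [MulAction.IsPretransitive G α] : Nat.card G ≠ 13 * 12 * 11 * 10 * 9 * 8 := by
  classical
  intro hcard
  have hp : Fact (Nat.Prime 13) := ⟨by norm_num⟩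
  have hcα : Nat.card α = 13 := by rw [Nat.card_eq_fintype_card]; exact hα
  have hfact : (Nat.card G).factorization 13 = 1 := by
    rw [hcard]
    have h1 : (13 * 12 * 11 * 10 * 9 * 8 : ℕ) = 13 ^ 1 * 95040 := by norm_num
    rw [h1, Nat.factorization_mul (by norm_num) (by norm_num), Nat.Prime.factorization_pow hp.out]
    simp only [Finsupp.coe_add, Pi.add_apply, Finsupp.single_eq_same]
    rw [Nat.factorization_eq_zero_of_not_dvd (by norm_num)]
  obtain ⟨P⟩ : Nonempty (Sylow 13 G) := inferInstance
  have hPcard : Nat.card (P : Subgroup G) = 13 := by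
    rw [Sylow.card_eq_multiplicity, hfact, pow_one]
  have hPcyc : IsCyclic (P : Subgroup G) := isCyclic_of_prime_card hPcard
  have hPcomm : ∀ x ∈ (P : Subgroup G), ∀ y ∈ (P : Subgroup G), x * y = y * x := by
    intro x hx y hy
    let _ := IsCyclic.commGroup (α := (P : Subgroup G))
    have := mul_comm (⟨x, hx⟩ : (P : Subgroup G)) ⟨y, hy⟩
    exact congrArg Subtype.val this
  have hPtrans : IsPretransitive (P : Subgroup G) α :=
    Cfsg.Agent.Lib.Perm.SylowTrans.isPretransitive_sylow (f := 1) (by rw [hcα, pow_one]) P
  obtain ⟨a⟩ : Nonempty α := by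
    rw [← Fintype.card_pos_iff, hα]
    norm_num
  have hC : ∀ c ∈ centralizer ((P : Subgroup G) : Set G), c ∈ (P : Subgroup G) := by
    intro c hc
    obtain ⟨u, hu, hua⟩ := Cfsg.Agent.Lib.Perm.Basic.exists_mem_smul_eq (P : Subgroup G) a (c • a)
    have h1 : u⁻¹ * c ∈ centralizer ((P : Subgroup G) : Set G) := by
      apply Subgroup.mul_mem _ _ hc
      apply Subgroup.inv_mem
      rw [mem_centralizer_iff]
      intro y hy
      exact hPcomm y hy u hu
    have h2 : (u⁻¹ * c) • a = a := by
      rw [mul_smul, ← hua, inv_smul_smul]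
    have h3 := Cfsg.Agent.Lib.Perm.Basic.eq_one_of_mem_centralizer_of_smul_eq (P : Subgroup G) h1 h2
    have h4 : c = u := by
      have := congrArg (fun z => u * z) h3
      simpa using this
    rw [h4]; exact hu
  -- the order of the image in the automorphism group
  set f := (P : Subgroup G).normalizerMonoidHom with hf
  have hker : f.ker = (P : Subgroup G).subgroupOf (normalizer ((P : Subgroup G) : Set G)) := by
    rw [hf, normalizerMonoidHom_ker]
    ext x
    simp only [mem_subgroupOf]
    constructor
    · intro hx
      exact hC _ hx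
    · intro hx
      rw [mem_centralizer_iff]
      intro y hy
      exact hPcomm y hy _ hx
  have hkercard : Nat.card f.ker = 13 := by
    rw [hker]
    exact (Nat.card_congr (subgroupOfEquivOfLe le_normalizer).toEquiv).trans hPcard
  have hrange : Nat.card f.range ∣ 12 := by
    have h1 := Subgroup.card_subgroup_dvd_card f.range
    rw [hPcyc.card_mulAut, hPcard] at h1
    have h2 : Nat.totient 13 = 12 := by decide
    rwa [h2] at h1
  have hN : Nat.card (normalizer ((P : Subgroup G) : Set G)) = 13 * Nat.card f.range := by
    have h1 := Subgroup.index_ker f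
    have h2 := f.ker.card_mul_index
    rw [h1, hkercard] at h2
    exact h2.symm
  have hcount : Nat.card (Sylow 13 G) ≡ 1 [MOD 13] := card_sylow_modEq_one 13 G
  have hidx : Nat.card (Sylow 13 G) = (normalizer ((P : Subgroup G) : Set G)).index :=
    Sylow.card_eq_index_normalizer P
  have hprod := (normalizer ((P : Subgroup G) : Set G)).card_mul_index
  rw [hN, ← hidx, hcard] at hprod
  set d := Nat.card f.range with hd
  set n := Nat.card (Sylow 13 G) with hn
  have hprod' : d * n = 95040 := by
    have h13 : 13 * (d * n) = 13 * 95040 := by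
      rw [← mul_assoc, hprod]
    exact Nat.eq_of_mul_eq_mul_left (by norm_num) h13
  have hdle : d ≤ 12 := Nat.le_of_dvd (by norm_num) hrange
  have hmod : n % 13 = 1 := hcount
  interval_cases d <;> omega

end Cfsg.Agent.S0710
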