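import Cfsg.Statements.S0711
import Mathlib

set_option autoImplicit false
open Cfsg

namespace Cfsg.Agent.S0711

open Equiv Equiv.Perm MulAction Finset

set_option linter.unusedSectionVars false

variable {α : Type*} [Fintype α] [DecidableEq α]

/-- A `k`-transitive group agrees with any permutation on any set of at most `k` points. -/
theorem exists_agree (G : Subgroup (Perm α)) {k : ℕ} (hkn : k ≤ Fintype.card α)
    (hG : IsMultiplyPretransitive G α k) (A : Finset α) (hA : A.card ≤ k) (σ : Perm α) :
    ∃ y ∈ G, ∀ a ∈ A, y a = σ a := by
  have hj : IsMultiplyPretransitive G α A.card :=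
    isMultiplyPretransitive_of_le (n := k) hA (by rw [Nat.card_eq_fintype_card]; exact hkn)
  let e : A ≃ Fin A.card := A.equivFin
  let e1 : Fin A.card ↪ α := e.symm.toEmbedding.trans (Function.Embedding.subtype _)
  let e2 : Fin A.card ↪ α := e1.trans σ.toEmbedding
  obtain ⟨y, hy⟩ := hj.exists_smul_eq e1 e2
  refine ⟨y, y.2, fun a ha => ?_⟩
  have := DFunLike.congr_fun hy (e ⟨a, ha⟩)
  have h2 : y • a = σ a := by simpa [e1, e2] using this
  exact h2

/-- Sets with at most one "open end" for `x` exist in all cardinalities. -/
theorem exists_chain (x : Perm α) (j : ℕ) (hj : j ≤ x.support.card) :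
    ∃ T : Finset α, T ⊆ x.support ∧ T.card = j ∧
      ∀ q ∈ T, ∀ q' ∈ T, x q ∉ T → x q' ∉ T → q = q' := by
  induction j with
  | zero => exact ⟨∅, by simp, by simp, by simp⟩
  | succ j ih =>
    obtain ⟨T, hT, hcard, hopen⟩ := ih (by omega)
    by_cases hq : ∃ q ∈ T, x q ∉ T
    · obtain ⟨q, hqT, hqx⟩ := hq
      refine ⟨insert (x q) T, ?_, by rw [card_insert_of_notMem hqx, hcard], ?_⟩
      · intro a ha
        rw [mem_insert] at ha
        rcases ha with rfl | ha
        · rw [mem_support]
          intro h
          have := x.injective h
          exact hqx (by rw [this]; exact hqT)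
        · exact hT ha
      · intro a ha b hb hax hbx
        have key : ∀ c ∈ insert (x q) T, x c ∉ insert (x q) T → c = x q := by
          intro c hc hcx
          rw [mem_insert] at hc
          rcases hc with rfl | hc
          · rfl
          · exfalso
            rw [mem_insert, not_or] at hcx
            have h1 := hopen c hc q hqT hcx.2 hqx
            exact hcx.1 (h1 ▸ rfl)
        rw [key a ha hax, key b hb hbx]
    · push Not at hq
      obtain ⟨w, hw, hwT⟩ : ∃ w ∈ x.support, w ∉ T := by
        by_contra hcon
        push Not at hcon
        have := card_le_card hcon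
        omega
      refine ⟨insert w T, ?_, by rw [card_insert_of_notMem hwT, hcard], ?_⟩
      · intro a ha
        rw [mem_insert] at ha
        rcases ha with rfl | ha
        · exact hw
        · exact hT ha
      · intro a ha b hb hax hbx
        have key : ∀ c ∈ insert w T, x c ∉ insert w T → c = w := by
          intro c hc hcx
          rw [mem_insert] at hc
          rcases hc with rfl | hc
          · rfl
          · exfalso
            rw [mem_insert, not_or] at hcx
            exact hcx.2 (hq c hc)
        rw [key a ha hax, key b hb hbx]

/-- Support of the commutator-like element `x⁻¹ * (y * x * y⁻¹)`. -/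
theorem card_support_commutator_le (x y : Perm α) (T B : Finset α) (hT : T ⊆ x.support)
    (hyT : ∀ a ∈ T, y a = a) (hB : ∀ a ∈ x.support, a ∉ B → y a ∈ x.support)
    (hopen : ∀ q ∈ T, ∀ q' ∈ T, x q ∉ T → x q' ∉ T → q = q') :
    (x⁻¹ * (y * x * y⁻¹)).support.card + T.card ≤ x.support.card + B.card + 1 := by
  set E : Finset α := T.filter (fun u => x u ∈ T) with hE
  have hET : E ⊆ T := filter_subset _ _
  have hEcard : T.card ≤ E.card + 1 := by
    have h : E.card + (T.filter (fun u => ¬ x u ∈ T)).card = T.card :=
      card_filter_add_card_filter_not (s := T) (fun u => x u ∈ T)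
    have h2 : (T.filter (fun u => ¬ x u ∈ T)).card ≤ 1 := by
      rw [card_le_one]
      intro a ha b hb
      rw [mem_filter] at ha hb
      exact hopen a ha.1 b hb.1 ha.2 hb.2
    omega
  have hsub : (x⁻¹ * (y * x * y⁻¹)).support ⊆ (x.support \ E) ∪ B.image y := by
    intro a ha
    rw [mem_support] at ha
    rw [mem_union, mem_sdiff, mem_image]
    by_contra hcon
    push Not at hcon
    obtain ⟨h1, h2⟩ := hcon
    apply ha
    simp only [Perm.mul_apply]
    by_cases haΔ : a ∈ x.support
    · have haE := h1 haΔ
      rw [hE, mem_filter] at haE
      have hya : y⁻¹ a = a := by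
        rw [Perm.inv_eq_iff_eq]; exact (hyT a haE.1).symm
      rw [hya, hyT _ haE.2]
      simp
    · have hxa : x a = a := by simpa using haΔ
      have hya : y⁻¹ a ∉ x.support := by
        intro hin
        by_cases hb : y⁻¹ a ∈ B
        · exact h2 _ hb (by simp)
        · have := hB _ hin hb
          rw [show y (y⁻¹ a) = a from by simp] at this
          exact haΔ this
      have hxya : x (y⁻¹ a) = y⁻¹ a := by simpa using hya
      rw [hxya]
      rw [show y (y⁻¹ a) = a from by simp]
      rw [Perm.inv_eq_iff_eq]
      exact hxa.symm
  have hcard := card_le_card hsub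
  have h3 : ((x.support \ E) ∪ B.image y).card ≤ (x.support \ E).card + B.card :=
    (card_union_le _ _).trans (Nat.add_le_add_left card_image_le _)
  have h4 : (x.support \ E).card = x.support.card - E.card :=
    card_sdiff_of_subset (hET.trans hT)
  have h5 : E.card ≤ x.support.card := card_le_card (hET.trans hT)
  omega

/-- Non commutation from an open end. -/
theorem commutator_ne_one_of_open (x y : Perm α) {q w r : α} (hxq : x q = w) (hyq : y q = q)
    (hyw : y w = r) (hrw : r ≠ w) : x⁻¹ * (y * x * y⁻¹) ≠ 1 := by
  intro h
  have h1 : y * x * y⁻¹ = x := by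
    have := congrArg (fun z => x * z) h
    simpa using this
  have h2 := DFunLike.congr_fun h1 q
  simp only [Perm.mul_apply] at h2
  have hyi : y⁻¹ q = q := by rw [Perm.inv_eq_iff_eq]; exact hyq.symm
  rw [hyi, hxq, hyw] at h2
  exact hrw h2

/-- Non commutation from a moved support. -/
theorem commutator_ne_one_of_out (x y : Perm α) {s r : α} (hs : x s ≠ s) (hys : y s = r) (hr : x r = r) :
    x⁻¹ * (y * x * y⁻¹) ≠ 1 := by
  intro h
  have h1 : y * x * y⁻¹ = x := by
    have := congrArg (fun z => x * z) h
    simpa using this
  have h2 := DFunLike.congr_fun h1 r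
  simp only [Perm.mul_apply] at h2
  have hyi : y⁻¹ r = s := by rw [Perm.inv_eq_iff_eq]; exact hys.symm
  rw [hyi, hr, ← hys] at h2
  exact hs (y.injective h2)

/-- Reduction step: a `k`-transitive group with an element of support `m`, `4 ≤ m < 2k - 2`,
has a non-trivial element of smaller support. -/
theorem step (G : Subgroup (Perm α)) {k : ℕ} (hkn : k ≤ Fintype.card α)
    (hG : IsMultiplyPretransitive G α k) (x : Perm α) (hx : x ∈ G)
    (hm : 4 ≤ x.support.card) (hm2 : x.support.card < 2 * k - 2) :
    ∃ z ∈ G, z ≠ 1 ∧ z.support.card < x.support.card := by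
  classical
  set Δ := x.support with hΔ
  set m := Δ.card with hmdef
  have hdm : x.support.card = m := rfl
  have hk4 : 4 ≤ k := by omega
  have hΔn : m ≤ Fintype.card α := card_le_univ _
  -- a convenient element of `G`
  have mk : ∀ (T : Finset α) (s r : α), s ∉ T → r ∉ T → T.card + 1 ≤ k →
      ∃ y ∈ G, (∀ a ∈ T, y a = a) ∧ y s = r := by
    intro T s r hs hr hT
    obtain ⟨y, hy, hya⟩ := exists_agree G hkn hG (insert s T)
      (by rw [card_insert_of_notMem hs]; exact hT) (swap s r)
    refine ⟨y, hy, fun a ha => ?_, ?_⟩
    · rw [hya a (mem_insert_of_mem ha)]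
      apply swap_apply_of_ne_of_ne
      · rintro rfl; exact hs ha
      · rintro rfl; exact hr ha
    · rw [hya s (mem_insert_self _ _)]
      simp
  have hzG : ∀ y ∈ G, x⁻¹ * (y * x * y⁻¹) ∈ G := fun y hy =>
    G.mul_mem (G.inv_mem hx) (G.mul_mem (G.mul_mem hy hx) (G.inv_mem hy))
  -- the full support case
  have hfull : m = Fintype.card α → ∃ z ∈ G, z ≠ 1 ∧ z.support.card < m := by
    intro hmn
    have hΔuniv : Δ = univ := eq_univ_of_card _ hmn
    have hmoved : ∀ a, x a ≠ a := fun a => by
      have : a ∈ Δ := by rw [hΔuniv]; exact mem_univ a
      simpa [hΔ] using this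
    -- an element fixing `u` and non-commuting: support is smaller
    have hless : ∀ z : Perm α, ∀ u : α, z u = u → z.support.card < m := by
      intro z u hz
      rw [hmn]
      apply card_lt_univ_of_notMem (x := u)
      simpa using hz
    by_cases hsq : ∃ u, x (x u) ≠ u
    · obtain ⟨u, hu⟩ := hsq
      set v := x u with hv
      set w := x v with hw
      have huv : u ≠ v := fun h => hmoved u h.symm
      have hvw : v ≠ w := fun h => hmoved v h.symm
      have huw : u ≠ w := fun h => hu h.symm
      obtain ⟨r, hr⟩ : ∃ r, r ∉ ({u, v, w} : Finset α) := by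
        by_contra hcon
        push Not at hcon
        have : ({u, v, w} : Finset α) = univ := eq_univ_of_forall hcon
        have h3 := card_le_three (a := u) (b := v) (c := w)
        rw [this, card_univ] at h3
        omega
      simp only [mem_insert, mem_singleton, not_or] at hr
      obtain ⟨y, hy, hyT, hys⟩ := mk {u, v} w r (by simp; exact ⟨huw.symm, hvw.symm⟩)
        (by simp; exact ⟨hr.1, hr.2.1⟩) (by
          have := card_le_two (a := u) (b := v)
          omega)
      refine ⟨_, hzG y hy, commutator_ne_one_of_open x y (q := v) (w := w) (r := r) rfl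
        (hyT v (by simp)) hys hr.2.2, hless _ u ?_⟩
      simp only [Perm.mul_apply]
      have hyi : y⁻¹ u = u := by rw [Perm.inv_eq_iff_eq]; exact (hyT u (by simp)).symm
      rw [hyi, ← hv, hyT v (by simp), hv]
      simp
    · push Not at hsq
      -- `x` is a fixed point free involution
      obtain ⟨u⟩ : Nonempty α := by
        rw [← Fintype.card_pos_iff]; omega
      set v := x u with hv
      have huv : u ≠ v := fun h => hmoved u h.symm
      obtain ⟨s, hs⟩ : ∃ s, s ∉ ({u, v} : Finset α) := by
        by_contra hcon
        push Not at hcon
        have : ({u, v} : Finset α) = univ := eq_univ_of_forall hcon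
        have h3 := card_le_two (a := u) (b := v)
        rw [this, card_univ] at h3
        omega
      simp only [mem_insert, mem_singleton, not_or] at hs
      set t := x s with ht
      have hst : s ≠ t := fun h => hmoved s h.symm
      have htu : t ≠ u := by
        intro h
        apply hs.2
        have := hsq s
        rw [← ht, h] at this
        exact this.symm
      have htv : t ≠ v := by
        intro h
        apply hs.1
        exact x.injective h
      by_cases hn : Fintype.card α = 4
      · -- four points: the group is everything
        have htop : G = ⊤ := by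
          apply eq_top_of_isMultiplyPretransitive
          rw [Nat.card_eq_fintype_card, hn]
          have : IsMultiplyPretransitive G α k := hG
          exact isMultiplyPretransitive_of_le (n := k) (by omega)
            (by rw [Nat.card_eq_fintype_card]; exact hkn)
        refine ⟨swap u v, by rw [htop]; trivial, ?_, ?_⟩
        · intro h
          have := congrArg (fun f : Perm α => f u) h
          simp at this
          exact huv this.symm
        · rw [card_support_swap huv]
          omega
      · obtain ⟨r, hr⟩ : ∃ r, r ∉ ({u, v, s, t} : Finset α) := by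
          by_contra hcon
          push Not at hcon
          have : ({u, v, s, t} : Finset α) = univ := eq_univ_of_forall hcon
          have h3 := card_le_four (a := u) (b := v) (c := s) (d := t)
          rw [this, card_univ] at h3
          omega
        simp only [mem_insert, mem_singleton, not_or] at hr
        obtain ⟨y, hy, hyT, hys⟩ := mk {u, v, s} t r
          (by simp; exact ⟨htu, htv, hst.symm⟩) (by simp; exact ⟨hr.1, hr.2.1, hr.2.2.1⟩) (by
            have := card_le_three (a := u) (b := v) (c := s)
            omega)
        refine ⟨_, hzG y hy, commutator_ne_one_of_open x y (q := s) (w := t) (r := r) rfl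
          (hyT s (by simp)) hys hr.2.2.2, hless _ u ?_⟩
        simp only [Perm.mul_apply]
        have hyi : y⁻¹ u = u := by rw [Perm.inv_eq_iff_eq]; exact (hyT u (by simp)).symm
        rw [hyi, ← hv, hyT v (by simp), hv]
        simp
  by_cases hmk : k + 1 ≤ m
  · obtain ⟨T, hT, hcard, hopen⟩ := exists_chain x (k - 1) (by omega)
    by_cases hq : ∃ q ∈ T, x q ∉ T
    · -- an open end: move it inside the support
      obtain ⟨q, hqT, hqx⟩ := hq
      set w := x q with hw
      have hwΔ : w ∈ Δ := by
        rw [hΔ, mem_support, hw]
        intro h
        have := x.injective h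
        exact hqx (by rw [hw, this]; exact hqT)
      obtain ⟨r, hr⟩ : ∃ r ∈ Δ, r ∉ insert w T := by
        by_contra hcon
        push Not at hcon
        have h1 := card_le_card hcon
        have h2 : (insert w T).card = T.card + 1 := card_insert_of_notMem hqx
        omega
      have hr1 := hr.1
      have hr2 := hr.2
      rw [mem_insert, not_or] at hr2
      obtain ⟨y, hy, hyT, hys⟩ := mk T w r hqx hr2.2 (by omega)
      refine ⟨_, hzG y hy, commutator_ne_one_of_open x y (q := q) (w := w) (r := r) rfl
        (hyT q hqT) hys hr2.1, ?_⟩
      have hbound := card_support_commutator_le x y T (Δ \ insert w T) hT hyT ?_ hopen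
      · have hB : (Δ \ insert w T).card = m - (k - 1 + 1) := by
          rw [card_sdiff_of_subset, card_insert_of_notMem hqx, hcard]
          intro a ha
          rw [mem_insert] at ha
          rcases ha with rfl | ha
          · exact hwΔ
          · exact hT ha
        omega
      · intro a ha hb
        rw [mem_sdiff, not_and, not_not] at hb
        have := hb ha
        rw [mem_insert] at this
        rcases this with rfl | h
        · rw [hys]; exact hr1
        · rw [hyT a h]; exact ha
    · -- `T` is closed
      push Not at hq
      by_cases hmn : m = Fintype.card α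
      · exact hfull hmn
      · obtain ⟨r, hr⟩ : ∃ r, r ∉ Δ := by
          by_contra hcon
          push Not at hcon
          apply hmn
          rw [hmdef, eq_univ_of_forall hcon, card_univ]
        obtain ⟨s, hs, hsT⟩ : ∃ s ∈ Δ, s ∉ T := by
          by_contra hcon
          push Not at hcon
          have := card_le_card hcon
          omega
        have hrT : r ∉ T := fun h => hr (hT h)
        obtain ⟨y, hy, hyT, hys⟩ := mk T s r hsT hrT (by omega)
        have hxr : x r = r := by simpa [hΔ] using hr
        refine ⟨_, hzG y hy, commutator_ne_one_of_out x y (by simpa [hΔ] using hs) hys hxr, ?_⟩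
        have hbound : (x⁻¹ * (y * x * y⁻¹)).support ⊆ (Δ \ T) ∪ (Δ \ T).image y := by
          intro a ha
          rw [mem_support] at ha
          rw [mem_union, mem_sdiff, mem_image]
          by_contra hcon
          push Not at hcon
          obtain ⟨h1, h2⟩ := hcon
          apply ha
          simp only [Perm.mul_apply]
          by_cases haΔ : a ∈ Δ
          · have haT := h1 haΔ
            have hya : y⁻¹ a = a := by
              rw [Perm.inv_eq_iff_eq]; exact (hyT a haT).symm
            rw [hya, hyT _ (hq a haT)]
            simp
          · have hxa : x a = a := by simpa [hΔ] using haΔ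
            have hya : y⁻¹ a ∉ Δ := by
              intro hin
              by_cases hb : y⁻¹ a ∈ T
              · have := hyT _ hb
                rw [show y (y⁻¹ a) = a from by simp] at this
                exact haΔ (this ▸ hT hb)
              · exact h2 _ (mem_sdiff.mpr ⟨hin, hb⟩) (by simp)
            have hxya : x (y⁻¹ a) = y⁻¹ a := by simpa [hΔ] using hya
            rw [hxya]
            rw [show y (y⁻¹ a) = a from by simp]
            rw [Perm.inv_eq_iff_eq]
            exact hxa.symm
        have h1 := card_le_card hbound
        have h2 : ((Δ \ T) ∪ (Δ \ T).image y).card ≤ (Δ \ T).card + (Δ \ T).card :=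
          (card_union_le _ _).trans (Nat.add_le_add_left card_image_le _)
        have h3 : (Δ \ T).card = m - (k - 1) := by
          rw [card_sdiff_of_subset hT, hcard]
        omega
  · by_cases hmn : m = Fintype.card α
    · exact hfull hmn
    · obtain ⟨r, hr⟩ : ∃ r, r ∉ Δ := by
        by_contra hcon
        push Not at hcon
        apply hmn
        rw [hmdef, eq_univ_of_forall hcon, card_univ]
      obtain ⟨T, hT, hcard, hopen⟩ := exists_chain x (m - 1) (by omega)
      obtain ⟨s, hs, hsT⟩ : ∃ s ∈ Δ, s ∉ T := by
        by_contra hcon
        push Not at hcon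
        have := card_le_card hcon
        omega
      have hrT : r ∉ T := fun h => hr (hT h)
      obtain ⟨y, hy, hyT, hys⟩ := mk T s r hsT hrT (by omega)
      have hxr : x r = r := by simpa [hΔ] using hr
      refine ⟨_, hzG y hy, commutator_ne_one_of_out x y (by simpa [hΔ] using hs) hys hxr, ?_⟩
      have hbound := card_support_commutator_le x y T {s} hT hyT ?_ hopen
      · simp only [card_singleton] at hbound
        omega
      · intro a ha hb
        rw [mem_singleton] at hb
        have haT : a ∈ T := by
          by_contra hcon
          -- `Δ = T ∪ {s}`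
          have h1 : Δ ⊆ insert s T := by
            intro c _
            by_contra hc
            rw [mem_insert, not_or] at hc
            have hsub : insert c (insert s T) ⊆ Δ := by
              intro d hd
              rw [mem_insert, mem_insert] at hd
              rcases hd with rfl | rfl | hd
              · assumption
              · exact hs
              · exact hT hd
            have := card_le_card hsub
            rw [card_insert_of_notMem, card_insert_of_notMem hsT] at this
            · omega
            · rw [mem_insert, not_or]; exact hc
          have h2 := h1 ha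
          rw [mem_insert] at h2
          rcases h2 with h2 | h2
          · exact hb h2
          · exact hcon h2
        rw [hyT a haT]; exact ha

/-- A `k`-transitive permutation group (`k ≥ 3`) with a non-identity element of support smaller than `2k - 2` contains a non-identity element of support at most 3, and therefore contains the alternating group. -/
theorem result {α : Type*} [Fintype α] [DecidableEq α] (G : Subgroup (Equiv.Perm α)) {k : ℕ} (hk : 3 ≤ k) (hkn : k ≤ Fintype.card α) (hG : MulAction.IsMultiplyPretransitive G α k) (g : Equiv.Perm α) (hg : g ∈ G) (hg1 : g ≠ 1) (hsupp : g.support.card < 2 * k - 2) : (∃ h : Equiv.Perm α, h ∈ G ∧ h ≠ 1 ∧ h.support.card ≤ 3) ∧ alternatingGroup α ≤ G := by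
  classical
  have hsmall : ∃ h : Equiv.Perm α, h ∈ G ∧ h ≠ 1 ∧ h.support.card ≤ 3 := by
    have hind : ∀ (d : ℕ) (x : Equiv.Perm α), x.support.card = d → x ∈ G → x ≠ 1 → d < 2 * k - 2 →
        ∃ h : Equiv.Perm α, h ∈ G ∧ h ≠ 1 ∧ h.support.card ≤ 3 := by
      intro d
      induction d using Nat.strong_induction_on with
      | _ d ih =>
        intro x hd hx hx1 hdk
        by_cases h4 : 4 ≤ d
        · obtain ⟨z, hz, hz1, hzd⟩ := step G hkn hG x hx (by omega) (by omega)
          exact ih _ (by omega) z rfl hz hz1 (by omega)
        · exact ⟨x, hx, hx1, by omega⟩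
    exact hind _ g rfl hg hg1 hsupp
  refine ⟨hsmall, ?_⟩
  obtain ⟨h, hh, hh1, hh3⟩ := hsmall
  have h2 : IsMultiplyPretransitive G α 2 :=
    isMultiplyPretransitive_of_le (n := k) (by omega) (by rw [Nat.card_eq_fintype_card]; exact hkn)
  have hprim : IsPreprimitive G α := isPreprimitive_of_is_two_pretransitive h2
  have hne0 : h.support.card ≠ 0 := by
    intro h0
    rw [card_eq_zero, Equiv.Perm.support_eq_empty_iff] at h0
    exact hh1 h0
  have hne1 := Equiv.Perm.card_support_ne_one h
  have hcases : h.support.card = 2 ∨ h.support.card = 3 := by omega
  rcases hcases with h22 | h33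
  · have htop := Equiv.Perm.subgroup_eq_top_of_isPreprimitive_of_isSwap_mem hprim h
      (Equiv.Perm.card_support_eq_two.mp h22) hh
    rw [htop]; exact le_top
  · exact Equiv.Perm.alternatingGroup_le_of_isPreprimitive_of_isThreeCycle_mem hprim
      (card_support_eq_three_iff.mp h33) hh

end Cfsg.Agent.S0711
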