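import Cfsg.Statements.S0712
import Mathlib
import Cfsg.Agent.Lib.Perm.FixingTrans

set_option autoImplicit false
open Cfsg

namespace Cfsg.Agent.S0712

open MulAction SubMulAction

/-- Jordan: a primitive group in which the pointwise stabiliser of a set `s` is doubly transitive on the complement of `s` (which has at least 2 points) is `(|s| + 2)`-transitive. -/
theorem result {α : Type*} [Fintype α] [DecidableEq α] (G : Subgroup (Equiv.Perm α)) (hG : MulAction.IsPreprimitive G α) (s : Set α) {m : ℕ} (hsm : s.ncard = m) (hm : m + 2 ≤ Fintype.card α) (h2 : MulAction.IsMultiplyPretransitive (fixingSubgroup G s) (SubMulAction.ofFixingSubgroup G s) 2) : MulAction.IsMultiplyPretransitive G α (m + 2) := by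
  classical
  subst hsm
  have h1 : IsMultiplyPretransitive G α s.ncard := by
    rcases Nat.eq_zero_or_pos s.ncard with h0 | hpos
    · rw [h0]
      exact is_zero_pretransitive'
    · obtain ⟨n, hn⟩ : ∃ n, s.ncard = n + 1 := ⟨s.ncard - 1, by omega⟩
      have hprim : IsPreprimitive (fixingSubgroup G s) (ofFixingSubgroup G s) :=
        isPreprimitive_of_is_two_pretransitive h2
      have h3 := hG.isMultiplyPreprimitive hn
        (by rw [Nat.card_eq_fintype_card]; omega) hprim
      have h4 : IsMultiplyPretransitive G α (n + 2) := h3.isMultiplyPretransitive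
      rw [hn]
      exact isMultiplyPretransitive_of_le (n := n + 2) (by omega)
        (by rw [Nat.card_eq_fintype_card]; omega)
  exact Cfsg.Agent.Lib.Perm.FixingTrans.isMultiplyPretransitive_add s h1 h2

end Cfsg.Agent.S0712
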