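import Cfsg.Statements.S0714
import Mathlib

set_option autoImplicit false
set_option linter.unusedSimpArgs false

open Cfsg

namespace Cfsg.Agent.S0714

variable {α : Type*} [Fintype α] [DecidableEq α] {K : Type*} [Field K]

/-- The difference of two standard basis functions. -/
noncomputable def basisDiff (K : Type*) [Field K] (a b : α) : α → K :=
  Pi.single a 1 - Pi.single b 1

theorem mem_of_even (W : Subrepresentation (Cfsg.permRep K (alternatingGroup α) α))
    (g : Equiv.Perm α) (hg : Equiv.Perm.sign g = 1) {f : α → K} (hf : f ∈ W.toSubmodule) :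
    (fun x => f (g⁻¹ x)) ∈ W.toSubmodule := by
  have hg' : g ∈ alternatingGroup α := by simpa [Equiv.Perm.mem_alternatingGroup] using hg
  exact W.apply_mem_toSubmodule (⟨g, hg'⟩ : alternatingGroup α) hf

theorem diff_mem (W : Subrepresentation (Cfsg.permRep K (alternatingGroup α) α))
    {x y l m : α} (hxy : x ≠ y) (hxl : x ≠ l) (hxm : x ≠ m) (hyl : y ≠ l) (hym : y ≠ m)
    (hlm : l ≠ m) {f : α → K} (hf : f ∈ W.toSubmodule) (hflm : f l = f m) (hfxy : f x ≠ f y) :
    basisDiff K x y ∈ W.toSubmodule := by
  set t : Equiv.Perm α := Equiv.swap x y * Equiv.swap l m with ht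
  have hst : Equiv.Perm.sign t = 1 := by
    rw [ht, Equiv.Perm.sign_mul, Equiv.Perm.sign_swap hxy, Equiv.Perm.sign_swap hlm]; rfl
  have hinv : ∀ z, t⁻¹ z = Equiv.swap l m (Equiv.swap x y z) := by
    intro z
    simp [ht, mul_inv_rev, Equiv.Perm.mul_apply]
  have h1 := mem_of_even W t hst hf
  have h2 : (fun z => f (t⁻¹ z)) - f ∈ W.toSubmodule := W.toSubmodule.sub_mem h1 hf
  have h3 : (fun z => f (t⁻¹ z)) - f = (f y - f x) • basisDiff K x y := by
    funext z
    simp only [Pi.sub_apply, Pi.smul_apply, smul_eq_mul, basisDiff, hinv]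
    by_cases hzx : z = x
    · subst hzx
      simp [Equiv.swap_apply_left, Equiv.swap_apply_of_ne_of_ne hyl.symm.symm hym, hxy,
        Pi.single_apply, hxy.symm]
    by_cases hzy : z = y
    · subst hzy
      simp [Equiv.swap_apply_right, Equiv.swap_apply_of_ne_of_ne hxl hxm, hxy, Pi.single_apply,
        hxy.symm]
    have h4 : Equiv.swap x y z = z := Equiv.swap_apply_of_ne_of_ne hzx hzy
    by_cases hzl : z = l
    · subst hzl
      simp [h4, hflm, Pi.single_apply, hzx, hzy]
    by_cases hzm : z = m
    · subst hzm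
      simp [h4, hflm, Pi.single_apply, hzx, hzy]
    simp [h4, Equiv.swap_apply_of_ne_of_ne hzl hzm, Pi.single_apply, hzx, hzy]
  rw [h3] at h2
  have hne : f y - f x ≠ 0 := sub_ne_zero.mpr hfxy.symm
  exact (W.toSubmodule.smul_mem_iff hne).mp h2

theorem exists_diff_mem (hα : 5 ≤ Fintype.card α)
    (W : Subrepresentation (Cfsg.permRep K (alternatingGroup α) α))
    {v : α → K} (hv : v ∈ W.toSubmodule) {i j : α} (hij : i ≠ j) (hvij : v i ≠ v j) :
    ∃ a b : α, a ≠ b ∧ basisDiff K a b ∈ W.toSubmodule := by
  classical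
  have hcard : 2 < (({i, j} : Finset α)ᶜ).card := by
    rw [Finset.card_compl, Finset.card_pair hij]; omega
  obtain ⟨k, hk, l, hl, m, hm, hkl, hkm, hlm⟩ := Finset.two_lt_card.mp hcard
  simp only [Finset.mem_compl, Finset.mem_insert, Finset.mem_singleton, not_or] at hk hl hm
  have hki : k ≠ i := hk.1
  have hkj : k ≠ j := hk.2
  have hli : l ≠ i := hl.1
  have hlj : l ≠ j := hl.2
  have hmi : m ≠ i := hm.1
  have hmj : m ≠ j := hm.2
  set c : Equiv.Perm α := Equiv.swap i j * Equiv.swap j k with hc
  have hsc : Equiv.Perm.sign c = 1 := by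
    rw [hc, Equiv.Perm.sign_mul, Equiv.Perm.sign_swap hij, Equiv.Perm.sign_swap hkj.symm]; rfl
  have hinv : ∀ z, c⁻¹ z = Equiv.swap j k (Equiv.swap i j z) := by
    intro z
    simp [hc, mul_inv_rev, Equiv.Perm.mul_apply]
  set f : α → K := (fun z => v (c⁻¹ z)) - v with hf
  have hfW : f ∈ W.toSubmodule := W.toSubmodule.sub_mem (mem_of_even W c hsc hv) hv
  have hfj : f j = v i - v j := by
    simp [hf, hinv, Equiv.swap_apply_right, Equiv.swap_apply_of_ne_of_ne hij (Ne.symm hki)]
  have hfl : f l = 0 := by
    simp [hf, hinv, Equiv.swap_apply_of_ne_of_ne hli hlj,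
      Equiv.swap_apply_of_ne_of_ne hlj (Ne.symm hkl)]
  have hfm : f m = 0 := by
    simp [hf, hinv, Equiv.swap_apply_of_ne_of_ne hmi hmj,
      Equiv.swap_apply_of_ne_of_ne hmj (Ne.symm hkm)]
  have hfj0 : f j ≠ 0 := by rw [hfj]; exact sub_ne_zero.mpr hvij
  by_cases h1 : f i = f j
  · by_cases h2 : f k = f j
    · -- all equal: use (k, l; i, j)
      refine ⟨k, l, hkl, diff_mem W hkl hki hkj hli hlj hij hfW h1 ?_⟩
      rw [h2, hfl]; exact hfj0
    · exact ⟨k, j, hkj, diff_mem W hkj hkl hkm hlj.symm hmj.symm hlm hfW (by rw [hfl, hfm]) h2⟩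
  · exact ⟨i, j, hij, diff_mem W hij hli.symm hmi.symm hlj.symm hmj.symm hlm hfW
      (by rw [hfl, hfm]) h1⟩

theorem all_diff_mem (hα : 5 ≤ Fintype.card α)
    (W : Subrepresentation (Cfsg.permRep K (alternatingGroup α) α))
    {a b : α} (hab : a ≠ b) (h : basisDiff K a b ∈ W.toSubmodule) (c d : α) :
    basisDiff K c d ∈ W.toSubmodule := by
  classical
  by_cases hcd : c = d
  · subst hcd
    simp [basisDiff]
  have h2 : MulAction.IsMultiplyPretransitive (alternatingGroup α) α 2 := by
    have h0 := alternatingGroup.isMultiplyPretransitive α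
    refine MulAction.isMultiplyPretransitive_of_le (n := Nat.card α - 2) ?_ ?_
    · rw [Nat.card_eq_fintype_card]; omega
    · rw [Nat.card_eq_fintype_card]; omega
  obtain ⟨g, hg1, hg2⟩ := MulAction.is_two_pretransitive_iff.mp h2 hab hcd
  have h3 := W.apply_mem_toSubmodule g h
  have h4 : (Cfsg.permRep K (alternatingGroup α) α g) (basisDiff K a b) = basisDiff K c d := by
    funext z
    change basisDiff K a b (g⁻¹ • z) = basisDiff K c d z
    simp only [basisDiff, Pi.sub_apply, Pi.single_apply]
    have e1 : (g⁻¹ • z = a) ↔ z = c := by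
      rw [← hg1, inv_smul_eq_iff]
    have e2 : (g⁻¹ • z = b) ↔ z = d := by
      rw [← hg2, inv_smul_eq_iff]
    simp only [e1, e2]
  rw [h4] at h3
  exact h3

/-- Over any field, the permutation module of the alternating group of degree at least 5 has exactly four invariant subspaces: zero, the constant functions, the functions with coordinate sum zero, and everything. -/
theorem result {α : Type*} [Fintype α] [DecidableEq α] (hα : 5 ≤ Fintype.card α) {K : Type*} [Field K] (W : Subrepresentation (Cfsg.permRep K (alternatingGroup α) α)) : W.toSubmodule = ⊥ ∨ W = Cfsg.permConstants K (alternatingGroup α) α ∨ W = Cfsg.permSumZero K (alternatingGroup α) α ∨ W.toSubmodule = ⊤ := by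
  classical
  by_cases hconst : ∀ v ∈ W.toSubmodule, ∀ i j, v i = v j
  · -- `W` consists of constants.
    by_cases hbot : W.toSubmodule = ⊥
    · exact Or.inl hbot
    right; left
    apply Subrepresentation.toSubmodule_injective
    obtain ⟨w, hw, hw0⟩ := (Submodule.ne_bot_iff _).mp hbot
    have hne : Nonempty α := by
      rw [← Fintype.card_pos_iff]; omega
    obtain ⟨x0⟩ := hne
    have hwc : ∀ x, w x = w x0 := fun x => hconst w hw x x0
    have hw0' : w x0 ≠ 0 := by
      intro h
      apply hw0
      funext x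
      rw [hwc x, h]; rfl
    have hone : (fun _ => 1 : α → K) ∈ W.toSubmodule := by
      have : (fun _ => 1 : α → K) = (w x0)⁻¹ • w := by
        funext x
        simp [hwc x, hw0']
      rw [this]
      exact W.toSubmodule.smul_mem _ hw
    apply le_antisymm
    · intro v hv
      change v ∈ Submodule.span K _
      rw [Submodule.mem_span_singleton]
      refine ⟨v x0, ?_⟩
      funext x
      simp [hconst v hv x x0]
    · change Submodule.span K _ ≤ _
      rw [Submodule.span_singleton_le_iff_mem]
      exact hone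
  · -- `W` has a non-constant vector, so it contains the sum-zero functions.
    push Not at hconst
    obtain ⟨v, hv, i, j, hvij⟩ := hconst
    have hij : i ≠ j := by
      rintro rfl
      exact hvij rfl
    obtain ⟨a, b, hab, hdiff⟩ := exists_diff_mem hα W hv hij hvij
    have hall := all_diff_mem hα W hab hdiff
    have hsz : ∀ f : α → K, ∑ x, f x = 0 → f ∈ W.toSubmodule := by
      intro f hf
      have hfe : f = ∑ x, f x • basisDiff K x i := by
        funext z
        rw [Finset.sum_apply]
        simp only [Pi.smul_apply, smul_eq_mul, basisDiff, Pi.sub_apply, mul_sub]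
        rw [Finset.sum_sub_distrib, ← Finset.sum_mul, hf, zero_mul, sub_zero]
        simp [Pi.single_apply]
      rw [hfe]
      exact W.toSubmodule.sum_mem fun x _ => W.toSubmodule.smul_mem _ (hall x i)
    by_cases hW : ∃ w ∈ W.toSubmodule, ∑ x, w x ≠ 0
    · right; right; right
      obtain ⟨w, hw, hw0⟩ := hW
      rw [eq_top_iff]
      intro f _
      have h1 : f - ((∑ x, f x) / (∑ x, w x)) • w ∈ W.toSubmodule := by
        apply hsz
        simp only [Pi.sub_apply, Pi.smul_apply, smul_eq_mul, Finset.sum_sub_distrib,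
          ← Finset.mul_sum]
        field_simp
        ring
      have h2 := W.toSubmodule.add_mem h1 (W.toSubmodule.smul_mem ((∑ x, f x) / (∑ x, w x)) hw)
      simpa using h2
    · right; right; left
      push Not at hW
      apply Subrepresentation.toSubmodule_injective
      apply le_antisymm
      · intro w hw
        exact hW w hw
      · intro f hf
        exact hsz f hf

end Cfsg.Agent.S0714
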