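import Cfsg.Statements.S0715
import Mathlib
import Cfsg.Agent.Lib.Char.Orbital
import Cfsg.Agent.Lib.Char.Integrality

set_option autoImplicit false

namespace Cfsg.Agent.S0715

open Cfsg MulAction Cfsg.Agent.Lib.Char.Orbital Cfsg.Agent.Lib.Char.TraceFormula
  Cfsg.Agent.Lib.Char.PermChar

/-- If a natural number `f` divides the degree of every non-principal irreducible constituent of the permutation character of a transitive group, then `f` divides every non-trivial subdegree. -/
theorem result {G : Type*} [Group G] [Fintype G] {Ω : Type*} [Fintype Ω] [MulAction G Ω] [MulAction.IsPretransitive G Ω] (f : ℕ) (hf : ∀ χ : G → ℂ, Cfsg.IsIrrCharacter G χ → χ ≠ (fun _ => 1) → Cfsg.classInner (fun g : G => (Nat.card (MulAction.fixedBy Ω g) : ℂ)) χ ≠ 0 → ∃ m : ℕ, χ 1 = (f : ℂ) * m) (a b : Ω) (hab : b ≠ a) : f ∣ Nat.card (MulAction.orbit (MulAction.stabilizer G a) b) := by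
  classical
  have : Nonempty Ω := ⟨a⟩
  set A := orbMat G a b with hAdef
  have hA : IsInv G A := orbMat_inv a b
  set d := Nat.card (MulAction.orbit (MulAction.stabilizer G a) b) with hd
  have hrow : ∀ x, ∑ y, A x y = (d : ℤ) := fun x => orbMat_rowSum a b x
  have hfor := sum_diag_eq A hA d hrow
  have hdiag : ∑ x, ((A x x : ℤ) : ℂ) = 0 := by
    refine Finset.sum_eq_zero fun x _ => ?_
    rw [hAdef, orbMat_diag hab]
    simp
  rw [hdiag] at hfor
  -- pick the cofactors
  have hcof : ∀ χ : IrrCharacter G, ∃ m : ℕ, (χ ∈ Finset.univ.erase (oneChar G) →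
      (χ : G → ℂ) 1 * LinearMap.trace ℂ _ (mOp χ A hA) = (f : ℂ) * ((m : ℂ) * LinearMap.trace ℂ _ (mOp χ A hA))) := by
    intro χ
    by_cases hχ : χ ∈ Finset.univ.erase (oneChar G)
    · by_cases h0 : classInner (permChar G Ω) (χ : G → ℂ) = 0
      · refine ⟨0, fun _ => ?_⟩
        rw [trace_mOp_eq_zero χ A hA h0]
        simp
      · have hne : (χ : G → ℂ) ≠ fun _ => 1 := by
          intro h
          exact (Finset.mem_erase.mp hχ).1 (Subtype.ext h)
        obtain ⟨m, hm⟩ := hf χ χ.2 hne h0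
        refine ⟨m, fun _ => ?_⟩
        rw [hm]
        ring
    · exact ⟨0, fun h => absurd h hχ⟩
  choose m hm using hcof
  have hsum : ∑ χ ∈ Finset.univ.erase (oneChar G), (χ : G → ℂ) 1 *
      LinearMap.trace ℂ _ (mOp χ A hA) = (f : ℂ) * ∑ χ ∈ Finset.univ.erase (oneChar G),
        ((m χ : ℂ) * LinearMap.trace ℂ _ (mOp χ A hA)) := by
    rw [Finset.mul_sum]
    exact Finset.sum_congr rfl fun χ hχ => hm χ hχ
  rw [hsum] at hfor
  set y := ∑ χ ∈ Finset.univ.erase (oneChar G),
    ((m χ : ℂ) * LinearMap.trace ℂ _ (mOp χ A hA)) with hy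
  have hyint : IsIntegral ℤ y := by
    refine IsIntegral.sum _ fun χ _ => ?_
    have h1 : IsIntegral ℤ (m χ : ℂ) := by
      simpa using (isIntegral_algebraMap (R := ℤ) (A := ℂ) (x := (m χ : ℤ)))
    exact h1.mul (isIntegral_trace_mOp χ A hA)
  have hdf : (d : ℂ) = (f : ℂ) * (-y) := by
    have : ((d : ℤ) : ℂ) + (f : ℂ) * y = 0 := hfor.symm
    push_cast at this
    linear_combination this
  by_cases hf0 : f = 0
  · subst hf0
    have : (d : ℂ) = 0 := by simpa using hdf
    have hd0 : d = 0 := by exact_mod_cast this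
    rw [hd0]
  · have hfc : (f : ℂ) ≠ 0 := by exact_mod_cast hf0
    refine Cfsg.Agent.Lib.Char.Integrality.natCast_dvd_of_isIntegral_div hf0 ?_
    rw [hdf, mul_div_cancel_left₀ _ hfc]
    exact hyint.neg

end Cfsg.Agent.S0715
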