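import Cfsg.Statements.S0716
import Mathlib
import Cfsg.Agent.S0715
import Cfsg.Agent.Lib.Char.Orbital

set_option autoImplicit false
set_option linter.unusedSectionVars false
open Cfsg

namespace Cfsg.Agent.S0716

open MulAction Module Representation Cfsg.Agent.Lib.Char.Orbital Cfsg.Agent.Lib.Char.TraceFormula
  Cfsg.Agent.Lib.Char.PermChar Cfsg.Agent.Lib.Char.Ortho

section

variable {G : Type*} [Group G] [Fintype G] {Ω : Type*} [Fintype Ω] [MulAction G Ω]
  [IsPretransitive G Ω]

/-- The multiplicity of an irreducible character in the permutation character. -/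
noncomputable def mult (G : Type*) [Group G] [Fintype G] (Ω : Type*) [Fintype Ω] [MulAction G Ω]
    (χ : IrrCharacter G) : ℕ :=
  finrank ℂ (IntertwiningMap (irrRep χ) (permRep ℂ G Ω))

lemma mult_cast (χ : IrrCharacter G) : (mult G Ω χ : ℂ) = classInner (permChar G Ω) χ :=
  finrank_eq_classInner χ

lemma card_eq_sum : Fintype.card Ω = ∑ χ : IrrCharacter G, mult G Ω χ * irrDim χ := by
  apply Nat.cast_injective (R := ℂ)
  have h := congrFun (decomp_eq_sum_classInner (isCharacter_perm (G := G) (Ω := Ω))) 1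
  have h1 : permChar G Ω 1 = (Fintype.card Ω : ℂ) := by
    have : Nat.card (fixedBy Ω (1 : G)) = Fintype.card Ω := by
      rw [fixedBy_one_eq_univ, Nat.card_univ, Nat.card_eq_fintype_card]
    simp only [permChar]
    rw [this]
  rw [h1] at h
  rw [h, Finset.sum_apply]
  push_cast
  refine Finset.sum_congr rfl fun χ _ => ?_
  rw [Pi.smul_apply, smul_eq_mul, ← mult_cast, irr_one_eq]

lemma rank_eq_sum (a : Ω) :
    Nat.card (orbitRel.Quotient (stabilizer G a) Ω) = ∑ χ : IrrCharacter G, mult G Ω χ ^ 2 := by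
  apply Nat.cast_injective (R := ℂ)
  rw [← classInner_perm_self (G := G) a,
    classInner_eq_sum_mul (isCharacter_perm (G := G) (Ω := Ω)) (isCharacter_perm (G := G) (Ω := Ω))]
  push_cast
  refine Finset.sum_congr rfl fun χ _ => ?_
  have h : classInner (χ : G → ℂ) (permChar G Ω) = (mult G Ω χ : ℂ) := by
    rw [← classInner_conj_symm, ← mult_cast]
    simp
  rw [h, ← mult_cast, sq]

lemma mult_one [Nonempty Ω] : mult G Ω (oneChar G) = 1 := finrank_principal

lemma irrDim_one : irrDim (oneChar G) = 1 := by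
  have h := irr_one_eq (oneChar G)
  simp only [oneChar_apply] at h
  exact_mod_cast h.symm

/-- Sizes of suborbits. -/
noncomputable def sub (G : Type*) [Group G] {Ω : Type*} [MulAction G Ω] (a : Ω)
    (q : orbitRel.Quotient (stabilizer G a) Ω) : ℕ :=
  Nat.card {x : Ω // (Quotient.mk'' x : orbitRel.Quotient (stabilizer G a) Ω) = q}

lemma sum_sub (a : Ω) [Fintype (orbitRel.Quotient (stabilizer G a) Ω)] :
    ∑ q, sub G a q = Fintype.card Ω := by
  classical
  simp only [sub, Nat.card_eq_fintype_card]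
  rw [← Fintype.card_sigma]
  exact Fintype.card_congr (Equiv.sigmaFiberEquiv _)

lemma sub_mk (a b : Ω) : sub G a (Quotient.mk'' b) = Nat.card (orbit (stabilizer G a) b) := by
  simp only [sub]
  apply Nat.card_congr
  refine Equiv.subtypeEquivRight fun x => ?_
  rw [Quotient.eq'']
  exact Iff.rfl

lemma sub_self (a : Ω) : sub G a (Quotient.mk'' a) = 1 := by
  rw [sub_mk, Nat.card_eq_one_iff_unique]
  refine ⟨⟨?_⟩, ⟨⟨a, mem_orbit_self a⟩⟩⟩
  rintro ⟨_, ⟨⟨g, hg⟩, rfl⟩⟩ ⟨_, ⟨⟨g', hg'⟩, rfl⟩⟩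
  apply Subtype.ext
  show g • a = g' • a
  rw [mem_stabilizer_iff.mp hg, mem_stabilizer_iff.mp hg']

/-- The core of the argument. -/
lemma core (a : Ω) (f : ℕ)
    (hf : ∀ χ : IrrCharacter G, χ ≠ oneChar G → mult G Ω χ ≠ 0 → irrDim χ = f) :
    (∀ χ : IrrCharacter G, mult G Ω χ ≤ 1) ∧
      ∀ b : Ω, b ≠ a → Nat.card (orbit (stabilizer G a) b) = f := by
  classical
  have : Nonempty Ω := ⟨a⟩
  have : Fintype (orbitRel.Quotient (stabilizer G a) Ω) := Fintype.ofFinite _
  -- the divisibility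
  have hdvd : ∀ b : Ω, b ≠ a → f ∣ Nat.card (orbit (stabilizer G a) b) := by
    intro b hb
    refine Cfsg.Agent.S0715.result (G := G) (Ω := Ω) f ?_ a b hb
    intro χ hχ hne h0
    refine ⟨1, ?_⟩
    let χ' : IrrCharacter G := ⟨χ, hχ⟩
    have h1 : χ' ≠ oneChar G := fun h => hne (congrArg Subtype.val h)
    have h2 : mult G Ω χ' ≠ 0 := by
      intro h
      apply h0
      have h5 : classInner (permChar G Ω) (χ' : G → ℂ) = 0 := by
        rw [← mult_cast, h]
        simp
      exact h5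
    have h3 := hf χ' h1 h2
    have h4 := irr_one_eq χ'
    rw [h3] at h4
    simpa using h4
  have hsub_pos : ∀ b : Ω, 0 < Nat.card (orbit (stabilizer G a) b) := fun b => by
    have : Nonempty (orbit (stabilizer G a) b) := ⟨⟨b, mem_orbit_self b⟩⟩
    exact Nat.card_pos
  set E := Finset.univ.erase (oneChar G) with hE
  set q₀ : orbitRel.Quotient (stabilizer G a) Ω := Quotient.mk'' a with hq₀
  set Q' := Finset.univ.erase q₀ with hQ'
  have h1 : Fintype.card Ω = 1 + f * ∑ χ ∈ E, mult G Ω χ := by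
    rw [card_eq_sum (G := G), ← Finset.add_sum_erase _ _ (Finset.mem_univ (oneChar G)), mult_one,
      irrDim_one, Finset.mul_sum]
    congr 1
    refine Finset.sum_congr rfl fun χ hχ => ?_
    by_cases h : mult G Ω χ = 0
    · simp [h]
    · rw [hf χ (Finset.ne_of_mem_erase hχ) h, mul_comm]
  have h2 : Nat.card (orbitRel.Quotient (stabilizer G a) Ω) = 1 + ∑ χ ∈ E, mult G Ω χ ^ 2 := by
    rw [rank_eq_sum, ← Finset.add_sum_erase _ _ (Finset.mem_univ (oneChar G)), mult_one]
    simp [hE]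
  have h3 : Nat.card (orbitRel.Quotient (stabilizer G a) Ω) = 1 + Q'.card := by
    rw [Nat.card_eq_fintype_card, hQ', Finset.card_erase_of_mem (Finset.mem_univ _),
      Finset.card_univ]
    have : 0 < Fintype.card (orbitRel.Quotient (stabilizer G a) Ω) :=
      Fintype.card_pos_iff.mpr ⟨q₀⟩
    omega
  have h4 : Fintype.card Ω = 1 + ∑ q ∈ Q', sub G a q := by
    rw [← sum_sub (G := G) a, ← Finset.add_sum_erase _ _ (Finset.mem_univ q₀), hq₀, sub_self]
  have hcard : Q'.card = ∑ χ ∈ E, mult G Ω χ ^ 2 := by omega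
  have hsum : ∑ q ∈ Q', sub G a q = f * ∑ χ ∈ E, mult G Ω χ := by omega
  have hle : ∀ q ∈ Q', f ≤ sub G a q := by
    intro q hq
    induction q using Quotient.inductionOn' with
    | h b =>
      have hb : b ≠ a := by
        rintro rfl
        exact (Finset.ne_of_mem_erase hq) rfl
      rw [sub_mk]
      exact Nat.le_of_dvd (hsub_pos b) (hdvd b hb)
  have hpos : ∀ q ∈ Q', 0 < f := by
    intro q hq
    induction q using Quotient.inductionOn' with
    | h b =>
      have hb : b ≠ a := by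
        rintro rfl
        exact (Finset.ne_of_mem_erase hq) rfl
      exact Nat.pos_of_dvd_of_pos (hdvd b hb) (hsub_pos b)
  have hm1 : ∀ χ ∈ E, mult G Ω χ ≤ mult G Ω χ ^ 2 := fun χ _ => by nlinarith [Nat.zero_le (mult G Ω χ)]
  have hM : ∑ χ ∈ E, mult G Ω χ ≤ ∑ χ ∈ E, mult G Ω χ ^ 2 := Finset.sum_le_sum hm1
  have hfin : (∀ χ ∈ E, mult G Ω χ ^ 2 ≤ 1) ∧ ∀ q ∈ Q', sub G a q = f := by
    by_cases hQe : Q'.Nonempty
    · obtain ⟨q, hq⟩ := hQe
      have hfpos := hpos q hq
      have hle2 : f * Q'.card ≤ f * ∑ χ ∈ E, mult G Ω χ := by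
        rw [← hsum, mul_comm, ← smul_eq_mul, ← Finset.sum_const]
        exact Finset.sum_le_sum hle
      have hle3 : Q'.card ≤ ∑ χ ∈ E, mult G Ω χ := Nat.le_of_mul_le_mul_left hle2 hfpos
      have heq : ∑ χ ∈ E, mult G Ω χ = ∑ χ ∈ E, mult G Ω χ ^ 2 := by omega
      have heq2 := (Finset.sum_eq_sum_iff_of_le hm1).mp heq
      constructor
      · intro χ hχ
        have := heq2 χ hχ
        nlinarith
      · have heq3 : ∑ q ∈ Q', f = ∑ q ∈ Q', sub G a q := by
          rw [Finset.sum_const, smul_eq_mul, hsum, hcard, ← heq, mul_comm]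
        intro q hq
        exact ((Finset.sum_eq_sum_iff_of_le hle).mp heq3 q hq).symm
    · rw [Finset.not_nonempty_iff_eq_empty] at hQe
      rw [hQe] at hcard
      simp only [Finset.card_empty] at hcard
      constructor
      · intro χ hχ
        have := (Finset.sum_eq_zero_iff.mp hcard.symm) χ hχ
        omega
      · intro q hq
        rw [hQe] at hq
        simp at hq
  refine ⟨fun χ => ?_, fun b hb => ?_⟩
  · by_cases hχ : χ = oneChar G
    · rw [hχ, mult_one]
    · have := hfin.1 χ (Finset.mem_erase.mpr ⟨hχ, Finset.mem_univ _⟩)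
      nlinarith
  · rw [← sub_mk]
    refine hfin.2 _ (Finset.mem_erase.mpr ⟨?_, Finset.mem_univ _⟩)
    intro h
    have h5 := congrArg (sub G a) h
    rw [sub_mk, hq₀, sub_self] at h5
    have hbmem : b ∈ orbit (stabilizer G a) b := mem_orbit_self b
    have hsing := Nat.card_eq_one_iff_unique.mp h5
    have : (Quotient.mk'' b : orbitRel.Quotient (stabilizer G a) Ω) = Quotient.mk'' a := h
    have hb2 : b ∈ orbit (stabilizer G a) a := Quotient.eq''.mp this
    obtain ⟨⟨g, hg⟩, hga⟩ := hb2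
    apply hb
    rw [← hga]
    exact mem_stabilizer_iff.mp hg

end

/-- (a) If all non-principal irreducible constituents of the permutation character of a transitive group have the same degree `f`, the character is multiplicity-free and all non-trivial subdegrees equal `f`. (b) A transitive group of rank at most 5 has multiplicity-free permutation character. -/
theorem result {G : Type*} [Group G] [Fintype G] {Ω : Type*} [Fintype Ω] [MulAction G Ω] [MulAction.IsPretransitive G Ω] (a : Ω) : ((f : ℕ) → (∀ χ : G → ℂ, Cfsg.IsIrrCharacter G χ → χ ≠ (fun _ => 1) → Cfsg.classInner (fun g : G => (Nat.card (MulAction.fixedBy Ω g) : ℂ)) χ ≠ 0 → χ 1 = f) → (∀ χ : G → ℂ, Cfsg.IsIrrCharacter G χ → Cfsg.classInner (fun g : G => (Nat.card (MulAction.fixedBy Ω g) : ℂ)) χ = 0 ∨ Cfsg.classInner (fun g : G => (Nat.card (MulAction.fixedBy Ω g) : ℂ)) χ = 1) ∧ ∀ b : Ω, b ≠ a → Nat.card (MulAction.orbit (MulAction.stabilizer G a) b) = f) ∧ (Nat.card (MulAction.orbitRel.Quotient (MulAction.stabilizer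 G a) Ω) ≤ 5 → ∀ χ : G → ℂ, Cfsg.IsIrrCharacter G χ → Cfsg.classInner (fun g : G => (Nat.card (MulAction.fixedBy Ω g) : ℂ)) χ = 0 ∨ Cfsg.classInner (fun g : G => (Nat.card (MulAction.fixedBy Ω g) : ℂ)) χ = 1) := by
  classical
  have hn : Nonempty Ω := ⟨a⟩
  have hconv : ∀ χ : IrrCharacter G, classInner (fun g : G => (Nat.card (fixedBy Ω g) : ℂ)) (χ : G → ℂ)
      = (mult G Ω χ : ℂ) := fun χ => (mult_cast χ).symm
  have hmf : ∀ χ : IrrCharacter G, mult G Ω χ ≤ 1 →
      classInner (fun g : G => (Nat.card (fixedBy Ω g) : ℂ)) (χ : G → ℂ) = 0 ∨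
        classInner (fun g : G => (Nat.card (fixedBy Ω g) : ℂ)) (χ : G → ℂ) = 1 := by
    intro χ h
    rw [hconv]
    have : mult G Ω χ = 0 ∨ mult G Ω χ = 1 := by omega
    rcases this with h | h <;> simp [h]
  refine ⟨fun f hf => ?_, fun hr χ hχ => ?_⟩
  · have hf' : ∀ χ : IrrCharacter G, χ ≠ oneChar G → mult G Ω χ ≠ 0 → irrDim χ = f := by
      intro χ h1 h2
      have h3 := hf χ χ.2 (fun h => h1 (Subtype.ext h)) (by
        rw [hconv χ]
        exact_mod_cast h2)
      rw [irr_one_eq] at h3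
      exact_mod_cast h3
    obtain ⟨h1, h2⟩ := core a f hf'
    exact ⟨fun χ hχ => hmf ⟨χ, hχ⟩ (h1 _), h2⟩
  · refine hmf ⟨χ, hχ⟩ ?_
    by_contra hcon
    push Not at hcon
    set χ₀ : IrrCharacter G := ⟨χ, hχ⟩ with hχ₀
    have hr2 : ∑ ψ : IrrCharacter G, mult G Ω ψ ^ 2 ≤ 5 := by rw [← rank_eq_sum a]; exact hr
    have hne1 : χ₀ ≠ oneChar G := by
      intro h
      rw [h, mult_one] at hcon
      omega
    have hf' : ∀ ψ : IrrCharacter G, ψ ≠ oneChar G → mult G Ω ψ ≠ 0 → irrDim ψ = irrDim χ₀ := by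
      intro ψ h1 h2
      by_cases hψ : ψ = χ₀
      · rw [hψ]
      · exfalso
        have hsub : ({oneChar G, χ₀, ψ} : Finset (IrrCharacter G)) ⊆ Finset.univ := Finset.subset_univ _
        have hle := Finset.sum_le_sum_of_subset (f := fun ψ => mult G Ω ψ ^ 2) hsub
        rw [Finset.sum_insert (by simp [h1.symm, hne1.symm]), Finset.sum_insert (by simp [Ne.symm hψ]),
          Finset.sum_singleton, mult_one] at hle
        have h3 : 1 ≤ mult G Ω ψ := Nat.one_le_iff_ne_zero.mpr h2
        have h4 : 2 ≤ mult G Ω χ₀ := hcon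
        nlinarith
    have := (core a (irrDim χ₀) hf').1 χ₀
    omega

end Cfsg.Agent.S0716
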