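import Cfsg.Statements.S0717
import Mathlib
import Cfsg.Agent.Lib.Char.PermSym

set_option autoImplicit false
open Cfsg

namespace Cfsg.Agent.S0717

open MulAction Module Representation Matrix Cfsg.Agent.Lib.Char.Orbital Cfsg.Agent.Lib.Char.TraceFormula
  Cfsg.Agent.Lib.Char.PermChar Cfsg.Agent.Lib.Char.Ortho Cfsg.Agent.Lib.Char.PermSym
  Cfsg.Agent.Lib.Char.Commutant Cfsg.Agent.Lib.Char.Complete Cfsg.Agent.Lib.Char.Basic
open scoped ComplexConjugate

/-- All suborbits of a transitive group are self-paired (every pair of points is interchanged by some group element) if and only if the permutation character is multiplicity-free and each of its irreducible constituents is real-valued. -/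
theorem result {G : Type*} [Group G] [Fintype G] {Ω : Type*} [Fintype Ω] [MulAction G Ω] [MulAction.IsPretransitive G Ω] : (∀ a b : Ω, ∃ g : G, g • a = b ∧ g • b = a) ↔ ∀ χ : G → ℂ, Cfsg.IsIrrCharacter G χ → Cfsg.classInner (fun g : G => (Nat.card (MulAction.fixedBy Ω g) : ℂ)) χ ≠ 0 → Cfsg.classInner (fun g : G => (Nat.card (MulAction.fixedBy Ω g) : ℂ)) χ = 1 ∧ ∀ g : G, (starRingEnd ℂ) (χ g) = χ g := by
  classical
  have hmultcast : ∀ χ : IrrCharacter G,
      (finrank ℂ (IntertwiningMap (irrRep χ) (permRep ℂ G Ω)) : ℂ) =
        classInner (fun g : G => (Nat.card (fixedBy Ω g) : ℂ)) (χ : G → ℂ) :=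
    fun χ => finrank_eq_classInner χ
  constructor
  · intro hswap χ hχ h0
    constructor
    · have h1 := multFree_of_commute (permRep ℂ G Ω)
        (fun S T hS hT => comm_of_swap hswap S T hS hT) χ hχ
      rw [← permChar_eq] at h1
      exact h1.resolve_left h0
    · -- reality
      set χ' : IrrCharacter G := ⟨χ, hχ⟩ with hχ'
      have hcoe : (χ' : G → ℂ) = χ := rfl
      have hpos : 0 < finrank ℂ (IntertwiningMap (irrRep χ') (permRep ℂ G Ω)) := by
        rw [Nat.pos_iff_ne_zero]
        intro h
        have := hmultcast χ'
        rw [h] at this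
        exact h0 (by simpa using this.symm)
      obtain ⟨f, hf⟩ := (finrank_pos_iff_exists_ne_zero (R := ℂ)).mp hpos
      have hinj : Function.Injective f :=
        (Representation.IsIrreducible.injective_or_eq_zero (ρ := irrRep χ') (σ := permRep ℂ G Ω) f).resolve_right hf
      have hcl : IsClassFunction G χ := isClassFunction_of_isCharacter (isCharacter_of_isIrrCharacter hχ)
      have hcl' := isClassFunction_conj hcl
      -- the two class operators agree
      have hsym := symm_of_swap hswap (classOp (permRep ℂ G Ω) (fun g => conj (χ g)))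
        (classOp_commute _ _ hcl')
      rw [transpose_classOp] at hsym
      have hinv : (fun g => conj (χ g⁻¹)) = χ := by
        funext g
        rw [conj_of_isCharacter (isCharacter_of_isIrrCharacter hχ), inv_inv]
      simp only [hinv] at hsym
      have heq : classOp (permRep ℂ G Ω) χ = classOp (permRep ℂ G Ω) (fun g => conj (χ g)) :=
        LinearMap.toMatrix'.injective hsym
      have heq2 : classOp (irrRep χ') χ = classOp (irrRep χ') (fun g => conj (χ g)) := by
        refine LinearMap.ext fun w => hinj ?_
        rw [← classOp_intertwine, ← classOp_intertwine, heq]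
      have htr := congrArg (LinearMap.trace ℂ _) heq2
      rw [trace_classOp, trace_classOp, irrRep_char, hcoe, sum_conj_mul_eq] at htr
      have hG : (Nat.card G : ℂ) ≠ 0 := by exact_mod_cast (Nat.card_pos (α := G)).ne'
      rw [classInner_irr_self hχ, mul_one] at htr
      -- `⟨χ, conj χ⟩ = 1`
      have hc : classInner χ (fun g => conj (χ g)) = 1 := by
        rw [classInner]
        simp only [Complex.conj_conj]
        rw [htr, inv_mul_cancel₀ hG]
      by_contra hne
      push Not at hne
      obtain ⟨g, hg⟩ := hne
      have hne2 : χ ≠ fun g => conj (χ g) := fun h => hg (congrFun h g).symm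
      rw [classInner_irr_of_ne hχ (Cfsg.Agent.Lib.Char.IndNormal.isIrrCharacter_conj hχ) hne2] at hc
      exact zero_ne_one hc
  · intro h a b
    set T := zOp (orbMat G a b) with hTdef
    have hT := zOp_comm (G := G) (orbMat_inv (G := G) a b)
    rw [← hTdef] at hT
    -- the scalars
    have hex : ∀ χ : IrrCharacter G, ∃ c : ℂ,
        (∀ (f : IntertwiningMap (irrRep χ) (permRep ℂ G Ω)) (w : Fin (irrDim χ) → ℂ),
          T (f w) = c • f w) ∧
        (classInner (fun g : G => (Nat.card (fixedBy Ω g) : ℂ)) (χ : G → ℂ) = 0 → c = 0) := by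
      intro χ
      by_cases h0 : classInner (fun g : G => (Nat.card (fixedBy Ω g) : ℂ)) (χ : G → ℂ) = 0
      · refine ⟨0, fun f w => ?_, fun _ => rfl⟩
        have h1 := hmultcast χ
        rw [h0] at h1
        have h2 : finrank ℂ (IntertwiningMap (irrRep χ) (permRep ℂ G Ω)) = 0 := by exact_mod_cast h1
        have := finrank_zero_iff.mp h2
        rw [Subsingleton.elim f 0]
        simp
      · have h1 := (h χ χ.2 h0).1
        have h2 := hmultcast χ
        rw [h1] at h2
        have h3 : finrank ℂ (IntertwiningMap (irrRep χ) (permRep ℂ G Ω)) = 1 := by exact_mod_cast h2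
        obtain ⟨c, hc⟩ := exists_scalar_all (permRep ℂ G Ω) (irrRep χ) h3 T hT
        exact ⟨c, hc, fun h' => absurd h' h0⟩
    choose t ht ht0 using hex
    have hU := eq_sum_classOp (permRep ℂ G Ω) T t ht
    -- symmetric
    have hsymT : (LinearMap.toMatrix' T)ᵀ = LinearMap.toMatrix' T := by
      rw [hU, map_sum, Matrix.transpose_sum]
      refine Finset.sum_congr rfl fun χ _ => ?_
      rw [map_smul, Matrix.transpose_smul]
      by_cases h0 : classInner (fun g : G => (Nat.card (fixedBy Ω g) : ℂ)) (χ : G → ℂ) = 0
      · rw [ht0 χ h0]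
        simp
      · congr 1
        rw [transpose_classOp]
        congr 2
        funext g
        have hreal := (h χ χ.2 h0).2
        rw [conj_of_isCharacter (isCharacter_of_isIrrCharacter χ.2), inv_inv, hreal]
    have hent : LinearMap.toMatrix' T = (orbMat G a b).map (Int.cast : ℤ → ℂ) := by
      have : T = Matrix.toLin' ((orbMat G a b).map (Int.cast : ℤ → ℂ)) :=
        (Matrix.toLin'_apply' _).symm
      rw [this, LinearMap.toMatrix'_toLin']
    rw [hent] at hsymT
    have h1 := congrFun (congrFun hsymT a) b
    simp only [Matrix.transpose_apply, Matrix.map_apply, orbMat_self] at h1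
    by_contra hcon
    have h2 : orbMat G a b b a = 0 := orbMat_eq_zero hcon
    rw [h2] at h1
    simp at h1

end Cfsg.Agent.S0717
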