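import Cfsg.Statements.S0719
import Mathlib
import Cfsg.Agent.S0716
import Cfsg.Agent.Lib.Char.PermSym

set_option autoImplicit false
set_option linter.unusedSectionVars false
open Cfsg

namespace Cfsg.Agent.S0719

open MulAction Module Representation Matrix Cfsg.Agent.Lib.Char.Orbital Cfsg.Agent.Lib.Char.TraceFormula
  Cfsg.Agent.Lib.Char.PermChar Cfsg.Agent.Lib.Char.Ortho Cfsg.Agent.Lib.Char.PermSym
  Cfsg.Agent.Lib.Char.Commutant Cfsg.Agent.Lib.Char.Complete Cfsg.Agent.Lib.Char.Basic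

section Comb

variable {G : Type*} [Group G] {Ω : Type*} [Fintype Ω] [MulAction G Ω]

lemma orbMat_symm {a b : Ω} (hsw : ∃ g : G, g • a = b ∧ g • b = a) (x y : Ω) :
    orbMat G a b x y = orbMat G a b y x := by
  obtain ⟨g, h1, h2⟩ := hsw
  have key : ∀ x y, (∃ t : G, t • a = x ∧ t • b = y) → (∃ t : G, t • a = y ∧ t • b = x) := by
    rintro x y ⟨t, rfl, rfl⟩
    exact ⟨t * g, by rw [mul_smul, h1], by rw [mul_smul, h2]⟩
  by_cases h : ∃ t : G, t • a = x ∧ t • b = y
  · rw [orbMat_eq_one h, orbMat_eq_one (key _ _ h)]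
  · rw [orbMat_eq_zero h, orbMat_eq_zero (fun h' => h (key _ _ h'))]

lemma orbMat_zero_or_one (a b x y : Ω) : orbMat G a b x y = 0 ∨ orbMat G a b x y = 1 := by
  by_cases h : ∃ t : G, t • a = x ∧ t • b = y
  · exact Or.inr (orbMat_eq_one h)
  · exact Or.inl (orbMat_eq_zero h)

lemma tri [IsPretransitive G Ω] {a b c : Ω}
    (hcover : ∀ x, x = a ∨ x ∈ orbit (stabilizer G a) b ∨ x ∈ orbit (stabilizer G a) c) (x y : Ω) :
    x = y ∨ (∃ t : G, t • a = x ∧ t • b = y) ∨ (∃ t : G, t • a = x ∧ t • c = y) := by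
  obtain ⟨g, rfl⟩ := exists_smul_eq G a x
  rcases hcover (g⁻¹ • y) with h | ⟨⟨s, hs⟩, hsb⟩ | ⟨⟨s, hs⟩, hsb⟩
  · left
    rw [← h, smul_inv_smul]
  · right; left
    have hsb' : s • b = g⁻¹ • y := hsb
    refine ⟨g * s, ?_, ?_⟩
    · rw [mul_smul, mem_stabilizer_iff.mp hs]
    · rw [mul_smul, hsb', smul_inv_smul]
  · right; right
    have hsb' : s • c = g⁻¹ • y := hsb
    refine ⟨g * s, ?_, ?_⟩
    · rw [mul_smul, mem_stabilizer_iff.mp hs]
    · rw [mul_smul, hsb', smul_inv_smul]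

lemma not_both {a b c : Ω} (hbc : c ∉ orbit (stabilizer G a) b) (x y : Ω)
    (h1 : ∃ t : G, t • a = x ∧ t • b = y) (h2 : ∃ t : G, t • a = x ∧ t • c = y) : False := by
  obtain ⟨t, rfl, rfl⟩ := h1
  obtain ⟨s, hs1, hs2⟩ := h2
  apply hbc
  refine ⟨⟨s⁻¹ * t, mem_stabilizer_iff.mpr ?_⟩, ?_⟩
  · rw [mul_smul, ← hs1, inv_smul_smul]
  · show (s⁻¹ * t) • b = c
    rw [mul_smul, ← hs2, inv_smul_smul]

lemma card_eq_of_transpose [IsPretransitive G Ω] [Nonempty Ω] {a b c : Ω}
    (h : ∀ x y, orbMat G a b x y = orbMat G a c y x) :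
    Nat.card (orbit (stabilizer G a) b) = Nat.card (orbit (stabilizer G a) c) := by
  have h1 : ∑ x, ∑ y, orbMat G a b x y = ∑ x : Ω, (Nat.card (orbit (stabilizer G a) b) : ℤ) :=
    Finset.sum_congr rfl fun x _ => orbMat_rowSum a b x
  have h2 : ∑ x, ∑ y, orbMat G a c y x = ∑ y : Ω, (Nat.card (orbit (stabilizer G a) c) : ℤ) := by
    rw [Finset.sum_comm]
    exact Finset.sum_congr rfl fun x _ => orbMat_rowSum a c x
  have h3 : ∑ x, ∑ y, orbMat G a b x y = ∑ x, ∑ y, orbMat G a c y x :=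
    Finset.sum_congr rfl fun x _ => Finset.sum_congr rfl fun y _ => h x y
  rw [h1, h2] at h3
  simp only [Finset.sum_const, Finset.card_univ, nsmul_eq_mul] at h3
  have hn : (Fintype.card Ω : ℤ) ≠ 0 := by
    have : 0 < Fintype.card Ω := Fintype.card_pos
    omega
  exact_mod_cast mul_left_cancel₀ hn h3

lemma self_paired [IsPretransitive G Ω] [Nonempty Ω] {a b c : Ω} (hb : b ≠ a)
    (hcover : ∀ x, x = a ∨ x ∈ orbit (stabilizer G a) b ∨ x ∈ orbit (stabilizer G a) c)
    (hne : Nat.card (orbit (stabilizer G a) b) ≠ Nat.card (orbit (stabilizer G a) c)) :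
    ∃ g : G, g • a = b ∧ g • b = a := by
  rcases tri hcover b a with h | h | h
  · exact absurd h hb
  · exact h
  · exfalso
    obtain ⟨g, h1, h2⟩ := h
    apply hne
    apply card_eq_of_transpose (G := G)
    intro x y
    have key1 : (∃ t : G, t • a = x ∧ t • b = y) → (∃ t : G, t • a = y ∧ t • c = x) := by
      rintro ⟨t, rfl, rfl⟩
      exact ⟨t * g, by rw [mul_smul, h1], by rw [mul_smul, h2]⟩
    have key2 : (∃ t : G, t • a = y ∧ t • c = x) → (∃ t : G, t • a = x ∧ t • b = y) := by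
      rintro ⟨t, rfl, rfl⟩
      refine ⟨t * g⁻¹, ?_, ?_⟩
      · rw [mul_smul, ← h2, inv_smul_smul]
      · rw [mul_smul, ← h1, inv_smul_smul]
    by_cases h : ∃ t : G, t • a = x ∧ t • b = y
    · rw [orbMat_eq_one h, orbMat_eq_one (key1 h)]
    · rw [orbMat_eq_zero h, orbMat_eq_zero (fun h' => h (key2 h'))]

lemma card_ne_one (hprim : IsPreprimitive G Ω) {a b : Ω} (hb : b ≠ a)
    (hsw : ∃ g : G, g • a = b ∧ g • b = a) (hn : 3 ≤ Fintype.card Ω) :
    Nat.card (orbit (stabilizer G a) b) ≠ 1 := by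
  classical
  intro hcard
  have hfix : ∀ h : G, h • a = a → h • b = b := by
    intro h hh
    have h1 : b ∈ orbit (stabilizer G a) b := mem_orbit_self b
    have h2 : h • b ∈ orbit (stabilizer G a) b := ⟨⟨h, mem_stabilizer_iff.mpr hh⟩, rfl⟩
    have := Nat.card_eq_one_iff_unique.mp hcard
    exact congrArg Subtype.val (this.1.elim ⟨_, h2⟩ ⟨_, h1⟩)
  obtain ⟨g₀, h1, h2⟩ := hsw
  have hS : ∀ g : G, (g • a = a → g • b = b) ∧ (g • a = b → g • b = a) ∧
      (g • b = a → g • a = b) ∧ (g • b = b → g • a = a) := by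
    intro g
    refine ⟨hfix g, fun h => ?_, fun h => ?_, fun h => ?_⟩
    · have h3 := hfix (g₀⁻¹ * g) (by rw [mul_smul, h, ← h1, inv_smul_smul])
      rw [mul_smul, inv_smul_eq_iff, h2] at h3
      exact h3
    · have h3 := hfix (g * g₀) (by rw [mul_smul, h1, h])
      rw [mul_smul, h2] at h3
      exact h3
    · have h3 := hfix (g₀⁻¹ * g * g₀) (by
        rw [mul_smul, mul_smul, h1, h, ← h1, inv_smul_smul])
      rw [mul_smul, mul_smul, h2, inv_smul_eq_iff, h2] at h3
      exact h3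
  let S : Set Ω := {a, b}
  have hblock : IsBlock G S := by
    rw [isBlock_iff_smul_eq_of_nonempty]
    rintro g ⟨x, ⟨p, hp, rfl⟩, hx⟩
    have hcases : (g • a = a ∧ g • b = b) ∨ (g • a = b ∧ g • b = a) := by
      obtain ⟨h3, h4, h5, h6⟩ := hS g
      rcases hp with rfl | rfl <;> rcases hx with h | h
      · exact Or.inl ⟨h, h3 h⟩
      · exact Or.inr ⟨h, h4 h⟩
      · exact Or.inr ⟨h5 h, h⟩
      · exact Or.inl ⟨h6 h, h⟩
    simp only [S, Set.smul_set_insert, Set.smul_set_singleton]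
    rcases hcases with ⟨h3, h4⟩ | ⟨h3, h4⟩
    · rw [h3, h4]
    · rw [h3, h4, Set.pair_comm]
  rcases hprim.isTrivialBlock_of_isBlock hblock with h | h
  · exact hb (h (by simp [S]) (by simp [S]))
  · have hall : ∀ x : Ω, x ∈ ({a, b} : Finset Ω) := by
      intro x
      have : x ∈ S := by rw [h]; trivial
      simpa [S] using this
    have := Finset.card_le_two (a := a) (b := b)
    rw [Finset.eq_univ_iff_forall.mpr hall, Finset.card_univ] at this
    omega

end Comb

section Reps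

variable {G : Type*} [Group G] [Fintype G] {Ω : Type*} [Fintype Ω] [MulAction G Ω]

lemma exists_reps [IsPretransitive G Ω] (a₀ : Ω)
    (hrank : Nat.card (orbitRel.Quotient (stabilizer G a₀) Ω) = 3) :
    ∃ b c : Ω, b ≠ a₀ ∧ c ≠ a₀ ∧ c ∉ orbit (stabilizer G a₀) b ∧
      (∀ x, x = a₀ ∨ x ∈ orbit (stabilizer G a₀) b ∨ x ∈ orbit (stabilizer G a₀) c) ∧
      1 + Nat.card (orbit (stabilizer G a₀) b) + Nat.card (orbit (stabilizer G a₀) c) =
        Fintype.card Ω := by
  classical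
  have : Fintype (orbitRel.Quotient (stabilizer G a₀) Ω) := Fintype.ofFinite _
  set q₀ : orbitRel.Quotient (stabilizer G a₀) Ω := Quotient.mk'' a₀ with hq₀
  have h2 : (Finset.univ.erase q₀).card = 2 := by
    rw [Finset.card_erase_of_mem (Finset.mem_univ _), Finset.card_univ,
      ← Nat.card_eq_fintype_card, hrank]
  obtain ⟨q₁, q₂, hne, he⟩ := Finset.card_eq_two.mp h2
  have hq₁ : q₁ ∈ Finset.univ.erase q₀ := by rw [he]; simp
  have hq₂ : q₂ ∈ Finset.univ.erase q₀ := by rw [he]; simp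
  have hmem : ∀ q, q = q₀ ∨ q = q₁ ∨ q = q₂ := by
    intro q
    by_cases h : q = q₀
    · exact Or.inl h
    · have : q ∈ Finset.univ.erase q₀ := Finset.mem_erase.mpr ⟨h, Finset.mem_univ _⟩
      rw [he] at this
      simpa using Or.inr (by simpa using this)
  have hsum := Cfsg.Agent.S0716.sum_sub (G := G) a₀
  have hu : (Finset.univ : Finset (orbitRel.Quotient (stabilizer G a₀) Ω)) = insert q₀ {q₁, q₂} := by
    rw [← he]
    simp
  induction q₁ using Quotient.inductionOn' with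
  | h b =>
    induction q₂ using Quotient.inductionOn' with
    | h c =>
      have hb : b ≠ a₀ := by
        rintro rfl
        exact Finset.ne_of_mem_erase hq₁ rfl
      have hc : c ≠ a₀ := by
        rintro rfl
        exact Finset.ne_of_mem_erase hq₂ rfl
      refine ⟨b, c, hb, hc, ?_, ?_, ?_⟩
      · intro h
        apply hne
        exact (Quotient.eq''.mpr h).symm
      · intro x
        rcases hmem (Quotient.mk'' x) with h | h | h
        · left
          have hx : x ∈ orbit (stabilizer G a₀) a₀ := Quotient.eq''.mp h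
          obtain ⟨⟨g, hg⟩, rfl⟩ := hx
          exact mem_stabilizer_iff.mp hg
        · right; left
          exact Quotient.eq''.mp h
        · right; right
          exact Quotient.eq''.mp h
      · have e0 : Cfsg.Agent.S0716.sub G a₀ q₀ = 1 := Cfsg.Agent.S0716.sub_self a₀
        have e1 := Cfsg.Agent.S0716.sub_mk (G := G) a₀ b
        have e2 := Cfsg.Agent.S0716.sub_mk (G := G) a₀ c
        rw [← hsum, hu, Finset.sum_insert, Finset.sum_pair hne, e0, e1, e2]
        · ring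
        · simp only [Finset.mem_insert, Finset.mem_singleton, not_or]
          exact ⟨(Finset.ne_of_mem_erase hq₁).symm, (Finset.ne_of_mem_erase hq₂).symm⟩

/-- The functional `∑ y, v y` vanishes on non-principal isotypic parts. -/
lemma sum_eq_zero_of_ne_one (χ : IrrCharacter G) (hχ : χ ≠ oneChar G)
    (f : IntertwiningMap (irrRep χ) (permRep ℂ G Ω)) (w : Fin (irrDim χ) → ℂ) :
    ∑ y, f w y = 0 := by
  have h0 := classOp_irrRep_of_ne χ (oneChar G) hχ
  have h1 := classOp_intertwine (permRep ℂ G Ω) (irrRep χ) f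
    (fun g => (starRingEnd ℂ) (((oneChar G : IrrCharacter G) : G → ℂ) g)) w
  rw [h0, LinearMap.zero_apply, map_zero, classOp_apply] at h1
  have hG : (Nat.card G : ℂ) ≠ 0 := by exact_mod_cast (Nat.card_pos (α := G)).ne'
  have h2 : ∀ g : G, ∑ y, (permRep ℂ G Ω g (f w)) y = ∑ y, f w y := by
    intro g
    show ∑ y, f w (g⁻¹ • y) = _
    exact Equiv.sum_comp (MulAction.toPerm g⁻¹) (f w)
  have h3 := congrArg (fun v : Ω → ℂ => ∑ y, v y) h1
  simp only [oneChar_apply, map_one, one_smul, Finset.sum_apply, Finset.sum_const_zero,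
    Pi.zero_apply] at h3
  rw [Finset.sum_comm] at h3
  simp only [h2, Finset.sum_const, Finset.card_univ, ← Nat.card_eq_fintype_card] at h3
  rw [← Nat.cast_smul_eq_nsmul ℂ, smul_eq_mul] at h3
  exact (mul_eq_zero.mp h3).resolve_left hG

/-- The trace on a multiplicity space of dimension one. -/
lemma trace_mOp_of_scalar (χ : IrrCharacter G) (M : Matrix Ω Ω ℤ) (hM : IsInv G M) (c : ℂ)
    (hone : finrank ℂ (IntertwiningMap (irrRep χ) (permRep ℂ G Ω)) = 1)
    (h : ∀ (f : IntertwiningMap (irrRep χ) (permRep ℂ G Ω)) (w : Fin (irrDim χ) → ℂ),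
      zOp M (f w) = c • f w) :
    LinearMap.trace ℂ _ (mOp χ M hM) = c := by
  have h1 : mOp χ M hM = c • LinearMap.id := by
    refine LinearMap.ext fun f => IntertwiningMap.ext (LinearMap.ext fun w => ?_)
    exact h f w
  rw [h1, map_smul, LinearMap.trace_id, hone, smul_eq_mul]
  simp

/-- There is a nonzero vector in the isotypic part of a constituent. -/
lemma exists_vec (χ : IrrCharacter G)
    (hone : finrank ℂ (IntertwiningMap (irrRep χ) (permRep ℂ G Ω)) = 1) :
    ∃ (f : IntertwiningMap (irrRep χ) (permRep ℂ G Ω)) (w : Fin (irrDim χ) → ℂ), f w ≠ 0 := by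
  obtain ⟨f, hf⟩ := (finrank_pos_iff_exists_ne_zero (R := ℂ)).mp
    (by omega : 0 < finrank ℂ (IntertwiningMap (irrRep χ) (permRep ℂ G Ω)))
  by_contra hcon
  push Not at hcon
  apply hf
  exact IntertwiningMap.ext (LinearMap.ext fun w => hcon f w)

/-- The trace formula for two non-principal constituents. -/
lemma sum_diag_two [IsPretransitive G Ω] [Nonempty Ω] (X₁ X₂ : IrrCharacter G)
    (hne₁ : X₁ ≠ oneChar G) (hne₂ : X₂ ≠ oneChar G) (h12 : X₁ ≠ X₂)
    (h0 : ∀ χ : IrrCharacter G, χ ≠ oneChar G → χ ≠ X₁ → χ ≠ X₂ →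
      classInner (permChar G Ω) (χ : G → ℂ) = 0)
    (f₁ : finrank ℂ (IntertwiningMap (irrRep X₁) (permRep ℂ G Ω)) = 1)
    (f₂ : finrank ℂ (IntertwiningMap (irrRep X₂) (permRep ℂ G Ω)) = 1)
    (M : Matrix Ω Ω ℤ) (hM : IsInv G M) (d : ℤ) (hd : ∀ x, ∑ y, M x y = d) (c₁ c₂ : ℂ)
    (h₁ : ∀ (f : IntertwiningMap (irrRep X₁) (permRep ℂ G Ω)) (w : Fin (irrDim X₁) → ℂ),
      zOp M (f w) = c₁ • f w)
    (h₂ : ∀ (f : IntertwiningMap (irrRep X₂) (permRep ℂ G Ω)) (w : Fin (irrDim X₂) → ℂ),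
      zOp M (f w) = c₂ • f w) :
    ∑ x, (M x x : ℂ) = d + (X₁ : G → ℂ) 1 * c₁ + (X₂ : G → ℂ) 1 * c₂ := by
  classical
  rw [sum_diag_eq M hM d hd, add_assoc]
  congr 1
  have hsub : ({X₁, X₂} : Finset (IrrCharacter G)) ⊆ Finset.univ.erase (oneChar G) := by
    intro χ hχ
    simp only [Finset.mem_insert, Finset.mem_singleton] at hχ
    rcases hχ with rfl | rfl
    · exact Finset.mem_erase.mpr ⟨hne₁, Finset.mem_univ _⟩
    · exact Finset.mem_erase.mpr ⟨hne₂, Finset.mem_univ _⟩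
  rw [← Finset.sum_subset hsub, Finset.sum_pair h12, trace_mOp_of_scalar X₁ M hM c₁ f₁ h₁,
    trace_mOp_of_scalar X₂ M hM c₂ f₂ h₂]
  intro χ hχ hχ'
  simp only [Finset.mem_insert, Finset.mem_singleton, not_or] at hχ'
  rw [trace_mOp_eq_zero χ M hM (h0 χ (Finset.ne_of_mem_erase hχ) hχ'.1 hχ'.2), mul_zero]

end Reps

section Arith

lemma E_pos (k m u : ℤ) (hk : 2 ≤ k) (hm : 1 ≤ m) (hu : 0 ≤ u) :
    0 < 2 * k * (k - 1) + (m - 1) * u * (4 * k + (2 * m - 1) * u) := by
  have h1 : 0 < 2 * k * (k - 1) := by nlinarith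
  have h2 : 0 ≤ 4 * k + (2 * m - 1) * u := by nlinarith
  have h3 : 0 ≤ (m - 1) * u := mul_nonneg (by linarith) hu
  have h4 : 0 ≤ (m - 1) * u * (4 * k + (2 * m - 1) * u) := mul_nonneg h3 h2
  linarith

lemma arith_u (k l m u : ℤ) (hk : 2 ≤ k) (hl : 2 ≤ l) (hw : k + l + 1 = 2 * m)
    (hE : 2 * k * (k - 1) + (m - 1) * u * (4 * k + (2 * m - 1) * u) = 0) : u = -1 := by
  have hm : 1 ≤ m := by linarith
  by_contra hne
  have hcases : 0 ≤ u ∨ 0 ≤ -2 - u := by omega
  rcases hcases with h | h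
  · have := E_pos k m u hk hm h
    linarith
  · have h1 := E_pos l m (-2 - u) hl hm h
    have h2 : 2 * l * (l - 1) + (m - 1) * (-2 - u) * (4 * l + (2 * m - 1) * (-2 - u)) =
        2 * k * (k - 1) + (m - 1) * u * (4 * k + (2 * m - 1) * u) := by
      have hl' : l = 2 * m - 1 - k := by linarith
      subst hl'
      ring
    linarith

lemma arith_final (k l m : ℕ) (hk : 2 ≤ k) (hl : 2 ≤ l) (hw : k + l + 1 = 2 * m)
    (h : ((2 * k : ℤ) - (2 * m - 1)) ^ 2 = 2 * m - 1) :
    ∃ a : ℕ, 0 < a ∧ m = 2 * a ^ 2 + 2 * a + 1 ∧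
      (k = a * (2 * a + 1) ∨ k = (a + 1) * (2 * a + 1)) ∧
      (l = a * (2 * a + 1) ∨ l = (a + 1) * (2 * a + 1)) := by
  set e : ℤ := (2 * k : ℤ) - (2 * m - 1) with he
  have hn : ((e.natAbs : ℤ)) ^ 2 = 2 * m - 1 := by
    rw [Int.natAbs_sq]
    exact h
  have hodd : Odd e.natAbs := by
    by_contra hnot
    rw [Nat.not_odd_iff_even] at hnot
    obtain ⟨j, hj⟩ := hnot
    rw [hj] at hn
    push_cast at hn
    have : (2 * m - 1 : ℤ) = 2 * (2 * j ^ 2) := by
      rw [← hn]
      ring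
    omega
  obtain ⟨a, ha⟩ := hodd
  have hn2 : ((2 * a + 1 : ℕ) : ℤ) ^ 2 = 2 * m - 1 := by
    rw [← ha]
    exact hn
  push_cast at hn2
  have hm : (m : ℤ) = 2 * a ^ 2 + 2 * a + 1 := by nlinarith
  have hm' : m = 2 * a ^ 2 + 2 * a + 1 := by exact_mod_cast hm
  have hkz : (k : ℤ) + l + 1 = 2 * m := by exact_mod_cast hw
  have hsign : e = (2 * a + 1 : ℕ) ∨ e = -((2 * a + 1 : ℕ) : ℤ) := by
    rw [← ha]
    exact Int.natAbs_eq e
  have ha0 : 0 < a := by
    rcases Nat.eq_zero_or_pos a with h0 | h0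
    · subst h0
      simp only [Nat.cast_zero, ne_eq, OfNat.ofNat_ne_zero, not_false_eq_true, zero_pow, mul_zero,
        zero_add] at hm
      have : (m : ℤ) = 1 := by simpa using hm
      omega
    · exact h0
  refine ⟨a, ha0, hm', ?_⟩
  rcases hsign with h1 | h1
  · have h2 : (k : ℤ) = (a + 1) * (2 * a + 1) := by
      have : (2 * k : ℤ) - (2 * m - 1) = 2 * a + 1 := by
        rw [← he, h1]
        push_cast
        ring
      nlinarith
    have h3 : (l : ℤ) = a * (2 * a + 1) := by nlinarith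
    exact ⟨Or.inr (by exact_mod_cast h2), Or.inl (by exact_mod_cast h3)⟩
  · have h2 : (k : ℤ) = a * (2 * a + 1) := by
      have : (2 * k : ℤ) - (2 * m - 1) = -(2 * a + 1) := by
        rw [← he, h1]
        push_cast
        ring
      nlinarith
    have h3 : (l : ℤ) = (a + 1) * (2 * a + 1) := by nlinarith
    exact ⟨Or.inl (by exact_mod_cast h2), Or.inr (by exact_mod_cast h3)⟩

/-- The elimination of `r, s`. -/
lemma eq_E (k l m lam mu : ℤ) (r s : ℂ) (hk : 1 ≤ k) (hl : 1 ≤ l) (hw : k + l + 1 = 2 * m)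
    (E1 : (0 : ℂ) = k + ((m : ℂ) - 1) * r + (m : ℂ) * s)
    (E2 : (2 : ℂ) * m * k = k * k + ((m : ℂ) - 1) * (r * r) + (m : ℂ) * (s * s))
    (E3 : r * r = (k : ℂ) + lam * r + mu * (-1 - r))
    (E4 : s * s = (k : ℂ) + lam * s + mu * (-1 - s)) :
    2 * k * (k - 1) + (m - 1) * (lam - mu) * (4 * k + (2 * m - 1) * (lam - mu)) = 0 := by
  have hwC : (k : ℂ) + l + 1 = 2 * m := by exact_mod_cast hw
  have hmC : (m : ℂ) ≠ 0 := by
    have : m ≠ 0 := by omega
    exact_mod_cast this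
  have hkC : (k : ℂ) ≠ 0 := by
    have : k ≠ 0 := by omega
    exact_mod_cast this
  have hrs : r ≠ s := by
    rintro rfl
    -- `k + w r = 0`, `(w + 1) k = k² + w r²`
    have hw1 : (k : ℂ) + (2 * m - 1) * r = 0 := by linear_combination -E1
    have hlC : (l : ℂ) ≠ 0 := by
      have : l ≠ 0 := by omega
      exact_mod_cast this
    have h1 : (2 * (m : ℂ) - 1) * ((2 * m) * k) = (2 * (m : ℂ) - 1) * (k * k) + k * k := by
      have h2 : (2 * (m : ℂ) - 1) * r = -k := by linear_combination hw1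
      have h3 : ((2 * (m : ℂ) - 1) * r) * ((2 * (m : ℂ) - 1) * r) = k * k := by rw [h2]; ring
      linear_combination (2 * (m : ℂ) - 1) * E2 + h3
    have h4 : (2 * (m : ℂ)) * k * ((2 * (m : ℂ) - 1) - k) = 0 := by linear_combination h1
    have h5 : (2 * (m : ℂ) - 1) - k = l := by linear_combination -hwC
    rw [h5] at h4
    simp only [mul_eq_zero, OfNat.ofNat_ne_zero, false_or, hmC, hkC, hlC, or_self] at h4
  -- Vieta
  have hu : r + s = lam - mu := by
    have h1 : (r - s) * (r + s - (lam - mu)) = 0 := by linear_combination E3 - E4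
    have h2 := (mul_eq_zero.mp h1).resolve_left (sub_ne_zero.mpr hrs)
    linear_combination h2
  set u : ℤ := lam - mu with hudef
  have huC : (u : ℂ) = lam - mu := by rw [hudef]; push_cast; ring
  rw [← huC] at hu
  have hs : s = u - r := by linear_combination hu
  have hr : r = k + m * u := by
    rw [hs] at E1
    linear_combination E1
  have hs2 : s = -(k + (m - 1) * u) := by
    rw [hs, hr]
    ring
  rw [hr, hs2] at E2
  have hfin : (m : ℂ) * (2 * k * (k - 1) + (m - 1) * u * (4 * k + (2 * m - 1) * u)) = 0 := by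
    linear_combination -E2
  have hfin2 := (mul_eq_zero.mp hfin).resolve_left hmC
  exact_mod_cast hfin2

end Arith

/-- Groups of Wielandt type: if a primitive group of degree `2m` has rank 3 and permutation character `1 + χ₁ + χ₂` with irreducible `χ₁, χ₂` of degrees `m - 1` and `m`, then `m = 2a² + 2a + 1` for some positive integer `a` and the two non-trivial subdegrees are `a(2a+1)` and `(a+1)(2a+1)`. -/
theorem result {G : Type*} [Group G] [Fintype G] {Ω : Type*} [Fintype Ω] [MulAction G Ω] (hprim : MulAction.IsPreprimitive G Ω) {m : ℕ} (hm : Fintype.card Ω = 2 * m) (a₀ : Ω) (hrank : Nat.card (MulAction.orbitRel.Quotient (MulAction.stabilizer G a₀) Ω) = 3) (χ₁ χ₂ : G → ℂ) (h₁ : Cfsg.IsIrrCharacter G χ₁) (h₂ : Cfsg.IsIrrCharacter G χ₂) (hπ : (fun g : G => (Nat.card (MulAction.fixedBy Ω g) : ℂ)) = fun g => 1 + χ₁ g + χ₂ g) (hd₁ : χ₁ 1 = (m : ℂ) - 1) (hd₂ : χ₂ 1 = m) : ∃ a : ℕ, 0 < a ∧ m = 2 * a ^ 2 + 2 * a + 1 ∧ ∀ b : Ω, b ≠ a₀ → Nat.card (MulAction.orbit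 (MulAction.stabilizer G a₀) b) = a * (2 * a + 1) ∨ Nat.card (MulAction.orbit (MulAction.stabilizer G a₀) b) = (a + 1) * (2 * a + 1) := by
  classical
  have htr : IsPretransitive G Ω := hprim.toIsPretransitive
  have hne : Nonempty Ω := ⟨a₀⟩
  -- the suborbits
  obtain ⟨b, c, hb, hc, hbc, hcover, hcard⟩ := exists_reps (G := G) a₀ hrank
  set k := Nat.card (orbit (stabilizer G a₀) b) with hkdef
  set l := Nat.card (orbit (stabilizer G a₀) c) with hldef
  have hk1 : 1 ≤ k := by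
    have : Nonempty (orbit (stabilizer G a₀) b) := ⟨⟨b, mem_orbit_self b⟩⟩
    exact Nat.card_pos
  have hl1 : 1 ≤ l := by
    have : Nonempty (orbit (stabilizer G a₀) c) := ⟨⟨c, mem_orbit_self c⟩⟩
    exact Nat.card_pos
  have hwN : k + l + 1 = 2 * m := by omega
  have hn3 : 3 ≤ Fintype.card Ω := by omega
  have hkl : k ≠ l := by omega
  have hcover' : ∀ x, x = a₀ ∨ x ∈ orbit (stabilizer G a₀) c ∨ x ∈ orbit (stabilizer G a₀) b := by
    intro x
    rcases hcover x with h | h | h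
    · exact Or.inl h
    · exact Or.inr (Or.inr h)
    · exact Or.inr (Or.inl h)
  have hspb := self_paired hb hcover hkl
  have hspc := self_paired hc hcover' hkl.symm
  have hk2 : 2 ≤ k := by
    have := card_ne_one hprim hb hspb hn3
    omega
  have hl2 : 2 ≤ l := by
    have := card_ne_one hprim hc hspc hn3
    omega
  -- the matrices
  set A := orbMat G a₀ b with hA
  set B := orbMat G a₀ c with hB
  have hAinv : IsInv G A := orbMat_inv _ _
  have hBinv : IsInv G B := orbMat_inv _ _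
  have hAsymm : ∀ x y, A x y = A y x := orbMat_symm hspb
  have hArow : ∀ x, ∑ y, A x y = (k : ℤ) := fun x => orbMat_rowSum a₀ b x
  have hAA : ∀ x y, A x y * A x y = A x y := by
    intro x y
    rcases orbMat_zero_or_one (G := G) a₀ b x y with h | h <;> simp [hA, h]
  have hJ : ∀ x y, (if x = y then (1 : ℤ) else 0) + A x y + B x y = 1 := by
    intro x y
    rcases tri hcover x y with h | h | h
    · subst h
      rw [if_pos rfl, hA, hB, orbMat_diag hb, orbMat_diag hc]
      ring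
    · have hxy : x ≠ y := by
        rintro rfl
        obtain ⟨t, h1, h2⟩ := h
        exact hb (MulAction.injective t (h2.trans h1.symm))
      rw [if_neg hxy, hA, hB, orbMat_eq_one h,
        orbMat_eq_zero (fun h' => not_both hbc x y h h')]
      ring
    · have hxy : x ≠ y := by
        rintro rfl
        obtain ⟨t, h1, h2⟩ := h
        exact hc (MulAction.injective t (h2.trans h1.symm))
      rw [if_neg hxy, hA, hB, orbMat_eq_one h,
        orbMat_eq_zero (fun h' => not_both hbc x y h' h)]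
      ring
  -- the quadratic relation
  set lam : ℤ := (A * A) a₀ b with hlam
  set mu : ℤ := (A * A) a₀ c with hmu
  have hAAinv : IsInv G (A * A) := hAinv.mul hAinv
  have hAAdiag : ∀ x, (A * A) x x = (k : ℤ) := by
    intro x
    rw [Matrix.mul_apply, ← hArow x]
    refine Finset.sum_congr rfl fun y _ => ?_
    rw [hAsymm y x, hAA]
  have hquad : A * A = (k : ℤ) • 1 + lam • A + mu • B := by
    ext x y
    simp only [Matrix.add_apply, Matrix.smul_apply, Matrix.one_apply, smul_eq_mul]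
    rcases tri hcover x y with h | h | h
    · subst h
      rw [if_pos rfl, hA, hB, orbMat_diag hb, orbMat_diag hc, hAAdiag]
      ring
    · have hxy : x ≠ y := by
        rintro rfl
        obtain ⟨t, h1, h2⟩ := h
        exact hb (MulAction.injective t (h2.trans h1.symm))
      rw [if_neg hxy, hA, hB, orbMat_eq_one h,
        orbMat_eq_zero (fun h' => not_both hbc x y h h')]
      obtain ⟨t, rfl, rfl⟩ := h
      rw [← hA, hAAinv t a₀ b]
      ring
    · have hxy : x ≠ y := by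
        rintro rfl
        obtain ⟨t, h1, h2⟩ := h
        exact hc (MulAction.injective t (h2.trans h1.symm))
      rw [if_neg hxy, hA, hB, orbMat_eq_one h,
        orbMat_eq_zero (fun h' => not_both hbc x y h' h)]
      obtain ⟨t, rfl, rfl⟩ := h
      rw [← hA, hAAinv t a₀ c]
      ring
  -- the constituents
  set X₁ : IrrCharacter G := ⟨χ₁, h₁⟩ with hX₁
  set X₂ : IrrCharacter G := ⟨χ₂, h₂⟩ with hX₂
  have hπ' : permChar G Ω = (fun _ => (1 : ℂ)) + χ₁ + χ₂ := hπ
  have hinner : ∀ χ : IrrCharacter G, classInner (permChar G Ω) (χ : G → ℂ) =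
      (if (fun _ => (1 : ℂ)) = (χ : G → ℂ) then 1 else 0) + (if χ₁ = (χ : G → ℂ) then 1 else 0) +
        (if χ₂ = (χ : G → ℂ) then 1 else 0) := by
    intro χ
    rw [hπ', Cfsg.Agent.Lib.Char.Ortho.classInner_add_left, Cfsg.Agent.Lib.Char.Ortho.classInner_add_left,
      classInner_irr Cfsg.Agent.Lib.Char.Burnside2.isIrrCharacter_one χ.2, classInner_irr h₁ χ.2,
      classInner_irr h₂ χ.2]
  have hone : classInner (permChar G Ω) ((oneChar G : IrrCharacter G) : G → ℂ) = 1 :=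
    classInner_perm_one_of_transitive
  have hchi1 : χ₁ ≠ fun _ => 1 := by
    intro h
    have h3 := hinner (oneChar G)
    rw [hone] at h3
    have h4 : ((oneChar G : IrrCharacter G) : G → ℂ) = fun _ => 1 := rfl
    rw [h4, if_pos rfl, if_pos h] at h3
    split_ifs at h3 <;> norm_num at h3
  have hchi2 : χ₂ ≠ fun _ => 1 := by
    intro h
    have h3 := hinner (oneChar G)
    rw [hone] at h3
    have h4 : ((oneChar G : IrrCharacter G) : G → ℂ) = fun _ => 1 := rfl
    rw [h4, if_pos rfl, if_pos h, if_neg hchi1] at h3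
    norm_num at h3
  have hchi12 : χ₁ ≠ χ₂ := by
    intro h
    have h3 := congrFun h 1
    rw [hd₁, hd₂] at h3
    simp at h3
  have hne₁ : X₁ ≠ oneChar G := fun h => hchi1 (congrArg Subtype.val h)
  have hne₂ : X₂ ≠ oneChar G := fun h => hchi2 (congrArg Subtype.val h)
  have h12 : X₁ ≠ X₂ := fun h => hchi12 (congrArg Subtype.val h)
  have hf₁ : finrank ℂ (IntertwiningMap (irrRep X₁) (permRep ℂ G Ω)) = 1 := by
    have h3 := finrank_eq_classInner (Ω := Ω) X₁
    rw [hinner X₁] at h3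
    have h4 : ((X₁ : IrrCharacter G) : G → ℂ) = χ₁ := rfl
    rw [h4, if_neg (Ne.symm hchi1), if_pos rfl, if_neg (Ne.symm hchi12)] at h3
    norm_num at h3
    exact h3
  have hf₂ : finrank ℂ (IntertwiningMap (irrRep X₂) (permRep ℂ G Ω)) = 1 := by
    have h3 := finrank_eq_classInner (Ω := Ω) X₂
    rw [hinner X₂] at h3
    have h4 : ((X₂ : IrrCharacter G) : G → ℂ) = χ₂ := rfl
    rw [h4, if_neg (Ne.symm hchi2), if_pos rfl, if_neg hchi12] at h3
    norm_num at h3
    exact h3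
  have h0 : ∀ χ : IrrCharacter G, χ ≠ oneChar G → χ ≠ X₁ → χ ≠ X₂ →
      classInner (permChar G Ω) (χ : G → ℂ) = 0 := by
    intro χ h3 h4 h5
    rw [hinner χ, if_neg (fun h => h3 (Subtype.ext h.symm)), if_neg (fun h => h4 (Subtype.ext h.symm)),
      if_neg (fun h => h5 (Subtype.ext h.symm))]
    norm_num
  -- the scalars
  obtain ⟨r, hr⟩ := exists_scalar_all (permRep ℂ G Ω) (irrRep X₁) hf₁ (zOp A) (zOp_comm hAinv)
  obtain ⟨s, hs⟩ := exists_scalar_all (permRep ℂ G Ω) (irrRep X₂) hf₂ (zOp A) (zOp_comm hAinv)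
  -- `B` from `A`
  have hBv : ∀ v : Ω → ℂ, ∑ y, v y = 0 → ∀ x, zOp B v x = - v x - zOp A v x := by
    intro v hv x
    rw [zOp_apply, zOp_apply]
    have h1 : ∀ y, (B x y : ℂ) * v y = v y - (if x = y then v y else 0) - (A x y : ℂ) * v y := by
      intro y
      have h2 := hJ x y
      have h3 : ((if x = y then (1 : ℤ) else 0) : ℂ) + (A x y : ℂ) + (B x y : ℂ) = 1 := by
        exact_mod_cast h2
      by_cases hxy : x = y
      · rw [if_pos hxy] at h3 ⊢
        push_cast at h3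
        linear_combination v y * h3
      · rw [if_neg hxy] at h3 ⊢
        push_cast at h3
        linear_combination v y * h3
    simp_rw [h1]
    rw [Finset.sum_sub_distrib, Finset.sum_sub_distrib, hv, Finset.sum_ite_eq, if_pos (Finset.mem_univ _)]
    ring
  have hAAsc : ∀ (χ : IrrCharacter G) (c : ℂ),
      (∀ (f : IntertwiningMap (irrRep χ) (permRep ℂ G Ω)) (w : Fin (irrDim χ) → ℂ),
        zOp A (f w) = c • f w) →
      ∀ (f : IntertwiningMap (irrRep χ) (permRep ℂ G Ω)) (w : Fin (irrDim χ) → ℂ),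
        zOp (A * A) (f w) = (c * c) • f w := by
    intro χ c hc f w
    rw [zOp_mul, LinearMap.comp_apply, hc, map_smul, hc, smul_smul]
  -- the scalar relation
  have hquadC : ∀ (χ : IrrCharacter G) (c : ℂ), χ ≠ oneChar G →
      finrank ℂ (IntertwiningMap (irrRep χ) (permRep ℂ G Ω)) = 1 →
      (∀ (f : IntertwiningMap (irrRep χ) (permRep ℂ G Ω)) (w : Fin (irrDim χ) → ℂ),
        zOp A (f w) = c • f w) →
      c * c = (k : ℂ) + lam * c + mu * (-1 - c) := by
    intro χ c hχ hfr hc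
    obtain ⟨f, w, hv⟩ := exists_vec χ hfr
    have h1 := hAAsc χ c hc f w
    rw [hquad, zOp_add, zOp_add, zOp_smul, zOp_smul, zOp_smul, zOp_one] at h1
    have hB' : zOp B (f w) = (-1 - c) • f w := by
      funext x
      rw [hBv (f w) (sum_eq_zero_of_ne_one χ hχ f w) x, hc]
      simp only [Pi.smul_apply, smul_eq_mul]
      ring
    simp only [LinearMap.add_apply, LinearMap.smul_apply, LinearMap.id_apply, hc, hB'] at h1
    have h2 : (c * c - ((k : ℂ) + lam * c + mu * (-1 - c))) • f w = 0 := by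
      rw [sub_smul, ← h1]
      simp only [add_smul, mul_smul]
      push_cast
      abel
    have h3 := (smul_eq_zero.mp h2).resolve_right hv
    linear_combination h3
  have E3 := hquadC X₁ r hne₁ hf₁ hr
  have E4 := hquadC X₂ s hne₂ hf₂ hs
  -- the traces
  have hmZ : (Fintype.card Ω : ℂ) = 2 * m := by
    rw [hm]
    push_cast
    ring
  have E1 : (0 : ℂ) = ((k : ℤ) : ℂ) + (((m : ℤ) : ℂ) - 1) * r + ((m : ℤ) : ℂ) * s := by
    have h1 := sum_diag_two X₁ X₂ hne₁ hne₂ h12 h0 hf₁ hf₂ A hAinv (k : ℤ) hArow r s hr hs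
    have h2 : ∑ x, ((A x x : ℤ) : ℂ) = 0 := by
      refine Finset.sum_eq_zero fun x _ => ?_
      rw [hA, orbMat_diag hb]
      simp
    rw [h2] at h1
    have h3 : ((X₁ : IrrCharacter G) : G → ℂ) 1 = (m : ℂ) - 1 := hd₁
    have h4 : ((X₂ : IrrCharacter G) : G → ℂ) 1 = (m : ℂ) := hd₂
    rw [h3, h4] at h1
    push_cast at h1 ⊢
    exact h1
  have E2 : (2 : ℂ) * ((m : ℤ) : ℂ) * ((k : ℤ) : ℂ) = ((k : ℤ) : ℂ) * ((k : ℤ) : ℂ) +
      (((m : ℤ) : ℂ) - 1) * (r * r) + ((m : ℤ) : ℂ) * (s * s) := by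
    have hrow2 : ∀ x, ∑ y, (A * A) x y = (k : ℤ) * (k : ℤ) := by
      intro x
      simp only [Matrix.mul_apply]
      rw [Finset.sum_comm]
      simp_rw [← Finset.mul_sum, hArow]
      rw [← Finset.sum_mul, hArow]
    have h1 := sum_diag_two X₁ X₂ hne₁ hne₂ h12 h0 hf₁ hf₂ (A * A) hAAinv _ hrow2 _ _
      (hAAsc X₁ r hr) (hAAsc X₂ s hs)
    have h2 : ∑ x, (((A * A) x x : ℤ) : ℂ) = 2 * ((m : ℂ) * (k : ℂ)) := by
      simp_rw [hAAdiag]
      rw [Finset.sum_const, Finset.card_univ, ← Nat.cast_smul_eq_nsmul ℂ, hmZ, smul_eq_mul]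
      push_cast
      ring
    rw [h2] at h1
    have h3 : ((X₁ : IrrCharacter G) : G → ℂ) 1 = (m : ℂ) - 1 := hd₁
    have h4 : ((X₂ : IrrCharacter G) : G → ℂ) 1 = (m : ℂ) := hd₂
    rw [h3, h4] at h1
    push_cast at h1 ⊢
    linear_combination h1
  -- the arithmetic
  have hwZ : (k : ℤ) + l + 1 = 2 * m := by exact_mod_cast hwN
  have hE := eq_E (k : ℤ) (l : ℤ) (m : ℤ) lam mu r s (by omega) (by omega) hwZ E1 E2 E3 E4
  have hu := arith_u (k : ℤ) (l : ℤ) (m : ℤ) (lam - mu) (by omega) (by omega) hwZ hE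
  rw [hu] at hE
  have hsq : ((2 * k : ℤ) - (2 * m - 1)) ^ 2 = 2 * m - 1 := by
    linear_combination 2 * hE
  obtain ⟨a, ha, hma, hka, hla⟩ := arith_final k l m hk2 hl2 hwN hsq
  refine ⟨a, ha, hma, fun b' hb' => ?_⟩
  rcases hcover b' with h | h | h
  · exact absurd h hb'
  · have : orbit (stabilizer G a₀) b' = orbit (stabilizer G a₀) b := orbit_eq_iff.mpr h
    rw [this]
    exact hka
  · have : orbit (stabilizer G a₀) b' = orbit (stabilizer G a₀) c := orbit_eq_iff.mpr h
    rw [this]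
    exact hla

end Cfsg.Agent.S0719
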