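import Cfsg.Statements.S0720
import Mathlib
import Cfsg.Agent.Lib.Char.Wielandt2pMain

set_option autoImplicit false
open Cfsg

namespace Cfsg.Agent.S0720

open MulAction Equiv.Perm

/-- The case of a fixed point: Jordan's theorem. -/
lemma of_fixed {α : Type*} [Fintype α] [DecidableEq α] {p : ℕ} (hp : p.Prime)
    (hα : Fintype.card α = 2 * p) (G : Subgroup (Equiv.Perm α)) (hG : IsPreprimitive G α)
    (x : G) (hxo : orderOf x = p) (y : α) (hy : (x : Equiv.Perm α) y = y) :
    IsMultiplyPretransitive G α 2 := by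
  have hxo' : orderOf (x : Equiv.Perm α) = p := by
    rw [Subgroup.orderOf_coe, hxo]
  have hsupp : (x : Equiv.Perm α).support.card < 2 * orderOf (x : Equiv.Perm α) := by
    rw [hxo', ← hα]
    apply Finset.card_lt_univ_of_notMem (x := y)
    simpa using hy
  have hcyc : (x : Equiv.Perm α).IsCycle :=
    isCycle_of_prime_order (by rw [hxo']; exact hp) hsupp
  have hcard : (x : Equiv.Perm α).support.card = p := by
    rw [← hcyc.orderOf, hxo']
  have hp2 := hp.two_le
  refine hG.is_two_pretransitive (s := (((x : Equiv.Perm α).support : Finset α) : Set α)ᶜ)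
    (n := p - 1) ?_ ?_ (isPretransitive_of_isCycle_mem hcyc x.2)
  · have h1 := Set.ncard_add_ncard_compl (((x : Equiv.Perm α).support : Finset α) : Set α)
    rw [Set.ncard_coe_finset, hcard, Nat.card_eq_fintype_card, hα] at h1
    omega
  · rw [Nat.card_eq_fintype_card, hα]
    omega

section Free

variable {p : ℕ} [hp : Fact p.Prime] {G : Type*} [Group G] (x : G) (hxo : orderOf x = p)

/-- The powers of `x` indexed by `ZMod p`. -/
def pw (j : ZMod p) : G := x ^ j.val

include hxo in
lemma pw_add (i j : ZMod p) : pw x (i + j) = pw x i * pw x j := by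
  simp only [pw]
  rw [ZMod.val_add]
  have h1 : x ^ ((i.val + j.val) % p) = x ^ (i.val + j.val) := by
    subst hxo
    exact pow_mod_orderOf x _
  rw [h1, pow_add]

lemma pw_one : pw x (1 : ZMod p) = x := by
  have : Fact (1 < p) := ⟨hp.out.one_lt⟩
  simp [pw, ZMod.val_one]

lemma pw_zero : pw x (0 : ZMod p) = 1 := by
  simp [pw]

include hxo in
lemma no_fix {α : Type*} [MulAction G α] (hfree : ∀ y : α, x • y ≠ y) (k : ZMod p) (hk : k ≠ 0)
    (y : α) : pw x k • y ≠ y := by
  intro h
  have h1 : pw x k ∈ stabilizer G y := mem_stabilizer_iff.mpr h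
  have h2 : (pw x k) ^ (k⁻¹).val ∈ stabilizer G y := Subgroup.pow_mem _ h1 _
  have h3 : (pw x k) ^ (k⁻¹).val = x := by
    have h4 : ∀ n : ℕ, (pw x k) ^ n = pw x ((n : ZMod p) * k) := by
      intro n
      induction n with
      | zero => simp [pw_zero]
      | succ n ih =>
        rw [pow_succ, ih, ← pw_add x hxo]
        congr 1
        push_cast
        ring
    rw [h4]
    have : (((k⁻¹).val : ℕ) : ZMod p) * k = 1 := by
      rw [ZMod.natCast_zmod_val]
      exact inv_mul_cancel₀ hk
    rw [this, pw_one]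
  rw [h3] at h2
  exact hfree y (mem_stabilizer_iff.mp h2)

end Free

/-- The case without a fixed point: the main argument. -/
lemma of_free {α : Type*} [Fintype α] [DecidableEq α] {p : ℕ} [hp : Fact p.Prime]
    (hα : Fintype.card α = 2 * p) (G : Type*) [Group G] [Fintype G] [MulAction G α]
    (hG : IsPreprimitive G α) (a₀ : α) (x : G) (hxo : orderOf x = p) (hfree : ∀ y : α, x • y ≠ y) :
    IsMultiplyPretransitive G α 2 ∨
      (Nat.card (orbitRel.Quotient (stabilizer G a₀) α) = 3 ∧
        ∃ a : ℕ, 0 < a ∧ p = 2 * a ^ 2 + 2 * a + 1 ∧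
        ∀ b : α, b ≠ a₀ → Nat.card (orbit (stabilizer G a₀) b) = a * (2 * a + 1) ∨
          Nat.card (orbit (stabilizer G a₀) b) = (a + 1) * (2 * a + 1)) := by
  have hp2 := hp.out.two_le
  have : IsPretransitive G α := hG.toIsPretransitive
  -- a point outside the orbit of `a₀`
  obtain ⟨β, hβ⟩ : ∃ β : α, ∀ j : ZMod p, pw x j • a₀ ≠ β := by
    by_contra hcon
    push Not at hcon
    have h1 : (Finset.univ : Finset α) ⊆ Finset.univ.image (fun j : ZMod p => pw x j • a₀) := by
      intro b _
      obtain ⟨j, hj⟩ := hcon b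
      exact Finset.mem_image.mpr ⟨j, Finset.mem_univ _, hj⟩
    have h2 := Finset.card_le_card h1
    have h3 := Finset.card_image_le (s := (Finset.univ : Finset (ZMod p)))
      (f := fun j : ZMod p => pw x j • a₀)
    rw [Finset.card_univ, hα] at h2
    rw [Finset.card_univ, ZMod.card] at h3
    omega
  let c : Fin 2 → α := fun s => if s = 0 then a₀ else β
  let φ₀ : ZMod p × Fin 2 → α := fun q => pw x q.1 • c q.2
  have hsame : ∀ (i j : ZMod p) (w : α), pw x i • w = pw x j • w → i = j := by
    intro i j w h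
    by_contra hne
    have h1 : pw x j * pw x (i - j) = pw x i := by
      rw [← pw_add x hxo]
      congr 1
      ring
    rw [← h1, mul_smul] at h
    exact no_fix x hxo hfree (i - j) (sub_ne_zero.mpr hne) w (smul_left_cancel _ h)
  have hcross : ∀ i j : ZMod p, pw x i • a₀ ≠ pw x j • β := by
    intro i j h
    have h1 : pw x j * pw x (i - j) = pw x i := by
      rw [← pw_add x hxo]
      congr 1
      ring
    rw [← h1, mul_smul] at h
    exact hβ (i - j) (smul_left_cancel _ h)
  have hinj : Function.Injective φ₀ := by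
    rintro ⟨i, s⟩ ⟨j, t⟩ h
    simp only [φ₀, c] at h
    fin_cases s <;> fin_cases t <;> simp only [Fin.zero_eta, Fin.mk_one, Fin.isValue, if_true,
      one_ne_zero, if_false] at h
    · rw [hsame _ _ _ h]
    · exact absurd h (hcross _ _)
    · exact absurd h.symm (hcross _ _)
    · rw [hsame _ _ _ h]
  have hbij : Function.Bijective φ₀ := by
    rw [Fintype.bijective_iff_injective_and_card]
    refine ⟨hinj, ?_⟩
    rw [Fintype.card_prod, ZMod.card, Fintype.card_fin, hα, mul_comm]
  let φ : ZMod p × Fin 2 ≃ α := Equiv.ofBijective φ₀ hbij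
  have hx : ∀ (j : ZMod p) (s : Fin 2), x • φ (j, s) = φ (j + 1, s) := by
    intro j s
    show x • (pw x j • c s) = pw x (j + 1) • c s
    rw [add_comm j 1, pw_add x hxo, mul_smul, pw_one]
  exact Cfsg.Agent.Lib.Char.Wielandt2p.main φ x hx hG a₀

/-- Wielandt's Theorem on primitive groups of degree `2p`: such a group is doubly transitive, or it has rank 3, `p = 2a² + 2a + 1`, and subdegrees `a(2a+1)` and `(a+1)(2a+1)`. -/
theorem result {α : Type*} [Fintype α] [DecidableEq α] {p : ℕ} (hp : p.Prime) (hα : Fintype.card α = 2 * p) (G : Subgroup (Equiv.Perm α)) (hG : MulAction.IsPreprimitive G α) (a₀ : α) : MulAction.IsMultiplyPretransitive G α 2 ∨ (Nat.card (MulAction.orbitRel.Quotient (MulAction.stabilizer G a₀) α) = 3 ∧ ∃ a : ℕ, 0 < a ∧ p = 2 * a ^ 2 + 2 * a + 1 ∧ ∀ b : α, b ≠ a₀ → Nat.card (MulAction.orbit (MulAction.stabilizer G a₀) b) = a * (2 * a + 1) ∨ Nat.card (MulAction.orbit (MulAction.stabilizer G a₀) b) = (a + 1) * (2 * a + 1)) := by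
  classical
  have : Fact p.Prime := ⟨hp⟩
  let : Fintype G := Fintype.ofFinite _
  have : IsPretransitive G α := hG.toIsPretransitive
  have hpG : p ∣ Fintype.card G := by
    have h1 : MulAction.orbit G a₀ = Set.univ := orbit_eq_univ G a₀
    have h3 := card_orbit_mul_card_stabilizer_eq_card_group G a₀
    have h4 : Fintype.card (orbit G a₀) = 2 * p := by
      rw [← Nat.card_eq_fintype_card, h1, Nat.card_coe_set_eq, Set.ncard_univ,
        Nat.card_eq_fintype_card, hα]
    rw [← h3, h4]
    exact Dvd.dvd.mul_right (Dvd.intro_left 2 rfl) _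
  obtain ⟨x, hxo⟩ := exists_prime_orderOf_dvd_card p hpG
  by_cases hfix : ∃ y : α, (x : Equiv.Perm α) y = y
  · obtain ⟨y, hy⟩ := hfix
    exact Or.inl (of_fixed hp hα G hG x hxo y hy)
  · push Not at hfix
    exact of_free hα G hG a₀ x hxo hfix

end Cfsg.Agent.S0720
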