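import Cfsg.Statements.S0722
import Mathlib
-- import your own Cfsg.Agent.* helpers here

set_option autoImplicit false
open Cfsg

namespace Cfsg.Agent.S0722

open scoped Pointwise in
theorem mem_sup_aux {G : Type*} [Group G] (K X : Subgroup G)
    (h : K ≤ Subgroup.normalizer (X : Set G)) (g : G) (hg : g ∈ K ⊔ X) :
    ∃ k ∈ K, ∃ x ∈ X, k * x = g := by
  have hmul : (↑(K ⊔ X) : Set G) = (K : Set G) * (X : Set G) :=
    Subgroup.coe_mul_of_left_le_normalizer_right _ _ h
  have hg' : g ∈ (↑(K ⊔ X) : Set G) := hg
  rw [hmul] at hg'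
  exact Set.mem_mul.mp hg'

/-- In a primitive group `H`, with `N` a minimal normal subgroup and `K` a point stabiliser, `K ⊓ N` is maximal among proper `K`-invariant subgroups of `N`. -/
theorem result {α : Type*} [Finite α] (H : Subgroup (Equiv.Perm α)) [MulAction.IsPreprimitive H α] (N : Subgroup H) [N.Normal] (hN : N ≠ ⊥) (hmin : ∀ M : Subgroup H, M.Normal → M ≤ N → M = ⊥ ∨ M = N) (a : α) (X : Subgroup H) (hX : X ≤ N) (hKX : MulAction.stabilizer H a ⊓ N ≤ X) (hinv : MulAction.stabilizer H a ≤ Subgroup.normalizer (X : Set H)) : X = MulAction.stabilizer H a ⊓ N ∨ X = N := by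
  classical
  have hnt : Nontrivial α := by
    by_contra hcon
    rw [not_nontrivial_iff_subsingleton] at hcon
    apply hN
    rw [Subgroup.eq_bot_iff_forall]
    intro x _
    apply Subtype.ext
    apply Equiv.ext
    intro b
    exact Subsingleton.elim _ _
  have hc : IsCoatom (MulAction.stabilizer H a) :=
    MulAction.IsPreprimitive.isCoatom_stabilizer_of_isPreprimitive H a
  by_cases hXK : X ≤ MulAction.stabilizer H a
  · left
    exact le_antisymm (le_inf hXK hX) hKX
  · right
    have hsup : MulAction.stabilizer H a ⊔ X = ⊤ := by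
      apply hc.2
      apply lt_of_le_of_ne le_sup_left
      intro h
      exact hXK (h ▸ le_sup_right)
    refine le_antisymm hX ?_
    intro n hn
    have hn' : n ∈ MulAction.stabilizer H a ⊔ X := by
      rw [hsup]; simp
    obtain ⟨k, hk, x, hx, rfl⟩ := mem_sup_aux _ _ hinv n hn'
    have hkN : k ∈ N := by
      have := N.mul_mem hn (N.inv_mem (hX hx))
      simpa using this
    have hkX : k ∈ X := hKX ⟨hk, hkN⟩
    exact X.mul_mem hkX hx

end Cfsg.Agent.S0722
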