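import Cfsg.Statements.S0723
import Mathlib
import Cfsg.Agent.S0721
import Cfsg.Agent.S0722
import Cfsg.Agent.Lib.Perm.Basic
import Cfsg.Agent.Lib.Perm.OnanProd

set_option autoImplicit false
set_option linter.unusedSectionVars false
open Cfsg

namespace Cfsg.Agent.S0723

open Cfsg.Agent.Lib.Perm.OnanProd MulAction

section setup

variable {H : Type*} [Group H] {N : Subgroup H} [N.Normal] {T : Type*} [Group T] {m : ℕ}

/-- Conjugation by `h`, seen on the product. -/
noncomputable def conjP (e : N ≃* (Fin m → T)) (h : H) : (Fin m → T) ≃* (Fin m → T) :=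
  e.symm.trans ((MulAut.conjNormal h : MulAut N).trans e)

theorem conjP_apply (e : N ≃* (Fin m → T)) (h : H) (n : N) :
    conjP e h (e n) = e (MulAut.conjNormal h n) := by
  simp [conjP]

theorem conjP_mul (e : N ≃* (Fin m → T)) (h h' : H) :
    conjP e (h * h') = (conjP e h').trans (conjP e h) := by
  ext x i
  obtain ⟨n, rfl⟩ := e.surjective x
  rw [conjP_apply]
  simp [conjP_apply, map_mul]

theorem conjP_symm_apply (e : N ≃* (Fin m → T)) (h : H) (n : N) :
    (conjP e h).symm (e n) = e (MulAut.conjNormal h⁻¹ n) := by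
  rw [MulEquiv.symm_apply_eq, conjP_apply]
  congr 1
  rw [← MulEquiv.trans_apply]
  simp [← MulAut.mul_def]

/-- Conjugation by an element of `N` is coordinatewise. -/
theorem isCoord_conjP_mem (e : N ≃* (Fin m → T)) (n : N) :
    IsCoord (conjP e (n : H)) (1 : Equiv.Perm (Fin m)) (fun i => MulAut.conj (e n i)) := by
  intro x i
  obtain ⟨y, rfl⟩ := e.surjective x
  rw [conjP_apply]
  have : MulAut.conjNormal (n : H) y = n * y * n⁻¹ := by
    apply Subtype.ext
    simp [MulAut.conjNormal_apply]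
  rw [this]
  simp

end setup

section main

variable {α : Type*} [Finite α] (H : Subgroup (Equiv.Perm α)) [MulAction.IsPreprimitive H α]
  (N : Subgroup H) [N.Normal] {T : Type*} [Group T] [IsSimpleGroup T] {m : ℕ}
  (e : N ≃* (Fin m → T))

include e in
/-- `H` is transitive on the coordinates. -/
theorem coord_transitive (hT : CenterFree T)
    (hmin : ∀ M : Subgroup H, M.Normal → M ≤ N → M = ⊥ ∨ M = N) (i j : Fin m) :
    ∃ (h : H) (σ : Equiv.Perm (Fin m)) (φ : Fin m → T ≃* T), IsCoord (conjP e h) σ φ ∧ σ i = j := by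
  classical
  obtain ⟨t, ht⟩ := exists_ne (1 : T)
  let O : Set (Fin m) := {j | ∃ (h : H) (σ : Equiv.Perm (Fin m)) (φ : Fin m → T ≃* T),
    IsCoord (conjP e h) σ φ ∧ σ i = j}
  have hiO : i ∈ O := by
    refine ⟨1, 1, fun _ => MulEquiv.refl T, ?_, rfl⟩
    intro x l
    obtain ⟨y, rfl⟩ := e.surjective x
    rw [conjP_apply]
    simp
  let Y0 : Subgroup (Fin m → T) := {
    carrier := {x | ∀ j, j ∉ O → x j = 1}
    mul_mem' := by
      intro a b ha hb j hj
      simp [ha j hj, hb j hj]
    one_mem' := fun _ _ => rfl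
    inv_mem' := by
      intro a ha j hj
      simp [ha j hj] }
  have hY0 : ∀ x, x ∈ Y0 ↔ ∀ j, j ∉ O → x j = 1 := fun x => Iff.rfl
  let M : Subgroup H := (Y0.comap e.toMonoidHom).map N.subtype
  have hMmem : ∀ n : N, (n : H) ∈ M ↔ e n ∈ Y0 := by
    intro n
    constructor
    · rintro ⟨n', hn', hnn⟩
      have : n' = n := Subtype.ext hnn
      rw [← this]
      exact hn'
    · intro hn
      exact ⟨n, hn, rfl⟩
  have hMN : M ≤ N := by
    rintro _ ⟨n', _, rfl⟩
    exact n'.2
  have hMn : M.Normal := by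
    constructor
    rintro _ ⟨n, hn, rfl⟩ h
    have hc : h * (n : H) * h⁻¹ = ((MulAut.conjNormal h n : N) : H) := by
      simp [MulAut.conjNormal_apply]
    show h * (n : H) * h⁻¹ ∈ M
    rw [hc, hMmem, ← conjP_apply]
    obtain ⟨σ, φ, hc⟩ := exists_coord hT (conjP e h)
    intro l hl
    obtain ⟨l', rfl⟩ := σ.surjective l
    rw [hc]
    have hl' : l' ∉ O := by
      rintro ⟨h', σ', φ', hc', hσ'⟩
      apply hl
      refine ⟨h * h', σ'.trans σ, fun i => (φ' i).trans (φ (σ' i)), ?_, ?_⟩
      · rw [conjP_mul]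
        exact hc.comp hc'
      · simp [hσ']
    have := hn l' hl'
    change e n l' = 1 at this
    rw [this, map_one]
  have hMbot : M ≠ ⊥ := by
    intro hbot
    have h1 : ((e.symm (Pi.mulSingle i t) : N) : H) ∈ M := by
      rw [hMmem]
      intro l hl
      have hli : l ≠ i := fun hh => hl (hh ▸ hiO)
      simp [hli]
    rw [hbot, Subgroup.mem_bot] at h1
    have h2 : e.symm (Pi.mulSingle i t) = 1 := Subtype.ext h1
    rw [MulEquiv.symm_apply_eq, map_one] at h2
    have h3 := congrFun h2 i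
    simp only [Pi.mulSingle_eq_same, Pi.one_apply] at h3
    exact ht h3
  have hMtop : M = N := (hmin M hMn hMN).resolve_left hMbot
  by_contra hcon
  have hj : j ∉ O := by
    rintro ⟨h, σ, φ, hc, hσ⟩
    exact hcon ⟨h, σ, φ, hc, hσ⟩
  have h1 : ((e.symm (Pi.mulSingle j t) : N) : H) ∈ M := by
    rw [hMtop]
    exact (e.symm (Pi.mulSingle j t)).2
  rw [hMmem] at h1
  have h2 := h1 j hj
  simp only [MulEquiv.apply_symm_apply, Pi.mulSingle_eq_same] at h2
  exact ht h2

end main

/-- The O'Nan–Scott core. -/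
theorem result {α : Type*} [Finite α] (H : Subgroup (Equiv.Perm α)) [MulAction.IsPreprimitive H α] (N : Subgroup H) [N.Normal] (hN : N ≠ ⊥) (hmin : ∀ M : Subgroup H, M.Normal → M ≤ N → M = ⊥ ∨ M = N) (huniq : ∀ L : Subgroup H, L.Normal → L ≠ ⊥ → (∀ M : Subgroup H, M.Normal → M ≤ L → M = ⊥ ∨ M = L) → L = N) (hnab : ¬ IsMulCommutative N) (a : α) : ∃ (T : Type) (_ : Group T) (m : ℕ) (e : N ≃* (Fin m → T)), IsSimpleGroup T ∧ ¬ IsMulCommutative T ∧ 0 < m ∧ ((∃ K : Fin m → Subgroup T, (∀ i, K i ≠ ⊤) ∧ ∀ n : N, (n : H) ∈ MulAction.stabilizer H a ↔ ∀ i, e n i ∈ K i) ∨ (∃ (k : ℕ) (c : Fin m → Fin m), 2 ≤ k ∧ (∀ j : Fin m, Nat.card {i : Fin m // c i = j} = k ∨ Nat.card {i : Fin m // c i = j} = 0) ∧ ∀ n : N, (n : H) ∈ MulAction.stabilizer H a ↔ ∀ i j : Fin m, c i = c j → e n i = e n j)) := by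
  classical
  obtain ⟨T, instT, m, hsimple, hm, ⟨e⟩⟩ := Cfsg.Agent.S0721.result N hN hmin
  have hnab' : ∃ a b : T, a * b ≠ b * a := by
    by_contra hcon
    push Not at hcon
    apply hnab
    refine ⟨⟨fun x y => e.injective ?_⟩⟩
    funext i
    simp [hcon]
  have hcf : CenterFree T := centerFree_of_simple hnab'
  have hTnc : ¬ IsMulCommutative T := by
    rintro ⟨⟨hc⟩⟩
    obtain ⟨a, b, hab⟩ := hnab'
    exact hab (hc a b)
  let R : Subgroup (Fin m → T) := ((stabilizer H a).subgroupOf N).comap e.symm.toMonoidHom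
  have hR : ∀ n : N, e n ∈ R ↔ (n : H) ∈ stabilizer H a := by
    intro n
    simp [R, Subgroup.mem_subgroupOf]
  have hRinv : ∀ k ∈ stabilizer H a, ∀ x ∈ R, conjP e k x ∈ R := by
    intro k hk x hx
    obtain ⟨n, rfl⟩ := e.surjective x
    rw [conjP_apply, hR]
    rw [hR] at hx
    rw [MulAut.conjNormal_apply]
    exact (stabilizer H a).mul_mem ((stabilizer H a).mul_mem hk hx) ((stabilizer H a).inv_mem hk)
  have hRinv' : ∀ k ∈ stabilizer H a, ∀ x ∈ R, (conjP e k).symm x ∈ R := by
    intro k hk x hx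
    obtain ⟨n, rfl⟩ := e.surjective x
    rw [conjP_symm_apply, hR]
    rw [hR] at hx
    rw [MulAut.conjNormal_apply]
    exact (stabilizer H a).mul_mem ((stabilizer H a).mul_mem ((stabilizer H a).inv_mem hk) hx)
      (by simpa using hk)
  have hNtr : IsPretransitive N α := Cfsg.Agent.Lib.Perm.Basic.isPretransitive_of_normal_of_ne_bot N hN
  have htrans : ∀ i j, ∃ k ∈ stabilizer H a, ∃ (σ : Equiv.Perm (Fin m)) (φ : Fin m → T ≃* T),
      IsCoord (conjP e k) σ φ ∧ σ i = j := by
    intro i j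
    obtain ⟨h, σ, φ, hc, hσ⟩ := coord_transitive H N e hcf hmin i j
    obtain ⟨n, hn⟩ := exists_smul_eq N a (h • a)
    have hcomp := (isCoord_conjP_mem e n⁻¹).comp hc
    rw [← conjP_mul] at hcomp
    refine ⟨((n⁻¹ : N) : H) * h, ?_, _, _, hcomp, by simpa using hσ⟩
    rw [mem_stabilizer_iff, mul_smul, ← hn]
    change ((n⁻¹ : N) : H) • ((n : H) • a) = a
    rw [← mul_smul]
    simp
  by_cases hall : ∀ i t, ∃ r ∈ R, r i = t
  · -- the subdirect case
    obtain ⟨c, ψ, hc1, hc2, hc3⟩ := scott hnab' R hall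
    have hpres : ∀ i j, ∃ σ : Equiv.Perm (Fin m), σ i = j ∧ ∀ a b, Rel R a b → Rel R (σ a) (σ b) := by
      intro i j
      obtain ⟨k, hk, σ, φ, hc, hσ⟩ := htrans i j
      refine ⟨σ, hσ, ?_⟩
      intro x y hxy r hr
      have hr' := hRinv' k hk r hr
      have h1 := hxy _ hr'
      have hrw : ∀ l, r (σ l) = φ l ((conjP e k).symm r l) := by
        intro l
        rw [← hc]
        simp
      rw [hrw, hrw]
      simpa using h1
    have hcard : ∀ i j, Nat.card {l // Rel R l i} ≤ Nat.card {l // Rel R l j} := by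
      intro i j
      obtain ⟨σ, hσ, hp⟩ := hpres i j
      refine Nat.card_le_card_of_injective
        (fun l : {l // Rel R l i} => (⟨σ l.1, by rw [← hσ]; exact hp _ _ l.2⟩ : {l // Rel R l j})) ?_
      intro x y hxy
      have := congrArg Subtype.val hxy
      exact Subtype.ext (σ.injective this)
    let i₀ : Fin m := ⟨0, hm⟩
    have hkall : ∀ j, Nat.card {l // Rel R l j} = Nat.card {l // Rel R l i₀} :=
      fun j => le_antisymm (hcard _ _) (hcard _ _)
    have hfib : ∀ j, Nat.card {i // c i = j} = Nat.card {l // Rel R l i₀} ∨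
        Nat.card {i // c i = j} = 0 := by
      intro j
      by_cases hj : c j = j
      · left
        rw [← hkall j]
        apply Nat.card_congr
        apply Equiv.subtypeEquivRight
        intro l
        rw [← hc1, hj]
      · right
        rw [Nat.card_eq_zero]
        left
        refine ⟨fun x => hj ?_⟩
        obtain ⟨i, hi⟩ := x
        rw [← hi, hc2]
    have hk2 : 2 ≤ Nat.card {l // Rel R l i₀} := by
      by_contra hlt
      have hrel : ∀ i j, Rel R i j → i = j := by
        intro i j hij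
        have hfin : Nat.card {l // Rel R l j} ≤ 1 := by
          rw [hkall]
          omega
        have : Subsingleton {l // Rel R l j} := (Finite.card_le_one_iff_subsingleton).mp hfin
        exact congrArg Subtype.val
          (Subsingleton.elim (⟨i, hij⟩ : {l // Rel R l j}) ⟨j, rel_refl R j⟩)
      have hall' : ∀ x, x ∈ R := by
        intro x
        rw [hc3]
        intro i j hij
        have := hrel i j ((hc1 i j).mp hij)
        subst this
        rfl
      have hfix : ∀ b : α, b = a := by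
        intro b
        obtain ⟨g, hg⟩ := exists_smul_eq N a b
        have : (g : H) ∈ stabilizer H a := (hR g).mp (hall' _)
        rw [← hg]
        exact this
      apply hN
      rw [eq_bot_iff]
      intro n _
      rw [Subgroup.mem_bot]
      apply Subtype.ext
      apply Equiv.ext
      intro b
      rw [hfix ((n : Equiv.Perm α) b), hfix ((1 : H).1 b)]
    refine ⟨T, instT, m, e.trans (MulEquiv.piCongrRight ψ), hsimple, hTnc, hm, Or.inr
      ⟨_, c, hk2, hfib, ?_⟩⟩
    intro n
    rw [← hR, hc3]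
    rfl
  · -- the product case
    push Not at hall
    obtain ⟨i₀, t₀, h₀⟩ := hall
    let K : Fin m → Subgroup T := fun i => R.map (Pi.evalMonoidHom (fun _ => T) i)
    have hK : ∀ i t, t ∈ K i ↔ ∃ r ∈ R, r i = t := by
      intro i t
      simp [K, Subgroup.mem_map]
    let Y : Subgroup (Fin m → T) := Subgroup.pi Set.univ K
    let X : Subgroup H := (Y.comap e.toMonoidHom).map N.subtype
    have hXmem : ∀ n : N, (n : H) ∈ X ↔ ∀ i, e n i ∈ K i := by
      intro n
      constructor
      · rintro ⟨n', hn', hnn⟩ i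
        have : n' = n := Subtype.ext hnn
        rw [← this]
        exact hn' i (Set.mem_univ i)
      · intro hn
        exact ⟨n, fun i _ => hn i, rfl⟩
    have hXN : X ≤ N := by
      rintro _ ⟨n', _, rfl⟩
      exact n'.2
    have hKX : stabilizer H a ⊓ N ≤ X := by
      rintro g ⟨hg, hgN⟩
      have := (hXmem ⟨g, hgN⟩).mpr (fun i => (hK _ _).mpr ⟨_, (hR ⟨g, hgN⟩).mpr hg, rfl⟩)
      exact this
    have hnorm : ∀ k ∈ stabilizer H a, ∀ g ∈ X, k * g * k⁻¹ ∈ X := by
      intro k hk g hg
      have hgN : g ∈ N := hXN hg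
      have hn : ∀ i, e ⟨g, hgN⟩ i ∈ K i := (hXmem ⟨g, hgN⟩).mp hg
      have hcj : k * g * k⁻¹ = ((MulAut.conjNormal k (⟨g, hgN⟩ : N) : N) : H) := by
        simp [MulAut.conjNormal_apply]
      rw [hcj, hXmem, ← conjP_apply]
      obtain ⟨σ, φ, hc⟩ := exists_coord hcf (conjP e k)
      intro j
      obtain ⟨l, rfl⟩ := σ.surjective j
      rw [hc]
      obtain ⟨r, hr, hrl⟩ := (hK _ _).mp (hn l)
      rw [← hrl, ← hc]
      exact (hK _ _).mpr ⟨_, hRinv k hk r hr, rfl⟩
    have hinv : stabilizer H a ≤ Subgroup.normalizer (X : Set H) := by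
      intro k hk
      rw [Subgroup.mem_normalizer_iff]
      intro g
      refine ⟨hnorm k hk g, fun h => ?_⟩
      have := hnorm k⁻¹ ((stabilizer H a).inv_mem hk) _ h
      simpa [mul_assoc] using this
    have hne : X ≠ N := by
      intro hXtop
      have h1 : ((e.symm (Pi.mulSingle i₀ t₀) : N) : H) ∈ X := by
        rw [hXtop]
        exact (e.symm _).2
      rw [hXmem] at h1
      have h2 := h1 i₀
      simp only [MulEquiv.apply_symm_apply, Pi.mulSingle_eq_same] at h2
      obtain ⟨r, hr, hrt⟩ := (hK _ _).mp h2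
      exact h₀ r hr hrt
    have hX : X = stabilizer H a ⊓ N :=
      (Cfsg.Agent.S0722.result H N hN hmin a X hXN hKX hinv).resolve_right hne
    refine ⟨T, instT, m, e, hsimple, hTnc, hm, Or.inl ⟨K, ?_, ?_⟩⟩
    · intro j hj
      obtain ⟨k, hk, σ, φ, hc, hσ⟩ := htrans j i₀
      obtain ⟨u, hu⟩ := (φ j).surjective t₀
      have : u ∈ K j := by
        rw [hj]
        trivial
      obtain ⟨r, hr, rfl⟩ := (hK _ _).mp this
      apply h₀ (conjP e k r) (hRinv k hk r hr)
      rw [← hσ, hc, hu]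
    · intro n
      rw [← hXmem, hX]
      simp [n.2]

end Cfsg.Agent.S0723
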