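import Cfsg.Statements.S0724
import Mathlib

set_option autoImplicit false
open Cfsg

namespace Cfsg.Agent.S0724

open MulAction Finset Polynomial

variable {α : Type*} [Fintype α] [DecidableEq α] (G : Subgroup (Equiv.Perm α)) [Fintype G]

/-- The number of fixed points of an element of `G`. -/
noncomputable def fix {α : Type*} {G : Subgroup (Equiv.Perm α)} (g : G) : ℕ := Nat.card (fixedBy α (g : Equiv.Perm α))

/-- Burnside's lemma on tuples. -/
theorem card_dvd_sum_pow (i : ℕ) : (Nat.card G : ℤ) ∣ ∑ g : G, (fix g : ℤ) ^ i := by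
  classical
  have hfix : ∀ g : G, Nat.card (fixedBy (Fin i → α) g) = fix g ^ i := by
    intro g
    let e : fixedBy (Fin i → α) g ≃ (Fin i → fixedBy α (g : Equiv.Perm α)) :=
      { toFun := fun f j => ⟨f.1 j, by
          have := congrFun f.2 j
          exact this⟩
        invFun := fun f => ⟨fun j => (f j).1, by
          funext j
          exact (f j).2⟩
        left_inv := fun f => rfl
        right_inv := fun f => rfl }
    rw [Nat.card_congr e, Nat.card_fun, Nat.card_eq_fintype_card (α := Fin i), Fintype.card_fin]
    rfl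
  have hb := sum_card_fixedBy_eq_card_orbits_mul_card_group G (Fin i → α)
  have hb2 : ∑ g : G, (fix g) ^ i =
      Fintype.card (orbitRel.Quotient G (Fin i → α)) * Nat.card G := by
    rw [Nat.card_eq_fintype_card, ← hb]
    refine Finset.sum_congr rfl fun g _ => ?_
    rw [← hfix, Nat.card_eq_fintype_card]
  have hb3 : ∑ g : G, ((fix g : ℤ)) ^ i =
      ((Fintype.card (orbitRel.Quotient G (Fin i → α)) * Nat.card G : ℕ) : ℤ) := by
    rw [← hb2]
    push_cast
    rfl
  rw [hb3]
  push_cast
  exact Dvd.intro_left _ rfl

/-- Any integer polynomial in the number of fixed points sums to a multiple of the order. -/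
theorem card_dvd_sum_eval (P : ℤ[X]) : (Nat.card G : ℤ) ∣ ∑ g : G, P.eval (fix g : ℤ) := by
  induction P using Polynomial.induction_on' with
  | add p q hp hq =>
    simp only [eval_add, Finset.sum_add_distrib]
    exact dvd_add hp hq
  | monomial n a =>
    simp only [eval_monomial, ← Finset.mul_sum]
    exact Dvd.dvd.mul_left (card_dvd_sum_pow G n) a

/-- Blichfeldt's Theorem: if a finite set `L` of natural numbers contains the number of fixed points of every non-identity element of a permutation group `G` of degree `n`, then the order of `G` divides `∏ (n - l)` over `l ∈ L`. -/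
theorem result {α : Type*} [Fintype α] [DecidableEq α] (G : Subgroup (Equiv.Perm α)) (L : Finset ℕ) (hL : ∀ g ∈ G, g ≠ 1 → Nat.card (MulAction.fixedBy α g) ∈ L) : Nat.card G ∣ ∏ l ∈ L, (Fintype.card α - l) := by
  classical
  have : Fintype G := Fintype.ofFinite G
  by_cases hle : ∀ l ∈ L, l ≤ Fintype.card α
  · let F : ℤ[X] := ∏ l ∈ L, (X - C (l : ℤ))
    have hF : ∀ t : ℤ, F.eval t = ∏ l ∈ L, (t - l) := by
      intro t
      simp [F, eval_prod]
    have hsum := card_dvd_sum_eval G F
    have hzero : ∀ g : G, g ≠ 1 → F.eval (fix g : ℤ) = 0 := by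
      intro g hg
      rw [hF]
      apply Finset.prod_eq_zero (hL g g.2 (fun h => hg (Subtype.ext h)))
      simp [fix]
    have hone : fix (1 : G) = Fintype.card α := by
      simp only [fix, OneMemClass.coe_one]
      rw [fixedBy_one_eq_univ, Nat.card_coe_set_eq, Set.ncard_univ, Nat.card_eq_fintype_card]
    rw [Finset.sum_eq_single (1 : G) (fun g _ hg => hzero g hg) (by simp), hF, hone] at hsum
    have hcast : ((∏ l ∈ L, (Fintype.card α - l) : ℕ) : ℤ) = ∏ l ∈ L, ((Fintype.card α : ℤ) - l) := by
      push_cast
      refine Finset.prod_congr rfl fun l hl => ?_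
      rw [Nat.cast_sub (hle l hl)]
    rw [← hcast] at hsum
    exact Int.natCast_dvd_natCast.mp hsum
  · push Not at hle
    obtain ⟨l, hl, hlt⟩ := hle
    rw [Finset.prod_eq_zero hl (by omega)]
    exact dvd_zero _

end Cfsg.Agent.S0724
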