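import Cfsg.Statements.S0726
import Mathlib
-- import your own Cfsg.Agent.* helpers here

set_option autoImplicit false
open Cfsg

namespace Cfsg.Agent.S0726

/-- The left and right regular permutation representations of a group are each other's centralisers in the symmetric group: the centraliser of the left regular image is the right regular image, and a transitive subgroup centralising the left regular image is the whole right regular image. -/
theorem result {G : Type*} [Group G] : Subgroup.centralizer ((MulAction.toPermHom G G).range : Set (Equiv.Perm G)) = (MulAction.toPermHom Gᵐᵒᵖ G).range ∧ ∀ H : Subgroup (Equiv.Perm G), H ≤ Subgroup.centralizer ((MulAction.toPermHom G G).range : Set (Equiv.Perm G)) → MulAction.IsPretransitive H G → H = (MulAction.toPermHom Gᵐᵒᵖ G).range := by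
  have key : ∀ σ : Equiv.Perm G, σ ∈ Subgroup.centralizer ((MulAction.toPermHom G G).range : Set (Equiv.Perm G)) →
      ∀ x : G, σ x = x * σ 1 := by
    intro σ hσ x
    have h := (Subgroup.mem_centralizer_iff.mp hσ) (MulAction.toPermHom G G x) ⟨x, rfl⟩
    have h2 := congrArg (fun τ : Equiv.Perm G => τ 1) h
    simp only [Equiv.Perm.coe_mul, Function.comp_apply, MulAction.toPermHom_apply, MulAction.toPerm_apply, smul_eq_mul, mul_one] at h2
    exact h2.symm
  have h1 : Subgroup.centralizer ((MulAction.toPermHom G G).range : Set (Equiv.Perm G)) = (MulAction.toPermHom Gᵐᵒᵖ G).range := by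
    ext σ
    constructor
    · intro hσ
      refine ⟨MulOpposite.op (σ 1), ?_⟩
      ext x
      simp only [MulAction.toPermHom_apply, MulAction.toPerm_apply, MulOpposite.smul_eq_mul_unop, MulOpposite.unop_op]
      exact (key σ hσ x).symm
    · rintro ⟨a, rfl⟩
      rw [Subgroup.mem_centralizer_iff]
      rintro τ ⟨b, rfl⟩
      ext x
      simp only [Equiv.Perm.coe_mul, Function.comp_apply, MulAction.toPermHom_apply, MulAction.toPerm_apply, MulOpposite.smul_eq_mul_unop, smul_eq_mul, mul_assoc]
  refine ⟨h1, fun H hH htrans => ?_⟩
  apply le_antisymm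
  · rw [← h1]; exact hH
  · rintro σ ⟨a, rfl⟩
    obtain ⟨h, hh⟩ := htrans.exists_smul_eq (1 : G) (a.unop)
    have hh' : (h : Equiv.Perm G) 1 = a.unop := hh
    have : (h : Equiv.Perm G) = MulAction.toPermHom Gᵐᵒᵖ G a := by
      ext x
      rw [key _ (hH h.2) x, hh']
      simp [MulOpposite.smul_eq_mul_unop]
    rw [← this]
    exact h.2

end Cfsg.Agent.S0726
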