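import Cfsg.Statements.S0728
import Mathlib
import Cfsg.Agent.Lib.Perm.ZassSharpEven

set_option autoImplicit false
open Cfsg

namespace Cfsg.Agent.S0728

/-- In a sharply triply transitive group of even degree at least 6 (degree `q + 1`, `q` odd), a two-point stabiliser has at most one subgroup of order 3. -/
theorem result {α : Type*} [Fintype α] [DecidableEq α] (heven : Even (Fintype.card α)) (h6 : 6 ≤ Fintype.card α) (G : Subgroup (Equiv.Perm α)) (h3 : MulAction.IsMultiplyPretransitive G α 3) (hsharp : ∀ x : Fin 3 ↪ α, MulAction.stabilizer G x = ⊥) {a b : α} (hab : a ≠ b) (A B : Subgroup G) (hA : A ≤ MulAction.stabilizer G a ⊓ MulAction.stabilizer G b) (hB : B ≤ MulAction.stabilizer G a ⊓ MulAction.stabilizer G b) (hA3 : Nat.card A = 3) (hB3 : Nat.card B = 3) : A = B := by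
  classical
  have hS : Cfsg.Agent.Lib.Perm.ZassSharpEven.Sharp3 G α :=
    Cfsg.Agent.Lib.Perm.ZassSharpEven.sharp3_of h3 hsharp
  have hZ : Cfsg.IsZassenhausGroup G α :=
    Cfsg.Agent.Lib.Perm.ZassSharpEven.isZassenhaus hS heven h6
  obtain ⟨c, hc⟩ := Cfsg.Agent.Lib.Perm.ZassSharpEven.exists_notMem ({a, b} : Finset α) (by
    have := Finset.card_le_two (a := a) (b := b)
    omega)
  have hac : a ≠ c := fun h => hc (by simp [h])
  have hbc : b ≠ c := fun h => hc (by simp [h])
  set N := Cfsg.Agent.Lib.Perm.ZassSharpEven.N₀ hZ a b with hN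
  have hidx : (N.subgroupOf (MulAction.stabilizer G a ⊓ MulAction.stabilizer G b)).index = 2 :=
    Cfsg.Agent.Lib.Perm.ZassSharpEven.relIndex_N₀ hZ hS heven hab hac hbc
  -- elements of order dividing 3 lie in `N`
  have hmem : ∀ x : G, x ∈ MulAction.stabilizer G a ⊓ MulAction.stabilizer G b → x ^ 3 = 1 → x ∈ N := by
    intro x hx hx3
    have h1 := Subgroup.mul_self_mem_of_index_two hidx
      (⟨x, hx⟩ : ↥(MulAction.stabilizer G a ⊓ MulAction.stabilizer G b))
    rw [Subgroup.mem_subgroupOf] at h1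
    have h2 : (x * x) ∈ N := h1
    have h3' : x = (x * x) * (x * x) := by
      have : (x * x) * (x * x) = x ^ 3 * x := by simp only [pow_succ, pow_zero, one_mul, mul_assoc]
      rw [this, hx3, one_mul]
    rw [h3']
    exact N.mul_mem h2 h2
  have hcube : ∀ (A : Subgroup G), Nat.card A = 3 → ∀ x ∈ A, x ^ 3 = 1 := by
    intro A hA x hx
    have h1 : (⟨x, hx⟩ : A) ^ Nat.card A = 1 := pow_card_eq_one'
    rw [hA] at h1
    exact congrArg Subtype.val h1
  haveI hcyc := Cfsg.Agent.Lib.Perm.ZassSharpEven.N₀_cyclic hZ a b hab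
  -- the solutions of `x ^ 3 = 1` in `N`
  let Sol : Finset N := Finset.univ.filter fun x : N => x ^ 3 = 1
  have hSol : Sol.card ≤ 3 := IsCyclic.card_pow_eq_one_le (by norm_num)
  have hAll : ∀ (A : Subgroup G), A ≤ MulAction.stabilizer G a ⊓ MulAction.stabilizer G b →
      Nat.card A = 3 → ∀ x : G, (x ∈ A ↔ ∃ h : x ∈ N, (⟨x, h⟩ : N) ∈ Sol) := by
    intro A hA hA3
    classical
    have hAN : ∀ x ∈ A, x ∈ N := fun x hx => hmem x (hA hx) (hcube A hA3 x hx)
    -- the image of `A` in `Sol` is everything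
    let T : Finset N := Finset.univ.filter fun x : N => (x : G) ∈ A
    have hT : T ⊆ Sol := by
      intro x hx
      simp only [T, Finset.mem_filter, Finset.mem_univ, true_and] at hx
      simp only [Sol, Finset.mem_filter, Finset.mem_univ, true_and]
      exact Subtype.ext (hcube A hA3 _ hx)
    have hTcard : T.card = 3 := by
      have h1 : Nat.card A = T.card := by
        rw [← Nat.card_eq_finsetCard]
        refine Nat.card_congr ⟨fun x => ⟨⟨x, hAN x x.2⟩, by simp [T]⟩,
          fun x => ⟨((x : N) : G), (Finset.mem_filter.mp x.2).2⟩, fun x => rfl, fun x => rfl⟩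
      omega
    have hTS : T = Sol := Finset.eq_of_subset_of_card_le hT (by omega)
    intro x
    constructor
    · intro hx
      refine ⟨hAN x hx, ?_⟩
      rw [← hTS]
      simp [T, hx]
    · rintro ⟨h, hx⟩
      rw [← hTS] at hx
      simpa [T] using hx
  ext x
  rw [hAll A hA hA3 x, hAll B hB hB3 x]

end Cfsg.Agent.S0728
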