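import Cfsg.Statements.S0733
import Mathlib

set_option autoImplicit false
open Cfsg

namespace Cfsg.Agent.S0733

open MulAction
open scoped Pointwise

/-- A permutation group of affine type — generated by the translations of a finite vector space `V` over `ZMod p` together with a group `G₀` of linear automorphisms — is primitive on `V` if and only if `G₀` is irreducible on `V`. -/
theorem result {p : ℕ} [Fact p.Prime] {V : Type*} [AddCommGroup V] [Module (ZMod p) V] [Finite V] [Nontrivial V] (G₀ : Subgroup (V ≃ₗ[ZMod p] V)) (G : Subgroup (Equiv.Perm V)) (hG : ∀ σ : Equiv.Perm V, σ ∈ G ↔ ∃ g ∈ G₀, ∃ b : V, ∀ x : V, σ x = (g : V ≃ₗ[ZMod p] V) x + b) : MulAction.IsPreprimitive G V ↔ ∀ W : Submodule (ZMod p) V, (∀ g ∈ G₀, ∀ v ∈ W, (g : V ≃ₗ[ZMod p] V) v ∈ W) → W = ⊥ ∨ W = ⊤ := by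
  classical
  have htau : ∀ b : V, Equiv.addRight b ∈ G := fun b =>
    (hG _).mpr ⟨1, G₀.one_mem, b, fun x => by simp⟩
  have hlin : ∀ g ∈ G₀, (g : V ≃ₗ[ZMod p] V).toEquiv ∈ G := fun g hg =>
    (hG _).mpr ⟨g, hg, 0, fun x => by simp⟩
  let tau : V → G := fun b => ⟨Equiv.addRight b, htau b⟩
  have htauapp : ∀ b x : V, tau b • x = x + b := fun _ _ => rfl
  constructor
  · intro hprim W hW
    have hblock : IsBlock G (W : Set V) := by
      rw [isBlock_iff_smul_eq_of_mem]
      intro σ a ha hσa
      obtain ⟨g, hg, b, hσ⟩ := (hG _).mp σ.2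
      have hσapp : ∀ x : V, σ • x = g x + b := hσ
      rw [hσapp] at hσa
      have hb : b ∈ W := by
        have := W.sub_mem hσa (hW g hg a ha)
        simpa using this
      ext y
      rw [Set.mem_smul_set]
      constructor
      · rintro ⟨x, hx, rfl⟩
        rw [hσapp]
        exact W.add_mem (hW g hg x hx) hb
      · intro hy
        refine ⟨g⁻¹ (y - b), hW g⁻¹ (G₀.inv_mem hg) _ (W.sub_mem hy hb), ?_⟩
        rw [hσapp]
        have : g (g⁻¹ (y - b)) = y - b := LinearEquiv.apply_symm_apply g (y - b)
        rw [this]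
        abel
    rcases hprim.isTrivialBlock_of_isBlock hblock with h | h
    · left
      rw [eq_bot_iff]
      intro v hv
      rw [Submodule.mem_bot]
      exact h hv W.zero_mem
    · right
      rw [eq_top_iff]
      intro v _
      have : v ∈ (W : Set V) := by rw [h]; trivial
      exact this
  · intro hirr
    have htrans : IsPretransitive G V := ⟨fun x y => ⟨tau (y - x), by rw [htauapp]; abel⟩⟩
    refine { toIsPretransitive := htrans, isTrivialBlock_of_isBlock := ?_ }
    intro B hB
    rcases B.eq_empty_or_nonempty with hemp | ⟨a, ha⟩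
    · left
      rw [hemp]
      exact Set.subsingleton_empty
    -- translate to `0`
    set C : Set V := tau (-a) • B with hC
    have hCb : IsBlock G C := hB.translate _
    have hCb' := isBlock_iff_smul_eq_of_mem.mp hCb
    have h0 : (0 : V) ∈ C := ⟨a, ha, by
      change tau (-a) • a = 0
      rw [htauapp]; abel⟩
    have hadd : ∀ v ∈ C, tau v • C = C := by
      intro v hv
      exact hCb' h0 (by rw [htauapp, zero_add]; exact hv)
    have hCadd : ∀ u ∈ C, ∀ v ∈ C, u + v ∈ C := by
      intro u hu v hv
      rw [← hadd v hv]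
      exact ⟨u, hu, rfl⟩
    have hCneg : ∀ v ∈ C, -v ∈ C := by
      intro v hv
      have h1 : (0 : V) ∈ tau v • C := by rw [hadd v hv]; exact h0
      obtain ⟨u, hu, huv⟩ := h1
      have huv' : tau v • u = 0 := huv
      rw [htauapp] at huv'
      have : u = -v := eq_neg_of_add_eq_zero_left huv'
      rwa [← this]
    let A : AddSubgroup V :=
      { carrier := C
        add_mem' := fun {u v} hu hv => hCadd u hu v hv
        zero_mem' := h0
        neg_mem' := fun {v} hv => hCneg v hv }
    let W : Submodule (ZMod p) V := AddSubgroup.toZModSubmodule p A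
    have hWmem : ∀ v, v ∈ W ↔ v ∈ C := fun v => Iff.rfl
    have hWinv : ∀ g ∈ G₀, ∀ v ∈ W, (g : V ≃ₗ[ZMod p] V) v ∈ W := by
      intro g hg v hv
      rw [hWmem] at hv ⊢
      let γ : G := ⟨(g : V ≃ₗ[ZMod p] V).toEquiv, hlin g hg⟩
      have hγ : γ • C = C := by
        apply hCb' h0
        have : γ • (0 : V) = g 0 := rfl
        rw [this, map_zero]
        exact h0
      rw [← hγ]
      exact ⟨v, hv, rfl⟩
    rcases hirr W hWinv with h | h
    · left
      intro x hx y hy
      have h1 : tau (-a) • x ∈ C := ⟨x, hx, rfl⟩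
      have h2 : tau (-a) • y ∈ C := ⟨y, hy, rfl⟩
      rw [← hWmem, h, Submodule.mem_bot] at h1 h2
      exact MulAction.injective (tau (-a)) (h1.trans h2.symm)
    · right
      rw [Set.eq_univ_iff_forall]
      intro x
      have h1 : tau (-a) • x ∈ C := by
        rw [← hWmem, h]; trivial
      obtain ⟨y, hy, hyx⟩ := h1
      rwa [← MulAction.injective (tau (-a)) hyx]

end Cfsg.Agent.S0733
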