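import Cfsg.Statements.S0734
import Mathlib

set_option autoImplicit false
open Cfsg
open scoped Pointwise

namespace Cfsg.Agent.S0734

/-- Higman's criterion for primitivity: a transitive action on a finite set is primitive if and only if every non-trivial orbital graph (edges = images of a fixed pair of distinct points) is connected. -/
theorem result {G : Type*} [Group G] {Ω : Type*} [Finite Ω] [MulAction G Ω] [MulAction.IsPretransitive G Ω] [Nontrivial Ω] : MulAction.IsPreprimitive G Ω ↔ ∀ a b : Ω, a ≠ b → (SimpleGraph.fromRel fun x y : Ω => ∃ g : G, g • a = x ∧ g • b = y).Connected := by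
  constructor
  · intro hprim a b hab
    set Γ := SimpleGraph.fromRel fun x y : Ω => ∃ g : G, g • a = x ∧ g • b = y with hΓ
    have hadj : ∀ (g : G) (x y : Ω), Γ.Adj x y → Γ.Adj (g • x) (g • y) := by
      intro g x y hxy
      rw [hΓ, SimpleGraph.fromRel_adj] at hxy ⊢
      obtain ⟨hne, h⟩ := hxy
      refine ⟨fun h' => hne (MulAction.injective g h'), ?_⟩
      rcases h with ⟨k, hk1, hk2⟩ | ⟨k, hk1, hk2⟩
      · left
        exact ⟨g * k, by rw [mul_smul, hk1], by rw [mul_smul, hk2]⟩
      · right
        exact ⟨g * k, by rw [mul_smul, hk1], by rw [mul_smul, hk2]⟩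
    have hreach : ∀ (g : G) (x y : Ω), Γ.Reachable x y → Γ.Reachable (g • x) (g • y) := by
      intro g x y hxy
      obtain ⟨w⟩ := hxy
      induction w with
      | nil => exact SimpleGraph.Reachable.refl _
      | cons h _ ih => exact (hadj g _ _ h).reachable.trans ih
    set B : Set Ω := {x | Γ.Reachable a x} with hB
    have hBblock : MulAction.IsBlock G B := by
      rw [MulAction.isBlock_iff_smul_eq_of_nonempty]
      intro g hne
      obtain ⟨z, hz1, hz2⟩ := hne
      obtain ⟨x, hx, hxz⟩ := hz1
      have hxz' : g • x = z := hxz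
      have hga : Γ.Reachable (g • a) a := by
        have h1 : Γ.Reachable (g • a) z := by
          rw [← hxz']; exact hreach g _ _ hx
        have h2 : Γ.Reachable a z := hz2
        exact h1.trans h2.symm
      ext y
      constructor
      · rintro ⟨x', hx', rfl⟩
        have h3 : Γ.Reachable (g • a) (g • x') := hreach g _ _ hx'
        exact hga.symm.trans h3
      · intro hy
        have hy' : Γ.Reachable a y := hy
        refine ⟨g⁻¹ • y, ?_, by simp⟩
        have h4 : Γ.Reachable (g⁻¹ • g • a) (g⁻¹ • y) :=
          hreach g⁻¹ _ _ (hga.trans hy')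
        have h5 : Γ.Reachable a (g⁻¹ • y) := by simpa using h4
        exact h5
    have hab' : Γ.Adj a b := by
      rw [hΓ, SimpleGraph.fromRel_adj]
      exact ⟨hab, Or.inl ⟨1, by simp, by simp⟩⟩
    have haB : a ∈ B := SimpleGraph.Reachable.refl _
    have hbB : b ∈ B := hab'.reachable
    rcases hprim.isTrivialBlock_of_isBlock hBblock with hsub | huniv
    · exact absurd (hsub haB hbB) hab
    · have : Nonempty Ω := ⟨a⟩
      refine ⟨fun x y => ?_⟩
      have hx : x ∈ B := by rw [huniv]; trivial
      have hy : y ∈ B := by rw [huniv]; trivial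
      have hx' : Γ.Reachable a x := hx
      have hy' : Γ.Reachable a y := hy
      exact hx'.symm.trans hy'
  · intro h
    refine { isTrivialBlock_of_isBlock := ?_ }
    intro B hB
    by_cases hs : B.Subsingleton
    · exact Or.inl hs
    · right
      rw [Set.not_subsingleton_iff] at hs
      obtain ⟨a, ha, b, hb, hab⟩ := hs
      have hconn := h a b hab
      have hstep : ∀ x y : Ω, x ∈ B →
          (SimpleGraph.fromRel fun x y : Ω => ∃ g : G, g • a = x ∧ g • b = y).Adj x y → y ∈ B := by
        intro x y hx hxy
        rw [SimpleGraph.fromRel_adj] at hxy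
        obtain ⟨_, hor⟩ := hxy
        have hBb := MulAction.isBlock_iff_smul_eq_of_mem.mp hB
        rcases hor with ⟨g, hg1, hg2⟩ | ⟨g, hg1, hg2⟩
        · have : g • B = B := hBb ha (by rw [hg1]; exact hx)
          rw [← this, ← hg2]
          exact ⟨b, hb, rfl⟩
        · have : g • B = B := hBb hb (by rw [hg2]; exact hx)
          rw [← this, ← hg1]
          exact ⟨a, ha, rfl⟩
      rw [Set.eq_univ_iff_forall]
      intro x
      obtain ⟨w⟩ := hconn.preconnected a x
      have : ∀ (u v : Ω) (w : (SimpleGraph.fromRel fun x y : Ω => ∃ g : G, g • a = x ∧ g • b = y).Walk u v), u ∈ B → v ∈ B := by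
        intro u v w
        induction w with
        | nil => exact id
        | cons hadj _ ih => exact fun hu => ih (hstep _ _ hu hadj)
      exact this a x w ha

end Cfsg.Agent.S0734
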