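import Cfsg.Statements.S0735
import Mathlib
-- import your own Cfsg.Agent.* helpers here

set_option autoImplicit false
open Cfsg

namespace Cfsg.Agent.S0735

open MulAction
open scoped Pointwise

/-- A 2-homogeneous permutation group (transitive on 2-subsets) of even order is doubly transitive; a non-trivial 2-homogeneous group is primitive. -/
theorem result {α : Type*} [Fintype α] [DecidableEq α] (G : Subgroup (Equiv.Perm α)) (h2 : MulAction.IsPretransitive G (Set.powersetCard α 2)) (hα : 3 ≤ Fintype.card α) : (Even (Nat.card G) → MulAction.IsMultiplyPretransitive G α 2) ∧ (G ≠ ⊥ → MulAction.IsPreprimitive G α) := by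
  classical
  have hpair : ∀ a b c d : α, a ≠ b → c ≠ d →
      ∃ g : G, (g • a = c ∧ g • b = d) ∨ (g • a = d ∧ g • b = c) := by
    intro a b c d hab hcd
    let s : Set.powersetCard α 2 := ⟨{a, b}, Finset.card_pair hab⟩
    let t : Set.powersetCard α 2 := ⟨{c, d}, Finset.card_pair hcd⟩
    obtain ⟨g, hg⟩ := h2.exists_smul_eq s t
    have hg' : g • ({a, b} : Finset α) = {c, d} := by
      have := congrArg (fun x : Set.powersetCard α 2 => (x : Finset α)) hg
      exact (Set.powersetCard.coe_smul (g := g) (s := s)).symm.trans this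
    have ha : g • a ∈ ({c, d} : Finset α) := by
      rw [← hg']
      exact Finset.smul_mem_smul_finset (by simp)
    have hb : g • b ∈ ({c, d} : Finset α) := by
      rw [← hg']
      exact Finset.smul_mem_smul_finset (by simp)
    simp only [Finset.mem_insert, Finset.mem_singleton] at ha hb
    refine ⟨g, ?_⟩
    have hne : g • a ≠ g • b := fun h => hab (smul_left_cancel g h)
    rcases ha with ha | ha <;> rcases hb with hb | hb
    · exact absurd (ha.trans hb.symm) hne
    · exact Or.inl ⟨ha, hb⟩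
    · exact Or.inr ⟨ha, hb⟩
    · exact absurd (ha.trans hb.symm) hne
  have hthird : ∀ a b : α, ∃ c : α, c ≠ a ∧ c ≠ b := by
    intro a b
    have h3 : 2 < Fintype.card α := by omega
    have : (({a, b} : Finset α)).card < Fintype.card α :=
      lt_of_le_of_lt (Finset.card_le_two) h3
    obtain ⟨c, hc⟩ := Finset.exists_mem_notMem_of_card_lt_card (s := {a, b}) (t := Finset.univ)
      (by simpa using this)
    simp only [Finset.mem_insert, Finset.mem_singleton, not_or] at hc
    exact ⟨c, hc.2.1, hc.2.2⟩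
  constructor
  · intro heven
    have h2dvd : 2 ∣ Nat.card G := heven.two_dvd
    obtain ⟨τ, hτ⟩ := exists_prime_orderOf_dvd_card' (G := G) 2 h2dvd
    have hτ2 : τ * τ = 1 := by
      rw [← pow_two, ← hτ]
      exact pow_orderOf_eq_one τ
    have hτ1 : τ ≠ 1 := by
      rintro rfl
      simp at hτ
    obtain ⟨a, ha⟩ : ∃ a : α, τ • a ≠ a := by
      by_contra hcon
      push Not at hcon
      apply hτ1
      apply Subtype.ext
      ext x
      exact hcon x
    have hττ : τ • τ • a = a := by
      rw [← mul_smul, hτ2, one_smul]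
    have hswap : ∀ c d : α, c ≠ d → ∃ s : G, s • c = d ∧ s • d = c := by
      intro c d hcd
      obtain ⟨g, hg⟩ := hpair a (τ • a) c d ha.symm hcd
      refine ⟨g * τ * g⁻¹, ?_⟩
      rcases hg with ⟨h1, h3⟩ | ⟨h1, h3⟩
      · constructor
        · rw [← h1, mul_smul, mul_smul, inv_smul_smul, h3]
        · rw [← h3, mul_smul, mul_smul, inv_smul_smul, hττ, h1]
      · constructor
        · rw [← h3, mul_smul, mul_smul, inv_smul_smul, hττ, h1]
        · rw [← h1, mul_smul, mul_smul, inv_smul_smul, h3]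
    rw [is_two_pretransitive_iff]
    intro a b c d hab hcd
    obtain ⟨g, hg⟩ := hpair a b c d hab hcd
    rcases hg with hg | ⟨h1, h3⟩
    · exact ⟨g, hg⟩
    · obtain ⟨s, hs1, hs2⟩ := hswap c d hcd
      refine ⟨s * g, ?_, ?_⟩
      · rw [mul_smul, h1, hs2]
      · rw [mul_smul, h3, hs1]
  · intro _
    have htrans : IsPretransitive G α := by
      refine ⟨fun a b => ?_⟩
      by_cases hab : a = b
      · exact ⟨1, by rw [hab, one_smul]⟩
      obtain ⟨c, hca, hcb⟩ := hthird a b
      obtain ⟨g, hg⟩ := hpair a c b c (Ne.symm hca) (Ne.symm hcb)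
      rcases hg with ⟨h1, -⟩ | ⟨h1, h3⟩
      · exact ⟨g, h1⟩
      · exact ⟨g * g, by rw [mul_smul, h1, h3]⟩
    refine { toIsPretransitive := htrans, isTrivialBlock_of_isBlock := ?_ }
    intro B hB
    by_contra hcon
    simp only [IsTrivialBlock, not_or] at hcon
    obtain ⟨hns, hnu⟩ := hcon
    obtain ⟨a, ha, b, hb, hab⟩ := Set.not_subsingleton_iff.mp hns
    obtain ⟨c, hc⟩ := (Set.ne_univ_iff_exists_notMem B).mp hnu
    have hac : a ≠ c := fun h => hc (h ▸ ha)
    obtain ⟨g, hg⟩ := hpair a b a c hab hac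
    have hgB : g • B = B := by
      apply (hB.smul_eq_or_disjoint g).resolve_right
      rw [Set.not_disjoint_iff]
      rcases hg with ⟨h1, -⟩ | ⟨-, h3⟩
      · exact ⟨a, ⟨a, ha, h1⟩, ha⟩
      · exact ⟨a, ⟨b, hb, h3⟩, ha⟩
    apply hc
    rw [← hgB]
    rcases hg with ⟨-, h3⟩ | ⟨h1, -⟩
    · exact ⟨b, hb, h3⟩
    · exact ⟨a, ha, h1⟩

end Cfsg.Agent.S0735
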