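import Cfsg.Statements.S0736
import Mathlib
-- import your own Cfsg.Agent.* helpers here

set_option autoImplicit false
open Cfsg

namespace Cfsg.Agent.S0736

open scoped Pointwise

variable {α : Type*} [Fintype α] [DecidableEq α]

lemma aux_sub (p A : ℕ) (hp : 1 ≤ p) (hA : 1 ≤ A) : p * A - 1 = (p - 1) + p * (A - 1) := by
  obtain ⟨p', rfl⟩ : ∃ p', p = p' + 1 := ⟨p - 1, by omega⟩
  obtain ⟨B, rfl⟩ : ∃ B, A = B + 1 := ⟨A - 1, by omega⟩
  have : (p' + 1) * (B + 1) = p' + (p' + 1) * B + 1 := by ring
  rw [this]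
  simp

lemma choose_pred (k : ℕ) (hk : 1 ≤ k) : k.choose (k - 1) = k := by
  obtain ⟨j, rfl⟩ : ∃ j, k = j + 1 := ⟨k - 1, by omega⟩
  simp

lemma choose_modEq_one (p : ℕ) [hp : Fact p.Prime] (m e : ℕ) :
    Nat.choose (p ^ e * m + p ^ e - 1) (p ^ e - 1) ≡ 1 [MOD p] := by
  induction e with
  | zero => simp [Nat.ModEq]
  | succ e ih =>
    have hp1 : 1 ≤ p := hp.out.one_le
    have hpe : 1 ≤ p ^ e := Nat.one_le_pow _ _ hp.out.pos
    have hn : p ^ (e + 1) * m + p ^ (e + 1) - 1 = (p - 1) + p * (p ^ e * m + p ^ e - 1) := by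
      have : p ^ (e + 1) * m + p ^ (e + 1) = p * (p ^ e * m + p ^ e) := by ring
      rw [this]
      exact aux_sub p _ hp1 (by omega)
    have hk : p ^ (e + 1) - 1 = (p - 1) + p * (p ^ e - 1) := by
      have : p ^ (e + 1) = p * p ^ e := pow_succ' p e
      rw [this]
      exact aux_sub p _ hp1 hpe
    have hlt : p - 1 < p := by omega
    have h := Choose.choose_modEq_choose_mod_mul_choose_div_nat (n := p ^ (e + 1) * m + p ^ (e + 1) - 1)
      (k := p ^ (e + 1) - 1) (p := p)
    rw [hn, hk] at h ⊢
    have e1 : ((p - 1) + p * (p ^ e * m + p ^ e - 1)) % p = p - 1 := by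
      rw [Nat.add_mul_mod_self_left, Nat.mod_eq_of_lt hlt]
    have e2 : ((p - 1) + p * (p ^ e - 1)) % p = p - 1 := by
      rw [Nat.add_mul_mod_self_left, Nat.mod_eq_of_lt hlt]
    have e3 : ((p - 1) + p * (p ^ e * m + p ^ e - 1)) / p = p ^ e * m + p ^ e - 1 := by
      rw [Nat.add_mul_div_left _ _ hp.out.pos, Nat.div_eq_of_lt hlt, zero_add]
    have e4 : ((p - 1) + p * (p ^ e - 1)) / p = p ^ e - 1 := by
      rw [Nat.add_mul_div_left _ _ hp.out.pos, Nat.div_eq_of_lt hlt, zero_add]
    rw [e1, e2, e3, e4, Nat.choose_self, one_mul] at h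
    exact h.trans ih

/-- Supersets of `T` of size `|T|+1` inside `D` correspond to points of `D \ T`. -/
lemma card_supersets (D T : Finset α) (k : ℕ) (hT : T ⊆ D) (hk : T.card + 1 = k) :
    ((D.powersetCard k).filter (fun S => T ⊆ S)).card = (D \ T).card := by
  have himg : (D.powersetCard k).filter (fun S => T ⊆ S) = (D \ T).image (fun x => insert x T) := by
    ext S
    simp only [Finset.mem_filter, Finset.mem_powersetCard, Finset.mem_image, Finset.mem_sdiff]
    constructor
    · rintro ⟨⟨hSD, hSk⟩, hTS⟩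
      have hc : (S \ T).card = 1 := by
        rw [Finset.card_sdiff_of_subset hTS]
        omega
      obtain ⟨x, hx⟩ := Finset.card_eq_one.mp hc
      have hxm : x ∈ S \ T := by rw [hx]; exact Finset.mem_singleton_self x
      have hxS := (Finset.mem_sdiff.mp hxm).1
      have hxT := (Finset.mem_sdiff.mp hxm).2
      refine ⟨x, ⟨hSD hxS, hxT⟩, ?_⟩
      ext y
      simp only [Finset.mem_insert]
      constructor
      · rintro (rfl | hy)
        · exact hxS
        · exact hTS hy
      · intro hy
        by_cases hyT : y ∈ T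
        · exact Or.inr hyT
        · left
          have : y ∈ S \ T := Finset.mem_sdiff.mpr ⟨hy, hyT⟩
          rw [hx] at this
          exact Finset.mem_singleton.mp this
    · rintro ⟨x, ⟨hxD, hxT⟩, rfl⟩
      refine ⟨⟨?_, ?_⟩, Finset.subset_insert _ _⟩
      · exact Finset.insert_subset hxD hT
      · rw [Finset.card_insert_of_notMem hxT, hk]
  rw [himg, Finset.card_image_of_injOn]
  intro x hx y hy hxy
  have hxT : x ∉ T := (Finset.mem_sdiff.mp (Finset.mem_coe.mp hx)).2
  have hx' : x ∈ insert y T := by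
    have : x ∈ insert x T := Finset.mem_insert_self _ _
    simpa only [hxy] using this
  rcases Finset.mem_insert.mp hx' with h | h
  · exact h
  · exact (hxT h).elim

lemma double_count (O : Finset α → Prop) [DecidablePred O] (D : Finset α) (k q : ℕ) (hk : 1 ≤ k)
    (hD : D.card = k + q - 1) (hq : 1 ≤ q) :
    ∑ S ∈ D.powersetCard k, ((S.powersetCard (k - 1)).filter O).card =
      ((D.powersetCard (k - 1)).filter O).card * q := by
  have h := Finset.sum_card_bipartiteAbove_eq_sum_card_bipartiteBelow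
    (s := D.powersetCard k) (t := (D.powersetCard (k - 1)).filter O) (fun S T => T ⊆ S)
  have h1 : ∀ S ∈ D.powersetCard k,
      ((((D.powersetCard (k - 1)).filter O).bipartiteAbove (fun S T => T ⊆ S) S)).card =
        ((S.powersetCard (k - 1)).filter O).card := by
    intro S hS
    congr 1
    ext T
    simp only [Finset.bipartiteAbove, Finset.mem_filter, Finset.mem_powersetCard] at hS ⊢
    constructor
    · rintro ⟨⟨⟨_, h2⟩, h3⟩, h4⟩
      exact ⟨⟨h4, h2⟩, h3⟩
    · rintro ⟨⟨h4, h2⟩, h3⟩
      exact ⟨⟨⟨h4.trans hS.1, h2⟩, h3⟩, h4⟩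
  have h2 : ∀ T ∈ (D.powersetCard (k - 1)).filter O,
      ((D.powersetCard k).bipartiteBelow (fun S T => T ⊆ S) T).card = q := by
    intro T hT
    simp only [Finset.mem_filter, Finset.mem_powersetCard] at hT
    have := card_supersets D T k hT.1.1 (by omega)
    simp only [Finset.bipartiteBelow]
    rw [this, Finset.card_sdiff_of_subset hT.1.1]
    omega
  rw [Finset.sum_congr rfl h1] at h
  rw [h, Finset.sum_congr rfl h2, Finset.sum_const, smul_eq_mul]

lemma key (G : Subgroup (Equiv.Perm α)) {k : ℕ} (hk : 2 ≤ k)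
    (hG : MulAction.IsPretransitive G (Set.powersetCard α k))
    (hq : ∀ q : ℕ, IsPrimePow q → q ∣ k → k + q - 1 ≤ Fintype.card α)
    (O : Finset α → Prop) [DecidablePred O] (hO : ∀ (g : G) (T : Finset α), O (g • T) ↔ O T)
    (T₀ : Finset α) (hT₀ : T₀.card = k - 1) (hOT₀ : O T₀) :
    ∀ T : Finset α, T.card = k - 1 → O T := by
  have hkn : k + 1 ≤ Fintype.card α := by
    obtain ⟨p, hp, hpk⟩ := Nat.exists_prime_and_dvd (show k ≠ 1 by omega)
    have := hq p hp.isPrimePow hpk
    have := hp.two_le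
    omega
  -- invariance of the count
  have hinv : ∀ (g : G) (S : Finset α),
      (((g • S).powersetCard (k - 1)).filter O).card = ((S.powersetCard (k - 1)).filter O).card := by
    intro g S
    symm
    refine Finset.card_nbij' (fun T => g • T) (fun T => g⁻¹ • T) ?_ ?_ ?_ ?_
    · intro T hT
      simp only [Finset.coe_filter, Finset.mem_powersetCard, Set.mem_setOf_eq] at hT ⊢
      refine ⟨⟨Finset.smul_finset_subset_smul_finset_iff.mpr hT.1.1, ?_⟩, (hO g T).mpr hT.2⟩
      rw [Finset.card_smul_finset]; exact hT.1.2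
    · intro T hT
      simp only [Finset.coe_filter, Finset.mem_powersetCard, Set.mem_setOf_eq] at hT ⊢
      refine ⟨⟨?_, ?_⟩, (hO g⁻¹ T).mpr hT.2⟩
      · rw [Finset.smul_finset_subset_iff, inv_inv]; exact hT.1.1
      · rw [Finset.card_smul_finset]; exact hT.1.2
    · intro T _
      simp
    · intro T _
      simp
  -- pick a reference k-set containing T₀
  obtain ⟨S₀, hS₀sub, hS₀card⟩ := Finset.exists_superset_card_eq (s := T₀) (n := k) (by omega) (by omega)
  set a := ((S₀.powersetCard (k - 1)).filter O).card with ha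
  have hconst : ∀ S : Finset α, S.card = k → ((S.powersetCard (k - 1)).filter O).card = a := by
    intro S hS
    obtain ⟨g, hg⟩ := hG.exists_smul_eq (⟨S₀, hS₀card⟩ : Set.powersetCard α k) ⟨S, hS⟩
    have hg' : g • S₀ = S := by
      have := congrArg (fun x : Set.powersetCard α k => (x : Finset α)) hg
      exact (Set.powersetCard.coe_smul (g := g) (s := ⟨S₀, hS₀card⟩)).symm.trans this
    rw [← hg', hinv]
  have hapos : 0 < a := by
    rw [ha, Finset.card_pos]
    exact ⟨T₀, Finset.mem_filter.mpr ⟨Finset.mem_powersetCard.mpr ⟨hS₀sub, hT₀⟩, hOT₀⟩⟩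
  have hale : a ≤ k := by
    calc a ≤ (S₀.powersetCard (k - 1)).card := Finset.card_filter_le _ _
      _ = k := by
        rw [Finset.card_powersetCard, hS₀card]
        exact choose_pred k (by omega)
  -- prime powers dividing k divide a
  have hdvd : ∀ p e : ℕ, p.Prime → p ^ e ∣ k → p ^ e ∣ a := by
    intro p e hp hpe
    rcases Nat.eq_zero_or_pos e with rfl | he
    · simp
    haveI : Fact p.Prime := ⟨hp⟩
    set q := p ^ e with hqdef
    have hqpp : IsPrimePow q := hp.isPrimePow.pow he.ne'
    have hqk := hq q hqpp hpe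
    have hq1 : 1 ≤ q := Nat.one_le_pow _ _ hp.pos
    obtain ⟨D, -, hD⟩ := Finset.exists_subset_card_eq (s := (Finset.univ : Finset α)) (n := k + q - 1)
      (by simpa using hqk)
    have hc := double_count O D k q (by omega) hD hq1
    have hs : ∑ S ∈ D.powersetCard k, ((S.powersetCard (k - 1)).filter O).card =
        ∑ _S ∈ D.powersetCard k, a := by
      apply Finset.sum_congr rfl
      intro S hS
      exact hconst S (Finset.mem_powersetCard.mp hS).2
    rw [hs, Finset.sum_const, smul_eq_mul, Finset.card_powersetCard, hD] at hc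
    obtain ⟨m, hm⟩ := hpe
    have hchoose : Nat.choose (k + q - 1) k ≡ 1 [MOD p] := by
      have h1 := choose_modEq_one p m e
      have h2 : k + q - 1 = q * m + q - 1 := by rw [hm]
      have h3 : Nat.choose (k + q - 1) k = Nat.choose (q * m + q - 1) (q - 1) := by
        rw [h2]
        apply Nat.choose_symm_of_eq_add
        rw [hm]
        omega
      rw [h3]
      exact h1
    have hcop : Nat.Coprime q (Nat.choose (k + q - 1) k) := by
      apply Nat.Coprime.pow_left
      rw [Nat.Prime.coprime_iff_not_dvd hp]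
      intro hd
      have := (Nat.modEq_zero_iff_dvd.mpr hd).symm.trans hchoose
      have h4 := Nat.modEq_zero_iff_dvd.mp this.symm
      exact hp.one_lt.ne' (Nat.dvd_one.mp h4)
    have hqd : q ∣ Nat.choose (k + q - 1) k * a := ⟨_, by rw [hc, mul_comm]⟩
    exact hcop.dvd_of_dvd_mul_left hqd
  have hka : k ∣ a := (Nat.dvd_iff_prime_pow_dvd_dvd a k).mpr hdvd
  have hak : a = k := le_antisymm hale (Nat.le_of_dvd hapos hka)
  -- every (k-1)-set lies in O
  intro T hT
  obtain ⟨S, hTS, hS⟩ := Finset.exists_superset_card_eq (s := T) (n := k) (by omega) (by omega)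
  have h1 := hconst S hS
  rw [hak] at h1
  have h2 : (S.powersetCard (k - 1)).filter O = S.powersetCard (k - 1) := by
    apply Finset.eq_of_subset_of_card_le (Finset.filter_subset _ _)
    rw [h1, Finset.card_powersetCard, hS, choose_pred k (by omega)]
  have hmem : T ∈ (S.powersetCard (k - 1)).filter O := by
    rw [h2]; exact Finset.mem_powersetCard.mpr ⟨hTS, hT⟩
  exact (Finset.mem_filter.mp hmem).2

/-- A `k`-homogeneous permutation group of degree `n`, `k ≥ 2`, with `k + q - 1 ≤ n` for every prime power `q` dividing `k`, is `(k-1)`-homogeneous. -/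
theorem result {α : Type*} [Fintype α] [DecidableEq α] (G : Subgroup (Equiv.Perm α)) {k : ℕ} (hk : 2 ≤ k) (hG : MulAction.IsPretransitive G (Set.powersetCard α k)) (hq : ∀ q : ℕ, IsPrimePow q → q ∣ k → k + q - 1 ≤ Fintype.card α) : MulAction.IsPretransitive G (Set.powersetCard α (k - 1)) := by
  classical
  refine ⟨fun T₁ T₂ => ?_⟩
  have h := key G hk hG hq (fun T => ∃ g : G, g • (T₁ : Finset α) = T)
    (by
      intro g T
      constructor
      · rintro ⟨h, hh⟩
        refine ⟨g⁻¹ * h, ?_⟩
        rw [mul_smul, hh, inv_smul_smul]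
      · rintro ⟨h, hh⟩
        refine ⟨g * h, ?_⟩
        rw [mul_smul, hh])
    (T₁ : Finset α) T₁.2 ⟨1, by simp⟩ (T₂ : Finset α) T₂.2
  obtain ⟨g, hg⟩ := h
  refine ⟨g, ?_⟩
  apply Subtype.ext
  exact (Set.powersetCard.coe_smul (g := g) (s := T₁)).trans hg

end Cfsg.Agent.S0736
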