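import Cfsg.Statements.S0740
import Mathlib
import Cfsg.Prelude.Def_LieExceptional

set_option autoImplicit false
open Cfsg

namespace Cfsg.Agent.S0740

open MulAction

/-- An involution has as many fixed points as the set has points, modulo `2`. -/
theorem card_fixedBy_modEq_two {G Ω : Type*} [Group G] [MulAction G Ω] [Fintype Ω] {s : G}
    (hs : s ^ 2 = 1) : Fintype.card Ω ≡ Nat.card (fixedBy Ω s) [MOD 2] := by
  classical
  let f : Function.End Ω := fun x => s • x
  have hf : f ^ 2 ^ 1 = 1 := by
    funext x
    have : (f ^ 2) x = s • s • x := by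
      rw [pow_two]; rfl
    simp only [pow_one]
    rw [this, ← mul_smul, ← pow_two, hs, one_smul]
    rfl
  have h := Equiv.Perm.card_fixedPoints_modEq (p := 2) (n := 1) hf
  have he : Fintype.card (Function.fixedPoints f) = Nat.card (fixedBy Ω s) := by
    rw [← Nat.card_eq_fintype_card]
    exact Nat.card_congr (Equiv.setCongr (by
      ext x
      simp [f, Function.IsFixedPt, mem_fixedBy]))
  rwa [he] at h

/-- In a finite Zassenhaus group any two points `a ≠ b` are swapped by an involution; every such involution has exactly one fixed point when the degree is odd and 0 or 2 fixed points when the degree is even; and if the two-point stabiliser has even order, some such involution has exactly 2 fixed points. -/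
theorem result {G Ω : Type*} [Group G] [Finite G] [MulAction G Ω] [Fintype Ω] (hZ : Cfsg.IsZassenhausGroup G Ω) {a b : Ω} (hab : a ≠ b) : (∃ s : G, orderOf s = 2 ∧ s • a = b ∧ s • b = a) ∧ (∀ s : G, orderOf s = 2 → s • a = b → s • b = a → (Odd (Fintype.card Ω) → Nat.card (MulAction.fixedBy Ω s) = 1) ∧ (Even (Fintype.card Ω) → Nat.card (MulAction.fixedBy Ω s) = 0 ∨ Nat.card (MulAction.fixedBy Ω s) = 2)) ∧ (Even (Fintype.card Ω) → Even (Nat.card ↥(MulAction.stabilizer G a ⊓ MulAction.stabilizer G b)) → ∃ s : G, orderOf s = 2 ∧ s • a = b ∧ s • b = a ∧ Nat.card (MulAction.fixedBy Ω s) = 2) := by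
  classical
  obtain ⟨hfaith, h2, h3, -, -⟩ := hZ
  have htwo : ∀ (a b c d : Ω), a ≠ b → c ≠ d → ∃ g : G, g • a = c ∧ g • b = d :=
    fun _ _ _ _ h h' => is_two_pretransitive_iff.mp h2 h h'
  -- a non-trivial element has at most two fixed points
  have fix2 : ∀ s : G, s ≠ 1 → Nat.card (fixedBy Ω s) ≤ 2 := by
    intro s hs
    by_contra hcon
    push Not at hcon
    rw [Nat.card_coe_set_eq, Set.two_lt_ncard] at hcon
    obtain ⟨x, hx, y, hy, z, hz, hxy, hxz, hyz⟩ := hcon
    exact hs (h3 s x y z hxy hyz hxz hx hy hz)
  have htwo_even : Even (Nat.card ↥(stabilizer G a ⊓ stabilizer G b)) →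
      ∃ s : G, orderOf s = 2 ∧ s • a = b ∧ s • b = a ∧ Nat.card (fixedBy Ω s) = 2 := by
    intro heven
    obtain ⟨⟨t, htH⟩, ht⟩ := exists_prime_orderOf_dvd_card' (G := ↥(stabilizer G a ⊓ stabilizer G b)) 2
      heven.two_dvd
    have ht2 : orderOf t = 2 := by
      rw [← ht]; exact (Subgroup.orderOf_mk t htH).symm
    have hta : t • a = a := (Subgroup.mem_inf.mp htH).1
    have htb : t • b = b := (Subgroup.mem_inf.mp htH).2
    have ht1 : t ≠ 1 := by
      rintro rfl
      simp at ht2
    have htt : t ^ 2 = 1 := by rw [← ht2]; exact pow_orderOf_eq_one t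
    obtain ⟨c, hc⟩ : ∃ c : Ω, t • c ≠ c := by
      by_contra hcon
      push Not at hcon
      exact ht1 (hfaith.eq_of_smul_eq_smul (fun x => by rw [hcon, one_smul]))
    obtain ⟨g, hgc, hgtc⟩ := htwo c (t • c) a b hc.symm hab
    have hg2 : g • t • t • c = a := by
      rw [← mul_smul t t, ← pow_two, htt, one_smul]; exact hgc
    refine ⟨g * t * g⁻¹, ?_, ?_, ?_, ?_⟩
    · have := orderOf_injective (MulAut.conj g).toMonoidHom (MulAut.conj g).injective t
      rw [← ht2, ← this]
      rfl
    · rw [← hgc, ← mul_smul, mul_assoc, mul_assoc, inv_mul_cancel, mul_one, mul_smul]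
      exact hgtc
    · rw [← hgtc, ← mul_smul, mul_assoc, mul_assoc, inv_mul_cancel, mul_one, mul_smul]
      exact hg2
    · apply le_antisymm
      · apply fix2
        intro h
        apply ht1
        have := congrArg (fun z => g⁻¹ * z * g) h
        simpa [mul_assoc] using this
      · rw [Nat.card_coe_set_eq]
        have hsub : ({g • a, g • b} : Set Ω) ⊆ fixedBy Ω (g * t * g⁻¹) := by
          intro x hx
          rw [mem_fixedBy]
          rcases hx with h | h
          · rw [h]
            simp only [mul_smul, inv_smul_smul, hta]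
          · have h' : x = g • b := h
            rw [h']
            simp only [mul_smul, inv_smul_smul, htb]
        have hcard : ({g • a, g • b} : Set Ω).ncard = 2 :=
          Set.ncard_pair (fun h => hab (MulAction.injective g h))
        rw [← hcard]
        exact Set.ncard_le_ncard hsub (Set.toFinite _)
  refine ⟨?_, ?_, fun _ h => htwo_even h⟩
  · by_cases heven : Even (Nat.card ↥(stabilizer G a ⊓ stabilizer G b))
    · obtain ⟨s, h1, h2, h3, -⟩ := htwo_even heven
      exact ⟨s, h1, h2, h3⟩
    · -- odd order two-point stabilizer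
      have hodd : Odd (Nat.card ↥(stabilizer G a ⊓ stabilizer G b)) := Nat.not_even_iff_odd.mp heven
      obtain ⟨g, hga, hgb⟩ := htwo a b b a hab hab.symm
      have hg2a : g ^ 2 • a = a := by rw [pow_two, mul_smul, hga, hgb]
      have hg2b : g ^ 2 • b = b := by rw [pow_two, mul_smul, hgb, hga]
      have hmem : g ^ 2 ∈ stabilizer G a ⊓ stabilizer G b := Subgroup.mem_inf.mpr ⟨hg2a, hg2b⟩
      have hm : Odd (orderOf (g ^ 2)) := by
        have hd : orderOf (g ^ 2) ∣ Nat.card ↥(stabilizer G a ⊓ stabilizer G b) := by
          rw [← Subgroup.orderOf_mk (g ^ 2) hmem]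
          exact orderOf_dvd_natCard _
        exact hodd.of_dvd_nat hd
      obtain ⟨k, hk⟩ := hm
      have hpow : ∀ n : ℕ, (g ^ 2) ^ n • a = a ∧ (g ^ 2) ^ n • b = b := by
        intro n
        induction n with
        | zero => simp
        | succ n ih =>
          rw [pow_succ, mul_smul, mul_smul, hg2a, hg2b]
          exact ih
      have hgm : g ^ orderOf (g ^ 2) = g * (g ^ 2) ^ k := by
        rw [hk, ← pow_mul, pow_succ']
      refine ⟨g ^ orderOf (g ^ 2), ?_, ?_, ?_⟩
      · apply orderOf_eq_prime
        · rw [← pow_mul, mul_comm, pow_mul, pow_orderOf_eq_one]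
        · intro h
          have : g ^ orderOf (g ^ 2) • a = a := by rw [h, one_smul]
          rw [hgm, mul_smul, (hpow k).1, hga] at this
          exact hab this.symm
      · rw [hgm, mul_smul, (hpow k).1, hga]
      · rw [hgm, mul_smul, (hpow k).2, hgb]
  · intro s hs _ _
    have hs2 : s ^ 2 = 1 := by rw [← hs]; exact pow_orderOf_eq_one s
    have hs1 : s ≠ 1 := by
      rintro rfl
      simp at hs
    have hle := fix2 s hs1
    have hmod := card_fixedBy_modEq_two (Ω := Ω) hs2
    constructor
    · intro hodd
      have h1 : Nat.card Ω % 2 = 1 := by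
        rw [Nat.card_eq_fintype_card]; exact Nat.odd_iff.mp hodd
      unfold Nat.ModEq at hmod
      rw [Nat.card_eq_fintype_card] at h1
      omega
    · intro heven
      have h1 : Fintype.card Ω % 2 = 0 := Nat.even_iff.mp heven
      unfold Nat.ModEq at hmod
      omega

end Cfsg.Agent.S0740
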