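import Cfsg.Statements.S0743
import Mathlib
import Cfsg.Agent.Lib.Perm.Gleason
-- import your own Cfsg.Agent.* helpers here

set_option autoImplicit false
open Cfsg

namespace Cfsg.Agent.S0743

/-- Gleason's Lemma: let `p` be a prime and `1 ≤ k < n`; if every `k`-subset of the `n` points is exactly the fixed-point set of some `p`-subgroup of `G`, then `G` is `k`-transitive. -/
theorem result {α : Type*} [Fintype α] [DecidableEq α] (G : Subgroup (Equiv.Perm α)) {p k : ℕ} (hp : p.Prime) (hk : 1 ≤ k) (hkn : k < Fintype.card α) (h : ∀ s : Finset α, s.card = k → ∃ P : Subgroup G, IsPGroup p P ∧ MulAction.fixedPoints P α = (s : Set α)) : MulAction.IsMultiplyPretransitive G α k := by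
  classical
  obtain ⟨r, rfl⟩ : ∃ r, k = r + 1 := ⟨k - 1, by omega⟩
  haveI : Fact p.Prime := ⟨hp⟩
  refine Cfsg.Agent.Lib.Perm.Gleason.isMultiplyPretransitive_of_transOff (by omega) ?_
  intro t ht x₁ x₂ hx₁ hx₂
  by_contra hcon
  push Not at hcon
  -- the orbit of `x₁`
  let O : Finset α := Finset.univ.filter (fun y => ∃ g : G, (∀ a ∈ t, g • a = a) ∧ g • x₁ = y)
  have hx₁O : x₁ ∈ O := Finset.mem_filter.mpr ⟨Finset.mem_univ _, 1, fun a _ => one_smul _ _, one_smul _ _⟩
  have hx₂O : x₂ ∉ O := by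
    intro hmem
    obtain ⟨-, g, hg1, hg2⟩ := Finset.mem_filter.mp hmem
    exact hcon g hg1 hg2
  have htO : ∀ a ∈ t, a ∉ O := by
    intro a ha hmem
    obtain ⟨-, g, hg1, hg2⟩ := Finset.mem_filter.mp hmem
    have h1 := hg1 a ha
    rw [← h1] at hg2
    exact hx₁ (smul_left_cancel g hg2 ▸ ha)
  -- the general count
  have hcount : ∀ x, x ∉ t → O.card ≡ (O.filter (· ∈ insert x t)).card [MOD p] := by
    intro x hx
    obtain ⟨P, hP, hfix⟩ := h (insert x t) (by rw [Finset.card_insert_of_notMem hx, ht])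
    have hinv : ∀ (g : P), ∀ y ∈ O, g • y ∈ O := by
      intro g y hy
      obtain ⟨-, k, hk1, hk2⟩ := Finset.mem_filter.mp hy
      refine Finset.mem_filter.mpr ⟨Finset.mem_univ _, (g : G) * k, fun a ha => ?_, ?_⟩
      · have hga : a ∈ MulAction.fixedPoints P α := by
          rw [hfix]
          exact Finset.mem_coe.mpr (Finset.mem_insert_of_mem ha)
        rw [mul_smul, hk1 a ha]
        exact hga g
      · rw [mul_smul, hk2]
        rfl
    have := Cfsg.Agent.Lib.Perm.Gleason.card_modEq_filter_fixed hP O hinv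
    convert this using 3
    rw [hfix]
    simp
  have h1 : O.filter (· ∈ insert x₁ t) = {x₁} := by
    ext y
    simp only [Finset.mem_filter, Finset.mem_insert, Finset.mem_singleton]
    constructor
    · rintro ⟨hy, rfl | hyt⟩
      · rfl
      · exact absurd hy (htO y hyt)
    · rintro rfl
      exact ⟨hx₁O, Or.inl rfl⟩
  have h2 : O.filter (· ∈ insert x₂ t) = ∅ := by
    ext y
    simp only [Finset.mem_filter, Finset.mem_insert, Finset.notMem_empty, iff_false, not_and, not_or]
    intro hy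
    refine ⟨fun hyx => hx₂O (hyx ▸ hy), fun hyt => htO y hyt hy⟩
  have e1 := hcount x₁ hx₁
  have e2 := hcount x₂ hx₂
  rw [h1, Finset.card_singleton] at e1
  rw [h2, Finset.card_empty] at e2
  have e3 : 1 ≡ 0 [MOD p] := e1.symm.trans e2
  have : p ∣ 1 := (Nat.modEq_zero_iff_dvd).mp e3
  exact hp.one_lt.ne' (Nat.dvd_one.mp this)

end Cfsg.Agent.S0743
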