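import Cfsg.Statements.S0744
import Mathlib
import Cfsg.Agent.Lib.Perm.Gleason
-- import your own Cfsg.Agent.* helpers here

set_option autoImplicit false
open Cfsg

namespace Cfsg.Agent.S0744

/-- If for some `k > 1` the pointwise stabilisers of all `(k-1)`-subsets have the same order `> 1` and those of all `k`-subsets have the same order, then the group is `(k-1)`-transitive. -/
theorem result {α : Type*} [Fintype α] [DecidableEq α] (G : Subgroup (Equiv.Perm α)) {k : ℕ} (hk : 1 < k) (hkn : k ≤ Fintype.card α) (l m : ℕ) (hl : 1 < l) (hkm1 : ∀ s : Finset α, s.card = k - 1 → Nat.card (fixingSubgroup G (s : Set α)) = l) (hkm : ∀ s : Finset α, s.card = k → Nat.card (fixingSubgroup G (s : Set α)) = m) : MulAction.IsMultiplyPretransitive G α (k - 1) := by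
  classical
  obtain ⟨r, rfl⟩ : ∃ r, k = r + 2 := ⟨k - 2, by omega⟩
  have hrr : r + 2 - 1 = r + 1 := by omega
  rw [hrr] at hkm1 ⊢
  refine Cfsg.Agent.Lib.Perm.Gleason.isMultiplyPretransitive_of_transOff (r := r) (by omega) ?_
  intro t ht x₁ x₂ hx₁ hx₂
  by_contra hcon
  push Not at hcon
  have hne : x₁ ≠ x₂ := by
    rintro rfl
    exact hcon 1 (fun a _ => one_smul _ _) (one_smul _ _)
  -- the stabilizers
  have hstab : ∀ (s : Finset α) (y : α), Nat.card (MulAction.stabilizer (fixingSubgroup G (s : Set α)) y) =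
      Nat.card (fixingSubgroup G ((insert y s : Finset α) : Set α)) := by
    intro s y
    refine Nat.card_congr ⟨fun g => ⟨g.1.1, ?_⟩, fun g => ⟨⟨g.1, ?_⟩, ?_⟩, ?_, ?_⟩
    · rw [mem_fixingSubgroup_iff]
      intro z hz
      rw [Finset.mem_coe, Finset.mem_insert] at hz
      rcases hz with rfl | hz
      · exact g.2
      · exact (mem_fixingSubgroup_iff G).mp g.1.2 z (Finset.mem_coe.mpr hz)
    · rw [mem_fixingSubgroup_iff]
      intro z hz
      exact (mem_fixingSubgroup_iff G).mp g.2 z (Finset.mem_coe.mpr (Finset.mem_insert_of_mem hz))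
    · exact (mem_fixingSubgroup_iff G).mp g.2 y (Finset.mem_coe.mpr (Finset.mem_insert_self _ _))
    · intro g; rfl
    · intro g; rfl
  have horb : ∀ (s : Finset α), s.card = r + 1 → ∀ y, y ∉ s →
      Nat.card (MulAction.orbit (fixingSubgroup G (s : Set α)) y) * m = l := by
    intro s hs y hy
    have h1 := MulAction.index_stabilizer (fixingSubgroup G (s : Set α)) y
    have h2 := Subgroup.card_mul_index (MulAction.stabilizer (fixingSubgroup G (s : Set α)) y)
    rw [hstab, hkm (insert y s) (by rw [Finset.card_insert_of_notMem hy, hs]), h1, hkm1 s hs] at h2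
    rw [← h2, mul_comm]
    rfl
  -- the two enlarged sets
  have hx₂s₁ : x₂ ∉ insert x₁ t := by
    simp only [Finset.mem_insert, not_or]
    exact ⟨Ne.symm hne, hx₂⟩
  have hs₁ : (insert x₁ t).card = r + 1 := by rw [Finset.card_insert_of_notMem hx₁, ht]
  have hs₂ : (insert x₂ t).card = r + 1 := by rw [Finset.card_insert_of_notMem hx₂, ht]
  set d := Nat.card (MulAction.orbit (fixingSubgroup G ((insert x₁ t : Finset α) : Set α)) x₂) with hd
  have hdm : d * m = l := horb _ hs₁ _ hx₂s₁
  have hm : 0 < m := by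
    rcases Nat.eq_zero_or_pos m with h0 | h0
    · rw [h0, mul_zero] at hdm
      omega
    · exact h0
  have horb' : ∀ (s : Finset α), s.card = r + 1 → ∀ y, y ∉ s →
      Nat.card (MulAction.orbit (fixingSubgroup G (s : Set α)) y) = d := by
    intro s hs y hy
    exact Nat.eq_of_mul_eq_mul_right hm ((horb s hs y hy).trans hdm.symm)
  -- the orbit of `x₁`
  let O : Finset α := Finset.univ.filter (fun y => ∃ g : G, (∀ a ∈ t, g • a = a) ∧ g • x₁ = y)
  have hx₁O : x₁ ∈ O := Finset.mem_filter.mpr ⟨Finset.mem_univ _, 1, fun a _ => one_smul _ _, one_smul _ _⟩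
  have hx₂O : x₂ ∉ O := by
    intro hmem
    obtain ⟨-, g, hg1, hg2⟩ := Finset.mem_filter.mp hmem
    exact hcon g hg1 hg2
  have htO : ∀ a ∈ t, a ∉ O := by
    intro a ha hmem
    obtain ⟨-, g, hg1, hg2⟩ := Finset.mem_filter.mp hmem
    have h1 := hg1 a ha
    rw [← h1] at hg2
    exact hx₁ (smul_left_cancel g hg2 ▸ ha)
  have hinv : ∀ (x : α) (g : fixingSubgroup G ((insert x t : Finset α) : Set α)), ∀ y ∈ O, g • y ∈ O := by
    intro x g y hy
    obtain ⟨-, k, hk1, hk2⟩ := Finset.mem_filter.mp hy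
    refine Finset.mem_filter.mpr ⟨Finset.mem_univ _, (g : G) * k, fun a ha => ?_, ?_⟩
    · rw [mul_smul, hk1 a ha]
      exact (mem_fixingSubgroup_iff G).mp g.2 a (Finset.mem_coe.mpr (Finset.mem_insert_of_mem ha))
    · rw [mul_smul, hk2]
      rfl
  have hdvd0 : d ∣ O.card := by
    refine Cfsg.Agent.Lib.Perm.Gleason.dvd_card_of_orbits d O (hinv x₂) (fun y hy => horb' _ hs₂ y ?_)
    simp only [Finset.mem_insert, not_or]
    exact ⟨fun h => hx₂O (h ▸ hy), fun h => htO y h hy⟩
  have hdvd1 : d ∣ (O.erase x₁).card := by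
    refine Cfsg.Agent.Lib.Perm.Gleason.dvd_card_of_orbits (Q := fixingSubgroup G ((insert x₁ t : Finset α) : Set α))
      d (O.erase x₁) ?_ (fun y hy => horb' _ hs₁ y ?_)
    · intro g y hy
      rw [Finset.mem_erase] at hy ⊢
      refine ⟨fun h => hy.1 ?_, hinv x₁ g y hy.2⟩
      have hg1 : g • x₁ = x₁ := (mem_fixingSubgroup_iff G).mp g.2 x₁ (Finset.mem_coe.mpr (Finset.mem_insert_self _ _))
      exact smul_left_cancel g (h.trans hg1.symm)
    · rw [Finset.mem_erase] at hy
      simp only [Finset.mem_insert, not_or]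
      exact ⟨hy.1, fun h => htO y h hy.2⟩
  have hd1 : d = 1 := by
    have hcard : (O.erase x₁).card + 1 = O.card := Finset.card_erase_add_one hx₁O
    rw [← hcard] at hdvd0
    exact Nat.dvd_one.mp ((Nat.dvd_add_right hdvd1).mp hdvd0)
  -- then the stabilizer of `s₁` is trivial
  have htriv : Nat.card (fixingSubgroup G ((insert x₁ t : Finset α) : Set α)) = 1 := by
    rw [Nat.card_eq_one_iff_unique]
    refine ⟨⟨fun g k => ?_⟩, ⟨1⟩⟩
    have hg1 : ∀ (g : fixingSubgroup G ((insert x₁ t : Finset α) : Set α)), g = 1 := by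
      intro g
      apply Subtype.ext
      apply Subtype.ext
      apply Equiv.ext
      intro y
      change g • y = y
      by_cases hy : y ∈ insert x₁ t
      · exact (mem_fixingSubgroup_iff G).mp g.2 y (Finset.mem_coe.mpr hy)
      · have h1 := horb' _ hs₁ y hy
        rw [hd1] at h1
        rw [Nat.card_eq_one_iff_unique] at h1
        have := h1.1.elim ⟨g • y, MulAction.mem_orbit y g⟩ ⟨y, MulAction.mem_orbit_self y⟩
        exact congrArg Subtype.val this
    rw [hg1 g, hg1 k]
  rw [hkm1 _ hs₁] at htriv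
  omega

end Cfsg.Agent.S0744
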