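import Cfsg.Statements.S0745
import Cfsg.Agent.Lib.LW.Excl

set_option autoImplicit false
open Cfsg

namespace Cfsg.Agent.S0745

/-- Let `G` have degree `n` and `3 ≤ k ≤ n`; suppose `G` is `(k-2)`-transitive but not `(k-1)`-transitive, and is `(k-1)`-homogeneous and `k`-homogeneous. Then `k = n` and `G` is the alternating group, or `n = 5, k = 4, |G| = 20`, or `n = 6, k = 5, |G| = 120`, or `n = 9, k = 5, |G| ∈ {504, 1512}`. -/
theorem result {α : Type*} [Fintype α] [DecidableEq α] (G : Subgroup (Equiv.Perm α)) {k : ℕ} (hk : 3 ≤ k) (hkn : k ≤ Fintype.card α) (ht : MulAction.IsMultiplyPretransitive G α (k - 2)) (hnt : ¬ MulAction.IsMultiplyPretransitive G α (k - 1)) (hh1 : MulAction.IsPretransitive G (Set.powersetCard α (k - 1))) (hh : MulAction.IsPretransitive G (Set.powersetCard α k)) : (k = Fintype.card α ∧ G = alternatingGroup α) ∨ (Fintype.card α = 5 ∧ k = 4 ∧ Nat.card G = 20) ∨ (Fintype.card α = 6 ∧ k = 5 ∧ Nat.card G = 120)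 ∨ (Fintype.card α = 9 ∧ k = 5 ∧ (Nat.card G = 504 ∨ Nat.card G = 1512)) := by
  obtain ⟨h, rfl⟩ : ∃ h, k = h + 2 := ⟨k - 2, by omega⟩
  have e1 : h + 2 - 2 = h := by omega
  have e2 : h + 2 - 1 = h + 1 := by omega
  rw [e1] at ht
  rw [e2] at hnt hh1
  have R : Cfsg.Agent.LW.RH G h :=
    { T := Cfsg.Agent.LW.TT_of_isMultiplyPretransitive (by omega) ht
      nt := fun t => hnt (Cfsg.Agent.LW.isMultiplyPretransitive_of_TT t)
      H1 := Cfsg.Agent.LW.Hg_of_isPretransitive hh1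
      H2 := Cfsg.Agent.LW.Hg_of_isPretransitive hh
      n := hkn }
  by_cases hcard : h + 2 = Fintype.card α
  · exact Or.inl ⟨hcard, R.eq_alt hcard⟩
  · right
    have hlt : h + 2 < Fintype.card α := lt_of_le_of_ne hkn hcard
    by_cases h4 : 4 ≤ h
    · exact absurd (R.large h4) hcard
    · rcases R.small (by omega) (by omega) hlt with ⟨h1, h2, h3⟩ | ⟨h1, h2, h3⟩ | ⟨h1, h2, h3⟩
      · exact Or.inl ⟨h1, h2, h3⟩
      · exact Or.inr (Or.inl ⟨h1, h2, h3⟩)
      · exact Or.inr (Or.inr ⟨h1, h2, h3⟩)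

end Cfsg.Agent.S0745
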