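import Cfsg.Statements.S0746
import Cfsg.Agent.S0745
import Cfsg.Agent.S0736

set_option autoImplicit false
open Cfsg

namespace Cfsg.Agent.S0746

/-- The Livingstone–Wagner Theorem, first form: a `k`-homogeneous group of degree `n` with `4 ≤ 2k ≤ n` is `(k-1)`-transitive. -/
theorem result {α : Type*} [Fintype α] [DecidableEq α] (G : Subgroup (Equiv.Perm α)) {k : ℕ} (hk : 2 ≤ k) (hkn : 2 * k ≤ Fintype.card α) (hh : MulAction.IsPretransitive G (Set.powersetCard α k)) : MulAction.IsMultiplyPretransitive G α (k - 1) := by
  induction k with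
  | zero => omega
  | succ k ih =>
    have hdown : MulAction.IsPretransitive G (Set.powersetCard α (k + 1 - 1)) := by
      refine Cfsg.Agent.S0736.result G hk hh ?_
      intro q hq hqk
      have := Nat.le_of_dvd (by omega) hqk
      omega
    have e : k + 1 - 1 = k := by omega
    rw [e] at hdown ⊢
    by_cases h1 : k = 1
    · subst h1
      -- transitivity from 1-homogeneity
      have hH := Cfsg.Agent.LW.Hg_of_isPretransitive hdown
      refine Cfsg.Agent.LW.isMultiplyPretransitive_of_TT ?_
      intro σ s hs
      haveI : Nonempty α := Fintype.card_pos_iff.mp (by omega)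
      rcases Finset.card_le_one_iff_subset_singleton.mp hs with ⟨a, ha⟩
      obtain ⟨g, hg, hgs⟩ := hH {a} {σ a} (by simp) (by simp)
      refine ⟨g, hg, fun x hx => ?_⟩
      have hxa : x = a := by simpa using ha hx
      subst hxa
      simpa using hgs
    · have ih' := ih (by omega) (by omega) hdown
      by_contra hnt
      have := Cfsg.Agent.S0745.result G (k := k + 1) (by omega) (by omega)
        (by simpa using ih') (by simpa using hnt) (by simpa using hdown) hh
      rcases this with ⟨h2, -⟩ | ⟨h2, h3, -⟩ | ⟨h2, h3, -⟩ | ⟨h2, h3, -⟩ <;> omega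

end Cfsg.Agent.S0746
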