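import Cfsg.Statements.S0747
import Cfsg.Agent.Lib.LW.Main
-- import your own Cfsg.Agent.* helpers here

set_option autoImplicit false
open scoped Pointwise
open Cfsg

namespace Cfsg.Agent.S0747

/-- In a `k`-transitive permutation group with `4 ≤ k < n`, some `(k+1)`-subset `Δ` has the property that every even permutation of `Δ` is induced by an element of the group stabilising `Δ`. -/
theorem result {α : Type*} [Fintype α] [DecidableEq α] (G : Subgroup (Equiv.Perm α)) {k : ℕ} (hk : 4 ≤ k) (hkn : k < Fintype.card α) (hG : MulAction.IsMultiplyPretransitive G α k) : ∃ Δ : Finset α, Δ.card = k + 1 ∧ ∀ σ : Equiv.Perm ↥Δ, σ ∈ alternatingGroup ↥Δ → ∃ g ∈ G, ∀ x : ↥Δ, g (x : α) = σ x := by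
  obtain ⟨Δ, h1, h2⟩ := Cfsg.Agent.LW.main_LW hk _ α G rfl hkn
    (Cfsg.Agent.LW.TT_of_isMultiplyPretransitive hkn.le hG)
  exact ⟨Δ, h1, fun σ hσ => h2 hσ⟩

end Cfsg.Agent.S0747
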