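import Cfsg.Statements.S0748
import Cfsg.Agent.S0746

set_option autoImplicit false
open Cfsg

namespace Cfsg.Agent.S0748

open Equiv Equiv.Perm Cfsg.Agent.LW

/-- The step: `(k-1)`-transitive and `k`-homogeneous implies `k`-transitive, when `k ≥ 5` and `n > k + 1`. -/
theorem step {α : Type*} [Fintype α] [DecidableEq α] (G : Subgroup (Equiv.Perm α)) {h : ℕ}
    (hh : 4 ≤ h) (hn : h + 2 < Fintype.card α) (hT : TT G h) (hH : Hg G (h + 1)) : TT G (h + 1) := by
  by_cases hI : NoInv G h
  · by_cases hm : Odd (Fintype.card α - h)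
    · obtain ⟨Δ, hΔ, htop⟩ := caseA hh (by omega) hT hI hm
      exact TT_of_one_top hH hΔ htop (by omega)
    · exfalso
      rw [Nat.not_odd_iff_even] at hm
      obtain ⟨L, -, hLc⟩ := Finset.exists_subset_card_eq (s := (Finset.univ : Finset α)) (n := h - 4)
        (by simp; omega)
      have hL : L.card + 4 = h := by omega
      have hT' := TT_restrict hT hL
      have hI' := NoInv_restrict hI hL
      have hcard : Fintype.card ↥(Lᶜ : Finset α) = Fintype.card α - (h - 4) := by
        rw [Fintype.card_coe, Finset.card_compl, hLc]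
      have h6 := theoremE hT' hI' (by
        rw [hcard]
        obtain ⟨c, hc⟩ := hm
        exact ⟨c + 2, by omega⟩) (by rw [hcard]; omega)
      rw [hcard] at h6
      omega
  · -- an involution with at least `h` fixed points
    unfold NoInv at hI
    push Not at hI
    obtain ⟨j, hj, hj2, hjf, hj1⟩ := hI
    obtain ⟨y, hy⟩ : ∃ y, j y ≠ y := by
      by_contra hcon
      push Not at hcon
      exact hj1 (Equiv.ext hcon)
    have hjj : ∀ x, j (j x) = x := fun x => by
      have := congrArg (fun f : Perm α => f x) hj2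
      simpa using this
    obtain ⟨F, hFf, hFc⟩ := Finset.exists_subset_card_eq (s := fx j) (n := h - 1) (by omega)
    have hyF : y ∉ F := fun hc => hy (mem_fx.mp (hFf hc))
    have hjyF : j y ∉ F := fun hc => by
      have := mem_fx.mp (hFf hc)
      rw [hjj] at this
      exact hy this.symm
    set Γ : Finset α := insert y (insert (j y) F) with hΓ
    have hΓc : Γ.card = h + 1 := by
      rw [hΓ, Finset.card_insert_of_notMem, Finset.card_insert_of_notMem hjyF, hFc]
      · omega
      · simp only [Finset.mem_insert, not_or]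
        exact ⟨fun hc => hy hc.symm, hyF⟩
    obtain ⟨Δ, hΔc, hΔa⟩ := main_LW hh _ α G rfl (by omega) hT
    obtain ⟨g, hg, hgΓ⟩ := hH Γ Δ hΓc hΔc
    have hgy : g y ∈ Δ := by
      rw [← hgΓ]; exact Finset.mem_image_of_mem _ (by simp [hΓ])
    have hgjy : g (j y) ∈ Δ := by
      rw [← hgΓ]; exact Finset.mem_image_of_mem _ (by simp [hΓ])
    have hne : g y ≠ g (j y) := fun hc => hy (g.injective hc).symm
    let τ : Perm ↥Δ := swap ⟨g y, hgy⟩ ⟨g (j y), hgjy⟩
    have hτ : τ ∈ rz G Δ := by
      refine mem_rz_of (g := g * j * g⁻¹) (G.mul_mem (G.mul_mem hg hj) (G.inv_mem hg)) τ ?_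
      rintro ⟨x, hx⟩
      rw [← hgΓ, Finset.mem_image] at hx
      obtain ⟨w, hw, rfl⟩ := hx
      have hw' : w = y ∨ w = j y ∨ w ∈ F := by simpa [hΓ] using hw
      have hgg : g⁻¹ (g w) = w := by simp
      simp only [Perm.mul_apply, hgg]
      rcases hw' with rfl | rfl | hwF
      · simp [τ]
      · simp [τ, hjj]
      · have hjw : j w = w := mem_fx.mp (hFf hwF)
        have h1 : w ≠ y := fun hc => hyF (hc ▸ hwF)
        have h2 : w ≠ j y := fun hc => hjyF (hc ▸ hwF)
        rw [hjw]
        symm
        change ((swap (⟨g y, hgy⟩ : ↥Δ) ⟨g (j y), hgjy⟩) ⟨g w, _⟩ : ↥Δ).1 = g w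
        rw [Equiv.swap_apply_of_ne_of_ne]
        · intro hc
          exact h1 (g.injective (congrArg Subtype.val hc))
        · intro hc
          exact h2 (g.injective (congrArg Subtype.val hc))
    have htop : rz G Δ = ⊤ := by
      rw [eq_top_iff]
      intro σ _
      by_cases hσ : σ ∈ alternatingGroup ↥Δ
      · exact hΔa hσ
      · have hτs : sign τ = -1 := sign_swap (by
          intro hc
          exact hne (congrArg Subtype.val hc))
        have h1 : τ⁻¹ * σ ∈ alternatingGroup ↥Δ := by
          rw [Equiv.Perm.mem_alternatingGroup] at hσ ⊢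
          rw [Perm.sign_mul, Perm.sign_inv, hτs]
          rcases Int.units_eq_one_or (sign σ) with e2 | e2
          · exact absurd e2 hσ
          · rw [e2]; rfl
        have h2 := (rz G Δ).mul_mem hτ (hΔa h1)
        simpa using h2
    exact TT_of_one_top hH hΔc htop (by omega)

/-- The Livingstone–Wagner Theorem: a `k`-homogeneous permutation group of degree `n` with `10 ≤ 2k ≤ n` is `k`-transitive. -/
theorem result {α : Type*} [Fintype α] [DecidableEq α] (G : Subgroup (Equiv.Perm α)) {k : ℕ} (hk : 5 ≤ k) (hkn : 2 * k ≤ Fintype.card α) (hh : MulAction.IsPretransitive G (Set.powersetCard α k)) : MulAction.IsMultiplyPretransitive G α k := by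
  have h1 := Cfsg.Agent.S0746.result G (by omega) hkn hh
  obtain ⟨h, rfl⟩ : ∃ h, k = h + 1 := ⟨k - 1, by omega⟩
  have e : h + 1 - 1 = h := by omega
  rw [e] at h1
  exact isMultiplyPretransitive_of_TT
    (step G (by omega) (by omega) (TT_of_isMultiplyPretransitive (by omega) h1)
      (Hg_of_isPretransitive hh))

end Cfsg.Agent.S0748
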