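import Cfsg.Statements.S0753
import Mathlib
-- import your own Cfsg.Agent.* helpers here

set_option autoImplicit false
open Cfsg

namespace Cfsg.Agent.S0753

/-- If σ is a ring endomorphism of the field F other than the identity and B is a σ-sesquilinear conjugate-symmetric form with B v v = 0 for every v, then B = 0. -/
theorem result {F V : Type*} [Field F] [AddCommGroup V] [Module F V] (σ : F →+* F) (hσ : σ ≠ RingHom.id F) (B : V →ₛₗ[σ] V →ₗ[F] F) (hS : B.IsSymm) (h0 : ∀ v : V, B v v = 0) : B = 0 := by
  obtain ⟨c, hc⟩ : ∃ c : F, σ c ≠ c := by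
    by_contra hall
    push_neg at hall
    exact hσ (RingHom.ext hall)
  have hsym : ∀ x y : V, B y x = - B x y := by
    intro x y
    have := h0 (x + y)
    simp only [map_add, LinearMap.add_apply, h0, zero_add, add_zero] at this
    exact eq_neg_of_add_eq_zero_left this
  ext x y
  have h1 := hsym (c • x) y
  simp only [map_smulₛₗ, LinearMap.smul_apply, smul_eq_mul, LinearMap.map_smul] at h1
  have h2 := hsym x y
  rw [h2] at h1
  have h3 : (σ c - c) * B x y = 0 := by linear_combination h1
  have h4 : σ c - c ≠ 0 := sub_ne_zero.mpr hc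
  simpa using (mul_eq_zero.mp h3).resolve_left h4

end Cfsg.Agent.S0753
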