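import Cfsg.Statements.S0757
import Mathlib

set_option autoImplicit false
open Cfsg

namespace Cfsg.Agent.S0757

/-- The matrix of a diagonal form. -/
theorem toMatrix'_weighted {F : Type*} [Field F] [Invertible (2 : F)] {n : ℕ} (w : Fin n → F) :
    QuadraticForm.toMatrix' (QuadraticMap.weightedSumSquares F w) = Matrix.diagonal w := by
  ext i j
  rw [QuadraticForm.toMatrix', LinearMap.toMatrix₂'_apply]
  have h2F : (2 : F) ≠ 0 := Invertible.ne_zero 2
  apply mul_left_cancel₀ h2F
  have key : (2 : F) * (QuadraticMap.associated (R := F) (QuadraticMap.weightedSumSquares F w)) (Pi.single i 1) (Pi.single j 1)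
      = QuadraticMap.polar (QuadraticMap.weightedSumSquares F w) (Pi.single i 1) (Pi.single j 1) := by
    have h := congrArg (fun T => T (Pi.single i (1:F)) (Pi.single j (1:F)))
      (QuadraticMap.two_nsmul_associated F (QuadraticMap.weightedSumSquares F w))
    simp only [LinearMap.smul_apply, QuadraticMap.polarBilin_apply_apply] at h
    rw [← h, two_nsmul, two_mul]
  rw [key, QuadraticMap.polar]
  simp only [QuadraticMap.weightedSumSquares_apply, smul_eq_mul]
  rw [← Finset.sum_sub_distrib, ← Finset.sum_sub_distrib]
  have h2 : ∀ (a b : Fin n → F) (k : Fin n), w k * ((a + b) k * (a + b) k) -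
      w k * (a k * a k) - w k * (b k * b k) = 2 * (w k * (a k * b k)) := by
    intro a b k
    simp only [Pi.add_apply]
    ring
  simp only [h2, ← Finset.mul_sum]
  congr 1
  by_cases hij : i = j
  · subst hij
    simp [Pi.single_apply]
  · have : ∀ k, w k * ((Pi.single i (1:F) : Fin n → F) k * (Pi.single j (1:F) : Fin n → F) k) = 0 := by
      intro k
      by_cases hk : k = i
      · subst hk; simp [Pi.single_apply, hij]
      · simp [Pi.single_apply, hk]
    simp [this, Matrix.diagonal_apply, hij]

/-- The two diagonal forms Σ x_i^2 and Σ_(i<n) x_i^2 + α x_n^2 on F^(n+1), with α a non-square and 2 ≠ 0 in F, are inequivalent quadratic forms (so over a finite field of odd order there are exactly two classes of non-singular symmetric bilinear forms in each dimension). -/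
theorem result {F : Type*} [Field F] (h2 : (2 : F) ≠ 0) (n : ℕ) (α : F) (hα : ¬ IsSquare α) : ¬ (QuadraticMap.weightedSumSquares F (fun _ : Fin (n + 1) => (1 : F))).Equivalent (QuadraticMap.weightedSumSquares F (fun i : Fin (n + 1) => if i = Fin.last n then α else (1 : F))) := by
  rintro ⟨φ⟩
  letI : Invertible (2 : F) := invertibleOfNonzero h2
  set Q1 : QuadraticForm F (Fin (n + 1) → F) := QuadraticMap.weightedSumSquares F (fun _ : Fin (n + 1) => (1 : F)) with hQ1
  set Q2 : QuadraticForm F (Fin (n + 1) → F) := QuadraticMap.weightedSumSquares F (fun i : Fin (n + 1) => if i = Fin.last n then α else (1 : F)) with hQ2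
  have hcomp : Q1 = Q2.comp (φ.toLinearEquiv.toLinearMap) := by
    ext x
    exact (φ.map_app x).symm
  have h := QuadraticForm.discr'_comp (Q := Q2) (φ.toLinearEquiv.toLinearMap)
  rw [← hcomp] at h
  have hd1 : QuadraticForm.discr' Q1 = 1 := by
    rw [QuadraticForm.discr', hQ1, toMatrix'_weighted, Matrix.det_diagonal]
    simp
  have hd2 : QuadraticForm.discr' Q2 = α := by
    rw [QuadraticForm.discr', hQ2, toMatrix'_weighted, Matrix.det_diagonal, Finset.prod_ite_eq']
    simp
  rw [hd1, hd2] at h
  set d := (LinearMap.toMatrix' φ.toLinearEquiv.toLinearMap).det with hd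
  have hd0 : d ≠ 0 := by
    intro h0
    rw [h0] at h
    simp at h
  apply hα
  refine ⟨d⁻¹, ?_⟩
  field_simp
  rw [h]
  ring

end Cfsg.Agent.S0757
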