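import Cfsg.Statements.S0758
import Mathlib

set_option autoImplicit false
open Cfsg

namespace Cfsg.Agent.S0758

/-- Over a finite field of odd order `q`: `x^2 + y^2` is isotropic iff `q ≡ 1 (4)`, and `x^2 + α y^2`, with
`α` a non-square, is isotropic iff `q ≡ 3 (4)`. -/
theorem result {F : Type*} [Field F] [Fintype F] (h2 : (2 : F) ≠ 0) (α : F) (hα : ¬ IsSquare α) : ((∃ x y : F, (x ≠ 0 ∨ y ≠ 0) ∧ x ^ 2 + y ^ 2 = 0) ↔ Fintype.card F % 4 = 1) ∧ ((∃ x y : F, (x ≠ 0 ∨ y ≠ 0) ∧ x ^ 2 + α * y ^ 2 = 0) ↔ Fintype.card F % 4 = 3) := by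
  classical
  have hch : ringChar F ≠ 2 := by
    intro h
    apply h2
    have := ringChar.Nat.cast_ringChar (R := F)
    rw [h] at this
    exact_mod_cast this
  have hodd : Fintype.card F % 2 = 1 := FiniteField.odd_card_of_char_ne_two hch
  have h4 : Fintype.card F % 4 = 1 ∨ Fintype.card F % 4 = 3 := by omega
  have hy0 : ∀ (c x y : F), (x ≠ 0 ∨ y ≠ 0) → x ^ 2 + c * y ^ 2 = 0 → y ≠ 0 := by
    intro c x y hne he hy
    subst hy
    have hx : x ≠ 0 := by
      rcases hne with h | h
      · exact h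
      · exact absurd rfl h
    simp [hx] at he
  have hsq : ∀ (c x y : F), y ≠ 0 → x ^ 2 + c * y ^ 2 = 0 → IsSquare (-c) := by
    intro c x y hy he
    refine ⟨x / y, ?_⟩
    field_simp
    linear_combination -he
  refine ⟨⟨?_, ?_⟩, ⟨?_, ?_⟩⟩
  · rintro ⟨x, y, hne, he⟩
    have he' : x ^ 2 + 1 * y ^ 2 = 0 := by simpa using he
    have hy := hy0 1 x y hne he'
    have hs := hsq 1 x y hy he'
    have := FiniteField.isSquare_neg_one_iff.mp hs
    omega
  · intro h
    have hs : IsSquare (-1 : F) := FiniteField.isSquare_neg_one_iff.mpr (by omega)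
    obtain ⟨r, hr⟩ := hs
    refine ⟨r, 1, Or.inr one_ne_zero, ?_⟩
    rw [pow_two, ← hr]
    ring
  · rintro ⟨x, y, hne, he⟩
    have hy := hy0 α x y hne he
    have hs := hsq α x y hy he
    rcases h4 with h | h
    · exfalso
      have h1 : IsSquare (-1 : F) := FiniteField.isSquare_neg_one_iff.mpr (by omega)
      apply hα
      have := h1.mul hs
      simpa using this
    · exact h
  · intro h
    have hn1 : ¬ IsSquare (-1 : F) := by
      intro hs
      have := FiniteField.isSquare_neg_one_iff.mp hs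
      omega
    have hα0 : α ≠ 0 := by
      rintro rfl
      exact hα (IsSquare.zero)
    have hne : (-α : F) ≠ 0 := neg_ne_zero.mpr hα0
    have hs : IsSquare (-α : F) := by
      rw [← quadraticChar_one_iff_isSquare hne]
      have h1 : quadraticChar F (-1) = -1 := quadraticChar_neg_one_iff_not_isSquare.mpr hn1
      have h2' : quadraticChar F α = -1 := quadraticChar_neg_one_iff_not_isSquare.mpr hα
      have : (-α : F) = (-1) * α := by ring
      rw [this, map_mul, h1, h2']
      norm_num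
    obtain ⟨r, hr⟩ := hs
    refine ⟨r, 1, Or.inr one_ne_zero, ?_⟩
    rw [pow_two, ← hr]
    ring

end Cfsg.Agent.S0758
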