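import Cfsg.Statements.S0759
import Mathlib

set_option autoImplicit false
open Cfsg Matrix Module

namespace Cfsg.Agent.S0759

variable {F : Type*} [Field F]

/-- Index. -/
def idx (m : ℕ) : Fin m ⊕ Fin m ≃ Fin (2 * m) :=
  finSumFinEquiv.trans (finCongr (by omega))

/-- Determinant of a block matrix with zero top-left block. -/
theorem det_block_zero {m : ℕ} (C D : Matrix (Fin m) (Fin m) F) :
    (fromBlocks 0 C Cᵀ D).det = (-1) ^ m * C.det ^ 2 := by
  have hJ : (J (Fin m) F).det = 1 := SymplecticGroup.det_eq_one (SymplecticGroup.J_mem _ _)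
  have h1 : fromBlocks 0 C Cᵀ D * J (Fin m) F = fromBlocks C 0 D (-Cᵀ) := by
    rw [J, fromBlocks_multiply]
    simp
  have h2 := congrArg det h1
  rw [det_mul, hJ, mul_one, det_fromBlocks_zero₁₂, det_neg, det_transpose] at h2
  rw [h2]
  simp
  ring

theorem no_lagrangian {m : ℕ} (h2 : (2 : F) ≠ 0) (hodd : Odd m) (hnosq : ¬ IsSquare (-1 : F))
    (W : Submodule F (Fin (2 * m) → F)) (hW : finrank F W = m)
    (hiso : ∀ w ∈ W, ∑ i, w i ^ 2 = 0) : False := by
  classical
  obtain ⟨W', hc⟩ := Submodule.exists_isCompl W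
  have hfr : finrank F W' = m := by
    have := Submodule.finrank_add_eq_of_isCompl hc
    simp at this
    omega
  let bW := Module.finBasisOfFinrankEq F W hW
  let bW' := Module.finBasisOfFinrankEq F W' hfr
  let b : Basis (Fin m ⊕ Fin m) F (Fin (2 * m) → F) :=
    (bW.prod bW').map (Submodule.prodEquivOfIsCompl W W' hc)
  let e : (Fin (2 * m) → F) ≃ₗ[F] (Fin m ⊕ Fin m → F) := LinearEquiv.funCongrLeft F F (idx m)
  let b' := b.map e
  let Q : Matrix (Fin m ⊕ Fin m) (Fin m ⊕ Fin m) F := Matrix.of fun i j => b' i j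
  have hQ : IsUnit Q := by
    rw [← linearIndependent_rows_iff_isUnit]
    exact b'.linearIndependent
  have hentry : ∀ i j, (Q * Qᵀ) i j = ∑ l, b i l * b j l := by
    intro i j
    rw [Matrix.mul_apply, ← Equiv.sum_comp (idx m)]
    rfl
  have hinl : ∀ i, b (.inl i) = (bW i : Fin (2 * m) → F) := by
    intro i
    simp [b]
  have hinr : ∀ i, b (.inr i) = (bW' i : Fin (2 * m) → F) := by
    intro i
    simp [b]
  have hpol : ∀ u ∈ W, ∀ v ∈ W, ∑ l, u l * v l = 0 := by
    intro u hu v hv
    have h := hiso (u + v) (W.add_mem hu hv)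
    have h1 : ∑ l, (u + v) l ^ 2 = ∑ l, u l ^ 2 + ∑ l, v l ^ 2 + 2 * ∑ l, u l * v l := by
      rw [Finset.mul_sum, ← Finset.sum_add_distrib, ← Finset.sum_add_distrib]
      apply Finset.sum_congr rfl
      intro l _
      simp only [Pi.add_apply]
      ring
    rw [h1, hiso u hu, hiso v hv] at h
    simpa [h2] using h
  let C : Matrix (Fin m) (Fin m) F := Matrix.of fun i j => ∑ l, (bW i : Fin (2 * m) → F) l * (bW' j : Fin (2 * m) → F) l
  let D : Matrix (Fin m) (Fin m) F := Matrix.of fun i j => ∑ l, (bW' i : Fin (2 * m) → F) l * (bW' j : Fin (2 * m) → F) l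
  have hG : Q * Qᵀ = fromBlocks 0 C Cᵀ D := by
    ext i j
    rw [hentry]
    rcases i with i | i <;> rcases j with j | j
    · simp only [fromBlocks_apply₁₁, hinl, Matrix.zero_apply]
      exact hpol _ (bW i).2 _ (bW j).2
    · simp only [fromBlocks_apply₁₂, hinl, hinr]
      rfl
    · simp only [fromBlocks_apply₂₁, hinl, hinr, transpose_apply]
      simp only [C, of_apply]
      apply Finset.sum_congr rfl
      intro l _
      ring
    · simp only [fromBlocks_apply₂₂, hinr]
      rfl
  have hdet := congrArg det hG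
  rw [det_mul, det_transpose, det_block_zero, hodd.neg_one_pow] at hdet
  have hQ0 : Q.det ≠ 0 := ((Matrix.isUnit_iff_isUnit_det _).1 hQ).ne_zero
  have hC0 : C.det ≠ 0 := by
    intro h0
    rw [h0] at hdet
    simp at hdet
    exact hQ0 hdet
  apply hnosq
  refine ⟨Q.det / C.det, ?_⟩
  field_simp
  linear_combination -hdet

/-- The totally isotropic subspace in case `-1` is a square. -/
theorem lagr_of_i (i : F) (hi : i * i = -1) (m : ℕ) :
    ∃ W : Submodule F (Fin (2 * m) → F), finrank F W = m ∧ ∀ w ∈ W, ∑ l, w l ^ 2 = 0 := by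
  let T : (Fin m → F) →ₗ[F] (Fin (2 * m) → F) :=
    { toFun := fun c l => Sum.elim c (fun j => i * c j) ((idx m).symm l)
      map_add' := fun c c' => by
        funext l
        simp only [Pi.add_apply]
        generalize (idx m).symm l = x
        rcases x with j | j <;> simp [mul_add]
      map_smul' := fun r c => by
        funext l
        simp only [Pi.smul_apply, RingHom.id_apply]
        generalize (idx m).symm l = x
        rcases x with j | j <;> simp
        ring }
  have hT : ∀ c l, T c l = Sum.elim c (fun j => i * c j) ((idx m).symm l) := fun _ _ => rfl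
  have hinj : Function.Injective T := by
    intro c c' h
    funext j
    have := congrFun h (idx m (.inl j))
    simpa [hT] using this
  refine ⟨LinearMap.range T, ?_, ?_⟩
  · rw [LinearMap.finrank_range_of_inj hinj]
    simp
  · rintro _ ⟨c, rfl⟩
    rw [← Equiv.sum_comp (idx m), Fintype.sum_sum_type]
    simp only [hT, Equiv.symm_apply_apply, Sum.elim_inl, Sum.elim_inr]
    rw [← Finset.sum_add_distrib]
    apply Finset.sum_eq_zero
    intro j _
    linear_combination (c j) ^ 2 * hi

/-- The totally isotropic subspace in case the dimension is divisible by four. -/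
theorem lagr_of_ab (a b : F) (hab : a ^ 2 + b ^ 2 = -1) (k : ℕ) :
    ∃ W : Submodule F (Fin (2 * (k + k)) → F), finrank F W = k + k ∧ ∀ w ∈ W, ∑ l, w l ^ 2 = 0 := by
  let L : Fin k → Fin (k + k) := fun j => finSumFinEquiv (.inl j)
  let R : Fin k → Fin (k + k) := fun j => finSumFinEquiv (.inr j)
  let ψ : (Fin (k + k) → F) → (Fin (k + k) → F) := fun c l =>
    Sum.elim (fun j => a * c (L j) - b * c (R j)) (fun j => b * c (L j) + a * c (R j))
      (finSumFinEquiv.symm l)
  let T : (Fin (k + k) → F) →ₗ[F] (Fin (2 * (k + k)) → F) :=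
    { toFun := fun c l => Sum.elim c (ψ c) ((idx (k + k)).symm l)
      map_add' := fun c c' => by
        funext l
        simp only [Pi.add_apply]
        generalize (idx (k + k)).symm l = x
        rcases x with j | j
        · simp
        · simp only [Sum.elim_inr, Pi.add_apply, ψ]
          generalize finSumFinEquiv.symm j = y
          rcases y with j' | j' <;> simp <;> ring
      map_smul' := fun r c => by
        funext l
        simp only [Pi.smul_apply, RingHom.id_apply]
        generalize (idx (k + k)).symm l = x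
        rcases x with j | j
        · simp
        · simp only [Sum.elim_inr, Pi.smul_apply, ψ, RingHom.id_apply, smul_eq_mul]
          generalize finSumFinEquiv.symm j = y
          rcases y with j' | j' <;> simp <;> ring }
  have hT : ∀ c l, T c l = Sum.elim c (ψ c) ((idx (k + k)).symm l) := fun _ _ => rfl
  have hinj : Function.Injective T := by
    intro c c' h
    funext j
    have := congrFun h (idx (k + k) (.inl j))
    simpa [hT] using this
  refine ⟨LinearMap.range T, ?_, ?_⟩
  · rw [LinearMap.finrank_range_of_inj hinj]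
    simp
  · rintro _ ⟨c, rfl⟩
    rw [← Equiv.sum_comp (idx (k + k)), Fintype.sum_sum_type]
    simp only [hT, Equiv.symm_apply_apply, Sum.elim_inl, Sum.elim_inr]
    rw [← Equiv.sum_comp (finSumFinEquiv (m := k) (n := k)), Fintype.sum_sum_type,
      ← Equiv.sum_comp (finSumFinEquiv (m := k) (n := k)) (fun l => ψ c l ^ 2),
      Fintype.sum_sum_type]
    simp only [ψ, Equiv.symm_apply_apply, Sum.elim_inl, Sum.elim_inr]
    have : ∀ x y z t : F, x + y + (z + t) = (x + z) + (y + t) := fun x y z t => by ring
    rw [this, ← Finset.sum_add_distrib, ← Finset.sum_add_distrib, ← Finset.sum_add_distrib]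
    apply Finset.sum_eq_zero
    intro j _
    change c (L j) ^ 2 + (a * c (L j) - b * c (R j)) ^ 2 +
      (c (R j) ^ 2 + (b * c (L j) + a * c (R j)) ^ 2) = 0
    linear_combination (c (L j) ^ 2 + c (R j) ^ 2) * hab

/-- Type of the orthonormal form: over a finite field of odd order q and for m ≥ 1, the quadratic form Σ_(i<2m) x_i² on F^(2m) admits an m-dimensional subspace on which it vanishes identically if and only if it is not the case that q ≡ 3 (mod 4) and m is odd. -/
theorem result {F : Type*} [Field F] [Fintype F] (h2 : (2 : F) ≠ 0) (m : ℕ) (hm : 1 ≤ m) : (∃ W : Submodule F (Fin (2 * m) → F), Module.finrank F W = m ∧ ∀ w ∈ W, ∑ i, w i ^ 2 = 0) ↔ ¬ (Fintype.card F % 4 = 3 ∧ Odd m) := by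
  have hsq := FiniteField.isSquare_neg_one_iff (F := F)
  constructor
  · rintro ⟨W, hW, hiso⟩ ⟨h3, hodd⟩
    refine no_lagrangian h2 hodd ?_ W hW hiso
    intro hs
    exact (hsq.1 hs) h3
  · intro h
    by_cases h3 : Fintype.card F % 4 = 3
    · have heven : Even m := by
        rw [← Nat.not_odd_iff_even]
        exact fun ho => h ⟨h3, ho⟩
      obtain ⟨k, rfl⟩ := heven
      obtain ⟨p, hp⟩ := CharP.exists F
      have : Fact p.Prime := ⟨CharP.char_is_prime F p⟩
      have : NeZero p := ⟨(Fact.out : p.Prime).ne_zero⟩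
      obtain ⟨a, b, hab⟩ := CharP.sq_add_sq F p (-1)
      exact lagr_of_ab (a : F) (b : F) (by simpa using hab) k
    · obtain ⟨i, hi⟩ := hsq.2 h3
      exact lagr_of_i i hi.symm m

end Cfsg.Agent.S0759
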