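import Cfsg.Statements.S0761
import Mathlib
-- import your own Cfsg.Agent.* helpers here

set_option autoImplicit false
open Cfsg

namespace Cfsg.Agent.S0761

/-- Hyperbolic partners: let B be a non-degenerate bilinear form on a finite-dimensional space, either alternating, or symmetric with 2 ≠ 0. If Z is a subspace on which B vanishes, x ∉ Z is isotropic and orthogonal to Z, then there is an isotropic y with B x y = 1 which is orthogonal to Z. -/
theorem result {F V : Type*} [Field F] [AddCommGroup V] [Module F V] [FiniteDimensional F V] (B : LinearMap.BilinForm F V) (hB : B.Nondegenerate) (hform : B.IsAlt ∨ (B.IsSymm ∧ (2 : F) ≠ 0)) (x : V) (Z : Submodule F V) (hxZ : x ∉ Z) (hx : B x x = 0) (hxz : ∀ z ∈ Z, B x z = 0) (hZ : ∀ z ∈ Z, ∀ z' ∈ Z, B z z' = 0) : ∃ y : V, B y y = 0 ∧ B x y = 1 ∧ ∀ z ∈ Z, B z y = 0 := by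
  obtain ⟨f, hfx, hfZ⟩ := Submodule.exists_le_ker_of_notMem hxZ
  -- normalise
  set g : Module.Dual F V := (f x)⁻¹ • f with hg
  have hgx : g x = 1 := by simp [hg, hfx]
  have hgZ : ∀ z ∈ Z, g z = 0 := by
    intro z hz
    have : f z = 0 := hfZ hz
    simp [hg, this]
  set y1 : V := (B.toDual hB).symm g with hy1
  have hy1v : ∀ v, B y1 v = g v := fun v => LinearMap.BilinForm.apply_toDual_symm_apply g v
  rcases hform with halt | ⟨hsymm, h2⟩
  · refine ⟨-y1, ?_, ?_, ?_⟩
    · exact halt.self_eq_zero _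
    · rw [map_neg, halt.neg_eq, hy1v, hgx]
    · intro z hz
      rw [map_neg, halt.neg_eq, hy1v, hgZ z hz]
  · set c : F := B y1 y1 / 2 with hc
    have h2c : 2 * c = B y1 y1 := by
      rw [hc]; field_simp
    have hxy1 : B x y1 = 1 := by rw [hsymm.eq, hy1v, hgx]
    have hy1x : B y1 x = 1 := by rw [hy1v, hgx]
    refine ⟨y1 - c • x, ?_, ?_, ?_⟩
    · simp only [map_sub, map_smul, LinearMap.sub_apply, LinearMap.smul_apply, smul_eq_mul, hx,
        hxy1, hy1x]
      linear_combination -h2c
    · simp only [map_sub, map_smul, smul_eq_mul, hx, hxy1]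
      ring
    · intro z hz
      have h1 : B z y1 = 0 := by rw [hsymm.eq, hy1v, hgZ z hz]
      have h3 : B z x = 0 := by rw [hsymm.eq]; exact hxz z hz
      simp only [map_sub, map_smul, smul_eq_mul, h1, h3]
      ring

end Cfsg.Agent.S0761
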