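import Cfsg.Statements.S0763
import Mathlib
-- import your own Cfsg.Agent.* helpers here

set_option autoImplicit false
open Cfsg

namespace Cfsg.Agent.S0763

/-- Binary quadratic forms in characteristic two over a finite field: if Q is a quadratic form on a 2-dimensional space whose polar form is non-degenerate, then either there are vectors v, w with Q v = Q w = 0 and polar value 1 (Q is xy in these coordinates), or there are v, w and μ with Q v = 1, Q w = μ, polar value 1 and x² + x + μ without roots in F (Q is x² + xy + μy²). -/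
theorem result {F V : Type*} [Field F] [Finite F] [CharP F 2] [AddCommGroup V] [Module F V] (Q : QuadraticForm F V) (h2 : Module.finrank F V = 2) (hQ : (QuadraticMap.polarBilin Q).Nondegenerate) : (∃ v w : V, LinearIndependent F ![v, w] ∧ Q v = 0 ∧ Q w = 0 ∧ QuadraticMap.polar Q v w = 1) ∨ (∃ (v w : V) (μ : F), LinearIndependent F ![v, w] ∧ (∀ x : F, x ^ 2 + x + μ ≠ 0) ∧ Q v = 1 ∧ Q w = μ ∧ QuadraticMap.polar Q v w = 1) := by
  classical
  have : Fintype F := Fintype.ofFinite F
  have two0 : (2 : F) = 0 := CharTwo.two_eq_zero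
  have partner : ∀ v : V, v ≠ 0 → ∃ w : V, QuadraticMap.polar Q v w = 1 := by
    intro v hv
    have h0 : ∃ y, QuadraticMap.polar Q v y ≠ 0 := by
      by_contra h
      push Not at h
      exact hv (hQ.1 v h)
    obtain ⟨y, hy⟩ := h0
    refine ⟨(QuadraticMap.polar Q v y)⁻¹ • y, ?_⟩
    rw [QuadraticMap.polar_smul_right, smul_eq_mul, inv_mul_cancel₀ hy]
  have pself : ∀ v, QuadraticMap.polar Q v v = 0 := by
    intro v
    rw [QuadraticMap.polar_self, two_smul, CharTwo.add_self_eq_zero]
  have indep : ∀ v w : V, QuadraticMap.polar Q v w = 1 → LinearIndependent F ![v, w] := by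
    intro v w hvw
    rw [LinearIndependent.pair_iff]
    intro s t hst
    have h1 : QuadraticMap.polar Q v (s • v + t • w) = 0 := by
      rw [hst, QuadraticMap.polar_zero_right]
    rw [QuadraticMap.polar_add_right, QuadraticMap.polar_smul_right, QuadraticMap.polar_smul_right,
      pself, hvw] at h1
    simp at h1
    subst h1
    have h2 : QuadraticMap.polar Q w (s • v + (0 : F) • w) = 0 := by
      rw [hst, QuadraticMap.polar_zero_right]
    rw [QuadraticMap.polar_add_right, QuadraticMap.polar_smul_right, QuadraticMap.polar_smul_right,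
      pself, QuadraticMap.polar_comm, hvw] at h2
    simp at h2
    exact ⟨h2, rfl⟩
  have hne : ∃ v : V, v ≠ 0 := by
    have : Nontrivial V := Module.nontrivial_of_finrank_pos (R := F) (by omega)
    exact exists_ne 0
  by_cases hs : ∃ v : V, v ≠ 0 ∧ Q v = 0
  · obtain ⟨v, hv, hQv⟩ := hs
    obtain ⟨w, hw⟩ := partner v hv
    left
    have hp : QuadraticMap.polar Q v (w + Q w • v) = 1 := by
      rw [QuadraticMap.polar_add_right, QuadraticMap.polar_smul_right, pself, hw]
      simp
    refine ⟨v, w + Q w • v, indep _ _ hp, hQv, ?_, hp⟩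
    rw [QuadraticMap.map_add Q, QuadraticMap.map_smul, hQv, QuadraticMap.polar_smul_right,
      QuadraticMap.polar_comm, hw]
    simp only [smul_eq_mul, mul_zero, add_zero, mul_one]
    exact CharTwo.add_self_eq_zero _
  · push Not at hs
    obtain ⟨v₀, hv₀⟩ := hne
    have hQv₀ : Q v₀ ≠ 0 := hs v₀ hv₀
    have hsq : IsSquare (Q v₀)⁻¹ := FiniteField.isSquare_of_char_two (ringChar.eq F 2) _
    obtain ⟨c, hc⟩ := hsq
    have hc0 : c ≠ 0 := by
      rintro rfl
      simp at hc
      exact hQv₀ hc
    set v : V := c • v₀ with hvdef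
    have hQv : Q v = 1 := by
      rw [hvdef, QuadraticMap.map_smul, ← hc, smul_eq_mul, inv_mul_cancel₀ hQv₀]
    have hv : v ≠ 0 := by
      intro h
      rw [h, QuadraticMap.map_zero] at hQv
      exact zero_ne_one hQv
    obtain ⟨w, hw⟩ := partner v hv
    right
    refine ⟨v, w, Q w, indep _ _ hw, ?_, hQv, rfl, hw⟩
    intro x hx
    have h0 : Q (w + x • v) = 0 := by
      rw [QuadraticMap.map_add Q, QuadraticMap.map_smul, hQv, QuadraticMap.polar_smul_right,
        QuadraticMap.polar_comm, hw]
      simp only [smul_eq_mul, mul_one]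
      linear_combination hx
    have h1 : w + x • v ≠ 0 := by
      intro h
      have : QuadraticMap.polar Q v (w + x • v) = 1 := by
        rw [QuadraticMap.polar_add_right, QuadraticMap.polar_smul_right, pself, hw]
        simp
      rw [h, QuadraticMap.polar_zero_right] at this
      exact zero_ne_one this
    exact hs _ h1 h0

end Cfsg.Agent.S0763
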