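import Cfsg.Statements.S0764
import Mathlib
-- import your own Cfsg.Agent.* helpers here

set_option autoImplicit false
open Cfsg

namespace Cfsg.Agent.S0764

/-- Symplectic transvections are isometries: for every vector v and scalar c the matrix of x ↦ x + c f(x, v) v lies in the symplectic group. -/
theorem result {F : Type*} [Field F] (m : ℕ) (v : Fin m ⊕ Fin m → F) (c : F) : Cfsg.sympTransvection m v c ∈ Matrix.symplecticGroup (Fin m) F := by
  classical
  rw [SymplecticGroup.mem_iff]
  unfold Cfsg.sympTransvection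
  set J := Matrix.J (Fin m) F with hJ
  set w := J.mulVec v with hw
  have hJJ : J * J = -1 := Matrix.J_squared (Fin m) F
  have hJt : J.transpose = -J := Matrix.J_transpose (Fin m) F
  -- the coordinates of `w = J v`
  have hwl : ∀ i, w (Sum.inl i) = - v (Sum.inr i) := by
    intro i
    have := congrFun (Matrix.fromBlocks_mulVec (A := (0 : Matrix (Fin m) (Fin m) F))
      (B := (-1 : Matrix (Fin m) (Fin m) F)) (C := (1 : Matrix (Fin m) (Fin m) F))
      (D := (0 : Matrix (Fin m) (Fin m) F)) v) (Sum.inl i)
    simp only [Sum.elim_inl, Matrix.zero_mulVec, Matrix.neg_mulVec, Matrix.one_mulVec, zero_add,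
      Pi.neg_apply] at this
    exact this
  have hwr : ∀ i, w (Sum.inr i) = v (Sum.inl i) := by
    intro i
    have := congrFun (Matrix.fromBlocks_mulVec (A := (0 : Matrix (Fin m) (Fin m) F))
      (B := (-1 : Matrix (Fin m) (Fin m) F)) (C := (1 : Matrix (Fin m) (Fin m) F))
      (D := (0 : Matrix (Fin m) (Fin m) F)) v) (Sum.inr i)
    simp only [Sum.elim_inr, Matrix.zero_mulVec, Matrix.one_mulVec, add_zero] at this
    exact this
  -- `v ⬝ᵥ J v = 0` because the form is alternating
  have h0 : v ⬝ᵥ w = 0 := by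
    simp only [dotProduct, Fintype.sum_sum_type, hwl, hwr]
    rw [← Finset.sum_add_distrib]
    apply Finset.sum_eq_zero
    intro i _
    ring
  have hJw : J.mulVec w = - v := by
    rw [hw, Matrix.mulVec_mulVec, hJJ, Matrix.neg_mulVec, Matrix.one_mulVec]
  have hwJ : Matrix.vecMul w J = v := by
    rw [← Matrix.mulVec_transpose, hJt, Matrix.neg_mulVec, hJw, neg_neg]
  rw [Matrix.transpose_add, Matrix.transpose_one, Matrix.transpose_smul,
    Matrix.transpose_vecMulVec, Matrix.add_mul, Matrix.one_mul, Matrix.smul_mul,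
    Matrix.vecMulVec_mul, hwJ, Matrix.mul_add, Matrix.mul_one, Matrix.add_mul,
    Matrix.mul_smul, Matrix.mul_vecMulVec, hJw, Matrix.smul_mul, Matrix.mul_smul,
    Matrix.vecMulVec_mul_vecMulVec, h0, zero_smul, Matrix.vecMulVec_zero, smul_zero, smul_zero,
    Matrix.neg_vecMulVec, smul_neg]
  abel

end Cfsg.Agent.S0764
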