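import Cfsg.Statements.S0769
import Mathlib

set_option autoImplicit false
open Cfsg

namespace Cfsg.Agent.S0769

open Matrix

/-- The strictly lower triangular positions. -/
abbrev Pos (n : ℕ) : Type := Σ i : Fin n, Fin (i : ℕ)

/-- The position inside `Fin n`. -/
def Pos.col {n : ℕ} (p : Pos n) : Fin n := ⟨p.2, p.2.2.trans p.1.2⟩

theorem card_pos (n : ℕ) : Fintype.card (Pos n) = n * (n - 1) / 2 := by
  rw [Fintype.card_sigma]
  simp only [Fintype.card_fin]
  rw [Fin.sum_univ_eq_sum_range (fun i => i) n, Finset.sum_range_id]

variable {F : Type*} [Field F]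

theorem lower_diag_ne_zero {n : ℕ} (g : GL (Fin n) F)
    (hg : ∀ i j : Fin n, i < j → (g : Matrix (Fin n) (Fin n) F) i j = 0) (i : Fin n) :
    (g : Matrix (Fin n) (Fin n) F) i i ≠ 0 := by
  have hdet : (g : Matrix (Fin n) (Fin n) F).det ≠ 0 := by
    have := (Matrix.isUnit_iff_isUnit_det _).1 g.isUnit
    exact this.ne_zero
  have hb : (g : Matrix (Fin n) (Fin n) F).BlockTriangular OrderDual.toDual := by
    intro a b hab
    exact hg a b hab
  rw [Matrix.det_of_isLowerTriangular _ hb] at hdet
  exact fun h => hdet (Finset.prod_eq_zero (Finset.mem_univ i) h)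

/-- The matrix with given strictly lower and diagonal part. -/
noncomputable def build {n : ℕ} (a : Pos n → F) (d : Fin n → Fˣ) : Matrix (Fin n) (Fin n) F :=
  Matrix.of fun i j => if h : (j : ℕ) < i then a ⟨i, ⟨j, h⟩⟩ else if i = j then (d i : F) else 0

theorem build_lower {n : ℕ} (a : Pos n → F) (d : Fin n → Fˣ) (i j : Fin n) (h : (j : ℕ) < i) :
    build a d i j = a ⟨i, ⟨j, h⟩⟩ := dif_pos h

theorem build_not_lower {n : ℕ} (a : Pos n → F) (d : Fin n → Fˣ) (i j : Fin n) (h : ¬ (j : ℕ) < i) :
    build a d i j = if i = j then (d i : F) else 0 := dif_neg h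

theorem build_upper {n : ℕ} (a : Pos n → F) (d : Fin n → Fˣ) (i j : Fin n) (h : i < j) :
    build a d i j = 0 := by
  have h1 : ¬ (j : ℕ) < i := by
    have : (i : ℕ) < j := h
    omega
  have h2 : i ≠ j := ne_of_lt h
  rw [build_not_lower a d i j h1, if_neg h2]

theorem build_diag {n : ℕ} (a : Pos n → F) (d : Fin n → Fˣ) (i : Fin n) :
    build a d i i = d i := by
  rw [build_not_lower a d i i (lt_irrefl _), if_pos rfl]

theorem build_det {n : ℕ} (a : Pos n → F) (d : Fin n → Fˣ) : (build a d).det ≠ 0 := by
  have hb : (build a d).BlockTriangular OrderDual.toDual := by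
    intro x y hxy
    exact build_upper a d x y hxy
  rw [Matrix.det_of_isLowerTriangular _ hb, Finset.prod_ne_zero_iff]
  intro i _
  rw [build_diag]
  exact (d i).ne_zero

/-- Order of the Borel subgroup of GL_n(q): the invertible lower-triangular n × n matrices over a field with q elements number q^(n(n-1)/2) (q-1)^n (unitriangular part times the diagonal torus). -/
theorem result {F : Type*} [Field F] [Fintype F] {q : ℕ} (hF : Fintype.card F = q) (n : ℕ) : Nat.card {g : Matrix.GeneralLinearGroup (Fin n) F // ∀ i j : Fin n, i < j → (g : Matrix (Fin n) (Fin n) F) i j = 0} = q ^ (n * (n - 1) / 2) * (q - 1) ^ n := by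
  classical
  subst hF
  let e : {g : Matrix.GeneralLinearGroup (Fin n) F // ∀ i j : Fin n, i < j → (g : Matrix (Fin n) (Fin n) F) i j = 0} ≃
      (Pos n → F) × (Fin n → Fˣ) :=
    { toFun := fun g => (fun p => (g.1 : Matrix (Fin n) (Fin n) F) p.1 p.col,
        fun i => Units.mk0 _ (lower_diag_ne_zero g.1 g.2 i))
      invFun := fun ab => ⟨Matrix.GeneralLinearGroup.mkOfDetNeZero (build ab.1 ab.2) (build_det _ _),
        fun i j h => build_upper ab.1 ab.2 i j h⟩
      left_inv := by
        rintro ⟨g, hg⟩
        apply Subtype.ext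
        apply Units.ext
        ext i j
        show build _ _ i j = _
        by_cases h : (j : ℕ) < i
        · rw [build_lower _ _ i j h]
          rfl
        · rw [build_not_lower _ _ i j h]
          by_cases hij : i = j
          · subst hij
            rw [if_pos rfl]
            rfl
          · have hlt : i < j := by
              have : (i : ℕ) ≠ j := fun e => hij (Fin.ext e)
              show (i : ℕ) < j
              omega
            rw [if_neg hij, hg i j hlt]
      right_inv := by
        rintro ⟨a, d⟩
        refine Prod.ext ?_ ?_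
        · funext p
          show build a d p.1 p.col = a p
          have h : ((p.col : Fin n) : ℕ) < p.1 := p.2.2
          rw [build_lower _ _ _ _ h]
          rfl
        · funext i
          apply Units.ext
          show build a d i i = _
          exact build_diag a d i }
  rw [Nat.card_congr e, Nat.card_eq_fintype_card, Fintype.card_prod, Fintype.card_fun, Fintype.card_fun,
    card_pos, Fintype.card_units, Fintype.card_fin]

end Cfsg.Agent.S0769
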