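import Cfsg.Statements.S0770
import Mathlib
-- import your own Cfsg.Agent.* helpers here

set_option autoImplicit false
open Cfsg

namespace Cfsg.Agent.S0770

open Matrix in
theorem mem_D_iff {F : Type*} [Field F] {n : ℕ} (h : Matrix.GeneralLinearGroup (Fin n) F) :
    h ∈ ((Units.map (Matrix.diagonalRingHom (Fin n) F).toMonoidHom).range :
      Subgroup (Matrix.GeneralLinearGroup (Fin n) F)) ↔
    ∃ d : Fin n → F, (∀ i, d i ≠ 0) ∧ (h : Matrix (Fin n) (Fin n) F) = Matrix.diagonal d := by
  constructor
  · rintro ⟨u, rfl⟩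
    refine ⟨(u : Fin n → F), ?_, rfl⟩
    intro i hi
    have h1 : ((u : Fin n → F) * ((u⁻¹ : (Fin n → F)ˣ) : Fin n → F)) i = (1 : Fin n → F) i := by
      rw [Units.mul_inv]
    simp [hi] at h1
  · rintro ⟨d, hd, hh⟩
    refine ⟨⟨d, fun i => (d i)⁻¹, ?_, ?_⟩, ?_⟩
    · funext i; simp [hd i]
    · funext i; simp [hd i]
    · apply Units.ext
      simp [hh]

/-- For a field with at least 3 elements, an invertible matrix normalises the subgroup of invertible diagonal matrices of GL_n if and only if it is monomial (exactly one non-zero entry in each row). -/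
theorem result {F : Type*} [Field F] (hF : ∃ a : F, a ≠ 0 ∧ a ≠ 1) (n : ℕ) (g : Matrix.GeneralLinearGroup (Fin n) F) : g ∈ Subgroup.normalizer ((Units.map (Matrix.diagonalRingHom (Fin n) F).toMonoidHom).range : Subgroup (Matrix.GeneralLinearGroup (Fin n) F)) ↔ ∀ i : Fin n, ∃! j : Fin n, (g : Matrix (Fin n) (Fin n) F) i j ≠ 0 := by
  classical
  rw [Subgroup.mem_normalizer_iff]
  set D := ((Units.map (Matrix.diagonalRingHom (Fin n) F).toMonoidHom).range :
      Subgroup (Matrix.GeneralLinearGroup (Fin n) F)) with hD
  have hgg : (g : Matrix (Fin n) (Fin n) F) * ((g⁻¹ : Matrix.GeneralLinearGroup (Fin n) F) :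
      Matrix (Fin n) (Fin n) F) = 1 := by
    rw [← Units.val_mul]; simp
  have hgg' : ((g⁻¹ : Matrix.GeneralLinearGroup (Fin n) F) :
      Matrix (Fin n) (Fin n) F) * (g : Matrix (Fin n) (Fin n) F) = 1 := by
    rw [← Units.val_mul]; simp
  constructor
  · intro hg i
    -- row `i` is nonzero
    obtain ⟨j₀, hj₀⟩ : ∃ j, (g : Matrix (Fin n) (Fin n) F) i j ≠ 0 := by
      by_contra hcon
      push Not at hcon
      have h1 := congrFun (congrFun hgg i) i
      simp [Matrix.mul_apply, hcon] at h1
    refine ⟨j₀, hj₀, ?_⟩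
    intro j₁ hj₁
    by_contra hne
    obtain ⟨a, ha0, ha1⟩ := hF
    -- the diagonal matrix with `a` at `j₀`
    have hd : ∀ k, (Function.update (1 : Fin n → F) j₀ a) k ≠ 0 := by
      intro k
      by_cases hk : k = j₀
      · subst hk; simpa using ha0
      · simp [Function.update_of_ne hk]
    let t : Matrix.GeneralLinearGroup (Fin n) F :=
      ⟨Matrix.diagonal (Function.update (1 : Fin n → F) j₀ a),
       Matrix.diagonal (fun k => ((Function.update (1 : Fin n → F) j₀ a) k)⁻¹),
       by simp [Matrix.diagonal_mul_diagonal, hd, ← Matrix.diagonal_one],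
       by simp [Matrix.diagonal_mul_diagonal, hd, ← Matrix.diagonal_one]⟩
    have ht : t ∈ D := (mem_D_iff t).2 ⟨_, hd, rfl⟩
    obtain ⟨s, -, hs⟩ := (mem_D_iff _).1 ((hg t).1 ht)
    have hgt : (g : Matrix (Fin n) (Fin n) F) * (t : Matrix (Fin n) (Fin n) F) =
        Matrix.diagonal s * (g : Matrix (Fin n) (Fin n) F) := by
      rw [← hs]
      simp only [Units.val_mul, Matrix.mul_assoc, hgg', Matrix.mul_one]
    have e0 := congrFun (congrFun hgt i) j₀
    have e1 := congrFun (congrFun hgt i) j₁
    simp only [t, Matrix.mul_diagonal, Matrix.diagonal_mul, Function.update_self,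
      Function.update_of_ne hne, Pi.one_apply, mul_one] at e0 e1
    have h1 : s i = 1 := by
      have : (g : Matrix (Fin n) (Fin n) F) i j₁ * (1 - s i) = 0 := by
        linear_combination e1
      rcases mul_eq_zero.1 this with h | h
      · exact absurd h hj₁
      · exact (sub_eq_zero.1 h).symm
    apply ha1
    have : (g : Matrix (Fin n) (Fin n) F) i j₀ * (a - 1) = 0 := by
      rw [h1] at e0
      linear_combination e0
    rcases mul_eq_zero.1 this with h | h
    · exact absurd h hj₀
    · exact sub_eq_zero.1 h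
  · intro hmon
    choose σ hσ hσ' using hmon
    have hinj : Function.Injective σ := by
      intro i i' hii
      by_contra hne
      have h1 := congrFun (congrFun hgg i) i
      have h2 := congrFun (congrFun hgg i') i
      have key : ∀ l, (Finset.univ.sum fun j => (g : Matrix (Fin n) (Fin n) F) l j *
          ((g⁻¹ : Matrix.GeneralLinearGroup (Fin n) F) : Matrix (Fin n) (Fin n) F) j i) =
          (g : Matrix (Fin n) (Fin n) F) l (σ l) *
          ((g⁻¹ : Matrix.GeneralLinearGroup (Fin n) F) : Matrix (Fin n) (Fin n) F) (σ l) i := by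
        intro l
        apply Finset.sum_eq_single
        · intro b _ hb
          have : (g : Matrix (Fin n) (Fin n) F) l b = 0 := by
            by_contra hc
            exact hb (hσ' l b hc)
          simp [this]
        · simp
      rw [Matrix.mul_apply, key] at h1 h2
      rw [Matrix.one_apply_eq] at h1
      rw [Matrix.one_apply_ne (Ne.symm hne), ← hii] at h2
      rcases mul_eq_zero.1 h2 with h | h
      · exact hσ i' (hii ▸ h)
      · rw [h] at h1; simp at h1
    have hbij : Function.Bijective σ := Finite.injective_iff_bijective.1 hinj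
    let e : Fin n ≃ Fin n := Equiv.ofBijective σ hbij
    have he : ∀ i, e i = σ i := fun i => rfl
    -- `g * diag d = diag (d ∘ σ) * g`
    have hcomm : ∀ d : Fin n → F, (g : Matrix (Fin n) (Fin n) F) * Matrix.diagonal d =
        Matrix.diagonal (d ∘ σ) * (g : Matrix (Fin n) (Fin n) F) := by
      intro d
      ext i j
      rw [Matrix.mul_diagonal, Matrix.diagonal_mul]
      by_cases hij : j = σ i
      · subst hij; simp [mul_comm]
      · have : (g : Matrix (Fin n) (Fin n) F) i j = 0 := by
          by_contra hc
          exact hij (hσ' i j hc)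
        simp [this]
    intro h
    constructor
    · intro hh
      obtain ⟨d, hd, hhd⟩ := (mem_D_iff h).1 hh
      refine (mem_D_iff _).2 ⟨d ∘ σ, fun i => hd _, ?_⟩
      simp only [Units.val_mul]
      rw [hhd, hcomm, Matrix.mul_assoc, hgg, Matrix.mul_one]
    · intro hh
      obtain ⟨s, hs, hhs⟩ := (mem_D_iff _).1 hh
      refine (mem_D_iff h).2 ⟨s ∘ e.symm, fun i => hs _, ?_⟩
      have h1 : (g : Matrix (Fin n) (Fin n) F) * (h : Matrix (Fin n) (Fin n) F) =
          Matrix.diagonal s * (g : Matrix (Fin n) (Fin n) F) := by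
        rw [← hhs]
        simp only [Units.val_mul, Matrix.mul_assoc, hgg', Matrix.mul_one]
      have h2 : (g : Matrix (Fin n) (Fin n) F) * Matrix.diagonal (s ∘ e.symm) =
          Matrix.diagonal s * (g : Matrix (Fin n) (Fin n) F) := by
        rw [hcomm]
        congr 2
        funext i
        simp only [Function.comp, ← he]
        simp
      have h3 := h1.trans h2.symm
      have h4 := congrArg (fun M => ((g⁻¹ : Matrix.GeneralLinearGroup (Fin n) F) :
        Matrix (Fin n) (Fin n) F) * M) h3
      simpa only [← Matrix.mul_assoc, hgg', Matrix.one_mul] using h4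

end Cfsg.Agent.S0770
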