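import Cfsg.Statements.S0771
import Mathlib
import Cfsg.Agent.Lib.Classical.Lin.Parabolic
-- import your own Cfsg.Agent.* helpers here

set_option autoImplicit false
open Cfsg

namespace Cfsg.Agent.S0771

open Matrix Cfsg.Agent.Lib.Classical.Lin.Parabolic
open scoped MatrixGroups

/-- The reindexing of `Fin n` as the disjoint union of the first `k` and the last `n - k` indices. -/
def ee {n k : ℕ} (hk : k ≤ n) : Fin k ⊕ Fin (n - k) ≃ Fin n :=
  finSumFinEquiv.trans (finCongr (Nat.add_sub_of_le hk))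

theorem ee_inl {n k : ℕ} (hk : k ≤ n) (i : Fin k) : ((ee hk (Sum.inl i) : Fin n) : ℕ) = i := by
  simp [ee]

theorem ee_inr {n k : ℕ} (hk : k ≤ n) (i : Fin (n - k)) : ((ee hk (Sum.inr i) : Fin n) : ℕ) = k + i := by
  simp [ee]

variable {F : Type*} [Field F] {n k : ℕ}

theorem blocks₂₁ (hk : k ≤ n) (g : stabP n k F) :
    ((g.1 : Matrix (Fin n) (Fin n) F).submatrix (ee hk) (ee hk)).toBlocks₂₁ = 0 := by
  ext i j
  have h := mem_stabP_iff.1 g.2 (ee hk (Sum.inr i)) (ee hk (Sum.inl j))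
    (by rw [ee_inr]; omega) (by rw [ee_inl]; exact j.2)
  simpa [Matrix.toBlocks₂₁] using h

theorem blocks_eq (hk : k ≤ n) (g : stabP n k F) :
    (g.1 : Matrix (Fin n) (Fin n) F).submatrix (ee hk) (ee hk) =
      fromBlocks ((g.1 : Matrix (Fin n) (Fin n) F).submatrix (ee hk) (ee hk)).toBlocks₁₁
        ((g.1 : Matrix (Fin n) (Fin n) F).submatrix (ee hk) (ee hk)).toBlocks₁₂ 0
        ((g.1 : Matrix (Fin n) (Fin n) F).submatrix (ee hk) (ee hk)).toBlocks₂₂ := by
  rw [← blocks₂₁ hk g, Matrix.fromBlocks_toBlocks]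

theorem blocks_det (hk : k ≤ n) (g : stabP n k F) :
    ((g.1 : Matrix (Fin n) (Fin n) F).submatrix (ee hk) (ee hk)).toBlocks₁₁.det *
      ((g.1 : Matrix (Fin n) (Fin n) F).submatrix (ee hk) (ee hk)).toBlocks₂₂.det =
      (g.1 : Matrix (Fin n) (Fin n) F).det := by
  rw [← Matrix.det_fromBlocks_zero₂₁ _ ((g.1 : Matrix (Fin n) (Fin n) F).submatrix (ee hk) (ee hk)).toBlocks₁₂,
    ← blocks_eq hk g, Matrix.det_submatrix_equiv_self]

theorem det_ne (g : GL (Fin n) F) : (g : Matrix (Fin n) (Fin n) F).det ≠ 0 :=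
  ((Matrix.isUnit_iff_isUnit_det _).1 g.isUnit).ne_zero

/-- The block decomposition map. -/
noncomputable def toT (hk : k ≤ n) (g : stabP n k F) :
    (GL (Fin k) F × GL (Fin (n - k)) F) × Matrix (Fin k) (Fin (n - k)) F :=
  ((GeneralLinearGroup.mkOfDetNeZero _ (left_ne_zero_of_mul ((blocks_det hk g).trans_ne (det_ne g.1))),
    GeneralLinearGroup.mkOfDetNeZero _ (right_ne_zero_of_mul ((blocks_det hk g).trans_ne (det_ne g.1)))),
    ((g.1 : Matrix (Fin n) (Fin n) F).submatrix (ee hk) (ee hk)).toBlocks₁₂)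

theorem toT_bijective (hk : k ≤ n) : Function.Bijective (toT (F := F) hk) := by
  constructor
  · intro g g' h
    simp only [toT, Prod.mk.injEq] at h
    obtain ⟨⟨h1, h2⟩, h3⟩ := h
    have h1' := congrArg Units.val h1
    have h2' := congrArg Units.val h2
    have e1 : (g.1 : Matrix (Fin n) (Fin n) F).submatrix (ee hk) (ee hk) =
        (g'.1 : Matrix (Fin n) (Fin n) F).submatrix (ee hk) (ee hk) := by
      rw [blocks_eq hk g, blocks_eq hk g']
      change ((g.1 : Matrix (Fin n) (Fin n) F).submatrix (ee hk) (ee hk)).toBlocks₁₁ =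
        ((g'.1 : Matrix (Fin n) (Fin n) F).submatrix (ee hk) (ee hk)).toBlocks₁₁ at h1'
      change ((g.1 : Matrix (Fin n) (Fin n) F).submatrix (ee hk) (ee hk)).toBlocks₂₂ =
        ((g'.1 : Matrix (Fin n) (Fin n) F).submatrix (ee hk) (ee hk)).toBlocks₂₂ at h2'
      rw [h1', h2', h3]
    apply Subtype.ext
    apply Units.ext
    ext i j
    have := congrFun (congrFun e1 ((ee hk).symm i)) ((ee hk).symm j)
    simpa using this
  · rintro ⟨⟨a, d⟩, b⟩
    set N : Matrix (Fin k ⊕ Fin (n - k)) (Fin k ⊕ Fin (n - k)) F :=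
      fromBlocks (a : Matrix (Fin k) (Fin k) F) b 0 (d : Matrix (Fin (n - k)) (Fin (n - k)) F) with hN
    have hdetN : N.det ≠ 0 := by
      rw [hN, Matrix.det_fromBlocks_zero₂₁]
      exact mul_ne_zero (det_ne a) (det_ne d)
    have hdetN' : (N.submatrix (ee hk).symm (ee hk).symm).det ≠ 0 := by
      rwa [Matrix.det_submatrix_equiv_self]
    let G : GL (Fin n) F := GeneralLinearGroup.mkOfDetNeZero _ hdetN'
    have hG : G ∈ stabP n k F := by
      rw [mem_stabP_iff]
      intro i j hi hj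
      change N ((ee hk).symm i) ((ee hk).symm j) = 0
      obtain ⟨x, rfl⟩ := (ee hk).surjective i
      obtain ⟨y, rfl⟩ := (ee hk).surjective j
      simp only [Equiv.symm_apply_apply]
      rcases x with x | x
      · rw [ee_inl] at hi
        have := x.2
        omega
      · rcases y with y | y
        · simp [hN]
        · rw [ee_inr] at hj
          omega
    have hGN : (G : Matrix (Fin n) (Fin n) F).submatrix (ee hk) (ee hk) = N := by
      change (N.submatrix (ee hk).symm (ee hk).symm).submatrix (ee hk) (ee hk) = N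
      simp
    refine ⟨⟨G, hG⟩, ?_⟩
    simp only [toT, Prod.mk.injEq]
    refine ⟨⟨?_, ?_⟩, ?_⟩
    · apply Units.ext
      change ((G : Matrix (Fin n) (Fin n) F).submatrix (ee hk) (ee hk)).toBlocks₁₁ = _
      rw [hGN, hN, Matrix.toBlocks_fromBlocks₁₁]
    · apply Units.ext
      change ((G : Matrix (Fin n) (Fin n) F).submatrix (ee hk) (ee hk)).toBlocks₂₂ = _
      rw [hGN, hN, Matrix.toBlocks_fromBlocks₂₂]
    · change ((G : Matrix (Fin n) (Fin n) F).submatrix (ee hk) (ee hk)).toBlocks₁₂ = _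
      rw [hGN, hN, Matrix.toBlocks_fromBlocks₁₂]

/-- Maximal parabolic of GL_n(q): the stabiliser of the coordinate subspace spanned by the first k basis vectors has order q^(k(n-k)) · |GL_k(q)| · |GL_(n-k)(q)| (unipotent radical of order q^(k(n-k)) and Levi complement GL_k × GL_(n-k)). -/
theorem result {F : Type*} [Field F] [Fintype F] {q : ℕ} (hF : Fintype.card F = q) (n k : ℕ) (hk : k ≤ n) : Nat.card ↥(Cfsg.stabilizing (Cfsg.glToMat (Fin n) F) {v : Fin n → F | ∀ i : Fin n, k ≤ (i : ℕ) → v i = 0}) = q ^ (k * (n - k)) * (∏ i : Fin k, (q ^ k - q ^ (i : ℕ))) * ∏ i : Fin (n - k), (q ^ (n - k) - q ^ (i : ℕ)) := by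
  subst hF
  rw [Nat.card_congr (Equiv.ofBijective _ (toT_bijective hk)), Nat.card_prod, Nat.card_prod,
    Matrix.card_GL_field, Matrix.card_GL_field]
  have hM : Nat.card (Matrix (Fin k) (Fin (n - k)) F) = Fintype.card F ^ (k * (n - k)) := by
    have : Nat.card (Matrix (Fin k) (Fin (n - k)) F) = Nat.card (Fin k → Fin (n - k) → F) := rfl
    rw [this, Nat.card_fun, Nat.card_fun, Nat.card_eq_fintype_card]
    simp [pow_mul, mul_comm, pow_right_comm]
  rw [hM]
  ring

end Cfsg.Agent.S0771
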