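import Cfsg.Statements.S0775
import Mathlib
import Cfsg.Agent.Lib.Classical.Symp.IsoCount
-- import your own Cfsg.Agent.* helpers here

set_option autoImplicit false
open Cfsg

namespace Cfsg.Agent.S0775

open Cfsg.Agent.Lib.Classical.Symp.IsoCount Cfsg.Agent.Lib.Classical.Symp.Basic
  Cfsg.Agent.Lib.Classical.Symp.SympBasis Cfsg.Agent.Lib.Classical.Symp.Count

/-- Maximal parabolics of the symplectic group: if W is a k-dimensional subspace of F^(2m) on which the symplectic form vanishes identically, its stabiliser in Sp_2m(q) has order q^(k(k+1)/2 + 2k(m−k)) · |Sp_(2m−2k)(q)| · |GL_k(q)|. -/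
theorem result {F : Type*} [Field F] [Fintype F] {q : ℕ} (hF : Fintype.card F = q) (m k : ℕ) (hk : k ≤ m) (W : Submodule F (Fin m ⊕ Fin m → F)) (hWk : Module.finrank F W = k) (hW : ∀ u ∈ W, ∀ v ∈ W, Cfsg.sympForm m F u v = 0) : Nat.card ↥(Cfsg.stabilizing (Cfsg.spToMat m F) (W : Set (Fin m ⊕ Fin m → F))) = q ^ (k * (k + 1) / 2 + 2 * k * (m - k)) * (q ^ ((m - k) ^ 2) * ∏ i ∈ Finset.range (m - k), (q ^ (2 * (i + 1)) - 1)) * ∏ i : Fin k, (q ^ k - q ^ (i : ℕ)) := by
  classical
  have hq : Nat.card F = q := by rw [Nat.card_eq_fintype_card, hF]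
  have hq2 : 2 ≤ q := by
    rw [← hF]
    exact Fintype.one_lt_card
  have hrk : Module.finrank F (Fin m ⊕ Fin m → F) = 2 * m := by
    simp [Module.finrank_fintype_fun_eq_card]
    ring
  have key := card_stabSub_mul (B := sympBilin m F) sympBilin_isAlt sympBilin_nondegenerate
    (⟨W, hWk, fun u hu v hv => hW u hu v hv⟩ : IsoSub (sympBilin m F) k)
  rw [Nat.card_congr (spEquivIsom (m := m) (F := F)).symm.toEquiv, card_symplecticGroup hq, hq, hrk] at key
  rw [Nat.card_congr (stabilizingEquiv W).toEquiv]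
  exact parabolic_arith hq2 hk key

end Cfsg.Agent.S0775
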