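import Cfsg.Statements.S0778
import Mathlib
import Cfsg.Agent.Lib.Classical.Symp.Basic
-- import your own Cfsg.Agent.* helpers here

set_option autoImplicit false
open Cfsg

namespace Cfsg.Agent.S0778

open Matrix Cfsg.Agent.Lib.Classical.Symp.Basic

variable {F : Type*} [Field F] {m : ℕ}

/-- The block-diagonal symplectic matrix attached to `X`. -/
def blk (X : GL (Fin m) F) : Matrix (Fin m ⊕ Fin m) (Fin m ⊕ Fin m) F :=
  Matrix.fromBlocks X.1 0 0 (X⁻¹).1ᵀ

theorem blk_mem (X : GL (Fin m) F) : blk X ∈ symplecticGroup (Fin m) F := by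
  rw [SymplecticGroup.mem_iff]
  have h1 : X.1 * (X⁻¹).1 = 1 := by
    rw [← Units.val_mul, mul_inv_cancel]
    rfl
  have h2 : (X⁻¹).1ᵀ * X.1ᵀ = 1 := by
    rw [← Matrix.transpose_mul, h1, Matrix.transpose_one]
  simp [-Matrix.coe_units_inv, blk, J, Matrix.fromBlocks_transpose, Matrix.fromBlocks_multiply, h1, h2]

theorem blk_mulVec_inl (X : GL (Fin m) F) (v : Fin m ⊕ Fin m → F) (i : Fin m) :
    (blk X *ᵥ v) (Sum.inl i) = (X.1 *ᵥ (v ∘ Sum.inl)) i := by
  simp [-Matrix.coe_units_inv, blk, Matrix.mulVec, dotProduct, Fintype.sum_sum_type]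

theorem blk_mulVec_inr (X : GL (Fin m) F) (v : Fin m ⊕ Fin m → F) (i : Fin m) :
    (blk X *ᵥ v) (Sum.inr i) = ((X⁻¹).1ᵀ *ᵥ (v ∘ Sum.inr)) i := by
  simp [-Matrix.coe_units_inv, blk, Matrix.mulVec, dotProduct, Fintype.sum_sum_type]

/-- The group morphism. -/
def toStab : GL (Fin m) F →* ↥(Cfsg.stabilizing (Cfsg.spToMat m F) {v : Fin m ⊕ Fin m → F | ∀ i : Fin m, v (Sum.inr i) = 0} ⊓ Cfsg.stabilizing (Cfsg.spToMat m F) {v : Fin m ⊕ Fin m → F | ∀ i : Fin m, v (Sum.inl i) = 0}) where
  toFun X := ⟨⟨blk X, blk_mem X⟩, by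
    constructor
    · intro v
      change (∀ i, v (Sum.inr i) = 0) ↔ ∀ i, (blk X *ᵥ v) (Sum.inr i) = 0
      simp only [blk_mulVec_inr]
      have hu : ∀ w : Fin m → F, (X⁻¹).1ᵀ *ᵥ w = 0 ↔ w = 0 := by
        intro w
        constructor
        · intro h
          have h1 : X.1ᵀ *ᵥ ((X⁻¹).1ᵀ *ᵥ w) = w := by
            rw [Matrix.mulVec_mulVec, ← Matrix.transpose_mul, ← Units.val_mul, inv_mul_cancel]
            simp
          rw [h] at h1
          simpa using h1.symm
        · rintro rfl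
          simp
      constructor
      · intro h i
        have : v ∘ Sum.inr = 0 := funext h
        rw [this]
        simp
      · intro h i
        have h1 : (X⁻¹).1ᵀ *ᵥ (v ∘ Sum.inr) = 0 := funext h
        have := (hu _).mp h1
        exact congrFun this i
    · intro v
      change (∀ i, v (Sum.inl i) = 0) ↔ ∀ i, (blk X *ᵥ v) (Sum.inl i) = 0
      simp only [blk_mulVec_inl]
      constructor
      · intro h i
        have : v ∘ Sum.inl = 0 := funext h
        rw [this]
        simp
      · intro h i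
        have h1 : X.1 *ᵥ (v ∘ Sum.inl) = 0 := funext h
        have h2 : (X⁻¹).1 *ᵥ (X.1 *ᵥ (v ∘ Sum.inl)) = v ∘ Sum.inl := by
          rw [Matrix.mulVec_mulVec, ← Units.val_mul, inv_mul_cancel]
          simp
        rw [h1] at h2
        have h3 := congrFun h2 i
        simpa using h3.symm⟩
  map_one' := by
    apply Subtype.ext
    apply Subtype.ext
    simp [-Matrix.coe_units_inv, blk]
  map_mul' X Y := by
    apply Subtype.ext
    apply Subtype.ext
    simp [-Matrix.coe_units_inv, blk, Matrix.fromBlocks_multiply, Matrix.transpose_mul]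

theorem toStab_bijective : Function.Bijective (toStab (m := m) (F := F)) := by
  constructor
  · intro X Y h
    have h1 : blk X = blk Y := congrArg (fun A => A.1.1) h
    apply Units.ext
    ext i j
    have := congrFun (congrFun h1 (Sum.inl i)) (Sum.inl j)
    simpa [blk] using this
  · rintro ⟨⟨A, hA⟩, h1, h2⟩
    have hS1 : ∀ i j, A (Sum.inr i) (Sum.inl j) = 0 := by
      intro i j
      have h3 := (h1 (Pi.single (Sum.inl j) 1)).1 (by
        intro l
        simp)
      have h4 := h3 i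
      simpa [Cfsg.spToMat, Matrix.mulVec_single] using h4
    have hS2 : ∀ i j, A (Sum.inl i) (Sum.inr j) = 0 := by
      intro i j
      have h3 := (h2 (Pi.single (Sum.inr j) 1)).1 (by
        intro l
        simp)
      have h4 := h3 i
      simpa [Cfsg.spToMat, Matrix.mulVec_single] using h4
    have hA' : A = Matrix.fromBlocks A.toBlocks₁₁ 0 0 A.toBlocks₂₂ := by
      ext i j
      rcases i with i | i <;> rcases j with j | j
      · rfl
      · simpa using hS2 i j
      · simpa using hS1 i j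
      · rfl
    have hsp := SymplecticGroup.mem_iff.mp hA
    rw [hA'] at hsp
    simp only [J, Matrix.fromBlocks_transpose, Matrix.fromBlocks_multiply] at hsp
    simp only [Matrix.mul_zero, Matrix.zero_mul, add_zero, zero_add, Matrix.transpose_zero, Matrix.mul_neg, Matrix.mul_one, Matrix.neg_mul] at hsp
    have h3 : A.toBlocks₁₁ * A.toBlocks₂₂ᵀ = 1 := by
      have h4 := (Matrix.fromBlocks_inj.mp hsp).2.1
      simpa using h4
    have h5 : A.toBlocks₂₂ᵀ * A.toBlocks₁₁ = 1 := mul_eq_one_comm.mp h3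
    refine ⟨⟨A.toBlocks₁₁, A.toBlocks₂₂ᵀ, h3, h5⟩, ?_⟩
    apply Subtype.ext
    apply Subtype.ext
    change blk _ = A
    rw [blk]
    conv_rhs => rw [hA']
    rfl

/-- The elements of Sp_2m(F) stabilising both W = ⟨e_1..e_m⟩ and U = ⟨f_1..f_m⟩ form a subgroup isomorphic to GL_m(F) (block-diagonal matrices diag(X, X^(−ᵀ)) up to the sign convention of J), for m ≥ 1 or m = 0 alike. -/
theorem result {F : Type*} [Field F] (m : ℕ) : Nonempty (↥(Cfsg.stabilizing (Cfsg.spToMat m F) {v : Fin m ⊕ Fin m → F | ∀ i : Fin m, v (Sum.inr i) = 0} ⊓ Cfsg.stabilizing (Cfsg.spToMat m F) {v : Fin m ⊕ Fin m → F | ∀ i : Fin m, v (Sum.inl i) = 0}) ≃* Matrix.GeneralLinearGroup (Fin m) F) := by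
  exact ⟨(MulEquiv.ofBijective toStab toStab_bijective).symm⟩

end Cfsg.Agent.S0778
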