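import Cfsg.Statements.S0779
import Mathlib
import Cfsg.Agent.Lib.Classical.Herm.Basic
import Cfsg.Prelude.Def_ClassicalGeometry
-- import your own Cfsg.Agent.* helpers here

set_option autoImplicit false
open Cfsg

open Cfsg.Agent.Lib.Classical.Herm.Basic
open scoped Matrix

namespace Cfsg.Agent.S0779

theorem transvection_mulVec {F : Type*} [Field F] {q n : ℕ} (v : Fin n → F) (c : F) (x : Fin n → F) :
    (Cfsg.unitaryTransvection n q v c) *ᵥ x = x + (c * hermForm n F q x v) • v := by
  rw [Cfsg.unitaryTransvection, Matrix.add_mulVec, Matrix.one_mulVec, Matrix.smul_mulVec]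
  congr 1
  funext i
  simp only [Pi.smul_apply, smul_eq_mul, Matrix.mulVec, dotProduct, Matrix.vecMulVec_apply, hermForm]
  rw [mul_assoc, Finset.sum_mul]
  congr 1
  refine Finset.sum_congr rfl fun j _ => ?_
  ring

/-- Unitary transvections: let |F| = q², h the standard Hermitian form Σ x_i y_i^q and v ≠ 0 with h(v, v) = 0. The linear map x ↦ x + c h(x, v) v is an isometry of h if and only if c = 0 or c^(q−1) = −1. -/
theorem result {F : Type*} [Field F] [Fintype F] {q : ℕ} (hF : Fintype.card F = q ^ 2) (n : ℕ) (v : Fin n → F) (hv : v ≠ 0) (hv0 : Cfsg.hermForm n F q v v = 0) (c : F) : (∀ x y : Fin n → F, Cfsg.hermForm n F q ((Cfsg.unitaryTransvection n q v c).mulVec x) ((Cfsg.unitaryTransvection n q v c).mulVec y) = Cfsg.hermForm n F q x y) ↔ (c = 0 ∨ c ^ (q - 1) = -1) := by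
  have hq := two_le_q hF
  have hkey : ∀ x y : Fin n → F, hermForm n F q ((Cfsg.unitaryTransvection n q v c).mulVec x)
      ((Cfsg.unitaryTransvection n q v c).mulVec y) =
      hermForm n F q x y + (c + c ^ q) * (hermForm n F q x v * hermForm n F q v y) := by
    intro x y
    rw [transvection_mulVec, transvection_mulVec, hermForm_add_left, hermForm_add_right hF,
      hermForm_add_right hF, hermForm_smul_left, hermForm_smul_right, hermForm_smul_right,
      hermForm_smul_left, hv0, mul_pow, hermForm_pow_q hF]
    ring
  have hroot : c + c ^ q = 0 ↔ (c = 0 ∨ c ^ (q - 1) = -1) := by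
    obtain ⟨r, rfl⟩ : ∃ r, q = r + 1 := ⟨q - 1, by omega⟩
    simp only [Nat.add_sub_cancel]
    constructor
    · intro h
      by_cases hc : c = 0
      · exact Or.inl hc
      · right
        have : c * (1 + c ^ r) = 0 := by rw [← h]; ring
        have h2 := (mul_eq_zero.mp this).resolve_left hc
        linear_combination h2
    · rintro (rfl | h)
      · simp
      · rw [pow_succ, h]; ring
  constructor
  · intro h
    rw [← hroot]
    by_contra hne
    -- choose x, y with nonzero values
    have h1 : ∃ x, hermForm n F q x v ≠ 0 := by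
      by_contra hcon
      push Not at hcon
      exact hv (hermForm_nondegenerate_right hF n v hcon)
    obtain ⟨x, hx⟩ := h1
    have hx' : hermForm n F q v x ≠ 0 := by
      intro h0
      apply hx
      rw [← hermForm_pow_q hF, h0, zero_pow_q hF]
    have := h x x
    rw [hkey] at this
    have h3 : (c + c ^ q) * (hermForm n F q x v * hermForm n F q v x) = 0 := by
      linear_combination this
    rcases mul_eq_zero.mp h3 with h4 | h4
    · exact hne h4
    · rcases mul_eq_zero.mp h4 with h5 | h5
      · exact hx h5
      · exact hx' h5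
  · intro h x y
    rw [hkey, hroot.2 h]
    ring

end Cfsg.Agent.S0779
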