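import Cfsg.Statements.S0782
import Cfsg.Agent.Lib.Classical.Herm.TIStab

set_option autoImplicit false
open Cfsg
open scoped Matrix
open Cfsg.Agent.Lib.Classical.Herm.Basic Cfsg.Agent.Lib.Classical.Herm.Form
open Cfsg.Agent.Lib.Classical.Herm.GU Cfsg.Agent.Lib.Classical.Herm.SU
open Cfsg.Agent.Lib.Classical.Herm.TIFrame Cfsg.Agent.Lib.Classical.Herm.TIStab

namespace Cfsg.Agent.S0782

variable {F : Type*} [Field F] [Fintype F] {q n : ℕ}

/-- The determinant on the stabiliser. -/
noncomputable def detStab (q : ℕ) (W : Submodule F (Fin n → F)) : stabGU q W →* Fˣ :=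
  (detGU n F q).comp (stabGU q W).subtype

theorem range_detStab (hF : Fintype.card F = q ^ 2) {k m : ℕ} (hn1 : 1 ≤ n) (hn : 2 * k + m = n)
    (W : Submodule F (Fin n → F)) (hWk : Module.finrank F W = k)
    (hW : ∀ u ∈ W, ∀ v ∈ W, hermForm n F q u v = 0) :
    (detStab q W).range = normOne F q := by
  classical
  apply le_antisymm
  · rintro _ ⟨g, rfl⟩
    have h1 : detStab q W g ∈ (detGU n F q).range := ⟨g.1, rfl⟩
    rwa [detGU_range hF hn1] at h1
  · intro u hu
    have hu' : u ^ (q + 1) = 1 := (mem_normOne u).1 hu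
    rcases Nat.eq_zero_or_pos k with hk0 | hkpos
    · -- `W = ⊥`
      subst hk0
      have hWb : W = ⊥ := by
        rw [← Submodule.finrank_eq_zero]
        exact hWk
      have hu2 : u ∈ (detGU n F q).range := by
        rw [detGU_range hF hn1]
        exact hu
      obtain ⟨g, hg⟩ := hu2
      refine ⟨⟨g, mem_stabGU_of_maps fun v hv => ?_⟩, hg⟩
      rw [hWb, Submodule.mem_bot] at hv ⊢
      rw [hv]
      simp [act]
    · -- hyperbolic element
      let b : Module.Basis (Fin k) F W := Module.finBasisOfFinrankEq F W hWk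
      let s₀ : Fin k → Fin n → F := fun i => (b i : Fin n → F)
      have hs₀W : ∀ i, s₀ i ∈ W := fun i => (b i).2
      have hs₀li : LinearIndependent F s₀ :=
        b.linearIndependent.map' W.subtype (Submodule.ker_subtype W)
      obtain ⟨t, r, hw⟩ := exists_witt hF hn s₀ hs₀li (fun i j => hW _ (hs₀W i) _ (hs₀W j))
      let i₀ : Fin k := ⟨0, hkpos⟩
      obtain ⟨g, hdet, a, ha, β, hg⟩ := exists_hyp (F := F) (q := q) hF (e := s₀ i₀) (f := t i₀)
        (hw.ss _ _) (hw.tt _ _) (by rw [hw.st]; simp) u hu'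
      refine ⟨⟨g, mem_stabGU_of_maps fun v hv => ?_⟩, Units.ext hdet⟩
      rw [hg, hW v hv _ (hs₀W i₀)]
      simp only [mul_zero, zero_smul, add_zero]
      exact W.add_mem hv (W.smul_mem _ (hs₀W i₀))

/-- The stabiliser in `SU` is the kernel of the determinant. -/
noncomputable def equivKer (W : Submodule F (Fin n → F)) :
    ↥((Cfsg.stabilizing (Cfsg.slToMat n F) (W : Set (Fin n → F))).subgroupOf (Cfsg.SU n F q)) ≃
      (detStab q W).ker where
  toFun x := ⟨⟨⟨Matrix.SpecialLinearGroup.toGL x.1.1, x.1.2⟩, x.2⟩, by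
    rw [MonoidHom.mem_ker]
    apply Units.ext
    exact x.1.1.2⟩
  invFun g := ⟨⟨⟨(g.1.1.1 : Matrix (Fin n) (Fin n) F), by
      have := g.2
      rw [MonoidHom.mem_ker] at this
      have h2 := congrArg Units.val this
      simpa [detStab] using h2⟩, g.1.1.2⟩, g.1.2⟩
  left_inv x := by
    apply Subtype.ext
    apply Subtype.ext
    apply Subtype.ext
    rfl
  right_inv g := by
    apply Subtype.ext
    apply Subtype.ext
    apply Subtype.ext
    apply Units.ext
    rfl

/-- Maximal parabolics of SU_n(q): if W is a k-dimensional subspace of F^n (n ≥ 1, |F| = q²) on which the Hermitian form vanishes, then (q + 1) times the order of its stabiliser in SU_n(q) equals q^(k(2n−3k)) · |GL_k(q²)| · |GU_(n−2k)(q)|, where |GU_m(q)| = q^(m(m−1)/2) Π_(i=1..m) (q^i − (−1)^i). -/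
theorem result {F : Type*} [Field F] [Fintype F] {q : ℕ} (hF : Fintype.card F = q ^ 2) (n k : ℕ) (hn : 1 ≤ n) (hk : 2 * k ≤ n) (W : Submodule F (Fin n → F)) (hWk : Module.finrank F W = k) (hW : ∀ u ∈ W, ∀ v ∈ W, Cfsg.hermForm n F q u v = 0) : (q + 1) * Nat.card ↥((Cfsg.stabilizing (Cfsg.slToMat n F) (W : Set (Fin n → F))).subgroupOf (Cfsg.SU n F q)) = q ^ (k * (2 * n - 3 * k)) * (∏ i : Fin k, ((q ^ 2) ^ k - (q ^ 2) ^ (i : ℕ))) * (q ^ ((n - 2 * k) * ((n - 2 * k) - 1) / 2) * ∏ i ∈ Finset.range (n - 2 * k), (if Even i then q ^ (i + 1) + 1 else q ^ (i + 1) - 1)) := by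
  have hm : 2 * k + (n - 2 * k) = n := by omega
  have h1 := Subgroup.card_mul_index (detStab q W).ker
  rw [Subgroup.index_ker, range_detStab hF hn hm W hWk hW, card_normOne hF,
    card_stabGU hF hm W hWk hW, card_GU hF] at h1
  rw [Nat.card_congr (equivKer W), mul_comm, h1]
  have h2 : k * (k + 2 * (n - 2 * k)) = k * (2 * n - 3 * k) := by
    congr 1
    omega
  rw [h2]
  ring

end Cfsg.Agent.S0782
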