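import Cfsg.Statements.S0787
import Mathlib
import Cfsg.Agent.Lib.Classical.Orth.IndexTwo
-- import your own Cfsg.Agent.* helpers here

set_option autoImplicit false
open Cfsg

namespace Cfsg.Agent.S0787

/-- Existence and uniqueness of Ω: if F is finite, n ≥ 2, Q is a quadratic form on F^n with non-degenerate polar form and (|F|, n) ≠ (2, 4), then the group of isometries of determinant one has a unique subgroup of index 2. -/
theorem result {F : Type*} [Field F] [Fintype F] {n : ℕ} (hn : 2 ≤ n) (Q : QuadraticForm F (Fin n → F)) (hQ : (QuadraticMap.polarBilin Q).Nondegenerate) (h : Fintype.card F ≠ 2 ∨ n ≠ 4) : ∃! H : Subgroup ↥(Cfsg.specialIsometryGroup F ⇑Q), H.index = 2 := by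
  classical
  have hcard : Fintype.card (Fin n) = n := Fintype.card_fin n
  by_cases h2 : (2 : F) = 0
  · haveI : CharP F 2 := by
      have h10 : (1 : F) ≠ 0 := one_ne_zero
      exact CharTwo.of_one_ne_zero_of_two_eq_zero h10 h2
    have hF : (∃ c : F, c ≠ 0 ∧ c ≠ 1) ∨ Fintype.card (Fin n) ≠ 4 := by
      rcases h with h | h
      · left
        exact Cfsg.Agent.Lib.Classical.Orth.CartanDieudonne.exists_ne_zero_one_of_card h
      · right
        rwa [hcard]
    have hι : Nonempty (Fin n) := ⟨⟨0, by omega⟩⟩
    exact Cfsg.Agent.Lib.Classical.Orth.IndexTwo.so_unique_index_two_even Q hQ hF hι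
  · exact Cfsg.Agent.Lib.Classical.Orth.IndexTwo.so_unique_index_two_odd Q hQ h2 (by rwa [hcard])

end Cfsg.Agent.S0787
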