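import Cfsg.Statements.S0792
import Mathlib
import Cfsg.Agent.Lib.Classical.Orth.CartanDieudonne
-- import your own Cfsg.Agent.* helpers here

set_option autoImplicit false
open Cfsg

namespace Cfsg.Agent.S0792

/-- For q odd and Q with non-degenerate polar form on F^n, the determinant-one isometries form the subgroup generated by all products r_u r_v of two reflections (Q(u), Q(v) ≠ 0). -/
theorem result {F : Type*} [Field F] [Fintype F] (h2 : (2 : F) ≠ 0) {n : ℕ} (Q : QuadraticForm F (Fin n → F)) (hQ : (QuadraticMap.polarBilin Q).Nondegenerate) : Cfsg.specialIsometryGroup F ⇑Q = Subgroup.closure {g : ↥(Cfsg.isometryGroup F ⇑Q) | ∃ u v : Fin n → F, Q u ≠ 0 ∧ Q v ≠ 0 ∧ ((g : Matrix.GeneralLinearGroup (Fin n) F) : Matrix (Fin n) (Fin n) F) = Cfsg.reflectionMatrix ⇑Q u * Cfsg.reflectionMatrix ⇑Q v} := by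
  open Cfsg.Agent.Lib.Classical.Orth.Basic Cfsg.Agent.Lib.Classical.Orth.CartanDieudonne in
  classical
  set H : Subgroup ↥(Cfsg.isometryGroup F ⇑Q) := Subgroup.closure {g : ↥(Cfsg.isometryGroup F ⇑Q) | ∃ u v : Fin n → F, Q u ≠ 0 ∧ Q v ≠ 0 ∧ ((g : Matrix.GeneralLinearGroup (Fin n) F) : Matrix (Fin n) (Fin n) F) = Cfsg.reflectionMatrix ⇑Q u * Cfsg.reflectionMatrix ⇑Q v} with hH
  have hne : (1 : F) ≠ -1 := by
    intro h
    apply h2
    linear_combination h
  have hdetSO : ∀ g : ↥(Cfsg.isometryGroup F ⇑Q), g ∈ Cfsg.specialIsometryGroup F ⇑Q ↔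
      ((g : Matrix.GeneralLinearGroup (Fin n) F) : Matrix (Fin n) (Fin n) F).det = 1 := by
    intro g
    unfold Cfsg.specialIsometryGroup
    rw [MonoidHom.mem_ker]
    constructor
    · intro h
      have := congrArg Units.val h
      simpa using this
    · intro h
      apply Units.ext
      simpa using h
  have hHle : H ≤ Cfsg.specialIsometryGroup F ⇑Q := by
    rw [hH, Subgroup.closure_le]
    rintro g ⟨u, v, hu, hv, hg⟩
    rw [SetLike.mem_coe, hdetSO, hg, Matrix.det_mul, det_reflectionMatrix Q hu,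
      det_reflectionMatrix Q hv]
    ring
  have hpair : ∀ (u v : Fin n → F) (hu : Q u ≠ 0) (hv : Q v ≠ 0),
      reflectionIso Q u hu * reflectionIso Q v hv ∈ H := by
    intro u v hu hv
    exact Subgroup.subset_closure ⟨u, v, hu, hv, rfl⟩
  have hmain : ∀ g ∈ reflGroup Q, g ∈ H ∨ ∃ (v : Fin n → F) (hv : Q v ≠ 0), reflectionIso Q v hv * g ∈ H := by
    intro g hg
    unfold reflGroup at hg
    have hrefl : ∀ (x : ↥(Cfsg.isometryGroup F ⇑Q)) (_ : x ∈ {g : ↥(Cfsg.isometryGroup F ⇑Q) | ∃ v : Fin n → F, Q v ≠ 0 ∧ ((g : Matrix.GeneralLinearGroup (Fin n) F) : Matrix (Fin n) (Fin n) F) = Cfsg.reflectionMatrix ⇑Q v}),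
        ∃ (u : Fin n → F) (hu : Q u ≠ 0), x = reflectionIso Q u hu := by
      rintro x ⟨u, hu, hx⟩
      refine ⟨u, hu, ?_⟩
      apply Subtype.ext
      apply Units.ext
      exact hx
    have hstep : ∀ (u : Fin n → F) (hu : Q u ≠ 0) (y : ↥(Cfsg.isometryGroup F ⇑Q)),
        (y ∈ H ∨ ∃ (v : Fin n → F) (hv : Q v ≠ 0), reflectionIso Q v hv * y ∈ H) →
        (reflectionIso Q u hu * y ∈ H ∨ ∃ (v : Fin n → F) (hv : Q v ≠ 0), reflectionIso Q v hv * (reflectionIso Q u hu * y) ∈ H) := by
      intro u hu y hy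
      rcases hy with hy | ⟨v, hv, hy⟩
      · right
        refine ⟨u, hu, ?_⟩
        rw [← mul_assoc, reflectionIso_mul_self, one_mul]
        exact hy
      · left
        have : reflectionIso Q u hu * y = (reflectionIso Q u hu * reflectionIso Q v hv) * (reflectionIso Q v hv * y) := by
          rw [mul_assoc, ← mul_assoc (reflectionIso Q v hv), reflectionIso_mul_self, one_mul]
        rw [this]
        exact H.mul_mem (hpair u v hu hv) hy
    induction hg using Subgroup.closure_induction_left with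
    | one => exact Or.inl H.one_mem
    | mul_left x hx y _ ih =>
      obtain ⟨u, hu, rfl⟩ := hrefl x hx
      exact hstep u hu y ih
    | inv_mul_cancel x hx y _ ih =>
      obtain ⟨u, hu, rfl⟩ := hrefl x hx
      rw [reflectionIso_inv]
      exact hstep u hu y ih
  have htop : reflGroup Q = ⊤ := reflGroup_eq_top hQ (Or.inl ⟨2, h2, by
    intro h
    have : (1 : F) = 0 := by linear_combination h
    exact one_ne_zero this⟩)
  apply le_antisymm
  · intro g hg
    rcases hmain g (by rw [htop]; trivial) with h | ⟨v, hv, h⟩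
    · exact h
    · exfalso
      have h1 := (hdetSO _).1 (hHle h)
      have h3 := (hdetSO _).1 hg
      have h4 : (((reflectionIso Q v hv * g : ↥(Cfsg.isometryGroup F ⇑Q)) : Matrix.GeneralLinearGroup (Fin n) F) : Matrix (Fin n) (Fin n) F) = Cfsg.reflectionMatrix ⇑Q v * ((g : Matrix.GeneralLinearGroup (Fin n) F) : Matrix (Fin n) (Fin n) F) := rfl
      rw [h4, Matrix.det_mul, h3, det_reflectionMatrix Q hv, mul_one] at h1
      exact hne h1.symm
  · exact hHle

end Cfsg.Agent.S0792
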