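import Cfsg.Statements.S0793
import Mathlib
import Cfsg.Agent.Lib.Classical.Orth.Basic
-- import your own Cfsg.Agent.* helpers here

set_option autoImplicit false
open Cfsg

namespace Cfsg.Agent.S0793

/-- Root elements: if Q(u) = Q(v) = 0 and f(u, v) = 0 (f the polar form), then for every c the Siegel matrix T_(u,v)(c) preserves Q, fixes u and v, and T(c) T(d) = T(c + d). -/
theorem result {F : Type*} [Field F] {n : ℕ} (Q : QuadraticForm F (Fin n → F)) (u v : Fin n → F) (hu : Q u = 0) (hv : Q v = 0) (huv : QuadraticMap.polar ⇑Q u v = 0) : (∀ c x, Q ((Cfsg.siegelMatrix ⇑Q u v c).mulVec x) = Q x) ∧ (∀ c, (Cfsg.siegelMatrix ⇑Q u v c).mulVec u = u ∧ (Cfsg.siegelMatrix ⇑Q u v c).mulVec v = v) ∧ ∀ c d, Cfsg.siegelMatrix ⇑Q u v c * Cfsg.siegelMatrix ⇑Q u v d = Cfsg.siegelMatrix ⇑Q u v (c + d) := by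
  open Cfsg.Agent.Lib.Classical.Orth.Basic in
  have hT : ∀ c x, (Cfsg.siegelMatrix ⇑Q u v c).mulVec x
      = x + (c * QuadraticMap.polar ⇑Q u x) • v - (c * QuadraticMap.polar ⇑Q v x) • u := by
    intro c x
    unfold Cfsg.siegelMatrix
    rw [Matrix.add_mulVec, Matrix.one_mulVec, Matrix.smul_mulVec, Matrix.sub_mulVec,
      Matrix.vecMulVec_mulVec, Matrix.vecMulVec_mulVec, polarVec_dotProduct, polarVec_dotProduct,
      smul_sub, add_sub_assoc]
    congr 2
    · ext i; simp [mul_comm, mul_left_comm]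
    · ext i; simp [mul_comm, mul_left_comm]
  have huu : QuadraticMap.polar ⇑Q u u = 0 := by rw [polar_self_eq, hu, mul_zero]
  have hvv : QuadraticMap.polar ⇑Q v v = 0 := by rw [polar_self_eq, hv, mul_zero]
  have hvu : QuadraticMap.polar ⇑Q v u = 0 := by rw [QuadraticMap.polar_comm, huv]
  refine ⟨?_, ?_, ?_⟩
  · intro c x
    have h1 : QuadraticMap.polar ⇑Q x v = QuadraticMap.polar ⇑Q v x := QuadraticMap.polar_comm _ _ _
    have h2 : QuadraticMap.polar ⇑Q x u = QuadraticMap.polar ⇑Q u x := QuadraticMap.polar_comm _ _ _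
    rw [hT, Q_sub, Q_add, Q_smul, Q_smul, hu, hv, QuadraticMap.polar_add_left]
    simp only [QuadraticMap.polar_smul_left, QuadraticMap.polar_smul_right, smul_eq_mul, h1, h2,
      hvu]
    ring
  · intro c
    constructor
    · rw [hT, huu, hvu]; simp
    · rw [hT, huv, hvv]; simp
  · intro c d
    apply Matrix.ext_of_mulVec_single
    intro j
    rw [← Matrix.mulVec_mulVec]
    generalize (Pi.single j 1 : Fin n → F) = x
    rw [hT d x, hT c, hT (c + d) x, QuadraticMap.polar_sub_right, QuadraticMap.polar_sub_right,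
      QuadraticMap.polar_add_right, QuadraticMap.polar_add_right, QuadraticMap.polar_smul_right,
      QuadraticMap.polar_smul_right, QuadraticMap.polar_smul_right,
      QuadraticMap.polar_smul_right, huv, huu, hvu, hvv]
    simp only [smul_eq_mul, mul_zero, add_zero, sub_zero, add_mul, add_smul]
    abel

end Cfsg.Agent.S0793
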