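import Cfsg.Statements.S0796
import Mathlib
import Cfsg.Agent.Lib.Perm.Basic
-- import your own Cfsg.Agent.* helpers here

set_option autoImplicit false
open Cfsg

namespace Cfsg.Agent.S0796

/-- If G is finite and acts faithfully and primitively on X, H is the stabiliser of a point, A is a normal subgroup of H whose normal closure in G is G, then for every non-trivial normal subgroup K of G the quotient G ⧸ K is isomorphic to A ⧸ B for some normal subgroup B of A. -/
theorem result {G X : Type*} [Group G] [Finite G] [MulAction G X] [FaithfulSMul G X] (hprim : MulAction.IsPreprimitive G X) (x : X) (A : Subgroup G) (hA : A ≤ MulAction.stabilizer G x) (hAn : (A.subgroupOf (MulAction.stabilizer G x)).Normal) (hgen : Subgroup.normalClosure (A : Set G) = ⊤) (K : Subgroup G) [K.Normal] (hK : K ≠ ⊥) : ∃ (B : Subgroup A) (_ : B.Normal), Nonempty (G ⧸ K ≃* A ⧸ B) := by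
  classical
  haveI := hprim
  haveI htrans : MulAction.IsPretransitive K X :=
    Cfsg.Agent.Lib.Perm.Basic.isPretransitive_of_normal_of_ne_bot K hK
  have hKn := ‹K.Normal›
  have hnorm : (A ⊔ K).Normal := by
    refine ⟨fun y hy g => ?_⟩
    have hy' : y ∈ ((A ⊔ K : Subgroup G) : Set G) := hy
    rw [Subgroup.mul_normal] at hy'
    obtain ⟨a, ha, k, hk, rfl⟩ := Set.mem_mul.mp hy'
    obtain ⟨k', hk', h, hh, rfl⟩ := Cfsg.Agent.Lib.Perm.Basic.exists_mem_mul_mem_stabilizer K x g
    have hhA : h * a * h⁻¹ ∈ A := by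
      have := hAn.conj_mem ⟨a, hA ha⟩ (Subgroup.mem_subgroupOf.mpr ha) ⟨h, hh⟩
      simpa [Subgroup.mem_subgroupOf] using this
    have h1 : (k' * h) * (a * k) * (k' * h)⁻¹ =
        (k' * ((h * a * h⁻¹) * k'⁻¹ * (h * a * h⁻¹)⁻¹)) * (h * a * h⁻¹) *
          ((k' * h) * k * (k' * h)⁻¹) := by group
    rw [h1]
    refine mul_mem (mul_mem (Subgroup.mem_sup_right ?_) (Subgroup.mem_sup_left hhA))
      (Subgroup.mem_sup_right (hKn.conj_mem k hk _))
    exact mul_mem hk' (hKn.conj_mem _ (inv_mem hk') _)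
  have htop : A ⊔ K = ⊤ := by
    rw [eq_top_iff, ← hgen]
    exact Subgroup.normalClosure_le_normal (fun a ha => Subgroup.mem_sup_left ha)
  let f : A →* G ⧸ K := (QuotientGroup.mk' K).comp A.subtype
  have hf : Function.Surjective f := by
    intro q
    obtain ⟨g, rfl⟩ := QuotientGroup.mk_surjective q
    have hg : g ∈ ((A ⊔ K : Subgroup G) : Set G) := by
      rw [htop]; trivial
    rw [Subgroup.mul_normal] at hg
    obtain ⟨a, ha, k, hk, rfl⟩ := Set.mem_mul.mp hg
    refine ⟨⟨a, ha⟩, ?_⟩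
    show (QuotientGroup.mk a : G ⧸ K) = QuotientGroup.mk (a * k)
    rw [QuotientGroup.mk_mul_of_mem _ hk]
  exact ⟨f.ker, inferInstance, ⟨(QuotientGroup.quotientKerEquivOfSurjective f hf).symm⟩⟩

end Cfsg.Agent.S0796
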