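import Cfsg.Statements.S0801
import Cfsg.Agent.Lib.PSL2.TraceOrder
import Cfsg.Agent.Lib.PSL2.Icosian

set_option autoImplicit false
set_option linter.style.haveILetI false
set_option linter.unusedVariables false
set_option linter.unusedSectionVars false
open Cfsg

namespace Cfsg.Agent.S0801

open Matrix Matrix.SpecialLinearGroup Subgroup
open scoped MatrixGroups
open Cfsg.Agent.Lib.PSL2 Cfsg.Agent.Lib.PSL2.Basic Cfsg.Agent.Lib.PSL2.Conj
open Cfsg.Agent.Lib.PSL2.Members Cfsg.Agent.Lib.PSL2.Reduction Cfsg.Agent.Lib.PSL2.FieldEmbed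
open Cfsg.Agent.Lib.PSL2.DicksonCor Cfsg.Agent.Lib.PSL2.DihedralMax
open Cfsg.Agent.Lib.PSL2.Overgroups Cfsg.Agent.Lib.PSL2.Position Cfsg.Agent.Lib.PSL2.TraceOrder

lemma p_of_dvd12 {p : ℕ} (hp : p.Prime) (h2 : p % 2 = 1) (h : p ∣ 12) : p = 3 := by
  have hle := Nat.le_of_dvd (by norm_num) h
  interval_cases p <;> first | omega | (norm_num at hp) | (norm_num at h)

lemma p_of_dvd60 {p : ℕ} (hp : p.Prime) (h2 : p % 2 = 1) (h : p ∣ 60) : p = 3 ∨ p = 5 := by
  have hle := Nat.le_of_dvd (by norm_num) h
  interval_cases p <;> first | omega | (norm_num at hp) | (norm_num at h)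

set_option maxRecDepth 100000 in
lemma a4_orders : ∀ z : alternatingGroup (Fin 4), z = 1 ∨ z ^ 2 = 1 ∨ z ^ 3 = 1 := by decide

set_option maxRecDepth 100000 in
lemma a5_orders : ∀ z : alternatingGroup (Fin 5), z = 1 ∨ z ^ 2 = 1 ∨ z ^ 3 = 1 ∨ z ^ 5 = 1 := by decide

set_option maxRecDepth 100000 in
lemma a5_four : ∀ z : alternatingGroup (Fin 5), z ^ 4 = 1 → z ^ 2 = 1 := by decide

/-- Two elements of `A₅`. -/
def a₀ : alternatingGroup (Fin 5) :=
  ⟨Equiv.swap (0 : Fin 5) 1 * Equiv.swap 1 2, by
    rw [Equiv.Perm.mem_alternatingGroup]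
    decide⟩

/-- Two elements of `A₅`. -/
def b₀ : alternatingGroup (Fin 5) :=
  ⟨Equiv.swap (2 : Fin 5) 3 * Equiv.swap 3 4, by
    rw [Equiv.Perm.mem_alternatingGroup]
    decide⟩

lemma a₀_data : a₀ ^ 3 = 1 ∧ b₀ ^ 3 = 1 ∧ a₀ ≠ 1 ∧ b₀ ≠ 1 ∧ a₀ * b₀ ≠ 1 ∧ (a₀ * b₀) ^ 5 = 1 := by
  decide

section

variable {F : Type*} [Field F] [Fintype F]

lemma not_comm_gen (h2 : (2 : F) ≠ 0) {lam : F} (hlam : lam ≠ 0) :
    mkP (x lam) * mkP (y (1 : F)) ≠ mkP (y (1 : F)) * mkP (x lam) := by
  intro h1
  rw [← map_mul, ← map_mul, mkP_eq_iff] at h1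
  rcases h1 with h1 | h1
  · have h3 := congrArg (fun A : SL(2, F) => A.1 0 0) h1
    simp at h3
    exact hlam h3
  · have h3 := congrArg (fun A : SL(2, F) => A.1 0 1) h1
    simp at h3
    have h4 : 2 * lam = 0 := by linear_combination h3
    rcases mul_eq_zero.1 h4 with h5 | h5
    · exact h2 h5
    · exact hlam h5

lemma sq_one {z : F} (h : z ^ 2 = 1) : z = 1 ∨ z = -1 := by
  have h1 : (z - 1) * (z + 1) = 0 := by linear_combination h
  rcases mul_eq_zero.1 h1 with h2 | h2
  · left; linear_combination h2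
  · right; linear_combination h2

lemma tr_xy (lam s : F) : tr (x lam * y s) = 2 + lam * s := by
  simp [tr]
  ring

/-- A pair of unipotent elements in normal position. -/
lemma normal_pair {A B : SL(2, F)} (hA : tr A = 2) (hB : tr B = 2) (hA1 : A ≠ 1) (hcomm : A * B ≠ B * A) :
    ∃ (g : SL(2, F)) (c : F) (hc : c ≠ 0) (t : F), frameEquiv g c hc A = x t ∧ frameEquiv g c hc B = y 1 := by
  have hNC : NC A := by
    refine ⟨hA1, ?_⟩
    rintro rfl
    by_cases h2 : (2 : F) = 0
    · apply hA1
      rw [neg_eq_self_of_two_eq_zero h2]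
    · have h1 : tr (-1 : SL(2, F)) = -2 := by simp [tr]; norm_num
      rw [h1] at hA
      have h4 : (4 : F) = 0 := by linear_combination -hA
      apply h2
      have h5 : (2 : F) * 2 = 0 := by linear_combination h4
      rcases mul_eq_zero.1 h5 with h | h <;> exact h
  have hd : disc A = 0 := by
    unfold disc
    rw [hA]
    norm_num
  obtain ⟨g, ε, hε, s, hg, hs, hε2⟩ := exists_frame hNC hd
  have hε1 : ε = 1 := by
    have h1 : tr (T g A) = 2 := by
      rw [← hA]
      exact tr_conj g A
    rw [hg] at h1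
    simp [tr] at h1
    have h3 : ε⁻¹ = ε := inv_eq_of_mul_eq_one_left hε2
    rw [h3] at h1
    have h4 : (ε - 1) * (ε - 1) = 0 := by
      linear_combination hε2 - h1
    have := mul_self_eq_zero.1 h4
    linear_combination this
  subst hε1
  have hgx : T g A = x s := by
    rw [hg]
    apply ext2 <;> simp
  set B' := T g B with hB'
  have hBt : tr B' = 2 := by
    rw [← hB]
    exact tr_conj g B
  have hdet := det_entries B'
  by_cases hγ : B'.1 1 0 = 0
  · exfalso
    apply hcomm
    have h1 : B'.1 0 0 = 1 := by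
      simp only [tr] at hBt
      have h11 : B'.1 1 1 = 2 - B'.1 0 0 := by linear_combination hBt
      rw [hγ, h11] at hdet
      have h4 : (B'.1 0 0 - 1) * (B'.1 0 0 - 1) = 0 := by linear_combination -hdet
      have := mul_self_eq_zero.1 h4
      linear_combination this
    have h11 : B'.1 1 1 = 1 := by
      simp only [tr] at hBt
      rw [h1] at hBt
      linear_combination hBt
    have hBx : B' = x (B'.1 0 1) := by
      apply ext2 <;> simp [h1, h11, hγ]
    have h3 : T g (A * B) = T g (B * A) := by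
      have e1 : ∀ P Q : SL(2, F), T g (P * Q) = T g P * T g Q := by
        intro P Q
        simp only [T]
        group
      rw [e1, e1, hgx, ← hB', hBx, ← x_add, ← x_add, add_comm]
    have e2 : ∀ P : SL(2, F), g⁻¹ * T g P * g = P := by
      intro P
      simp only [T]
      group
    rw [← e2 (A * B), ← e2 (B * A), h3]
  · set γ := B'.1 1 0 with hγdef
    set u := (1 - B'.1 0 0) / γ with hu
    have huγ : u * γ = 1 - B'.1 0 0 := by
      rw [hu]
      field_simp
    have e1 : T (x u * g) A = x s := by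
      have : T (x u * g) A = x u * T g A * (x u)⁻¹ := by
        simp only [T]
        group
      rw [this, hgx, x_inv, ← x_add, ← x_add]
      congr 1
      ring
    have e2 : T (x u * g) B = y γ := by
      have : T (x u * g) B = x u * B' * (x u)⁻¹ := by
        simp only [hB', T]
        group
      rw [this, x_inv]
      simp only [tr] at hBt
      have h11 : B'.1 1 1 = 2 - B'.1 0 0 := by linear_combination hBt
      have h01 : B'.1 0 1 * γ = B'.1 0 0 * (2 - B'.1 0 0) - 1 := by
        rw [h11] at hdet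
        linear_combination -hdet
      apply ext2
      · simp only [mul_00, mul_01, x_00, x_01, x_10, x_11, y_00]
        simp only [← hγdef]
        linear_combination huγ
      · simp only [mul_01, mul_00, mul_11, x_00, x_01, x_10, x_11, y_01]
        simp only [← hγdef]
        have : (B'.1 0 1 + u * (2 - B'.1 0 0 - B'.1 0 0) - u * u * γ) * γ = 0 := by
          have h5 : u * u * γ * γ = (u * γ) * (u * γ) := by ring
          have h6 : u * (2 - B'.1 0 0 - B'.1 0 0) * γ = (u * γ) * (2 - B'.1 0 0 - B'.1 0 0) := by ring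
          rw [sub_mul, add_mul, h5, h6, huγ, h01]
          ring
        have h7 := (mul_eq_zero.1 this).resolve_right hγ
        rw [h11]
        linear_combination h7
      · simp only [mul_10, mul_00, x_00, x_01, x_10, x_11, y_10]
        simp only [← hγdef]
        ring
      · simp only [mul_11, mul_10, x_00, x_01, x_10, x_11, y_11]
        simp only [← hγdef]
        rw [h11]
        linear_combination -huγ
    refine ⟨x u * g, γ, hγ, γ * s, ?_, ?_⟩
    · rw [frameEquiv_apply, e1, scale_x]
    · rw [frameEquiv_apply, e2, scale_y, inv_mul_cancel₀ hγ]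

end

section

variable {F : Type*} [Field F] [Fintype F]

lemma surj_of_mem {K : Type*} [Field K] (ι : K →+* F) {lam : F}
    (hgen : Subfield.closure ({lam} : Set F) = ⊤) (h : lam ∈ ι.fieldRange) :
    Function.Surjective ι := by
  have h1 : Subfield.closure ({lam} : Set F) ≤ ι.fieldRange :=
    Subfield.closure_le.2 (by simpa using h)
  rw [hgen] at h1
  intro z
  have h2 : z ∈ ι.fieldRange := h1 trivial
  exact RingHom.mem_fieldRange.1 h2

lemma card_of_int (p : ℕ) [Fact p.Prime] [CharP F p] {lam : F}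
    (hgen : Subfield.closure ({lam} : Set F) = ⊤) {k : ℤ} (h : lam = k) : Fintype.card F = p := by
  let ι : ZMod p →+* F := ZMod.castHom (dvd_refl p) F
  have h1 : lam ∈ ι.fieldRange := by
    rw [RingHom.mem_fieldRange]
    exact ⟨(k : ZMod p), by rw [map_intCast, h]⟩
  have h2 := surj_of_mem ι hgen h1
  have h3 : Function.Bijective ι := ⟨ι.injective, h2⟩
  rw [← Fintype.card_congr (Equiv.ofBijective ι h3), ZMod.card]

lemma card_of_sq (h3 : (3 : F) = 0) [CharP F 3] [Fact (Nat.Prime 3)] {lam : F}
    (hgen : Subfield.closure ({lam} : Set F) = ⊤) (hlam0 : lam ≠ 0) (h : lam ^ 2 = -1) : Fintype.card F = 9 := by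
  classical
  let L : Subfield F := (iterateFrobenius F 3 2).eqLocusField (RingHom.id F)
  have hL : ∀ z, z ∈ L ↔ z ^ 3 ^ 2 = z := by
    intro z
    show iterateFrobenius F 3 2 z = z ↔ _
    rw [iterateFrobenius_def]
  have h1 : lam ∈ L := by
    rw [hL]
    have : lam ^ 3 ^ 2 = (lam ^ 2) ^ 4 * lam := by norm_num; ring
    rw [this, h]
    ring
  have h2 : Subfield.closure ({lam} : Set F) ≤ L := Subfield.closure_le.2 (by simpa using h1)
  rw [hgen] at h2
  have h4 : ∀ z : F, z ^ 9 = z := fun z => (hL z).1 (h2 trivial)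
  obtain ⟨n, -, hn⟩ := FiniteField.card F 3
  obtain ⟨g, hg⟩ := IsCyclic.exists_generator (α := Fˣ)
  have hord : orderOf g = Fintype.card F - 1 := by
    rw [orderOf_eq_card_of_forall_mem_zpowers hg, Nat.card_eq_fintype_card, Fintype.card_units]
  have h8 : g ^ 8 = 1 := by
    apply Units.ext
    rw [Units.val_pow_eq_pow_val, Units.val_one]
    have := h4 (g : F)
    have h5 : ((g : Fˣ) : F) ^ 8 * ((g : Fˣ) : F) = 1 * ((g : Fˣ) : F) := by
      linear_combination this
    exact mul_right_cancel₀ g.ne_zero h5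
  have h9 := orderOf_dvd_of_pow_eq_one h8
  rw [hord] at h9
  have hq2 := card_ge_two F
  have h10 := Nat.le_of_dvd (by norm_num) h9
  have hn1 : (n : ℕ) ≠ 0 := n.ne_zero
  have hq : Fintype.card F = 3 ∨ Fintype.card F = 9 := by
    rw [hn]
    rw [hn] at h10
    have hn3 : (n : ℕ) < 3 := by
      by_contra hc
      have : 3 ^ 3 ≤ 3 ^ (n : ℕ) := Nat.pow_le_pow_right (by norm_num) (by omega)
      omega
    interval_cases hm : (n : ℕ)
    · omega
    · left; norm_num
    · right; norm_num
  rcases hq with hq | hq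
  · exfalso
    have h5 := FiniteField.pow_card lam
    rw [hq] at h5
    have h6 : lam ^ 3 = lam ^ 2 * lam := by ring
    rw [h6, h] at h5
    have h7 : 2 * lam = 0 := by linear_combination -h5
    have h22 : (2 : F) ≠ 0 := by
      intro h2'
      have : (1 : F) = 0 := by linear_combination h3 - h2'
      exact one_ne_zero this
    rcases mul_eq_zero.1 h7 with h8' | h8'
    · exact h22 h8'
    · exact hlam0 h8'
  · exact hq

variable (lam : F)

/-- The group in `PSL(2, F)`. -/
abbrev Mgp : Subgroup PSL(2, F) := closure ({mkP (x lam), mkP (y (1 : F))} : Set PSL(2, F))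

variable {lam}

lemma a5_facts {M : Subgroup PSL(2, F)} (e : M ≃* alternatingGroup (Fin 5)) {w : PSL(2, F)} (hw : w ∈ M) :
    w = 1 ∨ w ^ 2 = 1 ∨ w ^ 3 = 1 ∨ w ^ 5 = 1 := by
  have key : ∀ n : ℕ, e ⟨w, hw⟩ ^ n = 1 → w ^ n = 1 := by
    intro n h
    rw [← map_pow] at h
    have h1 : (⟨w, hw⟩ : M) ^ n = 1 := by simpa using h
    simpa using congrArg Subtype.val h1
  rcases a5_orders (e ⟨w, hw⟩) with h | h | h | h
  · left
    have h1 : (⟨w, hw⟩ : M) = 1 := by simpa using h
    exact congrArg Subtype.val h1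
  · exact Or.inr (Or.inl (key 2 h))
  · exact Or.inr (Or.inr (Or.inl (key 3 h)))
  · exact Or.inr (Or.inr (Or.inr (key 5 h)))

lemma no_order_four (h2 : (2 : F) ≠ 0) {M : Subgroup PSL(2, F)} (e : M ≃* alternatingGroup (Fin 5))
    {Y : SL(2, F)} (hY : mkP Y ∈ M) (htr : tr Y ^ 2 = 2) : False := by
  have h0 : tr (Y * Y) = 0 := by
    rw [Torus.tr_mul_self, htr]
    ring
  have h1 := (Torus.mul_self_eq_neg_one_iff (Y * Y)).2 h0
  have h3 : (⟨mkP Y, hY⟩ : M) ^ 4 = 1 := by
    apply Subtype.ext
    show mkP Y ^ 4 = 1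
    have : Y ^ 4 = Y * Y * (Y * Y) := by simp only [pow_succ, pow_zero, one_mul, mul_assoc]
    rw [← map_pow, this, h1, mkP_neg_one]
  have h4 : e ⟨mkP Y, hY⟩ ^ 4 = 1 := by
    rw [← map_pow, h3, map_one]
  have h5 := a5_four _ h4
  have h6 : (⟨mkP Y, hY⟩ : M) ^ 2 = 1 := by
    rw [← map_pow] at h5
    simpa using h5
  have h7 : mkP Y ^ 2 = 1 := by simpa using congrArg Subtype.val h6
  rw [← map_pow, mkP_eq_one_iff, pow_two] at h7
  rcases h7 with h7 | h7
  · rw [h7] at h0
    simp [tr] at h0
    apply h2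
    linear_combination h0
  · rw [h7] at h0
    simp [tr] at h0
    apply h2
    linear_combination -h0

/-- The main part. -/
theorem main (p : ℕ) [hpp : Fact p.Prime] [CharP F p] (hp2 : p % 2 = 1) (hlam : lam ≠ 0)
    (hgen : Subfield.closure ({lam} : Set F) = ⊤) :
    Mgp lam = ⊤ ∨ (Fintype.card F = 9 ∧ lam ^ 2 = -1 ∧ Nat.card (Mgp lam) = 60) := by
  classical
  have hp := hpp.out
  have h2 : (2 : F) ≠ 0 := by
    intro h
    have h1 : ((2 : ℕ) : F) = 0 := by exact_mod_cast h
    have h3 := (CharP.cast_eq_zero_iff F p 2).1 h1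
    have := Nat.le_of_dvd (by norm_num) h3
    have := hp.two_le
    have : p = 2 := by omega
    omega
  set M := Mgp lam with hM
  have ha : mkP (x lam) ∈ M := subset_closure (by simp)
  have hb : mkP (y (1 : F)) ∈ M := subset_closure (by simp)
  have hap : mkP (x lam) ^ p = 1 := by
    rw [← map_pow, x_pow_char p]
    simp
  have hbp : mkP (y (1 : F)) ^ p = 1 := by
    rw [← map_pow, y_pow_char p]
    simp
  have hnc := not_comm_gen h2 hlam
  have hone : mkP (x lam) ≠ 1 := by
    intro h
    apply hnc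
    rw [h, one_mul, mul_one]
  have hord : orderOf (⟨mkP (x lam), ha⟩ : M) = p := by
    rw [Subgroup.orderOf_mk]
    exact orderOf_eq_prime hap hone
  have hpdvd : p ∣ Nat.card M := by
    rw [← hord]
    exact orderOf_dvd_natCard _
  have hab : mkP (x lam * y 1) ∈ M := by
    rw [map_mul]
    exact M.mul_mem ha hb
  have hY : mkP (x lam * y (-1)) ∈ M := by
    have : y (-1 : F) = (y (1 : F))⁻¹ := by rw [y_inv]
    rw [map_mul, this, map_inv]
    exact M.mul_mem ha (M.inv_mem hb)
  have htr := tr_xy lam (1 : F)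
  rw [mul_one] at htr
  have htr' := tr_xy lam (-1 : F)
  have htop_of_card : Nat.card M = Nat.card PSL(2, F) → M = ⊤ := Subgroup.eq_top_of_card_eq _
  have hdd : ∀ q : ℕ, Fintype.card F = q → q % 2 = 1 → Nat.card PSL(2, F) * 2 = q * (q ^ 2 - 1) := by
    intro q hq hq2
    have h3 := card_PSL2_mul_dd F
    have h4 : dd F = 2 := by
      unfold dd
      rw [hq]
      exact gcd_two_odd hq2
    rw [h4, hq] at h3
    exact h3
  have hcomm_no : (∀ u v : M, u * v = v * u) → False := by
    intro hc
    have h3 := hc ⟨_, ha⟩ ⟨_, hb⟩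
    exact hnc (congrArg Subtype.val h3)
  have hno2 : ∀ N : Subgroup M, N.index = 2 → False :=
    fun N hN => no_index_two hp2 hap hbp N hN
  rcases dickson_frame_pos p M with h1 | ⟨A, hA, hd, hle⟩ | ⟨A, hA, hd, hAH, hidx⟩ | ⟨g, hg⟩ |
      ⟨⟨e⟩⟩ | ⟨⟨e⟩⟩ | ⟨⟨e⟩⟩ | hpos
  · exfalso
    rw [h1] at hpdvd
    exact hp.one_lt.ne' (Nat.dvd_one.1 hpdvd)
  · exfalso
    obtain ⟨hc, -⟩ := MemberCyc.cbar_cyclic hA hd
    have hcomm : ∀ u v : cbar A, u * v = v * u := by
      letI := IsCyclic.commGroup (α := cbar A)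
      exact mul_comm
    apply hcomm_no
    intro u v
    have := hcomm ⟨_, hle u.2⟩ ⟨_, hle v.2⟩
    exact Subtype.ext (congrArg (fun z : cbar A => (z.1 : PSL(2, F))) this)
  · exact (hno2 _ hidx).elim
  · exfalso
    have key : ∀ X : SL(2, F), Up g X → X ^ p = 1 → ch g X = 1 := by
      intro X hX hp'
      have hpow : ∀ n : ℕ, Up g (X ^ n) ∧ ch g (X ^ n) = ch g X ^ n := by
        intro n
        induction n with
        | zero =>
          constructor
          · show (T g (X ^ 0)).1 1 0 = 0
            rw [pow_zero, T_one]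
            simp
          · rw [pow_zero, pow_zero]
            show (T g 1).1 0 0 = 1
            rw [T_one]
            simp
        | succ n ih =>
          rw [pow_succ, pow_succ]
          exact ⟨up_mul ih.1 hX, by rw [ch_mul hX, ih.2]⟩
      have h3 := (hpow p).2
      rw [hp'] at h3
      have h4 : ch g (1 : SL(2, F)) = 1 := by
        show (T g 1).1 0 0 = 1
        rw [T_one]
        simp
      rw [h4] at h3
      have h5 : (ch g X - 1) ^ p = 0 := by
        rw [sub_pow_char, one_pow, ← h3, sub_self]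
      exact sub_eq_zero.1 (pow_eq_zero_iff hp.ne_zero |>.1 h5)
    have hu1 := hg _ ha
    have hu2 := hg _ hb
    have h3 := key _ hu1 (x_pow_char p lam)
    have h4 := key _ hu2 (y_pow_char p 1)
    have h5 := commute_of_sq_one hu1 hu2 (by rw [h3, one_pow]) (by rw [h4, one_pow])
    apply hnc
    rw [← map_mul, ← map_mul, h5]
  · -- `A₄`
    have h12 : Nat.card M = 12 := by rw [Nat.card_congr e.toEquiv, card_alt4]
    rw [h12] at hpdvd
    have hp3 := p_of_dvd12 hp hp2 hpdvd
    subst hp3
    have key : ∀ n : ℕ, e ⟨_, hab⟩ ^ n = 1 → mkP (x lam * y 1) ^ n = 1 := by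
      intro n h
      rw [← map_pow] at h
      have h1 : (⟨_, hab⟩ : M) ^ n = 1 := by simpa using h
      simpa using congrArg Subtype.val h1
    have hint : ∃ k : ℤ, lam = k := by
      have hcases : tr (x lam * y 1) = 2 ∨ tr (x lam * y 1) = -2 ∨ tr (x lam * y 1) = 0 ∨
          tr (x lam * y 1) = 1 ∨ tr (x lam * y 1) = -1 := by
        rcases a4_orders (e ⟨_, hab⟩) with h | h | h
        · have h1 : (⟨_, hab⟩ : M) = 1 := by simpa using h
          have h3 := tr_of_mkP_eq_one (congrArg Subtype.val h1)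
          rcases h3 with h3 | h3
          · exact Or.inl h3
          · exact Or.inr (Or.inl h3)
        · rcases tr_of_sq (key 2 h) with h3 | h3
          · rcases tr_of_mkP_eq_one h3 with h4 | h4
            · exact Or.inl h4
            · exact Or.inr (Or.inl h4)
          · exact Or.inr (Or.inr (Or.inl h3))
        · rcases tr_of_cube (key 3 h) with h3 | h3
          · rcases tr_of_mkP_eq_one h3 with h4 | h4
            · exact Or.inl h4
            · exact Or.inr (Or.inl h4)
          · rcases (sq_one h3) with h4 | h4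
            · exact Or.inr (Or.inr (Or.inr (Or.inl h4)))
            · exact Or.inr (Or.inr (Or.inr (Or.inr h4)))
      rw [htr] at hcases
      rcases hcases with h | h | h | h | h
      · exact ⟨0, by push_cast; linear_combination h⟩
      · exact ⟨-4, by push_cast; linear_combination h⟩
      · exact ⟨-2, by push_cast; linear_combination h⟩
      · exact ⟨-1, by push_cast; linear_combination h⟩
      · exact ⟨-3, by push_cast; linear_combination h⟩
    obtain ⟨k, hk⟩ := hint
    have hq := card_of_int 3 hgen hk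
    left
    apply htop_of_card
    have := hdd 3 hq (by norm_num)
    omega
  · -- `S₄`
    exfalso
    let N : Subgroup M := (alternatingGroup (Fin 4)).comap e.toMonoidHom
    have hN : N.index = 2 := by
      rw [Subgroup.index_comap_of_surjective _ e.surjective]
      exact alternatingGroup.index_eq_two
    exact hno2 N hN
  · -- `A₅`
    have h60 : Nat.card M = 60 := by rw [Nat.card_congr e.toEquiv, card_alt5]
    rw [h60] at hpdvd
    have hint : (∃ k : ℤ, lam = k) ∨ tr (x lam * y 1) ^ 4 - 3 * tr (x lam * y 1) ^ 2 + 1 = 0 := by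
      have hof : ∀ τ : F, (τ = 2 ∨ τ = -2 ∨ τ = 0 ∨ τ = 1 ∨ τ = -1) → τ = 2 + lam → ∃ k : ℤ, lam = k := by
        rintro τ (h | h | h | h | h) hτ
        · exact ⟨0, by push_cast; linear_combination h - hτ⟩
        · exact ⟨-4, by push_cast; linear_combination h - hτ⟩
        · exact ⟨-2, by push_cast; linear_combination h - hτ⟩
        · exact ⟨-1, by push_cast; linear_combination h - hτ⟩
        · exact ⟨-3, by push_cast; linear_combination h - hτ⟩
      have hone' : mkP (x lam * y 1) = 1 → ∃ k : ℤ, lam = k := by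
        intro h
        rcases tr_of_mkP_eq_one h with h3 | h3
        · exact hof _ (Or.inl h3) htr
        · exact hof _ (Or.inr (Or.inl h3)) htr
      rcases a5_facts e hab with h | h | h | h
      · exact Or.inl (hone' h)
      · rcases tr_of_sq h with h3 | h3
        · exact Or.inl (hone' h3)
        · exact Or.inl (hof _ (Or.inr (Or.inr (Or.inl h3))) htr)
      · rcases tr_of_cube h with h3 | h3
        · exact Or.inl (hone' h3)
        · rcases sq_one h3 with h4 | h4
          · exact Or.inl (hof _ (Or.inr (Or.inr (Or.inr (Or.inl h4)))) htr)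
          · exact Or.inl (hof _ (Or.inr (Or.inr (Or.inr (Or.inr h4)))) htr)
      · rcases tr_of_five h with h3 | h3
        · exact Or.inl (hone' h3)
        · exact Or.inr h3
    rcases p_of_dvd60 hp hp2 hpdvd with hp3 | hp5
    · subst hp3
      have h3F : (3 : F) = 0 := by exact_mod_cast CharP.cast_eq_zero F 3
      rcases hint with ⟨k, hk⟩ | hq4
      · exfalso
        have hq := card_of_int 3 hgen hk
        have h1 := hdd 3 hq (by norm_num)
        have h3 : Nat.card M ≤ Nat.card PSL(2, F) := Subgroup.card_le_card_group M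
        omega
      · rw [htr] at hq4
        have hfac : (lam ^ 2 + 1) * (lam ^ 2 - lam - 1) = 0 := by
          linear_combination hq4 - (3 * lam ^ 3 + 7 * lam ^ 2 + 7 * lam + 2) * h3F
        rcases mul_eq_zero.1 hfac with h4 | h4
        · right
          have hl : lam ^ 2 = -1 := by linear_combination h4
          exact ⟨card_of_sq h3F hgen hlam hl, hl, h60⟩
        · exfalso
          apply no_order_four h2 e hY
          rw [htr']
          linear_combination h4 + (1 - lam) * h3F
    · subst hp5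
      have h5F : (5 : F) = 0 := by exact_mod_cast CharP.cast_eq_zero F 5
      have hk : ∃ k : ℤ, lam = k := by
        rcases hint with h | hq4
        · exact h
        · rw [htr] at hq4
          have h1 : ((2 + lam) ^ 2 + 1) ^ 2 = 0 := by
            linear_combination hq4 + (2 + lam) ^ 2 * h5F
          have h3 := pow_eq_zero_iff (two_ne_zero) |>.1 h1
          have h4 : lam * (lam + 4) = 0 := by linear_combination h3 - h5F
          rcases mul_eq_zero.1 h4 with h5 | h5
          · exact absurd h5 hlam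
          · exact ⟨-4, by push_cast; linear_combination h5⟩
      obtain ⟨k, hk⟩ := hk
      have hq := card_of_int 5 hgen hk
      left
      apply htop_of_card
      have := hdd 5 hq (by norm_num)
      omega
  · -- in position
    left
    obtain ⟨g₁, c₁, hc₁, K, _, _, ι, m, hm, hle, hcase⟩ := hpos
    set Φ := frameP g₁ c₁ hc₁ with hΦ
    have hcardΦ : Nat.card (M.map Φ.toMonoidHom) = Nat.card M :=
      (Nat.card_congr (Φ.subgroupMap M).toEquiv).symm
    have hqF := card_ge_two F
    have hm0 : m ≠ 0 := by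
      rintro rfl
      rw [pow_zero] at hm
      omega
    have hddK := dd_eq_of_pow hm0 hm
    have hoddF : Fintype.card F % 2 = 1 := by
      obtain ⟨n, -, hn⟩ := FiniteField.card F p
      rw [hn, Nat.pow_mod, hp2]
      simp
    have hddF : dd F = 2 := gcd_two_odd hoddF
    rcases hcase with hc | ⟨-, hc⟩
    · have h3 : Φ (mkP (x lam * y 1)) ∈ stdPsl ι := by
        rw [← hc]
        exact ⟨_, hab, rfl⟩
      obtain ⟨z, hz⟩ := h3
      obtain ⟨Z, rfl⟩ := mkP_surjective z
      rw [pslMap_mk, hΦ, frameP_mk, mkP_eq_iff] at hz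
      have htZ : tr (mapι ι Z) = ι (tr Z) := by
        simp [tr]
      have htF := tr_frameEquiv g₁ c₁ hc₁ (x lam * y 1)
      have hmem : lam ∈ ι.fieldRange := by
        rw [RingHom.mem_fieldRange]
        rcases hz with hz | hz
        · refine ⟨tr Z - 2, ?_⟩
          rw [map_sub, ← htZ, ← hz, htF, htr, map_ofNat]
          ring
        · refine ⟨-tr Z - 2, ?_⟩
          have h5 := congrArg tr hz
          rw [tr_neg, htZ, htF, htr] at h5
          rw [map_sub, map_neg, map_ofNat]
          linear_combination -h5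
      have hsurj := surj_of_mem ι hgen hmem
      have hcardK : Fintype.card K = Fintype.card F :=
        Fintype.card_congr (Equiv.ofBijective ι ⟨ι.injective, hsurj⟩)
      apply htop_of_card
      rw [← hcardΦ, hc, card_stdPsl]
      exact card_PSL2_eq hcardK
    · exfalso
      rw [hddK] at hddF
      have hKc := card_PSL2_mul_dd K
      rw [hddF, ← hc] at hKc
      let N' : Subgroup PSL(2, F) := (stdPsl ι).map Φ.symm.toMonoidHom
      have hN'le : N' ≤ M := by
        rintro _ ⟨u, hu, rfl⟩
        obtain ⟨v, hv, hvu⟩ := hle hu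
        have : Φ.symm.toMonoidHom u = v := by
          have h5 : Φ v = u := hvu
          rw [← h5]
          simp
        rw [this]
        exact hv
      have hN'c : Nat.card N' = Nat.card PSL(2, K) := by
        rw [← card_stdPsl ι]
        exact (Nat.card_congr (Φ.symm.subgroupMap (stdPsl ι)).toEquiv).symm
      have hcN : Nat.card (N'.subgroupOf M) = Nat.card N' :=
        Nat.card_congr (Subgroup.subgroupOfEquivOfLe hN'le).toEquiv
      have h5 := Subgroup.index_mul_card (N'.subgroupOf M)
      rw [hcN, hN'c, ← hKc] at h5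
      have hpos' : 0 < Nat.card PSL(2, K) := Nat.card_pos
      have h6 : (N'.subgroupOf M).index = 2 := by
        have h7 : (N'.subgroupOf M).index * Nat.card PSL(2, K) = 2 * Nat.card PSL(2, K) := by
          rw [h5]
          ring
        exact Nat.eq_of_mul_eq_mul_right hpos' h7
      exact hno2 _ h6

/-- The exceptional case. -/
theorem exception_ne_top (h9 : Fintype.card F = 9) (hlam : lam ^ 2 = -1) : Mgp lam ≠ ⊤ := by
  classical
  intro htop
  have hp3 : ringChar F = 3 := by
    obtain ⟨p, hp, hc⟩ := exists_char F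
    haveI : Fact p.Prime := ⟨hp⟩
    obtain ⟨n, -, hn⟩ := FiniteField.card F p
    have h1 : p ∣ 3 ^ 2 := by
      have : p ^ (n : ℕ) = 3 ^ 2 := by rw [← hn, h9]; norm_num
      rw [← this]
      exact dvd_pow_self p n.ne_zero
    have h2 : p = 3 := (Nat.prime_dvd_prime_iff_eq hp Nat.prime_three).1 (hp.dvd_of_dvd_pow h1)
    subst h2
    exact ringChar.eq F 3
  haveI hc3 : CharP F 3 := by
    rw [← hp3]
    exact ringChar.charP F
  haveI hf3 : Fact (Nat.Prime 3) := ⟨Nat.prime_three⟩
  have h3F : (3 : F) = 0 := by exact_mod_cast CharP.cast_eq_zero F 3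
  have h2 : (2 : F) ≠ 0 := by
    intro h
    have : (1 : F) = 0 := by linear_combination h3F - h
    exact one_ne_zero this
  have hφ : (-1 - lam) * (-1 - lam) = (-1 - lam) + 1 := by
    linear_combination hlam + lam * h3F
  obtain ⟨C, ⟨e⟩⟩ := Icosian.exists_A5_odd h2 hφ
  obtain ⟨h1, h2', h3, h4, h5, h6⟩ := a₀_data
  -- lifts
  have hval : ∀ (z : alternatingGroup (Fin 5)) (n : ℕ), z ^ n = 1 → ((e.symm z : C) : PSL(2, F)) ^ n = 1 := by
    intro z n hz
    have : (e.symm z) ^ n = 1 := by rw [← map_pow, hz, map_one]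
    simpa using congrArg Subtype.val this
  have hne : ∀ z : alternatingGroup (Fin 5), z ≠ 1 → ((e.symm z : C) : PSL(2, F)) ≠ 1 := by
    intro z hz h
    apply hz
    have : e.symm z = 1 := Subtype.ext h
    simpa using this
  obtain ⟨a, ha⟩ : ∃ a : PSL(2, F), a = ((e.symm a₀ : C) : PSL(2, F)) := ⟨_, rfl⟩
  obtain ⟨b, hb⟩ : ∃ b : PSL(2, F), b = ((e.symm b₀ : C) : PSL(2, F)) := ⟨_, rfl⟩
  have ha3 : a ^ 3 = 1 := by rw [ha]; exact hval _ _ h1
  have hb3 : b ^ 3 = 1 := by rw [hb]; exact hval _ _ h2'
  have ha1 : a ≠ 1 := by rw [ha]; exact hne _ h3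
  have hb1 : b ≠ 1 := by rw [hb]; exact hne _ h4
  have habe : a * b = ((e.symm (a₀ * b₀) : C) : PSL(2, F)) := by
    rw [map_mul, ha, hb]
    rfl
  have hab1 : a * b ≠ 1 := by
    rw [habe]
    exact hne _ h5
  have hab5 : (a * b) ^ 5 = 1 := by
    rw [habe]
    exact hval _ _ h6
  have hlift : ∀ u : PSL(2, F), u ^ 3 = 1 → u ≠ 1 → ∃ U : SL(2, F), mkP U = u ∧ tr U = 2 := by
    intro u hu hu1
    obtain ⟨U, rfl⟩ := mkP_surjective u
    have hd : disc U = 0 := disc_of_mkP_pow 3 (n := 1) (by simpa using hu)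
    rcases tr_cases_of_disc hd with h7 | h7
    · exact ⟨U, rfl, h7⟩
    · refine ⟨-U, mkP_neg U, ?_⟩
      rw [tr_neg, h7]
      ring
  obtain ⟨A, rfl, hAt⟩ := hlift a ha3 ha1
  obtain ⟨B, rfl, hBt⟩ := hlift b hb3 hb1
  have hcomm : A * B ≠ B * A := by
    intro hc
    have h7 : Commute (mkP A) (mkP B) := by
      show mkP A * mkP B = mkP B * mkP A
      rw [← map_mul, ← map_mul, hc]
    have h8 : (mkP A * mkP B) ^ 3 = 1 := by
      rw [h7.mul_pow, ha3, hb3, one_mul]
    apply hab1
    have h9 : (mkP A * mkP B) ^ 6 = 1 := by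
      have : (mkP A * mkP B) ^ 6 = ((mkP A * mkP B) ^ 3) ^ 2 := by rw [← pow_mul]
      rw [this, h8, one_pow]
    have h10 : (mkP A * mkP B) ^ 6 = (mkP A * mkP B) ^ 5 * (mkP A * mkP B) := pow_succ _ 5
    rw [h10, hab5, one_mul] at h9
    exact h9
  have hA1 : A ≠ 1 := by
    rintro rfl
    exact ha1 (map_one _)
  obtain ⟨g, c, hc, t, hgA, hgB⟩ := normal_pair hAt hBt hA1 hcomm
  set Φ := frameP g c hc with hΦ
  have hΦA : Φ (mkP A) = mkP (x t) := by rw [hΦ, frameP_mk, hgA]
  have hΦB : Φ (mkP B) = mkP (y 1) := by rw [hΦ, frameP_mk, hgB]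
  let C' : Subgroup PSL(2, F) := C.map Φ.toMonoidHom
  have hC'c : Nat.card C' = 60 := by
    have h7 : Nat.card C' = Nat.card C := (Nat.card_congr (Φ.subgroupMap C).toEquiv).symm
    rw [h7, Nat.card_congr e.toEquiv, card_alt5]
  let e' : C' ≃* alternatingGroup (Fin 5) := (Φ.subgroupMap C).symm.trans e
  have hxC : mkP (x t) ∈ C' := ⟨_, (e.symm a₀).2, by show Φ _ = _; rw [← ha]; exact hΦA⟩
  have hyC : mkP (y (1 : F)) ∈ C' := ⟨_, (e.symm b₀).2, by show Φ _ = _; rw [← hb]; exact hΦB⟩
  have hxy5 : mkP (x t * y 1) ^ 5 = 1 := by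
    rw [map_mul, ← hΦA, ← hΦB, ← map_mul, ← map_pow, hab5, map_one]
  have hxy1 : mkP (x t * y 1) ≠ 1 := by
    rw [map_mul, ← hΦA, ← hΦB, ← map_mul]
    intro h7
    exact hab1 ((map_eq_one_iff Φ Φ.injective).1 h7)
  have htr := tr_xy t (1 : F)
  rw [mul_one] at htr
  have hq4 := (tr_of_five hxy5).resolve_left hxy1
  rw [htr] at hq4
  have hfac : (t ^ 2 + 1) * (t ^ 2 - t - 1) = 0 := by
    linear_combination hq4 - (3 * t ^ 3 + 7 * t ^ 2 + 7 * t + 2) * h3F
  have ht2 : t ^ 2 + 1 = 0 := by
    rcases mul_eq_zero.1 hfac with h7 | h7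
    · exact h7
    · exfalso
      have hY : mkP (x t * y (-1)) ∈ C' := by
        have : y (-1 : F) = (y (1 : F))⁻¹ := by rw [y_inv]
        rw [map_mul, this, map_inv]
        exact C'.mul_mem hxC (C'.inv_mem hyC)
      apply no_order_four h2 e' hY
      rw [tr_xy]
      linear_combination h7 + (1 - t) * h3F
  have hle : Mgp lam ≤ C' := by
    rw [closure_le]
    have hfact : (t - lam) * (t + lam) = 0 := by linear_combination ht2 - hlam
    rintro z (rfl | rfl)
    · rcases mul_eq_zero.1 hfact with h7 | h7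
      · have : lam = t := by linear_combination -h7
        rw [this]
        exact hxC
      · have : lam = -t := by linear_combination h7
        rw [this, ← x_inv, map_inv]
        exact C'.inv_mem hxC
    · exact hyC
  rw [htop] at hle
  have h10 : Nat.card (⊤ : Subgroup PSL(2, F)) ≤ Nat.card C' := Subgroup.card_le_of_le hle
  rw [Subgroup.card_top, hC'c] at h10
  have h11 := card_PSL2_mul_dd F
  have h12 : dd F = 2 := by
    unfold dd
    rw [h9]
    rfl
  rw [h12, h9] at h11
  omega

end

/-- Let F be a finite field of odd characteristic and λ ≠ 0 an element generating F as a field. Then the lower and upper unitriangular matrices with off-diagonal entries 1 and λ generate SL_2(F), unless |F| = 9 and λ² = −1, in which case they generate a subgroup of order 120. -/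
theorem result {F : Type*} [Field F] [Fintype F] (h2 : (2 : F) ≠ 0) (lam : F) (hlam : lam ≠ 0) (hgen : Subfield.closure ({lam} : Set F) = ⊤) : (Subgroup.closure {g : Matrix.SpecialLinearGroup (Fin 2) F | (g : Matrix (Fin 2) (Fin 2) F) = !![1, 0; 1, 1] ∨ (g : Matrix (Fin 2) (Fin 2) F) = !![1, lam; 0, 1]} = ⊤ ∧ ¬ (Fintype.card F = 9 ∧ lam ^ 2 = -1)) ∨ (Fintype.card F = 9 ∧ lam ^ 2 = -1 ∧ Nat.card ↥(Subgroup.closure {g : Matrix.SpecialLinearGroup (Fin 2) F | (g : Matrix (Fin 2) (Fin 2) F) = !![1, 0; 1, 1] ∨ (g : Matrix (Fin 2) (Fin 2) F) = !![1, lam; 0, 1]}) = 120) := by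
  classical
  obtain ⟨p, hp, hc⟩ := exists_char F
  haveI : Fact p.Prime := ⟨hp⟩
  have hp2 : p % 2 = 1 := by
    rcases Nat.mod_two_eq_zero_or_one p with h | h
    · exfalso
      have h3 : p = 2 := (Nat.prime_dvd_prime_iff_eq Nat.prime_two hp).1 (Nat.dvd_of_mod_eq_zero h) |>.symm
      subst h3
      exact h2 (by exact_mod_cast CharP.cast_eq_zero F 2)
    · exact h
  set S : Set SL(2, F) := {g : Matrix.SpecialLinearGroup (Fin 2) F | (g : Matrix (Fin 2) (Fin 2) F) = !![1, 0; 1, 1] ∨ (g : Matrix (Fin 2) (Fin 2) F) = !![1, lam; 0, 1]} with hS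
  have hSeq : S = {x lam, y 1} := by
    ext g
    simp only [hS, Set.mem_setOf_eq, Set.mem_insert_iff, Set.mem_singleton_iff]
    constructor
    · rintro (h | h)
      · right
        apply Subtype.ext
        rw [h]
        rfl
      · left
        apply Subtype.ext
        rw [h]
        rfl
    · rintro (rfl | rfl)
      · right; rfl
      · left; rfl
  set H := Subgroup.closure S with hH
  have hmap : H.map mkP = Mgp lam := by
    rw [hH, hSeq, MonoidHom.map_closure, Set.image_pair]
  have hneg : 2 ∣ Nat.card (H.map mkP) → (-1 : SL(2, F)) ∈ H := by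
    intro h
    have h3 : Nat.card (H.map mkP) ∣ Nat.card H := by
      have h4 := Subgroup.card_dvd_of_surjective ((mkP : SL(2, F) →* PSL(2, F)).subgroupMap H)
        (MonoidHom.subgroupMap_surjective _ _)
      exact h4
    obtain ⟨t, ht⟩ := exists_prime_orderOf_dvd_card' (G := H) 2 (h.trans h3)
    have h5 : (t : SL(2, F)) * t = 1 := by
      have := pow_orderOf_eq_one t
      rw [ht, pow_two] at this
      exact congrArg Subtype.val this
    rcases (Torus.mul_self_eq_one_iff h2 t.1).1 h5 with h6 | h6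
    · exfalso
      have : t = 1 := Subtype.ext h6
      rw [this, orderOf_one] at ht
      omega
    · rw [← h6]
      exact t.2
  have hcenter : (-1 : SL(2, F)) ∈ H → Subgroup.center SL(2, F) ≤ H := by
    intro h X hX
    rcases mem_center_iff₂.1 hX with rfl | rfl
    · exact H.one_mem
    · exact h
  have hoddF : Fintype.card F % 2 = 1 := by
    obtain ⟨n, -, hn⟩ := FiniteField.card F p
    rw [hn, Nat.pow_mod, hp2]
    simp
  have hddF : dd F = 2 := Overgroups.gcd_two_odd hoddF
  rcases main p hp2 hlam hgen with htop | ⟨h9, hl, h60⟩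
  · have hnot : ¬ (Fintype.card F = 9 ∧ lam ^ 2 = -1) := by
      rintro ⟨h9, hl⟩
      exact exception_ne_top h9 hl htop
    left
    refine ⟨?_, hnot⟩
    -- the group is everything
    have heven : 2 ∣ Nat.card (H.map mkP) := by
      rw [hmap, htop, Subgroup.card_top]
      have h3 := card_PSL2_mul_dd F
      rw [hddF] at h3
      have hq2 := card_ge_two F
      obtain ⟨t, ht⟩ : ∃ t, Fintype.card F = 2 * t + 1 := ⟨Fintype.card F / 2, by omega⟩
      have h8 : 8 ∣ Fintype.card F ^ 2 - 1 := by
        rw [ht]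
        have h1 : (2 * t + 1) ^ 2 - 1 = 4 * (t * (t + 1)) := by
          have : (2 * t + 1) ^ 2 = 4 * (t * (t + 1)) + 1 := by ring
          omega
        obtain ⟨v, hv⟩ : 2 ∣ t * (t + 1) := (Nat.even_mul_succ_self t).two_dvd
        rw [h1, hv]
        exact ⟨v, by ring⟩
      obtain ⟨v, hv⟩ := h8
      rw [hv] at h3
      refine ⟨Fintype.card F * (2 * v), ?_⟩
      have h4 : Nat.card PSL(2, F) * 2 = (2 * (Fintype.card F * (2 * v))) * 2 := by
        rw [h3]
        ring
      exact Nat.eq_of_mul_eq_mul_right (by norm_num) h4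
    have hm1 := hneg heven
    rw [eq_top_iff]
    intro X _
    have h3 : mkP X ∈ H.map mkP := by
      rw [hmap, htop]
      trivial
    obtain ⟨Y, hY, hYX⟩ := h3
    rcases mkP_eq_iff.1 hYX with h4 | h4
    · rw [h4]; exact hY
    · rw [h4]
      have : -Y = (-1) * Y := by simp
      rw [this]
      exact H.mul_mem hm1 hY
  · right
    refine ⟨h9, hl, ?_⟩
    have heven : 2 ∣ Nat.card (H.map mkP) := by
      rw [hmap, h60]
      norm_num
    have hm1 := hneg heven
    have h3 := Spectrum.card_map_mkP H (hcenter hm1)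
    rw [hmap, h60, dd_eq_card_center, hddF] at h3
    omega

end Cfsg.Agent.S0801
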