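import Cfsg.Statements.S0808
import Mathlib
import Cfsg.Agent.Lib.PSL2.FourGroup
import Cfsg.Agent.Lib.PSL2.TorusCore
-- import your own Cfsg.Agent.* helpers here

set_option autoImplicit false
open Cfsg

namespace Cfsg.Agent.S0808

section Aux

open Matrix Matrix.SpecialLinearGroup
open scoped MatrixGroups
open Cfsg.Agent.Lib.PSL2.Basic Cfsg.Agent.Lib.PSL2.KleinPairs Cfsg.Agent.Lib.PSL2.FourGroup

variable {F : Type*} [Field F] [Fintype F]

lemma fourOf_congr {G : Type*} [Group G] {a b a' b' : G} (ea : a = a') (eb : b = b')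
    (h : IsPP a b) (h' : IsPP a' b') : fourOf a b h = fourOf a' b' h' := by
  subst ea eb; rfl

/-- A `GL₂`-element with square determinant acts as an element of `SL₂`. -/
lemma exists_sl_of_sq (G : GL (Fin 2) F) {r : F} (hr : det G.val = r * r) :
    ∃ g : SL(2, F), g.1 = r⁻¹ • G.val ∧ ∀ A : SL(2, F), cj G A = g * A * g⁻¹ := by
  have hdet := GeneralLinearGroup.det_ne_zero G
  have hr0 : r ≠ 0 := by
    rintro rfl
    simp at hr
    exact hdet hr
  have hg : det (r⁻¹ • G.val) = 1 := by
    rw [Matrix.det_smul, hr]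
    simp [Fintype.card_fin]
    field_simp
  refine ⟨⟨r⁻¹ • G.val, hg⟩, rfl, ?_⟩
  intro A
  set g : SL(2, F) := ⟨r⁻¹ • G.val, hg⟩ with hgdef
  have hval : g.1 = r⁻¹ • G.val := rfl
  rw [cj_eq_iff]
  have e : (g * A * g⁻¹).1 * g.1 = g.1 * A.1 := by
    have : g * A * g⁻¹ * g = g * A := by group
    exact congrArg Subtype.val this
  rw [hval, Matrix.mul_smul, Matrix.smul_mul] at e
  exact smul_right_injective _ (inv_ne_zero hr0) e.symm

/-- The pair attached to a Klein four-subgroup of `PSL(2, F)`. -/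
lemma exists_isQ_of_klein (h2 : (2 : F) ≠ 0) (V : Subgroup PSL(2, F)) (hV : IsKleinFour V) :
    ∃ (A B : SL(2, F)) (h : IsQ A B), V = fourOf (mkP A) (mkP B) (isPP_of_isQ h2 h) := by
  obtain ⟨a, b, h, rfl⟩ := exists_pair_of_isKleinFour V hV
  obtain ⟨A, rfl⟩ := mkP_surjective a
  obtain ⟨B, rfl⟩ := mkP_surjective b
  exact ⟨A, B, isQ_of_isPP h2 h, fourOf_congr rfl rfl _ _⟩

/-- Conjugation by a matrix of square determinant. -/
lemma map_conj_of_sq (h2 : (2 : F) ≠ 0) {A B A' B' : SL(2, F)} (h : IsQ A B) (h' : IsQ A' B')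
    {G : GL (Fin 2) F} (hA : cj G A = A') (hB : cj G B = B') (hG : IsSquare (det G.val)) :
    ∃ g : PSL(2, F), fourOf (mkP A') (mkP B') (isPP_of_isQ h2 h') =
      (fourOf (mkP A) (mkP B) (isPP_of_isQ h2 h)).map (MulAut.conj g).toMonoidHom := by
  obtain ⟨r, hr⟩ := hG
  obtain ⟨g, -, hg⟩ := exists_sl_of_sq G hr
  refine ⟨mkP g, ?_⟩
  rw [map_conj_fourOf]
  apply fourOf_congr
  · rw [← hA, hg, map_mul, map_mul, map_inv]
  · rw [← hB, hg, map_mul, map_mul, map_inv]

/-- Counting with one orbit: the normaliser of a Klein four-subgroup has order 12. -/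
lemma card_normalizer_of_transitive (h2 : (2 : F) ≠ 0) (V : Subgroup PSL(2, F)) (hV : IsKleinFour V)
    (htrans : ∀ W : Subgroup PSL(2, F), IsKleinFour W →
      ∃ g : PSL(2, F), W = V.map (MulAut.conj g).toMonoidHom) :
    Nat.card (Subgroup.normalizer (V : Set PSL(2, F))) = 12 := by
  classical
  have hmapK : ∀ g : PSL(2, F), IsKleinFour (V.map (MulAut.conj g).toMonoidHom) := by
    intro g
    obtain ⟨a, b, h, rfl⟩ := exists_pair_of_isKleinFour V hV
    rw [map_conj_fourOf]
    exact isKleinFour_fourOf _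
  let c : PSL(2, F) → {W : Subgroup PSL(2, F) // IsKleinFour W} := fun g => ⟨_, hmapK g⟩
  have hcomp : ∀ (g g' : PSL(2, F)) (W : Subgroup PSL(2, F)),
      (W.map (MulAut.conj g).toMonoidHom).map (MulAut.conj g').toMonoidHom =
        W.map (MulAut.conj (g' * g)).toMonoidHom := by
    intro g g' W
    rw [Subgroup.map_map, map_mul]
    rfl
  have hnorm : ∀ g : PSL(2, F), g ∈ Subgroup.normalizer (V : Set PSL(2, F)) ↔
      V.map (MulAut.conj g).toMonoidHom = V := fun g => Subgroup.mem_normalizer_iff_map_conj_eq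
  have hfib : ∀ W, Nat.card {g // c g = W} = Nat.card (Subgroup.normalizer (V : Set PSL(2, F))) := by
    rintro ⟨W, hW⟩
    obtain ⟨g₀, rfl⟩ := htrans W hW
    refine Nat.card_congr (Equiv.ofBijective (fun g => ⟨g₀⁻¹ * g.1, ?_⟩) ⟨?_, ?_⟩)
    · apply (hnorm _).2
      have hg : V.map (MulAut.conj g.1).toMonoidHom = V.map (MulAut.conj g₀).toMonoidHom :=
        congrArg Subtype.val g.2
      have := congrArg (fun U => U.map (MulAut.conj g₀⁻¹).toMonoidHom) hg
      simp only [hcomp] at this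
      rw [inv_mul_cancel] at this
      rw [this, map_one]
      ext x
      simp
    · rintro ⟨g, hg⟩ ⟨g', hg'⟩ h
      have := congrArg Subtype.val h
      exact Subtype.ext (mul_left_cancel this)
    · rintro ⟨n, hn⟩
      refine ⟨⟨g₀ * n, ?_⟩, ?_⟩
      · apply Subtype.ext
        show V.map (MulAut.conj (g₀ * n)).toMonoidHom = _
        rw [← hcomp, (hnorm n).mp hn]
      · apply Subtype.ext
        simp
  have h1 := card_eq_mul_of_fibers c _ hfib
  have h3 := twelve_mul_card_klein h2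
  have : Nonempty {W : Subgroup PSL(2, F) // IsKleinFour W} := ⟨⟨V, hV⟩⟩
  have hpos : 0 < Nat.card {W : Subgroup PSL(2, F) // IsKleinFour W} := Nat.card_pos
  rw [h1] at h3
  apply Nat.eq_of_mul_eq_mul_right hpos
  exact h3.symm

/-- A contradiction from the normaliser having order 12: an element `s ∉ V` with `s² ∈ V`. -/
lemma false_of_card_normalizer {G : Type*} [Group G] [Finite G] (V : Subgroup G)
    (hV : Nat.card V = 4) (hN : Nat.card (Subgroup.normalizer (V : Set G)) = 12) {s : G}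
    (hs : s ∈ Subgroup.normalizer (V : Set G)) (hss : s * s ∈ V) (hsV : s ∉ V) : False := by
  set N := Subgroup.normalizer (V : Set G) with hNdef
  have hle : V ≤ N := Subgroup.le_normalizer
  set V' : Subgroup N := V.subgroupOf N with hV'
  have hnorm : V'.Normal := Subgroup.normal_in_normalizer
  have hcard' : Nat.card V' = 4 := by
    rw [← hV]
    exact Nat.card_congr (Subgroup.subgroupOfEquivOfLe hle).toEquiv
  have hidx := V'.card_mul_index
  rw [hcard', hN] at hidx
  have hidx3 : V'.index = 3 := by omega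
  have hq : Nat.card (N ⧸ V') = 3 := by
    rw [← Subgroup.index_eq_card, hidx3]
  let x : N ⧸ V' := QuotientGroup.mk ⟨s, hs⟩
  have hx3 : x ^ 3 = 1 := by
    have := pow_card_eq_one' (x := x)
    rwa [hq] at this
  have hx2 : x ^ 2 = 1 := by
    have : x ^ 2 = QuotientGroup.mk ((⟨s, hs⟩ : N) * ⟨s, hs⟩) := by
      rw [pow_two]; rfl
    rw [this, QuotientGroup.eq_one_iff]
    exact hss
  have hx : x = 1 := by
    have : x = x ^ 3 * (x ^ 2)⁻¹ := by group
    rw [this, hx3, hx2]; simp
  rw [QuotientGroup.eq_one_iff] at hx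
  exact hsV hx

theorem main_aux {q : ℕ} (hF : Fintype.card F = q) (hodd : Odd q) : ((q % 8 = 3 ∨ q % 8 = 5) → ∀ V W : Subgroup (Matrix.ProjectiveSpecialLinearGroup (Fin 2) F), IsKleinFour V → IsKleinFour W → ∃ g : Matrix.ProjectiveSpecialLinearGroup (Fin 2) F, W = V.map (MulAut.conj g).toMonoidHom) ∧ ((q % 8 = 1 ∨ q % 8 = 7) → ∃ V₁ V₂ : Subgroup (Matrix.ProjectiveSpecialLinearGroup (Fin 2) F), IsKleinFour V₁ ∧ IsKleinFour V₂ ∧ (¬ ∃ g : Matrix.ProjectiveSpecialLinearGroup (Fin 2) F, V₂ = V₁.map (MulAut.conj g).toMonoidHom) ∧ ∀ W : Subgroup (Matrix.ProjectiveSpecialLinearGroup (Fin 2) F), IsKleinFour W → (∃ g : Matrix.ProjectiveSpecialLinearGroup (Fin 2) F, W = V₁.map (MulAut.conj g).toMonoidHom) ∨ (∃ g : Matrix.ProjectiveSpecialLinearGroup (Fin 2) F, W = V₂.map (MulAut.conj g).toMonoidHom)) := by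
  classical
  subst hF
  have h2 : (2 : F) ≠ 0 := Cfsg.Agent.Lib.PSL2.TorusCore.two_ne_zero_of_odd_card hodd
  have hsq2 := FiniteField.isSquare_two_iff (F := F)
  obtain ⟨A₀, B₀, h₀⟩ := exists_isQ h2
  constructor
  · intro hq V W hV hW
    have hn2 : ¬ IsSquare (2 : F) := by
      rw [hsq2]; omega
    obtain ⟨A, B, hQ, rfl⟩ := exists_isQ_of_klein h2 V hV
    obtain ⟨A', B', hQ', rfl⟩ := exists_isQ_of_klein h2 W hW
    obtain ⟨G, hG1, hG2⟩ := exists_gl h2 hQ hQ'
    by_cases hsq : IsSquare (det G.val)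
    · exact map_conj_of_sq h2 hQ hQ' hG1 hG2 hsq
    · set G₁ := G * onePlus h2 A hQ.tra with hG₁
      have hd : IsSquare (det G₁.val) := by
        rw [hG₁, Units.val_mul, Matrix.det_mul, det_onePlus]
        have h3 := (quadraticChar_neg_one_iff_not_isSquare (F := F)).mpr hsq
        have h4 := (quadraticChar_neg_one_iff_not_isSquare (F := F)).mpr hn2
        have hne : det G.val * 2 ≠ 0 := mul_ne_zero (GeneralLinearGroup.det_ne_zero G) h2
        rw [← quadraticChar_one_iff_isSquare hne, map_mul, h3, h4]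
        norm_num
      have e1 : cj G₁ A = A' := by rw [hG₁, ← cj_cj, cj_onePlus_left h2 hQ, hG1]
      have e2 : cj G₁ B = A' * B' := by
        rw [hG₁, ← cj_cj, cj_onePlus_right h2 hQ, cj_mul, hG1, hG2]
      have hQ'' : IsQ A' (A' * B') := by
        have := hQ.cj G₁
        rwa [e1, e2] at this
      obtain ⟨g, hg⟩ := map_conj_of_sq h2 hQ hQ'' e1 e2 hd
      refine ⟨g, ?_⟩
      rw [← hg]
      have h5 := fourOf_mul_right (isPP_of_isQ h2 hQ')
      rw [← h5]
      apply fourOf_congr rfl (map_mul _ _ _).symm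
  · intro hq
    have hs2 : IsSquare (2 : F) := by
      rw [hsq2]; omega
    have hch : ringChar F ≠ 2 := by
      intro h
      apply h2
      have := ringChar.Nat.cast_ringChar (R := F)
      rw [h] at this
      exact_mod_cast this
    obtain ⟨η, hη⟩ := FiniteField.exists_nonsquare hch
    have hη0 : η ≠ 0 := by
      rintro rfl
      exact hη (IsSquare.zero)
    let D : GL (Fin 2) F := GeneralLinearGroup.mkOfDetNeZero !![η, 0; 0, 1] (by
      simp [det_fin_two]; exact hη0)
    have hD : det D.val = η := by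
      show det !![η, 0; 0, 1] = η
      simp [det_fin_two]
    have hQ₁ := h₀.cj D
    have hV₁ := isKleinFour_fourOf (isPP_of_isQ h2 h₀)
    have hV₂ := isKleinFour_fourOf (isPP_of_isQ h2 hQ₁)
    have hall : ∀ W : Subgroup PSL(2, F), IsKleinFour W →
        (∃ g : PSL(2, F), W = (fourOf (mkP A₀) (mkP B₀) (isPP_of_isQ h2 h₀)).map (MulAut.conj g).toMonoidHom) ∨
        (∃ g : PSL(2, F), W = (fourOf (mkP (cj D A₀)) (mkP (cj D B₀)) (isPP_of_isQ h2 hQ₁)).map (MulAut.conj g).toMonoidHom) := by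
      intro W hW
      obtain ⟨A', B', hQ', rfl⟩ := exists_isQ_of_klein h2 W hW
      obtain ⟨G, hG1, hG2⟩ := exists_gl h2 h₀ hQ'
      by_cases hsq : IsSquare (det G.val)
      · left
        exact map_conj_of_sq h2 h₀ hQ' hG1 hG2 hsq
      · right
        apply map_conj_of_sq h2 hQ₁ hQ' (G := G * D⁻¹)
        · rw [cj_cj, mul_assoc, inv_mul_cancel, mul_one, hG1]
        · rw [cj_cj, mul_assoc, inv_mul_cancel, mul_one, hG2]
        · have hDinv : det (D⁻¹).val = η⁻¹ := by
            have h5 : det D.val * det (D⁻¹).val = 1 := by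
              rw [← Matrix.det_mul, ← Units.val_mul, mul_inv_cancel]; simp
            rw [hD] at h5
            exact eq_inv_of_mul_eq_one_right h5
          rw [Units.val_mul, Matrix.det_mul, hDinv]
          have h3 := (quadraticChar_neg_one_iff_not_isSquare (F := F)).mpr hsq
          have h4 := (quadraticChar_neg_one_iff_not_isSquare (F := F)).mpr hη
          have hne : det G.val * η ≠ 0 := mul_ne_zero (GeneralLinearGroup.det_ne_zero G) hη0
          have h6 : IsSquare (det G.val * η) := by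
            rw [← quadraticChar_one_iff_isSquare hne, map_mul, h3, h4]
            norm_num
          obtain ⟨r, hr⟩ := h6
          refine ⟨r * η⁻¹, ?_⟩
          field_simp
          linear_combination hr
    refine ⟨_, _, hV₁, hV₂, ?_, hall⟩
    rintro ⟨g, hg⟩
    set V₁ := fourOf (mkP A₀) (mkP B₀) (isPP_of_isQ h2 h₀) with hV₁def
    have hcomp : ∀ (g g' : PSL(2, F)) (W : Subgroup PSL(2, F)),
        (W.map (MulAut.conj g).toMonoidHom).map (MulAut.conj g').toMonoidHom =
          W.map (MulAut.conj (g' * g)).toMonoidHom := by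
      intro g g' W
      rw [Subgroup.map_map, map_mul]
      rfl
    have htrans : ∀ W : Subgroup PSL(2, F), IsKleinFour W →
        ∃ g : PSL(2, F), W = V₁.map (MulAut.conj g).toMonoidHom := by
      intro W hW
      rcases hall W hW with h | ⟨g', rfl⟩
      · exact h
      · refine ⟨g' * g, ?_⟩
        rw [hg, hcomp]
    have hN := card_normalizer_of_transitive h2 V₁ hV₁ htrans
    obtain ⟨r, hr⟩ := hs2
    have hdet : det (onePlus h2 A₀ h₀.tra).val = r * r := by rw [det_onePlus, hr]
    obtain ⟨s₀, hs₀, hcj⟩ := exists_sl_of_sq (onePlus h2 A₀ h₀.tra) hdet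
    have hr0 : r ≠ 0 := by
      rintro rfl
      rw [mul_zero] at hr
      exact h2 hr
    have hss : s₀ * s₀ = A₀ := by
      apply Subtype.ext
      have e1 : A₀.1 * A₀.1 = -1 := by
        have := congrArg Subtype.val h₀.aa
        simpa using this
      show s₀.1 * s₀.1 = A₀.1
      rw [hs₀, onePlus_val, Matrix.smul_mul, Matrix.mul_smul, add_mul, mul_add, mul_add, e1]
      simp only [one_mul, mul_one]
      rw [smul_smul]
      have e2 : (1 : Matrix (Fin 2) (Fin 2) F) + A₀.1 + (A₀.1 + -1) = (2 : F) • A₀.1 := by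
        rw [two_smul]; abel
      rw [e2, smul_smul, hr]
      have e3 : r⁻¹ * r⁻¹ * (r * r) = 1 := by field_simp
      rw [e3, one_smul]
    have hPP := isPP_of_isQ h2 h₀
    have hsN : mkP s₀ ∈ Subgroup.normalizer ((V₁ : Subgroup PSL(2, F)) : Set PSL(2, F)) := by
      have hnorm : ∀ g : PSL(2, F), g ∈ Subgroup.normalizer ((V₁ : Subgroup PSL(2, F)) : Set PSL(2, F)) ↔
          V₁.map (MulAut.conj g).toMonoidHom = V₁ := fun g => Subgroup.mem_normalizer_iff_map_conj_eq
      rw [hnorm, hV₁def, map_conj_fourOf]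
      rw [← fourOf_mul_right hPP]
      apply fourOf_congr
      · rw [← map_inv, ← map_mul, ← map_mul, ← hcj, cj_onePlus_left h2 h₀]
      · rw [← map_inv, ← map_mul, ← map_mul, ← hcj, cj_onePlus_right h2 h₀, map_mul]
    refine false_of_card_normalizer V₁ (card_fourOf hPP) hN hsN ?_ ?_
    · rw [← map_mul, hss]
      exact left_mem hPP
    · intro hmem
      have h1 := IsKleinFour.mul_self (G := V₁) ⟨mkP s₀, hmem⟩
      have h3 : mkP s₀ * mkP s₀ = 1 := congrArg Subtype.val h1
      rw [← map_mul, hss] at h3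
      exact hPP.a1 h3

end Aux

/-- Conjugacy classes of four-groups in PSL_2(q), q odd: if q ≡ 3 or 5 (mod 8) all Klein four-subgroups are conjugate; if q ≡ 1 or 7 (mod 8) there are two Klein four-subgroups which are not conjugate, and every Klein four-subgroup is conjugate to one of them. -/
theorem result {F : Type*} [Field F] [Fintype F] {q : ℕ} (hF : Fintype.card F = q) (hodd : Odd q) : ((q % 8 = 3 ∨ q % 8 = 5) → ∀ V W : Subgroup (Matrix.ProjectiveSpecialLinearGroup (Fin 2) F), IsKleinFour V → IsKleinFour W → ∃ g : Matrix.ProjectiveSpecialLinearGroup (Fin 2) F, W = V.map (MulAut.conj g).toMonoidHom) ∧ ((q % 8 = 1 ∨ q % 8 = 7) → ∃ V₁ V₂ : Subgroup (Matrix.ProjectiveSpecialLinearGroup (Fin 2) F), IsKleinFour V₁ ∧ IsKleinFour V₂ ∧ (¬ ∃ g : Matrix.ProjectiveSpecialLinearGroup (Fin 2) F, V₂ = V₁.map (MulAut.conj g).toMonoidHom) ∧ ∀ W : Subgroup (Matrix.ProjectiveSpecialLinearGroup (Fin 2) F), IsKleinFour W → (∃ g : Matrix.ProjectiveSpecialLinearGroup (Fin 2) F, W = V₁.map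 (MulAut.conj g).toMonoidHom) ∨ (∃ g : Matrix.ProjectiveSpecialLinearGroup (Fin 2) F, W = V₂.map (MulAut.conj g).toMonoidHom)) := by
  exact main_aux hF hodd

end Cfsg.Agent.S0808
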