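import Cfsg.Statements.S0809
import Cfsg.Agent.Lib.PSL2.TorusSylow

set_option autoImplicit false
open Cfsg

namespace Cfsg.Agent.S0809

open scoped MatrixGroups
open Cfsg.Agent.Lib.PSL2.Basic Cfsg.Agent.Lib.PSL2.Conj Cfsg.Agent.Lib.PSL2.Torus
open Cfsg.Agent.Lib.PSL2.TorusCore Cfsg.Agent.Lib.PSL2.Nonsplit Cfsg.Agent.Lib.PSL2.TorusSylow

variable {F : Type*} [Field F]

lemma two_eq_aux (A : SL(2, F)) (h : A = 1) (h2 : (2 : F) ≠ 0) : tr A ≠ 0 := by
  subst h
  simpa using h2

lemma tr_neg_one_ne (h2 : (2 : F) ≠ 0) : tr (-1 : SL(2, F)) ≠ 0 := by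
  simpa using h2

/-- A subgroup of order 4 is generated by an element of trace zero. -/
lemma exists_gen [Fintype F] (h2 : (2 : F) ≠ 0) (A : Subgroup SL(2, F)) (hA : Nat.card A = 4) :
    ∃ x ∈ A, tr x = 0 ∧ A = Subgroup.zpowers x := by
  have hx : ∃ x ∈ A, x * x = -1 := by
    by_contra hcon
    push Not at hcon
    have hsub : (A : Set SL(2, F)) ⊆ {1, -1} := by
      intro z hz
      have hz4 : z ^ 4 = 1 := by
        have := pow_card_of_mem A hz
        rwa [hA] at this
      have hu : (z * z) * (z * z) = 1 := by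
        rw [← hz4]
        simp [pow_succ, mul_assoc]
      rcases (mul_self_eq_one_iff h2 _).1 hu with h | h
      · rcases (mul_self_eq_one_iff h2 _).1 h with h' | h'
        · exact Or.inl h'
        · exact Or.inr h'
      · exact absurd h (hcon z hz)
    have hcard : Set.ncard (A : Set SL(2, F)) ≤ 2 :=
      (Set.ncard_le_ncard hsub (Set.toFinite _)).trans
        ((Set.ncard_insert_le _ _).trans (by simp))
    rw [← Nat.card_coe_set_eq] at hcard
    have hcard' : Nat.card A ≤ 2 := hcard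
    omega
  obtain ⟨x, hxA, hxx⟩ := hx
  refine ⟨x, hxA, (mul_self_eq_neg_one_iff x).1 hxx, ?_⟩
  have hord : orderOf x = 2 ^ (1 + 1) := by
    apply orderOf_eq_prime_pow (p := 2)
    · rw [pow_one, pow_two, hxx]
      exact neg_one_ne_one_of_two_ne_zero h2
    · have : x ^ 2 ^ (1 + 1) = (x * x) * (x * x) := by
        simp [pow_succ, mul_assoc]
      rw [this, hxx]
      apply ext2 <;> simp
  symm
  apply Subgroup.eq_of_le_of_card_ge
  · rw [Subgroup.zpowers_le]
    exact hxA
  · rw [hA, Nat.card_zpowers, hord]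
    norm_num

set_option linter.unusedSectionVars false

section Main

variable [Fintype F] {T : Subgroup SL(2, F)} (hT : IsTorus T) (hcyc : IsCyclic T)
  (hconj : ∀ x : SL(2, F), tr x = 0 → ∃ g : SL(2, F), g * x * g⁻¹ ∈ T) (h2 : (2 : F) ≠ 0)

include hT hconj h2 in
/-- All elements of trace zero are conjugate. -/
lemma conj_of_tr_zero {x y : SL(2, F)} (hx : tr x = 0) (hy : tr y = 0) :
    ∃ g : SL(2, F), g * x * g⁻¹ = y := by
  obtain ⟨g, hg⟩ := hconj x hx
  obtain ⟨k, hk⟩ := hconj y hy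
  have htr : tr (g * x * g⁻¹) = tr (k * y * k⁻¹) := by rw [tr_conj, tr_conj, hx, hy]
  have final : ∀ c : SL(2, F), c * (g * x * g⁻¹) * c⁻¹ = k * y * k⁻¹ →
      ∃ g : SL(2, F), g * x * g⁻¹ = y := by
    intro c hc
    refine ⟨k⁻¹ * c * g, ?_⟩
    calc k⁻¹ * c * g * x * (k⁻¹ * c * g)⁻¹ = k⁻¹ * (c * (g * x * g⁻¹) * c⁻¹) * k := by group
      _ = k⁻¹ * (k * y * k⁻¹) * k := by rw [hc]
      _ = y := by group
  rcases hT.tr_eq _ hg _ hk htr with h | h
  · exact final 1 (by rw [h]; group)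
  · obtain ⟨_, _, _, _, w, _, hwT, hwN⟩ := hT.exists_outside h2
    apply final w
    rw [hT.conj_eq_inv hwN hwT hg, h]
    group

include hT hcyc hconj h2 in
/-- The order of the normaliser of a subgroup of order four. -/
lemma card_normalizer_aux (A : Subgroup SL(2, F)) (hA : Nat.card A = 4) :
    Nat.card (Subgroup.normalizer (A : Set SL(2, F))) = 2 * Nat.card T := by
  obtain ⟨x, hxA, htr, hgen⟩ := exists_gen h2 A hA
  obtain ⟨g, hg⟩ := hconj x htr
  let Tg := T.map (MulAut.conj g⁻¹).toMonoidHom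
  have hTg : IsTorus Tg := IsTorus.conj hT g⁻¹
  have hcardTg : Nat.card Tg = Nat.card T :=
    Nat.card_congr (Subgroup.equivMapOfInjective T _ (MulAut.conj g⁻¹).injective).symm.toEquiv
  have hcycTg : IsCyclic Tg :=
    isCyclic_of_surjective (Subgroup.equivMapOfInjective T _ (MulAut.conj g⁻¹).injective)
      (Subgroup.equivMapOfInjective T _ (MulAut.conj g⁻¹).injective).surjective
  have hxT : x ∈ Tg := by
    refine ⟨g * x * g⁻¹, hg, ?_⟩
    show g⁻¹ * (g * x * g⁻¹) * g⁻¹⁻¹ = x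
    group
  have hle : A ≤ Tg := by
    rw [hgen, Subgroup.zpowers_le]
    exact hxT
  have h1 : x ≠ 1 := by
    rintro rfl
    simp at htr
    exact h2 htr
  have hm : x ≠ -1 := by
    rintro rfl
    simp at htr
    exact h2 htr
  obtain ⟨-, hN⟩ := IsTorus.centralizer_normalizer_of_le hTg A hle hxA h1 hm
  rw [hN, hTg.card_normalizer h2, hcardTg]

end Main

/-- In SL_2(q), q odd: any two subgroups of order 4 are conjugate, and the normaliser of a subgroup of order 4 has order 2(q − 1) if q ≡ 1 (mod 4) and 2(q + 1) if q ≡ 3 (mod 4); consequently all involutions of PSL_2(q) are conjugate. -/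
theorem result {F : Type*} [Field F] [Fintype F] {q : ℕ} (hF : Fintype.card F = q) (hodd : Odd q) (A : Subgroup (Matrix.SpecialLinearGroup (Fin 2) F)) (hA : Nat.card A = 4) : (∀ B : Subgroup (Matrix.SpecialLinearGroup (Fin 2) F), Nat.card B = 4 → ∃ g : Matrix.SpecialLinearGroup (Fin 2) F, B = A.map (MulAut.conj g).toMonoidHom) ∧ (q % 4 = 1 → Nat.card ↥(Subgroup.normalizer (A : Set (Matrix.SpecialLinearGroup (Fin 2) F))) = 2 * (q - 1)) ∧ (q % 4 = 3 → Nat.card ↥(Subgroup.normalizer (A : Set (Matrix.SpecialLinearGroup (Fin 2) F))) = 2 * (q + 1)) ∧ (∀ x y : Matrix.ProjectiveSpecialLinearGroup (Fin 2) F, orderOf x = 2 → orderOf y = 2 → IsConj x y) := by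
  subst hF
  have h2 := two_ne_zero_of_odd_card hodd
  have hq2 : 2 ≤ Fintype.card F := Fintype.one_lt_card
  have hqo : Fintype.card F % 2 = 1 := Nat.odd_iff.1 hodd
  -- the torus adapted to `q` mod 4
  have hsplit : Fintype.card F % 4 = 1 → ∃ T : Subgroup SL(2, F), IsTorus T ∧ IsCyclic T ∧
      Nat.card T = Fintype.card F - 1 ∧ ∀ x : SL(2, F), tr x = 0 → ∃ g : SL(2, F), g * x * g⁻¹ ∈ T := by
    intro h1
    obtain ⟨i, hi⟩ : IsSquare (-1 : F) := FiniteField.isSquare_neg_one_iff.2 (by omega)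
    have hi0 : i ≠ 0 := by
      rintro rfl
      simp at hi
    have hii : i * i ≠ 1 := by
      rw [← hi]
      intro h
      apply h2
      linear_combination -h
    refine ⟨splitT F, isTorus_splitT hi0 hii, isCyclic_splitT, card_splitT, ?_⟩
    intro x hx
    have hE : IsEig x i := by
      unfold IsEig
      rw [hx, ← hi]; ring
    obtain ⟨g, t, hg⟩ := exists_conj_b hE
    have hne : i ≠ i⁻¹ := by
      intro h
      apply hii
      calc i * i = i * i⁻¹ := by rw [← h]
        _ = 1 := mul_inv_cancel₀ hi0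
    obtain ⟨k, hk⟩ := b_conj_d i hi0 t hne
    refine ⟨k * g, ?_⟩
    have : k * g * x * (k * g)⁻¹ = k * (g * x * g⁻¹) * k⁻¹ := by group
    rw [this, hg, hk]
    exact d_mem_splitT _ _
  have hnonsplit : Fintype.card F % 4 = 3 → ∃ T : Subgroup SL(2, F), IsTorus T ∧ IsCyclic T ∧
      Nat.card T = Fintype.card F + 1 ∧ ∀ x : SL(2, F), tr x = 0 → ∃ g : SL(2, F), g * x * g⁻¹ ∈ T := by
    intro h3
    obtain ⟨T, hT, hcyc, hcard, -, hconj⟩ := exists_nonsplit F
    refine ⟨T, hT, hcyc, hcard, ?_⟩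
    intro x hx
    apply hconj
    intro a ha
    unfold IsEig at ha
    rw [hx] at ha
    have : IsSquare (-1 : F) := ⟨a, by linear_combination -ha⟩
    exact (FiniteField.isSquare_neg_one_iff.1 this) h3
  have hmain : ∃ T : Subgroup SL(2, F), IsTorus T ∧
      ∀ x : SL(2, F), tr x = 0 → ∃ g : SL(2, F), g * x * g⁻¹ ∈ T := by
    have : Fintype.card F % 4 = 1 ∨ Fintype.card F % 4 = 3 := by omega
    rcases this with h | h
    · obtain ⟨T, hT, -, -, hc⟩ := hsplit h
      exact ⟨T, hT, hc⟩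
    · obtain ⟨T, hT, -, -, hc⟩ := hnonsplit h
      exact ⟨T, hT, hc⟩
  obtain ⟨T₀, hT₀, hc₀⟩ := hmain
  refine ⟨?_, ?_, ?_, ?_⟩
  · intro B hB
    obtain ⟨x, -, hx, hAx⟩ := exists_gen h2 A hA
    obtain ⟨y, -, hy, hBy⟩ := exists_gen h2 B hB
    obtain ⟨g, hg⟩ := conj_of_tr_zero hT₀ hc₀ h2 hx hy
    refine ⟨g, ?_⟩
    rw [hAx, hBy, MonoidHom.map_zpowers]
    congr 1
    exact hg.symm
  · intro h1
    obtain ⟨T, hT, hcyc, hcard, hc⟩ := hsplit h1
    rw [card_normalizer_aux hT hcyc hc h2 A hA, hcard]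
  · intro h3
    obtain ⟨T, hT, hcyc, hcard, hc⟩ := hnonsplit h3
    rw [card_normalizer_aux hT hcyc hc h2 A hA, hcard]
  · intro x y hx hy
    obtain ⟨g, rfl⟩ := mkP_surjective x
    obtain ⟨h, rfl⟩ := mkP_surjective y
    have aux : ∀ g : SL(2, F), orderOf (mkP g) = 2 → tr g = 0 := by
      intro g hg
      have hp : mkP g ^ 2 = 1 := by
        have := pow_orderOf_eq_one (mkP g)
        rwa [hg] at this
      rw [← map_pow, mkP_eq_one_iff, pow_two] at hp
      rcases hp with hp | hp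
      · exfalso
        have hne : mkP g ≠ 1 := by
          intro h1
          rw [h1, orderOf_one] at hg
          omega
        apply hne
        rw [mkP_eq_one_iff]
        exact (mul_self_eq_one_iff h2 g).1 hp
      · exact (mul_self_eq_neg_one_iff g).1 hp
    obtain ⟨k, hk⟩ := conj_of_tr_zero hT₀ hc₀ h2 (aux g hx) (aux h hy)
    rw [isConj_iff]
    refine ⟨mkP k, ?_⟩
    rw [← hk, map_mul, map_mul, map_inv]

end Cfsg.Agent.S0809
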