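import Cfsg.Statements.S0816
import Mathlib
import Cfsg.Agent.Lib.Classical.Orth.Semi7
import Cfsg.Agent.Lib.Classical.OrthAut.Models
-- import your own Cfsg.Agent.* helpers here

set_option autoImplicit false
open Cfsg

namespace Cfsg.Agent.S0816

/-- |Aut(PΩ_(2m+1)(q))| = 2 f · |PΩ_(2m+1)(q)| for q = p^f odd and m ≥ 3 (for the form quadFormOdd). -/
theorem result {F : Type*} [Field F] [Fintype F] (p f : ℕ) [Fact p.Prime] (hf : 1 ≤ f) (hF : Fintype.card F = p ^ f) (hodd : Odd p) (m : ℕ) (hm : 3 ≤ m) : Nat.card (MulAut (Cfsg.POmega F (Cfsg.quadFormOdd m F))) = 2 * f * Nat.card (Cfsg.POmega F (Cfsg.quadFormOdd m F)) := by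
  rw [← Cfsg.Agent.Lib.Classical.Orth.Models.coe_oddForm m F]
  apply Cfsg.Agent.Lib.Classical.Orth.Semi.card_aut_odd hf hF hodd hm
  rw [Cfsg.Agent.Lib.Classical.Orth.Models.coe_oddForm m F]
  apply Cfsg.Agent.Lib.Classical.OrthAut.Models.gamma_odd _ hm
  rw [hF]
  exact hodd.pow

end Cfsg.Agent.S0816
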