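import Cfsg.Statements.S0817
import Mathlib
import Cfsg.Agent.Lib.Classical.OrthAut.Oct6

set_option autoImplicit false
open Cfsg

namespace Cfsg.Agent.S0817

/-- |Aut(PΩ⁺_2m(q))| for q = p^f, m ≥ 4: |PΩ⁺_2m(q)| times f, times 3 when m = 4, times 2 if p = 2, and times 8 or 4 if p is odd according as m(q−1)/2 is even or odd. -/
theorem result {F : Type*} [Field F] [Fintype F] (p f : ℕ) [Fact p.Prime] (hf : 1 ≤ f) (hF : Fintype.card F = p ^ f) (m : ℕ) (hm : 4 ≤ m) : Nat.card (MulAut (Cfsg.POmega F (Cfsg.quadFormPlus m F))) = (if m = 4 then 3 else 1) * (if p = 2 then 2 else (if Even (m * (p ^ f - 1) / 2) then 8 else 4)) * f * Nat.card (Cfsg.POmega F (Cfsg.quadFormPlus m F)) := by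
  rw [← Cfsg.Agent.Lib.Classical.Orth.Models.coe_plusForm m F]
  by_cases h4 : m = 4
  · rw [if_pos h4, Cfsg.Agent.Lib.Classical.OrthAut.Oct.card_aut_four h4,
      Cfsg.Agent.Lib.Classical.OrthAut.Oct.card_gamma_plus hf hF hm]
    ring
  · have h5 : 5 ≤ m := by omega
    have htop := Cfsg.Agent.Lib.Classical.OrthAut.Models.gamma_plus (F := F) h5
    rw [← Cfsg.Agent.Lib.Classical.Orth.Models.coe_plusForm m F] at htop
    rw [if_neg h4, one_mul, ← Cfsg.Agent.Lib.Classical.OrthAut.Oct.card_gamma_plus hf hF hm, htop, Subgroup.card_top]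

end Cfsg.Agent.S0817
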