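import Cfsg.Statements.S0819
import Cfsg.Agent.Lib.Compute.PSL34

set_option autoImplicit false
open Cfsg

namespace Cfsg.Agent.S0819

open Cfsg.Agent.Lib.Compute.GFModel Cfsg.Agent.Lib.Compute.SmallField

/-- No element of PSL_3(4) has order 15. -/
theorem result {F : Type*} [Field F] [Fintype F] (hF : Fintype.card F = 4) (g : Matrix.ProjectiveSpecialLinearGroup (Fin 3) F) : orderOf g ≠ 15 := by
  intro h
  let e := pslCongr (ι := Fin 3) (equivOfCard (F := GF4) (K := F) (by rw [card_GF4, hF]))
  apply Cfsg.Agent.Lib.Compute.PSL34.no_order_15 (e.symm g)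
  rw [MulEquiv.orderOf_eq, h]

end Cfsg.Agent.S0819
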