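import Cfsg.Statements.S0820
import Cfsg.Agent.Lib.Linalg.TransvectionForm
import Mathlib
-- import your own Cfsg.Agent.* helpers here

set_option autoImplicit false
open Cfsg

namespace Cfsg.Agent.S0820

open Matrix Module in
lemma rank_eq_one_of_sq_zero {F : Type*} [Field F] {N : Matrix (Fin 3) (Fin 3) F}
    (h0 : N ≠ 0) (h2 : N * N = 0) : N.rank = 1 := by
  have hne : N.rank ≠ 0 := fun h => h0 (Cfsg.Agent.Lib.Linalg.TransvectionForm.eq_zero_of_rank_eq_zero h)
  have hle : LinearMap.range N.mulVecLin ≤ LinearMap.ker N.mulVecLin := by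
    rintro _ ⟨v, rfl⟩
    simp [LinearMap.mem_ker, mulVec_mulVec, h2]
  have h1 := Submodule.finrank_mono hle
  have h3 := LinearMap.finrank_range_add_finrank_ker N.mulVecLin
  rw [Module.finrank_fin_fun] at h3
  have h4 : N.rank = finrank F (LinearMap.range N.mulVecLin) := rfl
  omega

open Matrix in
/-- A lift of an involution of `PSL₃(F)`, char two: a matrix of `SL₃(F)` which is a transvection. -/
lemma exists_lift {F : Type*} [Field F] [Fintype F] (two0 : (2 : F) = 0)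
    (x : ProjectiveSpecialLinearGroup (Fin 3) F) (hx : orderOf x = 2) :
    ∃ g : SpecialLinearGroup (Fin 3) F, (QuotientGroup.mk g : ProjectiveSpecialLinearGroup (Fin 3) F) = x ∧
      ((g : Matrix (Fin 3) (Fin 3) F) - 1).rank = 1 ∧
      ((g : Matrix (Fin 3) (Fin 3) F) - 1) * ((g : Matrix (Fin 3) (Fin 3) F) - 1) = 0 := by
  obtain ⟨g₀, rfl⟩ := QuotientGroup.mk_surjective x
  have hx2 : (QuotientGroup.mk g₀ : ProjectiveSpecialLinearGroup (Fin 3) F) ^ 2 = 1 := by
    rw [← hx]; exact pow_orderOf_eq_one _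
  have hx1 : (QuotientGroup.mk g₀ : ProjectiveSpecialLinearGroup (Fin 3) F) ≠ 1 := by
    intro h
    rw [h, orderOf_one] at hx
    omega
  have hcen : g₀ ^ 2 ∈ Subgroup.center (SpecialLinearGroup (Fin 3) F) := by
    rw [← QuotientGroup.eq_one_iff, QuotientGroup.mk_pow]
    exact hx2
  obtain ⟨r, hr, hrs⟩ := (Matrix.SpecialLinearGroup.mem_center_iff).mp hcen
  have hr3 : r ^ 3 = 1 := by simpa using hr
  refine ⟨g₀ ^ 3, ?_, ?_⟩
  · rw [QuotientGroup.mk_pow, pow_succ, hx2, one_mul]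
  have hg2 : (g₀ ^ 3) ^ 2 = 1 := by
    have h1 : (g₀ ^ 3) ^ 2 = (g₀ ^ 2) ^ 3 := by
      rw [← pow_mul, ← pow_mul]
    rw [h1]
    have h2 : (((g₀ ^ 2) ^ 3 : SpecialLinearGroup (Fin 3) F) : Matrix (Fin 3) (Fin 3) F) = 1 := by
      rw [Matrix.SpecialLinearGroup.coe_pow, ← hrs, ← map_pow, hr3, map_one]
    exact Subtype.ext h2
  have hne : g₀ ^ 3 ≠ 1 := by
    intro h
    apply hx1
    have h3 : (QuotientGroup.mk g₀ : ProjectiveSpecialLinearGroup (Fin 3) F) ^ 3 = 1 := by
      rw [← QuotientGroup.mk_pow, h]; rfl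
    rwa [pow_succ, hx2, one_mul] at h3
  have hcoe : ((g₀ ^ 3 : SpecialLinearGroup (Fin 3) F) : Matrix (Fin 3) (Fin 3) F) *
      ((g₀ ^ 3 : SpecialLinearGroup (Fin 3) F) : Matrix (Fin 3) (Fin 3) F) = 1 := by
    have h1 := congrArg Subtype.val hg2
    rw [pow_two] at h1
    exact h1
  have hne' : ((g₀ ^ 3 : SpecialLinearGroup (Fin 3) F) : Matrix (Fin 3) (Fin 3) F) - 1 ≠ 0 := by
    intro h
    exact hne (Subtype.ext (sub_eq_zero.mp h))
  generalize ((g₀ ^ 3 : SpecialLinearGroup (Fin 3) F) : Matrix (Fin 3) (Fin 3) F) = M at hcoe hne' ⊢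
  have hsq : (M - 1) * (M - 1) = 0 := by
    have h1 : (M - 1) * (M - 1) = M * M - (2 : F) • M + 1 := by
      rw [two_smul]
      noncomm_ring
    rw [h1, hcoe, two0, zero_smul, sub_zero]
    have h2 : (1 : Matrix (Fin 3) (Fin 3) F) + 1 = (2 : F) • 1 := by
      rw [two_smul]
    rw [h2, two0, zero_smul]
  exact ⟨rank_eq_one_of_sq_zero hne' hsq, hsq⟩


/-- Any two elements of order 2 of PSL_3(4) are conjugate. -/
theorem result {F : Type*} [Field F] [Fintype F] (hF : Fintype.card F = 4) (x y : Matrix.ProjectiveSpecialLinearGroup (Fin 3) F) (hx : orderOf x = 2) (hy : orderOf y = 2) : IsConj x y := by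
  classical
  have two0 : (2 : F) = 0 := by
    have h4 : ((Fintype.card F : ℕ) : F) = 0 := FiniteField.cast_card_eq_zero F
    rw [hF] at h4
    have h5 : (2 : F) * 2 = 0 := by
      have : (2 : F) * 2 = ((4 : ℕ) : F) := by norm_num
      rw [this, h4]
    exact mul_self_eq_zero.mp h5
  obtain ⟨g, rfl, hg1, hg2⟩ := exists_lift two0 x hx
  obtain ⟨h, rfl, hh1, hh2⟩ := exists_lift two0 y hy
  have hconj := Cfsg.Agent.Lib.Linalg.TransvectionForm.isConj_SL_of_transvection
    (by simp) hg1 hg2 hh1 hh2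
  exact (QuotientGroup.mk' _).map_isConj hconj

end Cfsg.Agent.S0820
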