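import Cfsg.Statements.S0822
import Cfsg.Agent.Lib.Compute.PSU42

set_option autoImplicit false
open Cfsg

namespace Cfsg.Agent.S0822

/-- PSU_4(2) ≅ PSp_4(3): with |F| = 4 and |K| = 3, the projective special unitary group of the standard Hermitian form on F^4 is isomorphic to PSp_4(K). -/
theorem result {F K : Type*} [Field F] [Fintype F] [Field K] [Fintype K] (hF : Fintype.card F = 4) (hK : Fintype.card K = 3) : Nonempty (Cfsg.PSU 4 F 2 ≃* Cfsg.PSp 2 K) :=
  Cfsg.Agent.Lib.Compute.PSU42.nonempty_psu_equiv_psp hF hK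

end Cfsg.Agent.S0822
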