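import Cfsg.Statements.S0823
import Mathlib
import Cfsg.Agent.S0286
import Cfsg.Agent.Lib.Linalg.IsomRep
import Cfsg.Agent.Lib.Compute.OrthTransport

set_option autoImplicit false
open Cfsg

namespace Cfsg.Agent.S0823

open Matrix Cfsg
open Cfsg.Agent.Lib.Linalg.IsomRep Cfsg.Agent.Lib.Compute.OrthTransport

private abbrev Ix := Unit ⊕ (Fin 1 ⊕ Fin 1)

private def tbl : ℕ := 0x88a8599ca8d93995a9c2536ff3e0a16d9a14d9fb230dfc6ac416be286ce38e6070d8f895c48bda865e13d8a508ba094befde8a3cbb381e5c421ae49ec4e1cf497433ba508e0fd0df1ade30f5d45494dd4d084e3c7642ce79942d22c756fd19efbc8130c5e6f72fe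

private def idx : Ix → ℕ
  | .inl _ => 0
  | .inr (.inl _) => 1
  | .inr (.inr _) => 2

private def key (σ : Equiv.Perm (Fin 4)) : ℕ := (σ 0).val + 4 * (σ 1).val + 16 * (σ 2).val

private def M (σ : Equiv.Perm (Fin 4)) : Matrix Ix Ix (ZMod 3) :=
  fun i j => ((tbl / 3 ^ (9 * key σ + 3 * idx i + idx j) % 3 : ℕ) : ZMod 3)

private theorem M_mul : ∀ σ τ : Equiv.Perm (Fin 4), M (σ * τ) = M σ * M τ := by decide +kernel

private theorem M_one : M 1 = 1 := by decide +kernel

private theorem M_inj : ∀ σ : Equiv.Perm (Fin 4), M σ = 1 → σ = 1 := by decide +kernel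

private theorem M_iso : ∀ (σ : Equiv.Perm (Fin 4)) (v : Ix → ZMod 3),
    quadFormOdd 1 (ZMod 3) (M σ *ᵥ v) = quadFormOdd 1 (ZMod 3) v := by
  decide +kernel

private theorem M_det : ∀ σ : Equiv.Perm (Fin 4), (M σ).det = 1 := by decide +kernel

private def u (σ : Equiv.Perm (Fin 4)) : Matrix.GeneralLinearGroup Ix (ZMod 3) where
  val := M σ
  inv := M σ⁻¹
  val_inv := by rw [← M_mul, mul_inv_cancel, M_one]
  inv_val := by rw [← M_mul, inv_mul_cancel, M_one]

private theorem u_mem (σ : Equiv.Perm (Fin 4)) : u σ ∈ isometryGroup (ZMod 3) (quadFormOdd 1 (ZMod 3)) :=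
  mem_isometryGroup.mpr (M_iso σ)

private def v (σ : Equiv.Perm (Fin 4)) : isometryGroup (ZMod 3) (quadFormOdd 1 (ZMod 3)) := ⟨u σ, u_mem σ⟩

private theorem v_mem (σ : Equiv.Perm (Fin 4)) : v σ ∈ specialIsometryGroup (ZMod 3) (quadFormOdd 1 (ZMod 3)) := by
  change Matrix.GeneralLinearGroup.det (u σ) = 1
  apply Units.ext
  rw [Matrix.GeneralLinearGroup.val_det_apply]
  exact M_det σ

private def φ : Equiv.Perm (Fin 4) →* specialIsometryGroup (ZMod 3) (quadFormOdd 1 (ZMod 3)) :=
  MonoidHom.mk' (fun σ => ⟨v σ, v_mem σ⟩) (by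
    intro σ τ
    apply Subtype.ext
    apply Subtype.ext
    apply Units.ext
    exact M_mul σ τ)

private theorem φ_inj : Function.Injective φ := by
  rw [injective_iff_map_eq_one]
  intro σ hσ
  apply M_inj
  have := congrArg (fun x : specialIsometryGroup (ZMod 3) (quadFormOdd 1 (ZMod 3)) =>
    (((x : isometryGroup (ZMod 3) (quadFormOdd 1 (ZMod 3))) : Matrix.GeneralLinearGroup Ix (ZMod 3)) : Matrix Ix Ix (ZMod 3))) hσ
  exact this

private def negU : Matrix.GeneralLinearGroup Ix (ZMod 3) := -1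

private theorem negU_mem : negU ∈ isometryGroup (ZMod 3) (quadFormOdd 1 (ZMod 3)) := by
  rw [mem_isometryGroup]
  decide +kernel

private theorem negU_det : Matrix.GeneralLinearGroup.det negU ≠ 1 := by
  intro h
  have := congrArg Units.val h
  rw [Matrix.GeneralLinearGroup.val_det_apply, Units.val_one] at this
  revert this
  decide +kernel

private theorem card_special : Nat.card (specialIsometryGroup (ZMod 3) (quadFormOdd 1 (ZMod 3))) ≤ 24 := by
  have hO : Nat.card (isometryGroup (ZMod 3) (quadFormOdd 1 (ZMod 3))) = 48 := by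
    have := Cfsg.Agent.S0286.result (q := 3) (F := ZMod 3) (by simp [ZMod.card]) (by decide) 1
    rw [this]
    norm_num [Finset.prod_range_succ]
  have hmul := Subgroup.index_mul_card (specialIsometryGroup (ZMod 3) (quadFormOdd 1 (ZMod 3)))
  rw [hO] at hmul
  have hidx : (specialIsometryGroup (ZMod 3) (quadFormOdd 1 (ZMod 3))).index ≠ 1 := by
    rw [Ne, Subgroup.index_eq_one]
    intro htop
    have hm : (⟨negU, negU_mem⟩ : isometryGroup (ZMod 3) (quadFormOdd 1 (ZMod 3))) ∈
        specialIsometryGroup (ZMod 3) (quadFormOdd 1 (ZMod 3)) := by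
      rw [htop]; trivial
    exact negU_det hm
  have hpos : (specialIsometryGroup (ZMod 3) (quadFormOdd 1 (ZMod 3))).index ≠ 0 := by
    intro h0
    rw [h0] at hmul
    omega
  have h2 : 2 ≤ (specialIsometryGroup (ZMod 3) (quadFormOdd 1 (ZMod 3))).index := by omega
  have := Nat.mul_le_mul_right (Nat.card (specialIsometryGroup (ZMod 3) (quadFormOdd 1 (ZMod 3)))) h2
  omega

/-- SO_3(3) ≅ S_4: the determinant-one isometries of the form x_0² + x_1y_1 over the field with 3 elements form a group isomorphic to the symmetric group on 4 letters. -/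
theorem result {F : Type*} [Field F] [Fintype F] (hF : Fintype.card F = 3) : Nonempty (↥(Cfsg.specialIsometryGroup F (Cfsg.quadFormOdd 1 F)) ≃* Equiv.Perm (Fin 4)) := by
  have σ : F ≃+* ZMod 3 := (ZMod.ringEquivOfPrime F Nat.prime_three hF).symm
  have e := specialIsometryCongr σ (Cfsg.quadFormOdd 1 F) (Cfsg.quadFormOdd 1 (ZMod 3)) (by
    intro v
    simp only [Cfsg.quadFormOdd, map_add, map_mul, map_pow, map_sum, Function.comp])
  have hcS : Nat.card (Equiv.Perm (Fin 4)) = 24 := by
    rw [Nat.card_eq_fintype_card, Fintype.card_perm, Fintype.card_fin]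
    rfl
  have : Finite (specialIsometryGroup (ZMod 3) (quadFormOdd 1 (ZMod 3))) := inferInstance
  have hb : Function.Bijective φ :=
    φ_inj.bijective_of_nat_card_le (by rw [hcS]; exact card_special)
  exact ⟨e.trans (MulEquiv.ofBijective φ hb).symm⟩

end Cfsg.Agent.S0823
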