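import Cfsg.Statements.S0828
import Mathlib
import Cfsg.Agent.Lib.Classical.Symp.IsoCount
-- import your own Cfsg.Agent.* helpers here

set_option autoImplicit false
open Cfsg

namespace Cfsg.Agent.S0828

open Cfsg.Agent.Lib.Classical.Symp.IsoCount Cfsg.Agent.Lib.Classical.Symp.Basic
  Cfsg.Agent.Lib.Classical.Symp.Count Cfsg.Agent.Lib.Classical.Symp.AltForm

section General

variable {F V : Type*} [Field F] [Finite F] [AddCommGroup V] [Module F V] [FiniteDimensional F V]
variable {B : LinearMap.BilinForm F V}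

/-- The two-dimensional isotropic subspaces through `v`. -/
abbrev SubThrough (B : LinearMap.BilinForm F V) (v : V) : Type _ :=
  {W : Submodule F V // Module.finrank F W = 2 ∧ v ∈ W ∧ ∀ u ∈ W, ∀ w ∈ W, B u w = 0}

/-- Vectors orthogonal to `v` and not proportional to it. -/
abbrev Perps (B : LinearMap.BilinForm F V) (v : V) : Type _ :=
  {w : V // w ∈ B.orthogonal (Submodule.span F {v}) ∧ w ∉ Submodule.span F {v}}

omit [Finite F] [FiniteDimensional F V] in
theorem mem_orth_singleton {v w : V} : w ∈ B.orthogonal (Submodule.span F {v}) ↔ B v w = 0 := by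
  rw [LinearMap.BilinForm.mem_orthogonal_iff]
  constructor
  · intro h
    exact h v (Submodule.mem_span_singleton_self v)
  · intro h n hn
    obtain ⟨a, rfl⟩ := Submodule.mem_span_singleton.mp hn
    change B (a • v) w = 0
    simp [h]

omit [Finite F] [FiniteDimensional F V] in
theorem finrank_pair {v w : V} (hv : v ≠ 0) (hw : w ∉ Submodule.span F {v}) :
    Module.finrank F (Submodule.span F {v, w}) = 2 := by
  have h1 : LinearIndependent F ![w, v] := by
    rw [linearIndependent_fin2]
    refine ⟨by simpa using hv, fun a ha => hw ?_⟩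
    simp only [Matrix.cons_val_one, Matrix.cons_val_zero] at ha
    rw [← ha]
    exact Submodule.smul_mem _ _ (Submodule.mem_span_singleton_self v)
  have := finrank_span_eq_card h1
  have e : Set.range ![w, v] = {v, w} := by
    ext x
    simp [eq_comm]
  rw [e] at this
  simpa using this

/-- The span of a point and an orthogonal vector. -/
noncomputable def lineOf (hA : B.IsAlt) {v : V} (hv : v ≠ 0) (w : Perps B v) : SubThrough B v :=
  ⟨Submodule.span F {v, w.1}, finrank_pair hv w.2.2, Submodule.subset_span (by simp), by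
    have hvw := mem_orth_singleton.mp w.2.1
    have hwv : B w.1 v = 0 := by rw [alt_swap hA, hvw, neg_zero]
    intro x hx y hy
    obtain ⟨a, b, rfl⟩ := Submodule.mem_span_pair.mp hx
    obtain ⟨c, d, rfl⟩ := Submodule.mem_span_pair.mp hy
    simp [hvw, hwv, hA v, hA w.1]⟩

/-- The fibre of `lineOf`. -/
noncomputable def lineFibre (hA : B.IsAlt) {v : V} (hv : v ≠ 0) (W : SubThrough B v) :
    {w : Perps B v // lineOf hA hv w = W} ≃ {w : V // w ∈ W.1 ∧ w ∉ Submodule.span F {v}} where
  toFun w := ⟨w.1.1, by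
      have h2 : (lineOf hA hv w.1).1 = W.1 := congrArg Subtype.val w.2
      exact h2 ▸ (Submodule.subset_span (by simp) : w.1.1 ∈ (lineOf hA hv w.1).1), w.1.2.2⟩
  invFun w := ⟨⟨w.1, mem_orth_singleton.mpr (W.2.2.2 _ W.2.2.1 _ w.2.1), w.2.2⟩, by
    apply Subtype.ext
    apply Submodule.eq_of_le_of_finrank_eq
    · refine Submodule.span_le.mpr ?_
      rintro x (rfl | rfl)
      · exact W.2.2.1
      · exact w.2.1
    · exact (finrank_pair hv w.2.2).trans W.2.1.symm⟩
  left_inv w := by
    apply Subtype.ext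
    apply Subtype.ext
    rfl
  right_inv w := by
    apply Subtype.ext
    rfl

theorem card_through (hA : B.IsAlt) (hB : B.Nondegenerate) {q : ℕ} (hq : Nat.card F = q)
    {v : V} (hv : v ≠ 0) :
    q ^ (Module.finrank F V - 1) - q = Nat.card (SubThrough B v) * (q ^ 2 - q) := by
  classical
  haveI : Finite V := Module.finite_of_finite F
  haveI : Finite (Submodule F V) := inferInstance
  haveI : Fintype (SubThrough B v) := Fintype.ofFinite _
  have hspan : Submodule.span F {v} ≤ B.orthogonal (Submodule.span F {v}) := by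
    rw [Submodule.span_le]
    intro x hx
    rw [Set.mem_singleton_iff] at hx
    subst hx
    exact mem_orth_singleton.mpr (hA x)
  have h1 : Module.finrank F (Submodule.span F {v}) = 1 := finrank_span_singleton hv
  have h2 : Nat.card (Perps B v) = q ^ (Module.finrank F V - 1) - q := by
    rw [card_subtype_mem_notMem hspan, LinearMap.BilinForm.finrank_orthogonal hB, h1, hq, pow_one]
  rw [← h2, Nat.card_congr (Equiv.sigmaFiberEquiv (lineOf hA hv)).symm, Nat.card_sigma]
  simp_rw [Nat.card_congr (lineFibre hA hv _)]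
  have h3 : ∀ W : SubThrough B v, Nat.card {w : V // w ∈ W.1 ∧ w ∉ Submodule.span F {v}} = q ^ 2 - q := by
    intro W
    have hle : Submodule.span F {v} ≤ W.1 := by
      rw [Submodule.span_le]
      intro x hx
      rw [Set.mem_singleton_iff] at hx
      subst hx
      exact W.2.2.1
    rw [card_subtype_mem_notMem hle, W.2.1, h1, hq, pow_one]
  simp_rw [h3]
  rw [Finset.sum_const, Finset.card_univ, ← Nat.card_eq_fintype_card, smul_eq_mul]

end General

/-- The symplectic generalised quadrangle over a field with q elements: the number of 2-dimensional subspaces of F^4 on which the symplectic form vanishes is (q + 1)(q² + 1), and every non-zero vector lies in exactly q + 1 of them. -/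
theorem result {F : Type*} [Field F] [Fintype F] {q : ℕ} (hF : Fintype.card F = q) : Nat.card {W : Submodule F (Fin 2 ⊕ Fin 2 → F) // Module.finrank F W = 2 ∧ ∀ u ∈ W, ∀ v ∈ W, Cfsg.sympForm 2 F u v = 0} = (q + 1) * (q ^ 2 + 1) ∧ ∀ v : Fin 2 ⊕ Fin 2 → F, v ≠ 0 → Nat.card {W : Submodule F (Fin 2 ⊕ Fin 2 → F) // Module.finrank F W = 2 ∧ v ∈ W ∧ ∀ u ∈ W, ∀ w ∈ W, Cfsg.sympForm 2 F u w = 0} = q + 1 := by
  classical
  have hq : Nat.card F = q := by rw [Nat.card_eq_fintype_card, hF]
  have hq2 : 2 ≤ q := by
    rw [← hF]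
    exact Fintype.one_lt_card
  have hrk : Module.finrank F (Fin 2 ⊕ Fin 2 → F) = 4 := by
    simp [Module.finrank_fintype_fun_eq_card]
  have hle1 : q ≤ q ^ 2 := Nat.le_self_pow (by norm_num) q
  have hle2 : q ≤ q ^ 3 := Nat.le_self_pow (by norm_num) q
  have hle3 : 1 ≤ q ^ 2 := Nat.one_le_pow _ _ (by omega)
  have hle4 : 1 ≤ q ^ 4 := Nat.one_le_pow _ _ (by omega)
  have hlt : q < q ^ 2 := by nlinarith
  have hlt1 : 1 < q ^ 2 := by nlinarith
  constructor
  · have h1 := card_isoFrame_eq_mul (B := sympBilin 2 F) 2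
    rw [card_isoFrame sympBilin_isAlt sympBilin_nondegenerate, hrk, hq] at h1
    simp only [Fin.prod_univ_two, Fin.val_zero, Fin.val_one, Nat.sub_zero, pow_zero, pow_one] at h1
    have h2 : (q + 1) * (q ^ 2 + 1) * ((q ^ 2 - 1) * (q ^ 2 - q)) = (q ^ 4 - 1) * (q ^ (4 - 1) - q) := by
      have e : 4 - 1 = 3 := rfl
      rw [e]
      zify [hle1, hle2, hle3, hle4]
      ring
    have hpos : 0 < (q ^ 2 - 1) * (q ^ 2 - q) := Nat.mul_pos (by omega) (by omega)
    apply Nat.eq_of_mul_eq_mul_right hpos
    rw [h2, h1]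
    rfl
  · intro v hv
    have h1 := card_through (B := sympBilin 2 F) sympBilin_isAlt sympBilin_nondegenerate hq hv
    rw [hrk] at h1
    have h2 : (q + 1) * (q ^ 2 - q) = q ^ (4 - 1) - q := by
      have e : 4 - 1 = 3 := rfl
      rw [e]
      zify [hle1, hle2]
      ring
    have hpos : 0 < q ^ 2 - q := by omega
    apply Nat.eq_of_mul_eq_mul_right hpos
    rw [h2, h1]
    rfl

end Cfsg.Agent.S0828
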