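import Cfsg.Statements.S0831
import Mathlib
import Cfsg.Agent.Lib.Classical.Witt.PlusForm
import Cfsg.Agent.Lib.Classical.Witt.Parity
-- import your own Cfsg.Agent.* helpers here

set_option autoImplicit false
open Cfsg

namespace Cfsg.Agent.S0831

/-- The two families of maximal totally singular subspaces of the hyperbolic quadric: for the form Σ x_i y_i on F^(2m), m ≥ 1, and m-dimensional subspaces U, W, X on which it vanishes, the parities of m − dim(U ∩ W), m − dim(W ∩ X) and m − dim(U ∩ X) sum to an even number (so 'even codimension of the intersection' is an equivalence relation), and there exist two such subspaces meeting in codimension 1 (so there are exactly two classes). -/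
theorem result {F : Type*} [Field F] (m : ℕ) (hm : 1 ≤ m) : (∀ U W X : Submodule F (Fin m ⊕ Fin m → F), (Module.finrank F U = m ∧ ∀ w ∈ U, Cfsg.quadFormPlus m F w = 0) → (Module.finrank F W = m ∧ ∀ w ∈ W, Cfsg.quadFormPlus m F w = 0) → (Module.finrank F X = m ∧ ∀ w ∈ X, Cfsg.quadFormPlus m F w = 0) → Even ((m - Module.finrank F ↥(U ⊓ W)) + (m - Module.finrank F ↥(W ⊓ X)) + (m - Module.finrank F ↥(U ⊓ X)))) ∧ ∃ U W : Submodule F (Fin m ⊕ Fin m → F), (Module.finrank F U = m ∧ ∀ w ∈ U, Cfsg.quadFormPlus m F w = 0) ∧ (Module.finrank F W = m ∧ ∀ w ∈ W, Cfsg.quadFormPlus m F w = 0) ∧ Module.finrank F ↥(U ⊓ W) + 1 = m := by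
  classical
  open Cfsg.Agent.Lib.Classical.Witt.TS Cfsg.Agent.Lib.Classical.Witt.PlusForm Cfsg.Agent.Lib.Classical.Witt.Hyp
    Cfsg.Agent.Lib.Classical.Witt.Parity QuadraticMap in
  set Q := plusForm m F with hQdef
  have hQ : PolarNondeg Q := polarNondeg_plusForm m F
  have hts : ∀ W : Submodule F (Fin m ⊕ Fin m → F),
      IsTS Q W ↔ ∀ w ∈ W, Cfsg.quadFormPlus m F w = 0 := by
    intro W
    simp [IsTS, hQdef]
  have hV := finrank_plus m F
  refine ⟨fun U W X hU hW hX => ?_, ?_⟩
  · exact parity_aux m Q hQ hV U W X ((hts U).mpr hU.2) hU.1 ((hts W).mpr hW.2) hW.1 ((hts X).mpr hX.2) hX.1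
  · let i0 : Fin m := ⟨0, hm⟩
    let e : Fin m ⊕ Fin m → F := Pi.single (Sum.inl i0) 1
    let f : Fin m ⊕ Fin m → F := Pi.single (Sum.inr i0) 1
    have hpf : ∀ u, polar Q f u = u (Sum.inl i0) := by
      intro u
      rw [hQdef, polar_plusForm]
      simp [f, Pi.single_apply, Finset.sum_ite_eq]
    have heU : e ∈ coordSpace m F := by
      intro i
      simp [e]
    have hfe : polar Q f e ≠ 0 := by
      rw [hpf]
      simp [e]
    have hfU : f ∉ coordSpace m F := by
      intro h
      have := h i0
      simp [f] at this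
    have hU := isTS_coordSpace m F
    have hUm := finrank_coordSpace m F
    have hU1 := finrank_inf_polar_add_one (coordSpace m F) f heU hfe
    set U1 := coordSpace m F ⊓ LinearMap.ker (polarBilin Q f) with hU1def
    have hfU1 : f ∉ U1 := fun h => hfU h.1
    have hQf : Q f = 0 := by
      rw [hQdef, plusForm_apply]
      simp only [Cfsg.quadFormPlus, f]
      refine Finset.sum_eq_zero (fun i _ => ?_)
      simp
    have hW : IsTS Q (U1 ⊔ Submodule.span F {f}) := by
      refine IsTS.sup_span (hU.mono inf_le_left) hQf (fun u hu => ?_)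
      rw [polar_comm]
      exact LinearMap.mem_ker.mp hu.2
    have hWm : Module.finrank F ↥(U1 ⊔ Submodule.span F {f}) = m := by
      rw [finrank_sup_span_add U1 hfU1]
      omega
    refine ⟨coordSpace m F, U1 ⊔ Submodule.span F {f}, ⟨hUm, (hts _).mp hU⟩, ⟨hWm, (hts _).mp hW⟩, ?_⟩
    have hle : U1 ≤ coordSpace m F ⊓ (U1 ⊔ Submodule.span F {f}) := le_inf inf_le_left le_sup_left
    have h1 := Submodule.finrank_mono hle
    have hlt : coordSpace m F ⊓ (U1 ⊔ Submodule.span F {f}) < U1 ⊔ Submodule.span F {f} := by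
      refine lt_of_le_of_ne inf_le_right (fun h => hfU ?_)
      have : f ∈ coordSpace m F ⊓ (U1 ⊔ Submodule.span F {f}) := by
        rw [h]
        exact Submodule.mem_sup_right (Submodule.mem_span_singleton_self f)
      exact this.1
    have h2 := Submodule.finrank_lt_finrank_of_lt hlt
    omega

end Cfsg.Agent.S0831
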