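import Cfsg.Statements.S0832
import Mathlib
import Cfsg.Agent.Lib.Classical.Witt.PlusForm
import Cfsg.Agent.S0760
-- import your own Cfsg.Agent.* helpers here

set_option autoImplicit false
open Cfsg

namespace Cfsg.Agent.S0832

/-- For the form Σ x_i y_i on F^(2m) over a finite field, m ≥ 1: an (m−1)-dimensional subspace on which the form vanishes is contained in exactly two m-dimensional subspaces on which it vanishes. -/
theorem result {F : Type*} [Field F] [Finite F] (m : ℕ) (hm : 1 ≤ m) (U : Submodule F (Fin m ⊕ Fin m → F)) (hU : Module.finrank F U + 1 = m ∧ ∀ u ∈ U, Cfsg.quadFormPlus m F u = 0) : Nat.card {W : Submodule F (Fin m ⊕ Fin m → F) // Module.finrank F W = m ∧ (∀ w ∈ W, Cfsg.quadFormPlus m F w = 0) ∧ U ≤ W} = 2 := by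
  classical
  open Cfsg.Agent.Lib.Classical.Witt.TS Cfsg.Agent.Lib.Classical.Witt.PlusForm Cfsg.Agent.Lib.Classical.Witt.Hyp in
  set Q := plusForm m F with hQdef
  have hQ : PolarNondeg Q := polarNondeg_plusForm m F
  have hts : ∀ W : Submodule F (Fin m ⊕ Fin m → F),
      IsTS Q W ↔ ∀ w ∈ W, Cfsg.quadFormPlus m F w = 0 := by
    intro W
    simp [IsTS, hQdef]
  have hUT : IsTS Q U := (hts U).mpr hU.2
  have hV := finrank_plus m F
  -- a maximal totally singular subspace over U
  obtain ⟨W0, ⟨hW0T, hUW0⟩, hmax⟩ := (wellFounded_gt (α := Submodule F (Fin m ⊕ Fin m → F))).has_min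
    {W | IsTS Q W ∧ U ≤ W} ⟨U, hUT, le_rfl⟩
  have hmax0 : ∀ W : Submodule F (Fin m ⊕ Fin m → F), W0 ≤ W → (∀ w ∈ W, Q w = 0) → W = W0 := by
    intro W hle hW
    by_contra hne
    exact hmax W ⟨hW, hUW0.trans hle⟩ (lt_of_le_of_ne hle (Ne.symm hne))
  have hcmax : ∀ W : Submodule F (Fin m ⊕ Fin m → F), coordSpace m F ≤ W → (∀ w ∈ W, Q w = 0) →
      W = coordSpace m F := by
    intro W hle hW
    symm
    apply Submodule.eq_of_le_of_finrank_le hle
    have := IsTS.two_mul_finrank_le hQ (U := W) hW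
    rw [finrank_coordSpace]
    omega
  have hW0m : Module.finrank F W0 = m := by
    have := (Cfsg.Agent.S0760.result Q (nondeg_of_polarNondeg Q hQ) W0 (coordSpace m F) hW0T
      (isTS_coordSpace m F) hmax0 hcmax).1
    rw [this, finrank_coordSpace]
  have hcard := card_ts_over hQ hV hUT hU.1 hW0T hW0m hUW0
  rw [← hcard]
  exact Nat.card_congr (Equiv.subtypeEquivRight fun W => by rw [hts])

end Cfsg.Agent.S0832
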