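import Cfsg.Statements.S0834
import Mathlib
import Cfsg.Agent.Lib.Classical.Witt.Lagrangian

set_option autoImplicit false
open Cfsg

namespace Cfsg.Agent.S0834

/-- Over a finite field with 2 ≠ 0: if B₁ on U (dim 2k, k ≥ 1) and B₂ on W (dim 2l, l ≥ 1) are non-degenerate symmetric forms admitting no totally isotropic subspaces of dimensions k, resp. l (minus type), then B₁ ⊗ B₂ admits a totally isotropic subspace of dimension 2kl (plus type). -/
theorem result {F U W : Type*} [Field F] [Fintype F] [AddCommGroup U] [Module F U] [FiniteDimensional F U] [AddCommGroup W] [Module F W] [FiniteDimensional F W] (h2 : (2 : F) ≠ 0) (B₁ : LinearMap.BilinForm F U) (B₂ : LinearMap.BilinForm F W) (h₁ : B₁.Nondegenerate) (h₂ : B₂.Nondegenerate) (hS₁ : B₁.IsSymm) (hS₂ : B₂.IsSymm) (k l : ℕ) (hk : 1 ≤ k) (hl : 1 ≤ l) (hU : Module.finrank F U = 2 * k) (hW : Module.finrank F W = 2 * l) (hm₁ : ¬ (∃ X : Submodule F (U), Module.finrank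 F X = k ∧ ∀ x ∈ X, ∀ y ∈ X, (B₁) x y = 0)) (hm₂ : ¬ (∃ X : Submodule F (W), Module.finrank F X = l ∧ ∀ x ∈ X, ∀ y ∈ X, (B₂) x y = 0)) : (∃ X : Submodule F (TensorProduct F U W), Module.finrank F X = 2 * k * l ∧ ∀ x ∈ X, ∀ y ∈ X, (B₁.tmul B₂) x y = 0) := by
  classical
  open Cfsg.Agent.Lib.Classical.Witt.Lagrangian in
  obtain ⟨hsymm, hnd⟩ := nondegenerate_tmul B₁ B₂ h₁ h₂ hS₁ hS₂
  let b₁ := Module.finBasis F U
  let b₂ := Module.finBasis F W
  have hfr : Module.finrank F (TensorProduct F U W) = 2 * (2 * k * l) := by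
    rw [Module.finrank_tensorProduct, hU, hW]
    ring
  have hm : 1 ≤ 2 * k * l := Nat.mul_pos (Nat.mul_pos (by norm_num) hk) hl
  rw [Cfsg.Agent.Lib.Classical.Witt.Lagrangian.exists_lagrangian_iff h2 (B₁.tmul B₂)
    (LinearMap.BilinForm.isSymm_iff.2 hsymm) hnd hm hfr (b₁.tensorProduct b₂)]
  rw [Cfsg.Agent.Lib.Classical.Witt.Lagrangian.det_gram_tmul]
  simp only [Fintype.card_fin, hU, hW]
  set D₁ := (Matrix.of fun i j => B₁ (b₁ i) (b₁ j)).det
  set D₂ := (Matrix.of fun i j => B₂ (b₂ i) (b₂ j)).det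
  refine ⟨D₁ ^ l * D₂ ^ k, ?_⟩
  have e1 : (-1 : F) ^ (2 * k * l) = 1 := by
    rw [mul_assoc, pow_mul]
    simp
  rw [e1, one_mul]
  ring

end Cfsg.Agent.S0834
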