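import Cfsg.Statements.S0835
import Mathlib
import Cfsg.Agent.Lib.Classical.Witt.Lagrangian

set_option autoImplicit false
open Cfsg

namespace Cfsg.Agent.S0835

/-- Over a finite field with 2 ≠ 0: if B₁ on U (dim 2k, k ≥ 1) is non-degenerate symmetric of minus type (no totally isotropic k-subspace) and B₂ on W (dim 2l + 1) is non-degenerate symmetric, then B₁ ⊗ B₂ (dimension 2k(2l+1)) admits no totally isotropic subspace of dimension k(2l+1) (minus type). -/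
theorem result {F U W : Type*} [Field F] [Fintype F] [AddCommGroup U] [Module F U] [FiniteDimensional F U] [AddCommGroup W] [Module F W] [FiniteDimensional F W] (h2 : (2 : F) ≠ 0) (B₁ : LinearMap.BilinForm F U) (B₂ : LinearMap.BilinForm F W) (h₁ : B₁.Nondegenerate) (h₂ : B₂.Nondegenerate) (hS₁ : B₁.IsSymm) (hS₂ : B₂.IsSymm) (k l : ℕ) (hk : 1 ≤ k) (hU : Module.finrank F U = 2 * k) (hW : Module.finrank F W = 2 * l + 1) (hm₁ : ¬ (∃ X : Submodule F (U), Module.finrank F X = k ∧ ∀ x ∈ X, ∀ y ∈ X, (B₁) x y = 0)) : ¬ (∃ X : Submodule F (TensorProduct F U W), Module.finrank F X = k * (2 * l + 1) ∧ ∀ x ∈ X, ∀ y ∈ X, (B₁.tmul B₂) x y = 0) := by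
  classical
  rintro ⟨X, hX, hts⟩
  obtain ⟨hsymm, hnd⟩ := Cfsg.Agent.Lib.Classical.Witt.Lagrangian.nondegenerate_tmul B₁ B₂ h₁ h₂ hS₁ hS₂
  let b₁ := Module.finBasis F U
  let b₂ := Module.finBasis F W
  have hfr : Module.finrank F (TensorProduct F U W) = 2 * (k * (2 * l + 1)) := by
    rw [Module.finrank_tensorProduct, hU, hW]
    ring
  have hm : 1 ≤ k * (2 * l + 1) := Nat.mul_pos hk (by omega)
  have h := (Cfsg.Agent.Lib.Classical.Witt.Lagrangian.exists_lagrangian_iff h2 (B₁.tmul B₂)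
    (LinearMap.BilinForm.isSymm_iff.2 hsymm) hnd hm hfr (b₁.tensorProduct b₂)).1 ⟨X, hX, hts⟩
  rw [Cfsg.Agent.Lib.Classical.Witt.Lagrangian.det_gram_tmul] at h
  simp only [Fintype.card_fin, hU, hW] at h
  apply hm₁
  rw [Cfsg.Agent.Lib.Classical.Witt.Lagrangian.exists_lagrangian_iff h2 B₁ hS₁ h₁ hk hU b₁]
  set D₁ := (Matrix.of fun i j => B₁ (b₁ i) (b₁ j)).det
  set D₂ := (Matrix.of fun i j => B₂ (b₂ i) (b₂ j)).det
  have hD₂ : D₂ ≠ 0 := by
    have h3 := (LinearMap.BilinForm.nondegenerate_iff_det_ne_zero b₂).1 h₂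
    convert h3 using 2
    ext i j
    simp [LinearMap.BilinForm.toMatrix_apply]
  set x := (-1 : F) ^ k * D₁ with hx
  by_cases hx0 : x = 0
  · rw [hx0]
    exact IsSquare.zero
  obtain ⟨s, hs⟩ := h
  have e1 : (-1 : F) ^ (k * (2 * l + 1)) * (D₁ ^ (2 * l + 1) * D₂ ^ (2 * k)) = x ^ (2 * l + 1) * (D₂ ^ k) ^ 2 := by
    rw [hx, mul_pow, ← pow_mul]
    ring
  rw [e1] at hs
  refine ⟨s / (D₂ ^ k * x ^ l), ?_⟩
  have hD := pow_ne_zero k hD₂
  have hxl := pow_ne_zero l hx0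
  rw [div_mul_div_comm, eq_div_iff (mul_ne_zero (mul_ne_zero hD hxl) (mul_ne_zero hD hxl)), ← hs]
  ring

end Cfsg.Agent.S0835
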