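import Cfsg.Statements.S0837
import Mathlib
import Cfsg.Agent.Lib.Classical.Herm.Block
-- import your own Cfsg.Agent.* helpers here

set_option autoImplicit false
open Cfsg
open scoped Matrix
open Cfsg.Agent.Lib.Classical.Herm.Basic Cfsg.Agent.Lib.Classical.Herm.Form
open Cfsg.Agent.Lib.Classical.Herm.GU Cfsg.Agent.Lib.Classical.Herm.Block

namespace Cfsg.Agent.S0837

/-- If W ≤ F^n (|F| = q²) is a k-dimensional subspace on which the Hermitian form Σ x_i y_i^q is non-degenerate, then the stabiliser of W in GU_n(q) is isomorphic to GU_k(q) × GU_(n−k)(q). -/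
theorem result {F : Type*} [Field F] [Fintype F] {q : ℕ} (hF : Fintype.card F = q ^ 2) (n k : ℕ) (hk : k ≤ n) (W : Submodule F (Fin n → F)) (hWk : Module.finrank F W = k) (hW : ∀ u ∈ W, (∀ v ∈ W, Cfsg.hermForm n F q u v = 0) → u = 0) : Nonempty (↥((Cfsg.stabilizing (Cfsg.glToMat (Fin n) F) (W : Set (Fin n → F))).subgroupOf (Cfsg.GU n F q)) ≃* ↥(Cfsg.GU k F q) × ↥(Cfsg.GU (n - k) F q)) := by
  classical
  obtain ⟨m, rfl⟩ := Nat.exists_eq_add_of_le hk
  rw [Nat.add_sub_cancel_left]
  obtain ⟨f, hf, hfW, hspan⟩ := exists_frame_of_nondeg hF W hWk hW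
  obtain ⟨g, hg, hgf⟩ := exists_completion hF f hf m le_rfl
  have hfg : ∀ i j, hermForm (k + m) F q (f i) (g j) = 0 := fun i j => by
    rw [← hermForm_pow_q hF, hgf i j, zero_pow_q hF]
  -- the full frame
  let b : Fin (k + m) → Fin (k + m) → F := Fin.append f g
  have hb : IsFrame q b := by
    intro i j
    refine Fin.addCases (fun i => ?_) (fun i => ?_) i <;>
      refine Fin.addCases (fun j => ?_) (fun j => ?_) j
    · simp [b, hf i j]
    · have : ¬ Fin.castAdd m i = Fin.natAdd k j := by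
        simp only [Fin.ext_iff, Fin.val_castAdd, Fin.val_natAdd]
        omega
      simp [b, hfg i j, this]
    · have : ¬ Fin.natAdd k i = Fin.castAdd m j := by
        simp only [Fin.ext_iff, Fin.val_castAdd, Fin.val_natAdd]
        omega
      simp [b, hgf j i, this]
    · simp [b, hg i j]
  let M : Matrix (Fin (k + m)) (Fin (k + m)) F := Matrix.of fun i j => b j i
  have hMp : Preserves q M := (preserves_iff_frame hF M).2 hb
  let U : GU (k + m) F q := ⟨glOfPreserves hF M hMp, glOfPreserves_mem hF M hMp⟩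
  have hU : ((U : Matrix.GeneralLinearGroup (Fin (k + m)) F) : Matrix (Fin (k + m)) (Fin (k + m)) F) = M := rfl
  have hUpres : ∀ x y, hermForm (k + m) F q (M *ᵥ x) (M *ᵥ y) = hermForm (k + m) F q x y := hMp
  -- the subspace in coordinates
  have hMsum : ∀ x : Fin (k + m) → F, M *ᵥ x = ∑ i, x (Fin.castAdd m i) • f i + ∑ j, x (Fin.natAdd k j) • g j := by
    intro x
    rw [mulVec_eq_sum_col, Fin.sum_univ_add]
    congr 1
    · refine Finset.sum_congr rfl fun i _ => ?_
      congr 1
      funext l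
      simp [M, b]
    · refine Finset.sum_congr rfl fun i _ => ?_
      congr 1
      funext l
      simp [M, b]
  have hWU : ∀ x : Fin (k + m) → F, M *ᵥ x ∈ W ↔ R x = 0 := by
    intro x
    constructor
    · intro hx
      obtain ⟨c, hc⟩ := hspan _ hx
      funext j
      have h1 := hUpres x (Pi.single (Fin.natAdd k j) 1)
      have h2 : M *ᵥ (Pi.single (Fin.natAdd k j) 1 : Fin (k + m) → F) = g j := by
        rw [mulVec_single_col]
        funext l
        simp [M, b]
      have h3 : hermForm (k + m) F q x (Pi.single (Fin.natAdd k j) 1) = x (Fin.natAdd k j) := by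
        have hq := two_le_q hF
        have hq0 : q ≠ 0 := by omega
        simp only [hermForm_apply]
        rw [Finset.sum_eq_single (Fin.natAdd k j)]
        · simp
        · intro l _ hl
          simp [hl, hq0]
        · simp
      rw [h2, h3, hc, hermForm_sum_left] at h1
      simp only [hfg, mul_zero, Finset.sum_const_zero] at h1
      exact h1.symm
    · intro hx
      rw [hMsum]
      have h0 : ∀ j, x (Fin.natAdd k j) = 0 := fun j => congrFun hx j
      simp only [h0, zero_smul, Finset.sum_const_zero, add_zero]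
      exact Submodule.sum_mem _ fun i _ => Submodule.smul_mem _ _ (hfW i)
  -- the homomorphism
  let Ψ₀ : GU k F q × GU m F q →* GU (k + m) F q := (MulAut.conj U).toMonoidHom.comp (blkGU hF)
  have hMinv : ∀ v : Fin (k + m) → F, ∃ x, M *ᵥ x = v := by
    intro v
    refine ⟨(((U⁻¹ : GU (k + m) F q) : Matrix.GeneralLinearGroup (Fin (k + m)) F) : Matrix (Fin (k + m)) (Fin (k + m)) F) *ᵥ v, ?_⟩
    rw [← hU, Matrix.mulVec_mulVec, ← Units.val_mul, ← Subgroup.coe_mul, mul_inv_cancel]
    simp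
  -- conjugation formula
  have hconj : ∀ (p : GU k F q × GU m F q) (x : Fin (k + m) → F),
      (((Ψ₀ p : GU (k + m) F q) : Matrix.GeneralLinearGroup (Fin (k + m)) F) : Matrix (Fin (k + m)) (Fin (k + m)) F) *ᵥ (M *ᵥ x)
        = M *ᵥ (blkMat (p.1.1 : Matrix (Fin k) (Fin k) F) (p.2.1 : Matrix (Fin m) (Fin m) F) *ᵥ x) := by
    intro p x
    have h1 : Ψ₀ p = U * blkGU hF p * U⁻¹ := rfl
    have h2 : Ψ₀ p * U = U * blkGU hF p := by
      rw [h1]
      group
    have h3 := congrArg (fun z : GU (k + m) F q => ((z : Matrix.GeneralLinearGroup (Fin (k + m)) F) : Matrix (Fin (k + m)) (Fin (k + m)) F) *ᵥ x) h2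
    simp only [Subgroup.coe_mul, Units.val_mul, hU, coe_blkGU] at h3
    rw [Matrix.mulVec_mulVec, h3, Matrix.mulVec_mulVec]
  -- injectivity of the blocks on the last coordinates
  have hBinj : ∀ (B : GU m F q) (y : Fin m → F),
      ((B : Matrix.GeneralLinearGroup (Fin m) F) : Matrix (Fin m) (Fin m) F) *ᵥ y = 0 ↔ y = 0 := by
    intro B y
    constructor
    · intro h
      have h1 := (B : Matrix.GeneralLinearGroup (Fin m) F).inv_mul
      have h2 := congrArg (fun Z : Matrix (Fin m) (Fin m) F => Z *ᵥ y) h1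
      simp only [Matrix.one_mulVec, ← Matrix.mulVec_mulVec] at h2
      rw [h, Matrix.mulVec_zero] at h2
      exact h2.symm
    · rintro rfl
      exact Matrix.mulVec_zero _
  have hmem : ∀ p, Ψ₀ p ∈ (Cfsg.stabilizing (Cfsg.glToMat (Fin (k + m)) F) (W : Set (Fin (k + m) → F))).subgroupOf (Cfsg.GU (k + m) F q) := by
    intro p
    rw [Subgroup.mem_subgroupOf]
    intro v
    obtain ⟨x, rfl⟩ := hMinv v
    change M *ᵥ x ∈ W ↔ (((Ψ₀ p : GU (k + m) F q) : Matrix.GeneralLinearGroup (Fin (k + m)) F) : Matrix (Fin (k + m)) (Fin (k + m)) F) *ᵥ (M *ᵥ x) ∈ W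
    rw [hconj, hWU, hWU, R_blk, hBinj]
  let Ψ := Ψ₀.codRestrict _ hmem
  have hinj : Function.Injective Ψ := by
    intro a b hab
    have h1 : Ψ₀ a = Ψ₀ b := congrArg Subtype.val hab
    exact blkGU_injective hF ((MulAut.conj U).injective h1)
  have hsurj : Function.Surjective Ψ := by
    rintro ⟨z, hz⟩
    rw [Subgroup.mem_subgroupOf] at hz
    -- conjugate back
    obtain ⟨p, hp⟩ := exists_blk_of_stab hF (U⁻¹ * z * U) (by
      intro x
      have h1 := hz (M *ᵥ x)
      have h2 : (glToMat (Fin (k + m)) F) (z : Matrix.GeneralLinearGroup (Fin (k + m)) F) *ᵥ (M *ᵥ x) = M *ᵥ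
          ((((U⁻¹ * z * U : GU (k + m) F q) : Matrix.GeneralLinearGroup (Fin (k + m)) F) : Matrix (Fin (k + m)) (Fin (k + m)) F) *ᵥ x) := by
        have hUD : U * (U⁻¹ * z * U) = z * U := by group
        have hmat : M * (((U⁻¹ * z * U : GU (k + m) F q) : Matrix.GeneralLinearGroup (Fin (k + m)) F) : Matrix (Fin (k + m)) (Fin (k + m)) F)
            = ((z : Matrix.GeneralLinearGroup (Fin (k + m)) F) : Matrix (Fin (k + m)) (Fin (k + m)) F) * M :=
          congrArg (fun y : GU (k + m) F q => ((y : Matrix.GeneralLinearGroup (Fin (k + m)) F) : Matrix (Fin (k + m)) (Fin (k + m)) F)) hUD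
        change ((z : Matrix.GeneralLinearGroup (Fin (k + m)) F) : Matrix (Fin (k + m)) (Fin (k + m)) F) *ᵥ (M *ᵥ x) = _
        rw [Matrix.mulVec_mulVec, Matrix.mulVec_mulVec, hmat]
      rw [SetLike.mem_coe, SetLike.mem_coe, h2, hWU, hWU] at h1
      exact h1)
    refine ⟨p, ?_⟩
    apply Subtype.ext
    change Ψ₀ p = z
    have h1 : Ψ₀ p = U * blkGU hF p * U⁻¹ := rfl
    rw [h1, hp]
    group
  exact ⟨(MulEquiv.ofBijective Ψ ⟨hinj, hsurj⟩).symm⟩

end Cfsg.Agent.S0837
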