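import Cfsg.Statements.S2623
import Mathlib
import Cfsg.Agent.Lib.Classical.Witt.Index
import Cfsg.Agent.Lib.Classical.Witt.Disc
import Cfsg.Agent.S0756

set_option autoImplicit false
open Cfsg

namespace Cfsg.Agent.S2623

/-- Over a finite field of odd order, two quadratic forms on F^n with non-degenerate polar forms are isometric (related by an invertible linear change of variables) if and only if their discriminants (determinants of the Gram matrices of their polar forms) lie in the same square class. -/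
theorem result {F : Type*} [Field F] [Fintype F] (h2 : (2 : F) ≠ 0) {n : ℕ} (Q₁ Q₂ : QuadraticForm F (Fin n → F)) (h₁ : (QuadraticMap.polarBilin Q₁).Nondegenerate) (h₂ : (QuadraticMap.polarBilin Q₂).Nondegenerate) : (∃ g : (Fin n → F) ≃ₗ[F] (Fin n → F), ∀ v, Q₂ (g v) = Q₁ v) ↔ IsSquare ((Matrix.of (fun i j : Fin n => QuadraticMap.polar ⇑Q₁ (Pi.single i 1) (Pi.single j 1))).det * (Matrix.of (fun i j : Fin n => QuadraticMap.polar ⇑Q₂ (Pi.single i 1) (Pi.single j 1))).det) := by
  classical
  have hc2 : ringChar F ≠ 2 := by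
    intro hc
    apply h2
    have := ringChar.Nat.cast_ringChar (R := F)
    rw [hc] at this
    exact_mod_cast this
  have hsingle : ∀ (Q : QuadraticForm F (Fin n → F)), (Matrix.of (fun i j : Fin n => QuadraticMap.polar ⇑Q (Pi.single i 1) (Pi.single j 1))) = Matrix.of (fun i j : Fin n => QuadraticMap.polar ⇑Q (Pi.basisFun F (Fin n) i) (Pi.basisFun F (Fin n) j)) := by
    intro Q
    ext i j
    simp [Pi.basisFun_apply]
  rw [hsingle, hsingle]
  set e := Pi.basisFun F (Fin n) with he
  constructor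
  · rintro ⟨g, hg⟩
    obtain ⟨u, hu, h⟩ := Cfsg.Agent.Lib.Classical.Witt.Disc.det_gram_polar_change Q₂ (e.map g) e
    have h3 : (Matrix.of fun i j => QuadraticMap.polar Q₂ ((e.map g) i) ((e.map g) j)) =
        Matrix.of (fun i j : Fin n => QuadraticMap.polar ⇑Q₁ (e i) (e j)) := by
      ext i j
      simp only [Module.Basis.map_apply, Matrix.of_apply, QuadraticMap.polar, ← map_add, hg]
    rw [h3] at h
    rw [h]
    exact ⟨u * (Matrix.of fun i j => QuadraticMap.polar Q₂ (e i) (e j)).det, by ring⟩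
  · intro hs
    rcases n with _ | k
    · refine ⟨LinearEquiv.refl _ _, fun v => ?_⟩
      have hv : v = 0 := Subsingleton.elim _ _
      rw [LinearEquiv.refl_apply, hv, QuadraticMap.map_zero, QuadraticMap.map_zero]
    · obtain ⟨α, hα⟩ := FiniteField.exists_nonsquare hc2
      have hsymm : ∀ Q : QuadraticForm F (Fin (k + 1) → F), LinearMap.BilinForm.IsSymm (QuadraticMap.polarBilin Q) := by
        intro Q
        refine ⟨fun x y => ?_⟩
        simp [QuadraticMap.polar_comm]
      have hfr : Module.finrank F (Fin (k + 1) → F) = k + 1 := by simp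
      obtain ⟨b₁, h11, h12, h13⟩ := Cfsg.Agent.S0756.result h2 (QuadraticMap.polarBilin Q₁) (hsymm Q₁) h₁ hfr α hα
      obtain ⟨b₂, h21, h22, h23⟩ := Cfsg.Agent.S0756.result h2 (QuadraticMap.polarBilin Q₂) (hsymm Q₂) h₂ hfr α hα
      simp only [QuadraticMap.polarBilin_apply_apply] at h11 h12 h13 h21 h22 h23
      have hdet : ∀ (Q : QuadraticForm F (Fin (k + 1) → F)) (b : Module.Basis (Fin (k + 1)) F (Fin (k + 1) → F)),
          (∀ i j, i ≠ j → QuadraticMap.polar Q (b i) (b j) = 0) → (∀ i, i ≠ Fin.last k → QuadraticMap.polar Q (b i) (b i) = 1) →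
          (Matrix.of fun i j => QuadraticMap.polar Q (b i) (b j)).det = QuadraticMap.polar Q (b (Fin.last k)) (b (Fin.last k)) := by
        intro Q b h1 h2
        have : (Matrix.of fun i j => QuadraticMap.polar Q (b i) (b j)) = Matrix.diagonal (fun i => QuadraticMap.polar Q (b i) (b i)) := by
          ext i j
          by_cases hij : i = j
          · subst hij
            simp
          · simp [h1 i j hij, hij]
        rw [this, Matrix.det_diagonal]
        exact Finset.prod_eq_single (Fin.last k) (fun i _ hi => h2 i hi) (by simp)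
      obtain ⟨u₁, hu₁, hd₁⟩ := Cfsg.Agent.Lib.Classical.Witt.Disc.det_gram_polar_change Q₁ e b₁
      obtain ⟨u₂, hu₂, hd₂⟩ := Cfsg.Agent.Lib.Classical.Witt.Disc.det_gram_polar_change Q₂ e b₂
      rw [hdet Q₁ b₁ h11 h12] at hd₁
      rw [hdet Q₂ b₂ h21 h22] at hd₂
      rw [hd₁, hd₂] at hs
      have hsq : IsSquare (QuadraticMap.polar Q₁ (b₁ (Fin.last k)) (b₁ (Fin.last k)) * QuadraticMap.polar Q₂ (b₂ (Fin.last k)) (b₂ (Fin.last k))) := by
        have e1 : u₁ ^ 2 * QuadraticMap.polar Q₁ (b₁ (Fin.last k)) (b₁ (Fin.last k)) * (u₂ ^ 2 * QuadraticMap.polar Q₂ (b₂ (Fin.last k)) (b₂ (Fin.last k))) = (u₁ * u₂) ^ 2 * (QuadraticMap.polar Q₁ (b₁ (Fin.last k)) (b₁ (Fin.last k)) * QuadraticMap.polar Q₂ (b₂ (Fin.last k)) (b₂ (Fin.last k))) := by ring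
        rw [e1] at hs
        exact (Cfsg.Agent.Lib.Classical.Witt.Disc.isSquare_sq_mul_iff (mul_ne_zero hu₁ hu₂)).1 hs
      have hlast : QuadraticMap.polar Q₁ (b₁ (Fin.last k)) (b₁ (Fin.last k)) = QuadraticMap.polar Q₂ (b₂ (Fin.last k)) (b₂ (Fin.last k)) := by
        rcases h13 with h | h <;> rcases h23 with h' | h' <;> rw [h, h'] at hsq ⊢
        · simp at hsq
          exact hα hsq |>.elim
        · simp at hsq
          exact hα hsq |>.elim
      have hpol : ∀ i j, QuadraticMap.polar Q₁ (b₁ i) (b₁ j) = QuadraticMap.polar Q₂ (b₂ i) (b₂ j) := by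
        intro i j
        by_cases hij : i = j
        · subst hij
          by_cases hi : i = Fin.last k
          · subst hi
            exact hlast
          · rw [h12 i hi, h22 i hi]
        · rw [h11 i j hij, h21 i j hij]
      have hval : ∀ i, Q₁ (b₁ i) = Q₂ (b₂ i) := by
        intro i
        have := hpol i i
        rw [Cfsg.Agent.Lib.Classical.Witt.Hyp.polar_self, Cfsg.Agent.Lib.Classical.Witt.Hyp.polar_self] at this
        exact mul_left_cancel₀ h2 this
      obtain ⟨g, -, hg⟩ := Cfsg.Agent.Lib.Classical.Witt.Index.exists_isometry_of_bases Q₁ Q₂ b₁ b₂ hval hpol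
      exact ⟨g, hg⟩

end Cfsg.Agent.S2623
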