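import Cfsg.Statements.S0838
import Mathlib
import Cfsg.Agent.S2623

set_option autoImplicit false
open Cfsg

namespace Cfsg.Agent.S0838

/-- Over a finite field with 2 ≠ 0 and n odd: two quadratic forms Q₁, Q₂ on F^n with non-degenerate polar forms are similar — there are an invertible linear map g and a scalar c ≠ 0 with Q₂ (g v) = c · Q₁ v for all v. -/
theorem result {F : Type*} [Field F] [Fintype F] (h2 : (2 : F) ≠ 0) {n : ℕ} (hn : Odd n) (Q₁ Q₂ : QuadraticForm F (Fin n → F)) (h₁ : (QuadraticMap.polarBilin Q₁).Nondegenerate) (h₂ : (QuadraticMap.polarBilin Q₂).Nondegenerate) : ∃ (g : (Fin n → F) ≃ₗ[F] (Fin n → F)) (c : F), c ≠ 0 ∧ ∀ v, Q₂ (g v) = c * Q₁ v := by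
  classical
  let D : QuadraticForm F (Fin n → F) → F := fun Q => (Matrix.of (fun i j : Fin n => QuadraticMap.polar ⇑Q (Pi.single i 1) (Pi.single j 1))).det
  have hD0 : ∀ Q : QuadraticForm F (Fin n → F), (QuadraticMap.polarBilin Q).Nondegenerate → D Q ≠ 0 := by
    intro Q hQ
    have h := (LinearMap.BilinForm.nondegenerate_iff_det_ne_zero (Pi.basisFun F (Fin n))).1 hQ
    convert h using 2
    ext i j
    simp [LinearMap.BilinForm.toMatrix_apply]
  let c : F := D Q₁ * D Q₂
  have hc : c ≠ 0 := mul_ne_zero (hD0 _ h₁) (hD0 _ h₂)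
  have hDc : D (c • Q₁) = c ^ n * D Q₁ := by
    have : (Matrix.of (fun i j : Fin n => QuadraticMap.polar ⇑(c • Q₁) (Pi.single i 1) (Pi.single j 1))) = c • (Matrix.of (fun i j : Fin n => QuadraticMap.polar ⇑Q₁ (Pi.single i 1) (Pi.single j 1))) := by
      ext i j
      simp [QuadraticMap.polar]
      ring
    change (Matrix.of (fun i j : Fin n => QuadraticMap.polar ⇑(c • Q₁) (Pi.single i 1) (Pi.single j 1))).det = _
    rw [this, Matrix.det_smul, Fintype.card_fin]
  have hnd : (QuadraticMap.polarBilin (c • Q₁)).Nondegenerate := by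
    apply Cfsg.Agent.Lib.Classical.Witt.Hyp.nondeg_of_polarNondeg
    intro x hx
    apply Cfsg.Agent.Lib.Classical.Witt.Hyp.polarNondeg_of_nondeg Q₁ h₁ x
    intro y
    have := hx y
    simp only [QuadraticMap.polar, smul_apply, smul_eq_mul] at this
    apply mul_left_cancel₀ hc
    simp only [QuadraticMap.polar]
    linear_combination this
  obtain ⟨k, hk⟩ := hn
  obtain ⟨g, hg⟩ := (Cfsg.Agent.S2623.result h2 (c • Q₁) Q₂ hnd h₂).2 (by
    change IsSquare (D (c • Q₁) * D Q₂)
    rw [hDc]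
    refine ⟨c ^ (k + 1), ?_⟩
    have : c ^ (k + 1) * c ^ (k + 1) = c ^ (n + 1) := by
      rw [← pow_add, hk]
      congr 1
      omega
    rw [this, pow_succ]
    simp only [c]
    ring)
  exact ⟨g, c, hc, fun v => by rw [hg]; simp⟩

end Cfsg.Agent.S0838
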