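import Cfsg.Statements.S0839
import Mathlib
import Cfsg.Agent.Lib.Linalg.TransvectionForm
-- import your own Cfsg.Agent.* helpers here

set_option autoImplicit false
open Cfsg

namespace Cfsg.Agent.S0839

/-- Every transvection t ∈ SL_(n+2)(F) (rank(t − 1) = 1, (t − 1)² = 0) is conjugate in SL_(n+2)(F) to 1 + v·e_0ᵀ for some column vector v with v_0 = 0 (the group A of matrices that are the identity except in the first column below the diagonal); the dimension is written n + 2 ≥ 2. -/
theorem result {F : Type*} [Field F] (n : ℕ) (t : Matrix.SpecialLinearGroup (Fin (n + 2)) F) (ht : Cfsg.IsTransvection (t : Matrix (Fin (n + 2)) (Fin (n + 2)) F)) : ∃ (g : Matrix.SpecialLinearGroup (Fin (n + 2)) F) (v : Fin (n + 2) → F), v 0 = 0 ∧ ((g⁻¹ * t * g : Matrix.SpecialLinearGroup (Fin (n + 2)) F) : Matrix (Fin (n + 2)) (Fin (n + 2)) F) = 1 + Matrix.vecMulVec v (Pi.single 0 1) := by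
  classical
  obtain ⟨v, w, hv, hw, hwv, ht'⟩ :=
    Cfsg.Agent.Lib.Linalg.TransvectionForm.exists_form_of_transvection ht.1 ht.2
  have he0 : (Pi.single 0 1 : Fin (n + 2) → F) ≠ 0 := by
    intro h
    have := congrFun h 0
    simp at this
  obtain ⟨h, hh⟩ := Cfsg.Agent.Lib.Linalg.Bridge.exists_SL_mulVec_eq (ι := Fin (n + 2)) (F := F)
    (by simp) hw he0
  set g : Matrix.SpecialLinearGroup (Fin (n + 2)) F := h.transpose with hg
  have hgw : Matrix.vecMul w (g : Matrix (Fin (n + 2)) (Fin (n + 2)) F) = Pi.single 0 1 := by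
    rw [Matrix.SpecialLinearGroup.coe_transpose, Matrix.vecMul_transpose]
    exact hh
  refine ⟨g, (g⁻¹ : Matrix.SpecialLinearGroup (Fin (n + 2)) F).1.mulVec v, ?_, ?_⟩
  · have h1 : dotProduct (Matrix.vecMul w (g : Matrix (Fin (n + 2)) (Fin (n + 2)) F))
        ((g⁻¹ : Matrix.SpecialLinearGroup (Fin (n + 2)) F).1.mulVec v) = dotProduct w v := by
      rw [Matrix.dotProduct_mulVec, Matrix.vecMul_vecMul, ← Matrix.SpecialLinearGroup.coe_mul]
      simp
    rw [hgw, hwv] at h1
    simpa using h1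
  · rw [Matrix.SpecialLinearGroup.coe_mul, Matrix.SpecialLinearGroup.coe_mul, ht', mul_add, add_mul,
      mul_one, Matrix.mul_vecMulVec, Matrix.vecMulVec_mul, hgw]
    congr 1
    rw [← Matrix.SpecialLinearGroup.coe_mul]
    simp

end Cfsg.Agent.S0839
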