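import Cfsg.Statements.S0841
import Mathlib

set_option autoImplicit false
open Cfsg
open scoped commutatorElement

namespace Cfsg.Agent.S0841

variable {G : Type*} [Group G]

theorem pow_aux (hG : commutator G ≤ Subgroup.center G) (x y : G) (n : ℕ) :
    (x * y) ^ n * (y⁻¹ * x⁻¹ * y * x) ^ (0 : ℕ) = x ^ n * y ^ n * (y⁻¹ * x⁻¹ * y * x) ^ (n * (n - 1) / 2) := by
  have hcentral : ∀ a b : G, a⁻¹ * b⁻¹ * a * b ∈ Subgroup.center G := by
    intro a b
    apply hG
    have : a⁻¹ * b⁻¹ * a * b = ⁅a⁻¹, b⁻¹⁆ := by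
      simp [commutatorElement_def]
    rw [this]
    exact Subgroup.commutator_mem_commutator (Subgroup.mem_top _) (Subgroup.mem_top _)
  set c := y⁻¹ * x⁻¹ * y * x with hc
  have hcc : c ∈ Subgroup.center G := hcentral y x
  have hyx : y * x = x * y * c := by
    rw [hc]; group
  have hypow : ∀ k : ℕ, y ^ k * x = x * y ^ k * c ^ k := by
    intro k
    induction k with
    | zero => simp
    | succ k ih =>
      have hcomm : ∀ g : G, c ^ k * g = g * c ^ k :=
        fun g => (Subgroup.mem_center_iff.1 (Subgroup.pow_mem _ hcc k) g).symm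
      have hcomm1 : ∀ g : G, c * g = g * c :=
        fun g => (Subgroup.mem_center_iff.1 hcc g).symm
      calc y ^ (k + 1) * x = y ^ k * (y * x) := by rw [pow_succ, mul_assoc]
        _ = y ^ k * (x * y * c) := by rw [hyx]
        _ = (y ^ k * x) * y * c := by group
        _ = x * y ^ k * c ^ k * y * c := by rw [ih]
        _ = x * y ^ k * (c ^ k * y) * c := by group
        _ = x * y ^ k * (y * c ^ k) * c := by rw [hcomm y]
        _ = x * (y ^ k * y) * (c ^ k * c) := by group
        _ = x * y ^ (k + 1) * c ^ (k + 1) := by rw [pow_succ y, pow_succ c]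
  induction n with
  | zero => simp
  | succ n ih =>
    simp only [pow_zero, mul_one] at ih ⊢
    rw [pow_succ, ih]
    have hk : (n + 1) * (n + 1 - 1) / 2 = n * (n - 1) / 2 + n := by
      cases n with
      | zero => simp
      | succ m =>
        simp only [Nat.add_sub_cancel]
        have h2 : ∀ a : ℕ, a * (a + 1) % 2 = 0 := by
          intro a
          rcases Nat.even_mul_succ_self a with ⟨t, ht⟩
          omega
        have : (m + 1 + 1) * (m + 1) = (m + 1) * m + 2 * (m + 1) := by ring
        rw [this, Nat.add_mul_div_left _ _ (by norm_num)]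
    rw [hk, pow_add c]
    have hcomm1 : ∀ (a : ℕ) (g : G), c ^ a * g = g * c ^ a :=
      fun a g => (Subgroup.mem_center_iff.1 (Subgroup.pow_mem _ hcc a) g).symm
    calc x ^ n * y ^ n * c ^ (n * (n - 1) / 2) * (x * y)
        = x ^ n * y ^ n * (c ^ (n * (n - 1) / 2) * (x * y)) := by group
      _ = x ^ n * y ^ n * ((x * y) * c ^ (n * (n - 1) / 2)) := by rw [hcomm1]
      _ = x ^ n * (y ^ n * x) * y * c ^ (n * (n - 1) / 2) := by group
      _ = x ^ n * (x * y ^ n * c ^ n) * y * c ^ (n * (n - 1) / 2) := by rw [hypow]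
      _ = x ^ n * x * y ^ n * (c ^ n * y) * c ^ (n * (n - 1) / 2) := by group
      _ = x ^ n * x * y ^ n * (y * c ^ n) * c ^ (n * (n - 1) / 2) := by rw [hcomm1]
      _ = x ^ (n + 1) * y ^ (n + 1) * (c ^ (n * (n - 1) / 2) * c ^ n) := by
        rw [hcomm1 (n * (n - 1) / 2) (c ^ n)]; simp only [pow_succ]; group

/-- If the commutator subgroup of G lies in the centre, then for all x, y in G and every natural number n one has (x * y) ^ n = x ^ n * y ^ n * c ^ (n * (n - 1) / 2) with c = y⁻¹ * x⁻¹ * y * x. -/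
theorem result {G : Type*} [Group G] (hG : commutator G ≤ Subgroup.center G) (x y : G) (n : ℕ) : (x * y) ^ n = x ^ n * y ^ n * (y⁻¹ * x⁻¹ * y * x) ^ (n * (n - 1) / 2) := by
  simpa using pow_aux hG x y n

end Cfsg.Agent.S0841
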