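import Cfsg.Statements.S0842
import Mathlib
import Cfsg.Agent.Lib.Basic.QuatSylow
-- import your own Cfsg.Agent.* helpers here

set_option autoImplicit false
open Cfsg

namespace Cfsg.Agent.S0842


open Subgroup Cfsg.Agent.Lib.Basic.QuatSylow

lemma orderOf_conj' {G : Type*} [Group G] (g z : G) : orderOf (g * z * g⁻¹) = orderOf z := by
  have := orderOf_injective (MulAut.conj g).toMonoidHom (MulAut.conj g).injective z
  simpa [MulAut.conj_apply] using this

theorem exists_conj_le_sylow {G : Type*} [Group G] [Finite G] {p : ℕ} [Fact p.Prime] (S : Sylow p G)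
    {N : Subgroup G} (hSN : (S : Subgroup G) ≤ N)
    {R : Subgroup G} (hRN : R ≤ N) (hR : IsPGroup p R) :
    ∃ g ∈ N, ∀ r ∈ R, g⁻¹ * r * g ∈ (S : Subgroup G) := by
  let S' : Sylow p N := S.subtype hSN
  let R' : Subgroup N := R.subgroupOf N
  have hR' : IsPGroup p R' := hR.of_equiv (Subgroup.subgroupOfEquivOfLe hRN).symm
  obtain ⟨Q, hQ⟩ := hR'.exists_le_sylow
  obtain ⟨g, hg⟩ := MulAction.exists_smul_eq N S' Q
  refine ⟨g, g.2, ?_⟩
  intro r hr
  have hzQ : (⟨r, hRN hr⟩ : N) ∈ (Q : Subgroup N) := hQ (by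
    rw [Subgroup.mem_subgroupOf]; exact hr)
  rw [← hg, Sylow.coe_subgroup_smul, Subgroup.mem_pointwise_smul_iff_inv_smul_mem] at hzQ
  have h1 : (MulAut.conj g)⁻¹ • (⟨r, hRN hr⟩ : N) ∈ (S' : Subgroup N) := hzQ
  rw [Sylow.coe_subtype, Subgroup.mem_subgroupOf] at h1
  simpa [MulAut.smul_def, MulAut.conj_inv_apply] using h1

/-- Generic part: cyclic maximal `S ⊓ C`. -/
theorem exists_complement {G : Type*} [Group G] [Finite G] (S : Sylow 2 G) (C N T : Subgroup G)
    (hSN : (S : Subgroup G) ≤ N) (hCN : C ≤ N) (hCnorm : ∀ g ∈ N, ∀ c ∈ C, g * c * g⁻¹ ∈ C)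
    (hT : (S : Subgroup G) ⊓ C = T) (hTcyc : IsCyclic T) (a : ℕ) (hTa : Nat.card T = 2 ^ (a + 1)) :
    ∃ K : Subgroup G, Odd (Nat.card K) ∧ K ≤ C ∧ N ≤ normalizer (K : Set G) ∧ K ⊔ T = C ∧
      Nat.card K * Nat.card T = Nat.card C := by
  classical
  have hTC : T ≤ C := hT ▸ inf_le_right
  have hTS : T ≤ (S : Subgroup G) := hT ▸ inf_le_left
  have hTP : IsPGroup 2 T := IsPGroup.of_card hTa
  let P : Sylow 2 C :=
    { toSubgroup := T.subgroupOf C
      isPGroup' := hTP.of_equiv (Subgroup.subgroupOfEquivOfLe hTC).symm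
      is_maximal' := by
        intro Q hQ hle
        apply (Subgroup.eq_of_le_of_card_ge hle ?_).symm
        let R : Subgroup G := Q.map C.subtype
        have hRC : R ≤ C := by
          rintro _ ⟨q, -, rfl⟩
          exact q.2
        have hR : IsPGroup 2 R := hQ.map C.subtype
        obtain ⟨g, hg, hgR⟩ := exists_conj_le_sylow S hSN (hRC.trans hCN) hR
        let R' : Subgroup G := R.map (MulAut.conj g⁻¹).toMonoidHom
        have hR'T : R' ≤ T := by
          rintro _ ⟨r, hr, rfl⟩
          rw [← hT]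
          have e1 : (MulAut.conj g⁻¹).toMonoidHom r = g⁻¹ * r * g := by simp [MulAut.conj_apply]
          rw [e1]
          refine Subgroup.mem_inf.mpr ⟨hgR r hr, ?_⟩
          have := hCnorm g⁻¹ (inv_mem hg) r (hRC hr)
          simpa using this
        have h1 : Nat.card R' = Nat.card R :=
          (Nat.card_congr (Subgroup.equivMapOfInjective R _ (MulAut.conj g⁻¹).injective).toEquiv).symm
        have h2 : Nat.card R = Nat.card Q :=
          (Nat.card_congr (Subgroup.equivMapOfInjective Q _ C.subtype_injective).toEquiv).symm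
        have h3 : Nat.card (T.subgroupOf C) = Nat.card T :=
          Nat.card_congr (Subgroup.subgroupOfEquivOfLe hTC).toEquiv
        rw [h3, ← h2, ← h1]
        exact Subgroup.card_le_of_le hR'T }
  have hPcard : Nat.card (P : Subgroup C) = Nat.card T :=
    Nat.card_congr (Subgroup.subgroupOfEquivOfLe hTC).toEquiv
  have hPcyc : IsCyclic P := by
    have : IsCyclic (T.subgroupOf C) :=
      isCyclic_of_surjective _ (Subgroup.subgroupOfEquivOfLe hTC).symm.surjective
    exact this
  have hmin : (Nat.card C).minFac = 2 := by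
    rw [Nat.minFac_eq_two_iff]
    have h1 : Nat.card T ∣ Nat.card C := Subgroup.card_dvd_of_le hTC
    rw [hTa] at h1
    exact (dvd_pow_self 2 (by omega)).trans h1
  have hcomp := IsCyclic.isComplement' hmin hPcyc
  set f := MonoidHom.transferSylow P (hPcyc.normalizer_le_centralizer hmin) with hf
  have hcard0 : Nat.card f.ker * Nat.card (P : Subgroup C) = Nat.card C := hcomp.card_mul_card
  have hidx : Nat.card f.ker = (P : Subgroup C).index := by
    have := (P : Subgroup C).card_mul_index
    have hpos : 0 < Nat.card (P : Subgroup C) := Nat.card_pos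
    apply Nat.eq_of_mul_eq_mul_right hpos
    rw [hcard0, mul_comm (P : Subgroup C).index, this]
  have hodd0 : Odd (Nat.card f.ker) := by
    rw [hidx, ← Nat.not_even_iff_odd, even_iff_two_dvd]
    exact P.not_dvd_index
  have hker : ∀ w : C, Odd (orderOf w) → w ∈ f.ker := by
    intro w hw
    rw [MonoidHom.mem_ker]
    have h1 : orderOf (f w) ∣ orderOf w := orderOf_map_dvd f w
    have h2 : ∃ k, orderOf (f w) = 2 ^ k := (IsPGroup.iff_orderOf.mp P.2) (f w)
    obtain ⟨k, hk⟩ := h2
    rw [hk] at h1
    have h3 : k = 0 := by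
      by_contra hne
      have : 2 ∣ orderOf w := (dvd_pow_self 2 hne).trans h1
      exact (Nat.not_even_iff_odd.mpr hw) (even_iff_two_dvd.mpr this)
    rw [h3, pow_zero] at hk
    exact orderOf_eq_one_iff.mp hk
  let K : Subgroup G := f.ker.map C.subtype
  have hKcard : Nat.card K = Nat.card f.ker :=
    (Nat.card_congr (Subgroup.equivMapOfInjective f.ker _ C.subtype_injective).toEquiv).symm
  have hKC : K ≤ C := by
    rintro _ ⟨q, -, rfl⟩
    exact q.2
  refine ⟨K, by rwa [hKcard], hKC, ?_, ?_, ?_⟩
  · intro g hg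
    apply mem_normalizer_fintype
    intro x hx
    have hxC := hKC hx
    have hgxC := hCnorm g hg x hxC
    refine ⟨⟨g * x * g⁻¹, hgxC⟩, ?_, rfl⟩
    apply hker
    rw [Subgroup.orderOf_mk, orderOf_conj']
    obtain ⟨q, hq, rfl⟩ := hx
    have h1 : orderOf (C.subtype q) = orderOf q := orderOf_injective _ C.subtype_injective q
    rw [h1]
    have h2 : orderOf q ∣ Nat.card f.ker := by
      have := orderOf_dvd_natCard (⟨q, hq⟩ : f.ker)
      rwa [Subgroup.orderOf_mk] at this
    exact Odd.of_dvd_nat hodd0 h2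
  · have h1 : f.ker ⊔ (P : Subgroup C) = ⊤ := hcomp.sup_eq_top
    have h2 := congrArg (Subgroup.map C.subtype) h1
    rw [Subgroup.map_sup] at h2
    have h3 : (P : Subgroup C).map C.subtype = T := by
      show (T.subgroupOf C).map C.subtype = T
      rw [Subgroup.map_subgroupOf_eq_of_le hTC]
    rw [h3] at h2
    have h4 : (⊤ : Subgroup C).map C.subtype = C := by
      rw [← MonoidHom.range_eq_map, Subgroup.range_subtype]
    rw [h4] at h2
    exact h2
  · rw [hKcard, ← hPcard]
    exact hcard0

/-- Suppose a Sylow 2-subgroup S of the finite group G is generalized quaternion of order at least 16, and let D be the commutator subgroup of S, C its centralizer and N its normalizer in G. Then there is a subgroup K of odd order, contained in C and normalized by N, with K ⊔ S = N and K ⊔ (S ⊓ C) = C, and C has index 2 in N. -/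
theorem result {G : Type*} [Group G] [Finite G] (S : Sylow 2 G) (n : ℕ) (e : (S : Subgroup G) ≃* QuaternionGroup (2 ^ (n + 2))) (D : Subgroup G) (hD : D = ⁅(S : Subgroup G), (S : Subgroup G)⁆) : ∃ K : Subgroup G, Odd (Nat.card K) ∧ K ≤ Subgroup.centralizer (D : Set G) ∧ Subgroup.normalizer (D : Set G) ≤ Subgroup.normalizer (K : Set G) ∧ K ⊔ (S : Subgroup G) = Subgroup.normalizer (D : Set G) ∧ K ⊔ ((S : Subgroup G) ⊓ Subgroup.centralizer (D : Set G)) = Subgroup.centralizer (D : Set G) ∧ ((Subgroup.centralizer (D : Set G)).subgroupOf (Subgroup.normalizer (D : Set G))).index = 2 := by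
  classical
  haveI : NeZero (2 ^ (n + 2)) := ⟨by positivity⟩
  have hm2 : 2 < 2 ^ (n + 2) := by
    calc 2 < 2 ^ 2 := by norm_num
      _ ≤ 2 ^ (n + 2) := Nat.pow_le_pow_right (by norm_num) (by omega)
  subst hD
  have hcom := commutator_eq e
  have hcard : Nat.card (⁅(S : Subgroup G), (S : Subgroup G)⁆ : Subgroup G) = 2 ^ (n + 2) := card_commutator e
  have hSN := le_normalizer_commutator (S : Subgroup G)
  set D : Subgroup G := ⁅(S : Subgroup G), (S : Subgroup G)⁆ with hDdef
  have hCN := centralizer_le_normalizer' D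
  have hu2 : gen e ^ 2 ∈ D := by rw [hcom]; exact mem_zpowers _
  have hTS : zpowers (gen e) ≤ (S : Subgroup G) := by
    rw [zpowers_le]; exact gen_mem e
  have hST : (S : Subgroup G) ⊓ centralizer (D : Set G) = zpowers (gen e) := by
    apply le_antisymm
    · intro g hg'
      obtain ⟨hg, hgc⟩ := Subgroup.mem_inf.mp hg'
      rw [Subgroup.mem_centralizer_iff] at hgc
      exact mem_zpowers_of_commute hm2 e hg (hgc _ hu2).symm
    · refine le_inf hTS ?_
      rw [zpowers_le, Subgroup.mem_centralizer_iff]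
      intro d hd
      rw [SetLike.mem_coe, hcom] at hd
      obtain ⟨i, rfl⟩ := mem_zpowers_iff.mp hd
      exact ((Commute.refl (gen e)).pow_right 2).zpow_right i |>.symm.eq
  have hTcard : Nat.card (zpowers (gen e)) = 2 ^ (n + 2 + 1) := by
    rw [Nat.card_zpowers, orderOf_gen e, pow_succ]; ring
  obtain ⟨K, hKodd, hKC, hNK, hKT, hKcard⟩ := exists_complement S (centralizer (D : Set G))
    (normalizer (D : Set G)) (zpowers (gen e)) hSN hCN (fun g hg c hc => conj_mem_centralizer hg hc)
    hST inferInstance (n + 2) hTcard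
  -- the index of C in N is a power of 2
  have hidx : ∃ a, ((centralizer (D : Set G)).subgroupOf (normalizer (D : Set G))).index = 2 ^ a := by
    have key := Subgroup.card_dvd_of_injective _ (QuotientGroup.kerLift_injective (normalizerMonoidHom D))
    rw [normalizerMonoidHom_ker, ← index] at key
    have hDcyc : IsCyclic D := by rw [hcom]; infer_instance
    rw [hDcyc.card_mulAut, hcard, Nat.totient_prime_pow_succ Nat.prime_two] at key
    simp only [Nat.add_one_sub_one, mul_one] at key
    obtain ⟨a, -, ha⟩ := (Nat.dvd_prime_pow Nat.prime_two).mp key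
    exact ⟨a, ha⟩
  obtain ⟨a, ha⟩ := hidx
  have hi : Nat.card (centralizer (D : Set G)) * 2 ^ a = Nat.card (normalizer (D : Set G)) := by
    rw [← ha, ← Subgroup.card_mul_index ((centralizer (D : Set G)).subgroupOf (normalizer (D : Set G)))]
    congr 1
    exact (Nat.card_congr (Subgroup.subgroupOfEquivOfLe hCN).toEquiv).symm
  let S' : Sylow 2 (normalizer (D : Set G)) := S.subtype hSN
  have hS'card : Nat.card (S' : Subgroup (normalizer (D : Set G))) = Nat.card (S : Subgroup G) := by
    have h1 : (S' : Subgroup (normalizer (D : Set G))) = (S : Subgroup G).subgroupOf (normalizer (D : Set G)) :=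
      Sylow.coe_subtype S hSN
    rw [h1]
    exact Nat.card_congr (Subgroup.subgroupOfEquivOfLe hSN).toEquiv
  have hScard : Nat.card (S : Subgroup G) = 2 ^ (n + 2) * 4 := by
    rw [Nat.card_congr e.toEquiv, Nat.card_eq_fintype_card, QuaternionGroup.card]
    ring
  have hr : ¬ 2 ∣ (S' : Subgroup (normalizer (D : Set G))).index := S'.not_dvd_index
  set r := (S' : Subgroup (normalizer (D : Set G))).index with hrdef
  have hNcard : Nat.card (S : Subgroup G) * r = Nat.card (normalizer (D : Set G)) := by
    rw [← hS'card]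
    exact Subgroup.card_mul_index _
  have hrodd : ¬ Even r := by rwa [even_iff_two_dvd]
  have hKodd' : ¬ Even (Nat.card K) := Nat.not_even_iff_odd.mpr hKodd
  -- the arithmetic
  have harith : Nat.card K * 2 ^ a = 2 * r := by
    have h1 : 2 ^ (n + 2 + 1) * (Nat.card K * 2 ^ a) = 2 ^ (n + 2 + 1) * (2 * r) := by
      calc 2 ^ (n + 2 + 1) * (Nat.card K * 2 ^ a)
          = (Nat.card K * 2 ^ (n + 2 + 1)) * 2 ^ a := by ring
        _ = Nat.card (normalizer (D : Set G)) := by rw [← hTcard, hKcard, hi]
        _ = 2 ^ (n + 2 + 1) * (2 * r) := by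
          rw [← hNcard, hScard, show 4 = 2 * 2 by norm_num]; ring
    exact Nat.eq_of_mul_eq_mul_left (by positivity) h1
  have ha1 : a = 1 := by
    rcases a with _ | _ | a
    · exfalso
      apply hKodd'
      rw [pow_zero, mul_one] at harith
      rw [harith]
      exact even_two_mul r
    · rfl
    · exfalso
      apply hrodd
      have : 2 * r = 2 * (Nat.card K * (2 ^ a * 2)) := by
        rw [← harith]; ring
      have h2 := Nat.eq_of_mul_eq_mul_left (by norm_num) this
      rw [h2, even_iff_two_dvd]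
      exact ⟨Nat.card K * 2 ^ a, by ring⟩
  subst ha1
  have hrK : r = Nat.card K := by omega
  refine ⟨K, hKodd, hKC, hNK, ?_, ?_, ha⟩
  · -- `K ⊔ S = N`
    have hKN : K ≤ normalizer (D : Set G) := hKC.trans hCN
    have hLN : K ⊔ (S : Subgroup G) ≤ normalizer (D : Set G) := sup_le hKN hSN
    apply Subgroup.eq_of_le_of_card_ge hLN
    have h1 : Nat.card K ∣ Nat.card (K ⊔ (S : Subgroup G) : Subgroup G) :=
      Subgroup.card_dvd_of_le le_sup_left
    have h2 : Nat.card (S : Subgroup G) ∣ Nat.card (K ⊔ (S : Subgroup G) : Subgroup G) :=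
      Subgroup.card_dvd_of_le le_sup_right
    have hcop : Nat.Coprime (Nat.card K) (Nat.card (S : Subgroup G)) := by
      rw [hScard, show 2 ^ (n + 2) * 4 = 2 ^ (n + 4) by ring]
      apply Nat.Coprime.pow_right
      exact Nat.coprime_two_right.mpr hKodd
    have h3 := hcop.mul_dvd_of_dvd_of_dvd h1 h2
    apply Nat.le_of_dvd Nat.card_pos
    rw [← hNcard, hrK, mul_comm]
    exact h3
  · rw [hST, hKT]

end Cfsg.Agent.S0842
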