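import Cfsg.Statements.S0843
import Mathlib
import Cfsg.Agent.Lib.Basic.QuatSylow
-- import your own Cfsg.Agent.* helpers here

set_option autoImplicit false
open Cfsg

namespace Cfsg.Agent.S0843


open Subgroup Cfsg.Agent.Lib.Basic.QuatSylow

lemma orderOf_conj' {G : Type*} [Group G] (g z : G) : orderOf (g * z * g⁻¹) = orderOf z := by
  have := orderOf_injective (MulAut.conj g).toMonoidHom (MulAut.conj g).injective z
  simpa [MulAut.conj_apply] using this

/-- Suppose a Sylow 2-subgroup S of the finite group G is generalized quaternion of order at least 16; let D be the commutator subgroup of S and X the set of elements of the centralizer of D whose order is divisible by the order of D. Then D is contained in the cyclic subgroup generated by any element of X; an element of G conjugating some element of X into the centralizer of D normalizes D; and the normalizer of D maps X to itself under conjugation. -/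
theorem result {G : Type*} [Group G] [Finite G] (S : Sylow 2 G) (n : ℕ) (e : (S : Subgroup G) ≃* QuaternionGroup (2 ^ (n + 2))) (D : Subgroup G) (hD : D = ⁅(S : Subgroup G), (S : Subgroup G)⁆) : (∀ y : G, y ∈ Subgroup.centralizer (D : Set G) → Nat.card D ∣ orderOf y → D ≤ Subgroup.zpowers y) ∧ (∀ g y : G, y ∈ Subgroup.centralizer (D : Set G) → Nat.card D ∣ orderOf y → g * y * g⁻¹ ∈ Subgroup.centralizer (D : Set G) → g ∈ Subgroup.normalizer (D : Set G)) ∧ (∀ g y : G, g ∈ Subgroup.normalizer (D : Set G) → y ∈ Subgroup.centralizer (D : Set G) → Nat.card D ∣ orderOf y → g * y * g⁻¹ ∈ Subgroup.centralizer (D : Set G) ∧ Nat.card D ∣ orderOf (g * y * g⁻¹)) := by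
  classical
  haveI : NeZero (2 ^ (n + 2)) := ⟨by positivity⟩
  have hm2 : 2 < 2 ^ (n + 2) := by
    calc 2 < 2 ^ 2 := by norm_num
      _ ≤ 2 ^ (n + 2) := Nat.pow_le_pow_right (by norm_num) (by omega)
  subst hD
  have hcom := commutator_eq e
  have hcard : Nat.card (⁅(S : Subgroup G), (S : Subgroup G)⁆ : Subgroup G) = 2 ^ (n + 2) := card_commutator e
  have hSN := le_normalizer_commutator (S : Subgroup G)
  set D : Subgroup G := ⁅(S : Subgroup G), (S : Subgroup G)⁆ with hDdef
  have hCN := centralizer_le_normalizer' D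
  have hu2 : gen e ^ 2 ∈ D := by rw [hcom]; exact mem_zpowers _
  -- key claim
  have keyA : ∀ (z : G) (k : ℕ), z ∈ centralizer (D : Set G) → orderOf z = 2 ^ k → Nat.card D ∣ 2 ^ k →
      D ≤ zpowers z := by
    intro z k hz hzk hdvd
    obtain ⟨g, hg, hgS⟩ := exists_conj_mem_sylow S hSN (hCN hz) hzk
    have hz1C : g⁻¹ * z * g ∈ centralizer (D : Set G) := by
      have := conj_mem_centralizer (inv_mem hg) hz
      simpa using this
    have hz1T : g⁻¹ * z * g ∈ zpowers (gen e) := by
      apply mem_zpowers_of_commute hm2 e hgS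
      rw [Subgroup.mem_centralizer_iff] at hz1C
      exact (hz1C _ hu2).symm
    have hDT : D ≤ zpowers (gen e) := by
      rw [hcom, zpowers_le]
      exact pow_mem (mem_zpowers _) 2
    have hcyc : IsCyclic (zpowers (gen e)) := inferInstance
    have hord : orderOf (g⁻¹ * z * g) = orderOf z := by
      have := orderOf_conj' g⁻¹ z
      simpa using this
    have hle : D ≤ zpowers (g⁻¹ * z * g) := by
      apply le_of_card_dvd (zpowers (gen e)) D _ hcyc hDT (by rwa [zpowers_le])
      rw [Nat.card_zpowers, hord, hzk]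
      exact hdvd
    intro d hd
    have hd' : g⁻¹ * d * g ∈ D := by
      have := (mem_normalizer_iff.mp (inv_mem hg) d).mp hd
      simpa using this
    obtain ⟨i, hi⟩ := mem_zpowers_iff.mp (hle hd')
    refine mem_zpowers_iff.mpr ⟨i, ?_⟩
    have e1 : (g⁻¹ * z * g) ^ i = g⁻¹ * z ^ i * g := by
      have := conj_zpow (a := g⁻¹) (b := z) (i := i)
      simpa using this
    rw [e1] at hi
    have : g * (g⁻¹ * z ^ i * g) * g⁻¹ = g * (g⁻¹ * d * g) * g⁻¹ := by rw [hi]
    simpa [mul_assoc] using this
  have claim1 : ∀ y : G, y ∈ centralizer (D : Set G) → Nat.card D ∣ orderOf y → D ≤ zpowers y := by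
    intro y hy hdvd
    obtain ⟨k, o, hodd, hko⟩ := Nat.exists_eq_two_pow_mul_odd (orderOf_pos y).ne'
    have ho0 : o ≠ 0 := by
      rintro rfl
      simp at hodd
    have hord : orderOf (y ^ o) = 2 ^ k := by
      rw [orderOf_pow_of_dvd ho0 (by rw [hko]; exact dvd_mul_left _ _), hko]
      exact Nat.mul_div_cancel _ (Nat.pos_of_ne_zero ho0)
    have hdv : Nat.card D ∣ 2 ^ k := by
      rw [hcard] at hdvd ⊢
      rw [hko] at hdvd
      exact Nat.Coprime.dvd_of_dvd_mul_right (Nat.Coprime.pow_left _ (Nat.coprime_two_left.mpr hodd)) hdvd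
    have h := keyA (y ^ o) k (pow_mem hy o) hord hdv
    exact h.trans (by rw [zpowers_le]; exact pow_mem (mem_zpowers y) o)
  refine ⟨claim1, ?_, ?_⟩
  · intro g y hy hdvd hgy
    have h1 := claim1 y hy hdvd
    have h2 := claim1 (g * y * g⁻¹) hgy (by rwa [orderOf_conj'])
    apply mem_normalizer_fintype
    intro d hd
    -- the conjugate of D sits in zpowers (g y g⁻¹) and has the same order
    let D' : Subgroup G := D.map (MulAut.conj g).toMonoidHom
    have hD' : D' ≤ zpowers (g * y * g⁻¹) := by
      rintro _ ⟨d', hd', rfl⟩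
      obtain ⟨i, hi⟩ := mem_zpowers_iff.mp (h1 hd')
      refine mem_zpowers_iff.mpr ⟨i, ?_⟩
      rw [conj_zpow, hi]
      rfl
    have hcard' : Nat.card D' = Nat.card D :=
      Nat.card_congr (Subgroup.equivMapOfInjective D _ (MulAut.conj g).injective).symm.toEquiv
    have hle : D' ≤ D := by
      apply le_of_card_dvd (zpowers (g * y * g⁻¹)) D' D inferInstance hD' h2
      rw [hcard']
    exact hle ⟨d, hd, rfl⟩
  · intro g y hg hy hdvd
    exact ⟨conj_mem_centralizer hg hy, by rwa [orderOf_conj']⟩

end Cfsg.Agent.S0843
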