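import Mathlib
import Cfsg.Agent.Lib.Char.BrauerSuzuki

set_option autoImplicit false

open Cfsg

namespace Cfsg.Agent.S0844

theorem result {G : Type*} [Group G] [Fintype G] (S : Sylow 2 G) (n : ℕ) (e : (S : Subgroup G) ≃* QuaternionGroup (2 ^ (n + 2))) : ∃ χ₁ χ₂ : G → ℂ, Cfsg.IsIrrCharacter G χ₁ ∧ Cfsg.IsIrrCharacter G χ₂ ∧ χ₁ ≠ (fun _ => 1) ∧ χ₂ ≠ (fun _ => 1) ∧ χ₁ 1 = χ₂ 1 + 1 ∧ ∀ g : G, ¬ 4 ∣ orderOf g → χ₁ g - χ₂ g = 1 := by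
  have hm : 2 < 2 ^ (n + 2) := by
    have h1 : 2 ^ (n + 2) = 2 ^ n * 4 := by ring
    have h2 : 0 < 2 ^ n := by positivity
    omega
  obtain ⟨χ₁, χ₂, h₁, h₂, h3, h4, h5, h6, -⟩ :=
    Cfsg.Agent.Lib.Char.BrauerSuzuki.exists_pair hm (2 ^ (n + 1)) (by ring) e
  exact ⟨χ₁, χ₂, h₁, h₂, h3, h4, h5, h6⟩

end Cfsg.Agent.S0844
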