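import Mathlib
import Cfsg.Agent.Lib.Char.BrauerSuzuki

set_option autoImplicit false

open Cfsg

namespace Cfsg.Agent.S0845

theorem result {G : Type*} [Group G] [Finite G] (S : Sylow 2 G) (n : ℕ) (e : (S : Subgroup G) ≃* QuaternionGroup (2 ^ (n + 2))) : ∃ M : Subgroup G, M.Normal ∧ Even (Nat.card M) ∧ ¬ commutator G ≤ M := by
  classical
  haveI := Fintype.ofFinite G
  have hm : 2 < 2 ^ (n + 2) := by
    have h1 : 2 ^ (n + 2) = 2 ^ n * 4 := by ring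
    have h2 : 0 < 2 ^ n := by positivity
    omega
  obtain ⟨M, hM, hz, -, hc⟩ :=
    Cfsg.Agent.Lib.Char.BrauerSuzuki.exists_kernel hm (2 ^ (n + 1)) (by ring) e
  refine ⟨M, hM, ?_, hc⟩
  rw [even_iff_two_dvd]
  have h1 := orderOf_dvd_natCard (⟨_, hz⟩ : M)
  rw [Subgroup.orderOf_mk] at h1
  have h2 : orderOf (Cfsg.Agent.Lib.Char.BrauerSuzuki.zInv e) = 2 :=
    orderOf_eq_prime (by rw [pow_two, Cfsg.Agent.Lib.Char.BrauerSuzuki.zInv_mul_self])
      (Cfsg.Agent.Lib.Char.BrauerSuzuki.zInv_ne_one e)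
  rwa [h2] at h1

end Cfsg.Agent.S0845
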