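import Mathlib
import Cfsg.Agent.Lib.Char.BrauerSuzuki2

set_option autoImplicit false

open Cfsg

namespace Cfsg.Agent.S0846

open Cfsg.Agent.Lib.Char.BrauerSuzuki Cfsg.Agent.Lib.Char.BrauerSuzuki2 Subgroup

theorem result {G : Type*} [Group G] [Finite G] (S : Sylow 2 G) (n : ℕ) (e : (S : Subgroup G) ≃* QuaternionGroup (2 ^ (n + 2))) (Q : Sylow 2 ↥(Subgroup.closure {g : G | orderOf g = 2})) : IsCyclic Q := by
  classical
  haveI := Fintype.ofFinite G
  have hm : 2 < 2 ^ (n + 2) := by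
    have h1 : 2 ^ (n + 2) = 2 ^ n * 4 := by ring
    have h2 : 0 < 2 ^ n := by positivity
    omega
  obtain ⟨M, hM, hz, hy, -⟩ := exists_kernel hm (2 ^ (n + 1)) (by ring) e
  have hSM : ∀ s ∈ (S : Subgroup G), s ∈ M → s * s = 1 := fun s hs hsM =>
    mul_self_of_mem e (c := 2 ^ (n + 1)) (b := 2 ^ n) (by ring) (by ring) hM hy hs hsM
  have hIM : Subgroup.closure {g : G | orderOf g = 2} ≤ M := by
    rw [Subgroup.closure_le]
    intro g hg
    have hg2 : orderOf g = 2 := hg
    refine involution_mem e hM hz ?_ ?_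
    · rw [← pow_two, ← hg2, pow_orderOf_eq_one]
    · rintro rfl
      rw [orderOf_one] at hg2
      omega
  have hTP : IsPGroup 2 ((Q : Subgroup ↥(Subgroup.closure {g : G | orderOf g = 2})).map
      (Subgroup.closure {g : G | orderOf g = 2}).subtype) := Q.isPGroup'.map _
  obtain ⟨t, ht, hall⟩ := exists_gen_of_pgroup e hM hSM hTP (by
    rintro _ ⟨x, -, rfl⟩
    exact hIM x.2)
  obtain ⟨t', ht', rfl⟩ := ht
  rw [isCyclic_iff_exists_zpowers_eq_top]
  refine ⟨⟨t', ht'⟩, ?_⟩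
  rw [eq_top_iff]
  rintro ⟨x, hx⟩ -
  rcases hall _ ⟨x, hx, rfl⟩ with h | h
  · have : x = 1 := Subtype.ext h
    subst this
    exact one_mem _
  · have : x = t' := Subtype.ext h
    subst this
    exact mem_zpowers _

end Cfsg.Agent.S0846
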