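import Cfsg.Statements.S0849
import Mathlib
-- import your own Cfsg.Agent.* helpers here

set_option autoImplicit false
open Cfsg

namespace Cfsg.Agent.S0849

/-- Let H be a subgroup of a finite group G and S a subset of H that is mapped to itself under conjugation by H, is disjoint from its conjugate by any element outside H, and is closed under inverses. Let φ be a class function of H vanishing on H away from S, and let u, v be involutions of G. Then the sum of the induced function of φ over all products a * b with a conjugate to u and b conjugate to v equals the index of H times the sum of φ (a * b) over such pairs with a and b in H. -/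
theorem result {G : Type*} [Group G] [Fintype G] (H : Subgroup G) (S : Set G) (hSH : S ⊆ H) (hHS : ∀ h ∈ H, ∀ s ∈ S, h * s * h⁻¹ ∈ S) (hTI : ∀ g : G, g ∉ H → ∀ s ∈ S, g * s * g⁻¹ ∉ S) (hinv : ∀ s ∈ S, s⁻¹ ∈ S) (φ : H → ℂ) (hφ : Cfsg.IsClassFunction H φ) (hφS : ∀ x : H, (x : G) ∉ S → φ x = 0) (u v : G) (hu : orderOf u = 2) (hv : orderOf v = 2) : ∑ᶠ p ∈ {p : G × G | IsConj u p.1 ∧ IsConj v p.2}, Cfsg.indFun H φ (p.1 * p.2) = (H.index : ℂ) * ∑ᶠ p ∈ {p : H × H | IsConj u (p.1 : G) ∧ IsConj v (p.2 : G)}, φ (p.1 * p.2) := by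
  classical
  have hmemext : ∀ (x : G) (hx : x ∈ H), extendByZero H φ x = φ ⟨x, hx⟩ := by
    intro x hx
    have := Function.Injective.extend_apply (Subtype.val_injective (p := (· ∈ H))) φ (0 : G → ℂ) ⟨x, hx⟩
    simpa [extendByZero] using this
  have hnmemext : ∀ (x : G), x ∉ H → extendByZero H φ x = 0 := by
    intro x hx
    have : ¬ ∃ a : H, (a : G) = x := by
      rintro ⟨a, rfl⟩
      exact hx a.2
    simp [extendByZero, Function.extend_apply' _ _ _ this]
  have huinv : ∀ a, IsConj u a → a * a = 1 := by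
    intro a ha
    obtain ⟨c, hc⟩ := isConj_iff.mp ha
    have h2 : u ^ 2 = 1 := by rw [← hu]; exact pow_orderOf_eq_one u
    have : u * u = 1 := by rw [← h2, pow_two]
    rw [← hc]
    calc c * u * c⁻¹ * (c * u * c⁻¹) = c * (u * u) * c⁻¹ := by group
      _ = 1 := by rw [this]; group
  have hvinv : ∀ b, IsConj v b → b * b = 1 := by
    intro a ha
    obtain ⟨c, hc⟩ := isConj_iff.mp ha
    have h2 : v ^ 2 = 1 := by rw [← hv]; exact pow_orderOf_eq_one v
    have : v * v = 1 := by rw [← h2, pow_two]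
    rw [← hc]
    calc c * v * c⁻¹ * (c * v * c⁻¹) = c * (v * v) * c⁻¹ := by group
      _ = 1 := by rw [this]; group
  set P : Finset (G × G) := Finset.univ.filter (fun p => IsConj u p.1 ∧ IsConj v p.2) with hP
  set Q : Finset (H × H) := Finset.univ.filter (fun p => IsConj u (p.1 : G) ∧ IsConj v (p.2 : G)) with hQ
  have hL : ∑ᶠ p ∈ {p : G × G | IsConj u p.1 ∧ IsConj v p.2}, Cfsg.indFun H φ (p.1 * p.2) =
      ∑ p ∈ P, Cfsg.indFun H φ (p.1 * p.2) := by
    apply finsum_mem_eq_sum_of_inter_support_eq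
    ext p; simp [hP]
  have hR : ∑ᶠ p ∈ {p : H × H | IsConj u (p.1 : G) ∧ IsConj v (p.2 : G)}, φ (p.1 * p.2) =
      ∑ p ∈ Q, φ (p.1 * p.2) := by
    apply finsum_mem_eq_sum_of_inter_support_eq
    ext p; simp [hQ]
  rw [hL, hR]
  -- conjugation invariance of the pair set
  have hconj : ∀ x : G, ∑ p ∈ P, extendByZero H φ (x⁻¹ * (p.1 * p.2) * x) =
      ∑ p ∈ P, extendByZero H φ (p.1 * p.2) := by
    intro x
    refine Finset.sum_bij' (fun p _ => (x⁻¹ * p.1 * x, x⁻¹ * p.2 * x))
      (fun p _ => (x * p.1 * x⁻¹, x * p.2 * x⁻¹)) ?_ ?_ ?_ ?_ ?_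
    · intro p hp
      simp only [hP, Finset.mem_filter, Finset.mem_univ, true_and] at hp ⊢
      constructor
      · refine hp.1.trans (isConj_iff.mpr ⟨x⁻¹, by simp⟩)
      · refine hp.2.trans (isConj_iff.mpr ⟨x⁻¹, by simp⟩)
    · intro p hp
      simp only [hP, Finset.mem_filter, Finset.mem_univ, true_and] at hp ⊢
      constructor
      · refine hp.1.trans (isConj_iff.mpr ⟨x, rfl⟩)
      · refine hp.2.trans (isConj_iff.mpr ⟨x, rfl⟩)
    · intro p _; ext <;> simp [mul_assoc]
    · intro p _; ext <;> simp [mul_assoc]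
    · intro p _
      congr 1
      group
  -- first reduce to `extendByZero`
  have hstep : ∑ p ∈ P, Cfsg.indFun H φ (p.1 * p.2) =
      (H.index : ℂ) * ∑ p ∈ P, extendByZero H φ (p.1 * p.2) := by
    have hcard : (Nat.card H : ℂ) ≠ 0 := by
      exact_mod_cast (Nat.card_pos (α := H)).ne'
    have hidx : (H.index : ℂ) = (Nat.card H : ℂ)⁻¹ * (Fintype.card G : ℂ) := by
      have h1 := H.card_mul_index
      rw [Nat.card_eq_fintype_card (α := G)] at h1
      rw [← h1]
      push_cast
      field_simp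
    unfold Cfsg.indFun
    rw [← Finset.mul_sum, Finset.sum_comm, hidx, mul_assoc]
    congr 1
    rw [Finset.sum_congr rfl (fun x _ => hconj x)]
    simp [Finset.card_univ]
  rw [hstep]
  congr 1
  -- now restrict to pairs in `H`
  have hinj : Function.Injective (fun q : H × H => ((q.1 : G), (q.2 : G))) := by
    intro q r h
    simp only [Prod.mk.injEq] at h
    exact Prod.ext (Subtype.ext h.1) (Subtype.ext h.2)
  have hQmap : ∑ q ∈ Q, φ (q.1 * q.2) =
      ∑ p ∈ Q.image (fun q : H × H => ((q.1 : G), (q.2 : G))), extendByZero H φ (p.1 * p.2) := by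
    rw [Finset.sum_image (fun _ _ _ _ h => hinj h)]
    apply Finset.sum_congr rfl
    intro q _
    have hq : (q.1 : G) * (q.2 : G) ∈ H := H.mul_mem q.1.2 q.2.2
    rw [hmemext _ hq]
    rfl
  rw [hQmap]
  symm
  apply Finset.sum_subset
  · intro p hp
    obtain ⟨q, hq, rfl⟩ := Finset.mem_image.mp hp
    simp only [hQ, Finset.mem_filter, Finset.mem_univ, true_and] at hq
    simp only [hP, Finset.mem_filter, Finset.mem_univ, true_and]
    exact hq
  · intro p hp hnot
    simp only [hP, Finset.mem_filter, Finset.mem_univ, true_and] at hp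
    by_contra hne
    have hmem : p.1 * p.2 ∈ H := by
      by_contra hcon
      exact hne (hnmemext _ hcon)
    have hS : p.1 * p.2 ∈ S := by
      by_contra hcon
      apply hne
      rw [hmemext _ hmem]
      exact hφS ⟨_, hmem⟩ hcon
    have ha : p.1 ∈ H := by
      by_contra hcon
      apply hTI p.1 hcon _ hS
      have h1 := huinv p.1 hp.1
      have h2 := hvinv p.2 hp.2
      have : p.1 * (p.1 * p.2) * p.1⁻¹ = (p.1 * p.2)⁻¹ := by
        have e1 : p.1⁻¹ = p.1 := by
          rw [inv_eq_iff_mul_eq_one]; exact h1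
        have e2 : p.2⁻¹ = p.2 := by
          rw [inv_eq_iff_mul_eq_one]; exact h2
        rw [mul_inv_rev, e1, e2, ← mul_assoc, h1, one_mul]
      rw [this]
      exact hinv _ hS
    have hb : p.2 ∈ H := by
      have : p.2 = p.1⁻¹ * (p.1 * p.2) := by group
      rw [this]
      exact H.mul_mem (H.inv_mem ha) hmem
    apply hnot
    refine Finset.mem_image.mpr ⟨(⟨p.1, ha⟩, ⟨p.2, hb⟩), ?_, rfl⟩
    simp only [hQ, Finset.mem_filter, Finset.mem_univ, true_and]
    exact hp

end Cfsg.Agent.S0849
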