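import Cfsg.Statements.S0850
import Mathlib
import Cfsg.Agent.Lib.Char.Induced
-- import your own Cfsg.Agent.* helpers here

set_option autoImplicit false
open Cfsg

namespace Cfsg.Agent.S0850

/-- Let K be a subgroup of the finite group G that meets each conjugate by an element outside its normalizer N trivially, is properly contained in N, and contains the centralizer of each of its non-identity elements (a T.I. subgroup with Frobenius normalizer). Then no element of N outside K is conjugate in G to an element of K, and for every class function ϑ of N that vanishes on N away from K and at the identity, the function induced from ϑ to G agrees with ϑ on all of N. -/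
theorem result {G : Type*} [Group G] [Fintype G] (K : Subgroup G) (hTI : ∀ g : G, g ∉ Subgroup.normalizer (K : Set G) → ∀ k ∈ K, g * k * g⁻¹ ∈ K → k = 1) (hlt : K < Subgroup.normalizer (K : Set G)) (hC : ∀ k ∈ K, k ≠ 1 → Subgroup.centralizer ({k} : Set G) ≤ K) : (∀ x ∈ Subgroup.normalizer (K : Set G), x ∉ K → ∀ g : G, g * x * g⁻¹ ∉ K) ∧ ∀ (ϑ : Subgroup.normalizer (K : Set G) → ℂ), Cfsg.IsClassFunction (Subgroup.normalizer (K : Set G)) ϑ → (∀ x : Subgroup.normalizer (K : Set G), (x : G) ∉ K → ϑ x = 0) → ϑ 1 = 0 → ∀ x : Subgroup.normalizer (K : Set G), Cfsg.indFun (Subgroup.normalizer (K : Set G)) ϑ x = ϑ x := by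
  classical
  have hGf : Finite G := inferInstance
  have part1 : ∀ x ∈ Subgroup.normalizer (K : Set G), x ∉ K → ∀ g : G, g * x * g⁻¹ ∉ K := by
    intro x hxN hxK g hg
    have hx1 : x ≠ 1 := fun h => hxK (h ▸ K.one_mem)
    have hgN : g ∉ Subgroup.normalizer (K : Set G) := by
      intro hgN
      have h1 := (Subgroup.mem_normalizer_iff.1 (Subgroup.inv_mem _ hgN) (g * x * g⁻¹)).1 hg
      apply hxK
      simpa [mul_assoc] using h1
    -- a power of `x` of prime order
    have hx1' : orderOf x ≠ 1 := fun h => hx1 (orderOf_eq_one_iff.1 h)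
    obtain ⟨p, hp, hpd⟩ := Nat.exists_prime_and_dvd hx1'
    haveI : Fact p.Prime := ⟨hp⟩
    obtain ⟨d, hd⟩ := hpd
    have hord : 0 < orderOf x := orderOf_pos x
    have hd0 : 0 < d := by
      rcases Nat.eq_zero_or_pos d with h | h
      · subst h; rw [mul_zero] at hd; omega
      · exact h
    set y := x ^ d with hy
    have hyord : orderOf y = p := by
      rw [hy, orderOf_pow_of_dvd hd0.ne' ⟨p, by rw [hd]; ring⟩]
      rw [hd]
      exact Nat.mul_div_cancel _ hd0
    have hyN : y ∈ Subgroup.normalizer (K : Set G) := Subgroup.pow_mem _ hxN d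
    have hgy : g * y * g⁻¹ ∈ K := by
      have : g * y * g⁻¹ = (g * x * g⁻¹) ^ d := by
        rw [hy, conj_pow]
      rw [this]
      exact K.pow_mem hg d
    have hy1 : y ≠ 1 := by
      intro h
      rw [h, orderOf_one] at hyord
      exact hp.one_lt.ne hyord
    have hyK : y ∉ K := fun h => hy1 (hTI g hgN y h hgy)
    -- the permutation of `K` induced by `y`
    have hconj : ∀ k : K, y * k * y⁻¹ ∈ K := fun k =>
      (Subgroup.mem_normalizer_iff.1 hyN k).1 k.2
    let f : Function.End K := fun k => ⟨y * k * y⁻¹, hconj k⟩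
    have hfpow : ∀ n : ℕ, ∀ k : K, (((f ^ n) k : K) : G) = y ^ n * k * (y ^ n)⁻¹ := by
      intro n
      induction n with
      | zero => intro k; simp; rfl
      | succ n ih =>
        intro k
        rw [pow_succ]
        show (((f ^ n) (f k) : K) : G) = _
        rw [ih]
        show y ^ n * (y * k * y⁻¹) * (y ^ n)⁻¹ = y ^ (n + 1) * k * (y ^ (n + 1))⁻¹
        rw [pow_succ]
        group
    have hfp : f ^ p ^ 1 = 1 := by
      funext k
      apply Subtype.ext
      rw [pow_one, hfpow, ← hyord, pow_orderOf_eq_one]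
      simp
      rfl
    have hfix : ∀ k : K, f k = k → k = 1 := by
      intro k hk
      by_contra hk1
      have hk1' : (k : G) ≠ 1 := fun h => hk1 (Subtype.ext h)
      apply hyK
      apply hC k k.2 hk1'
      rw [Subgroup.mem_centralizer_iff]
      intro z hz
      rw [Set.mem_singleton_iff.1 hz]
      have h1 : y * k * y⁻¹ = k := congrArg Subtype.val hk
      calc (k : G) * y = (y * k * y⁻¹) * y := by rw [h1]
        _ = y * k := by group
    have := Fintype.ofFinite K
    have hmod := Equiv.Perm.card_fixedPoints_modEq (α := K) (f := f) (p := p) (n := 1) hfp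
    have hone : Fintype.card (Function.fixedPoints f) = 1 := by
      rw [Fintype.card_eq_one_iff]
      refine ⟨⟨1, ?_⟩, ?_⟩
      · apply Subtype.ext
        show y * 1 * y⁻¹ = 1
        simp
      · rintro ⟨k, hk⟩
        exact Subtype.ext (hfix k hk)
    rw [hone] at hmod
    have hdvd : p ∣ Fintype.card K := by
      have h1 : orderOf (⟨g * y * g⁻¹, hgy⟩ : K) = p := by
        rw [← hyord, ← Subgroup.orderOf_coe]
        exact (MulAut.conj g).orderOf_eq y
      rw [← h1]
      exact orderOf_dvd_card
    have h2 := (Nat.modEq_iff_dvd' (Fintype.card_pos)).1 hmod.symm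
    have h3 : p ∣ 1 := by
      have h4 := (Nat.dvd_sub_iff_right (Fintype.card_pos) hdvd).1 h2
      exact h4
    exact hp.one_lt.ne' (Nat.dvd_one.1 h3)
  refine ⟨part1, ?_⟩
  intro ϑ hϑ hϑK hϑ1 x
  by_cases hx1 : x = 1
  · subst hx1
    rw [OneMemClass.coe_one, Cfsg.Agent.Lib.Char.Induced.indFun_one, hϑ1, mul_zero]
  by_cases hxK : (x : G) ∈ K
  · exact Cfsg.Agent.Lib.Char.Induced.indFun_eq_on_ti (K : Set G) hTI ϑ hϑ hϑK x hxK hx1
  · rw [hϑK x hxK, Cfsg.Agent.Lib.Char.Induced.indFun_apply]
    refine mul_eq_zero_of_right _ (Finset.sum_eq_zero fun y _ => ?_)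
    by_cases hm : y⁻¹ * (x : G) * y ∈ Subgroup.normalizer (K : Set G)
    · rw [Cfsg.Agent.Lib.Char.Induced.extendByZero_of_mem _ _ hm]
      apply hϑK
      have := part1 x x.2 hxK y⁻¹
      simpa using this
    · exact Cfsg.Agent.Lib.Char.Induced.extendByZero_of_notMem _ _ hm

end Cfsg.Agent.S0850
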