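import Mathlib
import Cfsg.Prelude.Def_Transfer
import Cfsg.Prelude.Def_OddOrderChar
import Cfsg.Agent.Lib.Char.FrobPair
import Cfsg.Agent.Lib.Char.FrobeniusKernel
import Cfsg.Agent.Lib.Char.IndFrob
import Cfsg.Agent.Lib.Char.IndRep

set_option autoImplicit false
open Cfsg

namespace Cfsg.Agent.S0851

open Cfsg.Agent.Lib.Char.FrobPair Cfsg.Agent.Lib.Char.Ortho in
/-- Degree of a relevant character in the abelian case. -/
theorem rel_degree {G : Type*} [Group G] [Fintype G] (K : Subgroup G)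
    (hC : ∀ k ∈ K, k ≠ 1 → Subgroup.centralizer ({k} : Set G) ≤ K)
    (hab : ∀ a ∈ K, ∀ b ∈ K, a * b = b * a)
    {χ : ↥(Subgroup.normalizer (K : Set G)) → ℂ}
    (hχ : IsIrrCharacter ↥(Subgroup.normalizer (K : Set G)) χ)
    (hrel : ∃ k : ↥(Subgroup.normalizer (K : Set G)), (k : G) ∈ K ∧ χ k ≠ χ 1) :
    χ 1 = ((K.subgroupOf (Subgroup.normalizer (K : Set G))).index : ℂ) := by
  classical
  haveI : Fintype ↥(Subgroup.normalizer (K : Set G)) := Fintype.ofFinite _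
  obtain ⟨φ, hφ, rfl⟩ := Cfsg.Agent.Lib.Char.IndFrob.exists_irr_eq_indFun_of_centralizer_le
    (K.subgroupOf (Subgroup.normalizer (K : Set G))) (centralizer_le_subgroupOf K hC) χ hχ
    ((isRel_iff K).2 hrel)
  rw [Cfsg.Agent.Lib.Char.Induced.indFun_one, degree_eq_one_of_comm (fun a b => Subtype.ext (Subtype.ext (hab _ a.2 _ b.2))) hφ,
    mul_one]

open Cfsg.Agent.Lib.Char.FrobPair Cfsg.Agent.Lib.Char.Ortho in
/-- Brauer–Suzuki -/
theorem result {G : Type*} [Group G] [Fintype G] (K : Subgroup G) (hTI : ∀ g : G, g ∉ Subgroup.normalizer (K : Set G) → ∀ k ∈ K, g * k * g⁻¹ ∈ K → k = 1) (hlt : K < Subgroup.normalizer (K : Set G)) (hC : ∀ k ∈ K, k ≠ 1 → Subgroup.centralizer ({k} : Set G) ≤ K) (hab : ∀ a ∈ K, ∀ b ∈ K, a * b = b * a) : (Nat.card {χ : Cfsg.IrrCharacter (Subgroup.normalizer (K : Set G)) // ∃ k : Subgroup.normalizer (K : Set G), (k : G) ∈ K ∧ (χ : ↥(Subgroup.normalizer (K : Set G)) → ℂ) k ≠ (χ : ↥(Subgroup.normalizer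 (K : Set G)) → ℂ) 1} = 1 ∧ ∃ p : ℕ, p.Prime ∧ Cfsg.IsElementaryAbelian p K ∧ Nat.card K = (K.subgroupOf (Subgroup.normalizer (K : Set G))).index + 1) ∨ ∃ (ε : ℂ) (f : {χ : Cfsg.IrrCharacter (Subgroup.normalizer (K : Set G)) // ∃ k : Subgroup.normalizer (K : Set G), (k : G) ∈ K ∧ (χ : ↥(Subgroup.normalizer (K : Set G)) → ℂ) k ≠ (χ : ↥(Subgroup.normalizer (K : Set G)) → ℂ) 1} → Cfsg.IrrCharacter G), (ε = 1 ∨ ε = -1) ∧ Function.Injective f ∧ ∀ χ ξ, Cfsg.indFun (Subgroup.normalizer (K : Set G)) ((χ.1 : ↥(Subgroup.normalizer (K : Set G)) → ℂ) - (ξ.1 : ↥(Subgroup.normalizer (K : Set G)) → ℂ)) = ε • ((f χ : G → ℂ) - (f ξ : G → ℂ)) := by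
  classical
  right
  haveI : Fintype ↥(Subgroup.normalizer (K : Set G)) := Fintype.ofFinite _
  refine exists_signed_injection (T := {χ : Cfsg.IrrCharacter (Subgroup.normalizer (K : Set G)) // ∃ k : Subgroup.normalizer (K : Set G), (k : G) ∈ K ∧ (χ : ↥(Subgroup.normalizer (K : Set G)) → ℂ) k ≠ (χ : ↥(Subgroup.normalizer (K : Set G)) → ℂ) 1}) (fun χ ξ => Cfsg.indFun (Subgroup.normalizer (K : Set G))
    ((χ.1 : ↥(Subgroup.normalizer (K : Set G)) → ℂ) - (ξ.1 : ↥(Subgroup.normalizer (K : Set G)) → ℂ)))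
    ?_ ?_ ?_ ?_
  · intro s t u
    rw [← Cfsg.Agent.Lib.Char.FrobeniusKernel.indFun_add_fun]
    congr 1
    abel
  · intro s t
    rw [Cfsg.Agent.Lib.Char.FrobeniusKernel.indFun_sub_fun]
    exact ⟨_, _, Cfsg.Agent.Lib.Char.IndRep.isCharacter_indFun _
      (Cfsg.Agent.Lib.Char.Basic.isCharacter_of_isIrrCharacter s.1.2),
      Cfsg.Agent.Lib.Char.IndRep.isCharacter_indFun _
      (Cfsg.Agent.Lib.Char.Basic.isCharacter_of_isIrrCharacter t.1.2), rfl⟩
  · intro s t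
    rw [Cfsg.Agent.Lib.Char.Induced.indFun_one]
    simp only [Pi.sub_apply]
    rw [rel_degree K hC hab s.1.2 s.2, rel_degree K hC hab t.1.2 t.2]
    simp
  · intro s t u hst hsu
    have hv : ∀ (φ : ↥(Subgroup.normalizer (K : Set G)) → ℂ) (_ : IsIrrCharacter _ φ)
        (_ : ∃ k : ↥(Subgroup.normalizer (K : Set G)), (k : G) ∈ K ∧ φ k ≠ φ 1)
        (x : ↥(Subgroup.normalizer (K : Set G))), (x : G) ∉ K → φ x = 0 :=
      fun φ h1 h2 x hx => rel_vanish K hC h1 h2 x hx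
    have hne : ∀ {a b : {χ : Cfsg.IrrCharacter (Subgroup.normalizer (K : Set G)) // ∃ k : Subgroup.normalizer (K : Set G), (k : G) ∈ K ∧ (χ : ↥(Subgroup.normalizer (K : Set G)) → ℂ) k ≠ (χ : ↥(Subgroup.normalizer (K : Set G)) → ℂ) 1}}, a ≠ b → (a.1.1 ≠ b.1.1) :=
      fun h h2 => h (Subtype.ext (Subtype.ext h2))
    have h1 := Cfsg.Agent.Lib.Char.Induced.classInner_indFun_ti (K : Set G) hTI
      ((s.1.1 : ↥(Subgroup.normalizer (K : Set G)) → ℂ) - t.1.1) (s.1.1 - u.1.1)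
      (by
        have h1 := Cfsg.Agent.Lib.Char.Basic.isClassFunction_of_isCharacter
          (Cfsg.Agent.Lib.Char.Basic.isCharacter_of_isIrrCharacter s.1.2)
        have h2 := Cfsg.Agent.Lib.Char.Basic.isClassFunction_of_isCharacter
          (Cfsg.Agent.Lib.Char.Basic.isCharacter_of_isIrrCharacter u.1.2)
        intro g h
        simp only [Pi.sub_apply, h1 g h, h2 g h])
      (fun x hx => by simp [hv _ s.1.2 s.2 x hx, hv _ t.1.2 t.2 x hx])
      (fun x hx => by simp [hv _ s.1.2 s.2 x hx, hv _ u.1.2 u.2 x hx])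
      (by simp [rel_degree K hC hab s.1.2 s.2, rel_degree K hC hab t.1.2 t.2])
    rw [h1, classInner_sub_left, classInner_sub_right, classInner_sub_right,
      classInner_irr s.1.2 s.1.2, classInner_irr s.1.2 u.1.2, classInner_irr t.1.2 s.1.2,
      classInner_irr t.1.2 u.1.2, if_pos rfl, if_neg (hne hsu), if_neg (hne hst.symm)]
    by_cases htu : t = u
    · subst htu
      simp
      norm_num
    · rw [if_neg htu, if_neg (hne htu)]
      simp

end Cfsg.Agent.S0851
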