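import Mathlib
import Cfsg.Prelude.Def_OddOrderChar
import Cfsg.Agent.Lib.Char.FrobCoherent

set_option autoImplicit false
open Cfsg
open Cfsg.Agent.Lib.Char.FrobCoherent Cfsg.Agent.Lib.Char.Coherence

namespace Cfsg.Agent.S0852

theorem main {G : Type*} [Group G] [Fintype G] (K : Subgroup G)
    (hTI : ∀ g : G, g ∉ NN K → ∀ k ∈ K, g * k * g⁻¹ ∈ K → k = 1)
    (hC : ∀ k ∈ K, k ≠ 1 → Subgroup.centralizer ({k} : Set G) ≤ K)
    [Fintype ↥(NN K)] (htwo : ∃ χ ∈ relSet K, ∃ ξ ∈ relSet K, χ ≠ ξ)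
    (star : (↥(NN K) → ℂ) → (G → ℂ)) (hstar : IsLinearIsometryOn (zspan (relSet K)) star)
    (hext : ∀ α ∈ zspanOn (relSet K) {1}ᶜ, star α = indFun (NN K) α)
    (ψ : G → ℂ) (hψ : IsIrrCharacter G ψ) :
    (∃ χ ∈ relSet K, ψ = star χ ∨ ψ = -star χ) ↔ ∃ a ∈ K, ∃ b ∈ K, a ≠ 1 ∧ b ≠ 1 ∧ ψ a ≠ ψ b := by
  classical
  constructor
  · -- a signed image of a relevant character is not constant on `K#`
    rintro ⟨χ, hχ, hψχ⟩
    by_contra hcon
    push Not at hcon
    obtain ⟨c₀, hc₀⟩ := star_const K star hstar hTI hC hext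
    -- a value
    have hK : ∃ k₀ : ↥(NN K), (k₀ : G) ∈ K ∧ k₀ ≠ 1 := by
      obtain ⟨k, hk, hne⟩ := hχ.2
      refine ⟨k, hk, ?_⟩
      rintro rfl
      exact hne rfl
    obtain ⟨k₀, hk₀, hk₀1⟩ := hK
    have hk₀1' : (k₀ : G) ≠ 1 := fun h => hk₀1 (Subtype.ext h)
    -- `star χ` is constant on `K#`
    have hstarc : ∀ k : ↥(NN K), (k : G) ∈ K → k ≠ 1 → star χ k = star χ k₀ := by
      intro k hk hk1
      have hk1' : (k : G) ≠ 1 := fun h => hk1 (Subtype.ext h)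
      have h1 := hcon k hk k₀ hk₀ hk1' hk₀1'
      rcases hψχ with h | h
      · rw [h] at h1
        exact h1
      · rw [h] at h1
        simpa using h1
    obtain ⟨χ₁, hχ₁, ξ₁, hξ₁, hne⟩ := htwo
    have hother : ∃ ξ ∈ relSet K, χ ≠ ξ := by
      by_cases h : χ = χ₁
      · exact ⟨ξ₁, hξ₁, h ▸ hne⟩
      · exact ⟨χ₁, hχ₁, h⟩
    obtain ⟨ξ, hξ, hχξ⟩ := hother
    refine rel_unique_of_const K hC hχ hξ hχξ (star χ k₀ - c₀ * χ 1) fun k hk hk1 => ?_
    have h1 := hc₀ χ hχ k hk hk1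
    rw [← hstarc k hk hk1]
    linear_combination -h1
  · -- otherwise `ψ` is orthogonal to the image
    intro hnc
    by_contra hcon
    push Not at hcon
    have horth1 : ∀ χ ∈ relSet K, classInner ψ (star χ) = 0 := by
      intro χ hχ
      have hm := mem_zspan_of_mem hχ
      have hnorm : classInner (star χ) (star χ) = 1 := by
        rw [hstar.2.2.1 χ hm χ hm, Cfsg.Agent.Lib.Char.Ortho.classInner_irr_self hχ.1]
      rcases Cfsg.Agent.Lib.Char.Virtual.isSignedIrr_of_norm_one (hstar.2.2.2 χ hm) hnorm with h | h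
      · exact Cfsg.Agent.Lib.Char.Ortho.classInner_irr_of_ne hψ h (hcon χ hχ).1
      · have h1 := Cfsg.Agent.Lib.Char.Ortho.classInner_irr_of_ne hψ h (hcon χ hχ).2
        have h2 : star χ = (-1 : ℂ) • (-star χ) := by simp
        rw [h2, Cfsg.Agent.Lib.Char.Ortho.classInner_smul_right, h1, mul_zero]
    have horth2 : ∀ α ∈ zspan (relSet K), classInner ψ (star α) = 0 := by
      intro α hα
      refine (zspan_induction (S := relSet K)
        (P := fun α => α ∈ zspan (relSet K) ∧ classInner ψ (star α) = 0) ?_ ?_ ?_ ?_ hα).2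
      · intro χ hχ
        exact ⟨mem_zspan_of_mem hχ, horth1 χ hχ⟩
      · refine ⟨zspan_zero _, ?_⟩
        rw [star_zero_of_mem K star hstar]
        simp [classInner]
      · rintro a b ⟨ha, ha'⟩ ⟨hb, hb'⟩
        refine ⟨zspan_add ha hb, ?_⟩
        rw [hstar.1 a ha b hb, Cfsg.Agent.Lib.Char.Ortho.classInner_add_right, ha', hb', add_zero]
      · rintro n a ⟨ha, ha'⟩
        refine ⟨zspan_zsmul n ha, ?_⟩
        rw [hstar.2.1 a ha n, classInner_zsmul_right, ha', mul_zero]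
    have hcl : IsClassFunction G ψ := Cfsg.Agent.Lib.Char.Basic.isClassFunction_of_isCharacter
      (Cfsg.Agent.Lib.Char.Basic.isCharacter_of_isIrrCharacter hψ)
    have hclres : IsClassFunction ↥(NN K) (fun y : ↥(NN K) => ψ y) := by
      intro y g
      have := hcl (y : G) (g : G)
      simpa using this
    obtain ⟨c, hc⟩ := exists_const K (trunc K (fun y : ↥(NN K) => ψ y)) (trunc_isClass K hclres)
      (fun y hy => trunc_of_not_mem K _ hy)
      (fun α hα => trunc_orth K hC ψ hcl hα (by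
        rw [← hext α hα]
        exact horth2 α (mem_zspanOn_compl_one.1 hα).1))
    obtain ⟨a, ha, b, hb, ha1, hb1, hne⟩ := hnc
    apply hne
    have haN : a ∈ NN K := Subgroup.le_normalizer ha
    have hbN : b ∈ NN K := Subgroup.le_normalizer hb
    have h1 := hc ⟨a, haN⟩ ha (fun h => ha1 (congrArg Subtype.val h))
    have h2 := hc ⟨b, hbN⟩ hb (fun h => hb1 (congrArg Subtype.val h))
    rw [trunc_of_mem K _ ha (fun h => ha1 (congrArg Subtype.val h))] at h1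
    rw [trunc_of_mem K _ hb (fun h => hb1 (congrArg Subtype.val h))] at h2
    exact h1.trans h2.symm

/-- Characterization of exceptional characters. -/
theorem result {G : Type*} [Group G] [Fintype G] (K : Subgroup G) (hTI : ∀ g : G, g ∉ Subgroup.normalizer (K : Set G) → ∀ k ∈ K, g * k * g⁻¹ ∈ K → k = 1) (hlt : K < Subgroup.normalizer (K : Set G)) (hC : ∀ k ∈ K, k ≠ 1 → Subgroup.centralizer ({k} : Set G) ≤ K) [Fintype ↥(Subgroup.normalizer (K : Set G))] (S : Set (↥(Subgroup.normalizer (K : Set G)) → ℂ)) (hS : S = {χ : ↥(Subgroup.normalizer (K : Set G)) → ℂ | Cfsg.IsIrrCharacter ↥(Subgroup.normalizer (K : Set G)) χ ∧ ∃ k : ↥(Subgroup.normalizer (K : Set G)), (k : G) ∈ K ∧ χ k ≠ χ 1}) (htwo : ∃ χ ∈ S, ∃ ξ ∈ S, χ ≠ ξ) (star : (↥(Subgroup.normalizer (K : Set G)) → ℂ) → (G → ℂ)) (hstar : Cfsg.IsLinearIsometryOn (Cfsg.zspan S) star) (hext : ∀ α ∈ Cfsg.zspanOn S ({1}ᶜ : Set ↥(Subgroup.normalizer (K : Set G))), star α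 = Cfsg.indFun (Subgroup.normalizer (K : Set G)) α) (ψ : G → ℂ) (hψ : Cfsg.IsIrrCharacter G ψ) : (∃ χ ∈ S, ψ = star χ ∨ ψ = -star χ) ↔ ∃ a ∈ K, ∃ b ∈ K, a ≠ 1 ∧ b ≠ 1 ∧ ψ a ≠ ψ b := by
  subst hS
  exact main K hTI hC htwo star hstar hext ψ hψ

end Cfsg.Agent.S0852
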