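import Mathlib
import Cfsg.Agent.Lib.Char.BrauerInd

set_option autoImplicit false
open Cfsg
open scoped ComplexConjugate

namespace Cfsg.Agent.S0896

open Cfsg.Agent.Lib.Char.BrauerInd Cfsg.Agent.Lib.Char.Induced Cfsg.Agent.Lib.Char.Basic
  Cfsg.Agent.Lib.Char.Ortho

/-- Weighted orbit counting. -/
theorem exists_fixed_of_not_dvd {H X : Type*} [Group H] [MulAction H X] [Fintype X] (F : X → ℕ)
    (hF : ∀ (h : H) (x : X), F (h • x) = F x) {p : ℕ}
    (horb : ∀ x : X, ∃ j : ℕ, (MulAction.orbit H x).ncard = p ^ j) (hs : ¬ p ∣ ∑ x, F x) :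
    ∃ x, (∀ h : H, h • x = x) ∧ ¬ p ∣ F x := by
  classical
  by_contra hcon
  push Not at hcon
  apply hs
  let c : X → MulAction.orbitRel.Quotient H X := fun x => Quotient.mk'' x
  haveI : Fintype (MulAction.orbitRel.Quotient H X) := Fintype.ofFinite _
  rw [← Finset.sum_fiberwise Finset.univ c F]
  refine Finset.dvd_sum fun q _ => ?_
  obtain ⟨x₀, rfl⟩ : ∃ x₀, c x₀ = q := Quotient.exists_rep q
  have hfib : ∀ x, c x = c x₀ ↔ x ∈ MulAction.orbit H x₀ := by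
    intro x
    exact (Quotient.eq'' (s₁ := MulAction.orbitRel H X)).trans Iff.rfl
  have hsum : ∑ x ∈ Finset.univ.filter (fun x => c x = c x₀), F x =
      (Finset.univ.filter (fun x => c x = c x₀)).card * F x₀ := by
    rw [Finset.sum_congr rfl (g := fun _ => F x₀), Finset.sum_const, smul_eq_mul]
    intro x hx
    have h1 := (hfib x).1 (Finset.mem_filter.1 hx).2
    obtain ⟨h, rfl⟩ := h1
    exact hF h x₀
  rw [hsum]
  by_cases hfix : ∀ h : H, h • x₀ = x₀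
  · exact Dvd.dvd.mul_left (hcon x₀ hfix) _
  · apply Dvd.dvd.mul_right
    have hcard : (Finset.univ.filter (fun x => c x = c x₀)).card = (MulAction.orbit H x₀).ncard := by
      rw [← Set.ncard_coe_finset]
      congr 1
      ext x
      simp [hfib]
    rw [hcard]
    obtain ⟨j, hj⟩ := horb x₀
    rw [hj]
    rcases Nat.eq_zero_or_pos j with rfl | hjp
    · exfalso
      push Not at hfix
      obtain ⟨h, hh⟩ := hfix
      rw [pow_zero, Set.ncard_eq_one] at hj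
      obtain ⟨a, ha⟩ := hj
      have h1 : x₀ ∈ MulAction.orbit H x₀ := MulAction.mem_orbit_self x₀
      have h2 : h • x₀ ∈ MulAction.orbit H x₀ := MulAction.mem_orbit x₀ h
      rw [ha, Set.mem_singleton_iff] at h1 h2
      exact hh (h2.trans h1.symm)
    · exact dvd_pow_self p hjp.ne'

section Main

variable {G : Type*} [Group G] [Fintype G] (N : Subgroup G) [hN : N.Normal] (ϑ : N → ℂ)

/-- the restricted norm function -/
noncomputable def FF (g : G) : ℂ := by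
  classical
  exact if h : g ∈ N then ϑ ⟨g, h⟩ * conj (ϑ ⟨g, h⟩) else 0

variable {N ϑ}

omit [Fintype G] hN in
theorem FF_of_mem {g : G} (h : g ∈ N) : FF N ϑ g = ϑ ⟨g, h⟩ * conj (ϑ ⟨g, h⟩) := by
  simp [FF, h]

omit [Fintype G] hN in
theorem FF_of_notMem {g : G} (h : g ∉ N) : FF N ϑ g = 0 := by
  simp [FF, h]

omit [Fintype G] in
theorem isClass_FF
    (hinv : ∀ (g : G) (n : N), ϑ ⟨g * n * g⁻¹, hN.conj_mem (n : G) n.2 g⟩ = ϑ n) :
    IsClassFunction G (FF N ϑ) := by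
  intro g x
  by_cases hg : g ∈ N
  · have hm : x * g * x⁻¹ ∈ N := hN.conj_mem g hg x
    rw [FF_of_mem hm, FF_of_mem hg]
    have := hinv x ⟨g, hg⟩
    simp only at this
    rw [this]
  · have hm : x * g * x⁻¹ ∉ N := fun h => hg (by
      have := hN.conj_mem _ h x⁻¹
      simpa [mul_assoc] using this)
    rw [FF_of_notMem hm, FF_of_notMem hg]

omit [Fintype G] hN in
theorem conj_FF (g : G) : conj (FF N ϑ g) = FF N ϑ g := by
  by_cases hg : g ∈ N
  · rw [FF_of_mem hg, map_mul, Complex.conj_conj, mul_comm]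
  · rw [FF_of_notMem hg, map_zero]

omit hN in
theorem card_sup_identity [hN : N.Normal] (E : Subgroup G) :
    Nat.card G * Nat.card ↥(E ⊓ N) = Nat.card E * (Nat.card N * (E ⊔ N).index) := by
  have h1 : Nat.card ↥(N.subgroupOf E) = Nat.card ↥(E ⊓ N) := by
    have : (N.subgroupOf E).map E.subtype = E ⊓ N := by
      rw [Subgroup.subgroupOf_map_subtype, inf_comm]
    rw [← this]
    exact (Subgroup.card_map_of_injective E.subtype_injective).symm
  have h2 := Subgroup.card_mul_index (N.subgroupOf E)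
  have h3 : (N.subgroupOf E).index = N.relIndex E := rfl
  rw [h1, h3] at h2
  have h4 := Subgroup.card_mul_index (N.subgroupOf (E ⊔ N))
  have h5 : (N.subgroupOf (E ⊔ N)).index = N.relIndex (E ⊔ N) := rfl
  have h6 : Nat.card ↥(N.subgroupOf (E ⊔ N)) = Nat.card N :=
    Nat.card_congr (Subgroup.subgroupOfEquivOfLe le_sup_right).toEquiv
  rw [h5, h6, Subgroup.relIndex_sup_right] at h4
  have h7 := Subgroup.card_mul_index (E ⊔ N)
  rw [← h7, ← h4, ← h2]
  ring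

theorem main_identity (hϑ : IsCharacter N ϑ)
    (hinv : ∀ (g : G) (n : N), ϑ ⟨g * n * g⁻¹, hN.conj_mem (n : G) n.2 g⟩ = ϑ n)
    (E : Subgroup G) [Fintype E] [Fintype ↥(E ⊓ N)] {ψ : E → ℂ} (hψ : IsCharacter E ψ) :
    ∃ A : ℕ, classInner (fun x : ↥(E ⊓ N) => ψ ⟨x, x.2.1⟩ * ϑ ⟨x, x.2.2⟩)
        (fun x : ↥(E ⊓ N) => ϑ ⟨x, x.2.2⟩) = A ∧
      ∑ g, indFun E ψ g * FF N ϑ g = (Nat.card N : ℂ) * (((E ⊔ N).index * A : ℕ) : ℂ) := by
  classical
  have h1 : IsCharacter ↥(E ⊓ N) (fun x : ↥(E ⊓ N) => ψ ⟨x, x.2.1⟩) :=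
    isCharacter_comp_hom hψ (Subgroup.inclusion inf_le_left)
  have h2 : IsCharacter ↥(E ⊓ N) (fun x : ↥(E ⊓ N) => ϑ ⟨x, x.2.2⟩) :=
    isCharacter_comp_hom hϑ (Subgroup.inclusion inf_le_right)
  have h3 := isCharacter_mul h1 h2
  obtain ⟨A, hA⟩ := exists_nat_classInner_of_isCharacter h3 h2
  refine ⟨A, hA, ?_⟩
  have hF := frobenius_reciprocity E ψ (FF N ϑ) (isClass_FF hinv)
  simp only [classInner_def, conj_FF] at hF
  have hG : (Nat.card G : ℂ) ≠ 0 := natCard_ne_zero_complex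
  have hE : (Nat.card E : ℂ) ≠ 0 := natCard_ne_zero_complex
  have hDc : (Nat.card ↥(E ⊓ N) : ℂ) ≠ 0 := natCard_ne_zero_complex
  have key2 : ∑ e : E, ψ e * FF N ϑ e =
      ∑ x : ↥(E ⊓ N), ψ ⟨x, x.2.1⟩ * (ϑ ⟨x, x.2.2⟩ * conj (ϑ ⟨x, x.2.2⟩)) := by
    symm
    refine Fintype.sum_of_injective (fun x : ↥(E ⊓ N) => (⟨x, x.2.1⟩ : E)) ?_ _ _ ?_ ?_
    · intro a b hab
      exact Subtype.ext (congrArg (fun w : E => (w : G)) hab)
    · intro e he
      have : (e : G) ∉ N := fun h => he ⟨⟨e, e.2, h⟩, rfl⟩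
      rw [FF_of_notMem this, mul_zero]
    · intro x
      simp only
      rw [FF_of_mem x.2.2]
  have hA' : ∑ x : ↥(E ⊓ N), ψ ⟨x, x.2.1⟩ * (ϑ ⟨x, x.2.2⟩ * conj (ϑ ⟨x, x.2.2⟩)) =
      (Nat.card ↥(E ⊓ N) : ℂ) * A := by
    rw [classInner_def] at hA
    rw [← hA, ← mul_assoc, mul_inv_cancel₀ hDc, one_mul]
    refine Finset.sum_congr rfl fun x _ => ?_
    simp only [Pi.mul_apply]
    ring
  have hcard := card_sup_identity (N := N) E
  have hcard' : (Nat.card G : ℂ) * (Nat.card ↥(E ⊓ N) : ℂ) =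
      (Nat.card E : ℂ) * ((Nat.card N : ℂ) * ((E ⊔ N).index : ℂ)) := by
    exact_mod_cast hcard
  have : ∑ g, indFun E ψ g * FF N ϑ g = (Nat.card G : ℂ) * ((Nat.card E : ℂ)⁻¹ *
      ((Nat.card ↥(E ⊓ N) : ℂ) * A)) := by
    rw [← hA', ← key2, ← hF, ← mul_assoc, mul_inv_cancel₀ hG, one_mul]
  rw [this]
  push_cast
  field_simp
  linear_combination (A : ℂ) * hcard'


theorem exists_generator [∀ E : Subgroup G, Fintype E] {p : ℕ} (hp : p.Prime)
    (hϑ : IsIrrCharacter N ϑ)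
    (hinv : ∀ (g : G) (n : N), ϑ ⟨g * n * g⁻¹, hN.conj_mem (n : G) n.2 g⟩ = ϑ n) :
    ∃ (E : Subgroup G) (ψ : E → ℂ) (A : ℕ), IsElementary p E ∧ IsCharacter E ψ ∧
      classInner (fun x : ↥(E ⊓ N) => ψ ⟨x, x.2.1⟩ * ϑ ⟨x, x.2.2⟩)
        (fun x : ↥(E ⊓ N) => ϑ ⟨x, x.2.2⟩) = A ∧ ¬ p ∣ (E ⊔ N).index * A := by
  classical
  by_contra hcon
  push Not at hcon
  obtain ⟨m, hm, hmem⟩ := exists_int_mem_Ap (G := G) hp
  have hNc : (Nat.card N : ℂ) ≠ 0 := natCard_ne_zero_complex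
  let S : AddSubgroup (G → ℂ) :=
    { carrier := {f | ∃ z : ℤ, ∑ g, f g * FF N ϑ g = (Nat.card N : ℂ) * ((p : ℂ) * z)}
      zero_mem' := ⟨0, by simp⟩
      add_mem' := by
        rintro f g ⟨a, ha⟩ ⟨b, hb⟩
        refine ⟨a + b, ?_⟩
        simp only [Pi.add_apply, add_mul, Finset.sum_add_distrib, ha, hb]
        push_cast
        ring
      neg_mem' := by
        rintro f ⟨a, ha⟩
        refine ⟨-a, ?_⟩
        simp only [Pi.neg_apply, neg_mul, Finset.sum_neg_distrib, ha]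
        push_cast
        ring }
  have hle : Ap p G ≤ S := by
    refine (AddSubgroup.closure_le _).2 ?_
    rintro f ⟨E, ψ, hE, hψ, rfl⟩
    obtain ⟨A, hA, hS⟩ := main_identity (isCharacter_of_isIrrCharacter hϑ) hinv E hψ
    obtain ⟨c, hc⟩ := hcon E ψ A hE hψ hA
    refine ⟨c, ?_⟩
    rw [hS, hc]
    push_cast
    ring
  obtain ⟨z, hz⟩ := hle hmem
  have hsum : ∑ g, FF N ϑ g = (Nat.card N : ℂ) := by
    have h1 := classInner_irr_self hϑ
    rw [classInner_def] at h1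
    have h2 : ∑ g : N, ϑ g * conj (ϑ g) = (Nat.card N : ℂ) := by
      field_simp at h1
      exact h1
    rw [← h2]
    symm
    refine Fintype.sum_of_injective (fun x : N => (x : G)) Subtype.val_injective _ _ ?_ ?_
    · intro g hg
      have : g ∉ N := fun h => hg ⟨⟨g, h⟩, rfl⟩
      rw [FF_of_notMem this]
    · intro x
      rw [FF_of_mem x.2]
  have h3 : (m : ℂ) * (Nat.card N : ℂ) = (Nat.card N : ℂ) * ((p : ℂ) * z) := by
    rw [← hz, ← Finset.mul_sum, hsum]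
  have h4 : (m : ℂ) = (p : ℂ) * z := by
    apply mul_left_cancel₀ hNc
    rw [mul_comm, h3]
  apply hm
  refine ⟨z, ?_⟩
  exact_mod_cast h4

end Main


section Action

variable {G : Type*} [Group G] (N : Subgroup G) [hN : N.Normal] (E : Subgroup G)

/-- Conjugation by an element of `E` on `E ⊓ N`. -/
def conjD (e : E) : ↥(E ⊓ N) →* ↥(E ⊓ N) where
  toFun x := ⟨(e : G) * x * (e : G)⁻¹, E.mul_mem (E.mul_mem e.2 x.2.1) (E.inv_mem e.2),
    hN.conj_mem _ x.2.2 _⟩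
  map_one' := by ext; simp
  map_mul' x y := by ext; simp [mul_assoc]

theorem conjD_coe (e : E) (x : ↥(E ⊓ N)) :
    ((conjD N E e x : ↥(E ⊓ N)) : G) = (e : G) * x * (e : G)⁻¹ := rfl

theorem conjD_conjD (e f : E) (x : ↥(E ⊓ N)) :
    conjD N E e (conjD N E f x) = conjD N E (e * f) x := by
  ext
  simp [conjD_coe, mul_assoc]

theorem conjD_one (x : ↥(E ⊓ N)) : conjD N E 1 x = x := by
  ext
  simp [conjD_coe]

theorem conjD_surjective (e : E) : Function.Surjective (conjD N E e) := fun x =>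
  ⟨conjD N E e⁻¹ x, by rw [conjD_conjD, mul_inv_cancel, conjD_one]⟩

/-- `E` acts on the irreducible characters of `E ⊓ N`. -/
@[instance_reducible] noncomputable def irrAct : MulAction E (IrrCharacter ↥(E ⊓ N)) where
  smul e φ := ⟨fun x => φ.1 (conjD N E e⁻¹ x),
    Cfsg.Agent.Lib.Char.Basic.isIrrCharacter_comp_surjective φ.2 (conjD N E e⁻¹)
      (conjD_surjective N E e⁻¹)⟩
  one_smul φ := by
    apply Subtype.ext
    funext x
    show φ.1 (conjD N E 1⁻¹ x) = φ.1 x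
    rw [inv_one, conjD_one]
  mul_smul e f φ := by
    apply Subtype.ext
    funext x
    show φ.1 (conjD N E (e * f)⁻¹ x) = φ.1 (conjD N E f⁻¹ (conjD N E e⁻¹ x))
    rw [conjD_conjD, mul_inv_rev]

attribute [local instance] irrAct

theorem irrAct_apply (e : E) (φ : IrrCharacter ↥(E ⊓ N)) (x : ↥(E ⊓ N)) :
    (e • φ).1 x = φ.1 (conjD N E e⁻¹ x) := rfl

theorem orbit_ncard [Finite G] {p : ℕ} (hp : p.Prime) {k : ℕ} (hk : N.index = p ^ k)
    (hsup : E ⊔ N = ⊤) (φ : IrrCharacter ↥(E ⊓ N)) :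
    ∃ j, (MulAction.orbit E φ).ncard = p ^ j := by
  have h1 := MulAction.index_stabilizer E φ
  have h2 : N.subgroupOf E ≤ MulAction.stabilizer E φ := by
    intro e he
    rw [MulAction.mem_stabilizer_iff]
    apply Subtype.ext
    funext x
    rw [irrAct_apply]
    have hcl := isClassFunction_of_isCharacter (isCharacter_of_isIrrCharacter φ.2) x
      (⟨(e : G)⁻¹, E.inv_mem e.2, N.inv_mem he⟩ : ↥(E ⊓ N))
    rw [← hcl]
    congr 1
  have h3 := Subgroup.index_dvd_of_le h2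
  have h4 : (N.subgroupOf E).index = N.index := by
    have h5 : (N.subgroupOf E).index = N.relIndex E := rfl
    rw [h5, ← Subgroup.relIndex_sup_right, hsup, Subgroup.relIndex_top_right]
  rw [← h1] 
  rw [h4, hk] at h3
  obtain ⟨j, _, hj⟩ := (Nat.dvd_prime_pow hp).1 h3
  exact ⟨j, hj⟩

theorem classInner_act [Fintype ↥(E ⊓ N)] (f : ↥(E ⊓ N) → ℂ) (e : E)
    (φ : IrrCharacter ↥(E ⊓ N)) (hf : ∀ y, f (conjD N E e y) = f y) :
    classInner f (e • φ).1 = classInner f φ.1 := by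
  simp only [classInner_def]
  congr 1
  refine Fintype.sum_equiv
    { toFun := conjD N E e⁻¹
      invFun := conjD N E e
      left_inv := fun x => by rw [conjD_conjD, mul_inv_cancel, conjD_one]
      right_inv := fun x => by rw [conjD_conjD, inv_mul_cancel, conjD_one] } _ _ ?_
  intro x
  simp only [Equiv.coe_fn_mk]
  rw [irrAct_apply]
  congr 1
  rw [← hf (conjD N E e⁻¹ x), conjD_conjD, mul_inv_cancel, conjD_one]

theorem exists_invariant_irr [Fintype ↥(E ⊓ N)] [Finite G] {p : ℕ} (hp : p.Prime) {k : ℕ}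
    (hk : N.index = p ^ k)
    (hsup : E ⊔ N = ⊤) (θ ψ : ↥(E ⊓ N) → ℂ) (hθ : IsCharacter ↥(E ⊓ N) θ)
    (hψ : IsCharacter ↥(E ⊓ N) ψ)
    (hθinv : ∀ (e : E) y, θ (conjD N E e y) = θ y) (hψinv : ∀ (e : E) y, ψ (conjD N E e y) = ψ y)
    {A : ℕ} (hA : classInner ψ θ = A) (hpA : ¬ p ∣ A) :
    ∃ φ : IrrCharacter ↥(E ⊓ N), (∀ e : E, e • φ = φ) ∧ ∃ m : ℕ, ¬ p ∣ m ∧ classInner θ φ.1 = m := by
  classical
  choose mN hmN using fun φ : IrrCharacter ↥(E ⊓ N) => exists_nat_classInner hθ φ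
  choose cN hcN using fun φ : IrrCharacter ↥(E ⊓ N) => exists_nat_classInner hψ φ
  have hsum : A = ∑ φ, mN φ * cN φ := by
    have h1 : classInner ψ θ = ∑ φ : IrrCharacter ↥(E ⊓ N), conj (classInner θ φ.1) * classInner ψ φ.1 := by
      conv_lhs => rw [decomp_eq_sum_classInner hθ]
      rw [classInner_sum_right]
      refine Finset.sum_congr rfl fun φ _ => ?_
      rw [classInner_smul_right]
    rw [hA] at h1
    have h2 : (A : ℂ) = ((∑ φ, mN φ * cN φ : ℕ) : ℂ) := by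
      rw [h1]
      push_cast
      refine Finset.sum_congr rfl fun φ _ => ?_
      rw [hmN, hcN, Complex.conj_natCast]
    exact_mod_cast h2
  have hFinv : ∀ (e : E) (φ : IrrCharacter ↥(E ⊓ N)),
      mN (e • φ) * cN (e • φ) = mN φ * cN φ := by
    intro e φ
    have h1 : mN (e • φ) = mN φ := by
      have := classInner_act N E θ e φ (hθinv e)
      rw [hmN, hmN] at this
      exact_mod_cast this
    have h2 : cN (e • φ) = cN φ := by
      have := classInner_act N E ψ e φ (hψinv e)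
      rw [hcN, hcN] at this
      exact_mod_cast this
    rw [h1, h2]
  obtain ⟨φ, hfix, hφ⟩ := exists_fixed_of_not_dvd (H := E) (fun φ => mN φ * cN φ) hFinv
    (orbit_ncard N E hp hk hsup) (by rw [← hsum]; exact hpA)
  refine ⟨φ, hfix, mN φ, ?_, hmN φ⟩
  intro h
  exact hφ (Dvd.dvd.mul_right h _)

end Action

attribute [local instance] irrAct in
/-- **Dade's theorem**. -/
theorem result {G : Type*} [Group G] [Fintype G] (p : ℕ) (hp : p.Prime) (N : Subgroup G)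
    [hN : N.Normal] (hind : ∃ k : ℕ, N.index = p ^ k) (ϑ : N → ℂ)
    (hϑ : Cfsg.IsIrrCharacter N ϑ)
    (hinv : ∀ (g : G) (n : N), ϑ ⟨g * n * g⁻¹, hN.conj_mem (n : G) n.2 g⟩ = ϑ n) :
    ∃ (E : Subgroup G) (φ : ↥(E ⊓ N) → ℂ), Cfsg.IsElementary p E ∧ E ⊔ N = ⊤ ∧
      Cfsg.IsIrrCharacter ↥(E ⊓ N) φ ∧
      (∀ (g : G) (hg : g ∈ E) (x : ↥(E ⊓ N)),
        φ ⟨g * x * g⁻¹, ⟨(E.mul_mem (E.mul_mem hg x.2.1) (E.inv_mem hg)),
          hN.conj_mem (x : G) x.2.2 g⟩⟩ = φ x) ∧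
      ∃ m : ℕ, ¬ p ∣ m ∧ (Nat.card ↥(E ⊓ N) : ℂ)⁻¹ *
        ∑ᶠ x : ↥(E ⊓ N), ϑ ⟨(x : G), x.2.2⟩ * conj (φ x) = (m : ℂ) := by
  classical
  letI : ∀ E : Subgroup G, Fintype E := fun E => Fintype.ofFinite E
  obtain ⟨k, hk⟩ := hind
  obtain ⟨E, ψ, A, hE, hψ, hA, hdvd⟩ := exists_generator hp hϑ hinv
  have hpi : ¬ p ∣ (E ⊔ N).index := fun h => hdvd (Dvd.dvd.mul_right h _)
  have hpA : ¬ p ∣ A := fun h => hdvd (Dvd.dvd.mul_left h _)
  have hsup : E ⊔ N = ⊤ := by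
    have h1 : (E ⊔ N).index ∣ N.index := Subgroup.index_dvd_of_le le_sup_right
    rw [hk] at h1
    obtain ⟨j, _, hj⟩ := (Nat.dvd_prime_pow hp).1 h1
    rcases Nat.eq_zero_or_pos j with rfl | hjp
    · rw [pow_zero] at hj
      exact Subgroup.index_eq_one.1 hj
    · exfalso
      apply hpi
      rw [hj]
      exact dvd_pow_self p hjp.ne'
  have hψ₀ : IsCharacter ↥(E ⊓ N) (fun x : ↥(E ⊓ N) => ψ ⟨x, x.2.1⟩) :=
    isCharacter_comp_hom hψ (Subgroup.inclusion inf_le_left)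
  have hθ₀ : IsCharacter ↥(E ⊓ N) (fun x : ↥(E ⊓ N) => ϑ ⟨x, x.2.2⟩) :=
    isCharacter_comp_hom (isCharacter_of_isIrrCharacter hϑ) (Subgroup.inclusion inf_le_right)
  have hmul := isCharacter_mul hψ₀ hθ₀
  obtain ⟨φ, hfix, m, hm, hclass⟩ := exists_invariant_irr N E hp hk hsup
    (fun x : ↥(E ⊓ N) => ϑ ⟨x, x.2.2⟩) (fun x : ↥(E ⊓ N) => ψ ⟨x, x.2.1⟩ * ϑ ⟨x, x.2.2⟩)
    hθ₀ hmul
    (by
      intro e y
      exact hinv e ⟨y, y.2.2⟩)
    (by
      intro e y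
      have h1 := isClassFunction_of_isCharacter hψ ⟨y, y.2.1⟩ e
      have h2 := hinv e ⟨y, y.2.2⟩
      show ψ ⟨(e : G) * y * (e : G)⁻¹, _⟩ * ϑ ⟨(e : G) * y * (e : G)⁻¹, _⟩ = _
      rw [h2]
      congr 1)
    hA hpA
  refine ⟨E, φ.1, hE, hsup, φ.2, ?_, m, hm, ?_⟩
  · intro g hg x
    letI := irrAct N E
    have h1 := hfix (⟨g, hg⟩ : E)⁻¹
    have h2 : ((⟨g, hg⟩ : E)⁻¹ • φ).1 x = φ.1 x := by rw [h1]
    rw [irrAct_apply, inv_inv] at h2
    exact h2
  · rw [finsum_eq_sum_of_fintype]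
    rw [← hclass, classInner_def]

end Cfsg.Agent.S0896
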