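import Mathlib
import Cfsg.Agent.Lib.Char.MackeyNormal
import Cfsg.Agent.Lib.Char.Monomial
import Cfsg.Agent.Lib.Char.LinearChars
import Cfsg.Agent.Lib.Char.FrobPair
import Cfsg.Agent.Lib.Char.FrobeniusKernel
import Cfsg.Agent.Lib.Components.Fitting
import Cfsg.Agent.Lib.Basic.PCore
import Cfsg.Agent.Lib.Blocks.Kernel
import Cfsg.Agent.S0896

set_option autoImplicit false

open Cfsg

namespace Cfsg.Agent.S0859

open Cfsg.Agent.Lib.Char.Basic Cfsg.Agent.Lib.Char.Ortho Cfsg.Agent.Lib.Char.Induced
  Cfsg.Agent.Lib.Char.IndRep Cfsg.Agent.Lib.Char.Clifford Cfsg.Agent.Lib.Char.CliffordCorr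
  Cfsg.Agent.Lib.Char.MackeyNormal Cfsg.Agent.Lib.Char.Monomial Cfsg.Agent.Lib.Char.LinearChars

universe u

/-- All `p`-subgroups inside `N` are abelian. -/
def AbSyl {G : Type*} [Group G] (N : Subgroup G) : Prop :=
  ∀ (p : ℕ) [Fact p.Prime] (Q : Subgroup G), Q ≤ N → IsPGroup p Q → ∀ a ∈ Q, ∀ b ∈ Q, a * b = b * a

section Sub

variable {G : Type*} [Group G]

theorem abSyl_of_hab [Finite G] {N : Subgroup G}
    (hab : ∀ (p : ℕ) [Fact p.Prime] (P : Sylow p N), ∀ a ∈ P, ∀ b ∈ P, a * b = b * a) : AbSyl N := by
  intro p _ Q hQN hQ a ha b hb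
  have hQ' : IsPGroup p (Q.subgroupOf N) :=
    hQ.of_equiv (Subgroup.subgroupOfEquivOfLe hQN).symm
  obtain ⟨P, hP⟩ := hQ'.exists_le_sylow
  have h := hab p P ⟨a, hQN ha⟩ (hP (by simpa [Subgroup.mem_subgroupOf] using ha))
    ⟨b, hQN hb⟩ (hP (by simpa [Subgroup.mem_subgroupOf] using hb))
  exact congrArg Subtype.val h

theorem abSyl_subgroupOf {N : Subgroup G} (h : AbSyl N) (T : Subgroup G) :
    AbSyl (N.subgroupOf T) := by
  intro p _ Q hQN hQ a ha b hb
  have h1 := h p (Q.map T.subtype) (by
      rintro _ ⟨x, hx, rfl⟩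
      exact hQN hx) (hQ.map T.subtype) a ⟨a, ha, rfl⟩ b ⟨b, hb, rfl⟩
  exact Subtype.ext h1

theorem abSyl_map [Finite G] {N : Subgroup G} (h : AbSyl N) {Gb : Type*} [Group Gb] (π : G →* Gb) :
    AbSyl (N.map π) := by
  classical
  intro p _ Qb hQN hQ a ha b hb
  -- the preimage in `N`
  let A : Subgroup N := (Qb.comap π).subgroupOf N
  let f : A →* Qb :=
    { toFun := fun x => ⟨π x.1.1, Subgroup.mem_subgroupOf.1 x.2⟩
      map_one' := by
        apply Subtype.ext
        simp
      map_mul' := fun x y => by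
        apply Subtype.ext
        simp }
  have hf : Function.Surjective f := by
    rintro ⟨y, hy⟩
    obtain ⟨n, hn, rfl⟩ := hQN hy
    exact ⟨⟨⟨n, hn⟩, Subgroup.mem_subgroupOf.2 hy⟩, rfl⟩
  obtain ⟨S⟩ : Nonempty (Sylow p A) := inferInstance
  let Q₀ : Subgroup G := ((S : Subgroup A).map A.subtype).map N.subtype
  have hQ₀ : IsPGroup p Q₀ := (S.isPGroup'.map A.subtype).map N.subtype
  have hQ₀N : Q₀ ≤ N := by
    rintro _ ⟨_, _, rfl⟩
    exact Subtype.property _
  have hcomm := h p Q₀ hQ₀N hQ₀
  have hmap : (S : Subgroup A).map f = ⊤ := by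
    have h2 : (⊤ : Subgroup Qb) = ((Sylow.mapSurjective hf S : Sylow p Qb) : Subgroup Qb) :=
      (Sylow.mapSurjective hf S).is_maximal' (hQ.of_equiv Subgroup.topEquiv.symm) le_top
    rw [Sylow.coe_mapSurjective] at h2
    exact h2.symm
  have hlift : ∀ y : Qb, ∃ x ∈ Q₀, π x = y := by
    intro y
    have : y ∈ (S : Subgroup A).map f := by rw [hmap]; trivial
    obtain ⟨s, hs, rfl⟩ := this
    exact ⟨s.1.1, ⟨s.1, ⟨s, hs, rfl⟩, rfl⟩, rfl⟩
  obtain ⟨x, hx, hxa⟩ := hlift ⟨a, ha⟩
  obtain ⟨y, hy, hyb⟩ := hlift ⟨b, hb⟩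
  have h3 := hcomm x hx y hy
  have h4 := congrArg π h3
  rw [map_mul, map_mul, hxa, hyb] at h4
  exact h4

end Sub

/-- A nilpotent group whose Sylow subgroups are abelian is abelian. -/
theorem comm_of_nilpotent {G : Type*} [Group G] [Finite G] (F : Subgroup G)
    (hn : Group.IsNilpotent F) (h : AbSyl F) : ∀ a ∈ F, ∀ b ∈ F, a * b = b * a := by
  classical
  have hnorm : ∀ (p : ℕ) [Fact p.Prime] (P : Sylow p F), (P : Subgroup F).Normal := by
    intro p _ P
    exact (Group.isNilpotent_of_finite_tfae (G := F)).out 0 3 rfl rfl |>.mp hn p ‹_› P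
  let e := Sylow.directProductOfNormal (G := F) (fun {p} _ P => hnorm p P)
  intro a ha b hb
  have hc : ∀ x y : F, x * y = y * x := by
    intro x y
    obtain ⟨x', rfl⟩ := e.surjective x
    obtain ⟨y', rfl⟩ := e.surjective y
    rw [← map_mul, ← map_mul]
    congr 1
    funext p P
    apply Subtype.ext
    apply Subtype.ext
    haveI : Fact (p : ℕ).Prime := ⟨Nat.prime_of_mem_primeFactors p.2⟩
    exact h p ((P : Subgroup F).map F.subtype) (by
        rintro _ ⟨x, _, rfl⟩
        exact x.2) (P.isPGroup'.map F.subtype) _ ⟨_, (x' p P).2, rfl⟩ _ ⟨_, (y' p P).2, rfl⟩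
  exact congrArg Subtype.val (hc ⟨a, ha⟩ ⟨b, hb⟩)

section Ind

variable {K : Type u} [Group K] [Fintype K]

/-- If the induced character is irreducible, so is the character. -/
theorem isIrr_of_indFun_isIrr (A : Subgroup K) [Fintype A] {β : A → ℂ} (hβ : IsCharacter A β)
    (h : IsIrrCharacter K (indFun A β)) : IsIrrCharacter A β := by
  classical
  have h1 : β 1 ≠ 0 := by
    intro h0
    have := irr_apply_one_ne_zero h
    apply this
    have h2 := Cfsg.Agent.Lib.Char.Induced.indFun_one (G := K) A β
    rw [h2, h0, mul_zero]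
  obtain ⟨ν, hν, hne⟩ := exists_irr_constituent hβ h1
  obtain ⟨m, hm⟩ := exists_nat_decomp hβ
  let ν₀ : IrrCharacter A := ⟨ν, hν⟩
  have hmν : (m ν₀ : ℂ) = classInner β ν := by
    have := classInner_sum_irr (fun χ => (m χ : ℂ)) ν₀
    rw [hm]
    simpa [Nat.cast_smul_eq_nsmul] using this.symm
  have hpos : m ν₀ ≠ 0 := by
    intro h0
    apply hne
    rw [← hmν, h0, Nat.cast_zero]
  -- the rest
  let γ : A → ℂ := ∑ τ, (if τ = ν₀ then m τ - 1 else m τ) • (τ : A → ℂ)
  have hγ : IsCharacter A γ := by
    apply isCharacter_finset_sum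
    intro τ _
    exact isCharacter_nsmul (isCharacter_of_isIrrCharacter τ.2) _
  have hdec : β = ν + γ := by
    conv_lhs => rw [hm]
    simp only [γ]
    rw [← Finset.add_sum_erase _ _ (Finset.mem_univ ν₀),
      ← Finset.add_sum_erase (Finset.univ) (fun τ : IrrCharacter A =>
        (if τ = ν₀ then m τ - 1 else m τ) • (τ : A → ℂ)) (Finset.mem_univ ν₀), ← add_assoc]
    congr 1
    · obtain ⟨k, hk⟩ := Nat.exists_eq_succ_of_ne_zero hpos
      rw [if_pos rfl, hk, Nat.succ_sub_one, succ_nsmul, add_comm]
    · refine Finset.sum_congr rfl fun τ hτ => ?_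
      rw [if_neg (Finset.ne_of_mem_erase hτ)]
  have hν₁ := isCharacter_of_isIrrCharacter hν
  have hind : indFun A β = indFun A ν + indFun A γ := by
    rw [hdec, Cfsg.Agent.Lib.Char.FrobeniusKernel.indFun_add_fun]
  have h0 := eq_zero_of_irr_eq_add h (isCharacter_indFun A hν₁) (isCharacter_indFun A hγ) hind (by
    rw [Cfsg.Agent.Lib.Char.Induced.indFun_one]
    exact mul_ne_zero (by exact_mod_cast Subgroup.index_ne_zero_of_finite)
      (irr_apply_one_ne_zero hν))
  have hγ0 : γ = 0 := by
    have h3 := congrFun h0 1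
    rw [Cfsg.Agent.Lib.Char.Induced.indFun_one] at h3
    have h4 : γ 1 = 0 := by
      have h5 : (A.index : ℂ) ≠ 0 := by exact_mod_cast Subgroup.index_ne_zero_of_finite
      simpa [h5] using h3
    exact Cfsg.Agent.Lib.Char.Clifford.eq_zero_of_apply_one_eq_zero hγ h4
  rw [hdec, hγ0, add_zero]
  exact hν


/-- Inflation of an induced character. -/
theorem indFun_comap {H : Type*} [Group H] [Fintype H] (K : Subgroup H) [hK : K.Normal]
    [Fintype (H ⧸ K)] (Ub : Subgroup (H ⧸ K)) (lb : Ub → ℂ) :
    indFun (Ub.comap (QuotientGroup.mk' K)) (fun u => lb ⟨QuotientGroup.mk' K u.1, u.2⟩) =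
      fun g : H => indFun Ub lb ((g : H) : H ⧸ K) := by
  classical
  funext g
  rw [indFun_apply, indFun_apply]
  have hcard : Nat.card ↥(Ub.comap (QuotientGroup.mk' K)) = Nat.card K * Nat.card Ub := by
    have h1 := Subgroup.card_mul_index (Ub.comap (QuotientGroup.mk' K))
    have h2 := Subgroup.card_mul_index Ub
    have h3 : (Ub.comap (QuotientGroup.mk' K)).index = Ub.index :=
      Subgroup.index_comap_of_surjective Ub (QuotientGroup.mk'_surjective K)
    have h4 := Subgroup.card_mul_index K
    have h5 : K.index = Nat.card (H ⧸ K) := rfl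
    rw [h3] at h1
    have hU : 0 < Ub.index := Nat.pos_of_ne_zero Subgroup.index_ne_zero_of_finite
    apply Nat.eq_of_mul_eq_mul_right hU
    rw [h1, mul_assoc, h2, ← h5, h4]
  have hsum : ∀ x : H, extendByZero (Ub.comap (QuotientGroup.mk' K))
      (fun u => lb ⟨QuotientGroup.mk' K u.1, u.2⟩) (x⁻¹ * g * x) =
      extendByZero Ub lb (((x : H ⧸ K))⁻¹ * (g : H ⧸ K) * (x : H ⧸ K)) := by
    intro x
    by_cases hm : (x⁻¹ * g * x) ∈ Ub.comap (QuotientGroup.mk' K)
    · rw [extendByZero_of_mem _ _ hm]
      have hm' : ((x : H ⧸ K))⁻¹ * (g : H ⧸ K) * (x : H ⧸ K) ∈ Ub := hm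
      rw [extendByZero_of_mem _ _ hm']
      rfl
    · rw [extendByZero_of_notMem _ _ hm]
      have hm' : ((x : H ⧸ K))⁻¹ * (g : H ⧸ K) * (x : H ⧸ K) ∉ Ub := hm
      rw [extendByZero_of_notMem _ _ hm']
  simp only [hsum]
  have h6 := Cfsg.Agent.Lib.Blocks.Kernel.sum_comp_mk K
    (fun c : H ⧸ K => extendByZero Ub lb (c⁻¹ * (g : H ⧸ K) * c))
  rw [h6, hcard]
  have hK0 : (Nat.card K : ℂ) ≠ 0 := natCard_ne_zero_complex
  have hU0 : (Nat.card Ub : ℂ) ≠ 0 := natCard_ne_zero_complex
  push_cast
  field_simp

end Ind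


section Equiv

variable {A B : Type u} [Group A] [Group B] [Fintype A] [Fintype B]

theorem classInner_comp_equiv (e : A ≃* B) (f g : B → ℂ) :
    classInner (fun a => f (e a)) (fun a => g (e a)) = classInner f g := by
  rw [classInner_def, classInner_def, Nat.card_congr e.toEquiv]
  congr 1
  exact Fintype.sum_equiv e.toEquiv _ _ (fun _ => rfl)

end Equiv

/-- The main theorem: a character irreducible on a normal subgroup with abelian Sylow subgroups
of a solvable group is monomial. -/
theorem core : ∀ (m : ℕ) (H : Type u) [Group H] [Fintype H] [Group.IsSolvable H] (N : Subgroup H)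
    [N.Normal], Nat.card H = m → AbSyl N → ∀ ψ : H → ℂ, IsIrrCharacter H ψ →
    IsIrrCharacter N (fun n : N => ψ n) →
    ∃ (U : Subgroup H) (lam : U → ℂ), IsCharacter U lam ∧ lam 1 = 1 ∧ indFun U lam = ψ := by
  intro m
  induction m using Nat.strong_induction_on with
  | _ m ih =>
    intro H _ _ _ N _ hm hab ψ hψ hψN
    classical
    let F : Subgroup H := fittingSubgroup H ⊓ N
    haveI hFn : F.Normal := inferInstance
    have hFN : F ≤ N := inf_le_right
    have hFnil : Group.IsNilpotent F :=
      Cfsg.Agent.Lib.Components.Fitting.isNilpotent_of_le inf_le_left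
        Cfsg.Agent.Lib.Components.Fitting.fitting_isNilpotent
    have hFc : ∀ a ∈ F, ∀ b ∈ F, a * b = b * a :=
      comm_of_nilpotent F hFnil (fun p _ Q hQ hQp => hab p Q (hQ.trans hFN) hQp)
    have hψc := isCharacter_of_isIrrCharacter hψ
    have hψcl := isClassFunction_of_isCharacter hψc
    have hresF := isCharacter_restrict hψc F
    obtain ⟨lamF, hlamF, hne⟩ := exists_irr_constituent hresF (by
      have := irr_apply_one_ne_zero hψ
      simpa using this)
    have hlam1 : lamF 1 = 1 := Cfsg.Agent.Lib.Char.FrobPair.degree_eq_one_of_comm (A := F)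
      (fun a b => Subtype.ext (hFc a a.2 b b.2)) hlamF
    obtain ⟨l, hl⟩ := exists_hom_of_isCharacter_one (isCharacter_of_isIrrCharacter hlamF) hlam1
    let T : Subgroup H := inertiaOf F lamF
    have hT : ∀ g : H, g ∈ T ↔
        ∀ n : F, lamF ⟨g * n * g⁻¹, hFn.conj_mem (n : H) n.2 g⟩ = lamF n := mem_inertiaOf F lamF
    have hFT : F ≤ T := by
      intro f hf
      rw [hT]
      intro n
      exact isClassFunction_of_isCharacter (isCharacter_of_isIrrCharacter hlamF) n ⟨f, hf⟩
    haveI : Fintype T := Fintype.ofFinite _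
    by_cases hTop : T = ⊤
    · -- the invariant case
      have hg : ∀ g : H, g ∈ T := fun g => by rw [hTop]; trivial
      have hinvl : ∀ (g : H) (n : F), l ⟨g * n * g⁻¹, hFn.conj_mem (n : H) n.2 g⟩ = l n := by
        intro g n
        have h1 := (hT g).1 (hg g) n
        rw [hl] at h1
        exact Units.ext h1
      have hirrT : IsIrrCharacter T (fun t : T => ψ t) :=
        isIrrCharacter_comp_surjective hψ T.subtype (fun g => ⟨⟨g, hg g⟩, rfl⟩)
      have hres := res_eq_smul_of_inertia F lamF T hFT hlamF hT hirrT hne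
      have hψF : ∀ f : F, ψ f = ψ 1 * lamF f := by
        intro f
        have h1 := congrFun hres f
        have h2 := congrFun hres 1
        simp only [Pi.smul_apply, smul_eq_mul, resT] at h1 h2
        rw [hlam1, mul_one] at h2
        have h3 : ψ (((1 : F) : H)) = ψ 1 := rfl
        have h4 : (⟨((1 : F) : H), hFT (1 : F).2⟩ : T) = 1 := rfl
        rw [h1]
        congr 1
        rw [h2.symm]
        rfl
      let K : Subgroup H := l.ker.map F.subtype
      haveI hKn : K.Normal := by
        refine ⟨?_⟩
        rintro _ ⟨f, hf, rfl⟩ g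
        refine ⟨⟨g * f * g⁻¹, hFn.conj_mem f f.2 g⟩, ?_, rfl⟩
        rw [SetLike.mem_coe, MonoidHom.mem_ker] at hf ⊢
        rw [hinvl, hf]
      have hψK : ∀ k ∈ K, ψ k = ψ 1 := by
        rintro _ ⟨f, hf, rfl⟩
        rw [SetLike.mem_coe, MonoidHom.mem_ker] at hf
        have h1 : lamF f = 1 := by
          rw [hl]
          simp [hf]
        have h2 := hψF f
        rw [h1, mul_one] at h2
        exact h2
      by_cases hKbot : K = ⊥
      · -- `F` central
        have hker : l.ker = ⊥ := by
          have := (Subgroup.map_eq_bot_iff_of_injective l.ker F.subtype_injective).1 hKbot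
          exact this
        have hlinj : Function.Injective l := (MonoidHom.ker_eq_bot_iff l).1 hker
        have hcent : ∀ f ∈ F, ∀ g : H, g * f * g⁻¹ = f := by
          intro f hf g
          have h1 := hlinj (hinvl g ⟨f, hf⟩)
          exact congrArg Subtype.val h1
        have hfit : fittingSubgroup H ⊓ N = Cfsg.Agent.Lib.Components.Fitting.fitOf N :=
          Cfsg.Agent.Lib.Components.Fitting.fitting_inf_eq_fitOf
            (Subgroup.Normal.isSubnormal inferInstance)
        have hFfit : ∀ y : N, y ∈ fittingSubgroup N → (y : H) ∈ F := by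
          intro y hy
          change (y : H) ∈ fittingSubgroup H ⊓ N
          rw [hfit]
          exact ⟨y, hy, rfl⟩
        have hall : (⊤ : Subgroup N) ≤ fittingSubgroup N := by
          apply Cfsg.Agent.Lib.Components.Fitting.le_fitting_of_solvable_of_le_centralizer
          · intro x _
            rw [Subgroup.mem_centralizer_iff]
            intro y hy
            apply Subtype.ext
            have h1 := hcent (y : H) (hFfit y hy) (x : H)
            have h2 : ((y : H)) * x = x * y := by
              conv_lhs => rw [← h1]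
              group
            exact h2
          · intro x _
            rw [Subgroup.mem_normalizer_iff]
            intro y
            simp
          · infer_instance
        have hNF : N ≤ F := fun n hn => hFfit ⟨n, hn⟩ (hall (Subgroup.mem_top _))
        have hNc : ∀ a b : N, a * b = b * a := fun a b =>
          Subtype.ext (hFc a (hNF a.2) b (hNF b.2))
        have h1 := Cfsg.Agent.Lib.Char.FrobPair.degree_eq_one_of_comm hNc hψN
        have h2 : ψ 1 = 1 := h1
        refine ⟨⊤, fun h => ψ h, isCharacter_restrict hψc ⊤, h2, ?_⟩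
        exact indFun_top hψcl
      · -- the quotient
        obtain ⟨ψ', hψ'⟩ := Cfsg.Agent.Lib.Blocks.Kernel.exists_irr_of_kernel K hψ hψK
        haveI : Fintype (H ⧸ K) := Fintype.ofFinite _
        let π : H →* H ⧸ K := QuotientGroup.mk' K
        have hπs : Function.Surjective π := QuotientGroup.mk'_surjective K
        let Nb : Subgroup (H ⧸ K) := N.map π
        haveI hNb : Nb.Normal := (inferInstance : N.Normal).map π hπs
        haveI : Fintype Nb := Fintype.ofFinite _
        have hab' : AbSyl Nb := abSyl_map hab π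
        let f : N →* Nb := π.subgroupMap N
        have hψ'c := isCharacter_of_isIrrCharacter ψ'.2
        have hirrNb : IsIrrCharacter Nb (fun y : Nb => ψ'.1 y) := by
          apply isIrr_of_comp f (isCharacter_restrict hψ'c Nb)
          have : (fun a : N => ψ'.1 (f a : H ⧸ K)) = fun n : N => ψ n := by
            funext n
            rw [hψ']
            rfl
          rw [this]
          exact hψN
        have hcard : Nat.card (H ⧸ K) < m := by
          have h1 := Subgroup.card_mul_index K
          have h2 : K.index = Nat.card (H ⧸ K) := rfl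
          have h3 : 1 < Nat.card K := (Subgroup.one_lt_card_iff_ne_bot K).2 hKbot
          have h4 : 0 < Nat.card (H ⧸ K) := Nat.card_pos
          rw [← hm, ← h1, ← h2]
          rw [← h2] at h4
          nlinarith
        obtain ⟨Ub, lb, hlb, hlb1, hUb⟩ := ih _ hcard (H ⧸ K) Nb rfl hab' ψ'.1 ψ'.2 hirrNb
        refine ⟨Ub.comap π, fun u => lb ⟨π u.1, u.2⟩,
          isCharacter_comp_hom hlb (π.subgroupComap Ub), ?_, ?_⟩
        · exact hlb1
        · have h1 := indFun_comap K Ub lb
          have h2 : indFun (Ub.comap (QuotientGroup.mk' K))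
              (fun u => lb ⟨QuotientGroup.mk' K u.1, u.2⟩) = ψ := by
            rw [h1, hUb, hψ']
            rfl
          exact h2
    · -- the non-invariant case
      obtain ⟨ξ, hξ, hind, hmult⟩ := exists_indFun_eq F lamF T hFT hlamF hT hψ hne
      have hξc := isCharacter_of_isIrrCharacter hξ
      let F' : Subgroup N := F.subgroupOf N
      haveI : F'.Normal := inferInstance
      let eF : F' ≃* F := Subgroup.subgroupOfEquivOfLe hFN
      let lamF' : F' → ℂ := fun x => lamF (eF x)
      have hlamF' : IsIrrCharacter F' lamF' :=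
        isIrrCharacter_comp_surjective hlamF eF.toMonoidHom eF.surjective
      let T' : Subgroup N := T.subgroupOf N
      have hT' : ∀ g : N, g ∈ T' ↔
          ∀ n : F', lamF' ⟨g * n * g⁻¹, (inferInstance : F'.Normal).conj_mem (n : N) n.2 g⟩ =
            lamF' n := by
        intro g
        change (g : H) ∈ T ↔ _
        rw [hT]
        constructor
        · intro h n
          exact h (eF n)
        · intro h n
          have := h (eF.symm n)
          have h5 : eF (eF.symm n) = n := eF.apply_symm_apply n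
          rw [show lamF' (eF.symm n) = lamF n by simp only [lamF', h5]] at this
          rw [← this]
          rfl
      have hclass : classInner (fun n : F' => ψ ((n : N) : H)) lamF' =
          classInner (fun f : F => ψ f) lamF :=
        classInner_comp_equiv eF (fun f : F => ψ f) lamF
      have hne' : classInner (fun n : F' => ψ ((n : N) : H)) lamF' ≠ 0 := by
        rw [hclass]
        exact hne
      have hd1 := apply_one_eq F' lamF' T' hlamF' hT' hψN hne'
      have hd2 := apply_one_eq F lamF T hlamF hT hψ hne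
      have hidx : T'.index = T.index := by
        have h1 : ψ 1 = classInner (fun f : F => ψ f) lamF * ((T'.index : ℂ) * lamF 1) := by
          rw [← hclass]
          exact hd1
        rw [h1] at hd2
        have h2 := mul_left_cancel₀ hne hd2
        rw [hlam1, mul_one, mul_one] at h2
        exact_mod_cast h2
      have hsup : T ⊔ N = ⊤ := by
        have h1 := Cfsg.Agent.S0896.card_sup_identity (N := N) T
        have h2 := Subgroup.card_mul_index T
        have h3 := Subgroup.card_mul_index T'
        have h4 : Nat.card T' = Nat.card ↥(T ⊓ N) := by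
          have : T'.map N.subtype = T ⊓ N := by
            rw [Subgroup.subgroupOf_map_subtype]
          rw [← this]
          exact (Subgroup.card_map_of_injective N.subtype_injective).symm
        rw [h4] at h3
        rw [← h2, ← h3, hidx] at h1
        have hT0 : 0 < Nat.card T := Nat.card_pos
        have hD0 : 0 < Nat.card ↥(T ⊓ N) := Nat.card_pos
        have hI0 : 0 < T.index := Nat.pos_of_ne_zero Subgroup.index_ne_zero_of_finite
        have h5 : (T ⊔ N).index = 1 := by
          have h6 : 0 < Nat.card T * T.index * Nat.card ↥(T ⊓ N) := by positivity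
          apply Nat.eq_of_mul_eq_mul_left h6
          rw [mul_one]
          calc Nat.card T * T.index * Nat.card ↥(T ⊓ N) * (T ⊔ N).index =
              Nat.card T * (Nat.card ↥(T ⊓ N) * T.index * (T ⊔ N).index) := by ring
            _ = _ := h1.symm
        exact Subgroup.index_eq_one.1 h5
      have hG : ∀ g : H, ∃ m ∈ N, ∃ h ∈ T, g = m * h := by
        intro g
        have hmem : g ∈ (N ⊔ T : Subgroup H) := by
          rw [sup_comm, hsup]
          trivial
        rw [← SetLike.mem_coe, Subgroup.normal_mul, Set.mem_mul] at hmem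
        obtain ⟨a, ha, b, hb, rfl⟩ := hmem
        exact ⟨a, ha, b, hb, rfl⟩
      have hξcl := isClassFunction_of_isCharacter hξc
      have hmack := indFun_res_of_forall_mul T N hG ξ hξcl
      haveI : Fintype T' := Fintype.ofFinite _
      let β : T' → ℂ := fun y => ξ ⟨((y : N) : H), Subgroup.mem_subgroupOf.mp y.2⟩
      have hβc : IsCharacter T' β := by
        refine isCharacter_comp_hom hξc
          ({ toFun := fun y => ⟨((y : N) : H), Subgroup.mem_subgroupOf.mp y.2⟩
             map_one' := rfl
             map_mul' := fun _ _ => rfl } : T' →* T)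
      have hβind : indFun T' β = fun n : N => ψ n := by
        funext n
        have := hmack n
        rw [hind] at this
        exact this.symm
      have hβ : IsIrrCharacter T' β :=
        isIrr_of_indFun_isIrr T' hβc (by rw [hβind]; exact hψN)
      let gg : N.subgroupOf T →* T' :=
        { toFun := fun x => ⟨⟨x.1.1, x.2⟩, x.1.2⟩
          map_one' := rfl
          map_mul' := fun _ _ => rfl }
      have hggs : Function.Surjective gg := by
        rintro ⟨⟨y, hy⟩, hy2⟩
        exact ⟨⟨⟨y, hy2⟩, hy⟩, rfl⟩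
      have hξ₀ : IsIrrCharacter (N.subgroupOf T) (fun n : N.subgroupOf T => ξ n) :=
        isIrrCharacter_comp_surjective hβ gg hggs
      have hlt : Nat.card T < m := by
        rw [← hm]
        exact card_lt_of_ne_top hTop
      obtain ⟨U, lam, hlam, hlam1', hU⟩ := ih _ hlt T (N.subgroupOf T) rfl
        (abSyl_subgroupOf hab T) ξ hξ hξ₀
      refine ⟨U.map T.subtype,
        fun x => lam ((U.equivMapOfInjective T.subtype T.subtype_injective).symm x),
        isCharacter_comp_hom hlam
          (U.equivMapOfInjective T.subtype T.subtype_injective).symm.toMonoidHom, ?_, ?_⟩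
      · simp [hlam1']
      · rw [← ind_ind, hU, hind]

/-- **Isaacs 6.23**. -/
theorem result {G : Type*} [Group G] [Fintype G] [Group.IsSolvable G] (N : Subgroup G) [N.Normal]
    (hab : ∀ (p : ℕ) [Fact p.Prime] (P : Sylow p N), ∀ a ∈ P, ∀ b ∈ P, a * b = b * a)
    (hrel : ∀ χ : G → ℂ, Cfsg.IsIrrCharacter G χ → ∃ (H : Subgroup G) (hNH : N ≤ H) (ψ : H → ℂ),
      Cfsg.IsIrrCharacter H ψ ∧ Cfsg.indFun H ψ = χ ∧
        Cfsg.IsIrrCharacter N (fun n : N => ψ ⟨(n : G), hNH n.2⟩))
    (χ : G → ℂ) (hχ : Cfsg.IsIrrCharacter G χ) :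
    ∃ (U : Subgroup G) (lam : U → ℂ), Cfsg.IsCharacter U lam ∧ lam 1 = 1 ∧
      Cfsg.indFun U lam = χ := by
  classical
  obtain ⟨H, hNH, ψ, hψ, hind, hres⟩ := hrel χ hχ
  letI : Fintype H := Fintype.ofFinite _
  let e : N.subgroupOf H ≃* N := Subgroup.subgroupOfEquivOfLe hNH
  have hψ₀ : IsIrrCharacter (N.subgroupOf H) (fun n : N.subgroupOf H => ψ n) :=
    isIrrCharacter_comp_surjective hres e.toMonoidHom e.surjective
  obtain ⟨U, lam, hlam, hlam1', hU⟩ := core _ H (N.subgroupOf H) rfl
    (abSyl_subgroupOf (abSyl_of_hab hab) H) ψ hψ hψ₀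
  refine ⟨U.map H.subtype,
    fun x => lam ((U.equivMapOfInjective H.subtype H.subtype_injective).symm x),
    isCharacter_comp_hom hlam
      (U.equivMapOfInjective H.subtype H.subtype_injective).symm.toMonoidHom, ?_, ?_⟩
  · simp [hlam1']
  · rw [← ind_ind, hU, hind]

end Cfsg.Agent.S0859
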