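import Cfsg.Statements.S0861
import Mathlib
import Cfsg.Agent.Lib.Char.GaloisC
import Cfsg.Agent.Lib.Char.Values2
import Cfsg.Agent.Lib.Char.CompleteCor
import Cfsg.Agent.Lib.Char.LinearChars
import Cfsg.Agent.Lib.Char.Ortho
import Cfsg.Agent.S0169

set_option autoImplicit false
open Cfsg

namespace Cfsg.Agent.S0861

open Cfsg.Agent.Lib.Char.Galois Cfsg.Agent.Lib.Char.GaloisC Cfsg.Agent.Lib.Char.CompleteCor
open scoped ComplexConjugate commutatorElement

/-- Column orthogonality with norms. -/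
theorem sum_norm_sq_eq {G : Type*} [Group G] [Fintype G] [Fintype (Cfsg.IrrCharacter G)] (g : G) :
    ∑ χ : Cfsg.IrrCharacter G, ‖(χ : G → ℂ) g‖ ^ 2 =
      (Nat.card ↥(Subgroup.centralizer ({g} : Set G)) : ℝ) := by
  have h := column_orth_conj (IsConj.refl g)
  have h3 : ∀ χ : Cfsg.IrrCharacter G, (χ : G → ℂ) g * conj ((χ : G → ℂ) g) =
      ((‖(χ : G → ℂ) g‖ ^ 2 : ℝ) : ℂ) := by
    intro χ
    rw [Complex.mul_conj, Complex.normSq_eq_norm_sq]
  simp only [h3] at h
  exact_mod_cast h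

/-- If all irreducible characters of `Q` have degree one, `Q` is commutative. -/
theorem comm_of_all_linear {Q : Type*} [Group Q] [Finite Q]
    (h : ∀ σ : Cfsg.IrrCharacter Q, (σ : Q → ℂ) 1 = 1) (x y : Q) : x * y * x⁻¹ * y⁻¹ = 1 := by
  classical
  cases nonempty_fintype Q
  by_contra hne
  have hnc : ¬ IsConj (x * y * x⁻¹ * y⁻¹) 1 := fun hc => hne (isConj_one_right.1 hc.symm)
  obtain ⟨σ, hσ⟩ : ∃ σ : Cfsg.IrrCharacter Q, (σ : Q → ℂ) (x * y * x⁻¹ * y⁻¹) ≠ (σ : Q → ℂ) 1 := by
    by_contra hcon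
    push Not at hcon
    exact hnc (isConj_of_forall_irr hcon)
  apply hσ
  obtain ⟨φ, hφ⟩ := Cfsg.Agent.Lib.Char.LinearChars.exists_hom_of_isCharacter_one
    (Cfsg.Agent.Lib.Char.Basic.isCharacter_of_isIrrCharacter σ.2) (h σ)
  rw [hφ]
  simp only [map_mul, map_inv, map_one]
  have : φ x * φ y * (φ x)⁻¹ * (φ y)⁻¹ = 1 := by
    rw [mul_comm (φ x) (φ y), mul_inv_cancel_right, mul_inv_cancel]
  rw [this]

/-- Let P be a normal abelian Sylow p-subgroup of the finite group G and suppose some element g of P has centralizer exactly P. Then the number of irreducible characters of G is at most the order of P, and if equality holds then G / P is abelian (the commutator subgroup lies in P). -/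
theorem result {G : Type*} [Group G] [Finite G] (p : ℕ) [Fact p.Prime] (P : Sylow p G) [(P : Subgroup G).Normal] (hab : ∀ a ∈ P, ∀ b ∈ P, a * b = b * a) (g : G) (hg : g ∈ P) (hC : Subgroup.centralizer ({g} : Set G) = P) : Nat.card (Cfsg.IrrCharacter G) ≤ Nat.card P ∧ (Nat.card (Cfsg.IrrCharacter G) = Nat.card P → commutator G ≤ P) := by
  classical
  cases nonempty_fintype G
  haveI : Finite (Cfsg.IrrCharacter G) := Cfsg.Agent.Lib.Char.Complete.finite_irr
  cases nonempty_fintype (Cfsg.IrrCharacter G)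
  haveI : NeZero (Nat.card G) := ⟨Nat.card_pos.ne'⟩
  have hpp : p.Prime := Fact.out
  set U := (ZMod (Nat.card G))ˣ with hU
  have hUpos : (0 : ℝ) < Fintype.card U := by exact_mod_cast Fintype.card_pos
  -- nonvanishing
  obtain ⟨k, hk⟩ : ∃ k : ℕ, orderOf g = p ^ k :=
    (IsPGroup.iff_orderOf.1 P.isPGroup') ⟨g, hg⟩ |>.imp fun k h => by
      rw [← h, Subgroup.orderOf_mk]
  have hne : ∀ χ : Cfsg.IrrCharacter G, (χ : G → ℂ) g ≠ 0 := by
    rintro ⟨f, n, ρ, hirr, rfl⟩ h0
    haveI := hirr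
    have h1 := Cfsg.Agent.S0169.result ρ (P : Subgroup G) hab
    rw [Module.finrank_fin_fun] at h1
    have h2 : p ∣ n := by
      have h3 := Cfsg.Agent.Lib.Char.Values2.dvd_degree_of_vanish_pelement p hpp ρ.character ⟨n, ρ, rfl⟩ g ⟨k, hk⟩ h0
      have hdeg : Cfsg.charDegree ρ.character = n := by
        unfold Cfsg.charDegree
        rw [Representation.char_one]
        simp
      rwa [hdeg] at h3
    exact P.not_dvd_index (h2.trans h1)
  have hprod : ∀ χ : Cfsg.IrrCharacter G, (Fintype.card U : ℝ) ≤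
      ∑ u : U, ‖(χ : G → ℂ) (g ^ (u : ZMod (Nat.card G)).val)‖ ^ 2 := by
    intro χ
    apply card_le_sum_of_one_le_prod
    · intro u
      positivity
    · rw [Finset.prod_pow]
      exact one_le_pow₀ (one_le_prod_norm
        (Cfsg.Agent.Lib.Char.Basic.isCharacter_of_isIrrCharacter χ.2) (hne χ))
  -- all the centralizers are the same
  have hcen : ∀ u : U, Subgroup.centralizer ({g ^ (u : ZMod (Nat.card G)).val} : Set G) = P := by
    intro u
    rw [← hC]
    have hc : ((u : ZMod (Nat.card G)).val).Coprime (orderOf g) :=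
      Nat.Coprime.coprime_dvd_right (orderOf_dvd_natCard g) (ZMod.val_coe_unit_coprime u)
    obtain ⟨m, hm⟩ := exists_pow_eq_self_of_coprime hc
    ext y
    simp only [Subgroup.mem_centralizer_singleton_iff]
    constructor
    · intro h
      have h1 : Commute y (g ^ (u : ZMod (Nat.card G)).val) := h
      have h2 := h1.pow_right m
      rw [hm] at h2
      exact h2
    · intro h
      have h1 : Commute y g := h
      exact h1.pow_right _
  have hcol : ∀ u : U, ∑ χ : Cfsg.IrrCharacter G, ‖(χ : G → ℂ) (g ^ (u : ZMod (Nat.card G)).val)‖ ^ 2 =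
      (Nat.card P : ℝ) := by
    intro u
    rw [sum_norm_sq_eq, hcen u]
  have htotal : ∑ χ : Cfsg.IrrCharacter G, ∑ u : U, ‖(χ : G → ℂ) (g ^ (u : ZMod (Nat.card G)).val)‖ ^ 2 =
      (Fintype.card U : ℝ) * (Nat.card P : ℝ) := by
    rw [Finset.sum_comm]
    simp only [hcol, Finset.sum_const, Finset.card_univ, nsmul_eq_mul]
  have hlow : (Fintype.card U : ℝ) * (Nat.card (Cfsg.IrrCharacter G) : ℝ) ≤
      ∑ χ : Cfsg.IrrCharacter G, ∑ u : U, ‖(χ : G → ℂ) (g ^ (u : ZMod (Nat.card G)).val)‖ ^ 2 := by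
    have := Finset.card_nsmul_le_sum Finset.univ
      (fun χ : Cfsg.IrrCharacter G => ∑ u : U, ‖(χ : G → ℂ) (g ^ (u : ZMod (Nat.card G)).val)‖ ^ 2)
      (Fintype.card U : ℝ) (fun χ _ => hprod χ)
    rw [nsmul_eq_mul, Finset.card_univ, mul_comm] at this
    rwa [Nat.card_eq_fintype_card (α := Cfsg.IrrCharacter G)]
  constructor
  · rw [htotal] at hlow
    have := le_of_mul_le_mul_left hlow hUpos
    exact_mod_cast this
  · intro heq
    -- all characters of `G/P` are linear
    have hlin : ∀ σ : Cfsg.IrrCharacter (G ⧸ (P : Subgroup G)), (σ : (G ⧸ (P : Subgroup G)) → ℂ) 1 = 1 := by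
      intro σ
      by_contra hσ
      let χ₀ : Cfsg.IrrCharacter G := ⟨fun x => (σ : (G ⧸ (P : Subgroup G)) → ℂ) (x : G ⧸ (P : Subgroup G)),
        Cfsg.Agent.Lib.Char.Basic.isIrrCharacter_comp_surjective σ.2 (QuotientGroup.mk' (P : Subgroup G))
          (QuotientGroup.mk'_surjective _)⟩
      obtain ⟨d, hd0, hd⟩ := Cfsg.Agent.Lib.Char.Ortho.irr_degree_pos σ.2
      have hd2 : 2 ≤ d := by
        by_contra hlt
        have : d = 1 := by omega
        apply hσ
        rw [hd, this]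
        simp
      have hval : ∀ u : U, ‖(χ₀ : G → ℂ) (g ^ (u : ZMod (Nat.card G)).val)‖ ^ 2 = (d : ℝ) ^ 2 := by
        intro u
        have hmem : g ^ (u : ZMod (Nat.card G)).val ∈ (P : Subgroup G) := Subgroup.pow_mem _ hg _
        have h1 : ((g ^ (u : ZMod (Nat.card G)).val : G) : G ⧸ (P : Subgroup G)) = 1 :=
          (QuotientGroup.eq_one_iff _).2 hmem
        show ‖(σ : (G ⧸ (P : Subgroup G)) → ℂ) ((g ^ (u : ZMod (Nat.card G)).val : G) : G ⧸ (P : Subgroup G))‖ ^ 2 = _
        rw [h1, hd]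
        simp
      have hstrict : (Fintype.card U : ℝ) < ∑ u : U, ‖(χ₀ : G → ℂ) (g ^ (u : ZMod (Nat.card G)).val)‖ ^ 2 := by
        simp only [hval, Finset.sum_const, Finset.card_univ, nsmul_eq_mul]
        have h4 : (1 : ℝ) < (d : ℝ) ^ 2 := by
          have : (2 : ℝ) ≤ d := by exact_mod_cast hd2
          nlinarith
        nlinarith
      have hlt : (Fintype.card U : ℝ) * (Nat.card (Cfsg.IrrCharacter G) : ℝ) <
          ∑ χ : Cfsg.IrrCharacter G, ∑ u : U, ‖(χ : G → ℂ) (g ^ (u : ZMod (Nat.card G)).val)‖ ^ 2 := by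
        rw [Nat.card_eq_fintype_card (α := Cfsg.IrrCharacter G), mul_comm, ← nsmul_eq_mul]
        rw [← Finset.card_univ, ← Finset.sum_const]
        exact Finset.sum_lt_sum (fun χ _ => hprod χ) ⟨χ₀, Finset.mem_univ _, hstrict⟩
      rw [htotal, heq] at hlt
      exact lt_irrefl _ hlt
    rw [commutator_def, Subgroup.commutator_le]
    intro x _ y _
    have h1 := comm_of_all_linear hlin (x : G ⧸ (P : Subgroup G)) (y : G ⧸ (P : Subgroup G))
    have h2 : ((⁅x, y⁆ : G) : G ⧸ (P : Subgroup G)) = 1 := by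
      rw [commutatorElement_def]
      exact h1
    exact (QuotientGroup.eq_one_iff _).1 h2

end Cfsg.Agent.S0861
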