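import Cfsg.Statements.S0864
import Mathlib
import Cfsg.Agent.Lib.Char.LinearExt
-- import your own Cfsg.Agent.* helpers here

set_option autoImplicit false
open Cfsg

namespace Cfsg.Agent.S0864

/-- Let N be a normal subgroup of the finite group G and λ a character of N of degree 1 invariant under conjugation by G. Suppose that for every prime p dividing the order of λ (in the group of functions under pointwise multiplication) there is a subgroup H containing N, of index prime to p and with the index of N in H a power of p, together with a character of H of degree 1 restricting to λ. Then λ is the restriction of a character of G of degree 1. -/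
theorem result {G : Type*} [Group G] [Finite G] (N : Subgroup G) [hN : N.Normal] (lam : N → ℂ) (hlam : Cfsg.IsCharacter N lam ∧ lam 1 = 1) (hinv : ∀ (g : G) (n : N), lam ⟨g * n * g⁻¹, hN.conj_mem (n : G) n.2 g⟩ = lam n) (hsyl : ∀ p : ℕ, p.Prime → p ∣ orderOf lam → ∃ (H : Subgroup G) (hNH : N ≤ H) (ν : H → ℂ), Nat.Coprime H.index p ∧ (∃ k : ℕ, N.relIndex H = p ^ k) ∧ Cfsg.IsCharacter H ν ∧ ν 1 = 1 ∧ ∀ n : N, ν ⟨(n : G), hNH n.2⟩ = lam n) : ∃ μ : G → ℂ, Cfsg.IsCharacter G μ ∧ μ 1 = 1 ∧ ∀ n : N, μ n = lam n := by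
  classical
  obtain ⟨φ, rfl⟩ := Cfsg.Agent.Lib.Char.LinearChars.exists_hom_of_isCharacter_one hlam.1 hlam.2
  have hinvφ : ∀ (g n : G) (hn : n ∈ N),
      φ ⟨g * n * g⁻¹, hN.conj_mem n hn g⟩ = φ ⟨n, hn⟩ := by
    intro g n hn
    exact Units.ext (hinv g ⟨n, hn⟩)
  rw [Cfsg.Agent.Lib.Char.LinearExt.orderOf_toFn] at hsyl
  -- restriction
  let res : (G →* ℂˣ) →* (N →* ℂˣ) :=
    { toFun := fun τ => τ.comp N.subtype
      map_one' := rfl
      map_mul' := fun _ _ => rfl }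
  let E : Subgroup (N →* ℂˣ) := res.range
  haveI hEn : E.Normal := ⟨fun n hn g => by
    have : g * n * g⁻¹ = n := by
      refine MonoidHom.ext fun x => ?_
      simp only [MonoidHom.mul_apply, MonoidHom.inv_apply]
      rw [mul_comm (g x), mul_inv_cancel_right]
    rwa [this]⟩
  set m := orderOf φ with hm
  have hmpos : 0 < m := Cfsg.Agent.Lib.Char.LinearExt.orderOf_hom_pos φ
  -- the quotient argument
  have hord : orderOf ((φ : N →* ℂˣ) : (N →* ℂˣ) ⧸ E) = 1 := by
    by_contra hne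
    obtain ⟨p, hp, hpd⟩ := Nat.exists_prime_and_dvd hne
    have hdm : orderOf ((φ : N →* ℂˣ) : (N →* ℂˣ) ⧸ E) ∣ m := by
      refine orderOf_dvd_of_pow_eq_one ?_
      rw [← QuotientGroup.mk_pow, hm, pow_orderOf_eq_one]
      rfl
    have hpm : p ∣ m := hpd.trans hdm
    obtain ⟨H, hNH, ν, hHp, -, hνc, hν1, hνN⟩ := hsyl p hp hpm
    obtain ⟨ψ₀, rfl⟩ := Cfsg.Agent.Lib.Char.LinearChars.exists_hom_of_isCharacter_one hνc hν1
    -- the `p`-part
    set a := m.factorization p with ha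
    set m' := m / p ^ a with hm'
    have hm'm : p ^ a * m' = m := Nat.ordProj_mul_ordCompl_eq_self m p
    have hpm' : ¬ p ∣ m' := Nat.not_dvd_ordCompl hp hmpos.ne'
    have hψN : ∀ n (hn : n ∈ N), ψ₀ ⟨n, hNH hn⟩ = φ ⟨n, hn⟩ := fun n hn =>
      Units.ext (hνN ⟨n, hn⟩)
    let ψ : H →* ℂˣ := ψ₀ ^ m'
    have hψinv : ∀ (g n : G) (hn : n ∈ N),
        ψ ⟨g * n * g⁻¹, hNH (hN.conj_mem n hn g)⟩ = ψ ⟨n, hNH hn⟩ := by
      intro g n hn
      simp only [ψ, MonoidHom.pow_apply]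
      rw [hψN _ (hN.conj_mem n hn g), hψN n hn, hinvφ]
    have hψp : ∀ n (hn : n ∈ N), ψ ⟨n, hNH hn⟩ ^ (p ^ a) = 1 := by
      intro n hn
      simp only [ψ, MonoidHom.pow_apply]
      rw [hψN n hn, ← pow_mul, mul_comm, hm'm, hm]
      exact Cfsg.Agent.Lib.Char.LinearExt.pow_orderOf_apply φ _
    have hcop : Nat.Coprime H.index (p ^ a) :=
      Nat.Coprime.pow_right a hHp
    obtain ⟨k, hk⟩ := Cfsg.Agent.Lib.Char.LinearExt.exists_ext_of_coprime H N hNH ψ hψinv hψp hcop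
    -- so `φ ^ m'` extends
    have hmem : φ ^ m' ∈ E := by
      refine ⟨ψ.transfer ^ k, ?_⟩
      ext n
      have := hk n n.2
      show (((ψ.transfer ^ k) (n : G) : ℂˣ) : ℂ) = _
      rw [this]
      simp only [ψ, MonoidHom.pow_apply]
      rw [hψN n n.2]
    have hdm' : orderOf ((φ : N →* ℂˣ) : (N →* ℂˣ) ⧸ E) ∣ m' := by
      refine orderOf_dvd_of_pow_eq_one ?_
      rw [← QuotientGroup.mk_pow]
      exact (QuotientGroup.eq_one_iff _).2 hmem
    exact hpm' (hpd.trans hdm')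
  have hmem : φ ∈ E := by
    have := orderOf_eq_one_iff.1 hord
    exact (QuotientGroup.eq_one_iff _).1 this
  obtain ⟨τ, hτ⟩ := hmem
  refine ⟨fun g => ((τ g : ℂˣ) : ℂ), Cfsg.Agent.Lib.Char.LinearExt.isCharacter_hom τ, by simp, ?_⟩
  intro n
  have := congrArg (fun f : N →* ℂˣ => f n) hτ
  show ((τ (n : G) : ℂˣ) : ℂ) = _
  have h2 : τ (n : G) = φ n := this
  rw [h2]

end Cfsg.Agent.S0864
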