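import Cfsg.Statements.S0865
import Mathlib
import Cfsg.Agent.Lib.Char.LinearExt
-- import your own Cfsg.Agent.* helpers here

set_option autoImplicit false
open Cfsg

namespace Cfsg.Agent.S0865

/-- Let N be a normal subgroup of the finite group G and λ a character of N of degree 1, invariant under conjugation by G, whose order (under pointwise multiplication) is coprime to the index of N. Then there is a character μ of G of degree 1 restricting to λ with the same order as λ, and μ is the only degree-1 character of G restricting to λ whose order is coprime to the index of N. -/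
theorem result {G : Type*} [Group G] [Finite G] (N : Subgroup G) [hN : N.Normal] (lam : N → ℂ) (hlam : Cfsg.IsCharacter N lam ∧ lam 1 = 1) (hinv : ∀ (g : G) (n : N), lam ⟨g * n * g⁻¹, hN.conj_mem (n : G) n.2 g⟩ = lam n) (hcop : Nat.Coprime N.index (orderOf lam)) : ∃ μ : G → ℂ, (Cfsg.IsCharacter G μ ∧ μ 1 = 1 ∧ (∀ n : N, μ n = lam n) ∧ orderOf μ = orderOf lam) ∧ ∀ μ' : G → ℂ, Cfsg.IsCharacter G μ' ∧ μ' 1 = 1 → (∀ n : N, μ' n = lam n) → Nat.Coprime N.index (orderOf μ') → μ' = μ := by
  classical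
  open Cfsg.Agent.Lib.Char in
  obtain ⟨φ, rfl⟩ := LinearChars.exists_hom_of_isCharacter_one hlam.1 hlam.2
  set m := orderOf φ with hm
  have hcopm : Nat.Coprime N.index m := by
    rw [hm, ← Cfsg.Agent.Lib.Char.LinearExt.orderOf_toFn]; exact hcop
  have hinvφ : ∀ (g n : G) (hn : n ∈ N),
      φ ⟨g * n * g⁻¹, hN.conj_mem n hn g⟩ = φ ⟨n, hn⟩ := by
    intro g n hn
    exact Units.ext (hinv g ⟨n, hn⟩)
  obtain ⟨k, hk⟩ := Cfsg.Agent.Lib.Char.LinearExt.exists_ext_of_coprime N N le_rfl φ hinvφ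
    (m := m) (fun n hn => by rw [hm]; exact Cfsg.Agent.Lib.Char.LinearExt.pow_orderOf_apply φ _)
    hcopm
  set τ : G →* ℂˣ := φ.transfer ^ k with hτ
  have hτN : ∀ n : N, τ (n : G) = φ n := fun n => hk n n.2
  -- order
  have hτm : orderOf τ = m := by
    apply Nat.dvd_antisymm
    · refine orderOf_dvd_of_pow_eq_one ?_
      ext g
      have h1 : (φ.transfer g) ^ m = 1 :=
        Cfsg.Agent.Lib.Char.LinearExt.transfer_pow_eq_one N φ
          (fun x => by rw [hm]; exact Cfsg.Agent.Lib.Char.LinearExt.pow_orderOf_apply φ _) g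
      have h2 : (τ ^ m) g = 1 := by
        rw [MonoidHom.pow_apply, hτ, MonoidHom.pow_apply, ← pow_mul, mul_comm, pow_mul, h1, one_pow]
      rw [h2]; rfl
    · rw [hm]
      refine orderOf_dvd_of_pow_eq_one ?_
      ext n
      have h1 : (τ ^ orderOf τ) (n : G) = 1 := by rw [pow_orderOf_eq_one]; rfl
      rw [MonoidHom.pow_apply, hτN] at h1
      simp [MonoidHom.pow_apply, h1]
  refine ⟨fun g => ((τ g : ℂˣ) : ℂ), ⟨Cfsg.Agent.Lib.Char.LinearExt.isCharacter_hom τ, by simp,
    fun n => by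
      show ((τ (n : G) : ℂˣ) : ℂ) = ((φ n : ℂˣ) : ℂ)
      rw [hτN], ?_⟩, ?_⟩
  · rw [Cfsg.Agent.Lib.Char.LinearExt.orderOf_toFn, Cfsg.Agent.Lib.Char.LinearExt.orderOf_toFn, hτm]
  · rintro μ' ⟨hμ'c, hμ'1⟩ hμ'N hμ'cop
    obtain ⟨φ', rfl⟩ := Cfsg.Agent.Lib.Char.LinearChars.exists_hom_of_isCharacter_one hμ'c hμ'1
    rw [Cfsg.Agent.Lib.Char.LinearExt.orderOf_toFn] at hμ'cop
    -- the quotient of the two extensions
    set ν : G →* ℂˣ := φ' / τ with hν
    have hνN : ∀ g ∈ N, ν g = 1 := by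
      intro g hg
      have h1 : ((φ' g : ℂˣ) : ℂ) = ((φ ⟨g, hg⟩ : ℂˣ) : ℂ) := hμ'N ⟨g, hg⟩
      have h2 : φ' g = τ g := by
        rw [hτN ⟨g, hg⟩]
        exact Units.ext h1
      rw [hν, MonoidHom.div_apply, h2, div_self']
    have hν1 : ν ^ N.index = 1 := by
      ext g
      have h3 : g ^ N.index ∈ N := Subgroup.pow_index_mem N g
      have h4 := hνN _ h3
      rw [map_pow] at h4
      rw [MonoidHom.pow_apply, h4]
      rfl
    have hν2 : ν ^ (orderOf φ' * m) = 1 := by
      ext g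
      have h1 := Cfsg.Agent.Lib.Char.LinearExt.pow_orderOf_apply φ' g
      have h2 : τ g ^ m = 1 := by
        have := Cfsg.Agent.Lib.Char.LinearExt.pow_orderOf_apply τ g
        rwa [hτm] at this
      have h3 : ν g ^ (orderOf φ' * m) = 1 := by
        rw [hν, MonoidHom.div_apply, div_pow, pow_mul, h1, one_pow, mul_comm, pow_mul, h2, one_pow,
          div_one]
      rw [MonoidHom.pow_apply, h3]
      rfl
    have hνord : orderOf ν = 1 := by
      have h5 : orderOf ν ∣ N.index := orderOf_dvd_of_pow_eq_one hν1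
      have h6 : orderOf ν ∣ orderOf φ' * m := orderOf_dvd_of_pow_eq_one hν2
      have h7 : Nat.Coprime N.index (orderOf φ' * m) := Nat.Coprime.mul_right hμ'cop hcopm
      exact Nat.eq_one_of_dvd_coprimes h7 h5 h6
    have hν3 : ν = 1 := orderOf_eq_one_iff.1 hνord
    have hφ' : φ' = τ := by
      rw [hν] at hν3
      exact div_eq_one.1 hν3
    rw [hφ']

end Cfsg.Agent.S0865
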