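import Cfsg.Statements.S0867
import Mathlib
import Cfsg.Agent.Lib.Char.DetExt2
-- import your own Cfsg.Agent.* helpers here

set_option autoImplicit false
open Cfsg

namespace Cfsg.Agent.S0867

open Module Cfsg.Agent.Lib.Char.DetExt Cfsg.Agent.Lib.Char.DetExt2 Cfsg.Agent.Lib.Char.Basic
  Cfsg.Agent.Lib.Char.LinearChars

/-- Let N be a normal subgroup of the finite group G and ϑ an irreducible character of N of degree d, invariant under conjugation by G, such that the index of N is coprime to the product of d and the determinantal order of ϑ. Then there is an irreducible character χ of G restricting to ϑ whose determinantal order equals that of ϑ, and χ is the only irreducible character of G restricting to ϑ whose determinantal order is coprime to the index of N. -/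
theorem result {G : Type*} [Group G] [Finite G] (N : Subgroup G) [hN : N.Normal] (ϑ : N → ℂ) (hϑ : Cfsg.IsIrrCharacter N ϑ) (hinv : ∀ (g : G) (n : N), ϑ ⟨g * n * g⁻¹, hN.conj_mem (n : G) n.2 g⟩ = ϑ n) (d : ℕ) (hd : ϑ 1 = d) (hcop : Nat.Coprime N.index (Cfsg.detOrder ϑ * d)) : ∃ χ : G → ℂ, (Cfsg.IsIrrCharacter G χ ∧ (∀ n : N, χ n = ϑ n) ∧ Cfsg.detOrder χ = Cfsg.detOrder ϑ) ∧ ∀ χ' : G → ℂ, Cfsg.IsIrrCharacter G χ' → (∀ n : N, χ' n = ϑ n) → Nat.Coprime N.index (Cfsg.detOrder χ') → χ' = χ := by
  classical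
  haveI := Fintype.ofFinite G
  have hc1 : Nat.Coprime N.index (Cfsg.detOrder ϑ) := Nat.Coprime.coprime_mul_right_right hcop
  have hc2 : Nat.Coprime N.index d := Nat.Coprime.coprime_mul_left_right hcop
  have hϑc := isCharacter_of_isIrrCharacter hϑ
  obtain ⟨l, hl⟩ := exists_hom_detChar hϑc
  have hord : Cfsg.detOrder ϑ = orderOf l := by
    unfold Cfsg.detOrder
    rw [orderOf_eq_orderOf_iff]
    intro k
    constructor
    · intro h
      ext n
      have h1 := congrFun h n
      simp only [Pi.pow_apply, Pi.one_apply, hl] at h1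
      simpa using h1
    · intro h
      funext n
      have h1 := congrArg (fun F : N →* ℂˣ => ((F n : ℂˣ) : ℂ)) h
      simp only [MonoidHom.pow_apply, MonoidHom.one_apply] at h1
      simp only [Pi.pow_apply, Pi.one_apply, hl]
      simpa using h1
  have hlinv : ∀ (g : G) (n : N), l ⟨g * n * g⁻¹, hN.conj_mem (n : G) n.2 g⟩ = l n := by
    intro g n
    obtain ⟨m, ρ, hρ, rfl⟩ := hϑ
    let c : N →* N := (MulAut.conjNormal g).toMonoidHom
    have hcc : ∀ n : N, c n = ⟨g * n * g⁻¹, hN.conj_mem n n.2 g⟩ := fun n =>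
      Subtype.ext (by simp [c])
    let σ : Representation ℂ N (Fin m → ℂ) := ρ.comp c
    have hchar : ρ.character = σ.character := by
      funext n
      change ρ.character n = ρ.character (c n)
      rw [hcc, hinv]
    have h1 := detChar_character σ n
    rw [← hchar, hl] at h1
    have h2 := hl ⟨g * n * g⁻¹, hN.conj_mem n n.2 g⟩
    rw [detChar_character] at h2
    apply Units.ext
    rw [h1, ← h2]
    change LinearMap.det (ρ _) = LinearMap.det (ρ (c n))
    rw [hcc]
  obtain ⟨μ, hμ1, hμ2⟩ := exists_ext_hom N l hlinv (by rw [← hord]; exact hc1.symm)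
  let μf : G → ℂ := fun g => ((μ g : ℂˣ) : ℂ)
  have hμf : Cfsg.IsCharacter G μf := isCharacter_of_isIrrCharacter (isIrr_of_hom μ)
  have hμf1 : μf 1 = 1 := by simp [μf]
  have hμfN : ∀ n : N, μf n = Cfsg.detChar ϑ n := by
    intro n
    rw [hl, ← hμ1]
  have hext := (extends_iff_det_extends N ϑ hϑ hinv d hd hc2).mpr ⟨μf, hμf, hμf1, hμfN⟩
  obtain ⟨χ, ⟨hχ, hχN, hχdet⟩, -⟩ := existsUnique_ext_det N ϑ hϑ d hd hc2 hext μf ⟨hμf, hμf1⟩ hμfN
  have hordχ : Cfsg.detOrder χ = orderOf μ := by
    unfold Cfsg.detOrder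
    rw [hχdet, orderOf_eq_orderOf_iff]
    intro k
    constructor
    · intro h
      ext g
      have h1 := congrFun h g
      simp only [Pi.pow_apply, Pi.one_apply, μf] at h1
      simpa using h1
    · intro h
      funext g
      have h1 := congrArg (fun F : G →* ℂˣ => ((F g : ℂˣ) : ℂ)) h
      simp only [MonoidHom.pow_apply, MonoidHom.one_apply] at h1
      simp only [Pi.pow_apply, Pi.one_apply, μf]
      simpa using h1
  refine ⟨χ, ⟨hχ, hχN, by rw [hordχ, hμ2, hord]⟩, ?_⟩
  intro χ' hχ' hχ'N hχ'ord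
  have hχc := isCharacter_of_isIrrCharacter hχ
  have hχ'c := isCharacter_of_isIrrCharacter hχ'
  have hresirr : Cfsg.IsIrrCharacter N (fun n : N => χ n) := by
    have : (fun n : N => χ n) = ϑ := funext hχN
    rw [this]
    exact hϑ
  obtain ⟨β, hβ1, hβ2⟩ := exists_linear_of_two_ext N hχ hχ' hresirr
    (fun n => by rw [hχ'N, hχN])
  have hd' : χ 1 = d := by
    have := hχN 1
    simp only [Subgroup.coe_one] at this
    rw [this, hd]
  obtain ⟨φ', hφ'⟩ := exists_hom_detChar hχ'c
  have hord' : Cfsg.detOrder χ' = orderOf φ' := by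
    unfold Cfsg.detOrder
    rw [orderOf_eq_orderOf_iff]
    intro k
    constructor
    · intro h
      ext g
      have h1 := congrFun h g
      simp only [Pi.pow_apply, Pi.one_apply, hφ'] at h1
      simpa using h1
    · intro h
      funext g
      have h1 := congrArg (fun F : G →* ℂˣ => ((F g : ℂˣ) : ℂ)) h
      simp only [MonoidHom.pow_apply, MonoidHom.one_apply] at h1
      simp only [Pi.pow_apply, Pi.one_apply, hφ']
      simpa using h1
  have hrel : ∀ g : G, φ' g = β g ^ d * μ g := by
    intro g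
    have h1 := detChar_mul_hom hχc β d hd' g
    rw [← hβ2, hφ', hχdet] at h1
    apply Units.ext
    simpa [μf] using h1
  have hβm : ∀ g : G, β g ^ N.index = 1 := by
    intro g
    rw [← map_pow]
    have hmem : g ^ N.index ∈ N := Subgroup.pow_index_mem N g
    have := hβ1 ⟨_, hmem⟩
    apply Units.ext
    simpa using this
  -- exponent of `β`
  have hβo : ∀ g : G, β g ^ (d * (orderOf φ' * orderOf μ)) = 1 := by
    intro g
    have h1 : φ' g ^ orderOf φ' = 1 := by
      have := congrArg (fun F : G →* ℂˣ => F g) (pow_orderOf_eq_one φ')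
      simp only [MonoidHom.pow_apply, MonoidHom.one_apply] at this
      exact this
    have h2 : μ g ^ orderOf μ = 1 := by
      have := congrArg (fun F : G →* ℂˣ => F g) (pow_orderOf_eq_one μ)
      simp only [MonoidHom.pow_apply, MonoidHom.one_apply] at this
      exact this
    have h3 : β g ^ d = φ' g * (μ g)⁻¹ := by
      rw [hrel g]
      group
    rw [pow_mul, h3, mul_pow, inv_pow, pow_mul, h1, one_pow, one_mul, mul_comm (orderOf φ'), pow_mul,
      h2, one_pow, inv_one]
  have hcop3 : Nat.Coprime N.index (d * (orderOf φ' * orderOf μ)) := by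
    rw [hμ2, ← hord, ← hord']
    exact Nat.Coprime.mul_right hc2 (Nat.Coprime.mul_right hχ'ord hc1)
  have hβ3 : ∀ g : G, β g = 1 := by
    intro g
    have h1 := (pow_gcd_eq_one (a := β g) (m := N.index) (n := d * (orderOf φ' * orderOf μ))).mpr
      ⟨hβm g, hβo g⟩
    rwa [hcop3, pow_one] at h1
  rw [hβ2]
  funext g
  simp [hβ3 g]

end Cfsg.Agent.S0867
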