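import Cfsg.Statements.S0868
import Mathlib
import Cfsg.Agent.Lib.Char.GallagherAvg
-- import your own Cfsg.Agent.* helpers here

set_option autoImplicit false
open scoped ComplexConjugate
open Cfsg

namespace Cfsg.Agent.S0868

open Cfsg.Agent.Lib.Char.Basic Cfsg.Agent.Lib.Char.Ortho Cfsg.Agent.Lib.Char.Induced
  Cfsg.Agent.Lib.Char.IndRep Cfsg.Agent.Lib.Char.Clifford Cfsg.Agent.Lib.Char.CliffordCorr
  Cfsg.Agent.Lib.Char.Gallagher Cfsg.Agent.Lib.Char.GallagherAvg

/-- Let N be a normal subgroup of the finite group G, χ an irreducible character of G whose restriction ϑ to N is irreducible, and ψ an irreducible character of G. Define η on G by η g = (1 / order of N) * Σ over n in N of ψ (n * g) * conj (χ (n * g)). Then: if the restriction of ψ to N has nonzero inner product with ϑ, η is an irreducible character of G; if that inner product is zero, η vanishes identically; and if ψ = χ then η is identically 1. -/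
theorem result {G : Type*} [Group G] [Fintype G] (N : Subgroup G) [N.Normal] [Fintype N] (χ : G → ℂ) (hχ : Cfsg.IsIrrCharacter G χ) (hχN : Cfsg.IsIrrCharacter N (fun n : N => χ n)) (ψ : G → ℂ) (hψ : Cfsg.IsIrrCharacter G ψ) (η : G → ℂ) (hη : η = fun g => (Nat.card N : ℂ)⁻¹ * ∑ n : N, ψ ((n : G) * g) * conj (χ ((n : G) * g))) : (Cfsg.classInner (fun n : N => ψ n) (fun n : N => χ n) ≠ 0 → Cfsg.IsIrrCharacter G η) ∧ (Cfsg.classInner (fun n : N => ψ n) (fun n : N => χ n) = 0 → η = 0) ∧ (ψ = χ → η = fun _ => 1) := by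
  classical
  have hχc := isCharacter_of_isIrrCharacter hχ
  have hχcl := isClassFunction_of_isCharacter hχc
  have hψc := isCharacter_of_isIrrCharacter hψ
  have hψcl := isClassFunction_of_isCharacter hψc
  set ϑ : N → ℂ := fun n : N => χ n with hϑdef
  have hϑinv : ∀ (g : G) (n : N), ϑ ⟨g * n * g⁻¹, (inferInstance : N.Normal).conj_mem (n : G) n.2 g⟩ = ϑ n :=
    fun g n => hχcl n g
  have hone : IsIrrCharacter N (fun _ => 1) := Cfsg.Agent.Lib.Char.Burnside2.isIrrCharacter_one
  have hmul : (fun _ : N => (1 : ℂ)) * ϑ = ϑ := by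
    funext n
    simp
  have hbij := gallagher_bijOn N (φ := fun _ : N => (1 : ℂ)) (ϑ := ϑ) hone (fun _ _ => rfl) hϑinv
    (by rw [hmul]; exact hχN) hχ (fun _ => rfl)
  rw [hmul] at hbij
  -- membership in the source
  have hA : ∀ τ : G → ℂ, IsIrrCharacter G τ →
      (classInner (indFun N (fun _ : N => (1 : ℂ))) τ ≠ 0 ↔ ∑ n : N, τ n ≠ 0) := by
    intro τ hτ
    rw [frobenius_reciprocity N _ τ (isClassFunction_of_isCharacter
      (isCharacter_of_isIrrCharacter hτ))]
    have h1 : classInner (fun _ : N => (1 : ℂ)) (fun n : N => τ n) =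
        (Nat.card N : ℂ)⁻¹ * (starRingEnd ℂ) (∑ n : N, τ n) := by
      rw [classInner_def, map_sum]
      simp
    rw [h1]
    constructor
    · intro h h0
      apply h
      rw [h0]
      simp
    · intro h
      refine mul_ne_zero (inv_ne_zero natCard_ne_zero_complex) ?_
      exact (map_ne_zero (starRingEnd ℂ)).mpr h
  -- `ϑ`-membership of `ψ`
  have hB : ∀ γ : G → ℂ, IsIrrCharacter G γ →
      (classInner (indFun N ϑ) γ ≠ 0 ↔ classInner (fun n : N => γ n) ϑ ≠ 0) := by
    intro γ hγ
    rw [frobenius_reciprocity N _ γ (isClassFunction_of_isCharacter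
      (isCharacter_of_isIrrCharacter hγ))]
    constructor
    · intro h h0
      apply h
      rw [← classInner_conj_symm, h0]
      simp
    · intro h h0
      apply h
      rw [← classInner_conj_symm, h0]
      simp
  -- the expansion
  have hQ : IsCharacter G (ψ * fun g => (starRingEnd ℂ) (χ g)) :=
    isCharacter_mul hψc (isCharacter_conj hχc)
  have hQτ : ∀ τ : G → ℂ, classInner (ψ * fun g => (starRingEnd ℂ) (χ g)) τ =
      classInner ψ (τ * χ) := by
    intro τ
    simp only [classInner_def, Pi.mul_apply, map_mul]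
    congr 1
    refine Finset.sum_congr rfl (fun g _ => by ring)
  have hkey : ∀ g : G, η g = ∑ τ : IrrCharacter G, classInner ψ ((τ : G → ℂ) * χ) *
      (if ∑ n : N, (τ : G → ℂ) n ≠ 0 then (τ : G → ℂ) g else 0) := by
    intro g
    rw [hη]
    have hdec := decomp_eq_sum_classInner hQ
    have h1 : ∀ n : N, ψ ((n : G) * g) * (starRingEnd ℂ) (χ ((n : G) * g)) =
        ∑ τ : IrrCharacter G, classInner ψ ((τ : G → ℂ) * χ) * (τ : G → ℂ) ((n : G) * g) := by
      intro n
      have := congrFun hdec ((n : G) * g)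
      simp only [Pi.mul_apply, Finset.sum_apply, Pi.smul_apply, smul_eq_mul, hQτ] at this
      exact this
    simp only [h1]
    rw [Finset.sum_comm, Finset.mul_sum]
    refine Finset.sum_congr rfl (fun τ _ => ?_)
    rw [← Finset.mul_sum, mul_left_comm]
    congr 1
    split_ifs with hτ
    · rw [sum_mul_eq_card_mul N τ.2 hτ g]
      field_simp [natCard_ne_zero_complex (G := N)]
    · rw [sum_mul_eq_zero N τ.2 (by simpa using hτ) g]
      simp
  -- the case of `ψ` over `ϑ`
  have hcase : ∀ β₀ : G → ℂ, IsIrrCharacter G β₀ → ∑ n : N, β₀ n ≠ 0 → β₀ * χ = ψ → η = β₀ := by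
    intro β₀ hβ₀ hβ₀2 hβ₀3
    funext g
    rw [hkey g, Finset.sum_eq_single (⟨β₀, hβ₀⟩ : IrrCharacter G)]
    · simp only
      rw [if_pos hβ₀2, ← hβ₀3, classInner_irr_self (by rw [hβ₀3]; exact hψ), one_mul]
    · intro τ _ hτ
      split_ifs with h2
      · have h3 : (τ : G → ℂ) ∈ {β : G → ℂ | IsIrrCharacter G β ∧
            classInner (indFun N (fun _ : N => (1 : ℂ))) β ≠ 0} :=
          ⟨τ.2, (hA τ τ.2).mpr h2⟩
        have h4 : β₀ ∈ {β : G → ℂ | IsIrrCharacter G β ∧
            classInner (indFun N (fun _ : N => (1 : ℂ))) β ≠ 0} :=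
          ⟨hβ₀, (hA β₀ hβ₀).mpr hβ₀2⟩
        have h5 : (τ : G → ℂ) * χ ≠ ψ := by
          intro h6
          apply hτ
          apply Subtype.ext
          apply hbij.injOn h3 h4
          change (τ : G → ℂ) * χ = β₀ * χ
          rw [h6, hβ₀3]
        have h6 : IsIrrCharacter G ((τ : G → ℂ) * χ) := (hbij.mapsTo h3).1
        rw [classInner_irr_of_ne hψ h6 (Ne.symm h5)]
        simp
      · simp
    · intro h3
      exact absurd (Finset.mem_univ _) h3
  refine ⟨?_, ?_, ?_⟩
  · intro hne
    have hψB : ψ ∈ {ψ : G → ℂ | IsIrrCharacter G ψ ∧ classInner (indFun N ϑ) ψ ≠ 0} :=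
      ⟨hψ, (hB ψ hψ).mpr hne⟩
    obtain ⟨β₀, hβ₀, h3⟩ := hbij.surjOn hψB
    rw [hcase β₀ hβ₀.1 ((hA β₀ hβ₀.1).mp hβ₀.2) h3]
    exact hβ₀.1
  · intro hzero
    funext g
    rw [hkey g]
    refine Finset.sum_eq_zero (fun τ _ => ?_)
    split_ifs with h2
    · have h3 : (τ : G → ℂ) ∈ {β : G → ℂ | IsIrrCharacter G β ∧
          classInner (indFun N (fun _ : N => (1 : ℂ))) β ≠ 0} :=
        ⟨τ.2, (hA τ τ.2).mpr h2⟩
      have h4 := hbij.mapsTo h3
      have h5 : (τ : G → ℂ) * χ ≠ ψ := by
        intro h6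
        have h7 := (hB _ h4.1).mp h4.2
        change classInner (fun n : N => ((τ : G → ℂ) * χ) n) ϑ ≠ 0 at h7
        rw [h6] at h7
        exact h7 hzero
      rw [classInner_irr_of_ne hψ h4.1 (Ne.symm h5)]
      simp
    · simp
  · intro hψχ
    have h1 : (fun _ : G => (1 : ℂ)) * χ = ψ := by
      rw [hψχ]
      funext g
      simp
    have h2 : ∑ n : N, (fun _ : G => (1 : ℂ)) (n : G) ≠ 0 := by
      simp only [Finset.sum_const, Finset.card_univ, nsmul_eq_mul, mul_one]
      exact_mod_cast Fintype.card_ne_zero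
    exact hcase _ Cfsg.Agent.Lib.Char.Burnside2.isIrrCharacter_one h2 h1

end Cfsg.Agent.S0868
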