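import Cfsg.Statements.S0869
import Mathlib
-- import your own Cfsg.Agent.* helpers here

set_option autoImplicit false
open Cfsg

namespace Cfsg.Agent.S0869

/-- Let S be a nonempty finite type and R an additive subgroup of the integer-valued functions on S that is closed under pointwise multiplication. If the constant function 1 is not in R, then there exist a point x of S and a prime p such that p divides f x for every f in R. -/
theorem result {S : Type*} [Finite S] [Nonempty S] (R : AddSubgroup (S → ℤ)) (hmul : ∀ f ∈ R, ∀ g ∈ R, f * g ∈ R) (h1 : (1 : S → ℤ) ∉ R) : ∃ (x : S) (p : ℕ), p.Prime ∧ ∀ f ∈ R, (p : ℤ) ∣ f x := by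
  classical
  by_contra hcon
  push Not at hcon
  -- for each x there is an element of R taking the value 1 at x
  have key : ∀ x : S, ∃ f ∈ R, f x = 1 := by
    intro x
    -- the values at x form an additive subgroup of ℤ
    let ev : (S → ℤ) →+ ℤ := Pi.evalAddMonoidHom (fun _ => ℤ) x
    let I : AddSubgroup ℤ := R.map ev
    obtain ⟨d, hd⟩ : ∃ d : ℤ, I = AddSubgroup.zmultiples d := by
      obtain ⟨a, ha⟩ := Int.subgroup_cyclic I
      exact ⟨a, by rw [ha, AddSubgroup.zmultiples_eq_closure]⟩
    have hval : ∀ f ∈ R, d ∣ f x := by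
      intro f hf
      have : ev f ∈ I := ⟨f, hf, rfl⟩
      rw [hd, AddSubgroup.mem_zmultiples_iff] at this
      obtain ⟨k, hk⟩ := this
      exact ⟨k, by simpa [ev, mul_comm] using hk.symm⟩
    have hdmem : d ∈ I := by rw [hd]; exact AddSubgroup.mem_zmultiples d
    obtain ⟨f0, hf0, hf0d⟩ := hdmem
    have hnatAbs : d.natAbs = 1 := by
      by_contra hne
      obtain ⟨p, hp, hpd⟩ := Nat.exists_prime_and_dvd hne
      obtain ⟨f, hf, hnd⟩ := hcon x p hp
      apply hnd
      have h1 : (p : ℤ) ∣ d := Int.natCast_dvd.mpr hpd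
      exact h1.trans (hval f hf)
    rcases Int.natAbs_eq d with h | h
    · rw [hnatAbs] at h
      refine ⟨f0, hf0, ?_⟩
      have : f0 x = d := hf0d
      rw [this, h]; rfl
    · rw [hnatAbs] at h
      refine ⟨-f0, R.neg_mem hf0, ?_⟩
      have : f0 x = d := hf0d
      simp [this, h]
  -- patch them together
  have patch : ∀ s : Finset S, ∃ g ∈ R, ∀ x ∈ s, g x = 1 := by
    intro s
    induction s using Finset.induction_on with
    | empty => exact ⟨0, R.zero_mem, by simp⟩
    | insert a s _ ih =>
      obtain ⟨g, hg, hgs⟩ := ih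
      obtain ⟨f, hf, hfa⟩ := key a
      refine ⟨g + f - g * f, R.sub_mem (R.add_mem hg hf) (hmul g hg f hf), ?_⟩
      intro x hx
      simp only [Pi.sub_apply, Pi.add_apply, Pi.mul_apply]
      rcases Finset.mem_insert.mp hx with rfl | hxs
      · rw [hfa]; ring
      · rw [hgs x hxs]; ring
  have := Fintype.ofFinite S
  obtain ⟨g, hg, hgu⟩ := patch Finset.univ
  have : g = 1 := by
    funext x
    exact hgu x (Finset.mem_univ x)
  exact h1 (this ▸ hg)

end Cfsg.Agent.S0869
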