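import Cfsg.Statements.S0873
import Mathlib

set_option autoImplicit false
open Cfsg

namespace Cfsg.Agent.S0873

/-- Let C be a normal subgroup of the finite group G of order prime to p and P a p-subgroup with C ⊔ P = G. Let λ be a character of C of degree 1 invariant under conjugation by G and equal to 1 at every element of C centralized by P. Then λ is identically 1. -/
theorem result {G : Type*} [Group G] [Finite G] (p : ℕ) [Fact p.Prime] (C P : Subgroup G) [hC : C.Normal] (hP : IsPGroup p P) (hcop : Nat.Coprime (Nat.card C) p) (hCP : C ⊔ P = ⊤) (lam : C → ℂ) (hlam : Cfsg.IsCharacter C lam ∧ lam 1 = 1) (hinv : ∀ (g : G) (c : C), lam ⟨g * c * g⁻¹, hC.conj_mem (c : G) c.2 g⟩ = lam c) (hker : ∀ c : C, (c : G) ∈ Subgroup.centralizer (P : Set G) → lam c = 1) : lam = fun _ => 1 := by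
  classical
  obtain ⟨⟨n, ρ, hρ⟩, h1⟩ := hlam
  -- the dimension is 1
  have hn : n = 1 := by
    have := congrFun hρ 1
    rw [Representation.char_one, h1] at this
    simp at this
    exact_mod_cast this
  subst hn
  -- lam is multiplicative
  have hmul : ∀ x y : C, lam (x * y) = lam x * lam y := by
    intro x y
    rw [← hρ]
    simp only [Representation.character, map_mul]
    rw [LinearMap.trace_eq_matrix_trace ℂ (Pi.basisFun ℂ (Fin 1)),
      LinearMap.trace_eq_matrix_trace ℂ (Pi.basisFun ℂ (Fin 1)),
      LinearMap.trace_eq_matrix_trace ℂ (Pi.basisFun ℂ (Fin 1)), LinearMap.toMatrix_mul]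
    simp [Matrix.trace, Matrix.mul_apply]
  funext c
  -- the kernel
  let K : Subgroup C :=
    { carrier := {x | lam x = 1}
      mul_mem' := fun {a b} ha hb => by
        show lam (a * b) = 1
        rw [hmul, show lam a = 1 from ha, show lam b = 1 from hb, one_mul]
      one_mem' := h1
      inv_mem' := fun {a} ha => by
        show lam a⁻¹ = 1
        have := hmul a a⁻¹
        rw [mul_inv_cancel, h1, show lam a = 1 from ha, one_mul] at this
        exact this.symm }
  -- the fibre of lam through c
  let X := {x : C // lam x = lam c}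
  have hconjmem : ∀ (g : P) (x : C), (g : G) * x * (g : G)⁻¹ ∈ C :=
    fun g x => hC.conj_mem (x : G) x.2 g
  letI : MulAction P X :=
    { smul := fun g x => ⟨⟨(g : G) * x.1 * (g : G)⁻¹, hconjmem g x.1⟩,
        (hinv g x.1).trans x.2⟩
      one_smul := by
        intro x
        apply Subtype.ext
        apply Subtype.ext
        show ((1 : P) : G) * x.1 * ((1 : P) : G)⁻¹ = x.1
        simp
      mul_smul := by
        intro a b x
        apply Subtype.ext
        apply Subtype.ext
        show ((a * b : P) : G) * x.1 * ((a * b : P) : G)⁻¹ = (a : G) * ((b : G) * x.1 * (b : G)⁻¹) * (a : G)⁻¹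
        simp [mul_assoc] }
  have hsmul : ∀ (g : P) (x : X), (((g • x : X) : C) : G) = (g : G) * x.1 * (g : G)⁻¹ := fun _ _ => rfl
  -- size of the fibre
  have hcard : Nat.card X = Nat.card K := by
    refine Nat.card_congr ?_
    have hmemK : ∀ x : X, c⁻¹ * x.1 ∈ K := by
      intro x
      show lam (c⁻¹ * x.1) = 1
      have h2 := hmul c⁻¹ c
      rw [inv_mul_cancel, h1] at h2
      rw [hmul, x.2]
      exact h2.symm
    have hmemX : ∀ k : K, lam (c * k.1) = lam c := by
      intro k
      rw [hmul, show lam k.1 = 1 from k.2, mul_one]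
    exact
      { toFun := fun x => ⟨c⁻¹ * x.1, hmemK x⟩
        invFun := fun k => ⟨c * k.1, hmemX k⟩
        left_inv := fun x => by apply Subtype.ext; simp
        right_inv := fun k => by apply Subtype.ext; simp }
  have hpX : ¬ p ∣ Nat.card X := by
    rw [hcard]
    intro hd
    have hd2 : p ∣ Nat.card C := hd.trans (Subgroup.card_subgroup_dvd_card K)
    have hp : p.Prime := Fact.out
    have := Nat.dvd_gcd hd2 (dvd_refl p)
    rw [Nat.Coprime.gcd_eq_one hcop] at this
    exact hp.one_lt.ne' (Nat.dvd_one.mp this)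
  obtain ⟨x, hx⟩ := hP.nonempty_fixed_point_of_prime_not_dvd_card X hpX
  have hxc : ((x.1 : C) : G) ∈ Subgroup.centralizer (P : Set G) := by
    rw [Subgroup.mem_centralizer_iff]
    intro g hg
    have := hx ⟨g, hg⟩
    have h3 := hsmul ⟨g, hg⟩ x
    rw [this] at h3
    simp only at h3
    have h4 : g * (x.1 : G) * g⁻¹ = x.1 := h3.symm
    calc g * (x.1 : G) = g * (x.1 : G) * g⁻¹ * g := by group
      _ = x.1 * g := by rw [h4]
  have := hker x.1 hxc
  rw [← x.2, this]

end Cfsg.Agent.S0873
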