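import Cfsg.Statements.S0878
import Mathlib

set_option autoImplicit false
open Cfsg

namespace Cfsg.Agent.S0878

open MulAction

/-- The Frobenius count: if `A` is transitive on `X` and each non-identity element fixes at most one
point, then the identity together with the derangements makes up at most `|X|` elements. -/
theorem card_fpf_le {A X : Type*} [Group A] [Fintype A] [DecidableEq A] [MulAction A X] [Fintype X]
    [DecidableEq X] [Nonempty X] [IsPretransitive A X]
    (h : ∀ g : A, g ≠ 1 → ∀ x y : X, g • x = x → g • y = y → x = y) :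
    (Finset.univ.filter (fun g : A => g = 1 ∨ ∀ x : X, g • x ≠ x)).card ≤ Fintype.card X := by
  classical
  have hburn := MulAction.sum_card_fixedBy_eq_card_orbits_mul_card_group A X
  have horb : Fintype.card (orbitRel.Quotient A X) = 1 := by
    rw [Fintype.card_eq_one_iff]
    have := IsPretransitive.exists_smul_eq (M := A) (α := X)
    refine ⟨Quotient.mk'' (Classical.arbitrary X), ?_⟩
    intro y
    induction y using Quotient.inductionOn' with
    | h y =>
      rw [Quotient.eq'', orbitRel_apply, orbit_eq_univ]
      trivial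
  rw [horb, one_mul] at hburn
  have hterm : ∀ g : A, Fintype.card (fixedBy X g) + (if (g = 1 ∨ ∀ x : X, g • x ≠ x) then 1 else 0)
      ≤ 1 + (if g = 1 then Fintype.card X else 0) := by
    intro g
    by_cases hg : g = 1
    · subst hg
      simp only [true_or, if_true]
      have : Fintype.card (fixedBy X (1 : A)) ≤ Fintype.card X :=
        Fintype.card_subtype_le _
      omega
    · rw [if_neg hg, add_zero]
      have hiff : (g = 1 ∨ ∀ x : X, g • x ≠ x) ↔ ∀ x : X, g • x ≠ x := by
        simp [hg]
      by_cases hfix : ∀ x : X, g • x ≠ x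
      · rw [if_pos (hiff.mpr hfix)]
        have : Fintype.card (fixedBy X g) = 0 := by
          rw [Fintype.card_eq_zero_iff]
          exact ⟨fun x => hfix x.1 x.2⟩
        omega
      · rw [if_neg (fun h' => hfix (hiff.mp h')), add_zero]
        rw [Fintype.card_le_one_iff]
        intro x y
        apply Subtype.ext
        exact h g hg _ _ x.2 y.2
  have hsum := Finset.sum_le_sum (fun g (_ : g ∈ (Finset.univ : Finset A)) => hterm g)
  rw [Finset.sum_add_distrib, Finset.sum_add_distrib, hburn] at hsum
  rw [Finset.card_filter]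
  simp only [Finset.sum_const, Finset.card_univ, smul_eq_mul, mul_one, Finset.sum_ite_eq',
    Finset.mem_univ, if_true] at hsum
  omega

/-- Let G be a Zassenhaus group on the finite set Ω, a a point, and let H be the subgroup of the stabilizer of a consisting of the identity and the elements fixing no point other than a (given here as a subgroup of the stabilizer of order one less than the number of points whose non-identity elements fix only a; it is the Frobenius kernel of the stabilizer). Then an element outside the stabilizer of a conjugates no non-identity element of H into H, and the normalizer of H is exactly the stabilizer of a. -/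
theorem result {G Ω : Type*} [Group G] [Finite G] [MulAction G Ω] [Fintype Ω] (hZ : Cfsg.IsZassenhausGroup G Ω) (a : Ω) (H : Subgroup G) (hHa : H ≤ MulAction.stabilizer G a) (hHcard : Nat.card H + 1 = Fintype.card Ω) (hHfix : ∀ u ∈ H, u ≠ 1 → ∀ c : Ω, u • c = c → c = a) : (∀ g : G, g ∉ MulAction.stabilizer G a → ∀ u ∈ H, g * u * g⁻¹ ∈ H → u = 1) ∧ Subgroup.normalizer (H : Set G) = MulAction.stabilizer G a := by
  classical
  obtain ⟨hfaith, h2, h3, ⟨g0, hg0, a0, b0, hab0, hg0a, hg0b⟩, -⟩ := hZ
  have htr : ∀ {a b c d : Ω}, a ≠ b → c ≠ d → ∃ g : G, g • a = c ∧ g • b = d :=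
    fun {a b c d} h h' => is_two_pretransitive_iff.mp h2 h h'
  have hpart1 : ∀ g : G, g ∉ stabilizer G a → ∀ u ∈ H, g * u * g⁻¹ ∈ H → u = 1 := by
    intro g hg u hu hv
    by_contra hne
    apply hg
    have hua : u • a = a := hHa hu
    have hva : (g * u * g⁻¹) • (g • a) = g • a := by
      rw [mul_smul, mul_smul, inv_smul_smul, hua]
    have hvne : g * u * g⁻¹ ≠ 1 := by
      intro h
      apply hne
      have : u = g⁻¹ * (g * u * g⁻¹) * g := by group
      rw [this, h]
      group
    exact hHfix _ hv hvne _ hva
  refine ⟨hpart1, ?_⟩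
  -- `H` is nontrivial
  have hΩ3 : 3 ≤ Fintype.card Ω := by
    by_contra hlt
    have hlt' : Fintype.card Ω ≤ 2 := by omega
    apply hg0
    apply hfaith.eq_of_smul_eq_smul
    intro c
    rw [one_smul]
    by_cases hc : c = a0
    · rw [hc]; exact hg0a
    by_cases hc' : c = b0
    · rw [hc']; exact hg0b
    · have : ({a0, b0, c} : Finset Ω).card = 3 := by
        rw [Finset.card_eq_three]
        exact ⟨a0, b0, c, hab0, fun h => hc h.symm, fun h => hc' h.symm, rfl⟩
      have h4 := Finset.card_le_univ ({a0, b0, c} : Finset Ω)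
      omega
  have hHnt : Nontrivial H := by
    rw [← Finite.one_lt_card_iff_nontrivial]
    omega
  obtain ⟨⟨u0, hu0⟩, hu0ne⟩ := exists_ne (1 : H)
  have hu0ne' : u0 ≠ 1 := fun h => hu0ne (Subtype.ext h)
  apply le_antisymm
  · intro g hg
    by_contra hga
    rw [Subgroup.mem_normalizer_iff] at hg
    exact hu0ne' (hpart1 g hga u0 hu0 ((hg u0).mp hu0))
  -- the count
  have hne : Nonempty (SubMulAction.ofStabilizer G a) := by
    by_contra hcon
    rw [not_nonempty_iff] at hcon
    have := u0
    have hb : ∃ b : Ω, b ≠ a := by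
      by_contra h
      push Not at h
      have : Fintype.card Ω ≤ 1 := Fintype.card_le_one_iff.mpr (fun x y => (h x).trans (h y).symm)
      omega
    obtain ⟨b, hb⟩ := hb
    exact hcon.elim ⟨b, hb⟩
  have : Fintype (stabilizer G a) := Fintype.ofFinite _
  have : Fintype (SubMulAction.ofStabilizer G a) := Fintype.ofFinite _
  have htrans : IsPretransitive (stabilizer G a) (SubMulAction.ofStabilizer G a) := by
    refine ⟨fun x y => ?_⟩
    obtain ⟨g, hg1, hg2⟩ := htr (a := a) (b := x.1) (c := a) (d := y.1) (Ne.symm x.2) (Ne.symm y.2)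
    exact ⟨⟨g, hg1⟩, Subtype.ext hg2⟩
  have hcount := card_fpf_le (A := stabilizer G a) (X := SubMulAction.ofStabilizer G a) (by
    intro g hg x y hx hy
    apply Subtype.ext
    by_contra hxy
    apply hg
    apply Subtype.ext
    have hx' : (g : G) • (x : Ω) = x := congrArg Subtype.val hx
    have hy' : (g : G) • (y : Ω) = y := congrArg Subtype.val hy
    exact h3 g a x y (Ne.symm x.2) hxy (Ne.symm y.2) g.2 hx' hy')
  have hXcard : Fintype.card (SubMulAction.ofStabilizer G a) + 1 = Fintype.card Ω := by
    have := SubMulAction.nat_card_ofStabilizer_add_one_eq (G := G) a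
    simpa [Nat.card_eq_fintype_card] using this
  -- `H` inside the stabilizer
  let H' : Finset (stabilizer G a) := Finset.univ.filter (fun g => (g : G) ∈ H)
  have : Fintype H := Fintype.ofFinite _
  have hH'card : H'.card = Nat.card H := by
    rw [Nat.card_eq_fintype_card, ← Fintype.card_subtype]
    refine Fintype.card_congr
      { toFun := fun x => ⟨x.1.1, x.2⟩
        invFun := fun x => ⟨⟨x.1, hHa x.2⟩, x.2⟩
        left_inv := fun x => rfl
        right_inv := fun x => rfl }
  have hsub : H' ⊆ Finset.univ.filter (fun g : stabilizer G a =>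
      g = 1 ∨ ∀ x : SubMulAction.ofStabilizer G a, g • x ≠ x) := by
    intro g hg
    have hg' : (g : G) ∈ H := (Finset.mem_filter.mp hg).2
    rw [Finset.mem_filter]
    refine ⟨Finset.mem_univ _, ?_⟩
    by_cases hg1 : g = 1
    · exact Or.inl hg1
    · right
      intro x hx
      have hx' : (g : G) • (x : Ω) = x := congrArg Subtype.val hx
      exact x.2 (hHfix _ hg' (fun h => hg1 (Subtype.ext h)) _ hx')
  have heq := Finset.eq_of_subset_of_card_le hsub (by omega)
  have hmemH : ∀ g : stabilizer G a, (g = 1 ∨ ∀ x : SubMulAction.ofStabilizer G a, g • x ≠ x) →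
      (g : G) ∈ H := by
    intro g hg
    have : g ∈ H' := by
      rw [heq, Finset.mem_filter]
      exact ⟨Finset.mem_univ _, hg⟩
    exact (Finset.mem_filter.mp this).2
  have hconj : ∀ g : G, g • a = a → ∀ u ∈ H, g * u * g⁻¹ ∈ H := by
    intro g hg u hu
    have hgi : g⁻¹ • a = a := by rw [inv_smul_eq_iff]; exact hg.symm
    have hmem : g * u * g⁻¹ ∈ stabilizer G a := by
      rw [mem_stabilizer_iff, mul_smul, mul_smul, hgi, hHa hu, hg]
    by_cases hu1 : u = 1
    · rw [hu1]; simp [H.one_mem]
    refine hmemH ⟨g * u * g⁻¹, hmem⟩ (Or.inr ?_)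
    intro x hx
    have hx' : (g * u * g⁻¹) • (x : Ω) = x := congrArg Subtype.val hx
    rw [mul_smul, mul_smul] at hx'
    have hfx : u • (g⁻¹ • (x : Ω)) = g⁻¹ • (x : Ω) := by
      rw [eq_inv_smul_iff]; exact hx'
    have := hHfix u hu hu1 _ hfx
    rw [inv_smul_eq_iff, hg] at this
    exact x.2 this
  intro g hg
  rw [Subgroup.mem_normalizer_iff]
  intro u
  constructor
  · exact hconj g hg u
  · intro h
    have hgi : g⁻¹ • a = a := by rw [inv_smul_eq_iff]; exact (mem_stabilizer_iff.mp hg).symm
    have := hconj g⁻¹ hgi _ h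
    have e : g⁻¹ * (g * u * g⁻¹) * g⁻¹⁻¹ = u := by group
    rwa [e] at this

end Cfsg.Agent.S0878
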