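import Cfsg.Statements.S0879
import Mathlib
-- import your own Cfsg.Agent.* helpers here

set_option autoImplicit false
open Cfsg

namespace Cfsg.Agent.S0879

open MulAction

/-- Let G be a Zassenhaus group on the finite set Ω and E the stabilizer of two distinct points a, b. Then an element outside the normalizer of E conjugates no non-identity element of E into E, and E has index 2 in its normalizer. -/
theorem result {G Ω : Type*} [Group G] [Finite G] [MulAction G Ω] [Fintype Ω] (hZ : Cfsg.IsZassenhausGroup G Ω) {a b : Ω} (hab : a ≠ b) : (∀ g : G, g ∉ Subgroup.normalizer ((MulAction.stabilizer G a ⊓ MulAction.stabilizer G b : Subgroup G) : Set G) → ∀ x ∈ (MulAction.stabilizer G a ⊓ MulAction.stabilizer G b : Subgroup G), g * x * g⁻¹ ∈ (MulAction.stabilizer G a ⊓ MulAction.stabilizer G b : Subgroup G) → x = 1) ∧ ((MulAction.stabilizer G a ⊓ MulAction.stabilizer G b : Subgroup G).subgroupOf (Subgroup.normalizer ((MulAction.stabilizer G a ⊓ MulAction.stabilizer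 G b : Subgroup G) : Set G))).index = 2 := by
  classical
  obtain ⟨hfaith, h2, h3, ⟨g0, hg0, a0, b0, hab0, hg0a, hg0b⟩, -⟩ := hZ
  have htr : ∀ {a b c d : Ω}, a ≠ b → c ≠ d → ∃ g : G, g • a = c ∧ g • b = d :=
    fun {a b c d} h h' => is_two_pretransitive_iff.mp h2 h h'
  set E : Subgroup G := stabilizer G a ⊓ stabilizer G b with hE
  have hEmem : ∀ x : G, x ∈ E ↔ x • a = a ∧ x • b = b := by
    intro x
    rw [hE, Subgroup.mem_inf, mem_stabilizer_iff, mem_stabilizer_iff]
  have hEne : ∃ x ∈ E, x ≠ 1 := by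
    obtain ⟨g, h1, h4⟩ := htr hab0 hab
    refine ⟨g * g0 * g⁻¹, ?_, ?_⟩
    · rw [hEmem]
      constructor
      · rw [← h1, mul_smul, mul_smul, inv_smul_smul, hg0a]
      · rw [← h4, mul_smul, mul_smul, inv_smul_smul, hg0b]
    · intro h
      apply hg0
      have : g0 = g⁻¹ * (g * g0 * g⁻¹) * g := by group
      rw [this, h]
      group
  have hconj : ∀ g : G, ((g • a = a ∧ g • b = b) ∨ (g • a = b ∧ g • b = a)) →
      ∀ h ∈ E, g * h * g⁻¹ ∈ E := by
    rintro g hg h hh
    rw [hEmem] at hh ⊢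
    rcases hg with ⟨h1, h4⟩ | ⟨h1, h4⟩
    · have e1 : g⁻¹ • a = a := inv_smul_eq_iff.mpr h1.symm
      have e2 : g⁻¹ • b = b := inv_smul_eq_iff.mpr h4.symm
      constructor
      · rw [mul_smul, mul_smul, e1, hh.1, h1]
      · rw [mul_smul, mul_smul, e2, hh.2, h4]
    · have e1 : g⁻¹ • a = b := inv_smul_eq_iff.mpr h4.symm
      have e2 : g⁻¹ • b = a := inv_smul_eq_iff.mpr h1.symm
      constructor
      · rw [mul_smul, mul_smul, e1, hh.2, h4]
      · rw [mul_smul, mul_smul, e2, hh.1, h1]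
  have hinvset : ∀ g : G, ((g • a = a ∧ g • b = b) ∨ (g • a = b ∧ g • b = a)) →
      ((g⁻¹ • a = a ∧ g⁻¹ • b = b) ∨ (g⁻¹ • a = b ∧ g⁻¹ • b = a)) := by
    rintro g (⟨h1, h4⟩ | ⟨h1, h4⟩)
    · exact Or.inl ⟨inv_smul_eq_iff.mpr h1.symm, inv_smul_eq_iff.mpr h4.symm⟩
    · exact Or.inr ⟨inv_smul_eq_iff.mpr h4.symm, inv_smul_eq_iff.mpr h1.symm⟩
  have hnorm : ∀ g : G, ((g • a = a ∧ g • b = b) ∨ (g • a = b ∧ g • b = a)) →
      g ∈ Subgroup.normalizer (E : Set G) := by
    intro g hg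
    rw [Subgroup.mem_normalizer_iff]
    intro h
    constructor
    · exact hconj g hg h
    · intro hh
      have := hconj g⁻¹ (hinvset g hg) _ hh
      have e : g⁻¹ * (g * h * g⁻¹) * g⁻¹⁻¹ = h := by group
      rwa [e] at this
  have hset : ∀ (g x : G), x ∈ E → x ≠ 1 → g * x * g⁻¹ ∈ E →
      ((g • a = a ∧ g • b = b) ∨ (g • a = b ∧ g • b = a)) := by
    intro g x hx hx1 hy
    rw [hEmem] at hx hy
    have hy1 : g * x * g⁻¹ ≠ 1 := by
      intro h
      apply hx1
      have : x = g⁻¹ * (g * x * g⁻¹) * g := by group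
      rw [this, h]
      group
    have hfix : ∀ c : Ω, (g * x * g⁻¹) • (g • c) = g • (x • c) := by
      intro c
      rw [mul_smul, mul_smul, inv_smul_smul]
    have hmem : ∀ c : Ω, x • c = c → g • c = a ∨ g • c = b := by
      intro c hc
      by_contra hcon
      push Not at hcon
      apply hy1
      apply h3 _ a b (g • c) hab (Ne.symm hcon.2) (Ne.symm hcon.1) hy.1 hy.2
      rw [hfix, hc]
    have hne : g • a ≠ g • b := fun h => hab (smul_left_cancel g h)
    rcases hmem a hx.1 with h1 | h1 <;> rcases hmem b hx.2 with h4 | h4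
    · exact absurd (h1.trans h4.symm) hne
    · exact Or.inl ⟨h1, h4⟩
    · exact Or.inr ⟨h1, h4⟩
    · exact absurd (h1.trans h4.symm) hne
  constructor
  · intro g hg x hx hy
    by_contra hx1
    exact hg (hnorm g (hset g x hx hx1 hy))
  · obtain ⟨s, hs1, hs2⟩ := htr hab hab.symm
    have hsN : s ∈ Subgroup.normalizer (E : Set G) := hnorm s (Or.inr ⟨hs1, hs2⟩)
    rw [Subgroup.index_eq_two_iff]
    refine ⟨⟨s, hsN⟩, ?_⟩
    rintro ⟨g, hg⟩
    simp only [Subgroup.mem_subgroupOf, Subgroup.coe_mul]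
    obtain ⟨x, hx, hx1⟩ := hEne
    have hy : g * x * g⁻¹ ∈ E := (Subgroup.mem_normalizer_iff.mp hg x).mp hx
    rcases hset g x hx hx1 hy with ⟨h1, h4⟩ | ⟨h1, h4⟩
    · right
      refine ⟨(hEmem g).mpr ⟨h1, h4⟩, ?_⟩
      intro hcon
      have := ((hEmem _).mp hcon).1
      rw [mul_smul, hs1, h4] at this
      exact hab this.symm
    · left
      refine ⟨(hEmem _).mpr ⟨by rw [mul_smul, hs1, h4], by rw [mul_smul, hs2, h1]⟩, ?_⟩
      intro hcon
      have := ((hEmem g).mp hcon).1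
      rw [h1] at this
      exact hab this.symm

end Cfsg.Agent.S0879
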