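import Cfsg.Statements.S0882
import Mathlib
import Cfsg.Agent.Lib.Zass.OddSimple

set_option autoImplicit false
open Cfsg

namespace Cfsg.Agent.S0882

/-- Let G be a finite simple Zassenhaus group on Ω with n = h + 1 points whose two-point stabilizer E has odd order e with 2e < h - 1. Then any two involutions of G are conjugate, and the number of involutions is e * (h + 1) if h is even and e * h if h is odd. -/
theorem result {G Ω : Type*} [Group G] [Finite G] [MulAction G Ω] [Fintype Ω] (hZ : Cfsg.IsZassenhausGroup G Ω) {a b : Ω} (hab : a ≠ b) [IsSimpleGroup G] (h e : ℕ) (hh : Fintype.card Ω = h + 1) (he : Nat.card ↥(MulAction.stabilizer G a ⊓ MulAction.stabilizer G b : Subgroup G) = e) (hodd : Odd e) (hlt : 2 * e < h - 1) : (∀ x y : G, orderOf x = 2 → orderOf y = 2 → IsConj x y) ∧ Nat.card {x : G // orderOf x = 2} = (if Even h then e * (h + 1) else e * h) := by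
  classical
  have hO := Cfsg.Agent.Lib.Zass.OddSimple.odd_all hZ hab (he ▸ hodd)
  have hhk : Nat.card (Cfsg.Agent.Lib.Zass.Basic.kernel hZ a) = h := by
    have h1 := Cfsg.Agent.Lib.Zass.Basic.card_kernel_add_one hZ a
    rw [Nat.card_eq_fintype_card (α := Ω), hh] at h1
    omega
  have hc := Cfsg.Agent.Lib.Zass.OddSimple.card_invol hZ hO hab
  rw [hhk, he] at hc
  constructor
  · intro x y hx hy
    obtain ⟨hx1, hx2⟩ := Cfsg.Agent.Lib.Zass.OddSimple.orderOf_eq_two_iff'.mp hx
    obtain ⟨hy1, hy2⟩ := Cfsg.Agent.Lib.Zass.OddSimple.orderOf_eq_two_iff'.mp hy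
    exact Cfsg.Agent.Lib.Zass.OddSimple.invol_conj hZ hO hx1 hx2 hy1 hy2
  · have h1 : Nat.card {x : G // orderOf x = 2} = Nat.card {z : G // z * z = 1 ∧ z ≠ 1} :=
      Nat.card_congr (Equiv.subtypeEquivRight fun z => Cfsg.Agent.Lib.Zass.OddSimple.orderOf_eq_two_iff')
    rw [h1]
    split_ifs with heven
    · exact hc.1 heven
    · exact hc.2 heven

end Cfsg.Agent.S0882
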