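import Cfsg.Statements.S0888
import Mathlib
import Cfsg.Agent.Lib.Char.DegreeDvd
import Cfsg.Agent.Lib.Char.CyclicExt
import Cfsg.Agent.Lib.Char.Integrality
import Cfsg.Agent.Lib.Char.RepEquiv
-- import your own Cfsg.Agent.* helpers here

set_option autoImplicit false
open Cfsg

namespace Cfsg.Agent.S0888

open Module Cfsg.Agent.Lib.Char.DegreeDvd

section Core

variable {G : Type*} [Group G] {N : Subgroup G} [hN : N.Normal]
  {W : Type*} [AddCommGroup W] [Module ℂ W] (Y : Representation ℂ N W)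

/-- Pairs `(g, T)` with `T ∈ GL(W)` implementing the conjugation by `g` on `Y`. -/
def Hat : Subgroup (G × (W ≃ₗ[ℂ] W)) where
  carrier := {p | ∀ (n : N) (w : W), p.2 (Y n w) = Y (cn p.1 n) (p.2 w)}
  one_mem' := by
    intro n w
    simp [cn_one]
  mul_mem' := by
    rintro a b ha hb n w
    show a.2 (b.2 (Y n w)) = Y (cn (a.1 * b.1) n) (a.2 (b.2 w))
    rw [hb, ha, cn_mul]
  inv_mem' := by
    rintro a ha n w
    apply a.2.injective
    show a.2 (a.2⁻¹ (Y n w)) = a.2 (Y (cn a.1⁻¹ n) (a.2⁻¹ w))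
    rw [ha, cn_inv_cn]
    have h : ∀ x : W, a.2 (a.2⁻¹ x) = x := fun x => a.2.apply_symm_apply x
    rw [h, h]

theorem hat_apply (p : Hat Y) (n : N) (w : W) :
    p.1.2 (Y n w) = Y (cn p.1.1 n) (p.1.2 w) := p.2 n w

/-- The projection to `G`. -/
def piHat : Hat Y →* G := (MonoidHom.fst G (W ≃ₗ[ℂ] W)).comp (Hat Y).subtype

@[simp] theorem piHat_apply (p : Hat Y) : piHat Y p = p.1.1 := rfl

/-- The scalar element over `1`. -/
noncomputable def zHat (c : ℂˣ) : Hat Y :=
  ⟨(1, LinearEquiv.smulOfNeZero ℂ W (c : ℂ) c.ne_zero), by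
    intro n w
    simp [cn_one]⟩

@[simp] theorem zHat_fst (c : ℂˣ) : (zHat Y c).1.1 = 1 := rfl

theorem zHat_apply (c : ℂˣ) (w : W) : (zHat Y c).1.2 w = (c : ℂ) • w := rfl

theorem hat_ext {x y : Hat Y} (h1 : x.1.1 = y.1.1) (h2 : ∀ w, x.1.2 w = y.1.2 w) : x = y := by
  apply Subtype.ext
  apply Prod.ext h1
  exact LinearEquiv.ext h2

theorem mul_fst (x y : Hat Y) : (x * y).1.1 = x.1.1 * y.1.1 := rfl
theorem mul_snd_apply (x y : Hat Y) (w : W) : (x * y).1.2 w = x.1.2 (y.1.2 w) := rfl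
theorem one_snd_apply (w : W) : (1 : Hat Y).1.2 w = w := rfl
theorem one_fst : (1 : Hat Y).1.1 = 1 := rfl
theorem inv_fst (x : Hat Y) : (x⁻¹).1.1 = x.1.1⁻¹ := rfl
theorem snd_inv_snd (x : Hat Y) (w : W) : x.1.2 ((x⁻¹).1.2 w) = w := by
  have := mul_snd_apply Y x x⁻¹ w
  rw [mul_inv_cancel, one_snd_apply] at this
  exact this.symm
theorem inv_snd_snd (x : Hat Y) (w : W) : (x⁻¹).1.2 (x.1.2 w) = w := by
  have := mul_snd_apply Y x⁻¹ x w
  rw [inv_mul_cancel, one_snd_apply] at this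
  exact this.symm

theorem zHat_mul (a b : ℂˣ) : zHat Y (a * b) = zHat Y a * zHat Y b := by
  apply hat_ext
  · simp [mul_fst]
  · intro w
    rw [mul_snd_apply, zHat_apply, zHat_apply, zHat_apply, Units.val_mul, smul_smul]

theorem zHat_comm (c : ℂˣ) (x : Hat Y) : zHat Y c * x = x * zHat Y c := by
  apply hat_ext
  · simp [mul_fst]
  · intro w
    rw [mul_snd_apply, mul_snd_apply, zHat_apply, zHat_apply, map_smul]

theorem zHat_pow (c : ℂˣ) (k : ℕ) : zHat Y c ^ k = zHat Y (c ^ k) := by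
  induction k with
  | zero =>
    apply hat_ext
    · simp
    · intro w
      simp [zHat_apply, one_snd_apply]
  | succ k ih =>
    rw [pow_succ, ih, pow_succ, zHat_mul]

/-- The element attached to `n ∈ N`. -/
noncomputable def nHat : N →* Hat Y where
  toFun n := ⟨((n : G), LinearEquiv.ofLinear (Y n) (Y n⁻¹)
      (by rw [← Module.End.mul_eq_comp, ← map_mul]; simp; rfl)
      (by rw [← Module.End.mul_eq_comp, ← map_mul]; simp; rfl)), by
    intro m w
    show Y n (Y m w) = Y (cn (n : G) m) (Y n w)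
    rw [← Module.End.mul_apply, ← Module.End.mul_apply, ← map_mul, ← map_mul]
    congr 2
    apply Subtype.ext
    simp [cn]⟩
  map_one' := by
    apply hat_ext
    · rfl
    · intro w
      show Y 1 w = w
      simp
  map_mul' a b := by
    apply hat_ext
    · rfl
    · intro w
      show Y (a * b) w = Y a (Y b w)
      simp

@[simp] theorem nHat_fst (n : N) : (nHat Y n).1.1 = n := rfl

theorem nHat_apply (n : N) (w : W) : (nHat Y n).1.2 w = Y n w := rfl

/-- `nHat N` is normal in `Hat`. -/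
theorem inv_mul_nHat_mul (x : Hat Y) (n : N) :
    x⁻¹ * nHat Y n * x = nHat Y (cn x.1.1⁻¹ n) := by
  apply hat_ext
  · show x.1.1⁻¹ * n * x.1.1 = x.1.1⁻¹ * n * x.1.1⁻¹⁻¹
    simp
  · intro w
    rw [mul_snd_apply, mul_snd_apply, nHat_apply, nHat_apply]
    have h := hat_apply Y x⁻¹ n (x.1.2 w)
    rw [inv_snd_snd] at h
    exact h

variable [FiniteDimensional ℂ W]

/-- **Schur**: two lifts of the same element differ by a scalar. -/
theorem exists_scalar [Y.IsIrreducible] {x y : Hat Y} (h : x.1.1 = y.1.1) :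
    ∃ c : ℂˣ, x = zHat Y c * y := by
  have hc : ∀ n : N, ((x * y⁻¹).1.2 : W →ₗ[ℂ] W) ∘ₗ Y n = Y n ∘ₗ ((x * y⁻¹).1.2 : W →ₗ[ℂ] W) := by
    intro n
    ext w
    have := hat_apply Y (x * y⁻¹) n w
    have h1 : (x * y⁻¹).1.1 = 1 := by
      rw [mul_fst, inv_fst, h, mul_inv_cancel]
    rw [h1, cn_one] at this
    exact this
  obtain ⟨z, hz⟩ := Cfsg.Agent.Lib.Char.Integrality.exists_smul_id_of_commute Y _ hc
  haveI := Cfsg.Agent.Lib.Char.Integrality.nontrivial_of_isIrreducible Y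
  have hz0 : z ≠ 0 := by
    rintro rfl
    obtain ⟨w, hw⟩ := exists_ne (0 : W)
    have h2 : (x * y⁻¹).1.2 w = 0 := by
      have := LinearMap.congr_fun hz w
      simpa using this
    exact hw (by simpa using h2)
  refine ⟨Units.mk0 z hz0, ?_⟩
  have hxy : x * y⁻¹ = zHat Y (Units.mk0 z hz0) := by
    apply hat_ext
    · rw [mul_fst, inv_fst, h, mul_inv_cancel]
      rfl
    · intro w
      have := LinearMap.congr_fun hz w
      simpa [zHat_apply] using this
  rw [← hxy]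
  simp

theorem zHat_injective [Nontrivial W] {a b : ℂˣ} (h : zHat Y a = zHat Y b) : a = b := by
  obtain ⟨w, hw⟩ := exists_ne (0 : W)
  have h1 : (a : ℂ) • w = (b : ℂ) • w := by
    rw [← zHat_apply Y, ← zHat_apply Y, h]
  have h2 : ((a : ℂ) - b) • w = 0 := by
    rw [sub_smul, h1, sub_self]
  have h3 := (smul_eq_zero.mp h2).resolve_right hw
  exact Units.ext (sub_eq_zero.mp h3)

theorem zHat_one : zHat Y 1 = 1 := by
  apply hat_ext
  · rfl
  · intro w
    simp [zHat_apply, one_snd_apply]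

/-- A partial extension gives a section over `P`. -/
noncomputable def zLift {P : Subgroup G} (hNP : N ≤ P) (Z : Representation ℂ P W)
    (hZ : ∀ n : N, Z ⟨n, hNP n.2⟩ = Y n) : P →* Hat Y where
  toFun g := ⟨((g : G), LinearEquiv.ofLinear (Z g) (Z g⁻¹)
      (by rw [← Module.End.mul_eq_comp, ← map_mul]; simp; rfl)
      (by rw [← Module.End.mul_eq_comp, ← map_mul]; simp; rfl)), by
    intro m w
    show Z g (Y m w) = Y (cn (g : G) m) (Z g w)
    rw [← hZ, ← hZ, ← Module.End.mul_apply, ← Module.End.mul_apply, ← map_mul, ← map_mul]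
    congr 2
    apply Subtype.ext
    simp [cn]⟩
  map_one' := by
    apply hat_ext
    · rfl
    · intro w
      show Z 1 w = w
      simp
  map_mul' a b := by
    apply hat_ext
    · rfl
    · intro w
      show Z (a * b) w = Z a (Z b w)
      simp

@[simp] theorem zLift_fst {P : Subgroup G} (hNP : N ≤ P) (Z : Representation ℂ P W)
    (hZ : ∀ n : N, Z ⟨n, hNP n.2⟩ = Y n) (g : P) : (zLift Y hNP Z hZ g).1.1 = g := rfl

theorem zLift_nHat {P : Subgroup G} (hNP : N ≤ P) (Z : Representation ℂ P W)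
    (hZ : ∀ n : N, Z ⟨n, hNP n.2⟩ = Y n) (n : N) :
    zLift Y hNP Z hZ ⟨n, hNP n.2⟩ = nHat Y n := by
  apply hat_ext
  · rfl
  · intro w
    show Z ⟨n, hNP n.2⟩ w = Y n w
    rw [hZ]

/-- The retraction over `P`. -/
theorem exists_phi [Y.IsIrreducible] {P : Subgroup G} (hNP : N ≤ P) (Z : Representation ℂ P W)
    (hZ : ∀ n : N, Z ⟨n, hNP n.2⟩ = Y n) :
    ∃ φ : (P.comap (piHat Y)) →* ℂˣ, (∀ (c : ℂˣ) (h : zHat Y c ∈ P.comap (piHat Y)),
      φ ⟨zHat Y c, h⟩ = c) ∧ (∀ (n : N) (h : nHat Y n ∈ P.comap (piHat Y)), φ ⟨nHat Y n, h⟩ = 1) := by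
  haveI := Cfsg.Agent.Lib.Char.Integrality.nontrivial_of_isIrreducible Y
  have hex : ∀ x : P.comap (piHat Y), ∃ c : ℂˣ, (x : Hat Y) =
      zHat Y c * zLift Y hNP Z hZ ⟨(x : Hat Y).1.1, x.2⟩ := by
    intro x
    exact exists_scalar Y rfl
  choose φ hφ using hex
  have huniq : ∀ (x : P.comap (piHat Y)) (c : ℂˣ) (g : P),
      (x : Hat Y) = zHat Y c * zLift Y hNP Z hZ g → φ x = c := by
    intro x c g h
    have h1 : (x : Hat Y).1.1 = g := by
      rw [h, mul_fst, zHat_fst, one_mul, zLift_fst]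
    have h2 := hφ x
    have h3 : (⟨(x : Hat Y).1.1, x.2⟩ : P) = g := Subtype.ext h1
    rw [h3] at h2
    rw [h] at h2
    have h4 := mul_right_cancel h2
    exact (zHat_injective Y h4).symm
  refine ⟨{ toFun := φ, map_one' := ?_, map_mul' := ?_ }, ?_, ?_⟩
  · apply huniq 1 1 1
    simp [zHat_one]
  · intro x y
    apply huniq (x * y) (φ x * φ y) (⟨(x : Hat Y).1.1, x.2⟩ * ⟨(y : Hat Y).1.1, y.2⟩)
    have key : ∀ (a b : ℂˣ) (u v : P), (zHat Y a * zLift Y hNP Z hZ u) *
        (zHat Y b * zLift Y hNP Z hZ v) = zHat Y (a * b) * zLift Y hNP Z hZ (u * v) := by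
      intro a b u v
      rw [map_mul, zHat_mul, mul_assoc, mul_assoc, ← mul_assoc (zLift Y hNP Z hZ u),
        ← zHat_comm, mul_assoc]
    exact (congrArg₂ (· * ·) (hφ x) (hφ y)).trans (key _ _ _ _)
  · intro c h
    apply huniq ⟨zHat Y c, h⟩ c 1
    simp
  · intro n h
    apply huniq ⟨nHat Y n, h⟩ 1 ⟨n, hNP n.2⟩
    rw [zHat_one, one_mul, zLift_nHat]

open scoped Pointwise in
/-- The transfer of the retraction. -/
theorem exists_f [Finite G] [Y.IsIrreducible] (hsurj : Function.Surjective (piHat Y))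
    {P : Subgroup G} (hNP : N ≤ P) (Z : Representation ℂ P W)
    (hZ : ∀ n : N, Z ⟨n, hNP n.2⟩ = Y n) :
    ∃ f : Hat Y →* ℂˣ, (∀ c : ℂˣ, f (zHat Y c) = c ^ P.index) ∧ ∀ n : N, f (nHat Y n) = 1 := by
  classical
  obtain ⟨φ, hφ1, hφ2⟩ := exists_phi Y hNP Z hZ
  have hidx : (P.comap (piHat Y)).index = P.index := Subgroup.index_comap_of_surjective P hsurj
  haveI : (P.comap (piHat Y)).FiniteIndex := ⟨by rw [hidx]; exact Subgroup.index_ne_zero_of_finite⟩
  refine ⟨φ.transfer, fun c => ?_, fun n => ?_⟩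
  · have key : ∀ (k : ℕ) (g₀ : Hat Y), g₀⁻¹ * zHat Y c ^ k * g₀ ∈ P.comap (piHat Y) →
        g₀⁻¹ * zHat Y c ^ k * g₀ = zHat Y c ^ k := by
      intro k g₀ _
      rw [zHat_pow, mul_assoc, zHat_comm]
      simp
    rw [MonoidHom.transfer_eq_pow φ (zHat Y c) key, ← hφ1 (c ^ P.index)]
    · congr 2
      rw [hidx, zHat_pow]
    · rw [Subgroup.mem_comap, piHat_apply, zHat_fst]
      exact P.one_mem
  · haveI : Fintype (Quotient (MulAction.orbitRel (Subgroup.zpowers (nHat Y n))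
        (Hat Y ⧸ P.comap (piHat Y)))) := by
      haveI := Subgroup.fintypeQuotientOfFiniteIndex (H := P.comap (piHat Y))
      exact Fintype.ofFinite _
    rw [MonoidHom.transfer_eq_prod_quotient_orbitRel_zpowers_quot]
    apply Finset.prod_eq_one
    intro q _
    have h1 : ∀ (k : ℕ) (a : Hat Y), a⁻¹ * nHat Y n ^ k * a = nHat Y (cn a.1.1⁻¹ (n ^ k)) := by
      intro k a
      rw [← map_pow, inv_mul_nHat_mul]
    have h2 : ∀ (x : Hat Y) (h : x ∈ P.comap (piHat Y)) (m : N), x = nHat Y m → φ ⟨x, h⟩ = 1 := by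
      rintro _ h m rfl
      exact hφ2 m h
    exact h2 _ _ _ (h1 _ _)

/-- The exponents realised by homomorphisms. -/
noncomputable def expS : AddSubgroup ℤ where
  carrier := {k | ∃ f : Hat Y →* ℂˣ, (∀ c : ℂˣ, f (zHat Y c) = c ^ k) ∧ ∀ n : N, f (nHat Y n) = 1}
  zero_mem' := ⟨1, by simp, by simp⟩
  add_mem' := by
    rintro a b ⟨f, h1, h2⟩ ⟨f', h1', h2'⟩
    refine ⟨f * f', fun c => ?_, fun n => ?_⟩
    · rw [MonoidHom.mul_apply, h1, h1', zpow_add]
    · rw [MonoidHom.mul_apply, h2, h2', one_mul]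
  neg_mem' := by
    rintro a ⟨f, h1, h2⟩
    refine ⟨f⁻¹, fun c => ?_, fun n => ?_⟩
    · rw [MonoidHom.inv_apply, h1, zpow_neg]
    · rw [MonoidHom.inv_apply, h2, inv_one]

theorem one_mem_expS (h : ∀ p : ℕ, p.Prime → ∃ m : ℕ, (m : ℤ) ∈ expS Y ∧ m.Coprime p ∧ m ≠ 0) :
    (1 : ℤ) ∈ expS Y := by
  obtain ⟨a, ha⟩ := Int.subgroup_cyclic (expS Y)
  have hdvd : ∀ k : ℤ, k ∈ expS Y → a ∣ k := by
    intro k hk
    rw [ha, AddSubgroup.mem_closure_singleton] at hk
    obtain ⟨l, rfl⟩ := hk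
    exact ⟨l, by simp [mul_comm]⟩
  have ha1 : a.natAbs = 1 := by
    by_contra hne
    obtain ⟨p, hp, hpa⟩ := Nat.exists_prime_and_dvd hne
    obtain ⟨m, hm, hcop, _⟩ := h p hp
    have h1 : (p : ℤ) ∣ (m : ℤ) := (Int.natCast_dvd.mpr hpa).trans (hdvd _ hm)
    have h2 : p ∣ m := Int.natCast_dvd_natCast.mp h1
    have h3 := Nat.Coprime.eq_one_of_dvd hcop.symm h2
    exact hp.one_lt.ne' h3
  have haS : a ∈ expS Y := by
    rw [ha]
    exact AddSubgroup.subset_closure rfl
  rcases Int.natAbs_eq a with h1 | h1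
  · rw [ha1] at h1
    rw [h1] at haS
    simpa using haS
  · rw [ha1] at h1
    rw [h1] at haS
    simpa using (expS Y).neg_mem haS

/-- A retraction gives an extension of the representation. -/
theorem exists_rep [Y.IsIrreducible] (hsurj : Function.Surjective (piHat Y)) (f : Hat Y →* ℂˣ)
    (hz : ∀ c : ℂˣ, f (zHat Y c) = c) (hn : ∀ n : N, f (nHat Y n) = 1) :
    ∃ ρ : Representation ℂ G W, ∀ n : N, ρ n = Y n := by
  choose s hs using hsurj
  let s' : G → Hat Y := fun g => zHat Y (f (s g))⁻¹ * s g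
  have hf : ∀ g, f (s' g) = 1 := by
    intro g
    simp only [s']
    rw [map_mul, hz]
    simp
  have hfst : ∀ g, (s' g).1.1 = g := by
    intro g
    simp only [s']
    rw [mul_fst, zHat_fst, one_mul]
    exact hs g
  have uniq : ∀ x y : Hat Y, x.1.1 = y.1.1 → f x = f y → x = y := by
    intro x y h1 h2
    obtain ⟨c, hc⟩ := exists_scalar Y h1
    rw [hc, map_mul, hz] at h2
    have hc1 : c = 1 := by simpa using h2
    rw [hc, hc1, zHat_one, one_mul]
  have hone : s' 1 = 1 := by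
    apply uniq
    · rw [hfst]; rfl
    · rw [hf, map_one]
  have hmul : ∀ a b, s' (a * b) = s' a * s' b := by
    intro a b
    apply uniq
    · rw [hfst, mul_fst, hfst, hfst]
    · rw [hf, map_mul, hf, hf, one_mul]
  have hN' : ∀ n : N, s' n = nHat Y n := by
    intro n
    apply uniq
    · rw [hfst]; rfl
    · rw [hf, hn]
  refine ⟨{ toFun := fun g => ((s' g).1.2 : W →ₗ[ℂ] W), map_one' := ?_, map_mul' := ?_ }, fun n => ?_⟩
  · rw [hone]
    rfl
  · intro a b
    rw [hmul]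
    rfl
  · show ((s' n).1.2 : W →ₗ[ℂ] W) = Y n
    rw [hN']
    rfl

end Core

/-- **Extension from Sylow subgroups**, representation form. -/
theorem exists_extension_of_sylow {G : Type*} [Group G] [Finite G] (N : Subgroup G) [hN : N.Normal]
    {W : Type*} [AddCommGroup W] [Module ℂ W] [FiniteDimensional ℂ W]
    (Y : Representation ℂ N W) [Y.IsIrreducible]
    (hinv : ∀ (g : G) (n : N), Y.character (cn g n) = Y.character n)
    (hsyl : ∀ p : ℕ, p.Prime → ∃ (P : Subgroup G) (hNP : N ≤ P) (Z : Representation ℂ P W),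
      Nat.Coprime P.index p ∧ ∀ n : N, Z ⟨n, hNP n.2⟩ = Y n) :
    ∃ ρ : Representation ℂ G W, ∀ n : N, ρ n = Y n := by
  haveI := Cfsg.Agent.Lib.Char.Integrality.nontrivial_of_isIrreducible Y
  have hW : 0 < finrank ℂ W := Module.finrank_pos
  have hsurj : Function.Surjective (piHat Y) := by
    intro g
    obtain ⟨T, hT⟩ := exists_T Y hW hinv g
    exact ⟨⟨(g, T), hT.2⟩, rfl⟩
  have h1 := one_mem_expS Y (fun p hp => by
    obtain ⟨P, hNP, Z, hcop, hZ⟩ := hsyl p hp
    obtain ⟨f, hf1, hf2⟩ := exists_f Y hsurj hNP Z hZ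
    exact ⟨P.index, ⟨f, fun c => by rw [hf1]; simp, hf2⟩, hcop,
      Subgroup.index_ne_zero_of_finite⟩)
  obtain ⟨f, hf1, hf2⟩ := h1
  exact exists_rep Y hsurj f (fun c => by rw [hf1]; simp) hf2

/-- Let N be a normal subgroup of the finite group G and ϑ an irreducible character of N invariant under conjugation by G. Suppose that for every prime p there are a subgroup P containing N, of index prime to p and with the index of N in P a power of p, and an irreducible character of P restricting to ϑ. Then ϑ is the restriction of an irreducible character of G. -/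
theorem result {G : Type*} [Group G] [Finite G] (N : Subgroup G) [hN : N.Normal] (ϑ : N → ℂ) (hϑ : Cfsg.IsIrrCharacter N ϑ) (hinv : ∀ (g : G) (n : N), ϑ ⟨g * n * g⁻¹, hN.conj_mem (n : G) n.2 g⟩ = ϑ n) (hsyl : ∀ p : ℕ, p.Prime → ∃ (P : Subgroup G) (hNP : N ≤ P) (η : P → ℂ), Nat.Coprime P.index p ∧ (∃ k : ℕ, N.relIndex P = p ^ k) ∧ Cfsg.IsIrrCharacter P η ∧ ∀ n : N, η ⟨(n : G), hNP n.2⟩ = ϑ n) : ∃ χ : G → ℂ, Cfsg.IsIrrCharacter G χ ∧ ∀ n : N, χ n = ϑ n := by
  obtain ⟨d, Y, hY, rfl⟩ := hϑ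
  haveI := hY
  obtain ⟨ρ, hρ⟩ := exists_extension_of_sylow N Y hinv (fun p hp => by
    obtain ⟨P, hNP, η, hcop, _, ⟨e, Z₀, hZ₀, rfl⟩, hres⟩ := hsyl p hp
    let ι : N →* P :=
      { toFun := fun n => ⟨n, hNP n.2⟩, map_one' := rfl, map_mul' := fun _ _ => rfl }
    have hch : Representation.character (Z₀.comp ι : Representation ℂ N (Fin e → ℂ)) = Y.character :=
      funext hres
    obtain ⟨E⟩ := Cfsg.Agent.Lib.Char.RepEquiv.equiv_of_character_eq _ _ hch
    let L : (Fin e → ℂ) ≃ₗ[ℂ] (Fin d → ℂ) := E.toLinearEquiv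
    have hL : ∀ (n : N) (w : Fin e → ℂ), L (Z₀ (ι n) w) = Y n (L w) := by
      intro n w
      exact LinearMap.congr_fun (E.toIntertwiningMap.isIntertwining' n) w
    let Z : Representation ℂ P (Fin d → ℂ) :=
      { toFun := fun g => (L : (Fin e → ℂ) →ₗ[ℂ] (Fin d → ℂ)) ∘ₗ Z₀ g ∘ₗ
          (L.symm : (Fin d → ℂ) →ₗ[ℂ] (Fin e → ℂ))
        map_one' := by
          ext w
          simp
        map_mul' := fun a b => by
          ext w
          simp }
    refine ⟨P, hNP, Z, hcop, fun n => ?_⟩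
    apply LinearMap.ext
    intro w
    show L (Z₀ (ι n) (L.symm w)) = Y n w
    rw [hL, L.apply_symm_apply])
  have hcomp : ρ.comp N.subtype = Y := by
    ext n : 1
    exact hρ n
  have hirr : ρ.IsIrreducible := by
    haveI : Representation.IsIrreducible (ρ.comp N.subtype) := by
      rw [hcomp]; exact hY
    exact Cfsg.Agent.Lib.Char.CyclicExt.isIrreducible_of_comp ρ N.subtype
  refine ⟨ρ.character, ⟨d, ρ, hirr, rfl⟩, fun n => ?_⟩
  simp only [Representation.character, hρ n]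

end Cfsg.Agent.S0888
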