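import Cfsg.Statements.S0891
import Mathlib
-- import your own Cfsg.Agent.* helpers here

set_option autoImplicit false
open Cfsg

namespace Cfsg.Agent.S0891

open Equiv

/-- Index set of the spin module. -/
abbrev Idx (n : ℕ) := Finset (Fin n)

/-- The spin module over `𝔽₃`. -/
abbrev Sp (n : ℕ) := Idx n → ZMod 3

/-- Its endomorphism ring. -/
abbrev EndR (n : ℕ) := Module.End (ZMod 3) (Sp n)

variable {n : ℕ}

/-- Toggling an element. -/
def tog (i : Fin n) (S : Idx n) : Idx n := symmDiff S {i}

theorem tog_tog (i : Fin n) (S : Idx n) : tog i (tog i S) = S := by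
  simp [tog]

theorem tog_comm (i j : Fin n) (S : Idx n) : tog i (tog j S) = tog j (tog i S) := by
  simp only [tog]
  exact symmDiff_right_comm S {j} {i}

/-- A product of signs over a finset. -/
def sg (P : Fin n → Prop) [DecidablePred P] (S : Idx n) : ZMod 3 :=
  ∏ j ∈ S, if P j then -1 else 1

theorem wt_sq (P : Prop) [Decidable P] : (if P then (-1 : ZMod 3) else 1) * (if P then -1 else 1) = 1 := by
  split_ifs <;> simp

theorem sg_sq (P : Fin n → Prop) [DecidablePred P] (S : Idx n) : sg P S * sg P S = 1 := by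
  simp only [sg]
  rw [← Finset.prod_mul_distrib]
  exact Finset.prod_eq_one fun j _ => wt_sq _

theorem sg_tog (P : Fin n → Prop) [DecidablePred P] (i : Fin n) (S : Idx n) :
    sg P (tog i S) = (if P i then -1 else 1) * sg P S := by
  by_cases hi : i ∈ S
  · have h1 : tog i S = S.erase i := by
      ext k
      simp only [tog, Finset.mem_symmDiff, Finset.mem_singleton, Finset.mem_erase]
      constructor
      · rintro (⟨h, h'⟩ | ⟨rfl, h'⟩)
        · exact ⟨h', h⟩
        · exact absurd hi h'
      · rintro ⟨h, h'⟩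
        exact Or.inl ⟨h', h⟩
    rw [h1]
    simp only [sg]
    rw [← Finset.mul_prod_erase S _ hi, ← mul_assoc, wt_sq, one_mul]
  · have h1 : tog i S = insert i S := by
      ext k
      simp only [tog, Finset.mem_symmDiff, Finset.mem_singleton, Finset.mem_insert]
      constructor
      · rintro (⟨h, _⟩ | ⟨h, _⟩)
        · exact Or.inr h
        · exact Or.inl h
      · rintro (h | h)
        · subst h; exact Or.inr ⟨rfl, hi⟩
        · refine Or.inl ⟨h, ?_⟩
          rintro rfl
          exact hi h
    rw [h1]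
    simp only [sg]
    rw [Finset.prod_insert hi]

/-- Left Clifford multiplication. -/
def Lc (i : Fin n) : EndR n where
  toFun f S := sg (· ≤ i) S * f (tog i S)
  map_add' f g := by ext S; simp [mul_add]
  map_smul' c f := by ext S; simp; ring

/-- Right Clifford multiplication. -/
def Rc (i : Fin n) : EndR n where
  toFun f S := sg (i ≤ ·) S * f (tog i S)
  map_add' f g := by ext S; simp [mul_add]
  map_smul' c f := by ext S; simp; ring

/-- The parity operator. -/
def Ec : EndR n where
  toFun f S := sg (fun _ => True) S * f S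
  map_add' f g := by ext S; simp [mul_add]
  map_smul' c f := by ext S; simp; ring

@[simp] theorem Lc_apply (i : Fin n) (f : Sp n) (S : Idx n) :
    Lc i f S = sg (· ≤ i) S * f (tog i S) := rfl

@[simp] theorem Rc_apply (i : Fin n) (f : Sp n) (S : Idx n) :
    Rc i f S = sg (i ≤ ·) S * f (tog i S) := rfl

@[simp] theorem Ec_apply (f : Sp n) (S : Idx n) : Ec f S = sg (fun _ => True) S * f S := rfl

theorem Lc_sq (i : Fin n) : Lc i * Lc i = -1 := by
  refine LinearMap.ext fun f => funext fun S => ?_
  simp only [Module.End.mul_apply, Lc_apply, sg_tog, tog_tog, LinearMap.neg_apply, Module.End.one_apply,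
    Pi.neg_apply, le_refl, if_true]
  linear_combination (-f S) * sg_sq (· ≤ i) S

theorem Lc_anti {i j : Fin n} (h : i ≠ j) : Lc i * Lc j = -(Lc j * Lc i) := by
  refine LinearMap.ext fun f => funext fun S => ?_
  simp only [Module.End.mul_apply, Lc_apply, sg_tog, LinearMap.neg_apply, Pi.neg_apply]
  rw [tog_comm j i]
  rcases lt_or_gt_of_ne h with h' | h'
  · rw [if_pos h'.le, if_neg (not_le.2 h')]
    ring
  · rw [if_neg (not_le.2 h'), if_pos h'.le]
    ring

theorem Lc_Rc (i j : Fin n) : Lc i * Rc j = Rc j * Lc i := by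
  refine LinearMap.ext fun f => funext fun S => ?_
  simp only [Module.End.mul_apply, Lc_apply, Rc_apply, sg_tog]
  rw [tog_comm j i]
  ring

theorem Ec_Lc (i : Fin n) : Ec * Lc i = -(Lc i * Ec) := by
  refine LinearMap.ext fun f => funext fun S => ?_
  simp only [Module.End.mul_apply, Lc_apply, Ec_apply, sg_tog, LinearMap.neg_apply, Pi.neg_apply, if_true]
  ring

/-- The commutant of left and right multiplications and parity consists of scalars. -/
theorem scalar_of_comm (x : EndR n) (hL : ∀ i, x * Lc i = Lc i * x) (hR : ∀ i, x * Rc i = Rc i * x)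
    (hE : x * Ec = Ec * x) : ∃ c : ZMod 3, x = c • 1 := by
  classical
  let δ : Idx n → Sp n := fun S => Pi.single S 1
  have hδ : ∀ S T, δ S T = if T = S then 1 else 0 := fun S T => by
    simp [δ, Pi.single_apply]
  let u : Sp n := x (δ ∅)
  have hE0 : Ec (δ ∅) = δ ∅ := by
    funext S
    simp only [Ec_apply, hδ]
    split_ifs with h
    · subst h; simp [sg]
    · simp
  have hEu : Ec u = u := by
    have := LinearMap.congr_fun hE (δ ∅)
    simp only [Module.End.mul_apply, hE0] at this
    exact this.symm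
  have hLR0 : ∀ i, (Lc i * Rc i) (δ ∅) = - δ ∅ := by
    intro i
    funext S
    simp only [Module.End.mul_apply, Lc_apply, Rc_apply, sg_tog, tog_tog, le_refl, if_true,
      Pi.neg_apply, hδ]
    split_ifs with h
    · subst h; simp [sg]
    · simp
  have hLRu : ∀ i, (Lc i * Rc i) u = - u := by
    intro i
    have h1 : x * (Lc i * Rc i) = (Lc i * Rc i) * x := by
      rw [← mul_assoc, hL, mul_assoc, hR, mul_assoc]
    have := LinearMap.congr_fun h1 (δ ∅)
    simp only [Module.End.mul_apply] at this
    have h2 := hLR0 i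
    simp only [Module.End.mul_apply] at h2
    rw [h2, map_neg] at this
    simp only [Module.End.mul_apply]
    exact this.symm
  have hsg : ∀ (i : Fin n) (S : Idx n), i ∈ S →
      sg (· ≤ i) S * sg (i ≤ ·) S = - sg (fun _ => True) S := by
    intro i S hi
    simp only [sg]
    rw [← Finset.prod_mul_distrib, ← Finset.mul_prod_erase S _ hi,
      ← Finset.mul_prod_erase S (fun _ => _) hi]
    simp only [le_refl, if_true, if_true]
    have : ∏ j ∈ S.erase i, ((if j ≤ i then (-1 : ZMod 3) else 1) * if i ≤ j then -1 else 1) =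
        ∏ j ∈ S.erase i, (-1 : ZMod 3) := by
      refine Finset.prod_congr rfl fun j hj => ?_
      rcases lt_or_gt_of_ne (Finset.ne_of_mem_erase hj) with h | h
      · rw [if_pos h.le, if_neg (not_le.2 h)]; simp
      · rw [if_neg (not_le.2 h), if_pos h.le]; simp
    rw [this]
    ring
  have huzero : ∀ S : Idx n, S ≠ ∅ → u S = 0 := by
    intro S hS
    obtain ⟨i, hi⟩ := Finset.nonempty_iff_ne_empty.2 hS
    have e1 := congrFun hEu S
    have e2 := congrFun (hLRu i) S
    simp only [Ec_apply] at e1
    simp only [Module.End.mul_apply, Lc_apply, Rc_apply, sg_tog, tog_tog, le_refl, if_true,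
      Pi.neg_apply] at e2
    have e3 : u S = - u S := by
      have h4 := hsg i S hi
      calc u S = sg (· ≤ i) S * sg (i ≤ ·) S * u S := by linear_combination e2
        _ = - (sg (fun _ => True) S * u S) := by rw [h4]; ring
        _ = - u S := by rw [e1]
    have key : ∀ y : ZMod 3, y = -y → y = 0 := by decide
    exact key _ e3
  refine ⟨u ∅, ?_⟩
  have hall : ∀ S, x (δ S) = u ∅ • δ S := by
    intro S
    induction S using Finset.induction_on with
    | empty =>
      funext T
      by_cases hT : T = ∅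
      · subst hT; simp [hδ, u]
      · have := huzero T hT
        simp [hδ, hT, this]
        exact this
    | insert i S hi IH =>
      have hins : tog i S = insert i S := by
        ext k
        simp only [tog, Finset.mem_symmDiff, Finset.mem_singleton, Finset.mem_insert]
        constructor
        · rintro (⟨h, _⟩ | ⟨h, _⟩)
          · exact Or.inr h
          · exact Or.inl h
        · rintro (h | h)
          · subst h; exact Or.inr ⟨rfl, hi⟩
          · refine Or.inl ⟨h, ?_⟩
            rintro rfl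
            exact hi h
      rw [← hins]
      have hLδ : Lc i (δ S) = sg (· ≤ i) (tog i S) • δ (tog i S) := by
        funext T
        simp only [Lc_apply, hδ, Pi.smul_apply, smul_eq_mul]
        by_cases hT : T = tog i S
        · subst hT
          simp [tog_tog]
        · have : tog i T ≠ S := fun h => hT (by rw [← h, tog_tog])
          simp [hT, this]
      have hδ' : δ (tog i S) = sg (· ≤ i) (tog i S) • Lc i (δ S) := by
        rw [hLδ, smul_smul, sg_sq, one_smul]
      have h1 := LinearMap.congr_fun (hL i) (δ S)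
      simp only [Module.End.mul_apply] at h1
      rw [hδ', map_smul, h1, IH, map_smul, smul_comm]
  apply LinearMap.pi_ext
  intro S y
  have : (Pi.single S y : Sp n) = y • δ S := by
    funext T
    simp only [Pi.single_apply, hδ, Pi.smul_apply, smul_eq_mul]
    split_ifs <;> simp
  rw [this, map_smul, hall]
  simp

/-- The reflection in the root `e_a - e_b`. -/
abbrev Vv (a b : Fin n) : EndR n := Lc a - Lc b

theorem three_eq : (3 : EndR n) = 0 := by
  have h : (3 : EndR n) = algebraMap (ZMod 3) (EndR n) 3 := (map_ofNat _ 3).symm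
  rw [h, show (3 : ZMod 3) = 0 from rfl, map_zero]

theorem neg_two_eq : -(1 + 1 : EndR n) = 1 := by
  rw [neg_eq_iff_add_eq_zero, ← three_eq]
  norm_num

theorem neg_one_mul' (X : EndR n) : (-1 : EndR n) * X = -X := by
  ext f S
  simp

theorem neg_one_smul' (X : EndR n) : (-1 : ZMod 3) • X = -X := by
  ext f S
  simp

theorem Vv_sq {a b : Fin n} (h : a ≠ b) : Vv a b * Vv a b = 1 := by
  simp only [Vv, sub_mul, mul_sub]
  rw [Lc_sq, Lc_sq, Lc_anti h]
  refine Eq.trans ?_ neg_two_eq
  noncomm_ring

theorem Vv_Lc {a b : Fin n} (h : a ≠ b) (j : Fin n) :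
    Vv a b * Lc j = -(Lc (swap a b j) * Vv a b) := by
  simp only [Vv, sub_mul, mul_sub]
  by_cases hja : j = a
  · subst hja
    rw [swap_apply_left, Lc_sq, Lc_sq]
    noncomm_ring
  by_cases hjb : j = b
  · subst hjb
    rw [swap_apply_right, Lc_sq, Lc_sq]
    noncomm_ring
  rw [swap_apply_of_ne_of_ne hja hjb, Lc_anti (Ne.symm hja), Lc_anti (Ne.symm hjb)]
  noncomm_ring

theorem Vv_Rc (a b i : Fin n) : Vv a b * Rc i = Rc i * Vv a b := by
  simp only [Vv, sub_mul, mul_sub, Lc_Rc]

theorem Vv_Ec (a b : Fin n) : Vv a b * Ec = -(Ec * Vv a b) := by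
  simp only [Vv, sub_mul, mul_sub, Ec_Lc]
  noncomm_ring

/-- The reflection as a unit. -/
def Vu {a b : Fin n} (h : a ≠ b) : (EndR n)ˣ := ⟨Vv a b, Vv a b, Vv_sq h, Vv_sq h⟩

/-- The conditions for `x` to lift the permutation `σ` with sign `s`. -/
def LiftP (x : (EndR n)ˣ) (s : ZMod 3) (σ : Perm (Fin n)) : Prop :=
  (∀ j, (x : EndR n) * Lc j = s • (Lc (σ j) * (x : EndR n))) ∧
    (∀ i, (x : EndR n) * Rc i = Rc i * (x : EndR n)) ∧
    ((x : EndR n) * Ec = s • (Ec * (x : EndR n)))

theorem LiftP.one : LiftP (1 : (EndR n)ˣ) 1 1 := by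
  refine ⟨fun j => ?_, fun i => ?_, ?_⟩ <;> simp

theorem LiftP.mul {x y : (EndR n)ˣ} {s t : ZMod 3} {σ τ : Perm (Fin n)} (h1 : LiftP x s σ)
    (h2 : LiftP y t τ) : LiftP (x * y) (s * t) (σ * τ) := by
  obtain ⟨a1, b1, c1⟩ := h1
  obtain ⟨a2, b2, c2⟩ := h2
  refine ⟨fun j => ?_, fun i => ?_, ?_⟩
  · rw [Units.val_mul, mul_assoc, a2, mul_smul_comm, ← mul_assoc (x : EndR n), a1, Perm.mul_apply,
      smul_mul_assoc, smul_smul, mul_assoc, mul_comm s t]
  · rw [Units.val_mul, mul_assoc, b2, ← mul_assoc, b1, mul_assoc]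
  · rw [Units.val_mul, mul_assoc, c2, mul_smul_comm, ← mul_assoc (x : EndR n), c1,
      smul_mul_assoc, smul_smul, mul_assoc, mul_comm s t]

theorem LiftP.swap {a b : Fin n} (h : a ≠ b) : LiftP (Vu h) (-1) (swap a b) := by
  refine ⟨fun j => ?_, fun i => ?_, ?_⟩
  · change Vv a b * Lc j = (-1 : ZMod 3) • (Lc (Equiv.swap a b j) * Vv a b)
    rw [Vv_Lc h, neg_one_smul']
  · exact Vv_Rc a b i
  · change Vv a b * Ec = (-1 : ZMod 3) • (Ec * Vv a b)
    rw [Vv_Ec, neg_one_smul']

/-- The sign of a permutation in `𝔽₃`. -/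
def sgnF (σ : Perm (Fin n)) : ZMod 3 := ((Perm.sign σ : ℤˣ) : ℤ)

theorem exists_lift (σ : Perm (Fin n)) : ∃ x, LiftP x (sgnF σ) σ := by
  refine Perm.swap_induction_on σ ⟨1, ?_⟩ ?_
  · simpa [sgnF] using LiftP.one
  · rintro f a b hab ⟨x, hx⟩
    refine ⟨Vu hab * x, ?_⟩
    have := (LiftP.swap hab).mul hx
    have e : sgnF (Equiv.swap a b * f) = -1 * sgnF f := by
      simp [sgnF, Perm.sign_mul, Perm.sign_swap hab]
    rwa [e]

theorem LiftP.inv {x : (EndR n)ˣ} {σ : Perm (Fin n)} (h : LiftP x 1 σ) : LiftP x⁻¹ 1 σ⁻¹ := by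
  obtain ⟨a, b, c⟩ := h
  simp only [one_smul] at a c
  have gen : ∀ u v : EndR n, (x : EndR n) * u = v * x →
      ((x⁻¹ : (EndR n)ˣ) : EndR n) * v = u * ((x⁻¹ : (EndR n)ˣ) : EndR n) := by
    intro u v huv
    calc ((x⁻¹ : (EndR n)ˣ) : EndR n) * v
        = ((x⁻¹ : (EndR n)ˣ) : EndR n) * (v * x) * ((x⁻¹ : (EndR n)ˣ) : EndR n) := by
          rw [mul_assoc, mul_assoc, Units.mul_inv, mul_one]
      _ = u * ((x⁻¹ : (EndR n)ˣ) : EndR n) := by
          rw [← huv, ← mul_assoc, Units.inv_mul, one_mul]
  refine ⟨fun j => ?_, fun i => (gen _ _ (b i)), ?_⟩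
  · rw [one_smul]
    apply gen
    rw [a, show σ (σ⁻¹ j) = j from σ.apply_symm_apply j]
  · rw [one_smul]
    exact gen _ _ c

/-- The double cover. -/
def Gam (n : ℕ) : Subgroup ((EndR n)ˣ × alternatingGroup (Fin n)) where
  carrier := {p | LiftP p.1 1 (p.2 : Perm (Fin n))}
  mul_mem' h h' := by simpa using LiftP.mul h h'
  one_mem' := LiftP.one
  inv_mem' h := LiftP.inv h

theorem mem_Gam {p : (EndR n)ˣ × alternatingGroup (Fin n)} :
    p ∈ Gam n ↔ LiftP p.1 1 (p.2 : Perm (Fin n)) := Iff.rfl

/-- The covering map. -/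
def cov (n : ℕ) : Gam n →* alternatingGroup (Fin n) :=
  (MonoidHom.snd _ _).comp (Gam n).subtype

theorem cov_surjective : Function.Surjective (cov n) := by
  intro σ
  obtain ⟨x, hx⟩ := exists_lift (σ : Perm (Fin n))
  have hs : sgnF (σ : Perm (Fin n)) = 1 := by
    have : Perm.sign (σ : Perm (Fin n)) = 1 := σ.2
    simp [sgnF, this]
  rw [hs] at hx
  exact ⟨⟨(x, σ), hx⟩, rfl⟩

/-- The central involution. -/
def zz (n : ℕ) : Gam n := ⟨(-1, 1), by
  refine ⟨fun j => ?_, fun i => ?_, ?_⟩ <;> simp⟩

instance : Finite (EndR n) :=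
  Finite.of_injective (fun f : EndR n => (f : Sp n → Sp n)) DFunLike.coe_injective

instance : Finite (Gam n) := inferInstance

theorem neg_one_ne_one : (-1 : EndR n) ≠ 1 := by
  intro h
  have := congrFun (LinearMap.congr_fun h (fun _ => 1)) ∅
  have key : (-1 : ZMod 3) ≠ 1 := by decide
  apply key
  simpa using this

theorem zz_ne_one : zz n ≠ 1 := by
  intro h
  have h1 := congrArg (fun p : Gam n => ((p : (EndR n)ˣ × alternatingGroup (Fin n)).1 : EndR n)) h
  exact neg_one_ne_one h1

theorem zz_sq : zz n ^ 2 = 1 := by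
  apply Subtype.ext
  apply Prod.ext
  · apply Units.ext
    simp [zz, sq]
  · simp [zz, sq]

theorem zz_order : orderOf (zz n) = 2 :=
  orderOf_eq_prime zz_sq zz_ne_one

theorem zz_center : zz n ∈ Subgroup.center (Gam n) := by
  rw [Subgroup.mem_center_iff]
  intro g
  apply Subtype.ext
  apply Prod.ext
  · apply Units.ext
    simp [zz]
  · simp [zz]

theorem ker_cov : (cov n).ker = Subgroup.zpowers (zz n) := by
  apply le_antisymm
  · intro p hp
    have hp2 : (p : (EndR n)ˣ × alternatingGroup (Fin n)).2 = 1 := hp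
    obtain ⟨a, b, c⟩ := p.2
    rw [hp2] at a
    simp only [one_smul, OneMemClass.coe_one, Perm.one_apply] at a c
    obtain ⟨k, hk⟩ := scalar_of_comm _ a b c
    have hval : ∀ y : ZMod 3, y = 0 ∨ y = 1 ∨ y = -1 := by decide
    rcases hval k with h | h | h
    · exfalso
      rw [h, zero_smul] at hk
      have h01 : (0 : EndR n) = 1 := by
        have := Units.mul_inv (p : (EndR n)ˣ × alternatingGroup (Fin n)).1
        rw [hk] at this
        simpa using this
      exact neg_one_ne_one (by rw [← h01]; simp)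
    · have : p = 1 := by
        apply Subtype.ext
        apply Prod.ext
        · apply Units.ext
          rw [hk, h]
          simp
        · exact hp2
      rw [this]
      exact Subgroup.one_mem _
    · have : p = zz n := by
        apply Subtype.ext
        apply Prod.ext
        · apply Units.ext
          rw [hk, h, neg_one_smul']
          rfl
        · exact hp2
      rw [this]
      exact Subgroup.mem_zpowers _
  · rw [Subgroup.zpowers_le]
    rfl

theorem swap_lift_even {a b c d : Fin n} (hab : a ≠ b) (hcd : c ≠ d) :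
    LiftP (Vu hab * Vu hcd) 1 (swap a b * swap c d) := by
  have := (LiftP.swap hab).mul (LiftP.swap hcd)
  rwa [show (-1 : ZMod 3) * (-1) = 1 by decide] at this

theorem mem_alt_swap {a b c d : Fin n} (hab : a ≠ b) (hcd : c ≠ d) :
    swap a b * swap c d ∈ alternatingGroup (Fin n) := by
  rw [Equiv.Perm.mem_alternatingGroup, Perm.sign_mul, Perm.sign_swap hab, Perm.sign_swap hcd]
  rfl

theorem zz_commutator (hn : 4 ≤ n) : zz n ∈ commutator (Gam n) := by
  obtain ⟨a, b, c, d, hab, hac, had, hbc, hbd, hcd⟩ : ∃ a b c d : Fin n, a ≠ b ∧ a ≠ c ∧ a ≠ d ∧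
      b ≠ c ∧ b ≠ d ∧ c ≠ d :=
    ⟨⟨0, by omega⟩, ⟨1, by omega⟩, ⟨2, by omega⟩, ⟨3, by omega⟩, by simp [Fin.ext_iff],
      by simp [Fin.ext_iff], by simp [Fin.ext_iff], by simp [Fin.ext_iff], by simp [Fin.ext_iff],
      by simp [Fin.ext_iff]⟩
  have hu := swap_lift_even hab hcd
  have hv := swap_lift_even hac hbd
  let σ : alternatingGroup (Fin n) := ⟨swap a b * swap c d, mem_alt_swap hab hcd⟩
  let τ : alternatingGroup (Fin n) := ⟨swap a c * swap b d, mem_alt_swap hac hbd⟩
  let U : Gam n := ⟨(Vu hab * Vu hcd, σ), hu⟩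
  let W : Gam n := ⟨(Vu hac * Vu hbd, τ), hv⟩
  have hσa : (swap a b * swap c d) a = b := by
    rw [Perm.mul_apply, swap_apply_of_ne_of_ne hac had, swap_apply_left]
  have hσb : (swap a b * swap c d) b = a := by
    rw [Perm.mul_apply, swap_apply_of_ne_of_ne hbc hbd, swap_apply_right]
  have hσc : (swap a b * swap c d) c = d := by
    rw [Perm.mul_apply, swap_apply_left, swap_apply_of_ne_of_ne had.symm hbd.symm]
  have hσd : (swap a b * swap c d) d = c := by
    rw [Perm.mul_apply, swap_apply_right, swap_apply_of_ne_of_ne hac.symm hbc.symm]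
  -- the permutations commute
  have hperm : (swap a b * swap c d) * (swap a c * swap b d) =
      (swap a c * swap b d) * (swap a b * swap c d) := by
    have h1 := Equiv.swap_apply_apply (swap a b * swap c d) a c
    have h2 := Equiv.swap_apply_apply (swap a b * swap c d) b d
    rw [hσa, hσc] at h1
    rw [hσb, hσd] at h2
    have hdj : Perm.Disjoint (swap a c) (swap b d) := Perm.disjoint_swap_swap (by simp [hab, hac, had, hbc.symm, hcd, hbd])
    have hcm : swap b d * swap a c = swap a c * swap b d := hdj.symm.commute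
    calc (swap a b * swap c d) * (swap a c * swap b d)
        = ((swap a b * swap c d) * swap a c * (swap a b * swap c d)⁻¹) *
          ((swap a b * swap c d) * swap b d * (swap a b * swap c d)⁻¹) * (swap a b * swap c d) := by
          group
      _ = (swap b d * swap a c) * (swap a b * swap c d) := by rw [← h1, ← h2]
      _ = _ := by rw [hcm]
  -- the lifts anticommute
  have hanti : ((Vu hab * Vu hcd : (EndR n)ˣ) : EndR n) * ((Vu hac * Vu hbd : (EndR n)ˣ) : EndR n) =
      -(((Vu hac * Vu hbd : (EndR n)ˣ) : EndR n) * ((Vu hab * Vu hcd : (EndR n)ˣ) : EndR n)) := by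
    obtain ⟨huL, _, _⟩ := hu
    simp only [one_smul] at huL
    obtain ⟨u, hudef⟩ : ∃ u : EndR n, u = ((Vu hab * Vu hcd : (EndR n)ˣ) : EndR n) := ⟨_, rfl⟩
    rw [← hudef] at huL ⊢
    have hvv : ((Vu hac * Vu hbd : (EndR n)ˣ) : EndR n) = Vv a c * Vv b d := rfl
    rw [hvv]
    have h1 : u * Vv a c = Vv b d * u := by
      simp only [Vv, mul_sub, sub_mul, huL, hσa, hσc]
    have h2 : u * Vv b d = Vv a c * u := by
      simp only [Vv, mul_sub, sub_mul, huL, hσb, hσd]
    have h3 : Vv b d * Vv a c = -(Vv a c * Vv b d) := by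
      have e1 := Vv_Lc hbd a
      have e2 := Vv_Lc hbd c
      rw [swap_apply_of_ne_of_ne hab had] at e1
      rw [swap_apply_of_ne_of_ne hbc.symm hcd] at e2
      change Vv b d * (Lc a - Lc c) = -((Lc a - Lc c) * Vv b d)
      rw [mul_sub, sub_mul (Lc a) (Lc c), e1, e2]
      abel
    calc u * (Vv a c * Vv b d) = (u * Vv a c) * Vv b d := by rw [mul_assoc]
      _ = Vv b d * (u * Vv b d) := by rw [h1, mul_assoc]
      _ = (Vv b d * Vv a c) * u := by rw [h2, mul_assoc]
      _ = _ := by rw [h3]; rfl
  have hUW : U * W = zz n * (W * U) := by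
    apply Subtype.ext
    apply Prod.ext
    · apply Units.ext
      change ((Vu hab * Vu hcd : (EndR n)ˣ) : EndR n) * ((Vu hac * Vu hbd : (EndR n)ˣ) : EndR n) =
        (-1) * (((Vu hac * Vu hbd : (EndR n)ˣ) : EndR n) * ((Vu hab * Vu hcd : (EndR n)ˣ) : EndR n))
      rw [hanti]; exact (neg_one_mul' _).symm
    · apply Subtype.ext
      change (swap a b * swap c d) * (swap a c * swap b d) =
        1 * ((swap a c * swap b d) * (swap a b * swap c d))
      rw [hperm, one_mul]
  have hc : zz n = U * W * U⁻¹ * W⁻¹ := by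
    rw [hUW]
    group
  rw [hc]
  exact Subgroup.commutator_mem_commutator (Subgroup.mem_top U) (Subgroup.mem_top W)

/-- For every n ≥ 4 there are a finite group Γ and a central element z of Γ of order 2 lying in the commutator subgroup of Γ such that the quotient of Γ by the (normal) subgroup generated by z is isomorphic to the alternating group on n letters. -/
theorem result (n : ℕ) (hn : 4 ≤ n) : ∃ (Γ : Type) (_ : Group Γ) (_ : Finite Γ) (z : Γ) (hz : z ∈ Subgroup.center Γ), orderOf z = 2 ∧ z ∈ commutator Γ ∧ ∃ _ : (Subgroup.zpowers z).Normal, Nonempty (Γ ⧸ Subgroup.zpowers z ≃* alternatingGroup (Fin n)) := by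
  refine ⟨Gam n, inferInstance, inferInstance, zz n, zz_center, zz_order, zz_commutator hn, ?_⟩
  have hk := ker_cov (n := n)
  haveI hN : (Subgroup.zpowers (zz n)).Normal := hk ▸ inferInstance
  exact ⟨hN, ⟨(QuotientGroup.quotientMulEquivOfEq hk.symm).trans
    (QuotientGroup.quotientKerEquivOfSurjective (cov n) cov_surjective)⟩⟩

end Cfsg.Agent.S0891
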