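import Cfsg.Statements.S0892
import Mathlib
import Cfsg.Agent.Lib.Schur.AltCover
-- import your own Cfsg.Agent.* helpers here

set_option autoImplicit false
open Cfsg

namespace Cfsg.Agent.S0892

open Equiv Equiv.Perm in
/-- The stem extension presented as a map to the symmetric group. -/
theorem exists_cover {n : ℕ} {Γ : Type*} [Group Γ] (Z : Subgroup Γ) [Z.Normal]
    (hZc : Z ≤ Subgroup.center Γ) (hZd : Z ≤ commutator Γ)
    (e : Γ ⧸ Z ≃* alternatingGroup (Fin n)) :
    ∃ π : Γ →* Perm (Fin n), Cfsg.Agent.Lib.Schur.AltCover.Cover π ∧ π.ker = Z := by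
  let π : Γ →* Perm (Fin n) :=
    (alternatingGroup (Fin n)).subtype.comp (e.toMonoidHom.comp (QuotientGroup.mk' Z))
  have hker : π.ker = Z := by
    ext x
    rw [MonoidHom.mem_ker]
    change ((e (x : Γ ⧸ Z) : alternatingGroup (Fin n)) : Perm (Fin n)) = 1 ↔ _
    rw [OneMemClass.coe_eq_one, map_eq_one_iff e e.injective, QuotientGroup.eq_one_iff]
  refine ⟨π, ⟨?_, ?_, ?_, ?_⟩, hker⟩
  · intro σ hσ
    obtain ⟨x, hx⟩ := e.surjective ⟨σ, hσ⟩
    obtain ⟨g, rfl⟩ := QuotientGroup.mk_surjective x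
    refine ⟨g, ?_⟩
    change ((e (g : Γ ⧸ Z) : alternatingGroup (Fin n)) : Perm (Fin n)) = σ
    rw [hx]
  · intro g
    exact (e (g : Γ ⧸ Z)).2
  · rw [hker]
    exact hZc
  · rw [hker]
    exact hZd

/-- Let n ≥ 4 with n ≠ 6 and n ≠ 7, and let Γ be a finite group with a subgroup Z contained in both the centre and the commutator subgroup of Γ such that Γ / Z is isomorphic to the alternating group on n letters. Then Z has order at most 2. -/
theorem result (n : ℕ) (hn : 4 ≤ n) (h6 : n ≠ 6) (h7 : n ≠ 7) {Γ : Type*} [Group Γ] [Finite Γ] (Z : Subgroup Γ) [Z.Normal] (hZc : Z ≤ Subgroup.center Γ) (hZd : Z ≤ commutator Γ) (e : Γ ⧸ Z ≃* alternatingGroup (Fin n)) : Nat.card Z ≤ 2 := by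
  obtain ⟨π, hπ, hker⟩ := exists_cover Z hZc hZd e
  have hc : Fintype.card (Fin n) = n := Fintype.card_fin n
  have := Cfsg.Agent.Lib.Schur.AltCover.card_le_two hπ (by omega) (by omega)
  rwa [hker] at this


end Cfsg.Agent.S0892
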