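import Cfsg.Statements.S0893
import Mathlib
import Cfsg.Agent.Lib.Char.IndRep
import Cfsg.Agent.Lib.Char.Ortho
import Cfsg.Agent.Lib.Char.LinearChars
import Cfsg.Prelude.Def_Transfer
-- import your own Cfsg.Agent.* helpers here

set_option autoImplicit false
open Cfsg

open scoped commutatorElement

namespace Cfsg.Agent.S0893

/-- Let P be an extraspecial p-group of order p ^ (2 * n + 1), A an abelian subgroup of order p ^ (n + 1), and λ a character of A of degree 1 that is not identically 1 on the elements of A lying in the centre of P. Then the function induced from λ to P is an irreducible character of P and vanishes at every element outside the centre. -/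
theorem result {P : Type*} [Group P] [Fintype P] (p n : ℕ) [Fact p.Prime] (hP : Cfsg.IsExtraspecial p P) (hcard : Nat.card P = p ^ (2 * n + 1)) (A : Subgroup P) (hab : ∀ a ∈ A, ∀ b ∈ A, a * b = b * a) (hA : Nat.card A = p ^ (n + 1)) (lam : A → ℂ) (hlam : Cfsg.IsCharacter A lam ∧ lam 1 = 1) (hZ : ∃ a : A, (a : P) ∈ Subgroup.center P ∧ lam a ≠ 1) : Cfsg.IsIrrCharacter P (Cfsg.indFun A lam) ∧ ∀ x : P, x ∉ Subgroup.center P → Cfsg.indFun A lam x = 0 := by
  classical
  have := Fintype.ofFinite A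
  have hp := (Fact.out : p.Prime)
  obtain ⟨hlamc, hlam1⟩ := hlam
  obtain ⟨f, hf⟩ := Cfsg.Agent.Lib.Char.LinearChars.exists_hom_of_isCharacter_one hlamc hlam1
  obtain ⟨a, haZ, hane⟩ := hZ
  obtain ⟨⟨hPg, hfr, hcomm⟩, hZcard⟩ := hP
  have hAc : (Nat.card A : ℂ) ≠ 0 := Cfsg.Agent.Lib.Char.Induced.natCard_ne_zero_complex
  have hPc : (Nat.card P : ℂ) ≠ 0 := Cfsg.Agent.Lib.Char.Induced.natCard_ne_zero_complex
  set Z := Subgroup.center P with hZdef
  have ha1 : (a : P) ≠ 1 := by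
    intro h
    apply hane
    have : a = 1 := Subtype.ext h
    rw [this, hlam1]
  -- commutators are central
  have hcc : ∀ x y : P, x⁻¹ * (y⁻¹ * x * y) ∈ Z := by
    intro x y
    rw [← hcomm]
    have : x⁻¹ * (y⁻¹ * x * y) = ⁅x⁻¹, y⁻¹⁆ := by
      rw [commutatorElement_def]; group
    rw [this]
    exact Subgroup.commutator_mem_commutator (Subgroup.mem_top _) (Subgroup.mem_top _)
  -- the centre is generated by `a`
  have hZcyc : ∀ b ∈ Z, b ≠ 1 → ∀ z ∈ Z, ∃ k : ℕ, z = b ^ k := by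
    intro b hb hb1 z hz
    have hcardZ : Nat.card Z = p := hZcard
    haveI : Fact (Nat.card Z).Prime := ⟨by rw [hcardZ]; exact hp⟩
    have hb' : (⟨b, hb⟩ : Z) ≠ 1 := fun h => hb1 (congrArg Subtype.val h)
    have hzp : Subgroup.zpowers (⟨b, hb⟩ : Z) = ⊤ := by
      rcases Subgroup.eq_bot_or_eq_top_of_prime_card (Subgroup.zpowers (⟨b, hb⟩ : Z)) with h | h
      · exact absurd (Subgroup.zpowers_eq_bot.1 h) hb'
      · exact h
    have hzmem : (⟨z, hz⟩ : Z) ∈ Subgroup.zpowers (⟨b, hb⟩ : Z) := by rw [hzp]; trivial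
    obtain ⟨k, hk⟩ := (mem_powers_iff_mem_zpowers).2 hzmem
    exact ⟨k, by simpa using (congrArg Subtype.val hk).symm⟩
  have hZA : ∀ z ∈ Z, z ∈ A := by
    intro z hz
    obtain ⟨k, rfl⟩ := hZcyc a haZ ha1 z hz
    exact A.pow_mem a.2 k
  -- extension by zero is multiplicative along `A`
  have hext : ∀ (t : P) (b : A), Cfsg.extendByZero A lam (t * b) = Cfsg.extendByZero A lam t * lam b := by
    intro t b
    by_cases ht : t ∈ A
    · have h1 : t * b ∈ A := A.mul_mem ht b.2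
      rw [Cfsg.Agent.Lib.Char.Induced.extendByZero_of_mem _ _ h1,
        Cfsg.Agent.Lib.Char.Induced.extendByZero_of_mem _ _ ht, hf]
      have h2 : (⟨t * b, h1⟩ : A) = ⟨t, ht⟩ * b := rfl
      simp [h2]
    · have h1 : t * b ∉ A := fun h => ht (by simpa using A.mul_mem h (A.inv_mem b.2))
      rw [Cfsg.Agent.Lib.Char.Induced.extendByZero_of_notMem _ _ h1,
        Cfsg.Agent.Lib.Char.Induced.extendByZero_of_notMem _ _ ht, zero_mul]
  -- vanishing off the centre
  have hvan : ∀ x : P, x ∉ Z → Cfsg.indFun A lam x = 0 := by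
    intro x hx
    rw [Cfsg.Agent.Lib.Char.Induced.indFun_apply]
    refine mul_eq_zero_of_right _ ?_
    -- the commutator map
    have hhom : ∀ (y₁ y₂ : P), x⁻¹ * ((y₁ * y₂)⁻¹ * x * (y₁ * y₂))
        = (x⁻¹ * (y₁⁻¹ * x * y₁)) * (x⁻¹ * (y₂⁻¹ * x * y₂)) := by
      intro y₁ y₂
      have h1 := (Subgroup.mem_center_iff.1 (hcc x y₁)) (y₂⁻¹)
      have h2 : y₁⁻¹ * x * y₁ = x * (x⁻¹ * (y₁⁻¹ * x * y₁)) := by group
      calc x⁻¹ * ((y₁ * y₂)⁻¹ * x * (y₁ * y₂))
          = x⁻¹ * (y₂⁻¹ * (y₁⁻¹ * x * y₁) * y₂) := by group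
        _ = x⁻¹ * (y₂⁻¹ * (x * (x⁻¹ * (y₁⁻¹ * x * y₁))) * y₂) := by rw [← h2]
        _ = x⁻¹ * (y₂⁻¹ * x * ((x⁻¹ * (y₁⁻¹ * x * y₁)) * y₂)) := by group
        _ = x⁻¹ * (y₂⁻¹ * x * (y₂ * (x⁻¹ * (y₁⁻¹ * x * y₁)))) := by
            rw [(Subgroup.mem_center_iff.1 (hcc x y₁)) y₂]
        _ = (x⁻¹ * (y₂⁻¹ * x * y₂)) * (x⁻¹ * (y₁⁻¹ * x * y₁)) := by group
        _ = _ := (Subgroup.mem_center_iff.1 (hcc x y₁) _)
    -- some commutator is nontrivial
    have hy1 : ∃ y₁ : P, x⁻¹ * (y₁⁻¹ * x * y₁) ≠ 1 := by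
      by_contra hcon
      push Not at hcon
      apply hx
      rw [Subgroup.mem_center_iff]
      intro g
      have h1 := hcon g
      have h2 : g⁻¹ * x * g = x := by
        have : x * (x⁻¹ * (g⁻¹ * x * g)) = x := by rw [h1, mul_one]
        simpa using this
      calc g * x = g * (g⁻¹ * x * g) := by rw [h2]
        _ = x * g := by group
    obtain ⟨y₁, hy₁⟩ := hy1
    obtain ⟨k, hk⟩ := hZcyc _ (hcc x y₁) hy₁ (a : P) haZ
    -- the power map
    have hpowc : ∀ k : ℕ, x⁻¹ * ((y₁ ^ k)⁻¹ * x * y₁ ^ k) = (x⁻¹ * (y₁⁻¹ * x * y₁)) ^ k := by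
      intro k
      induction k with
      | zero => simp
      | succ k ih =>
        rw [pow_succ, hhom, ih, pow_succ]
    set y₀ := y₁ ^ k with hy₀
    have hy₀a : x⁻¹ * (y₀⁻¹ * x * y₀) = a := by
      rw [hy₀, hpowc, ← hk]
    have hshift : ∀ y : P, (y * y₀)⁻¹ * x * (y * y₀) = (y⁻¹ * x * y) * (a : P) := by
      intro y
      have h1 := hhom y y₀
      rw [hy₀a] at h1
      have h2 : (y * y₀)⁻¹ * x * (y * y₀) = x * (x⁻¹ * ((y * y₀)⁻¹ * x * (y * y₀))) := by group
      rw [h2, h1]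
      group
    set S := ∑ y : P, Cfsg.extendByZero A lam (y⁻¹ * x * y) with hS
    have h3 : S = S * lam a := by
      rw [hS, Finset.sum_mul]
      rw [← Equiv.sum_comp (Equiv.mulRight y₀)]
      refine Finset.sum_congr rfl fun y _ => ?_
      simp only [Equiv.coe_mulRight]
      rw [hshift, hext]
    have h4 : S * (1 - lam a) = 0 := by
      rw [mul_sub, mul_one, ← h3, sub_self]
    exact (mul_eq_zero.1 h4).resolve_right (sub_ne_zero.2 (Ne.symm hane))
  -- value on the centre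
  have hval : ∀ z (hz : z ∈ Z), Cfsg.indFun A lam z = (A.index : ℂ) * lam ⟨z, hZA z hz⟩ := by
    intro z hz
    rw [Cfsg.Agent.Lib.Char.Induced.indFun_apply]
    have hterm : ∀ y : P, Cfsg.extendByZero A lam (y⁻¹ * z * y) = lam ⟨z, hZA z hz⟩ := by
      intro y
      have h1 : y⁻¹ * z * y = z := by
        rw [mul_assoc, ← (Subgroup.mem_center_iff.1 hz) y]
        group
      rw [h1, Cfsg.Agent.Lib.Char.Induced.extendByZero_of_mem _ _ (hZA z hz)]
    simp_rw [hterm]
    rw [Finset.sum_const, Finset.card_univ, nsmul_eq_mul, ← Nat.card_eq_fintype_card]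
    have h1 : (Nat.card P : ℂ) = (Nat.card A : ℂ) * (A.index : ℂ) := by
      exact_mod_cast (Subgroup.card_mul_index A).symm
    rw [h1]
    field_simp
  have hnorm1 : ∀ b : A, lam b * (starRingEnd ℂ) (lam b) = 1 := by
    intro b
    rw [Cfsg.Agent.Lib.Char.Ortho.conj_of_isCharacter hlamc b, hf]
    simp
  have hidx : A.index = p ^ n := by
    have h1 := Subgroup.card_mul_index A
    rw [hA, hcard] at h1
    have h2 : p ^ (2 * n + 1) = p ^ (n + 1) * p ^ n := by ring
    rw [h2] at h1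
    exact Nat.eq_of_mul_eq_mul_left (pow_pos hp.pos _) h1
  refine ⟨?_, hvan⟩
  refine Cfsg.Agent.Lib.Char.Ortho.isIrrCharacter_of_classInner_self_eq_one
    (Cfsg.Agent.Lib.Char.IndRep.isCharacter_indFun A hlamc) ?_
  rw [Cfsg.Agent.Lib.Char.Induced.classInner_def]
  have hterm2 : ∀ g : P, Cfsg.indFun A lam g * (starRingEnd ℂ) (Cfsg.indFun A lam g)
      = if g ∈ Z then ((A.index : ℂ) * (A.index : ℂ)) else 0 := by
    intro g
    split_ifs with hg
    · rw [hval g hg, map_mul, Complex.conj_natCast]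
      have := hnorm1 ⟨g, hZA g hg⟩
      calc _ = (A.index : ℂ) * (A.index : ℂ) * (lam ⟨g, hZA g hg⟩ * (starRingEnd ℂ) (lam ⟨g, hZA g hg⟩)) := by ring
        _ = _ := by rw [this, mul_one]
    · rw [hvan g hg, zero_mul]
  simp_rw [hterm2]
  rw [Finset.sum_ite, Finset.sum_const_zero, add_zero, Finset.sum_const, nsmul_eq_mul]
  have hc : (Finset.univ.filter (fun x : P => x ∈ Z)).card = p := by
    rw [← hZcard, Nat.card_eq_fintype_card, Fintype.card_subtype]
  rw [hc, hidx, hcard]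
  have hpc : (p : ℂ) ≠ 0 := by exact_mod_cast hp.ne_zero
  push_cast
  field_simp
  ring

end Cfsg.Agent.S0893
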