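import Mathlib
import Cfsg.Statements.S0894
import Cfsg.Agent.Lib.Char.AbelianQuot
import Cfsg.Agent.Lib.Char.Integrality
import Cfsg.Agent.Lib.Char.CompleteCor
import Cfsg.Agent.Lib.Char.LinearChars
import Cfsg.Agent.Lib.Char.OrthoBasic
import Cfsg.Agent.Lib.Char.Values
-- import your own Cfsg.Agent.* helpers here

set_option autoImplicit false
open Cfsg

namespace Cfsg.Agent.S0894

open scoped ComplexConjugate

universe u
variable {P : Type u} [Group P] [Finite P]

/-- Commutators of a group whose commutator subgroup is central of prime order. -/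
theorem eq_zpowers_of_ne_one {p : ℕ} [Fact p.Prime] (hZ : Nat.card (Subgroup.center P) = p)
    {c : P} (hc : c ∈ Subgroup.center P) (hc1 : c ≠ 1) :
    Subgroup.zpowers c = Subgroup.center P := by
  have hle : Subgroup.zpowers c ≤ Subgroup.center P := by
    rw [Subgroup.zpowers_le]; exact hc
  refine Subgroup.eq_of_le_of_card_ge hle ?_
  rw [hZ, Nat.card_zpowers]
  have hdvd : orderOf c ∣ p := by
    have : orderOf (⟨c, hc⟩ : Subgroup.center P) ∣ Nat.card (Subgroup.center P) :=
      orderOf_dvd_natCard _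
    rw [hZ] at this
    simpa using (by simpa [Subgroup.orderOf_mk] using this)
  rcases (Nat.dvd_prime (Fact.out : p.Prime)).1 hdvd with h | h
  · exact absurd (orderOf_eq_one_iff.1 h) hc1
  · exact h.ge

/-- Degree dichotomy: every irreducible character has degree `1` or `p ^ n`. -/
theorem degree_dichotomy {p n : ℕ} [Fact p.Prime] (hcomm : commutator P = Subgroup.center P)
    (hZ : Nat.card (Subgroup.center P) = p) (hcard : Nat.card P = p ^ (2 * n + 1))
    {χ : P → ℂ} (hχ : IsIrrCharacter P χ) : χ 1 = 1 ∨ χ 1 = (p : ℂ) ^ n := by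
  classical
  have := Fintype.ofFinite P
  have hnorm := Cfsg.Agent.Lib.Char.OrthoBasic.classInner_irr_irr hχ hχ
  obtain ⟨k, ρ, hρ, rfl⟩ := hχ
  haveI := hρ
  have hone : ρ.character 1 = (k : ℂ) := by
    rw [Representation.char_one]; simp
  -- central elements act by scalars
  have hscal : ∀ z ∈ Subgroup.center P, ∃ a : ℂ, ρ z = a • LinearMap.id := by
    intro z hz
    refine Cfsg.Agent.Lib.Char.Integrality.exists_smul_id_of_commute ρ (ρ z) (fun g => ?_)
    rw [← Module.End.mul_eq_comp, ← Module.End.mul_eq_comp, ← map_mul, ← map_mul,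
      (Subgroup.mem_center_iff.1 hz g).symm]
  by_cases hker : ∀ z ∈ Subgroup.center P, ρ z = 1
  · left
    have hfr : Module.finrank ℂ (Fin k → ℂ) = 1 := by
      refine Cfsg.Agent.Lib.Char.AbelianQuot.finrank_eq_one_of_commuting ρ (fun x y => ?_)
      have hc : x * y * x⁻¹ * y⁻¹ ∈ commutator P := by
        rw [commutator_def]
        exact Subgroup.commutator_mem_commutator (Subgroup.mem_top x) (Subgroup.mem_top y)
      have h1 := hker _ (hcomm ▸ hc)
      have hxy : x * y = (x * y * x⁻¹ * y⁻¹) * (y * x) := by group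
      rw [← Module.End.mul_eq_comp, ← Module.End.mul_eq_comp, ← map_mul, ← map_mul, hxy, map_mul,
        h1, one_mul, map_mul]
    rw [hone]
    have : k = 1 := by simpa using hfr
    simp [this]
  · right
    push_neg at hker
    obtain ⟨z₀, hz₀, hz₀1⟩ := hker
    -- every non-identity central element acts nontrivially
    have hnt : ∀ c ∈ Subgroup.center P, c ≠ 1 → ρ c ≠ 1 := by
      intro c hc hc1 hρc
      have hz : z₀ ∈ Subgroup.zpowers c := by
        rw [eq_zpowers_of_ne_one hZ hc hc1]; exact hz₀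
      obtain ⟨m, rfl⟩ := (mem_powers_iff_mem_zpowers).2 hz
      apply hz₀1
      simp only [map_pow, hρc, one_pow]
    -- vanishing off the centre
    have hvan : ∀ x, x ∉ Subgroup.center P → ρ.character x = 0 := by
      intro x hx
      rw [Subgroup.mem_center_iff] at hx
      push_neg at hx
      obtain ⟨y, hy⟩ := hx
      set c : P := y * x * y⁻¹ * x⁻¹ with hcdef
      have hcc : c ∈ Subgroup.center P := by
        rw [← hcomm, commutator_def]
        exact Subgroup.commutator_mem_commutator (Subgroup.mem_top y) (Subgroup.mem_top x)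
      have hc1 : c ≠ 1 := by
        intro h
        apply hy
        have h2 : y * x * y⁻¹ = x := by
          have : y * x * y⁻¹ * x⁻¹ = 1 := h
          exact mul_inv_eq_one.1 this
        calc y * x = (y * x * y⁻¹) * y := by group
          _ = x * y := by rw [h2]
      obtain ⟨a, ha⟩ := hscal c hcc
      have ha1 : a ≠ 1 := by
        rintro rfl
        apply hnt c hcc hc1
        rw [ha, one_smul]; rfl
      have hconj : ρ.character (y * x * y⁻¹) = ρ.character x := by
        simp
      have hcx : y * x * y⁻¹ = c * x := by rw [hcdef]; group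
      have hval : ρ.character (c * x) = a * ρ.character x := by
        unfold Representation.character
        rw [map_mul, ha]
        simp [Module.End.mul_eq_comp]
      rw [hcx, hval] at hconj
      have : (a - 1) * ρ.character x = 0 := by rw [sub_mul, hconj]; ring
      exact (mul_eq_zero.1 this).resolve_left (sub_ne_zero.2 ha1)
    -- values on the centre
    have hval : ∀ z ∈ Subgroup.center P,
        ρ.character z * conj (ρ.character z) = (k : ℂ) ^ 2 := by
      intro z hz
      obtain ⟨a, ha⟩ := hscal z hz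
      have hk : ρ.character z = a * k := by
        unfold Representation.character
        rw [ha]; simp
      have hpow : a ^ orderOf z = 1 := by
        have h1 : ρ (z ^ orderOf z) = 1 := by rw [pow_orderOf_eq_one, map_one]
        have ha' : ρ z = a • (1 : Module.End ℂ (Fin k → ℂ)) := ha
        rw [map_pow, ha', smul_pow, one_pow] at h1
        have hne : Nontrivial (Fin k → ℂ) :=
          Cfsg.Agent.Lib.Char.Integrality.nontrivial_of_isIrreducible ρ
        obtain ⟨v, hv⟩ := exists_ne (0 : Fin k → ℂ)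
        have h2 := congrArg (fun f => f v) h1
        simp at h2
        exact (smul_left_injective ℂ hv) (by simpa using h2)
      have hnorm1 : ‖a‖ = 1 :=
        Cfsg.Agent.Lib.Char.Values.norm_eq_one_of_pow (orderOf_pos z) hpow
      rw [hk, map_mul, Complex.conj_natCast]
      have : a * conj a = 1 := by
        rw [Complex.mul_conj, Complex.normSq_eq_norm_sq, hnorm1]; simp
      calc a * (k : ℂ) * (conj a * k) = (a * conj a) * (k : ℂ) ^ 2 := by ring
        _ = (k : ℂ) ^ 2 := by rw [this, one_mul]
    -- the norm computation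
    have hsum : ∑ g : P, ρ.character g * conj (ρ.character g) = (p : ℂ) * (k : ℂ) ^ 2 := by
      have h1 : ∑ g : P, ρ.character g * conj (ρ.character g) =
          ∑ g ∈ Finset.univ.filter (fun g => g ∈ Subgroup.center P), (k : ℂ) ^ 2 := by
        rw [Finset.sum_filter]
        refine Finset.sum_congr rfl fun g _ => ?_
        split_ifs with hg
        · exact hval g hg
        · rw [hvan g hg]; simp
      rw [h1, Finset.sum_const, nsmul_eq_mul]
      congr 1
      have : (Finset.univ.filter (fun g => g ∈ Subgroup.center P)).card = p := by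
        rw [← hZ, Nat.card_eq_fintype_card, Fintype.card_subtype]
      rw [this]
    have hinner := hnorm
    rw [if_pos rfl, Cfsg.Agent.Lib.Char.Induced.classInner_def, hsum, hcard] at hinner
    have hp0 : (p : ℂ) ≠ 0 := Nat.cast_ne_zero.2 (Fact.out : p.Prime).ne_zero
    have hk2 : (k : ℂ) ^ 2 = (p : ℂ) ^ (2 * n) := by
      have hpn : (((p ^ (2 * n + 1) : ℕ)) : ℂ) ≠ 0 := by
        push_cast; exact pow_ne_zero _ hp0
      have h := (inv_mul_eq_one₀ hpn).1 hinner
      push_cast at h
      have : (p : ℂ) * (k : ℂ) ^ 2 = (p : ℂ) * (p : ℂ) ^ (2 * n) := by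
        rw [h.symm, pow_succ]; ring
      exact mul_left_cancel₀ hp0 this
    have hknat : k ^ 2 = (p ^ n) ^ 2 := by
      have : ((k ^ 2 : ℕ) : ℂ) = (((p ^ n) ^ 2 : ℕ) : ℂ) := by
        push_cast
        rw [hk2]; ring
      exact_mod_cast this
    have hkk : k = p ^ n := by
      exact Nat.pow_left_injective (n := 2) (by norm_num) hknat
    rw [hone, hkk]; push_cast; rfl

/-- Let P be an extraspecial p-group of order p ^ (2 * n + 1). Then every irreducible character of P has degree 1 or p ^ n, and exactly p - 1 of them have degree p ^ n. -/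
theorem result {P : Type*} [Group P] [Finite P] (p n : ℕ) [Fact p.Prime] (hP : Cfsg.IsExtraspecial p P) (hcard : Nat.card P = p ^ (2 * n + 1)) : (∀ χ : Cfsg.IrrCharacter P, (χ : P → ℂ) 1 = 1 ∨ (χ : P → ℂ) 1 = (p : ℂ) ^ n) ∧ Nat.card {χ : Cfsg.IrrCharacter P // (χ : P → ℂ) 1 = (p : ℂ) ^ n} = p - 1 := by
  classical
  obtain ⟨⟨-, -, hcomm⟩, hZ⟩ := hP
  have hdich : ∀ χ : Cfsg.IrrCharacter P, (χ : P → ℂ) 1 = 1 ∨ (χ : P → ℂ) 1 = (p : ℂ) ^ n :=
    fun χ => degree_dichotomy hcomm hZ hcard χ.2
  refine ⟨hdich, ?_⟩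
  have hpp : p.Prime := Fact.out
  have hp0 : (p : ℂ) ≠ 0 := Nat.cast_ne_zero.2 hpp.ne_zero
  -- `n ≠ 0`
  have hn : n ≠ 0 := by
    rintro rfl
    have hc : Nat.card P = p := by simpa using hcard
    have : IsCyclic P := isCyclic_of_prime_card hc
    have hcm : ∀ a b : P, a * b = b * a := fun a b => (IsCyclic.commGroup (α := P)).mul_comm a b
    have hbot : commutator P = ⊥ := by
      rw [commutator_eq_bot_iff_center_eq_top]
      exact (Subgroup.eq_top_iff' _).2 fun x => Subgroup.mem_center_iff.2 fun g => hcm g x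
    rw [hcomm] at hbot
    rw [hbot] at hZ
    simp at hZ
    exact hpp.one_lt.ne hZ
  have hne : ((p : ℂ) ^ n) ≠ 1 := by
    have : ((p ^ n : ℕ) : ℂ) ≠ ((1 : ℕ) : ℂ) := by
      rw [Ne, Nat.cast_inj]
      exact (Nat.one_lt_pow hn hpp.one_lt).ne'
    simpa using this
  have := Fintype.ofFinite P
  have := Fintype.ofFinite (Cfsg.IrrCharacter P)
  have hsq := Cfsg.Agent.Lib.Char.CompleteCor.sum_sq_degrees (G := P)
  -- split the sum of squares
  have hlin := Cfsg.Agent.Lib.Char.LinearChars.card_linear_chars (G := P)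
  have hidx : (commutator P).index = p ^ (2 * n) := by
    have h1 := Subgroup.card_mul_index (commutator P)
    rw [hcomm, hZ, hcard, pow_succ, mul_comm] at h1
    rw [hcomm]
    exact Nat.eq_of_mul_eq_mul_right hpp.pos (by rw [mul_comm] at h1; rw [mul_comm, ← h1, mul_comm])
  set A := Nat.card {χ : Cfsg.IrrCharacter P // (χ : P → ℂ) 1 = (1 : ℂ)} with hA
  set B := Nat.card {χ : Cfsg.IrrCharacter P // (χ : P → ℂ) 1 = (p : ℂ) ^ n} with hB
  have hsum : ∑ χ : Cfsg.IrrCharacter P, (χ : P → ℂ) 1 ^ 2 =
      (A : ℂ) + (B : ℂ) * (p : ℂ) ^ (2 * n) := by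
    have h1 : ∀ χ : Cfsg.IrrCharacter P, (χ : P → ℂ) 1 ^ 2 =
        (if (χ : P → ℂ) 1 = 1 then (1 : ℂ) else 0) +
        (if (χ : P → ℂ) 1 = (p : ℂ) ^ n then (p : ℂ) ^ (2 * n) else 0) := by
      intro χ
      rcases hdich χ with h | h
      · rw [h, if_pos rfl, if_neg hne.symm]; simp
      · rw [h, if_neg hne, if_pos rfl]; rw [pow_mul']; simp
    rw [Finset.sum_congr rfl (fun χ _ => h1 χ), Finset.sum_add_distrib]
    congr 1
    · rw [Finset.sum_boole, hA, Nat.card_eq_fintype_card, Fintype.card_subtype]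
    · rw [← Finset.sum_filter, Finset.sum_const, nsmul_eq_mul, hB, Nat.card_eq_fintype_card,
        Fintype.card_subtype]
  rw [hsum, hcard, hlin, hidx] at hsq
  have hpn : ((p : ℂ) ^ (2 * n)) ≠ 0 := pow_ne_zero _ hp0
  have h3 : (1 + (B : ℂ)) * (p : ℂ) ^ (2 * n) = (p : ℂ) * (p : ℂ) ^ (2 * n) := by
    push_cast at hsq
    rw [pow_succ] at hsq
    rw [add_mul, one_mul, hsq]; ring
  have h4 : 1 + (B : ℂ) = p := mul_right_cancel₀ hpn h3
  have h5 : 1 + B = p := by exact_mod_cast h4
  omega

end Cfsg.Agent.S0894
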