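import Mathlib
import Cfsg.Agent.Lib.Char.ExtSplit
import Cfsg.Agent.S0896
import Cfsg.Agent.Lib.Char.LinearChars
import Cfsg.Agent.Lib.Char.FrobPair

set_option autoImplicit false

open Cfsg

namespace Cfsg.Agent.S0897

open Cfsg.Agent.Lib.Char.LinearChars

/-- Homs from subgroups of abelian groups to `ℂˣ` extend. -/
theorem exists_ext_of_comm {A : Type*} [Group A] [Finite A] (hA : ∀ a b : A, a * b = b * a)
    (H : Subgroup A) (l : H →* ℂˣ) : ∃ l' : A →* ℂˣ, ∀ h : H, l' h = l h := by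
  letI : CommGroup A := { (inferInstance : Group A) with mul_comm := hA }
  haveI : HasEnoughRootsOfUnity ℂ (Monoid.exponent A) := inferInstance
  obtain ⟨l', hl'⟩ := MonoidHom.domRestrict_surjective ℂ H l
  refine ⟨l', fun h => ?_⟩
  exact DFunLike.congr_fun hl' h

variable {G : Type*} [Group G] [Finite G] {p : ℕ} [Fact p.Prime] {N : Subgroup G} [hN : N.Normal]

theorem exists_ext_on_pSub (P : Sylow p G)
    (hcent : ∀ x ∈ (P : Subgroup G) ⊓ N, ∀ y ∈ (P : Subgroup G), x * y = y * x)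
    (hlin : ∀ lam : ↥((P : Subgroup G) ⊓ N) → ℂ, Cfsg.IsCharacter ↥((P : Subgroup G) ⊓ N) lam →
      lam 1 = 1 → ∃ μ : ↥(P : Subgroup G) → ℂ, Cfsg.IsCharacter ↥(P : Subgroup G) μ ∧ μ 1 = 1 ∧
        ∀ x : ↥((P : Subgroup G) ⊓ N), μ ⟨(x : G), x.2.1⟩ = lam x)
    (Q : Subgroup G) (hQ : IsPGroup p Q) :
    (∀ x ∈ Q ⊓ N, ∀ y ∈ Q, x * y = y * x) ∧
      ∀ l : ↥(Q ⊓ N) →* ℂˣ, ∃ l' : Q →* ℂˣ, ∀ d : ↥(Q ⊓ N), l' ⟨d, d.2.1⟩ = l d := by
  classical
  obtain ⟨R, hR⟩ := hQ.exists_le_sylow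
  obtain ⟨g, rfl⟩ := MulAction.exists_smul_eq G P R
  have hconj : ∀ q ∈ Q, g⁻¹ * q * g ∈ (P : Subgroup G) := by
    intro q hq
    have h1 : q ∈ ((g • P : Sylow p G) : Subgroup G) := hR hq
    rw [Sylow.smul_def, Sylow.pointwise_smul_def, Subgroup.mem_pointwise_smul_iff_inv_smul_mem] at h1
    simpa [MulAut.smul_def, MulAut.conj_inv_apply] using h1
  have hconjN : ∀ q ∈ N, g⁻¹ * q * g ∈ N := by
    intro q hq
    simpa using hN.conj_mem q hq g⁻¹
  refine ⟨?_, ?_⟩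
  · rintro x ⟨hx, hxN⟩ y hy
    have h1 := hcent _ ⟨hconj x hx, hconjN x hxN⟩ _ (hconj y hy)
    have h2 : g * ((g⁻¹ * x * g) * (g⁻¹ * y * g)) * g⁻¹ = g * ((g⁻¹ * y * g) * (g⁻¹ * x * g)) * g⁻¹ := by
      rw [h1]
    simpa [mul_assoc] using h2
  · intro l
    let A := ↥((P : Subgroup G) ⊓ N)
    have hA : ∀ a b : A, a * b = b * a := by
      intro a b
      apply Subtype.ext
      exact hcent a a.2 b b.2.1
    have hback : ∀ (a : A) , g * (a : G) * g⁻¹ ∈ N := fun a => hN.conj_mem _ a.2.2 g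
    let B : Subgroup A :=
      { carrier := {a | g * (a : G) * g⁻¹ ∈ Q}
        mul_mem' := by
          intro a b ha hb
          have : g * ((a * b : A) : G) * g⁻¹ = (g * a * g⁻¹) * (g * b * g⁻¹) := by
            change g * ((a : G) * b) * g⁻¹ = _
            group
          change g * ((a * b : A) : G) * g⁻¹ ∈ Q
          rw [this]
          exact Q.mul_mem ha hb
        one_mem' := by
          change g * ((1 : A) : G) * g⁻¹ ∈ Q
          simp [Q.one_mem]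
        inv_mem' := by
          intro a ha
          have : g * ((a⁻¹ : A) : G) * g⁻¹ = (g * a * g⁻¹)⁻¹ := by
            change g * ((a : G)⁻¹) * g⁻¹ = _
            group
          change g * ((a⁻¹ : A) : G) * g⁻¹ ∈ Q
          rw [this]
          exact Q.inv_mem ha }
    let l₀ : B →* ℂˣ :=
      { toFun := fun a => l ⟨g * (a.1 : G) * g⁻¹, a.2, hback a.1⟩
        map_one' := by
          rw [← map_one l]
          congr 1
          apply Subtype.ext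
          change g * ((1 : A) : G) * g⁻¹ = 1
          simp
        map_mul' := by
          intro a b
          rw [← map_mul l]
          congr 1
          apply Subtype.ext
          change g * (((a.1 : G)) * (b.1 : G)) * g⁻¹ = (g * (a.1 : G) * g⁻¹) * (g * (b.1 : G) * g⁻¹)
          group }
    obtain ⟨l₁, hl₁⟩ := exists_ext_of_comm hA B l₀
    obtain ⟨μ, hμ, hμ1, hμx⟩ := hlin (fun a => ((l₁ a : ℂˣ) : ℂ))
      (Cfsg.Agent.Lib.Char.Basic.isCharacter_of_isIrrCharacter (isIrr_of_hom l₁)) (by simp)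
    obtain ⟨μ', hμ'⟩ := exists_hom_of_isCharacter_one hμ hμ1
    let l' : Q →* ℂˣ :=
      { toFun := fun q => μ' ⟨g⁻¹ * (q : G) * g, hconj q q.2⟩
        map_one' := by
          rw [← map_one μ']
          congr 1
          apply Subtype.ext
          change g⁻¹ * ((1 : Q) : G) * g = 1
          simp
        map_mul' := by
          intro a b
          rw [← map_mul μ']
          congr 1
          apply Subtype.ext
          change g⁻¹ * ((a : G) * (b : G)) * g = (g⁻¹ * (a : G) * g) * (g⁻¹ * (b : G) * g)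
          group }
    refine ⟨l', fun d => ?_⟩
    have hmem : g⁻¹ * (d : G) * g ∈ (P : Subgroup G) ⊓ N :=
      ⟨hconj d d.2.1, hconjN d d.2.2⟩
    have hmemB : (⟨g⁻¹ * (d : G) * g, hmem⟩ : A) ∈ B := by
      change g * (g⁻¹ * (d : G) * g) * g⁻¹ ∈ Q
      simpa [mul_assoc] using d.2.1
    apply Units.ext
    have h1 := hμx ⟨g⁻¹ * (d : G) * g, hmem⟩
    have h2 := hl₁ ⟨⟨g⁻¹ * (d : G) * g, hmem⟩, hmemB⟩
    have h3 : l₀ ⟨⟨g⁻¹ * (d : G) * g, hmem⟩, hmemB⟩ = l d := by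
      change l _ = l d
      congr 1
      apply Subtype.ext
      change g * (g⁻¹ * (d : G) * g) * g⁻¹ = d
      group
    have h1' : ((μ' ⟨g⁻¹ * (d : G) * g, hmem.1⟩ : ℂˣ) : ℂ) =
        ((l₁ ⟨g⁻¹ * (d : G) * g, hmem⟩ : ℂˣ) : ℂ) := by
      rw [hμ'] at h1
      exact h1
    change ((μ' ⟨g⁻¹ * (d : G) * g, hmem.1⟩ : ℂˣ) : ℂ) = _
    rw [h1', ← h3, ← h2]


theorem exists_hom_on_E (P : Sylow p G)
    (hcent : ∀ x ∈ (P : Subgroup G) ⊓ N, ∀ y ∈ (P : Subgroup G), x * y = y * x)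
    (hlin : ∀ lam : ↥((P : Subgroup G) ⊓ N) → ℂ, Cfsg.IsCharacter ↥((P : Subgroup G) ⊓ N) lam →
      lam 1 = 1 → ∃ μ : ↥(P : Subgroup G) → ℂ, Cfsg.IsCharacter ↥(P : Subgroup G) μ ∧ μ 1 = 1 ∧
        ∀ x : ↥((P : Subgroup G) ⊓ N), μ ⟨(x : G), x.2.1⟩ = lam x)
    {k : ℕ} (hk : N.index = p ^ k)
    (E : Subgroup G) (hE : IsElementary p E) (φ : ↥(E ⊓ N) → ℂ)
    (hφ : IsIrrCharacter ↥(E ⊓ N) φ) :
    ∃ μ : E →* ℂˣ, ∀ d : ↥(E ⊓ N), ((μ ⟨d, d.2.1⟩ : ℂˣ) : ℂ) = φ d := by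
  classical
  have hp : p.Prime := Fact.out
  obtain ⟨x, hxc, hxo, j, hj⟩ := hE
  let C : Subgroup E := Subgroup.zpowers x
  obtain ⟨S⟩ : Nonempty (Sylow p E) := inferInstance
  -- `x ∈ N`
  have hxN : (x : G) ∈ N := by
    have h1 : (x : G) ^ N.index ∈ N := Subgroup.pow_index_mem N _
    have h2 : (orderOf (x : G)).Coprime N.index := by
      rw [hk, Subgroup.orderOf_coe]
      exact hxo.pow_right k
    obtain ⟨m, hm⟩ := exists_pow_eq_self_of_coprime h2.symm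
    rw [← hm]
    exact N.pow_mem h1 m
  have hCN : ∀ c ∈ C, ((c : E) : G) ∈ N := by
    intro c hc
    obtain ⟨i, rfl⟩ := Subgroup.mem_zpowers_iff.1 hc
    simpa using N.zpow_mem hxN i
  have hCcent : ∀ c ∈ C, ∀ e : E, c * e = e * c := by
    intro c hc e
    obtain ⟨i, rfl⟩ := Subgroup.mem_zpowers_iff.1 hc
    have h2 : Commute x e := (Subgroup.mem_center_iff.1 hxc e).symm
    exact (h2.zpow_left i).eq
  -- complement
  have hcardC : Nat.card C = orderOf x := Nat.card_zpowers x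
  have hcop : Nat.Coprime (Nat.card C) p := by rw [hcardC]; exact hxo
  have hcardE : Nat.card C * p ^ j = Nat.card E := by
    rw [← hj]
    exact Subgroup.card_mul_index C
  have hcardS : Nat.card S = p ^ j := by
    rw [Sylow.card_eq_multiplicity, ← hcardE]
    congr 1
    have hC0 : Nat.card C ≠ 0 := Nat.card_pos.ne'
    rw [Nat.factorization_mul hC0 (pow_ne_zero _ hp.ne_zero)]
    simp [Nat.factorization_eq_zero_of_not_dvd ((Nat.Prime.coprime_iff_not_dvd hp).1 hcop.symm),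
      hp.factorization_self]
  have hcompl : Subgroup.IsComplement' C (S : Subgroup E) :=
    Subgroup.isComplement'_of_coprime (by rw [hcardS, hcardE])
      (by rw [hcardS]; exact Nat.Coprime.pow_right j hcop)
  -- the `p`-part
  let Q : Subgroup G := (S : Subgroup E).map E.subtype
  have hQ : IsPGroup p Q := S.isPGroup'.map E.subtype
  obtain ⟨hQc, hQe⟩ := exists_ext_on_pSub P hcent hlin Q hQ
  have hQle : Q ≤ E := by
    rintro _ ⟨s, _, rfl⟩
    exact s.2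
  have hdec : ∀ e : E, ∃ c ∈ C, ∃ s ∈ (S : Subgroup E), c * s = e := by
    intro e
    obtain ⟨⟨c, s⟩, hcs⟩ := hcompl.2 e
    exact ⟨c, c.2, s, s.2, hcs⟩
  have hsN : ∀ d : ↥(E ⊓ N), ∃ c ∈ C, ∃ s ∈ (S : Subgroup E), c * s = ⟨d, d.2.1⟩ ∧ ((s : E) : G) ∈ N := by
    intro d
    obtain ⟨c, hc, s, hs, hcs⟩ := hdec ⟨d, d.2.1⟩
    refine ⟨c, hc, s, hs, hcs, ?_⟩
    have h1 : ((s : E) : G) = ((c : E) : G)⁻¹ * d := by
      have := congrArg (fun z : E => (z : G)) hcs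
      simp only [Subgroup.coe_mul] at this
      rw [← this]
      group
    rw [h1]
    exact N.mul_mem (N.inv_mem (hCN c hc)) d.2.2
  -- central in `E`
  have hScent : ∀ s ∈ (S : Subgroup E), ((s : E) : G) ∈ N → ∀ e : E, s * e = e * s := by
    intro s hs hsN e
    obtain ⟨c', hc', s', hs', rfl⟩ := hdec e
    have h1 : s * s' = s' * s := by
      apply Subtype.ext
      exact hQc _ ⟨⟨s, hs, rfl⟩, hsN⟩ _ ⟨s', hs', rfl⟩
    calc s * (c' * s') = c' * s * s' := by rw [← mul_assoc, (hCcent c' hc' s).symm]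
      _ = c' * (s * s') := mul_assoc _ _ _
      _ = c' * s' * s := by rw [h1, mul_assoc]
  have hDc : ∀ a b : ↥(E ⊓ N), a * b = b * a := by
    intro a b
    obtain ⟨c, hc, s, hs, hcs, hsn⟩ := hsN a
    apply Subtype.ext
    have h1 : (⟨a, a.2.1⟩ : E) * ⟨b, b.2.1⟩ = ⟨b, b.2.1⟩ * ⟨a, a.2.1⟩ := by
      rw [← hcs, mul_assoc, hScent s hs hsn, ← mul_assoc, hCcent c hc, mul_assoc]
    exact congrArg (fun z : E => (z : G)) h1
  have hφ1 : φ 1 = 1 := Cfsg.Agent.Lib.Char.FrobPair.degree_eq_one_of_comm hDc hφ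
  obtain ⟨l, hl⟩ := exists_hom_of_isCharacter_one
    (Cfsg.Agent.Lib.Char.Basic.isCharacter_of_isIrrCharacter hφ) hφ1
  -- restrict to `Q ⊓ N`
  let r : ↥(Q ⊓ N) →* ↥(E ⊓ N) :=
    { toFun := fun y => ⟨y, hQle y.2.1, y.2.2⟩
      map_one' := rfl
      map_mul' := fun _ _ => rfl }
  obtain ⟨l', hl'⟩ := hQe (l.comp r)
  -- the map on `C` and on `S`
  let lC : C →* ℂˣ :=
    { toFun := fun c => l ⟨((c : E) : G), (c : E).2, hCN c c.2⟩
      map_one' := by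
        rw [← map_one l]
        rfl
      map_mul' := fun a b => by
        rw [← map_mul l]
        rfl }
  let lS : (S : Subgroup E) →* ℂˣ :=
    { toFun := fun s => l' ⟨((s : E) : G), ⟨s, s.2, rfl⟩⟩
      map_one' := by
        rw [← map_one l']
        rfl
      map_mul' := fun a b => by
        rw [← map_mul l']
        rfl }
  let f : C × (S : Subgroup E) →* E :=
    MonoidHom.noncommCoprod C.subtype (S : Subgroup E).subtype
      (fun c s => hCcent c c.2 s)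
  have hf : Function.Bijective f := hcompl
  let e : C × (S : Subgroup E) ≃* E := MulEquiv.ofBijective f hf
  let μ : E →* ℂˣ := (MonoidHom.coprod lC lS).comp e.symm.toMonoidHom
  refine ⟨μ, fun d => ?_⟩
  obtain ⟨c, hc, s, hs, hcs, hsn⟩ := hsN d
  have h1 : e (⟨c, hc⟩, ⟨s, hs⟩) = ⟨d, d.2.1⟩ := hcs
  have h2 : e.symm ⟨d, d.2.1⟩ = (⟨c, hc⟩, ⟨s, hs⟩) := by
    rw [← h1]
    simp
  have h3 : μ ⟨d, d.2.1⟩ = lC ⟨c, hc⟩ * lS ⟨s, hs⟩ := by
    change MonoidHom.coprod lC lS (e.symm ⟨d, d.2.1⟩) = _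
    rw [h2]
    simp
  have h4 : lS ⟨s, hs⟩ = l ⟨((s : E) : G), (s : E).2, hsn⟩ := by
    have := hl' ⟨((s : E) : G), ⟨⟨s, hs, rfl⟩, hsn⟩⟩
    exact this
  have h5 : (d : ↥(E ⊓ N)) = ⟨((c : E) : G), (c : E).2, hCN c hc⟩ * ⟨((s : E) : G), (s : E).2, hsn⟩ := by
    apply Subtype.ext
    exact (congrArg (fun z : E => (z : G)) hcs).symm
  rw [h3, h4]
  have h6 : lC ⟨c, hc⟩ = l ⟨((c : E) : G), (c : E).2, hCN c hc⟩ := rfl
  rw [h6, ← map_mul, ← h5, hl]

/-- **S0897**. -/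
theorem result {G : Type*} [Group G] [Fintype G] (p : ℕ) [Fact p.Prime] (N : Subgroup G)
    [hN : N.Normal] (hind : ∃ k : ℕ, N.index = p ^ k) (P : Sylow p G)
    (hcent : ∀ x ∈ (P : Subgroup G) ⊓ N, ∀ y ∈ (P : Subgroup G), x * y = y * x)
    (hlin : ∀ lam : ↥((P : Subgroup G) ⊓ N) → ℂ, Cfsg.IsCharacter ↥((P : Subgroup G) ⊓ N) lam →
      lam 1 = 1 → ∃ μ : ↥(P : Subgroup G) → ℂ, Cfsg.IsCharacter ↥(P : Subgroup G) μ ∧ μ 1 = 1 ∧
        ∀ x : ↥((P : Subgroup G) ⊓ N), μ ⟨(x : G), x.2.1⟩ = lam x)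
    (ϑ : N → ℂ) (hϑ : Cfsg.IsIrrCharacter N ϑ)
    (hinv : ∀ (g : G) (n : N), ϑ ⟨g * n * g⁻¹, hN.conj_mem (n : G) n.2 g⟩ = ϑ n) :
    ∃ χ : G → ℂ, Cfsg.IsIrrCharacter G χ ∧ ∀ n : N, χ n = ϑ n := by
  classical
  have hp : p.Prime := Fact.out
  obtain ⟨E, φ, hE, hsup, hφ, -, m, hm, hclass⟩ :=
    Cfsg.Agent.S0896.result p hp N hind ϑ hϑ hinv
  obtain ⟨k, hk⟩ := hind
  obtain ⟨μ, hμ⟩ := exists_hom_on_E P hcent hlin hk E hE φ hφ
  obtain ⟨d, ρ, hρ, rfl⟩ := hϑ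
  haveI := hρ
  have hfin : (Module.finrank ℂ (Cfsg.Agent.Lib.Char.ExtSplit.eigSp N ρ E μ) : ℂ) = (m : ℂ) := by
    rw [← Cfsg.Agent.Lib.Char.ExtSplit.finrank_eigSp, ← hclass, finsum_eq_sum_of_fintype]
    simp only [classInner]
    congr 1
    refine Finset.sum_congr rfl fun x _ => ?_
    rw [hμ]
  have hfin' : Module.finrank ℂ (Cfsg.Agent.Lib.Char.ExtSplit.eigSp N ρ E μ) = m := by
    exact_mod_cast hfin
  obtain ⟨ρ', hρ'⟩ := Cfsg.Agent.Lib.Char.ExtSplit.exists_extension_of_eigen N ρ E μ hinv hsup (by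
    rw [hfin', hk]
    exact Nat.Coprime.pow_right k ((Nat.Prime.coprime_iff_not_dvd hp).2 hm).symm)
  have hcomp : ρ'.comp N.subtype = ρ := by
    ext n : 1
    exact hρ' n
  have hirr : ρ'.IsIrreducible := by
    haveI : Representation.IsIrreducible (ρ'.comp N.subtype) := by
      rw [hcomp]; exact hρ
    exact Cfsg.Agent.Lib.Char.CyclicExt.isIrreducible_of_comp ρ' N.subtype
  refine ⟨ρ'.character, ⟨d, ρ', hirr, rfl⟩, fun n => ?_⟩
  simp only [Representation.character, hρ' n]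

end Cfsg.Agent.S0897
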