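import Mathlib
import Cfsg.Prelude.Def_Characters
import Cfsg.Agent.Lib.Char.Basic
import Cfsg.Agent.Lib.Char.Ortho
import Cfsg.Agent.Lib.Char.Values
import Cfsg.Agent.Lib.Char.Integrality
import Cfsg.Agent.Lib.Char.Burnside2
import Cfsg.Agent.Lib.Char.SmallDeg
import Cfsg.Agent.Lib.Char.BlichfeldtA
import Cfsg.Agent.Lib.Char.BlichfeldtB
import Cfsg.Agent.Lib.Char.BlichfeldtD

set_option autoImplicit false
open Cfsg ComplexConjugate
open Cfsg.Agent.Lib.Char.Ortho

namespace Cfsg.Agent.S0898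

section Schur

variable {K : Type*} [Group K] [Fintype K] (A : Subgroup K) [Fintype A]

/-- Schur: the sum over a normal subgroup on which an irreducible character is nontrivial. -/
theorem sum_mul_eq_zero [A.Normal] {ψ : K → ℂ} (hψ : IsIrrCharacter K ψ)
    (hne : ∃ a ∈ A, ψ a ≠ ψ 1) (y : K) : ∑ a : A, ψ (a * y) = 0 := by
  classical
  obtain ⟨n, ρ, hρ, rfl⟩ := hψ
  haveI := hρ
  let T : (Fin n → ℂ) →ₗ[ℂ] (Fin n → ℂ) := ∑ a : A, ρ a
  have hcomm : ∀ g, T ∘ₗ ρ g = ρ g ∘ₗ T := by
    intro g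
    have h1 : T ∘ₗ ρ g = ∑ a : A, ρ (a * g) := by
      show T * ρ g = _
      simp only [T, Finset.sum_mul, ← map_mul]
    have h2 : ρ g ∘ₗ T = ∑ a : A, ρ (g * a) := by
      show ρ g * T = _
      simp only [T, Finset.mul_sum, ← map_mul]
    rw [h1, h2]
    refine Fintype.sum_equiv (MulAut.conjNormal (H := A) g⁻¹).toEquiv _ _ fun a => ?_
    congr 1
    simp
    group
  obtain ⟨c, hc⟩ := Cfsg.Agent.Lib.Char.Integrality.exists_smul_id_of_commute ρ T hcomm
  have hab : ∀ b : A, T ∘ₗ ρ b = T := by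
    intro b
    have h1 : T ∘ₗ ρ b = ∑ a : A, ρ ((a * b : A) : K) := by
      show T * ρ b = _
      simp only [T, Finset.sum_mul, ← map_mul, Subgroup.coe_mul]
    rw [h1]
    exact Equiv.sum_comp (Equiv.mulRight b) (fun a : A => ρ (a : K))
  have hc0 : c = 0 := by
    by_contra hc0
    obtain ⟨a, ha, hne⟩ := hne
    apply hne
    have h3 := hab ⟨a, ha⟩
    rw [hc] at h3
    have h4 : ρ a = 1 := by
      ext v i
      have h5 := congrArg (fun F : (Fin n → ℂ) →ₗ[ℂ] (Fin n → ℂ) => F (Pi.single v 1) i) h3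
      simp only [LinearMap.comp_apply, LinearMap.smul_apply, LinearMap.id_apply, Pi.smul_apply,
        smul_eq_mul] at h5
      have h6 := mul_left_cancel₀ hc0 h5
      simpa using h6
    unfold Representation.character
    rw [h4, ρ.map_one]
  have hT0 : T = 0 := by rw [hc, hc0, zero_smul]
  have h7 : ∑ a : A, Representation.character ρ (a * y) = LinearMap.trace ℂ _ (T ∘ₗ ρ y) := by
    have h8 : T ∘ₗ ρ y = ∑ a : A, ρ (a * y) := by
      show T * ρ y = _
      simp only [T, Finset.sum_mul, ← map_mul]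
    rw [h8, map_sum]
    rfl
  rw [h7, hT0, LinearMap.zero_comp, map_zero]

/-- The average over `A` of the left translates. -/
noncomputable def avg (f : K → ℂ) (y : K) : ℂ := (Nat.card A : ℂ)⁻¹ * ∑ a : A, f (a * y)

theorem avg_mul (f : K → ℂ) (b : A) (y : K) : avg A f (b * y) = avg A f y := by
  unfold avg
  congr 1
  refine Fintype.sum_equiv (Equiv.mulRight b) _ _ fun a => ?_
  simp [mul_assoc]

theorem card_ne : (Nat.card A : ℂ) ≠ 0 := by
  exact_mod_cast Nat.card_pos.ne'

theorem avg_avg (f : K → ℂ) : avg A (avg A f) = avg A f := by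
  funext y
  show (Nat.card A : ℂ)⁻¹ * ∑ a : A, avg A f (a * y) = _
  simp only [avg_mul, Finset.sum_const, Finset.card_univ, nsmul_eq_mul, ← Nat.card_eq_fintype_card]
  rw [inv_mul_cancel_left₀ (card_ne A)]

theorem classInner_avg (f g : K → ℂ) : classInner (avg A f) g = classInner f (avg A g) := by
  unfold classInner
  congr 1
  simp only [avg, map_mul, map_inv₀, Complex.conj_natCast, map_sum]
  have h1 : ∀ y : K, (Nat.card A : ℂ)⁻¹ * ∑ a : A, f (a * y) * conj (g y) =
      (Nat.card A : ℂ)⁻¹ * ∑ a : A, f (a * y) * conj (g y) := fun _ => rfl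
  calc ∑ y, ((Nat.card A : ℂ)⁻¹ * ∑ a : A, f (a * y)) * conj (g y)
      = (Nat.card A : ℂ)⁻¹ * ∑ a : A, ∑ y, f (a * y) * conj (g y) := by
        rw [Finset.sum_comm, Finset.mul_sum]
        refine Finset.sum_congr rfl fun y _ => ?_
        rw [mul_assoc, Finset.sum_mul]
    _ = (Nat.card A : ℂ)⁻¹ * ∑ a : A, ∑ y, f y * conj (g (a⁻¹ * y)) := by
        congr 1
        refine Finset.sum_congr rfl fun a _ => ?_
        refine Fintype.sum_equiv (Equiv.mulLeft (a : K)) _ _ fun y => ?_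
        simp
    _ = (Nat.card A : ℂ)⁻¹ * ∑ a : A, ∑ y, f y * conj (g (a * y)) := by
        congr 1
        refine Fintype.sum_equiv (Equiv.inv A) _ _ fun a => ?_
        simp
    _ = ∑ y, f y * ((Nat.card A : ℂ)⁻¹ * ∑ a : A, conj (g (a * y))) := by
        rw [Finset.sum_comm, Finset.mul_sum]
        refine Finset.sum_congr rfl fun y _ => ?_
        rw [← Finset.mul_sum]
        ring

theorem norm_sub_smul (τ ψ : K → ℂ) (n : ℕ) (h1 : classInner τ ψ = n) (h2 : classInner ψ τ = n)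
    (h3 : classInner ψ ψ = 1) :
    classInner (τ - (n : ℂ) • ψ) (τ - (n : ℂ) • ψ) = classInner τ τ - (n : ℂ) ^ 2 := by
  rw [classInner_sub_left, classInner_sub_right, classInner_sub_right, classInner_smul_left,
    classInner_smul_left, classInner_smul_right, classInner_smul_right, h1, h2, h3,
    Complex.conj_natCast]
  ring

theorem norm_sub_proj (f β : K → ℂ) (h1 : classInner f β = classInner β β)
    (h2 : classInner β f = classInner β β) :
    classInner (f - β) (f - β) = classInner f f - classInner β β := by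
  rw [classInner_sub_left, classInner_sub_right, classInner_sub_right, h1, h2]
  ring

/-- The key inequality: a character nontrivial on a normal subgroup loses at least `1` in norm
when projected to the fixed part. -/
theorem key_norm [A.Normal] {f : K → ℂ} (hf : IsCharacter K f) (hne : ∃ a ∈ A, f a ≠ f 1) :
    ∑ y, ‖avg A f y‖ ^ 2 + (Nat.card K : ℝ) ≤ ∑ y, ‖f y‖ ^ 2 := by
  classical
  obtain ⟨m, hm⟩ := exists_nat_decomp hf
  obtain ⟨ψ, hψ0, a, ha, haψ⟩ : ∃ ψ : IrrCharacter K, m ψ ≠ 0 ∧ ∃ a ∈ A, ψ.1 a ≠ ψ.1 1 := by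
    by_contra hcon
    push Not at hcon
    obtain ⟨a, ha, hne⟩ := hne
    apply hne
    rw [hm]
    simp only [Finset.sum_apply, Pi.smul_apply]
    refine Finset.sum_congr rfl fun ψ _ => ?_
    by_cases h0 : m ψ = 0
    · simp [h0]
    · rw [hcon ψ h0 a ha]
  have hn : classInner f ψ.1 = m ψ := by
    have := classInner_sum_irr (fun χ => (m χ : ℂ)) ψ
    simp only [Nat.cast_smul_eq_nsmul] at this
    rw [← hm] at this
    exact this
  set n : ℕ := m ψ with hndef
  have hn1 : (1 : ℝ) ≤ n := by exact_mod_cast Nat.one_le_iff_ne_zero.2 hψ0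
  set β := avg A f with hβ
  have hψav : avg A ψ.1 = 0 := by
    funext y
    simp only [avg, Pi.zero_apply]
    rw [sum_mul_eq_zero A ψ.2 ⟨a, ha, haψ⟩, mul_zero]
  have hβψ : classInner β ψ.1 = 0 := by
    rw [hβ, classInner_avg, hψav, classInner_zero_right]
  have hββ : classInner f β = classInner β β := by
    conv_rhs => rw [hβ, classInner_avg]
    rw [← hβ]
    rw [avg_avg]
  have hβf : classInner β f = classInner β β := by
    rw [← classInner_conj_symm, hββ, classInner_conj_symm]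
  set τ : K → ℂ := f - β with hτ
  have hττ : classInner τ τ = classInner f f - classInner β β := by
    rw [hτ]
    exact norm_sub_proj f β hββ hβf
  have hτψ : classInner τ ψ.1 = n := by
    rw [hτ, classInner_sub_left, hβψ, hn, sub_zero]
  have hψτ : classInner ψ.1 τ = n := by
    rw [← classInner_conj_symm, hτψ, Complex.conj_natCast]
  have hψψ := classInner_irr_self ψ.2
  set ω : K → ℂ := τ - (n : ℂ) • ψ.1 with hω
  have hωω : classInner ω ω = classInner τ τ - (n : ℂ) ^ 2 := by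
    rw [hω]
    exact norm_sub_smul τ ψ.1 n hτψ hψτ hψψ
  rw [hττ] at hωω
  rw [classInner_self_eq, classInner_self_eq, classInner_self_eq] at hωω
  have h1 : ((Nat.card K : ℝ)⁻¹ * ∑ g, ‖ω g‖ ^ 2) =
      (Nat.card K : ℝ)⁻¹ * ∑ g, ‖f g‖ ^ 2 - (Nat.card K : ℝ)⁻¹ * ∑ g, ‖β g‖ ^ 2 - (n : ℝ) ^ 2 := by
    exact_mod_cast hωω
  have h2 := classInner_self_nonneg ω
  have hK : (0 : ℝ) < Nat.card K := by exact_mod_cast Nat.card_pos
  have h3 : (Nat.card K : ℝ)⁻¹ * ∑ g, ‖β g‖ ^ 2 + 1 ≤ (Nat.card K : ℝ)⁻¹ * ∑ g, ‖f g‖ ^ 2 := by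
    nlinarith
  have h4 := mul_le_mul_of_nonneg_left h3 hK.le
  rw [mul_add, mul_inv_cancel_left₀ hK.ne', mul_inv_cancel_left₀ hK.ne', mul_one] at h4
  exact h4

end Schur

theorem mem_nrm {K : Type*} [Group K] {H : Subgroup K} {y : K}
    (hy : y ∈ Subgroup.normalizer (H : Set K)) (u : K) : u ∈ H ↔ y * u * y⁻¹ ∈ H := hy u

section Main

variable {G : Type*} [Group G] [Fintype G] (H : Subgroup G) [Fintype H]

/-- The average of `χ` over the coset `H y`. -/
noncomputable def bar (χ : G → ℂ) (y : G) : ℂ := (Nat.card H : ℂ)⁻¹ * ∑ h : H, χ (h * y)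

open Classical in
/-- The noncentral elements which centralize a nonidentity element of `H`. -/
noncomputable def T : Finset G :=
  Finset.univ.filter (fun y => y ∉ Subgroup.center G ∧ ∃ h ∈ H, h ≠ 1 ∧ y * h = h * y)

omit [Fintype H] in
theorem mem_T {y : G} : y ∈ T H ↔ y ∉ Subgroup.center G ∧ ∃ h ∈ H, h ≠ 1 ∧ y * h = h * y := by
  classical
  simp [T]

/-- The hypothesis on centralizers. -/
def HOne : Prop := ∀ g : G, g ∉ Subgroup.center G → ∀ a b : G,
  Subgroup.centralizer ({g} : Set G) ⊓ H.map (MulAut.conj a).toMonoidHom ≠ ⊥ →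
  Subgroup.centralizer ({g} : Set G) ⊓ H.map (MulAut.conj b).toMonoidHom ≠ ⊥ →
  H.map (MulAut.conj a).toMonoidHom = H.map (MulAut.conj b).toMonoidHom

omit [Fintype G] [Fintype H] in
theorem ne_bot_of_mem {K : Subgroup G} {x : G} (hx : x ∈ K) (h1 : x ≠ 1) : K ≠ ⊥ := by
  rintro rfl
  exact h1 (by simpa using hx)

omit [Fintype H] in
theorem mem_norm_of_conj (hone : HOne H) (g c : G) (hc : c ∈ T H) (hg : g * c * g⁻¹ ∈ T H) :
    g ∈ (Subgroup.normalizer (H : Set G)) := by
  rw [mem_T] at hc hg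
  obtain ⟨-, h₀, hh₀, hne₀, hcomm₀⟩ := hc
  obtain ⟨hw, h₁, hh₁, hne₁, hcomm₁⟩ := hg
  have hmap := hone _ hw 1 g
    (ne_bot_of_mem (x := h₁) ⟨Subgroup.mem_centralizer_singleton_iff.2 hcomm₁.symm,
      Subgroup.mem_map.2 ⟨h₁, hh₁, by simp⟩⟩ hne₁)
    (ne_bot_of_mem (x := g * h₀ * g⁻¹) ⟨Subgroup.mem_centralizer_singleton_iff.2 (by
        calc g * h₀ * g⁻¹ * (g * c * g⁻¹) = g * (h₀ * c) * g⁻¹ := by group
          _ = g * (c * h₀) * g⁻¹ := by rw [hcomm₀]
          _ = _ := by group),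
      Subgroup.mem_map.2 ⟨h₀, hh₀, by simp⟩⟩ (by
        intro h
        apply hne₀
        have : g * h₀ = g := by
          calc g * h₀ = g * h₀ * g⁻¹ * g := by group
            _ = g := by rw [h, one_mul]
        simpa using this))
  have hone' : H.map (MulAut.conj (1 : G)).toMonoidHom = H := by
    ext x
    simp [Subgroup.mem_map]
  rw [hone'] at hmap
  intro h
  constructor
  · intro hh
    rw [hmap]
    exact Subgroup.mem_map.2 ⟨h, hh, by simp⟩
  · intro hh
    rw [hmap] at hh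
    obtain ⟨h', hh', he⟩ := Subgroup.mem_map.1 hh
    have h2 : g * h' * g⁻¹ = g * h * g⁻¹ := by simpa using he
    have h3 : h' = h := by simpa using h2
    exact h3 ▸ hh'

theorem bar_eq_of_not_mem {χ : G → ℂ} (hcl : IsClassFunction G χ) {y : G}
    (hy : y ∈ Subgroup.normalizer (H : Set G))
    (hyZ : y ∉ Subgroup.center G) (hyT : y ∉ T H) : bar H χ y = χ y := by
  have hfree : ∀ w ∈ H, w * y = y * w → w = 1 := by
    intro w hw he
    by_contra hne
    exact hyT ((mem_T H).2 ⟨hyZ, w, hw, hne, he.symm⟩)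
  let φ : H → H := fun u => ⟨u * (y * (u : G)⁻¹ * y⁻¹), H.mul_mem u.2
    ((mem_nrm hy _).1 (H.inv_mem u.2))⟩
  have hinj : Function.Injective φ := by
    intro u v he
    have h1 : (u : G) * (y * (u : G)⁻¹ * y⁻¹) = v * (y * (v : G)⁻¹ * y⁻¹) := congrArg Subtype.val he
    have h2 : (u : G) * y * (u : G)⁻¹ = v * y * (v : G)⁻¹ := by
      calc (u : G) * y * (u : G)⁻¹ = (u : G) * (y * (u : G)⁻¹ * y⁻¹) * y := by group
        _ = v * (y * (v : G)⁻¹ * y⁻¹) * y := by rw [h1]
        _ = _ := by group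
    have h3 : (v : G)⁻¹ * u * y = y * ((v : G)⁻¹ * u) := by
      calc (v : G)⁻¹ * u * y = (v : G)⁻¹ * ((u : G) * y * (u : G)⁻¹) * u := by group
        _ = (v : G)⁻¹ * (v * y * (v : G)⁻¹) * u := by rw [h2]
        _ = _ := by group
    have h4 := hfree _ (H.mul_mem (H.inv_mem v.2) u.2) h3
    have h5 : (u : G) = v := by
      have : (v : G) * ((v : G)⁻¹ * u) = v := by rw [h4, mul_one]
      simpa using this
    exact Subtype.ext h5
  have hsurj := Finite.injective_iff_surjective.1 hinj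
  have hval : ∀ h : H, χ (h * y) = χ y := by
    intro h
    obtain ⟨u, rfl⟩ := hsurj h
    have : ((φ u : H) : G) * y = u * y * (u : G)⁻¹ := by
      show (u : G) * (y * (u : G)⁻¹ * y⁻¹) * y = _
      group
    rw [this, hcl]
  unfold bar
  simp only [hval, Finset.sum_const, Finset.card_univ, nsmul_eq_mul, ← Nat.card_eq_fintype_card]
  rw [inv_mul_cancel_left₀ (by exact_mod_cast Nat.card_pos.ne')]

/-- The mean of `χ` over `H`. -/
noncomputable def mean (χ : G → ℂ) : ℂ := (Nat.card H : ℂ)⁻¹ * ∑ h : H, χ h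

theorem classInner_eq_mean (χ : G → ℂ) :
    classInner (fun h : H => χ h) (fun _ => 1) = mean H χ := by
  simp [classInner, mean]

omit [Fintype G] in
theorem norm_bar_mul_central {χ : G → ℂ} {z : G} {a : ℂ} (ha1 : ‖a‖ = 1)
    (ha : ∀ c, χ (z * c) = a * χ c) (hz : ∀ g, g * z = z * g) (h₁ : H) :
    ‖bar H χ (h₁ * z)‖ = ‖mean H χ‖ := by
  have h1 : bar H χ (h₁ * z) = a * mean H χ := by
    unfold bar mean
    rw [mul_left_comm, Finset.mul_sum (a := a)]
    congr 1
    have h2 : ∑ h : H, χ ((h : G) * (h₁ * z)) = ∑ h : H, χ ((h : G) * z) := by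
      refine Fintype.sum_equiv (Equiv.mulRight h₁) _ _ fun h => ?_
      simp [mul_assoc]
    rw [h2]
    refine Finset.sum_congr rfl fun h _ => ?_
    rw [hz, ha]
  rw [h1, norm_mul, ha1, one_mul]

theorem key_bar [Fintype (Subgroup.normalizer (H : Set G))] {χ : G → ℂ} (hχ : IsCharacter G χ) (hker : ∃ h ∈ H, χ h ≠ χ 1) :
    ∑ y : (Subgroup.normalizer (H : Set G)), ‖bar H χ y‖ ^ 2 + (Nat.card (Subgroup.normalizer (H : Set G)) : ℝ) ≤
      ∑ y : (Subgroup.normalizer (H : Set G)), ‖χ y‖ ^ 2 := by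
  classical
  let e : H.subgroupOf (Subgroup.normalizer (H : Set G)) ≃* H := Subgroup.subgroupOfEquivOfLe Subgroup.le_normalizer
  haveI : Fintype (H.subgroupOf (Subgroup.normalizer (H : Set G))) := Fintype.ofFinite _
  have hf : IsCharacter (Subgroup.normalizer (H : Set G)) (fun y : (Subgroup.normalizer (H : Set G)) => χ y) :=
    Cfsg.Agent.Lib.Char.Basic.isCharacter_restrict hχ _
  have h1 := key_norm (H.subgroupOf (Subgroup.normalizer (H : Set G))) hf (by
    obtain ⟨h, hh, hne⟩ := hker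
    exact ⟨⟨h, Subgroup.le_normalizer hh⟩, Subgroup.mem_subgroupOf.2 hh, hne⟩)
  have h2 : ∀ y : (Subgroup.normalizer (H : Set G)), avg (H.subgroupOf (Subgroup.normalizer (H : Set G))) (fun y : (Subgroup.normalizer (H : Set G)) => χ y) y =
      bar H χ y := by
    intro y
    unfold avg bar
    have hc : Nat.card (H.subgroupOf (Subgroup.normalizer (H : Set G))) = Nat.card H := Nat.card_congr e.toEquiv
    rw [hc]
    congr 1
    exact Fintype.sum_equiv e.toEquiv _ _ fun a => rfl
  simp only [h2] at h1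
  exact h1

open Classical in
theorem claim1 (hZ : H ⊓ Subgroup.center G = ⊥) (hone : HOne H) {χ : G → ℂ}
    (hχ : IsIrrCharacter G χ) (hker : ∃ h ∈ H, χ h ≠ χ 1) :
    (Nat.card H : ℝ) * ‖mean H χ‖ ^ 2 < ‖χ 1‖ ^ 2 := by
  have hch := Cfsg.Agent.Lib.Char.Basic.isCharacter_of_isIrrCharacter hχ
  have hcl := Cfsg.Agent.Lib.Char.Basic.isClassFunction_of_isCharacter hch
  haveI : Fintype (Subgroup.normalizer (H : Set G)) := Fintype.ofFinite _
  let F : G → ℝ := fun y => ‖χ y‖ ^ 2
  let B : G → ℝ := fun y => ‖bar H χ y‖ ^ 2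
  let Zf : Finset G := Finset.univ.filter (· ∈ Subgroup.center G)
  let S : Finset G := T H ∪ Zf
  let Nf : Finset G := Finset.univ.filter (· ∈ (Subgroup.normalizer (H : Set G)))
  have hkey : ∑ y ∈ Nf, B y + (Nat.card (Subgroup.normalizer (H : Set G)) : ℝ) ≤ ∑ y ∈ Nf, F y := by
    have h1 := key_bar H hch hker
    have h2 : ∀ f : G → ℝ, ∑ y ∈ Nf, f y = ∑ y : (Subgroup.normalizer (H : Set G)), f y := fun f =>
      Finset.sum_subtype Nf (fun x => by simp [Nf]) f
    rw [h2, h2]
    exact h1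
  have hSsub : S ⊆ Nf := by
    intro y hy
    simp only [Nf, Finset.mem_filter, Finset.mem_univ, true_and]
    rcases Finset.mem_union.1 hy with h | h
    · exact mem_norm_of_conj H hone y y h (by simpa using h)
    · refine Subgroup.center_le_normalizer (H : Set G) ?_
      simpa [Zf] using h
  have hrest : ∀ y ∈ Nf, y ∉ S → F y - B y = 0 := by
    intro y hy hn
    have hyN : y ∈ (Subgroup.normalizer (H : Set G)) := by simpa [Nf] using hy
    have hyT : y ∉ T H := fun h => hn (Finset.mem_union_left _ h)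
    have hyZ : y ∉ Subgroup.center G := fun h => hn (Finset.mem_union_right _ (by simpa [Zf] using h))
    simp only [F, B]
    rw [bar_eq_of_not_mem H hcl hyN hyZ hyT, sub_self]
  have h1 : ∑ y ∈ S, (F y - B y) = ∑ y ∈ Nf, (F y - B y) := Finset.sum_subset hSsub hrest
  have hdisj : Disjoint (T H) Zf := by
    rw [Finset.disjoint_left]
    intro y hy hy2
    exact ((mem_T H).1 hy).1 (by simpa [Zf] using hy2)
  have h2 : ∑ y ∈ S, F y = ∑ y ∈ T H, F y + ∑ y ∈ Zf, F y := Finset.sum_union hdisj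
  have hG : (0 : ℝ) < Nat.card G := by exact_mod_cast Nat.card_pos
  have hN : (0 : ℝ) < Nat.card (Subgroup.normalizer (H : Set G)) := by exact_mod_cast Nat.card_pos
  have hx : 0 < ‖χ 1‖ := norm_pos_iff.2 (irr_apply_one_ne_zero hχ)
  have hsum : ∑ y, F y = (Nat.card G : ℝ) := by
    have h3 := classInner_irr_self hχ
    rw [classInner_self_eq] at h3
    have h4 : ((Nat.card G : ℝ)⁻¹ * ∑ g : G, ‖χ g‖ ^ 2) = 1 := by exact_mod_cast h3
    field_simp at h4
    exact h4
  have hTlt : ∑ y ∈ T H, F y < (Nat.card (Subgroup.normalizer (H : Set G)) : ℝ) := by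
    have h3 := Cfsg.Agent.Lib.Char.BlichfeldtA.ti_sum_le (Subgroup.normalizer (H : Set G)) (T H)
      (by
        intro h
        exact ((mem_T H).1 h).1 (Subgroup.one_mem _))
      (fun g c hc hg => mem_norm_of_conj H hone g c hc hg) F (fun y => by positivity)
      (fun g y => by simp only [F]; rw [hcl y g])
    rw [hsum] at h3
    have h4 : (Nat.card (Subgroup.normalizer (H : Set G)) : ℝ) * (Nat.card G - F 1) < (Nat.card (Subgroup.normalizer (H : Set G)) : ℝ) * Nat.card G := by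
      have : 0 < F 1 := by simp only [F]; positivity
      nlinarith
    have h5 : (Nat.card G : ℝ) * ∑ y ∈ T H, F y < (Nat.card G : ℝ) * Nat.card (Subgroup.normalizer (H : Set G)) := by
      linarith
    exact lt_of_mul_lt_mul_left h5 hG.le
  have hcentral : ∀ z ∈ Subgroup.center G, ∃ a : ℂ, ‖a‖ = 1 ∧ (∀ c, χ (z * c) = a * χ c) ∧
      ∀ g, g * z = z * g := by
    intro z hz
    have hz' : ∀ g, g * z = z * g := fun g => (Subgroup.mem_center_iff.1 hz g)
    obtain ⟨a, ha1, ha⟩ := Cfsg.Agent.Lib.Char.BlichfeldtB.irr_central_mul hχ z hz'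
    exact ⟨a, ha1, ha, hz'⟩
  have hZF : ∑ y ∈ Zf, F y = (Zf.card : ℝ) * ‖χ 1‖ ^ 2 := by
    rw [Finset.sum_congr rfl (g := fun _ => ‖χ 1‖ ^ 2), Finset.sum_const, nsmul_eq_mul]
    intro z hz
    obtain ⟨a, ha1, ha, -⟩ := hcentral z (by simpa [Zf] using hz)
    have := ha 1
    rw [mul_one] at this
    simp only [F]
    rw [this, norm_mul, ha1, one_mul]
  -- the product set
  haveI : Fintype (Subgroup.center G) := Fintype.ofFinite _
  let ι : H × Subgroup.center G → G := fun p => p.1 * p.2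
  have hιinj : Function.Injective ι := by
    rintro ⟨h, z⟩ ⟨h', z'⟩ he
    simp only [ι] at he
    have h3 : (h' : G)⁻¹ * h = z' * (z : G)⁻¹ := by
      calc (h' : G)⁻¹ * h = (h' : G)⁻¹ * (h * z) * (z : G)⁻¹ := by group
        _ = (h' : G)⁻¹ * (h' * z') * (z : G)⁻¹ := by rw [he]
        _ = _ := by group
    have h4 : (h' : G)⁻¹ * h ∈ H ⊓ Subgroup.center G :=
      ⟨H.mul_mem (H.inv_mem h'.2) h.2, h3 ▸ (Subgroup.center G).mul_mem z'.2 ((Subgroup.center G).inv_mem z.2)⟩
    rw [hZ, Subgroup.mem_bot] at h4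
    have h5 : (h : G) = h' := by
      have : (h' : G) * ((h' : G)⁻¹ * h) = h' := by rw [h4, mul_one]
      simpa using this
    have h6 : (z : G) = z' := by
      rw [h5] at he
      exact mul_left_cancel he
    exact Prod.ext (Subtype.ext h5) (Subtype.ext h6)
  have hιS : ∀ p, ι p ∈ S := by
    rintro ⟨h, z⟩
    simp only [ι]
    by_cases hh : (h : G) = 1
    · refine Finset.mem_union_right _ ?_
      simp only [Zf, Finset.mem_filter, Finset.mem_univ, true_and]
      rw [hh, one_mul]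
      exact z.2
    · refine Finset.mem_union_left _ ((mem_T H).2 ⟨?_, h, h.2, hh, ?_⟩)
      · intro hc
        have h3 : (h : G) = h * z * (z : G)⁻¹ := by group
        have h4 : (h : G) ∈ H ⊓ Subgroup.center G :=
          ⟨h.2, h3 ▸ (Subgroup.center G).mul_mem hc ((Subgroup.center G).inv_mem z.2)⟩
        rw [hZ, Subgroup.mem_bot] at h4
        exact hh h4
      · have := Subgroup.mem_center_iff.1 z.2 (h : G)
        rw [mul_assoc, ← this]
  have hI : ∑ p : H × Subgroup.center G, B (ι p) ≤ ∑ y ∈ S, B y := by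
    rw [← Finset.sum_image (s := Finset.univ) (g := ι) (f := B) (fun a _ b _ he => hιinj he)]
    refine Finset.sum_le_sum_of_subset_of_nonneg ?_ (fun _ _ _ => by positivity)
    intro y hy
    obtain ⟨p, -, rfl⟩ := Finset.mem_image.1 hy
    exact hιS p
  have hIval : ∑ p : H × Subgroup.center G, B (ι p) =
      (Nat.card H : ℝ) * (Nat.card (Subgroup.center G) : ℝ) * ‖mean H χ‖ ^ 2 := by
    rw [Finset.sum_congr rfl (g := fun _ => ‖mean H χ‖ ^ 2), Finset.sum_const, Finset.card_univ,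
      nsmul_eq_mul, Fintype.card_prod, ← Nat.card_eq_fintype_card, ← Nat.card_eq_fintype_card]
    · push_cast
      rfl
    · rintro ⟨h, z⟩ -
      obtain ⟨a, ha1, ha, hz⟩ := hcentral z z.2
      simp only [B, ι]
      rw [norm_bar_mul_central H ha1 ha hz h]
  have hZcard : (Zf.card : ℝ) = (Nat.card (Subgroup.center G) : ℝ) := by
    congr 1
    rw [Nat.card_eq_fintype_card, Fintype.card_subtype]
  have hZpos : (0 : ℝ) < (Nat.card (Subgroup.center G) : ℝ) := by exact_mod_cast Nat.card_pos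
  rw [Finset.sum_sub_distrib, Finset.sum_sub_distrib, h2, hZF, hZcard] at h1
  have hmain : (Nat.card (Subgroup.center G) : ℝ) * ((Nat.card H : ℝ) * ‖mean H χ‖ ^ 2) <
      (Nat.card (Subgroup.center G) : ℝ) * ‖χ 1‖ ^ 2 := by
    nlinarith
  exact lt_of_mul_lt_mul_left hmain hZpos.le

/-- Irreducible characters of a group with all elements commuting have degree one. -/
theorem degree_eq_one_of_comm {A : Type*} [Group A] [Finite A] (hA : ∀ a b : A, a * b = b * a)
    {l : A → ℂ} (hl : IsIrrCharacter A l) : l 1 = 1 := by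
  obtain ⟨n, hn0, hn⟩ := irr_degree_pos hl
  obtain ⟨k, ρ, hρ, rfl⟩ := hl
  haveI := hρ
  have h1 := Cfsg.Agent.Lib.Char.SmallDeg.finrank_le_index_of_abelian ρ ⊤ (fun a _ b _ => hA a b)
  rw [Subgroup.index_top, Module.finrank_fin_fun] at h1
  have h2 : Representation.character ρ 1 = (k : ℂ) := by
    rw [Representation.char_one, Module.finrank_fin_fun]
  have h3 : (n : ℂ) = k := by rw [← hn, h2]
  have h4 : n = k := by exact_mod_cast h3
  have : k = 1 := by omega
  rw [h2, this]
  simp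

/-- For a group with all elements commuting, the degree of a character is bounded by its norm. -/
theorem degree_le_norm {A : Type*} [Group A] [Fintype A] (hA : ∀ a b : A, a * b = b * a)
    {f : A → ℂ} (hf : IsCharacter A f) : (f 1).re ≤ (classInner f f).re := by
  classical
  obtain ⟨m, hm⟩ := exists_nat_decomp hf
  have hn : ∀ ψ : IrrCharacter A, classInner f ψ.1 = m ψ := by
    intro ψ
    have := classInner_sum_irr (fun χ => (m χ : ℂ)) ψ
    simp only [Nat.cast_smul_eq_nsmul] at this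
    rw [← hm] at this
    exact this
  have hn' : ∀ ψ : IrrCharacter A, classInner ψ.1 f = m ψ := by
    intro ψ
    rw [← classInner_conj_symm, hn, Complex.conj_natCast]
  have h1 : classInner f f = ∑ ψ : IrrCharacter A, ((m ψ ^ 2 : ℕ) : ℂ) := by
    rw [classInner_eq_sum_mul hf hf]
    refine Finset.sum_congr rfl fun ψ _ => ?_
    rw [hn, hn']
    push_cast
    ring
  have h2 : f 1 = ∑ ψ : IrrCharacter A, ((m ψ : ℕ) : ℂ) := by
    rw [hm]
    simp only [Finset.sum_apply, Pi.smul_apply]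
    refine Finset.sum_congr rfl fun ψ _ => ?_
    rw [degree_eq_one_of_comm hA ψ.2]
    simp
  rw [h1, h2, Complex.re_sum, Complex.re_sum]
  refine Finset.sum_le_sum fun ψ _ => ?_
  simp only [Complex.natCast_re]
  have : m ψ ≤ m ψ ^ 2 := Nat.le_self_pow (by norm_num) _
  exact_mod_cast this

theorem claim2 (hab : ∀ a ∈ H, ∀ b ∈ H, a * b = b * a) (hZ : H ⊓ Subgroup.center G = ⊥)
    (hone : HOne H) {χ : G → ℂ} (hχ : IsIrrCharacter G χ) (hne1 : χ 1 ≠ 1)
    (hnn : ∀ M : Subgroup G, M.Normal → H ≤ M → M = ⊤) :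
    (Nat.card H : ℝ) < (1 + (χ 1).re) ^ 2 := by
  classical
  by_contra hcon
  push Not at hcon
  obtain ⟨x, hxpos, hx⟩ := irr_degree_pos hχ
  have hx2 : 2 ≤ x := by
    by_contra h
    have : x = 1 := by omega
    apply hne1
    rw [hx, this]
    simp
  have hxre : (χ 1).re = x := by rw [hx]; simp
  rw [hxre] at hcon
  have hch := Cfsg.Agent.Lib.Char.Basic.isCharacter_of_isIrrCharacter hχ
  let ψ : G → ℂ := fun g => χ g * conj (χ g)
  have hψ : IsCharacter G ψ := Cfsg.Agent.Lib.Char.Basic.isCharacter_mul hch (isCharacter_conj hch)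
  obtain ⟨c, hc⟩ := exists_nat_decomp hψ
  have hc' : ψ = ∑ η : IrrCharacter G, (c η : ℂ) • (η : G → ℂ) := by
    rw [hc]
    refine Finset.sum_congr rfl fun η _ => ?_
    exact (Nat.cast_smul_eq_nsmul ℂ (c η) _).symm
  let one : IrrCharacter G := ⟨fun _ => 1, Cfsg.Agent.Lib.Char.Burnside2.isIrrCharacter_one⟩
  have hcone : c one = 1 := by
    have h1 : classInner ψ one.1 = c one := by
      rw [hc']
      exact classInner_sum_irr _ one
    have h2 : classInner ψ one.1 = classInner χ χ := by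
      simp [classInner, ψ, one]
    rw [h2, classInner_irr_self hχ] at h1
    exact_mod_cast h1.symm
  have heval : ∀ g, ψ g = ∑ η : IrrCharacter G, (c η : ℂ) * η.1 g := by
    intro g
    have := congrFun hc' g
    simp only [Finset.sum_apply, Pi.smul_apply, smul_eq_mul] at this
    exact this
  -- the degree equation
  have hd1 : ((x : ℝ)) ^ 2 = ∑ η : IrrCharacter G, (c η : ℝ) * (η.1 1).re := by
    have h1 := congrArg Complex.re (heval 1)
    rw [Complex.re_sum] at h1
    have h2 : (ψ 1).re = (x : ℝ) ^ 2 := by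
      simp only [ψ, hx, Complex.conj_natCast]
      rw [← Nat.cast_mul, Complex.natCast_re]
      push_cast
      ring
    rw [h2] at h1
    rw [h1]
    refine Finset.sum_congr rfl fun η _ => ?_
    simp
  -- the mean equation
  have hM0 : mean H ψ = ∑ η : IrrCharacter G, (c η : ℂ) * mean H η.1 := by
    unfold mean
    simp only [heval]
    rw [Finset.sum_comm, Finset.mul_sum]
    refine Finset.sum_congr rfl fun η _ => ?_
    rw [← Finset.mul_sum, mul_left_comm]
  have hMre : (mean H ψ).re = ∑ η : IrrCharacter G, (c η : ℝ) * (mean H η.1).re := by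
    rw [hM0, Complex.re_sum]
    refine Finset.sum_congr rfl fun η _ => ?_
    simp
  have hMnorm : mean H ψ = classInner (fun h : H => χ h) (fun h : H => χ h) := by
    simp [mean, classInner, ψ]
  have hxM : (x : ℝ) ≤ (mean H ψ).re := by
    have h1 := degree_le_norm (A := H) (f := fun h : H => χ h)
      (fun a b => Subtype.ext (hab a a.2 b b.2))
      (Cfsg.Agent.Lib.Char.Basic.isCharacter_restrict hch H)
    rw [← hMnorm] at h1
    simp only [OneMemClass.coe_one, hxre] at h1
    exact h1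
  have hone_mean : mean H one.1 = 1 := by
    have h1 := classInner_eq_mean (H := H) one.1
    rw [← h1]
    exact classInner_irr_self (Cfsg.Agent.Lib.Char.Burnside2.isIrrCharacter_one (G := H))
  have hone_deg : one.1 1 = 1 := rfl
  have hmem : one ∈ (Finset.univ : Finset (IrrCharacter G)) := Finset.mem_univ _
  rw [← Finset.add_sum_erase _ _ hmem, hcone, hone_deg] at hd1
  rw [← Finset.add_sum_erase _ _ hmem, hcone, hone_mean] at hMre
  simp only [Nat.cast_one, Complex.one_re, mul_one] at hd1 hMre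
  -- the inequality for `η ≠ 1`
  have hlt : ∀ η ∈ (Finset.univ : Finset (IrrCharacter G)).erase one,
      (1 + (x : ℝ)) * (mean H η.1).re < (η.1 1).re := by
    intro η hη
    have hηne : η ≠ one := (Finset.mem_erase.1 hη).1
    have hne2 : η.1 ≠ fun _ => 1 := fun h => hηne (Subtype.ext h)
    obtain ⟨u, hu⟩ := Cfsg.Agent.Lib.Char.BlichfeldtD.exists_ne_of_ne_one hnn η.2 hne2
    have h1 := claim1 H hZ hone η.2 ⟨u, u.2, hu⟩
    obtain ⟨n, hn0, hn⟩ := irr_degree_pos η.2
    have h2 : ‖η.1 1‖ = (η.1 1).re := by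
      rw [hn]
      simp
    have h3 : (0 : ℝ) ≤ (η.1 1).re := by rw [← h2]; positivity
    rw [h2] at h1
    have h4 : ((1 + (x : ℝ)) * ‖mean H η.1‖) ^ 2 < (η.1 1).re ^ 2 := by
      have : ((1 + (x : ℝ)) * ‖mean H η.1‖) ^ 2 = (1 + (x : ℝ)) ^ 2 * ‖mean H η.1‖ ^ 2 := by ring
      rw [this]
      refine lt_of_le_of_lt ?_ h1
      exact mul_le_mul_of_nonneg_right hcon (by positivity)
    have h5 := lt_of_pow_lt_pow_left₀ 2 h3 h4
    refine lt_of_le_of_lt ?_ h5
    refine mul_le_mul_of_nonneg_left ?_ (by positivity)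
    exact (Complex.re_le_norm _)
  have hxR : (2 : ℝ) ≤ x := by exact_mod_cast hx2
  -- some `c η` is nonzero off the identity
  have hex : ∃ η ∈ (Finset.univ : Finset (IrrCharacter G)).erase one, c η ≠ 0 := by
    by_contra hall
    push Not at hall
    have : ∑ η ∈ (Finset.univ : Finset (IrrCharacter G)).erase one, (c η : ℝ) * (η.1 1).re = 0 :=
      Finset.sum_eq_zero fun η hη => by rw [hall η hη]; simp
    rw [this] at hd1
    nlinarith
  have hstrict : ∑ η ∈ (Finset.univ : Finset (IrrCharacter G)).erase one,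
      (c η : ℝ) * ((1 + (x : ℝ)) * (mean H η.1).re) <
      ∑ η ∈ (Finset.univ : Finset (IrrCharacter G)).erase one, (c η : ℝ) * (η.1 1).re := by
    refine Finset.sum_lt_sum (fun η hη => mul_le_mul_of_nonneg_left (hlt η hη).le (by positivity)) ?_
    obtain ⟨η, hη, hne⟩ := hex
    refine ⟨η, hη, mul_lt_mul_of_pos_left (hlt η hη) ?_⟩
    exact_mod_cast Nat.pos_of_ne_zero hne
  have hsum2 : ∑ η ∈ (Finset.univ : Finset (IrrCharacter G)).erase one,
      (c η : ℝ) * ((1 + (x : ℝ)) * (mean H η.1).re) = (1 + (x : ℝ)) *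
      ∑ η ∈ (Finset.univ : Finset (IrrCharacter G)).erase one, (c η : ℝ) * (mean H η.1).re := by
    rw [Finset.mul_sum]
    refine Finset.sum_congr rfl fun η _ => ?_
    ring
  rw [hsum2] at hstrict
  set A := ∑ η ∈ (Finset.univ : Finset (IrrCharacter G)).erase one, (c η : ℝ) * (mean H η.1).re
  set D := ∑ η ∈ (Finset.univ : Finset (IrrCharacter G)).erase one, (c η : ℝ) * (η.1 1).re
  have h9 : (x : ℝ) - 1 ≤ A := by linarith
  nlinarith

/-- The full theorem, in terms of the named hypothesis. -/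
theorem main (hab : ∀ a ∈ H, ∀ b ∈ H, a * b = b * a) (hZ : H ⊓ Subgroup.center G = ⊥)
    (hone : HOne H) (χ : G → ℂ) (hχ : IsIrrCharacter G χ) (hker : ∃ h ∈ H, χ h ≠ χ 1) :
    (χ 1).re ^ 2 > (Nat.card H : ℝ) * (classInner (fun h : H => χ h) (fun _ => 1)).re ^ 2 ∧
    (χ 1 ≠ 1 → (∀ M : Subgroup G, M.Normal → H ≤ M → M = ⊤) →
      (1 + (χ 1).re) ^ 2 > (Nat.card H : ℝ)) := by
  refine ⟨?_, fun h1 h2 => claim2 H hab hZ hone hχ h1 h2⟩
  have h1 := claim1 H hZ hone hχ hker
  rw [classInner_eq_mean]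
  obtain ⟨n, hn0, hn⟩ := irr_degree_pos hχ
  have h2 : ‖χ 1‖ = (χ 1).re := by
    rw [hn]
    simp
  rw [h2] at h1
  refine lt_of_le_of_lt ?_ h1
  refine mul_le_mul_of_nonneg_left ?_ (by positivity)
  exact sq_le_sq' (by linarith [abs_le.1 (Complex.abs_re_le_norm (mean H χ))]) (Complex.re_le_norm _)

end Main

/-- Feit–Thompson degree bound. -/
theorem result {G : Type*} [Group G] [Fintype G] (H : Subgroup G) [Fintype H] (hab : ∀ a ∈ H, ∀ b ∈ H, a * b = b * a) (hZ : H ⊓ Subgroup.center G = ⊥) (hone : ∀ g : G, g ∉ Subgroup.center G → ∀ a b : G, Subgroup.centralizer ({g} : Set G) ⊓ H.map (MulAut.conj a).toMonoidHom ≠ ⊥ → Subgroup.centralizer ({g} : Set G) ⊓ H.map (MulAut.conj b).toMonoidHom ≠ ⊥ → H.map (MulAut.conj a).toMonoidHom = H.map (MulAut.conj b).toMonoidHom) (χ : G → ℂ) (hχ : Cfsg.IsIrrCharacter G χ) (hker : ∃ h ∈ H, χ h ≠ χ 1) : (χ 1).re ^ 2 > (Nat.card H : ℝ) * (Cfsg.classInner (fun h : H => χ h) (fun _ => 1)).re ^ 2 ∧ (χ 1 ≠ 1 → (∀ M : Subgroup G, M.Normal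 → H ≤ M → M = ⊤) → (1 + (χ 1).re) ^ 2 > (Nat.card H : ℝ)) :=
  main H hab hZ hone χ hχ hker

end Cfsg.Agent.S0898
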