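import Cfsg.Statements.S0899
import Mathlib
import Cfsg.Agent.Lib.Char.CritAut
import Cfsg.Agent.Lib.Char.LinearHall2
import Cfsg.Agent.S0898
import Cfsg.Agent.Lib.Char.LinearChars

set_option autoImplicit false
set_option linter.style.haveILetI false
open Cfsg

namespace Cfsg.Agent.S0899

open Module Cfsg.Agent.Lib.Char.Ortho Cfsg.Agent.Lib.Char.Basic Cfsg.Agent.Lib.Char.CritAut
open scoped commutatorElement

universe u

variable {p : ℕ} [Fact p.Prime]

/-- All Sylow `p`-subgroups are normal. -/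
def PClosed (p : ℕ) (X : Type u) [Group X] : Prop := ∀ Q : Sylow p X, (Q : Subgroup X).Normal

/-- A normal Sylow subgroup contains every `p`-subgroup. -/
theorem le_of_pclosed {X : Type u} [Group X] [Finite X] (h : PClosed p X) (R : Sylow p X)
    {Y : Subgroup X} (hY : IsPGroup p Y) : Y ≤ R := by
  obtain ⟨Q, hQ⟩ := hY.exists_le_sylow
  haveI := Sylow.unique_of_normal R (h R)
  rwa [Subsingleton.elim Q R] at hQ

/-- `PClosed` transfers along isomorphisms. -/
theorem pclosed_of_equiv {X Y : Type u} [Group X] [Finite X] [Group Y] [Finite Y] (e : X ≃* Y)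
    (h : PClosed p Y) : PClosed p X := by
  intro Q
  let R : Sylow p Y := default
  have hR := h R
  have h1 : ((Q : Subgroup X).map e.toMonoidHom) ≤ R :=
    le_of_pclosed h R (Q.isPGroup'.map e.toMonoidHom)
  have h2 : (Q : Subgroup X) ≤ (R : Subgroup Y).comap e.toMonoidHom := by
    intro x hx
    exact h1 ⟨x, hx, rfl⟩
  have h3 := Q.is_maximal' (R.isPGroup'.comap_of_injective e.toMonoidHom e.injective) h2
  rw [← h3]
  infer_instance

/-- `PClosed` and `⊤`. -/
theorem pclosed_of_top {X : Type u} [Group X] [Finite X] (h : PClosed p (⊤ : Subgroup X)) :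
    PClosed p X :=
  pclosed_of_equiv (Subgroup.topEquiv (G := X)).symm h

/-- The hypothesis of the statement. -/
def Hyp (p : ℕ) (G : Type u) [Group G] (n : ℕ) : Prop :=
  (n + 1) ^ 2 ≤ p ∨ (n + 1 < p ∧ ∀ K : Subgroup G, ¬ p ^ 2 ∣ Nat.card K → PClosed p K)

theorem Hyp.lt {G : Type u} [Group G] {n : ℕ} (h : Hyp p G n) : n + 1 < p := by
  rcases h with h | h
  · have hp : 2 ≤ p := (Fact.out : p.Prime).two_le
    rcases Nat.eq_zero_or_pos n with rfl | hn
    · omega
    · nlinarith
  · exact h.1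

theorem Hyp.restrict {G : Type u} [Group G] [Finite G] {n : ℕ} (h : Hyp p G n) (L : Subgroup G) :
    Hyp p L n := by
  rcases h with h | h
  · exact Or.inl h
  · refine Or.inr ⟨h.1, fun K hK => ?_⟩
    have hc : Nat.card (K.map L.subtype) = Nat.card K :=
      Subgroup.card_map_of_injective L.subtype_injective
    exact pclosed_of_equiv (K.equivMapOfInjective L.subtype L.subtype_injective)
      (h.2 (K.map L.subtype) (by rwa [hc]))

section Core

variable {G : Type u} [Group G] [Finite G]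

/-- The `p`-elements of a proper subgroup lie in one `p`-subgroup. -/
theorem exists_max (L : Subgroup G) (hL : PClosed p L) :
    ∃ T : Subgroup G, IsPGroup p T ∧ T ≤ L ∧ ∀ Y : Subgroup G, IsPGroup p Y → Y ≤ L → Y ≤ T := by
  let R : Sylow p L := default
  refine ⟨(R : Subgroup L).map L.subtype, R.isPGroup'.map L.subtype, ?_, ?_⟩
  · rintro _ ⟨x, -, rfl⟩
    exact x.2
  · intro Y hY hYL y hy
    have h1 : IsPGroup p (Y.subgroupOf L) := hY.comap_of_injective L.subtype L.subtype_injective
    have h2 := le_of_pclosed hL R h1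
    exact ⟨⟨y, hYL hy⟩, h2 (Subgroup.mem_subgroupOf.2 hy), rfl⟩

/-- Two Sylow subgroups in a proper subgroup coincide. -/
theorem sylow_eq_of_le (L : Subgroup G) (hL : PClosed p L) (Q₁ Q₂ : Sylow p G)
    (h₁ : (Q₁ : Subgroup G) ≤ L) (h₂ : (Q₂ : Subgroup G) ≤ L) : Q₁ = Q₂ := by
  obtain ⟨T, hT, -, hmax⟩ := exists_max L hL
  have e1 := Q₁.is_maximal' hT (hmax _ Q₁.isPGroup' h₁)
  have e2 := Q₂.is_maximal' hT (hmax _ Q₂.isPGroup' h₂)
  exact Sylow.ext (e1.symm.trans e2)

omit [Fact p.Prime] [Finite G] in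
/-- The `p`-part of an element. -/
theorem isPGroup_zpowers_of_mem {Q : Subgroup G} (hQ : IsPGroup p Q) {y : G} (hy : y ∈ Q) :
    IsPGroup p (Subgroup.zpowers y) :=
  hQ.to_le (Subgroup.zpowers_le.2 hy)

/-- Two `p`-elements in a proper subgroup lie in a common Sylow subgroup. -/
theorem common_sylow (L : Subgroup G) (hL : PClosed p L) {y₁ y₂ : G}
    (h₁ : IsPGroup p (Subgroup.zpowers y₁)) (h₂ : IsPGroup p (Subgroup.zpowers y₂))
    (hy₁ : y₁ ∈ L) (hy₂ : y₂ ∈ L) : ∃ Q : Sylow p G, y₁ ∈ Q ∧ y₂ ∈ Q := by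
  obtain ⟨T, hT, -, hmax⟩ := exists_max L hL
  obtain ⟨Q, hQ⟩ := hT.exists_le_sylow
  exact ⟨Q, hQ (hmax _ h₁ (Subgroup.zpowers_le.2 hy₁) (Subgroup.mem_zpowers y₁)),
    hQ (hmax _ h₂ (Subgroup.zpowers_le.2 hy₂) (Subgroup.mem_zpowers y₂))⟩

variable (IHL : ∀ L : Subgroup G, L ≠ ⊤ → PClosed p L)
  (habel : ∀ Q : Sylow p G, ∀ a ∈ (Q : Subgroup G), ∀ b ∈ (Q : Subgroup G), a * b = b * a)

include IHL

/-- Sylow subgroups sharing a noncentral element coincide. -/
theorem sylow_eq_of_noncentral (habel : ∀ Q : Sylow p G, ∀ a ∈ (Q : Subgroup G), ∀ b ∈ (Q : Subgroup G), a * b = b * a)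
    (Q₁ Q₂ : Sylow p G) {x : G} (hx : x ∉ Subgroup.center G)
    (h₁ : x ∈ (Q₁ : Subgroup G)) (h₂ : x ∈ (Q₂ : Subgroup G)) : Q₁ = Q₂ := by
  have hC : Subgroup.centralizer ({x} : Set G) ≠ ⊤ := by
    intro h
    apply hx
    rw [Subgroup.mem_center_iff]
    intro g
    have : g ∈ Subgroup.centralizer ({x} : Set G) := by rw [h]; trivial
    rw [Subgroup.mem_centralizer_iff] at this
    exact (this x rfl).symm
  have hle : ∀ Q : Sylow p G, x ∈ (Q : Subgroup G) → (Q : Subgroup G) ≤ Subgroup.centralizer ({x} : Set G) := by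
    intro Q hQ y hy
    rw [Subgroup.mem_centralizer_iff]
    intro w hw
    rw [Set.mem_singleton_iff] at hw
    rw [hw]
    exact habel Q x hQ y hy
  exact sylow_eq_of_le _ (IHL _ hC) Q₁ Q₂ (hle _ h₁) (hle _ h₂)

/-- A proper normal subgroup does not contain a non-normal Sylow subgroup. -/
theorem normal_of_le_normal (P : Sylow p G) (M : Subgroup G) (hM : M.Normal) (hMt : M ≠ ⊤)
    (hP : (P : Subgroup G) ≤ M) : (P : Subgroup G).Normal := by
  have h1 : ∀ g : G, g • P = P := by
    intro g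
    refine sylow_eq_of_le M (IHL M hMt) _ _ ?_ hP
    intro x hx
    rw [Sylow.coe_subgroup_smul] at hx
    obtain ⟨y, hy, rfl⟩ := hx
    exact hM.conj_mem y (hP hy) g
  constructor
  intro n hn g
  have h2 : g * n * g⁻¹ ∈ ((g • P : Sylow p G) : Subgroup G) := by
    rw [Sylow.coe_subgroup_smul]
    exact ⟨n, hn, rfl⟩
  rwa [h1 g] at h2

/-- The non-perfect case. -/
theorem nonperfect {n : ℕ} (ρ : Representation ℂ G (Fin n → ℂ)) (hinj : Function.Injective ρ)
    (hn : n + 1 < p)
    (habel : ∀ Q : Sylow p G, ∀ a ∈ (Q : Subgroup G), ∀ b ∈ (Q : Subgroup G), a * b = b * a)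
    (hcomm : commutator G ≠ ⊤) (P : Sylow p G) : (P : Subgroup G).Normal := by
  classical
  by_contra hnN
  have hp : p.Prime := Fact.out
  haveI hMn : (commutator G).Normal := inferInstance
  obtain ⟨T, hT, hTM, hmax⟩ := exists_max (commutator G) (IHL _ hcomm)
  -- `T` is normal
  haveI hTn : T.Normal := by
    constructor
    intro t ht g
    have h1 : IsPGroup p (T.map (MulAut.conj g).toMonoidHom) := hT.map _
    have h2 : T.map (MulAut.conj g).toMonoidHom ≤ commutator G := by
      rintro _ ⟨y, hy, rfl⟩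
      exact hMn.conj_mem y (hTM hy) g
    exact hmax _ h1 h2 ⟨t, ht, rfl⟩
  -- `T` is central
  have hTP : T ≤ (P : Subgroup G) := hT.le_sylow_of_normal P
  have hTc : ∀ t ∈ T, ∀ g : G, g * t = t * g := by
    have hCn : (Subgroup.centralizer (T : Set G)).Normal := inferInstance
    have hPC : (P : Subgroup G) ≤ Subgroup.centralizer (T : Set G) := by
      intro x hx
      rw [Subgroup.mem_centralizer_iff]
      intro t ht
      exact habel P t (hTP ht) x hx
    have hCt : Subgroup.centralizer (T : Set G) = ⊤ := by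
      by_contra hne
      exact hnN (normal_of_le_normal IHL P _ hCn hne hPC)
    intro t ht g
    have : g ∈ Subgroup.centralizer (T : Set G) := by rw [hCt]; trivial
    rw [Subgroup.mem_centralizer_iff] at this
    exact (this t ht).symm
  -- the normalizer centralizes
  have hNC : Subgroup.normalizer (P : Set G) ≤ Subgroup.centralizer (P : Set G) := by
    intro w hw
    rw [Subgroup.mem_centralizer_iff]
    intro u hu
    have hu' : u ∈ (P : Subgroup G) := hu
    have hconj : w * u * w⁻¹ ∈ (P : Subgroup G) := (Subgroup.mem_normalizer_iff.1 hw u).1 hu'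
    set c := u⁻¹ * (w * u * w⁻¹) with hc
    have hcP : c ∈ (P : Subgroup G) := Subgroup.mul_mem _ (Subgroup.inv_mem _ hu') hconj
    have hcM : c ∈ commutator G := by
      have h1 := Subgroup.commutator_mem_commutator (Subgroup.mem_top u⁻¹) (Subgroup.mem_top w)
      have h2 : ⁅u⁻¹, w⁆ = c := by
        rw [hc, commutatorElement_def]
        group
      rw [h2] at h1
      rwa [commutator_def]
    have hcT : c ∈ T := hmax _ (isPGroup_zpowers_of_mem P.isPGroup' hcP)
      (Subgroup.zpowers_le.2 hcM) (Subgroup.mem_zpowers c)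
    have hcc := hTc c hcT
    have hstep : w * u * w⁻¹ = u * c := by rw [hc]; group
    have hit : ∀ i : ℕ, w ^ i * u * (w ^ i)⁻¹ = u * c ^ i := by
      intro i
      induction i with
      | zero => simp
      | succ i ih =>
        have e1 : w ^ (i + 1) * u * (w ^ (i + 1))⁻¹ = w * (w ^ i * u * (w ^ i)⁻¹) * w⁻¹ := by
          rw [pow_succ']
          group
        rw [e1, ih]
        have e2 : w * (u * c ^ i) * w⁻¹ = w * u * w⁻¹ * (w * c ^ i * w⁻¹) := by group
        have e3 : w * c ^ i * w⁻¹ = c ^ i := by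
          have : w * c ^ i = c ^ i * w := (Commute.pow_right (show Commute w c from hcc w) i).eq
          rw [this]
          group
        rw [e2, e3, hstep, pow_succ', mul_assoc]
    -- the index
    set N := Subgroup.normalizer (P : Set G) with hN
    have hPN : (P : Subgroup G) ≤ N := Subgroup.le_normalizer
    haveI : ((P : Subgroup G).subgroupOf N).Normal := Subgroup.normal_in_normalizer
    set e := ((P : Subgroup G).subgroupOf N).index with he
    have hepow : w ^ e ∈ (P : Subgroup G) := by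
      have := Subgroup.pow_index_mem ((P : Subgroup G).subgroupOf N) (⟨w, hw⟩ : N)
      rw [Subgroup.mem_subgroupOf] at this
      simpa using this
    have hpe : ¬ p ∣ e := by
      intro h
      apply P.not_dvd_index
      rw [← Subgroup.relIndex_mul_index hPN]
      exact Dvd.dvd.mul_right h _
    have h3 := hit e
    have h4 : w ^ e * u = u * w ^ e := habel P _ hepow u hu'
    have h5 : u * c ^ e = u := by
      rw [← h3, h4]
      group
    have h6 : c ^ e = 1 := by simpa using h5
    obtain ⟨k, hk⟩ := P.isPGroup' ⟨c, hcP⟩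
    have h7 : c ^ p ^ k = 1 := by simpa using congrArg Subtype.val hk
    have hcop : Nat.Coprime e (p ^ k) :=
      Nat.Coprime.pow_right _ (Nat.Coprime.symm ((Nat.Prime.coprime_iff_not_dvd hp).2 hpe))
    have h8 := (pow_gcd_eq_one (a := c) (m := e) (n := p ^ k)).2 ⟨h6, h7⟩
    rw [hcop.gcd_eq_one, pow_one] at h8
    rw [h8, mul_one] at hstep
    calc u * w = (w * u * w⁻¹)  * w := by rw [hstep]
      _ = w * u := by group
  -- Burnside
  haveI : (P : Subgroup G).FiniteIndex := inferInstance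
  set K := (MonoidHom.transferSylow P hNC).ker with hK
  have hKcop : ¬ p ∣ Nat.card K := MonoidHom.not_dvd_card_ker_transferSylow P hNC
  have hcompl := MonoidHom.ker_transferSylow_isComplement' P hNC
  have hKn : K.Normal := MonoidHom.normal_ker _
  have hfr : finrank ℂ (Fin n → ℂ) + 1 < p := by rwa [finrank_fin_fun]
  have hcen : ∀ x ∈ (P : Subgroup G), ∀ k ∈ K, x * k = k * x := by
    intro x hx k hk
    obtain ⟨a, ha⟩ := P.isPGroup' ⟨x, hx⟩
    have hxa : x ^ p ^ a = 1 := by simpa using congrArg Subtype.val ha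
    exact centralizes_of_small ρ hinj hfr _ K rfl hKcop a x hxa
      (fun y hy => hKn.conj_mem y hy x) k hk
  apply hnN
  constructor
  intro v hv g
  obtain ⟨⟨⟨k, hk⟩, ⟨u, hu⟩⟩, rfl⟩ := hcompl.2 g
  have hv' : u * v * u⁻¹ ∈ (P : Subgroup G) :=
    Subgroup.mul_mem _ (Subgroup.mul_mem _ hu hv) (Subgroup.inv_mem _ hu)
  have h9 := hcen _ hv' k hk
  show k * u * v * (k * u)⁻¹ ∈ (P : Subgroup G)
  have h10 : k * u * v * (k * u)⁻¹ = k * (u * v * u⁻¹) * k⁻¹ := by group
  rw [h10, ← h9]
  simpa using hv'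

omit IHL in
open scoped IsMulCommutative in
/-- The centre meets the Sylow subgroup trivially in a perfect group. -/
theorem sylow_inf_center (habel : ∀ Q : Sylow p G, ∀ a ∈ (Q : Subgroup G), ∀ b ∈ (Q : Subgroup G), a * b = b * a)
    (hperf : commutator G = ⊤) (P : Sylow p G) {z : G} (hzP : z ∈ (P : Subgroup G))
    (hzZ : z ∈ Subgroup.center G) : z = 1 := by
  classical
  have hp : p.Prime := Fact.out
  haveI hcm : IsMulCommutative (P : Subgroup G) :=
    ⟨⟨fun a b => Subtype.ext (habel P a a.2 b b.2)⟩⟩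
  have hidx := P.not_dvd_index
  let V : G →* (P : Subgroup G) := MonoidHom.transfer (MonoidHom.id (P : Subgroup G))
  have h1 : V z = 1 := by
    have : z ∈ commutator G := by rw [hperf]; trivial
    exact Abelianization.commutator_subset_ker V this
  have h2 := MonoidHom.transfer_eq_pow (MonoidHom.id (P : Subgroup G)) z (fun k g₀ _ => by
    have hzk : z ^ k ∈ Subgroup.center G := Subgroup.pow_mem _ hzZ k
    rw [Subgroup.mem_center_iff] at hzk
    rw [mul_assoc, ← hzk g₀]
    group)
  have h3 : z ^ (P : Subgroup G).index = 1 := by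
    have h4 := congrArg Subtype.val (h2.symm.trans h1)
    simpa using h4
  obtain ⟨k, hk⟩ := P.isPGroup' ⟨z, hzP⟩
  have h7 : z ^ p ^ k = 1 := by simpa using congrArg Subtype.val hk
  have hcop : Nat.Coprime (P : Subgroup G).index (p ^ k) :=
    Nat.Coprime.pow_right _ (Nat.Coprime.symm ((Nat.Prime.coprime_iff_not_dvd hp).2 hidx))
  have h8 := (pow_gcd_eq_one (a := z) (m := (P : Subgroup G).index) (n := p ^ k)).2 ⟨h3, h7⟩
  rwa [hcop.gcd_eq_one, pow_one] at h8

/-- The perfect case. -/
theorem perfect {n : ℕ} (ρ : Representation ℂ G (Fin n → ℂ)) (hinj : Function.Injective ρ)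
    (hyp : Hyp p G n)
    (habel : ∀ Q : Sylow p G, ∀ a ∈ (Q : Subgroup G), ∀ b ∈ (Q : Subgroup G), a * b = b * a)
    (hperf : commutator G = ⊤) (P : Sylow p G) : (P : Subgroup G).Normal := by
  classical
  cases nonempty_fintype G
  by_contra hnN
  have hp : p.Prime := Fact.out
  haveI : Fintype (P : Subgroup G) := Fintype.ofFinite _
  rcases (P : Subgroup G).bot_or_exists_ne_one with hb | ⟨h, hhP, hh1⟩
  · apply hnN
    rw [hb]
    infer_instance
  have hch : IsCharacter G ρ.character := isCharacter_of_rep ρ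
  have hfr : finrank ℂ (Fin n → ℂ) = n := finrank_fin_fun ℂ
  have hone : ρ.character 1 = (n : ℕ) := by
    rw [Representation.char_one, hfr]
  have hne : ρ.character h ≠ ρ.character 1 := by
    intro e
    apply hh1
    apply hinj
    rw [hone] at e
    rw [map_one]
    exact (Cfsg.Agent.Lib.Char.Values.character_eq_finrank_iff ρ h).1 (by rw [e, hfr])
  obtain ⟨m, hm⟩ := exists_nat_decomp hch
  obtain ⟨θ, hθ, hθu⟩ := exists_constituent hm hne
  obtain ⟨d, hd, hsum⟩ := exists_degrees hm hone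
  have hdn : d θ ≤ n := by
    have hle : m θ * d θ ≤ n := by
      rw [← hsum]
      exact Finset.single_le_sum (f := fun ψ => m ψ * d ψ) (fun _ _ => Nat.zero_le _)
        (Finset.mem_univ θ)
    have hle2 : d θ ≤ m θ * d θ := Nat.le_mul_of_pos_left _ (Nat.pos_of_ne_zero hθ)
    omega
  have hcenP : ∀ z ∈ (P : Subgroup G), z ∈ Subgroup.center G → z = 1 :=
    fun z hz hzc => sylow_inf_center habel hperf P hz hzc
  have hZ : (P : Subgroup G) ⊓ Subgroup.center G = ⊥ := by
    rw [eq_bot_iff]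
    rintro z ⟨hz1, hz2⟩
    exact (Subgroup.mem_bot).2 (hcenP z hz1 hz2)
  -- conjugate Sylow subgroups
  have hmap : ∀ a : G, (P : Subgroup G).map (MulAut.conj a).toMonoidHom =
      ((a • P : Sylow p G) : Subgroup G) := by
    intro a
    rw [Sylow.coe_subgroup_smul]
    rfl
  have hnoncen : ∀ a : G, ∀ y ∈ ((a • P : Sylow p G) : Subgroup G), y ≠ 1 →
      y ∉ Subgroup.center G := by
    intro a y hy hy1 hyc
    rw [← hmap] at hy
    obtain ⟨u, hu, rfl⟩ := hy
    have hu1 : u = 1 := by
      apply hcenP u hu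
      rw [Subgroup.mem_center_iff] at hyc ⊢
      intro g
      have h1 := hyc (a * g * a⁻¹)
      have e : (MulAut.conj a).toMonoidHom u = a * u * a⁻¹ := rfl
      rw [e] at h1
      have h2 : a * (g * u) * a⁻¹ = a * (u * g) * a⁻¹ := by
        calc a * (g * u) * a⁻¹ = a * g * a⁻¹ * (a * u * a⁻¹) := by group
          _ = a * u * a⁻¹ * (a * g * a⁻¹) := h1
          _ = a * (u * g) * a⁻¹ := by group
      simpa using h2
    apply hy1
    rw [hu1]
    exact map_one _
  have hone' : ∀ g : G, g ∉ Subgroup.center G → ∀ a b : G,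
      Subgroup.centralizer ({g} : Set G) ⊓ (P : Subgroup G).map (MulAut.conj a).toMonoidHom ≠ ⊥ →
      Subgroup.centralizer ({g} : Set G) ⊓ (P : Subgroup G).map (MulAut.conj b).toMonoidHom ≠ ⊥ →
      (P : Subgroup G).map (MulAut.conj a).toMonoidHom =
        (P : Subgroup G).map (MulAut.conj b).toMonoidHom := by
    intro g hg a b ha hb
    rw [hmap] at ha hb ⊢
    rw [hmap]
    have hC : Subgroup.centralizer ({g} : Set G) ≠ ⊤ := by
      intro h
      apply hg
      rw [Subgroup.mem_center_iff]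
      intro x
      have : x ∈ Subgroup.centralizer ({g} : Set G) := by rw [h]; trivial
      rw [Subgroup.mem_centralizer_iff] at this
      exact (this g rfl).symm
    rcases (Subgroup.centralizer ({g} : Set G) ⊓ ((a • P : Sylow p G) : Subgroup G)).bot_or_exists_ne_one
      with h0 | ⟨y₁, hy₁, hy₁1⟩
    · exact absurd h0 ha
    rcases (Subgroup.centralizer ({g} : Set G) ⊓ ((b • P : Sylow p G) : Subgroup G)).bot_or_exists_ne_one
      with h0 | ⟨y₂, hy₂, hy₂1⟩
    · exact absurd h0 hb
    obtain ⟨Q, hQ1, hQ2⟩ := common_sylow _ (IHL _ hC)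
      (isPGroup_zpowers_of_mem (a • P : Sylow p G).isPGroup' hy₁.2)
      (isPGroup_zpowers_of_mem (b • P : Sylow p G).isPGroup' hy₂.2) hy₁.1 hy₂.1
    have e1 := sylow_eq_of_noncentral IHL habel Q (a • P) (hnoncen a y₁ hy₁.2 hy₁1) hQ1 hy₁.2
    have e2 := sylow_eq_of_noncentral IHL habel Q (b • P) (hnoncen b y₂ hy₂.2 hy₂1) hQ2 hy₂.2
    rw [← e1, ← e2]
  have hne1 : (θ : G → ℂ) 1 ≠ 1 := by
    intro h1
    obtain ⟨φ, hφ⟩ := Cfsg.Agent.Lib.Char.LinearChars.exists_hom_of_isCharacter_one
      (isCharacter_of_isIrrCharacter θ.2) h1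
    have hφ1 : φ h = 1 := by
      have hg : h ∈ commutator G := by rw [hperf]; trivial
      have hle : commutator G ≤ φ.ker := by
        rw [commutator_def, Subgroup.commutator_le]
        intro a _ b _
        rw [MonoidHom.mem_ker, map_commutatorElement,
          commutatorElement_eq_one_iff_mul_comm.2 (mul_comm _ _)]
      exact hle hg
    apply hθu
    rw [h1]
    have := congrFun hφ h
    simpa [hφ1] using this
  have hnorm : ∀ M : Subgroup G, M.Normal → (P : Subgroup G) ≤ M → M = ⊤ := by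
    intro M hM hPM
    by_contra hne2
    exact hnN (normal_of_le_normal IHL P M hM hne2 hPM)
  have hres := (Cfsg.Agent.S0898.result (P : Subgroup G) (habel P) hZ hone' θ θ.2
    ⟨h, hhP, hθu⟩).2 hne1 hnorm
  rw [(hd θ).2] at hres
  simp only [Complex.natCast_re] at hres
  have hd2 : (1 + (d θ : ℝ)) ^ 2 ≤ ((n : ℝ) + 1) ^ 2 := by
    have : (d θ : ℝ) ≤ n := by exact_mod_cast hdn
    nlinarith
  have hcardP : (Nat.card (P : Subgroup G) : ℝ) < ((n : ℝ) + 1) ^ 2 := by
    linarith
  have hcardP' : Nat.card (P : Subgroup G) < (n + 1) ^ 2 := by exact_mod_cast hcardP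
  -- `p` divides the order of `P`
  have hpP : p ∣ Nat.card (P : Subgroup G) := by
    obtain ⟨k, hk⟩ := IsPGroup.iff_card.1 P.isPGroup'
    rw [hk]
    rcases Nat.eq_zero_or_pos k with rfl | hk0
    · exfalso
      rw [pow_zero] at hk
      have h2 : (P : Subgroup G) = ⊥ := Subgroup.card_eq_one.1 hk
      exact hh1 (by simpa [h2] using hhP)
    · exact dvd_pow_self p hk0.ne'
  have hPpos : 0 < Nat.card (P : Subgroup G) := Nat.card_pos
  rcases hyp with hA | ⟨hlt, hB⟩
  · have := Nat.le_of_dvd hPpos hpP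
    omega
  · by_cases hsq : p ^ 2 ∣ Nat.card G
    · have h3 := P.pow_dvd_card_of_pow_dvd_card hsq
      have h4 := Nat.le_of_dvd hPpos h3
      have h5 : (n + 1) ^ 2 < p ^ 2 := Nat.pow_lt_pow_left hlt (by norm_num)
      omega
    · have h6 : ¬ p ^ 2 ∣ Nat.card (⊤ : Subgroup G) := by
        rwa [Subgroup.card_top]
      exact hnN (pclosed_of_top (hB ⊤ h6) P)

end Core

/-- The induction. -/
theorem main (p : ℕ) [Fact p.Prime] : ∀ (m : ℕ) (G : Type u) [Group G] [Finite G] (n : ℕ)
    (ρ : Representation ℂ G (Fin n → ℂ)), Function.Injective ρ → Hyp p G n → Nat.card G = m →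
    PClosed p G := by
  intro m
  induction m using Nat.strong_induction_on with
  | _ m IH =>
    intro G _ _ n ρ hinj hyp hm
    have IHL : ∀ L : Subgroup G, L ≠ ⊤ → PClosed p L := by
      intro L hL
      have hlt : Nat.card L < Nat.card G :=
        lt_of_le_of_ne (Subgroup.card_le_card_group L)
          (fun h => hL (Subgroup.eq_top_of_card_eq L h))
      exact IH (Nat.card L) (by omega) L n (ρ.comp L.subtype)
        (fun a b hab => Subtype.ext (hinj hab)) (hyp.restrict L) rfl
    have hn := hyp.lt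
    have habel : ∀ Q : Sylow p G, ∀ a ∈ (Q : Subgroup G), ∀ b ∈ (Q : Subgroup G), a * b = b * a := by
      intro Q
      refine Cfsg.Agent.Lib.Char.LinearHall.comm_of_pi ρ hinj (N := n + 1)
        (by rw [finrank_fin_fun]) (Q : Subgroup G) ?_
      intro q hq hqd
      obtain ⟨k, hk⟩ := IsPGroup.iff_card.1 Q.isPGroup'
      rw [hk] at hqd
      have := (Nat.prime_dvd_prime_iff_eq hq Fact.out).1 (hq.dvd_of_dvd_pow hqd)
      omega
    intro P
    by_cases hperf : commutator G = ⊤
    · exact perfect IHL ρ hinj hyp habel hperf P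
    · exact nonperfect IHL ρ hinj hn habel hperf P

/-- Feit-Thompson-Blichfeldt. -/
theorem result {G : Type*} [Group G] [Finite G] (n : ℕ) (ρ : Representation ℂ G (Fin n → ℂ)) (hρ : Function.Injective ρ) (p : ℕ) [Fact p.Prime] (h : (n + 1) ^ 2 ≤ p ∨ (n + 1 < p ∧ ∀ K : Subgroup G, ¬ p ^ 2 ∣ Nat.card K → ∀ Q : Sylow p K, (Q : Subgroup K).Normal)) (P : Sylow p G) : (P : Subgroup G).Normal :=
  main p _ G n ρ hρ h rfl P

end Cfsg.Agent.S0899
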