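import Cfsg.Statements.S0900
import Mathlib
import Cfsg.Agent.Lib.Char.CliffordCorr
-- import your own Cfsg.Agent.* helpers here

set_option autoImplicit false
open Cfsg

namespace Cfsg.Agent.S0900

open Cfsg.Agent.Lib.Char.Basic Cfsg.Agent.Lib.Char.Ortho Cfsg.Agent.Lib.Char.Induced
  Cfsg.Agent.Lib.Char.IndRep Cfsg.Agent.Lib.Char.Clifford Cfsg.Agent.Lib.Char.CliffordCorr
open scoped ComplexConjugate

/-- Restriction of a norm-one function: the sum of squares over the group. -/
theorem sum_norm_sq_irr {G : Type*} [Group G] [Fintype G] {χ : G → ℂ} (hχ : IsIrrCharacter G χ) :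
    ∑ g : G, ‖χ g‖ ^ 2 = (Nat.card G : ℝ) := by
  have h1 := classInner_self_eq χ
  rw [classInner_irr_self hχ] at h1
  have h2 : (1 : ℝ) = (Nat.card G : ℝ)⁻¹ * ∑ g : G, ‖χ g‖ ^ 2 := by exact_mod_cast h1
  have hc : (Nat.card G : ℝ) ≠ 0 := by exact_mod_cast Nat.card_pos.ne'
  field_simp at h2
  linarith

theorem sum_eq_of_van {G : Type*} [Group G] [Fintype G] (N : Subgroup G) [Fintype N] (f : G → ℝ)
    (hf : ∀ g : G, g ∉ N → f g = 0) : ∑ g : G, f g = ∑ n : N, f n := by
  symm
  refine Fintype.sum_of_injective (fun n : N => (n : G)) Subtype.val_injective _ _ ?_ ?_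
  · intro g hg
    exact hf g (fun h => hg ⟨⟨g, h⟩, rfl⟩)
  · intro _
    rfl

theorem van_of_sum_eq {G : Type*} [Group G] [Fintype G] (N : Subgroup G) [Fintype N] (f : G → ℝ)
    (h0 : ∀ g, 0 ≤ f g) (h : ∑ g : G, f g = ∑ n : N, f n) : ∀ g : G, g ∉ N → f g = 0 := by
  classical
  intro g hg
  have h1 : ∑ n : N, f n = ∑ g ∈ Finset.univ.filter (fun g : G => g ∈ N), f g := by
    refine Finset.sum_bij (fun n _ => (n : G)) ?_ ?_ ?_ ?_
    · intro n _
      simp
    · intro a _ b _ h
      exact Subtype.ext h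
    · intro g hg
      have hg' : g ∈ N := by simpa using hg
      exact ⟨⟨g, hg'⟩, Finset.mem_univ _, rfl⟩
    · intro _ _
      rfl
  have h2 := Finset.sum_filter_add_sum_filter_not Finset.univ (fun g : G => g ∈ N) f
  rw [h, h1] at h2
  have h3 : ∑ g ∈ Finset.univ.filter (fun g : G => ¬ g ∈ N), f g = 0 := by linarith
  have h4 := (Finset.sum_eq_zero_iff_of_nonneg (fun g _ => h0 g)).mp h3 g (by simpa using hg)
  exact h4

/-- Invariance gives a multiple. -/
theorem res_eq_smul_of_invariant {G : Type*} [Group G] [Fintype G] (N : Subgroup G) [hN : N.Normal]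
    [Fintype N] {χ : G → ℂ} (hχ : IsIrrCharacter G χ) {ϑ : N → ℂ} (hϑ : IsIrrCharacter N ϑ)
    (hcon : classInner (fun n : N => χ n) ϑ ≠ 0)
    (hinv : ∀ (g : G) (n : N), ϑ ⟨g * n * g⁻¹, hN.conj_mem (n : G) n.2 g⟩ = ϑ n) :
    (fun n : N => χ n) = classInner (fun n : N => χ n) ϑ • ϑ := by
  have h1 := res_eq_smul_finsum N hχ hϑ hcon
  have h2 : orbitSet N ϑ = {ϑ} := by
    ext ψ
    constructor
    · rintro ⟨g, rfl⟩
      have : conjFun N g ϑ = ϑ := by
        funext n
        exact hinv g n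
      rw [this]
      rfl
    · rintro rfl
      exact mem_orbitSet_self N _
  rw [h2, finsum_mem_singleton] at h1
  exact h1

/-- Let N be a normal subgroup of the finite group G, χ an irreducible character of G and ϑ an irreducible character of N having nonzero inner product with the restriction of χ. Consider: (a) the restriction of χ to N is e • ϑ for a natural number e with e ^ 2 equal to the index of N; (b) χ vanishes outside N and ϑ is invariant under conjugation by G; (c) ϑ is invariant and every irreducible character of G having nonzero inner product with the function induced from ϑ equals χ. Then (a) ↔ (b) and (a) ↔ (c). -/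
theorem result {G : Type*} [Group G] [Fintype G] (N : Subgroup G) [hN : N.Normal] [Fintype N] (χ : G → ℂ) (hχ : Cfsg.IsIrrCharacter G χ) (ϑ : N → ℂ) (hϑ : Cfsg.IsIrrCharacter N ϑ) (hcon : Cfsg.classInner (fun n : N => χ n) ϑ ≠ 0) : ((∃ e : ℕ, (fun n : N => χ n) = (e : ℂ) • ϑ ∧ e ^ 2 = N.index) ↔ ((∀ g : G, g ∉ N → χ g = 0) ∧ ∀ (g : G) (n : N), ϑ ⟨g * n * g⁻¹, hN.conj_mem (n : G) n.2 g⟩ = ϑ n)) ∧ ((∃ e : ℕ, (fun n : N => χ n) = (e : ℂ) • ϑ ∧ e ^ 2 = N.index) ↔ (∀ (g : G) (n : N), ϑ ⟨g * n * g⁻¹, hN.conj_mem (n : G) n.2 g⟩ = ϑ n ∧ ∀ ψ : G → ℂ, Cfsg.IsIrrCharacter G ψ → Cfsg.classInner (Cfsg.indFun N ϑ) ψ ≠ 0 → ψ = χ)) := by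
  classical
  have hχc := isCharacter_of_isIrrCharacter hχ
  have hχcl := isClassFunction_of_isCharacter hχc
  have hcard : (Nat.card G : ℝ) = (N.index : ℝ) * (Nat.card N : ℝ) := by
    have := N.index_mul_card
    exact_mod_cast this.symm
  have hNpos : (Nat.card N : ℝ) ≠ 0 := by exact_mod_cast Nat.card_pos.ne'
  -- `A ⇒ invariance`
  have hAinv : (∃ e : ℕ, (fun n : N => χ n) = (e : ℂ) • ϑ ∧ e ^ 2 = N.index) →
      ∀ (g : G) (n : N), ϑ ⟨g * n * g⁻¹, hN.conj_mem (n : G) n.2 g⟩ = ϑ n := by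
    rintro ⟨e, he, he2⟩ g n
    have hene : (e : ℂ) ≠ 0 := by
      have hidx : N.index ≠ 0 := Subgroup.index_ne_zero_of_finite
      intro h0
      have : e = 0 := by exact_mod_cast h0
      subst this
      simp at he2
      exact hidx he2.symm
    have h1 := congrFun he ⟨g * n * g⁻¹, hN.conj_mem (n : G) n.2 g⟩
    have h2 := congrFun he n
    simp only [Pi.smul_apply, smul_eq_mul] at h1 h2
    have h3 : χ (g * n * g⁻¹) = χ n := hχcl n g
    rw [h3, h2] at h1
    exact (mul_left_cancel₀ hene h1).symm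
  -- `A ⇒ vanishing`
  have hAvan : (∃ e : ℕ, (fun n : N => χ n) = (e : ℂ) • ϑ ∧ e ^ 2 = N.index) →
      ∀ g : G, g ∉ N → χ g = 0 := by
    rintro ⟨e, he, he2⟩ g hg
    have h2 : ∑ n : N, ‖χ (n : G)‖ ^ 2 = (e : ℝ) ^ 2 * (Nat.card N : ℝ) := by
      rw [← sum_norm_sq_irr hϑ, Finset.mul_sum]
      refine Finset.sum_congr rfl (fun n _ => ?_)
      have := congrFun he n
      simp only [Pi.smul_apply, smul_eq_mul] at this
      rw [this, norm_mul, mul_pow]
      simp
    have h3 : ((e : ℝ)) ^ 2 = (N.index : ℝ) := by exact_mod_cast he2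
    have h4 : ∑ g : G, ‖χ g‖ ^ 2 = ∑ n : N, ‖χ (n : G)‖ ^ 2 := by
      rw [h2, sum_norm_sq_irr hχ, hcard, h3]
    have h5 := van_of_sum_eq N (fun g => ‖χ g‖ ^ 2) (fun g => by positivity) h4 g hg
    simpa using h5
  -- `invariance ⇒ multiplicity natural`
  have hnat : ∃ e : ℕ, classInner (fun n : N => χ n) ϑ = e :=
    exists_nat_classInner (isCharacter_restrict hχc N) ⟨ϑ, hϑ⟩
  have hBA : ((∀ g : G, g ∉ N → χ g = 0) ∧
      ∀ (g : G) (n : N), ϑ ⟨g * n * g⁻¹, hN.conj_mem (n : G) n.2 g⟩ = ϑ n) →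
      ∃ e : ℕ, (fun n : N => χ n) = (e : ℂ) • ϑ ∧ e ^ 2 = N.index := by
    rintro ⟨hvan, hinv⟩
    obtain ⟨e, he⟩ := hnat
    have h0 := res_eq_smul_of_invariant N hχ hϑ hcon hinv
    rw [he] at h0
    refine ⟨e, h0, ?_⟩
    have h2 : ∑ n : N, ‖χ (n : G)‖ ^ 2 = (e : ℝ) ^ 2 * (Nat.card N : ℝ) := by
      rw [← sum_norm_sq_irr hϑ, Finset.mul_sum]
      refine Finset.sum_congr rfl (fun n _ => ?_)
      have := congrFun h0 n
      simp only [Pi.smul_apply, smul_eq_mul] at this
      rw [this, norm_mul, mul_pow]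
      simp
    have h1 := sum_eq_of_van N (fun g => ‖χ g‖ ^ 2) (fun g hg => by simp [hvan g hg])
    rw [h2, sum_norm_sq_irr hχ, hcard] at h1
    have h4 : ((N.index : ℝ)) = (e : ℝ) ^ 2 := mul_right_cancel₀ hNpos h1
    exact_mod_cast h4.symm
  refine ⟨⟨fun hA => ⟨hAvan hA, hAinv hA⟩, hBA⟩, ⟨fun hA g n => ⟨hAinv hA g n, ?_⟩, fun hC => ?_⟩⟩
  · -- `A ⇒ C`
    intro ψ hψ hc
    have hψc := isCharacter_of_isIrrCharacter hψ
    have hψcl := isClassFunction_of_isCharacter hψc
    obtain ⟨e, he, he2⟩ := hA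
    have hvan := hAvan ⟨e, he, he2⟩
    rw [frobenius_reciprocity N ϑ ψ hψcl] at hc
    have hne : classInner (fun n : N => ψ n) ϑ ≠ 0 := by
      intro h0
      apply hc
      rw [← classInner_conj_symm, h0]
      simp
    have hene : (e : ℂ) ≠ 0 := by
      have hidx : N.index ≠ 0 := Subgroup.index_ne_zero_of_finite
      intro h0
      have : e = 0 := by exact_mod_cast h0
      subst this
      simp at he2
      exact hidx he2.symm
    have hin : classInner ψ χ ≠ 0 := by
      have h1 : classInner ψ χ = (Nat.card G : ℂ)⁻¹ * ((Nat.card N : ℂ) * ((e : ℂ) *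
          classInner (fun n : N => ψ n) ϑ)) := by
        rw [classInner_def, classInner_def]
        congr 1
        have hNc : (Nat.card N : ℂ) ≠ 0 := natCard_ne_zero_complex
        have h2 : ∑ g : G, ψ g * conj (χ g) = ∑ n : N, ψ n * conj (χ n) := by
          symm
          refine Fintype.sum_of_injective (fun n : N => (n : G)) Subtype.val_injective _ _ ?_ ?_
          · intro g hg
            have : g ∉ N := fun h => hg ⟨⟨g, h⟩, rfl⟩
            rw [hvan g this]
            simp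
          · intro _
            rfl
        rw [h2]
        have h3 : ∀ n : N, ψ n * conj (χ n) = (e : ℂ) * (ψ n * conj (ϑ n)) := by
          intro n
          have := congrFun he n
          simp only [Pi.smul_apply, smul_eq_mul] at this
          rw [this, map_mul, Complex.conj_natCast]
          ring
        rw [Finset.sum_congr rfl (fun n _ => h3 n), ← Finset.mul_sum]
        field_simp
      rw [h1]
      have hGc : (Nat.card G : ℂ)⁻¹ ≠ 0 := inv_ne_zero natCard_ne_zero_complex
      exact mul_ne_zero hGc (mul_ne_zero natCard_ne_zero_complex (mul_ne_zero hene hne))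
    by_contra hcon2
    exact hin (classInner_irr_of_ne hψ hχ hcon2)
  · -- `C ⇒ A`
    have hinv : ∀ (g : G) (n : N), ϑ ⟨g * n * g⁻¹, hN.conj_mem (n : G) n.2 g⟩ = ϑ n :=
      fun g n => (hC g n).1
    have honly := (hC 1 1).2
    obtain ⟨e, he⟩ := hnat
    have h0 := res_eq_smul_of_invariant N hχ hϑ hcon hinv
    rw [he] at h0
    refine ⟨e, h0, ?_⟩
    have hK : IsCharacter G (indFun N ϑ) := isCharacter_indFun N (isCharacter_of_isIrrCharacter hϑ)
    have hdec := decomp_eq_sum_classInner hK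
    have hKχ : classInner (indFun N ϑ) χ = e := by
      rw [frobenius_reciprocity N ϑ χ hχcl]
      have : (fun h : N => χ h) = (e : ℂ) • ϑ := h0
      rw [this, classInner_smul_right, classInner_irr_self hϑ]
      simp
    have hsum : indFun N ϑ = (e : ℂ) • χ := by
      rw [hdec, Finset.sum_eq_single (⟨χ, hχ⟩ : IrrCharacter G)]
      · simp only
        rw [hKχ]
      · intro τ _ hτ
        by_cases h2 : classInner (indFun N ϑ) (τ : G → ℂ) = 0
        · rw [h2, zero_smul]
        · exact absurd (Subtype.ext (honly τ.1 τ.2 h2)) hτ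
      · intro h3
        exact absurd (Finset.mem_univ _) h3
    have h1 := congrFun hsum 1
    simp only [Pi.smul_apply, smul_eq_mul] at h1
    rw [indFun_one N ϑ] at h1
    have h2 : χ 1 = (e : ℂ) * ϑ 1 := by
      have := congrFun h0 1
      simpa using this
    rw [h2, ← mul_assoc] at h1
    have h3 := mul_right_cancel₀ (irr_apply_one_ne_zero hϑ) h1
    have h4 : N.index = e * e := by exact_mod_cast h3
    rw [h4, pow_two]

end Cfsg.Agent.S0900
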