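import Cfsg.Statements.S0901
import Mathlib
-- import your own Cfsg.Agent.* helpers here

set_option autoImplicit false
open Cfsg

namespace Cfsg.Agent.S0901

/-- Let M be a maximal ideal of the ring of algebraic integers containing the prime p, and let U be the set of complex roots of unity of order prime to p. Then reduction modulo M is injective on U, and every algebraic integer not in M is congruent modulo M to an element of U (so U maps bijectively onto the nonzero residues). -/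
theorem result (p : ℕ) [Fact p.Prime] (M : Ideal Cfsg.AlgInt) (hM : Cfsg.IsPModular p M) : (∀ ε₁ ε₂ : Cfsg.AlgInt, (∃ m : ℕ, ¬ p ∣ m ∧ (ε₁ : ℂ) ^ m = 1) → (∃ m : ℕ, ¬ p ∣ m ∧ (ε₂ : ℂ) ^ m = 1) → ε₁ - ε₂ ∈ M → ε₁ = ε₂) ∧ (∀ a : Cfsg.AlgInt, a ∉ M → ∃ ε : Cfsg.AlgInt, (∃ m : ℕ, ¬ p ∣ m ∧ (ε : ℂ) ^ m = 1) ∧ a - ε ∈ M) := by
  obtain ⟨hpp, hMmax, hpM⟩ := hM
  haveI := hMmax
  have hMprime : M.IsPrime := hMmax.isPrime
  constructor
  · -- injectivity of reduction
    rintro ε₁ ε₂ ⟨m₁, hm₁, h₁⟩ ⟨m₂, hm₂, h₂⟩ hdiff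
    have h₁' : ε₁ ^ m₁ = 1 := Subtype.ext (by simpa using h₁)
    have h₂' : ε₂ ^ m₂ = 1 := Subtype.ext (by simpa using h₂)
    have hm₂pos : 0 < m₂ := Nat.pos_of_ne_zero (fun h => hm₂ (h ▸ dvd_zero p))
    have hm₁pos : 0 < m₁ := Nat.pos_of_ne_zero (fun h => hm₁ (h ▸ dvd_zero p))
    set ε : Cfsg.AlgInt := ε₁ * ε₂ ^ (m₂ - 1) with hε
    have hε₂inv : ε₂ ^ (m₂ - 1) * ε₂ = 1 := by
      rw [← pow_succ, Nat.sub_add_cancel hm₂pos, h₂']
    have hεsub : ε - 1 ∈ M := by
      have : ε - 1 = ε₂ ^ (m₂ - 1) * (ε₁ - ε₂) := by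
        rw [hε, mul_sub, mul_comm (ε₂ ^ (m₂ - 1)) ε₁, hε₂inv]
      rw [this]
      exact M.mul_mem_left _ hdiff
    set m := m₁ * m₂ with hm
    have hmnd : ¬ p ∣ m := fun h => ((Nat.Prime.dvd_mul hpp).mp h).elim hm₁ hm₂
    have hεpow : ε ^ m = 1 := by
      have h3 : (ε₂ ^ (m₂ - 1)) ^ (m₁ * m₂) = (ε₂ ^ m₂) ^ ((m₂ - 1) * m₁) := by
        rw [← pow_mul, ← pow_mul]; congr 1; ring
      rw [hε, mul_pow, hm, pow_mul ε₁, h₁', one_pow, one_mul, h3, h₂', one_pow]
    by_cases hε1 : ε = 1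
    · have : ε₁ * 1 = ε₂ := by
        calc ε₁ * 1 = ε₁ * (ε₂ ^ (m₂ - 1) * ε₂) := by rw [hε₂inv]
          _ = ε * ε₂ := by rw [hε, mul_assoc]
          _ = ε₂ := by rw [hε1, one_mul]
      simpa using this
    · exfalso
      have hgeom : ∑ i ∈ Finset.range m, ε ^ i = 0 := by
        have h := mul_geom_sum ε m
        rw [hεpow, sub_self] at h
        have hne : ε - 1 ≠ 0 := sub_ne_zero.mpr hε1
        exact (mul_eq_zero.mp h).resolve_left hne
      have hmem : ∀ i : ℕ, ε ^ i - 1 ∈ M := by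
        intro i
        exact Ideal.mem_of_dvd M (sub_one_dvd_pow_sub_one ε i) hεsub
      have hmM : (m : Cfsg.AlgInt) ∈ M := by
        have h : (m : Cfsg.AlgInt) = - ∑ i ∈ Finset.range m, (ε ^ i - 1) := by
          rw [Finset.sum_sub_distrib, hgeom]
          simp
        rw [h]
        exact M.neg_mem (M.sum_mem fun i _ => hmem i)
      have hcop : Nat.Coprime m p := ((Nat.Prime.coprime_iff_not_dvd hpp).mpr hmnd).symm
      have h1 : (1 : Cfsg.AlgInt) ∈ M := by
        have hb := Nat.gcd_eq_gcd_ab m p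
        rw [hcop] at hb
        have hb' : (1 : ℤ) = (m : ℤ) * Nat.gcdA m p + (p : ℤ) * Nat.gcdB m p := by
          simpa using hb
        have : (1 : Cfsg.AlgInt) = (m : Cfsg.AlgInt) * ((Nat.gcdA m p : ℤ) : Cfsg.AlgInt) + (p : Cfsg.AlgInt) * ((Nat.gcdB m p : ℤ) : Cfsg.AlgInt) := by
          have := congrArg (Int.cast : ℤ → Cfsg.AlgInt) hb'
          push_cast at this
          exact this
        rw [this]
        exact M.add_mem (M.mul_mem_right _ hmM) (M.mul_mem_right _ hpM)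
      exact hMprime.ne_top ((Ideal.eq_top_iff_one M).2 h1)
  · intro a ha
    letI : Field (Cfsg.AlgInt ⧸ M) := Ideal.Quotient.field M
    set abar : Cfsg.AlgInt ⧸ M := Ideal.Quotient.mk M a with habar
    have habar0 : abar ≠ 0 := by
      rw [habar, Ne, Ideal.Quotient.eq_zero_iff_mem]
      exact ha
    haveI hchar : CharP (Cfsg.AlgInt ⧸ M) p := by
      have h0 : ((p : ℕ) : Cfsg.AlgInt ⧸ M) = 0 := by
        rw [← map_natCast (Ideal.Quotient.mk M) p]
        exact Ideal.Quotient.eq_zero_iff_mem.mpr hpM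
      exact (CharP.charP_iff_prime_eq_zero hpp).mpr h0
    -- integrality
    have hint0 : IsIntegral ℤ a := by
      have := a.2
      exact (isIntegral_algebraMap_iff (Subtype.val_injective)).mp this
    have hint1 : IsIntegral ℤ abar := by
      have := hint0.map (Ideal.Quotient.mkₐ ℤ M)
      exact this
    letI : Algebra (ZMod p) (Cfsg.AlgInt ⧸ M) := ZMod.algebra _ p
    haveI : IsScalarTower ℤ (ZMod p) (Cfsg.AlgInt ⧸ M) :=
      IsScalarTower.of_algebraMap_eq fun x => by simp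
    have hint2 : IsIntegral (ZMod p) abar := hint1.tower_top
    haveI hfin : Module.Finite (ZMod p) (Algebra.adjoin (ZMod p) {abar}) :=
      Algebra.finite_adjoin_simple_of_isIntegral hint2
    haveI : Finite (Algebra.adjoin (ZMod p) {abar}) := Module.finite_of_finite (ZMod p)
    have habarmem : abar ∈ Algebra.adjoin (ZMod p) {abar} := Algebra.subset_adjoin rfl
    obtain ⟨i, j, hij, heq⟩ := Finite.exists_ne_map_eq_of_infinite
      (fun n : ℕ => (⟨abar ^ n, Subalgebra.pow_mem _ habarmem n⟩ : Algebra.adjoin (ZMod p) {abar}))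
    have heq' : abar ^ i = abar ^ j := congrArg Subtype.val heq
    have hex : ∃ n : ℕ, n ≠ 0 ∧ abar ^ n = 1 := by
      rcases lt_or_gt_of_ne hij with h | h
      · refine ⟨j - i, by omega, ?_⟩
        have h3 : abar ^ i * abar ^ (j - i) = abar ^ i * 1 := by
          rw [← pow_add, Nat.add_sub_cancel' h.le, mul_one, heq']
        exact mul_left_cancel₀ (pow_ne_zero _ habar0) h3
      · refine ⟨i - j, by omega, ?_⟩
        have h3 : abar ^ j * abar ^ (i - j) = abar ^ j * 1 := by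
          rw [← pow_add, Nat.add_sub_cancel' h.le, mul_one, heq']
        exact mul_left_cancel₀ (pow_ne_zero _ habar0) h3
    obtain ⟨n, hn0, hn⟩ := hex
    obtain ⟨s, m, hmnd, hnm⟩ := Nat.exists_eq_pow_mul_and_not_dvd hn0 p hpp.ne_one
    have hm0 : m ≠ 0 := fun h => hmnd (h ▸ dvd_zero p)
    have hfrob : abar ^ m = 1 := by
      have h1 : (abar ^ m) ^ (p ^ s) = 1 := by
        rw [← pow_mul, mul_comm, ← hnm, hn]
      have h2 : (abar ^ m - 1) ^ (p ^ s) = 0 := by
        rw [sub_pow_char_pow, h1, one_pow, sub_self]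
      exact sub_eq_zero.mp ((pow_eq_zero_iff (pow_pos hpp.pos s).ne').mp h2)
    have hsubM : a ^ m - 1 ∈ M := by
      rw [← Ideal.Quotient.eq_zero_iff_mem, map_sub, map_pow, map_one, ← habar, hfrob, sub_self]
    -- factor X^m - 1 in the ring of algebraic integers
    have hmpos : 0 < m := Nat.pos_of_ne_zero hm0
    have hζ := Complex.isPrimitiveRoot_exp m hm0
    set ζ : ℂ := Complex.exp (2 * Real.pi * Complex.I / m) with hζdef
    have hζint : IsIntegral ℤ ζ := hζ.isIntegral hmpos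
    let ζ' : Cfsg.AlgInt := ⟨ζ, hζint⟩
    have hζ' : IsPrimitiveRoot ζ' m := by
      exact IsPrimitiveRoot.of_map_of_injective (f := (Cfsg.AlgInt).val) hζ Subtype.val_injective
    have hfact := Polynomial.X_pow_sub_one_eq_prod hmpos hζ'
    have heval := congrArg (Polynomial.eval a) hfact
    simp only [Polynomial.eval_sub, Polynomial.eval_pow, Polynomial.eval_X, Polynomial.eval_one,
      Polynomial.eval_prod, Polynomial.eval_C] at heval
    rw [heval] at hsubM
    obtain ⟨z, hz, hzM⟩ := (Ideal.IsPrime.prod_mem_iff).mp hsubM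
    refine ⟨z, ⟨m, hmnd, ?_⟩, hzM⟩
    have hzm : z ^ m = 1 := (Polynomial.mem_nthRootsFinset hmpos (1 : Cfsg.AlgInt)).mp hz
    exact_mod_cast congrArg (Subtype.val) hzm

end Cfsg.Agent.S0901
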