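import Cfsg.Statements.S0902
import Mathlib
import Cfsg.Agent.S0907
import Cfsg.Agent.Lib.Blocks.Osima
import Cfsg.Agent.Lib.Blocks.DefectAvg
import Cfsg.Agent.Lib.Char.Values
-- import your own Cfsg.Agent.* helpers here

set_option autoImplicit false
open Cfsg

namespace Cfsg.Agent.S0902

open Cfsg.Agent.Lib.Blocks.Osima Cfsg.Agent.Lib.Blocks.Central Cfsg.Agent.Lib.Blocks.Local
open scoped ComplexConjugate

variable {p : ℕ} [Fact p.Prime]

/-- The block element of a block for one maximal ideal has coefficients local at every other one. -/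
theorem memLocalRing_blockCoeff_of_isPBlock {G : Type*} [Group G] [Fintype G] {M M' : Ideal AlgInt}
    (hM : IsPModular p M) (hM' : IsPModular p M') {B : Set (IrrCharacter G)} (hB : IsPBlock M' B)
    (y : G) : MemLocalRing M (blockCoeff B y) := by
  classical
  have hMp := isPrime_of_isPModular hM
  have hMp' := isPrime_of_isPModular hM'
  have hpp : p.Prime := Fact.out
  by_cases hy : p ∣ orderOf y
  · have h1 := Cfsg.Agent.S0907.result p M' hM' B hB 1 y (by simpa using hpp.one_lt.ne') hy
    rw [blockCoeff, h1, mul_zero]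
    exact memLocalRing_zero
  · -- `y` is `p`-regular
    set F := Finset.univ.filter (· ∈ B) with hF
    have hvan : ∀ h : G, p ∣ orderOf h → ∑ σ ∈ F, (σ : G → ℂ) h * conj ((σ : G → ℂ) y) = 0 := by
      intro h hh
      have h1 := Cfsg.Agent.S0907.result p M' hM' B hB y h hy hh
      rw [Cfsg.Agent.Lib.Blocks.Osima.finsum_mem_eq_sum_filter] at h1
      have h2 := congrArg (starRingEnd ℂ) h1
      rw [map_sum, map_zero] at h2
      rw [← h2]
      refine Finset.sum_congr rfl fun σ _ => ?_
      rw [map_mul, Complex.conj_conj, mul_comm]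
    obtain ⟨P⟩ : Nonempty (Sylow p G) := inferInstance
    have hPcard : (Nat.card (P : Subgroup G) : ℂ) ≠ 0 := Nat.cast_ne_zero.mpr Nat.card_pos.ne'
    set W : ℂ := ∑ σ ∈ F, conj ((σ : G → ℂ) y) *
      ((Nat.card (P : Subgroup G) : ℂ)⁻¹ * ∑ q : (P : Subgroup G), (σ : G → ℂ) (1 * (q : G))) with hW
    have hWint : IsIntegral ℤ W := by
      refine IsIntegral.sum _ fun σ _ => IsIntegral.mul ?_ ?_
      · rw [← Cfsg.Agent.Lib.Char.Complete.isIrr_inv σ.2]
        exact isIntegral_irr σ.2 _
      · obtain ⟨n, ρ, -, hρ⟩ := σ.2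
        have h1 := Cfsg.Agent.Lib.Blocks.DefectAvg.isIntegral_avg_character ρ (P : Subgroup G) 1 (by simp)
        rwa [hρ] at h1
    have hkey : ∑ σ ∈ F, (σ : G → ℂ) 1 * conj ((σ : G → ℂ) y) =
        (Nat.card (P : Subgroup G) : ℂ) * W := by
      have h1 : (Nat.card (P : Subgroup G) : ℂ) * W =
          ∑ q : (P : Subgroup G), ∑ σ ∈ F, (σ : G → ℂ) (q : G) * conj ((σ : G → ℂ) y) := by
        rw [hW, Finset.mul_sum, Finset.sum_comm]
        refine Finset.sum_congr rfl fun σ _ => ?_
        rw [mul_left_comm, mul_inv_cancel_left₀ hPcard, Finset.mul_sum]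
        refine Finset.sum_congr rfl fun q _ => ?_
        rw [one_mul, mul_comm]
      rw [h1, Finset.sum_eq_single (1 : (P : Subgroup G))]
      · simp
      · intro q _ hq
        apply hvan
        obtain ⟨k, hk⟩ := P.isPGroup' q
        have h2 : orderOf (q : G) ∣ p ^ k := by
          apply orderOf_dvd_of_pow_eq_one
          have := congrArg Subtype.val hk
          simpa using this
        obtain ⟨j, -, hj2⟩ := (Nat.dvd_prime_pow hpp).mp h2
        rcases j with _ | j
        · exfalso
          apply hq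
          apply Subtype.ext
          simpa [orderOf_eq_one_iff] using hj2
        · rw [hj2, pow_succ]
          exact Dvd.intro_left _ rfl
      · simp
    have hG0 : Nat.card G ≠ 0 := Nat.card_pos.ne'
    have hcard : Nat.card (P : Subgroup G) * ordCompl[p] (Nat.card G) = Nat.card G := by
      rw [P.card_eq_multiplicity]
      exact Nat.ordProj_mul_ordCompl_eq_self _ p
    have hm : ¬ p ∣ ordCompl[p] (Nat.card G) := Nat.not_dvd_ordCompl hpp hG0
    have hm0 : ((ordCompl[p] (Nat.card G) : ℕ) : ℂ) ≠ 0 := by
      intro h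
      have h' : ordCompl[p] (Nat.card G) = 0 := by exact_mod_cast h
      exact hm (h' ▸ dvd_zero p)
    have hcoef : blockCoeff B y = ((ordCompl[p] (Nat.card G) : ℕ) : ℂ)⁻¹ * W := by
      have hGc : (Nat.card G : ℂ) =
          (Nat.card (P : Subgroup G) : ℂ) * ((ordCompl[p] (Nat.card G) : ℕ) : ℂ) := by
        exact_mod_cast hcard.symm
      rw [blockCoeff_eq_sum, hkey, hGc]
      field_simp
    rw [hcoef]
    exact memLocalRing_mul (memLocalRing_inv_natCast hM hm) (memLocalRing_of_isIntegral hWint)

/-- If two irreducible characters of a finite group lie in the same block relative to one maximal ideal M of the algebraic integers containing the prime p, then at every element the difference of their central characters is an algebraic integer lying in every maximal ideal containing p; in particular they lie in the same block relative to any such ideal. -/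
theorem result {G : Type*} [Group G] [Finite G] (p : ℕ) [Fact p.Prime] (M : Ideal Cfsg.AlgInt) (hM : Cfsg.IsPModular p M) (χ ψ : Cfsg.IrrCharacter G) (h : Cfsg.SameBlock M (χ : G → ℂ) (ψ : G → ℂ)) (M' : Ideal Cfsg.AlgInt) (hM' : Cfsg.IsPModular p M') (g : G) : ∃ r : Cfsg.AlgInt, r ∈ M' ∧ (r : ℂ) = Cfsg.centralChar (χ : G → ℂ) g - Cfsg.centralChar (ψ : G → ℂ) g := by
  classical
  cases nonempty_fintype G
  have hMp := isPrime_of_isPModular hM
  have hMp' := isPrime_of_isPModular hM'
  have hsub : blockOf M (χ : G → ℂ) ⊆ blockOf M' (χ : G → ℂ) :=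
    blockOf_subset_of_local (M := M) (A := blockOf M' (χ : G → ℂ))
      (fun y => memLocalRing_blockCoeff_of_isPBlock hM hM' ⟨χ, rfl⟩ y)
      (sameBlock_refl _)
  have hψ : ψ ∈ blockOf M' (χ : G → ℂ) := hsub h
  have hdiff := hψ g
  have hint : IsIntegral ℤ (centralChar (χ : G → ℂ) g - centralChar (ψ : G → ℂ) g) :=
    (isIntegral_centralChar χ.2 g).sub (isIntegral_centralChar ψ.2 g)
  refine ⟨⟨_, hint⟩, ?_, rfl⟩
  exact memLocalIdeal_coe_iff.mp hdiff

end Cfsg.Agent.S0902
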