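import Cfsg.Statements.S0905
import Mathlib
import Cfsg.Agent.Lib.Blocks.PFixed
import Cfsg.Agent.Lib.Basic.PCore
-- import your own Cfsg.Agent.* helpers here

set_option autoImplicit false
open Cfsg

namespace Cfsg.Agent.S0905

/-- Let F be a field of characteristic p and let g be an element of the finite group G no conjugate of which centralizes O_p(G). Then the class sum of g is a nilpotent element of the group algebra F[G]. -/
theorem result {G : Type*} [Group G] [Finite G] (p : ℕ) [Fact p.Prime] (F : Type*) [Field F] [CharP F p] (g : G) (hg : ∀ x : G, IsConj g x → x ∉ Subgroup.centralizer (Cfsg.pCore p G : Set G)) : IsNilpotent (∑ᶠ x ∈ ConjClasses.carrier (ConjClasses.mk g), MonoidAlgebra.single x (1 : F) : MonoidAlgebra F G) := by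
  classical
  haveI := Fintype.ofFinite G
  have hfin : (ConjClasses.carrier (ConjClasses.mk g)).Finite := Set.toFinite _
  rw [finsum_mem_eq_finite_toFinset_sum _ hfin]
  haveI : (Cfsg.pCore p G).Normal := Cfsg.Agent.Lib.Basic.PCore.pCore_normal p G
  apply Cfsg.Agent.Lib.Blocks.PFixed.sum_single_isNilpotent (p := p) (Cfsg.pCore p G)
    (Cfsg.Agent.Lib.Basic.PCore.pCore_isPGroup p)
  · intro u _ x hx
    simp only [Set.Finite.mem_toFinset, ConjClasses.mem_carrier_iff_mk_eq, ConjClasses.mk_eq_mk_iff_isConj] at hx ⊢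
    exact (isConj_comm.mp (isConj_iff.mpr ⟨u, rfl⟩)).trans hx
  · intro x hx
    simp only [Set.Finite.mem_toFinset, ConjClasses.mem_carrier_iff_mk_eq, ConjClasses.mk_eq_mk_iff_isConj] at hx
    have h1 := hg x hx.symm
    rw [Subgroup.mem_centralizer_iff] at h1
    push Not at h1
    obtain ⟨u, hu, hne⟩ := h1
    refine ⟨u, hu, fun h => hne ?_⟩
    rw [mul_inv_eq_iff_eq_mul] at h
    exact h

end Cfsg.Agent.S0905
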