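import Cfsg.Statements.S0910
import Mathlib
import Cfsg.Agent.S0914
import Cfsg.Agent.S0138
import Cfsg.Agent.Lib.Blocks.Principal
import Cfsg.Agent.Lib.Char.Burnside
import Cfsg.Agent.Lib.Char.SimpleFaithful

set_option autoImplicit false
open Cfsg

namespace Cfsg.Agent.S0910

/-- Let G be a non-abelian finite simple group and p a prime. If an irreducible character χ lies in the principal block (relative to a maximal ideal of the algebraic integers containing p) and χ 1 is a power of p, then χ is the principal character. -/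
theorem result {G : Type*} [Group G] [Finite G] (p : ℕ) [Fact p.Prime] (M : Ideal Cfsg.AlgInt) (hM : Cfsg.IsPModular p M) [IsSimpleGroup G] (hna : ∃ a b : G, a * b ≠ b * a) (χ : Cfsg.IrrCharacter G) (hχ : χ ∈ Cfsg.principalBlock M G) (k : ℕ) (hdeg : (χ : G → ℂ) 1 = (p : ℂ) ^ k) : (χ : G → ℂ) = fun _ => 1 := by
  classical
  cases nonempty_fintype G
  have hMp := Cfsg.Agent.Lib.Blocks.Local.isPrime_of_isPModular hM
  have hpp : p.Prime := Fact.out
  by_contra hne
  -- `p` divides the order of `G`
  have hdvd : p ∣ Nat.card G := by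
    by_contra hnd
    have h1 := (Cfsg.Agent.S0914.result p M hM (Cfsg.Agent.Lib.Blocks.Principal.trivChar G)).1 (by
      rw [Cfsg.Agent.Lib.Blocks.Principal.charDegree_trivChar, Nat.div_one]; exact hnd)
    have h2 : χ ∈ Cfsg.blockOf M (((Cfsg.Agent.Lib.Blocks.Principal.trivChar G : Cfsg.IrrCharacter G)) : G → ℂ) := hχ
    rw [h1] at h2
    have h3 : χ = Cfsg.Agent.Lib.Blocks.Principal.trivChar G := h2
    apply hne
    rw [h3]
    rfl
  -- a central element of a Sylow subgroup
  let P : Sylow p G := default
  have hPcard : Nat.card (P : Subgroup G) = p ^ (Nat.card G).factorization p := P.card_eq_multiplicity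
  have hPnt : Nontrivial (P : Subgroup G) := by
    have h1 : (Nat.card G).factorization p ≠ 0 := by
      intro h0
      have := (Nat.factorization_eq_zero_iff (Nat.card G) p).1 h0
      rcases this with h | h | h
      · exact h hpp
      · exact h hdvd
      · exact Nat.card_pos.ne' h
    apply Finite.one_lt_card_iff_nontrivial.1
    rw [hPcard]
    exact Nat.one_lt_pow h1 hpp.one_lt
  have hPp : IsPGroup p (P : Subgroup G) := P.isPGroup'
  have hcnt := hPp.center_nontrivial
  obtain ⟨z, hz⟩ := exists_ne (1 : Subgroup.center (P : Subgroup G))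
  set g : G := ((z : (P : Subgroup G)) : G) with hg
  have hg1 : g ≠ 1 := by
    intro h
    apply hz
    apply Subtype.ext
    apply Subtype.ext
    exact h
  have hPC : (P : Subgroup G) ≤ Subgroup.centralizer ({g} : Set G) := by
    intro x hx
    rw [Subgroup.mem_centralizer_iff]
    intro y hy
    rw [Set.mem_singleton_iff] at hy
    subst hy
    have := (Subgroup.mem_center_iff.1 z.2) ⟨x, hx⟩
    exact (congrArg Subtype.val this).symm
  have hidx : ¬ p ∣ (Subgroup.centralizer ({g} : Set G)).index := fun h =>
    P.not_dvd_index (h.trans (Subgroup.index_dvd_of_le hPC))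
  -- `χ` does not vanish at `g`
  have hχg : (χ : G → ℂ) g ≠ 0 := by
    intro h0
    have h1 := hχ g
    rw [Cfsg.Agent.Lib.Blocks.Principal.centralChar_trivChar] at h1
    have h2 : Cfsg.centralChar (χ : G → ℂ) g = 0 := by
      simp [Cfsg.centralChar, h0]
    rw [h2, sub_zero] at h1
    exact hidx ((Cfsg.Agent.Lib.Blocks.Local.memLocalIdeal_natCast_iff hM).1 h1)
  -- Burnside's vanishing theorem
  obtain ⟨n, ρ, hirr, hρ⟩ := χ.2
  haveI := hirr
  have hn : (n : ℂ) = (p : ℂ) ^ k := by
    rw [← hdeg, ← hρ, Representation.char_one]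
    simp
  have hn' : n = p ^ k := by exact_mod_cast hn
  have hcop : Nat.Coprime (Module.finrank ℂ (Fin n → ℂ)) (Subgroup.centralizer ({g} : Set G)).index := by
    rw [Module.finrank_fin_fun, hn']
    exact Nat.Coprime.pow_left k ((Nat.Prime.coprime_iff_not_dvd hpp).2 hidx)
  have hnorm := (Cfsg.Agent.Lib.Char.Burnside.character_eq_zero_or_norm_eq_of_coprime ρ g hcop).resolve_left
    (by rw [hρ]; exact hχg)
  obtain ⟨ω, hω⟩ := (Cfsg.Agent.S0138.result ρ g).1 hnorm
  have hinj : Function.Injective ρ :=
    Cfsg.Agent.Lib.Char.SimpleFaithful.injective_of_irr_ne_one ρ (by rw [hρ]; exact hne)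
  have hcen : g ∈ Subgroup.center G := by
    rw [Subgroup.mem_center_iff]
    intro h
    apply hinj
    rw [map_mul, map_mul, hω]
    ext v
    simp
  rcases (inferInstance : IsSimpleGroup G).eq_bot_or_eq_top_of_normal (Subgroup.center G) inferInstance with hc | hc
  · rw [hc] at hcen
    exact hg1 (Subgroup.mem_bot.1 hcen)
  · obtain ⟨a, b, hab⟩ := hna
    apply hab
    have : a ∈ Subgroup.center G := by rw [hc]; trivial
    exact ((Subgroup.mem_center_iff.1 this) b).symm

end Cfsg.Agent.S0910
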