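import Mathlib
import Cfsg.Prelude.Def_Blocks
import Cfsg.Prelude.Def_Solvable
import Cfsg.Agent.Lib.Blocks.Covering
import Cfsg.Agent.Lib.Solvable.PSeries
set_option autoImplicit false
namespace Cfsg.Agent.S0921

open Cfsg Cfsg.Agent.Lib.Blocks.Covering Cfsg.Agent.Lib.Blocks.Osima Cfsg.Agent.Lib.Blocks.Central

theorem result {G : Type*} [Group G] [Finite G] (p : ℕ) [Fact p.Prime] (M : Ideal Cfsg.AlgInt) (hM : Cfsg.IsPModular p M) [Fintype G] (χ ψ : Cfsg.IrrCharacter G) (h : Cfsg.SameBlock M (χ : G → ℂ) (ψ : G → ℂ)) (θ : Cfsg.IrrCharacter (Cfsg.pPrimeCore p G)) [Fintype (Cfsg.pPrimeCore p G)] : Cfsg.classInner (fun n : Cfsg.pPrimeCore p G => (χ : G → ℂ) n) (θ : Cfsg.pPrimeCore p G → ℂ) ≠ 0 ↔ Cfsg.classInner (fun n : Cfsg.pPrimeCore p G => (ψ : G → ℂ) n) (θ : Cfsg.pPrimeCore p G → ℂ) ≠ 0 := by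
  haveI : M.IsPrime := hM.2.1.isPrime
  haveI : (pPrimeCore p G).Normal := Cfsg.pPrimeCore_normal p G
  have hN : ¬ p ∣ Nat.card (pPrimeCore p G) := fun hd =>
    (Fact.out : p.Prime).one_lt.ne'
      (Nat.Coprime.eq_one_of_dvd (Cfsg.Agent.Lib.Solvable.PSeries.pPrimeCore_coprime p).symm hd)
  have key : ∀ χ ψ : IrrCharacter G, SameBlock M (χ : G → ℂ) (ψ : G → ℂ) →
      classInner (fun n : pPrimeCore p G => (χ : G → ℂ) n) (θ : pPrimeCore p G → ℂ) ≠ 0 →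
      classInner (fun n : pPrimeCore p G => (ψ : G → ℂ) n) (θ : pPrimeCore p G → ℂ) ≠ 0 := by
    intro χ ψ h hθ
    obtain ⟨θ', hθ'⟩ := exists_constituent (N := pPrimeCore p G) ψ.2
    obtain ⟨g, hg⟩ := exists_conj_of_sameBlock hM hN (sameBlock_symm h) hθ' hθ
    rw [hg, classInner_conjIrr (isClassFunction_of_irr ψ.2)]
    exact hθ'
  exact ⟨key χ ψ h, key ψ χ (sameBlock_symm h)⟩

end Cfsg.Agent.S0921
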