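import Cfsg.Statements.S0924
import Mathlib
import Cfsg.Agent.Lib.Blocks.Sections
import Cfsg.Agent.S0912
import Cfsg.Agent.S0917
-- import your own Cfsg.Agent.* helpers here

set_option autoImplicit false
open Cfsg

namespace Cfsg.Agent.S0924

/-- Let χ be an irreducible character of the finite group G and g ∈ G, and fix a maximal ideal M of the algebraic integers containing the prime p. If the p-part of g is contained in no defect group of the block of χ, then χ g = 0. -/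
theorem result {G : Type*} [Group G] [Finite G] (p : ℕ) [Fact p.Prime] (M : Ideal Cfsg.AlgInt) (hM : Cfsg.IsPModular p M) (χ : Cfsg.IrrCharacter G) (g x : G) (hx : Cfsg.IsPPart p g x) (hD : ∀ D : Subgroup G, Cfsg.IsDefectGroup p M (Cfsg.blockOf M (χ : G → ℂ)) D → x ∉ D) : (χ : G → ℂ) g = 0 := by
  classical
  letI := Fintype.ofFinite G
  haveI := Cfsg.Agent.Lib.Blocks.Local.isPrime_of_isPModular hM
  obtain ⟨y0, hxy, hcomm, ⟨k, hk⟩, hy0⟩ := hx
  letI : Fintype (Cfsg.Agent.Lib.Blocks.Sections.Cen x) := Fintype.ofFinite _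
  have hyC : y0 ∈ Cfsg.Agent.Lib.Blocks.Sections.Cen x := by
    rw [Subgroup.mem_centralizer_iff]
    intro u hu
    rw [Set.mem_singleton_iff.mp hu]
    exact hcomm.eq
  set y : Cfsg.Agent.Lib.Blocks.Sections.Cen x := ⟨y0, hyC⟩ with hy
  have hyord : ¬ p ∣ orderOf y := by
    rw [← Subgroup.orderOf_coe]
    exact hy0
  have h1 := Cfsg.Agent.Lib.Blocks.Sections.sum_inducers_of_mem hM hk y hyord χ χ
    (Cfsg.Agent.Lib.Blocks.Osima.mem_blockOf_self χ)
  have h2 : (x * (y : G)) = g := hxy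
  rw [h2] at h1
  rw [← h1]
  -- it suffices to show that there is no character of the centralizer inducing the block
  have hempty : Cfsg.Agent.Lib.Blocks.Sections.inducers (Cfsg.Agent.Lib.Blocks.Sections.Cen x) M (χ : G → ℂ) = ∅ := by
    rw [Set.eq_empty_iff_forall_notMem]
    intro ψ hψ
    set b := Cfsg.blockOf M (ψ : Cfsg.Agent.Lib.Blocks.Sections.Cen x → ℂ) with hb_def
    have hb : Cfsg.IsPBlock M b := ⟨ψ, rfl⟩
    have hind : Cfsg.IsInducedBlock M (Cfsg.Agent.Lib.Blocks.Sections.Cen x) b (Cfsg.blockOf M (χ : G → ℂ)) := by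
      refine ⟨hb, ⟨χ, rfl⟩, fun ξ hξ χ' hχ' g' => ?_⟩
      have h1 := Cfsg.Agent.Lib.Blocks.Sections.inducers_closed (Cfsg.Agent.Lib.Blocks.Sections.Cen x) _ ψ hψ hξ g'
      have h2 := Cfsg.Agent.Lib.Blocks.Local.memLocalIdeal_add h1 (hχ' g')
      convert h2 using 1
      ring
    obtain ⟨c, hc⟩ := Cfsg.Agent.Lib.Blocks.Osima.exists_isDefectClass hb
    obtain ⟨S⟩ : Nonempty (Sylow p (Subgroup.centralizer ({c} : Set (Cfsg.Agent.Lib.Blocks.Sections.Cen x)))) := inferInstance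
    have hD0 : Cfsg.IsDefectGroup p M b ((S : Subgroup _).map (Subgroup.centralizer ({c} : Set (Cfsg.Agent.Lib.Blocks.Sections.Cen x))).subtype) :=
      ⟨c, hc, S, rfl⟩
    have hcore := Cfsg.Agent.S0912.result p M hM b hb _ hD0
    -- `x` lies in the `p`-core of its centralizer
    have hxC : x ∈ Cfsg.Agent.Lib.Blocks.Sections.Cen x := Cfsg.Agent.Lib.Blocks.Sections.mem_Cen_self x
    have hxcore : (⟨x, hxC⟩ : Cfsg.Agent.Lib.Blocks.Sections.Cen x) ∈ Cfsg.pCore p (Cfsg.Agent.Lib.Blocks.Sections.Cen x) := by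
      have hnorm : (Subgroup.zpowers (⟨x, hxC⟩ : Cfsg.Agent.Lib.Blocks.Sections.Cen x)).Normal := by
        refine ⟨fun u hu d => ?_⟩
        obtain ⟨n, rfl⟩ := hu
        have hcomm : Commute d (⟨x, hxC⟩ : Cfsg.Agent.Lib.Blocks.Sections.Cen x) := by
          apply Subtype.ext
          exact Cfsg.Agent.Lib.Blocks.Sections.commute_of_mem_Cen d
        have h3 : Commute d ((⟨x, hxC⟩ : Cfsg.Agent.Lib.Blocks.Sections.Cen x) ^ n) := hcomm.zpow_right n
        show d * ((⟨x, hxC⟩ : Cfsg.Agent.Lib.Blocks.Sections.Cen x) ^ n) * d⁻¹ ∈ _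
        rw [h3.eq]
        simp
      have hpg : IsPGroup p (Subgroup.zpowers (⟨x, hxC⟩ : Cfsg.Agent.Lib.Blocks.Sections.Cen x)) := by
        rw [IsPGroup.iff_card, Nat.card_zpowers, ← Subgroup.orderOf_coe]
        exact ⟨k, hk⟩
      exact Cfsg.Agent.Lib.Basic.PCore.le_pCore hnorm hpg (Subgroup.mem_zpowers _)
    obtain ⟨E, hE, hDE⟩ := Cfsg.Agent.S0917.result p M hM (Cfsg.Agent.Lib.Blocks.Sections.Cen x) b hb _ ⟨χ, rfl⟩ hind _ hD0
    apply hD E hE
    apply hDE
    exact ⟨⟨x, hxC⟩, hcore hxcore, rfl⟩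
  rw [hempty]
  apply Finset.sum_eq_zero
  intro k _
  rw [Cfsg.blockCoeff]
  simp

end Cfsg.Agent.S0924
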