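import Cfsg.Statements.S0926
import Mathlib
import Cfsg.Agent.Lib.Blocks.HeightZero
import Cfsg.Agent.S0924
-- import your own Cfsg.Agent.* helpers here

set_option autoImplicit false
open Cfsg

namespace Cfsg.Agent.S0926

/-- Let B be a block of the finite group G with defect group D (relative to a maximal ideal M of the algebraic integers containing p), let χ ∈ B have height zero, and let x be a p-element. Then some conjugate of x lies in D if and only if χ does not vanish on the whole p-section of x (the elements whose p-part is conjugate to x). -/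
theorem result {G : Type*} [Group G] [Finite G] (p : ℕ) [Fact p.Prime] (M : Ideal Cfsg.AlgInt) (hM : Cfsg.IsPModular p M) (B : Set (Cfsg.IrrCharacter G)) (hB : Cfsg.IsPBlock M B) (D : Subgroup G) (hD : Cfsg.IsDefectGroup p M B D) (χ : Cfsg.IrrCharacter G) (hχ : χ ∈ B) (h0 : Cfsg.blockHeight p B (χ : G → ℂ) = 0) (x : G) (hx : ∃ k : ℕ, orderOf x = p ^ k) : (∃ g : G, g * x * g⁻¹ ∈ D) ↔ ∃ u : G, (∃ z : G, Cfsg.IsPPart p u z ∧ IsConj x z) ∧ (χ : G → ℂ) u ≠ 0 := by
  classical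
  letI := Fintype.ofFinite G
  haveI := Cfsg.Agent.Lib.Blocks.Local.isPrime_of_isPModular hM
  obtain ⟨k, hk⟩ := hx
  constructor
  · rintro ⟨g, hg⟩
    obtain ⟨y, hy, Q, rfl⟩ := id hD
    obtain ⟨w, hw, hwE⟩ := hg
    have hwE' : (w : G) = g * x * g⁻¹ := hwE
    have hxy : Commute (g * x * g⁻¹) y := by
      rw [← hwE']
      exact (Subgroup.mem_centralizer_iff.mp w.2 y rfl).symm
    have hord : orderOf (g * x * g⁻¹) = p ^ k := by
      rw [Cfsg.Agent.Lib.Blocks.Sections.orderOf_conj_eq, hk]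
    have hpow : (g * x * g⁻¹) ^ (p ^ k) = 1 := by
      rw [← hord]
      exact pow_orderOf_eq_one _
    refine ⟨(g * x * g⁻¹) * y, ⟨g * x * g⁻¹, ⟨y, rfl, hxy, ⟨k, hord⟩,
      Cfsg.Agent.Lib.Blocks.HeightZero.isPRegular_of_isDefectClass hM hB hy⟩, isConj_iff.mpr ⟨g, rfl⟩⟩, ?_⟩
    intro h0'
    apply Cfsg.Agent.Lib.Blocks.HeightZero.not_memLocalIdeal_of_defect_class hM hB hy hχ h0 hxy hpow
    rw [h0']
    exact Cfsg.Agent.Lib.Blocks.Local.memLocalIdeal_zero
  · rintro ⟨u, ⟨z, hz, hxz⟩, hne⟩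
    have hBχ : Cfsg.blockOf M (χ : G → ℂ) = B := by
      obtain ⟨χ₂, rfl⟩ := id hB
      exact Cfsg.Agent.Lib.Blocks.Osima.blockOf_eq_of_mem hχ
    by_contra hcon
    push Not at hcon
    apply hne
    refine Cfsg.Agent.S0924.result p M hM χ u z hz fun E hE hzE => ?_
    rw [hBχ] at hE
    obtain ⟨c, hc⟩ := Cfsg.Agent.Lib.Blocks.HeightZero.exists_map_conj_eq_of_isDefectGroup hM hB hD hE
    obtain ⟨a, rfl⟩ := isConj_iff.mp hxz
    apply hcon (c * a)
    rw [← hc]
    refine ⟨a * x * a⁻¹, hzE, ?_⟩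
    show c * (a * x * a⁻¹) * c⁻¹ = (c * a) * x * (c * a)⁻¹
    group

end Cfsg.Agent.S0926
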