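import Cfsg.Statements.S0929
import Mathlib
import Cfsg.Agent.Lib.Blocks.BrauerCoeff
import Cfsg.Agent.S0969
import Cfsg.Agent.S0916
-- import your own Cfsg.Agent.* helpers here

set_option autoImplicit false
open Cfsg

namespace Cfsg.Agent.S0929

open Cfsg.Agent.Lib.Blocks.Local Cfsg.Agent.Lib.Blocks.Central Cfsg.Agent.Lib.Blocks.Osima
  Cfsg.Agent.Lib.Blocks.BrauerCoeff Cfsg.Agent.Lib.Blocks.BrauerMap Cfsg.Agent.Lib.Blocks.Induced
  Cfsg.Agent.Lib.Blocks.Laradji

variable {G : Type*} [Group G] [Fintype G] {M : Ideal Cfsg.AlgInt} [hMp : M.IsPrime] {p : ℕ} [hp : Fact p.Prime]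

lemma brauer_classSum_eq (P : Subgroup G) [Fintype (Subgroup.centralizer (P : Set G))] (g : G) :
    brauer P (Subgroup.centralizer (P : Set G)) (classSum g) =
      traceClassSum (Subgroup.centralizer (P : Set G)) g := by
  classical
  apply ext_coeff
  intro k
  rw [coeff_brauer, if_pos k.2]
  simp only [traceClassSum, coeff_ofFun]
  by_cases h : IsConj g (k : G)
  · rw [if_pos h, coeff_classSum_of_isConj h]
  · rw [if_neg h, coeff_classSum_of_not_isConj h]

/-- A class on which `χ` has a nonzero central character meets `C_G(P)` in a class on which `ξ` has a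
nonzero central character. -/
lemma exists_of_brauer {P : Subgroup G} [Fintype (Subgroup.centralizer (P : Set G))]
    {ξ : Cfsg.IrrCharacter (Subgroup.centralizer (P : Set G))} {χ : Cfsg.IrrCharacter G}
    (hξ : ∀ z : localCenter G M, Cfsg.MemLocalIdeal M (omega (ξ : Subgroup.centralizer (P : Set G) → ℂ)
      (brauer P (Subgroup.centralizer (P : Set G)) z.1) - omega (χ : G → ℂ) z.1))
    {g : G} (hg : ¬ Cfsg.MemLocalIdeal M (Cfsg.centralChar (χ : G → ℂ) g)) :
    ∃ u : Subgroup.centralizer (P : Set G), IsConj g (u : G) ∧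
      ¬ Cfsg.MemLocalIdeal M (Cfsg.centralChar (ξ : Subgroup.centralizer (P : Set G) → ℂ) u) := by
  classical
  apply exists_mem_of_not_memLocalIdeal_induced
  rw [inducedCentralChar_eq_omega, ← brauer_classSum_eq]
  intro h
  apply hg
  have h1 := hξ ⟨_, classSum_mem_localCenter g⟩
  simp only at h1
  rw [omega_classSum (isClassFunction_of_irr χ.2)] at h1
  have h2 := memLocalIdeal_sub h h1
  convert h2 using 1
  ring

/-- A `p`-subgroup of the centralizer of `P` and `u`, where `P` is Sylow in `C_G(u)`, lies in `P`. -/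
lemma le_of_sylow_centralizer {P T : Subgroup G} {u : G} (hPp : IsPGroup p P) (hTp : IsPGroup p T)
    (hT : T ≤ Subgroup.centralizer (P : Set G)) (hTu : T ≤ Subgroup.centralizer ({u} : Set G))
    (hPu : P ≤ Subgroup.centralizer ({u} : Set G))
    (hcard : Nat.card P = p ^ (Nat.card (Subgroup.centralizer ({u} : Set G))).factorization p) : T ≤ P := by
  have hTN : T ≤ Subgroup.normalizer (P : Set G) :=
    hT.trans (Subgroup.centralizer_le_normalizer _)
  have hsup : IsPGroup p (T ⊔ P : Subgroup G) := hTp.to_sup_of_normal_right' hPp hTN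
  have hle : (T ⊔ P : Subgroup G) ≤ Subgroup.centralizer ({u} : Set G) := sup_le hTu hPu
  obtain ⟨k, hk⟩ := IsPGroup.iff_card.mp hsup
  have hdvd : Nat.card (T ⊔ P : Subgroup G) ∣ Nat.card (Subgroup.centralizer ({u} : Set G)) :=
    Subgroup.card_dvd_of_le hle
  rw [hk] at hdvd
  have hk2 : k ≤ (Nat.card (Subgroup.centralizer ({u} : Set G))).factorization p :=
    (hp.out.pow_dvd_iff_le_factorization Nat.card_pos.ne').mp hdvd
  have heq : P = (T ⊔ P : Subgroup G) := by
    refine Subgroup.eq_of_le_of_card_ge le_sup_right ?_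
    rw [hk, hcard]
    exact Nat.pow_le_pow_right hp.out.pos hk2
  rw [heq]
  exact le_sup_left

/-- Let B be a block of the finite group G with defect group P (relative to a maximal ideal M of the algebraic integers containing p), and let g be an element at which the central character of some member of B is not in the local ideal at M. Then some conjugate x of g centralizes P and has its p-part in the centre of P. -/
theorem result {G : Type*} [Group G] [Finite G] (p : ℕ) [Fact p.Prime] (M : Ideal Cfsg.AlgInt) (hM : Cfsg.IsPModular p M) (B : Set (Cfsg.IrrCharacter G)) (hB : Cfsg.IsPBlock M B) (P : Subgroup G) (hP : Cfsg.IsDefectGroup p M B P) (g : G) (hg : ∃ χ ∈ B, ¬ Cfsg.MemLocalIdeal M (Cfsg.centralChar (χ : G → ℂ) g)) : ∃ x : G, IsConj g x ∧ x ∈ Subgroup.centralizer (P : Set G) ∧ ∀ z : G, Cfsg.IsPPart p x z → z ∈ P ∧ ∀ w ∈ P, z * w = w * z := by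
  classical
  letI := Fintype.ofFinite G
  haveI := isPrime_of_isPModular hM
  obtain ⟨χ, hχB, hχg⟩ := hg
  obtain ⟨y, hy, S, hPS⟩ := id hP
  have hPp : IsPGroup p P := by
    rw [hPS]
    exact S.isPGroup'.map _
  have hPy : P ≤ Subgroup.centralizer ({y} : Set G) := by
    rw [hPS]
    exact Subgroup.map_subtype_le _
  have hcardP : Nat.card P = p ^ (Nat.card (Subgroup.centralizer ({y} : Set G))).factorization p := by
    have h2 : Nat.card ((S : Subgroup (Subgroup.centralizer ({y} : Set G))).map
        (Subgroup.centralizer ({y} : Set G)).subtype) = Nat.card S :=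
      Nat.card_congr (Subgroup.equivMapOfInjective _ _ Subtype.val_injective).toEquiv.symm
    rw [hPS, h2, Sylow.card_eq_multiplicity]
  have hmemC : ∀ {u : G} {Q : Subgroup G}, Q ≤ Subgroup.centralizer ({u} : Set G) →
      u ∈ Subgroup.centralizer (Q : Set G) := by
    intro u Q hQ
    rw [Subgroup.mem_centralizer_iff]
    intro w hw
    exact (Subgroup.mem_centralizer_iff.mp (hQ hw) u rfl).symm
  have hPC : ∀ {u : G}, u ∈ Subgroup.centralizer (P : Set G) → P ≤ Subgroup.centralizer ({u} : Set G) := by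
    intro u hu w hw
    rw [Subgroup.mem_centralizer_iff]
    intro v hv
    rw [Set.mem_singleton_iff.mp hv]
    exact (Subgroup.mem_centralizer_iff.mp hu w hw).symm
  have hyC : y ∈ Subgroup.centralizer (P : Set G) := hmemC hPy
  set C := Subgroup.centralizer (P : Set G) with hC
  letI : Fintype C := Fintype.ofFinite C
  obtain ⟨ξ, hξ⟩ := exists_brauer_of_coeff (H := C) hM hPp le_rfl (Subgroup.centralizer_le_normalizer _) hB hyC hy.2.1 hχB
  -- the central subgroup
  set Z : Subgroup C := (P ⊓ C).subgroupOf C with hZ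
  have hZmem : ∀ c : C, c ∈ Z ↔ (c : G) ∈ P := by
    intro c
    rw [hZ, Subgroup.mem_subgroupOf, Subgroup.mem_inf]
    exact ⟨fun h => h.1, fun h => ⟨h, c.2⟩⟩
  have hZc : Z ≤ Subgroup.center C := by
    intro z hz
    rw [Subgroup.mem_center_iff]
    intro c
    apply Subtype.ext
    exact (Subgroup.mem_centralizer_iff.mp c.2 z ((hZmem z).mp hz)).symm
  have hZp : IsPGroup p Z := by
    have h1 : IsPGroup p ((P ⊓ C : Subgroup G)) := hPp.to_le inf_le_left
    exact h1.comap_of_injective C.subtype C.subtype_injective |>.to_le (by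
      intro z hz
      exact hz)
  -- the degree
  obtain ⟨u₀, hu₀, hu₀ξ⟩ := exists_of_brauer hξ (hy.2.2 χ hχB)
  have hdeg0 : Cfsg.charDegree (ξ : C → ℂ) ≠ 0 := by
    have hdegc : ((Cfsg.charDegree (ξ : C → ℂ) : ℕ) : ℂ) = (ξ : C → ℂ) 1 :=
      Cfsg.Agent.Lib.Char.Values.IsCharacter.charDegree_cast
        (Cfsg.Agent.Lib.Char.Values.IsIrrCharacter.isCharacter ξ.2)
    intro h
    apply Cfsg.Agent.Lib.Char.Ortho.irr_apply_one_ne_zero ξ.2
    rw [← hdegc, h]
    simp
  have hdegdvd : Cfsg.charDegree (ξ : C → ℂ) ∣ Z.index := by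
    obtain ⟨n, ρ, hρ, hρE⟩ := id ξ.2
    have h1 : Cfsg.charDegree (ξ : C → ℂ) = n := by
      apply Cfsg.Agent.Lib.Char.Values.IsCharacter.charDegree_eq
        (Cfsg.Agent.Lib.Char.Values.IsIrrCharacter.isCharacter ξ.2)
      rw [← hρE]
      simp
    rw [h1]
    have h2 := Cfsg.Agent.Lib.Char.Integrality.finrank_dvd_index_center ρ
    simp only [Module.finrank_fintype_fun_eq_card, Fintype.card_fin] at h2
    exact h2.trans (Subgroup.index_dvd_of_le hZc)
  have hZidx0 : Z.index ≠ 0 := Subgroup.index_ne_zero_of_finite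
  have hdegle : (Cfsg.charDegree (ξ : C → ℂ)).factorization p ≤ Z.index.factorization p :=
    (Nat.factorization_le_iff_dvd hdeg0 hZidx0).mpr hdegdvd p
  set Cu := Subgroup.centralizer ({u₀} : Set C) with hCu
  have hνCu : (Nat.card Cu).factorization p ≤ (Nat.card Z).factorization p := by
    obtain ⟨T⟩ : Nonempty (Sylow p Cu) := inferInstance
    -- the image of `T` in `G`
    set T₀ : Subgroup G := ((T : Subgroup Cu).map Cu.subtype).map C.subtype with hT₀
    have hT₀p : IsPGroup p T₀ := (T.isPGroup'.map _).map _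
    have hT₀C : T₀ ≤ C := by
      rintro _ ⟨t, -, rfl⟩
      exact t.2
    have hT₀u : T₀ ≤ Subgroup.centralizer ({(u₀ : G)} : Set G) := by
      rintro _ ⟨_, ⟨t, -, rfl⟩, rfl⟩
      rw [Subgroup.mem_centralizer_iff]
      intro v hv
      rw [Set.mem_singleton_iff.mp hv]
      have h1 := Subgroup.mem_centralizer_iff.mp t.2 u₀ rfl
      exact congrArg Subtype.val h1
    have hcard2 : Nat.card P = p ^ (Nat.card (Subgroup.centralizer ({(u₀ : G)} : Set G))).factorization p := by
      obtain ⟨c, hc⟩ := isConj_iff.mp hu₀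
      rw [← hc, Cfsg.Agent.S0916.card_centralizer_conj]
      exact hcardP
    have hT₀P : T₀ ≤ P :=
      le_of_sylow_centralizer hPp hT₀p hT₀C hT₀u (hPC u₀.2) hcard2
    have hTcard : Nat.card T = Nat.card T₀ := by
      have h1 : Nat.card ((T : Subgroup Cu).map Cu.subtype) = Nat.card T :=
        Nat.card_congr (Subgroup.equivMapOfInjective _ _ Subtype.val_injective).toEquiv.symm
      have h2 : Nat.card T₀ = Nat.card ((T : Subgroup Cu).map Cu.subtype) :=
        Nat.card_congr (Subgroup.equivMapOfInjective _ _ Subtype.val_injective).toEquiv.symm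
      rw [h2, h1]
    have hT₀Z : Nat.card T₀ ∣ Nat.card Z := by
      have h1 : T₀ ≤ Z.map C.subtype := by
        intro t ht
        refine ⟨⟨t, hT₀C ht⟩, (hZmem _).mpr (hT₀P ht), rfl⟩
      have h2 := Subgroup.card_dvd_of_le h1
      have h3 : Nat.card (Z.map C.subtype) = Nat.card Z :=
        Nat.card_congr (Subgroup.equivMapOfInjective _ _ Subtype.val_injective).toEquiv.symm
      rwa [h3] at h2
    have h4 : p ^ (Nat.card Cu).factorization p ∣ Nat.card Z := by
      rw [← Sylow.card_eq_multiplicity T, hTcard]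
      exact hT₀Z
    exact ((Fact.out : p.Prime).pow_dvd_iff_le_factorization Nat.card_pos.ne').mp h4
  have hZdeg : Z.index.factorization p ≤ (Cfsg.charDegree (ξ : C → ℂ)).factorization p := by
    have hC0 : Nat.card C ≠ 0 := Nat.card_pos.ne'
    have h1 : Z.index.factorization p + (Nat.card Z).factorization p = (Nat.card C).factorization p := by
      have := Nat.factorization_mul hZidx0 (Nat.card_pos (α := Z)).ne'
      rw [Subgroup.index_mul_card] at this
      rw [this]
      rfl
    have hCuidx : Cu.index ≠ 0 := Subgroup.index_ne_zero_of_finite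
    have h2 : Cu.index.factorization p + (Nat.card Cu).factorization p = (Nat.card C).factorization p := by
      have := Nat.factorization_mul hCuidx (Nat.card_pos (α := Cu)).ne'
      rw [Subgroup.index_mul_card] at this
      rw [this]
      rfl
    have h3 : Cu.index.factorization p ≤ (Cfsg.charDegree (ξ : C → ℂ)).factorization p := by
      by_contra hcon
      rw [not_le] at hcon
      apply hu₀ξ
      have h4 := memLocalIdeal_natCast_div (M := M) hM hdeg0 hCuidx hcon
      have hdegc : ((Cfsg.charDegree (ξ : C → ℂ) : ℕ) : ℂ) = (ξ : C → ℂ) 1 :=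
        Cfsg.Agent.Lib.Char.Values.IsCharacter.charDegree_cast
          (Cfsg.Agent.Lib.Char.Values.IsIrrCharacter.isCharacter ξ.2)
      rw [Cfsg.centralChar, mul_div_right_comm, ← hdegc]
      exact memLocalIdeal_mul_right h4 (memLocalRing_of_isIntegral (isIntegral_irr ξ.2 _))
    omega
  have hdeg : (Cfsg.charDegree (ξ : C → ℂ)).factorization p = Z.index.factorization p :=
    le_antisymm hdegle hZdeg
  have hvan := (Cfsg.Agent.S0969.result p M hM Z hZp hZc ξ hdeg).2
  -- the conclusion
  obtain ⟨u, hu, huξ⟩ := exists_of_brauer hξ hχg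
  refine ⟨u, hu, u.2, fun z hz => ?_⟩
  obtain ⟨s, hs⟩ := Cfsg.Agent.Lib.Blocks.Sections.isPPart_exists_pow_eq hz
  have hzC : z ∈ C := by
    rw [← hs]
    exact Subgroup.pow_mem _ u.2 s
  obtain ⟨y', hzy', hcomm', ⟨k, hk⟩, hy'⟩ := hz
  have hy'C : y' ∈ C := by
    have : y' = z⁻¹ * (u : G) := by rw [← hzy']; group
    rw [this]
    exact C.mul_mem (C.inv_mem hzC) u.2
  have hpart : Cfsg.IsPPart p u (⟨z, hzC⟩ : C) := by
    refine ⟨⟨y', hy'C⟩, Subtype.ext hzy', Subtype.ext hcomm', ⟨k, ?_⟩, ?_⟩
    · rw [Subgroup.orderOf_mk]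
      exact hk
    · rw [Subgroup.orderOf_mk]
      exact hy'
  have hzZ : (⟨z, hzC⟩ : C) ∈ Z := by
    by_contra hcon
    apply huξ
    rw [Cfsg.centralChar, hvan u _ hpart hcon, mul_zero, zero_div]
    exact memLocalIdeal_zero
  have hzP : z ∈ P := (hZmem _).mp hzZ
  refine ⟨hzP, fun w hw => ?_⟩
  exact (Subgroup.mem_centralizer_iff.mp hzC w hw).symm

end Cfsg.Agent.S0929
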