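import Cfsg.Statements.S0930
import Mathlib
import Cfsg.Agent.S0929
import Cfsg.Agent.Lib.Blocks.HeightZero
import Cfsg.Agent.Lib.Blocks.Sections
-- import your own Cfsg.Agent.* helpers here

set_option autoImplicit false
open Cfsg

namespace Cfsg.Agent.S0930

/-- Let H be a subgroup of the finite group G and fix a maximal ideal M of the algebraic integers containing the prime p. If the block b of H with defect group D induces the block B of G with defect group P, then every element of the centre of P is conjugate in G to an element of the centre of D. -/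
theorem result {G : Type*} [Group G] [Finite G] (p : ℕ) [Fact p.Prime] (M : Ideal Cfsg.AlgInt) (hM : Cfsg.IsPModular p M) (H : Subgroup G) (b : Set (Cfsg.IrrCharacter H)) (B : Set (Cfsg.IrrCharacter G)) (hind : Cfsg.IsInducedBlock M H b B) (D : Subgroup H) (hD : Cfsg.IsDefectGroup p M b D) (P : Subgroup G) (hP : Cfsg.IsDefectGroup p M B P) (x : G) (hx : x ∈ P) (hxc : ∀ w ∈ P, x * w = w * x) : ∃ g : G, g * x * g⁻¹ ∈ D.map H.subtype ∧ ∀ w ∈ D.map H.subtype, (g * x * g⁻¹) * w = w * (g * x * g⁻¹) := by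
  classical
  letI := Fintype.ofFinite G
  haveI := Cfsg.Agent.Lib.Blocks.Local.isPrime_of_isPModular hM
  obtain ⟨hb, hB, hbB⟩ := id hind
  obtain ⟨ξ, hξ⟩ := Cfsg.Agent.Lib.Blocks.HeightZero.nonempty_of_isPBlock hb
  obtain ⟨χ, hχ⟩ := Cfsg.Agent.Lib.Blocks.HeightZero.nonempty_of_isPBlock hB
  obtain ⟨y, hy, S, hPS⟩ := id hP
  have hPp : IsPGroup p P := by
    rw [hPS]
    exact S.isPGroup'.map _
  have hxy : x ∈ Subgroup.centralizer ({y} : Set G) := by
    have h1 : P ≤ Subgroup.centralizer ({y} : Set G) := by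
      rw [hPS]
      exact Subgroup.map_subtype_le _
    exact h1 hx
  have hxS : (⟨x, hxy⟩ : Subgroup.centralizer ({y} : Set G)) ∈
      (S : Subgroup (Subgroup.centralizer ({y} : Set G))) := by
    rw [hPS] at hx
    obtain ⟨s, hs, hsx⟩ := hx
    have : s = ⟨x, hxy⟩ := Subtype.ext hsx
    rwa [← this]
  have hxc' : ∀ w ∈ (S : Subgroup (Subgroup.centralizer ({y} : Set G))),
      (⟨x, hxy⟩ : Subgroup.centralizer ({y} : Set G)) * w = w * ⟨x, hxy⟩ := by
    intro w hw
    apply Subtype.ext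
    apply hxc
    rw [hPS]
    exact ⟨w, hw, rfl⟩
  have h1 := Cfsg.Agent.Lib.Blocks.HeightZero.not_memLocalIdeal_centralChar_of_defect_class
    hM hB hy S hxS hxc' hχ
  simp only at h1
  have h2 : ¬ MemLocalIdeal M (inducedCentralChar H (ξ : H → ℂ) (x * y)) := by
    intro h
    apply h1
    have h3 := hbB ξ hξ χ hχ (x * y)
    have h4 := Cfsg.Agent.Lib.Blocks.Local.memLocalIdeal_sub h h3
    convert h4 using 1
    ring
  obtain ⟨h, hhc, hhn⟩ := Cfsg.Agent.Lib.Blocks.Induced.exists_mem_of_not_memLocalIdeal_induced H ξ _ h2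
  obtain ⟨x', hx'c, hx'D, hx'p⟩ := Cfsg.Agent.S0929.result p M hM b hb D hD h ⟨ξ, hξ, hhn⟩
  obtain ⟨z', hz'⟩ := Cfsg.Agent.Lib.Blocks.SecondMain.exists_isPPart p x'
  obtain ⟨hz'D, hz'c⟩ := hx'p z' hz'
  -- transfer to `G`
  have hz'G : IsPPart p (x' : G) (z' : G) := by
    obtain ⟨t, ht1, ht2, ⟨k, hk⟩, ht3⟩ := hz'
    refine ⟨t, ?_, ?_, ⟨k, ?_⟩, ?_⟩
    · rw [← ht1]; rfl
    · exact congrArg Subtype.val ht2
    · rw [← Subgroup.orderOf_coe] at hk
      exact hk
    · rw [← Subgroup.orderOf_coe] at ht3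
      exact ht3
  have hxyp : IsPPart p (x * y) x := by
    obtain ⟨k, hk⟩ := (IsPGroup.iff_orderOf.mp hPp) ⟨x, hx⟩
    refine ⟨y, rfl, ?_, ⟨k, ?_⟩, ?_⟩
    · have := Subgroup.mem_centralizer_iff.mp hxy y rfl
      exact this.symm
    · rw [Subgroup.orderOf_mk] at hk
      exact hk
    · exact Cfsg.Agent.Lib.Blocks.HeightZero.isPRegular_of_isDefectClass hM hB hy
  have hconj : IsConj (x * y) (x' : G) := by
    refine hhc.trans ?_
    obtain ⟨c, hc⟩ := isConj_iff.mp hx'c
    rw [isConj_iff]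
    exact ⟨c, by rw [← hc]; rfl⟩
  have hzz := Cfsg.Agent.Lib.Blocks.Sections.isPPart_isConj hxyp hz'G hconj
  obtain ⟨g, hg⟩ := isConj_iff.mp hzz
  refine ⟨g, ?_, ?_⟩
  · rw [hg]
    exact ⟨z', hz'D, rfl⟩
  · rintro _ ⟨w, hw, rfl⟩
    rw [hg]
    exact congrArg Subtype.val (hz'c w hw)

end Cfsg.Agent.S0930
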