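import Cfsg.Statements.S0931
import Mathlib
import Cfsg.Agent.S0930
import Cfsg.Agent.S0917
import Cfsg.Agent.S0908
-- import your own Cfsg.Agent.* helpers here

set_option autoImplicit false
open Cfsg

namespace Cfsg.Agent.S0931

/-- Let H be a subgroup of the finite group G and fix a maximal ideal M of the algebraic integers containing the prime p. If the block b of H induces the block B of G, then b has defect 0 if and only if B has defect 0. -/
theorem result {G : Type*} [Group G] [Finite G] (p : ℕ) [Fact p.Prime] (M : Ideal Cfsg.AlgInt) (hM : Cfsg.IsPModular p M) (H : Subgroup G) (b : Set (Cfsg.IrrCharacter H)) (B : Set (Cfsg.IrrCharacter G)) (hind : Cfsg.IsInducedBlock M H b B) : Cfsg.blockDefect p b = 0 ↔ Cfsg.blockDefect p B = 0 := by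
  classical
  letI := Fintype.ofFinite G
  haveI := Cfsg.Agent.Lib.Blocks.Local.isPrime_of_isPModular hM
  obtain ⟨hb, hB, -⟩ := id hind
  -- defect groups exist
  have hex : ∀ {K : Type _} [Group K] [Finite K] (A : Set (Cfsg.IrrCharacter K)), Cfsg.IsPBlock M A →
      ∃ D : Subgroup K, Cfsg.IsDefectGroup p M A D := by
    intro K _ _ A hA
    letI := Fintype.ofFinite K
    obtain ⟨y, hy⟩ := Cfsg.Agent.Lib.Blocks.Osima.exists_isDefectClass hA
    obtain ⟨S⟩ : Nonempty (Sylow p (Subgroup.centralizer ({y} : Set K))) := inferInstance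
    exact ⟨_, y, hy, S, rfl⟩
  obtain ⟨D, hD⟩ := hex b hb
  obtain ⟨P, hP⟩ := hex B hB
  have hDcard := Cfsg.Agent.S0908.result p M hM b hb D hD
  have hPcard := Cfsg.Agent.S0908.result p M hM B hB P hP
  have hpp : p.Prime := Fact.out
  constructor
  · intro h0
    rw [h0, pow_zero] at hDcard
    have hDbot : D = ⊥ := (Subgroup.card_eq_one (H := D)).mp hDcard
    subst hDbot
    -- `Z(P)` is trivial
    have hPp : IsPGroup p P := by
      obtain ⟨y, hy, S, hPS⟩ := id hP
      rw [hPS]
      exact S.isPGroup'.map _
    haveI : Finite P := inferInstance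
    have hcenter : ∀ x : P, x ∈ Subgroup.center P → x = 1 := by
      intro x hx
      obtain ⟨g, hg1, -⟩ := Cfsg.Agent.S0930.result p M hM H b B hind ⊥ hD P hP x x.2 (by
        intro w hw
        exact congrArg Subtype.val (Subgroup.mem_center_iff.mp hx ⟨w, hw⟩).symm)
      rw [Subgroup.map_bot, Subgroup.mem_bot] at hg1
      have h3 : (x : G) = 1 := by
        have h4 : g⁻¹ * (g * (x : G) * g⁻¹) * g = 1 := by
          rw [hg1]; group
        rwa [show g⁻¹ * (g * (x : G) * g⁻¹) * g = x by group] at h4
      exact Subtype.ext h3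
    have hPtriv : Nat.card P = 1 := by
      by_contra hne
      haveI : Nontrivial P := by
        rw [← Finite.one_lt_card_iff_nontrivial]
        have := Nat.card_pos (α := P)
        omega
      haveI := hPp.center_nontrivial
      obtain ⟨c, hc⟩ := exists_ne (1 : Subgroup.center P)
      exact hc (Subtype.ext (hcenter c c.2))
    rw [hPcard] at hPtriv
    by_contra hcon
    have : 1 < p ^ Cfsg.blockDefect p B := Nat.one_lt_pow hcon hpp.one_lt
    omega
  · intro h0
    rw [h0, pow_zero] at hPcard
    have hPbot : P = ⊥ := (Subgroup.card_eq_one (H := P)).mp hPcard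
    obtain ⟨E, hE, hDE⟩ := Cfsg.Agent.S0917.result p M hM H b hb B hB hind D hD
    have hEcard := Cfsg.Agent.S0908.result p M hM B hB E hE
    rw [h0, pow_zero] at hEcard
    have hEbot : E = ⊥ := (Subgroup.card_eq_one (H := E)).mp hEcard
    rw [hEbot, le_bot_iff] at hDE
    have hDbot : D = ⊥ := (Subgroup.map_eq_bot_iff_of_injective _ H.subtype_injective).mp hDE
    rw [hDbot] at hDcard
    rw [Subgroup.card_bot] at hDcard
    by_contra hcon
    have : 1 < p ^ Cfsg.blockDefect p b := Nat.one_lt_pow hcon hpp.one_lt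
    omega

end Cfsg.Agent.S0931
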