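import Cfsg.Statements.S0933
import Mathlib
import Cfsg.Agent.S0932
import Cfsg.Agent.Lib.Blocks.Local
import Cfsg.Agent.Lib.Char.Integrality
import Cfsg.Agent.Lib.Char.Basic
-- import your own Cfsg.Agent.* helpers here

set_option autoImplicit false
open Cfsg

namespace Cfsg.Agent.S0933


open Cfsg.Agent.Lib.Blocks.Local in
/-- The induced central characters of two members of a block of `H` are congruent. -/
theorem memLocalIdeal_inducedCentralChar_sub {G : Type*} [Group G] [Fintype G]
    (M : Ideal Cfsg.AlgInt) [M.IsPrime] (H : Subgroup G) (a b : H → ℂ)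
    (ha : Cfsg.IsClassFunction H a) (hb : Cfsg.IsClassFunction H b)
    (hab : Cfsg.SameBlock M a b) (g : G) :
    Cfsg.MemLocalIdeal M (Cfsg.inducedCentralChar H a g - Cfsg.inducedCentralChar H b g) := by
  classical
  have := Fintype.ofFinite H
  unfold Cfsg.inducedCentralChar
  have hs : {h : H | IsConj g (h : G)} = ↑(Finset.univ.filter (fun h : H => IsConj g (h : G))) := by
    ext; simp
  rw [hs, finsum_mem_coe_finset, finsum_mem_coe_finset, ← Finset.sum_sub_distrib]
  set S := Finset.univ.filter (fun h : H => IsConj g (h : G)) with hS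
  let mk : H → ConjClasses H := ConjClasses.mk
  rw [← Finset.sum_fiberwise_of_maps_to (s := S) (t := S.image mk) (g := mk)
    (fun h hh => Finset.mem_image_of_mem mk hh)]
  refine memLocalIdeal_sum _ _ ?_
  intro c hc
  obtain ⟨r, hr, rfl⟩ := Finset.mem_image.1 hc
  have hfiber : S.filter (fun h => mk h = mk r) = Cfsg.Agent.Lib.Char.Integrality.classFinset r := by
    ext h
    rw [Finset.mem_filter, Cfsg.Agent.Lib.Char.Integrality.mem_classFinset]
    have hiff : mk h = mk r ↔ IsConj r h := by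
      show ConjClasses.mk h = ConjClasses.mk r ↔ _
      rw [ConjClasses.mk_eq_mk_iff_isConj]
      exact ⟨fun h => h.symm, fun h => h.symm⟩
    rw [hiff]
    constructor
    · exact fun h => h.2
    · intro hc2
      refine ⟨?_, hc2⟩
      have hr' : IsConj g (r : G) := (Finset.mem_filter.1 hr).2
      have h2 : IsConj (r : G) (h : G) := by
        obtain ⟨u, hu⟩ := isConj_iff.1 hc2
        refine isConj_iff.2 ⟨u, ?_⟩
        simpa using congrArg Subtype.val hu
      exact Finset.mem_filter.2 ⟨Finset.mem_univ _, hr'.trans h2⟩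
  rw [hfiber]
  have hconst : ∀ f : H → ℂ, Cfsg.IsClassFunction H f → ∀ h ∈ Cfsg.Agent.Lib.Char.Integrality.classFinset r,
      f h = f r := by
    intro f hf h hh
    obtain ⟨u, hu⟩ := isConj_iff.1 ((Cfsg.Agent.Lib.Char.Integrality.mem_classFinset r h).1 hh)
    rw [← hu]
    exact hf r u
  have hsum : ∑ h ∈ Cfsg.Agent.Lib.Char.Integrality.classFinset r, (a h / a 1 - b h / b 1)
      = Cfsg.centralChar a r - Cfsg.centralChar b r := by
    have h1 : ∀ h ∈ Cfsg.Agent.Lib.Char.Integrality.classFinset r,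
        a h / a 1 - b h / b 1 = a r / a 1 - b r / b 1 := by
      intro h hh
      rw [hconst a ha h hh, hconst b hb h hh]
    rw [Finset.sum_congr rfl h1, Finset.sum_const, Cfsg.Agent.Lib.Char.Integrality.card_classFinset,
      nsmul_eq_mul]
    unfold Cfsg.centralChar
    ring
  rw [hsum]
  exact hab r

/-- Let H be a subgroup of the finite group G and ξ an irreducible character of H such that the induced function ξ^G is an irreducible character of G. Then, relative to any maximal ideal M of the algebraic integers containing the prime p, the block of ξ induces the block of ξ^G. -/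
theorem result {G : Type*} [Group G] [Fintype G] (p : ℕ) [Fact p.Prime] (M : Ideal Cfsg.AlgInt) (hM : Cfsg.IsPModular p M) (H : Subgroup G) (ξ : Cfsg.IrrCharacter H) (hind : Cfsg.IsIrrCharacter G (Cfsg.indFun H (ξ : H → ℂ))) : Cfsg.IsInducedBlock M H (Cfsg.blockOf M (ξ : H → ℂ)) (Cfsg.blockOf M (Cfsg.indFun H (ξ : H → ℂ))) := by
  have hprime : M.IsPrime := hM.2.1.isPrime
  refine ⟨⟨ξ, rfl⟩, ⟨⟨_, hind⟩, rfl⟩, ?_⟩
  intro ξ' hξ' χ' hχ' g
  have h1 : Cfsg.inducedCentralChar H (ξ' : H → ℂ) g - Cfsg.centralChar (χ' : G → ℂ) g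
      = -(Cfsg.inducedCentralChar H (ξ : H → ℂ) g - Cfsg.inducedCentralChar H (ξ' : H → ℂ) g)
        + (Cfsg.centralChar (Cfsg.indFun H (ξ : H → ℂ)) g - Cfsg.centralChar (χ' : G → ℂ) g) := by
    rw [Cfsg.Agent.S0932.result H (ξ : H → ℂ) (Cfsg.Agent.Lib.Char.Basic.isCharacter_of_isIrrCharacter ξ.2) g]
    ring
  rw [h1]
  refine Cfsg.Agent.Lib.Blocks.Local.memLocalIdeal_add
    (Cfsg.Agent.Lib.Blocks.Local.memLocalIdeal_neg ?_) (hχ' g)
  exact memLocalIdeal_inducedCentralChar_sub M H _ _
    (Cfsg.Agent.Lib.Char.Basic.isClassFunction_of_isCharacter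
      (Cfsg.Agent.Lib.Char.Basic.isCharacter_of_isIrrCharacter ξ.2))
    (Cfsg.Agent.Lib.Char.Basic.isClassFunction_of_isCharacter
      (Cfsg.Agent.Lib.Char.Basic.isCharacter_of_isIrrCharacter ξ'.2)) hξ' g

end Cfsg.Agent.S0933
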