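import Cfsg.Statements.S0934
import Mathlib
import Cfsg.Agent.Lib.Blocks.SecondMain
-- import your own Cfsg.Agent.* helpers here

set_option autoImplicit false
open Cfsg

namespace Cfsg.Agent.S0934

open Cfsg.Agent.Lib.Blocks.Local Cfsg.Agent.Lib.Blocks.Central Cfsg.Agent.Lib.Blocks.Osima
  Cfsg.Agent.Lib.Blocks.SecondMain
open scoped ComplexConjugate

/-- Let H be a subgroup of the finite group G and fix a maximal ideal M of the algebraic integers containing the prime p. If the block b of H induces the block B of G and ξ ∈ b, then there is χ ∈ B whose restriction to H has nonzero inner product with ξ. -/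
theorem result {G : Type*} [Group G] [Fintype G] (p : ℕ) [Fact p.Prime] (M : Ideal Cfsg.AlgInt) (hM : Cfsg.IsPModular p M) (H : Subgroup G) [Fintype H] (b : Set (Cfsg.IrrCharacter H)) (B : Set (Cfsg.IrrCharacter G)) (hind : Cfsg.IsInducedBlock M H b B) (ξ : Cfsg.IrrCharacter H) (hξ : ξ ∈ b) : ∃ χ ∈ B, Cfsg.classInner (fun h : H => (χ : G → ℂ) h) (ξ : H → ℂ) ≠ 0 := by
  classical
  haveI := isPrime_of_isPModular hM
  by_contra hcon
  push Not at hcon
  have ha : blockElt B ∈ localCenter G M := blockElt_mem_localCenter hind.2.1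
  obtain ⟨χ₀, hχ₀⟩ := hind.2.1
  have hχ₀B : χ₀ ∈ B := by
    rw [hχ₀]
    exact mem_blockOf_self χ₀
  have h1 := memLocalIdeal_omega_restr_sub (isClassFunction_of_irr χ₀.2) ha (hind.2.2 ξ hξ χ₀ hχ₀B)
  rw [omega_blockElt_of_mem hχ₀B] at h1
  have hHc : (Nat.card H : ℂ) ≠ 0 := Nat.cast_ne_zero.mpr Nat.card_pos.ne'
  have h2 : omega (ξ : H → ℂ) (restr H (blockElt B)) = 0 := by
    rw [omega]
    have h3 : ∑ h : H, (restr H (blockElt B)).coeff h * (ξ : H → ℂ) h = 0 := by
      simp only [coeff_restr, coeff_blockElt, blockCoeff_eq_sum]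
      simp only [Finset.mul_sum, Finset.sum_mul]
      rw [Finset.sum_comm]
      refine Finset.sum_eq_zero fun χ hχ => ?_
      have hχB : χ ∈ B := (Finset.mem_filter.mp hχ).2
      have h4 := hcon χ hχB
      rw [classInner, mul_eq_zero] at h4
      have h5 : ∑ h : H, (χ : G → ℂ) h * conj ((ξ : H → ℂ) h) = 0 :=
        h4.resolve_left (inv_ne_zero hHc)
      have h6 := congrArg conj h5
      rw [map_sum, map_zero] at h6
      have h7 : ∑ h : H, conj ((χ : G → ℂ) h) * (ξ : H → ℂ) h = 0 := by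
        rw [← h6]
        refine Finset.sum_congr rfl fun h _ => ?_
        simp
      calc ∑ h : H, (Nat.card G : ℂ)⁻¹ * ((χ : G → ℂ) 1 * conj ((χ : G → ℂ) h)) * (ξ : H → ℂ) h
          = (Nat.card G : ℂ)⁻¹ * (χ : G → ℂ) 1 * ∑ h : H, conj ((χ : G → ℂ) h) * (ξ : H → ℂ) h := by
            rw [Finset.mul_sum]
            refine Finset.sum_congr rfl fun h _ => ?_
            ring
        _ = 0 := by rw [h7, mul_zero]
    rw [h3, zero_div]
  rw [h2, zero_sub] at h1
  have h8 := memLocalIdeal_neg h1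
  rw [neg_neg] at h8
  exact not_memLocalIdeal_one h8

end Cfsg.Agent.S0934
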