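import Cfsg.Statements.S0937
import Mathlib
import Cfsg.Agent.Lib.Blocks.RegNorm
-- import your own Cfsg.Agent.* helpers here

set_option autoImplicit false
open Cfsg

namespace Cfsg.Agent.S0937

open Cfsg.Agent.Lib.Blocks.Local Cfsg.Agent.Lib.Blocks.Central Cfsg.Agent.Lib.Blocks.Osima
  Cfsg.Agent.Lib.Blocks.Regular Cfsg.Agent.Lib.Blocks.RegNorm Cfsg.Agent.Lib.Blocks.SecondMain
  Cfsg.Agent.Lib.Blocks.HeightZero Cfsg.Agent.Lib.Blocks.Laradji
open scoped ComplexConjugate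

/-- The key expansion: restricting `zElt χ` to `H`. -/
lemma omega_restr_zElt {G : Type*} [Group G] [Fintype G] (p : ℕ) [Fact p.Prime]
    (H : Subgroup G) [Fintype H] (χ : Cfsg.IrrCharacter G) (ξ : Cfsg.IrrCharacter H) :
    omega (ξ : H → ℂ) (restr H (zElt p (χ : G → ℂ))) =
      ∑ ξ' : Cfsg.IrrCharacter H, Cfsg.classInner (fun h : H => (χ : G → ℂ) h) (ξ' : H → ℂ) *
        omega (ξ : H → ℂ) (zElt p (ξ' : H → ℂ)) := by
  classical
  have hchar := Cfsg.Agent.Lib.Char.Basic.isCharacter_of_isIrrCharacter χ.2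
  have hres := Cfsg.Agent.Lib.Char.Basic.isCharacter_restrict hchar H
  have hdec := Cfsg.Agent.Lib.Char.Ortho.decomp_eq_sum_classInner hres
  have hval : ∀ k : H, (χ : G → ℂ) k = ∑ ξ' : Cfsg.IrrCharacter H,
      Cfsg.classInner (fun h : H => (χ : G → ℂ) h) (ξ' : H → ℂ) * (ξ' : H → ℂ) k := by
    intro k
    have := congrFun hdec k
    simpa [Finset.sum_apply] using this
  have hnat : ∀ ξ' : Cfsg.IrrCharacter H, conj (Cfsg.classInner (fun h : H => (χ : G → ℂ) h) (ξ' : H → ℂ)) =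
      Cfsg.classInner (fun h : H => (χ : G → ℂ) h) (ξ' : H → ℂ) := by
    intro ξ'
    obtain ⟨n, hn⟩ := Cfsg.Agent.Lib.Char.Ortho.exists_nat_classInner hres ξ'
    rw [hn]
    exact Complex.conj_natCast n
  rw [restr, omega_ofFun]
  simp only [omega_zElt, regSum]
  have : ∀ ξ' : Cfsg.IrrCharacter H, Cfsg.classInner (fun h : H => (χ : G → ℂ) h) (ξ' : H → ℂ) *
      ((∑ y : H, reg p (fun y => conj ((ξ' : H → ℂ) y)) y * (ξ : H → ℂ) y) / (ξ : H → ℂ) 1) =
      (Cfsg.classInner (fun h : H => (χ : G → ℂ) h) (ξ' : H → ℂ) *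
      ∑ y : H, reg p (fun y => conj ((ξ' : H → ℂ) y)) y * (ξ : H → ℂ) y) / (ξ : H → ℂ) 1 := by
    intro ξ'
    ring
  rw [Finset.sum_congr rfl fun ξ' _ => this ξ', ← Finset.sum_div]
  congr 1
  simp only [Finset.mul_sum]
  rw [Finset.sum_comm]
  refine Finset.sum_congr rfl fun k _ => ?_
  rw [zElt, coeff_regElt]
  by_cases hk : p ∣ orderOf (k : G)
  · have hk' : p ∣ orderOf k := by
      rwa [Subgroup.orderOf_coe] at hk
    rw [reg_of_dvd _ hk, zero_mul]
    symm
    apply Finset.sum_eq_zero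
    intro ξ' _
    rw [reg_of_dvd _ hk', zero_mul, mul_zero]
  · have hk' : ¬ p ∣ orderOf k := by
      rwa [Subgroup.orderOf_coe] at hk
    rw [reg_of_not_dvd _ hk, hval k, map_sum, Finset.sum_mul]
    refine Finset.sum_congr rfl fun ξ' _ => ?_
    rw [reg_of_not_dvd _ hk', map_mul, hnat]
    ring

/-- Let H be a subgroup of the finite group G and fix a maximal ideal M of the algebraic integers containing the prime p. If the block b of H induces the block B of G and χ ∈ B has height zero, then there is ξ ∈ b of height zero whose multiplicity in the restriction of χ to H is a natural number not divisible by p. -/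
theorem result {G : Type*} [Group G] [Fintype G] (p : ℕ) [Fact p.Prime] (M : Ideal Cfsg.AlgInt) (hM : Cfsg.IsPModular p M) (H : Subgroup G) [Fintype H] (b : Set (Cfsg.IrrCharacter H)) (B : Set (Cfsg.IrrCharacter G)) (hind : Cfsg.IsInducedBlock M H b B) (χ : Cfsg.IrrCharacter G) (hχ : χ ∈ B) (h0 : Cfsg.blockHeight p B (χ : G → ℂ) = 0) : ∃ ξ ∈ b, Cfsg.blockHeight p b (ξ : H → ℂ) = 0 ∧ ∃ n : ℕ, Cfsg.classInner (fun h : H => (χ : G → ℂ) h) (ξ : H → ℂ) = (n : ℂ) ∧ ¬ p ∣ n := by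
  classical
  haveI := isPrime_of_isPModular hM
  obtain ⟨hb, hB, hbB⟩ := id hind
  -- a height zero member of `b`
  obtain ⟨ξ, hξ, hξ0⟩ := exists_height_zero (p := p) (nonempty_of_isPBlock hb)
  have hA := not_memLocalIdeal_omega_zElt_self hM hB hχ h0
  have hcong := memLocalIdeal_omega_restr_sub (H := H) (ξ := (ξ : H → ℂ)) (isClassFunction_of_irr χ.2)
    (zElt_mem_localCenter (M := M) (p := p) χ.2) (hbB ξ hξ χ hχ)
  have h1 : ¬ MemLocalIdeal M (omega (ξ : H → ℂ) (restr H (zElt p (χ : G → ℂ)))) := by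
    intro h2
    apply hA
    have := memLocalIdeal_sub h2 hcong
    convert this using 1
    ring
  rw [omega_restr_zElt] at h1
  obtain ⟨ξ', hξ'⟩ : ∃ ξ' : Cfsg.IrrCharacter H, ¬ MemLocalIdeal M
      (Cfsg.classInner (fun h : H => (χ : G → ℂ) h) (ξ' : H → ℂ) * omega (ξ : H → ℂ) (zElt p (ξ' : H → ℂ))) := by
    by_contra hcon
    push Not at hcon
    exact h1 (memLocalIdeal_sum _ _ fun ξ' _ => hcon ξ')
  have hchar := Cfsg.Agent.Lib.Char.Basic.isCharacter_of_isIrrCharacter χ.2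
  have hres := Cfsg.Agent.Lib.Char.Basic.isCharacter_restrict hchar H
  obtain ⟨n, hn⟩ := Cfsg.Agent.Lib.Char.Ortho.exists_nat_classInner hres ξ'
  have hom : MemLocalRing M (omega (ξ : H → ℂ) (zElt p (ξ' : H → ℂ))) :=
    memLocalRing_omega ξ.2 (zElt_mem_localCenter ξ'.2)
  have hnp : ¬ p ∣ n := by
    intro hd
    apply hξ'
    rw [hn]
    exact memLocalIdeal_mul_right ((memLocalIdeal_natCast_iff hM).mpr hd) hom
  have hnz : ¬ MemLocalIdeal M (omega (ξ : H → ℂ) (zElt p (ξ' : H → ℂ))) := by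
    intro hd
    apply hξ'
    rw [hn]
    exact memLocalIdeal_mul_left (memLocalRing_natCast n) hd
  have hsame : Cfsg.SameBlock M (ξ : H → ℂ) (ξ' : H → ℂ) := by
    by_contra hne
    apply hnz
    rw [omega_zElt_eq_zero hM hne]
    exact memLocalIdeal_zero
  have hξ'b : ξ' ∈ b := by
    have hbξ : b = Cfsg.blockOf M (ξ : H → ℂ) := by
      obtain ⟨χ₂, rfl⟩ := hb
      exact (blockOf_eq_of_mem hξ).symm
    rw [hbξ]
    exact hsame
  have hle : (Cfsg.charDegree (ξ' : H → ℂ)).factorization p ≤ (Cfsg.charDegree (ξ : H → ℂ)).factorization p := by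
    by_contra hlt
    rw [not_le] at hlt
    exact hnz (memLocalIdeal_omega_zElt_of_lt hM hlt)
  refine ⟨ξ', hξ'b, ?_, n, hn, hnp⟩
  rw [Cfsg.blockHeight] at hξ0 ⊢
  omega

end Cfsg.Agent.S0937
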