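import Cfsg.Statements.S0935
import Mathlib
import Cfsg.Agent.S0937
-- import your own Cfsg.Agent.* helpers here

set_option autoImplicit false
open Cfsg

namespace Cfsg.Agent.S0935

open Cfsg.Agent.Lib.Blocks.Local Cfsg.Agent.Lib.Blocks.Central Cfsg.Agent.Lib.Blocks.Osima
  Cfsg.Agent.Lib.Blocks.Regular Cfsg.Agent.Lib.Blocks.RegNorm Cfsg.Agent.Lib.Blocks.SecondMain
  Cfsg.Agent.Lib.Blocks.HeightZero

/-- Let H be a subgroup of the finite group G and χ an irreducible character of G whose restriction to H is irreducible; fix a maximal ideal M of the algebraic integers containing the prime p and suppose χ and its restriction have height zero in their blocks B and b. If e is a block of H whose induced block is defined, then e induces B if and only if e = b. -/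
theorem result {G : Type*} [Group G] [Finite G] (p : ℕ) [Fact p.Prime] (M : Ideal Cfsg.AlgInt) (hM : Cfsg.IsPModular p M) (H : Subgroup G) (χ : Cfsg.IrrCharacter G) (hres : Cfsg.IsIrrCharacter H (fun h : H => (χ : G → ℂ) h)) (hχ0 : Cfsg.blockHeight p (Cfsg.blockOf M (χ : G → ℂ)) (χ : G → ℂ) = 0) (hψ0 : Cfsg.blockHeight p (Cfsg.blockOf M (fun h : H => (χ : G → ℂ) h)) (fun h : H => (χ : G → ℂ) h) = 0) (e : Set (Cfsg.IrrCharacter H)) (he : Cfsg.InducedBlockDefined M H e) : Cfsg.IsInducedBlock M H e (Cfsg.blockOf M (χ : G → ℂ)) ↔ e = Cfsg.blockOf M (fun h : H => (χ : G → ℂ) h) := by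
  classical
  letI := Fintype.ofFinite G
  letI : Fintype H := Fintype.ofFinite H
  haveI := isPrime_of_isPModular hM
  set ψ : Cfsg.IrrCharacter H := ⟨fun h : H => (χ : G → ℂ) h, hres⟩ with hψdef
  have hψval : (ψ : H → ℂ) = fun h : H => (χ : G → ℂ) h := rfl
  constructor
  · intro hind
    obtain ⟨ξ, hξ, -, n, hn, hnp⟩ := Cfsg.Agent.S0937.result p M hM H e _ hind χ (mem_blockOf_self χ) hχ0
    have hξψ : ξ = ψ := by
      by_contra hne
      have h0 : Cfsg.classInner (fun h : H => (χ : G → ℂ) h) (ξ : H → ℂ) = 0 :=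
        Cfsg.Agent.Lib.Char.Ortho.classInner_irr_of_ne hres ξ.2 (fun h => hne (Subtype.ext h.symm))
      rw [h0] at hn
      have : n = 0 := by exact_mod_cast hn.symm
      rw [this] at hnp
      exact hnp (dvd_zero p)
    have hψe : ψ ∈ e := hξψ ▸ hξ
    obtain ⟨he₁, -, -⟩ := id hind
    have := he₁
    obtain ⟨τ, rfl⟩ := he₁
    exact (blockOf_eq_of_mem hψe).symm.trans rfl
  · rintro rfl
    obtain ⟨B', hB'⟩ := he
    obtain ⟨hb, hB₁, hbB⟩ := id hB'
    obtain ⟨χ', hχ'⟩ := nonempty_of_isPBlock hB₁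
    have hψb : ψ ∈ Cfsg.blockOf M (fun h : H => (χ : G → ℂ) h) := mem_blockOf_self ψ
    have hA := not_memLocalIdeal_omega_zElt_self hM (B := Cfsg.blockOf M (fun h : H => (χ : G → ℂ) h)) ⟨ψ, rfl⟩ hψb hψ0
    have hcong := memLocalIdeal_omega_restr_sub (H := H) (ξ := (ψ : H → ℂ)) (isClassFunction_of_irr χ'.2)
      (zElt_mem_localCenter (M := M) (p := p) χ.2) (hbB ψ hψb χ' hχ')
    have hrestr : restr H (zElt p (χ : G → ℂ)) = zElt p (ψ : H → ℂ) := by
      apply ext_coeff
      intro k
      rw [coeff_restr, zElt, zElt, coeff_regElt, coeff_regElt]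
      by_cases hk : p ∣ orderOf (k : G)
      · have hk' : p ∣ orderOf k := by
          rwa [Subgroup.orderOf_coe] at hk
        rw [reg_of_dvd _ hk, reg_of_dvd _ hk']
      · have hk' : ¬ p ∣ orderOf k := by
          rwa [Subgroup.orderOf_coe] at hk
        rw [reg_of_not_dvd _ hk, reg_of_not_dvd _ hk']
    rw [hrestr] at hcong
    have hsame : Cfsg.SameBlock M (χ' : G → ℂ) (χ : G → ℂ) := by
      by_contra hne
      rw [omega_zElt_eq_zero hM hne, sub_zero] at hcong
      exact hA hcong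
    have hB'eq : B' = Cfsg.blockOf M (χ : G → ℂ) := by
      have h1 : B' = Cfsg.blockOf M (χ' : G → ℂ) := by
        obtain ⟨τ, rfl⟩ := hB₁
        exact (blockOf_eq_of_mem hχ').symm
      rw [h1]
      exact (blockOf_eq_of_mem (sameBlock_symm hsame)).symm ▸ rfl
    rw [← hB'eq]
    exact hB'

end Cfsg.Agent.S0935
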