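import Mathlib
import Cfsg.Prelude.Def_Blocks
import Cfsg.Agent.Lib.Blocks.Kernel
set_option autoImplicit false
namespace Cfsg.Agent.S0938

open Cfsg Cfsg.Agent.Lib.Blocks.Covering Cfsg.Agent.Lib.Blocks.Kernel Cfsg.Agent.Lib.Blocks.Osima Cfsg.Agent.Lib.Blocks.Central

theorem result {G : Type*} [Group G] [Finite G] (p : ℕ) [Fact p.Prime] (M : Ideal Cfsg.AlgInt) (hM : Cfsg.IsPModular p M) (B : Set (Cfsg.IrrCharacter G)) (hB : Cfsg.IsPBlock M B) (χ : Cfsg.IrrCharacter G) (hχ : χ ∈ B) : ∃ K : Subgroup G, K.Normal ∧ (K : Set G) = Cfsg.blockKer B ∧ ¬ p ∣ Nat.card K ∧ (∀ g ∈ K, (χ : G → ℂ) g = (χ : G → ℂ) 1) ∧ ∀ N : Subgroup G, N.Normal → ¬ p ∣ Nat.card N → (∀ g ∈ N, (χ : G → ℂ) g = (χ : G → ℂ) 1) → N ≤ K := by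
  haveI : M.IsPrime := hM.2.1.isPrime
  haveI := Fintype.ofFinite G
  refine ⟨blockKerSubgroup B, inferInstance, rfl, not_dvd_card_blockKerSubgroup hM hB hχ,
    fun g hg => hg χ hχ, ?_⟩
  intro N hN hp hk g hg ψ hψ
  haveI : Fintype N := Fintype.ofFinite N
  obtain ⟨χ₀, rfl⟩ := hB
  have h1 : SameBlock M (χ : G → ℂ) (ψ : G → ℂ) := by
    rw [← blockOf_eq_of_mem hχ] at hψ
    exact hψ
  exact kernel_of_sameBlock N hM hp χ.2 ψ.2 h1 hk g hg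

end Cfsg.Agent.S0938
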