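import Mathlib
import Cfsg.Prelude.Def_Blocks
import Cfsg.Prelude.Def_Solvable
import Cfsg.Agent.Lib.Blocks.Kernel
import Cfsg.Agent.Lib.Solvable.PSeries
set_option autoImplicit false
namespace Cfsg.Agent.S0939

open Cfsg Cfsg.Agent.Lib.Blocks.Covering Cfsg.Agent.Lib.Blocks.Kernel Cfsg.Agent.Lib.Blocks.Osima Cfsg.Agent.Lib.Blocks.Central

theorem result {G : Type*} [Group G] [Finite G] (p : ℕ) [Fact p.Prime] (M : Ideal Cfsg.AlgInt) (hM : Cfsg.IsPModular p M) (hnc : ∃ k : ℕ, (Cfsg.pPrimeCore p G).index = p ^ k) : Cfsg.principalBlock M G = {χ : Cfsg.IrrCharacter G | ∀ n ∈ Cfsg.pPrimeCore p G, (χ : G → ℂ) n = (χ : G → ℂ) 1} := by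
  haveI : M.IsPrime := hM.2.1.isPrime
  haveI := Fintype.ofFinite G
  haveI : Fintype (pPrimeCore p G) := Fintype.ofFinite _
  haveI : (pPrimeCore p G).Normal := Cfsg.pPrimeCore_normal p G
  have hN : ¬ p ∣ Nat.card (pPrimeCore p G) := fun hd =>
    (Fact.out : p.Prime).one_lt.ne'
      (Nat.Coprime.eq_one_of_dvd (Cfsg.Agent.Lib.Solvable.PSeries.pPrimeCore_coprime p).symm hd)
  have h1G : IsIrrCharacter G (fun _ : G => (1 : ℂ)) := Cfsg.Agent.Lib.Char.Burnside2.isIrrCharacter_one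
  have h1N : IsIrrCharacter (pPrimeCore p G) (fun _ : pPrimeCore p G => (1 : ℂ)) :=
    Cfsg.Agent.Lib.Char.Burnside2.isIrrCharacter_one
  have hcard : ((Nat.card (pPrimeCore p G) : ℕ) : ℂ) ≠ 0 := Nat.cast_ne_zero.2 Nat.card_pos.ne'
  -- a character trivial on the core has the trivial character as a constituent
  have hcon : ∀ χ : G → ℂ, χ 1 ≠ 0 → (∀ n ∈ pPrimeCore p G, χ n = χ 1) →
      classInner (fun n : pPrimeCore p G => χ n) (fun _ : pPrimeCore p G => (1 : ℂ)) ≠ 0 := by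
    intro χ h0 hχ
    have h2 : ∀ n : pPrimeCore p G, χ n = χ 1 := fun n => hχ n n.2
    simp only [classInner, h2, map_one, mul_one, Finset.sum_const, Finset.card_univ, nsmul_eq_mul]
    rw [← Nat.card_eq_fintype_card, ← mul_assoc, inv_mul_cancel₀ hcard, one_mul]
    exact h0
  ext χ
  constructor
  · intro h n hn
    exact kernel_of_sameBlock _ hM hN h1G χ.2 h (fun _ _ => rfl) n hn
  · intro h
    have h2 : SameBlock M (χ : G → ℂ) (fun _ : G => (1 : ℂ)) :=
      sameBlock_of_constituents (χ := χ) (ψ := ⟨_, h1G⟩) (θ := ⟨_, h1N⟩) (θ' := ⟨_, h1N⟩) hM hnc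
        (hcon _ (Cfsg.Agent.Lib.Char.Ortho.irr_apply_one_ne_zero χ.2) h)
        (hcon _ one_ne_zero (fun _ _ => rfl)) (sameBlock_refl _)
    exact sameBlock_symm h2

end Cfsg.Agent.S0939
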