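import Mathlib
import Cfsg.Prelude.Def_Blocks
import Cfsg.Agent.Lib.Blocks.PSum
set_option autoImplicit false
namespace Cfsg.Agent.S0940

theorem result {G : Type*} [Group G] [Finite G] (p : ℕ) [Fact p.Prime] (M : Ideal Cfsg.AlgInt) (hM : Cfsg.IsPModular p M) (g : G) (hg : ¬ p ∣ orderOf g) : Cfsg.MemLocalIdeal M (Cfsg.blockCoeff (Cfsg.principalBlock M G) g - (Nat.card {xy : G × G // (∃ k : ℕ, orderOf xy.1 = p ^ k) ∧ ¬ p ∣ orderOf xy.2 ∧ xy.1 * xy.2 = g} : ℂ) / (Nat.card {y : G // ¬ p ∣ orderOf y} : ℂ)) := by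
  haveI : M.IsPrime := hM.2.1.isPrime
  haveI := Fintype.ofFinite G
  exact Cfsg.Agent.Lib.Blocks.PSum.memLocalIdeal_blockCoeff_principal_sub hM hg

end Cfsg.Agent.S0940
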