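import Cfsg.Statements.S0946
import Mathlib
import Cfsg.Agent.Lib.Transfer.HomocyclicSylow

set_option autoImplicit false
open Cfsg

namespace Cfsg.Agent.S0946

open Cfsg.Agent.Lib.Transfer.HomocyclicSylow

/-- Let P be a Sylow 2-subgroup of the finite group G isomorphic to Z/2^m × Z/2^m with m ≥ 1. Then either P has a normal complement in G, or all involutions of G are conjugate. -/
theorem result {G : Type*} [Group G] [Finite G] (P : Sylow 2 G) (m : ℕ) (hm : 1 ≤ m) (e : (P : Subgroup G) ≃* Multiplicative (ZMod (2 ^ m) × ZMod (2 ^ m))) : (∃ N : Subgroup G, N.Normal ∧ Subgroup.IsComplement' N (P : Subgroup G)) ∨ ∀ s t : G, orderOf s = 2 → orderOf t = 2 → IsConj s t := by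
  haveI : Fact (Nat.Prime 2) := ⟨Nat.prime_two⟩
  have hcard := omega_ncard_le (P : Subgroup G) hm e
  have hab : ∀ x ∈ (P : Subgroup G), ∀ y ∈ (P : Subgroup G), x * y = y * x := by
    intro x hx y hy
    have := e.injective (show e (⟨x, hx⟩ * ⟨y, hy⟩) = e (⟨y, hy⟩ * ⟨x, hx⟩) by
      rw [map_mul, map_mul, mul_comm])
    exact congrArg Subtype.val this
  by_cases hall : ∀ u ∈ omega (P : Subgroup G), ∀ v ∈ omega (P : Subgroup G), IsConj u v
  · right
    intro s t hs ht
    obtain ⟨s', hs', h1⟩ := conj_into_omega P s hs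
    obtain ⟨t', ht', h2⟩ := conj_into_omega P t ht
    exact (h1.symm.trans (hall _ hs' _ ht')).trans h2
  · left
    have hle : Subgroup.normalizer ((P : Subgroup G) : Set G) ≤ Subgroup.centralizer (P : Set G) := by
      intro g hg
      obtain ⟨h, y, rfl, hy, hh, n, hn, hpow⟩ := exists_odd_mul P g hg
      have htriv : ∀ x ∈ (P : Subgroup G), x ^ 2 = 1 → h * x * h⁻¹ = x := by
        intro u hu hu2
        by_cases hu1 : u = 1
        · simp [hu1]
        by_contra hmove
        apply hall
        have hu' : u ∈ omega (P : Subgroup G) := ⟨hu, hu1, hu2⟩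
        have key : ∀ v ∈ omega (P : Subgroup G), IsConj u v := by
          intro v hv
          rcases orbit_of_moved (P : Subgroup G) hcard h hh n hn hpow u hu' hmove v hv with
            rfl | rfl | rfl
          · exact IsConj.refl _
          · exact isConj_iff.2 ⟨h, rfl⟩
          · exact isConj_iff.2 ⟨h * h, by group⟩
        intro a ha b hb
        exact (key a ha).symm.trans (key b hb)
      have hc := centralizes_of_odd (P : Subgroup G) P.isPGroup' hab h hh n hn hpow htriv
      rw [Subgroup.mem_centralizer_iff]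
      intro x hx
      have hxP : x ∈ (P : Subgroup G) := hx
      have h1 : y * x * y⁻¹ = x := by
        rw [hab y hy x hxP]; simp
      have h2 : h * y * x * (h * y)⁻¹ = x := by
        calc h * y * x * (h * y)⁻¹ = h * (y * x * y⁻¹) * h⁻¹ := by group
          _ = x := by rw [h1, hc x hxP]
      rw [mul_inv_eq_iff_eq_mul] at h2
      exact h2.symm
    exact ⟨_, MonoidHom.normal_ker _, MonoidHom.ker_transferSylow_isComplement' P hle⟩

end Cfsg.Agent.S0946
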