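import Cfsg.Statements.S0947
import Mathlib
import Cfsg.Agent.Lib.Blocks.PrincipalCen
-- import your own Cfsg.Agent.* helpers here

set_option autoImplicit false
open Cfsg
open scoped ComplexConjugate

namespace Cfsg.Agent.S0947

/-- Let z ≠ 1 be a p-element of the finite group G with centralizer H, and fix a maximal ideal M of the algebraic integers containing p. (i) For every y ∈ H of order prime to p, the sum over ζ in the principal block of G of |ζ (z * y)|² equals the sum over χ in the principal block of H of |χ y|². (ii) If moreover H has a normal p-complement (its largest normal subgroup of order prime to p has p-power index), that common value is the largest power of p dividing the order of H. -/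
theorem result {G : Type*} [Group G] [Finite G] (p : ℕ) [Fact p.Prime] (M : Ideal Cfsg.AlgInt) (hM : Cfsg.IsPModular p M) (z : G) (hz : ∃ k : ℕ, orderOf z = p ^ k) (hz1 : z ≠ 1) (y : Subgroup.centralizer ({z} : Set G)) (hy : ¬ p ∣ orderOf y) : (∑ᶠ ζ ∈ Cfsg.principalBlock M G, ‖(ζ : G → ℂ) (z * (y : G))‖ ^ 2 = ∑ᶠ χ ∈ Cfsg.principalBlock M (Subgroup.centralizer ({z} : Set G)), ‖(χ : Subgroup.centralizer ({z} : Set G) → ℂ) y‖ ^ 2) ∧ ((∃ k : ℕ, (Cfsg.pPrimeCore p (Subgroup.centralizer ({z} : Set G))).index = p ^ k) → ∑ᶠ ζ ∈ Cfsg.principalBlock M G, ‖(ζ : G → ℂ) (z * (y : G))‖ ^ 2 = ((p ^ (Nat.card (Subgroup.centralizer ({z} : Set G))).factorization p : ℕ) : ℝ)) := by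
  classical
  cases nonempty_fintype G
  haveI hMp : M.IsPrime := Cfsg.Agent.Lib.Blocks.Local.isPrime_of_isPModular hM
  letI : Fintype (Subgroup.centralizer ({z} : Set G)) := Fintype.ofFinite _
  obtain ⟨k, hk⟩ := hz
  have hcast : ∀ (X : Type _) [Group X] [Fintype X] (B : Set (Cfsg.IrrCharacter X)) (x : X),
      ((∑ᶠ χ ∈ B, ‖(χ : X → ℂ) x‖ ^ 2 : ℝ) : ℂ) =
        ∑ χ ∈ Finset.univ.filter (· ∈ B), (χ : X → ℂ) x * conj ((χ : X → ℂ) x) := by
    intro X _ _ B x
    rw [Cfsg.Agent.Lib.Blocks.Osima.finsum_mem_eq_sum_filter, Complex.ofReal_sum]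
    refine Finset.sum_congr rfl fun χ _ => ?_
    rw [Complex.mul_conj, Complex.normSq_eq_norm_sq]
  have h1 : (∑ᶠ ζ ∈ Cfsg.principalBlock M G, ‖(ζ : G → ℂ) (z * (y : G))‖ ^ 2) =
      ∑ᶠ χ ∈ Cfsg.principalBlock M (Subgroup.centralizer ({z} : Set G)),
        ‖(χ : Subgroup.centralizer ({z} : Set G) → ℂ) y‖ ^ 2 := by
    apply Complex.ofReal_injective
    rw [hcast, hcast]
    exact Cfsg.Agent.Lib.Blocks.PrincipalCen.sum_principal_eq hM hk y hy
  refine ⟨h1, ?_⟩
  rintro ⟨j, hj⟩
  rw [h1, Cfsg.Agent.Lib.Blocks.PrincipalCen.factorization_card_of_core_index hj]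
  apply Complex.ofReal_injective
  rw [hcast]
  have := Cfsg.Agent.Lib.Blocks.PrincipalCen.sum_principal_eq_index hM hj hy
  rw [this]
  simp

end Cfsg.Agent.S0947
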