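import Mathlib
import Cfsg.Agent.S0920
import Cfsg.Agent.S0912
import Cfsg.Agent.Lib.Blocks.CentSupport
import Cfsg.Agent.Lib.Blocks.Pairs8
import Cfsg.Agent.Lib.Char.CompleteCor

set_option autoImplicit false
open Cfsg
open scoped ComplexConjugate

namespace Cfsg.Agent.S0953

open Cfsg.Agent.Lib.Blocks.Osima Cfsg.Agent.Lib.Blocks.Central Cfsg.Agent.Lib.Blocks.Covering
  Cfsg.Agent.Lib.Blocks.CentSupport Cfsg.Agent.Lib.Char.CompleteCor

section Part1

variable {H : Type*} [Group H] [Fintype H] {p : ℕ} [Fact p.Prime]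

/-- The normal `p`-complement of the centralizer of a normal Sylow subgroup. -/
theorem exists_E (Q : Subgroup H) [Q.Normal] (hQp : IsPGroup p Q) (hQi : ¬ p ∣ Q.index) :
    ∃ E : Subgroup H, E.Normal ∧
      ∀ g, g ∈ E ↔ g ∈ Subgroup.centralizer (Q : Set H) ∧ ¬ p ∣ orderOf g := by
  classical
  have hpp : p.Prime := Fact.out
  set C := Subgroup.centralizer (Q : Set H) with hC
  -- `p`-elements lie in `Q`
  have hpel : ∀ x : H, (∃ k : ℕ, orderOf x = p ^ k) → x ∈ Q := by
    rintro x ⟨k, hk⟩
    have hcop : Nat.Coprime (orderOf x) Q.index := by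
      rw [hk]
      exact Nat.Coprime.pow_left _ ((Nat.Prime.coprime_iff_not_dvd hpp).2 hQi)
    have h1 : x ^ Q.index ∈ Q := Subgroup.pow_index_mem Q x
    obtain ⟨m, hm⟩ := exists_pow_eq_self_of_coprime hcop.symm
    rw [← hm]
    exact Q.pow_mem h1 m
  obtain ⟨R⟩ : Nonempty (Sylow p C) := inferInstance
  have hRcen : ∀ r ∈ (R : Subgroup C), ∀ c : C, c * r = r * c := by
    intro r hr c
    have hrp : IsPGroup p (R : Subgroup C) := R.2
    obtain ⟨k, hk⟩ := (IsPGroup.iff_orderOf.1 hrp) ⟨r, hr⟩
    have hrQ : (r : H) ∈ Q := by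
      apply hpel
      refine ⟨k, ?_⟩
      rw [Subgroup.orderOf_coe]
      rw [Subgroup.orderOf_mk] at hk
      exact hk
    apply Subtype.ext
    have := (Subgroup.mem_centralizer_iff.1 c.2) r hrQ
    exact this.symm
  have hP : Subgroup.normalizer ((R : Subgroup C) : Set C) ≤
      Subgroup.centralizer ((R : Subgroup C) : Set C) := by
    intro c _
    rw [Subgroup.mem_centralizer_iff]
    intro r hr
    exact (hRcen r hr c).symm
  set φ := MonoidHom.transferSylow R hP with hφ
  have hcomp : Subgroup.IsComplement' φ.ker (R : Subgroup C) :=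
    MonoidHom.ker_transferSylow_isComplement' R hP
  have hKcard : ¬ p ∣ Nat.card φ.ker := by
    intro hd
    have h1 := hcomp.card_mul_card
    have h2 := Sylow.card_eq_multiplicity R
    set v := (Nat.card C).factorization p with hv
    -- `p * p ^ v ∣ card C`
    have h3 : p * p ^ v ∣ Nat.card C := by
      have h5 : Nat.card C = Nat.card φ.ker * p ^ v := by rw [← h1, h2]
      rw [h5]
      exact Nat.mul_dvd_mul hd dvd_rfl
    rw [← pow_succ'] at h3
    have h4 := (hpp.pow_dvd_iff_le_factorization Nat.card_pos.ne').1 h3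
    omega
  have hmem : ∀ c : C, c ∈ φ.ker ↔ ¬ p ∣ orderOf (c : H) := by
    intro c
    constructor
    · intro hc hd
      rw [Subgroup.orderOf_coe] at hd
      have h1 : orderOf (⟨c, hc⟩ : φ.ker) = orderOf c := Subgroup.orderOf_mk c hc
      have h2 := orderOf_dvd_natCard (⟨c, hc⟩ : φ.ker)
      rw [h1] at h2
      exact hKcard (hd.trans h2)
    · intro hd
      rw [MonoidHom.mem_ker]
      have hrp : IsPGroup p (R : Subgroup C) := R.2
      obtain ⟨k, hk⟩ := (IsPGroup.iff_orderOf.1 hrp) (φ c)
      have h1 : orderOf (φ c) ∣ orderOf c := orderOf_map_dvd φ c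
      have h2 : orderOf (φ c) = 1 := by
        rw [hk] at h1 ⊢
        rcases Nat.eq_zero_or_pos k with rfl | hkpos
        · simp
        · exfalso
          apply hd
          rw [Subgroup.orderOf_coe]
          exact (dvd_pow_self p hkpos.ne').trans h1
      exact orderOf_eq_one_iff.1 h2
  refine ⟨φ.ker.map C.subtype, ?_, ?_⟩
  · constructor
    rintro _ ⟨c, hc, rfl⟩ x
    have hxc : x * (c : H) * x⁻¹ ∈ C := Subgroup.Normal.conj_mem inferInstance _ c.2 x
    refine ⟨⟨_, hxc⟩, ?_, rfl⟩
    change (⟨_, hxc⟩ : C) ∈ (φ.ker : Set C)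
    rw [SetLike.mem_coe, hmem]
    have h1 : orderOf (x * (c : H) * x⁻¹) = orderOf (c : H) := by
      have := MulEquiv.orderOf_eq (MulAut.conj x) (c : H)
      simpa [MulAut.conj_apply] using this
    have h2 := (hmem c).1 hc
    rwa [show (((⟨_, hxc⟩ : C) : H)) = x * (c : H) * x⁻¹ from rfl, h1]
  · intro g
    constructor
    · rintro ⟨c, hc, rfl⟩
      exact ⟨c.2, (hmem c).1 hc⟩
    · rintro ⟨hg, hd⟩
      exact ⟨⟨g, hg⟩, (hmem ⟨g, hg⟩).2 hd, rfl⟩

theorem centralChar_eq_of_sameBlock {M : Ideal AlgInt} [M.IsPrime] (hM : IsPModular p M)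
    (E : Subgroup H) [E.Normal] [Fintype E] (hE : ¬ p ∣ Nat.card E) {χ ψ : IrrCharacter H}
    (h : SameBlock M (χ : H → ℂ) (ψ : H → ℂ)) {g : H} (hg : g ∈ E) :
    centralChar (χ : H → ℂ) g = centralChar (ψ : H → ℂ) g := by
  obtain ⟨θ, hθ⟩ := exists_constituent (N := E) χ.2
  obtain ⟨θ', hθ'⟩ := exists_constituent (N := E) ψ.2
  obtain ⟨c, rfl⟩ := exists_conj_of_sameBlock hM hE h hθ hθ'
  have hψθ : classInner (fun n : E => (ψ : H → ℂ) n) (θ : E → ℂ) ≠ 0 := by
    rwa [classInner_conjIrr (Cfsg.Agent.Lib.Char.Basic.isClassFunction_of_isCharacter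
      (Cfsg.Agent.Lib.Char.Basic.isCharacter_of_isIrrCharacter ψ.2))] at hθ'
  rw [← inducedCentralChar_eq_of_constituent E hθ hg,
    ← inducedCentralChar_eq_of_constituent E hψθ hg]

theorem card_le_of_inj {m n : Type*} [Fintype m] [Fintype n] [DecidableEq m] (A : Matrix n m ℂ)
    (h : ∀ v : m → ℂ, A.mulVec v = 0 → v = 0) : Fintype.card m ≤ Fintype.card n := by
  have inj : Function.Injective A.mulVecLin := by
    rw [← LinearMap.ker_eq_bot, LinearMap.ker_eq_bot']
    intro v hv
    exact h v hv
  have := LinearMap.finrank_le_finrank_of_injective inj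
  simpa [Module.finrank_fintype_fun_eq_card] using this

/-- The number of blocks of a group with a normal Sylow subgroup. -/
theorem card_blocks_of_normal_sylow (M : Ideal AlgInt) (hM : IsPModular p M) (Q : Subgroup H)
    [Q.Normal] (hQp : IsPGroup p Q) (hQi : ¬ p ∣ Q.index) :
    Nat.card {b : Set (IrrCharacter H) // IsPBlock M b} =
      Nat.card {C : ConjClasses H // ∀ n : H, ConjClasses.mk n = C →
        ¬ p ∣ orderOf n ∧ n ∈ Subgroup.centralizer (Q : Set H)} := by
  classical
  haveI := Cfsg.Agent.Lib.Blocks.Local.isPrime_of_isPModular hM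
  have hpp : p.Prime := Fact.out
  obtain ⟨E, hEn, hEm⟩ := exists_E Q hQp hQi
  haveI := hEn
  haveI : Fintype E := Fintype.ofFinite _
  have hEcard : ¬ p ∣ Nat.card E := by
    intro hd
    obtain ⟨y, hy⟩ := exists_prime_orderOf_dvd_card' (G := E) p hd
    have h1 := ((hEm y).1 y.2).2
    apply h1
    rw [Subgroup.orderOf_coe, hy]
  haveI : Finite (IrrCharacter H) := Cfsg.Agent.Lib.Char.Complete.finite_irr
  letI : Fintype (IrrCharacter H) := Fintype.ofFinite _
  set BB := {b : Set (IrrCharacter H) // IsPBlock M b} with hBB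
  set CC := {C : ConjClasses H // ∀ n : H, ConjClasses.mk n = C →
        ¬ p ∣ orderOf n ∧ n ∈ Subgroup.centralizer (Q : Set H)} with hCC
  letI : Fintype BB := Fintype.ofFinite _
  letI : Fintype CC := Fintype.ofFinite _
  choose rb hrb using (fun b : BB => b.2)
  have hrbm : ∀ b : BB, rb b ∈ b.1 := fun b => by
    rw [hrb b]
    exact mem_blockOf_self _
  let rc : CC → H := fun K => Quotient.out K.1
  have hrc : ∀ K : CC, ConjClasses.mk (rc K) = K.1 := fun K => Quotient.out_eq K.1
  have hrcE : ∀ K : CC, rc K ∈ E := fun K =>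
    (hEm _).2 ⟨(K.2 _ (hrc K)).2, (K.2 _ (hrc K)).1⟩
  let blk : IrrCharacter H → BB := fun χ => ⟨blockOf M (χ : H → ℂ), ⟨χ, rfl⟩⟩
  have hblk : ∀ (χ : IrrCharacter H) (b : BB), χ ∈ b.1 ↔ blk χ = b := by
    intro χ b
    constructor
    · intro h
      apply Subtype.ext
      have h1 : χ ∈ blockOf M ((rb b : IrrCharacter H) : H → ℂ) := by
        rw [← hrb b]; exact h
      change blockOf M (χ : H → ℂ) = b.1
      rw [blockOf_eq_of_mem h1, ← hrb b]
    · rintro rfl
      exact mem_blockOf_self _
  -- support of the block elements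
  have hsupp : ∀ (b : BB) (x : H), x ∉ E → blockCoeff b.1 x = 0 := by
    intro b x hx
    by_cases hxC : x ∈ Subgroup.centralizer (Q : Set H)
    · have hd : p ∣ orderOf x := by
        by_contra hd
        exact hx ((hEm x).2 ⟨hxC, hd⟩)
      exact blockCoeff_eq_zero_of_dvd hM b.2 hd
    · letI : Fintype (Subgroup.centralizer (Q : Set H)) := Fintype.ofFinite _
      exact blockCoeff_eq_zero_of_notMem hM Q hQp (Subgroup.centralizer (Q : Set H)) le_rfl b.2 hxC
  let A : Matrix BB CC ℂ := fun b K => blockCoeff b.1 (rc K)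
  -- first relation
  have hI : ∀ K K' : CC, ∑ b : BB, centralChar ((rb b : IrrCharacter H) : H → ℂ) (rc K) *
      blockCoeff b.1 (rc K') = if K = K' then 1 else 0 := by
    intro K K'
    set g := rc K with hg
    set h := rc K' with hh
    have hgE : g ∈ E := hrcE K
    have step1 : ∀ b : BB, centralChar ((rb b : IrrCharacter H) : H → ℂ) g * blockCoeff b.1 h =
        ∑ χ ∈ Finset.univ.filter (fun χ : IrrCharacter H => blk χ = b),
          (Nat.card H : ℂ)⁻¹ * (centralChar (χ : H → ℂ) g * ((χ : H → ℂ) 1 * conj ((χ : H → ℂ) h))) := by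
      intro b
      rw [blockCoeff_eq_sum]
      have hf : Finset.univ.filter (· ∈ b.1) = Finset.univ.filter (fun χ : IrrCharacter H => blk χ = b) := by
        ext χ
        simp only [Finset.mem_filter, Finset.mem_univ, true_and]
        exact hblk χ b
      rw [hf, mul_left_comm, Finset.mul_sum, Finset.mul_sum]
      refine Finset.sum_congr rfl fun χ hχ => ?_
      have hχb : χ ∈ b.1 := (hblk χ b).2 (Finset.mem_filter.1 hχ).2
      have hsb : SameBlock M ((rb b : IrrCharacter H) : H → ℂ) (χ : H → ℂ) := by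
        have : χ ∈ blockOf M ((rb b : IrrCharacter H) : H → ℂ) := by
          rw [← hrb b]; exact hχb
        exact this
      rw [centralChar_eq_of_sameBlock hM E hEcard hsb hgE]
    have step2 : ∑ b : BB, centralChar ((rb b : IrrCharacter H) : H → ℂ) g * blockCoeff b.1 h =
        ∑ χ : IrrCharacter H, (Nat.card H : ℂ)⁻¹ *
          (centralChar (χ : H → ℂ) g * ((χ : H → ℂ) 1 * conj ((χ : H → ℂ) h))) := by
      rw [Finset.sum_congr rfl (fun b _ => step1 b)]
      exact Finset.sum_fiberwise _ blk _
    have step3 : ∑ χ : IrrCharacter H, (Nat.card H : ℂ)⁻¹ *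
          (centralChar (χ : H → ℂ) g * ((χ : H → ℂ) 1 * conj ((χ : H → ℂ) h))) =
        (Nat.card H : ℂ)⁻¹ * ((Subgroup.centralizer ({g} : Set H)).index : ℂ) *
          ∑ χ : IrrCharacter H, (χ : H → ℂ) g * conj ((χ : H → ℂ) h) := by
      rw [Finset.mul_sum]
      refine Finset.sum_congr rfl fun χ _ => ?_
      have h0 := Cfsg.Agent.Lib.Char.Ortho.irr_apply_one_ne_zero χ.2
      unfold centralChar
      field_simp
    rw [step2, step3]
    by_cases hK : K = K'
    · rw [if_pos hK]
      have hgh : g = h := by rw [hg, hh, hK]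
      rw [← hgh, column_orth_conj (IsConj.refl g)]
      have hcard := Subgroup.card_mul_index (Subgroup.centralizer ({g} : Set H))
      have hH0 : (Nat.card H : ℂ) ≠ 0 := by exact_mod_cast Nat.card_pos.ne'
      have hcard' : ((Nat.card (Subgroup.centralizer ({g} : Set H)) : ℕ) : ℂ) *
          ((Subgroup.centralizer ({g} : Set H)).index : ℂ) = (Nat.card H : ℂ) := by
        exact_mod_cast hcard
      rw [← hcard'] at hH0 ⊢
      have hi1 := right_ne_zero_of_mul hH0
      have hi2 := left_ne_zero_of_mul hH0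
      field_simp
    · rw [if_neg hK]
      have hnc : ¬ IsConj g h := by
        intro hc
        apply hK
        apply Subtype.ext
        rw [← hrc K, ← hrc K']
        exact ConjClasses.mk_eq_mk_iff_isConj.2 hc
      rw [column_orth_not_conj hnc, mul_zero]
  -- injectivity of the two maps
  have hle1 : Fintype.card CC ≤ Fintype.card BB := by
    apply card_le_of_inj A
    intro v hv
    funext K
    have h1 : ∑ K' : CC, (if K = K' then (1 : ℂ) else 0) * v K' = 0 := by
      simp only [← hI K]
      have h2 : ∀ K' : CC, (∑ b : BB, centralChar ((rb b : IrrCharacter H) : H → ℂ) (rc K) *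
          blockCoeff b.1 (rc K')) * v K' = ∑ b : BB, centralChar ((rb b : IrrCharacter H) : H → ℂ) (rc K) *
          (blockCoeff b.1 (rc K') * v K') := by
        intro K'
        rw [Finset.sum_mul]
        refine Finset.sum_congr rfl fun b _ => by ring
      rw [Finset.sum_congr rfl (fun K' _ => h2 K'), Finset.sum_comm]
      refine Finset.sum_eq_zero fun b _ => ?_
      rw [← Finset.mul_sum]
      have h3 := congrFun hv b
      have h4 : ∑ K' : CC, blockCoeff b.1 (rc K') * v K' = 0 := h3
      rw [h4, mul_zero]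
    rw [Finset.sum_eq_single K] at h1
    · simpa using h1
    · intro b _ hb
      rw [if_neg (Ne.symm hb), zero_mul]
    · intro h
      exact absurd (Finset.mem_univ K) h
  have hle2 : Fintype.card BB ≤ Fintype.card CC := by
    apply card_le_of_inj A.transpose
    intro c hc
    have hF0 : ∀ x : H, ∑ b : BB, c b * blockCoeff b.1 x = 0 := by
      intro x
      by_cases hx : x ∈ E
      · have hKm : ∀ n : H, ConjClasses.mk n = ConjClasses.mk x →
            ¬ p ∣ orderOf n ∧ n ∈ Subgroup.centralizer (Q : Set H) := by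
          intro n hn
          have hnx : IsConj n x := ConjClasses.mk_eq_mk_iff_isConj.1 hn
          have hnE : n ∈ E := by
            obtain ⟨u, hu⟩ := isConj_iff.1 hnx.symm
            rw [← hu]
            exact hEn.conj_mem x hx u
          have := (hEm n).1 hnE
          exact ⟨this.2, this.1⟩
        let K : CC := ⟨ConjClasses.mk x, hKm⟩
        have h1 := congrFun hc K
        have h2 : ∑ b : BB, blockCoeff b.1 (rc K) * c b = 0 := h1
        have hcj : IsConj (rc K) x := ConjClasses.mk_eq_mk_iff_isConj.1 (hrc K)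
        rw [← h2]
        refine Finset.sum_congr rfl fun b _ => ?_
        obtain ⟨u, hu⟩ := isConj_iff.1 hcj
        rw [← hu, isClassFunction_blockCoeff b.1 (rc K) u, mul_comm]
      · exact Finset.sum_eq_zero fun b _ => by rw [hsupp b x hx, mul_zero]
    funext b₀
    set χ := rb b₀ with hχ
    have hsum : ∑ x : H, (∑ b : BB, c b * blockCoeff b.1 x) * (χ : H → ℂ) x = 0 :=
      Finset.sum_eq_zero fun x _ => by rw [hF0 x, zero_mul]
    have hsum2 : ∑ x : H, (∑ b : BB, c b * blockCoeff b.1 x) * (χ : H → ℂ) x =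
        ∑ b : BB, c b * (omega (χ : H → ℂ) (blockElt b.1) * (χ : H → ℂ) 1) := by
      simp only [Finset.sum_mul]
      rw [Finset.sum_comm]
      refine Finset.sum_congr rfl fun b _ => ?_
      have h0 := Cfsg.Agent.Lib.Char.Ortho.irr_apply_one_ne_zero χ.2
      rw [omega, div_mul_cancel₀ _ h0, Finset.mul_sum]
      refine Finset.sum_congr rfl fun x _ => ?_
      rw [coeff_blockElt, mul_assoc]
    rw [hsum2, Finset.sum_eq_single b₀] at hsum
    · rw [omega_blockElt_of_mem (hrbm b₀), one_mul] at hsum
      exact (mul_eq_zero.1 hsum).resolve_right (Cfsg.Agent.Lib.Char.Ortho.irr_apply_one_ne_zero χ.2)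
    · intro b _ hb
      have : χ ∉ b.1 := by
        intro hm
        apply hb
        rw [← (hblk χ b).1 hm, (hblk χ b₀).1 (hrbm b₀)]
      rw [omega_blockElt_of_notMem this]
      ring
    · intro h
      exact absurd (Finset.mem_univ b₀) h
  rw [Nat.card_eq_fintype_card, Nat.card_eq_fintype_card]
  exact le_antisymm hle2 hle1

end Part1

/-- Let P be a Sylow p-subgroup of the finite group G with normalizer N, and fix a maximal ideal M of the algebraic integers containing p. The number of blocks of G having P as a defect group equals the number of conjugacy classes of N consisting of elements of order prime to p that centralize P. -/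
theorem result {G : Type*} [Group G] [Finite G] (p : ℕ) [Fact p.Prime] (M : Ideal Cfsg.AlgInt) (hM : Cfsg.IsPModular p M) (P : Sylow p G) : Nat.card {B : Set (Cfsg.IrrCharacter G) // Cfsg.IsPBlock M B ∧ Cfsg.IsDefectGroup p M B (P : Subgroup G)} = Nat.card {C : ConjClasses (Subgroup.normalizer ((P : Subgroup G) : Set G)) // ∀ n : Subgroup.normalizer ((P : Subgroup G) : Set G), ConjClasses.mk n = C → ¬ p ∣ orderOf n ∧ (n : G) ∈ Subgroup.centralizer ((P : Subgroup G) : Set G)} := by
  classical
  cases nonempty_fintype G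
  haveI := Cfsg.Agent.Lib.Blocks.Local.isPrime_of_isPModular hM
  have hpp : p.Prime := Fact.out
  set D : Subgroup G := (P : Subgroup G) with hD
  set N := Subgroup.normalizer (D : Set G) with hN
  haveI : Fintype N := Fintype.ofFinite _
  set Q : Subgroup N := D.subgroupOf N with hQ
  have hDp : IsPGroup p D := P.2
  have hQn : Q.Normal :=
    (Subgroup.normal_subgroupOf_iff_le_normalizer (Subgroup.le_normalizer)).mpr le_rfl
  haveI := hQn
  have hQp : IsPGroup p Q := hDp.comap_of_injective _ (Subgroup.subtype_injective _)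
  have hQi : ¬ p ∣ Q.index := by
    intro hd
    have h1 : Q.index = D.relIndex N := rfl
    have h2 := Subgroup.relIndex_mul_index (H := D) (K := N) Subgroup.le_normalizer
    apply P.not_dvd_index
    rw [← h2, ← h1]
    exact hd.trans (Nat.dvd_mul_right _ _)
  -- every block of `N` has defect group `Q`
  have hall : ∀ b : Set (IrrCharacter N), IsPBlock M b → IsDefectGroup p M b Q := by
    intro b hb
    obtain ⟨x, S, -, hdef⟩ := Cfsg.Agent.Lib.Blocks.Pairs.exists_isDefectGroup (p := p) hM hb
    have h1 := Cfsg.Agent.S0912.result p M hM b hb _ hdef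
    have h2 : Q ≤ Cfsg.pCore p N := Cfsg.Agent.Lib.Basic.PCore.le_pCore hQn hQp
    have h3 := h2.trans h1
    set E := (S : Subgroup (Subgroup.centralizer ({x} : Set N))).map
      (Subgroup.centralizer ({x} : Set N)).subtype with hE
    have hEp : IsPGroup p E := Cfsg.Agent.Lib.Blocks.Defect.isPGroup_sylow_map S
    have h4 : E = Q := (hQp.toSylow hQi).is_maximal' hEp h3
    rwa [h4] at hdef
  have hfm := Cfsg.Agent.S0920.result p M hM D hDp
  -- the bijection of the first main theorem
  have hbij : Nat.card {B : Set (IrrCharacter G) // IsPBlock M B ∧ IsDefectGroup p M B D} =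
      Nat.card {b : Set (IrrCharacter N) // IsPBlock M b} := by
    have hex : ∀ B : {B : Set (IrrCharacter G) // IsPBlock M B ∧ IsDefectGroup p M B D},
        ∃ b : {b : Set (IrrCharacter N) // IsPBlock M b}, IsInducedBlock M N b.1 B.1 := by
      rintro ⟨B, hB, hBd⟩
      obtain ⟨b, ⟨hb, -, hi⟩, -⟩ := hfm.2 B hB hBd
      exact ⟨⟨b, hb⟩, hi⟩
    choose f hf using hex
    apply Nat.card_congr (Equiv.ofBijective f ⟨?_, ?_⟩)
    · intro B₁ B₂ h
      apply Subtype.ext
      have h1 := hf B₁
      have h2 := hf B₂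
      rw [h] at h1
      exact Cfsg.Agent.Lib.Blocks.FirstMain2.induced_unique h1 h2
    · rintro ⟨b, hb⟩
      obtain ⟨B, hB, hBd, hi⟩ := hfm.1 b hb (hall b hb)
      refine ⟨⟨B, hB, hBd⟩, ?_⟩
      apply Subtype.ext
      obtain ⟨b', -, huniq⟩ := hfm.2 B hB hBd
      have h1 := hf ⟨B, hB, hBd⟩
      have e1 := huniq _ ⟨(f ⟨B, hB, hBd⟩).2, hall _ (f ⟨B, hB, hBd⟩).2, h1⟩
      have e2 := huniq b ⟨hb, hall b hb, hi⟩
      exact e1.trans e2.symm
  rw [hbij, card_blocks_of_normal_sylow M hM Q hQp hQi]
  apply Nat.card_congr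
  apply Equiv.subtypeEquivRight
  intro C
  refine forall_congr' fun n => ?_
  refine imp_congr_right fun _ => ?_
  refine and_congr_right fun _ => ?_
  rw [Subgroup.mem_centralizer_iff, Subgroup.mem_centralizer_iff]
  constructor
  · intro h x hx
    have hxN : x ∈ N := Subgroup.le_normalizer hx
    have := h ⟨x, hxN⟩ hx
    exact congrArg Subtype.val this
  · intro h x hx
    apply Subtype.ext
    exact h (x : G) hx

end Cfsg.Agent.S0953
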