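import Mathlib
import Cfsg.Prelude.Def_Blocks
import Cfsg.Agent.Lib.Blocks.Covering
set_option autoImplicit false
namespace Cfsg.Agent.S0954

open Cfsg Cfsg.Agent.Lib.Blocks.Covering Cfsg.Agent.Lib.Blocks.Osima Cfsg.Agent.Lib.Blocks.Central

theorem result {G : Type*} [Group G] [Fintype G] (p : ℕ) [Fact p.Prime] (M : Ideal Cfsg.AlgInt) (hM : Cfsg.IsPModular p M) (N : Subgroup G) [N.Normal] [Fintype N] (hN : ¬ p ∣ Nat.card N) (hidx : ∃ k : ℕ, N.index = p ^ k) (χ ψ : Cfsg.IrrCharacter G) : Cfsg.SameBlock M (χ : G → ℂ) (ψ : G → ℂ) ↔ ∃ θ : Cfsg.IrrCharacter N, Cfsg.classInner (fun n : N => (χ : G → ℂ) n) (θ : N → ℂ) ≠ 0 ∧ Cfsg.classInner (fun n : N => (ψ : G → ℂ) n) (θ : N → ℂ) ≠ 0 := by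
  haveI : M.IsPrime := hM.2.1.isPrime
  constructor
  · intro h
    obtain ⟨θ, hθ⟩ := exists_constituent (N := N) χ.2
    obtain ⟨θ', hθ'⟩ := exists_constituent (N := N) ψ.2
    obtain ⟨g, rfl⟩ := exists_conj_of_sameBlock hM hN h hθ hθ'
    refine ⟨θ, hθ, ?_⟩
    rwa [classInner_conjIrr (isClassFunction_of_irr ψ.2)] at hθ'
  · rintro ⟨θ, h1, h2⟩
    exact sameBlock_of_constituents hM hidx h1 h2 (sameBlock_refl _)

end Cfsg.Agent.S0954
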