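import Cfsg.Statements.S0955
import Mathlib
import Cfsg.Agent.Lib.Blocks.FirstMain

set_option autoImplicit false
open Cfsg

namespace Cfsg.Agent.S0955

/-- Let D be a defect group of a block of the finite group G relative to a maximal ideal M of the algebraic integers containing the prime p. Then D is the largest normal p-subgroup of its own normalizer: O_p(N_G(D)) = D. -/
theorem result {G : Type*} [Group G] [Finite G] (p : ℕ) [Fact p.Prime] (M : Ideal Cfsg.AlgInt) (hM : Cfsg.IsPModular p M) (B : Set (Cfsg.IrrCharacter G)) (hB : Cfsg.IsPBlock M B) (D : Subgroup G) (hD : Cfsg.IsDefectGroup p M B D) : (Cfsg.pCore p (Subgroup.normalizer (D : Set G))).map (Subgroup.normalizer (D : Set G)).subtype = D := by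
  classical
  cases nonempty_fintype G
  haveI := Cfsg.Agent.Lib.Blocks.Local.isPrime_of_isPModular hM
  haveI : Fintype (Subgroup.normalizer (D : Set G)) := Fintype.ofFinite _
  have hDp : IsPGroup p D := by
    obtain ⟨g, -, S, rfl⟩ := hD
    exact Cfsg.Agent.Lib.Blocks.Defect.isPGroup_sylow_map S
  obtain ⟨b, hb, hdb, -⟩ := Cfsg.Agent.Lib.Blocks.FirstMain.exists_isInducedBlock_of_isDefectGroup hM hDp hB hD
  have h1 := Cfsg.Agent.S0912.result p M hM b hb _ hdb
  have hDn : (D.subgroupOf (Subgroup.normalizer (D : Set G))).Normal :=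
    (Subgroup.normal_subgroupOf_iff_le_normalizer (Subgroup.le_normalizer)).mpr le_rfl
  have hDp' : IsPGroup p (D.subgroupOf (Subgroup.normalizer (D : Set G))) :=
    hDp.comap_of_injective _ (Subgroup.subtype_injective _)
  have h2 := Cfsg.Agent.Lib.Basic.PCore.le_pCore hDn hDp'
  rw [le_antisymm h1 h2]
  exact Cfsg.Agent.Lib.Blocks.FirstMain.map_subgroupOf_normalizer D

end Cfsg.Agent.S0955
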