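import Cfsg.Statements.S0957
import Mathlib

set_option autoImplicit false
open Cfsg

namespace Cfsg.Agent.S0957

/-- If all orbits have size divisible by `D`, then so does the set. -/
theorem dvd_card_of_dvd_orbits {H X : Type*} [Group H] [MulAction H X] [Finite X] (D : ℕ)
    (h : ∀ x : X, D ∣ Nat.card (MulAction.orbit H x)) : D ∣ Nat.card X := by
  classical
  haveI : Fintype (MulAction.orbitRel.Quotient H X) := Fintype.ofFinite _
  rw [Nat.card_congr (MulAction.selfEquivSigmaOrbits H X), Nat.card_sigma]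
  exact Finset.dvd_sum fun ω _ => h _

/-- The set of pairs in the statement. -/
def Pairs {G : Type*} [Group G] (P : Subgroup G) (g h : G) : Type _ :=
  {yz : G × G // IsConj g yz.1 ∧ IsConj h yz.2 ∧ yz.2 * yz.1⁻¹ ∈ P}

/-- Conjugation action of `P` on the pairs. -/
instance pairsAction {G : Type*} [Group G] (P : Subgroup G) (g h : G) : MulAction P (Pairs P g h) where
  smul x u := ⟨((x : G) * u.1.1 * (x : G)⁻¹, (x : G) * u.1.2 * (x : G)⁻¹), by
    obtain ⟨⟨y, z⟩, h1, h2, h3⟩ := u
    refine ⟨h1.trans (isConj_iff.mpr ⟨x, rfl⟩), h2.trans (isConj_iff.mpr ⟨x, rfl⟩), ?_⟩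
    have : (x : G) * z * (x : G)⁻¹ * ((x : G) * y * (x : G)⁻¹)⁻¹ = (x : G) * (z * y⁻¹) * (x : G)⁻¹ := by group
    simp only at h3 ⊢
    rw [this]
    exact P.mul_mem (P.mul_mem x.2 h3) (P.inv_mem x.2)⟩
  one_smul u := by
    apply Subtype.ext
    show ((1 : G) * u.1.1 * (1 : G)⁻¹, (1 : G) * u.1.2 * (1 : G)⁻¹) = u.1
    simp
  mul_smul x x' u := by
    apply Subtype.ext
    show (((x * x' : P) : G) * u.1.1 * ((x * x' : P) : G)⁻¹, ((x * x' : P) : G) * u.1.2 * ((x * x' : P) : G)⁻¹) =
      ((x : G) * ((x' : G) * u.1.1 * (x' : G)⁻¹) * (x : G)⁻¹, (x : G) * ((x' : G) * u.1.2 * (x' : G)⁻¹) * (x : G)⁻¹)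
    simp only [Subgroup.coe_mul, Prod.mk.injEq]
    constructor <;> group

/-- Sylow count: the number of pairs `(y, z) ∈ K × L` with `z y⁻¹ ∈ P` is divisible by `p^(a−d)`. -/
theorem result {G : Type*} [Group G] [Finite G] (p : ℕ) [Fact p.Prime] (P : Sylow p G) (g h : G) (S : Sylow p (Subgroup.centralizer ({g} : Set G))) : Nat.card P / Nat.card S ∣ Nat.card {yz : G × G // IsConj g yz.1 ∧ IsConj h yz.2 ∧ yz.2 * yz.1⁻¹ ∈ (P : Subgroup G)} := by
  classical
  have hp : p.Prime := Fact.out
  obtain ⟨a, ha⟩ := IsPGroup.iff_card.mp P.isPGroup'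
  obtain ⟨b, hb⟩ := IsPGroup.iff_card.mp S.isPGroup'
  have hSP : Nat.card S ∣ Nat.card P := by
    apply P.pow_dvd_card_of_pow_dvd_card (n := b) ?_ |> (fun h => by rwa [hb])
    rw [← hb]
    exact (Subgroup.card_subgroup_dvd_card _).trans (Subgroup.card_subgroup_dvd_card _)
  change Nat.card P / Nat.card S ∣ Nat.card (Pairs (P : Subgroup G) g h)
  haveI : Finite (Pairs (P : Subgroup G) g h) := Subtype.finite
  apply dvd_card_of_dvd_orbits (H := (P : Subgroup G))
  intro u
  -- the stabilizer embeds in C(g)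
  obtain ⟨c, hc⟩ := isConj_iff.mp u.2.1
  set St := MulAction.stabilizer (P : Subgroup G) u with hSt
  have hstc : ∀ x : St, (x : G) * u.1.1 * (x : G)⁻¹ = u.1.1 := by
    intro x
    have h1 : (x : (P : Subgroup G)) • u = u := x.2
    exact congrArg (fun w : Pairs (P : Subgroup G) g h => w.1.1) h1
  let φ : St →* Subgroup.centralizer ({g} : Set G) :=
    (((MulAut.conj c⁻¹).toMonoidHom).comp ((P : Subgroup G).subtype.comp St.subtype)).codRestrict _ (by
      intro x
      rw [Subgroup.mem_centralizer_iff]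
      intro y hy
      have hy' : y = g := hy
      rw [hy']
      have h1 := hstc x
      rw [← hc] at h1
      simp only [MonoidHom.comp_apply, Subgroup.subtype_apply, MulEquiv.coe_toMonoidHom, MulAut.conj_apply]
      have h2 : ((x : (P : Subgroup G)) : G) * (c * g * c⁻¹) = (c * g * c⁻¹) * ((x : (P : Subgroup G)) : G) := by
        calc ((x : (P : Subgroup G)) : G) * (c * g * c⁻¹) =
            (((x : (P : Subgroup G)) : G) * (c * g * c⁻¹) * ((x : (P : Subgroup G)) : G)⁻¹) * ((x : (P : Subgroup G)) : G) := by group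
          _ = (c * g * c⁻¹) * ((x : (P : Subgroup G)) : G) := by rw [h1]
      calc g * (c⁻¹ * ((x : (P : Subgroup G)) : G) * c⁻¹⁻¹) = c⁻¹ * ((c * g * c⁻¹) * ((x : (P : Subgroup G)) : G)) * c := by group
        _ = c⁻¹ * (((x : (P : Subgroup G)) : G) * (c * g * c⁻¹)) * c := by rw [h2]
        _ = _ := by group)
  have hφ : Function.Injective φ := by
    intro x x' hxx
    have h1 := congrArg (fun w : Subgroup.centralizer ({g} : Set G) => (w : G)) hxx
    simp only [φ, MonoidHom.codRestrict_apply, MonoidHom.comp_apply, Subgroup.subtype_apply, MulEquiv.coe_toMonoidHom, MulAut.conj_apply] at h1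
    apply Subtype.ext
    apply Subtype.ext
    have := mul_left_cancel (mul_right_cancel h1)
    exact this
  have hStp : IsPGroup p St := IsPGroup.to_subgroup P.isPGroup' St
  obtain ⟨e, he⟩ := IsPGroup.iff_card.mp hStp
  have hdvd1 : Nat.card St ∣ Nat.card (Subgroup.centralizer ({g} : Set G)) :=
    Subgroup.card_dvd_of_injective φ hφ
  have hdvd2 : Nat.card St ∣ Nat.card S := by
    rw [he] at hdvd1 ⊢
    exact S.pow_dvd_card_of_pow_dvd_card hdvd1
  have horb : Nat.card (MulAction.orbit (P : Subgroup G) u) * Nat.card St = Nat.card P := by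
    have h1 := Subgroup.card_mul_index St
    have h2 : St.index = Nat.card (MulAction.orbit (P : Subgroup G) u) := MulAction.index_stabilizer _ _
    rw [← h2, mul_comm]
    exact h1
  obtain ⟨f, hf⟩ := hdvd2
  obtain ⟨D, hD⟩ := hSP
  have hpos : 0 < Nat.card St := Nat.card_pos
  have hSpos : 0 < Nat.card S := Nat.card_pos
  have hdiv : Nat.card P / Nat.card S = D := by
    rw [hD]; exact Nat.mul_div_cancel_left _ hSpos
  rw [hdiv]
  refine ⟨f, ?_⟩
  have h3 : Nat.card (MulAction.orbit (P : Subgroup G) u) * Nat.card St = (D * f) * Nat.card St := by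
    rw [horb, hD, hf]; ring
  exact Nat.eq_of_mul_eq_mul_right hpos h3

end Cfsg.Agent.S0957
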