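import Cfsg.Statements.S0962
import Mathlib
import Cfsg.Agent.Lib.Blocks.DefectCount
import Cfsg.Agent.Lib.Blocks.Covering
import Cfsg.Agent.Lib.Blocks.Principal

set_option autoImplicit false
open Cfsg
open Cfsg.Agent.Lib.Blocks.Osima Cfsg.Agent.Lib.Blocks.Central Cfsg.Agent.Lib.Blocks.Local

namespace Cfsg.Agent.S0962

/-- Fix a maximal ideal M of the algebraic integers containing the prime p and a natural number d. The number of blocks of the finite group G of defect at least d is at most the number of conjugacy classes of p-regular elements of G of defect at least d, where the defect of a class is the exponent of p in the order of the centralizer of any of its elements. -/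
theorem result {G : Type*} [Group G] [Finite G] (p : ℕ) [Fact p.Prime] (M : Ideal Cfsg.AlgInt) (hM : Cfsg.IsPModular p M) (d : ℕ) : Nat.card {B : Set (Cfsg.IrrCharacter G) // Cfsg.IsPBlock M B ∧ d ≤ Cfsg.blockDefect p B} ≤ Nat.card {C : ConjClasses G // ∃ g : G, ConjClasses.mk g = C ∧ Cfsg.IsPRegular p g ∧ d ≤ (Nat.card (Subgroup.centralizer ({g} : Set G))).factorization p} := by
  classical
  cases nonempty_fintype G
  have hMp := isPrime_of_isPModular hM
  have : Fintype (IrrCharacter G) := Fintype.ofFinite _
  have hreg1 : ∀ g : G, IsPRegular p g ↔ ¬ p ∣ orderOf g := fun g => Iff.rfl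
  -- the index types
  let 𝓑 := {B : Set (IrrCharacter G) // IsPBlock M B ∧ d ≤ blockDefect p B}
  let 𝓒 := {C : ConjClasses G // ∃ g : G, ConjClasses.mk g = C ∧ IsPRegular p g ∧
    d ≤ (Nat.card (Subgroup.centralizer ({g} : Set G))).factorization p}
  have : Fintype 𝓑 := Fintype.ofFinite _
  have : Fintype 𝓒 := Fintype.ofFinite _
  -- characters in the blocks and elements in the classes
  have hχex : ∀ B : 𝓑, ∃ χ : IrrCharacter G, χ ∈ B.1 := by
    rintro ⟨B, ⟨χ, rfl⟩, -⟩
    exact ⟨χ, mem_blockOf_self χ⟩
  choose χB hχB using hχex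
  choose gC hgC using fun C : 𝓒 => C.2
  let F := localRing M ⧸ localIdeal M
  let cc : IrrCharacter G → G → localRing M := fun χ g =>
    ⟨centralChar (χ : G → ℂ) g, memLocalRing_centralChar χ.2 g⟩
  have hccconj : ∀ (χ : IrrCharacter G) (g g' : G), IsConj g g' → cc χ g = cc χ g' := by
    intro χ g g' h
    obtain ⟨c, rfl⟩ := isConj_iff.1 h
    apply Subtype.ext
    exact (Cfsg.Agent.Lib.Blocks.Principal.centralChar_conj χ.2 c g).symm
  let v : 𝓑 → 𝓒 → F := fun B C => residue M (cc (χB B) (gC C))
  have hli : LinearIndependent F v := by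
    rw [Fintype.linearIndependent_iff]
    intro c hc B'
    have hc' : ∀ C : 𝓒, ∑ B, c B * residue M (cc (χB B) (gC C)) = 0 := by
      intro C
      have := congrFun hc C
      simpa [Finset.sum_apply, v] using this
    -- Step 1
    have hstep1 : ∀ g : G, ¬ p ∣ orderOf g → ∑ B, c B * residue M (cc (χB B) g) = 0 := by
      intro g hg
      by_cases hd : d ≤ (Nat.card (Subgroup.centralizer ({g} : Set G))).factorization p
      · let C : 𝓒 := ⟨ConjClasses.mk g, g, rfl, hg, hd⟩
        have h1 : IsConj (gC C) g := ConjClasses.mk_eq_mk_iff_isConj.1 (hgC C).1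
        rw [← hc' C]
        refine Finset.sum_congr rfl fun B _ => ?_
        rw [hccconj _ _ _ h1]
      · refine Finset.sum_eq_zero fun B _ => ?_
        have h1 : residue M (cc (χB B) g) = 0 := by
          rw [residue_eq_zero_iff]
          refine Cfsg.Agent.Lib.Blocks.DefectCount.memLocalIdeal_centralChar_of_defect_lt hM B.2.1
            (hχB B) g ?_
          have := B.2.2
          omega
        rw [h1, mul_zero]
    -- Step 2
    set e := blockElt B'.1 with he
    have hel : e ∈ localCenter G M := blockElt_mem_localCenter B'.2.1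
    have hom : ∀ χ : IrrCharacter G, residue M ⟨omega (χ : G → ℂ) e, memLocalRing_omega χ.2 hel⟩ =
        ∑ K : ConjClasses G, residue M ⟨e.coeff K.out, hel.2 _⟩ * residue M (cc χ K.out) := by
      intro χ
      simp only [← map_mul, ← map_sum]
      congr 1
      apply Subtype.ext
      simp only [AddSubmonoidClass.coe_finsetSum, Subring.coe_mul]
      exact omega_eq_sum_centralChar (isClassFunction_of_irr χ.2) hel.1
    have hval : ∀ B : 𝓑, residue M ⟨omega ((χB B : IrrCharacter G) : G → ℂ) e, memLocalRing_omega (χB B).2 hel⟩ =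
        if B = B' then 1 else 0 := by
      intro B
      by_cases hBB : B = B'
      · subst hBB
        rw [if_pos rfl]
        have h1 : (⟨omega ((χB B : IrrCharacter G) : G → ℂ) e, memLocalRing_omega (χB B).2 hel⟩ : localRing M) = 1 :=
          Subtype.ext (omega_blockElt_of_mem (hχB B))
        rw [h1, map_one]
      · rw [if_neg hBB]
        have hnot : χB B ∉ B'.1 := by
          intro hmem
          apply hBB
          apply Subtype.ext
          obtain ⟨χ₁, hχ₁⟩ := B.2.1
          obtain ⟨χ₂, hχ₂⟩ := B'.2.1
          have h2 := hχB B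
          rw [hχ₁] at h2
          rw [hχ₂] at hmem
          rw [hχ₁, hχ₂]
          exact (blockOf_eq_of_mem h2).symm.trans (blockOf_eq_of_mem hmem)
        have h1 : (⟨omega ((χB B : IrrCharacter G) : G → ℂ) e, memLocalRing_omega (χB B).2 hel⟩ : localRing M) = 0 :=
          Subtype.ext (omega_blockElt_of_notMem hnot)
        rw [h1, map_zero]
    have hfinal : c B' = ∑ B, c B * residue M ⟨omega ((χB B : IrrCharacter G) : G → ℂ) e, memLocalRing_omega (χB B).2 hel⟩ := by
      simp only [hval, mul_ite, mul_one, mul_zero]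
      rw [Finset.sum_ite_eq' Finset.univ B']
      simp
    rw [hfinal]
    simp only [hom]
    have hswap : ∑ B, c B * ∑ K : ConjClasses G, residue M ⟨e.coeff K.out, hel.2 _⟩ * residue M (cc (χB B) K.out) =
        ∑ K : ConjClasses G, ∑ B, c B * (residue M ⟨e.coeff K.out, hel.2 _⟩ * residue M (cc (χB B) K.out)) := by
      rw [← Finset.sum_comm]
      exact Finset.sum_congr rfl (fun B _ => Finset.mul_sum _ _ _)
    rw [hswap]
    refine Finset.sum_eq_zero fun K _ => ?_
    by_cases hK : p ∣ orderOf K.out
    · have h0 : e.coeff K.out = 0 := by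
        rw [he, coeff_blockElt]
        exact Cfsg.Agent.Lib.Blocks.Covering.blockCoeff_eq_zero_of_dvd hM B'.2.1 hK
      have h1 : (⟨e.coeff K.out, hel.2 _⟩ : localRing M) = 0 := Subtype.ext h0
      simp only [h1, map_zero, zero_mul, mul_zero, Finset.sum_const_zero]
    · have h1 := hstep1 K.out hK
      have h2 : ∑ B, c B * (residue M ⟨e.coeff K.out, hel.2 _⟩ * residue M (cc (χB B) K.out)) =
          residue M ⟨e.coeff K.out, hel.2 _⟩ * ∑ B, c B * residue M (cc (χB B) K.out) := by
        rw [Finset.mul_sum]
        refine Finset.sum_congr rfl fun B _ => by ring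
      rw [h2, h1, mul_zero]
  have hcard := hli.fintype_card_le_finrank
  rw [Module.finrank_fintype_fun_eq_card] at hcard
  rw [Nat.card_eq_fintype_card, Nat.card_eq_fintype_card]
  exact hcard

end Cfsg.Agent.S0962
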