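import Cfsg.Statements.S0963
import Mathlib
import Cfsg.Agent.Lib.Char.Integrality
import Cfsg.Agent.Lib.Char.Complete
import Cfsg.Agent.Lib.Char.Induced
import Cfsg.Agent.Lib.Char.Values
import Cfsg.Agent.Lib.Char.Codegree
-- import your own Cfsg.Agent.* helpers here

set_option autoImplicit false
open Cfsg

namespace Cfsg.Agent.S0963


open scoped ComplexConjugate
open Cfsg.Agent.Lib.Char

universe u
variable {G : Type u} [Group G] [Fintype G] (N : Subgroup G) [hN : N.Normal] [Fintype N]

open Classical in
/-- The elements of `N` conjugate in `G` to `n`. -/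
noncomputable def classN (n : N) : Finset N :=
  Finset.univ.filter fun m : N => IsConj (n : G) (m : G)

omit hN in
theorem mem_classN (n m : N) : m ∈ classN N n ↔ IsConj (n : G) (m : G) := by
  classical
  simp [classN]

omit hN in
theorem inducedCentralChar_eq (θ : N → ℂ) (n : N) :
    inducedCentralChar N θ (n : G) = ∑ m ∈ classN N n, θ m / θ 1 := by
  classical
  unfold inducedCentralChar
  have : {h : N | IsConj (n : G) (h : G)} = (classN N n : Set N) := by
    ext m
    simp [mem_classN]
  rw [this, finsum_mem_coe_finset]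

/-- Sums over the class of `n` in `G` are sums over `classN`. -/
theorem sum_classFinset (n : N) (F : G → ℂ) :
    ∑ k ∈ Integrality.classFinset (n : G), F k = ∑ m ∈ classN N n, F (m : G) := by
  classical
  symm
  refine Finset.sum_bij (fun m _ => (m : G)) ?_ ?_ ?_ ?_
  · intro m hm
    rw [Integrality.mem_classFinset]
    exact (mem_classN N n m).1 hm
  · intro a _ b _ hab
    exact Subtype.ext hab
  · intro k hk
    rw [Integrality.mem_classFinset] at hk
    obtain ⟨c, rfl⟩ := isConj_iff.1 hk
    exact ⟨⟨c * n * c⁻¹, hN.conj_mem _ n.2 c⟩, (mem_classN N n _).2 hk, rfl⟩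
  · intro _ _
    rfl

theorem card_classN (n : N) :
    (classN N n).card = (Subgroup.centralizer ({(n : G)} : Set G)).index := by
  classical
  rw [← Integrality.card_classFinset]
  have := sum_classFinset N n (fun _ => (1 : ℂ))
  simp only [Finset.sum_const, nsmul_eq_mul, mul_one] at this
  exact_mod_cast this.symm

/-- The class sum of a class of `G` inside `N` acts by a scalar on every irreducible
representation of `N`. -/
theorem sum_irr_mul (τ : N → ℂ) (hτ : IsIrrCharacter N τ) (n m : N) :
    ∑ k ∈ classN N n, τ (k * m) = (∑ k ∈ classN N n, τ k / τ 1) * τ m := by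
  classical
  obtain ⟨d, σ, hσ, rfl⟩ := hτ
  haveI := hσ
  set T : (Fin d → ℂ) →ₗ[ℂ] (Fin d → ℂ) := ∑ k ∈ classN N n, σ k with hT
  have hcomm : ∀ g : N, T ∘ₗ σ g = σ g ∘ₗ T := by
    intro g
    rw [hT]
    refine LinearMap.ext fun v => ?_
    simp only [LinearMap.comp_apply, LinearMap.sum_apply, map_sum]
    have hmem : ∀ y : N, y ∈ classN N n ↔ g⁻¹ * y * g ∈ classN N n := by
      intro y
      rw [mem_classN, mem_classN]
      constructor
      · intro hy
        exact hy.trans (isConj_iff.2 ⟨(g⁻¹ : N), by simp [mul_assoc]⟩)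
      · intro hy
        exact hy.trans (isConj_iff.2 ⟨(g : N), by simp [mul_assoc]⟩)
    refine Finset.sum_equiv (MulAut.conj g⁻¹).toEquiv ?_ ?_
    · intro y
      simp only [MulEquiv.toEquiv_eq_coe, EquivLike.coe_coe, MulAut.conj_apply, inv_inv]
      exact hmem y
    · intro y _
      simp only [MulEquiv.toEquiv_eq_coe, EquivLike.coe_coe, MulAut.conj_apply, inv_inv]
      show (σ y * σ g) v = (σ g * σ (g⁻¹ * y * g)) v
      rw [← map_mul, ← map_mul]
      congr 2
      group
  have hsc := Integrality.eq_trace_div_smul_of_commute σ T hcomm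
  have htr : LinearMap.trace ℂ _ T = ∑ k ∈ classN N n, σ.character k := by
    rw [hT, map_sum]
    rfl
  have hone : σ.character 1 = (Module.finrank ℂ (Fin d → ℂ) : ℂ) := by
    rw [Representation.char_one]
  have h1 : ∑ k ∈ classN N n, σ.character (k * m) = LinearMap.trace ℂ _ (T ∘ₗ σ m) := by
    rw [hT, ← Module.End.mul_eq_comp, Finset.sum_mul, map_sum]
    refine Finset.sum_congr rfl fun k _ => ?_
    unfold Representation.character
    rw [map_mul]
  rw [h1, hsc, LinearMap.smul_comp, LinearMap.id_comp, map_smul, smul_eq_mul, htr,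
    ← Finset.sum_div, hone]
  rfl

/-- Forward direction. -/
theorem forward (χ : IrrCharacter G) (θ : IrrCharacter N)
    (h : classInner (fun n : N => (χ : G → ℂ) n) (θ : N → ℂ) ≠ 0) (n : N) :
    centralChar (χ : G → ℂ) (n : G) = inducedCentralChar N (θ : N → ℂ) (n : G) := by
  classical
  have := Fintype.ofFinite (IrrCharacter N)
  rw [inducedCentralChar_eq]
  obtain ⟨χ, d, ρ, hρ, rfl⟩ := χ
  haveI := hρ
  set ω := centralChar ρ.character (n : G) with hω
  have hscal : Integrality.classSumOp ρ (n : G) = ω • (LinearMap.id : (Fin d → ℂ) →ₗ[ℂ] _) := by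
    rw [Integrality.classSumOp_eq_smul, hω]
    unfold centralChar
    rw [Representation.char_one]
  -- Step F
  have hF : ∀ m : N, ∑ k ∈ classN N n, ρ.character ((k : G) * (m : G)) =
      ω * ρ.character (m : G) := by
    intro m
    have h1 : LinearMap.trace ℂ _ (Integrality.classSumOp ρ (n : G) ∘ₗ ρ (m : G)) =
        ω * ρ.character (m : G) := by
      rw [hscal, LinearMap.smul_comp, LinearMap.id_comp, map_smul, smul_eq_mul]
      rfl
    rw [← h1]
    unfold Integrality.classSumOp
    rw [← Module.End.mul_eq_comp, Finset.sum_mul, map_sum,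
      sum_classFinset N n (fun y => LinearMap.trace ℂ _ (ρ y * ρ (m : G)))]
    refine Finset.sum_congr rfl fun k _ => ?_
    unfold Representation.character
    rw [map_mul]
  -- decompose the restriction
  have hclass : IsClassFunction N (fun x : N => ρ.character (x : G)) := by
    intro g h
    simp
  have hdec := Complete.eq_sum_classInner (fun x : N => ρ.character (x : G)) hclass
  set a : IrrCharacter N → ℂ := fun τ => classInner (fun x : N => ρ.character (x : G)) (τ : N → ℂ)
    with ha
  set c : IrrCharacter N → ℂ := fun τ => ∑ k ∈ classN N n, (τ : N → ℂ) k / (τ : N → ℂ) 1 with hc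
  have hval : ∀ x : N, ρ.character (x : G) = ∑ τ : IrrCharacter N, a τ * (τ : N → ℂ) x := by
    intro x
    have := congrFun hdec x
    simpa [Finset.sum_apply] using this
  -- combine
  have hrel : ∑ τ : IrrCharacter N, (a τ * (c τ - ω)) • (τ : N → ℂ) = 0 := by
    funext m
    simp only [Finset.sum_apply, Pi.smul_apply, smul_eq_mul, Pi.zero_apply]
    have h1 := hF m
    have h2 : ∑ k ∈ classN N n, ρ.character ((k : G) * (m : G)) =
        ∑ τ : IrrCharacter N, a τ * (c τ * (τ : N → ℂ) m) := by
      have : ∀ k ∈ classN N n, ρ.character ((k : G) * (m : G)) =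
          ∑ τ : IrrCharacter N, a τ * (τ : N → ℂ) (k * m) := by
        intro k _
        rw [← hval (k * m)]
        rfl
      rw [Finset.sum_congr rfl this, Finset.sum_comm]
      refine Finset.sum_congr rfl fun τ _ => ?_
      rw [← Finset.mul_sum, sum_irr_mul N τ τ.2 n m]
    rw [h2, hval m, Finset.mul_sum] at h1
    rw [← sub_eq_zero, ← Finset.sum_sub_distrib] at h1
    rw [← h1]
    refine Finset.sum_congr rfl fun τ _ => ?_
    ring
  have hli := Complete.linearIndependent_irr (G := N)
  have hzero := (Fintype.linearIndependent_iff.1 hli) _ hrel θ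
  have haθ : a θ ≠ 0 := h
  have := (mul_eq_zero.1 hzero).resolve_left haθ
  exact (sub_eq_zero.1 this).symm

/-- Backward direction. -/
theorem backward (χ : IrrCharacter G) (θ : IrrCharacter N)
    (h : ∀ n : N, centralChar (χ : G → ℂ) (n : G) = inducedCentralChar N (θ : N → ℂ) (n : G)) :
    classInner (fun n : N => (χ : G → ℂ) n) (θ : N → ℂ) ≠ 0 := by
  classical
  intro h0
  obtain ⟨χ, d, ρ, hρ, rfl⟩ := χ
  haveI := hρ
  simp only at h h0
  set X : N → ℂ := fun x => ρ.character (x : G) with hX
  have hK0 : ∀ n : N, ((classN N n).card : ℂ) ≠ 0 := by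
    intro n
    have : n ∈ classN N n := (mem_classN N n n).2 (IsConj.refl _)
    exact Nat.cast_ne_zero.2 (Finset.card_ne_zero_of_mem this)
  have hconjX : ∀ n m : N, m ∈ classN N n → X m = X n := by
    intro n m hm
    rw [mem_classN] at hm
    obtain ⟨c, hc⟩ := isConj_iff.1 hm
    simp only [hX, ← hc]
    simp
  have hcard : ∀ n m : N, m ∈ classN N n → (classN N m).card = (classN N n).card := by
    intro n m hm
    have hnm := (mem_classN N n m).1 hm
    congr 1
    ext y
    rw [mem_classN, mem_classN]
    exact ⟨fun h => hnm.trans h, fun h => hnm.symm.trans h⟩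
  have hsymm : ∀ n m : N, m ∈ classN N n ↔ n ∈ classN N m := by
    intro n m
    rw [mem_classN, mem_classN]
    exact ⟨fun h => h.symm, fun h => h.symm⟩
  -- the key identity
  have hS : ∑ n : N, ((classN N n).card : ℂ)⁻¹ * conj (X n) *
      (∑ m ∈ classN N n, (θ : N → ℂ) m / (θ : N → ℂ) 1) =
      ∑ m : N, conj (X m) * ((θ : N → ℂ) m / (θ : N → ℂ) 1) := by
    have h1 : ∀ n : N, ((classN N n).card : ℂ)⁻¹ * conj (X n) *
        (∑ m ∈ classN N n, (θ : N → ℂ) m / (θ : N → ℂ) 1) =
        ∑ m : N, if m ∈ classN N n then ((classN N m).card : ℂ)⁻¹ * conj (X m) *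
          ((θ : N → ℂ) m / (θ : N → ℂ) 1) else 0 := by
      intro n
      rw [Finset.sum_ite_mem, Finset.univ_inter, Finset.mul_sum]
      refine Finset.sum_congr rfl fun m hm => ?_
      rw [hconjX n m hm, hcard n m hm]
    rw [Finset.sum_congr rfl (fun n _ => h1 n), Finset.sum_comm]
    refine Finset.sum_congr rfl fun m _ => ?_
    have h2 : ∀ n : N, (if m ∈ classN N n then ((classN N m).card : ℂ)⁻¹ * conj (X m) *
        ((θ : N → ℂ) m / (θ : N → ℂ) 1) else 0) =
        if n ∈ classN N m then ((classN N m).card : ℂ)⁻¹ * conj (X m) *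
        ((θ : N → ℂ) m / (θ : N → ℂ) 1) else 0 := by
      intro n
      by_cases hn : m ∈ classN N n
      · rw [if_pos hn, if_pos ((hsymm n m).1 hn)]
      · rw [if_neg hn, if_neg (fun h => hn ((hsymm n m).2 h))]
    rw [Finset.sum_congr rfl (fun n _ => h2 n), Finset.sum_ite_mem, Finset.univ_inter,
      Finset.sum_const, nsmul_eq_mul, ← mul_assoc, ← mul_assoc, mul_inv_cancel₀ (hK0 m), one_mul]
  -- the left side
  have hL : ∑ n : N, ((classN N n).card : ℂ)⁻¹ * conj (X n) *
      (∑ m ∈ classN N n, (θ : N → ℂ) m / (θ : N → ℂ) 1) =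
      ∑ n : N, X n * conj (X n) / (Module.finrank ℂ (Fin d → ℂ) : ℂ) := by
    refine Finset.sum_congr rfl fun n _ => ?_
    rw [← inducedCentralChar_eq, ← h n]
    unfold centralChar
    rw [← card_classN, Representation.char_one]
    have := hK0 n
    field_simp
    rfl
  -- the right side vanishes
  have hR : ∑ m : N, conj (X m) * ((θ : N → ℂ) m / (θ : N → ℂ) 1) = 0 := by
    rw [Induced.classInner_def] at h0
    have hcardN : (Nat.card N : ℂ) ≠ 0 := Induced.natCard_ne_zero_complex
    have h1 := (mul_eq_zero.1 h0).resolve_left (inv_ne_zero hcardN)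
    have h2 := congrArg (starRingEnd ℂ) h1
    rw [map_sum, map_zero] at h2
    have h3 : ∑ m : N, conj (X m) * (θ : N → ℂ) m = 0 := by
      rw [← h2]
      refine Finset.sum_congr rfl fun m _ => ?_
      simp [hX]
    simp_rw [div_eq_mul_inv, ← mul_assoc]
    rw [← Finset.sum_mul, h3, zero_mul]
  rw [hS, hR] at hL
  -- contradiction: the sum of squares is positive
  have hd0 : (Module.finrank ℂ (Fin d → ℂ) : ℂ) ≠ 0 := by
    have := Integrality.nontrivial_of_isIrreducible ρ
    exact Nat.cast_ne_zero.2 Module.finrank_pos.ne'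
  rw [← Finset.sum_div] at hL
  have h5 : ∑ n : N, X n * conj (X n) = 0 := by
    have := (div_eq_zero_iff.1 hL.symm).resolve_right hd0
    exact this
  have h6 : ∑ n : N, ‖X n‖ ^ 2 = (0 : ℝ) := by
    have : ((∑ n : N, ‖X n‖ ^ 2 : ℝ) : ℂ) = 0 := by
      rw [← h5]
      push_cast
      refine Finset.sum_congr rfl fun n _ => ?_
      rw [Complex.mul_conj, Complex.normSq_eq_norm_sq]
      push_cast; rfl
    exact_mod_cast this
  have h7 := (Finset.sum_eq_zero_iff_of_nonneg (fun n _ => by positivity)).1 h6 1 (Finset.mem_univ _)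
  have h8 : X 1 = 0 := by
    have : ‖X 1‖ = 0 := by simpa using h7
    exact norm_eq_zero.1 this
  have h9 : X 1 = (Module.finrank ℂ (Fin d → ℂ) : ℂ) := by
    simp only [hX, Subgroup.coe_one, Representation.char_one]
  exact hd0 (h9 ▸ h8)

/-- Let N be a normal subgroup of the finite group G, χ an irreducible character of G and θ an irreducible character of N. Then θ occurs in the restriction of χ to N if and only if, for every n ∈ N, the central character of χ at n (class size in G times χ n over χ 1) equals the sum of θ m / θ 1 over the elements m of N conjugate in G to n. -/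
theorem result {G : Type*} [Group G] [Fintype G] (N : Subgroup G) [N.Normal] [Fintype N] (χ : Cfsg.IrrCharacter G) (θ : Cfsg.IrrCharacter N) : Cfsg.classInner (fun n : N => (χ : G → ℂ) n) (θ : N → ℂ) ≠ 0 ↔ ∀ n : N, Cfsg.centralChar (χ : G → ℂ) (n : G) = Cfsg.inducedCentralChar N (θ : N → ℂ) (n : G) := by
  classical
  refine ⟨fun h n => forward N χ θ h n, fun h => backward N χ θ h⟩


end Cfsg.Agent.S0963
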