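import Mathlib
import Cfsg.Prelude.Def_Blocks
import Cfsg.Agent.Lib.Blocks.Covering
set_option autoImplicit false
namespace Cfsg.Agent.S0964

open Cfsg Cfsg.Agent.Lib.Blocks.Covering Cfsg.Agent.Lib.Blocks.Osima Cfsg.Agent.Lib.Blocks.Central

theorem result {G : Type*} [Group G] [Fintype G] (p : ℕ) [Fact p.Prime] (M : Ideal Cfsg.AlgInt) (hM : Cfsg.IsPModular p M) (N : Subgroup G) [hN : N.Normal] [Fintype N] (B : Set (Cfsg.IrrCharacter G)) (hB : Cfsg.IsPBlock M B) (b : Set (Cfsg.IrrCharacter N)) (hb : Cfsg.IsPBlock M b) (χ : Cfsg.IrrCharacter G) (hχ : χ ∈ B) (θ : Cfsg.IrrCharacter N) (hθ : θ ∈ b) (hcon : Cfsg.classInner (fun n : N => (χ : G → ℂ) n) (θ : N → ℂ) ≠ 0) (χ' : Cfsg.IrrCharacter G) (hχ' : χ' ∈ B) (ψ : Cfsg.IrrCharacter N) (hψ : Cfsg.classInner (fun n : N => (χ' : G → ℂ) n) (ψ : N → ℂ) ≠ 0) : ∃ g : G, ∃ θ' ∈ b, ∀ n : N, (ψ : N → ℂ)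 n = (θ' : N → ℂ) ⟨g * n * g⁻¹, hN.conj_mem n n.2 g⟩ := by
  haveI : M.IsPrime := hM.2.1.isPrime
  obtain ⟨χ₀, rfl⟩ := hB
  have hsame : SameBlock M (χ : G → ℂ) (χ' : G → ℂ) := by
    rw [← blockOf_eq_of_mem hχ] at hχ'
    exact hχ'
  have h1 := mem_of_sameBlock_of_constituent (G := G) (A := conjOrbit b)
    (isConjStable_conjOrbit _)
    (fun n => (blockElt_mem_localCenter_of_union (fun θ₁ hθ₁ => by
      obtain ⟨g, θ₂, h₂, rfl⟩ := hθ₁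
      intro ψ₁ hψ₁
      refine ⟨g, conjIrr g⁻¹ ψ₁, ?_, ?_⟩
      · obtain ⟨θ₃, rfl⟩ := hb
        have h3 := sameBlock_conjIrr g⁻¹ hψ₁
        rw [conjIrr_conjIrr, mul_inv_cancel, conjIrr_one] at h3
        exact sameBlock_trans h₂ h3
      · rw [conjIrr_conjIrr, inv_mul_cancel, conjIrr_one])).2 n) χ.2 χ'.2 hsame hcon
    (subset_conjOrbit _ hθ) hψ
  obtain ⟨g, θ₀, h₀, rfl⟩ := h1
  exact ⟨g, θ₀, h₀, fun n => conjIrr_apply g θ₀ n⟩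

end Cfsg.Agent.S0964
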