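import Mathlib
import Cfsg.Prelude.Def_Blocks
import Cfsg.Agent.Lib.Blocks.Covering2
set_option autoImplicit false
namespace Cfsg.Agent.S0965

open Cfsg Cfsg.Agent.Lib.Blocks.Local Cfsg.Agent.Lib.Blocks.Covering Cfsg.Agent.Lib.Blocks.Covering2 Cfsg.Agent.Lib.Blocks.Osima Cfsg.Agent.Lib.Blocks.Central Cfsg.Agent.Lib.Blocks.Induced

theorem result {G : Type*} [Group G] [Fintype G] (p : ℕ) [Fact p.Prime] (M : Ideal Cfsg.AlgInt) (hM : Cfsg.IsPModular p M) (N : Subgroup G) [N.Normal] [Fintype N] (B : Set (Cfsg.IrrCharacter G)) (hB : Cfsg.IsPBlock M B) (b : Set (Cfsg.IrrCharacter N)) (hb : Cfsg.IsPBlock M b) : (∃ χ ∈ B, ∃ θ ∈ b, Cfsg.classInner (fun n : N => (χ : G → ℂ) n) (θ : N → ℂ) ≠ 0) ↔ ∀ χ ∈ B, ∀ θ ∈ b, ∀ n : N, Cfsg.MemLocalIdeal M (Cfsg.centralChar (χ : G → ℂ) (n : G) - Cfsg.inducedCentralChar N (θ : N → ℂ) (n : G)) := by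
  haveI : M.IsPrime := hM.2.1.isPrime
  constructor
  · rintro ⟨χ₀, hχ₀, θ₀, hθ₀, hcon⟩ χ hχ θ hθ n
    obtain ⟨χ₁, rfl⟩ := hB
    obtain ⟨θ₁, rfl⟩ := hb
    have e1 : SameBlock M (χ : G → ℂ) (χ₀ : G → ℂ) := by
      rw [← blockOf_eq_of_mem hχ] at hχ₀
      exact hχ₀
    have e2 : SameBlock M (θ₀ : N → ℂ) (θ : N → ℂ) := by
      rw [← blockOf_eq_of_mem hθ₀] at hθ
      exact hθ
    have e3 := memLocalIdeal_omega_sub θ₀.2 θ.2 e2 (traceClassSum_mem_localCenter N (n : G) (M := M))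
    rw [← inducedCentralChar_eq_omega, ← inducedCentralChar_eq_omega,
      ← centralChar_eq_inducedCentralChar χ₀.2 θ₀.2 hcon] at e3
    have e4 := memLocalIdeal_add (e1 (n : G)) e3
    convert e4 using 1
    ring
  · intro h
    obtain ⟨χ₀, rfl⟩ := id hB
    obtain ⟨θ₀, rfl⟩ := id hb
    have hχ₀ := mem_blockOf_self (M := M) χ₀
    have hθ₀ := mem_blockOf_self (M := M) θ₀
    obtain ⟨θ', hθ', hcon⟩ := exists_constituent_of_congr hb hθ₀ (h χ₀ hχ₀ θ₀ hθ₀)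
    exact ⟨χ₀, hχ₀, θ', hθ', hcon⟩

end Cfsg.Agent.S0965
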