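import Mathlib
import Cfsg.Prelude.Def_Blocks
import Cfsg.Agent.Lib.Blocks.Covering
set_option autoImplicit false
namespace Cfsg.Agent.S0966

open Cfsg Cfsg.Agent.Lib.Blocks.Covering Cfsg.Agent.Lib.Blocks.Osima Cfsg.Agent.Lib.Blocks.Central

theorem result {G : Type*} [Group G] [Fintype G] (p : ℕ) [Fact p.Prime] (M : Ideal Cfsg.AlgInt) (hM : Cfsg.IsPModular p M) (N : Subgroup G) [N.Normal] [Fintype N] (hidx : ∃ k : ℕ, N.index = p ^ k) (b : Set (Cfsg.IrrCharacter N)) (hb : Cfsg.IsPBlock M b) : ∃! B : Set (Cfsg.IrrCharacter G), Cfsg.IsPBlock M B ∧ ∃ χ ∈ B, ∃ θ ∈ b, Cfsg.classInner (fun n : N => (χ : G → ℂ) n) (θ : N → ℂ) ≠ 0 := by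
  haveI : M.IsPrime := hM.2.1.isPrime
  obtain ⟨θ₀, rfl⟩ := hb
  obtain ⟨χ, hχ⟩ := exists_irr_of_constituent θ₀.2
  refine ⟨blockOf M (χ : G → ℂ), ⟨⟨χ, rfl⟩, χ, mem_blockOf_self χ, θ₀, mem_blockOf_self θ₀, hχ⟩, ?_⟩
  rintro B ⟨⟨χ₁, rfl⟩, χ₂, hχ₂, θ₁, hθ₁, hcon⟩
  have h1 : SameBlock M (χ : G → ℂ) (χ₂ : G → ℂ) := sameBlock_of_constituents hM hidx hχ hcon hθ₁
  rw [← blockOf_eq_of_mem hχ₂]
  exact blockOf_eq_of_mem h1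

end Cfsg.Agent.S0966
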