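import Mathlib
import Cfsg.Prelude.Def_Blocks
import Cfsg.Agent.Lib.Blocks.Kernel
set_option autoImplicit false
namespace Cfsg.Agent.S0967

open Cfsg Cfsg.Agent.Lib.Blocks.Covering Cfsg.Agent.Lib.Blocks.Kernel Cfsg.Agent.Lib.Blocks.Osima Cfsg.Agent.Lib.Blocks.Central

theorem result {G : Type*} [Group G] [Finite G] (p : ℕ) [Fact p.Prime] (M : Ideal Cfsg.AlgInt) (hM : Cfsg.IsPModular p M) (N : Subgroup G) [N.Normal] (hN : ¬ p ∣ Nat.card N) (χ : Cfsg.IrrCharacter (G ⧸ N)) (ψ : Cfsg.IrrCharacter G) (hψ : ψ ∈ Cfsg.blockOf M ((χ : G ⧸ N → ℂ) ∘ QuotientGroup.mk)) : ∃ ψ' : Cfsg.IrrCharacter (G ⧸ N), (ψ : G → ℂ) = (ψ' : G ⧸ N → ℂ) ∘ QuotientGroup.mk ∧ Cfsg.SameBlock M (χ : G ⧸ N → ℂ) (ψ' : G ⧸ N → ℂ) := by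
  haveI : M.IsPrime := hM.2.1.isPrime
  haveI := Fintype.ofFinite G
  haveI : Fintype N := Fintype.ofFinite N
  haveI : Fintype (G ⧸ N) := Fintype.ofFinite _
  have hχ : IsIrrCharacter G ((χ : G ⧸ N → ℂ) ∘ QuotientGroup.mk) :=
    Cfsg.Agent.Lib.Char.Basic.isIrrCharacter_comp_surjective χ.2 (QuotientGroup.mk' N)
      (QuotientGroup.mk'_surjective N)
  have hk : ∀ n ∈ N, ((χ : G ⧸ N → ℂ) ∘ QuotientGroup.mk) n = ((χ : G ⧸ N → ℂ) ∘ QuotientGroup.mk) 1 := by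
    intro n hn
    simp only [Function.comp_apply, QuotientGroup.mk_one]
    rw [(QuotientGroup.eq_one_iff n).2 hn]
  have h1 := kernel_of_sameBlock N hM hN hχ ψ.2 hψ hk
  obtain ⟨ψ', hψ'⟩ := exists_irr_of_kernel N ψ.2 h1
  refine ⟨ψ', hψ', sameBlock_of_inflation N hM hN χ.2 ψ'.2 ?_⟩
  rw [← hψ']
  exact hψ

end Cfsg.Agent.S0967
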