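import Cfsg.Statements.S0972
import Mathlib
import Cfsg.Agent.Lib.Blocks.ReyDefect
import Cfsg.Agent.Lib.Blocks.CentralProd2
import Cfsg.Agent.Lib.Char.FrobPair
import Cfsg.Agent.Lib.Char.CompleteCor
import Cfsg.Agent.Lib.Char.LinearChars
import Cfsg.Agent.Lib.Char.Burnside2

set_option autoImplicit false
set_option linter.style.haveILetI false
open Cfsg

namespace Cfsg.Agent.S0972

open Cfsg.Agent.Lib.Blocks.Local Cfsg.Agent.Lib.Blocks.Central Cfsg.Agent.Lib.Blocks.Osima
  Cfsg.Agent.Lib.Blocks.Covering Cfsg.Agent.Lib.Blocks.FongReynolds Cfsg.Agent.Lib.Blocks.Knorr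
  Cfsg.Agent.Lib.Blocks.ReyDefect Cfsg.Agent.Lib.Blocks.CentralProd Cfsg.Agent.Lib.Blocks.CentralProd2
open scoped ComplexConjugate

/-- A group all of whose irreducible characters have degree one is commutative. -/
lemma comm_of_degree_one {A : Type*} [Group A] [Finite A]
    (h : ∀ l : IrrCharacter A, (l : A → ℂ) 1 = 1) (a c : A) : a * c = c * a := by
  classical
  haveI := Fintype.ofFinite A
  haveI := Fintype.ofFinite (IrrCharacter A)
  by_contra hne
  set g := a * c * a⁻¹ * c⁻¹ with hg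
  have hg1 : g ≠ 1 := by
    intro h1
    apply hne
    have : a * c * a⁻¹ = c := by
      rw [hg] at h1
      exact mul_inv_eq_one.1 h1
    exact mul_inv_eq_iff_eq_mul.1 this
  have hval : ∀ l : IrrCharacter A, (l : A → ℂ) g = 1 := by
    intro l
    obtain ⟨φ, hφ⟩ := Cfsg.Agent.Lib.Char.LinearChars.exists_hom_of_isCharacter_one
      (Cfsg.Agent.Lib.Char.Basic.isCharacter_of_isIrrCharacter l.2) (h l)
    rw [hφ]
    simp only [hg, map_mul, map_inv]
    rw [mul_comm (φ a), mul_inv_cancel_right, mul_inv_cancel]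
    simp
  have hnc : ¬ IsConj g 1 := fun hc => hg1 (isConj_one_right.1 hc.symm)
  have h0 := Cfsg.Agent.Lib.Char.CompleteCor.column_orth_not_conj hnc
  have h1 : ∑ χ : IrrCharacter A, (χ : A → ℂ) g * conj ((χ : A → ℂ) 1) =
      (Fintype.card (IrrCharacter A) : ℂ) := by
    simp [hval, h]
  rw [h1] at h0
  have h2 : Fintype.card (IrrCharacter A) = 0 := by exact_mod_cast h0
  have h3 : IsEmpty (IrrCharacter A) := Fintype.card_eq_zero_iff.1 h2
  exact h3.false ⟨_, Cfsg.Agent.Lib.Char.Burnside2.isIrrCharacter_one⟩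

/-- The structure of `P ⊔ C_G(P)`. -/
lemma sup_centralizer_subgroupOf {G : Type*} [Group G] (P : Subgroup G) [hP : P.Normal] :
    (P.subgroupOf (P ⊔ Subgroup.centralizer (P : Set G))) ⊔
      Subgroup.centralizer ((P.subgroupOf (P ⊔ Subgroup.centralizer (P : Set G)) :
        Subgroup ↥(P ⊔ Subgroup.centralizer (P : Set G))) : Set ↥(P ⊔ Subgroup.centralizer (P : Set G))) = ⊤ := by
  rw [eq_top_iff]
  rintro ⟨x, hx⟩ -
  have h1 : x ∈ ((P ⊔ Subgroup.centralizer (P : Set G) : Subgroup G) : Set G) := hx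
  rw [Subgroup.normal_mul] at h1
  obtain ⟨a, ha, c, hc, rfl⟩ := h1
  have ha' : a ∈ P ⊔ Subgroup.centralizer (P : Set G) := Subgroup.mem_sup_left ha
  have hc' : c ∈ P ⊔ Subgroup.centralizer (P : Set G) := Subgroup.mem_sup_right hc
  have : (⟨a * c, hx⟩ : ↥(P ⊔ Subgroup.centralizer (P : Set G))) = ⟨a, ha'⟩ * ⟨c, hc'⟩ := rfl
  rw [this]
  refine Subgroup.mul_mem_sup (Subgroup.mem_subgroupOf.2 ha) ?_
  rw [Subgroup.mem_centralizer_iff]
  rintro ⟨y, hy'⟩ hy
  apply Subtype.ext
  exact (Subgroup.mem_centralizer_iff.1 hc) y (Subgroup.mem_subgroupOf.1 hy)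

/-- The degrees of a block of `P ⊔ C_G(P)` with defect group `P`. -/
lemma block_degrees {N : Type*} [Group N] [Fintype N] {p : ℕ} [Fact p.Prime] {M : Ideal AlgInt}
    (hM : IsPModular p M) {P : Subgroup N} (hPp : IsPGroup p P)
    (hG : P ⊔ Subgroup.centralizer (P : Set N) = ⊤) {b : Set (IrrCharacter N)} (hb : IsPBlock M b)
    (hD : IsDefectGroup p M b P) :
    ∃ θ ∈ b, (charDegree (θ : N → ℂ)).factorization p = P.index.factorization p ∧
      (∀ θ' ∈ b, ∃ lam : IrrCharacter P, (θ' : N → ℂ) 1 = (lam : P → ℂ) 1 * (θ : N → ℂ) 1) ∧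
      ∀ lam : IrrCharacter P, ∃ θ' ∈ b, (θ' : N → ℂ) 1 = (lam : P → ℂ) 1 * (θ : N → ℂ) 1 := by
  obtain ⟨θ, hθ, hker, -, hPn, h1, h2⟩ := exists_structure hM hPp hG hb hD
  have hone : ¬ p ∣ orderOf (1 : N) := by
    rw [orderOf_one]
    exact (Fact.out : p.Prime).one_lt.ne' ∘ Nat.dvd_one.1
  refine ⟨θ, hθ, (Cfsg.Agent.S0968.result p M hM P hPp hG b hb hD).2.1 θ hθ hker, ?_, ?_⟩
  · intro θ' hθ'
    obtain ⟨lam, hl⟩ := (h1 θ').1 hθ'
    refine ⟨lam, ?_⟩
    rw [hl, chiFun_of_regular P _ hone]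
  · intro lam
    obtain ⟨θ', hθ', hl⟩ := h2 lam
    refine ⟨θ', hθ', ?_⟩
    rw [hl, chiFun_of_regular P _ hone]

theorem main {G : Type*} [Group G] [Fintype G] (p : ℕ) [hp : Fact p.Prime] (M : Ideal Cfsg.AlgInt)
    (hM : Cfsg.IsPModular p M) (B : Set (Cfsg.IrrCharacter G)) (hB : Cfsg.IsPBlock M B)
    (P : Subgroup G) [hPn : P.Normal] (hP : Cfsg.IsDefectGroup p M B P) :
    (∀ a ∈ P, ∀ c ∈ P, a * c = c * a) ↔ ∀ χ ∈ B, Cfsg.blockHeight p B (χ : G → ℂ) = 0 := by
  classical
  haveI hMp := isPrime_of_isPModular hM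
  have hPp : IsPGroup p P := by
    have := Cfsg.Agent.S0908.result p M hM B hB P hP
    exact IsPGroup.of_card this
  set N : Subgroup G := P ⊔ Subgroup.centralizer (P : Set G) with hNdef
  haveI hNn : N.Normal := by rw [hNdef]; infer_instance
  haveI : Fintype N := Fintype.ofFinite _
  have hPN : P ≤ N := le_sup_left
  have hCN : Subgroup.centralizer (P : Set G) ≤ N := le_sup_right
  have hPsub : IsPGroup p (P.subgroupOf N) := hPp.comap_of_injective _ (Subgroup.subtype_injective N)
  have hsup : (P.subgroupOf N) ⊔ Subgroup.centralizer ((P.subgroupOf N : Subgroup N) : Set N) = ⊤ :=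
    sup_centralizer_subgroupOf P
  have hsInf := sInf_eq hM hB hP
  have hindex : P.index = (P.subgroupOf N).index * N.index := by
    have := Subgroup.relIndex_mul_index hPN
    rw [← this]
    rfl
  have hfac : P.index.factorization p =
      (P.subgroupOf N).index.factorization p + N.index.factorization p := by
    rw [hindex, Nat.factorization_mul Subgroup.index_ne_zero_of_finite Subgroup.index_ne_zero_of_finite]
    rfl
  have hdeg : ∀ {X : Type _} [Group X] [Fintype X] {f : X → ℂ}, IsIrrCharacter X f →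
      ∃ d : ℕ, 0 < d ∧ f 1 = d ∧ charDegree f = d := by
    intro X _ _ f hf
    obtain ⟨d, hd0, hd⟩ := Cfsg.Agent.Lib.Char.Ortho.irr_degree_pos hf
    exact ⟨d, hd0, hd, charDegree_eq_of_apply_one hd⟩
  constructor
  · -- abelian implies height zero
    intro hab χ hχ
    obtain ⟨θ', hcon⟩ := exists_constituent (N := N) χ.2
    set b := blockOf M (θ' : N → ℂ) with hbdef
    have hb : IsPBlock M b := ⟨θ', rfl⟩
    have hθ' : θ' ∈ b := mem_blockOf_self θ'
    have hDb := isDefectGroup_subgroupOf hM hB hP hPN hb hχ hθ' hcon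
    obtain ⟨θ, hθ, hθfac, h1, -⟩ := block_degrees hM hPsub hsup hb hDb
    obtain ⟨lam, hlam⟩ := h1 θ' hθ'
    have hl1 : (lam : P.subgroupOf N → ℂ) 1 = 1 := by
      apply Cfsg.Agent.Lib.Char.FrobPair.degree_eq_one_of_comm _ lam.2
      rintro ⟨⟨a, haN⟩, ha⟩ ⟨⟨c, hcN⟩, hc⟩
      apply Subtype.ext
      apply Subtype.ext
      exact hab a (Subgroup.mem_subgroupOf.1 ha) c (Subgroup.mem_subgroupOf.1 hc)
    rw [hl1, one_mul] at hlam
    obtain ⟨e, he, hedvd⟩ := Cfsg.Agent.Lib.Char.DegreeDvd.exists_degree_ratio N χ.2 θ'.2 hcon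
    obtain ⟨dχ, hdχ0, hdχ, hcχ⟩ := hdeg χ.2
    obtain ⟨dθ, hdθ0, hdθ, hcθ⟩ := hdeg θ.2
    rw [hlam, hdχ, hdθ] at he
    have he' : dχ = e * dθ := by exact_mod_cast he
    have he0 : e ≠ 0 := by
      rintro rfl
      simp at he'
      omega
    have hI : Nat.factorization e p ≤ N.index.factorization p :=
      (Nat.factorization_le_iff_dvd he0 Subgroup.index_ne_zero_of_finite).2 hedvd p
    rw [blockHeight, hsInf, hcχ, he', Nat.factorization_mul he0 hdθ0.ne', Finsupp.add_apply]
    rw [hcθ] at hθfac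
    omega
  · -- height zero implies abelian
    intro hht
    have hlin : ∀ lam : IrrCharacter (P.subgroupOf N), (lam : P.subgroupOf N → ℂ) 1 = 1 := by
      intro lam
      obtain ⟨χ, hχ⟩ : ∃ χ, χ ∈ B := by
        obtain ⟨χ, rfl⟩ := id hB
        exact ⟨χ, mem_blockOf_self χ⟩
      obtain ⟨θ₀, hcon⟩ := exists_constituent (N := N) χ.2
      set b := blockOf M (θ₀ : N → ℂ) with hbdef
      have hb : IsPBlock M b := ⟨θ₀, rfl⟩
      have hθ₀ : θ₀ ∈ b := mem_blockOf_self θ₀
      have hDb := isDefectGroup_subgroupOf hM hB hP hPN hb hχ hθ₀ hcon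
      obtain ⟨θ, hθ, hθfac, -, h2⟩ := block_degrees hM hPsub hsup hb hDb
      obtain ⟨θ', hθ', hθ'1⟩ := h2 lam
      set T := blockStabilizer (G := G) b hb with hT
      have hS : IsStabilizer b T := isStabilizer_blockStabilizer (G := G) hb
      have hNT : N ≤ T := le_blockStabilizer (G := G) hb
      obtain ⟨χ', hχ', e, he⟩ := exists_mem_degree P hPp hPN hCN hM hb hS hNT hB hχ hθ₀ hcon hθ'
      have hdef := blockDefect_eq P hPp hPN hCN hM hb hS hNT hB hχ hθ₀ hcon
      -- the index is prime to p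
      have hcard1 := Cfsg.Agent.S0908.result p M hM B hB P hP
      have hcard2 := Cfsg.Agent.S0908.result p M hM b hb _ hDb
      have hcard3 : Nat.card (P.subgroupOf N) = Nat.card P :=
        Nat.card_congr (Subgroup.subgroupOfEquivOfLe hPN).toEquiv
      rw [hcard3, hcard1] at hcard2
      have hdd : blockDefect p B = blockDefect p b := Nat.pow_right_injective hp.out.two_le hcard2
      have hTN : (N.relIndex T).factorization p = 0 := by
        omega
      have hindexT : (N.relIndex T) * T.index = N.index := Subgroup.relIndex_mul_index hNT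
      have hfacT : N.index.factorization p = T.index.factorization p := by
        have hrel0 : N.relIndex T ≠ 0 := (Subgroup.index_ne_zero_of_finite : (N.subgroupOf T).index ≠ 0)
        rw [← hindexT, Nat.factorization_mul hrel0 Subgroup.index_ne_zero_of_finite,
          Finsupp.add_apply, hTN, zero_add]
      -- degrees
      obtain ⟨dχ, hdχ0, hdχ, hcχ⟩ := hdeg χ'.2
      obtain ⟨dθ, hdθ0, hdθ, hcθ⟩ := hdeg θ.2
      obtain ⟨dl, hdl0, hdl, -⟩ := hdeg lam.2
      rw [hdχ, hθ'1, hdl, hdθ] at he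
      have he' : dχ = T.index * (e * (dl * dθ)) := by exact_mod_cast he
      have he0 : e ≠ 0 := by
        rintro rfl
        simp at he'
        omega
      have hfacχ : dχ.factorization p = T.index.factorization p + (e.factorization p +
          (dl.factorization p + dθ.factorization p)) := by
        rw [he', Nat.factorization_mul Subgroup.index_ne_zero_of_finite
          (mul_ne_zero he0 (mul_ne_zero hdl0.ne' hdθ0.ne')), Nat.factorization_mul he0
          (mul_ne_zero hdl0.ne' hdθ0.ne'), Nat.factorization_mul hdl0.ne' hdθ0.ne']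
        rfl
      have hh := hht χ' hχ'
      rw [blockHeight, hsInf, hcχ] at hh
      rw [hcθ] at hθfac
      have hdlp : dl.factorization p = 0 := by omega
      -- the degree of `lam` is a power of `p`
      have hdvd : dl ∣ Nat.card (P.subgroupOf N) := by
        have := Cfsg.Agent.Lib.Blocks.HeightZero.charDegree_dvd_card lam.2
        rwa [charDegree_eq_of_apply_one hdl] at this
      rw [hcard3, hcard1] at hdvd
      obtain ⟨k, -, rfl⟩ := (Nat.dvd_prime_pow hp.out).1 hdvd
      rw [Nat.Prime.factorization_pow hp.out] at hdlp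
      simp at hdlp
      rw [hdl, hdlp]
      simp
    intro a ha c hc
    have := comm_of_degree_one hlin ⟨⟨a, hPN ha⟩, Subgroup.mem_subgroupOf.2 ha⟩
      ⟨⟨c, hPN hc⟩, Subgroup.mem_subgroupOf.2 hc⟩
    exact congrArg (fun x : P.subgroupOf N => ((x : N) : G)) this

/-- Let B be a block of the finite group G (relative to a maximal ideal M of the algebraic integers containing the prime p) with a defect group P that is normal in G. Then P is commutative if and only if every member of B has height zero. -/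
theorem result {G : Type*} [Group G] [Finite G] (p : ℕ) [Fact p.Prime] (M : Ideal Cfsg.AlgInt) (hM : Cfsg.IsPModular p M) (B : Set (Cfsg.IrrCharacter G)) (hB : Cfsg.IsPBlock M B) (P : Subgroup G) [P.Normal] (hP : Cfsg.IsDefectGroup p M B P) : (∀ a ∈ P, ∀ c ∈ P, a * c = c * a) ↔ ∀ χ ∈ B, Cfsg.blockHeight p B (χ : G → ℂ) = 0 := by
  classical
  haveI := Fintype.ofFinite G
  exact main p M hM B hB P hP

end Cfsg.Agent.S0972
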