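import Cfsg.Statements.S0987
import Mathlib
import Cfsg.Agent.Lib.Basic.SylowCount
import Cfsg.Agent.Lib.Basic.PCore
-- import your own Cfsg.Agent.* helpers here

set_option autoImplicit false
open Cfsg

namespace Cfsg.Agent.S0987


open Subgroup Cfsg.Agent.Lib.Basic.SylowCount

lemma minFac_eq_of_three {p q r : ℕ} (hp : p.Prime) (hq : q.Prime) (hr : r.Prime) (hpq : p < q) (hqr : q < r) :
    (p * q * r).minFac = p := by
  have h1 : (p * q * r).minFac ≤ p :=
    Nat.minFac_le_of_dvd hp.two_le (Dvd.dvd.mul_right (dvd_mul_right p q) r)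
  have hn : p * q * r ≠ 1 := by
    intro h
    have := Nat.eq_one_of_mul_eq_one_left h
    exact hr.one_lt.ne' this
  have hm := Nat.minFac_prime hn
  have h2 := Nat.minFac_dvd (p * q * r)
  have h3 : p ≤ (p * q * r).minFac := by
    rcases (Nat.Prime.dvd_mul hm).mp h2 with h | h
    · rcases (Nat.Prime.dvd_mul hm).mp h with h | h
      · exact ((Nat.prime_dvd_prime_iff_eq hm hp).mp h).ge
      · rw [(Nat.prime_dvd_prime_iff_eq hm hq).mp h]; omega
    · rw [(Nat.prime_dvd_prime_iff_eq hm hr).mp h]; omega
  omega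

lemma minFac_eq_of_two {q r : ℕ} (hq : q.Prime) (hr : r.Prime) (hqr : q < r) :
    (q * r).minFac = q := by
  have h1 : (q * r).minFac ≤ q :=
    Nat.minFac_le_of_dvd hq.two_le (dvd_mul_right q r)
  have hn : q * r ≠ 1 := by
    intro h
    have := Nat.eq_one_of_mul_eq_one_left h
    exact hr.one_lt.ne' this
  have hm := Nat.minFac_prime hn
  have h2 := Nat.minFac_dvd (q * r)
  have h3 : q ≤ (q * r).minFac := by
    rcases (Nat.Prime.dvd_mul hm).mp h2 with h | h
    · exact ((Nat.prime_dvd_prime_iff_eq hm hq).mp h).ge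
    · rw [(Nat.prime_dvd_prime_iff_eq hm hr).mp h]; omega
  omega

lemma modEq_one_lt {a r : ℕ} (h : a ≡ 1 [MOD r]) (har : a < r) (hr : 1 < r) : a = 1 := by
  have h1 : a % r = 1 % r := h
  rwa [Nat.mod_eq_of_lt har, Nat.mod_eq_of_lt hr] at h1

/-- If a finite group has order pqr for primes p < q < r, then its Sylow r-subgroups are normal. -/
theorem result {G : Type*} [Group G] [Finite G] (p q r : ℕ) (hp : p.Prime) (hq : q.Prime) [Fact r.Prime] (hpq : p < q) (hqr : q < r) (hG : Nat.card G = p * q * r) (R : Sylow r G) : (R : Subgroup G).Normal := by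
  classical
  haveI : Fact q.Prime := ⟨hq⟩
  have hr : r.Prime := Fact.out
  have hnr : ¬ r ∣ p * q := by
    intro h
    rcases (Nat.Prime.dvd_mul hr).mp h with h | h
    · have := (Nat.prime_dvd_prime_iff_eq hr hp).mp h; omega
    · have := (Nat.prime_dvd_prime_iff_eq hr hq).mp h; omega
  have hnq : ¬ q ∣ p * r := by
    intro h
    rcases (Nat.Prime.dvd_mul hq).mp h with h | h
    · have := (Nat.prime_dvd_prime_iff_eq hq hp).mp h; omega
    · have := (Nat.prime_dvd_prime_iff_eq hq hr).mp h; omega
  have hrdvd : r ∣ Nat.card G := by rw [hG]; exact dvd_mul_left _ _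
  have hr2 : ¬ r ^ 2 ∣ Nat.card G := by
    rw [hG, pow_two]
    intro h
    exact hnr (Nat.dvd_of_mul_dvd_mul_right hr.pos h)
  have hqdvd : q ∣ Nat.card G := by rw [hG]; exact Dvd.dvd.mul_right (dvd_mul_left q p) r
  have hq2 : ¬ q ^ 2 ∣ Nat.card G := by
    have e : p * q * r = (p * r) * q := by ring
    rw [hG, pow_two, e]
    intro h
    exact hnq (Nat.dvd_of_mul_dvd_mul_right hq.pos h)
  have hRc := card_sylow_eq_prime hrdvd hr2
  have hQc := card_sylow_eq_prime hqdvd hq2
  by_contra hnot
  -- `n_r = pq`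
  have hnr1 : Nat.card (Sylow r G) ≠ 1 := by
    intro h
    have := (Nat.card_eq_one_iff_unique.mp h).1
    exact hnot (Sylow.normal_of_subsingleton R)
  have hnrmod : Nat.card (Sylow r G) ≡ 1 [MOD r] := card_sylow_modEq_one r G
  have hnrdvd : Nat.card (Sylow r G) ∣ p * q := by
    have h1 : Nat.card (Sylow r G) ∣ (R : Subgroup G).index := R.card_dvd_index
    have h2 : Nat.card R * (R : Subgroup G).index = Nat.card G := Subgroup.card_mul_index _
    rw [hRc R, hG] at h2
    have h3 : (R : Subgroup G).index = p * q := by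
      apply Nat.eq_of_mul_eq_mul_left hr.pos
      rw [h2]; ring
    rwa [h3] at h1
  have hnreq : Nat.card (Sylow r G) = p * q := by
    obtain ⟨a, b, ha, hb, hab⟩ := (Nat.dvd_mul).mp hnrdvd
    rcases (Nat.dvd_prime hp).mp ha with rfl | rfl <;> rcases (Nat.dvd_prime hq).mp hb with rfl | rfl
    · omega
    · exfalso
      rw [one_mul] at hab
      rw [← hab] at hnrmod hnr1
      exact hnr1 (modEq_one_lt hnrmod hqr hr.one_lt)
    · exfalso
      rw [mul_one] at hab
      rw [← hab] at hnrmod hnr1
      exact hnr1 (modEq_one_lt hnrmod (hpq.trans hqr) hr.one_lt)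
    · exact hab.symm
  -- `n_q`
  obtain ⟨Q⟩ : Nonempty (Sylow q G) := inferInstance
  have hnqmod : Nat.card (Sylow q G) ≡ 1 [MOD q] := card_sylow_modEq_one q G
  have hnqdvd : Nat.card (Sylow q G) ∣ p * r := by
    have h1 : Nat.card (Sylow q G) ∣ (Q : Subgroup G).index := Q.card_dvd_index
    have h2 : Nat.card Q * (Q : Subgroup G).index = Nat.card G := Subgroup.card_mul_index _
    rw [hQc Q, hG] at h2
    have h3 : (Q : Subgroup G).index = p * r := by
      apply Nat.eq_of_mul_eq_mul_left hq.pos
      rw [h2]; ring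
    rwa [h3] at h1
  by_cases hq1 : Nat.card (Sylow q G) = 1
  · -- `Q` normal
    have hsub := (Nat.card_eq_one_iff_unique.mp hq1).1
    haveI hQn : (Q : Subgroup G).Normal := Sylow.normal_of_subsingleton Q
    set U : Subgroup G := (R : Subgroup G) ⊔ Q with hU
    have hRU : (R : Subgroup G) ≤ U := le_sup_left
    have hQU : (Q : Subgroup G) ≤ U := le_sup_right
    have hUcard : Nat.card U = q * r := by
      have h1 : (Q : Subgroup G).relIndex U = (Q : Subgroup G).relIndex R := Subgroup.relIndex_sup_right _ _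
      have h2 : (Q : Subgroup G).relIndex R ∣ Nat.card R := Subgroup.relIndex_dvd_card _ _
      have h3 : Nat.card ((Q : Subgroup G).subgroupOf U) * (Q : Subgroup G).relIndex U = Nat.card U :=
        Subgroup.card_mul_index _
      have h4 : Nat.card ((Q : Subgroup G).subgroupOf U) = q := by
        rw [Nat.card_congr (Subgroup.subgroupOfEquivOfLe hQU).toEquiv]
        exact hQc Q
      rw [h4, h1] at h3
      rw [hRc R] at h2
      apply Nat.dvd_antisymm
      · rw [← h3]; exact Nat.mul_dvd_mul_left q h2
      · have h5 : q ∣ Nat.card U := by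
          rw [← hQc Q]; exact Subgroup.card_dvd_of_le hQU
        have h6 : r ∣ Nat.card U := by
          have : Nat.card R ∣ Nat.card U := Subgroup.card_dvd_of_le hRU
          rwa [hRc R] at this
        exact Nat.Coprime.mul_dvd_of_dvd_of_dvd ((Nat.coprime_primes hq hr).mpr (by omega)) h5 h6
    have hUidx : U.index = p := by
      have h2 : Nat.card U * U.index = Nat.card G := Subgroup.card_mul_index _
      rw [hUcard, hG] at h2
      apply Nat.eq_of_mul_eq_mul_left (Nat.mul_pos hq.pos hr.pos)
      rw [h2]; ring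
    haveI hUn : U.Normal := by
      apply Subgroup.normal_of_index_eq_minFac_card
      rw [hUidx, hG, minFac_eq_of_three hp hq hr hpq hqr]
    let R' : Sylow r U := R.subtype hRU
    have hR'coe : (R' : Subgroup U) = (R : Subgroup G).subgroupOf U := Sylow.coe_subtype R hRU
    have hR'card : Nat.card (R' : Subgroup U) = r := by
      rw [hR'coe, Nat.card_congr (Subgroup.subgroupOfEquivOfLe hRU).toEquiv]
      exact hRc R
    have hR'idx : (R' : Subgroup U).index = q := by
      have h2 : Nat.card (R' : Subgroup U) * (R' : Subgroup U).index = Nat.card U := Subgroup.card_mul_index _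
      rw [hR'card, hUcard] at h2
      apply Nat.eq_of_mul_eq_mul_left hr.pos
      rw [h2]; ring
    haveI hR'n : (R' : Subgroup U).Normal := by
      apply Subgroup.normal_of_index_eq_minFac_card
      rw [hR'idx, hUcard, minFac_eq_of_two hq hr hqr]
    haveI hchar : (R' : Subgroup U).Characteristic := Sylow.characteristic_of_normal R' hR'n
    have hmap := Cfsg.Agent.Lib.Basic.PCore.map_subtype_normal_of_characteristic (R' : Subgroup U)
    rw [hR'coe, Subgroup.map_subgroupOf_eq_of_le hRU] at hmap
    exact hnot hmap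
  · -- count
    have hnqge : r ≤ Nat.card (Sylow q G) := by
      obtain ⟨a, b, ha, hb, hab⟩ := (Nat.dvd_mul).mp hnqdvd
      rcases (Nat.dvd_prime hp).mp ha with rfl | rfl <;> rcases (Nat.dvd_prime hr).mp hb with rfl | rfl
      · omega
      · rw [← hab]; omega
      · exfalso
        rw [mul_one] at hab
        rw [← hab] at hnqmod hq1
        exact hq1 (modEq_one_lt hnqmod hpq hq.one_lt)
      · rw [← hab]; exact Nat.le_mul_of_pos_left _ hp.pos
    have hA := card_orderOf_eq hRc
    have hB := card_orderOf_eq hQc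
    have := Fintype.ofFinite G
    have hle : Nat.card {x : G // orderOf x = r} + Nat.card {x : G // orderOf x = q} ≤ Nat.card G := by
      rw [← Nat.card_sum]
      apply Nat.card_le_card_of_injective (Sum.elim (fun a : {x : G // orderOf x = r} => (a : G))
        (fun b : {x : G // orderOf x = q} => (b : G)))
      rintro (⟨a, ha⟩ | ⟨b, hb⟩) (⟨c, hc⟩ | ⟨d, hd⟩) h
      · have h' : a = c := h
        subst h'; rfl
      · have h' : a = d := h
        subst h'
        omega
      · have h' : b = c := h
        subst h'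
        omega
      · have h' : b = d := h
        subst h'; rfl
    rw [hA, hB, hnreq, hG] at hle
    obtain ⟨q', rfl⟩ : ∃ q', q = q' + 1 := ⟨q - 1, by have := hq.pos; omega⟩
    obtain ⟨r', rfl⟩ : ∃ r', r = r' + 1 := ⟨r - 1, by have := hr.pos; omega⟩
    simp only [Nat.add_sub_cancel] at hle
    have h1 : (r' + 1) * q' ≤ Nat.card (Sylow (q' + 1) G) * q' := Nat.mul_le_mul_right _ hnqge
    have h2 : p ≤ q' := by omega
    have h3 : q' + 1 ≤ r' := by omega
    have h4 : q' ≠ 0 := by
      rintro rfl
      exact hq.one_lt.ne rfl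
    have h5 : (r' + 1) * q' ≤ p * (q' + 1) := by nlinarith
    have h6 : p * (q' + 1) ≤ q' * (q' + 1) := Nat.mul_le_mul_right _ h2
    have h7 : (q' + 2) * q' ≤ (r' + 1) * q' := Nat.mul_le_mul_right _ (by omega)
    have h8 : (q' + 2) * q' ≤ q' * (q' + 1) := h7.trans (h5.trans h6)
    have h9 : 0 < q' := Nat.pos_of_ne_zero h4
    nlinarith

end Cfsg.Agent.S0987
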