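import Cfsg.Statements.S0988
import Cfsg.Agent.Lib.Basic.SmallSimple
import Mathlib

set_option autoImplicit false
open Cfsg

namespace Cfsg.Agent.S0988

open Cfsg.Agent.Lib.Basic.SmallSimple

universe u

/-- An automorphism of prime order `s > p` of a group of order `p ^ 2`, then `p = 2` and `s = 3`. -/
theorem aut_case {P : Type*} [Group P] [Finite P] {p s : ℕ} (hp : p.Prime) (hs : s.Prime)
    (hps : p < s) (hP : Nat.card P = p ^ 2) (σ : MulAut P) (hσ : orderOf σ = s) : p = 2 ∧ s = 3 := by
  classical
  haveI : Fact s.Prime := ⟨hs⟩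
  let H := Subgroup.zpowers σ
  have hH : IsPGroup s H := by
    apply IsPGroup.of_card (n := 1)
    rw [Nat.card_zpowers, hσ, pow_one]
  have hmod := hH.card_modEq_card_fixedPoints P
  let F : Subgroup P :=
    { carrier := {x | σ x = x}
      mul_mem' := by
        intro a b ha hb
        show σ (a * b) = a * b
        rw [map_mul, show σ a = a from ha, show σ b = b from hb]
      one_mem' := by
        show σ 1 = 1
        rw [map_one]
      inv_mem' := by
        intro a ha
        show σ a⁻¹ = a⁻¹
        rw [map_inv, show σ a = a from ha] }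
  have hF : Nat.card (MulAction.fixedPoints H P) = Nat.card F := by
    refine Nat.card_congr (Equiv.subtypeEquivRight fun x => ?_)
    constructor
    · intro hx
      exact hx ⟨σ, Subgroup.mem_zpowers σ⟩
    · intro hx
      rintro ⟨h, hh⟩
      obtain ⟨k, rfl⟩ := Subgroup.mem_zpowers_iff.mp hh
      have hx' : σ • x = x := hx
      show (σ ^ k) • x = x
      exact MulAction.mem_fixedBy_zpow (show x ∈ MulAction.fixedBy P σ from hx') k
  rw [hF, hP] at hmod
  have hFd : Nat.card F ∣ p ^ 2 := by
    rw [← hP]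
    exact Subgroup.card_subgroup_dvd_card F
  obtain ⟨j, hj, hFj⟩ := (Nat.dvd_prime_pow hp).mp hFd
  have hj2 : j ≠ 2 := by
    rintro rfl
    have htop : F = ⊤ := by
      apply Subgroup.eq_top_of_card_eq
      rw [hFj, hP]
    have h1 : σ = 1 := by
      ext x
      have : x ∈ F := by rw [htop]; trivial
      exact this
    rw [h1, orderOf_one] at hσ
    exact hs.one_lt.ne hσ
  have hp1 := hp.one_lt
  have hcases : j = 0 ∨ j = 1 := by omega
  have hdvd : s ∣ (p - 1) * (p + 1) ∨ s ∣ p * (p - 1) := by
    rcases hcases with rfl | rfl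
    · left
      rw [hFj, pow_zero] at hmod
      have h2 := (Nat.modEq_iff_dvd' (Nat.one_le_pow _ _ hp.pos)).mp hmod.symm
      have h3 : p ^ 2 - 1 = (p - 1) * (p + 1) := by
        obtain ⟨c, rfl⟩ : ∃ c, p = c + 1 := ⟨p - 1, by omega⟩
        simp only [Nat.add_sub_cancel]
        have : (c + 1) ^ 2 = c * (c + 1 + 1) + 1 := by ring
        omega
      rwa [h3] at h2
    · right
      rw [hFj, pow_one] at hmod
      have h2 := (Nat.modEq_iff_dvd' (by nlinarith)).mp hmod.symm
      have h3 : p ^ 2 - p = p * (p - 1) := by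
        obtain ⟨c, rfl⟩ : ∃ c, p = c + 1 := ⟨p - 1, by omega⟩
        simp only [Nat.add_sub_cancel]
        have : (c + 1) ^ 2 = (c + 1) * c + (c + 1) := by ring
        omega
      rwa [h3] at h2
  have hnd1 : ¬ s ∣ p - 1 := fun h => by
    have := Nat.le_of_dvd (by omega) h
    omega
  have hnd2 : ¬ s ∣ p := fun h => by
    have := Nat.le_of_dvd hp.pos h
    omega
  have hsp : s ∣ p + 1 := by
    rcases hdvd with h | h
    · exact (hs.dvd_mul.mp h).resolve_left hnd1
    · rcases hs.dvd_mul.mp h with h2 | h2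
      · exact absurd h2 hnd2
      · exact absurd h2 hnd1
  have hsle := Nat.le_of_dvd (by omega) hsp
  have hseq : s = p + 1 := by omega
  have hp2 : p = 2 := by
    rcases hp.eq_two_or_odd' with h | h
    · exact h
    · exfalso
      have h2 : Even s := by
        rw [hseq]
        exact h.add_one
      have h3 := (hs.even_iff).mp h2
      omega
  exact ⟨hp2, by omega⟩

/-- The main case `p < q < r`. -/
theorem main_aux {G : Type u} [Group G] [Finite G] [IsSimpleGroup G] (p q r : ℕ) (hp : p.Prime)
    (hq : q.Prime) (hr : r.Prime) (hpq : p < q) (hqr : q < r)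
    (hG : Nat.card G = p ^ 2 * q * r) : Nat.card G = 60 := by
  classical
  haveI : Fact p.Prime := ⟨hp⟩
  obtain ⟨P⟩ : Nonempty (Sylow p G) := inferInstance
  have hcopqr : Nat.Coprime p (q * r) :=
    Nat.Coprime.mul_right ((Nat.coprime_primes hp hq).mpr hpq.ne)
      ((Nat.coprime_primes hp hr).mpr (hpq.trans hqr).ne)
  have hG' : Nat.card G = p ^ 2 * (q * r) := by rw [hG]; ring
  have hPcard : Nat.card (P : Subgroup G) = p ^ 2 := by
    obtain ⟨k, hk⟩ := P.2.exists_card_eq
    have hidx := Subgroup.card_mul_index (P : Subgroup G)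
    rw [hk, hG'] at hidx
    have hn := P.not_dvd_index
    have h1 : p ^ 2 ∣ p ^ k := by
      have h2 : Nat.Coprime (p ^ 2) (P : Subgroup G).index :=
        Nat.Coprime.pow_left _ ((Nat.Prime.coprime_iff_not_dvd hp).mpr hn)
      exact h2.dvd_of_dvd_mul_right (hidx ▸ dvd_mul_right _ _)
    have h3 : p ^ k ∣ p ^ 2 := by
      have h2 : Nat.Coprime (p ^ k) (q * r) := Nat.Coprime.pow_left _ hcopqr
      exact h2.dvd_of_dvd_mul_right (hidx ▸ dvd_mul_right _ _)
    rw [hk]
    exact Nat.dvd_antisymm h3 h1
  have hcomm : ∀ a b : (P : Subgroup G), a * b = b * a :=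
    IsPGroup.commutative_of_card_eq_prime_sq (p := p) hPcard
  have hqr1 : 1 < q * r := by nlinarith [hq.two_le, hr.two_le]
  have hppos : 0 < p ^ 2 := pow_pos hp.pos 2
  have hne : ¬ Subgroup.normalizer (P : Set G) ≤ Subgroup.centralizer (P : Set G) := by
    intro hle
    have h1 := card_eq_of_le_centralizer (by rw [hG']; exact (dvd_pow_self p two_ne_zero).trans (dvd_mul_right _ _)) P hle
    rw [hPcard, hG'] at h1
    have h2 : p ^ 2 * (q * r) = p ^ 2 * 1 := by rw [h1, mul_one]
    have := Nat.eq_of_mul_eq_mul_left hppos h2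
    omega
  -- the automorphism group action
  let f := (P : Subgroup G).normalizerMonoidHom
  have hker : f.ker = (Subgroup.centralizer ((P : Subgroup G) : Set G)).subgroupOf
      (Subgroup.normalizer ((P : Subgroup G) : Set G)) := Subgroup.normalizerMonoidHom_ker _
  have hrange : f.range ≠ ⊥ := by
    intro hbot
    apply hne
    have h1 : f.ker = ⊤ := (MonoidHom.range_eq_bot_iff).mp hbot |> fun h => by
      rw [h]
      exact MonoidHom.ker_one
    intro g hg
    have h2 : (⟨g, hg⟩ : Subgroup.normalizer ((P : Subgroup G) : Set G)) ∈ f.ker := by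
      rw [h1]; trivial
    rw [hker] at h2
    exact Subgroup.mem_subgroupOf.mp h2
  have hcardR : Nat.card f.range ≠ 1 := fun h => hrange (Subgroup.card_eq_one.mp h)
  obtain ⟨s, hs, hsd⟩ := Nat.exists_prime_and_dvd hcardR
  haveI : Fact s.Prime := ⟨hs⟩
  obtain ⟨σ, hσ⟩ := exists_prime_orderOf_dvd_card' (G := f.range) s hsd
  have hσ' : orderOf (σ : MulAut (P : Subgroup G)) = s := by
    rw [Subgroup.orderOf_coe]
    exact hσ
  -- `s` divides `q * r`
  have hsqr : s ∣ q * r := by
    have h1 : f.ker.index = Nat.card f.range := Subgroup.index_ker f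
    let P' := ((P : Subgroup G)).subgroupOf (Subgroup.normalizer ((P : Subgroup G) : Set G))
    have hP'le : P' ≤ f.ker := by
      intro x hx
      rw [hker]
      apply Subgroup.mem_subgroupOf.mpr
      rw [Subgroup.mem_centralizer_iff]
      intro y hy
      have hx' : (x : G) ∈ (P : Subgroup G) := Subgroup.mem_subgroupOf.mp hx
      have := hcomm ⟨y, hy⟩ ⟨x, hx'⟩
      exact congrArg Subtype.val this
    have h2 : f.ker.index ∣ P'.index := Subgroup.index_dvd_of_le hP'le
    have h3 : Nat.card P' = p ^ 2 := by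
      rw [← hPcard]
      exact Nat.card_congr (Subgroup.subgroupOfEquivOfLe Subgroup.le_normalizer).toEquiv
    have h4 := Subgroup.card_mul_index P'
    rw [h3] at h4
    have h5 : P'.index ∣ q * r := by
      have h6 : Nat.card (Subgroup.normalizer ((P : Subgroup G) : Set G)) ∣ p ^ 2 * (q * r) := by
        rw [← hG']
        exact Subgroup.card_subgroup_dvd_card _
      rw [← h4] at h6
      exact Nat.dvd_of_mul_dvd_mul_left hppos h6
    exact hsd.trans (h1 ▸ h2.trans h5)
  have hs_cases : s = q ∨ s = r := by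
    rcases hs.dvd_mul.mp hsqr with h | h
    · exact Or.inl ((Nat.prime_dvd_prime_iff_eq hs hq).mp h)
    · exact Or.inr ((Nat.prime_dvd_prime_iff_eq hs hr).mp h)
  have hps : p < s := by
    rcases hs_cases with rfl | rfl
    · exact hpq
    · exact hpq.trans hqr
  obtain ⟨hp2, hs3⟩ := aut_case hp hs hps hPcard _ hσ'
  subst hp2
  subst hs3
  have hq3 : q = 3 := by
    rcases hs_cases with h | h
    · exact h.symm
    · omega
  subst hq3
  -- now `|G| = 12 * r`
  by_cases hr5 : r = 5
  · rw [hG, hr5]
    norm_num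
  · exfalso
    have hr7 : 7 ≤ r := by
      by_contra hlt
      push Not at hlt
      interval_cases r
      · norm_num at hr
      · exact hr5 rfl
      · norm_num at hr
    have hG12 : Nat.card G = r * 12 := by rw [hG]; ring
    refine false_of_sylow r 12 hr hG12 ?_ (by norm_num) ?_
    · intro h
      have := Nat.le_of_dvd (by norm_num) h
      have h13 : r = 7 ∨ r = 11 ∨ r = 8 ∨ r = 9 ∨ r = 10 ∨ r = 12 := by omega
      rcases h13 with rfl | rfl | rfl | rfl | rfl | rfl <;> first | (norm_num at h; done) | (norm_num at hr; done)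
    · intro d hd hmod
      have hd' : d ∈ ({1, 2, 3, 4, 6, 12} : Finset ℕ) := by
        have : Nat.divisors 12 = {1, 2, 3, 4, 6, 12} := by decide
        rwa [this] at hd
      have h1r : 1 % r = 1 := Nat.mod_eq_of_lt (show 1 < r by omega)
      rw [h1r] at hmod
      simp only [Finset.mem_insert, Finset.mem_singleton] at hd'
      rcases hd' with rfl | rfl | rfl | rfl | rfl | rfl
      · exact Or.inl rfl
      · rw [Nat.mod_eq_of_lt (show 2 < r by omega)] at hmod; omega
      · rw [Nat.mod_eq_of_lt (show 3 < r by omega)] at hmod; omega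
      · rw [Nat.mod_eq_of_lt (show 4 < r by omega)] at hmod; omega
      · rw [Nat.mod_eq_of_lt (show 6 < r by omega)] at hmod; omega
      · right
        have e : 12 / 12 * r = r := by simp
        rw [e, Nat.Prime.coprime_iff_not_dvd hr]
        intro h
        have := Nat.le_of_dvd (by omega) h
        omega

/-- The smallest prime case: a Sylow subgroup of prime order for the smallest prime. -/
theorem minFac_case {G : Type u} [Group G] [Finite G] [IsSimpleGroup G] (ℓ m : ℕ) (hℓ : ℓ.Prime)
    (hN : Nat.card G = ℓ * m) (hm : 1 < m) (hℓm : ¬ ℓ ∣ m)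
    (hmin : ∀ s : ℕ, s.Prime → s ∣ m → ℓ < s) : False := by
  haveI : Fact ℓ.Prime := ⟨hℓ⟩
  obtain ⟨P⟩ : Nonempty (Sylow ℓ G) := inferInstance
  have hcard := card_sylow_eq_of_card_eq hℓ hN hℓm P
  have hcyc : IsCyclic (P : Subgroup G) := isCyclic_of_prime_card (p := ℓ) hcard
  have hcard1 : Nat.card G ≠ 1 := by
    rw [hN]
    have := hℓ.two_le
    nlinarith
  have hminFac : (Nat.card G).minFac = ℓ := by
    have hmp := Nat.minFac_prime hcard1
    have hd := Nat.minFac_dvd (Nat.card G)
    rw [hN] at hd
    have hle : (Nat.card G).minFac ≤ ℓ := Nat.minFac_le_of_dvd hℓ.two_le (hN ▸ dvd_mul_right ℓ m)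
    rcases hmp.dvd_mul.mp (by rw [← hN]; exact Nat.minFac_dvd _) with h | h
    · exact (Nat.prime_dvd_prime_iff_eq hmp hℓ).mp h
    · have := hmin _ hmp h
      omega
  have hle := IsCyclic.normalizer_le_centralizer hminFac hcyc
  have h1 := card_eq_of_le_centralizer (hN ▸ dvd_mul_right ℓ m) P hle
  rw [hcard, hN] at h1
  have hpos := hℓ.pos
  nlinarith

/-- If a finite simple group has order p^2 * q * r with p, q and r prime, then its order is 60. -/
theorem result {G : Type*} [Group G] [Finite G] [IsSimpleGroup G] (p q r : ℕ) (hp : p.Prime) (hq : q.Prime) (hr : r.Prime) (hG : Nat.card G = p ^ 2 * q * r) : Nat.card G = 60 := by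
  have hnp : ¬ (Nat.card G).Prime := by
    rw [hG]
    apply Nat.not_prime_mul
    · have := hq.two_le
      have := hp.two_le
      have : 1 < p ^ 2 * q := by nlinarith [pow_pos hp.pos 2]
      omega
    · exact hr.one_lt.ne'
  -- equal primes
  by_cases hpq : p = q
  · subst hpq
    exact absurd (prime_card_of_card_eq hp hr 3 1 (by rw [hG]; ring)) hnp
  by_cases hpr : p = r
  · subst hpr
    exact absurd (prime_card_of_card_eq hp hq 3 1 (by rw [hG]; ring)) hnp
  by_cases hqr : q = r
  · subst hqr
    exact absurd (prime_card_of_card_eq hp hq 2 2 (by rw [hG]; ring)) hnp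
  have hcop : ∀ a b : ℕ, a.Prime → b.Prime → a ≠ b → ¬ a ∣ b := fun a b ha hb hab h =>
    hab ((Nat.prime_dvd_prime_iff_eq ha hb).mp h)
  -- `q` is the smallest
  by_cases h1 : q < p ∧ q < r
  · exfalso
    refine minFac_case q (p ^ 2 * r) hq (by rw [hG]; ring) ?_ ?_ ?_
    · have := hr.two_le
      have : 0 < p ^ 2 := pow_pos hp.pos 2
      nlinarith
    · intro h
      rcases hq.dvd_mul.mp h with h2 | h2
      · exact hcop q p hq hp (Ne.symm hpq) (hq.dvd_of_dvd_pow h2)
      · exact hcop q r hq hr hqr h2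
    · intro s hs hd
      rcases hs.dvd_mul.mp hd with h2 | h2
      · rw [(Nat.prime_dvd_prime_iff_eq hs hp).mp (hs.dvd_of_dvd_pow h2)]
        exact h1.1
      · rw [(Nat.prime_dvd_prime_iff_eq hs hr).mp h2]
        exact h1.2
  by_cases h2 : r < p ∧ r < q
  · exfalso
    refine minFac_case r (p ^ 2 * q) hr (by rw [hG]; ring) ?_ ?_ ?_
    · have := hq.two_le
      have : 0 < p ^ 2 := pow_pos hp.pos 2
      nlinarith
    · intro h
      rcases hr.dvd_mul.mp h with h3 | h3
      · exact hcop r p hr hp (Ne.symm hpr) (hr.dvd_of_dvd_pow h3)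
      · exact hcop r q hr hq (Ne.symm hqr) h3
    · intro s hs hd
      rcases hs.dvd_mul.mp hd with h3 | h3
      · rw [(Nat.prime_dvd_prime_iff_eq hs hp).mp (hs.dvd_of_dvd_pow h3)]
        exact h2.1
      · rw [(Nat.prime_dvd_prime_iff_eq hs hq).mp h3]
        exact h2.2
  -- `p` is the smallest
  have hpq' : p < q := by omega
  have hpr' : p < r := by omega
  rcases Nat.lt_or_gt_of_ne hqr with h3 | h3
  · exact main_aux p q r hp hq hr hpq' h3 hG
  · exact main_aux p r q hp hr hq hpr' h3 (by rw [hG]; ring)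

end Cfsg.Agent.S0988
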