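import Cfsg.Statements.S0989
import Mathlib
set_option autoImplicit false
open Cfsg Equiv Equiv.Perm Nat

namespace Cfsg.Agent.S0989

theorem core {α : Type*} [Fintype α] [DecidableEq α] (p : ℕ) (hp : p.Prime)
    (hα : Fintype.card α = p ∨ Fintype.card α = p + 1) (Q : Subgroup (Perm α))
    (hPcard : Nat.card Q = p) : Nat.card ↥(Subgroup.normalizer (Q : Set (Perm α))) = p * (p - 1) := by
  haveI : Fact p.Prime := ⟨hp⟩
  set n := Fintype.card α with hn
  have hp2 := hp.two_le
  have hn2 : n < 2 * p := by rcases hα with h | h <;> omega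
  have hnp : p ≤ n := by rcases hα with h | h <;> omega
  haveI hcyc : IsCyclic Q := isCyclic_of_prime_card hPcard
  -- elements of order `p` are `p`-cycles
  have htype : ∀ x : Perm α, orderOf x = p → x.cycleType = {p} := by
    intro x hx
    obtain ⟨k, hk⟩ := cycleType_prime_order (σ := x) (by rw [hx]; exact hp)
    rw [hx] at hk
    have h1 := sum_cycleType x
    rw [hk, Multiset.sum_replicate, smul_eq_mul] at h1
    have h2 : x.support.card ≤ n := Finset.card_le_univ _
    have hk0 : k = 0 := by
      by_contra h0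
      have : 2 * p ≤ (k + 1) * p := Nat.mul_le_mul_right _ (by omega)
      omega
    rw [hk, hk0]
    rfl
  obtain ⟨c, hc⟩ := IsCyclic.exists_generator (α := Q)
  have hordc : orderOf c = p := by
    rw [← hPcard]; exact orderOf_eq_card_of_forall_mem_zpowers hc
  have hordc' : orderOf (c : Perm α) = p := by rw [Subgroup.orderOf_coe, hordc]
  have hzp : ∀ y ∈ Q, ∃ j : ℤ, y = (c : Perm α) ^ j := by
    intro y hy
    obtain ⟨j, hj⟩ := hc ⟨y, hy⟩
    refine ⟨j, ?_⟩
    have := congrArg Subtype.val hj
    simpa using this.symm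
  have hcent : Nat.card (Subgroup.centralizer (Q : Set (Perm α))) = p := by
    have h1 : Subgroup.centralizer (Q : Set (Perm α)) =
        Subgroup.centralizer ({(c : Perm α)} : Set (Perm α)) := by
      ext x
      rw [Subgroup.mem_centralizer_iff, Subgroup.mem_centralizer_singleton_iff]
      constructor
      · intro h2
        exact (h2 c c.2).symm
      · intro h2 y hy
        obtain ⟨j, rfl⟩ := hzp y hy
        exact (Commute.zpow_right (show Commute x (c : Perm α) from h2) j).symm.eq
    rw [h1, nat_card_centralizer, htype _ hordc']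
    have h2 : n - p = 0 ∨ n - p = 1 := by rcases hα with h | h <;> omega
    have h3 : (n - p)! = 1 := by rcases h2 with h | h <;> rw [h] <;> rfl
    simp [← hn, h3]
  have hker : Nat.card Q.normalizerMonoidHom.ker = p := by
    rw [Subgroup.normalizerMonoidHom_ker, ← hcent]
    exact Nat.card_congr (Subgroup.subgroupOfEquivOfLe (Subgroup.centralizer_le_normalizer _)).toEquiv
  have hsurj : Function.Surjective Q.normalizerMonoidHom := by
    intro f
    have hc1ord : orderOf ((f c : Q) : Perm α) = p := by
      rw [Subgroup.orderOf_coe, MulEquiv.orderOf_eq, hordc]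
    have hconj : IsConj (c : Perm α) ((f c : Q) : Perm α) := by
      rw [isConj_iff_cycleType_eq, htype _ hordc', htype _ hc1ord]
    obtain ⟨σ, hσ⟩ := isConj_iff.mp hconj
    have hfz : ∀ j : ℤ, σ * (c : Perm α) ^ j * σ⁻¹ = ((f c : Q) : Perm α) ^ j := by
      intro j
      rw [← conj_zpow, hσ]
    have hfc1 : (f c : Q) ≠ 1 := by
      intro h
      have : c = 1 := f.injective (by rw [h, map_one])
      rw [this, orderOf_one] at hordc
      omega
    have hzp1 : ∀ y ∈ Q, ∃ j : ℤ, y = ((f c : Q) : Perm α) ^ j := by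
      intro y hy
      have h1 := mem_zpowers_of_prime_card hPcard (g := f c) (g' := ⟨y, hy⟩) hfc1
      obtain ⟨j, hj⟩ := h1
      refine ⟨j, ?_⟩
      have := congrArg Subtype.val hj
      simpa using this.symm
    have hσN : σ ∈ Subgroup.normalizer (Q : Set (Perm α)) := by
      rw [Subgroup.mem_normalizer_iff]
      intro h
      constructor
      · intro hh
        obtain ⟨j, rfl⟩ := hzp h hh
        rw [hfz]
        exact Q.zpow_mem (f c).2 j
      · intro hh
        obtain ⟨j, hj⟩ := hzp1 _ hh
        rw [← hfz] at hj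
        have h2 : h = (c : Perm α) ^ j := by
          have := mul_left_cancel (mul_right_cancel hj)
          exact this
        rw [h2]
        exact Q.zpow_mem c.2 j
    refine ⟨⟨σ, hσN⟩, ?_⟩
    refine MulEquiv.ext fun x => Subtype.ext ?_
    obtain ⟨j, hj⟩ := hzp x x.2
    have h3 : x = c ^ j := Subtype.ext (by simpa using hj)
    have h4 : ((Q.normalizerMonoidHom ⟨σ, hσN⟩ x : Q) : Perm α) = σ * x * σ⁻¹ := rfl
    rw [h4, hj, hfz, h3, map_zpow]
    simp
  have h1 := Subgroup.card_mul_index Q.normalizerMonoidHom.ker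
  rw [Subgroup.index_ker, MonoidHom.range_eq_top.mpr hsurj, hker,
    Nat.card_congr Subgroup.topEquiv.toEquiv, IsCyclic.card_mulAut, hPcard, Nat.totient_prime hp] at h1
  exact h1.symm

/-- In the symmetric group on p or p + 1 letters, p a prime, the normalizer of a Sylow p-subgroup has order p * (p - 1). -/
theorem result {α : Type*} [Fintype α] [DecidableEq α] (p : ℕ) [Fact p.Prime] (hα : Fintype.card α = p ∨ Fintype.card α = p + 1) (P : Sylow p (Equiv.Perm α)) : Nat.card ↥(Subgroup.normalizer ((P : Subgroup (Equiv.Perm α)) : Set (Equiv.Perm α))) = p * (p - 1) := by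
  have hp : p.Prime := Fact.out
  set n := Fintype.card α with hn
  have hp2 := hp.two_le
  -- the order of `P`
  have hcardG : ∃ m, Nat.card (Perm α) = p * m ∧ ¬ p ∣ m := by
    rw [Nat.card_perm, Nat.card_eq_fintype_card, ← hn]
    have h1 : ¬ p ∣ (p - 1)! := by
      rw [hp.dvd_factorial]; omega
    have h2 : p ! = p * (p - 1)! := by
      obtain ⟨q, rfl⟩ : ∃ q, p = q + 1 := ⟨p - 1, by omega⟩
      simp [Nat.factorial_succ]
    rcases hα with h | h
    · rw [h]
      exact ⟨_, h2, h1⟩
    · rw [h, Nat.factorial_succ, h2]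
      refine ⟨(p + 1) * (p - 1)!, by ring, ?_⟩
      intro h3
      rcases (hp.dvd_mul).mp h3 with h4 | h4
      · have h5 : p ∣ 1 := (Nat.dvd_add_right (dvd_refl p)).mp h4
        exact hp.one_lt.ne' (Nat.dvd_one.mp h5)
      · exact h1 h4
  obtain ⟨m, hm, hpm⟩ := hcardG
  have hPcard : Nat.card (P : Subgroup (Perm α)) = p := by
    obtain ⟨k, hk⟩ := IsPGroup.iff_card.mp P.isPGroup'
    have h1 := Subgroup.card_mul_index (P : Subgroup (Perm α))
    have h2 : ¬ p ∣ (P : Subgroup (Perm α)).index := P.not_dvd_index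
    rw [hk, hm] at h1
    rcases k with _ | _ | k
    · rw [pow_zero, one_mul] at h1
      exact absurd (h1 ▸ dvd_mul_right p m) h2
    · simpa using hk
    · exfalso
      have h3 : p * (p ^ (k + 1) * (P : Subgroup (Perm α)).index) = p * m := by
        rw [← h1]; ring
      have h4 := Nat.eq_of_mul_eq_mul_left hp.pos h3
      exact hpm (h4 ▸ Dvd.dvd.mul_right (dvd_pow_self p (by omega)) _)
  exact core p hp hα _ hPcard

end Cfsg.Agent.S0989
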