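import Cfsg.Statements.S0990
import Mathlib
-- import your own Cfsg.Agent.* helpers here

set_option autoImplicit false
open Cfsg

namespace Cfsg.Agent.S0990

/-- Let p be an odd prime and P a Sylow p-subgroup of the symmetric group on a finite set with at least two elements. Then P is contained in the alternating group, and twice the order of the normalizer of P inside the alternating group equals the order of the normalizer of P in the symmetric group. -/
theorem result {α : Type*} [Fintype α] [DecidableEq α] (hα : 2 ≤ Fintype.card α) (p : ℕ) [Fact p.Prime] (hp : p ≠ 2) (P : Sylow p (Equiv.Perm α)) : (P : Subgroup (Equiv.Perm α)) ≤ alternatingGroup α ∧ 2 * Nat.card ↥(Subgroup.normalizer ((((P : Subgroup (Equiv.Perm α)).subgroupOf (alternatingGroup α) : Subgroup ↥(alternatingGroup α)) : Set ↥(alternatingGroup α)))) = Nat.card ↥(Subgroup.normalizer ((P : Subgroup (Equiv.Perm α)) : Set (Equiv.Perm α))) := by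
  classical
  have hpo : Odd p := (Fact.out : p.Prime).odd_of_ne_two hp
  have hPA : (P : Subgroup (Equiv.Perm α)) ≤ alternatingGroup α := by
    intro x hx
    rw [Equiv.Perm.mem_alternatingGroup]
    obtain ⟨k, hk⟩ := (IsPGroup.iff_orderOf.mp P.2) ⟨x, hx⟩
    rw [Subgroup.orderOf_mk] at hk
    have h1 : (Equiv.Perm.sign x) ^ (p ^ k) = 1 := by
      rw [← map_pow, ← hk, pow_orderOf_eq_one, map_one]
    rcases Int.units_eq_one_or (Equiv.Perm.sign x) with h | h
    · exact h
    · rw [h, (hpo.pow).neg_one_pow] at h1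
      exact absurd h1 (by decide)
  refine ⟨hPA, ?_⟩
  set N := Subgroup.normalizer ((P : Subgroup (Equiv.Perm α)) : Set (Equiv.Perm α)) with hNdef
  have hodd : ∃ τ ∈ N, Equiv.Perm.sign τ = -1 := by
    by_contra hcon
    push Not at hcon
    have hle : N ≤ alternatingGroup α := fun x hx =>
      (Int.units_eq_one_or _).resolve_right (hcon x hx)
    have htop : N ⊔ alternatingGroup α = ⊤ := Sylow.normalizer_sup_eq_top' P hPA
    rw [sup_eq_right.mpr hle] at htop
    obtain ⟨a, b, hab⟩ := Fintype.exists_pair_of_one_lt_card (by omega : 1 < Fintype.card α)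
    have h1 : Equiv.swap a b ∈ alternatingGroup α := by rw [htop]; trivial
    rw [Equiv.Perm.mem_alternatingGroup, Equiv.Perm.sign_swap hab] at h1
    exact absurd h1 (by decide)
  let f : N →* ℤˣ := (Equiv.Perm.sign).comp N.subtype
  have hf : Function.Surjective f := by
    intro u
    obtain ⟨τ, hτ, hs⟩ := hodd
    rcases Int.units_eq_one_or u with rfl | rfl
    · exact ⟨1, map_one f⟩
    · exact ⟨⟨τ, hτ⟩, hs⟩
  have hidx : f.ker.index = 2 := by
    rw [Subgroup.index_ker, MonoidHom.range_eq_top.mpr hf]
    rw [Subgroup.card_top, Nat.card_eq_fintype_card, Fintype.card_units_int]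
  have hcard : f.ker.index * Nat.card f.ker = Nat.card N := f.ker.index_mul_card
  rw [← hcard, hidx]
  congr 1
  have hA : (alternatingGroup α).Normal := inferInstance
  have hmem : ∀ a : Equiv.Perm α, ∀ ha : a ∈ alternatingGroup α,
      (⟨a, ha⟩ : alternatingGroup α) ∈ Subgroup.normalizer
        ((((P : Subgroup (Equiv.Perm α)).subgroupOf (alternatingGroup α) : Subgroup ↥(alternatingGroup α)) : Set ↥(alternatingGroup α)))
        ↔ a ∈ N := by
    intro a ha
    rw [Subgroup.mem_normalizer_iff, hNdef, Subgroup.mem_normalizer_iff]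
    constructor
    · intro h x
      constructor
      · intro hx
        have h1 := (h ⟨x, hPA hx⟩).mp (Subgroup.mem_subgroupOf.mpr hx)
        exact Subgroup.mem_subgroupOf.mp h1
      · intro hx
        have hxA : x ∈ alternatingGroup α := by
          have h2 := hPA hx
          have h3 : x = a⁻¹ * (a * x * a⁻¹) * a := by group
          rw [h3]
          exact mul_mem (mul_mem (inv_mem ha) h2) ha
        have h1 := (h ⟨x, hxA⟩).mpr (Subgroup.mem_subgroupOf.mpr hx)
        exact Subgroup.mem_subgroupOf.mp h1
    · intro h x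
      rw [Subgroup.mem_subgroupOf, Subgroup.mem_subgroupOf]
      exact h (x : Equiv.Perm α)
  refine Nat.card_congr ⟨fun a => ⟨⟨a.1.1, (hmem a.1.1 a.1.2).mp a.2⟩, a.1.2⟩,
    fun b => ⟨⟨b.1.1, b.2⟩, (hmem b.1.1 b.2).mpr b.1.2⟩, ?_, ?_⟩
  · intro a
    rfl
  · intro b
    rfl

end Cfsg.Agent.S0990
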