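import Cfsg.Statements.S0996
import Mathlib
import Cfsg.Agent.Lib.DefectOne.FewMain

set_option autoImplicit false
open Cfsg

namespace Cfsg.Agent.S0996

/-- Let G be a finite perfect group containing an element z of prime order p whose centralizer is the cyclic group it generates, and suppose the number 1 + n * p of Sylow p-subgroups satisfies n < (p + 3) / 2. Then p > 3 and G is isomorphic to the projective special linear group of dimension 2 over the field with p elements, or p - 1 is a power of 2 and G is isomorphic to that group over the field with p - 1 elements. -/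
theorem result {G : Type*} [Group G] [Finite G] (hperf : commutator G = ⊤) (p : ℕ) [Fact p.Prime] (z : G) (hz : orderOf z = p) (hC : Subgroup.centralizer ({z} : Set G) = Subgroup.zpowers z) (hn : 2 * Nat.card (Sylow p G) < (p + 1) * (p + 2)) : (∃ (F : Type) (_ : Field F) (_ : Fintype F), Fintype.card F = p ∧ 3 < p ∧ Nonempty (G ≃* Matrix.ProjectiveSpecialLinearGroup (Fin 2) F)) ∨ (∃ (m : ℕ) (F : Type) (_ : Field F) (_ : Fintype F), Fintype.card F = 2 ^ m ∧ p = 2 ^ m + 1 ∧ 3 < p ∧ Nonempty (G ≃* Matrix.ProjectiveSpecialLinearGroup (Fin 2) F)) := by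
  classical
  letI : Fintype G := Fintype.ofFinite _
  have hp' := (Fact.out : p.Prime)
  have hcen : ∀ c : G, c * z = z * c → c ∈ Subgroup.zpowers z := by
    intro c hc
    rw [← hC, Subgroup.mem_centralizer_iff]
    intro y hy
    rw [Set.mem_singleton_iff.1 hy]
    exact hc.symm
  have hpg : IsPGroup p (Subgroup.zpowers z) := by
    apply IsPGroup.of_card (n := 1)
    rw [Nat.card_zpowers, hz, pow_one]
  obtain ⟨P, hP⟩ := hpg.exists_le_sylow
  have hzP : Subgroup.zpowers z = (P : Subgroup G) := by
    refine le_antisymm hP ?_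
    haveI : Nontrivial (P : Subgroup G) := by
      refine ⟨⟨⟨z, hP (Subgroup.mem_zpowers z)⟩, 1, ?_⟩⟩
      intro h
      have h1 : z = 1 := congrArg Subtype.val h
      rw [h1, orderOf_one] at hz
      exact hp'.one_lt.ne hz
    haveI := P.isPGroup'.center_nontrivial
    obtain ⟨c, hc⟩ := exists_ne (1 : Subgroup.center (P : Subgroup G))
    have hc1 : ((c : (P : Subgroup G)) : G) ≠ 1 := by
      intro h
      exact hc (Subtype.ext (Subtype.ext h))
    have hcz : ((c : (P : Subgroup G)) : G) ∈ Subgroup.zpowers z := by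
      apply hcen
      have h1 := Subgroup.mem_center_iff.1 c.2 ⟨z, hP (Subgroup.mem_zpowers z)⟩
      exact (congrArg Subtype.val h1).symm
    intro y hy
    refine Cfsg.Agent.Lib.DefectOne.mem_of_comm_of_ne hz hcen hcz hc1 ?_
    have h1 := Subgroup.mem_center_iff.1 c.2 ⟨y, hy⟩
    exact congrArg Subtype.val h1
  rcases Cfsg.Agent.Lib.DefectOne.FewInd.few_main hperf hz hcen P hzP hn with ⟨h3, h⟩ | h
  · exact Or.inl ⟨ZMod p, inferInstance, inferInstance, ZMod.card p, h3, h⟩
  · exact Or.inr h

end Cfsg.Agent.S0996
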