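import Cfsg.Statements.S1001
import Mathlib
import Cfsg.Agent.S0904
import Cfsg.Agent.Lib.Char.Burnside2

set_option autoImplicit false
open Cfsg
open scoped commutatorElement

namespace Cfsg.Agent.S1001

/-- In a finite simple group whose order has the form p * 3^a * 2^b with p prime, the centralizer of any element of order p is the cyclic group it generates. -/
theorem result {G : Type*} [Group G] [Finite G] [IsSimpleGroup G] (p a b : ℕ) (hp : p.Prime) (hG : Nat.card G = p * 3 ^ a * 2 ^ b) (x : G) (hx : orderOf x = p) : Subgroup.centralizer ({x} : Set G) = Subgroup.zpowers x := by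
  classical
  haveI : Fact p.Prime := ⟨hp⟩
  have hx1 : x ≠ 1 := by
    intro h0
    rw [h0, orderOf_one] at hx
    exact hp.one_lt.ne hx
  rcases (inferInstance : (commutator G).Normal).eq_bot_or_eq_top with hc | hcomm
  · -- the abelian case
    have hall : ∀ u v : G, u * v = v * u := by
      intro u v
      have h1 : ⁅u, v⁆ ∈ commutator G := Subgroup.commutator_mem_commutator (Subgroup.mem_top u) (Subgroup.mem_top v)
      rw [hc, Subgroup.mem_bot] at h1
      exact commutatorElement_eq_one_iff_mul_comm.mp h1
    have hnorm : (Subgroup.zpowers x).Normal := by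
      constructor
      intro n hn g
      have : g * n * g⁻¹ = n := by rw [hall g n]; group
      rw [this]
      exact hn
    rcases hnorm.eq_bot_or_eq_top with h | h
    · exfalso
      apply hx1
      have : x ∈ Subgroup.zpowers x := Subgroup.mem_zpowers x
      rw [h] at this
      simpa using this
    · rw [h]
      ext g
      simp only [Subgroup.mem_top, iff_true]
      rw [Subgroup.mem_centralizer_singleton_iff]
      exact hall g x
  -- the perfect case: `p` is neither `2` nor `3`
  have hsol : ∀ (r s c d : ℕ), r.Prime → s.Prime → Nat.card G = r ^ c * s ^ d → False := by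
    intro r s c d hr hs h
    haveI := Cfsg.Agent.Lib.Char.Burnside2.isSolvable_of_card_eq hr hs _ G c d rfl h
    have hlt := Group.IsSolvable.commutator_lt_top_of_nontrivial (G := G)
    exact hlt.ne hcomm
  have h2 : Nat.Prime 2 := Nat.prime_two
  have h3 : Nat.Prime 3 := Nat.prime_three
  have hp2 : p ≠ 2 := by
    rintro rfl
    exact hsol 2 3 (b + 1) a h2 h3 (by rw [hG]; ring)
  have hp3 : p ≠ 3 := by
    rintro rfl
    exact hsol 2 3 b (a + 1) h2 h3 (by rw [hG]; ring)
  have hcard : Nat.card G = 2 ^ b * 3 ^ a * p := by rw [hG]; ring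
  -- a Sylow subgroup containing `x`
  have hpg : IsPGroup p (Subgroup.zpowers x) :=
    IsPGroup.of_card (n := 1) (by rw [Nat.card_zpowers, hx, pow_one])
  obtain ⟨S, hS⟩ := hpg.exists_le_sylow
  have hC := Cfsg.Agent.S0904.result 2 3 p b a h2 h3 (by norm_num) hp2.symm hp3.symm hcard S
  have hne : 2 ^ b * 3 ^ a ≠ 0 := by positivity
  have hrnd : ¬ p ∣ 2 ^ b * 3 ^ a := by
    intro h
    rcases (Nat.Prime.dvd_mul hp).mp h with h | h
    · exact hp2 ((Nat.prime_dvd_prime_iff_eq hp h2).mp (hp.dvd_of_dvd_pow h))
    · exact hp3 ((Nat.prime_dvd_prime_iff_eq hp h3).mp (hp.dvd_of_dvd_pow h))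
  have hcS : Nat.card (S : Subgroup G) = p := by
    rw [S.card_eq_multiplicity, hcard, Nat.factorization_mul hne hp.ne_zero, Finsupp.add_apply,
      Nat.factorization_eq_zero_of_not_dvd hrnd, hp.factorization_self, zero_add, pow_one]
  have hSeq : Subgroup.zpowers x = (S : Subgroup G) :=
    Subgroup.eq_of_le_of_card_ge hS (by rw [hcS, Nat.card_zpowers, hx])
  apply le_antisymm
  · intro g hg
    rw [Subgroup.mem_centralizer_singleton_iff] at hg
    rw [hSeq, ← hC, Subgroup.mem_centralizer_iff]
    intro u hu
    have hu' : u ∈ Subgroup.zpowers x := by rw [hSeq]; exact hu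
    obtain ⟨k, rfl⟩ := Subgroup.mem_zpowers_iff.mp hu'
    have hcm : Commute g x := hg
    exact (hcm.zpow_right k).symm.eq
  · intro g hg
    obtain ⟨k, rfl⟩ := Subgroup.mem_zpowers_iff.mp hg
    rw [Subgroup.mem_centralizer_singleton_iff]
    exact ((Commute.refl x).zpow_left k).eq

end Cfsg.Agent.S1001
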