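import Cfsg.Statements.S1002
import Mathlib
import Cfsg.Agent.Lib.Char.BrauerSCNum
-- import your own Cfsg.Agent.* helpers here

set_option autoImplicit false
open Cfsg

namespace Cfsg.Agent.S1002

open Cfsg.Agent.Lib.Char.BrauerSCNum

/-- No finite simple group has order 1004913 = 3^3 * 7 * 13 * 409. -/
theorem result {G : Type*} [Group G] [Finite G] [IsSimpleGroup G] : Nat.card G ≠ 1004913 := by
  classical
  intro hN
  obtain ⟨s, c, d, h1, h2, h3⟩ := simple_numeric (G := G) 409 2457 819 3 (by norm_num) (by simpa using hN)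
    (by norm_num) (by norm_num) (by norm_num) (by norm_num) (by norm_num) (by decide +kernel) (by norm_num)
  obtain ⟨Y, Z, hYZ, rfl, hcY, hcZ⟩ := form_e3 s c (by rw [h2]; norm_num) (fun Y hY => (h3 Y hY).1)
  have key1 : ∀ x ∈ (2457 : ℕ).divisors, x % 409 = 408 → False := by decide +kernel
  have key2 : ∀ x ∈ (2457 : ℕ).divisors, x % 409 = 1 → x = 1 ∨ x = 819 := by decide +kernel
  have key : ∀ W ∈ ({Y, Z} : Finset (IrrCharacter G)), (c W = -1 ∧ d W = 819) := by
    intro W hW
    obtain ⟨-, h4, h5, h6⟩ := h3 W hW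
    have hc : c W = 1 ∨ c W = -1 := by
      rcases Finset.mem_insert.1 hW with rfl | h
      · exact hcY
      · rw [Finset.mem_singleton] at h
        rw [h]
        exact hcZ
    rcases hc with h | h
    · rw [h] at h5 h6
      have h7 : d W ∈ (2457 : ℕ).divisors := Nat.mem_divisors.2 ⟨by simpa using h5, by norm_num⟩
      exact (key1 _ h7 (by omega)).elim
    · rw [h] at h5 h6
      have h7 : d W ∈ (2457 : ℕ).divisors := Nat.mem_divisors.2 ⟨by simpa using h5, by norm_num⟩
      rcases key2 _ h7 (by omega) with h8 | h8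
      · omega
      · exact ⟨h, h8⟩
  rw [Finset.sum_pair hYZ] at h1
  obtain ⟨h5, h6⟩ := key Y (by simp)
  obtain ⟨h7, h8⟩ := key Z (by simp)
  rw [h5, h6, h7, h8] at h1
  norm_num at h1

end Cfsg.Agent.S1002
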