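import Cfsg.Statements.S1003
import Mathlib
import Cfsg.Agent.Lib.PSL2.Order168

set_option autoImplicit false
set_option linter.style.haveILetI false
set_option linter.unusedVariables false
open Cfsg

namespace Cfsg.Agent.S1003

/-- A simple group of order 168 has exactly 21 Sylow 2-subgroups, 28 Sylow 3-subgroups and 8 Sylow 7-subgroups. -/
theorem result {G : Type*} [Group G] [Finite G] [IsSimpleGroup G] (h : Nat.card G = 168) : Nat.card (Sylow 2 G) = 21 ∧ Nat.card (Sylow 3 G) = 28 ∧ Nat.card (Sylow 7 G) = 8 := by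
  open Cfsg.Agent.Lib.PSL2.Order168 in
  obtain ⟨T⟩ : Nonempty (Sylow 2 G) := inferInstance
  obtain ⟨P⟩ : Nonempty (Sylow 3 G) := inferInstance
  obtain ⟨Q⟩ : Nonempty (Sylow 7 G) := inferInstance
  exact ⟨(Cfsg.Agent.Lib.PSL2.Order168.sylow_two_data h T).2, (Cfsg.Agent.Lib.PSL2.Order168.sylow_three_data h P).2,
    (Cfsg.Agent.Lib.PSL2.Order168.sylow_seven_data h Q).2⟩

end Cfsg.Agent.S1003
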