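import Cfsg.Statements.S1008
import Mathlib
import Cfsg.Agent.Lib.PSL2.Order168b

set_option autoImplicit false
set_option linter.style.haveILetI false
set_option linter.unusedVariables false
set_option linter.unusedSectionVars false
set_option linter.unusedSimpArgs false
open Cfsg

namespace Cfsg.Agent.S1008

open Subgroup Cfsg.Agent.Lib.PSL2.Order168

theorem card_perm_four {G : Type*} [Group G] {M : Subgroup G} (e : M ≃* Equiv.Perm (Fin 4)) : Nat.card M = 24 := by
  rw [Nat.card_congr e.toEquiv, Nat.card_eq_fintype_card, Fintype.card_perm]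
  decide

theorem smul_coe {G : Type*} [Group G] [Finite G] {p : ℕ} [Fact p.Prime] (g : G) (P : Sylow p G) :
    ((g • P : Sylow p G) : Subgroup G) = (P : Subgroup G).map (MulAut.conj g).toMonoidHom := by
  rw [Sylow.coe_subgroup_smul]
  rfl

theorem normalizer_seven_conj {G : Type*} [Group G] [Finite G] [IsSimpleGroup G] (P P' : Sylow 7 G) :
    ∃ g : G, normalizer ((P' : Subgroup G) : Set G) =
      (normalizer ((P : Subgroup G) : Set G)).map (MulAut.conj g).toMonoidHom := by
  obtain ⟨g, rfl⟩ := MulAction.exists_smul_eq G P P'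
  refine ⟨g, ?_⟩
  rw [smul_coe, normalizer_map_conj]

/-- In a simple group of order 168 every maximal subgroup is either isomorphic to the symmetric group of degree 4 or non-abelian of order 21; the maximal subgroups of order 21 form one conjugacy class and those isomorphic to the symmetric group of degree 4 form exactly two conjugacy classes. -/
theorem result {G : Type*} [Group G] [Finite G] [IsSimpleGroup G] (h : Nat.card G = 168) : (∀ M : Subgroup G, IsCoatom M → Nonempty (↥M ≃* Equiv.Perm (Fin 4)) ∨ (Nat.card ↥M = 21 ∧ ¬ IsMulCommutative ↥M)) ∧ (∀ M M' : Subgroup G, IsCoatom M → IsCoatom M' → Nat.card ↥M = 21 → Nat.card ↥M' = 21 → ∃ g : G, M' = M.map (MulAut.conj g).toMonoidHom) ∧ ∃ M₁ M₂ : Subgroup G, IsCoatom M₁ ∧ IsCoatom M₂ ∧ Nonempty (↥M₁ ≃* Equiv.Perm (Fin 4)) ∧ Nonempty (↥M₂ ≃* Equiv.Perm (Fin 4)) ∧ (∀ g : G, M₂ ≠ M₁.map (MulAut.conj g).toMonoidHom) ∧ ∀ M : Subgroup G, IsCoatom M → Nonempty (↥M ≃* Equiv.Perm (Fin 4)) → ∃ g : G, M = M₁.map (MulAut.conj g).toMonoidHom ∨ M = M₂.map (MulAut.conj g).toMonoidHom := by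
  refine ⟨?_, ?_, ?_⟩
  · intro M hM
    rcases coatom_cases h hM with ⟨V, hV, rfl⟩ | ⟨P, rfl⟩
    · left
      exact normalizer_klein_equiv h V hV
    · right
      refine ⟨(sylow_seven_data h P).1, ?_⟩
      intro hcomm
      obtain ⟨x, hxP, hx, hPx⟩ := exists_gen (card_sylow_seven h P)
      have hxN : x ∈ normalizer ((P : Subgroup G) : Set G) := Subgroup.le_normalizer hxP
      have hle : normalizer ((P : Subgroup G) : Set G) ≤ centralizer ({x} : Set G) := by
        intro n hn
        rw [Subgroup.mem_centralizer_singleton_iff]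
        have := mul_comm' (⟨n, hn⟩ : normalizer ((P : Subgroup G) : Set G)) ⟨x, hxN⟩
        exact congrArg Subtype.val this
      have hd := Subgroup.card_dvd_of_le hle
      rw [(sylow_seven_data h P).1, card_cent_seven h hx] at hd
      omega
  · intro M M' hM hM' hc hc'
    rcases coatom_cases h hM with ⟨V, hV, rfl⟩ | ⟨P, rfl⟩
    · rw [card_normalizer_klein h V hV] at hc
      omega
    rcases coatom_cases h hM' with ⟨V, hV, rfl⟩ | ⟨P', rfl⟩
    · rw [card_normalizer_klein h V hV] at hc'
      omega
    exact normalizer_seven_conj P P'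
  · obtain ⟨T⟩ : Nonempty (Sylow 2 G) := inferInstance
    obtain ⟨e⟩ := sylow_two_equiv h T
    obtain ⟨U₁, U₂, hne, h1, h2, h3, h4, h5⟩ := klein_in_dihedral (T : Subgroup G) e
    refine ⟨normalizer (U₁ : Set G), normalizer (U₂ : Set G), isCoatom_normalizer_klein h h1,
      isCoatom_normalizer_klein h h2, normalizer_klein_equiv h U₁ h1, normalizer_klein_equiv h U₂ h2, ?_, ?_⟩
    · intro g hg
      rw [← normalizer_map_conj] at hg
      have := klein_eq_of_normalizer_eq h h2 (isKleinFour_map_conj h1 g) hg
      exact klein_not_conj h T U₁ U₂ h3 h4 h1 h2 hne g this.symm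
    · intro M hM ⟨e'⟩
      have hc := card_perm_four e'
      rcases coatom_cases h hM with ⟨V, hV, rfl⟩ | ⟨P, rfl⟩
      · have hpV : IsPGroup 2 V := IsPGroup.iff_card.2 ⟨2, by rw [hV.card_four]; norm_num⟩
        obtain ⟨T', hT'⟩ := hpV.exists_le_sylow
        obtain ⟨c, rfl⟩ := MulAction.exists_smul_eq G T T'
        rw [smul_coe] at hT'
        -- pull `V` back into `T`
        set W : Subgroup G := V.map (MulAut.conj c⁻¹).toMonoidHom with hW
        have hWK : IsKleinFour W := isKleinFour_map_conj hV _
        have hWT : W ≤ T := by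
          rintro _ ⟨v, hv, rfl⟩
          obtain ⟨t, ht, hte⟩ := hT' hv
          rw [← hte]
          have e3 : (MulAut.conj c⁻¹).toMonoidHom ((MulAut.conj c).toMonoidHom t) = t := by simp [mul_assoc]
          rw [e3]
          exact ht
        have hVW : V = W.map (MulAut.conj c).toMonoidHom := by
          rw [hW, Subgroup.map_map]
          have : (MulAut.conj c).toMonoidHom.comp (MulAut.conj c⁻¹).toMonoidHom = MonoidHom.id G := by
            ext x; simp [mul_assoc]
          rw [this, Subgroup.map_id]
        refine ⟨c, ?_⟩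
        rcases h5 W hWK hWT with e1 | e1
        · left
          rw [hVW, e1, normalizer_map_conj]
        · right
          rw [hVW, e1, normalizer_map_conj]
      · rw [(sylow_seven_data h P).1] at hc
        omega

end Cfsg.Agent.S1008
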