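import Cfsg.Statements.S1009
import Mathlib
import Cfsg.Agent.Lib.Basic.SylowConj

set_option autoImplicit false
open Cfsg

namespace Cfsg.Agent.S1009

open Cfsg.Agent.Lib.Basic.SylowConj

variable {G : Type*} [Group G]

lemma mem_smul_sylow {p : ℕ} [Fact p.Prime] [Finite G] {u x : G} {Q : Sylow p G} :
    x ∈ ((u • Q : Sylow p G) : Subgroup G) ↔ u⁻¹ * x * u ∈ (Q : Subgroup G) := by
  rw [Sylow.coe_subgroup_smul, Subgroup.mem_smul_pointwise_iff_exists]
  constructor
  · rintro ⟨a, ha, rfl⟩
    simpa [MulAut.conj_apply, mul_assoc] using ha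
  · intro h
    exact ⟨_, h, by simp [MulAut.conj_apply, mul_assoc]⟩

/-- Brodkey's Theorem: if a finite group has abelian Sylow p-subgroups, then there are two Sylow p-subgroups whose intersection equals the intersection of all Sylow p-subgroups. -/
theorem result {G : Type*} [Group G] [Finite G] (p : ℕ) [Fact p.Prime] (hab : ∀ P : Sylow p G, IsMulCommutative ↥(P : Subgroup G)) : ∃ P Q : Sylow p G, (P : Subgroup G) ⊓ (Q : Subgroup G) = ⨅ R : Sylow p G, (R : Subgroup G) := by
  classical
  have hcomm : ∀ (P : Sylow p G) {x y : G}, x ∈ (P : Subgroup G) → y ∈ (P : Subgroup G) →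
      x * y = y * x := by
    intro P x y hx hy
    have := hab P
    exact congrArg Subtype.val (mul_comm' (⟨x, hx⟩ : ↥(P : Subgroup G)) ⟨y, hy⟩)
  by_cases hone : ∃ P Q : Sylow p G, P ≠ Q
  · obtain ⟨P₀, Q₀, h₀⟩ := hone
    let X := {x : Sylow p G × Sylow p G // x.1 ≠ x.2}
    haveI : Nonempty X := ⟨⟨(P₀, Q₀), h₀⟩⟩
    obtain ⟨⟨⟨P, Q⟩, hPQ⟩, hmin⟩ := Finite.exists_min
      (fun x : X => Nat.card ↥((x.1.1 : Subgroup G) ⊓ (x.1.2 : Subgroup G)))
    simp only at hPQ hmin
    refine ⟨P, Q, le_antisymm ?_ ?_⟩
    · refine le_iInf fun R => ?_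
      by_contra hDR
      set D := (P : Subgroup G) ⊓ (Q : Subgroup G) with hD
      set C := Subgroup.centralizer (D : Set G) with hC
      have hDP : D ≤ P := inf_le_left
      have hDQ : D ≤ Q := inf_le_right
      have hleC : ∀ S : Sylow p G, D ≤ S → (S : Subgroup G) ≤ C := by
        intro S hS x hx
        rw [hC, Subgroup.mem_centralizer_iff]
        intro d hd
        exact hcomm S (hS hd) hx
      set U := (R : Subgroup G) ⊓ C with hU
      have hUp : IsPGroup p U := R.isPGroup'.to_le inf_le_left
      have hDp : IsPGroup p D := P.isPGroup'.to_le hDP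
      have hUD : IsPGroup p ↥(U ⊔ D) := by
        apply IsPGroup.to_sup_of_normal_right' hUp hDp
        intro x hx
        rw [Subgroup.mem_normalizer_iff]
        intro d
        have hxc : x ∈ C := hx.2
        rw [hC, Subgroup.mem_centralizer_iff] at hxc
        constructor
        · intro hd
          have : x * d * x⁻¹ = d := by
            rw [← hxc d hd]; group
          rwa [this]
        · intro hd
          have h1 := hxc _ hd
          have : x * d * x⁻¹ = d := by
            have h2 : x * (x * d * x⁻¹) = x * d := by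
              rw [← h1]; group
            exact mul_left_cancel h2
          rwa [this] at hd
      obtain ⟨T, hT⟩ := hUD.exists_le_sylow
      have hDT : D ≤ T := le_sup_right.trans hT
      have hUT : U ≤ T := le_sup_left.trans hT
      obtain ⟨u, huC, hu⟩ := exists_mem_smul_eq C P T (hleC P hDP) (hleC T hDT)
      have huD : ∀ d ∈ D, u⁻¹ * d * u = d := by
        intro d hd
        have h1 := (Subgroup.mem_centralizer_iff.mp huC) d hd
        rw [mul_assoc, h1]; group
      have huD' : ∀ x : G, u⁻¹ * x * u ∈ D → u⁻¹ * x * u = x := by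
        intro x hx
        have h1 := (Subgroup.mem_centralizer_iff.mp huC) _ hx
        have h2 : u * (u⁻¹ * x * u) = x * u := by group
        rw [h2] at h1
        exact mul_right_cancel h1
      set Q' : Sylow p G := u • Q with hQ'
      have hDQ' : D ≤ Q' := by
        intro d hd
        rw [hQ', mem_smul_sylow, huD d hd]
        exact hDQ hd
      have hTQ' : (T : Subgroup G) ⊓ Q' ≤ D := by
        rintro x ⟨hxT, hxQ⟩
        have hxT' : x ∈ ((u • P : Sylow p G) : Subgroup G) := by rw [hu]; exact hxT
        have hxQ' : x ∈ ((u • Q : Sylow p G) : Subgroup G) := hxQ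
        rw [mem_smul_sylow] at hxT' hxQ'
        have h3 : u⁻¹ * x * u ∈ D := ⟨hxT', hxQ'⟩
        rwa [huD' x h3] at h3
      have hQ'R : (Q' : Subgroup G) ⊓ R ≤ D := by
        rintro x ⟨hxQ, hxR⟩
        have hxC : x ∈ C := hleC Q' hDQ' hxQ
        exact hTQ' ⟨hUT ⟨hxR, hxC⟩, hxQ⟩
      have hne : Q' ≠ R := by
        rintro rfl
        exact hDR hDQ'
      have hcard := hmin ⟨(Q', R), hne⟩
      simp only at hcard
      have heq := Subgroup.eq_of_le_of_card_ge hQ'R hcard
      apply hDR
      rw [← heq]
      exact inf_le_right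
    · exact le_inf (iInf_le _ P) (iInf_le _ Q)
  · push Not at hone
    obtain ⟨P⟩ : Nonempty (Sylow p G) := inferInstance
    refine ⟨P, P, ?_⟩
    rw [inf_idem]
    apply le_antisymm
    · refine le_iInf fun R => ?_
      rw [hone R P]
    · exact iInf_le _ P

end Cfsg.Agent.S1009
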