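import Cfsg.Statements.S1014
import Mathlib
-- import your own Cfsg.Agent.* helpers here

set_option autoImplicit false
open Cfsg

namespace Cfsg.Agent.S1014

theorem aux_sign {α : Type*} [Fintype α] [DecidableEq α] (σ : Equiv.Perm α) (h : orderOf σ = 2)
    (hs : σ.support.card = 22) : Equiv.Perm.sign σ = -1 := by
  obtain ⟨n, hn⟩ := Equiv.Perm.cycleType_prime_order (σ := σ) (by rw [h]; exact Nat.prime_two)
  rw [h] at hn
  have h1 := σ.sum_cycleType
  rw [hn, Multiset.sum_replicate, hs] at h1
  have h2 : n + 1 = 11 := by
    simp only [smul_eq_mul] at h1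
    omega
  rw [Equiv.Perm.sign_of_cycleType, hn, Multiset.sum_replicate, Multiset.card_replicate, h2]
  decide


/-- No finite simple group has order 1104 = 2^4 * 3 * 23. -/
theorem result {G : Type*} [Group G] [Finite G] [IsSimpleGroup G] : Nat.card G ≠ 1104 := by
  intro hN
  classical
  have hp23 : Nat.Prime 23 := by norm_num
  haveI : Fact (Nat.Prime 23) := ⟨hp23⟩
  haveI : Fact (Nat.Prime 2) := ⟨Nat.prime_two⟩
  obtain ⟨P⟩ : Nonempty (Sylow 23 G) := inferInstance
  have hidx := Subgroup.card_mul_index (P : Subgroup G)
  have hcard : Nat.card P = 23 := by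
    obtain ⟨k, hk⟩ := P.2.exists_card_eq
    have hk0 : k ≠ 0 := by
      rintro rfl
      rw [pow_zero] at hk
      rw [hk, one_mul, hN] at hidx
      exact P.not_dvd_index (hidx ▸ (by norm_num))
    have hk2 : k < 2 := by
      by_contra h
      push Not at h
      have h1 : 23 ^ 2 ∣ Nat.card P := hk ▸ pow_dvd_pow 23 h
      have h2 : 23 ^ 2 ∣ 1104 := by
        rw [← hN]
        exact h1.trans (Subgroup.card_subgroup_dvd_card _)
      norm_num at h2
    have : k = 1 := by omega
    rw [hk, this, pow_one]
  have hpidx : (P : Subgroup G).index = 48 := by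
    rw [hcard, hN] at hidx
    omega
  have h1 : Nat.card (Sylow 23 G) % 23 = 1 % 23 := card_sylow_modEq_one 23 G
  have h2 : Nat.card (Sylow 23 G) ∣ 48 := hpidx ▸ P.card_dvd_index
  have hnidx : (Subgroup.normalizer (P : Set G)).index = Nat.card (Sylow 23 G) :=
    (Sylow.card_eq_index_normalizer P).symm
  have hnum : ∀ c : ℕ, c ∣ 48 → c % 23 = 1 % 23 → c = 1 ∨ c = 24 := by
    intro c hc hm
    have := Nat.le_of_dvd (by norm_num) hc
    interval_cases c <;> omega
  rcases hnum _ h2 h1 with h3 | h3
  · -- normal Sylow subgroup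
    rw [h3, Subgroup.index_eq_one] at hnidx
    haveI hnormal : (P : Subgroup G).Normal := Subgroup.normalizer_eq_top_iff.mp hnidx
    rcases hnormal.eq_bot_or_eq_top with h | h
    · rw [h, Subgroup.card_bot] at hcard
      omega
    · rw [h, Subgroup.card_top, hN] at hcard
      omega
  · set N := Subgroup.normalizer ((P : Subgroup G) : Set G) with hNdef
    have hNcard : Nat.card N = 46 := by
      have h4 := Subgroup.card_mul_index N
      have h5 : N.index = 24 := hnidx.trans h3
      rw [h5, hN] at h4
      omega
    obtain ⟨t₀, ht₀⟩ := exists_prime_orderOf_dvd_card' (G := N) 2 (by rw [hNcard]; norm_num)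
    set t : G := (t₀ : G) with htdef
    have ht : orderOf t = 2 := by
      rw [htdef, Subgroup.orderOf_coe]
      exact ht₀
    have htN : t ∈ N := t₀.2
    have ht2 : t * t = 1 := by
      have := pow_orderOf_eq_one t
      rw [ht, pow_two] at this
      exact this
    have htinv : t⁻¹ = t := inv_eq_of_mul_eq_one_left ht2
    have hzp : ∀ x ∈ (P : Subgroup G), x ≠ 1 → (P : Subgroup G) = Subgroup.zpowers x := by
      intro x hx hx1
      have h4 : orderOf x ∣ 23 := hcard ▸ Subgroup.orderOf_dvd_natCard _ hx
      have h5 : orderOf x = 23 := by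
        rcases (Nat.dvd_prime hp23).1 h4 with h6 | h6
        · exact absurd (orderOf_eq_one_iff.1 h6) hx1
        · exact h6
      refine (Subgroup.eq_of_le_of_card_ge (Subgroup.zpowers_le.2 hx) ?_).symm
      rw [hcard, Nat.card_zpowers, h5]
    have hPcomm : ∀ a ∈ (P : Subgroup G), ∀ b ∈ (P : Subgroup G), a * b = b * a := by
      intro a ha b hb
      by_cases ha1 : a = 1
      · rw [ha1, one_mul, mul_one]
      · rw [hzp a ha ha1] at hb
        obtain ⟨k, rfl⟩ := Subgroup.mem_zpowers_iff.1 hb
        exact ((Commute.refl a).zpow_right k).eq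
    have hPmemN : ∀ x ∈ (P : Subgroup G), x ∈ N := fun x hx => Subgroup.le_normalizer hx
    by_cases hcent : ∀ x ∈ (P : Subgroup G), t * x * t⁻¹ = x
    · -- Burnside transfer
      have hle : N ≤ Subgroup.centralizer ((P : Subgroup G) : Set G) := by
        let C : Subgroup G := N ⊓ Subgroup.centralizer ((P : Subgroup G) : Set G)
        have hPC : (P : Subgroup G) ≤ C := fun x hx =>
          Subgroup.mem_inf.2 ⟨hPmemN x hx, Subgroup.mem_centralizer_iff.2 (fun y hy => hPcomm y hy x hx)⟩
        have htC : t ∈ C := by
          refine Subgroup.mem_inf.2 ⟨htN, Subgroup.mem_centralizer_iff.2 (fun y hy => ?_)⟩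
          have h5 := hcent y hy
          calc y * t = (t * y * t⁻¹) * t := by rw [h5]
            _ = t * y := by group
        have h23 : 23 ∣ Nat.card C := hcard ▸ Subgroup.card_dvd_of_le hPC
        have h22 : 2 ∣ Nat.card C := ht ▸ Subgroup.orderOf_dvd_natCard C htC
        have h46 : 2 * 23 ∣ Nat.card C := Nat.Coprime.mul_dvd_of_dvd_of_dvd (by norm_num) h22 h23
        have hle : Nat.card C ∣ 46 := hNcard ▸ Subgroup.card_dvd_of_le inf_le_left
        have hCcard : Nat.card C = 46 := Nat.dvd_antisymm hle h46
        have hCN : C = N := Subgroup.eq_of_le_of_card_ge inf_le_left (by omega)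
        rw [← hCN]
        exact inf_le_right
      have hc := MonoidHom.ker_transferSylow_isComplement' P hle
      have hcm := hc.card_mul_card
      rw [hcard, hN] at hcm
      haveI hnormal : (MonoidHom.transferSylow P hle).ker.Normal := inferInstance
      rcases hnormal.eq_bot_or_eq_top with h | h
      · rw [h, Subgroup.card_bot] at hcm
        omega
      · rw [h, Subgroup.card_top, hN] at hcm
        omega
    · -- `t` inverts `P`
      have hconjmem : ∀ x ∈ (P : Subgroup G), t * x * t⁻¹ ∈ (P : Subgroup G) := fun x hx =>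
        (Subgroup.mem_set_normalizer_iff.1 htN x).1 hx
      have hinvert : ∀ x ∈ (P : Subgroup G), t * x * t⁻¹ = x⁻¹ := by
        intro x hx
        have hyP : x * (t * x * t⁻¹) ∈ (P : Subgroup G) := mul_mem hx (hconjmem x hx)
        have hyfix : t * (x * (t * x * t⁻¹)) * t⁻¹ = x * (t * x * t⁻¹) := by
          have e : t * (t * x * t⁻¹) * t⁻¹ = x := by
            rw [htinv]
            calc t * (t * x * t) * t = (t * t) * x * (t * t) := by group
              _ = x := by rw [ht2]; simp
          calc t * (x * (t * x * t⁻¹)) * t⁻¹ = (t * x * t⁻¹) * (t * (t * x * t⁻¹) * t⁻¹) := by group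
            _ = (t * x * t⁻¹) * x := by rw [e]
            _ = x * (t * x * t⁻¹) := hPcomm _ (hconjmem x hx) _ hx
        by_cases hy1 : x * (t * x * t⁻¹) = 1
        · exact eq_inv_of_mul_eq_one_right hy1
        · exfalso
          apply hcent
          intro w hw
          rw [hzp _ hyP hy1, Subgroup.mem_zpowers_iff] at hw
          obtain ⟨k, rfl⟩ := hw
          rw [← conj_zpow, hyfix]
      have hfree : ∀ Q : Sylow 23 G, Q ≠ P → ∀ x ∈ (P : Subgroup G), x • Q = Q → x = 1 := by
        intro Q hQ x hx hxQ
        by_contra hx1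
        have h5 : x ∈ Subgroup.normalizer ((Q : Subgroup G) : Set G) :=
          Sylow.smul_eq_iff_mem_normalizer.1 hxQ
        have h6 : x ∈ (P : Subgroup G) ⊓ (Q : Subgroup G) :=
          (P.2.inf_normalizer_sylow Q).le (Subgroup.mem_inf.2 ⟨hx, h5⟩)
        have h7 : (P : Subgroup G) ≤ Q := by
          rw [hzp x hx hx1]
          exact Subgroup.zpowers_le.2 (Subgroup.mem_inf.1 h6).2
        apply hQ
        have h8 := P.3 Q.2 h7
        exact Sylow.ext h8
      have hPfix : ∀ x ∈ (P : Subgroup G), x • P = P := fun x hx =>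
        Sylow.smul_eq_iff_mem_normalizer.2 (hPmemN x hx)
      have htP : t • P = P := Sylow.smul_eq_iff_mem_normalizer.2 htN
      have hU : ∀ Q : Sylow 23 G, Q ≠ P → t • Q = Q → ∀ x ∈ (P : Subgroup G),
          t • (x • Q) = x • Q → x = 1 := by
        intro Q hQ htQ x hx hfix
        have e1 : t * x = x⁻¹ * t := by
          have := hinvert x hx
          rwa [mul_inv_eq_iff_eq_mul] at this
        have e : t • (x • Q) = x⁻¹ • Q := by
          rw [← mul_smul, e1, mul_smul, htQ]
        rw [e] at hfix
        have h5 : (x * x) • Q = Q := by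
          rw [mul_smul, ← hfix, ← mul_smul, mul_inv_cancel, one_smul]
        have h6 := hfree Q hQ (x * x) (mul_mem hx hx) h5
        have h7 : orderOf x ∣ 2 := orderOf_dvd_of_pow_eq_one (by rw [pow_two]; exact h6)
        have h8 : orderOf x ∣ 23 := hcard ▸ Subgroup.orderOf_dvd_natCard _ hx
        have h9 : orderOf x = 1 := Nat.eq_one_of_dvd_coprimes (by norm_num : Nat.Coprime 2 23) h7 h8
        exact orderOf_eq_one_iff.1 h9
      have : Fintype (Sylow 23 G) := Fintype.ofFinite _
      let φ := MulAction.toPermHom G (Sylow 23 G)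
      set σ : Equiv.Perm (Sylow 23 G) := φ t with hσ
      have hσapp : ∀ Q, σ Q = t • Q := fun _ => rfl
      have hσ2 : σ ^ 2 = 1 := by
        rw [hσ, ← map_pow, pow_two, ht2, map_one]
      have hcardΩ : Fintype.card (Sylow 23 G) = 24 := by
        rw [← Nat.card_eq_fintype_card, h3]
      obtain ⟨Q₀, hQ₀⟩ : ∃ Q : Sylow 23 G, Q ≠ P := by
        have hnt : Nontrivial (Sylow 23 G) := Fintype.one_lt_card_iff_nontrivial.1 (by omega)
        exact exists_ne P
      obtain ⟨c₀, hc₀⟩ := exists_prime_orderOf_dvd_card' (G := P) 23 (by rw [hcard])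
      have hc₁ : (c₀ : G) ≠ 1 := by
        intro h
        have h5 : c₀ = 1 := Subtype.ext h
        rw [h5, orderOf_one] at hc₀
        omega
      have hσne : σ ≠ 1 := by
        intro h
        have e : ∀ Q, t • Q = Q := fun Q => by
          rw [← hσapp, h]
          rfl
        exact hc₁ (hU Q₀ hQ₀ (e _) _ c₀.2 (e _))
      have hσord : orderOf σ = 2 := orderOf_eq_prime hσ2 hσne
      obtain ⟨n, hn⟩ := Equiv.Perm.cycleType_prime_order (σ := σ) (by rw [hσord]; exact Nat.prime_two)
      rw [hσord] at hn
      have hsum := σ.sum_cycleType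
      rw [hn, Multiset.sum_replicate] at hsum
      simp only [smul_eq_mul] at hsum
      have hPsupp : P ∉ σ.support := by
        rw [Equiv.Perm.notMem_support, hσapp, htP]
      have hsub : σ.support ⊆ Finset.univ.erase P := by
        intro R hR
        refine Finset.mem_erase.2 ⟨?_, Finset.mem_univ _⟩
        rintro rfl
        exact hPsupp hR
      have hcardE : (Finset.univ.erase P).card = 23 := by
        rw [Finset.card_erase_of_mem (Finset.mem_univ _), Finset.card_univ, hcardΩ]
      have hle23 := Finset.card_le_card hsub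
      rw [hcardE] at hle23
      obtain ⟨Q, hQE, hQs⟩ := Finset.exists_mem_notMem_of_card_lt_card
        (s := σ.support) (t := Finset.univ.erase P) (by rw [hcardE]; omega)
      have hQP : Q ≠ P := (Finset.mem_erase.1 hQE).1
      have htQ : t • Q = Q := by
        rw [← hσapp]
        exact Equiv.Perm.notMem_support.1 hQs
      -- every other Sylow subgroup is `x • Q`
      have hsurj : ∀ R : Sylow 23 G, R ≠ P → ∃ x ∈ (P : Subgroup G), x • Q = R := by
        let f : P → {R : Sylow 23 G // R ≠ P} := fun x => ⟨(x : G) • Q, fun h => by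
          apply hQP
          have h5 : ((x : G)⁻¹) • ((x : G) • Q) = ((x : G)⁻¹) • P := by rw [h]
          rw [← mul_smul, inv_mul_cancel, one_smul, hPfix _ (inv_mem x.2)] at h5
          exact h5⟩
        have hinj : Function.Injective f := by
          intro x y hxy
          have h5 : (x : G) • Q = (y : G) • Q := congrArg Subtype.val hxy
          have h6 : ((y : G)⁻¹ * x) • Q = Q := by
            rw [mul_smul, h5, ← mul_smul, inv_mul_cancel, one_smul]
          have h7 := hfree Q hQP _ (mul_mem (inv_mem y.2) x.2) h6
          have h8 : (x : G) = y := by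
            exact (inv_mul_eq_one.1 h7).symm
          exact Subtype.ext h8
        have hcardf : Nat.card P = Nat.card {R : Sylow 23 G // R ≠ P} := by
          rw [hcard, Nat.card_eq_fintype_card (α := {R : Sylow 23 G // R ≠ P}),
            Fintype.card_subtype_compl, hcardΩ]
          simp
        have hbij := (Nat.bijective_iff_injective_and_card f).2 ⟨hinj, hcardf⟩
        intro R hR
        obtain ⟨x, hx⟩ := hbij.2 ⟨R, hR⟩
        exact ⟨x, x.2, congrArg Subtype.val hx⟩
      have hsupp : σ.support = (Finset.univ.erase P).erase Q := by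
        ext R
        simp only [Finset.mem_erase, Finset.mem_univ, and_true, Equiv.Perm.mem_support, hσapp]
        constructor
        · intro h
          constructor
          · rintro rfl
            exact h htQ
          · rintro rfl
            exact h htP
        · rintro ⟨h5, h6⟩ h7
          obtain ⟨x, hx, rfl⟩ := hsurj R h6
          have h8 := hU Q hQP htQ x hx h7
          rw [h8, one_smul] at h5
          exact h5 rfl
      have hsuppcard : σ.support.card = 22 := by
        rw [hsupp, Finset.card_erase_of_mem hQE, hcardE]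
      have hsign : Equiv.Perm.sign σ = -1 := aux_sign σ hσord hsuppcard
      let ψ : G →* ℤˣ := Equiv.Perm.sign.comp φ
      have hψt : ψ t = -1 := hsign
      rcases (ψ.normal_ker).eq_bot_or_eq_top with h | h
      · have hinj : Function.Injective ψ := (MonoidHom.ker_eq_bot_iff ψ).1 h
        have h5 := Nat.card_le_card_of_injective ψ hinj
        rw [hN, Nat.card_eq_fintype_card, Fintype.card_units_int] at h5
        omega
      · have h5 : t ∈ ψ.ker := h ▸ Subgroup.mem_top t
        rw [MonoidHom.mem_ker, hψt] at h5
        exact absurd h5 (by decide)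

end Cfsg.Agent.S1014
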