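import Cfsg.Statements.S1015
import Mathlib
import Cfsg.Agent.Lib.SmallCen.SmallOrder
import Cfsg.Agent.Lib.Perm.SylowIn

set_option autoImplicit false
set_option linter.style.haveILetI false
set_option linter.unusedVariables false
set_option linter.unusedSectionVars false
set_option linter.unusedSimpArgs false
open Cfsg

namespace Cfsg.Agent.S1015

open Subgroup Cfsg.Agent.Lib.SmallCen.SmallOrder Cfsg.Agent.Lib.Perm.SylowIn

/-- No finite simple group has order 1200 = 2^4 * 3 * 5^2. -/
theorem result {G : Type*} [Group G] [Finite G] [IsSimpleGroup G] : Nat.card G ≠ 1200 := by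
  intro h
  haveI : Fact (Nat.Prime 5) := ⟨by norm_num⟩
  have hc : ∀ Q : Sylow 5 G, Nat.card (Q : Subgroup G) = 25 := fun Q =>
    (card_sylow_eq (a := 2) (m := 48) (by rw [h]; norm_num) (by norm_num) Q).trans (by norm_num)
  have hidx : ∀ H : Subgroup G, H ≠ ⊤ → 9 < H.index := fun H hH =>
    lt_index (by rw [h]; norm_num [Nat.factorial]) H hH
  obtain ⟨P⟩ : Nonempty (Sylow 5 G) := inferInstance
  have hnP : normalizer ((P : Subgroup G) : Set G) ≠ ⊤ :=
    normalizer_ne_top P (by rw [hc]; norm_num) (by rw [hc, h]; norm_num)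
  have hn1 : Nat.card (Sylow 5 G) ≠ 1 := by
    rw [P.card_eq_index_normalizer]
    intro e
    exact hnP (Subgroup.index_eq_one.1 e)
  have hPidx : (P : Subgroup G).index = 48 := by
    have := Subgroup.card_mul_index (P : Subgroup G)
    rw [hc, h] at this
    omega
  have hd : Nat.card (Sylow 5 G) ∣ 48 := hPidx ▸ P.card_dvd_index
  have hm : Nat.card (Sylow 5 G) ≡ 1 [MOD 5] := card_sylow_modEq_one 5 G
  have hle : Nat.card (Sylow 5 G) ≤ 16 := by
    have hv : Nat.card (Sylow 5 G) ∈ Nat.divisors 48 := by simp [hd]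
    have hs : Nat.divisors 48 = {1, 2, 3, 4, 6, 8, 12, 16, 24, 48} := by decide
    rw [hs] at hv
    simp only [Finset.mem_insert, Finset.mem_singleton] at hv
    rcases hv with e | e | e | e | e | e | e | e | e | e <;> rw [e] at hm ⊢ <;>
      first | omega | (exact absurd hm (by decide))
  haveI : Nontrivial (Sylow 5 G) := by
    apply Finite.one_lt_card_iff_nontrivial.1
    have : 0 < Nat.card (Sylow 5 G) := Nat.card_pos
    omega
  obtain ⟨Q, hQP⟩ := exists_ne P
  -- the intersection is nontrivial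
  have hinf : (P : Subgroup G) ⊓ Q ≠ ⊥ := by
    intro hbot
    let f : ↥(P : Subgroup G) → Sylow 5 G := fun x => (x : G) • Q
    have hf : Function.Injective f := by
      intro x y hxy
      have h1 : ((y : G)⁻¹ * x) • Q = Q := by
        rw [mul_smul]
        have : (x : G) • Q = (y : G) • Q := hxy
        rw [this, inv_smul_smul]
      have h2 : (y : G)⁻¹ * x ∈ normalizer ((Q : Subgroup G) : Set G) :=
        Sylow.smul_eq_iff_mem_normalizer.1 h1
      have h3 : (y : G)⁻¹ * x ∈ (P : Subgroup G) ⊓ normalizer ((Q : Subgroup G) : Set G) :=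
        ⟨(P : Subgroup G).mul_mem ((P : Subgroup G).inv_mem y.2) x.2, h2⟩
      have h4 : (y : G)⁻¹ * x ∈ (P : Subgroup G) ⊓ (Q : Subgroup G) := by
        rw [← P.isPGroup'.inf_normalizer_sylow Q]
        exact h3
      rw [hbot, Subgroup.mem_bot] at h4
      apply Subtype.ext
      exact (inv_mul_eq_one.1 h4).symm
    have := Nat.card_le_card_of_injective f hf
    rw [hc] at this
    omega
  set D : Subgroup G := (P : Subgroup G) ⊓ Q with hD
  have hcomm : ∀ R : Sylow 5 G, ∀ a ∈ (R : Subgroup G), ∀ b ∈ (R : Subgroup G), a * b = b * a := by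
    intro R a ha b hb
    have hab : IsMulCommutative (R : Subgroup G) :=
      IsPGroup.isMulCommutative_of_card_eq_prime_sq (G := (R : Subgroup G)) (p := 5) (by rw [hc]; norm_num)
    have := mul_comm' (⟨a, ha⟩ : (R : Subgroup G)) ⟨b, hb⟩
    exact congrArg Subtype.val this
  set A : Subgroup G := centralizer (D : Set G) with hA
  have hPA : (P : Subgroup G) ≤ A := by
    intro a ha
    rw [hA, Subgroup.mem_centralizer_iff]
    intro d hd
    exact hcomm P d hd.1 a ha
  have hQA : (Q : Subgroup G) ≤ A := by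
    intro a ha
    rw [hA, Subgroup.mem_centralizer_iff]
    intro d hd
    exact hcomm Q d hd.2 a ha
  have hAne : A ≠ ⊤ := by
    intro htop
    obtain ⟨⟨z, hz⟩, hz1⟩ := Subgroup.ne_bot_iff_exists_ne_one.1 hinf
    have hz1' : z ≠ 1 := fun e => hz1 (Subtype.ext e)
    have hzc : z ∈ Subgroup.center G := by
      rw [Subgroup.mem_center_iff]
      intro g
      have hg : g ∈ A := by rw [htop]; trivial
      rw [hA, Subgroup.mem_centralizer_iff] at hg
      exact (hg z hz).symm
    rcases (inferInstance : (Subgroup.center G).Normal).eq_bot_or_eq_top with e | e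
    · rw [e, Subgroup.mem_bot] at hzc
      exact hz1' hzc
    · apply hnP
      rw [eq_top_iff]
      intro g _
      rw [Subgroup.mem_normalizer_iff]
      intro n
      have hgc : g ∈ Subgroup.center G := by rw [e]; trivial
      rw [Subgroup.mem_center_iff] at hgc
      have e1 : g * n * g⁻¹ = n := by
        rw [← hgc n]; simp
      rw [e1]
  have hP25 : IsPGroup 5 (P : Subgroup G) := P.isPGroup'
  have hAdv : Nat.card A ∣ 1200 := h ▸ Subgroup.card_subgroup_dvd_card A
  have hAm := card_mul_relIndex hPA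
  rw [hc] at hAm
  set m := (P : Subgroup G).relIndex A with hm'
  have hm48 : m ∣ 48 := by
    rw [← hAm] at hAdv
    have : 25 * m ∣ 25 * 48 := by simpa using hAdv
    exact Nat.dvd_of_mul_dvd_mul_left (by norm_num) this
  have hm5 : ¬ 5 ∣ m := fun e => by
    have := e.trans hm48
    omega
  have hAQ := card_mul_relIndex hQA
  rw [hc, ← hAm] at hAQ
  have hQm : (Q : Subgroup G).relIndex A = m := by omega
  have s1 : IsSylowIn 5 (P : Subgroup G) A := ⟨hPA, P.isPGroup', hm5⟩
  have s2 : IsSylowIn 5 (Q : Subgroup G) A := ⟨hQA, Q.isPGroup', by rw [hQm]; exact hm5⟩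
  have hne : s1.toSylow ≠ s2.toSylow := by
    intro e
    apply hQP
    have hle : (Q : Subgroup G) ≤ P := by
      intro x hx
      have h1 : (⟨x, hQA hx⟩ : A) ∈ s2.toSylow := (s2.mem_toSylow _).2 hx
      rw [← e] at h1
      exact (s1.mem_toSylow _).1 h1
    apply Sylow.ext
    exact Subgroup.eq_of_le_of_card_ge hle (by rw [hc, hc])
  haveI : Nontrivial (Sylow 5 A) := ⟨⟨_, _, hne⟩⟩
  have hn1A : 1 < Nat.card (Sylow 5 A) := Finite.one_lt_card_iff_nontrivial.2 inferInstance
  have hcA : Nat.card ((s1.toSylow : Sylow 5 A) : Subgroup A) = 5 ^ 2 :=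
    card_sylow_eq (a := 2) (m := m) (by rw [← hAm]; norm_num) hm5 _
  have hiA : ((s1.toSylow : Sylow 5 A) : Subgroup A).index = m := by
    have := Subgroup.card_mul_index ((s1.toSylow : Sylow 5 A) : Subgroup A)
    rw [hcA, ← hAm] at this
    have h25 : 25 * ((s1.toSylow : Sylow 5 A) : Subgroup A).index = 25 * m := by simpa using this
    exact Nat.eq_of_mul_eq_mul_left (by norm_num) h25
  have hdA : Nat.card (Sylow 5 A) ∣ m := hiA ▸ (s1.toSylow).card_dvd_index
  have hmA : Nat.card (Sylow 5 A) ≡ 1 [MOD 5] := card_sylow_modEq_one 5 A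
  have hm6 : 6 ≤ m := by
    have hmpos : 0 < m := Nat.pos_of_dvd_of_pos hm48 (by norm_num)
    have h1 := Nat.le_of_dvd hmpos hdA
    have h2 : Nat.card (Sylow 5 A) % 5 = 1 := hmA
    omega
  have hiG := Subgroup.card_mul_index A
  rw [h, ← hAm] at hiG
  have := hidx A hAne
  nlinarith

end Cfsg.Agent.S1015
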