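import Cfsg.Statements.S1017
import Mathlib
import Cfsg.Agent.Lib.SmallOrd.Basic

set_option autoImplicit false
open Cfsg

namespace Cfsg.Agent.S1017

open Subgroup Cfsg.Agent.Lib.SmallCen.SmallOrder Cfsg.Agent.Lib.SmallOrd Cfsg.Agent.Lib.Basic.SmallSimple

/-- No finite simple group has order 2016 = 2^5 * 3^2 * 7. -/
theorem result {G : Type*} [Group G] [Finite G] [IsSimpleGroup G] : Nat.card G ≠ 2016 := by
  classical
  intro h
  haveI h7 : Fact (Nat.Prime 7) := ⟨by norm_num⟩
  haveI h2 : Fact (Nat.Prime 2) := ⟨by norm_num⟩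
  obtain ⟨P⟩ : Nonempty (Sylow 7 G) := inferInstance
  have hc7 : Nat.card (P : Subgroup G) = 7 := by
    have := card_sylow_eq (p := 7) (a := 1) (m := 288) (by rw [h]; norm_num) (by norm_num) P
    simpa using this
  -- a generator
  obtain ⟨x, hxP, hx⟩ : ∃ x ∈ (P : Subgroup G), orderOf x = 7 := by
    haveI : Nontrivial (P : Subgroup G) := by
      apply Finite.one_lt_card_iff_nontrivial.1
      omega
    obtain ⟨y, hy⟩ := exists_ne (1 : (P : Subgroup G))
    refine ⟨y, y.2, ?_⟩
    have h1 : orderOf y ∣ 7 := by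
      have := orderOf_dvd_natCard y
      rwa [hc7] at this
    rw [Subgroup.orderOf_coe]
    rcases (Nat.dvd_prime (by norm_num : Nat.Prime 7)).1 h1 with h2 | h2
    · exact absurd (orderOf_eq_one_iff.1 h2) hy
    · exact h2
  set N := normalizer ((P : Subgroup G) : Set G) with hN
  set C := centralizer ((P : Subgroup G) : Set G) with hC
  have hCx : C ≤ centralizer {x} := by
    intro c hc
    rw [Subgroup.mem_centralizer_singleton_iff]
    have := (Subgroup.mem_centralizer_iff.1 hc) x hxP
    exact this.symm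
  have hNne : N ≠ ⊤ := normalizer_ne_top P (by rw [hc7]; norm_num) (by rw [hc7, h]; norm_num)
  have hcard : Nat.card N * Nat.card (Sylow 7 G) = 2016 := by
    rw [← h]
    exact card_normalizer_mul P
  have hidxN : N.index = Nat.card (Sylow 7 G) := (Sylow.card_eq_index_normalizer P).symm
  obtain ⟨e, he, hNC'⟩ := exists_card_normalizer_eq (p := 7) (by norm_num) (P : Subgroup G) hc7
  have hNC : Nat.card N = Nat.card C * e := hNC'
  have he6 : e ∣ 6 := he
  have hd : Nat.card (Sylow 7 G) ∣ 288 := by
    have h1 : (P : Subgroup G).index = 288 := by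
      have := Subgroup.card_mul_index (P : Subgroup G)
      rw [hc7, h] at this
      omega
    exact h1 ▸ P.card_dvd_index
  have hm : Nat.card (Sylow 7 G) % 7 = 1 := card_sylow_modEq_one 7 G
  have hn7 : Nat.card (Sylow 7 G) = 1 ∨ Nat.card (Sylow 7 G) = 8 ∨ Nat.card (Sylow 7 G) = 36 ∨
      Nat.card (Sylow 7 G) = 288 := by
    have key : ∀ d ∈ (288 : ℕ).divisors, d % 7 = 1 → d = 1 ∨ d = 8 ∨ d = 36 ∨ d = 288 := by decide +kernel
    exact key _ (Nat.mem_divisors.2 ⟨hd, by norm_num⟩) hm
  have he' : e = 1 ∨ e = 2 ∨ e = 3 ∨ e = 6 := by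
    have key : ∀ d ∈ (6 : ℕ).divisors, d = 1 ∨ d = 2 ∨ d = 3 ∨ d = 6 := by decide +kernel
    exact key _ (Nat.mem_divisors.2 ⟨he6, by norm_num⟩)
  -- `4` divides the order of the centralizer
  have h4C : 4 ∣ Nat.card C := by
    rcases hn7 with hn | hn | hn | hn
    · rw [hn, Subgroup.index_eq_one] at hidxN
      exact absurd hidxN hNne
    · -- index 8
      exfalso
      rw [hn] at hcard hidxN
      obtain ⟨b, hb1, hb2, -, hb3⟩ := exists_cycle_data (p := 7) (by norm_num) N hNne x hx
      rw [hidxN] at hb2 hb3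
      have hb : b = 1 := by omega
      subst hb
      have h5 := hb3 C hCx
      norm_num [Nat.factorial] at h5
      have h6 : Nat.card C ≤ 7 := Nat.le_of_dvd (by norm_num) h5
      have h7' : Nat.card N = 252 := by omega
      rw [h7'] at hNC
      rcases he' with rfl | rfl | rfl | rfl <;> omega
    · rw [hn] at hcard
      have h7' : Nat.card N = 56 := by omega
      rw [h7'] at hNC
      rcases he' with rfl | rfl | rfl | rfl <;> omega
    · exfalso
      rw [hn] at hcard
      have h7' : Nat.card N = 7 := by omega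
      have hcop : Nat.Coprime (Nat.card (normalizer (((P : Subgroup G) : Subgroup G) : Set G)))
          (Nat.card (MulAut (P : Subgroup G))) := by
        haveI : IsCyclic (P : Subgroup G) := isCyclic_of_prime_card (p := 7) hc7
        rw [IsCyclic.card_mulAut, hc7, Nat.totient_prime (by norm_num)]
        rw [← hN, h7']
        norm_num
      have h8 := normalizer_le_centralizer_of_coprime (P : Subgroup G) hcop
      have h9 := card_eq_of_le_centralizer (p := 7) (by rw [h]; norm_num) P h8
      omega
  -- subgroups of order divisible by `32`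
  have hA : ∀ A : Subgroup G, A ≠ ⊤ → 32 ∣ Nat.card A → Nat.card A = 32 := by
    intro A hA h32
    have hlt := lt_index (n := 7) (by rw [h]; decide +kernel) A hA
    have hA1 := Subgroup.card_mul_index A
    rw [h] at hA1
    obtain ⟨t, ht⟩ := h32
    rw [ht] at hA1
    have ht63 : t * A.index = 63 := by nlinarith
    have hi : A.index ∣ 63 := ⟨t, by linarith⟩
    have hi' : A.index = 9 ∨ A.index = 21 ∨ A.index = 63 := by
      have key : ∀ d ∈ (63 : ℕ).divisors, 7 < d → d = 9 ∨ d = 21 ∨ d = 63 := by decide +kernel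
      exact key _ (Nat.mem_divisors.2 ⟨hi, by norm_num⟩) hlt
    obtain ⟨b, hb1, hb2, hb4, hb3⟩ := exists_cycle_data (p := 7) (by norm_num) A hA x hx
    have h5 := hb3 C hCx
    rcases hi' with hi' | hi' | hi'
    · exfalso
      rw [hi'] at hb2 h5
      have hb : b = 1 := by omega
      subst hb
      norm_num [Nat.factorial] at h5
      have := h4C.trans h5
      omega
    · exfalso
      rw [hi'] at ht63 hb2 hb4 h5
      have ht3 : t = 3 := by omega
      rw [ht3] at ht
      have h7n : ¬ 7 ∣ Nat.card A := by rw [ht]; norm_num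
      have hb5 := hb4 h7n
      have hb : b = 3 := by omega
      subst hb
      norm_num [Nat.factorial] at h5
      have := h4C.trans h5
      omega
    · rw [hi'] at ht63
      have ht1 : t = 1 := by omega
      rw [ht, ht1]
  -- the Sylow `2`-subgroups
  have hc2 : ∀ S : Sylow 2 G, Nat.card (S : Subgroup G) = 32 := fun S => by
    have := card_sylow_eq (p := 2) (a := 5) (m := 63) (by rw [h]; norm_num) (by norm_num) S
    simpa using this
  obtain ⟨S⟩ : Nonempty (Sylow 2 G) := inferInstance
  have hNS : normalizer ((S : Subgroup G) : Set G) ≠ ⊤ :=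
    normalizer_ne_top S (by rw [hc2]; norm_num) (by rw [hc2, h]; norm_num)
  have h63 : Nat.card (Sylow 2 G) = 63 := by
    have h1 := hA _ hNS (by
      rw [← hc2 S]
      have : Nat.card (S : Subgroup G) ∣ _ := Subgroup.card_dvd_of_le (Subgroup.le_normalizer)
      exact this)
    have h2 := card_normalizer_mul S
    rw [h1, h] at h2
    omega
  obtain ⟨S₁, R₁, hne, hD, hSD, hRD⟩ := exists_sylow_pair_of_not_modEq (p := 2) (G := G) (by
    rw [h63]; decide)
  set D : Subgroup G := (S₁ : Subgroup G) ⊓ (R₁ : Subgroup G) with hDdef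
  rw [hc2] at hD
  have hDne : normalizer (D : Set G) ≠ ⊤ := by
    intro htop
    have hnorm : D.Normal := Subgroup.normalizer_eq_top_iff.1 htop
    rcases hnorm.eq_bot_or_eq_top with h3 | h3
    · rw [h3] at hD
      simp at hD
    · rw [h3] at hD
      simp [h] at hD
  have hcA := hA _ hDne (by
    rw [← hc2 S₁]
    exact Subgroup.card_dvd_of_le hSD)
  have e1 : (S₁ : Subgroup G) = normalizer (D : Set G) :=
    Subgroup.eq_of_le_of_card_ge hSD (by rw [hcA, hc2])
  have e2 : (R₁ : Subgroup G) = normalizer (D : Set G) :=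
    Subgroup.eq_of_le_of_card_ge hRD (by rw [hcA, hc2])
  exact hne (Sylow.ext (e1.trans e2.symm))

end Cfsg.Agent.S1017
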