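import Cfsg.Statements.S1019
import Mathlib
import Cfsg.Agent.Lib.Basic.ConjCount
-- import your own Cfsg.Agent.* helpers here

set_option autoImplicit false
open Cfsg

namespace Cfsg.Agent.S1019

/-- Let H be a subgroup of a finite group G and x an element of H. In the action of G on the left cosets of H, the number of cosets fixed by x, multiplied by the size of the conjugacy class of x, equals the index of H multiplied by the number of conjugates of x that lie in H. -/
theorem result {G : Type*} [Group G] [Finite G] (H : Subgroup G) (x : G) (hx : x ∈ H) : Nat.card (MulAction.fixedBy (G ⧸ H) x) * Nat.card {g : G // IsConj x g} = H.index * Nat.card {g : G // IsConj x g ∧ g ∈ H} := by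
  classical
  have := Fintype.ofFinite G
  have := Fintype.ofFinite (G ⧸ H)
  set X : Finset G := Finset.univ.filter (fun g => g⁻¹ * x * g ∈ H) with hX
  set F : Finset (G ⧸ H) := Finset.univ.filter (fun c => x • c = c) with hF
  set Cl : Finset G := Finset.univ.filter (fun y => IsConj x y ∧ y ∈ H) with hCl
  have hFcard : Nat.card (MulAction.fixedBy (G ⧸ H) x) = F.card := by
    rw [Nat.card_eq_fintype_card, Fintype.card_subtype]
    rfl
  have hClcard : Nat.card {g : G // IsConj x g ∧ g ∈ H} = Cl.card := by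
    rw [Nat.card_eq_fintype_card, Fintype.card_subtype]
  have hmemF : ∀ g : G, (QuotientGroup.mk g : G ⧸ H) ∈ F ↔ g ∈ X := by
    intro g
    simp only [hF, hX, Finset.mem_filter, Finset.mem_univ, true_and]
    rw [MulAction.Quotient.smul_mk, smul_eq_mul, QuotientGroup.eq]
    have h1 : (x * g)⁻¹ * g = (g⁻¹ * x * g)⁻¹ := by group
    rw [h1, Subgroup.inv_mem_iff]
  -- first count
  have h1 : X.card = F.card * Nat.card H := by
    rw [Finset.card_eq_sum_card_fiberwise (f := fun g => (QuotientGroup.mk g : G ⧸ H)) (t := F)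
      (fun g hg => (hmemF g).mpr hg)]
    rw [Finset.sum_const_nat (m := Nat.card H)]
    intro c hc
    obtain ⟨g₀, rfl⟩ := QuotientGroup.mk_surjective c
    rw [Nat.card_eq_fintype_card, ← Finset.card_univ]
    symm
    refine Finset.card_bij (fun h _ => g₀ * (h : G)) ?_ ?_ ?_
    · intro h _
      rw [Finset.mem_filter]
      have hg₀ : g₀ ∈ X := (hmemF g₀).mp hc
      have h3 : (QuotientGroup.mk (g₀ * (h : G)) : G ⧸ H) = QuotientGroup.mk g₀ :=
        (QuotientGroup.mk_mul_of_mem g₀ h.2)
      exact ⟨(hmemF _).mp (h3 ▸ hc), h3⟩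
    · intro h₁ _ h₂ _ he
      exact Subtype.ext (mul_left_cancel he)
    · intro b hb
      rw [Finset.mem_filter] at hb
      have h3 : g₀⁻¹ * b ∈ H := QuotientGroup.eq.mp hb.2.symm
      exact ⟨⟨g₀⁻¹ * b, h3⟩, Finset.mem_univ _, by simp⟩
  -- second count
  have h2 : X.card = Cl.card * Nat.card (Subgroup.centralizer ({x} : Set G)) := by
    rw [Finset.card_eq_sum_card_fiberwise (f := fun g => g⁻¹ * x * g) (t := Cl)
      (fun g hg => by
        have hg' : g⁻¹ * x * g ∈ H := (Finset.mem_filter.mp hg).2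
        simp only [hCl, Finset.coe_filter, Finset.mem_univ, true_and]
        exact ⟨isConj_iff.mpr ⟨g⁻¹, by group⟩, hg'⟩)]
    rw [Finset.sum_const_nat (m := Nat.card (Subgroup.centralizer ({x} : Set G)))]
    intro y hy
    have hy' := (Finset.mem_filter.mp hy).2
    obtain ⟨c, hc⟩ := isConj_iff.mp hy'.1
    set g₀ := c⁻¹ with hg₀
    have hy1 : g₀⁻¹ * x * g₀ = y := by
      rw [hg₀, inv_inv]
      exact hc
    rw [Nat.card_eq_fintype_card, ← Finset.card_univ]
    symm
    refine Finset.card_bij (fun z _ => (z : G) * g₀) ?_ ?_ ?_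
    · intro z _
      rw [Finset.mem_filter]
      have hz : (z : G)⁻¹ * x * z = x := by
        have := Subgroup.mem_centralizer_singleton_iff.mp z.2
        calc (z : G)⁻¹ * x * z = (z : G)⁻¹ * (x * z) := by group
          _ = (z : G)⁻¹ * (z * x) := by rw [this]
          _ = x := by group
      have h3 : ((z : G) * g₀)⁻¹ * x * ((z : G) * g₀) = y := by
        rw [← hy1]
        calc ((z : G) * g₀)⁻¹ * x * ((z : G) * g₀) = g₀⁻¹ * ((z : G)⁻¹ * x * z) * g₀ := by group
          _ = g₀⁻¹ * x * g₀ := by rw [hz]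
      refine ⟨?_, h3⟩
      rw [hX, Finset.mem_filter]
      exact ⟨Finset.mem_univ _, h3 ▸ hy'.2⟩
    · intro z₁ _ z₂ _ he
      exact Subtype.ext (mul_right_cancel he)
    · intro b hb
      rw [Finset.mem_filter] at hb
      have hby : b⁻¹ * x * b = y := hb.2
      refine ⟨⟨b * g₀⁻¹, ?_⟩, Finset.mem_univ _, by simp⟩
      rw [Subgroup.mem_centralizer_singleton_iff]
      -- (b g₀⁻¹) x = x (b g₀⁻¹)
      have : (b * g₀⁻¹)⁻¹ * x * (b * g₀⁻¹) = x := by
        calc (b * g₀⁻¹)⁻¹ * x * (b * g₀⁻¹) = g₀ * (b⁻¹ * x * b) * g₀⁻¹ := by group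
          _ = g₀ * (g₀⁻¹ * x * g₀) * g₀⁻¹ := by rw [hby, hy1]
          _ = x := by group
      calc b * g₀⁻¹ * x = b * g₀⁻¹ * ((b * g₀⁻¹)⁻¹ * x * (b * g₀⁻¹)) := by rw [this]
        _ = x * (b * g₀⁻¹) := by group
  rw [hFcard, hClcard]
  have h3 := Cfsg.Agent.Lib.Basic.ConjCount.card_isConj_mul_card_centralizer x
  have h4 := H.card_mul_index
  have hpos1 : 0 < Nat.card H := Nat.card_pos
  have hpos2 : 0 < Nat.card (Subgroup.centralizer ({x} : Set G)) := Nat.card_pos
  apply Nat.eq_of_mul_eq_mul_right (Nat.mul_pos hpos1 hpos2)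
  calc F.card * Nat.card {g : G // IsConj x g} * (Nat.card H * Nat.card (Subgroup.centralizer ({x} : Set G)))
      = (F.card * Nat.card H) * (Nat.card {g : G // IsConj x g} * Nat.card (Subgroup.centralizer ({x} : Set G))) := by ring
    _ = X.card * Nat.card G := by rw [← h1, h3]
    _ = (Cl.card * Nat.card (Subgroup.centralizer ({x} : Set G))) * (Nat.card H * H.index) := by rw [← h2, h4]
    _ = H.index * Cl.card * (Nat.card H * Nat.card (Subgroup.centralizer ({x} : Set G))) := by ring

end Cfsg.Agent.S1019
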