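import Cfsg.Statements.S1022
import Mathlib
import Cfsg.Agent.Lib.SmallOrd.LocalTwo

set_option autoImplicit false
open Cfsg

namespace Cfsg.Agent.S1022

open Subgroup Cfsg.Agent.Lib.SmallCen.SmallOrder Cfsg.Agent.Lib.SmallOrd
open Cfsg.Agent.Lib.Basic.SmallSimple Cfsg.Agent.Lib.SmallOrd.ClassSign
open Cfsg.Agent.Lib.SmallOrd.InvolTools Cfsg.Agent.Lib.SmallOrd.LocalTwo

/-- No finite simple group has order 459648 = 2^7 * 3^3 * 7 * 19. -/
theorem result {G : Type*} [Group G] [Finite G] [IsSimpleGroup G] : Nat.card G ≠ 459648 := by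
  classical
  intro h
  haveI h19 : Fact (Nat.Prime 19) := ⟨by norm_num⟩
  obtain ⟨P⟩ : Nonempty (Sylow 19 G) := inferInstance
  have hP : Nat.card (P : Subgroup G) = 19 := by
    have := card_sylow_eq (p := 19) (a := 1) (m := 24192) (by rw [h]; norm_num) (by norm_num) P
    simpa using this
  obtain ⟨x, hxP, hx⟩ : ∃ x ∈ (P : Subgroup G), orderOf x = 19 := by
    haveI : Nontrivial (P : Subgroup G) := by
      apply Finite.one_lt_card_iff_nontrivial.1
      omega
    obtain ⟨y, hy⟩ := exists_ne (1 : (P : Subgroup G))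
    refine ⟨y, y.2, ?_⟩
    have h1 : orderOf y ∣ 19 := by
      have := orderOf_dvd_natCard y
      rwa [hP] at this
    rw [Subgroup.orderOf_coe]
    rcases (Nat.dvd_prime (by norm_num : Nat.Prime 19)).1 h1 with h2 | h2
    · exact absurd (orderOf_eq_one_iff.1 h2) hy
    · exact h2
  set N := normalizer ((P : Subgroup G) : Set G) with hN
  have hzx : zpowers x = (P : Subgroup G) := by
    apply Subgroup.eq_of_le_of_card_ge
    · exact (Subgroup.zpowers_le).2 hxP
    · rw [Nat.card_zpowers, hx, hP]
  have hCeq : centralizer ((P : Subgroup G) : Set G) = centralizer ({x} : Set G) := by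
    apply le_antisymm
    · exact Subgroup.centralizer_le (Set.singleton_subset_iff.2 hxP)
    · intro c hc
      rw [Subgroup.mem_centralizer_singleton_iff] at hc
      rw [Subgroup.mem_centralizer_iff]
      intro y hy
      rw [SetLike.mem_coe, ← hzx, Subgroup.mem_zpowers_iff] at hy
      obtain ⟨k, rfl⟩ := hy
      exact (Commute.zpow_right (show Commute c x from hc) k).eq.symm
  set C := centralizer ({x} : Set G) with hC
  have hCN : C ≤ N := centralizer_le_normalizer' P hP x hxP hx
  have hNne : N ≠ ⊤ := normalizer_ne_top P (by rw [hP]; norm_num) (by rw [hP, h]; norm_num)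
  have hcard : Nat.card N * Nat.card (Sylow 19 G) = 459648 := by
    rw [← h]
    exact card_normalizer_mul P
  have hidxN : N.index = Nat.card (Sylow 19 G) := (Sylow.card_eq_index_normalizer P).symm
  obtain ⟨e, he, hNC'⟩ := exists_card_normalizer_eq (p := 19) (by norm_num) (P : Subgroup G) hP
  rw [hCeq] at hNC'
  have hNC : Nat.card N = Nat.card C * e := hNC'
  have he18 : e ∣ 18 := he
  have hd : Nat.card (Sylow 19 G) ∣ 24192 := by
    have h1 : (P : Subgroup G).index = 24192 := by
      have := Subgroup.card_mul_index (P : Subgroup G)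
      rw [hP, h] at this
      omega
    exact h1 ▸ P.card_dvd_index
  have hm : Nat.card (Sylow 19 G) % 19 = 1 := card_sylow_modEq_one 19 G
  have hn19 : Nat.card (Sylow 19 G) = 1 ∨ Nat.card (Sylow 19 G) = 96 ∨
      Nat.card (Sylow 19 G) = 1008 := by
    have key : ∀ d ∈ (24192 : ℕ).divisors, d % 19 = 1 → d = 1 ∨ d = 96 ∨ d = 1008 := by
      decide +kernel
    exact key _ (Nat.mem_divisors.2 ⟨hd, by norm_num⟩) hm
  have hCpos : 0 < Nat.card C := Nat.card_pos
  rcases hn19 with hn | hn | hn
  · rw [hn, Subgroup.index_eq_one] at hidxN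
    exact hNne hidxN
  · -- `n₁₉ = 96`
    rw [hn] at hcard hidxN
    have hNc : Nat.card N = 4788 := by omega
    have huniq : ∀ c d : G ⧸ N, act N x c = c → act N x d = d → c = d := by
      have h1 : ∀ c : G ⧸ N, act N x c = c → c = ((1 : G) : G ⧸ N) := by
        intro c
        induction c using QuotientGroup.induction_on with
        | H g =>
          intro hc
          have h2 : (x • ((g : G) : G ⧸ N)) = ((g : G) : G ⧸ N) := hc
          rw [MulAction.Quotient.smul_mk] at h2
          have h3 := QuotientGroup.eq.mp h2.symm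
          have h4 : g⁻¹ * x * g ∈ N := by simpa [mul_assoc] using h3
          have h5 := mem_normalizer_of_conj_mem P hP x hxP hx g h4
          rw [QuotientGroup.eq, mul_one]
          exact inv_mem h5
      intro c d hc hd
      rw [h1 c hc, h1 d hd]
    obtain ⟨b, hb1, hb2, hb3⟩ := exists_cycle_data_unique (p := 19) (by norm_num) N hNne x hx huniq
    rw [hidxN] at hb1 hb2 hb3
    have hb : b = 5 := by omega
    subst hb
    have hC1 := hb3 C le_rfl
    have h7C : 7 ∣ Nat.card C := by
      have h7 : 7 ∣ Nat.card C * e := by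
        rw [← hNC, hNc]
        norm_num
      rcases (Nat.Prime.dvd_mul (by norm_num : Nat.Prime 7)).1 h7 with h8 | h8
      · exact h8
      · exfalso
        have := h8.trans he18
        omega
    have h9 := h7C.trans hC1
    norm_num [Nat.factorial] at h9
  · -- `n₁₉ = 1008`
    rw [hn] at hcard
    have hNc : Nat.card N = 456 := by omega
    have hnorm : (C.subgroupOf N).Normal := by
      constructor
      rintro ⟨c, hc⟩ hc' ⟨g, hg⟩
      rw [Subgroup.mem_subgroupOf] at hc' ⊢
      exact conj_mem_centralizer' P hP x hxP hx g c hg hc'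
    have hrelN : C.relIndex N = e := by
      have h1 := Cfsg.Agent.Lib.Perm.SylowIn.card_mul_relIndex hCN
      rw [hNC] at h1
      exact Nat.eq_of_mul_eq_mul_left hCpos h1
    refine false_of_eight P hP x hxP hx (by rw [h]; norm_num) (by rw [hNc]; norm_num)
      (by rw [hNc]; norm_num) ?_ ?_
    · intro T hTN hTc
      show 4 ≤ Nat.card (T ⊓ C : Subgroup G)
      have h1 := Cfsg.Agent.Lib.Perm.SylowIn.card_mul_relIndex (inf_le_left : T ⊓ C ≤ T)
      rw [Subgroup.inf_relIndex_left, hTc] at h1
      have h2 : (C.subgroupOf N).relIndex (T.subgroupOf N) ∣ (C.subgroupOf N).index :=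
        Subgroup.relIndex_dvd_index_of_normal _ _
      rw [Subgroup.relIndex_subgroupOf hTN] at h2
      have h3 : C.relIndex T ∣ 18 := by
        refine h2.trans ?_
        change C.relIndex N ∣ 18
        rw [hrelN]
        exact he18
      have h4 : C.relIndex T ∣ 8 := ⟨_, by rw [← h1, mul_comm]⟩
      have h5 : C.relIndex T ≤ Nat.gcd 18 8 := Nat.le_of_dvd (by norm_num) (Nat.dvd_gcd h3 h4)
      have h6 : Nat.gcd 18 8 = 2 := by norm_num
      by_contra hcon
      have : Nat.card (T ⊓ C : Subgroup G) * C.relIndex T ≤ 3 * 2 := Nat.mul_le_mul (by omega) (by omega)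
      omega
    · intro q hqC hq2 hq1 T hTc hTN hTq
      set X := centralizer ({q} : Set G) with hX
      have hxX : x ∈ X := by
        rw [hX, Subgroup.mem_centralizer_singleton_iff]
        rw [Subgroup.mem_centralizer_singleton_iff] at hqC
        exact hqC.symm
      have hPX : (P : Subgroup G) ≤ X := by
        rw [← hzx]
        exact (Subgroup.zpowers_le).2 hxX
      obtain ⟨k, hk, hk19⟩ := exists_card_eq_inf_mul P X hPX
      have hxN : x ∈ N := (Subgroup.le_normalizer (H := (P : Subgroup G))) hxP
      have h8 : 8 ∣ Nat.card (X ⊓ N : Subgroup G) := by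
        rw [← hTc]
        exact Subgroup.card_dvd_of_le (le_inf hTq hTN)
      have h19 : 19 ∣ Nat.card (X ⊓ N : Subgroup G) := by
        have hxMN : x ∈ X ⊓ N := ⟨hxX, hxN⟩
        have := orderOf_dvd_natCard (⟨x, hxMN⟩ : ↥(X ⊓ N))
        rwa [Subgroup.orderOf_mk, hx] at this
      have h152 : 152 ∣ Nat.card (X ⊓ N : Subgroup G) :=
        Nat.Coprime.mul_dvd_of_dvd_of_dvd (by norm_num : Nat.Coprime 8 19) h8 h19
      have h456 : Nat.card (X ⊓ N : Subgroup G) ∣ 456 := by
        rw [← hNc]
        exact Subgroup.card_dvd_of_le inf_le_right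
      have key : ∀ d ∈ (456 : ℕ).divisors, 152 ∣ d → d = 152 ∨ d = 456 := by decide +kernel
      have hXne : X ≠ ⊤ := centralizer_ne_top (by rw [h]; norm_num) q hq1
      have hidx := lt_index (n := 4) (by rw [h]; decide +kernel) X hXne
      have hmul := Subgroup.card_mul_index X
      rw [hk, h] at hmul
      have hk1 : k = 1 := by
        rcases key _ (Nat.mem_divisors.2 ⟨h456, by norm_num⟩) h152 with h1 | h1 <;> rw [h1] at hmul
        · have hmul' : k * X.index = 3024 := by nlinarith
          have hkl : k ≤ 604 := by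
            by_contra hcon
            have : 605 * 5 ≤ k * X.index := Nat.mul_le_mul (by omega) hidx
            omega
          have hkd : k ∣ 3024 := ⟨_, hmul'.symm⟩
          have key2 : ∀ d ∈ (3024 : ℕ).divisors, d % 19 = 1 → d ≤ 604 → d = 1 := by decide +kernel
          exact key2 k (Nat.mem_divisors.2 ⟨hkd, by norm_num⟩) hk19 hkl
        · have hmul' : k * X.index = 1008 := by nlinarith
          have hkl : k ≤ 201 := by
            by_contra hcon
            have : 202 * 5 ≤ k * X.index := Nat.mul_le_mul (by omega) hidx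
            omega
          have hkd : k ∣ 1008 := ⟨_, hmul'.symm⟩
          have key2 : ∀ d ∈ (1008 : ℕ).divisors, d % 19 = 1 → d ≤ 201 → d = 1 := by decide +kernel
          exact key2 k (Nat.mem_divisors.2 ⟨hkd, by norm_num⟩) hk19 hkl
      rw [hk1, mul_one] at hk
      have hle : X ⊓ N = X := Subgroup.eq_of_le_of_card_ge inf_le_left hk.le
      exact inf_eq_left.1 hle

end Cfsg.Agent.S1022
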