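import Cfsg.Statements.S1024
import Mathlib
import Cfsg.Agent.Lib.ChevTri.Datum
-- import your own Cfsg.Agent.* helpers here

set_option autoImplicit false
open Cfsg

namespace Cfsg.Agent.S1024

/-- `x_r(0) = 1`, and `x_r(t) = 1` forces `t = 0`: the map `t ↦ x_r(t)` is injective. -/
theorem result {F : Type*} [Field F] (D : Cfsg.Lie.ChevalleyDatum) (hD : D ∈ [Cfsg.Lie.chevG2, Cfsg.Lie.chevB2, Cfsg.Lie.chevD4, Cfsg.Lie.chevF4, Cfsg.Lie.chevE6, Cfsg.Lie.chevE7, Cfsg.Lie.chevE8]) (r : ℕ) (hr : r < D.nroots) (t : F) :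
    D.x F r t = 1 ↔ t = 0 := by
  have hG := Cfsg.Agent.Lib.ChevTri.Datum.good_of_mem hD
  rw [Cfsg.Lie.ChevalleyDatum.x, dif_pos hr]
  constructor
  · intro h
    have hlt := hG.neg_lt r hr
    have hne := hG.neg_ne r hr
    have h1 := congrFun (congrFun h (Sum.inr ⟨r, hr⟩)) (Sum.inr ⟨D.negIdx.getD r 0, hlt⟩)
    have hs : (⟨D.negIdx.getD r 0, hlt⟩ : Fin D.nroots) ≠ ⟨r, hr⟩ := fun h => hne (Fin.mk.inj_iff.mp h)
    simp only [Cfsg.Lie.ChevalleyDatum.xMat, Matrix.of_apply, if_neg hs, if_true, Matrix.one_apply,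
      Sum.inr.injEq, if_neg hs.symm] at h1
    have : t ^ 2 = 0 := by simpa using h1
    exact pow_eq_zero_iff (two_ne_zero) |>.mp this
  · rintro rfl
    ext row col
    rcases col with i | s
    · rcases row with i' | u
      · simp [Cfsg.Lie.ChevalleyDatum.xMat, Matrix.one_apply]
      · simp [Cfsg.Lie.ChevalleyDatum.xMat]
    · by_cases hs : s = ⟨r, hr⟩
      · subst hs
        rcases row with i' | u
        · simp [Cfsg.Lie.ChevalleyDatum.xMat]
        · simp [Cfsg.Lie.ChevalleyDatum.xMat, Matrix.one_apply]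
      · by_cases hs2 : s.val = D.negIdx.getD r 0
        · rcases row with i' | u
          · simp [Cfsg.Lie.ChevalleyDatum.xMat, hs, hs2]
          · have hs3 := hs2
            rw [Array.getD_eq_getD_getElem?] at hs3
            simp only [Cfsg.Lie.ChevalleyDatum.xMat, Matrix.of_apply, if_neg hs, if_pos hs2, Matrix.one_apply,
              Sum.inr.injEq]
            split_ifs <;> simp
        · rcases row with i' | u
          · simp [Cfsg.Lie.ChevalleyDatum.xMat, hs, hs2]
          · simp only [Cfsg.Lie.ChevalleyDatum.xMat, Matrix.of_apply, if_neg hs, if_neg hs2, Matrix.one_apply,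
              Sum.inr.injEq]
            have hz : ((D.chainCoeff r s.val u.val).map fun km => ((km.2 : ℤ) : F) * (0:F) ^ km.1).sum = 0 := by
              rw [Cfsg.Lie.ChevalleyDatum.chainCoeff]
              apply List.sum_eq_zero
              intro x hx
              simp only [List.mem_map, List.mem_flatMap, List.mem_filter] at hx
              obtain ⟨y, ⟨e, _, q, _, rfl⟩, rfl⟩ := hx
              simp
            rw [hz, add_zero]

end Cfsg.Agent.S1024
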