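import Cfsg.Statements.S1041
import Mathlib
import Cfsg.Agent.Lib.ChevTri.Datum
-- import your own Cfsg.Agent.* helpers here

set_option autoImplicit false
open Cfsg

namespace Cfsg.Agent.S1041

/-- `U` and `V` generate the whole Chevalley group. -/
theorem result {F : Type*} [Field F] (D : Cfsg.Lie.ChevalleyDatum) (hD : D ∈ [Cfsg.Lie.chevG2, Cfsg.Lie.chevB2, Cfsg.Lie.chevD4, Cfsg.Lie.chevF4, Cfsg.Lie.chevE6, Cfsg.Lie.chevE7, Cfsg.Lie.chevE8]) : D.posUnipotent F ⊔ D.negUnipotent F = D.group F := by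
  have hG := Cfsg.Agent.Lib.ChevTri.Datum.good_of_mem hD
  apply le_antisymm
  · rw [sup_le_iff]
    constructor
    · rw [Cfsg.Lie.ChevalleyDatum.posUnipotent, Subgroup.closure_le]
      rintro g ⟨r, t, hr, hg⟩
      apply Subgroup.subset_closure
      refine ⟨⟨r, hr.1⟩, t, ?_⟩
      rw [hg, Cfsg.Lie.ChevalleyDatum.x, dif_pos hr.1]
    · rw [Cfsg.Lie.ChevalleyDatum.negUnipotent, Subgroup.closure_le]
      rintro g ⟨r, t, hr, hg⟩
      apply Subgroup.subset_closure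
      refine ⟨⟨r, hr.1⟩, t, ?_⟩
      rw [hg, Cfsg.Lie.ChevalleyDatum.x, dif_pos hr.1]
  · rw [Cfsg.Lie.ChevalleyDatum.group, Subgroup.closure_le]
    rintro g ⟨r, t, hg⟩
    have hx : (g : Matrix D.Idx D.Idx F) = D.x F r.val t := by
      rw [hg, Cfsg.Lie.ChevalleyDatum.x, dif_pos r.isLt]
    rcases hG.pos_or_neg r.val r.isLt with h | h
    · exact Subgroup.mem_sup_left (Subgroup.subset_closure ⟨r.val, t, h, hx⟩)
    · exact Subgroup.mem_sup_right (Subgroup.subset_closure ⟨r.val, t, h, hx⟩)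

end Cfsg.Agent.S1041
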