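import Cfsg.Statements.S1058
import Cfsg.Agent.Lib.Compute.ChevTransport
import Cfsg.Agent.Lib.Compute.GFModel

set_option autoImplicit false
open Cfsg

namespace Cfsg.Agent.S1058

open Cfsg.Lie Matrix Cfsg.Agent.Lib.Compute.ChevTransport

/-- The coordinates of `B₂`. -/
abbrev Ix := chevB2.Idx
/-- The dual module over the field with two elements. -/
abbrev V := Ix → ZMod 2

/-- The matrix of `x_r(1)`. -/
def X (r : Fin chevB2.nroots) : Matrix Ix Ix (ZMod 2) := chevB2.xMat (ZMod 2) r 1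

theorem X_sq : ∀ r, X r * X r = 1 := by decide +kernel

theorem X_zero : ∀ r, chevB2.xMat (ZMod 2) r 0 = 1 := by decide +kernel

/-- The element `x_r(1)` of `GL`. -/
def a (r : Fin chevB2.nroots) : GL Ix (ZMod 2) := ⟨X r, X r, X_sq r, X_sq r⟩

/-- The position of a coordinate. -/
def pos : Ix → ℕ
  | .inl i => i.val
  | .inr s => s.val + 2

/-- A vector from a ten-bit code. -/
def vecOf (c : ℕ) : V := fun i => if Nat.testBit c (pos i) then 1 else 0

/-- The labelled points: the 6-orbit on the diagonal, the 20-orbit on the 3-subsets, zero otherwise. -/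
def tbl : List ℕ := [98, 0, 0, 0, 0, 0, 0, 0, 997, 677, 837, 517, 0, 997, 0, 887, 751, 637, 0, 677, 887, 0, 1023, 557, 0, 837, 751, 1023, 0, 597, 0, 517, 637, 557, 597, 0, 0, 0, 997, 677, 837, 517, 0, 610, 0, 0, 0, 0, 997, 0, 0, 119, 111, 1021, 677, 0, 119, 0, 127, 685, 837, 0, 111, 127, 0, 853, 517, 0, 1021, 685, 853, 0, 0, 997, 0, 887, 751, 637, 997, 0, 0, 119, 111, 1021, 0, 0, 518, 0, 0, 0, 887, 119, 0, 0, 99, 867, 751, 111, 0, 99, 0, 739, 637, 1021, 0, 867, 739, 0, 0, 677, 887, 0, 1023, 557, 677, 0, 119, 0, 127, 685, 887, 119, 0, 0, 99, 867, 0, 0, 0, 582, 0, 0, 1023, 127, 99, 0, 0, 995, 557, 685, 867, 0, 995, 0, 0, 837, 751, 1023, 0, 597, 837, 0, 111, 127, 0, 853, 751, 111, 0, 99, 0, 739, 1023, 127, 99, 0, 0, 995, 0, 0, 0, 0, 550, 0, 597, 853, 739, 995, 0, 0, 0, 517, 637, 557, 597, 0, 517, 0, 1021, 685, 853, 0, 637, 1021, 0, 867, 739, 0, 557, 685, 867, 0, 995, 0, 597, 853, 739, 995, 0, 0, 0, 0, 0, 0, 0, 102]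

/-- Labels. -/
abbrev Om := Fin 6 × Fin 6 × Fin 6

/-- The labelled vector. -/
def E (t : Om) : V := vecOf (tbl.getD (36 * t.1.val + 6 * t.2.1.val + t.2.2.val) 0)

/-- The natural action on labels. -/
def act (σ : Equiv.Perm (Fin 6)) (t : Om) : Om := (σ t.1, σ t.2.1, σ t.2.2)

/-- The images of the generators in `S₆`, as tables. -/
def pd : Fin 8 → Fin 6 → Fin 6 :=
  ![![1, 0, 2, 3, 4, 5], ![1, 0, 3, 2, 5, 4], ![1, 0, 4, 5, 2, 3], ![0, 1, 3, 2, 4, 5],
    ![0, 1, 4, 3, 2, 5], ![5, 4, 3, 2, 1, 0], ![5, 3, 4, 1, 2, 0], ![5, 1, 2, 3, 4, 0]]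

theorem pd_sq : ∀ r i, pd r (pd r i) = i := by decide

/-- The images of the generators in `S₆`. -/
def b (r : Fin 8) : Equiv.Perm (Fin 6) := ⟨pd r, pd r, pd_sq r, pd_sq r⟩

theorem E_X : ∀ (r : Fin 8) (t : Om), E t ᵥ* X r = E (act (b r) t) := by decide +kernel

/-- The relation between `GL` and `S₆`. -/
def R : Subgroup (GL Ix (ZMod 2) × Equiv.Perm (Fin 6)) where
  carrier := {p | ∀ t, E t ᵥ* ((p.1⁻¹ : GL Ix (ZMod 2)) : Matrix Ix Ix (ZMod 2)) = E (act p.2 t)}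
  one_mem' := by
    intro t
    simp [act]
  mul_mem' := by
    intro p q hp hq t
    rw [Prod.snd_mul, Prod.fst_mul, _root_.mul_inv_rev, Units.val_mul, ← Matrix.vecMul_vecMul, hq t, hp]
    rfl
  inv_mem' := by
    intro p hp t
    have h1 := hp (act p.2⁻¹ t)
    have h2 : act p.2 (act p.2⁻¹ t) = t := by
      simp [act]
    rw [h2] at h1
    rw [Prod.snd_inv, Prod.fst_inv, inv_inv, ← h1, Matrix.vecMul_vecMul, ← Units.val_mul, inv_mul_cancel,
      Units.val_one, Matrix.vecMul_one]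

theorem hR (r : Fin 8) : (a r, b r) ∈ R := by
  intro t
  exact E_X r t

theorem E_diag : ∀ i j : Fin 6, E (i, i, i) = E (j, j, j) → i = j := by decide +kernel

theorem R_fst {p : GL Ix (ZMod 2) × Equiv.Perm (Fin 6)} (hp : p ∈ R) (h : p.1 = 1) : p.2 = 1 := by
  ext i
  have h1 := hp (i, i, i)
  rw [h] at h1
  simp only [inv_one, Units.val_one, Matrix.vecMul_one] at h1
  have := E_diag _ _ h1
  simp [← this]

/-- Expressions of the unit vectors in the labelled vectors. -/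
def bas (i : Ix) : List Om :=
  match pos i with
  | 0 => [(0, 0, 0), (0, 1, 2), (0, 2, 3), (0, 2, 4), (1, 2, 3), (1, 2, 4), (2, 2, 2)]
  | 1 => [(0, 0, 0), (0, 1, 3), (0, 1, 4), (0, 2, 3), (0, 2, 4), (1, 2, 3), (1, 2, 4)]
  | 2 => [(0, 1, 3), (0, 1, 4), (0, 2, 3), (0, 2, 4), (1, 1, 1), (1, 2, 3), (1, 2, 4), (2, 2, 2)]
  | 3 => [(0, 1, 2), (0, 1, 3), (0, 1, 4), (1, 1, 1), (1, 2, 4)]
  | 4 => [(0, 1, 2), (0, 1, 3), (0, 1, 4), (1, 1, 1), (1, 2, 3)]
  | 5 => [(0, 0, 0), (0, 1, 2), (0, 1, 4), (0, 2, 4), (1, 1, 1), (1, 2, 4)]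
  | 6 => [(0, 0, 0), (0, 1, 2), (0, 1, 3), (0, 2, 3), (1, 1, 1), (1, 2, 3)]
  | 7 => [(0, 0, 0), (0, 2, 4), (1, 1, 1), (1, 2, 4)]
  | 8 => [(0, 0, 0), (0, 2, 3), (1, 1, 1), (1, 2, 3)]
  | _ => [(0, 0, 0), (1, 1, 1)]

theorem bas_sum : ∀ i : Ix, ((bas i).map E).sum = Pi.single i 1 := by decide +kernel

theorem R_snd {p : GL Ix (ZMod 2) × Equiv.Perm (Fin 6)} (hp : p ∈ R) (h : p.2 = 1) : p.1 = 1 := by
  set M : Matrix Ix Ix (ZMod 2) := ((p.1⁻¹ : GL Ix (ZMod 2)) : Matrix Ix Ix (ZMod 2)) with hM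
  have h1 : ∀ t, E t ᵥ* M = E t := by
    intro t
    have := hp t
    rw [h] at this
    exact this
  have h2 : ∀ l : List Om, (l.map E).sum ᵥ* M = (l.map E).sum := by
    intro l
    induction l with
    | nil => simp
    | cons t l ih =>
      simp only [List.map_cons, List.sum_cons, Matrix.add_vecMul, ih, h1]
  have h3 : M = 1 := by
    ext i j
    have h4 := h2 (bas i)
    rw [bas_sum, Matrix.single_one_vecMul] at h4
    have := congrFun h4 j
    simpa [Matrix.one_apply, Pi.single_apply, eq_comm] using this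
  have h5 : p.1⁻¹ = 1 := Units.ext h3
  simpa using h5

theorem closure_a : Subgroup.closure (Set.range a) = chevB2.group (ZMod 2) := by
  apply le_antisymm
  · rw [Subgroup.closure_le]
    rintro _ ⟨r, rfl⟩
    exact Subgroup.subset_closure ⟨r, 1, rfl⟩
  · rw [ChevalleyDatum.group, Subgroup.closure_le]
    rintro g ⟨r, t, hg⟩
    have ht : ∀ t : ZMod 2, t = 0 ∨ t = 1 := by decide
    rcases ht t with rfl | rfl
    · have : g = 1 := Units.ext (hg.trans (X_zero r))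
      rw [this]
      exact one_mem _
    · have : g = a r := Units.ext hg
      rw [this]
      exact Subgroup.subset_closure ⟨r, rfl⟩

theorem closure_b : Subgroup.closure (Set.range b) = ⊤ := by
  have h0 : Equiv.swap (0 : Fin 6) ((b 1 * b 5 * b 6) 0) = b 0 := by decide
  have hc : (b 1 * b 5 * b 6).IsCycle := by
    refine ⟨0, by decide, fun y _ => ?_⟩
    have hy : ∀ y : Fin 6, ∃ i : Fin 6, ((b 1 * b 5 * b 6) ^ (i : ℕ)) 0 = y := by decide
    obtain ⟨i, hi⟩ := hy y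
    exact ⟨(i : ℕ), by simpa using hi⟩
  have h := Equiv.Perm.closure_cycle_adjacent_swap (σ := b 1 * b 5 * b 6) hc (by decide) 0
  rw [h0] at h
  rw [eq_top_iff, ← h, Subgroup.closure_le]
  rintro x (rfl | rfl)
  · exact mul_mem (mul_mem (Subgroup.subset_closure ⟨1, rfl⟩) (Subgroup.subset_closure ⟨5, rfl⟩))
      (Subgroup.subset_closure ⟨6, rfl⟩)
  · exact Subgroup.subset_closure ⟨0, rfl⟩

theorem two_case : Nonempty (↥(chevB2.group (ZMod 2)) ≃* Equiv.Perm (Fin 6)) := by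
  obtain ⟨e⟩ := equiv_of_graph (ι := Fin 8) a b R hR (fun _ hp h => R_fst hp h) (fun _ hp h => R_snd hp h)
  exact ⟨(MulEquiv.subgroupCongr closure_a).symm.trans
    (e.trans ((MulEquiv.subgroupCongr closure_b).trans Subgroup.topEquiv))⟩

/-- B₂(2) ≅ S₆. -/
theorem result {F : Type*} [Field F] [Fintype F] (hF : Fintype.card F = 2) :
    Nonempty (↥(Cfsg.Lie.chevB2.group F) ≃* Equiv.Perm (Fin 6)) := by
  obtain ⟨e⟩ := two_case
  obtain ⟨f⟩ := group_congr chevB2 (Cfsg.Agent.Lib.Compute.GFModel.equivOfCard (F := F) (K := ZMod 2) (by simp [hF]))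
  exact ⟨f.trans e⟩

end Cfsg.Agent.S1058
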