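import Cfsg.Statements.S1075
import Cfsg.Agent.Lib.Compute.Ree3Perm
import Cfsg.Agent.Lib.PSL2.Overgroups

set_option autoImplicit false
open Cfsg

namespace Cfsg.Agent.S1075

open Cfsg.Agent.Lib.Compute.GF8 Cfsg.Agent.Lib.Compute.Ree3 Cfsg.Agent.Lib.Compute.IndexTwo
open scoped MatrixGroups commutatorElement

theorem two_F8 : (2 : F8) = 0 := by decide +kernel

theorem sl_psl : Nonempty (SL(2, F8) ≃* PSL(2, F8)) :=
  ⟨(QuotientGroup.quotientBot.symm.trans (QuotientGroup.quotientMulEquivOfEq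
    (Cfsg.Agent.Lib.PSL2.Basic.center_eq_bot_of_two_eq_zero two_F8).symm))⟩

theorem four_le : 4 ≤ Nat.card F8 := by
  rw [Nat.card_eq_fintype_card, F8.card_eq]
  norm_num

theorem perfect_SL : commutator SL(2, F8) = ⊤ := by
  obtain ⟨e⟩ := sl_psl
  have hs : IsSimpleGroup PSL(2, F8) := Matrix.ProjectiveSpecialLinearGroup.rank_two_simple four_le
  have h1 : commutator PSL(2, F8) = ⊤ := by
    rcases (show (commutator PSL(2, F8)).Normal from inferInstance).eq_bot_or_eq_top with h | h
    · exfalso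
      apply Cfsg.Agent.Lib.PSL2.Overgroups.not_comm_psl F8
      intro a b
      have h2 : ⁅a, b⁆ ∈ commutator PSL(2, F8) := Subgroup.commutator_mem_commutator (Subgroup.mem_top a) (Subgroup.mem_top b)
      rw [h, Subgroup.mem_bot] at h2
      exact commutatorElement_eq_one_iff_mul_comm.1 h2
    · exact h
  obtain ⟨f⟩ := commutator_congr e
  have h2 : Nat.card (commutator SL(2, F8)) = Nat.card SL(2, F8) := by
    rw [Nat.card_congr f.toEquiv, h1, Subgroup.card_top, Nat.card_congr e.toEquiv]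
  exact Subgroup.eq_top_of_card_eq _ h2

theorem card_SL : Nat.card SL(2, F8) = 504 := by
  rw [Cfsg.Agent.Lib.PSL2.Basic.card_SL2, F8.card_eq]
  norm_num

/-- The derived group of `²G₂(3)` is `SL₂(F8)`. -/
theorem main : Nonempty (↥(commutator ↥(Cfsg.Lie.twistedG2 (ZMod 3) 1)) ≃* SL(2, F8)) := by
  obtain ⟨e1⟩ := equiv_Q
  obtain ⟨e2⟩ := equiv_T
  obtain ⟨e3⟩ := commutator_congr e1
  have hperf : commutator ↥T = ⊤ := by
    obtain ⟨f⟩ := commutator_congr e2
    have h2 : Nat.card (commutator ↥T) = Nat.card ↥T := by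
      rw [← Nat.card_congr f.toEquiv, perfect_SL, Subgroup.card_top, Nat.card_congr e2.toEquiv]
    exact Subgroup.eq_top_of_card_eq _ h2
  have hc := commutator_Q hperf
  exact ⟨e3.trans ((MulEquiv.subgroupCongr hc).trans
    ((Subgroup.subgroupOfEquivOfLe T_le_Q).trans e2.symm))⟩

/-- The derived subgroup of ²G₂(3) (θ = identity over the field with three elements) has order 504 = 1512/3 and is isomorphic to PSL₂ over the field with eight elements. -/
theorem result {L : Type*} [Field L] [Fintype L] (hL : Fintype.card L = 8) :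
    Nat.card ↥(commutator ↥(Cfsg.Lie.twistedG2 (ZMod 3) 1)) = 504 ∧
      Nonempty (↥(commutator ↥(Cfsg.Lie.twistedG2 (ZMod 3) 1)) ≃* Matrix.ProjectiveSpecialLinearGroup (Fin 2) L) := by
  obtain ⟨e⟩ := main
  obtain ⟨s⟩ := sl_psl
  refine ⟨by rw [Nat.card_congr e.toEquiv, card_SL], ⟨e.trans (s.trans ?_)⟩⟩
  exact Cfsg.Agent.Lib.Compute.SmallField.pslCongr
    (Cfsg.Agent.Lib.Compute.GFModel.equivOfCard (F := F8) (K := L) (by rw [F8.card_eq, hL]))

end Cfsg.Agent.S1075
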