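import Cfsg.Statements.S1078
import Mathlib
import Cfsg.Agent.Lib.Steinberg.Gen.Hprod

set_option autoImplicit false
open Cfsg

namespace Cfsg.Agent.S1078

/-- For G₂, F₄, E₈ the presented group has trivial centre (the universal and adjoint groups coincide). -/
theorem result {K : Type*} [Field K] (D : Cfsg.Lie.ChevalleyDatum) (hD : D ∈ [Cfsg.Lie.chevG2, Cfsg.Lie.chevF4, Cfsg.Lie.chevE8]) :
    Subgroup.center (D.SteinbergGroup K) = ⊥ := by
  have hD' : D ∈ [Cfsg.Lie.chevG2, Cfsg.Lie.chevB2, Cfsg.Lie.chevD4, Cfsg.Lie.chevF4, Cfsg.Lie.chevE6, Cfsg.Lie.chevE7, Cfsg.Lie.chevE8] := by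
    simp only [List.mem_cons, List.not_mem_nil, or_false] at hD ⊢
    tauto
  obtain ⟨η, hd⟩ := Cfsg.Agent.Lib.Steinberg.Gen.exists_dat.{u_1} D hD'
  have d := hd K
  have hU : Cfsg.Agent.Lib.Steinberg.Gen.Uni D := by
    simp only [List.mem_cons, List.not_mem_nil, or_false] at hD
    rcases hD with rfl | rfl | rfl
    · exact Cfsg.Agent.Lib.Steinberg.Gen.uni_chevG2
    · exact Cfsg.Agent.Lib.Steinberg.Gen.uni_chevF4
    · exact Cfsg.Agent.Lib.Steinberg.Gen.uni_chevE8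
  rw [eq_bot_iff]
  intro z hz
  exact Cfsg.Agent.Lib.Steinberg.Gen.Ctx.eq_one_of_θ hU d.stein_hasR3 (d.stein.center_le_ker hz)

end Cfsg.Agent.S1078
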