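import Cfsg.Statements.S1080
import Mathlib
-- import your own Cfsg.Agent.* helpers here

set_option autoImplicit false
open Cfsg

namespace Cfsg.Agent.S1080

open Cfsg.Lie

theorem xMat_map {F : Type*} [Field F] (D : ChevalleyDatum) (f : F ≃+* F) (r : Fin D.nroots)
    (t : F) : (D.xMat F r t).map f = D.xMat F r (f t) := by
  classical
  ext row col
  simp only [Matrix.map_apply, ChevalleyDatum.xMat, Matrix.of_apply]
  rcases col with i | s
  · rcases row with i' | u
    · simp only
      split_ifs <;> simp
    · simp only
      split_ifs <;> simp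
  · simp only
    by_cases h1 : s = r
    · rw [if_pos h1, if_pos h1]
      rcases row with i' | u
      · simp
      · simp only
        split_ifs <;> simp
    · rw [if_neg h1, if_neg h1]
      by_cases h2 : s.val = D.negIdx.getD r.val 0
      · rw [if_pos h2, if_pos h2]
        rcases row with i' | u
        · simp
        · simp only
          split_ifs <;> simp
      · rw [if_neg h2, if_neg h2]
        rcases row with i' | u
        · simp
        · simp only
          rw [map_add, map_list_sum, List.map_map]
          congr 1
          · split_ifs <;> simp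
          · congr 1
            apply List.map_congr_left
            intro km _
            simp

/-- Entrywise application of a field automorphism on `GL`. -/
noncomputable def glMap {F : Type*} [Field F] (D : ChevalleyDatum) (f : F ≃+* F) :
    GL D.Idx F →* GL D.Idx F :=
  Units.map (RingEquiv.mapMatrix f).toRingHom.toMonoidHom

theorem glMap_coe {F : Type*} [Field F] (D : ChevalleyDatum) (f : F ≃+* F) (g : GL D.Idx F) :
    ((glMap D f g : GL D.Idx F) : Matrix D.Idx D.Idx F) = (g : Matrix D.Idx D.Idx F).map f :=
  rfl

theorem glMap_mem {F : Type*} [Field F] (D : ChevalleyDatum) (f : F ≃+* F) {g : GL D.Idx F}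
    (hg : g ∈ D.group F) : glMap D f g ∈ D.group F := by
  have h1 : D.group F ≤ (D.group F).comap (glMap D f) := by
    rw [ChevalleyDatum.group, Subgroup.closure_le]
    rintro g ⟨r, t, h⟩
    apply Subgroup.subset_closure
    exact ⟨r, f t, by rw [glMap_coe, h, xMat_map]⟩
  exact h1 hg

/-- Field automorphisms: for every field automorphism `f` there is a group automorphism sending each `x_r(t)` to `x_r(f t)`. -/
theorem result {F : Type*} [Field F] (D : Cfsg.Lie.ChevalleyDatum) (hD : D ∈ [Cfsg.Lie.chevG2, Cfsg.Lie.chevB2, Cfsg.Lie.chevD4, Cfsg.Lie.chevF4, Cfsg.Lie.chevE6, Cfsg.Lie.chevE7, Cfsg.Lie.chevE8]) (f : F ≃+* F) :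
    ∃ α : ↥(D.group F) ≃* ↥(D.group F), ∀ (g : ↥(D.group F)) (r : ℕ) (t : F), r < D.nroots →
      ((g : GL D.Idx F) : Matrix D.Idx D.Idx F) = D.x F r t → ((α g : GL D.Idx F) : Matrix D.Idx D.Idx F) = D.x F r (f t) := by
  refine ⟨{ toFun := fun g => ⟨glMap D f g, glMap_mem D f g.2⟩
            invFun := fun g => ⟨glMap D f.symm g, glMap_mem D f.symm g.2⟩
            left_inv := ?_
            right_inv := ?_
            map_mul' := ?_ }, ?_⟩
  · intro g
    apply Subtype.ext
    apply Units.ext
    change (((g : GL D.Idx F) : Matrix D.Idx D.Idx F).map f).map f.symm = _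
    ext i j
    simp
  · intro g
    apply Subtype.ext
    apply Units.ext
    change (((g : GL D.Idx F) : Matrix D.Idx D.Idx F).map f.symm).map f = _
    ext i j
    simp
  · intro g h
    apply Subtype.ext
    exact map_mul (glMap D f) _ _
  · intro g r t hr hg
    change ((g : GL D.Idx F) : Matrix D.Idx D.Idx F).map f = _
    rw [hg, ChevalleyDatum.x, ChevalleyDatum.x, dif_pos hr, dif_pos hr, xMat_map]

end Cfsg.Agent.S1080
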