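import Cfsg.Statements.S1084
import Mathlib
import Cfsg.Agent.Lib.E6Cubic.Main
-- import your own Cfsg.Agent.* helpers here

set_option autoImplicit false
open Cfsg

namespace Cfsg.Agent.S1084

/-- E₆ via the 27-dimensional cubic form: for a finite field with at least three elements, (isometries of the cubic form) / centre ≅ the Chevalley group E₆(F). -/
theorem result {F : Type*} [Field F] [Fintype F] (hF : 3 ≤ Fintype.card F) : Nonempty (Cfsg.Lie.E6 F ≃* ↥(Cfsg.Lie.chevE6.group F)) := by
  classical
  obtain ⟨a, ha⟩ : ∃ a : F, a ∉ ({0, 1} : Finset F) := by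
    by_contra h
    push Not at h
    have h1 : (Finset.univ : Finset F) ⊆ {0, 1} := fun x _ => h x
    have h2 := Finset.card_le_card h1
    have h3 : ({0, 1} : Finset F).card ≤ 2 := Finset.card_le_two
    rw [Finset.card_univ] at h2
    omega
  simp only [Finset.mem_insert, Finset.mem_singleton, not_or] at ha
  obtain ⟨e⟩ := Cfsg.Agent.Lib.E6Cubic.Main.e6_equiv ha.1 ha.2
  exact ⟨e.symm⟩

end Cfsg.Agent.S1084
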