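import Cfsg.Statements.S1094
import Mathlib
import Cfsg.Agent.Lib.Chevalley.Weyl.Order
import Cfsg.Agent.Lib.Chevalley.Weyl.B2
import Cfsg.Agent.Lib.Chevalley.Weyl.G2
import Cfsg.Agent.Lib.Chevalley.Weyl.D4
import Cfsg.Agent.Lib.Chevalley.Weyl.F4
import Cfsg.Agent.Lib.Chevalley.Weyl.E6
import Cfsg.Agent.Lib.Chevalley.Weyl.E7
import Cfsg.Agent.Lib.Chevalley.Weyl.E8

set_option autoImplicit false
open Cfsg
open Cfsg.Agent.Lib.Chevalley.Weyl

namespace Cfsg.Agent.S1094

/-- The Coxeter element `s₁ s₂ ⋯ s_l` of the Coxeter group of type B₂, G₂, D₄, F₄, E₆, E₇, E₈ has order `h = 2N/l` = 4, 6, 6, 12, 12, 18, 30. -/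
theorem result (p : (Σ n : ℕ, CoxeterMatrix (Fin n)) × ℕ)
    (hp : p ∈ [(⟨2, CoxeterMatrix.B 2⟩, 4), (⟨2, CoxeterMatrix.G₂⟩, 6), (⟨4, Cfsg.Lie.coxeterD4⟩, 6), (⟨4, CoxeterMatrix.F₄⟩, 12),
      (⟨6, CoxeterMatrix.E₆⟩, 12), (⟨7, CoxeterMatrix.E₇⟩, 18), (⟨8, CoxeterMatrix.E₈⟩, 30)]) :
    orderOf ((List.finRange p.1.1).map p.1.2.simple).prod = p.2 := by
  simp only [List.mem_cons, List.not_mem_nil, or_false] at hp
  rcases hp with rfl | rfl | rfl | rfl | rfl | rfl | rfl
  · refine (congrArg orderOf (cox_eq _)).trans ?_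
    exact orderOf_wp _ B2.hP B2.hM B2.main.2.2 (fun j hj => List.mem_range.1 hj) 4 0 (by decide) (by decide)
      (by decide +kernel) (by decide +kernel)
  · refine (congrArg orderOf (cox_eq _)).trans ?_
    exact orderOf_wp _ G2.hP G2.hM G2.main.2.2 (fun j hj => List.mem_range.1 hj) 6 0 (by decide) (by decide)
      (by decide +kernel) (by decide +kernel)
  · refine (congrArg orderOf (cox_eq _)).trans ?_
    exact orderOf_wp _ D4.hP D4.hM D4.main.2.2 (fun j hj => List.mem_range.1 hj) 6 0 (by decide) (by decide)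
      (by decide +kernel) (by decide +kernel)
  · refine (congrArg orderOf (cox_eq _)).trans ?_
    exact orderOf_wp _ F4.hP F4.hM F4.main.2.2 (fun j hj => List.mem_range.1 hj) 12 0 (by decide) (by decide)
      (by decide +kernel) (by decide +kernel)
  · refine (congrArg orderOf (cox_eq _)).trans ?_
    exact orderOf_wp _ E6.hP E6.hM E6.main.2.2 (fun j hj => List.mem_range.1 hj) 12 0 (by decide) (by decide)
      (by decide +kernel) (by decide +kernel)
  · refine (congrArg orderOf (cox_eq _)).trans ?_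
    exact orderOf_wp _ E7.hP E7.hM E7.main.2.2 (fun j hj => List.mem_range.1 hj) 18 0 (by decide) (by decide)
      (by decide +kernel) (by decide +kernel)
  · refine (congrArg orderOf (cox_eq _)).trans ?_
    exact orderOf_wp _ E8.hP E8.hM E8.main.2.2 (fun j hj => List.mem_range.1 hj) 30 0 (by decide) (by decide)
      (by decide +kernel) (by decide +kernel)

end Cfsg.Agent.S1094
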