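import Cfsg.Statements.S1097
import Mathlib
import Cfsg.Agent.Lib.Steinberg.Gen.Center

set_option autoImplicit false
open Cfsg

namespace Cfsg.Agent.S1097

/-- Any homomorphism from the presented group to the Chevalley group with `x̄_r(t) ↦ x_r(t)` has kernel contained in `H̄ = ⟨h̄_p(t) : p fundamental, t ≠ 0⟩`. -/
theorem result {K : Type*} [Field K] (D : Cfsg.Lie.ChevalleyDatum) (hD : D ∈ [Cfsg.Lie.chevG2, Cfsg.Lie.chevB2, Cfsg.Lie.chevD4, Cfsg.Lie.chevF4, Cfsg.Lie.chevE6, Cfsg.Lie.chevE7, Cfsg.Lie.chevE8]) (θ : D.SteinbergGroup K →* ↥(D.group K))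
    (hθ : ∀ (r : ℕ) (t : K), r < D.nroots → ((θ (D.stGen K r t) : GL D.Idx K) : Matrix D.Idx D.Idx K) = D.x K r t) :
    θ.ker ≤ Subgroup.closure {h | ∃ (i : ℕ) (t : K), i < D.rank ∧ t ≠ 0 ∧ h = PresentedGroup.mk (D.steinbergRels K) (D.stH (D.simple i) t)} := by
  obtain ⟨η, hd⟩ := Cfsg.Agent.Lib.Steinberg.Gen.exists_dat.{u_1} D hD
  have d := hd K
  intro z hz
  -- `θ` is the map of the context
  have hθ' : (D.group K).subtype.comp θ = d.stein.θ := by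
    apply MonoidHom.eq_of_eqOn_top
    rw [← d.stein.hgen]
    apply MonoidHom.eqOn_closure
    rintro _ ⟨r, hr, t, rfl⟩
    apply Units.ext
    rw [d.stein.hθ r hr t]
    exact hθ r t hr
  have h1 : d.stein.θ z = 1 := by
    rw [← hθ']
    simp [MonoidHom.mem_ker.mp hz]
  have h2 := d.stein.ker_le_Hs h1
  have h3 : d.stein.Hs ≤ Subgroup.closure {h | ∃ (i : ℕ) (t : K), i < D.rank ∧ t ≠ 0 ∧ h = PresentedGroup.mk (D.steinbergRels K) (D.stH (D.simple i) t)} := by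
    rw [Cfsg.Agent.Lib.Steinberg.Gen.Ctx.Hs, Subgroup.closure_le]
    rintro _ ⟨i, hi, t, ht, rfl⟩
    apply Subgroup.subset_closure
    refine ⟨i, t, hi, ht, ?_⟩
    rw [Cfsg.Lie.ChevalleyDatum.stH, Cfsg.Agent.Lib.Steinberg.Gen.mk_word]
    simp [Cfsg.Lie.ChevalleyDatum.hWord, Cfsg.Lie.ChevalleyDatum.nWord,
      Cfsg.Agent.Lib.Steinberg.Gen.Ctx.hh, Cfsg.Agent.Lib.Steinberg.Gen.YFam.wh,
      Cfsg.Agent.Lib.Steinberg.Gen.YFam.wr, mul_assoc]
    rfl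
  exact h3 h2

end Cfsg.Agent.S1097
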