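import Cfsg.Statements.S1104
import Mathlib
import Cfsg.Agent.Lib.Twisted.E6Simp
-- import your own Cfsg.Agent.* helpers here

set_option autoImplicit false
open Cfsg

namespace Cfsg.Agent.S1104

/-- ²E₆(q) equals its derived subgroup. -/
theorem result {K : Type*} [Field K] [Fintype K] {q : ℕ} (hq : IsPrimePow q) (hK : Fintype.card K = q ^ 2) : commutator ↥(Cfsg.Lie.twistedE6 K q) = ⊤ := by
  exact Cfsg.Agent.Lib.Twisted.E6.perfect_main hq hK

end Cfsg.Agent.S1104
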