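import Cfsg.Statements.S1112
import Mathlib
import Cfsg.Agent.Lib.TF4.Perf

set_option autoImplicit false
open Cfsg

namespace Cfsg.Agent.S1112

/-- ²F₄(2^(2m+1)) (m ≥ 1) equals its derived subgroup. -/
theorem result {K : Type*} [Field K] [Fintype K] {m : ℕ} (hK : Fintype.card K = 2 ^ (2 * m + 1)) (hm : 1 ≤ m) : commutator ↥(Cfsg.Lie.twistedF4 K (2 ^ m)) = ⊤ := by
  obtain ⟨hc, φ, hφ, hφ2, T, hρ, hτ⟩ := Cfsg.Agent.Lib.TF4.main_data hK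
  have h8 : 2 < Fintype.card K := by
    rw [hK]
    calc 2 < 2 ^ (2 * 1 + 1) := by norm_num
      _ ≤ 2 ^ (2 * m + 1) := Nat.pow_le_pow_right (by norm_num) (by omega)
  obtain ⟨β, h1, h2⟩ := Cfsg.Agent.Lib.TF4.exists_ne01 h8
  exact Cfsg.Agent.Lib.TF4.perfect hφ2 hρ hτ hφ h1 h2

end Cfsg.Agent.S1112
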