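import Cfsg.Statements.S1117
import Cfsg.Agent.Lib.Ree.BN

set_option autoImplicit false
open Cfsg

namespace Cfsg.Agent.S1117

/-- The normal core of `B¹ = G¹ ∩ B` in ²G₂(3^(2m+1)) is trivial. -/
theorem result {K : Type*} [Field K] [Fintype K] {m : ℕ} (hK : Fintype.card K = 3 ^ (2 * m + 1)) :
    ((Cfsg.Lie.chevG2.borelSubgroup K ⊓ Cfsg.Lie.twistedG2 K (3 ^ m)).subgroupOf (Cfsg.Lie.twistedG2 K (3 ^ m))).normalCore = ⊥ := by
  haveI := Cfsg.Agent.Lib.Ree.Main.charP_of_card hK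
  have hq := Cfsg.Agent.Lib.Ree.Main.sq_or_neg hK
  have hθ := Cfsg.Agent.Lib.Ree.Main.frOf_θ hK
  exact Cfsg.Agent.Lib.Ree.BN.core_eq_bot (Cfsg.Agent.Lib.Ree.Main.frOf hK) hq hθ

end Cfsg.Agent.S1117
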