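import Cfsg.Statements.S1120
import Mathlib
import Cfsg.Agent.Lib.Perm.RankOne
import Cfsg.Agent.Lib.Basic.PCore
import Cfsg.Agent.Lib.Solvable.PSeries

set_option autoImplicit false
open Cfsg

namespace Cfsg.Agent.S1120

/-- In the rank-one set-up (`G` finite and doubly transitive on `Ω`, `t` an involution moving `a`, `Q` normal in `G_a` with `G_a = Q D`, `Q ⊓ D = 1` for the two-point stabiliser `D = G_a ⊓ G_{t • a}`, `|Q|` even, `|D|` odd), if `G` has 2-rank at least 2 then `O_{2'}(G)` equals the normal core of `G_a`. -/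
theorem result {G Ω : Type*} [Group G] [Finite G] [MulAction G Ω] {a : Ω} {t : G} {Q : Subgroup G}
    (hS : Cfsg.IsRankOneSetup G Ω a t Q)
    (h2 : ∃ x y : G, x ≠ 1 ∧ y ≠ 1 ∧ x ≠ y ∧ x * x = 1 ∧ y * y = 1 ∧ x * y = y * x) :
    Cfsg.pPrimeCore 2 G = (MulAction.stabilizer G a).normalCore := by
  open Cfsg.Agent.Lib.Perm.RankOne Cfsg.Agent.Lib.Basic.PCore in
  apply le_antisymm
  · rw [Subgroup.normal_le_normalCore]
    obtain ⟨x, y, hx1, hy1, hxy, hx2, hy2, hcomm⟩ := h2
    -- a common fixed point, moved to `a`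
    obtain ⟨p, hp⟩ := exists_fixed hS hx2
    have hyp : y • p = p := comm_fixes hS hx2 hx1 hcomm hp
    obtain ⟨g, hg⟩ := exists_smul_eq hS p a
    set x' := g * x * g⁻¹ with hx'
    set y' := g * y * g⁻¹ with hy'
    have hx'2 : x' * x' = 1 := by
      calc x' * x' = g * (x * x) * g⁻¹ := by rw [hx']; group
        _ = 1 := by rw [hx2]; group
    have hy'2 : y' * y' = 1 := by
      calc y' * y' = g * (y * y) * g⁻¹ := by rw [hy']; group
        _ = 1 := by rw [hy2]; group
    have hx'1 : x' ≠ 1 := by
      intro h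
      apply hx1
      calc x = g⁻¹ * x' * g := by rw [hx']; group
        _ = 1 := by rw [h]; group
    have hy'1 : y' ≠ 1 := by
      intro h
      apply hy1
      calc y = g⁻¹ * y' * g := by rw [hy']; group
        _ = 1 := by rw [h]; group
    have hx'a : x' • a = a := by
      rw [hx', ← hg, mul_smul, mul_smul, inv_smul_smul, hp]
    have hy'a : y' • a = a := by
      rw [hy', ← hg, mul_smul, mul_smul, inv_smul_smul, hyp]
    have hcomm' : x' * y' = y' * x' := by
      calc x' * y' = g * (x * y) * g⁻¹ := by rw [hx', hy']; group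
        _ = g * (y * x) * g⁻¹ := by rw [hcomm]
        _ = y' * x' := by rw [hx', hy']; group
    have hne : x' ≠ y' := by
      intro h
      apply hxy
      have := congrArg (fun w => g⁻¹ * w * g) h
      simpa [hx', hy', mul_assoc] using this
    set N := Cfsg.pPrimeCore 2 G with hN
    have hNodd : (Nat.card N).Coprime 2 := Cfsg.Agent.Lib.Solvable.PSeries.pPrimeCore_coprime 2
    -- `y' * x'` is an involution, so not in `N`
    have hyx1 : y' * x' ≠ 1 := by
      intro h
      apply hne
      have hinv : y'⁻¹ = y' := inv_eq_of_mul_eq_one_left hy'2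
      have := eq_inv_of_mul_eq_one_right h
      rw [hinv] at this
      exact this
    have hyx2 : (y' * x') * (y' * x') = 1 := by
      calc (y' * x') * (y' * x') = y' * (x' * y') * x' := by group
        _ = y' * (y' * x') * x' := by rw [hcomm']
        _ = (y' * y') * (x' * x') := by group
        _ = 1 := by rw [hx'2, hy'2, mul_one]
    have hyxN : y' * x' ∉ N := by
      intro hmem
      have hord : orderOf (y' * x') = 2 := orderOf_eq_prime (by rw [pow_two, hyx2]) hyx1
      have hdvd : orderOf (y' * x') ∣ Nat.card N := Subgroup.orderOf_dvd_natCard N hmem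
      rw [hord] at hdvd
      have hc := Nat.Coprime.coprime_dvd_left hdvd hNodd
      simp at hc
    intro n hn
    -- `n x' n⁻¹` fixes `a`
    set i := n * x' * n⁻¹ with hi
    have hi2 : i * i = 1 := by
      calc i * i = n * (x' * x') * n⁻¹ := by rw [hi]; group
        _ = 1 := by rw [hx'2]; group
    have hia : i ∈ MulAction.stabilizer G a := by
      by_contra hnot
      have hodd := odd_orderOf_mul hS (s := y') (u := i) (MulAction.mem_stabilizer_iff.mpr hy'a) hy'1 hy'2 hnot hi2
      obtain ⟨m, hm⟩ := hodd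
      have h1 : (y' * i) ^ (2 * m + 1) = 1 := by rw [← hm]; exact pow_orderOf_eq_one _
      -- modulo `N`, `y' * i` is `y' * x'`
      have hq : ((y' * i : G) : G ⧸ N) = ((y' * x' : G) : G ⧸ N) := by
        rw [QuotientGroup.eq]
        have hnin : n⁻¹ ∈ N := N.inv_mem hn
        have : (y' * i)⁻¹ * (y' * x') = n * x' * n⁻¹ * x' * 1 * 1 := by
          rw [hi]
          have hxinv : x'⁻¹ = x' := inv_eq_of_mul_eq_one_left hx'2
          calc (y' * (n * x' * n⁻¹))⁻¹ * (y' * x') = n * x'⁻¹ * n⁻¹ * y'⁻¹ * y' * x' := by group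
            _ = n * x' * n⁻¹ * x' * 1 * 1 := by rw [hxinv]; group
        rw [this]
        have hconj : x' * n⁻¹ * x'⁻¹ ∈ N := (inferInstance : N.Normal).conj_mem _ hnin x'
        have hxinv : x'⁻¹ = x' := inv_eq_of_mul_eq_one_left hx'2
        have h2 : n * x' * n⁻¹ * x' * 1 * 1 = n * (x' * n⁻¹ * x'⁻¹) := by rw [hxinv]; group
        rw [h2]
        exact N.mul_mem hn hconj
      have h2 : ((y' * x' : G) : G ⧸ N) ^ (2 * m + 1) = 1 := by
        rw [← hq, ← QuotientGroup.mk_pow, h1]; rfl
      have h3 : (y' * x') ^ (2 * m + 1) = y' * x' := by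
        rw [pow_succ, pow_mul, pow_two, hyx2, one_pow, one_mul]
      rw [← QuotientGroup.mk_pow, h3] at h2
      apply hyxN
      exact (QuotientGroup.eq_one_iff _).mp h2
    have hia' : i • a = a := MulAction.mem_stabilizer_iff.mp hia
    have hfix : x' • (n⁻¹ • a) = n⁻¹ • a := by
      have := congrArg (fun w => n⁻¹ • w) hia'
      simpa [hi, mul_smul] using this
    have h5 := fixed_unique hS hx'2 hx'1 hfix hx'a
    rw [MulAction.mem_stabilizer_iff]
    calc n • a = n • (n⁻¹ • a) := by rw [h5]
      _ = a := smul_inv_smul n a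
  · apply le_pPrimeCore (Subgroup.normalCore_normal _)
    rw [Nat.coprime_two_right]
    by_contra hodd
    rw [Nat.not_odd_iff_even] at hodd
    have h2 : 2 ∣ Nat.card ((MulAction.stabilizer G a).normalCore) := even_iff_two_dvd.mp hodd
    haveI : Fact (Nat.Prime 2) := ⟨Nat.prime_two⟩
    obtain ⟨v, hv⟩ := exists_prime_orderOf_dvd_card' 2 h2
    have hv1 : (v : G) ≠ 1 := by
      intro h
      have : v = 1 := Subtype.ext h
      rw [this, orderOf_one] at hv
      omega
    have hv2 : (v : G) * v = 1 := by
      have := pow_orderOf_eq_one v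
      rw [hv, pow_two] at this
      exact congrArg Subtype.val this
    have hfixall : ∀ c : Ω, (v : G) • c = c := by
      intro c
      obtain ⟨g, hg⟩ := exists_smul_eq hS a c
      have h3 : g⁻¹ * v * g ∈ MulAction.stabilizer G a := by
        have := v.2 g⁻¹
        simpa using this
      have h4 : (g⁻¹ * v * g) • a = a := MulAction.mem_stabilizer_iff.mp h3
      have h5 := congrArg (fun w => g • w) h4
      simp only [mul_smul, smul_inv_smul] at h5
      rw [hg] at h5
      exact h5
    exact t_smul_ne hS (fixed_unique hS hv2 hv1 (hfixall _) (hfixall a))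

end Cfsg.Agent.S1120
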