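import Cfsg.Statements.S1124
import Mathlib
import Cfsg.Agent.Lib.Perm.RankOne2

set_option autoImplicit false
open scoped Pointwise
open Cfsg

namespace Cfsg.Agent.S1124

/-- Let `t` be an element of order 2 of a finite group normalising a subgroup `X` of odd order, `Y = C_X(t)` and `Z` the set of elements of `X` inverted by `t`. Then `(y, z) ↦ y z` is a bijection `Y × Z → X`, so `|X| = |Y| |Z|`, and the subgroup generated by `Z` is normal in `X`. -/
theorem result {M : Type*} [Group M] [Finite M]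
    (t : M) (ht : orderOf t = 2) (X : Subgroup M) (hodd : Odd (Nat.card X))
    (hnorm : ∀ x ∈ X, t * x * t⁻¹ ∈ X) :
    (∀ x ∈ X, ∃! p : M × M, p.1 ∈ X ⊓ Subgroup.centralizer {t} ∧ p.2 ∈ Cfsg.invertedBy X t ∧ x = p.1 * p.2) ∧
      Nat.card X = Nat.card ↥(X ⊓ Subgroup.centralizer {t}) * Nat.card (Cfsg.invertedBy X t) ∧
      ∀ x ∈ X, MulAut.conj x • Subgroup.closure (Cfsg.invertedBy X t) = Subgroup.closure (Cfsg.invertedBy X t) := by
  open Cfsg.Agent.Lib.Perm.RankOne2 in
  have ht2 : t * t = 1 := by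
    have := pow_orderOf_eq_one t
    rwa [ht, pow_two] at this
  refine ⟨?_, card_eq_mul ht2 hodd hnorm, ?_⟩
  · intro x hx
    obtain ⟨y, z, hyX, hty, hzX, htz, rfl⟩ := exists_factor ht2 hodd hnorm hx
    refine ⟨(y, z), ⟨⟨hyX, Subgroup.mem_centralizer_singleton_iff.mpr hty.symm⟩, ⟨hzX, htz⟩, rfl⟩, ?_⟩
    rintro ⟨y', z'⟩ ⟨⟨hy'X, hy't⟩, ⟨hz'X, htz'⟩, heq⟩
    simp only at hy'X hy't hz'X htz' heq
    have hy't' : y' ∈ Subgroup.centralizer {t} := hy't
    have hy't'' : t * y' = y' * t := (Subgroup.mem_centralizer_singleton_iff.mp hy't').symm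
    obtain ⟨e1, e2⟩ := factor_unique hodd hy't'' hz'X htz' hty hzX htz heq.symm
    exact Prod.ext e2 e1
  · intro x hx
    apply le_antisymm
    · intro w hw
      obtain ⟨u, hu, rfl⟩ := Subgroup.mem_smul_pointwise_iff_exists _ _ _ |>.mp hw
      exact conj_mem_closure ht2 hodd hnorm hx hu
    · intro w hw
      refine Subgroup.mem_smul_pointwise_iff_exists _ _ _ |>.mpr ⟨x⁻¹ * w * x, ?_, ?_⟩
      · have := conj_mem_closure ht2 hodd hnorm (X.inv_mem hx) hw
        simpa using this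
      · simp [MulAut.smul_def, MulAut.conj_apply, mul_assoc]

end Cfsg.Agent.S1124
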