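import Cfsg.Statements.S1125
import Mathlib
import Cfsg.Agent.Lib.Perm.RankOne2

set_option autoImplicit false
open Cfsg
open MulAction

namespace Cfsg.Agent.S1125

/-- An element of `Q` moving one `X`-fixed point to another commutes with `X`. -/
theorem Q_elt_commutes {G Ω : Type*} [Group G] [MulAction G Ω] {a : Ω} {t : G}
    {Q : Subgroup G} (hS : Cfsg.IsRankOneSetup G Ω a t Q) {X : Set G} (hXa : ∀ x ∈ X, x • a = a)
    {p q : Ω} (hXp : ∀ x ∈ X, x • p = p) (hXq : ∀ x ∈ X, x • q = q) (hp : p ≠ a) {y : G}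
    (hy : y ∈ Q) (hyp : y • p = q) : y ∈ Subgroup.centralizer X := by
  rw [Subgroup.mem_centralizer_iff]
  intro x hx
  have hxa : x ∈ stabilizer G a := MulAction.mem_stabilizer_iff.mpr (hXa x hx)
  have hz : x * y * x⁻¹ ∈ Q := hS.conj_mem x hxa y hy
  have hxinv : x⁻¹ • p = p := by
    conv_lhs => rw [← hXp x hx]
    rw [inv_smul_smul]
  have h1 : (y⁻¹ * (x * y * x⁻¹)) • p = p := by
    rw [mul_smul, mul_smul, mul_smul, hxinv, hyp, hXq x hx, ← hyp, inv_smul_smul]
  have h2 := Cfsg.Agent.Lib.Perm.RankOne.eq_one_of_mem_of_smul_eq hS (Q.mul_mem (Q.inv_mem hy) hz) hp h1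
  have h3 : y = x * y * x⁻¹ := eq_of_inv_mul_eq_one h2
  calc x * y = (x * y * x⁻¹) * x := by group
    _ = y * x := by rw [← h3]

/-- In the rank-one set-up (`G` finite and doubly transitive on `Ω`, `t` an involution moving `a`, `Q` normal in `G_a` with `G_a = Q D`, `Q ⊓ D = 1` for the two-point stabiliser `D = G_a ⊓ G_{t • a}`, `|Q|` even, `|D|` odd), let `X ⊆ D` fix at least three points of `Ω`. Then `C_G(X)` is doubly transitive on the fixed-point set of `X`, `|C_Q(X)|` is even, and `C_{G_a}(X) = C_Q(X) C_D(X)`. -/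
theorem result {G Ω : Type*} [Group G] [Finite G] [MulAction G Ω] {a : Ω} {t : G} {Q : Subgroup G}
    (hS : Cfsg.IsRankOneSetup G Ω a t Q)
    (X : Set G) (hX : X ⊆ ((MulAction.stabilizer G a ⊓ MulAction.stabilizer G (t • a)) : Set G))
    (h3 : ∃ b c d : Ω, b ≠ c ∧ b ≠ d ∧ c ≠ d ∧ ∀ x ∈ X, x • b = b ∧ x • c = c ∧ x • d = d) :
    (∀ b₁ b₂ c₁ c₂ : Ω, (∀ x ∈ X, x • b₁ = b₁ ∧ x • b₂ = b₂ ∧ x • c₁ = c₁ ∧ x • c₂ = c₂) →
        b₁ ≠ b₂ → c₁ ≠ c₂ → ∃ g ∈ Subgroup.centralizer X, g • b₁ = c₁ ∧ g • b₂ = c₂) ∧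
      Even (Nat.card ↥(Subgroup.centralizer X ⊓ Q)) ∧
      (Subgroup.centralizer X ⊓ Q) ⊔ (Subgroup.centralizer X ⊓ (MulAction.stabilizer G a ⊓ MulAction.stabilizer G (t • a))) = Subgroup.centralizer X ⊓ MulAction.stabilizer G a := by
  open Cfsg.Agent.Lib.Perm.RankOne Cfsg.Agent.Lib.Perm.RankOne2 in
  obtain ⟨b, c, d, hbc, hbd, hcd, h3'⟩ := h3
  have hab := (t_smul_ne hS).symm
  obtain ⟨e, he, hea, heb⟩ := exists_third hbc hbd hcd a (t • a)
  have hXe : ∀ x ∈ X, x • e = e := by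
    intro x hx
    rcases he with rfl | rfl | rfl
    · exact (h3' x hx).1
    · exact (h3' x hx).2.1
    · exact (h3' x hx).2.2
  have hXa : ∀ x ∈ X, x • a = a := fun x hx => (mem_DD.mp (hX hx)).1
  have hXb : ∀ x ∈ X, x • (t • a) = t • a := fun x hx => (mem_DD.mp (hX hx)).2
  refine ⟨?_, ?_, ?_⟩
  · intro b₁ b₂ c₁ c₂ hF hb hc
    exact centralizer_two_trans hS hbc hbd hcd h3' hF hb hc
  · -- the involution
    obtain ⟨i, hi, hi2, hia⟩ := exists_swap_involution hS hX hXe hea heb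
    have hi1 : i ≠ 1 := by
      rintro rfl
      rw [one_smul] at hia
      exact hab hia
    obtain ⟨p, hp⟩ := exists_fixed hS hi2
    have hXp : ∀ x ∈ X, x • p = p := by
      intro x hx
      have hxi : i * x = x * i := ((Subgroup.mem_centralizer_iff.mp hi) x hx).symm
      exact comm_fixes hS hi2 hi1 hxi hp
    have hpa : p ≠ a := by
      rintro rfl
      rw [hia] at hp
      exact hab hp.symm
    -- conjugate `i` by `g ∈ C(X)` with `g • p = a`
    obtain ⟨g, hg, hgp, -⟩ := centralizer_two_trans hS hbc hbd hcd h3' (b₁ := p) (b₂ := a) (c₁ := a)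
      (c₂ := t • a) (fun x hx => ⟨hXp x hx, hXa x hx, hXa x hx, hXb x hx⟩) hpa hab
    set v := g * i * g⁻¹ with hv
    have hvC : v ∈ Subgroup.centralizer X :=
      Subgroup.mul_mem _ (Subgroup.mul_mem _ hg hi) (Subgroup.inv_mem _ hg)
    have hva : v • a = a := by
      rw [hv, ← hgp, mul_smul, mul_smul, inv_smul_smul, hp]
    have hv2 : v * v = 1 := by
      calc v * v = g * (i * i) * g⁻¹ := by rw [hv]; group
        _ = 1 := by rw [hi2]; group
    have hv1 : v ≠ 1 := by
      intro h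
      apply hi1
      calc i = g⁻¹ * v * g := by rw [hv]; group
        _ = 1 := by rw [h]; group
    have hvQ : v ∈ Q := mem_Q_of_involution hS (MulAction.mem_stabilizer_iff.mpr hva) hv2
    have hmem : v ∈ Subgroup.centralizer X ⊓ Q := ⟨hvC, hvQ⟩
    have hord : orderOf v = 2 := by
      apply orderOf_eq_prime (by rw [pow_two, hv2]) hv1
    rw [even_iff_two_dvd, ← hord]
    exact Subgroup.orderOf_dvd_natCard _ hmem
  · apply le_antisymm
    · apply sup_le
      · exact inf_le_inf_left _ hS.le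
      · exact inf_le_inf_left _ inf_le_left
    · rintro g ⟨hgC, hga⟩
      have hgC : g ∈ Subgroup.centralizer X := hgC
      have hga : g • a = a := MulAction.mem_stabilizer_iff.mp hga
      set q := g • (t • a) with hq
      have hXq : ∀ x ∈ X, x • q = q := by
        intro x hx
        rw [hq, smul_smul, (Subgroup.mem_centralizer_iff.mp hgC) x hx, mul_smul, hXb x hx]
      have hqa : q ≠ a := by
        intro h
        apply t_smul_ne hS
        apply MulAction.injective g
        show g • (t • a) = g • a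
        rw [← hq, h, hga]
      obtain ⟨⟨y, hy⟩, hy1, -⟩ := existsUnique_Q_smul hS (t_smul_ne hS) hqa
      have hy1' : y • (t • a) = q := hy1
      have hyC : y ∈ Subgroup.centralizer X :=
        Q_elt_commutes hS hXa hXb hXq (t_smul_ne hS) hy hy1'
      have hyinvg : y⁻¹ * g ∈ Subgroup.centralizer X ⊓ (stabilizer G a ⊓ stabilizer G (t • a)) := by
        refine ⟨Subgroup.mul_mem _ (Subgroup.inv_mem _ hyC) hgC, ?_, ?_⟩
        · show _ ∈ stabilizer G a
          rw [MulAction.mem_stabilizer_iff, mul_smul, hga, Q_le hS (Q.inv_mem hy)]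
        · show _ ∈ stabilizer G (t • a)
          rw [MulAction.mem_stabilizer_iff, mul_smul, ← hq, ← hy1', inv_smul_smul]
      have hyQ : y ∈ Subgroup.centralizer X ⊓ Q := ⟨hyC, hy⟩
      have : g = y * (y⁻¹ * g) := by group
      rw [this]
      exact Subgroup.mul_mem_sup hyQ hyinvg

end Cfsg.Agent.S1125
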