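import Cfsg.Statements.S1163
import Mathlib
import Cfsg.Agent.Lib.Suzuki.Iso

set_option autoImplicit false
open Cfsg

namespace Cfsg.Agent.S1163

open Cfsg.Agent.Lib.Suzuki.Basic Cfsg.Agent.Lib.Suzuki.Struct Cfsg.Agent.Lib.Suzuki.Zass
  Cfsg.Agent.Lib.Suzuki.Sub Cfsg.Agent.Lib.Suzuki.Gen Cfsg.Agent.Lib.Suzuki.Fix
  Cfsg.Agent.Lib.Suzuki.Order Cfsg.Agent.Lib.Suzuki.Syl Cfsg.Agent.Lib.Suzuki.Iso

variable {F : Type*} [Field F] [Fintype F] {m : ℕ}

theorem main (h : Hyp F m) {Γ : Type*} [Group Γ] [Finite Γ] (e : G F m ≃* Γ) :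
    Nat.card Γ = (2 ^ (2 * m + 1)) ^ 2 * (2 ^ (2 * m + 1) - 1) * ((2 ^ (2 * m + 1)) ^ 2 + 1) ∧
    ∃ S : Sylow 2 Γ,
      Nat.card (Subgroup.normalizer ((S : Subgroup Γ) : Set Γ)) = (2 ^ (2 * m + 1)) ^ 2 * (2 ^ (2 * m + 1) - 1) ∧
      (Subgroup.normalizer ((S : Subgroup Γ) : Set Γ)).index = (2 ^ (2 * m + 1)) ^ 2 + 1 ∧
      MulAction.IsMultiplyPretransitive Γ (Γ ⧸ Subgroup.normalizer ((S : Subgroup Γ) : Set Γ)) 2 ∧
      ∀ x y : Γ ⧸ Subgroup.normalizer ((S : Subgroup Γ) : Set Γ),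
        x ≠ (QuotientGroup.mk 1) → y ≠ (QuotientGroup.mk 1) →
          ∃! s : (S : Subgroup Γ), (s : Γ) • x = y := by
  have hcardΓ : Nat.card Γ = Nat.card (G F m) := Nat.card_congr e.symm.toEquiv
  have hcG := card_G h
  rw [h.hF] at hcG
  refine ⟨by rw [hcardΓ, hcG]; ring, ?_⟩
  have hcardU : Nat.card ((Usub h).map e.toMonoidHom) = Nat.card (Usub h) :=
    Nat.card_congr (e.subgroupMap (Usub h)).symm.toEquiv
  let S : Sylow 2 Γ := Sylow.ofCard ((Usub h).map e.toMonoidHom) (by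
    rw [hcardU, hcardΓ, factorization_card h, card_Usub h, h.hF]
    ring)
  have hS : (S : Subgroup Γ) = (Usub h).map e.toMonoidHom := rfl
  have hN : Subgroup.normalizer ((S : Subgroup Γ) : Set Γ) = (Bor F m).map e.toMonoidHom := by
    rw [hS, ← normalizer_U h]
    exact (Subgroup.map_equiv_normalizer_eq (Usub h) e).symm
  have hcN : Nat.card (Subgroup.normalizer ((S : Subgroup Γ) : Set Γ)) =
      (2 ^ (2 * m + 1)) ^ 2 * (2 ^ (2 * m + 1) - 1) := by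
    have e1 : Nat.card ((Bor F m).map e.toMonoidHom) = Nat.card (Bor F m) :=
      Nat.card_congr (e.subgroupMap (Bor F m)).symm.toEquiv
    rw [hN, e1, card_Bor h, h.hF]
  refine ⟨S, hcN, ?_, ?_, ?_⟩
  · have h1 := Subgroup.index_mul_card (Subgroup.normalizer ((S : Subgroup Γ) : Set Γ))
    rw [hcN, hcardΓ, hcG] at h1
    have hpos : 0 < (2 ^ (2 * m + 1)) ^ 2 * (2 ^ (2 * m + 1) - 1) := by
      have := odd_q_sub_one h
      rw [h.hF] at this
      exact Nat.mul_pos (by positivity) this.pos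
    apply Nat.eq_of_mul_eq_mul_right hpos
    rw [h1]
    ring
  · -- the comparison with the action on the ovoid
    have hpt : ∀ α β : Γ, (QuotientGroup.mk α : Γ ⧸ Subgroup.normalizer ((S : Subgroup Γ) : Set Γ)) =
        QuotientGroup.mk β ↔ e.symm α • (oI : Om F m) = e.symm β • oI := by
      intro α β
      rw [QuotientGroup.eq, hN]
      constructor
      · rintro ⟨x, hx, hxe⟩
        have h1 : e.symm β = e.symm α * x := by
          have : β = α * e x := by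
            have h2 : e x = α⁻¹ * β := hxe
            rw [h2]
            group
          rw [this, map_mul, MulEquiv.symm_apply_apply]
        rw [h1, mul_smul, MulAction.mem_stabilizer_iff.mp hx]
      · intro hh
        refine ⟨e.symm (α⁻¹ * β), ?_, by simp⟩
        rw [SetLike.mem_coe, MulAction.mem_stabilizer_iff, map_mul, map_inv, mul_smul, inv_smul_eq_iff, hh]
    rw [MulAction.is_two_pretransitive_iff]
    intro a b c d hab hcd
    obtain ⟨α, rfl⟩ := QuotientGroup.mk_surjective a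
    obtain ⟨β, rfl⟩ := QuotientGroup.mk_surjective b
    obtain ⟨γ, rfl⟩ := QuotientGroup.mk_surjective c
    obtain ⟨δ, rfl⟩ := QuotientGroup.mk_surjective d
    have hab' : e.symm α • (oI : Om F m) ≠ e.symm β • oI := fun hc => hab ((hpt α β).mpr hc)
    have hcd' : e.symm γ • (oI : Om F m) ≠ e.symm δ • oI := fun hc => hcd ((hpt γ δ).mpr hc)
    obtain ⟨g, hg1, hg2⟩ := two_trans h hab' hcd'
    refine ⟨e g, ?_, ?_⟩
    · change (QuotientGroup.mk (e g * α) : Γ ⧸ _) = _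
      rw [hpt, map_mul, MulEquiv.symm_apply_apply, mul_smul, hg1]
    · change (QuotientGroup.mk (e g * β) : Γ ⧸ _) = _
      rw [hpt, map_mul, MulEquiv.symm_apply_apply, mul_smul, hg2]
  · intro x y hx hy
    have hpt : ∀ α β : Γ, (QuotientGroup.mk α : Γ ⧸ Subgroup.normalizer ((S : Subgroup Γ) : Set Γ)) =
        QuotientGroup.mk β ↔ e.symm α • (oI : Om F m) = e.symm β • oI := by
      intro α β
      rw [QuotientGroup.eq, hN]
      constructor
      · rintro ⟨x, hx, hxe⟩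
        have h1 : e.symm β = e.symm α * x := by
          have : β = α * e x := by
            have h2 : e x = α⁻¹ * β := hxe
            rw [h2]
            group
          rw [this, map_mul, MulEquiv.symm_apply_apply]
        rw [h1, mul_smul, MulAction.mem_stabilizer_iff.mp hx]
      · intro hh
        refine ⟨e.symm (α⁻¹ * β), ?_, by simp⟩
        rw [SetLike.mem_coe, MulAction.mem_stabilizer_iff, map_mul, map_inv, mul_smul, inv_smul_eq_iff, hh]
    obtain ⟨ξ, rfl⟩ := QuotientGroup.mk_surjective x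
    obtain ⟨η, rfl⟩ := QuotientGroup.mk_surjective y
    have hA : ∀ ζ : Γ, (QuotientGroup.mk ζ : Γ ⧸ Subgroup.normalizer ((S : Subgroup Γ) : Set Γ)) ≠
        QuotientGroup.mk 1 → ∃ x₁ y₁ : F, e.symm ζ • (oI : Om F m) = oA x₁ y₁ := by
      intro ζ hζ
      rcases om_cases (e.symm ζ • (oI : Om F m)) with h1 | h1
      · exfalso
        apply hζ
        rw [hpt, h1, map_one, one_smul]
      · exact h1
    obtain ⟨x₁, y₁, hx₁⟩ := hA ξ hx
    obtain ⟨x₂, y₂, hx₂⟩ := hA η hy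
    have h2 := h.two_eq_zero
    -- the element
    set a := x₁ + x₂ with ha
    set b := y₁ + y₂ + a ^ (2 ^ (m + 1)) * x₁ with hb
    have hmove : Lg h a b • (oA x₁ y₁ : Om F m) = oA x₂ y₂ := by
      rw [Lg_oA h]
      have e1 : x₁ + a = x₂ := by
        rw [ha]
        linear_combination x₁ * h2
      have e2 : y₁ + b + a ^ (2 ^ (m + 1)) * x₁ = y₂ := by
        rw [hb]
        linear_combination (y₁ + a ^ (2 ^ (m + 1)) * x₁) * h2
      rw [e1, e2]
    have hact : ∀ (u : G F m), (e u • (QuotientGroup.mk ξ : Γ ⧸ Subgroup.normalizer ((S : Subgroup Γ) : Set Γ)) =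
        QuotientGroup.mk η) ↔ u • (oA x₁ y₁ : Om F m) = oA x₂ y₂ := by
      intro u
      change (QuotientGroup.mk (e u * ξ) : Γ ⧸ _) = _ ↔ _
      rw [hpt, map_mul, MulEquiv.symm_apply_apply, mul_smul, hx₁, hx₂]
    refine ⟨⟨e (Lg h a b), Lg h a b, ⟨a, b, rfl⟩, rfl⟩, ?_, ?_⟩
    · exact (hact _).mpr hmove
    · rintro ⟨_, u, ⟨c, d, rfl⟩, rfl⟩ hs
      have hs' := (hact _).mp hs
      -- uniqueness
      have hfix : ((Lg h a b)⁻¹ * Lg h c d) • (oA x₁ y₁ : Om F m) = oA x₁ y₁ := by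
        rw [mul_smul, hs', inv_smul_eq_iff, hmove]
      have hmem : (Lg h a b)⁻¹ * Lg h c d ∈ Usub h :=
        (Usub h).mul_mem ((Usub h).inv_mem ⟨a, b, rfl⟩) ⟨c, d, rfl⟩
      obtain ⟨a', b', he⟩ := hmem
      rw [he] at hfix
      obtain ⟨e1, e2⟩ := Lg_fix_oA h hfix
      subst e1 e2
      rw [Lg_zero h] at he
      have : Lg h c d = Lg h a b := by
        have := inv_mul_eq_one.mp he
        exact this.symm
      apply Subtype.ext
      change e (Lg h c d) = e (Lg h a b)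
      rw [this]

/-- The statement. -/
theorem result {F : Type*} [Field F] [Fintype F] {m : ℕ} (hm : 1 ≤ m) (hF : Fintype.card F = 2 ^ (2 * m + 1)) :
    Nat.card ↥(Cfsg.Lie.Sz F (2 ^ (m + 1))) = (2 ^ (2 * m + 1)) ^ 2 * (2 ^ (2 * m + 1) - 1) * ((2 ^ (2 * m + 1)) ^ 2 + 1) ∧
    ∃ S : Sylow 2 ↥(Cfsg.Lie.Sz F (2 ^ (m + 1))),
      Nat.card (Subgroup.normalizer ((S : Subgroup ↥(Cfsg.Lie.Sz F (2 ^ (m + 1)))) : Set ↥(Cfsg.Lie.Sz F (2 ^ (m + 1))))) = (2 ^ (2 * m + 1)) ^ 2 * (2 ^ (2 * m + 1) - 1) ∧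
      (Subgroup.normalizer ((S : Subgroup ↥(Cfsg.Lie.Sz F (2 ^ (m + 1)))) : Set ↥(Cfsg.Lie.Sz F (2 ^ (m + 1))))).index = (2 ^ (2 * m + 1)) ^ 2 + 1 ∧
      MulAction.IsMultiplyPretransitive ↥(Cfsg.Lie.Sz F (2 ^ (m + 1))) (↥(Cfsg.Lie.Sz F (2 ^ (m + 1))) ⧸ Subgroup.normalizer ((S : Subgroup ↥(Cfsg.Lie.Sz F (2 ^ (m + 1)))) : Set ↥(Cfsg.Lie.Sz F (2 ^ (m + 1))))) 2 ∧
      ∀ x y : ↥(Cfsg.Lie.Sz F (2 ^ (m + 1))) ⧸ Subgroup.normalizer ((S : Subgroup ↥(Cfsg.Lie.Sz F (2 ^ (m + 1)))) : Set ↥(Cfsg.Lie.Sz F (2 ^ (m + 1)))),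
        x ≠ (QuotientGroup.mk 1) → y ≠ (QuotientGroup.mk 1) → ∃! s : ↥(S : Subgroup ↥(Cfsg.Lie.Sz F (2 ^ (m + 1)))), (s : ↥(Cfsg.Lie.Sz F (2 ^ (m + 1)))) • x = y := by
  have h : Hyp F m := ⟨hm, hF⟩
  have : Finite ↥(Cfsg.Lie.Sz F (2 ^ (m + 1))) := Finite.of_equiv _ (suzEquiv h).toEquiv
  exact main h (suzEquiv h)

end Cfsg.Agent.S1163
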