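import Cfsg.Statements.S1165
import Mathlib
import Cfsg.Agent.Lib.Perm.RankOne
-- import your own Cfsg.Agent.* helpers here

set_option autoImplicit false
open Cfsg

namespace Cfsg.Agent.S1165

/-- In the rank-one set-up (`G` finite and doubly transitive on `Ω`, `t` an involution moving `a`, `Q` normal in `G_a` with `G_a = Q D`, `Q ⊓ D = 1` for the two-point stabiliser `D = G_a ⊓ G_{t • a}`, `|Q|` even, `|D|` odd): every `x ∈ Q`, `x ≠ 1`, determines unique `g, f ∈ Q`, `h ∈ D` with `t x t = g h t f` (a consequence of the canonical form). For these: (H1) the `f`-part of `x⁻¹` is `g⁻¹`; (H2) the `f`-part of `f` is `x`; (H3) for `a ∈ D` the `f`-part of `a⁻¹ x a` is `(t a t)⁻¹ f (t a t)`; (H4) the `h`-part of `a⁻¹ x a` is `(t a t)⁻¹ h a`, that of `x⁻¹` is `t h⁻¹ t`, and that of `f` is `h⁻¹`. -/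
theorem result {G Ω : Type*} [Group G] [Finite G] [MulAction G Ω] {a : Ω} {t : G} {Q : Subgroup G}
    (hS : Cfsg.IsRankOneSetup G Ω a t Q)
    (x g h f : G) (hx : x ∈ Q) (hx1 : x ≠ 1) (hg : g ∈ Q) (hh : h ∈ (MulAction.stabilizer G a ⊓ MulAction.stabilizer G (t • a))) (hf : f ∈ Q)
    (heq : t * x * t = g * h * t * f) :
    (∀ g₁ h₁ f₁ : G, g₁ ∈ Q → h₁ ∈ (MulAction.stabilizer G a ⊓ MulAction.stabilizer G (t • a)) → f₁ ∈ Q → t * x⁻¹ * t = g₁ * h₁ * t * f₁ →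
        f₁ = g⁻¹ ∧ h₁ = t * h⁻¹ * t) ∧
      (∀ g₂ h₂ f₂ : G, g₂ ∈ Q → h₂ ∈ (MulAction.stabilizer G a ⊓ MulAction.stabilizer G (t • a)) → f₂ ∈ Q → t * f * t = g₂ * h₂ * t * f₂ →
        f₂ = x ∧ h₂ = h⁻¹) ∧
      ∀ c ∈ (MulAction.stabilizer G a ⊓ MulAction.stabilizer G (t • a)), ∀ g₃ h₃ f₃ : G, g₃ ∈ Q → h₃ ∈ (MulAction.stabilizer G a ⊓ MulAction.stabilizer G (t • a)) → f₃ ∈ Q →
        t * (c⁻¹ * x * c) * t = g₃ * h₃ * t * f₃ →
          f₃ = (t * c * t)⁻¹ * f * (t * c * t) ∧ h₃ = (t * c * t)⁻¹ * h * c := by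
  set D := MulAction.stabilizer G a ⊓ MulAction.stabilizer G (t • a) with hD
  have htt : t * t = 1 := hS.mul_self
  have htinv : t⁻¹ = t := inv_eq_of_mul_eq_one_left htt
  have hQa : Q ≤ MulAction.stabilizer G a := hS.le
  have hDa : D ≤ MulAction.stabilizer G a := inf_le_left
  -- t normalizes D
  have htD : ∀ c ∈ D, t * c * t ∈ D := by
    intro c hc
    refine Subgroup.mem_inf.mpr ⟨?_, ?_⟩
    · rw [MulAction.mem_stabilizer_iff, mul_smul, mul_smul]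
      have : c • t • a = t • a := MulAction.mem_stabilizer_iff.mp hc.2
      rw [this, ← mul_smul, htt, one_smul]
    · rw [MulAction.mem_stabilizer_iff, mul_smul, mul_smul, ← mul_smul t t a, htt, one_smul]
      have : c • a = a := MulAction.mem_stabilizer_iff.mp hc.1
      rw [this]
  have hconjQ : ∀ c ∈ D, ∀ y ∈ Q, c * y * c⁻¹ ∈ Q := fun c hc y hy => hS.conj_mem c (hDa hc) y hy
  have hconjQ' : ∀ c ∈ D, ∀ y ∈ Q, c⁻¹ * y * c ∈ Q := by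
    intro c hc y hy
    have := hconjQ c⁻¹ (Subgroup.inv_mem _ hc) y hy
    simpa using this
  -- uniqueness
  have huniq : ∀ g₁ h₁ f₁ g₂ h₂ f₂ : G, g₁ ∈ Q → h₁ ∈ D → f₁ ∈ Q → g₂ ∈ Q → h₂ ∈ D → f₂ ∈ Q →
      g₁ * h₁ * t * f₁ = g₂ * h₂ * t * f₂ → h₁ = h₂ ∧ f₁ = f₂ := by
    intro g₁ h₁ f₁ g₂ h₂ f₂ hg₁ hh₁ hf₁ hg₂ hh₂ hf₂ he
    have hnot : g₁ * h₁ * t * f₁ ∉ MulAction.stabilizer G a := by
      intro hmem
      apply hS.not_mem
      have h1 : (g₁ * h₁) ∈ MulAction.stabilizer G a := Subgroup.mul_mem _ (hQa hg₁) (hDa hh₁)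
      have h2 : f₁ ∈ MulAction.stabilizer G a := hQa hf₁
      have h3 : t = (g₁ * h₁)⁻¹ * (g₁ * h₁ * t * f₁) * f₁⁻¹ := by group
      rw [h3]
      exact Subgroup.mul_mem _ (Subgroup.mul_mem _ (Subgroup.inv_mem _ h1) hmem) (Subgroup.inv_mem _ h2)
    obtain ⟨p, -, hp⟩ := Cfsg.Agent.Lib.Perm.RankOne.existsUnique_canonical hS hnot
    have h1 := hp (g₁ * h₁, f₁) ⟨Subgroup.mul_mem _ (hQa hg₁) (hDa hh₁), hf₁, rfl⟩
    have h2 := hp (g₂ * h₂, f₂) ⟨Subgroup.mul_mem _ (hQa hg₂) (hDa hh₂), hf₂, he⟩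
    have h3 := h1.trans h2.symm
    have h4 : g₁ * h₁ = g₂ * h₂ := congrArg Prod.fst h3
    have h5 : f₁ = f₂ := congrArg Prod.snd h3
    refine ⟨?_, h5⟩
    have h6 : g₂⁻¹ * g₁ = h₂ * h₁⁻¹ := by
      calc g₂⁻¹ * g₁ = g₂⁻¹ * (g₁ * h₁) * h₁⁻¹ := by group
        _ = g₂⁻¹ * (g₂ * h₂) * h₁⁻¹ := by rw [h4]
        _ = h₂ * h₁⁻¹ := by group
    have h7 : h₂ * h₁⁻¹ ∈ Q ⊓ MulAction.stabilizer G (t • a) := by
      constructor
      · rw [← h6]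
        exact Subgroup.mul_mem _ (Subgroup.inv_mem _ hg₂) hg₁
      · exact Subgroup.mul_mem _ hh₂.2 (Subgroup.inv_mem _ hh₁.2)
    rw [hS.inf_eq_bot, Subgroup.mem_bot] at h7
    exact (mul_inv_eq_one.mp h7).symm
  refine ⟨?_, ?_, ?_⟩
  · intro g₁ h₁ f₁ hg₁ hh₁ hf₁ he
    have h1 : t * x⁻¹ * t = f⁻¹ * (t * h⁻¹ * t) * t * g⁻¹ := by
      have h2 : (t * x * t)⁻¹ = t * x⁻¹ * t := by
        rw [mul_inv_rev, mul_inv_rev, htinv]; group
      rw [← h2, heq]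
      calc (g * h * t * f)⁻¹ = f⁻¹ * t⁻¹ * h⁻¹ * g⁻¹ := by group
        _ = f⁻¹ * t * h⁻¹ * g⁻¹ := by rw [htinv]
        _ = f⁻¹ * t * h⁻¹ * (t * t) * g⁻¹ := by rw [htt, mul_one]
        _ = f⁻¹ * (t * h⁻¹ * t) * t * g⁻¹ := by group
    have := huniq g₁ h₁ f₁ f⁻¹ (t * h⁻¹ * t) g⁻¹ hg₁ hh₁ hf₁ (Subgroup.inv_mem _ hf)
      (htD _ (Subgroup.inv_mem _ hh)) (Subgroup.inv_mem _ hg) (he.symm.trans h1)
    exact ⟨this.2, this.1⟩
  · intro g₂ h₂ f₂ hg₂ hh₂ hf₂ he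
    have h1 : t * f * t = (h⁻¹ * g⁻¹ * h) * h⁻¹ * t * x := by
      calc t * f * t = (g * h)⁻¹ * (g * h * t * f) * t := by group
        _ = (g * h)⁻¹ * (t * x * t) * t := by rw [heq]
        _ = h⁻¹ * g⁻¹ * t * x * (t * t) := by group
        _ = (h⁻¹ * g⁻¹ * h) * h⁻¹ * t * x := by rw [htt]; group
    have := huniq g₂ h₂ f₂ (h⁻¹ * g⁻¹ * h) h⁻¹ x hg₂ hh₂ hf₂
      (hconjQ' h hh _ (Subgroup.inv_mem _ hg)) (Subgroup.inv_mem _ hh) hx (he.symm.trans h1)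
    exact ⟨this.2, this.1⟩
  · intro c hc g₃ h₃ f₃ hg₃ hh₃ hf₃ he
    set c' := t * c * t with hc'
    have hc'D : c' ∈ D := htD c hc
    have h1 : t * (c⁻¹ * x * c) * t = (c'⁻¹ * g * c') * (c'⁻¹ * h * c) * t * (c'⁻¹ * f * c') := by
      have e1 : t * (c⁻¹ * x * c) * t = c'⁻¹ * (t * x * t) * c' := by
        have hci : c'⁻¹ = t * c⁻¹ * t := by
          rw [hc', mul_inv_rev, mul_inv_rev, htinv]; group
        rw [hci, hc']
        calc t * (c⁻¹ * x * c) * t = t * c⁻¹ * (t * t) * x * (t * t) * c * t := by rw [htt]; group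
          _ = t * c⁻¹ * t * (t * x * t) * (t * c * t) := by group
      have e2 : t * c' = c * t := by
        rw [hc']
        calc t * (t * c * t) = (t * t) * c * t := by group
          _ = c * t := by rw [htt, one_mul]
      rw [e1, heq]
      calc c'⁻¹ * (g * h * t * f) * c' = c'⁻¹ * g * h * (t * c') * (c'⁻¹ * f * c') := by group
        _ = c'⁻¹ * g * h * (c * t) * (c'⁻¹ * f * c') := by rw [e2]
        _ = (c'⁻¹ * g * c') * (c'⁻¹ * h * c) * t * (c'⁻¹ * f * c') := by group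
    have := huniq g₃ h₃ f₃ (c'⁻¹ * g * c') (c'⁻¹ * h * c) (c'⁻¹ * f * c') hg₃ hh₃ hf₃
      (hconjQ' c' hc'D g hg) (Subgroup.mul_mem _ (Subgroup.mul_mem _ (Subgroup.inv_mem _ hc'D) hh) hc)
      (hconjQ' c' hc'D f hf) (he.symm.trans h1)
    exact ⟨this.2, this.1⟩

end Cfsg.Agent.S1165
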