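import Cfsg.Statements.S1166
import Mathlib
import Cfsg.Agent.Lib.Perm.RankOne
-- import your own Cfsg.Agent.* helpers here

set_option autoImplicit false
open Cfsg

namespace Cfsg.Agent.S1166

/-- In the rank-one set-up (`G` finite and doubly transitive on `Ω`, `t` an involution moving `a`, `Q` normal in `G_a` with `G_a = Q D`, `Q ⊓ D = 1` for the two-point stabiliser `D = G_a ⊓ G_{t • a}`, `|Q|` even, `|D|` odd), with `t x t = g_x h_x t f_x` and `t y t = g_y h_y t f_y` (`g, f ∈ Q`, `h ∈ D`) for `x, y ∈ Q ∖ 1` with `x y ≠ 1`: then `z = f_x g_y ≠ 1`, and if `t z t = g_z h_z t f_z` and `t (x y) t = g' h' t f'` then `f' = (t h_y t)⁻¹ f_z (t h_y t) f_y` and `h' = h_x h_z h_y` (H6). -/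
theorem result {G Ω : Type*} [Group G] [Finite G] [MulAction G Ω] {a : Ω} {t : G} {Q : Subgroup G}
    (hS : Cfsg.IsRankOneSetup G Ω a t Q)
    (x y gx hx fx gy hy fy : G) (hxQ : x ∈ Q) (hx1 : x ≠ 1) (hyQ : y ∈ Q) (hy1 : y ≠ 1) (hxy : x * y ≠ 1)
    (hgx : gx ∈ Q) (hhx : hx ∈ (MulAction.stabilizer G a ⊓ MulAction.stabilizer G (t • a))) (hfx : fx ∈ Q) (ex : t * x * t = gx * hx * t * fx)
    (hgy : gy ∈ Q) (hhy : hy ∈ (MulAction.stabilizer G a ⊓ MulAction.stabilizer G (t • a))) (hfy : fy ∈ Q) (ey : t * y * t = gy * hy * t * fy) :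
    fx * gy ≠ 1 ∧
      ∀ gz hz fz g' h' f' : G, gz ∈ Q → hz ∈ (MulAction.stabilizer G a ⊓ MulAction.stabilizer G (t • a)) → fz ∈ Q → t * (fx * gy) * t = gz * hz * t * fz →
        g' ∈ Q → h' ∈ (MulAction.stabilizer G a ⊓ MulAction.stabilizer G (t • a)) → f' ∈ Q → t * (x * y) * t = g' * h' * t * f' →
          f' = (t * hy * t)⁻¹ * fz * (t * hy * t) * fy ∧ h' = hx * hz * hy := by
  set D := MulAction.stabilizer G a ⊓ MulAction.stabilizer G (t • a) with hD
  have htt : t * t = 1 := hS.mul_self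
  have htinv : t⁻¹ = t := inv_eq_of_mul_eq_one_left htt
  have hQa : Q ≤ MulAction.stabilizer G a := hS.le
  have hDa : D ≤ MulAction.stabilizer G a := inf_le_left
  have htD : ∀ c ∈ D, t * c * t ∈ D := by
    intro c hc
    refine Subgroup.mem_inf.mpr ⟨?_, ?_⟩
    · rw [MulAction.mem_stabilizer_iff, mul_smul, mul_smul]
      have : c • t • a = t • a := MulAction.mem_stabilizer_iff.mp hc.2
      rw [this, ← mul_smul, htt, one_smul]
    · rw [MulAction.mem_stabilizer_iff, mul_smul, mul_smul, ← mul_smul t t a, htt, one_smul]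
      have : c • a = a := MulAction.mem_stabilizer_iff.mp hc.1
      rw [this]
  have hconjQ : ∀ c ∈ D, ∀ y ∈ Q, c * y * c⁻¹ ∈ Q := fun c hc y hy => hS.conj_mem c (hDa hc) y hy
  have hconjQ' : ∀ c ∈ D, ∀ y ∈ Q, c⁻¹ * y * c ∈ Q := by
    intro c hc y hy
    have := hconjQ c⁻¹ (Subgroup.inv_mem _ hc) y hy
    simpa using this
  have huniq : ∀ g₁ h₁ f₁ g₂ h₂ f₂ : G, g₁ ∈ Q → h₁ ∈ D → f₁ ∈ Q → g₂ ∈ Q → h₂ ∈ D → f₂ ∈ Q →
      g₁ * h₁ * t * f₁ = g₂ * h₂ * t * f₂ → h₁ = h₂ ∧ f₁ = f₂ := by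
    intro g₁ h₁ f₁ g₂ h₂ f₂ hg₁ hh₁ hf₁ hg₂ hh₂ hf₂ he
    have hnot : g₁ * h₁ * t * f₁ ∉ MulAction.stabilizer G a := by
      intro hmem
      apply hS.not_mem
      have h1 : (g₁ * h₁) ∈ MulAction.stabilizer G a := Subgroup.mul_mem _ (hQa hg₁) (hDa hh₁)
      have h2 : f₁ ∈ MulAction.stabilizer G a := hQa hf₁
      have h3 : t = (g₁ * h₁)⁻¹ * (g₁ * h₁ * t * f₁) * f₁⁻¹ := by group
      rw [h3]
      exact Subgroup.mul_mem _ (Subgroup.mul_mem _ (Subgroup.inv_mem _ h1) hmem) (Subgroup.inv_mem _ h2)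
    obtain ⟨p, -, hp⟩ := Cfsg.Agent.Lib.Perm.RankOne.existsUnique_canonical hS hnot
    have h1 := hp (g₁ * h₁, f₁) ⟨Subgroup.mul_mem _ (hQa hg₁) (hDa hh₁), hf₁, rfl⟩
    have h2 := hp (g₂ * h₂, f₂) ⟨Subgroup.mul_mem _ (hQa hg₂) (hDa hh₂), hf₂, he⟩
    have h3 := h1.trans h2.symm
    have h4 : g₁ * h₁ = g₂ * h₂ := congrArg Prod.fst h3
    have h5 : f₁ = f₂ := congrArg Prod.snd h3
    refine ⟨?_, h5⟩
    have h6 : g₂⁻¹ * g₁ = h₂ * h₁⁻¹ := by
      calc g₂⁻¹ * g₁ = g₂⁻¹ * (g₁ * h₁) * h₁⁻¹ := by group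
        _ = g₂⁻¹ * (g₂ * h₂) * h₁⁻¹ := by rw [h4]
        _ = h₂ * h₁⁻¹ := by group
    have h7 : h₂ * h₁⁻¹ ∈ Q ⊓ MulAction.stabilizer G (t • a) := by
      constructor
      · rw [← h6]
        exact Subgroup.mul_mem _ (Subgroup.inv_mem _ hg₂) hg₁
      · exact Subgroup.mul_mem _ hh₂.2 (Subgroup.inv_mem _ hh₁.2)
    rw [hS.inf_eq_bot, Subgroup.mem_bot] at h7
    exact (mul_inv_eq_one.mp h7).symm
  have hprod : t * (x * y) * t = gx * hx * t * (fx * gy) * hy * t * fy := by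
    calc t * (x * y) * t = (t * x * t) * (t * y * t) := by
          calc t * (x * y) * t = t * x * (t * t) * y * t := by rw [htt]; group
            _ = (t * x * t) * (t * y * t) := by group
      _ = (gx * hx * t * fx) * (gy * hy * t * fy) := by rw [ex, ey]
      _ = gx * hx * t * (fx * gy) * hy * t * fy := by group
  refine ⟨?_, ?_⟩
  · intro hz1
    apply hxy
    have h1 : t * (x * y) * t = gx * hx * (t * hy * t) * fy := by
      rw [hprod, hz1]; group
    have h2 : t * (x * y) * t ∈ MulAction.stabilizer G a := by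
      rw [h1]
      exact mul_mem (mul_mem (mul_mem (hQa hgx) (hDa hhx)) (hDa (htD _ hhy))) (hQa hfy)
    have h3 : x * y ∈ MulAction.stabilizer G (t • a) := by
      rw [MulAction.mem_stabilizer_iff] at h2 ⊢
      calc (x * y) • t • a = t • (t * (x * y) * t) • a := by
            simp only [mul_smul]
            rw [← mul_smul t t, htt, one_smul]
        _ = t • a := by rw [h2]
    have h4 : x * y ∈ Q ⊓ MulAction.stabilizer G (t • a) := ⟨mul_mem hxQ hyQ, h3⟩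
    rw [hS.inf_eq_bot, Subgroup.mem_bot] at h4
    exact h4
  · intro gz hz fz g' h' f' hgz hhz hfz ez hg' hh' hf' e'
    set d := t * hy * t with hd
    have hdD : d ∈ D := htD _ hhy
    have hdinv : d⁻¹ = t * hy⁻¹ * t := by
      rw [hd, mul_inv_rev, mul_inv_rev, htinv, mul_assoc]
    have h1 : t * (x * y) * t = gx * hx * (gz * hz * t * fz) * d * fy := by
      rw [hprod, ← ez]
      calc gx * hx * t * (fx * gy) * hy * t * fy
          = gx * hx * t * (fx * gy) * (t * t) * hy * t * fy := by rw [htt]; group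
        _ = gx * hx * (t * (fx * gy) * t) * d * fy := by rw [hd]; group
    have h2 : gx * hx * (gz * hz * t * fz) * d * fy =
        (gx * (hx * gz * hx⁻¹)) * (hx * hz * hy) * t * (d⁻¹ * fz * d * fy) := by
      rw [hdinv]
      have e1 : (gx * (hx * gz * hx⁻¹)) * (hx * hz * hy) * t * (t * hy⁻¹ * t * fz * d * fy) =
          gx * hx * gz * hz * hy * (t * t) * hy⁻¹ * t * fz * d * fy := by group
      rw [e1, htt]
      group
    have h3 := huniq g' h' f' (gx * (hx * gz * hx⁻¹)) (hx * hz * hy) (d⁻¹ * fz * d * fy) hg' hh' hf'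
      (mul_mem hgx (hconjQ hx hhx gz hgz)) (mul_mem (mul_mem hhx hhz) hhy)
      (mul_mem (hconjQ' d hdD fz hfz) hfy) (by rw [← e', h1, h2])
    exact ⟨h3.2, h3.1⟩

end Cfsg.Agent.S1166
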