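import Cfsg.Statements.S1167
import Mathlib
import Cfsg.Agent.Lib.Zass.Rows5
import Cfsg.Agent.Lib.Zass.Invol
import Cfsg.Agent.S0738

set_option autoImplicit false
open Cfsg

namespace Cfsg.Agent.S1167

open MulAction Cfsg.Agent.Lib.Zass.Basic Cfsg.Agent.Lib.Zass.Invol

/-- Let `G` be a finite simple Zassenhaus group on `Ω`, `U` a normal subgroup of `G_a` regular on `Ω` minus `a` which is an abelian 2-group, and `v` an involution with `v • a ≠ a`. Then there is a unique `u₀ ∈ U`, `u₀ ≠ 1`, with `v u₀ v = u₀ v u₀`. -/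
theorem result {G Ω : Type*} [Group G] [Finite G] [MulAction G Ω] [Finite Ω]
    (hZ : Cfsg.IsZassenhausGroup G Ω) [IsSimpleGroup G] {a : Ω}
    (U : Subgroup G) (hUle : U ≤ MulAction.stabilizer G a)
    (hUn : ∀ h ∈ MulAction.stabilizer G a, ∀ u ∈ U, h * u * h⁻¹ ∈ U)
    (hreg : ∀ c d : Ω, c ≠ a → d ≠ a → ∃! u : U, (u : G) • c = d)
    (hU2 : IsPGroup 2 U) (hUab : ∀ u ∈ U, ∀ u' ∈ U, u * u' = u' * u)
    (v : G) (hv1 : v ≠ 1) (hv2 : v * v = 1) (hva : v • a ≠ a) :
    ∃! u₀ : G, u₀ ∈ U ∧ u₀ ≠ 1 ∧ v * u₀ * v = u₀ * v * u₀ := by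
  classical
  haveI := Fintype.ofFinite Ω
  haveI := Fintype.ofFinite G
  obtain ⟨b, hb⟩ : ∃ b, b = v • a := ⟨_, rfl⟩
  have hba : b ≠ a := hb ▸ hva
  have hab : a ≠ b := hba.symm
  have hvb : v • b = a := by rw [hb, ← mul_smul, hv2, one_smul]
  have hvab : v • a = b := hb.symm
  -- `U` is the kernel
  have hUk : U = kernel hZ a := by
    apply le_antisymm
    · intro u hu
      rw [mem_kernel]
      refine ⟨hUle hu, ?_⟩
      by_cases hu1 : u = 1
      · exact Or.inl hu1
      · right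
        intro c hc
        by_contra hca
        obtain ⟨w, -, hw⟩ := hreg c c hca hca
        have h1 := hw ⟨u, hu⟩ hc
        have h2 := hw 1 (by simp)
        apply hu1
        have := h1.trans h2.symm
        simpa using congrArg Subtype.val this
    · intro w hw
      have hd : w • b ≠ a := by
        intro h
        apply hba
        have hwa := kernel_smul hZ hw
        exact MulAction.injective w (h.trans hwa.symm)
      obtain ⟨u, hu, -⟩ := hreg b (w • b) hba hd
      have := kernel_eq_of_smul_eq hZ hba hw (show (u : G) ∈ kernel hZ a from ?_) hu.symm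
      · rw [this]
        exact u.2
      · -- `U ≤ kernel`
        have hu' : (u : G) • a = a := hUle u.2
        rw [mem_kernel]
        refine ⟨hu', ?_⟩
        by_cases hu1 : (u : G) = 1
        · exact Or.inl hu1
        · right
          intro c hc
          by_contra hca
          obtain ⟨w', -, hw'⟩ := hreg c c hca hca
          have h1 := hw' u hc
          have h2 := hw' 1 (by simp)
          apply hu1
          have := h1.trans h2.symm
          simpa using congrArg Subtype.val this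
  subst hUk
  have hne : kernel hZ a ≠ ⊥ := kernel_ne_bot hZ a
  haveI hnt : Nontrivial (kernel hZ a) := (Subgroup.nontrivial_iff_ne_bot _).mpr hne
  have heven : Even (Nat.card (kernel hZ a)) := by
    obtain ⟨k, hk⟩ := IsPGroup.iff_card.mp hU2
    have hk0 : k ≠ 0 := by
      rintro rfl
      rw [pow_zero] at hk
      have : 1 < Nat.card (kernel hZ a) := Finite.one_lt_card
      omega
    rw [hk]
    exact (Nat.even_pow.mpr ⟨even_two, hk0⟩)
  have hodd := odd_two_point_of_even hZ hab heven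
  have hfeit := Cfsg.Agent.Lib.Zass.Rows5.feit_abelian hZ hab hodd hUab
  obtain ⟨hcomm, p, f, hp, hexp, -⟩ := Cfsg.Agent.S0738.result hZ hab hfeit (kernel hZ a) hUle
    (by
      constructor
      intro x hx y
      rw [Subgroup.mem_subgroupOf] at hx ⊢
      exact conj_mem_kernel_of_fix hZ y.2 hx)
    hreg
  -- the exponent is two
  have hp2 : p = 2 := by
    obtain ⟨u, hu⟩ := exists_ne (1 : kernel hZ a)
    obtain ⟨k, hk⟩ := hU2 u
    have h1 : (u : kernel hZ a) ^ p = 1 := Subtype.ext (by simpa using hexp u u.2)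
    haveI : Fact p.Prime := ⟨hp⟩
    haveI : Fact (Nat.Prime 2) := ⟨Nat.prime_two⟩
    have h2 : orderOf u = p := orderOf_eq_prime h1 hu
    have h3 : orderOf u ∣ 2 ^ k := orderOf_dvd_of_pow_eq_one hk
    rw [h2] at h3
    exact (Nat.prime_dvd_prime_iff_eq hp Nat.prime_two).mp (hp.dvd_of_dvd_pow h3)
  subst hp2
  have hsq : ∀ u ∈ kernel hZ a, u * u = 1 := by
    intro u hu
    have := hexp u hu
    rwa [pow_two] at this
  -- the number of points is odd
  have hΩ : Odd (Nat.card Ω) := by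
    rw [← card_kernel_add_one hZ a]
    exact heven.add_one
  -- the unique fixed point of `v`
  obtain ⟨c₀, hc₀⟩ := exists_fixed_of_sq_eq_one hΩ v hv2
  have hc₀a : c₀ ≠ a := by
    rintro rfl
    exact hva hc₀
  have hc₀b : c₀ ≠ b := by
    rintro rfl
    exact hab (hvb.symm.trans hc₀)
  have huniqc : ∀ c : Ω, v • c = c → c = c₀ := by
    intro c hc
    by_contra hne
    have hmem : v ∈ stabilizer G c ⊓ stabilizer G c₀ := ⟨hc, hc₀⟩
    have hoddc : Odd (Nat.card ↥(stabilizer G c ⊓ stabilizer G c₀)) := by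
      rw [card_two_point_eq hZ hne hab]
      exact hodd
    have h1 : orderOf (⟨v, hmem⟩ : ↥(stabilizer G c ⊓ stabilizer G c₀)) ∣ 2 := by
      apply orderOf_dvd_of_pow_eq_one
      apply Subtype.ext
      simp [pow_two, hv2]
    have h2 : orderOf (⟨v, hmem⟩ : ↥(stabilizer G c ⊓ stabilizer G c₀)) ∣
        Nat.card ↥(stabilizer G c ⊓ stabilizer G c₀) := orderOf_dvd_natCard _
    have h3 : orderOf (⟨v, hmem⟩ : ↥(stabilizer G c ⊓ stabilizer G c₀)) = 1 := by
      exact Nat.eq_one_of_dvd_coprimes ((Nat.coprime_two_left).mpr hoddc) h1 h2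
    have h5 := orderOf_eq_one_iff.mp h3
    exact hv1 (congrArg Subtype.val h5)
  obtain ⟨u₀', hu₀', -⟩ := hreg b c₀ hba hc₀a
  obtain ⟨u₀, hu₀⟩ := u₀'
  have hu₀b : u₀ • b = c₀ := hu₀'
  have hu₀a : u₀ • a = a := kernel_smul hZ hu₀
  have hu₀u₀ : u₀ * u₀ = 1 := hsq u₀ hu₀
  have hu₀1 : u₀ ≠ 1 := by
    rintro rfl
    rw [one_smul] at hu₀b
    exact hc₀b hu₀b.symm
  have hu₀c : u₀ • c₀ = b := by
    rw [← hu₀b, ← mul_smul, hu₀u₀, one_smul]
  have hinv : u₀⁻¹ = u₀ := inv_eq_of_mul_eq_one_left hu₀u₀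
  have hvinv : v⁻¹ = v := inv_eq_of_mul_eq_one_left hv2
  refine ⟨u₀, ⟨hu₀, hu₀1, ?_⟩, ?_⟩
  · have hw : (v * u₀) * (v * u₀) * (v * u₀) = 1 := by
      apply hZ.2.2.1 _ a b c₀ hab hc₀b.symm hc₀a.symm
      · simp only [mul_smul, hu₀a, hvab, hu₀b, hc₀, hu₀c, hvb]
      · simp only [mul_smul, hu₀a, hvab, hu₀b, hc₀, hu₀c, hvb]
      · simp only [mul_smul, hu₀a, hvab, hu₀b, hc₀, hu₀c, hvb]
    have h1 : v * u₀ * v = (u₀ * v * u₀)⁻¹ := by
      apply eq_inv_of_mul_eq_one_left
      rw [← hw]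
      group
    rw [h1]
    simp [mul_assoc, hinv, hvinv]
  · rintro y ⟨hy, -, hyeq⟩
    apply kernel_eq_of_smul_eq hZ hba hy hu₀
    rw [hu₀b]
    apply huniqc
    have h1 := congrArg (fun g : G => g • a) hyeq
    simp only [mul_smul, kernel_smul hZ hy, hvab] at h1
    exact h1

end Cfsg.Agent.S1167
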