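import Cfsg.Statements.S1168
import Mathlib
-- import your own Cfsg.Agent.* helpers here

set_option autoImplicit false
open Cfsg

namespace Cfsg.Agent.S1168

variable {F : Type*} [Field F] [CharP F 2]

section quad

variable (q : F → F)

/-- The polarisation of `q`. -/
def bb (u v : F) : F := q (u + v) + q u + q v

variable {q}
variable (hq : ∀ x y z : F, q (x + y + z) + q (x + y) + q (x + z) + q (y + z) + q x + q y + q z = 0)

include hq

lemma q_zero : q 0 = 0 := by
  have h := hq 0 0 0
  simp only [add_zero] at h
  have h2 : (2 : F) = 0 := CharTwo.two_eq_zero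
  linear_combination h - 3 * q 0 * h2

lemma bb_add_left (x y z : F) : bb q (x + y) z = bb q x z + bb q y z := by
  have h2 : (2 : F) = 0 := CharTwo.two_eq_zero
  unfold bb
  linear_combination hq x y z - (q (x + z) + q x + q z + q (y + z) + q y) * h2 

omit hq in
lemma bb_comm (x y : F) : bb q x y = bb q y x := by
  unfold bb
  rw [add_comm x y]
  ring

lemma bb_zero_left (v : F) : bb q 0 v = 0 := by
  have h2 : (2 : F) = 0 := CharTwo.two_eq_zero
  unfold bb
  rw [zero_add, q_zero hq]
  linear_combination q v * h2

lemma zmod2_cases (a : ZMod 2) : a = 0 ∨ a = 1 := by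
  revert a
  decide

lemma q_smul [Algebra (ZMod 2) F] (a : ZMod 2) (v : F) :
    q (a • v) = algebraMap (ZMod 2) F a * q v := by
  rcases zmod2_cases hq a with rfl | rfl
  · simp [q_zero hq]
  · simp

lemma bb_smul_left [Algebra (ZMod 2) F] (a : ZMod 2) (u v : F) :
    bb q (a • u) v = algebraMap (ZMod 2) F a * bb q u v := by
  rcases zmod2_cases hq a with rfl | rfl
  · simp [bb_zero_left hq]
  · simp

lemma bb_sum_left [Algebra (ZMod 2) F] {ι : Type*} (t : Finset ι) (a : ι → ZMod 2) (e : ι → F) (v : F) :
    bb q (∑ j ∈ t, a j • e j) v = ∑ j ∈ t, algebraMap (ZMod 2) F (a j) * bb q (e j) v := by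
  classical
  induction t using Finset.induction_on with
  | empty => simp [bb_zero_left hq]
  | insert i t hi ih =>
    rw [Finset.sum_insert hi, Finset.sum_insert hi, bb_add_left hq, bb_smul_left hq, ih]

end quad

/-- For a finite field `F` of characteristic 2: if `q : F → F` is quadratic over the prime field, i.e. `(x, y) ↦ q (x + y) + q x + q y` is additive in each variable, then `q x = Σ c_{σ,τ} σ(x) τ(x)` for some coefficients indexed by pairs of field automorphisms. -/
theorem result {F : Type*} [Field F] [Fintype F] [CharP F 2]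
    (q : F → F)
    (hq : ∀ x y z : F, q (x + y + z) + q (x + y) + q (x + z) + q (y + z) + q x + q y + q z = 0) :
    ∃ (s : Finset ((F ≃+* F) × (F ≃+* F))) (c : (F ≃+* F) × (F ≃+* F) → F),
      ∀ x : F, q x = ∑ p ∈ s, c p * (p.1 x * p.2 x) := by
  classical
  letI : Algebra (ZMod 2) F := ZMod.algebra F 2
  have hfinAut : Finite (F ≃+* F) :=
    Finite.of_injective (fun f : F ≃+* F => (f : F → F)) DFunLike.coe_injective
  have := Fintype.ofFinite (F ≃+* F)
  have : Module.Finite (ZMod 2) F := Module.Finite.of_finite
  have h2 : (2 : F) = 0 := CharTwo.two_eq_zero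
  let e := Module.finBasis (ZMod 2) F
  have hB := traceForm_nondegenerate (ZMod 2) F
  let d := (Algebra.traceForm (ZMod 2) F).dualBasis hB e
  have hd : ∀ i j, Algebra.trace (ZMod 2) F (d i * e j) = if j = i then 1 else 0 := fun i j => by
    have := LinearMap.BilinForm.apply_dualBasis_left hB e i j
    rwa [Algebra.traceForm_apply] at this
  have hrepr : ∀ x j, e.repr x j = Algebra.trace (ZMod 2) F (d j * x) := by
    intro x j
    nth_rw 2 [← e.sum_repr x]
    rw [Finset.mul_sum, map_sum]
    simp only [mul_smul_comm, map_smul, hd, smul_eq_mul, mul_ite, mul_one, mul_zero,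
      Finset.sum_ite_eq', Finset.mem_univ, if_true]
  have hf : ∀ x j, algebraMap (ZMod 2) F (e.repr x j) =
      ∑ σ : F ≃ₐ[ZMod 2] F, σ (d j) * σ x := by
    intro x j
    rw [hrepr, trace_eq_sum_automorphisms]
    simp only [map_mul]
  let g : (F ≃+* F) × (F ≃+* F) → (F → F) := fun p x => p.1 x * p.2 x
  let S : Submodule F (F → F) := Submodule.span F (Set.range g)
  have hprod : ∀ j k, (fun x => algebraMap (ZMod 2) F (e.repr x j) * algebraMap (ZMod 2) F (e.repr x k))
      ∈ S := by
    intro j k
    have : (fun x => algebraMap (ZMod 2) F (e.repr x j) * algebraMap (ZMod 2) F (e.repr x k)) =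
        ∑ σ : F ≃ₐ[ZMod 2] F, ∑ τ : F ≃ₐ[ZMod 2] F, (σ (d j) * τ (d k)) •
          g (σ.toRingEquiv, τ.toRingEquiv) := by
      funext x
      rw [hf, hf, Finset.sum_mul_sum]
      simp only [Finset.sum_apply, Pi.smul_apply, smul_eq_mul]
      refine Finset.sum_congr rfl (fun σ _ => Finset.sum_congr rfl (fun τ _ => ?_))
      simp only [g]
      change σ (d j) * σ x * (τ (d k) * τ x) = σ (d j) * τ (d k) * (σ x * τ x)
      ring
    rw [this]
    exact Submodule.sum_mem _ (fun σ _ => Submodule.sum_mem _ (fun τ _ =>
      Submodule.smul_mem _ _ (Submodule.subset_span ⟨_, rfl⟩)))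
  have hmain : ∀ t : Finset (Fin (Module.finrank (ZMod 2) F)),
      (fun x => q (∑ j ∈ t, e.repr x j • e j)) ∈ S := by
    intro t
    induction t using Finset.induction_on with
    | empty =>
      have : (fun x => q (∑ j ∈ (∅ : Finset (Fin (Module.finrank (ZMod 2) F))), e.repr x j • e j)) = 0 := by
        funext x
        simp [q_zero hq]
      rw [this]
      exact Submodule.zero_mem _
    | insert i t hi ih =>
      have hsq : ∀ a : ZMod 2, algebraMap (ZMod 2) F a = algebraMap (ZMod 2) F a * algebraMap (ZMod 2) F a := by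
        intro a
        rcases zmod2_cases hq a with rfl | rfl <;> simp
      have : (fun x => q (∑ j ∈ insert i t, e.repr x j • e j)) =
          (fun x => q (∑ j ∈ t, e.repr x j • e j)) +
          q (e i) • (fun x => algebraMap (ZMod 2) F (e.repr x i) * algebraMap (ZMod 2) F (e.repr x i)) +
          ∑ j ∈ t, bb q (e j) (e i) •
            (fun x => algebraMap (ZMod 2) F (e.repr x j) * algebraMap (ZMod 2) F (e.repr x i)) := by
        funext x
        rw [Finset.sum_insert hi]
        simp only [Pi.add_apply, Pi.smul_apply, smul_eq_mul, Finset.sum_apply]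
        set w := ∑ j ∈ t, e.repr x j • e j with hw
        set a := e.repr x i with ha
        have h1 : q (a • e i + w) = bb q (a • e i) w + q (a • e i) + q w := by
          unfold bb
          linear_combination (-(q (a • e i) + q w)) * h2
        have h3 : bb q (e i) w = ∑ j ∈ t, algebraMap (ZMod 2) F (e.repr x j) * bb q (e j) (e i) := by
          rw [bb_comm, hw, bb_sum_left hq]
        rw [h1, bb_smul_left hq, q_smul hq, h3, Finset.mul_sum]
        have h4 : ∀ j ∈ t, algebraMap (ZMod 2) F a * (algebraMap (ZMod 2) F (e.repr x j) * bb q (e j) (e i)) =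
            bb q (e j) (e i) * (algebraMap (ZMod 2) F (e.repr x j) * algebraMap (ZMod 2) F a) := by
          intro j _
          ring
        rw [Finset.sum_congr rfl h4]
        nth_rw 2 [hsq a]
        ring
      rw [this]
      refine Submodule.add_mem _ (Submodule.add_mem _ ih (Submodule.smul_mem _ _ (hprod i i))) ?_
      exact Submodule.sum_mem _ (fun j _ => Submodule.smul_mem _ _ (hprod j i))
  have hqS : q ∈ S := by
    have := hmain Finset.univ
    have h1 : (fun x => q (∑ j, e.repr x j • e j)) = q := by
      funext x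
      rw [e.sum_repr]
    rwa [h1] at this
  obtain ⟨c, hc⟩ := (Submodule.mem_span_range_iff_exists_fun F).mp hqS
  refine ⟨Finset.univ, c, fun x => ?_⟩
  have := congrFun hc x
  simp only [Finset.sum_apply, Pi.smul_apply, smul_eq_mul] at this
  exact this.symm

end Cfsg.Agent.S1168
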