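import Cfsg.Statements.S1176
import Mathlib
import Cfsg.Agent.Lib.Basic.ConjCount

set_option autoImplicit false
open Cfsg

namespace Cfsg.Agent.S1176

open Subgroup
open scoped commutatorElement

theorem conj_formula {G : Type*} [Group G] {a r : G} (hr : r * a * r⁻¹ = a⁻¹) (k : ℕ) :
    a ^ k * r * (a ^ k)⁻¹ = a ^ (k + k) * r := by
  have h1 : r * a ^ k * r⁻¹ = (a⁻¹) ^ k := by rw [← conj_pow, hr]
  have h2 : r * (a ^ k)⁻¹ * r⁻¹ = a ^ k := by
    have h3 : r * (a ^ k)⁻¹ * r⁻¹ = (r * a ^ k * r⁻¹)⁻¹ := by group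
    rw [h3, h1, inv_pow, inv_inv]
  have h4 : r * (a ^ k)⁻¹ = a ^ k * r := by
    rwa [mul_inv_eq_iff_eq_mul] at h2
  rw [mul_assoc, h4, pow_add, mul_assoc]

theorem central_of_invert {G : Type*} [Group G] {a r : G} (hr : r * a * r⁻¹ = a⁻¹) {m : ℕ}
    (hww : a ^ m * a ^ m = 1) : r * a ^ m = a ^ m * r := by
  have h1 : r * a ^ m * r⁻¹ = (a⁻¹) ^ m := by rw [← conj_pow, hr]
  have h2 : (a⁻¹) ^ m = a ^ m := by
    rw [inv_pow]
    exact inv_eq_of_mul_eq_one_left hww
  rw [h2, mul_inv_eq_iff_eq_mul] at h1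
  exact h1

/-- Let x₀ be an involution of the finite group G and D its conjugacy class. Assume (a) for each x ∈ D the subgroup W(x) generated by the members of D commuting with x is a 2-group of nilpotency class at most 2, and (b) the product of two distinct commuting members of D again lies in D. Then for all x, y ∈ D, if xy has even order greater than 2, its order is 4. -/
theorem result {G : Type*} [Group G] [Finite G] (x₀ : G) (hx₀ : orderOf x₀ = 2) (ha : ∀ x : G, IsConj x₀ x → IsPGroup 2 ↥(Subgroup.closure {y : G | IsConj x₀ y ∧ Commute y x}) ∧ ⁅⁅Subgroup.closure {y : G | IsConj x₀ y ∧ Commute y x}, Subgroup.closure {y : G | IsConj x₀ y ∧ Commute y x}⁆, Subgroup.closure {y : G | IsConj x₀ y ∧ Commute y x}⁆ = ⊥) (hb : ∀ x y : G, IsConj x₀ x → IsConj x₀ y → x ≠ y → Commute x y → IsConj x₀ (x * y)) (x y : G) (hx : IsConj x₀ x) (hy : IsConj x₀ y) (heven : Even (orderOf (x * y))) (hgt : 2 < orderOf (x * y)) : orderOf (x * y) = 4 := by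
  have hord : ∀ z, IsConj x₀ z → z * z = 1 := by
    intro z hz
    have h1 := Cfsg.Agent.Lib.Basic.ConjCount.orderOf_eq_of_isConj hz
    have h2 : orderOf z = 2 := by omega
    rw [← sq, ← h2]
    exact pow_orderOf_eq_one z
  have hxx := hord x hx
  have hyy := hord y hy
  have hxi : x⁻¹ = x := inv_eq_of_mul_eq_one_left hxx
  have hyi : y⁻¹ = y := inv_eq_of_mul_eq_one_left hyy
  set a := x * y with ha'
  have hai : a⁻¹ = y * x := by rw [ha', mul_inv_rev, hxi, hyi]
  have hxa : x * a * x⁻¹ = a⁻¹ := by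
    rw [hai, ha', hxi]
    calc x * (x * y) * x = (x * x) * y * x := by group
      _ = y * x := by rw [hxx, one_mul]
  have hya : y * a * y⁻¹ = a⁻¹ := by
    rw [hai, ha', hyi]
    calc y * (x * y) * y = y * x * (y * y) := by group
      _ = y * x := by rw [hyy, mul_one]
  obtain ⟨m, hm⟩ := heven
  have hww : a ^ m * a ^ m = 1 := by rw [← pow_add, ← hm]; exact pow_orderOf_eq_one a
  have hw1 : a ^ m ≠ 1 := pow_ne_one_of_lt_orderOf (by omega) (by omega)
  have hwx : x * a ^ m = a ^ m * x := central_of_invert hxa hww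
  have hwy : y * a ^ m = a ^ m * y := central_of_invert hya hww
  have hx' : IsConj x₀ (a ^ m * x) := by
    obtain ⟨k, hk | hk⟩ := Nat.even_or_odd' m
    · have h1 := conj_formula hxa k
      have h2 : k + k = m := by omega
      rw [h2] at h1
      rw [← h1]
      exact hx.trans (isConj_iff.mpr ⟨a ^ k, rfl⟩)
    · have hr : (a * x) * a * (a * x)⁻¹ = a⁻¹ := by
        have h3 : (a * x) * a * (a * x)⁻¹ = a * (x * a * x⁻¹) * a⁻¹ := by group
        rw [h3, hxa]
        group
      have h1 := conj_formula hr k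
      have h2 : a ^ (k + k) * (a * x) = a ^ m * x := by
        rw [hk, ← mul_assoc, ← pow_succ]
        congr 2
        omega
      rw [h2] at h1
      rw [← h1]
      have h4 : IsConj y (a * x) := by
        refine isConj_iff.mpr ⟨x, ?_⟩
        rw [hxi, ha']
      exact hy.trans (h4.trans (isConj_iff.mpr ⟨a ^ k, rfl⟩))
  have hne : a ^ m * x ≠ x := fun h => hw1 (mul_eq_right.mp h)
  have hcomm : Commute (a ^ m * x) x := by
    show a ^ m * x * x = x * (a ^ m * x)
    rw [← mul_assoc, hwx]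
  have hwD : IsConj x₀ (a ^ m) := by
    have h1 := hb (a ^ m * x) x hx' hx hne hcomm
    rwa [mul_assoc, hxx, mul_one] at h1
  obtain ⟨-, hW⟩ := ha (a ^ m) hwD
  have hxW : x ∈ closure {y : G | IsConj x₀ y ∧ Commute y (a ^ m)} :=
    subset_closure ⟨hx, hwx⟩
  have hyW : y ∈ closure {y : G | IsConj x₀ y ∧ Commute y (a ^ m)} :=
    subset_closure ⟨hy, hwy⟩
  have h1 := commutator_mem_commutator (commutator_mem_commutator hxW hyW) hxW
  rw [hW, mem_bot] at h1
  have e1 : ⁅x, y⁆ = a * a := by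
    rw [commutatorElement_def, hxi, hyi]
    rw [ha']
    group
  have h4 : a ^ 4 = 1 := by
    rw [e1, commutatorElement_def] at h1
    have h5 : x * (a * a)⁻¹ * x⁻¹ = a * a := by
      have h6 : x * (a * a) * x⁻¹ = a⁻¹ * a⁻¹ := by
        rw [← hxa]
        group
      have h7 : x * (a * a)⁻¹ * x⁻¹ = (x * (a * a) * x⁻¹)⁻¹ := by group
      rw [h7, h6, mul_inv_rev, inv_inv]
    have h8 : a * a * x * (a * a)⁻¹ * x⁻¹ = a * a * (x * (a * a)⁻¹ * x⁻¹) := by group
    rw [h8, h5] at h1
    calc a ^ 4 = a * a * (a * a) := by simp only [pow_succ, pow_zero, one_mul, mul_assoc]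
      _ = 1 := h1
  have hdvd := orderOf_dvd_of_pow_eq_one h4
  have hle := Nat.le_of_dvd (by norm_num) hdvd
  omega

end Cfsg.Agent.S1176
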