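import Cfsg.Statements.S1177
import Mathlib
import Cfsg.Agent.Lib.Basic.Conj
-- import your own Cfsg.Agent.* helpers here

set_option autoImplicit false
open Cfsg

namespace Cfsg.Agent.S1177

/-- Let A be a nontrivial elementary abelian 2-subgroup of a finite group G which is a T.I. set (each conjugate of A meets A trivially or equals A) and which does not commute elementwise with any conjugate of A other than A itself. Then for every a ∈ A, a ≠ 1, every conjugate of A contained in C_G(a) is equal to A (A is weakly closed in C_G(a)). -/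
theorem result {G : Type*} [Group G] [Finite G] (A : Subgroup G) (hA : Cfsg.IsElementaryAbelian 2 A) (hA1 : A ≠ ⊥) (hTI : ∀ g : G, A.map (MulAut.conj g).toMonoidHom ⊓ A = ⊥ ∨ A.map (MulAut.conj g).toMonoidHom = A) (hb : ∀ g : G, (∀ a ∈ A, ∀ b ∈ A.map (MulAut.conj g).toMonoidHom, a * b = b * a) → A.map (MulAut.conj g).toMonoidHom = A) (a : G) (ha : a ∈ A) (ha1 : a ≠ 1) (g : G) (hg : A.map (MulAut.conj g).toMonoidHom ≤ Subgroup.centralizer ({a} : Set G)) : A.map (MulAut.conj g).toMonoidHom = A := by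
  classical
  have hmem : ∀ (h x : G), x ∈ A.map (MulAut.conj h).toMonoidHom ↔ h⁻¹ * x * h ∈ A :=
    fun h x => Cfsg.Agent.Lib.Basic.Conj.mem_map_conj_iff
  rcases hTI g with hdisj | heq
  swap
  · exact heq
  set B := A.map (MulAut.conj g).toMonoidHom with hB
  -- if a nontrivial element of `A` commutes with `h`, then `h` normalizes `A`
  have hstep : ∀ (h u : G), u ∈ A → u ≠ 1 → h * u = u * h → ∀ x ∈ A, h * x * h⁻¹ ∈ A := by
    intro h u hu hu1 hc x hx
    have hu' : u ∈ A.map (MulAut.conj h).toMonoidHom := by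
      rw [hmem]
      have : h⁻¹ * u * h = u := by
        calc h⁻¹ * u * h = h⁻¹ * (u * h) := by group
          _ = h⁻¹ * (h * u) := by rw [hc]
          _ = u := by group
      rw [this]
      exact hu
    rcases hTI h with h1 | h1
    · have : u ∈ A.map (MulAut.conj h).toMonoidHom ⊓ A := ⟨hu', hu⟩
      rw [h1, Subgroup.mem_bot] at this
      exact absurd this hu1
    · rw [← h1, hmem]
      have : h⁻¹ * (h * x * h⁻¹) * h = x := by group
      rwa [this]
  have hNA : ∀ b ∈ B, ∀ x ∈ A, b * x * b⁻¹ ∈ A := by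
    intro b hb x hx
    have hc : b * a = a * b := Subgroup.mem_centralizer_singleton_iff.mp (hg hb)
    exact hstep b a ha ha1 hc x hx
  apply hb g
  intro d hd b hbB
  by_cases hd1 : d = 1
  · rw [hd1]; simp
  -- `d` commutes with a nontrivial element of `B`
  have hex : ∃ c ∈ B, c ≠ 1 ∧ c * d = d * c := by
    by_contra hcon
    push Not at hcon
    -- injection of `B` into the nontrivial elements of `A`
    let φ : B → {x : A // x ≠ 1} := fun b' => ⟨⟨b'.1 * d * b'.1⁻¹, hNA b'.1 b'.2 d hd⟩, by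
      intro h1
      have h2 : b'.1 * d * b'.1⁻¹ = 1 := congrArg Subtype.val h1
      apply hd1
      have : d = b'.1⁻¹ * (b'.1 * d * b'.1⁻¹) * b'.1 := by group
      rw [this, h2]
      group⟩
    have hinj : Function.Injective φ := by
      intro b1 b2 h12
      have h1 : b1.1 * d * b1.1⁻¹ = b2.1 * d * b2.1⁻¹ :=
        congrArg (fun z : {x : A // x ≠ 1} => z.1.1) h12
      by_contra hne
      have hne' : b2.1⁻¹ * b1.1 ≠ 1 := by
        intro h2
        apply hne
        apply Subtype.ext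
        have : b1.1 = b2.1 * (b2.1⁻¹ * b1.1) := by group
        rw [this, h2, mul_one]
      refine hcon (b2.1⁻¹ * b1.1) (mul_mem (inv_mem b2.2) b1.2) hne' ?_
      calc b2.1⁻¹ * b1.1 * d = b2.1⁻¹ * (b1.1 * d * b1.1⁻¹) * b1.1 := by group
        _ = b2.1⁻¹ * (b2.1 * d * b2.1⁻¹) * b1.1 := by rw [h1]
        _ = d * (b2.1⁻¹ * b1.1) := by group
    have hle := Nat.card_le_card_of_injective φ hinj
    have hcardB : Nat.card B = Nat.card A := Cfsg.Agent.Lib.Basic.Conj.card_map_conj g A
    have hcardA : Nat.card {x : A // x ≠ 1} + 1 = Nat.card A := by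
      have := Fintype.ofFinite A
      rw [Nat.card_eq_fintype_card, Nat.card_eq_fintype_card, Fintype.card_subtype_compl]
      have h1 : 0 < Fintype.card A := Fintype.card_pos
      simp only [Fintype.card_unique]
      omega
    omega
  obtain ⟨c, hcB, hc1, hcd⟩ := hex
  -- `d` normalizes `B`
  have hdB : ∀ b' ∈ B, d * b' * d⁻¹ ∈ B := by
    intro b' hb'
    rw [hmem] at hcB hb' ⊢
    have hcne : g⁻¹ * c * g ≠ 1 := by
      intro h1
      apply hc1
      have : c = g * (g⁻¹ * c * g) * g⁻¹ := by group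
      rw [this, h1]
      group
    have hcomm : (g⁻¹ * d * g) * (g⁻¹ * c * g) = (g⁻¹ * c * g) * (g⁻¹ * d * g) := by
      calc (g⁻¹ * d * g) * (g⁻¹ * c * g) = g⁻¹ * (d * c) * g := by group
        _ = g⁻¹ * (c * d) * g := by rw [hcd]
        _ = (g⁻¹ * c * g) * (g⁻¹ * d * g) := by group
    have h1 := hstep (g⁻¹ * d * g) (g⁻¹ * c * g) hcB hcne hcomm (g⁻¹ * b' * g) hb'
    have e : g⁻¹ * (d * b' * d⁻¹) * g = (g⁻¹ * d * g) * (g⁻¹ * b' * g) * (g⁻¹ * d * g)⁻¹ := by group
    rw [e]
    exact h1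
  -- the commutator lies in `A ∩ B`
  have h1 : d * b * d⁻¹ * b⁻¹ ∈ B := mul_mem (hdB b hbB) (inv_mem hbB)
  have h2 : d * b * d⁻¹ * b⁻¹ ∈ A := by
    have := hNA b hbB d⁻¹ (inv_mem hd)
    have e : d * b * d⁻¹ * b⁻¹ = d * (b * d⁻¹ * b⁻¹) := by group
    rw [e]
    exact mul_mem hd this
  have h3 : d * b * d⁻¹ * b⁻¹ ∈ B ⊓ A := ⟨h1, h2⟩
  rw [hdisj, Subgroup.mem_bot] at h3
  calc d * b = d * b * d⁻¹ * b⁻¹ * (b * d) := by group
    _ = b * d := by rw [h3, one_mul]

end Cfsg.Agent.S1177
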