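import Cfsg.Statements.S1178
import Mathlib
-- import your own Cfsg.Agent.* helpers here

set_option autoImplicit false
open Cfsg

namespace Cfsg.Agent.S1178

/-- Let A be a subgroup of a Sylow 2-subgroup S of the finite group G which is weakly closed in S. If a conjugate g A g⁻¹ commutes elementwise with A, then g A g⁻¹ = A. -/
theorem result {G : Type*} [Group G] [Finite G] (S : Sylow 2 G) (A : Subgroup G) (hW : Cfsg.IsWeaklyClosed A (S : Subgroup G)) (g : G) (hc : ∀ a ∈ A, ∀ b ∈ A.map (MulAut.conj g).toMonoidHom, a * b = b * a) : A.map (MulAut.conj g).toMonoidHom = A := by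
  set B := A.map (MulAut.conj g).toMonoidHom with hBdef
  have hAS : IsPGroup 2 A := S.isPGroup'.to_le hW.1
  have hB : IsPGroup 2 B := hAS.map _
  have hAC : A ≤ Subgroup.centralizer (B : Set G) :=
    fun a ha => Subgroup.mem_centralizer_iff.mpr (fun b hb => (hc a ha b hb).symm)
  have hsup := IsPGroup.to_sup_of_normal_right' hAS hB (hAC.trans (Subgroup.centralizer_le_normalizer _))
  obtain ⟨T, hT⟩ := hsup.exists_le_sylow
  obtain ⟨h, hh⟩ := MulAction.exists_smul_eq G T S
  have hmem : ∀ x ∈ (A ⊔ B : Subgroup G), h * x * h⁻¹ ∈ (S : Subgroup G) := by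
    intro x hx
    have hxT : x ∈ (T : Subgroup G) := hT hx
    rw [← hh, Sylow.coe_subgroup_smul]
    exact ⟨x, hxT, rfl⟩
  have hA1 : A.map (MulAut.conj h).toMonoidHom = A := by
    apply hW.2
    rintro _ ⟨a, ha, rfl⟩
    exact hmem a (Subgroup.mem_sup_left ha)
  have hA2 : A.map (MulAut.conj (h * g)).toMonoidHom = A := by
    apply hW.2
    rintro _ ⟨a, ha, rfl⟩
    have := hmem (g * a * g⁻¹) (Subgroup.mem_sup_right ⟨a, ha, rfl⟩)
    simpa [mul_assoc] using this
  have hcomp : ∀ x y : G, (A.map (MulAut.conj x).toMonoidHom).map (MulAut.conj y).toMonoidHom = A.map (MulAut.conj (y * x)).toMonoidHom := by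
    intro x y
    rw [Subgroup.map_map]
    congr 1
    ext z
    simp [mul_assoc]
  have h3 : B.map (MulAut.conj h).toMonoidHom = A.map (MulAut.conj h).toMonoidHom := by
    rw [hBdef, hcomp, hA2, hA1]
  exact Subgroup.map_injective (MulAut.conj h).injective h3 |>.trans rfl

end Cfsg.Agent.S1178
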