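import Cfsg.Statements.S1180
import Cfsg.Agent.Lib.Basic.Isolated
import Mathlib

set_option autoImplicit false
open Cfsg

namespace Cfsg.Agent.S1180

open Cfsg.Agent.Lib.Basic.Isolated in
/-- If z is an isolated involution and H contains z, every G-conjugate of z in H is H-conjugate to z. -/
theorem result {G : Type*} [Group G] [Finite G] (z : G) (hz : Cfsg.IsIsolatedInvolution z) (H : Subgroup G) (hzH : z ∈ H) (g : G) (hg : g * z * g⁻¹ ∈ H) : ∃ h ∈ H, h * z * h⁻¹ = g * z * g⁻¹ := by
  obtain ⟨u, hu, -, -, hconj⟩ := exists_conj_power hz g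
  have hle : Subgroup.zpowers (g * z * g⁻¹ * z) ≤ H :=
    Subgroup.zpowers_le.mpr (H.mul_mem hg hzH)
  exact ⟨u, hle hu, hconj⟩

end Cfsg.Agent.S1180
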