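import Cfsg.Statements.S1181
import Cfsg.Agent.Lib.Basic.Isolated
import Mathlib

set_option autoImplicit false
open Cfsg

namespace Cfsg.Agent.S1181

open Cfsg.Agent.Lib.Basic.Isolated in
/-- If z is an isolated involution and N is normal not containing z, the centralizer of the image of z is the image of C(z), and the image of z is isolated. -/
theorem result {G : Type*} [Group G] [Finite G] (z : G) (hz : Cfsg.IsIsolatedInvolution z) (N : Subgroup G) [N.Normal] (hzN : z ∉ N) : Subgroup.centralizer ({(QuotientGroup.mk z : G ⧸ N)} : Set (G ⧸ N)) = (Subgroup.centralizer ({z} : Set G)).map (QuotientGroup.mk' N) ∧ Cfsg.IsIsolatedInvolution (QuotientGroup.mk z : G ⧸ N) := by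
  have hzz := mul_self_of_isolated hz
  have hzi := inv_of_isolated hz
  have hmk : ∀ a b : G, ((a : G ⧸ N) = (b : G ⧸ N)) ↔ a⁻¹ * b ∈ N := fun a b => QuotientGroup.eq
  have hmemC : ∀ c : G, c ∈ Subgroup.centralizer ({z} : Set G) ↔ c * z * c⁻¹ = z := by
    intro c
    rw [Subgroup.mem_centralizer_iff]
    constructor
    · intro h
      have := h z rfl
      rw [← this]; group
    · intro h y hy
      have hy' : y = z := hy
      rw [hy']
      calc z * c = (c * z * c⁻¹) * c := by rw [h]
        _ = c * z := by group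
  -- main step: if the image of `g z g⁻¹` equals the image of z, some power `u ∈ N`
  have hstep : ∀ g : G, g * z * g⁻¹ * z ∈ N → ∃ u ∈ N, u * z * u⁻¹ = g * z * g⁻¹ := by
    intro g hg
    obtain ⟨u, hu, -, -, hconj⟩ := exists_conj_power hz g
    exact ⟨u, (Subgroup.zpowers_le.mpr hg) hu, hconj⟩
  refine ⟨?_, ?_, ?_⟩
  · ext X
    constructor
    · intro hX
      obtain ⟨x, rfl⟩ := QuotientGroup.mk_surjective X
      have h1 := Subgroup.mem_centralizer_iff.mp hX (z : G ⧸ N) rfl
      have h2 : x * z * x⁻¹ * z ∈ N := by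
        have h3 : ((z * x : G) : G ⧸ N) = ((x * z : G) : G ⧸ N) := by
          rw [QuotientGroup.mk_mul, QuotientGroup.mk_mul]; exact h1
        have h4 := (hmk _ _).mp h3.symm
        have h5 : (x * z)⁻¹ * (z * x) = z⁻¹ * x⁻¹ * z * x := by group
        rw [h5, hzi] at h4
        have h6 : x * (z * x⁻¹ * z * x) * x⁻¹ = x * z * x⁻¹ * z := by group
        have := Subgroup.Normal.conj_mem inferInstance _ h4 x
        rwa [h6] at this
      obtain ⟨u, huN, hconj⟩ := hstep x h2
      refine ⟨u⁻¹ * x, ?_, ?_⟩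
      · rw [SetLike.mem_coe, hmemC]
        calc u⁻¹ * x * z * (u⁻¹ * x)⁻¹ = u⁻¹ * (x * z * x⁻¹) * u := by group
          _ = u⁻¹ * (u * z * u⁻¹) * u := by rw [hconj]
          _ = z := by group
      · show ((u⁻¹ * x : G) : G ⧸ N) = x
        rw [hmk]
        have : (u⁻¹ * x)⁻¹ * x = x⁻¹ * u * x := by group
        rw [this]
        have := Subgroup.Normal.conj_mem inferInstance u huN x⁻¹
        simpa using this
    · rintro ⟨c, hc, rfl⟩
      rw [Subgroup.mem_centralizer_iff]
      rintro _ rfl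
      have h1 : c * z * c⁻¹ = z := (hmemC c).mp hc
      have h2 : z * c = c * z := by
        calc z * c = (c * z * c⁻¹) * c := by rw [h1]
          _ = c * z := by group
      show ((z : G ⧸ N)) * ((c : G ⧸ N)) = (c : G ⧸ N) * (z : G ⧸ N)
      rw [← QuotientGroup.mk_mul, ← QuotientGroup.mk_mul, h2]
  · apply orderOf_eq_prime
    · rw [pow_two, ← QuotientGroup.mk_mul, hzz]; rfl
    · intro h
      apply hzN
      exact (QuotientGroup.eq_one_iff z).mp h
  · intro g
    obtain ⟨g, rfl⟩ := QuotientGroup.mk_surjective g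
    intro hc
    -- `(z t)^2 ∈ N` where `t = g z g⁻¹`
    have hs : g * z * g⁻¹ * z ∈ N := by
      have h1 : ((z * (g * z * g⁻¹) : G) : G ⧸ N) = (((g * z * g⁻¹) * z : G) : G ⧸ N) := by
        simp only [QuotientGroup.mk_mul, QuotientGroup.mk_inv]
        have : (z : G ⧸ N) * ((g : G ⧸ N) * (z : G ⧸ N) * (g : G ⧸ N)⁻¹) =
          ((g : G ⧸ N) * (z : G ⧸ N) * (g : G ⧸ N)⁻¹) * (z : G ⧸ N) := hc
        exact this
      have h2 := (hmk _ _).mp h1.symm
      set t := g * z * g⁻¹ with ht
      have htt : t * t = 1 := by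
        rw [ht]
        calc g * z * g⁻¹ * (g * z * g⁻¹) = g * (z * z) * g⁻¹ := by group
          _ = 1 := by rw [hzz]; group
      have hti : t⁻¹ = t := inv_eq_of_mul_eq_one_left htt
      have h3 : (t * z)⁻¹ * (z * t) = z * t * z * t := by
        rw [mul_inv_rev, hzi, hti]; group
      rw [h3] at h2
      -- `a = z t` has odd order and `a * a ∈ N`, so `a ∈ N`.
      have hodd := odd_orderOf_mul hz g
      rw [← ht] at hodd
      obtain ⟨m, hm⟩ := hodd
      have hsq : (t * z) * (t * z) ∈ N := by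
        have h4 : z⁻¹ * (z * t * z * t) * z = t * z * (t * z) := by group
        have := Subgroup.Normal.conj_mem inferInstance _ h2 z⁻¹
        simpa [h4, mul_assoc] using this
      have := eq_pow_sq_of_odd hm
      rw [← this]
      exact N.pow_mem hsq _
    obtain ⟨u, huN, hconj⟩ := hstep g hs
    show ((g : G ⧸ N) * (z : G ⧸ N) * (g : G ⧸ N)⁻¹) = (z : G ⧸ N)
    rw [← QuotientGroup.mk_inv, ← QuotientGroup.mk_mul, ← QuotientGroup.mk_mul, ← hconj]
    rw [hmk]
    have h5 : (u * z * u⁻¹)⁻¹ * z = u * z⁻¹ * u⁻¹ * z := by group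
    rw [h5, hzi]
    have h6 : u * z * u⁻¹ * z = u * (z * u⁻¹ * z⁻¹) := by rw [hzi]; group
    rw [h6]
    exact N.mul_mem huN (Subgroup.Normal.conj_mem inferInstance _ (N.inv_mem huN) z)

end Cfsg.Agent.S1181
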