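import Cfsg.Statements.S1182
import Cfsg.Agent.Lib.Basic.Isolated
import Mathlib

set_option autoImplicit false
open Cfsg

namespace Cfsg.Agent.S1182

open Cfsg.Agent.Lib.Basic.Isolated in
/-- If z is an isolated involution and H is z-invariant, then two elements of H ∩ C(z) conjugate in H are conjugate in H ∩ C(z). -/
theorem result {G : Type*} [Group G] [Finite G] (z : G) (hz : Cfsg.IsIsolatedInvolution z) (H : Subgroup G) (hzH : z ∈ Subgroup.normalizer (H : Set G)) (x y : G) (hx : x ∈ H) (hy : y ∈ H) (hxz : Commute x z) (hyz : Commute y z) (h : G) (hh : h ∈ H) (hconj : h * x * h⁻¹ = y) : ∃ c ∈ H, Commute c z ∧ c * x * c⁻¹ = y := by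
  have hzi := inv_of_isolated hz
  obtain ⟨u, hu, -, -, hconju⟩ := exists_conj_power hz h⁻¹
  rw [inv_inv] at hconju hu
  have hzhz : z * h * z ∈ H := by
    have := (Subgroup.mem_normalizer_iff.mp hzH h).mp hh
    rwa [hzi] at this
  have hmem : h⁻¹ * z * h * z ∈ H := by
    have := H.mul_mem (H.inv_mem hh) hzhz
    have h2 : h⁻¹ * (z * h * z) = h⁻¹ * z * h * z := by group
    rwa [h2] at this
  have hle : Subgroup.zpowers (h⁻¹ * z * h * z) ≤ H := Subgroup.zpowers_le.mpr hmem
  have hxt : Commute x (h⁻¹ * z * h) := by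
    have h1 : x = h⁻¹ * y * h := by rw [← hconj]; group
    show x * (h⁻¹ * z * h) = (h⁻¹ * z * h) * x
    rw [h1]
    have hyz' : y * z = z * y := hyz
    calc h⁻¹ * y * h * (h⁻¹ * z * h) = h⁻¹ * (y * z) * h := by group
      _ = h⁻¹ * (z * y) * h := by rw [hyz']
      _ = _ := by group
  have hxa : Commute x (h⁻¹ * z * h * z) := hxt.mul_right hxz
  have hxu : Commute x u := by
    obtain ⟨k, hk⟩ := hu
    show x * u = u * x
    rw [← hk]
    exact (hxa.zpow_right k)
  refine ⟨h * u, H.mul_mem hh (hle hu), ?_, ?_⟩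
  · have hcz : (h * u) * z * (h * u)⁻¹ = z := by
      calc (h * u) * z * (h * u)⁻¹ = h * (u * z * u⁻¹) * h⁻¹ := by group
        _ = h * (h⁻¹ * z * h) * h⁻¹ := by rw [hconju]
        _ = z := by group
    show (h * u) * z = z * (h * u)
    calc (h * u) * z = (h * u) * z * (h * u)⁻¹ * (h * u) := by group
      _ = z * (h * u) := by rw [hcz]
  · calc (h * u) * x * (h * u)⁻¹ = h * (u * x) * u⁻¹ * h⁻¹ := by group
      _ = h * (x * u) * u⁻¹ * h⁻¹ := by rw [hxu.eq]
      _ = h * x * h⁻¹ := by group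
      _ = y := hconj

end Cfsg.Agent.S1182
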