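import Cfsg.Statements.S1183
import Mathlib
import Cfsg.Agent.Lib.Basic.Isolated
import Cfsg.Agent.Lib.Transfer.Basic
import Cfsg.Agent.Lib.Transfer.SectionControl
import Cfsg.Agent.S1182
-- import your own Cfsg.Agent.* helpers here

set_option autoImplicit false
open Cfsg

namespace Cfsg.Agent.S1183

open Subgroup Cfsg.Agent.Lib.Transfer.Basic Cfsg.Agent.Lib.Basic.Isolated

variable {G : Type*} [Group G] [Finite G]

theorem mem_centralizer_iff_conj {z c : G} :
    c ∈ centralizer ({z} : Set G) ↔ c * z * c⁻¹ = z := by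
  rw [Subgroup.mem_centralizer_iff]
  constructor
  · intro h
    have := h z rfl
    rw [← this]; group
  · intro h y hy
    have hy' : y = z := hy
    rw [hy']
    calc z * c = (c * z * c⁻¹) * c := by rw [h]
      _ = c * z := by group

/-- The centralizer of an isolated involution has odd index. -/
theorem odd_index {z : G} (hz : Cfsg.IsIsolatedInvolution z) :
    Odd (centralizer ({z} : Set G)).index := by
  classical
  set C : Subgroup G := centralizer ({z} : Set G) with hC
  have hzC : ∀ a ∈ zpowers z, a ∈ C := by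
    intro a ha
    obtain ⟨k, rfl⟩ := ha
    rw [hC, Subgroup.mem_centralizer_iff]
    intro y hy
    have hy' : y = z := hy
    rw [hy']
    exact ((Commute.refl z).zpow_right k)
  have hp : IsPGroup 2 (zpowers z) := by
    apply IsPGroup.of_card (n := 1)
    rw [Nat.card_zpowers, hz.1, pow_one]
  haveI : Fact (Nat.Prime 2) := ⟨Nat.prime_two⟩
  have hmod := hp.card_modEq_card_fixedPoints (G ⧸ C)
  have hfix : Nat.card (MulAction.fixedPoints (zpowers z) (G ⧸ C)) = 1 := by
    rw [Nat.card_eq_one_iff_unique]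
    refine ⟨⟨?_⟩, ⟨⟨((1 : G) : G ⧸ C), ?_⟩⟩⟩
    · rintro ⟨q, hq⟩ ⟨q', hq'⟩
      have key : ∀ q : G ⧸ C, q ∈ MulAction.fixedPoints (zpowers z) (G ⧸ C) → q = ((1 : G) : G ⧸ C) := by
        intro q hq
        obtain ⟨g, rfl⟩ := QuotientGroup.mk_surjective q
        have h1 := hq ⟨z, mem_zpowers z⟩
        have h2 : ((z * g : G) : G ⧸ C) = (g : G ⧸ C) := h1
        rw [eq_comm, QuotientGroup.eq] at h2
        have h3 : (g⁻¹ * (z * g)) * z = z * (g⁻¹ * (z * g)) :=
          (Subgroup.mem_centralizer_iff.mp h2 z rfl).symm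
        have h4 := hz.2 g⁻¹ (by
          show z * (g⁻¹ * z * g⁻¹⁻¹) = (g⁻¹ * z * g⁻¹⁻¹) * z
          simpa [mul_assoc] using h3.symm)
        rw [eq_comm, QuotientGroup.eq, inv_one, one_mul]
        exact mem_centralizer_iff_conj.mpr (by
          have h5 : g⁻¹ * z * g = z := by simpa using h4
          calc g * z * g⁻¹ = g * (g⁻¹ * z * g) * g⁻¹ := by rw [h5]
            _ = z := by group)
      exact Subtype.ext ((key q hq).trans (key q' hq').symm)
    · rintro ⟨a, ha⟩
      show ((a * 1 : G) : G ⧸ C) = ((1 : G) : G ⧸ C)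
      rw [QuotientGroup.eq]
      simpa using C.inv_mem (hzC a ha)
  rw [hfix] at hmod
  have hcard : Nat.card (G ⧸ C) = C.index := rfl
  rw [hcard] at hmod
  exact Nat.odd_iff.mpr (by simpa [Nat.ModEq] using hmod)

/-- Let z be an isolated involution of the finite group G and C = C_G(z). Then the subgroup of G generated by its elements of odd order is all of G if and only if the subgroup of C generated by its elements of odd order is all of C. -/
theorem result {G : Type*} [Group G] [Finite G] (z : G) (hz : Cfsg.IsIsolatedInvolution z) : Cfsg.pResidual 2 G = ⊤ ↔ Cfsg.pResidual 2 ↥(Subgroup.centralizer ({z} : Set G)) = ⊤ := by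
  classical
  haveI : Fact (Nat.Prime 2) := ⟨Nat.prime_two⟩
  set C : Subgroup G := centralizer ({z} : Set G) with hC
  constructor
  · intro hG
    by_contra hne
    obtain ⟨N, hN, hi⟩ := Cfsg.Agent.Lib.Transfer.SectionControl.exists_normal_index_of_quotient
      (Cfsg.pResidual 2 C) hne (isPGroup_quotient_pResidual)
    haveI := hN
    have hcard : Nat.card (C ⧸ N) = 2 := hi
    haveI : Fact (Nat.card (C ⧸ N)).Prime := ⟨hcard ▸ Nat.prime_two⟩
    haveI : IsCyclic (C ⧸ N) := isCyclic_of_prime_card rfl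
    letI : CommGroup (C ⧸ N) := IsCyclic.commGroup
    let φ : C →* C ⧸ N := QuotientGroup.mk' N
    have hAp : IsPGroup 2 (C ⧸ N) := IsPGroup.of_card (n := 1) (by rw [hcard, pow_one])
    have hV : ∀ x : G, MonoidHom.transfer φ x = 1 := fun x =>
      pResidual_le_ker hAp (MonoidHom.transfer φ) (hG ▸ mem_top x)
    have hform : ∀ x : C, MonoidHom.transfer φ (x : G) = φ x ^ C.index := by
      intro x
      apply transfer_eq_pow_of_fusion
      intro k g₀ h
      have hxz : Commute ((x : G) ^ k) z := by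
        have : ((x : G) ^ k) ∈ C := C.pow_mem x.2 k
        exact (Subgroup.mem_centralizer_iff.mp this z rfl).symm
      have hyz : Commute (g₀⁻¹ * (x : G) ^ k * g₀) z :=
        (Subgroup.mem_centralizer_iff.mp h z rfl).symm
      obtain ⟨c, -, hcz, hc⟩ := Cfsg.Agent.S1182.result z hz ⊤ (by rw [Subgroup.mem_normalizer_iff]; intro y; simp)
        ((x : G) ^ k) (g₀⁻¹ * (x : G) ^ k * g₀) (mem_top _) (mem_top _) hxz hyz g₀⁻¹ (mem_top _)
        (by simp)
      have hcC : c ∈ C := Subgroup.mem_centralizer_iff.mpr (by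
        intro y hy
        have hy' : y = z := hy
        rw [hy']
        exact hcz.symm)
      have e : (⟨_, h⟩ : C) = ⟨c, hcC⟩ * x ^ k * ⟨c, hcC⟩⁻¹ := by
        apply Subtype.ext
        show g₀⁻¹ * (x : G) ^ k * g₀ = c * (x : G) ^ k * c⁻¹
        exact hc.symm
      rw [e, map_mul, map_mul, map_inv, map_pow, mul_comm (φ ⟨c, hcC⟩), mul_assoc, mul_inv_cancel, mul_one]
    have hodd := odd_index hz
    have hall : ∀ x : C ⧸ N, x = 1 := by
      intro y
      obtain ⟨x, rfl⟩ := QuotientGroup.mk_surjective y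
      have h1 : φ x ^ C.index = 1 := by rw [← hform, hV]
      have h2 : φ x ^ 2 = 1 := by
        have := pow_card_eq_one' (G := C ⧸ N) (x := φ x)
        rwa [hcard] at this
      have h4 : orderOf (φ x) ∣ Nat.gcd C.index 2 :=
        Nat.dvd_gcd (orderOf_dvd_of_pow_eq_one h1) (orderOf_dvd_of_pow_eq_one h2)
      rw [(Nat.coprime_two_right).mpr hodd, Nat.dvd_one, orderOf_eq_one_iff] at h4
      exact h4
    have : Nat.card (C ⧸ N) = 1 := Nat.card_eq_one_iff_unique.mpr ⟨⟨fun a b => (hall a).trans (hall b).symm⟩, ⟨1⟩⟩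
    omega
  · intro hCtop
    rw [eq_top_iff]
    intro g _
    obtain ⟨u, -, hodd, -, hconj⟩ := exists_conj_power hz g
    have hCle : ∀ c : C, (c : G) ∈ Cfsg.pResidual 2 G := by
      intro c
      have hc : c ∈ Cfsg.pResidual 2 C := hCtop ▸ mem_top c
      have hle : (Cfsg.pResidual 2 C).map C.subtype ≤ Cfsg.pResidual 2 G := by
        rw [Cfsg.pResidual, MonoidHom.map_closure, closure_le]
        rintro _ ⟨x, hx, rfl⟩
        apply Subgroup.subset_closure
        show Nat.Coprime _ _
        have := hx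
        simp only [Set.mem_ofPred_eq] at this
        rwa [Subgroup.coe_subtype, Subgroup.orderOf_coe]
      exact hle ⟨c, hc, rfl⟩
    have hu : u ∈ Cfsg.pResidual 2 G := by
      apply Subgroup.subset_closure
      show Nat.Coprime _ _
      exact (Nat.coprime_two_right).mpr hodd
    have hcu : u⁻¹ * g ∈ C := mem_centralizer_iff_conj.mpr (by
      calc u⁻¹ * g * z * (u⁻¹ * g)⁻¹ = u⁻¹ * (g * z * g⁻¹) * u := by group
        _ = u⁻¹ * (u * z * u⁻¹) * u := by rw [hconj]
        _ = z := by group)
    have e : g = u * (u⁻¹ * g) := by group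
    rw [e]
    exact (Cfsg.pResidual 2 G).mul_mem hu (hCle ⟨_, hcu⟩)

end Cfsg.Agent.S1183
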