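import Cfsg.Statements.S1184
import Cfsg.Agent.Lib.Basic.Isolated
import Mathlib

set_option autoImplicit false
open Cfsg

namespace Cfsg.Agent.S1184

open Cfsg.Agent.Lib.Basic.Isolated in
/-- If z is an isolated involution, the product of two distinct conjugates of z never commutes with z. -/
theorem result {G : Type*} [Group G] [Finite G] (z : G) (hz : Cfsg.IsIsolatedInvolution z) (g h : G) (hne : g * z * g⁻¹ ≠ h * z * h⁻¹) : ¬ Commute (g * z * g⁻¹ * (h * z * h⁻¹)) z := by
  intro hc
  have hzz := mul_self_of_isolated hz
  have h1 := odd_orderOf_mul hz g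
  have h2 := odd_orderOf_mul hz h
  set s := g * z * g⁻¹ with hs
  set t := h * z * h⁻¹ with ht
  have hss : s * s = 1 := by
    rw [hs]
    calc g * z * g⁻¹ * (g * z * g⁻¹) = g * (z * z) * g⁻¹ := by group
      _ = 1 := by rw [hzz]; group
  have htt : t * t = 1 := by
    rw [ht]
    calc h * z * h⁻¹ * (h * z * h⁻¹) = h * (z * z) * h⁻¹ := by group
      _ = 1 := by rw [hzz]; group
  have hc' : s * t * z = z * s * t := by
    have : s * t * z = z * (s * t) := hc
    rw [this]; group
  have hsq : s * z * (s * z) = t * z * (t * z) := by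
    calc s * z * (s * z) = s * z * s * (t * t) * z := by rw [htt]; group
      _ = s * (z * s * t) * t * z := by group
      _ = s * (s * t * z) * t * z := by rw [← hc']
      _ = (s * s) * t * z * t * z := by group
      _ = t * z * (t * z) := by rw [hss]; group
  have heq := eq_of_sq_eq_of_odd h1 h2 hsq
  exact hne (mul_right_cancel heq)

end Cfsg.Agent.S1184
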