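import Cfsg.Statements.S1185
import Cfsg.Agent.Lib.Basic.Isolated
import Mathlib

set_option autoImplicit false
open Cfsg

namespace Cfsg.Agent.S1185

open Cfsg.Agent.Lib.Basic.Isolated in
/-- If z is an isolated involution with centralizer C, every coset of C contains exactly one element of odd order inverted by z. -/
theorem result {G : Type*} [Group G] [Finite G] (z : G) (hz : Cfsg.IsIsolatedInvolution z) (g : G) : ∃! k : G, (Odd (orderOf k) ∧ z * k * z⁻¹ = k⁻¹) ∧ g⁻¹ * k ∈ Subgroup.centralizer ({z} : Set G) := by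
  have hzz := mul_self_of_isolated hz
  have hzi := inv_of_isolated hz
  have hmemC : ∀ c : G, c ∈ Subgroup.centralizer ({z} : Set G) ↔ c * z * c⁻¹ = z := by
    intro c
    rw [Subgroup.mem_centralizer_iff]
    constructor
    · intro h
      have := h z rfl
      rw [← this]; group
    · intro h y hy
      have hy' : y = z := hy
      rw [hy']
      calc z * c = (c * z * c⁻¹) * c := by rw [h]
        _ = c * z := by group
  obtain ⟨u, -, hodd, hinv, hconj⟩ := exists_conj_power hz g
  refine ⟨u, ⟨⟨hodd, hinv⟩, ?_⟩, ?_⟩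
  · rw [hmemC]
    calc g⁻¹ * u * z * (g⁻¹ * u)⁻¹ = g⁻¹ * (u * z * u⁻¹) * g := by group
      _ = g⁻¹ * (g * z * g⁻¹) * g := by rw [hconj]
      _ = z := by group
  · rintro k ⟨⟨hkodd, hkinv⟩, hkC⟩
    rw [hmemC] at hkC
    have hk2 : k * z * k⁻¹ = g * z * g⁻¹ := by
      calc k * z * k⁻¹ = g * (g⁻¹ * k * z * (g⁻¹ * k)⁻¹) * g⁻¹ := by group
        _ = g * z * g⁻¹ := by rw [hkC]
    -- for `v` inverted by `z`: `v z v⁻¹ = v v z`
    have hform : ∀ v : G, z * v * z⁻¹ = v⁻¹ → v * z * v⁻¹ = v * v * z := by
      intro v hv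
      rw [hzi] at hv
      have h2 : z * v⁻¹ = v * z := by
        rw [← hv]
        calc z * (z * v * z) = (z * z) * v * z := by group
          _ = v * z := by rw [hzz, one_mul]
      calc v * z * v⁻¹ = v * (z * v⁻¹) := by group
        _ = v * (v * z) := by rw [h2]
        _ = v * v * z := by group
    have hsq : k * k = u * u := by
      have h3 : k * k * z = u * u * z := by
        rw [← hform k hkinv, ← hform u hinv, hk2, hconj]
      exact mul_right_cancel h3
    exact eq_of_sq_eq_of_odd hkodd hodd hsq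

end Cfsg.Agent.S1185
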