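import Cfsg.Statements.S1186
import Mathlib
import Cfsg.Agent.Lib.Basic.Isolated
-- import your own Cfsg.Agent.* helpers here

set_option autoImplicit false
open Cfsg

namespace Cfsg.Agent.S1186

open Cfsg.Agent.Lib.Basic.Isolated

section aux

variable {G : Type*} [Group G]

theorem orderOf_conj' (x y : G) : orderOf (x * y * x⁻¹) = orderOf y :=
  orderOf_injective (MulAut.conj x).toMonoidHom (MulAut.conj x).injective y

theorem odd_of_dvd' {x y : G} (h : orderOf y ∣ orderOf x) (hx : Odd (orderOf x)) :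
    Odd (orderOf y) := hx.of_dvd_nat h

/-- fourth powers are injective on elements of odd order -/
theorem fourth_eq {x y : G} (hx : Odd (orderOf x)) (hy : Odd (orderOf y)) (h : x ^ 4 = y ^ 4) :
    x = y := by
  have hx2 : Odd (orderOf (x * x)) := by
    rw [← pow_two]
    exact odd_of_dvd' (orderOf_pow_dvd 2) hx
  have hy2 : Odd (orderOf (y * y)) := by
    rw [← pow_two]
    exact odd_of_dvd' (orderOf_pow_dvd 2) hy
  apply eq_of_sq_eq_of_odd hx hy
  apply eq_of_sq_eq_of_odd hx2 hy2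
  calc x * x * (x * x) = x ^ 4 := by simp only [pow_succ, pow_zero, one_mul, mul_assoc]
    _ = y ^ 4 := h
    _ = y * y * (y * y) := by simp only [pow_succ, pow_zero, one_mul, mul_assoc]

theorem exists_fourth_root (m : G) (hm : Odd (orderOf m)) : ∃ e : ℕ, (m ^ e) ^ 4 = m := by
  obtain ⟨j, hj⟩ := hm
  refine ⟨(j + 1) ^ 2, ?_⟩
  rw [← pow_mul]
  have h1 : (j + 1) ^ 2 * 4 = orderOf m * (orderOf m + 2) + 1 := by
    rw [hj]
    ring
  rw [h1, pow_succ, pow_mul, pow_orderOf_eq_one, one_pow, one_mul]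

/-- The main computation. -/
theorem tau_formula {a b z s : G} (hzz : z * z = 1)
    (hsa : s * a * s⁻¹ = a) (hsb : s * b * s⁻¹ = b⁻¹) (hsz : s * z * s⁻¹ = z)
    (hzb : z * b * z⁻¹ = b⁻¹) :
    ((a * b) * z * (a * b)⁻¹) * (s * ((a * b) * z * (a * b)⁻¹) * s⁻¹) = (a * b * a⁻¹) ^ 4 := by
  have h1 : s * ((a * b) * z * (a * b)⁻¹) * s⁻¹ = (a * b⁻¹) * z * (a * b⁻¹)⁻¹ := by
    calc s * ((a * b) * z * (a * b)⁻¹) * s⁻¹
        = (s * a * s⁻¹) * (s * b * s⁻¹) * (s * z * s⁻¹) * (s * b * s⁻¹)⁻¹ * (s * a * s⁻¹)⁻¹ := by group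
      _ = _ := by rw [hsa, hsb, hsz]; group
  have h2 : z * b⁻¹ * z⁻¹ = b := by
    calc z * b⁻¹ * z⁻¹ = (z * b * z⁻¹)⁻¹ := by group
      _ = b := by rw [hzb, inv_inv]
  rw [h1, conj_pow]
  calc (a * b) * z * (a * b)⁻¹ * ((a * b⁻¹) * z * (a * b⁻¹)⁻¹)
      = a * b * (z * b⁻¹ * z⁻¹) * (z * b⁻¹ * z⁻¹) * (z * z) * b * a⁻¹ := by group
    _ = a * b * b * b * 1 * b * a⁻¹ := by rw [h2, hzz]
    _ = a * b ^ 4 * a⁻¹ := by simp only [pow_succ, pow_zero, one_mul, mul_one, mul_assoc]

end aux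

/-- Let z be an isolated involution of the finite group G, C = C_G(z), K the set of elements of odd order inverted by z, and s an involution of C. Then |G| = |C| · |C_K(sz)| · |C_K(s)|. -/
theorem result {G : Type*} [Group G] [Finite G] (z : G) (hz : Cfsg.IsIsolatedInvolution z) (s : G) (hs : orderOf s = 2) (hsz : Commute s z) : Nat.card G = Nat.card (Subgroup.centralizer ({z} : Set G)) * Nat.card {k : G // Odd (orderOf k) ∧ z * k * z⁻¹ = k⁻¹ ∧ Commute k (s * z)} * Nat.card {k : G // Odd (orderOf k) ∧ z * k * z⁻¹ = k⁻¹ ∧ Commute k s} := by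
  classical
  have hzz := mul_self_of_isolated hz
  have hzi := inv_of_isolated hz
  have hss : s * s = 1 := by
    have := pow_orderOf_eq_one s
    rwa [hs, pow_two] at this
  have hsi : s⁻¹ = s := inv_eq_of_mul_eq_one_left hss
  have hc : s * z = z * s := hsz
  have hsz' : s * z * s⁻¹ = z := by rw [hc]; group
  have hCmem : ∀ c : G, c ∈ Subgroup.centralizer ({z} : Set G) ↔ c * z * c⁻¹ = z := by
    intro c
    rw [Subgroup.mem_centralizer_iff]
    constructor
    · intro h
      have := h z rfl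
      rw [← this]
      group
    · intro h y hy
      have hy' : y = z := hy
      rw [hy']
      calc z * c = (c * z * c⁻¹) * c := by rw [h]
        _ = c * z := by group
  have hBs : ∀ b : G, z * b * z⁻¹ = b⁻¹ → Commute b (s * z) → s * b * s⁻¹ = b⁻¹ := by
    intro b hb hcomm
    have h1 : b * (s * z) = (s * z) * b := hcomm
    calc s * b * s⁻¹ = s * (b * (s * z)) * z⁻¹ * (s * s)⁻¹ := by group
      _ = s * ((s * z) * b) * z⁻¹ * (s * s)⁻¹ := by rw [h1]
      _ = (s * s) * (z * b * z⁻¹) * (s * s)⁻¹ := by group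
      _ = b⁻¹ := by rw [hss, hb]; group
  have hBs' : ∀ b : G, z * b * z⁻¹ = b⁻¹ → s * b * s⁻¹ = b⁻¹ → Commute b (s * z) := by
    intro b hb hsb
    have h1 : (s * z) * b * (s * z)⁻¹ = b := by
      calc (s * z) * b * (s * z)⁻¹ = s * (z * b * z⁻¹) * s⁻¹ := by group
        _ = s * b⁻¹ * s⁻¹ := by rw [hb]
        _ = (s * b * s⁻¹)⁻¹ := by group
        _ = b := by rw [hsb, inv_inv]
    show b * (s * z) = (s * z) * b
    calc b * (s * z) = ((s * z) * b * (s * z)⁻¹) * (s * z) := by rw [h1]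
      _ = (s * z) * b := by group
  let A := {k : G // Odd (orderOf k) ∧ z * k * z⁻¹ = k⁻¹ ∧ Commute k s}
  let B := {k : G // Odd (orderOf k) ∧ z * k * z⁻¹ = k⁻¹ ∧ Commute k (s * z)}
  let C := ↥(Subgroup.centralizer ({z} : Set G))
  let Ψ : C × B × A → G := fun p => p.2.2.1 * p.2.1.1 * p.1.1
  have hinj : Function.Injective Ψ := by
    rintro ⟨⟨c, hcC⟩, ⟨b, hb1, hb2, hb3⟩, ⟨a, ha1, ha2, ha3⟩⟩
      ⟨⟨c', hcC'⟩, ⟨b', hb1', hb2', hb3'⟩, ⟨a', ha1', ha2', ha3'⟩⟩ heq
    have heq' : a * b * c = a' * b' * c' := heq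
    have hcz : c * z * c⁻¹ = z := (hCmem c).mp hcC
    have hcz' : c' * z * c'⁻¹ = z := (hCmem c').mp hcC'
    have ht : (a * b) * z * (a * b)⁻¹ = (a' * b') * z * (a' * b')⁻¹ := by
      calc (a * b) * z * (a * b)⁻¹ = (a * b) * (c * z * c⁻¹) * (a * b)⁻¹ := by rw [hcz]
        _ = (a * b * c) * z * (a * b * c)⁻¹ := by group
        _ = (a' * b' * c') * z * (a' * b' * c')⁻¹ := by rw [heq']
        _ = (a' * b') * (c' * z * c'⁻¹) * (a' * b')⁻¹ := by group
        _ = _ := by rw [hcz']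
    have hsa : s * a * s⁻¹ = a := by
      have : a * s = s * a := ha3
      rw [← this]
      group
    have hsa' : s * a' * s⁻¹ = a' := by
      have : a' * s = s * a' := ha3'
      rw [← this]
      group
    have h1 := tau_formula hzz hsa (hBs b hb2 hb3) hsz' hb2
    have h2 := tau_formula hzz hsa' (hBs b' hb2' hb3') hsz' hb2'
    rw [ht] at h1
    have h3 : (a * b * a⁻¹) ^ 4 = (a' * b' * a'⁻¹) ^ 4 := h1.symm.trans h2
    have hd1 : Odd (orderOf (a * b * a⁻¹)) := by rw [orderOf_conj']; exact hb1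
    have hd2 : Odd (orderOf (a' * b' * a'⁻¹)) := by rw [orderOf_conj']; exact hb1'
    have hd := fourth_eq hd1 hd2 h3
    have hzc : a * z * a⁻¹ = a' * z * a'⁻¹ := by
      calc a * z * a⁻¹ = (a * b * a⁻¹)⁻¹ * ((a * b) * z * (a * b)⁻¹) * (a * b * a⁻¹) := by group
        _ = (a' * b' * a'⁻¹)⁻¹ * ((a' * b') * z * (a' * b')⁻¹) * (a' * b' * a'⁻¹) := by rw [hd, ht]
        _ = _ := by group
    have hform : ∀ v : G, z * v * z⁻¹ = v⁻¹ → v * z * v⁻¹ = v * v * z := by
      intro v hv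
      rw [hzi] at hv
      have h2 : z * v⁻¹ = v * z := by
        rw [← hv]
        calc z * (z * v * z) = (z * z) * v * z := by group
          _ = v * z := by rw [hzz, one_mul]
      calc v * z * v⁻¹ = v * (z * v⁻¹) := by group
        _ = v * (v * z) := by rw [h2]
        _ = v * v * z := by group
    have hsq : a * a = a' * a' := by
      have h4 : a * a * z = a' * a' * z := by
        rw [← hform a ha2, ← hform a' ha2', hzc]
      exact mul_right_cancel h4
    have haa : a = a' := eq_of_sq_eq_of_odd ha1 ha1' hsq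
    subst haa
    have hbb : b = b' := by
      have : a * b = a * b' := mul_right_cancel hd
      exact mul_left_cancel this
    subst hbb
    have hcc : c = c' := mul_left_cancel heq'
    subst hcc
    rfl
  have hsurj : Function.Surjective Ψ := by
    intro g
    let t := g * z * g⁻¹
    let m := t * (s * t * s⁻¹)
    have htt : t * t = 1 := by
      show g * z * g⁻¹ * (g * z * g⁻¹) = 1
      calc g * z * g⁻¹ * (g * z * g⁻¹) = g * (z * z) * g⁻¹ := by group
        _ = 1 := by rw [hzz]; group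
    have hti : t⁻¹ = t := inv_eq_of_mul_eq_one_left htt
    have hsts : s * t * s⁻¹ = (s * g) * z * (s * g)⁻¹ := by
      show s * (g * z * g⁻¹) * s⁻¹ = _
      group
    have hmodd : Odd (orderOf m) := by
      have h1 := odd_orderOf_mul hz (g⁻¹ * (s * g))
      have h2 : m = g * ((g⁻¹ * (s * g)) * z * (g⁻¹ * (s * g))⁻¹ * z)⁻¹ * g⁻¹ := by
        show t * (s * t * s⁻¹) = _
        rw [hsts]
        show g * z * g⁻¹ * ((s * g) * z * (s * g)⁻¹) = _
        have h3 : ((g⁻¹ * (s * g)) * z * (g⁻¹ * (s * g))⁻¹ * z)⁻¹ = z * ((g⁻¹ * (s * g)) * z * (g⁻¹ * (s * g))⁻¹) := by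
          calc _ = z⁻¹ * ((g⁻¹ * (s * g)) * z⁻¹ * (g⁻¹ * (s * g))⁻¹) := by group
            _ = _ := by rw [hzi]
        rw [h3]
        group
      rw [h2, orderOf_conj', orderOf_inv]
      exact h1
    obtain ⟨e, he⟩ := exists_fourth_root m hmodd
    let d := m ^ e
    have hdodd : Odd (orderOf d) := odd_of_dvd' (orderOf_pow_dvd e) hmodd
    have hd4 : d ^ 4 = m := he
    -- involutions invert `m`
    have hTT : (s * t * s⁻¹) * (s * t * s⁻¹) = 1 := by
      calc (s * t * s⁻¹) * (s * t * s⁻¹) = s * (t * t) * s⁻¹ := by group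
        _ = 1 := by rw [htt]; group
    have hTi : (s * t * s⁻¹)⁻¹ = s * t * s⁻¹ := inv_eq_of_mul_eq_one_left hTT
    have hminv : m⁻¹ = (s * t * s⁻¹) * t := by
      show (t * (s * t * s⁻¹))⁻¹ = _
      rw [mul_inv_rev, hTi, hti]
    have htm : t * m * t = m⁻¹ := by
      rw [hminv]
      show t * (t * (s * t * s⁻¹)) * t = _
      rw [← mul_assoc t t, htt, one_mul]
    have hsm : s * m * s = m⁻¹ := by
      rw [hminv]
      show s * (t * (s * t * s⁻¹)) * s = _
      calc s * (t * (s * t * s⁻¹)) * s = s * t * s * t := by group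
        _ = s * t * s⁻¹ * t := by rw [hsi]
    have htd : t * d * t = d⁻¹ := conj_pow_inv htt htm e
    have hsd : s * d * s = d⁻¹ := conj_pow_inv hss hsm e
    have hsd' : s * d * s⁻¹ = d⁻¹ := by rw [hsi]; exact hsd
    have htd' : t * d = d⁻¹ * t := by
      calc t * d = t * d * (t * t) := by rw [htt, mul_one]
        _ = (t * d * t) * t := by group
        _ = d⁻¹ * t := by rw [htd]
    -- `t'`
    let t' := d⁻¹ * t * d
    have hT : s * t * s⁻¹ = t * d ^ 4 := by
      rw [hd4]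
      have h0 : t * m = s * t * s⁻¹ := by
        show t * (t * (s * t * s⁻¹)) = _
        rw [← mul_assoc t t, htt, one_mul]
      exact h0.symm
    have ht's : s * t' * s⁻¹ = t' := by
      show s * (d⁻¹ * t * d) * s⁻¹ = d⁻¹ * t * d
      calc s * (d⁻¹ * t * d) * s⁻¹ = (s * d * s⁻¹)⁻¹ * (s * t * s⁻¹) * (s * d * s⁻¹) := by group
        _ = d * (s * t * s⁻¹) * d⁻¹ := by rw [hsd', inv_inv]
        _ = d * (t * d ^ 4) * d⁻¹ := by rw [hT]
        _ = d * (t * d) * d * d := by
            simp only [pow_succ, pow_zero, one_mul]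
            group
        _ = d * (d⁻¹ * t) * d * d := by rw [htd']
        _ = (t * d) * d := by group
        _ = (d⁻¹ * t) * d := by rw [htd']
    obtain ⟨a, haz, ha1, ha2, ha3⟩ := exists_conj_power hz (d⁻¹ * g)
    have ha3' : a * z * a⁻¹ = t' := by
      rw [ha3]
      show _ = d⁻¹ * (g * z * g⁻¹) * d
      group
    have hcomm_t's : Commute t' s := by
      show t' * s = s * t'
      calc t' * s = (s * t' * s⁻¹) * s := by rw [ht's]
        _ = s * t' := by group
    have hcomm_zs : Commute z s := hc.symm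
    have hcomm_as : Commute a s := by
      obtain ⟨i, rfl⟩ := Subgroup.mem_zpowers_iff.mp haz
      have h1 : (d⁻¹ * g) * z * (d⁻¹ * g)⁻¹ = t' := by
        rw [← ha3, ha3']
      rw [h1]
      exact (hcomm_t's.mul_left hcomm_zs).zpow_left i
    have hsa : s * a * s⁻¹ = a := by
      have : a * s = s * a := hcomm_as
      rw [← this]
      group
    let b := a⁻¹ * d * a
    have hb1 : Odd (orderOf b) := by
      have h1 : b = a⁻¹ * d * (a⁻¹)⁻¹ := by
        show a⁻¹ * d * a = _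
        group
      rw [h1, orderOf_conj']
      exact hdodd
    have hz_a : z = a⁻¹ * t' * a := by
      rw [← ha3']
      group
    have ht'd : t' * d * t'⁻¹ = d⁻¹ := by
      show (d⁻¹ * t * d) * d * (d⁻¹ * t * d)⁻¹ = d⁻¹
      have h1 : t * d * t⁻¹ = d⁻¹ := by rw [hti]; exact htd
      calc (d⁻¹ * t * d) * d * (d⁻¹ * t * d)⁻¹ = d⁻¹ * (t * d * t⁻¹) * d := by group
        _ = d⁻¹ * d⁻¹ * d := by rw [h1]
        _ = d⁻¹ := by group
    have hb2 : z * b * z⁻¹ = b⁻¹ := by
      calc z * b * z⁻¹ = a⁻¹ * (t' * d * t'⁻¹) * a := by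
            rw [hz_a]
            show (a⁻¹ * t' * a) * (a⁻¹ * d * a) * (a⁻¹ * t' * a)⁻¹ = _
            group
        _ = a⁻¹ * d⁻¹ * a := by rw [ht'd]
        _ = b⁻¹ := by
            show _ = (a⁻¹ * d * a)⁻¹
            group
    have hb3 : s * b * s⁻¹ = b⁻¹ := by
      calc s * b * s⁻¹ = (s * a * s⁻¹)⁻¹ * (s * d * s⁻¹) * (s * a * s⁻¹) := by
            show s * (a⁻¹ * d * a) * s⁻¹ = _
            group
        _ = a⁻¹ * d⁻¹ * a := by rw [hsa, hsd']
        _ = b⁻¹ := by
            show _ = (a⁻¹ * d * a)⁻¹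
            group
    have hcC : (a * b)⁻¹ * g ∈ Subgroup.centralizer ({z} : Set G) := by
      rw [hCmem]
      have h1 : (a * b) * z * (a * b)⁻¹ = t := by
        calc (a * b) * z * (a * b)⁻¹ = d * (a * z * a⁻¹) * d⁻¹ := by
              show (a * (a⁻¹ * d * a)) * z * (a * (a⁻¹ * d * a))⁻¹ = _
              group
          _ = d * t' * d⁻¹ := by rw [ha3']
          _ = t := by
              show d * (d⁻¹ * t * d) * d⁻¹ = t
              group
      calc (a * b)⁻¹ * g * z * ((a * b)⁻¹ * g)⁻¹ = (a * b)⁻¹ * (g * z * g⁻¹) * (a * b) := by group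
        _ = (a * b)⁻¹ * ((a * b) * z * (a * b)⁻¹) * (a * b) := by rw [h1]
        _ = z := by group
    refine ⟨(⟨_, hcC⟩, ⟨b, hb1, hb2, hBs' b hb2 hb3⟩, ⟨a, ha1, ha2, hcomm_as⟩), ?_⟩
    show a * b * ((a * b)⁻¹ * g) = g
    group
  have := Nat.card_congr (Equiv.ofBijective Ψ ⟨hinj, hsurj⟩)
  rw [Nat.card_prod, Nat.card_prod] at this
  rw [← this, mul_assoc]

end Cfsg.Agent.S1186
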