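import Cfsg.Statements.S1231
import Mathlib
-- import your own Cfsg.Agent.* helpers here

set_option autoImplicit false
open Cfsg

namespace Cfsg.Agent.S1231

lemma mem_conjMap {G : Type*} [Group G] (Q : Subgroup G) (g y : G) :
    y ∈ Q.map (MulAut.conj g).toMonoidHom ↔ g⁻¹ * y * g ∈ Q := by
  rw [Subgroup.mem_map_equiv]
  simp [MulAut.conj_symm_apply]

lemma not_rank_of_injective {K K' : Type*} [Group K] [Group K'] {p j : ℕ} (f : K →* K')
    (hf : Function.Injective f) (h : ¬ Cfsg.PRankLE p j K) : ¬ Cfsg.PRankLE p j K' := by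
  intro hK'
  apply h
  intro A hA hA2
  have hcomm : IsMulCommutative ↥(A.map f) := by
    refine ⟨⟨?_⟩⟩
    rintro ⟨_, a, ha, rfl⟩ ⟨_, b, hb, rfl⟩
    apply Subtype.ext
    show f a * f b = f b * f a
    rw [← map_mul, ← map_mul]
    congr 1
    exact congrArg Subtype.val (hA.is_comm.comm ⟨a, ha⟩ ⟨b, hb⟩)
  have := hK' (A.map f) hcomm (by
    rintro _ ⟨a, ha, rfl⟩
    rw [← map_pow, hA2 a ha, map_one])
  rwa [Subgroup.card_map_of_injective hf] at this

lemma not_rank_of_witness {K : Type*} [Group K] {p j : ℕ} (Q : Subgroup K)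
    (hc : IsMulCommutative ↥Q) (he : ∀ a ∈ Q, a ^ p = 1) (hcard : p ^ j < Nat.card ↥Q) :
    ¬ Cfsg.PRankLE p j ↥Q := by
  intro h
  have hcomm : IsMulCommutative ↥(⊤ : Subgroup ↥Q) := by
    refine ⟨⟨?_⟩⟩
    rintro ⟨a, -⟩ ⟨b, -⟩
    apply Subtype.ext
    exact hc.is_comm.comm a b
  have := h ⊤ hcomm (by
    rintro ⟨a, ha⟩ -
    apply Subtype.ext
    simpa using he a ha)
  rw [Subgroup.card_top] at this
  omega

lemma conj_into_sylow {G : Type*} [Group G] [Finite G] {p : ℕ} [Fact p.Prime] (H : Subgroup G)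
    (P : Sylow p ↥H) (Q : Subgroup G) (hQH : Q ≤ H) (hQ : IsPGroup p Q) :
    ∃ h ∈ H, Q.map (MulAut.conj h).toMonoidHom ≤ (P : Subgroup ↥H).map H.subtype := by
  have hQ' : IsPGroup p (Q.subgroupOf H) :=
    hQ.comap_of_injective H.subtype H.subtype_injective
  obtain ⟨R, hR⟩ := hQ'.exists_le_sylow
  obtain ⟨h, hh⟩ := MulAction.exists_smul_eq (↥H) R P
  refine ⟨h, h.2, ?_⟩
  rintro _ ⟨x, hx, rfl⟩
  have hxR : (⟨x, hQH hx⟩ : ↥H) ∈ (R : Subgroup ↥H) := hR (by simpa [Subgroup.mem_subgroupOf] using hx)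
  refine ⟨h * ⟨x, hQH hx⟩ * h⁻¹, ?_, ?_⟩
  · rw [← hh, Sylow.coe_subgroup_smul]
    have := Subgroup.smul_mem_pointwise_smul _ (MulAut.conj h) (R : Subgroup ↥H) hxR
    exact this
  · simp [MulAut.conj_apply]

lemma key {G : Type*} [Group G] [Finite G] {p : ℕ} [Fact p.Prime] (j : ℕ) (H : Subgroup G)
    (P : Sylow p ↥H)
    (hP : ¬ Cfsg.PRankLE p j ↥((P : Subgroup ↥H).map H.subtype))
    (hL : ∀ X : Subgroup G, X ≤ (P : Subgroup ↥H).map H.subtype → ¬ Cfsg.PRankLE p j ↥X →
      Subgroup.normalizer (X : Set G) ≤ H) :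
    ∀ (m : ℕ) (Q : Subgroup G) (g : G), Nat.card G - Nat.card Q = m → g ∉ H → Q ≤ H →
      Q.map (MulAut.conj g).toMonoidHom ≤ H → IsPGroup p Q → ¬ Cfsg.PRankLE p j ↥Q → False := by
  intro m
  induction m using Nat.strong_induction_on with
  | _ m ih =>
  intro Q g hm hg hQH hQg hQp hQr
  generalize hP' : (P : Subgroup ↥H).map H.subtype = P' at hP hL
  have hP'H : P' ≤ H := by
    rw [← hP']
    rintro _ ⟨x, -, rfl⟩
    exact x.2
  have hcr : ∀ (a : G) (A : Subgroup G), ¬ Cfsg.PRankLE p j ↥A →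
      ¬ Cfsg.PRankLE p j ↥(A.map (MulAut.conj a).toMonoidHom) := by
    intro a A hA
    exact not_rank_of_injective (A.equivMapOfInjective _ (MulAut.conj a).injective).toMonoidHom
      (MulEquiv.injective _) hA
  have hcc : ∀ (a : G) (A : Subgroup G),
      Nat.card ↥(A.map (MulAut.conj a).toMonoidHom) = Nat.card ↥A := by
    intro a A
    exact Subgroup.card_map_of_injective (MulAut.conj a).injective
  obtain ⟨h1, h1H, hQ1⟩ := conj_into_sylow H P Q hQH hQp
  obtain ⟨h2, h2H, hQ2⟩ := conj_into_sylow H P (Q.map (MulAut.conj g).toMonoidHom) hQg (hQp.map _)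
  rw [hP'] at hQ1 hQ2
  set Q1 := Q.map (MulAut.conj h1).toMonoidHom with hQ1def
  set R := (Q.map (MulAut.conj g).toMonoidHom).map (MulAut.conj h2).toMonoidHom with hRdef
  set g2 := h2 * g * h1⁻¹ with hg2
  have hg2H : g2 ∉ H := by
    intro hmem
    apply hg
    have : g = h2⁻¹ * g2 * h1 := by rw [hg2]; group
    rw [this]
    exact mul_mem (mul_mem (inv_mem h2H) hmem) h1H
  have hRQ1 : R = Q1.map (MulAut.conj g2).toMonoidHom := by
    ext y
    rw [hRdef, hQ1def, mem_conjMap, mem_conjMap, mem_conjMap, mem_conjMap, hg2]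
    have e : g⁻¹ * (h2⁻¹ * y * h2) * g = h1⁻¹ * ((h2 * g * h1⁻¹)⁻¹ * y * (h2 * g * h1⁻¹)) * h1 := by
      group
    rw [e]
  have hQ1r : ¬ Cfsg.PRankLE p j ↥Q1 := hcr h1 Q hQr
  have hRr : ¬ Cfsg.PRankLE p j ↥R := hcr h2 _ (hcr g Q hQr)
  have hcardQ1 : Nat.card ↥Q1 = Nat.card ↥Q := hcc h1 Q
  have hcardR : Nat.card ↥R = Nat.card ↥Q := by
    rw [hRdef, hcc h2, hcc g]
  have hQ1p : IsPGroup p ↥Q1 := hQp.map _
  by_cases hEq : Q1 = P'
  · -- Q1 = P'
    have hRP : R = P' := by
      apply Subgroup.eq_of_le_of_card_ge hQ2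
      rw [← hEq, hcardQ1, hcardR]
    have hg2N : g2 ∈ Subgroup.normalizer (P' : Set G) := by
      rw [Subgroup.mem_set_normalizer_iff'']
      intro y
      have h3 : y ∈ P' ↔ y ∈ Q1.map (MulAut.conj g2).toMonoidHom := by
        rw [← hRQ1, hRP]
      show y ∈ P' ↔ g2⁻¹ * y * g2 ∈ P'
      rw [h3, mem_conjMap, ← hEq]
    exact hg2H (hL P' le_rfl hP hg2N)
  · -- Q1 < P'
    have hlt : Q1.subgroupOf P' < ⊤ := by
      refine lt_top_iff_ne_top.2 ?_
      intro htop
      apply hEq
      apply le_antisymm hQ1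
      intro y hy
      have : (⟨y, hy⟩ : ↥P') ∈ Q1.subgroupOf P' := by rw [htop]; trivial
      simpa [Subgroup.mem_subgroupOf] using this
    have : Group.IsNilpotent ↥P' := by
      have hPp : IsPGroup p ↥P' := by rw [← hP']; exact P.isPGroup'.map _
      exact hPp.isNilpotent
    have hnc := Group.normalizerCondition_of_isNilpotent (G := ↥P') (Q1.subgroupOf P') hlt
    obtain ⟨⟨t, htP⟩, htN, htQ⟩ := SetLike.exists_of_lt hnc
    let T : Subgroup G := ((Subgroup.normalizer (Q1.subgroupOf P' : Set ↥P')).map P'.subtype)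
    have hTP : T ≤ P' := by
      rintro _ ⟨x, -, rfl⟩
      exact x.2
    have hTN : T ≤ Subgroup.normalizer (Q1 : Set G) := by
      rintro _ ⟨⟨x, hx⟩, hxN, rfl⟩
      rw [Subgroup.mem_set_normalizer_iff]
      intro y
      have hxN' := (Subgroup.mem_set_normalizer_iff).1 hxN
      by_cases hy : y ∈ P'
      · have := hxN' ⟨y, hy⟩
        simpa [Subgroup.mem_subgroupOf] using this
      · constructor
        · intro hyQ
          exact absurd (hQ1 hyQ) hy
        · intro hyQ
          exfalso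
          apply hy
          have hm := hQ1 hyQ
          have : y = x⁻¹ * (x * y * x⁻¹) * x := by group
          rw [this]
          exact mul_mem (mul_mem (inv_mem hx) hm) hx
    have hQ1T : Q1 < T := by
      refine lt_of_le_of_ne ?_ ?_
      · intro y hy
        exact ⟨⟨y, hQ1 hy⟩, Subgroup.le_normalizer (by simpa [Subgroup.mem_subgroupOf] using hy), rfl⟩
      · intro heq
        apply htQ
        have : t ∈ T := ⟨⟨t, htP⟩, htN, rfl⟩
        rw [← heq] at this
        simpa [Subgroup.mem_subgroupOf] using this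
    have hcardT : Nat.card ↥Q1 < Nat.card ↥T := by
      have := Set.ncard_lt_ncard (SetLike.coe_ssubset_coe.2 hQ1T) (Set.toFinite _)
      calc Nat.card ↥Q1 = (Q1 : Set G).ncard := Nat.card_coe_set_eq _
        _ < (T : Set G).ncard := this
        _ = Nat.card ↥T := (Nat.card_coe_set_eq _).symm
    have hTcardG : Nat.card ↥T ≤ Nat.card G := Subgroup.card_le_card_group T
    have hTH : T ≤ H := hTP.trans hP'H
    have hTg : T.map (MulAut.conj g2).toMonoidHom ≤ H := by
      rintro _ ⟨x, hx, rfl⟩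
      apply hL R hQ2 hRr
      rw [Subgroup.mem_set_normalizer_iff]
      intro y
      have hxN := (Subgroup.mem_set_normalizer_iff).1 (hTN hx)
      rw [hRQ1]
      simp only [SetLike.mem_coe]
      rw [mem_conjMap Q1 g2 y, mem_conjMap Q1 g2 _]
      have e : g2⁻¹ * ((MulAut.conj g2).toMonoidHom x * y * ((MulAut.conj g2).toMonoidHom x)⁻¹) * g2
          = x * (g2⁻¹ * y * g2) * x⁻¹ := by
        simp only [MulEquiv.toMonoidHom_eq_coe, MonoidHom.coe_coe, MulAut.conj_apply]
        group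
      rw [e]
      exact hxN _
    have hTr : ¬ Cfsg.PRankLE p j ↥T :=
      not_rank_of_injective (Subgroup.inclusion hQ1T.le) (Subgroup.inclusion_injective _) hQ1r
    have hTp : IsPGroup p ↥T := by
      have hPp : IsPGroup p ↥P' := by rw [← hP']; exact P.isPGroup'.map _
      exact hPp.to_le hTP
    refine ih (Nat.card G - Nat.card ↥T) ?_ T g2 rfl hg2H hTH hTg hTp hTr
    omega


/-- Let H be a subgroup of the finite group G, p a prime, k ≥ 1, and P a Sylow p-subgroup of H whose p-rank is at least k. Then N_G(X) ≤ H for every subgroup X of P of p-rank at least k if and only if H ∩ gHg⁻¹ has p-rank less than k for every g ∉ H. -/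
theorem result {G : Type*} [Group G] [Finite G] {p : ℕ} [Fact p.Prime] (k : ℕ) (hk : 1 ≤ k) (H : Subgroup G) (P : Sylow p ↥H) (hP : ¬ Cfsg.PRankLE p (k - 1) ↥(P : Subgroup ↥H)) : (∀ X : Subgroup G, X ≤ (P : Subgroup ↥H).map H.subtype → ¬ Cfsg.PRankLE p (k - 1) ↥X → Subgroup.normalizer (X : Set G) ≤ H) ↔ (∀ g : G, g ∉ H → Cfsg.PRankLE p (k - 1) ↥(H ⊓ H.map (MulAut.conj g).toMonoidHom)) := by
  classical
  have hP' : ¬ Cfsg.PRankLE p (k - 1) ↥((P : Subgroup ↥H).map H.subtype) :=
    not_rank_of_injective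
      ((P : Subgroup ↥H).equivMapOfInjective H.subtype H.subtype_injective).toMonoidHom
      (MulEquiv.injective _) hP
  constructor
  · intro hL g hg
    by_contra hrank
    unfold Cfsg.PRankLE at hrank
    push Not at hrank
    obtain ⟨A, hAc, hAe, hAcard⟩ := hrank
    let Q : Subgroup G := A.map (H ⊓ H.map (MulAut.conj g).toMonoidHom).subtype
    have hcardQ : Nat.card ↥Q = Nat.card ↥A :=
      Subgroup.card_map_of_injective (Subgroup.subtype_injective _)
    have hQr : ¬ Cfsg.PRankLE p (k - 1) ↥Q := by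
      apply not_rank_of_witness
      · refine ⟨⟨?_⟩⟩
        rintro ⟨_, a, ha, rfl⟩ ⟨_, b, hb, rfl⟩
        apply Subtype.ext
        show (a : G) * (b : G) = (b : G) * (a : G)
        have := hAc.is_comm.comm ⟨a, ha⟩ ⟨b, hb⟩
        have h2 := congrArg (fun z : ↥A => ((z : ↥(H ⊓ H.map (MulAut.conj g).toMonoidHom)) : G)) this
        exact h2
      · rintro _ ⟨a, ha, rfl⟩
        have := hAe a ha
        have h2 := congrArg Subtype.val this
        exact h2
      · rw [hcardQ]; exact hAcard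
    have hQH : Q ≤ H := by
      rintro _ ⟨a, -, rfl⟩
      exact a.2.1
    have hQg : Q.map (MulAut.conj g⁻¹).toMonoidHom ≤ H := by
      rintro _ ⟨x, ⟨a, -, rfl⟩, rfl⟩
      have h2 : (a : G) ∈ H.map (MulAut.conj g).toMonoidHom := a.2.2
      rw [mem_conjMap] at h2
      show (MulAut.conj g⁻¹) (a : G) ∈ H
      simpa [MulAut.conj_apply] using h2
    have hQp : IsPGroup p ↥Q := by
      intro x
      refine ⟨1, ?_⟩
      obtain ⟨_, a, ha, rfl⟩ := x
      apply Subtype.ext
      have := hAe a ha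
      have h2 := congrArg Subtype.val this
      simp only [pow_one]
      exact h2
    exact key (k - 1) H P hP' hL _ Q g⁻¹ rfl (fun h => hg (by simpa using inv_mem h)) hQH hQg hQp hQr
  · intro hR X hX hrk g hgN
    by_contra hgH
    have h2 := hR g hgH
    apply hrk
    have hXH : X ≤ H := by
      intro y hy
      obtain ⟨x, -, rfl⟩ := hX hy
      exact x.2
    have hle : X ≤ H ⊓ H.map (MulAut.conj g).toMonoidHom := by
      intro y hy
      refine ⟨hXH hy, ?_⟩
      show y ∈ H.map (MulAut.conj g).toMonoidHom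
      rw [mem_conjMap]
      apply hXH
      exact ((Subgroup.mem_set_normalizer_iff'').1 hgN y).1 hy
    by_contra hX'
    exact (not_rank_of_injective (Subgroup.inclusion hle) (Subgroup.inclusion_injective _) hX') h2

end Cfsg.Agent.S1231
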