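import Cfsg.Statements.S1236
import Mathlib
import Cfsg.Agent.Lib.PGroup.QuasiDihedral2

set_option autoImplicit false
open Cfsg

namespace Cfsg.Agent.S1236

open Subgroup DihedralGroup
open Cfsg.Agent.Lib.PGroup.QuasiDihedral Cfsg.Agent.Lib.PGroup.QuasiDihedral2

theorem exists_two_torsion (m : ℕ) [NeZero m] :
    ∃ j₀ : ZMod m, ∀ j : ZMod m, 2 * j = 0 → j = 0 ∨ j = j₀ := by
  by_cases h : ∃ j₀ : ZMod m, j₀ ≠ 0 ∧ 2 * j₀ = 0
  · obtain ⟨j₀, h0, h1⟩ := h
    refine ⟨j₀, fun j hj => ?_⟩
    by_cases hj0 : j = 0
    · left; exact hj0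
    · right
      have key : ∀ a : ZMod m, a ≠ 0 → 2 * a = 0 → 2 * a.val = m := by
        intro a ha h2
        have h3 : ((2 * a.val : ℕ) : ZMod m) = 0 := by
          push_cast
          rw [ZMod.natCast_zmod_val]
          exact h2
        rw [ZMod.natCast_eq_zero_iff] at h3
        obtain ⟨c, hc⟩ := h3
        have hlt : a.val < m := ZMod.val_lt a
        have hpos : 0 < a.val := by
          rw [Nat.pos_iff_ne_zero, Ne, ZMod.val_eq_zero]
          exact ha
        have hc2 : c < 2 := by
          have h4 : m * c < m * 2 := by omega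
          exact Nat.lt_of_mul_lt_mul_left h4
        have hc0 : c ≠ 0 := by
          rintro rfl
          omega
        have hc1 : c = 1 := by omega
        rw [hc, hc1, mul_one]
      have h4 := key j hj0 hj
      have h5 := key j₀ h0 h1
      exact ZMod.val_injective m (by omega)
  · push Not at h
    exact ⟨0, fun j hj => by
      left
      by_contra hne
      exact h j hne hj⟩

theorem dihedral_centralizer {m : ℕ} [NeZero m] (B : Subgroup (DihedralGroup m))
    (hB : Nat.card B = 4) (hsq : ∀ b ∈ B, b * b = 1) (hcomm : ∀ a ∈ B, ∀ b ∈ B, a * b = b * a)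
    (g : DihedralGroup m) (hg : ∀ b ∈ B, g * b = b * g) : g ∈ B := by
  classical
  obtain ⟨j₀, hj₀⟩ := exists_two_torsion m
  have hlift : ∀ S : Finset (DihedralGroup m), (∀ b ∈ B, b ∈ S) → S.card ≤ 4 → ∀ x ∈ S, x ∈ B := by
    intro S hS hc
    have hcard : ((B : Set (DihedralGroup m)).toFinset).card = 4 := by
      rw [← hB, Nat.card_eq_fintype_card, Set.toFinset_card]
      rfl
    have hsub : (B : Set (DihedralGroup m)).toFinset ⊆ S := by
      intro b hb
      exact hS b (by simpa using hb)
    have heq := Finset.eq_of_subset_of_card_le hsub (by rw [hcard]; exact hc)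
    intro x hx
    rw [← heq] at hx
    simpa using hx
  -- there is a reflection in `B`
  have hrefl : ∃ i, sr i ∈ B := by
    by_contra hcon
    push Not at hcon
    have hsub : ∀ b ∈ B, b ∈ ({r 0, r j₀} : Finset (DihedralGroup m)) := by
      rintro (j | i) hb
      · have h1 := hsq _ hb
        rw [r_mul_r, one_def] at h1
        have h2 : j + j = 0 := r.inj h1
        have h3 : 2 * j = 0 := by rw [two_mul]; exact h2
        simp only [Finset.mem_insert, Finset.mem_singleton]
        rcases hj₀ j h3 with rfl | rfl
        · left; rfl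
        · right; rfl
      · exact absurd hb (hcon i)
    have hcard : ((B : Set (DihedralGroup m)).toFinset).card = 4 := by
      rw [← hB, Nat.card_eq_fintype_card, Set.toFinset_card]
      rfl
    have hle : ((B : Set (DihedralGroup m)).toFinset).card ≤ ({r 0, r j₀} : Finset (DihedralGroup m)).card := by
      apply Finset.card_le_card
      intro b hb
      exact hsub b (by simpa using hb)
    have h2 : ({r 0, r j₀} : Finset (DihedralGroup m)).card ≤ 2 := Finset.card_le_two
    omega
  obtain ⟨i, hi⟩ := hrefl
  have hC : ∀ x : DihedralGroup m, x * sr i = sr i * x →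
      x ∈ ({r 0, r j₀, sr i, sr (i + j₀)} : Finset (DihedralGroup m)) := by
    rintro (j | k) hx
    · rw [r_mul_sr, sr_mul_r] at hx
      have h1 : i - j = i + j := sr.inj hx
      have h2 : 2 * j = 0 := by linear_combination -h1
      simp only [Finset.mem_insert, Finset.mem_singleton]
      rcases hj₀ j h2 with rfl | rfl
      · left; rfl
      · right; left; rfl
    · rw [sr_mul_sr, sr_mul_sr] at hx
      have h1 : i - k = k - i := r.inj hx
      have h2 : 2 * (k - i) = 0 := by linear_combination -h1
      simp only [Finset.mem_insert, Finset.mem_singleton]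
      rcases hj₀ _ h2 with h3 | h3
      · right; right; left
        rw [sub_eq_zero.mp h3]
      · right; right; right
        rw [← h3]
        congr 1
        ring
  have hS := hlift {r 0, r j₀, sr i, sr (i + j₀)} (fun b hb => hC b (hcomm b hb _ hi)) Finset.card_le_four
  exact hS g (hC g (hg _ hi))

/-- Let R be a finite group, t a central involution of R such that R ⧸ ⟨t⟩ is dihedral (of order ≥ 4) or quasi-dihedral, and A ≤ R an elementary abelian subgroup of order 8 containing t. Then C_R(A) = A. -/
theorem result {R : Type*} [Group R] [Finite R] (t : R) (ht : orderOf t = 2) (htz : t ∈ Subgroup.center R) [(Subgroup.zpowers t).Normal] (hq : (∃ m : ℕ, 2 ≤ m ∧ Nonempty (R ⧸ Subgroup.zpowers t ≃* DihedralGroup m)) ∨ Cfsg.IsQuasiDihedral (R ⧸ Subgroup.zpowers t)) (A : Subgroup R) (hA : Cfsg.IsElementaryAbelian 2 A) (hA8 : Nat.card A = 8) (htA : t ∈ A) : Subgroup.centralizer (A : Set R) = A := by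
  classical
  let π := QuotientGroup.mk' (zpowers t)
  have hZA : zpowers t ≤ A := zpowers_le.mpr htA
  have hAcomm : ∀ a ∈ A, ∀ b ∈ A, a * b = b * a := by
    intro a ha b hb
    have := hA.1.is_comm.comm ⟨a, ha⟩ ⟨b, hb⟩
    exact congrArg Subtype.val this
  have hAsq : ∀ a ∈ A, a * a = 1 := by
    intro a ha
    rw [← sq]
    exact hA.2 a ha
  have hAbar : Nat.card (A.map π) = 4 := by
    let f : A →* R ⧸ zpowers t := π.comp A.subtype
    have hker : Nat.card f.ker = 2 := by
      have e : f.ker = (zpowers t).subgroupOf A := by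
        ext a
        rw [MonoidHom.mem_ker, mem_subgroupOf]
        exact QuotientGroup.eq_one_iff _
      rw [e, Nat.card_congr (subgroupOfEquivOfLe hZA).toEquiv, Nat.card_zpowers, ht]
    have h1 := f.ker.card_mul_index
    rw [hker, hA8, Subgroup.index_ker] at h1
    have h2 : f.range = A.map π := by
      rw [MonoidHom.range_comp, range_subtype]
    rw [h2] at h1
    omega
  have hsq : ∀ b ∈ A.map π, b * b = 1 := by
    rintro _ ⟨a, ha, rfl⟩
    rw [← map_mul, hAsq a ha, map_one]
  have hcomm : ∀ a ∈ A.map π, ∀ b ∈ A.map π, a * b = b * a := by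
    rintro _ ⟨a, ha, rfl⟩ _ ⟨b, hb, rfl⟩
    rw [← map_mul, ← map_mul, hAcomm a ha b hb]
  have key : ∀ g : R ⧸ zpowers t, (∀ b ∈ A.map π, g * b = b * g) → g ∈ A.map π := by
    rcases hq with ⟨m, hm, ⟨e⟩⟩ | hqd
    · haveI : NeZero m := ⟨by omega⟩
      intro g hg
      have hcard : Nat.card ((A.map π).map e.toMonoidHom) = 4 := by
        rw [← hAbar]
        exact Subgroup.card_map_of_injective e.injective
      have h1 := dihedral_centralizer ((A.map π).map e.toMonoidHom) hcard
        (by
          rintro _ ⟨a, ha, rfl⟩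
          show e a * e a = 1
          rw [← map_mul, hsq a ha, map_one])
        (by
          rintro _ ⟨a, ha, rfl⟩ _ ⟨b, hb, rfl⟩
          show e a * e b = e b * e a
          rw [← map_mul, ← map_mul, hcomm a ha b hb])
        (e g)
        (by
          rintro _ ⟨b, hb, rfl⟩
          show e g * e b = e b * e g
          rw [← map_mul, ← map_mul, hg b hb])
      obtain ⟨a, ha, hag⟩ := h1
      have h2 : a = g := e.injective hag
      rwa [← h2]
    · obtain ⟨n, x, y, H⟩ := exists_qd hqd
      intro g hg
      have hne : Nontrivial (A.map π) := by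
        rw [← Finite.one_lt_card_iff_nontrivial, hAbar]
        norm_num
      have hK : IsKleinFour (A.map π) := by
        refine ⟨hAbar, ?_⟩
        rw [Monoid.exponent_eq_prime_iff Nat.prime_two]
        rintro ⟨b, hb⟩ hb1
        rw [orderOf_eq_prime_iff]
        refine ⟨?_, hb1⟩
        rw [sq]
        exact Subtype.ext (hsq b hb)
      have h1 := ((klein_facts H).2 (A.map π) hK).1
      have hgc : g ∈ centralizer ((A.map π : Subgroup _) : Set (R ⧸ zpowers t)) :=
        mem_centralizer_iff.mpr (fun b hb => (hg b hb).symm)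
      rw [h1] at hgc
      exact hgc
  apply le_antisymm
  · intro g hg
    have h1 : π g ∈ A.map π := key (π g) (by
      rintro _ ⟨a, ha, rfl⟩
      rw [← map_mul, ← map_mul, (mem_centralizer_iff.mp hg a ha)])
    obtain ⟨a, ha, hag⟩ := h1
    have h2 : a⁻¹ * g ∈ zpowers t := by
      rw [← QuotientGroup.eq]
      exact hag
    have h3 := mul_mem ha (hZA h2)
    simpa using h3
  · intro a ha
    exact mem_centralizer_iff.mpr (fun b hb => hAcomm b hb a ha)

end Cfsg.Agent.S1236
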