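import Cfsg.Statements.S1237
import Cfsg.Agent.Lib.RankTwoAut.Model
import Cfsg.Agent.Lib.RankTwoAut.Cube

set_option autoImplicit false
open Cfsg

namespace Cfsg.Agent.S1237

open Cfsg.Agent.Lib.RankTwoAut.Setup Cfsg.Agent.Lib.RankTwoAut.Homo

/-- Let T be a finite 2-group of 2-rank exactly 2 (it has a Klein four-subgroup but no elementary abelian subgroup of order 8) admitting an automorphism φ such that any two involutions of T are carried to one another by a power of φ. Then T ≅ Z_{2^n} × Z_{2^n} for some n ≥ 1, or T is isomorphic to a Sylow 2-subgroup of PSU(3) over the field with 16 elements. -/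
theorem result {T : Type*} [Group T] [Finite T] (hT : IsPGroup 2 T) (h2 : Cfsg.PRankLE 2 2 T) (h1 : ¬ Cfsg.PRankLE 2 1 T) (φ : MulAut T) (htrans : ∀ s t : T, orderOf s = 2 → orderOf t = 2 → ∃ k : ℕ, (φ ^ k) s = t) {F : Type*} [Field F] [Fintype F] (hF : Fintype.card F = 16) (P : Sylow 2 (Cfsg.PSU 3 F 4)) : (∃ n : ℕ, 1 ≤ n ∧ Nonempty (T ≃* Multiplicative (ZMod (2 ^ n) × ZMod (2 ^ n)))) ∨ Nonempty (T ≃* (P : Subgroup (Cfsg.PSU 3 F 4))) := by
  classical
  -- involutions in terms of squares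
  have hord : ∀ s : T, s * s = 1 → s ≠ 1 → orderOf s = 2 := by
    intro s hs hs1
    apply orderOf_eq_prime _ hs1
    rw [pow_two]
    exact hs
  have hpowinv : ∀ (k : ℕ) (s : T), s * s = 1 → (φ ^ k) s * (φ ^ k) s = 1 := by
    intro k s hs
    rw [← map_mul, hs, map_one]
  have hpowne : ∀ (k : ℕ) (s : T), s ≠ 1 → (φ ^ k) s ≠ 1 := by
    intro k s hs h
    exact hs ((map_eq_one_iff (φ ^ k) (φ ^ k).injective).mp h)
  -- an elementary subgroup with more than two elements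
  unfold Cfsg.PRankLE at h1 h2
  push Not at h1
  obtain ⟨A, hAc, hAe, hA3⟩ := h1
  rw [pow_one] at hA3
  haveI : Fintype A := Fintype.ofFinite A
  rw [Nat.card_eq_fintype_card] at hA3
  obtain ⟨a, b, c, hab, hac, hbc⟩ := Fintype.two_lt_card_iff.mp hA3
  obtain ⟨s₁, s₂, hs₁A, hs₂A, hs₁1, hs₂1, hs₁₂⟩ : ∃ s₁ s₂ : T, s₁ ∈ A ∧ s₂ ∈ A ∧ s₁ ≠ 1 ∧ s₂ ≠ 1 ∧ s₁ ≠ s₂ := by
    have hne : ∀ {u v : A}, u ≠ v → (u : T) ≠ v := fun h h' => h (Subtype.ext h')
    by_cases ha1 : (a : T) = 1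
    · refine ⟨b, c, b.2, c.2, ?_, ?_, hne hbc⟩
      · rw [← ha1]; exact (hne hab).symm
      · rw [← ha1]; exact (hne hac).symm
    · by_cases hb1 : (b : T) = 1
      · refine ⟨a, c, a.2, c.2, ha1, ?_, hne hac⟩
        rw [← hb1]; exact (hne hbc).symm
      · exact ⟨a, b, a.2, b.2, ha1, hb1, hne hab⟩
  have hs₁2 : s₁ * s₁ = 1 := by rw [← pow_two]; exact hAe _ hs₁A
  have hs₂2 : s₂ * s₂ = 1 := by rw [← pow_two]; exact hAe _ hs₂A
  have hcomm12 : s₁ * s₂ = s₂ * s₁ := by
    have := hAc.is_comm.comm (⟨s₁, hs₁A⟩ : A) ⟨s₂, hs₂A⟩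
    exact congrArg Subtype.val this
  obtain ⟨s₃, hs₃⟩ : ∃ s₃, s₃ = s₁ * s₂ := ⟨_, rfl⟩
  have hs₃2 : s₃ * s₃ = 1 := by
    calc s₃ * s₃ = s₁ * (s₂ * s₁) * s₂ := by rw [hs₃]; group
      _ = s₁ * (s₁ * s₂) * s₂ := by rw [hcomm12]
      _ = (s₁ * s₁) * (s₂ * s₂) := by group
      _ = 1 := by rw [hs₁2, hs₂2, one_mul]
  have hs₃1 : s₃ ≠ 1 := by
    intro h
    apply hs₁₂
    rw [hs₃] at h
    have h6 : s₁ = s₂⁻¹ := eq_inv_of_mul_eq_one_left h
    rw [h6]
    exact inv_eq_of_mul_eq_one_left hs₂2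
  have hs₃s₁ : s₃ ≠ s₁ := by
    intro h
    apply hs₂1
    rw [hs₃] at h
    exact mul_left_cancel (a := s₁) (by rw [mul_one]; exact h)
  have hs₃s₂ : s₃ ≠ s₂ := by
    intro h
    apply hs₁1
    rw [hs₃] at h
    exact mul_right_cancel (b := s₂) (by rw [one_mul]; exact h)
  -- the involutions are central
  haveI : Nontrivial T := ⟨⟨s₁, 1, hs₁1⟩⟩
  haveI := hT.center_nontrivial
  obtain ⟨g, hg⟩ := exists_ne (1 : Subgroup.center T)
  obtain ⟨m₀, hm1, hm2⟩ := exists_invol hT (fun h : (g : T) = 1 => hg (Subtype.ext h))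
  set z₀ := (g : T) ^ m₀ with hz₀
  have hz₀c : z₀ ∈ Subgroup.center T := Subgroup.pow_mem _ g.2 m₀
  have hcentral : ∀ s : T, s * s = 1 → ∀ h : T, h * s = s * h := by
    intro s hs h
    by_cases hs1 : s = 1
    · simp [hs1]
    obtain ⟨k, hk⟩ := htrans z₀ s (hord _ hm2 hm1) (hord _ hs hs1)
    rw [← hk]
    obtain ⟨h', rfl⟩ := (φ ^ k).surjective h
    rw [← map_mul, ← map_mul, (Subgroup.mem_center_iff.mp hz₀c) h']
  -- the number of square roots of one
  let Ω : Subgroup T :=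
    { carrier := {x | x * x = 1}
      one_mem' := by simp
      mul_mem' := by
        intro x y hx hy
        have hx' : x * x = 1 := hx
        have hy' : y * y = 1 := hy
        show x * y * (x * y) = 1
        calc x * y * (x * y) = x * (y * x) * y := by group
          _ = x * (x * y) * y := by rw [hcentral x hx' y]
          _ = (x * x) * (y * y) := by group
          _ = 1 := by rw [hx', hy', one_mul]
      inv_mem' := by
        intro x hx
        have hx' : x * x = 1 := hx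
        show x⁻¹ * x⁻¹ = 1
        rw [inv_eq_of_mul_eq_one_left hx', hx'] }
  have hΩc : IsMulCommutative Ω := ⟨⟨by
    intro x y
    apply Subtype.ext
    exact hcentral y y.2 x⟩⟩
  have h4 : Nat.card {x : T // x * x = 1} ≤ 4 := by
    have := h2 Ω hΩc (by
      intro x hx
      rw [pow_two]
      exact hx)
    exact this
  -- the action of `φ` on the involutions
  have hmove1 : ∀ s : T, s * s = 1 → s ≠ 1 → φ s ≠ s := by
    intro s hs hs1 hfx
    have hall : ∀ k : ℕ, (φ ^ k) s = s := by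
      intro k
      induction k with
      | zero => rfl
      | succ k ih =>
        rw [pow_succ, MulAut.mul_apply, hfx, ih]
    have huniq : ∀ t : T, t * t = 1 → t ≠ 1 → t = s := by
      intro t ht ht1
      obtain ⟨k, hk⟩ := htrans s t (hord _ hs hs1) (hord _ ht ht1)
      rw [← hk, hall]
    exact hs₁₂ ((huniq s₁ hs₁2 hs₁1).trans (huniq s₂ hs₂2 hs₂1).symm)
  have hmove2 : ∀ s : T, s * s = 1 → s ≠ 1 → φ (φ s) ≠ s := by
    intro s hs hs1 hfx
    have hall : ∀ k : ℕ, (φ ^ k) s = s ∨ (φ ^ k) s = φ s := by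
      intro k
      induction k with
      | zero => exact Or.inl rfl
      | succ k ih =>
        rw [pow_succ', MulAut.mul_apply]
        rcases ih with h | h
        · right; rw [h]
        · left; rw [h, hfx]
    have huniq : ∀ t : T, t * t = 1 → t ≠ 1 → t = s ∨ t = φ s := by
      intro t ht ht1
      obtain ⟨k, hk⟩ := htrans s t (hord _ hs hs1) (hord _ ht ht1)
      rw [← hk]
      exact hall k
    rcases huniq s₁ hs₁2 hs₁1 with e1 | e1 <;> rcases huniq s₂ hs₂2 hs₂1 with e2 | e2 <;>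
      rcases huniq s₃ hs₃2 hs₃1 with e3 | e3
    · exact hs₁₂ (e1.trans e2.symm)
    · exact hs₁₂ (e1.trans e2.symm)
    · exact hs₃s₁ (e3.trans e1.symm)
    · exact hs₃s₂ (e3.trans e2.symm)
    · exact hs₃s₂ (e3.trans e2.symm)
    · exact hs₃s₁ (e3.trans e1.symm)
    · exact hs₁₂ (e1.trans e2.symm)
    · exact hs₁₂ (e1.trans e2.symm)
  have hcube : ∀ s : T, s * s = 1 → φ (φ (φ s)) = s := by
    intro s hs
    by_cases hs1 : s = 1
    · simp [hs1]
    have h01 := hmove1 s hs hs1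
    have h02 := hmove2 s hs hs1
    have hφ2 : ∀ x : T, x * x = 1 → φ x * φ x = 1 := fun x hx => by rw [← map_mul, hx, map_one]
    have hne1 : ∀ x : T, x ≠ 1 → φ x ≠ 1 := fun x hx h =>
      hx ((map_eq_one_iff φ φ.injective).mp h)
    have hall := fun x hx => four_fill h4 (mul_one 1) hs (hφ2 _ hs) (hφ2 _ (hφ2 _ hs))
      (Ne.symm hs1) (Ne.symm (hne1 _ hs1)) (Ne.symm (hne1 _ (hne1 _ hs1))) (Ne.symm h01)
      (Ne.symm h02) (fun h => h01 (φ.injective h).symm) x hx
    rcases hall _ (hφ2 _ (hφ2 _ (hφ2 _ hs))) with h | h | h | h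
    · exact absurd ((map_eq_one_iff φ φ.injective).mp ((map_eq_one_iff φ φ.injective).mp
        ((map_eq_one_iff φ φ.injective).mp h))) hs1
    · exact h
    · exact absurd (φ.injective h) h02
    · exact absurd (φ.injective (φ.injective h)) h01
  -- the `3`-part of `φ`
  have hordφ : orderOf φ ≠ 0 := (orderOf_pos φ).ne'
  obtain ⟨a₀, m, hm3, hm⟩ := Nat.exists_eq_pow_mul_and_not_dvd hordφ 3 (by norm_num)
  set α : MulAut T := φ ^ m with hαdef
  have hα : α ^ 3 ^ a₀ = 1 := by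
    rw [hαdef, ← pow_mul, mul_comm, ← hm, pow_orderOf_eq_one]
  have hmult : ∀ (q : ℕ) (s : T), s * s = 1 → (φ ^ (3 * q)) s = s := by
    intro q s hs
    induction q with
    | zero => rfl
    | succ q ih =>
      have e3 : (φ ^ 3) s = s := by
        have : (φ ^ 3) s = φ (φ (φ s)) := by simp [pow_succ]
        rw [this, hcube s hs]
      rw [show 3 * (q + 1) = 3 * q + 3 by ring, pow_add, MulAut.mul_apply, e3, ih]
  have hαmove : ∀ s : T, s * s = 1 → s ≠ 1 → α s ≠ s := by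
    intro s hs hs1 h
    have hdm := Nat.div_add_mod m 3
    have hr : m % 3 = 1 ∨ m % 3 = 2 := by
      have : m % 3 ≠ 0 := fun h0 => hm3 (Nat.dvd_of_mod_eq_zero h0)
      omega
    have e : α s = (φ ^ (3 * (m / 3))) ((φ ^ (m % 3)) s) := by
      rw [hαdef, ← MulAut.mul_apply, ← pow_add, hdm]
    rw [hmult _ _ (hpowinv _ s hs)] at e
    rcases hr with hr | hr
    · rw [hr, pow_one] at e
      exact hmove1 s hs hs1 (e.symm.trans h)
    · rw [hr] at e
      have e2 : (φ ^ 2) s = φ (φ s) := by simp [pow_succ]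
      rw [e2] at e
      exact hmove2 s hs hs1 (e.symm.trans h)
  have hfix : ∀ x, α x = x → x = 1 := by
    intro x hx
    by_contra hx1
    obtain ⟨k, hk1, hk2⟩ := exists_invol hT hx1
    apply hαmove _ hk2 hk1
    rw [map_pow, hx]
  have h3 := Cfsg.Agent.Lib.RankTwoAut.Cube.cube hT α hα hfix h4
  obtain ⟨z, hV⟩ := exists_z hT α hα hfix h4
  by_cases hab' : ∀ a b : T, a * b = b * a
  · left
    exact exists_iso hT hab' α hfix h4
  · right
    push Not at hab'
    obtain ⟨w₁, w₂, v₀, hD⟩ := Cfsg.Agent.Lib.RankTwoAut.Struct.exists_data hT h3 hfix hV hab'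
    have hF' : Fintype.card F = (2 ^ 2) ^ 2 := by rw [hF]; norm_num
    have hF4 : Fintype.card F = 4 ^ 2 := by rw [hF]; norm_num
    haveI hchar := Cfsg.Agent.Lib.Classical.Herm.SzModel.charP_two (by omega) hF'
    obtain ⟨AP, BP, hm'⟩ : ∃ A B : ↥(P : Subgroup (Cfsg.PSU 3 F 4)) → F,
        Cfsg.Agent.Lib.Classical.Herm.SzModel.IsSz 4 A B :=
      Cfsg.Agent.Lib.Classical.Herm.SzModel.exists_model_PSU hF4 (by norm_num) P
    exact Cfsg.Agent.Lib.RankTwoAut.Model.iso hF4 hm' hD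

end Cfsg.Agent.S1237
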