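import Cfsg.Statements.S1241
import Mathlib

set_option autoImplicit false
open Cfsg

namespace Cfsg.Agent.S1241

open MulAction Subgroup in
private theorem aux {G : Type*} [Group G] [Finite G] {p : ℕ} [Fact p.Prime] (H K : Subgroup G)
    (hidx : Nat.Coprime p H.index) (g : G) (hgH : g ∈ H) (hgK : g ∉ K)
    (hgp : ∃ k : ℕ, orderOf g = p ^ k)
    (hctrl : ∀ (m : ℤ) (a : G), a * g ^ m * a⁻¹ ∈ H → (a * g ^ m * a⁻¹) * (g ^ m)⁻¹ ∈ K)
    {A : Type*} [CommGroup A] (ϕ : H →* A) (hϕ : ∀ x : H, ϕ x = 1 ↔ (x : G) ∈ K) :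
    g ∉ commutator G := by
  classical
  intro hg
  have : H.FiniteIndex := inferInstance
  letI : Fintype (G ⧸ H) := H.fintypeQuotientOfFiniteIndex
  letI : Fintype (Quotient (orbitRel (zpowers g) (G ⧸ H))) := Fintype.ofFinite _
  have h1 : MonoidHom.transfer ϕ g = 1 := by
    have hmem : ∀ x ∈ commutator G, MonoidHom.transfer ϕ x = 1 := by
      intro x hx
      have : commutator G ≤ (MonoidHom.transfer ϕ).ker := by
        rw [commutator_def, Subgroup.commutator_le]
        intro a _ b _
        rw [MonoidHom.mem_ker, map_commutatorElement, commutatorElement_eq_one_iff_commute]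
        exact mul_comm _ _
      exact this hx
    exact hmem g hg
  set g' : H := ⟨g, hgH⟩ with hg'
  have h2 : MonoidHom.transfer ϕ g = ϕ g' ^ H.index := by
    rw [MonoidHom.transfer_eq_prod_quotient_orbitRel_zpowers_quot, index_eq_sum_minimalPeriod H g,
      ← Finset.prod_pow_eq_pow_sum]
    refine Finset.prod_congr rfl fun q _ => ?_
    rw [← map_pow, ← div_eq_one, ← map_div, hϕ]
    have := hctrl (Function.minimalPeriod (g • ·) q.out : ℕ) q.out.out⁻¹
    simp only [zpow_natCast, inv_inv] at this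
    have h3 := this (QuotientGroup.out_conj_pow_minimalPeriod_mem H g q.out)
    simpa [hg', div_eq_mul_inv] using h3
  have h4 : ϕ g' ^ H.index = 1 := h2 ▸ h1
  obtain ⟨k, hk⟩ := hgp
  have h5 : ϕ g' ^ (p ^ k) = 1 := by
    rw [← map_pow]
    have : g' ^ (p ^ k) = 1 := by
      apply Subtype.ext
      simp [hg', ← hk, pow_orderOf_eq_one]
    rw [this, map_one]
  have h6 : ϕ g' = 1 := by
    have hcop : Nat.Coprime (p ^ k) H.index := Nat.Coprime.pow_left k hidx
    have := (pow_gcd_eq_one (a := ϕ g')).2 ⟨h5, h4⟩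
    rwa [hcop, pow_one] at this
  exact hgK ((hϕ g').1 h6)

/-- Let G be a finite group, p a prime, H a subgroup of index prime to p, K a subgroup of H normal in H with H/K commutative, and g ∈ H ∖ K an element of p-power order such that for all integers m and all a ∈ G with a g^m a⁻¹ ∈ H one has a g^m a⁻¹ ∈ g^m K. Then g ∉ G'. -/
theorem result {G : Type*} [Group G] [Finite G] {p : ℕ} [Fact p.Prime] (H K : Subgroup G) (hHK : K ≤ H) (hKn : (K.subgroupOf H).Normal) (hab : ∀ x ∈ H, ∀ y ∈ H, x * y * x⁻¹ * y⁻¹ ∈ K) (hidx : Nat.Coprime p H.index) (g : G) (hgH : g ∈ H) (hgK : g ∉ K) (hgp : ∃ k : ℕ, orderOf g = p ^ k) (hctrl : ∀ (m : ℤ) (a : G), a * g ^ m * a⁻¹ ∈ H → (a * g ^ m * a⁻¹) * (g ^ m)⁻¹ ∈ K) : g ∉ commutator G := by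
  letI : CommGroup (H ⧸ K.subgroupOf H) :=
    { (inferInstance : Group (H ⧸ K.subgroupOf H)) with
      mul_comm := by
        intro a b
        induction a using QuotientGroup.induction_on with
        | H x =>
        induction b using QuotientGroup.induction_on with
        | H y =>
        rw [← QuotientGroup.mk_mul, ← QuotientGroup.mk_mul, QuotientGroup.eq]
        rw [Subgroup.mem_subgroupOf]
        have h1 : (y : G)⁻¹ * (x : G)⁻¹ * y * x ∈ K := by
          have := hab (y : G)⁻¹ (H.inv_mem y.2) (x : G)⁻¹ (H.inv_mem x.2)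
          simpa using this
        simpa [mul_assoc] using h1 }
  refine aux H K hidx g hgH hgK hgp hctrl (QuotientGroup.mk' (K.subgroupOf H)) ?_
  intro x
  rw [QuotientGroup.mk'_apply, QuotientGroup.eq_one_iff, Subgroup.mem_subgroupOf]

end Cfsg.Agent.S1241
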