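import Cfsg.Statements.S1242
import Mathlib
import Cfsg.Agent.Lib.Transfer.Basic
-- import your own Cfsg.Agent.* helpers here

set_option autoImplicit false
open Cfsg

namespace Cfsg.Agent.S1242

open Cfsg.Agent.Lib.Transfer.Basic in
/-- Every hom from `H` to an abelian `p`-group kills `(O^p(G) G') ∩ H`. -/
theorem aux {G : Type*} [Group G] [Finite G] {p : ℕ} [Fact p.Prime] (H : Subgroup G)
    (hidx : Nat.Coprime p H.index)
    (hfus : ∀ g ∈ H, (∃ k : ℕ, orderOf g = p ^ k) → ∀ a : G, a * g * a⁻¹ ∈ H →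
      ∃ h ∈ H, h * g * h⁻¹ = a * g * a⁻¹)
    {A : Type*} [CommGroup A] (hA : IsPGroup p A) (ϕ : ↥H →* A) (x : ↥H)
    (hx : (x : G) ∈ Cfsg.pResidual p G ⊔ commutator G) : ϕ x = 1 := by
  classical
  set V : G →* A := MonoidHom.transfer ϕ with hV
  -- V vanishes on the p-residual and the commutator subgroup
  have hker : Cfsg.pResidual p G ⊔ commutator G ≤ V.ker :=
    sup_le (pResidual_le_ker hA V) (commutator_le_ker_of_comm V)
  -- V on p-elements of H
  have hp : ∀ a : ↥H, (∃ k : ℕ, orderOf a = p ^ k) → V (a : G) = ϕ a ^ H.index := by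
    intro a ha
    apply transfer_eq_pow_of_fusion
    intro k g₀ hmem
    have hord : ∃ j : ℕ, orderOf ((a : G) ^ k) = p ^ j := by
      obtain ⟨m, hm⟩ := ha
      have h1 : orderOf ((a : G) ^ k) ∣ p ^ m := by
        rw [← hm, ← Subgroup.orderOf_coe]
        exact orderOf_pow_dvd k
      obtain ⟨j, -, hj⟩ := (Nat.dvd_prime_pow (Fact.out : p.Prime)).1 h1
      exact ⟨j, hj⟩
    have hapow : (a : G) ^ k ∈ H := H.pow_mem a.2 k
    obtain ⟨h, hh, heq⟩ := hfus _ hapow hord g₀⁻¹ (by simpa using hmem)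
    have h2 : g₀⁻¹ * (a : G) ^ k * g₀ = h * (a : G) ^ k * h⁻¹ := by
      rw [heq]; simp
    have h3 : (⟨g₀⁻¹ * (a : G) ^ k * g₀, hmem⟩ : ↥H) = ⟨h, hh⟩ * (a ^ k) * ⟨h, hh⟩⁻¹ := by
      apply Subtype.ext
      simpa using h2
    rw [h3, map_mul, map_mul, map_inv, map_pow, mul_comm, inv_mul_cancel_left]
  -- V on H
  have hall : ∀ h : ↥H, V (h : G) = ϕ h ^ H.index := by
    intro h
    obtain ⟨a, b, hab, -, -, -, ha, hb⟩ := exists_pPart_decomp (p := p) h
    have hb1 : ϕ b = 1 := map_eq_one_of_coprime hA ϕ hb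
    have hb2 : V (b : G) = 1 := by
      apply map_eq_one_of_coprime hA V
      rwa [Subgroup.orderOf_coe]
    rw [← hab, Subgroup.coe_mul, map_mul, map_mul, hb1, hb2, mul_one, mul_one]
    exact hp a ha
  have h1 : ϕ x ^ H.index = 1 := by
    rw [← hall x]
    exact hker hx
  -- injectivity of the power map
  obtain ⟨k, hk⟩ := (IsPGroup.iff_orderOf.1 hA) (ϕ x)
  have h2 : orderOf (ϕ x) ∣ H.index := orderOf_dvd_of_pow_eq_one h1
  have h3 : Nat.Coprime (orderOf (ϕ x)) H.index := by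
    rw [hk]
    exact Nat.Coprime.pow_left k hidx
  have h4 : orderOf (ϕ x) = 1 := h3.eq_one_of_dvd h2
  exact orderOf_eq_one_iff.1 h4

/-- Let G be a finite group, p a prime and H a subgroup of index prime to p such that any two elements of H of p-power order that are conjugate in G are conjugate in H. Then (O^p(G)·G') ∩ H = O^p(H)·H', where O^p denotes the subgroup generated by the elements of order prime to p. -/
theorem result {G : Type*} [Group G] [Finite G] {p : ℕ} [Fact p.Prime] (H : Subgroup G) (hidx : Nat.Coprime p H.index) (hfus : ∀ g ∈ H, (∃ k : ℕ, orderOf g = p ^ k) → ∀ a : G, a * g * a⁻¹ ∈ H → ∃ h ∈ H, h * g * h⁻¹ = a * g * a⁻¹) : (Cfsg.pResidual p G ⊔ commutator G) ⊓ H = (Cfsg.pResidual p ↥H ⊔ commutator ↥H).map H.subtype := by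
  classical
  open Cfsg.Agent.Lib.Transfer.Basic in
  -- the quotient
  set N : Subgroup ↥H := Cfsg.pResidual p ↥H ⊔ commutator ↥H with hN
  have hNn : N.Normal := by
    rw [hN]
    exact Subgroup.sup_normal _ _
  have hcomm : commutator ↥H ≤ N := le_sup_right
  haveI : IsMulCommutative (↥H ⧸ N) := Subgroup.Normal.quotient_commutative_iff_commutator_le.mpr hcomm
  -- A is a p-group
  have hAp : IsPGroup p (↥H ⧸ N) := by
    intro y
    obtain ⟨h, rfl⟩ := QuotientGroup.mk_surjective y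
    obtain ⟨a, b, rfl, -, -, -, ⟨k, hk⟩, hb⟩ := exists_pPart_decomp (p := p) h
    refine ⟨k, ?_⟩
    have hbN : b ∈ N := (le_sup_left : Cfsg.pResidual p ↥H ≤ N) (Subgroup.subset_closure hb)
    have : ((a * b : ↥H) : ↥H ⧸ N) = (a : ↥H ⧸ N) := by
      rw [QuotientGroup.eq]
      simpa using N.inv_mem hbN
    rw [this, ← QuotientGroup.mk_pow, ← hk, pow_orderOf_eq_one]
    rfl
  apply le_antisymm
  · intro x hx
    have hxH : x ∈ H := hx.2
    have hone : QuotientGroup.mk' N ⟨x, hxH⟩ = 1 := by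
      open scoped IsMulCommutative in
      exact aux H hidx hfus hAp (QuotientGroup.mk' N) ⟨x, hxH⟩ hx.1
    have hmem : (⟨x, hxH⟩ : ↥H) ∈ N := (QuotientGroup.eq_one_iff _).1 hone
    exact ⟨_, hmem, rfl⟩
  · rw [Subgroup.map_le_iff_le_comap]
    apply sup_le
    · rw [Cfsg.pResidual, Subgroup.closure_le]
      intro h hh
      refine ⟨(le_sup_left : Cfsg.pResidual p G ≤ _) (Subgroup.subset_closure ?_), h.2⟩
      simpa [Subgroup.orderOf_coe] using hh
    · intro h hh
      refine ⟨(le_sup_right : commutator G ≤ _) ?_, h.2⟩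
      have : (h : G) ∈ (commutator ↥H).map H.subtype := ⟨h, hh, rfl⟩
      exact (Subgroup.map_subtype_commutator H ▸ Subgroup.commutator_mono le_top le_top) this

end Cfsg.Agent.S1242
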