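import Cfsg.Statements.S1243
import Mathlib

set_option autoImplicit false
open Cfsg

namespace Cfsg.Agent.S1243

/-- Let T be a Sylow p-subgroup of the finite group G and W ≤ T a subgroup weakly closed in T. If d and g d g⁻¹ both centralize W, then g d g⁻¹ = h d h⁻¹ for some h ∈ N_G(W). -/
theorem result {G : Type*} [Group G] [Finite G] {p : ℕ} [Fact p.Prime] (T : Sylow p G) (W : Subgroup G) (hW : Cfsg.IsWeaklyClosed W (T : Subgroup G)) (d g : G) (hd : d ∈ Subgroup.centralizer (W : Set G)) (hgd : g * d * g⁻¹ ∈ Subgroup.centralizer (W : Set G)) : ∃ h ∈ Subgroup.normalizer (W : Set G), h * d * h⁻¹ = g * d * g⁻¹ := by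
  obtain ⟨hWT, hweak⟩ := hW
  have hWp : IsPGroup p W := T.isPGroup'.to_le hWT
  set d' := g * d * g⁻¹ with hd'
  set C : Subgroup G := Subgroup.centralizer ({d'} : Set G) with hC
  have hWC : ∀ w ∈ W, w ∈ C := by
    intro w hw
    rw [hC, Subgroup.mem_centralizer_iff]
    intro y hy
    rw [Set.mem_singleton_iff] at hy
    subst hy
    exact (Subgroup.mem_centralizer_iff.mp hgd w hw).symm
  have hW'C : ∀ w ∈ W, g * w * g⁻¹ ∈ C := by
    intro w hw
    rw [hC, Subgroup.mem_centralizer_iff]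
    intro y hy
    rw [Set.mem_singleton_iff] at hy
    subst hy
    have h1 : d * w = w * d := (Subgroup.mem_centralizer_iff.mp hd w hw).symm
    rw [hd']
    calc g * d * g⁻¹ * (g * w * g⁻¹) = g * (d * w) * g⁻¹ := by group
      _ = g * (w * d) * g⁻¹ := by rw [h1]
      _ = g * w * g⁻¹ * (g * d * g⁻¹) := by group
  have hp1 : IsPGroup p (W.subgroupOf C) :=
    IsPGroup.comap_of_ker_isPGroup hWp C.subtype (by
        rw [Subgroup.ker_subtype] ; exact IsPGroup.of_bot)
  have hp2 : IsPGroup p ((W.map (MulAut.conj g).toMonoidHom).subgroupOf C) :=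
    IsPGroup.comap_of_ker_isPGroup (hWp.map _) C.subtype (by
        rw [Subgroup.ker_subtype] ; exact IsPGroup.of_bot)
  obtain ⟨R, hR⟩ := hp1.exists_le_sylow
  obtain ⟨R', hR'⟩ := hp2.exists_le_sylow
  obtain ⟨c, hc⟩ := MulAction.exists_smul_eq C R' R
  set Q : Subgroup G := (R : Subgroup C).map C.subtype with hQ
  have hQp : IsPGroup p Q := R.isPGroup'.map C.subtype
  obtain ⟨P', hP'⟩ := hQp.exists_le_sylow
  obtain ⟨x, hx⟩ := MulAction.exists_smul_eq G T P'
  have hQT : ∀ y ∈ Q, x⁻¹ * y * x ∈ T := by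
    intro y hy
    have hy' : y ∈ (P' : Subgroup G) := hP' hy
    rw [← hx, Sylow.coe_subgroup_smul] at hy'
    obtain ⟨z, hz, rfl⟩ := hy'
    simpa [mul_assoc] using hz
  have hWQ : ∀ w ∈ W, w ∈ Q := by
    intro w hw
    exact ⟨⟨w, hWC w hw⟩, hR (show (⟨w, hWC w hw⟩ : C) ∈ W.subgroupOf C from hw), rfl⟩
  have hW'Q : ∀ w ∈ W, (c : G) * g * w * g⁻¹ * (c : G)⁻¹ ∈ Q := by
    intro w hw
    have h0 : (⟨g * w * g⁻¹, hW'C w hw⟩ : C) ∈ (R' : Subgroup C) :=
      hR' (show (⟨g * w * g⁻¹, hW'C w hw⟩ : C) ∈ (W.map (MulAut.conj g).toMonoidHom).subgroupOf C from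
        ⟨w, hw, rfl⟩)
    have h1 : c * (⟨g * w * g⁻¹, hW'C w hw⟩ : C) * c⁻¹ ∈ (R : Subgroup C) := by
      rw [← hc, Sylow.coe_subgroup_smul]
      exact ⟨_, h0, rfl⟩
    refine ⟨_, h1, ?_⟩
    simp [mul_assoc]
  have hN : ∀ a : G, W.map (MulAut.conj a).toMonoidHom = W → a ∈ Subgroup.normalizer (W : Set G) := by
    intro a ha
    rw [Subgroup.mem_normalizer_iff]
    intro n
    constructor
    · intro hn
      have : a * n * a⁻¹ ∈ W.map (MulAut.conj a).toMonoidHom := ⟨n, hn, rfl⟩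
      rwa [ha] at this
    · intro hn
      have hn' : a * n * a⁻¹ ∈ W.map (MulAut.conj a).toMonoidHom := by rwa [ha]
      obtain ⟨m, hm, hme⟩ := hn'
      have hme' : a * m * a⁻¹ = a * n * a⁻¹ := hme
      have : m = n := by simpa using hme'
      rwa [← this]
  have h1 : x⁻¹ ∈ Subgroup.normalizer (W : Set G) := by
    apply hN
    apply hweak
    rintro _ ⟨w, hw, rfl⟩
    have e : (MulAut.conj x⁻¹).toMonoidHom w = x⁻¹ * w * x := by
      show x⁻¹ * w * x⁻¹⁻¹ = _
      group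
    rw [e]; exact hQT w (hWQ w hw)
  have h2 : x⁻¹ * ((c : G) * g) ∈ Subgroup.normalizer (W : Set G) := by
    apply hN
    apply hweak
    rintro _ ⟨w, hw, rfl⟩
    have := hQT _ (hW'Q w hw)
    have e : (MulAut.conj (x⁻¹ * ((c : G) * g))).toMonoidHom w
        = x⁻¹ * ((c : G) * g * w * g⁻¹ * (c : G)⁻¹) * x := by
      show x⁻¹ * ((c : G) * g) * w * (x⁻¹ * ((c : G) * g))⁻¹ = _
      group
    rw [e]; exact this
  refine ⟨(c : G) * g, ?_, ?_⟩
  · have := Subgroup.mul_mem _ (Subgroup.inv_mem _ h1) h2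
    simpa using this
  · have hcd : (c : G) * d' = d' * (c : G) := by
      exact (Subgroup.mem_centralizer_iff.mp c.2 d' (Set.mem_singleton d')).symm
    calc (c : G) * g * d * ((c : G) * g)⁻¹ = (c : G) * d' * (c : G)⁻¹ := by rw [hd']; group
      _ = d' * (c : G) * (c : G)⁻¹ := by rw [hcd]
      _ = d' := by group

end Cfsg.Agent.S1243
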