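import Cfsg.Statements.S1244
import Mathlib
-- import your own Cfsg.Agent.* helpers here

set_option autoImplicit false
open Cfsg

namespace Cfsg.Agent.S1244

open MulAction Subgroup

/-- An elementary abelian 2-group with order between `2^(k-1)` (excluded) and `2^k` has order `2^k`. -/
theorem card_eq_two_pow {G : Type*} [Group G] [Finite G] (U : Subgroup G)
    (hU : ∀ x ∈ U, x ^ 2 = 1) (k : ℕ) (h1 : Nat.card U ≤ 2 ^ (k + 1)) (h2 : 2 ^ k < Nat.card U) :
    Nat.card U = 2 ^ (k + 1) := by
  haveI : Fact (Nat.Prime 2) := ⟨Nat.prime_two⟩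
  have hp : IsPGroup 2 U := fun x => ⟨1, by
    apply Subtype.ext
    simpa using hU x x.2⟩
  obtain ⟨n, hn⟩ := IsPGroup.iff_card.1 hp
  rw [hn] at h1 h2 ⊢
  have h3 : n ≤ k + 1 := (Nat.pow_le_pow_iff_right (by norm_num)).1 h1
  have h4 : k < n := (Nat.pow_lt_pow_iff_right (by norm_num)).1 h2
  have : n = k + 1 := by omega
  rw [this]

/-- Parity of products in a subgroup of index two. -/
theorem prod_parity {S : Type*} [CommGroup S] (V W : Subgroup S) (hW : (W.subgroupOf V).index = 2)
    {ι : Type*} (s : Finset ι) (f : ι → S) (hfV : ∀ i ∈ s, f i ∈ V) (hfW : ∀ i ∈ s, f i ∉ W) :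
    (∏ i ∈ s, f i) ∈ V ∧ ((∏ i ∈ s, f i) ∈ W ↔ Even s.card) := by
  classical
  induction s using Finset.induction_on with
  | empty => simp [V.one_mem, W.one_mem]
  | insert a s ha ih =>
    have ih' := ih (fun i hi => hfV i (Finset.mem_insert_of_mem hi))
      (fun i hi => hfW i (Finset.mem_insert_of_mem hi))
    rw [Finset.prod_insert ha, Finset.card_insert_of_notMem ha]
    have hav := hfV a (Finset.mem_insert_self a s)
    have haw := hfW a (Finset.mem_insert_self a s)
    refine ⟨V.mul_mem hav ih'.1, ?_⟩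
    have hmul := Subgroup.mul_mem_iff_of_index_two hW (a := ⟨f a, hav⟩) (b := ⟨_, ih'.1⟩)
    simp only [Subgroup.mem_subgroupOf, Subgroup.coe_mul] at hmul
    rw [hmul, ih'.2, Nat.even_add_one]
    tauto

/-- A nontrivial hom to a 2-group gives a subgroup of index 2. -/
theorem exists_index_two_of_hom {G A : Type*} [Group G] [Finite G] [Group A]
    (hA : IsPGroup 2 A) (τ : G →* A) {t : G} (ht : τ t ≠ 1) : ∃ H : Subgroup G, H.index = 2 := by
  classical
  haveI : Fact (Nat.Prime 2) := ⟨Nat.prime_two⟩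
  have hB : IsPGroup 2 τ.range := hA.of_injective τ.range.subtype Subtype.coe_injective
  have : Finite τ.range := Finite.of_surjective τ.rangeRestrict τ.rangeRestrict_surjective
  obtain ⟨a, ha⟩ := IsPGroup.iff_card.1 hB
  have hanz : a ≠ 0 := by
    rintro rfl
    have hb : Subsingleton τ.range := by
      rw [pow_zero] at ha
      exact (Nat.card_eq_one_iff_unique.1 ha).1
    have := Subsingleton.elim (⟨τ t, ⟨t, rfl⟩⟩ : τ.range) 1
    exact ht (congrArg Subtype.val this)
  obtain ⟨k, rfl⟩ : ∃ k, a = k + 1 := ⟨a - 1, by omega⟩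
  obtain ⟨B₁, hB₁⟩ := Sylow.exists_subgroup_card_pow_prime (G := τ.range) 2 (n := k) (by
    rw [ha, pow_succ]; exact dvd_mul_right _ _)
  refine ⟨B₁.comap τ.rangeRestrict, ?_⟩
  rw [Subgroup.index_comap_of_surjective _ τ.rangeRestrict_surjective]
  have h1 := Subgroup.index_mul_card B₁
  rw [hB₁, ha, pow_succ] at h1
  have h3 : B₁.index * 2 ^ k = 2 * 2 ^ k := by rw [h1, mul_comm]
  exact Nat.eq_of_mul_eq_mul_right (by positivity) h3

open scoped IsMulCommutative in
/-- Main lemma: the transfer `G → S` does not vanish at `t`. -/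
theorem transfer_ne_one {G : Type*} [Group G] [Finite G] (S : Sylow 2 G)
    (hS : IsMulCommutative (S : Subgroup G)) (VG WG : Subgroup ↥(S : Subgroup G))
    (hV : ∀ v : ↥(S : Subgroup G), v ∈ VG ↔ v ^ 2 = 1)
    (hW : (WG.subgroupOf VG).index = 2)
    (t : G) (ht2 : t ^ 2 = 1)
    (hne : ∀ (g : G) (h : g⁻¹ * t * g ∈ (S : Subgroup G)), (⟨_, h⟩ : ↥(S : Subgroup G)) ∉ WG) :
    MonoidHom.transfer (MonoidHom.id ↥(S : Subgroup G)) t ≠ 1 := by
  classical
  have hodd : Odd (S : Subgroup G).index := by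
    rw [← Nat.not_even_iff_odd, even_iff_two_dvd]
    exact S.not_dvd_index
  have : Fintype (Quotient (orbitRel (zpowers t) (G ⧸ (S : Subgroup G)))) := Fintype.ofFinite _
  rw [MonoidHom.transfer_eq_prod_quotient_orbitRel_zpowers_quot]
  set per : Quotient (orbitRel (zpowers t) (G ⧸ (S : Subgroup G))) → ℕ :=
    fun q => Function.minimalPeriod (t • ·) q.out with hper
  have hdvd : ∀ Q, per Q ∣ 2 := by
    intro Q
    apply Function.IsPeriodicPt.minimalPeriod_dvd
    change (t • ·)^[2] Q.out = Q.out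
    rw [smul_iterate, ht2]
    exact one_smul _ _
  have h12 : ∀ Q, per Q = 1 ∨ per Q = 2 := fun Q => (Nat.dvd_prime Nat.prime_two).1 (hdvd Q)
  have hsum : (S : Subgroup G).index = ∑ Q, per Q := Subgroup.index_eq_sum_minimalPeriod _ t
  let f : Quotient (orbitRel (zpowers t) (G ⧸ (S : Subgroup G))) → ↥(S : Subgroup G) := fun Q =>
    ⟨Q.out.out⁻¹ * t ^ Function.minimalPeriod (t • ·) Q.out * Q.out.out,
      QuotientGroup.out_conj_pow_minimalPeriod_mem _ t Q.out⟩
  have hf2 : ∀ Q, per Q = 2 → f Q = 1 := by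
    intro Q hQ
    apply Subtype.ext
    have : Function.minimalPeriod (t • ·) Q.out = 2 := hQ
    simp [f, this, ht2]
  have hf1 : ∀ Q, per Q = 1 → (f Q ∈ VG ∧ f Q ∉ WG) := by
    intro Q hQ
    have hQ' : Function.minimalPeriod (t • ·) Q.out = 1 := hQ
    have hmem : Q.out.out⁻¹ * t * Q.out.out ∈ (S : Subgroup G) := by
      have := QuotientGroup.out_conj_pow_minimalPeriod_mem (S : Subgroup G) t Q.out
      rwa [hQ', pow_one] at this
    have hfQ : f Q = ⟨Q.out.out⁻¹ * t * Q.out.out, hmem⟩ := by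
      apply Subtype.ext
      simp [f, hQ']
    rw [hfQ]
    refine ⟨?_, hne _ hmem⟩
    rw [hV]
    apply Subtype.ext
    have : (Q.out.out⁻¹ * t * Q.out.out) ^ 2 = Q.out.out⁻¹ * t ^ 2 * Q.out.out := by
      simp [pow_two, mul_assoc]
    simp [this, ht2]
  let C1 : Finset (Quotient (orbitRel (zpowers t) (G ⧸ (S : Subgroup G)))) :=
    Finset.univ.filter (fun Q => per Q = 1)
  have hC1odd : Odd C1.card := by
    have hs : (∑ Q, per Q) = C1.card + ∑ Q ∈ Finset.univ.filter (fun Q => ¬ per Q = 1), per Q := by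
      rw [← Finset.sum_filter_add_sum_filter_not Finset.univ (fun Q => per Q = 1)]
      congr 1
      rw [Finset.card_eq_sum_ones]
      apply Finset.sum_congr rfl
      intro q hq
      simpa using hq
    have he : Even (∑ Q ∈ Finset.univ.filter (fun Q => ¬ per Q = 1), per Q) := by
      apply Finset.even_sum
      intro Q hQ
      have hQ1 : per Q ≠ 1 := by simpa using hQ
      rcases h12 Q with h | h
      · exact absurd h hQ1
      · rw [h]; exact even_two
    rw [hsum, hs] at hodd
    by_contra hc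
    rw [Nat.not_odd_iff_even] at hc
    exact (Nat.not_even_iff_odd.2 hodd) (hc.add he)
  have hprod : ∏ Q, (MonoidHom.id ↥(S : Subgroup G)) (f Q) = ∏ Q ∈ C1, f Q := by
    simp only [MonoidHom.id_apply]
    symm
    apply Finset.prod_subset (Finset.subset_univ _)
    intro Q _ hQ
    rcases h12 Q with h | h
    · have hmem : Q ∈ C1 := Finset.mem_filter.2 ⟨Finset.mem_univ Q, h⟩
      exact absurd hmem hQ
    · exact hf2 Q h
  intro hone
  have hone' : ∏ Q ∈ C1, f Q = 1 := by
    rw [← hprod]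
    exact hone
  have hpar := prod_parity VG WG hW C1 f
    (fun Q hQ => (hf1 Q (Finset.mem_filter.1 hQ).2).1)
    (fun Q hQ => (hf1 Q (Finset.mem_filter.1 hQ).2).2)
  rw [hone'] at hpar
  have := hpar.2.1 WG.one_mem
  exact (Nat.not_even_iff_odd.2 hC1odd) this

/-- Let G be a finite group with no subgroup of index 2 whose Sylow 2-subgroup S is commutative, and let R ≤ S be a subgroup whose 2-rank is exactly one less than the 2-rank r of S. Then every involution of S is conjugate, by an element of N_G(S), to an element of R. -/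
theorem result {G : Type*} [Group G] [Finite G] (hG : ∀ H : Subgroup G, H.index ≠ 2) (S : Sylow 2 G) (hS : IsMulCommutative (S : Subgroup G)) (r : ℕ) (hr1 : 1 ≤ r) (hSr : Cfsg.PRankLE 2 r (S : Subgroup G) ∧ ¬ Cfsg.PRankLE 2 (r - 1) (S : Subgroup G)) (R : Subgroup G) (hRS : R ≤ S) (hRr : Cfsg.PRankLE 2 (r - 1) R ∧ (r = 1 ∨ ¬ Cfsg.PRankLE 2 (r - 2) R)) (t : G) (ht : orderOf t = 2) (htS : t ∈ S) : ∃ n ∈ Subgroup.normalizer ((S : Subgroup G) : Set G), n * t * n⁻¹ ∈ R := by
  classical
  haveI : Fact (Nat.Prime 2) := ⟨Nat.prime_two⟩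
  by_contra hne
  push Not at hne
  -- the subgroups
  let VG : Subgroup ↥(S : Subgroup G) :=
    { carrier := {v | v ^ 2 = 1}
      one_mem' := by simp
      mul_mem' := by
        intro a b ha hb
        have hab : Commute a b := hS.is_comm.comm a b
        simp only [Set.mem_ofPred_eq] at ha hb ⊢
        rw [hab.mul_pow, ha, hb, one_mul]
      inv_mem' := by
        intro a ha
        simp only [Set.mem_ofPred_eq] at ha ⊢
        rw [inv_pow, ha, inv_one] }
  let WG : Subgroup ↥(S : Subgroup G) := VG ⊓ R.comap (S : Subgroup G).subtype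
  have hVmem : ∀ v : ↥(S : Subgroup G), v ∈ VG ↔ v ^ 2 = 1 := fun v => Iff.rfl
  have hWVle : WG ≤ VG := inf_le_left
  have hcomm : ∀ U : Subgroup ↥(S : Subgroup G), IsMulCommutative U := fun U =>
    ⟨⟨fun a b => Subtype.ext (hS.is_comm.comm a.1 b.1)⟩⟩
  -- card of V
  have hcardV : Nat.card VG = 2 ^ r := by
    obtain ⟨k, rfl⟩ : ∃ k, r = k + 1 := ⟨r - 1, by omega⟩
    apply card_eq_two_pow VG (fun x hx => hx) k (hSr.1 VG (hcomm VG) (fun a ha => ha))
    have h2 := hSr.2
    simp only [Cfsg.PRankLE, not_forall, not_le, Nat.add_sub_cancel] at h2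
    obtain ⟨A, _, hA, hc⟩ := h2
    exact lt_of_lt_of_le hc (Subgroup.card_le_of_le (fun x hx => hA x hx))
  -- the subgroup of `R` and the card of W
  let ι : ↥R →* ↥(S : Subgroup G) := Subgroup.inclusion hRS
  have hιinj : Function.Injective ι := Subgroup.inclusion_injective hRS
  let WR : Subgroup ↥R := VG.comap ι
  have hWRmap : WR.map ι = WG := by
    ext v
    constructor
    · rintro ⟨x, hx, rfl⟩
      exact ⟨hx, x.2⟩
    · rintro ⟨hv, hvR⟩
      exact ⟨⟨v.1, hvR⟩, hv, rfl⟩
  have hWRcard : Nat.card WG = Nat.card WR := by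
    rw [← hWRmap]
    exact Nat.card_congr (Subgroup.equivMapOfInjective _ _ hιinj).toEquiv.symm
  have hWRcomm : ∀ U : Subgroup ↥R, IsMulCommutative U := fun U =>
    ⟨⟨fun a b => by
      apply Subtype.ext
      apply Subtype.ext
      have := hS.is_comm.comm (ι a.1) (ι b.1)
      exact congrArg (fun z : ↥(S : Subgroup G) => (z : G)) this⟩⟩
  have hWRsq : ∀ x ∈ WR, x ^ 2 = 1 := by
    intro x hx
    apply hιinj
    rw [map_pow, map_one]
    exact hx
  have hcardW : Nat.card WG = 2 ^ (r - 1) := by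
    rw [hWRcard]
    have hle : Nat.card WR ≤ 2 ^ (r - 1) := hRr.1 WR (hWRcomm WR) hWRsq
    rcases hRr.2 with hr | hr
    · subst hr
      simp only [Nat.sub_self, pow_zero] at hle ⊢
      exact le_antisymm hle Nat.card_pos
    · obtain ⟨k, rfl⟩ : ∃ k, r = k + 2 := by
        rcases r with _ | _ | r
        · omega
        · exfalso
          apply hr
          intro A _ hA
          simp only [zero_add, Nat.reduceSub, pow_zero] at hle ⊢
          have hA' : A ≤ WR := by
            intro a ha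
            change ι a ∈ VG
            rw [hVmem, ← map_pow, hA a ha, map_one]
          exact le_trans (Subgroup.card_le_of_le hA') hle
        · exact ⟨r, rfl⟩
      have h2 := hr
      simp only [Cfsg.PRankLE, not_forall, not_le, Nat.add_sub_cancel] at h2
      obtain ⟨A, _, hA, hc⟩ := h2
      have hA' : A ≤ WR := by
        intro a ha
        change ι a ∈ VG
        rw [hVmem, ← map_pow, hA a ha, map_one]
      exact card_eq_two_pow WR hWRsq k hle (lt_of_lt_of_le hc (Subgroup.card_le_of_le hA'))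
  have hindex : (WG.subgroupOf VG).index = 2 := by
    have h1 := Subgroup.index_mul_card (WG.subgroupOf VG)
    have h2 : Nat.card (WG.subgroupOf VG) = Nat.card WG :=
      Nat.card_congr (Subgroup.subgroupOfEquivOfLe hWVle).toEquiv
    rw [h2, hcardV, hcardW] at h1
    obtain ⟨k, rfl⟩ : ∃ k, r = k + 1 := ⟨r - 1, by omega⟩
    simp only [Nat.add_sub_cancel] at h1
    have h3 : (WG.subgroupOf VG).index * 2 ^ k = 2 * 2 ^ k := by rw [h1, pow_succ, mul_comm]
    exact Nat.eq_of_mul_eq_mul_right (by positivity) h3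
  -- the transfer
  have ht2 : t ^ 2 = 1 := by rw [← ht]; exact pow_orderOf_eq_one t
  have hconj : ∀ (g : G) (h : g⁻¹ * t * g ∈ (S : Subgroup G)),
      (⟨_, h⟩ : ↥(S : Subgroup G)) ∉ WG := by
    intro g h hW
    obtain ⟨n, hn, hnc⟩ := S.conj_eq_normalizer_conj_of_mem t g htS h
    have hnR : n⁻¹ * t * n ∈ R := by
      rw [← hnc]
      exact hW.2
    exact hne n⁻¹ (Subgroup.inv_mem _ hn) (by simpa using hnR)
  have hτ := transfer_ne_one S hS VG WG hVmem hindex t ht2 hconj
  obtain ⟨H, hH⟩ := exists_index_two_of_hom (A := ↥(S : Subgroup G)) S.2 _ hτ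
  exact hG H hH

end Cfsg.Agent.S1244
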