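import Cfsg.Statements.S1247
import Mathlib
import Cfsg.Agent.Lib.Components.BenderKey

set_option autoImplicit false
set_option linter.style.haveILetI false
open Cfsg

namespace Cfsg.Agent.S1247

open Subgroup
open Cfsg.Agent.Lib.Components
open Cfsg.Agent.Lib.Components.BenderKey Cfsg.Agent.Lib.Components.FStarFactor

variable {G : Type*} [Group G] [Finite G] [IsSimpleGroup G] {A : Subgroup G}

theorem normalizer_map_le (hA : IsCoatom A) {K : Subgroup A} (hKn : K.Normal) (hK : K ≠ ⊥) :
    normalizer ((K.map A.subtype : Subgroup G) : Set G) ≤ A := by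
  have h1 : A ≤ normalizer ((K.map A.subtype : Subgroup G) : Set G) := by
    have := Subgroup.le_normalizer_map (H := K) A.subtype
    rwa [normalizer_eq_top_iff.2 hKn, ← MonoidHom.range_eq_map, range_subtype] at this
  by_contra h
  have hlt : A < normalizer ((K.map A.subtype : Subgroup G) : Set G) :=
    lt_of_le_of_ne h1 (fun e => h (e ▸ le_refl _))
  have htop := hA.2 _ hlt
  have hnorm : (K.map A.subtype).Normal := normalizer_eq_top_iff.1 htop
  rcases hnorm.eq_bot_or_eq_top with h0 | h0
  · apply hK
    exact (map_eq_bot_iff_of_injective K A.subtype_injective).1 h0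
  · apply hA.1
    exact top_le_iff.1 (h0 ▸ map_subtype_le K)

theorem isPGroup_subgroupOf {p : ℕ} {W : Subgroup G} (hW : IsPGroup p W) :
    IsPGroup p (W.subgroupOf A) :=
  hW.comap_of_injective (A.subtype) A.subtype_injective

theorem subgroupOf_le_normalizer {S W : Subgroup G} (h : S ≤ normalizer (W : Set G)) :
    S.subgroupOf A ≤ normalizer ((W.subgroupOf A : Subgroup A) : Set A) := by
  intro s hs
  rw [mem_normalizer_iff]
  intro y
  have := mem_normalizer_iff.1 (h hs) (y : G)
  simpa [mem_subgroupOf] using this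

omit [Finite G] [IsSimpleGroup G] in
theorem mem_centralizer_zpowers {a v : G} : v ∈ centralizer (zpowers a : Set G) ↔ v * a = a * v := by
  rw [mem_centralizer_iff]
  constructor
  · intro h
    exact (h a (mem_zpowers a)).symm
  · rintro h y ⟨n, rfl⟩
    have hc : Commute v a := h
    exact (hc.zpow_right n).symm

omit [Finite G] [IsSimpleGroup G] in
theorem normalizer_le_normalizer_centralizer (P : Subgroup G) :
    normalizer (P : Set G) ≤ normalizer (centralizer (P : Set G) : Set G) := by
  have key : ∀ g ∈ normalizer (P : Set G), ∀ c ∈ centralizer (P : Set G),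
      g * c * g⁻¹ ∈ centralizer (P : Set G) := by
    intro g hg c hc
    rw [mem_centralizer_iff]
    intro u hu
    have h2 : g⁻¹ * u * g ∈ P := by
      have := (mem_normalizer_iff.1 (inv_mem hg) u).1 hu
      simpa using this
    have h3 : (g⁻¹ * u * g) * c = c * (g⁻¹ * u * g) := mem_centralizer_iff.1 hc _ h2
    calc u * (g * c * g⁻¹) = g * ((g⁻¹ * u * g) * c) * g⁻¹ := by group
      _ = g * (c * (g⁻¹ * u * g)) * g⁻¹ := by rw [h3]
      _ = g * c * g⁻¹ * u := by group
  intro g hg
  rw [mem_normalizer_iff]
  intro c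
  constructor
  · exact key g hg c
  · intro h
    have := key g⁻¹ (inv_mem hg) _ h
    simpa [mul_assoc] using this

section setup

variable {S : Subgroup G}

theorem center_ne_bot {X : Type*} [Group X] [Finite X] {r : ℕ} [Fact r.Prime]
    (h : pCore r X ≠ ⊥) :
    pCore r X ⊓ centralizer (pCore r X : Set X) ≠ ⊥ := by
  rw [Fitting.inf_centralizer_eq_center]
  haveI : Nontrivial (pCore r X) := (Subgroup.nontrivial_iff_ne_bot _).2 h
  haveI := Cfsg.Agent.Lib.Basic.PCore.pCore_isPGroup (G := X) r |>.center_nontrivial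
  intro h0
  rw [map_eq_bot_iff_of_injective _ (Subgroup.subtype_injective _)] at h0
  exact (Subgroup.nontrivial_iff_ne_bot _).1 inferInstance h0

theorem center_le {X : Type*} [Group X] [Finite X] {r : ℕ} [Fact r.Prime] {S : Subgroup X}
    (hS : S ≤ generalizedFittingSubgroup X) (hsn : S.IsSubnormal)
    (hC : generalizedFittingSubgroup X ⊓ centralizer (S : Set X) ≤ S) :
    pCore r X ⊓ centralizer (pCore r X : Set X) ≤ S := by
  rintro z ⟨hz, hzc⟩
  refine pCore_inf_centralizer_le r hS hsn hC hz ?_
  exact Subgroup.centralizer_le (fun y hy => by simpa using hy.1) hzc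

/-- The heart of part (b). -/
theorem partB (hA : IsCoatom A) {p : ℕ} [Fact p.Prime]
    (hSA : S ≤ A)
    (hS : S.subgroupOf A ≤ generalizedFittingSubgroup A) (hsn : (S.subgroupOf A).IsSubnormal)
    (hC : generalizedFittingSubgroup A ⊓ centralizer ((S.subgroupOf A : Subgroup A) : Set A)
      ≤ S.subgroupOf A)
    {P : Subgroup G} (hP : IsPGroup p P) (hPn : S ≤ normalizer (P : Set G))
    (hp0 : pCore p A ≠ ⊥) :
    ∀ x ∈ P, ∀ y : A, (y ∈ layer A ∨ ∃ r : ℕ, r.Prime ∧ r ≠ p ∧ y ∈ pCore r A) →
      x * (y : G) = (y : G) * x := by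
  set S' := S.subgroupOf A with hS'
  have hmemS : ∀ {a : A}, a ∈ S' → (a : G) ∈ S := fun h => h
  have hW' : IsPGroup p (P.subgroupOf A) := isPGroup_subgroupOf hP
  have hSW' : S' ≤ normalizer ((P.subgroupOf A : Subgroup A) : Set A) :=
    subgroupOf_le_normalizer hPn
  have hE' : layer A ≤ centralizer ((P.subgroupOf A : Subgroup A) : Set A) := by
    refine layer_le_centralizer ?_ ((layer_le hsn hC).trans hSW')
    haveI := hW'.isNilpotent
    infer_instance
  have hr' : ∀ r : ℕ, r.Prime → r ≠ p →
      pCore r A ≤ centralizer ((P.subgroupOf A : Subgroup A) : Set A) := by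
    intro r hr hrp
    haveI : Fact r.Prime := ⟨hr⟩
    exact pCore_le_centralizer hS hsn hC hW' hSW' hrp
  -- the case `P ≤ A` is what we want
  have hfin : P ≤ A → ∀ x ∈ P, ∀ y : A,
      (y ∈ layer A ∨ ∃ r : ℕ, r.Prime ∧ r ≠ p ∧ y ∈ pCore r A) → x * (y : G) = (y : G) * x := by
    intro hPA x hx y hy
    have hxW : (⟨x, hPA hx⟩ : A) ∈ P.subgroupOf A := hx
    have hyc : y ∈ centralizer ((P.subgroupOf A : Subgroup A) : Set A) := by
      rcases hy with hy | ⟨r, hr, hrp, hy⟩
      · exact hE' hy
      · exact hr' r hr hrp hy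
    exact congrArg Subtype.val (mem_centralizer_iff.1 hyc _ hxW)
  -- the central subgroup
  set Z : Subgroup A := pCore p A ⊓ centralizer (pCore p A : Set A) with hZ
  have hZn : Z.Normal := by
    haveI := Cfsg.Agent.Lib.Nilpotent.Fitting.pCore_normal (G := A) p
    infer_instance
  have hZne : Z ≠ ⊥ := center_ne_bot hp0
  have hZS : Z ≤ S' := center_le hS hsn hC
  have hZG : ((Z.map A.subtype : Subgroup G)) ≤ normalizer (P : Set G) := by
    rintro z ⟨z', hz', rfl⟩
    exact hPn (hmemS (hZS hz'))
  have hcZ : centralizer ((Z.map A.subtype : Subgroup G) : Set G) ≤ A :=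
    (centralizer_le_normalizer _).trans (normalizer_map_le hA hZn hZne)
  -- `p'`-elements of `S'` centralizing `O_p(A)` and `P ∩ A` centralize `P`
  have hcomm : ∀ a : A, a ∈ S' → (orderOf a).Coprime p → (∀ z ∈ pCore p A, a * z = z * a) →
      a ∈ centralizer ((P.subgroupOf A : Subgroup A) : Set A) → ∀ u ∈ P, (a : G) * u = u * a := by
    intro a haS hap haO haW u hu
    have hab := Cfsg.Agent.Lib.Solvable.AxB.ab_lemma (p := p) (A := zpowers (a : G))
      (B := Z.map A.subtype) (P := P) hP
      (by
        have : IsPGroup p Z := (Cfsg.Agent.Lib.Basic.PCore.pCore_isPGroup (G := A) p).to_le inf_le_left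
        exact this.map A.subtype)
      (by rw [Nat.card_zpowers, Subgroup.orderOf_coe]; exact hap)
      (by
        rw [zpowers_le]
        rw [mem_centralizer_iff]
        rintro z ⟨z', hz', rfl⟩
        exact congrArg Subtype.val (haO z' hz'.1).symm)
      (by
        rw [zpowers_le]
        exact hPn (hmemS haS))
      hZG
      (by
        rintro v ⟨hvP, hvc⟩
        have hvA : v ∈ A := hcZ hvc
        have hvW : (⟨v, hvA⟩ : A) ∈ P.subgroupOf A := hvP
        have hc1 : a * ⟨v, hvA⟩ = ⟨v, hvA⟩ * a :=
          (mem_centralizer_iff.1 haW _ hvW).symm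
        have hc2 : (a : G) * v = v * a := congrArg Subtype.val hc1
        rw [mem_centralizer_zpowers]
        exact hc2.symm)
    have := hab hu
    rw [mem_centralizer_zpowers] at this
    exact this.symm
  -- the layer centralizes `P`
  have hEP : (layer A).map A.subtype ≤ centralizer (P : Set G) := by
    refine PerfectLocal.le_of_perfect_of_coprime_mem p ?_ ?_ ?_
    · rw [← map_commutator, Layer.commutator_layer]
    · rintro e ⟨e', he', rfl⟩
      exact normalizer_le_normalizer_centralizer P (hPn (hmemS (layer_le hsn hC he')))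
    · rintro a ⟨e', he', rfl⟩ hco
      rw [mem_centralizer_iff]
      intro u hu
      refine (hcomm e' (layer_le hsn hC he') (by simpa using hco) ?_ (hE' he') u hu).symm
      intro z hz
      exact layer_fitting_commute he' (Cfsg.Agent.Lib.Nilpotent.Fitting.pCore_le_fittingSubgroup (G := A) p hz)
  -- conclude
  by_cases hE0 : layer A = ⊥
  · by_cases hr0 : ∀ r : ℕ, r.Prime → r ≠ p → pCore r A = ⊥
    · intro x hx y hy
      have hy1 : y = 1 := by
        rcases hy with hy | ⟨r, hr, hrp, hy⟩
        · rw [hE0] at hy; simpa using hy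
        · rw [hr0 r hr hrp] at hy; simpa using hy
      simp [hy1]
    · push_neg at hr0
      obtain ⟨r, hr, hrp, hr1⟩ := hr0
      haveI : Fact r.Prime := ⟨hr⟩
      apply hfin
      -- `P` centralizes `Z(O_r(A))`
      set Zr : Subgroup A := pCore r A ⊓ centralizer (pCore r A : Set A) with hZr
      have hZrn : Zr.Normal := by
        haveI := Cfsg.Agent.Lib.Nilpotent.Fitting.pCore_normal (G := A) r
        infer_instance
      have hZrne : Zr ≠ ⊥ := center_ne_bot hr1
      have hZrS : Zr ≤ S' := center_le hS hsn hC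
      intro u hu
      apply (centralizer_le_normalizer _).trans (normalizer_map_le hA hZrn hZrne)
      rw [mem_centralizer_iff]
      rintro z ⟨z', hz', rfl⟩
      refine hcomm z' (hZrS hz') ?_ ?_ (hr' r hr hrp hz'.1) u hu
      · obtain ⟨k, hk⟩ := Cfsg.Agent.Lib.Basic.PCore.pCore_isPGroup (G := A) r ⟨z', hz'.1⟩
        have hk' : z' ^ r ^ k = 1 := by simpa using congrArg Subtype.val hk
        exact Nat.Coprime.coprime_dvd_left (orderOf_dvd_of_pow_eq_one hk')
          (Nat.Coprime.pow_left _ ((Nat.coprime_primes hr Fact.out).2 hrp))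
      · intro w hw
        exact commute_pCore_pCore hrp hz'.1 hw
  · apply hfin
    intro u hu
    apply (centralizer_le_normalizer _).trans (normalizer_map_le hA (Layer.layer_normal) hE0)
    exact Subgroup.le_centralizer_iff.1 hEP hu

end setup

/-- Let G be a non-abelian finite simple group, A a maximal subgroup, F = F*(A) its generalized Fitting subgroup (viewed in G), and S ≤ F a subgroup subnormal in F with C_F(S) ≤ S. Let B be any subgroup of G containing S. Then (a) for every prime q not dividing |F(A)|, O_q(B) ∩ A = 1; and (b) for every prime p dividing |F(A)|, O_p(B) commutes elementwise with the subgroup of F generated by its elements of order prime to p. -/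
theorem result {G : Type*} [Group G] [Finite G] [IsSimpleGroup G] (hna : ¬ IsMulCommutative G) (A : Subgroup G) (hA : IsCoatom A) (S : Subgroup G) (hSF : S ≤ (Cfsg.generalizedFittingSubgroup ↥A).map A.subtype) (hSsn : (S.subgroupOf ((Cfsg.generalizedFittingSubgroup ↥A).map A.subtype)).IsSubnormal) (hSC : (Cfsg.generalizedFittingSubgroup ↥A).map A.subtype ⊓ Subgroup.centralizer (S : Set G) ≤ S) (B : Subgroup G) (hSB : S ≤ B) : (∀ q : ℕ, q.Prime → ¬ q ∣ Nat.card (Cfsg.fittingSubgroup ↥A) → (Cfsg.pCore q ↥B).map B.subtype ⊓ A = ⊥) ∧ (∀ p : ℕ, p.Prime → p ∣ Nat.card (Cfsg.fittingSubgroup ↥A) → ∀ x ∈ (Cfsg.pCore p ↥B).map B.subtype, ∀ y ∈ (Cfsg.pResidual p ↥(Cfsg.generalizedFittingSubgroup ↥A)).map ((Cfsg.generalizedFittingSubgroup ↥A).subtype) , x * (A.subtype y) = (A.subtype y) * x) := by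
  have hSA : S ≤ A := hSF.trans (map_subtype_le _)
  have hS : S.subgroupOf A ≤ generalizedFittingSubgroup A := by
    intro s hs
    obtain ⟨y, hy, hys⟩ := hSF hs
    have : y = s := Subtype.ext hys
    exact this ▸ hy
  have hsn : (S.subgroupOf A).IsSubnormal := by
    refine Subgroup.IsSubnormal.trans hS ?_ (Subgroup.Normal.isSubnormal inferInstance)
    let f : ↥(generalizedFittingSubgroup A) →* ↥((generalizedFittingSubgroup A).map A.subtype) :=
      ((generalizedFittingSubgroup A).equivMapOfInjective A.subtype A.subtype_injective).toMonoidHom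
    have := hSsn.comap f
    convert this using 1
    ext x
    exact Iff.rfl
  have hC : generalizedFittingSubgroup A ⊓ centralizer ((S.subgroupOf A : Subgroup A) : Set A)
      ≤ S.subgroupOf A := by
    rintro x ⟨hx, hxc⟩
    apply hSC
    refine ⟨⟨x, hx, rfl⟩, mem_centralizer_iff.2 ?_⟩
    intro s hs
    exact congrArg Subtype.val (mem_centralizer_iff.1 hxc ⟨s, hSA hs⟩ hs)
  have hnormB : ∀ (p : ℕ), S ≤ normalizer (((pCore p B).map B.subtype : Subgroup G) : Set G) := by
    intro p
    have := Subgroup.le_normalizer_map (H := pCore p B) B.subtype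
    rw [normalizer_eq_top_iff.2 (Cfsg.Agent.Lib.Nilpotent.Fitting.pCore_normal p),
      ← MonoidHom.range_eq_map, range_subtype] at this
    exact hSB.trans this
  constructor
  · intro q hq hqd
    haveI : Fact q.Prime := ⟨hq⟩
    have hP : IsPGroup q ((pCore q B).map B.subtype) :=
      (Cfsg.Agent.Lib.Basic.PCore.pCore_isPGroup (G := B) q).map _
    have := eq_bot_of_not_dvd hS hsn hC (isPGroup_subgroupOf hP)
      (subgroupOf_le_normalizer (hnormB q)) hqd
    rw [eq_bot_iff]
    rintro x ⟨hx, hxA⟩
    have h1 : (⟨x, hxA⟩ : A) ∈ ((pCore q B).map B.subtype).subgroupOf A := hx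
    rw [this, mem_bot] at h1
    simpa using congrArg Subtype.val h1
  · intro p hp hpd x hx y hy
    haveI : Fact p.Prime := ⟨hp⟩
    have hP : IsPGroup p ((pCore p B).map B.subtype) :=
      (Cfsg.Agent.Lib.Basic.PCore.pCore_isPGroup (G := B) p).map _
    have hp0 : pCore p A ≠ ⊥ := by
      obtain ⟨g, hg⟩ := exists_prime_orderOf_dvd_card' p hpd
      have hg' : orderOf (g : A) = p ^ 1 := by
        rw [pow_one, ← hg]; exact Subgroup.orderOf_coe g
      have hgm := Cfsg.Agent.Lib.Nilpotent.Fitting.mem_pCore_of_mem_nilpotent_normal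
        (N := fittingSubgroup A) (Cfsg.Agent.Lib.Nilpotent.Fitting.isNilpotent_fittingSubgroup)
        g.2 hg'
      intro h0
      rw [h0, mem_bot] at hgm
      rw [hgm, orderOf_one] at hg'
      have := (Fact.out : p.Prime).one_lt
      simp at hg'
      omega
    have hmain := partB hA hSA hS hsn hC hP (hnormB p) hp0 x hx
    -- the centralizer of `x` in `A`
    let C : Subgroup A := (centralizer ({x} : Set G)).comap A.subtype
    have hCE : layer A ≤ C := by
      intro e he
      show (e : G) ∈ centralizer ({x} : Set G)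
      rw [mem_centralizer_singleton_iff]
      exact (hmain e (Or.inl he)).symm
    have hCr : ∀ r : ℕ, r.Prime → r ≠ p → pCore r A ≤ C := by
      intro r hr hrp e he
      show (e : G) ∈ centralizer ({x} : Set G)
      rw [mem_centralizer_singleton_iff]
      exact (hmain e (Or.inr ⟨r, hr, hrp, he⟩)).symm
    obtain ⟨y0, hy0, rfl⟩ := hy
    have hD : pResidual p ↥(generalizedFittingSubgroup A) ≤
        C.subgroupOf (generalizedFittingSubgroup A) := by
      refine (closure_le _).2 ?_
      intro g hg
      exact mem_of_coprime C hCE hCr g.2 (by simpa using hg)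
    have := hD hy0
    have h2 : (((y0 : A) : G)) ∈ centralizer ({x} : Set G) := this
    rw [mem_centralizer_singleton_iff] at h2
    exact h2.symm

end Cfsg.Agent.S1247
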