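import Cfsg.Statements.S1248
import Mathlib
import Cfsg.Agent.Lib.Classical.Herm.SzModel

set_option autoImplicit false
open Cfsg

namespace Cfsg.Agent.S1248

/-- Let F be a field with 16 elements and S a Sylow 2-subgroup of PSU(3) over F (the unitary group U₃(4)). Then |S| = 64; the centre Z(S) is a Klein four-group and coincides with the subgroup generated by the involutions of S and with the derived subgroup; and every element of S ⧸ Z(S) squares to the identity, S ⧸ Z(S) having order 16. -/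
theorem result {F : Type*} [Field F] [Fintype F] (hF : Fintype.card F = 16) (S : Sylow 2 (Cfsg.PSU 3 F 4)) : Nat.card S = 64 ∧ IsKleinFour (Subgroup.center (S : Subgroup (Cfsg.PSU 3 F 4))) ∧ Subgroup.center (S : Subgroup (Cfsg.PSU 3 F 4)) = Subgroup.closure {x : (S : Subgroup (Cfsg.PSU 3 F 4)) | orderOf x = 2} ∧ Subgroup.center (S : Subgroup (Cfsg.PSU 3 F 4)) = commutator (S : Subgroup (Cfsg.PSU 3 F 4)) ∧ Nat.card ((S : Subgroup (Cfsg.PSU 3 F 4)) ⧸ Subgroup.center (S : Subgroup (Cfsg.PSU 3 F 4))) = 16 ∧ ∀ x : (S : Subgroup (Cfsg.PSU 3 F 4)) ⧸ Subgroup.center (S : Subgroup (Cfsg.PSU 3 F 4)), x ^ 2 = 1 := by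
  have hF' : Fintype.card F = (2 ^ 2) ^ 2 := by rw [hF]; norm_num
  have hF4 : Fintype.card F = 4 ^ 2 := by rw [hF]; norm_num
  have hchar := Cfsg.Agent.Lib.Classical.Herm.SzModel.charP_two (by omega) hF'
  obtain ⟨A, B, hm⟩ : ∃ A B : ↥(S : Subgroup (Cfsg.PSU 3 F 4)) → F,
      Cfsg.Agent.Lib.Classical.Herm.SzModel.IsSz 4 A B :=
    Cfsg.Agent.Lib.Classical.Herm.SzModel.exists_model_PSU hF4 (by norm_num) S
  refine ⟨?_, ?_, hm.center_eq_closure hF4, hm.center_eq_commutator hF4, ?_, hm.quot_sq hF4⟩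
  · rw [hm.card hF4]; norm_num
  · have hc := hm.card_center hF4
    haveI : Finite (Subgroup.center (S : Subgroup (Cfsg.PSU 3 F 4))) := by
      exact Nat.finite_of_card_ne_zero (by omega)
    haveI : Nontrivial (Subgroup.center (S : Subgroup (Cfsg.PSU 3 F 4))) := by
      rw [← Finite.one_lt_card_iff_nontrivial]
      omega
    refine ⟨hc, ?_⟩
    rw [Monoid.exponent_eq_prime_iff Nat.prime_two]
    intro g hg
    apply orderOf_eq_prime _ hg
    apply Subtype.ext
    rw [pow_two]
    exact hm.mul_self_of_center hF4 g.2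
  · rw [hm.card_quotient hF4]; norm_num

end Cfsg.Agent.S1248
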