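import Cfsg.Statements.S1254
import Mathlib
import Cfsg.Agent.Lib.Transfer.Basic
import Cfsg.Agent.Lib.Transfer.Frobenius
-- import your own Cfsg.Agent.* helpers here

set_option autoImplicit false
open Cfsg

namespace Cfsg.Agent.S1254

open Subgroup

theorem eq_one_of_pow_odd {Q : Type*} [Group Q] (hQ : IsPGroup 2 Q) {c : Q} {n : ℕ} (hn : Odd n)
    (h : c ^ n = 1) : c = 1 := by
  obtain ⟨m, hm⟩ := hQ c
  have h1 := orderOf_dvd_of_pow_eq_one h
  have h2 := orderOf_dvd_of_pow_eq_one hm
  have h3 : Nat.Coprime n (2 ^ m) := Nat.Coprime.pow_right m (Nat.coprime_two_right.mpr hn)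
  have h4 := Nat.dvd_gcd h1 h2
  rw [h3, Nat.dvd_one, orderOf_eq_one_iff] at h4
  exact h4

theorem pow_apply_succ {Q : Type*} [Group Q] (σ : MulAut Q) (k : ℕ) (b : Q) :
    (σ ^ (k + 1)) b = σ ((σ ^ k) b) := by
  rw [pow_succ']
  rfl

/-- If `b⁻¹ σ(b)` is fixed by an automorphism `σ` of odd order of a `2`-group, then so is `b`. -/
theorem fix_of_diff {Y : Type*} [Group Y] (hY : IsPGroup 2 Y) (σ : MulAut Y) (n : ℕ) (hn : Odd n)
    (hσ : σ ^ n = 1) (b : Y) (hc : σ (b⁻¹ * σ b) = b⁻¹ * σ b) : σ b = b := by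
  set c := b⁻¹ * σ b with hcd
  have hb : σ b = b * c := by rw [hcd]; group
  have hpow : ∀ k : ℕ, (σ ^ k) b = b * c ^ k := by
    intro k
    induction k with
    | zero => simp
    | succ k ih =>
      rw [pow_apply_succ, ih, map_mul, map_pow, hc, hb, mul_assoc, pow_succ']
  have h1 := hpow n
  rw [hσ] at h1
  have h2 : c ^ n = 1 := by
    have : b = b * c ^ n := h1
    exact mul_left_cancel (this.symm.trans (mul_one b).symm)
  have h3 := eq_one_of_pow_odd hY hn h2
  rw [h3, mul_one] at hb
  exact hb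

/-- An automorphism of odd order of a `2`-group fixes every element sent into its cyclic span. -/
theorem fix_cyc {Y : Type*} [Group Y] (hY : IsPGroup 2 Y) (σ : MulAut Y) (n : ℕ) (hn : Odd n)
    (hσ : σ ^ n = 1) : ∀ (k : ℕ) (x : Y), orderOf x = 2 ^ k → σ x ∈ zpowers x → σ x = x := by
  intro k
  induction k with
  | zero =>
    intro x hx _
    have : x = 1 := orderOf_eq_one_iff.mp (by simpa using hx)
    rw [this, map_one]
  | succ k ih =>
    intro x hx hmem
    obtain ⟨t, ht⟩ := hmem
    have ht' : x ^ t = σ x := ht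
    have ho : orderOf (σ x) = orderOf x := MulEquiv.orderOf_eq σ x
    have hx2 : orderOf (x ^ 2) = 2 ^ k := by
      rw [orderOf_pow' x (by norm_num), hx]
      have : Nat.gcd (2 ^ (k + 1)) 2 = 2 := Nat.gcd_eq_right (dvd_pow_self 2 (by omega))
      rw [this, pow_succ]
      simp
    have htodd : ¬ Even t := by
      rintro ⟨s, hs⟩
      have h1 : σ x = (x ^ 2) ^ s := by
        rw [← ht', hs, ← two_mul, zpow_mul]
        norm_cast
      have h2 : orderOf (σ x) ∣ orderOf (x ^ 2) := by
        rw [h1]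
        exact orderOf_dvd_of_mem_zpowers ⟨s, rfl⟩
      rw [ho, hx, hx2] at h2
      have := Nat.le_of_dvd (by positivity) h2
      have h3 : 2 ^ k < 2 ^ (k + 1) := Nat.pow_lt_pow_right (by norm_num) (by omega)
      omega
    have hfix : σ (x ^ 2) = x ^ 2 := by
      apply ih (x ^ 2) hx2
      refine ⟨t, ?_⟩
      show (x ^ 2) ^ t = σ (x ^ 2)
      rw [map_pow, ← ht', ← zpow_natCast, ← zpow_natCast, ← zpow_mul, ← zpow_mul, mul_comm]
    obtain ⟨s, hs⟩ := Int.not_even_iff_odd.mp htodd
    apply fix_of_diff hY σ n hn hσ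
    have h1 : x⁻¹ * σ x = (x ^ 2) ^ s := by
      have e : x ^ (2 * s + 1) = x * (x ^ 2) ^ s := by
        rw [add_comm, zpow_add, zpow_one, zpow_mul]
        norm_cast
      rw [← ht', hs, e]
      group
    rw [h1, map_zpow, hfix]

/-- An automorphism of odd order of a subgroup of a dihedral `2`-group is trivial, unless the
subgroup is a four-group. -/
theorem aut_dihedral {Y : Type*} [Group Y] [Finite Y] (hY : IsPGroup 2 Y) {m : ℕ} (hm : 2 ≤ m)
    (ι : Y →* DihedralGroup m) (hι : Function.Injective ι) (σ : MulAut Y) (n : ℕ) (hn : Odd n)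
    (hσ : σ ^ n = 1) : σ = 1 ∨ IsKleinFour Y := by
  classical
  haveI : NeZero m := ⟨by omega⟩
  let rot : Subgroup (DihedralGroup m) := zpowers (DihedralGroup.r (1 : ZMod m))
  have hrot1 : ∀ i : ZMod m, DihedralGroup.r i ∈ rot := by
    intro i
    refine ⟨(i.val : ℤ), ?_⟩
    show DihedralGroup.r (1 : ZMod m) ^ ((i.val : ℕ) : ℤ) = DihedralGroup.r i
    rw [zpow_natCast, DihedralGroup.r_one_pow, ZMod.natCast_zmod_val]
  have hrot2 : ∀ i : ZMod m, DihedralGroup.sr i ∉ rot := by
    rintro i ⟨k, hk⟩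
    have hk' : DihedralGroup.r (1 : ZMod m) ^ k = DihedralGroup.sr i := hk
    rw [DihedralGroup.r_one_zpow] at hk'
    cases hk'
  have hrotidx : rot.index = 2 := by
    have h := rot.card_mul_index
    rw [Nat.card_zpowers, DihedralGroup.orderOf_r_one, DihedralGroup.nat_card, mul_comm 2 m] at h
    exact Nat.eq_of_mul_eq_mul_left (Nat.pos_of_ne_zero (NeZero.ne m)) h
  let RY : Subgroup Y := rot.comap ι
  have hRY : ∀ y, y ∉ RY → ∃ i, ι y = DihedralGroup.sr i := by
    intro y hy
    cases h : ι y with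
    | r i =>
      exfalso
      apply hy
      show ι y ∈ rot
      rw [h]
      exact hrot1 i
    | sr i => exact ⟨i, rfl⟩
  have hordout : ∀ y, y ∉ RY → orderOf y = 2 := by
    intro y hy
    obtain ⟨i, hi⟩ := hRY y hy
    rw [← orderOf_injective ι hι, hi, DihedralGroup.orderOf_sr]
  haveI hcycrot : IsCyclic rot := inferInstance
  haveI hcycRY : IsCyclic RY := by
    let f : RY →* rot := ι.subgroupComap rot
    have hf : Function.Injective f := by
      intro a b hab
      apply Subtype.ext
      apply hι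
      exact congrArg Subtype.val hab
    exact isCyclic_of_injective f hf
  obtain ⟨y₀, hy₀⟩ := hcycRY.exists_generator
  have hgen : ∀ y ∈ RY, y ∈ zpowers (y₀ : Y) := by
    intro y hy
    obtain ⟨k, hk⟩ := hy₀ ⟨y, hy⟩
    exact ⟨k, by simpa using congrArg Subtype.val hk⟩
  have hcardR : Nat.card RY = orderOf (y₀ : Y) := by
    rw [Subgroup.orderOf_coe, orderOf_eq_card_of_forall_mem_zpowers hy₀]
  by_cases hord : 3 ≤ orderOf (y₀ : Y)
  · left
    have hσy₀ : σ (y₀ : Y) ∈ RY := by
      by_contra hcon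
      have h1 := hordout _ hcon
      rw [MulEquiv.orderOf_eq] at h1
      omega
    obtain ⟨k, hk⟩ := hY (y₀ : Y)
    obtain ⟨j, -, hj⟩ := (Nat.dvd_prime_pow Nat.prime_two).1 (orderOf_dvd_of_pow_eq_one hk)
    have hfix := fix_cyc hY σ n hn hσ j (y₀ : Y) hj (hgen _ hσy₀)
    have hfixR : ∀ y ∈ RY, σ y = y := by
      intro y hy
      obtain ⟨t, ht⟩ := hgen y hy
      have ht' : (y₀ : Y) ^ t = y := ht
      rw [← ht', map_zpow, hfix]
    apply MulEquiv.ext
    intro y
    by_cases hy : y ∈ RY
    · exact hfixR y hy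
    · have hσy : σ y ∉ RY := by
        intro h
        have h1 := hfixR _ h
        exact hy (σ.injective h1 ▸ h)
      apply fix_of_diff hY σ n hn hσ
      apply hfixR
      show ι (y⁻¹ * σ y) ∈ rot
      obtain ⟨i, hi⟩ := hRY y hy
      obtain ⟨i', hi'⟩ := hRY _ hσy
      rw [map_mul, map_inv, hi, hi']
      have : (DihedralGroup.sr i)⁻¹ = DihedralGroup.sr i := by
        apply inv_eq_of_mul_eq_one_left
        exact DihedralGroup.sr_mul_self i
      rw [this, DihedralGroup.sr_mul_sr]
      exact hrot1 _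
  · -- all elements are involutions
    have hy₀2 : (y₀ : Y) ^ 2 = 1 := by
      have h1 : orderOf (y₀ : Y) ≠ 0 := (orderOf_pos _).ne'
      have h2 : orderOf (y₀ : Y) = 1 ∨ orderOf (y₀ : Y) = 2 := by omega
      rcases h2 with h2 | h2
      · rw [orderOf_eq_one_iff.mp h2]
        simp
      · rw [← h2]
        exact pow_orderOf_eq_one _
    have hall : ∀ y : Y, y ^ 2 = 1 := by
      intro y
      by_cases hy : y ∈ RY
      · obtain ⟨t, ht⟩ := hgen y hy
        have ht' : (y₀ : Y) ^ t = y := ht
        rw [← ht', ← zpow_natCast, ← zpow_mul, mul_comm, zpow_mul, zpow_natCast, hy₀2, one_zpow]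
      · rw [← hordout y hy]
        exact pow_orderOf_eq_one y
    have hidx : RY.index ≤ 2 := by
      rw [Subgroup.index_comap]
      have := Subgroup.relIndex_le_of_le_right (H := rot) (le_top : ι.range ≤ ⊤)
        (by rw [relIndex_top_right, hrotidx]; norm_num)
      rwa [relIndex_top_right, hrotidx] at this
    have hcardY : Nat.card Y ≤ 4 := by
      rw [← RY.card_mul_index, hcardR]
      have : orderOf (y₀ : Y) ≤ 2 := by omega
      exact Nat.mul_le_mul this hidx
    obtain ⟨a, ha⟩ := IsPGroup.iff_card.mp hY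
    by_cases h4 : Nat.card Y = 4
    · right
      haveI : Nontrivial Y := by
        rw [← Finite.one_lt_card_iff_nontrivial]
        omega
      refine ⟨h4, ?_⟩
      rw [Monoid.exponent_eq_prime_iff Nat.prime_two]
      intro g hg
      exact orderOf_eq_prime (hall g) hg
    · left
      have ha1 : a ≤ 1 := by
        by_contra hcon
        have : 2 ^ 2 ≤ 2 ^ a := Nat.pow_le_pow_right (by norm_num) (by omega)
        rw [← ha] at this
        omega
      have hle2 : Nat.card Y ≤ 2 := by
        rw [ha]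
        calc 2 ^ a ≤ 2 ^ 1 := Nat.pow_le_pow_right (by norm_num) ha1
          _ = 2 := rfl
      apply MulEquiv.ext
      intro y
      by_contra hcon'
      have hcon : σ y ≠ y := hcon'
      have hy1 : y ≠ 1 := by
        rintro rfl
        exact hcon (map_one σ)
      have hσ1 : σ y ≠ 1 := fun h => hy1 (σ.injective (h.trans (map_one σ).symm))
      have hn3 : ({1, y, σ y} : Set Y).ncard = 3 := by
        rw [Set.ncard_insert_of_notMem (by
          simp only [Set.mem_insert_iff, Set.mem_singleton_iff, not_or]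
          exact ⟨Ne.symm hy1, Ne.symm hσ1⟩), Set.ncard_pair (Ne.symm hcon)]
      have hle := Set.ncard_le_card ({1, y, σ y} : Set Y)
      omega

/-- Let X be a finite group whose Sylow 2-subgroup S is dihedral (of order at least 4). Then X has a normal 2-complement if and only if, for every Klein four-subgroup U ≤ S, the normalizer N_X(U) is generated by C_X(U) and N_S(U). -/
theorem result {X : Type*} [Group X] [Finite X] (S : Sylow 2 X) (m : ℕ) (hm : 2 ≤ m) (eS : (S : Subgroup X) ≃* DihedralGroup m) : Cfsg.HasNormalPComplement 2 X ↔ ∀ U : Subgroup X, U ≤ S → IsKleinFour U → Subgroup.normalizer (U : Set X) = Subgroup.centralizer (U : Set X) ⊔ ((S : Subgroup X) ⊓ Subgroup.normalizer (U : Set X)) := by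
  
  classical
  haveI : Fact (Nat.Prime 2) := ⟨Nat.prime_two⟩
  constructor
  · intro hc U hUS _
    obtain ⟨K, hKn, hKc, hKq⟩ := Cfsg.Agent.Lib.Transfer.Basic.hasNormalPComplement_iff.mp hc
    haveI := hKn
    apply le_antisymm
    · intro x hx
      have hmap : (S : Subgroup X).map (QuotientGroup.mk' K) = ⊤ :=
        ((S.mapSurjective (QuotientGroup.mk'_surjective K)).is_maximal' (hKq.to_subgroup ⊤) le_top).symm
      have : (x : X ⧸ K) ∈ (S : Subgroup X).map (QuotientGroup.mk' K) := hmap ▸ mem_top _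
      obtain ⟨s, hs, hsx⟩ := this
      have hsx' : (s : X ⧸ K) = (x : X ⧸ K) := hsx
      have hk : s⁻¹ * x ∈ K := QuotientGroup.eq.mp hsx'
      have hKS : ∀ y ∈ K, y ∈ (S : Subgroup X) → y = 1 := by
        intro y hyK hyS
        have h1 : orderOf y ∣ Nat.card K := by
          have := _root_.orderOf_dvd_natCard (⟨y, hyK⟩ : K)
          rwa [Subgroup.orderOf_mk] at this
        obtain ⟨a, ha⟩ := S.isPGroup' ⟨y, hyS⟩
        have h2 : orderOf y ∣ 2 ^ a := by
          have := orderOf_dvd_of_pow_eq_one ha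
          rwa [Subgroup.orderOf_mk] at this
        have h3 : Nat.Coprime (Nat.card K) (2 ^ a) := Nat.Coprime.pow_right a hKc
        have h4 := Nat.dvd_gcd h1 h2
        rw [h3, Nat.dvd_one, orderOf_eq_one_iff] at h4
        exact h4
      have hact : ∀ u ∈ U, x * u * x⁻¹ = s * u * s⁻¹ := by
        intro u hu
        have h1 : x * u * x⁻¹ ∈ U := (Subgroup.mem_normalizer_iff.mp hx u).mp hu
        have h2 : ((x * u * x⁻¹ : X) : X ⧸ K) = ((s * u * s⁻¹ : X) : X ⧸ K) := by
          simp only [QuotientGroup.mk_mul, QuotientGroup.mk_inv, hsx']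
        have h3 := QuotientGroup.eq.mp h2
        have h4 : (x * u * x⁻¹)⁻¹ * (s * u * s⁻¹) ∈ (S : Subgroup X) :=
          (S : Subgroup X).mul_mem ((S : Subgroup X).inv_mem (hUS h1))
            ((S : Subgroup X).mul_mem ((S : Subgroup X).mul_mem hs (hUS hu))
              ((S : Subgroup X).inv_mem hs))
        exact inv_mul_eq_one.mp (hKS _ h3 h4)
      have hsN : s ∈ normalizer (U : Set X) := by
        apply Cfsg.Agent.Lib.Transfer.Frobenius.mem_normalizer_of_conj_mem
        intro u hu
        rw [← hact u hu]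
        exact (Subgroup.mem_normalizer_iff.mp hx u).mp hu
      have htC : s⁻¹ * x ∈ centralizer (U : Set X) := by
        rw [Subgroup.mem_centralizer_iff]
        intro u hu
        have h1 := hact u hu
        have h2 : x * u = s * u * s⁻¹ * x := by
          rw [← h1]
          group
        calc u * (s⁻¹ * x) = s⁻¹ * (s * u * s⁻¹ * x) := by group
          _ = s⁻¹ * (x * u) := by rw [h2]
          _ = s⁻¹ * x * u := by group
      have e : x = s * (s⁻¹ * x) := by group
      rw [e]
      exact (centralizer (U : Set X) ⊔ ((S : Subgroup X) ⊓ normalizer (U : Set X))).mul_mem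
        ((le_sup_right : _ ≤ centralizer (U : Set X) ⊔ ((S : Subgroup X) ⊓ normalizer (U : Set X)))
          ⟨hs, hsN⟩)
        ((le_sup_left : _ ≤ centralizer (U : Set X) ⊔ ((S : Subgroup X) ⊓ normalizer (U : Set X))) htC)
    · apply sup_le
      · intro c hc
        rw [Subgroup.mem_normalizer_iff]
        intro u
        have hcu : ∀ v ∈ U, v * c = c * v := Subgroup.mem_centralizer_iff.mp hc
        constructor
        · intro hu
          have : c * u * c⁻¹ = u := by
            rw [← hcu u hu]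
            group
          rw [this]
          exact hu
        · intro hu
          have h1 := hcu _ hu
          have h2 : c * u = c * (c * u * c⁻¹) := by
            rw [← h1]
            group
          have h3 : u = c * u * c⁻¹ := mul_left_cancel h2
          rw [h3]
          exact hu
      · exact inf_le_right
  · intro h
    apply Cfsg.Agent.Lib.Transfer.Frobenius.hasNormalPComplement_of_hyp
    apply Cfsg.Agent.Lib.Transfer.Frobenius.frobeniusHyp_of_sylow S
    intro Q hQS g hg hcop
    have hgodd : Odd (orderOf g) := Nat.coprime_two_right.mp hcop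
    have hgQ : ∀ q : Q, g * q * g⁻¹ ∈ Q := fun q => (mem_normalizer_iff.mp hg q).mp q.2
    have hgQ' : ∀ q : Q, g⁻¹ * q * g ∈ Q := fun q => by
      apply (mem_normalizer_iff.mp hg (g⁻¹ * q * g)).mpr
      have e : g * (g⁻¹ * (q : X) * g) * g⁻¹ = q := by group
      rw [e]
      exact q.2
    let σ : MulAut Q :=
      { toFun := fun q => ⟨g * q * g⁻¹, hgQ q⟩
        invFun := fun q => ⟨g⁻¹ * q * g, hgQ' q⟩
        left_inv := fun q => Subtype.ext (by simp [mul_assoc])
        right_inv := fun q => Subtype.ext (by simp [mul_assoc])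
        map_mul' := fun x y => Subtype.ext (by simp [mul_assoc]) }
    have hσa : ∀ q : Q, ((σ q : Q) : X) = g * q * g⁻¹ := fun _ => rfl
    have hpow : ∀ (k : ℕ) (q : Q), (((σ ^ k) q : Q) : X) = g ^ k * q * (g ^ k)⁻¹ := by
      intro k q
      induction k with
      | zero => simp
      | succ k ih' =>
        rw [pow_apply_succ, hσa, ih', pow_succ']
        group
    have hσn : σ ^ orderOf g = 1 := by
      apply MulEquiv.ext
      intro q
      apply Subtype.ext
      rw [hpow, pow_orderOf_eq_one]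
      simp
    have hQ2 : IsPGroup 2 Q := S.isPGroup'.to_le hQS
    let ι : Q →* DihedralGroup m := eS.toMonoidHom.comp (Subgroup.inclusion hQS)
    have hι : Function.Injective ι :=
      eS.injective.comp (Subgroup.inclusion_injective hQS)
    rcases aut_dihedral hQ2 hm ι hι σ _ hgodd hσn with h1 | hK
    · rw [Subgroup.mem_centralizer_iff]
      intro q hq
      have h2 : σ ⟨q, hq⟩ = ⟨q, hq⟩ := by rw [h1]; rfl
      have h3 : g * q * g⁻¹ = q := congrArg Subtype.val h2
      calc q * g = (g * q * g⁻¹) * g := by rw [h3]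
        _ = g * q := by group
    · have hN := h Q hQS hK
      let T : Subgroup X := (S : Subgroup X) ⊓ normalizer (Q : Set X)
      have hTN : ∀ t ∈ T, ∀ u ∈ Q, t * u * t⁻¹ ∈ Q := fun t ht u hu =>
        (Subgroup.mem_normalizer_iff.mp ht.2 u).mp hu
      let W : Subgroup X :=
        { carrier := {x | ∃ t ∈ T, ∀ u ∈ Q, x * u * x⁻¹ = t * u * t⁻¹}
          mul_mem' := by
            rintro x y ⟨t, ht, hx⟩ ⟨t', ht', hy⟩
            refine ⟨t * t', T.mul_mem ht ht', fun u hu => ?_⟩
            calc x * y * u * (x * y)⁻¹ = x * (y * u * y⁻¹) * x⁻¹ := by group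
              _ = x * (t' * u * t'⁻¹) * x⁻¹ := by rw [hy u hu]
              _ = t * (t' * u * t'⁻¹) * t⁻¹ := hx _ (hTN t' ht' u hu)
              _ = t * t' * u * (t * t')⁻¹ := by group
          one_mem' := ⟨1, T.one_mem, fun u _ => by simp⟩
          inv_mem' := by
            rintro x ⟨t, ht, hx⟩
            refine ⟨t⁻¹, T.inv_mem ht, fun u hu => ?_⟩
            have h1 := hx _ (hTN t⁻¹ (T.inv_mem ht) u hu)
            have h2 : t * (t⁻¹ * u * t⁻¹⁻¹) * t⁻¹ = u := by group
            rw [h2] at h1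
            calc x⁻¹ * u * x⁻¹⁻¹ = x⁻¹ * (x * (t⁻¹ * u * t⁻¹⁻¹) * x⁻¹) * x⁻¹⁻¹ := by rw [h1]
              _ = t⁻¹ * u * t⁻¹⁻¹ := by group }
      have hle : centralizer (Q : Set X) ⊔ T ≤ W := by
        apply sup_le
        · intro c hc
          refine ⟨1, T.one_mem, fun u hu => ?_⟩
          have := Subgroup.mem_centralizer_iff.mp hc u hu
          rw [← this]
          group
        · intro t ht
          exact ⟨t, ht, fun u _ => rfl⟩
      have hgW : g ∈ W := hle (hN ▸ hg)
      obtain ⟨t, ht, hgt⟩ := hgW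
      obtain ⟨a, ha⟩ := S.isPGroup' ⟨t, ht.1⟩
      have ha' : t ^ 2 ^ a = 1 := congrArg Subtype.val ha
      have hiter : ∀ (k : ℕ), ∀ u ∈ Q, g ^ k * u * (g ^ k)⁻¹ = t ^ k * u * (t ^ k)⁻¹ := by
        intro k
        induction k with
        | zero => simp
        | succ k ih =>
          intro u hu
          calc g ^ (k + 1) * u * (g ^ (k + 1))⁻¹ = g ^ k * (g * u * g⁻¹) * (g ^ k)⁻¹ := by
                rw [pow_succ]; group
            _ = g ^ k * (t * u * t⁻¹) * (g ^ k)⁻¹ := by rw [hgt u hu]
            _ = t ^ k * (t * u * t⁻¹) * (t ^ k)⁻¹ := ih _ (hTN t ht u hu)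
            _ = t ^ (k + 1) * u * (t ^ (k + 1))⁻¹ := by rw [pow_succ]; group
      have hc2 : g ^ 2 ^ a ∈ centralizer (Q : Set X) := by
        rw [Subgroup.mem_centralizer_iff]
        intro u hu
        have h1 := hiter (2 ^ a) u hu
        rw [ha'] at h1
        simp only [one_mul, inv_one, mul_one] at h1
        calc u * g ^ 2 ^ a = (g ^ 2 ^ a * u * (g ^ 2 ^ a)⁻¹) * g ^ 2 ^ a := by rw [h1]
          _ = g ^ 2 ^ a * u := by group
      have hcop' : Nat.Coprime (2 ^ a) (orderOf g) := Nat.Coprime.pow_left a hcop.symm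
      obtain ⟨j, hj⟩ := exists_pow_eq_self_of_coprime hcop'
      rw [← hj]
      exact (centralizer (Q : Set X)).pow_mem hc2 j

end Cfsg.Agent.S1254
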