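import Cfsg.Statements.S1255
import Mathlib
import Cfsg.Agent.S0111
import Cfsg.Agent.Lib.Components.DihSylow

set_option autoImplicit false
set_option linter.unusedSectionVars false
set_option linter.unusedVariables false
open Cfsg

namespace Cfsg.Agent.S1255

open DihedralGroup Cfsg.Agent.Lib.PSL2.KleinPairs Cfsg.Agent.Lib.Components.DihSylow

/-- An automorphism of order three of a four-group moves any involution to any other. -/
lemma moves_core {X : Type*} [Group X] {a b : X} (hP : IsPP a b) (g : X)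
    (hact : ∀ x ∈ fourOf a b hP, g * x * g⁻¹ ∈ fourOf a b hP)
    (h3 : ∀ x ∈ fourOf a b hP, g * (g * (g * x * g⁻¹) * g⁻¹) * g⁻¹ = x)
    (hne : ¬ ∀ x ∈ fourOf a b hP, g * x * g⁻¹ = x) : ∃ g' : X, g' * a * g'⁻¹ = b := by
  by_contra hcon
  push Not at hcon
  have ham : a ∈ fourOf a b hP := left_mem hP
  have hbm : b ∈ fourOf a b hP := right_mem hP
  have hab_ne : a * b ≠ 1 := hP.ab_ne_one
  set σ : X → X := fun x => g * x * g⁻¹ with hσ
  have hmul : ∀ x y, σ (x * y) = σ x * σ y := fun x y => by simp [hσ, mul_assoc]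
  have hinj : ∀ x y, σ x = σ y → x = y := fun x y h => by simpa [hσ, mul_assoc] using h
  have hone : σ 1 = 1 := by simp [hσ]
  change ∀ x ∈ fourOf a b hP, σ x ∈ fourOf a b hP at hact
  change ∀ x ∈ fourOf a b hP, σ (σ (σ x)) = x at h3
  change ¬ ∀ x ∈ fourOf a b hP, σ x = x at hne
  have hab1 : a ≠ 1 := hP.a1
  have hb1 : b ≠ 1 := hP.b1
  have hne' : a ≠ b := hP.ab
  have hbc : a * b ≠ b := fun e => hP.ab_ne_b e
  have hac : a * b ≠ a := fun e => hP.ab_ne_a e
  have h1 : σ a ≠ b := hcon g
  have hsa : σ a = a ∨ σ a = a * b := by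
    rcases (hact a ham) with h | h | h | h
    · exact absurd (hinj a 1 (h.trans hone.symm)) hab1
    · exact Or.inl h
    · exact absurd h h1
    · exact Or.inr h
  have haa := hP.aa
  have hbb := hP.bb
  have hcomm := hP.comm
  have ha2 : a * (a * b) = b := by rw [← mul_assoc, haa, one_mul]
  rcases hsa with hsa | hsa
  · -- fixes a
    have hsb : σ b = b ∨ σ b = a * b := by
      rcases (hact b hbm) with h | h | h | h
      · exact absurd (hinj b 1 (h.trans hone.symm)) hb1
      · exact absurd (hinj b a (h.trans hsa.symm)) hne'.symm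
      · exact Or.inl h
      · exact Or.inr h
    rcases hsb with hsb | hsb
    · apply hne
      intro x hx
      rcases hx with rfl | rfl | rfl | rfl
      · exact hone
      · exact hsa
      · exact hsb
      · rw [hmul, hsa, hsb]
    · have hsc : σ (a * b) = b := by rw [hmul, hsa, hsb, ha2]
      have := h3 b hbm
      rw [hsb, hsc, hsb] at this
      exact hbc this
  · -- a ↦ ab
    have hcm : a * b ∈ fourOf a b hP := (fourOf a b hP).mul_mem ham hbm
    have hsc : σ (a * b) = a ∨ σ (a * b) = b := by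
      rcases (hact _ hcm) with h | h | h | h
      · exact absurd (hinj _ 1 (h.trans hone.symm)) hab_ne
      · exact Or.inl h
      · exact Or.inr h
      · exact absurd (hinj _ _ (h.trans hsa.symm)) hac
    rcases hsc with hsc | hsc
    · have := h3 a ham
      rw [hsa, hsc, hsa] at this
      exact hac this
    · apply hcon (g * g)
      have : (g * g) * a * (g * g)⁻¹ = σ (σ a) := by simp [hσ, mul_assoc]
      rw [this, hsa, hsc]

/-- if the index of `C(U)` in `N(U)` is divisible by `3`, then `N(U)` is transitive on the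
involutions of `U` -/
lemma moves {X : Type*} [Group X] [Finite X] {U : Subgroup X} {a b : X} (hP : IsPP a b)
    (hU : U = fourOf a b hP)
    (h3 : 3 ∣ (Subgroup.centralizer (U : Set X)).relIndex (Subgroup.normalizer (U : Set X))) :
    ∃ g : X, g * a * g⁻¹ = b := by
  classical
  subst hU
  set U := fourOf a b hP with hUdef
  set N := Subgroup.normalizer (U : Set X) with hN
  set C := Subgroup.centralizer (U : Set X) with hC
  have hnorm : ∀ g ∈ N, ∀ x ∈ U, g * x * g⁻¹ ∈ U := by
    intro g hg x hx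
    exact (Subgroup.mem_normalizer_iff.1 hg x).1 hx
  have hCN : (C.subgroupOf N).Normal := by
    constructor
    rintro ⟨x, hx⟩ hxC ⟨n, hn⟩
    rw [Subgroup.mem_subgroupOf] at hxC ⊢
    show n * x * n⁻¹ ∈ C
    rw [hC, Subgroup.mem_centralizer_iff] at hxC ⊢
    intro u hu
    have hu' : n⁻¹ * u * n ∈ U := by
      have := hnorm n⁻¹ (N.inv_mem hn) u hu
      simpa using this
    have := hxC _ hu'
    calc u * (n * x * n⁻¹) = n * ((n⁻¹ * u * n) * x) * n⁻¹ := by group
      _ = n * (x * (n⁻¹ * u * n)) * n⁻¹ := by rw [this]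
      _ = _ := by group
  have hd : 3 ∣ Nat.card (N ⧸ C.subgroupOf N) := by
    rw [← Subgroup.index_eq_card]
    exact h3
  have : Fact (Nat.Prime 3) := ⟨by norm_num⟩
  obtain ⟨x, hx⟩ := exists_prime_orderOf_dvd_card' 3 hd
  obtain ⟨⟨g, hg⟩, rfl⟩ := QuotientGroup.mk_surjective x
  have hg3 : (⟨g, hg⟩ : N) ^ 3 ∈ C.subgroupOf N := by
    rw [← QuotientGroup.eq_one_iff, QuotientGroup.mk_pow, ← hx]
    exact pow_orderOf_eq_one _
  have hg1 : (⟨g, hg⟩ : N) ∉ C.subgroupOf N := by
    intro h
    have : ((⟨g, hg⟩ : N) : N ⧸ C.subgroupOf N) = 1 := (QuotientGroup.eq_one_iff _).2 h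
    rw [this] at hx
    simp at hx
  rw [Subgroup.mem_subgroupOf] at hg3 hg1
  have hg3' : g ^ 3 ∈ C := by simpa using hg3
  have hg1' : g ∉ C := hg1
  apply moves_core hP g (hnorm g hg)
  · intro y hy
    have := (Subgroup.mem_centralizer_iff.1 hg3') y hy
    have e : g ^ 3 = g * g * g := by simp [pow_succ]
    rw [e] at this
    calc g * (g * (g * y * g⁻¹) * g⁻¹) * g⁻¹ = (g * g * g) * y * (g * g * g)⁻¹ := by group
      _ = y * (g * g * g) * (g * g * g)⁻¹ := by rw [← this]
      _ = y := by group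
  · intro hall
    apply hg1'
    rw [hC, Subgroup.mem_centralizer_iff]
    intro y hy
    have := hall y hy
    calc y * g = (g * y * g⁻¹) * g := by rw [this]
      _ = g * y := by group

section Main

variable {X : Type*} [Group X] [Finite X] (S : Sylow 2 X) {m : ℕ}
  (eS : (S : Subgroup X) ≃* DihedralGroup m)

local notation "φ" => phi S eS

lemma phi_sr_order (i : ZMod m) : orderOf (φ (sr i)) = 2 := by
  rw [phi_orderOf, orderOf_sr]

lemma mem_zr {w : DihedralGroup m} [NeZero m] :
    w ∈ Subgroup.zpowers (r 1 : DihedralGroup m) ↔ ∃ i, w = r i := by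
  constructor
  · rintro ⟨k, rfl⟩
    exact ⟨_, r_one_zpow k⟩
  · rintro ⟨i, rfl⟩
    refine ⟨(i.val : ℤ), ?_⟩
    simp only [r_one_zpow]
    simp

/-- the cyclic subgroup of index 2 -/
def Q : Subgroup X := (Subgroup.zpowers (r 1 : DihedralGroup m)).map φ

lemma Q_le : Q S eS ≤ (S : Subgroup X) := by
  rintro _ ⟨w, _, rfl⟩
  exact phi_mem S eS w

lemma Q_relIndex [NeZero m] : (Q S eS).relIndex (S : Subgroup X) = 2 := by
  have hc : Nat.card (Q S eS) = m := by
    rw [Q, Subgroup.card_map_of_injective (phi_inj S eS), Nat.card_zpowers, orderOf_r_one]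
  have h1 := Subgroup.card_mul_index ((Q S eS).subgroupOf (S : Subgroup X))
  have h2 : Nat.card ((Q S eS).subgroupOf (S : Subgroup X)) = m := by
    exact (Nat.card_congr (Subgroup.subgroupOfEquivOfLe (Q_le S eS)).toEquiv).trans hc
  have h3 : Nat.card (S : Subgroup X) = 2 * m := card_S S eS
  rw [h2, h3] at h1
  have hm : 0 < m := Nat.pos_of_ne_zero (NeZero.ne m)
  have : m * (Q S eS).relIndex (S : Subgroup X) = m * 2 := by
    rw [Subgroup.relIndex, h1]; ring
  exact Nat.eq_of_mul_eq_mul_left hm this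

/-- Thompson transfer: with no subgroup of index 2 all involutions are conjugate to the central one. -/
lemma conj_central_of_no_index_two {n : ℕ} (hm : m = 2 * n) (hn : 1 ≤ n)
    (hI : ∀ H : Subgroup X, H.index ≠ 2) {a : X} (ha : orderOf a = 2) :
    ∃ g : X, g * a * g⁻¹ = φ (r (n : ZMod m)) := by
  have : NeZero m := ⟨by omega⟩
  obtain ⟨g, hg⟩ := conj_elt_into_sylow S ha
  obtain ⟨w, hw⟩ := exists_phi S eS hg
  have hao : orderOf (g * a * g⁻¹) = 2 := by
    have := orderOf_injective (MulAut.conj g).toMonoidHom (MulAut.conj g).injective a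
    simpa [ha] using this
  rw [← hw, phi_orderOf] at hao
  have key : ∀ i : ZMod m, orderOf (r i : DihedralGroup m) = 2 → i = n := by
    intro i hi
    exact r_eq_half_of_sq hm hn (mul_self_of_order hi) (ne_one_of_order hi)
  cases w with
  | r i =>
    refine ⟨g, ?_⟩
    rw [← hw, key i hao]
  | sr i =>
    have huQ : φ (sr i) ∉ Q S eS := by
      rintro ⟨w', hw', he⟩
      obtain ⟨j, rfl⟩ := mem_zr.1 hw'
      have := phi_inj S eS he
      cases this
    rcases Cfsg.Agent.S0111.result S (Q S eS) (Q_le S eS) (Q_relIndex S eS) (φ (sr i))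
      (phi_sr_order S eS i) (phi_mem S eS _) huQ with ⟨M, _, hM, _⟩ | ⟨h, hh⟩
    · exact absurd hM (hI M)
    · obtain ⟨w', hw', he⟩ := hh
      obtain ⟨j, rfl⟩ := mem_zr.1 hw'
      refine ⟨h * g, ?_⟩
      have hord : orderOf (r j : DihedralGroup m) = 2 := by
        have h1 : orderOf (h * φ (sr i) * h⁻¹) = 2 := by
          have := orderOf_injective (MulAut.conj h).toMonoidHom (MulAut.conj h).injective (φ (sr i))
          have h2 := phi_sr_order S eS i
          simp only [MulEquiv.coe_toMonoidHom, MulAut.conj_apply] at this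
          rw [this, h2]
        rw [← he, phi_orderOf] at h1
        exact h1
      rw [key j hord] at he
      calc h * g * a * (h * g)⁻¹ = h * (g * a * g⁻¹) * h⁻¹ := by group
        _ = h * φ (sr i) * h⁻¹ := by rw [← hw]
        _ = _ := he.symm

/-- the dihedral group is generated by its involutions in the crude form we need -/
lemma dih_prod_invol {n : ℕ} (hm : m = 2 * n) (hn : 1 ≤ n) (w : DihedralGroup m) :
    ∃ u v : DihedralGroup m, u * u = 1 ∧ v * v = 1 ∧ w = u * v := by
  cases w with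
  | r i =>
    refine ⟨sr 0, sr i, sr_mul_self _, sr_mul_self _, ?_⟩
    simp [sr_mul_sr]
  | sr i =>
    refine ⟨sr i, 1, sr_mul_self _, by simp, by simp⟩

include S eS in
lemma all_conj_imp {n : ℕ} (hm : m = 2 * n) (hn : 1 ≤ n)
    (h : ∀ a b : X, orderOf a = 2 → orderOf b = 2 → IsConj a b) :
    (∀ H : Subgroup X, H.index ≠ 2) ∧ (∀ z : X, ¬ Cfsg.IsIsolatedInvolution z) := by
  have : NeZero m := ⟨by omega⟩
  have hzo : orderOf (φ (r (n : ZMod m))) = 2 := by
    rw [phi_orderOf]
    exact orderOf_eq_two_of (r_half_ne_one hm hn) (r_half_mul_self hm)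
  have hso : orderOf (φ (sr 0 : DihedralGroup m)) = 2 := phi_sr_order S eS 0
  have hcomm : φ (r (n : ZMod m)) * φ (sr 0) = φ (sr 0) * φ (r (n : ZMod m)) := by
    rw [← map_mul, ← map_mul, r_half_comm hm]
  constructor
  · intro H hH
    have hnorm : H.Normal := Subgroup.normal_of_index_eq_two hH
    -- some involution lies in H
    have hex : ∃ y ∈ H, orderOf y = 2 := by
      by_cases h1 : φ (r (n : ZMod m)) ∈ H
      · exact ⟨_, h1, hzo⟩
      by_cases h2 : φ (sr 0 : DihedralGroup m) ∈ H
      · exact ⟨_, h2, hso⟩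
      refine ⟨φ (r (n : ZMod m)) * φ (sr 0), ?_, ?_⟩
      · have := Subgroup.mul_mem_iff_of_index_two hH (a := φ (r (n : ZMod m))) (b := φ (sr 0))
        exact this.2 (iff_of_false h1 h2)
      · rw [← map_mul, phi_orderOf, r_mul_sr]
        exact orderOf_sr _
    obtain ⟨y, hyH, hyo⟩ := hex
    have hall : ∀ a : X, a * a = 1 → a ∈ H := by
      intro a ha
      by_cases ha1 : a = 1
      · rw [ha1]; exact H.one_mem
      have hao := orderOf_eq_two_of ha1 ha
      obtain ⟨c, hc⟩ := isConj_iff.1 (h y a hyo hao)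
      rw [← hc]
      exact hnorm.conj_mem y hyH c
    have hSH : (S : Subgroup X) ≤ H := by
      intro x hx
      obtain ⟨w, rfl⟩ := exists_phi S eS hx
      obtain ⟨u, v, hu, hv, rfl⟩ := dih_prod_invol hm hn w
      rw [map_mul]
      exact H.mul_mem (hall _ (by rw [← map_mul, hu, map_one])) (hall _ (by rw [← map_mul, hv, map_one]))
    have hdvd : H.index ∣ (S : Subgroup X).index := Subgroup.index_dvd_of_le hSH
    apply S.not_dvd_index
    rw [hH] at hdvd
    exact hdvd
  · rintro z ⟨hzz, hiso⟩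
    -- move the pair (central, sr 0) onto z
    obtain ⟨c, hc⟩ := isConj_iff.1 (h (φ (r (n : ZMod m))) z hzo hzz)
    have hb : orderOf (c * φ (sr 0) * c⁻¹) = 2 := by
      have := orderOf_injective (MulAut.conj c).toMonoidHom (MulAut.conj c).injective (φ (sr 0))
      simp only [MulEquiv.coe_toMonoidHom, MulAut.conj_apply] at this
      rw [this, hso]
    obtain ⟨d, hd⟩ := isConj_iff.1 (h z _ hzz hb)
    have hcm : Commute z (d * z * d⁻¹) := by
      rw [hd, ← hc]
      show (c * φ (r (n : ZMod m)) * c⁻¹) * (c * φ (sr 0) * c⁻¹) = (c * φ (sr 0) * c⁻¹) * (c * φ (r (n : ZMod m)) * c⁻¹)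
      calc (c * φ (r (n : ZMod m)) * c⁻¹) * (c * φ (sr 0) * c⁻¹)
          = c * (φ (r (n : ZMod m)) * φ (sr 0)) * c⁻¹ := by group
        _ = c * (φ (sr 0) * φ (r (n : ZMod m))) * c⁻¹ := by rw [hcomm]
        _ = _ := by group
    have := hiso d hcm
    rw [hd, ← hc] at this
    have h3 : φ (sr 0) = φ (r (n : ZMod m)) := by
      have := congrArg (fun x => c⁻¹ * x * c) this
      simpa [mul_assoc] using this
    have := phi_inj S eS h3
    cases this

include S eS in
lemma klein_imp_all_conj {n : ℕ} (hm : m = 2 * n) (hn : 1 ≤ n) (d : ℕ) (hd : 3 ∣ d)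
    (h : ∀ U : Subgroup X, U ≤ S → IsKleinFour U →
      (Subgroup.centralizer (U : Set X)).relIndex (Subgroup.normalizer (U : Set X)) = d) :
    ∀ a b : X, orderOf a = 2 → orderOf b = 2 → IsConj a b := by
  have : NeZero m := ⟨by omega⟩
  -- all involutions are conjugate to the central one
  have key : ∀ a : X, orderOf a = 2 → ∃ g : X, g * a * g⁻¹ = φ (r (n : ZMod m)) := by
    intro a ha
    obtain ⟨g, hg⟩ := conj_elt_into_sylow S ha
    obtain ⟨w, hw⟩ := exists_phi S eS hg
    have hao : orderOf (g * a * g⁻¹) = 2 := by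
      have := orderOf_injective (MulAut.conj g).toMonoidHom (MulAut.conj g).injective a
      simpa [ha] using this
    have hwo : orderOf w = 2 := by
      rw [← hw, phi_orderOf] at hao; exact hao
    by_cases hwz : w = r (n : ZMod m)
    · exact ⟨g, by rw [← hw, hwz]⟩
    -- the four-group generated by φ w and the central element
    have hP : IsPP (φ w) (φ (r (n : ZMod m))) := by
      refine ⟨?_, ?_, ?_, ?_, ?_, ?_⟩
      · rw [← map_one φ]
        exact fun e => ne_one_of_order hwo (phi_inj S eS e)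
      · rw [← map_one φ]
        exact fun e => r_half_ne_one hm hn (phi_inj S eS e)
      · exact fun e => hwz (phi_inj S eS e)
      · rw [← map_mul, mul_self_of_order hwo, map_one]
      · rw [← map_mul, r_half_mul_self hm, map_one]
      · rw [← map_mul, ← map_mul, r_half_comm hm]
    have hle : fourOf _ _ hP ≤ (S : Subgroup X) := by
      rintro x (rfl | rfl | rfl | rfl)
      · exact Subgroup.one_mem _
      · exact phi_mem S eS _
      · exact phi_mem S eS _
      · exact Subgroup.mul_mem _ (phi_mem S eS _) (phi_mem S eS _)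
    have hK := isKleinFour_fourOf hP
    have h3 := h _ hle hK
    obtain ⟨g', hg'⟩ := moves hP rfl (by rw [h3]; exact hd)
    refine ⟨g' * g, ?_⟩
    rw [← hg', hw]
    group
  intro a b ha hb
  obtain ⟨g, hg⟩ := key a ha
  obtain ⟨g', hg'⟩ := key b hb
  rw [isConj_iff]
  refine ⟨g'⁻¹ * g, ?_⟩
  calc g'⁻¹ * g * a * (g'⁻¹ * g)⁻¹ = g'⁻¹ * (g * a * g⁻¹) * g' := by group
    _ = g'⁻¹ * (g' * b * g'⁻¹) * g' := by rw [hg, hg']
    _ = b := by group

end Main

theorem result {X : Type*} [Group X] [Finite X] (S : Sylow 2 X) (m : ℕ) (hm : 2 ≤ m) (eS : (S : Subgroup X) ≃* DihedralGroup m) : ((∀ H : Subgroup X, H.index ≠ 2) ∧ (∀ z : X, ¬ Cfsg.IsIsolatedInvolution z)) ↔ ((∀ a b : X, orderOf a = 2 → orderOf b = 2 → IsConj a b) ∨ (∀ U : Subgroup X, U ≤ S → IsKleinFour U → (Subgroup.centralizer (U : Set X)).relIndex (Subgroup.normalizer (U : Set X)) = (if Nat.card S = 4 then 3 else 6))) := by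
  obtain ⟨n, hmn, hn⟩ := exists_half S eS hm
  constructor
  · rintro ⟨hI, _⟩
    left
    intro a b ha hb
    obtain ⟨g, hg⟩ := conj_central_of_no_index_two S eS hmn hn hI ha
    obtain ⟨g', hg'⟩ := conj_central_of_no_index_two S eS hmn hn hI hb
    rw [isConj_iff]
    refine ⟨g'⁻¹ * g, ?_⟩
    calc g'⁻¹ * g * a * (g'⁻¹ * g)⁻¹ = g'⁻¹ * (g * a * g⁻¹) * g' := by group
      _ = g'⁻¹ * (g' * b * g'⁻¹) * g' := by rw [hg, hg']
      _ = b := by group
  · rintro (h | h)
    · exact all_conj_imp S eS hmn hn h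
    · apply all_conj_imp S eS hmn hn
      refine klein_imp_all_conj S eS hmn hn (if Nat.card S = 4 then 3 else 6) ?_ h
      split_ifs <;> norm_num

end Cfsg.Agent.S1255
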