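import Cfsg.Statements.S1256
import Mathlib
import Cfsg.Agent.Lib.Char.QuatDade
import Cfsg.Agent.Lib.Components.DihSylow

set_option autoImplicit false
set_option linter.unusedSectionVars false
set_option linter.unusedVariables false
open Cfsg

namespace Cfsg.Agent.S1256

open DihedralGroup Cfsg.Agent.Lib.PSL2.KleinPairs Cfsg.Agent.Lib.Components.DihSylow

section Dih

variable {m k : ℕ}

/-- The predicate for the normalizer of the four-group with parameter `i`. -/
def Tsub (hm : m = 4 * k) (i : ZMod m) : Subgroup (DihedralGroup m) where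
  carrier := {w | match w with
    | r j => (4 : ZMod m) * j = 0
    | sr j => (4 : ZMod m) * (j - i) = 0}
  one_mem' := by
    show (4 : ZMod m) * 0 = 0
    simp
  inv_mem' := by
    rintro (j | j) h
    · show (4 : ZMod m) * (-j) = 0
      have h' : (4 : ZMod m) * j = 0 := h
      linear_combination -h'
    · exact h
  mul_mem' := by
    rintro (a | a) (b | b) ha hb
    · show (4 : ZMod m) * (a + b) = 0
      have h1 : (4 : ZMod m) * a = 0 := ha
      have h2 : (4 : ZMod m) * b = 0 := hb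
      linear_combination h1 + h2
    · show (4 : ZMod m) * (b - a - i) = 0
      have h1 : (4 : ZMod m) * a = 0 := ha
      have h2 : (4 : ZMod m) * (b - i) = 0 := hb
      linear_combination h2 - h1
    · show (4 : ZMod m) * (a + b - i) = 0
      have h1 : (4 : ZMod m) * (a - i) = 0 := ha
      have h2 : (4 : ZMod m) * b = 0 := hb
      linear_combination h1 + h2
    · show (4 : ZMod m) * (b - a) = 0
      have h1 : (4 : ZMod m) * (a - i) = 0 := ha
      have h2 : (4 : ZMod m) * (b - i) = 0 := hb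
      linear_combination h2 - h1

lemma mem_Tsub_r {hm : m = 4 * k} {i j : ZMod m} :
    (r j : DihedralGroup m) ∈ Tsub hm i ↔ (4 : ZMod m) * j = 0 := Iff.rfl

lemma mem_Tsub_sr {hm : m = 4 * k} {i j : ZMod m} :
    (sr j : DihedralGroup m) ∈ Tsub hm i ↔ (4 : ZMod m) * (j - i) = 0 := Iff.rfl

/-- `|T i|` is independent of `i` -/
lemma card_Tsub (hm : m = 4 * k) (i i' : ZMod m) :
    Nat.card (Tsub hm i) = Nat.card (Tsub hm i') := by
  let f : DihedralGroup m ≃ DihedralGroup m :=
    { toFun := fun w => match w with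
        | r j => r j
        | sr j => sr (j - i + i')
      invFun := fun w => match w with
        | r j => r j
        | sr j => sr (j - i' + i)
      left_inv := by
        rintro (j | j)
        · rfl
        · show sr (j - i + i' - i' + i) = sr j
          congr 1; ring
      right_inv := by
        rintro (j | j)
        · rfl
        · show sr (j - i' + i - i + i') = sr j
          congr 1; ring }
  refine Nat.card_congr (f.subtypeEquiv ?_)
  rintro (j | j)
  · rfl
  · show (4 : ZMod m) * (j - i) = 0 ↔ (4 : ZMod m) * (j - i + i' - i') = 0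
    have : j - i + i' - i' = j - i := by ring
    rw [this]

lemma four_kappa (hm : m = 4 * k) : (4 : ZMod m) * (k : ZMod m) = 0 := by
  have : ((4 * k : ℕ) : ZMod m) = 0 := by
    rw [ZMod.natCast_eq_zero_iff, hm]
  push_cast at this
  exact this

lemma hm2 (hm : m = 4 * k) : m = 2 * (2 * k) := by omega

/-- the half of `m` in `ZMod m` -/
lemma tau_eq (hm : m = 4 * k) : ((2 * k : ℕ) : ZMod m) = 2 * (k : ZMod m) := by
  push_cast; ring

/-- An element of `T i` of order four is `r k` or its inverse. -/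
lemma order_four_Tsub (hm : m = 4 * k) (hk : 1 ≤ k) {i : ZMod m} {w : DihedralGroup m}
    (hw : w ∈ Tsub hm i) (ho : orderOf w = 4) : w = r (k : ZMod m) ∨ w = r (-(k : ZMod m)) := by
  have hm' := hm2 hm
  cases w with
  | sr j => rw [orderOf_sr] at ho; omega
  | r j =>
    have h4 : (4 : ZMod m) * j = 0 := hw
    have hsq : (r j : DihedralGroup m) ^ 2 ≠ 1 := by
      intro h
      have := orderOf_dvd_of_pow_eq_one h
      rw [ho] at this
      omega
    have h2j : (2 : ZMod m) * j ≠ 0 := by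
      intro h
      apply hsq
      rw [pow_two, r_mul_r, two_mul] at *
      rw [h]; rfl
    have h1 : (2 * j) + (2 * j) = (0 : ZMod m) := by linear_combination h4
    rcases eq_zero_or_half hm' (by omega) h1 with h0 | h2
    · exact absurd h0 h2j
    · -- 2 j = 2 k
      have h3 : (j - k) + (j - k) = (0 : ZMod m) := by
        rw [tau_eq hm] at h2
        linear_combination h2
      rcases eq_zero_or_half hm' (by omega) h3 with h5 | h6
      · left
        congr 1
        linear_combination h5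
      · right
        congr 1
        rw [tau_eq hm] at h6
        have h7 := four_kappa hm
        linear_combination h6 + h7

/-- if `w` conjugates `sr i` into the four-group of `i`, then `w ∈ T i` -/
lemma mem_Tsub_of_conj (hm : m = 4 * k) {i : ZMod m} {w : DihedralGroup m}
    (h : w * sr i * w⁻¹ = sr i ∨ w * sr i * w⁻¹ = sr (i + ((2 * k : ℕ) : ZMod m))) :
    w ∈ Tsub hm i := by
  have h4 := four_kappa hm
  rw [tau_eq hm] at h
  cases w with
  | r j =>
    rw [mem_Tsub_r]
    simp only [r_mul_sr, inv_r, sr_mul_r] at h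
    rcases h with h | h
    · have := sr.inj h
      linear_combination -2 * this
    · have := sr.inj h
      linear_combination -2 * this - h4
  | sr j =>
    rw [mem_Tsub_sr]
    simp only [sr_mul_sr, inv_sr, r_mul_sr] at h
    rcases h with h | h
    · have := sr.inj h
      linear_combination 2 * this
    · have := sr.inj h
      linear_combination 2 * this + h4

/-- elements of `T i` normalize the four-group -/
lemma conj_of_mem_Tsub (hm : m = 4 * k) (hk : 1 ≤ k) {i : ZMod m} {w : DihedralGroup m}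
    (hw : w ∈ Tsub hm i) :
    w * r ((2 * k : ℕ) : ZMod m) * w⁻¹ = r ((2 * k : ℕ) : ZMod m) ∧
      (w * sr i * w⁻¹ = sr i ∨ w * sr i * w⁻¹ = sr (i + ((2 * k : ℕ) : ZMod m))) := by
  have hm' := hm2 hm
  constructor
  · rw [← r_half_comm hm' w]; simp
  · have h4 := four_kappa hm
    have hn := neg_half hm'
    cases w with
    | r j =>
      have hj : (4 : ZMod m) * j = 0 := hw
      have h1 : (2 * j) + (2 * j) = (0 : ZMod m) := by linear_combination hj
      simp only [r_mul_sr, inv_r, sr_mul_r]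
      rcases eq_zero_or_half hm' (by omega) h1 with h0 | h2
      · left
        congr 1
        linear_combination -h0
      · right
        congr 1
        have : ((2 * k : ℕ) : ZMod m) = - (2 * j) := by
          rw [← hn, h2]; 
        rw [this]; ring
    | sr j =>
      have hj : (4 : ZMod m) * (j - i) = 0 := hw
      have h1 : (2 * (j - i)) + (2 * (j - i)) = (0 : ZMod m) := by linear_combination hj
      simp only [sr_mul_sr, inv_sr, r_mul_sr]
      rcases eq_zero_or_half hm' (by omega) h1 with h0 | h2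
      · left
        congr 1
        linear_combination h0
      · right
        congr 1
        rw [← h2]; ring

end Dih

section Gen

variable {X : Type*} [Group X]

lemma map_klein [Finite X] {V : Subgroup X} (hV : IsKleinFour V) (g : X) :
    IsKleinFour (V.map (MulAut.conj g).toMonoidHom) := by
  let e := V.equivMapOfInjective (MulAut.conj g).toMonoidHom (MulAut.conj g).injective
  refine ⟨?_, ?_⟩
  · rw [← Nat.card_congr e.toEquiv]
    exact hV.card_four
  · rw [← Monoid.exponent_eq_of_mulEquiv e]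
    exact hV.exponent_two

lemma card_map_conj (V : Subgroup X) (g : X) :
    Nat.card (V.map (MulAut.conj g).toMonoidHom) = Nat.card V :=
  Subgroup.card_map_of_injective (MulAut.conj g).injective

lemma mem_normalizer_of_conj_le [Finite X] {H : Subgroup X} {g : X}
    (h : ∀ x ∈ H, g * x * g⁻¹ ∈ H) : g ∈ Subgroup.normalizer (H : Set X) := by
  rw [Subgroup.mem_normalizer_iff_map_conj_eq]
  apply Subgroup.eq_of_le_of_card_ge
  · rintro _ ⟨x, hx, rfl⟩
    exact h x hx
  · exact le_of_eq (Subgroup.card_map_of_injective (MulAut.conj g).injective).symm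

lemma conj_mem_of_normalizer {H : Subgroup X} {g : X} (hg : g ∈ Subgroup.normalizer (H : Set X))
    {x : X} (hx : x ∈ H) : g * x * g⁻¹ ∈ H :=
  (Subgroup.mem_normalizer_iff.1 hg x).1 hx

/-- Two `2`-subgroups of `H` of the maximal size are `H`-conjugate. -/
lemma conj_of_max [Finite X] {H A B : Subgroup X} (hA : A ≤ H) (hB : B ≤ H)
    (pA : IsPGroup 2 A) (pB : IsPGroup 2 B) (hc : Nat.card A = Nat.card B)
    (hmax : ∀ R : Subgroup X, R ≤ H → IsPGroup 2 R → Nat.card R ≤ Nat.card A) :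
    ∃ c ∈ H, B.map (MulAut.conj c).toMonoidHom = A := by
  have pA' : IsPGroup 2 (A.subgroupOf H) := pA.comap_subtype
  have pB' : IsPGroup 2 (B.subgroupOf H) := pB.comap_subtype
  obtain ⟨Qa, hQa⟩ := pA'.exists_le_sylow
  obtain ⟨Qb, hQb⟩ := pB'.exists_le_sylow
  have key : ∀ (Q : Sylow 2 H) (C : Subgroup X), C ≤ H → C.subgroupOf H ≤ Q →
      Nat.card C = Nat.card A → (Q : Subgroup H).map H.subtype = C := by
    intro Q C hC hCQ hcard
    symm
    apply Subgroup.eq_of_le_of_card_ge
    · intro x hx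
      exact ⟨⟨x, hC hx⟩, hCQ (Subgroup.mem_subgroupOf.2 hx), rfl⟩
    · rw [hcard]
      apply hmax
      · rintro _ ⟨x, _, rfl⟩
        exact x.2
      · exact Q.isPGroup'.map _
  have ea := key Qa A hA hQa rfl
  have eb := key Qb B hB hQb hc.symm
  obtain ⟨c, hc'⟩ := MulAction.exists_smul_eq H Qb Qa
  refine ⟨c, c.2, ?_⟩
  rw [← ea, ← eb, ← hc', Sylow.coe_subgroup_smul]
  ext x
  simp only [Subgroup.mem_map, MulEquiv.coe_toMonoidHom, MulAut.conj_apply, Subgroup.coe_subtype]
  constructor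
  · rintro ⟨_, ⟨y, hy, rfl⟩, rfl⟩
    refine ⟨c * y * c⁻¹, ?_, by simp⟩
    refine Subgroup.mem_pointwise_smul_iff_inv_smul_mem.2 ?_
    simpa [MulAut.smul_def, mul_assoc] using hy
  · rintro ⟨y, hy, rfl⟩
    have hy' := Subgroup.mem_pointwise_smul_iff_inv_smul_mem.1 hy
    refine ⟨_, ⟨c⁻¹ * y * c, ?_, rfl⟩, by simp [mul_assoc]⟩
    simpa [MulAut.smul_def, mul_assoc] using hy'

end Gen

/-- the image of a rotation -/
def φ' {X : Type*} [Group X] (S : Sylow 2 X) {m : ℕ} (eS : (S : Subgroup X) ≃* DihedralGroup m)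
    (c : ZMod m) : X := phi S eS (r c)

section Main

variable {X : Type*} [Group X] [Finite X] (S : Sylow 2 X) {m k : ℕ}
  (eS : (S : Subgroup X) ≃* DihedralGroup m) (hm : m = 4 * k) (hk : 1 ≤ k)

local notation "φ" => phi S eS
local notation "τ" => ((2 * k : ℕ) : ZMod m)
local notation "κ" => ((k : ℕ) : ZMod m)

include hm hk in
lemma hPP (i : ZMod m) : IsPP (φ (r τ)) (φ (sr i)) := by
  have hm' := hm2 hm
  have hn : 1 ≤ 2 * k := by omega
  refine ⟨?_, ?_, ?_, ?_, ?_, ?_⟩
  · rw [← map_one φ]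
    exact fun e => r_half_ne_one hm' hn (phi_inj S eS e)
  · rw [← map_one φ]
    intro e
    have := phi_inj S eS e
    cases this
  · intro e
    have := phi_inj S eS e
    cases this
  · rw [← map_mul, r_half_mul_self hm', map_one]
  · rw [← map_mul, sr_mul_self, map_one]
  · rw [← map_mul, ← map_mul, r_half_comm hm']

/-- The four-groups. -/
def U (i : ZMod m) : Subgroup X := fourOf _ _ (hPP S eS hm hk i)

lemma U_klein (i : ZMod m) : IsKleinFour (U S eS hm hk i) := isKleinFour_fourOf _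

lemma z_mem_U (i : ZMod m) : φ (r τ) ∈ U S eS hm hk i := left_mem _

lemma sr_mem_U (i : ZMod m) : φ (sr i) ∈ U S eS hm hk i := right_mem _

lemma U_le (i : ZMod m) : U S eS hm hk i ≤ (S : Subgroup X) := by
  rintro x (rfl | rfl | rfl | rfl)
  · exact Subgroup.one_mem _
  · exact phi_mem S eS _
  · exact phi_mem S eS _
  · exact Subgroup.mul_mem _ (phi_mem S eS _) (phi_mem S eS _)

include hm hk in
/-- Every four-subgroup of `S` is one of the `U i`. -/
lemma exists_U {V : Subgroup X} (hV : IsKleinFour V) (hle : V ≤ (S : Subgroup X)) :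
    ∃ i, U S eS hm hk i = V := by
  have hm' := hm2 hm
  have hn : 1 ≤ 2 * k := by omega
  obtain ⟨a, b, hP, rfl⟩ := exists_pair_of_isKleinFour V hV
  have ha := hle (left_mem hP)
  have hb := hle (right_mem hP)
  obtain ⟨w₁, rfl⟩ := exists_phi S eS ha
  obtain ⟨w₂, rfl⟩ := exists_phi S eS hb
  have h1 : w₁ * w₁ = 1 := phi_inj S eS (by rw [map_mul, hP.aa, map_one])
  have h2 : w₂ * w₂ = 1 := phi_inj S eS (by rw [map_mul, hP.bb, map_one])
  have h1' : w₁ ≠ 1 := fun e => hP.a1 (by rw [e, map_one])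
  have h2' : w₂ ≠ 1 := fun e => hP.b1 (by rw [e, map_one])
  have h3 : w₁ ≠ w₂ := fun e => hP.ab (by rw [e])
  have h4 : w₁ * w₂ = w₂ * w₁ := phi_inj S eS (by rw [map_mul, map_mul, hP.comm])
  have key : ∃ i, φ (r τ) ∈ fourOf _ _ hP ∧ φ (sr i) ∈ fourOf _ _ hP := by
    cases w₁ with
    | r j =>
      have hj := r_eq_half_of_sq hm' hn h1 h1'
      cases w₂ with
      | r j' =>
        have hj' := r_eq_half_of_sq hm' hn h2 h2'
        exact absurd (by rw [hj, hj']) h3
      | sr i =>
        exact ⟨i, by rw [← hj]; exact left_mem hP, right_mem hP⟩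
    | sr i =>
      cases w₂ with
      | r j' =>
        have hj' := r_eq_half_of_sq hm' hn h2 h2'
        exact ⟨i, by rw [← hj']; exact right_mem hP, left_mem hP⟩
      | sr i' =>
        refine ⟨i, ?_, left_mem hP⟩
        rw [sr_mul_sr, sr_mul_sr] at h4
        have h5 := r.inj h4
        have h6 : (i' - i) + (i' - i) = (0 : ZMod m) := by linear_combination h5
        have h7 : i' - i ≠ 0 := by
          intro e
          apply h3
          congr 1
          linear_combination -e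
        have h8 := (eq_zero_or_half hm' hn h6).resolve_left h7
        have : φ (r τ) = φ (sr i) * φ (sr i') := by
          rw [← map_mul, sr_mul_sr, ← h8]
        rw [this]
        exact Subgroup.mul_mem _ (left_mem hP) (right_mem hP)
  obtain ⟨i, hi1, hi2⟩ := key
  exact ⟨i, (fourOf_eq_iff _ hV).2 ⟨hi1, hi2⟩⟩

lemma map_U (i c : ZMod m) :
    (U S eS hm hk i).map (MulAut.conj (φ (r c))).toMonoidHom = U S eS hm hk (i - 2 * c) := by
  symm
  have hm' := hm2 hm
  refine (fourOf_eq_iff _ (map_klein (U_klein S eS hm hk i) _)).2 ⟨?_, ?_⟩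
  · refine ⟨φ (r τ), z_mem_U S eS hm hk i, ?_⟩
    simp only [MulEquiv.coe_toMonoidHom, MulAut.conj_apply]
    rw [← map_inv, ← map_mul, ← map_mul]
    congr 1
    rw [← r_half_comm hm']
    simp
  · refine ⟨φ (sr i), sr_mem_U S eS hm hk i, ?_⟩
    simp only [MulEquiv.coe_toMonoidHom, MulAut.conj_apply]
    rw [← map_inv, ← map_mul, ← map_mul]
    congr 1
    simp only [r_mul_sr, inv_r, sr_mul_r]
    congr 1
    ring

/-- The normalizers in `S`. -/
def T (i : ZMod m) : Subgroup X := (Tsub hm i).map φ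

lemma T_card (i : ZMod m) : Nat.card (T S eS hm i) = Nat.card (Tsub hm 0) := by
  rw [T, Subgroup.card_map_of_injective (phi_inj S eS), card_Tsub hm i 0]

lemma T_le (i : ZMod m) : T S eS hm i ≤ (S : Subgroup X) := by
  rintro _ ⟨w, _, rfl⟩
  exact phi_mem S eS w

lemma T_normalizes (i : ZMod m) : T S eS hm i ≤ Subgroup.normalizer (U S eS hm hk i : Set X) := by
  rintro _ ⟨w, hw, rfl⟩
  apply mem_normalizer_of_conj_le
  have hm' := hm2 hm
  obtain ⟨h1, h2⟩ := conj_of_mem_Tsub hm hk hw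
  have hz : φ w * φ (r τ) * (φ w)⁻¹ = φ (r τ) := by
    rw [← map_inv, ← map_mul, ← map_mul, h1]
  have hs : φ w * φ (sr i) * (φ w)⁻¹ ∈ U S eS hm hk i := by
    rw [← map_inv, ← map_mul, ← map_mul]
    rcases h2 with h2 | h2
    · rw [h2]; exact sr_mem_U S eS hm hk i
    · rw [h2]
      have : φ (sr (i + τ)) = φ (r τ) * φ (sr i) := by
        rw [← map_mul, r_mul_sr, sub_eq_add_neg, neg_half hm']
      rw [this]
      exact Subgroup.mul_mem _ (z_mem_U S eS hm hk i) (sr_mem_U S eS hm hk i)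
  rintro x (rfl | rfl | rfl | rfl)
  · simp
  · rw [hz]; exact z_mem_U S eS hm hk i
  · exact hs
  · have : φ w * (φ (r τ) * φ (sr i)) * (φ w)⁻¹ =
        (φ w * φ (r τ) * (φ w)⁻¹) * (φ w * φ (sr i) * (φ w)⁻¹) := by group
    rw [this, hz]
    exact Subgroup.mul_mem _ (z_mem_U S eS hm hk i) hs

lemma inf_le_T (i : ZMod m) {x : X} (hx : x ∈ (S : Subgroup X))
    (hN : x ∈ Subgroup.normalizer (U S eS hm hk i : Set X)) : x ∈ T S eS hm i := by
  obtain ⟨w, rfl⟩ := exists_phi S eS hx
  refine ⟨w, ?_, rfl⟩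
  have hm' := hm2 hm
  have h1 := conj_mem_of_normalizer hN (sr_mem_U S eS hm hk i)
  rw [← map_inv, ← map_mul, ← map_mul] at h1
  have hsr : ∃ i', w * sr i * w⁻¹ = sr i' := by
    cases w with
    | r j => exact ⟨i - j + -j, by simp only [r_mul_sr, inv_r, sr_mul_r]⟩
    | sr j => exact ⟨j - (i - j), by simp only [sr_mul_sr, inv_sr, r_mul_sr]⟩
  obtain ⟨i', hi'⟩ := hsr
  rw [hi'] at h1
  apply mem_Tsub_of_conj hm
  rw [hi']
  rcases h1 with h1 | h1 | h1 | h1
  · rw [← map_one φ] at h1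
    have := phi_inj S eS h1
    cases this
  · have := phi_inj S eS h1
    cases this
  · left; rw [phi_inj S eS h1]
  · right
    rw [← map_mul, r_mul_sr] at h1
    rw [phi_inj S eS h1, sub_eq_add_neg, neg_half hm']

/-- bound on 2-subgroups of the normalizer of `U i` -/
lemma card_le_of_normalizes (i : ZMod m) (R : Subgroup X)
    (hR : R ≤ Subgroup.normalizer (U S eS hm hk i : Set X)) (pR : IsPGroup 2 R) :
    Nat.card R ≤ Nat.card (Tsub hm 0) := by
  have pU : IsPGroup 2 (U S eS hm hk i) := S.isPGroup'.to_le (U_le S eS hm hk i)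
  have hsup : IsPGroup 2 (R ⊔ U S eS hm hk i : Subgroup X) :=
    IsPGroup.to_sup_of_normal_right' pR pU hR
  obtain ⟨x, hx⟩ := conj_into_sylow S hsup
  have hV := map_klein (U_klein S eS hm hk i) x
  have hle : (U S eS hm hk i).map (MulAut.conj x).toMonoidHom ≤ (S : Subgroup X) := by
    rintro _ ⟨u, hu, rfl⟩
    exact hx u (Subgroup.mem_sup_right hu)
  obtain ⟨i', hi'⟩ := exists_U S eS hm hk hV hle
  rw [← card_map_conj R x, ← T_card S eS hm i']
  apply Subgroup.card_le_of_le
  rintro _ ⟨t, ht, rfl⟩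
  apply inf_le_T S eS hm hk i' (hx t (Subgroup.mem_sup_left ht))
  apply mem_normalizer_of_conj_le
  rw [hi']
  rintro _ ⟨u, hu, rfl⟩
  refine ⟨t * u * t⁻¹, conj_mem_of_normalizer (hR ht) hu, ?_⟩
  simp only [MulEquiv.coe_toMonoidHom, MulAut.conj_apply]
  group

/-- parity in `ZMod m` -/
lemma parity (hm : m = 4 * k) (c d : ZMod m) : 2 * c ≠ 1 + 2 * d := by
  intro h
  have hdvd : 2 ∣ m := ⟨2 * k, by omega⟩
  have := congrArg (ZMod.castHom hdvd (ZMod 2)) h
  simp only [map_mul, map_add, map_one, map_ofNat] at this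
  have h2 : (2 : ZMod 2) = 0 := rfl
  rw [h2] at this
  simp at this

/-- The cyclic maximal subgroup. -/
def P : Subgroup X := Subgroup.zpowers (φ (r 1))

lemma mem_P {x : X} (hx : x ∈ P S eS) : ∃ c : ZMod m, x = φ (r c) := by
  obtain ⟨n, rfl⟩ := hx
  exact ⟨n, by simp [← map_zpow]⟩

lemma r_mem_P [NeZero m] (c : ZMod m) : φ (r c) ∈ P S eS := by
  refine ⟨(c.val : ℤ), ?_⟩
  simp only [← map_zpow, r_one_zpow]
  simp

lemma card_P [NeZero m] : Nat.card (P S eS) = m := by
  rw [P, Nat.card_zpowers, phi_orderOf, orderOf_r_one]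

lemma P_le : P S eS ≤ (S : Subgroup X) := by
  rw [P, Subgroup.zpowers_le]
  exact phi_mem S eS _

include hm hk in
lemma order_u : orderOf (r κ : DihedralGroup m) = 4 := by
  have hm' := hm2 hm
  have hn : 1 ≤ 2 * k := by omega
  have h2 : (r κ : DihedralGroup m) ^ 2 = r τ := by
    rw [pow_two, r_mul_r, tau_eq hm, two_mul]
  have h := orderOf_eq_prime_pow (p := 2) (n := 1) (x := (r κ : DihedralGroup m))
    (by rw [pow_one, h2]; exact r_half_ne_one hm' hn)
    (by
      have : (r κ : DihedralGroup m) ^ 2 ^ (1 + 1) = r τ * r τ := by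
        rw [show (2 : ℕ) ^ (1 + 1) = 2 + 2 by norm_num, pow_add, h2]
      rw [this, r_half_mul_self hm'])
  simpa using h

/-- the element of order 4 -/
def y : X := φ (r κ)

include hm hk in
lemma y_order : orderOf (y S eS (k := k)) = 4 := by
  rw [y, phi_orderOf]; exact order_u hm hk

/-- its centralizer -/
abbrev Cy : Subgroup X := Subgroup.centralizer ({y S eS (k := k)} : Set X)

lemma mem_Cy {g : X} : g ∈ Cy S eS (k := k) ↔ y S eS (k := k) * g = g * y S eS (k := k) := by
  rw [Subgroup.mem_centralizer_iff]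
  simp

lemma P_le_Cy : P S eS ≤ Cy S eS (k := k) := by
  intro x hx
  obtain ⟨c, rfl⟩ := mem_P S eS hx
  rw [mem_Cy, y, ← map_mul, ← map_mul, r_mul_r, r_mul_r, add_comm]

include hm hk in
/-- `P` is a Sylow subgroup of `C(y)`. -/
lemma exists_sylow_Cy : ∃ T₀ : Sylow 2 (Cy S eS (k := k)),
    (T₀ : Subgroup (Cy S eS (k := k))).map (Cy S eS (k := k)).subtype = P S eS := by
  have : NeZero m := ⟨by omega⟩
  have pP : IsPGroup 2 (P S eS) := S.isPGroup'.to_le (P_le S eS)
  have pP' : IsPGroup 2 ((P S eS).subgroupOf (Cy S eS (k := k))) := pP.comap_subtype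
  obtain ⟨T₀, hT₀⟩ := pP'.exists_le_sylow
  refine ⟨T₀, ?_⟩
  set R := (T₀ : Subgroup (Cy S eS (k := k))).map (Cy S eS (k := k)).subtype with hR
  have hPR : P S eS ≤ R := by
    intro x hx
    exact ⟨⟨x, P_le_Cy S eS hx⟩, hT₀ (Subgroup.mem_subgroupOf.2 hx), rfl⟩
  have pR : IsPGroup 2 R := T₀.isPGroup'.map _
  by_contra hne
  -- then `|R| ≥ 2m`
  have hd : Nat.card (P S eS) ∣ Nat.card R := Subgroup.card_dvd_of_le hPR
  rw [card_P] at hd
  have hlt : Nat.card R ≠ m := by
    intro e
    apply hne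
    symm
    apply Subgroup.eq_of_le_of_card_ge hPR
    rw [card_P, e]
  obtain ⟨q, hq⟩ := hd
  have hq2 : 2 ≤ q := by
    have hpos : 0 < Nat.card R := Nat.card_pos
    rcases q with _ | _ | q
    · simp at hq; omega
    · simp at hq; omega
    · omega
  obtain ⟨x, hx⟩ := conj_into_sylow S pR
  have hle : R.map (MulAut.conj x).toMonoidHom ≤ (S : Subgroup X) := by
    rintro _ ⟨t, ht, rfl⟩
    exact hx t ht
  have hcS : Nat.card (S : Subgroup X) = 2 * m := card_S S eS
  have hcm := Subgroup.card_le_of_le hle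
  rw [card_map_conj, hcS, hq] at hcm
  have hmpos : 0 < m := by omega
  have heq : R.map (MulAut.conj x).toMonoidHom = (S : Subgroup X) := by
    apply Subgroup.eq_of_le_of_card_ge hle
    rw [card_map_conj, hcS, hq]
    nlinarith
  -- the conjugate of `y` is central in `S`
  have hyP : y S eS (k := k) ∈ R := hPR (r_mem_P S eS _)
  obtain ⟨w, hw⟩ := exists_phi S eS (hx _ hyP)
  have hwo : orderOf w = 4 := by
    have h1 := y_order S eS hm hk
    have h2 := orderOf_injective (MulAut.conj x).toMonoidHom (MulAut.conj x).injective (y S eS (k := k))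
    simp only [MulEquiv.coe_toMonoidHom, MulAut.conj_apply] at h2
    rw [← hw, phi_orderOf, h1] at h2
    exact h2
  have hcent : ∀ v : DihedralGroup m, w * v = v * w := by
    intro v
    apply phi_inj S eS
    rw [map_mul, map_mul]
    have hmem := phi_mem S eS v
    rw [← heq] at hmem
    obtain ⟨t, ht, hte⟩ := hmem
    simp only [MulEquiv.coe_toMonoidHom, MulAut.conj_apply] at hte
    rw [← hte, hw]
    obtain ⟨⟨t', ht'C⟩, _, rfl⟩ := ht
    have hcomm := (mem_Cy S eS).1 ht'C
    show x * y S eS (k := k) * x⁻¹ * (x * t' * x⁻¹) = x * t' * x⁻¹ * (x * y S eS (k := k) * x⁻¹)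
    calc x * y S eS (k := k) * x⁻¹ * (x * t' * x⁻¹) = x * (y S eS (k := k) * t') * x⁻¹ := by group
      _ = x * (t' * y S eS (k := k)) * x⁻¹ := by rw [hcomm]
      _ = _ := by group
  cases w with
  | sr i => rw [orderOf_sr] at hwo; omega
  | r j =>
    have h1 := hcent (sr 0)
    rw [r_mul_sr, sr_mul_r] at h1
    have h2 := sr.inj h1
    have h3 : (r j : DihedralGroup m) ^ 2 = 1 := by
      rw [pow_two, r_mul_r]
      have : j + j = 0 := by linear_combination -h2
      rw [this]; rfl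
    have := orderOf_dvd_of_pow_eq_one h3
    rw [hwo] at this
    omega

lemma cyclic_T₀ (T₀ : Sylow 2 (Cy S eS (k := k)))
    (hT₀ : (T₀ : Subgroup (Cy S eS (k := k))).map (Cy S eS (k := k)).subtype = P S eS) :
    IsCyclic (T₀ : Subgroup (Cy S eS (k := k))) := by
  have hmem : ∀ t : (T₀ : Subgroup (Cy S eS (k := k))), ((t : Cy S eS (k := k)) : X) ∈ P S eS := by
    intro t
    rw [← hT₀]
    exact ⟨t, t.2, rfl⟩
  have : IsCyclic (P S eS) := by
    rw [P]; infer_instance
  let f : (T₀ : Subgroup (Cy S eS (k := k))) →* P S eS :=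
    { toFun := fun t => ⟨((t : Cy S eS (k := k)) : X), hmem t⟩
      map_one' := rfl
      map_mul' := fun _ _ => rfl }
  refine isCyclic_of_injective f ?_
  intro a b hab
  have := congrArg Subtype.val hab
  exact Subtype.ext (Subtype.ext this)

lemma sr_inverts (j : ZMod m) :
    φ (sr j) * y S eS (k := k) * (φ (sr j))⁻¹ = (y S eS (k := k))⁻¹ := by
  rw [y, ← map_inv, ← map_inv, ← map_mul, ← map_mul]
  congr 1
  simp only [sr_mul_r, inv_sr, sr_mul_sr, inv_r]
  congr 1
  ring

include hm hk in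
/-- elements of `C(y)` do not fuse `sr 0` into the four-group `U 1`. -/
lemma C_analysis {g : X} (hg : g ∈ Cy S eS (k := k)) {b : X} (hb : b ∈ U S eS hm hk 1) :
    g * φ (sr 0) * g⁻¹ ≠ b := by
  intro hgb
  have : NeZero m := ⟨by omega⟩
  have hm' := hm2 hm
  obtain ⟨T₀, hT₀⟩ := exists_sylow_Cy S eS hm hk
  have hcyc := cyclic_T₀ S eS T₀ hT₀
  obtain ⟨M₀, hM₀n, hM₀o, hsup⟩ := Cfsg.Agent.Lib.Char.QuatDade.exists_complement T₀ hcyc
  -- odd elements lie in M₀
  have hodd : ∀ c' : Cy S eS (k := k), Odd (orderOf c') → c' ∈ M₀ := by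
    intro c' hc'
    have hmem : c' ∈ ((M₀ ⊔ (T₀ : Subgroup (Cy S eS (k := k))) : Subgroup _) : Set _) := by
      rw [hsup]; trivial
    rw [Subgroup.normal_mul] at hmem
    obtain ⟨m₁, hm₁, t₁, ht₁, rfl⟩ := Set.mem_mul.1 hmem
    obtain ⟨f, hf⟩ := T₀.isPGroup' ⟨t₁, ht₁⟩
    have hf' : t₁ ^ 2 ^ f = 1 := congrArg Subtype.val hf
    rw [← QuotientGroup.eq_one_iff]
    have h1 : ((m₁ * t₁ : Cy S eS (k := k)) : Cy S eS (k := k) ⧸ M₀) = (t₁ : Cy S eS (k := k) ⧸ M₀) := by
      rw [QuotientGroup.mk_mul, (QuotientGroup.eq_one_iff m₁).2 hm₁, one_mul]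
    have h2 : ((m₁ * t₁ : Cy S eS (k := k)) : Cy S eS (k := k) ⧸ M₀) ^ 2 ^ f = 1 := by
      rw [h1, ← QuotientGroup.mk_pow, hf']; rfl
    have h3 : ((m₁ * t₁ : Cy S eS (k := k)) : Cy S eS (k := k) ⧸ M₀) ^ orderOf (m₁ * t₁) = 1 := by
      rw [← QuotientGroup.mk_pow, pow_orderOf_eq_one]; rfl
    have h4 := Nat.dvd_gcd (orderOf_dvd_of_pow_eq_one h2) (orderOf_dvd_of_pow_eq_one h3)
    have h5 : Nat.gcd (2 ^ f) (orderOf (m₁ * t₁)) = 1 :=
      Nat.Coprime.pow_left f (hc'.coprime_two_left)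
    rw [h5, Nat.dvd_one, orderOf_eq_one_iff] at h4
    exact h4
  -- factor g
  have hgm : (⟨g, hg⟩ : Cy S eS (k := k)) ∈
      ((M₀ ⊔ (T₀ : Subgroup (Cy S eS (k := k))) : Subgroup _) : Set _) := by
    rw [hsup]; trivial
  rw [Subgroup.normal_mul] at hgm
  obtain ⟨m₀, hm₀, t₀, ht₀, hgf⟩ := Set.mem_mul.1 hgm
  have htP : (t₀ : X) ∈ P S eS := by
    rw [← hT₀]; exact ⟨t₀, ht₀, rfl⟩
  obtain ⟨c, hc⟩ := mem_P S eS htP
  have hge : g = (m₀ : X) * (t₀ : X) := by
    have := congrArg Subtype.val hgf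
    exact this.symm
  set j : ZMod m := 0 - c + -c with hj
  have ha' : (t₀ : X) * φ (sr 0) * (t₀ : X)⁻¹ = φ (sr j) := by
    rw [hc, ← map_inv, ← map_mul, ← map_mul]
    congr 1
  have hb' : (m₀ : X) * φ (sr j) * (m₀ : X)⁻¹ = b := by
    rw [← hgb, ← ha', hge]
    group
  set a' := φ (sr j) with ha'def
  have hbS : b ∈ (S : Subgroup X) := U_le S eS hm hk 1 hb
  have ha'S : a' ∈ (S : Subgroup X) := phi_mem S eS _
  -- the conjugate of m₀⁻¹ lies in C(y)
  have hy' : a'⁻¹ * y S eS (k := k) * a' = (y S eS (k := k))⁻¹ := by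
    have h1 := sr_inverts S eS (k := k) j
    have h2 : a'⁻¹ = a' := by
      rw [ha'def, ← map_inv, inv_sr]
    rw [h2]
    nth_rewrite 2 [← h2]
    exact h1
  have hm₀C : (y S eS (k := k)) * (m₀ : X) = (m₀ : X) * y S eS (k := k) := (mem_Cy S eS).1 m₀.2
  have hmem1 : a' * (m₀ : X)⁻¹ * a'⁻¹ ∈ Cy S eS (k := k) := by
    rw [mem_Cy]
    have h1 : y S eS (k := k) * a' = a' * (y S eS (k := k))⁻¹ := by
      rw [← hy']; group
    have h2 : a'⁻¹ * y S eS (k := k) = (y S eS (k := k))⁻¹ * a'⁻¹ := by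
      rw [← hy']; group
    have h3 : (y S eS (k := k))⁻¹ * (m₀ : X)⁻¹ = (m₀ : X)⁻¹ * (y S eS (k := k))⁻¹ := by
      rw [← mul_inv_rev, ← mul_inv_rev, hm₀C]
    calc y S eS (k := k) * (a' * (m₀ : X)⁻¹ * a'⁻¹)
        = (y S eS (k := k) * a') * (m₀ : X)⁻¹ * a'⁻¹ := by group
      _ = a' * ((y S eS (k := k))⁻¹ * (m₀ : X)⁻¹) * a'⁻¹ := by rw [h1]; group
      _ = a' * ((m₀ : X)⁻¹ * (y S eS (k := k))⁻¹) * a'⁻¹ := by rw [h3]
      _ = a' * (m₀ : X)⁻¹ * ((y S eS (k := k))⁻¹ * a'⁻¹) := by group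
      _ = a' * (m₀ : X)⁻¹ * (a'⁻¹ * y S eS (k := k)) := by rw [h2]
      _ = _ := by group
  have hoddm : Odd (orderOf (m₀ : Cy S eS (k := k))) := by
    have h1 : orderOf (⟨m₀, hm₀⟩ : M₀) ∣ Nat.card M₀ := orderOf_dvd_natCard _
    rw [Subgroup.orderOf_mk] at h1
    exact hM₀o.of_dvd_nat h1
  have hoddc : Odd (orderOf (⟨_, hmem1⟩ : Cy S eS (k := k))) := by
    rw [Subgroup.orderOf_mk]
    have h2 := orderOf_injective (MulAut.conj a').toMonoidHom (MulAut.conj a').injective (m₀ : X)⁻¹
    simp only [MulEquiv.coe_toMonoidHom, MulAut.conj_apply] at h2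
    rw [h2, orderOf_inv, Subgroup.orderOf_coe]
    exact hoddm
  have hinM := hodd _ hoddc
  have he2 := M₀.mul_mem hm₀ hinM
  -- the commutator is trivial
  set e₂ : Cy S eS (k := k) := m₀ * ⟨_, hmem1⟩ with he₂
  have hee : (e₂ : X) = b * a'⁻¹ := by
    rw [← hb']
    show (m₀ : X) * (a' * (m₀ : X)⁻¹ * a'⁻¹) = _
    group
  have he2S : (e₂ : X) ∈ (S : Subgroup X) := by
    rw [hee]
    exact Subgroup.mul_mem _ hbS (Subgroup.inv_mem _ ha'S)
  have he1 : e₂ = 1 := by
    have h1 : Odd (orderOf e₂) := by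
      have h1 : orderOf (⟨e₂, he2⟩ : M₀) ∣ Nat.card M₀ := orderOf_dvd_natCard _
      rw [Subgroup.orderOf_mk] at h1
      exact hM₀o.of_dvd_nat h1
    obtain ⟨f, hf⟩ := S.isPGroup' ⟨(e₂ : X), he2S⟩
    have hf' : (e₂ : X) ^ 2 ^ f = 1 := congrArg Subtype.val hf
    have hf2 : e₂ ^ 2 ^ f = 1 := Subtype.ext hf'
    have h4 := orderOf_dvd_of_pow_eq_one hf2
    have h5 : Nat.Coprime (orderOf e₂) (2 ^ f) := Nat.Coprime.pow_right f h1.coprime_two_right
    have h6 := Nat.Coprime.eq_one_of_dvd h5 h4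
    exact orderOf_eq_one_iff.1 h6
  have hba : b = a' := by
    have h1 : b * a'⁻¹ = 1 := by
      rw [← hee, he1]; rfl
    exact mul_inv_eq_one.1 h1
  -- contradiction with the shape of U 1
  rw [hba] at hb
  rcases hb with h1 | h1 | h1 | h1
  · rw [← map_one φ] at h1
    have := phi_inj S eS h1
    cases this
  · have := phi_inj S eS h1
    cases this
  · have h2 := sr.inj (phi_inj S eS h1)
    apply parity hm (-c) 0
    rw [hj] at h2
    linear_combination h2
  · rw [← map_mul, r_mul_sr] at h1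
    have h2 := sr.inj (phi_inj S eS h1)
    apply parity hm (-c) (-(k : ZMod m))
    rw [hj, tau_eq hm] at h2
    linear_combination h2

include hm hk in
/-- The two four-groups are not conjugate. -/
lemma no_conj {x : X}
    (hx : (U S eS hm hk 0).map (MulAut.conj x).toMonoidHom = U S eS hm hk 1) : False := by
  set H := Subgroup.normalizer (U S eS hm hk 1 : Set X) with hH
  have hcard : Nat.card ((T S eS hm 0).map (MulAut.conj x).toMonoidHom) = Nat.card (T S eS hm 1) := by
    rw [card_map_conj, T_card, T_card]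
  have hB : (T S eS hm 0).map (MulAut.conj x).toMonoidHom ≤ H := by
    rintro _ ⟨t, ht, rfl⟩
    apply mem_normalizer_of_conj_le
    rw [← hx]
    rintro _ ⟨u, hu, rfl⟩
    refine ⟨t * u * t⁻¹, conj_mem_of_normalizer (T_normalizes S eS hm hk 0 ht) hu, ?_⟩
    simp only [MulEquiv.coe_toMonoidHom, MulAut.conj_apply]
    group
  obtain ⟨c, hcH, hc⟩ := conj_of_max (T_normalizes S eS hm hk 1) hB
    (S.isPGroup'.to_le (T_le S eS hm 1))
    ((S.isPGroup'.to_le (T_le S eS hm 0)).map _) hcard.symm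
    (fun R hR pR => by
      rw [T_card]
      exact card_le_of_normalizes S eS hm hk 1 R hR pR)
  set g' := c * x with hg'
  have hgy : g' * y S eS (k := k) * g'⁻¹ ∈ T S eS hm 1 := by
    rw [← hc]
    refine ⟨x * y S eS (k := k) * x⁻¹, ⟨y S eS (k := k), ⟨r κ, ?_, rfl⟩, rfl⟩, ?_⟩
    · exact four_kappa hm
    · simp only [MulEquiv.coe_toMonoidHom, MulAut.conj_apply, hg']
      group
  obtain ⟨w, hw, hwe⟩ := hgy
  have hwo : orderOf w = 4 := by
    have h1 := y_order S eS hm hk
    have h2 := orderOf_injective (MulAut.conj g').toMonoidHom (MulAut.conj g').injective (y S eS (k := k))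
    simp only [MulEquiv.coe_toMonoidHom, MulAut.conj_apply] at h2
    rw [← hwe, phi_orderOf, h1] at h2
    exact h2
  have hU : ∀ u ∈ U S eS hm hk 0, g' * u * g'⁻¹ ∈ U S eS hm hk 1 := by
    intro u hu
    have h1 : x * u * x⁻¹ ∈ U S eS hm hk 1 := by
      rw [← hx]
      exact ⟨u, hu, rfl⟩
    have h2 := conj_mem_of_normalizer hcH h1
    have h3 : g' * u * g'⁻¹ = c * (x * u * x⁻¹) * c⁻¹ := by rw [hg']; group
    rw [h3]; exact h2
  rcases order_four_Tsub hm hk hw hwo with h | h
  · -- centralizes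
    have hC : g' ∈ Cy S eS (k := k) := by
      rw [mem_Cy]
      have h1 : g' * y S eS (k := k) * g'⁻¹ = y S eS (k := k) := by
        rw [← hwe, h]; rfl
      calc y S eS (k := k) * g' = (g' * y S eS (k := k) * g'⁻¹) * g' := by rw [h1]
        _ = _ := by group
    exact C_analysis S eS hm hk hC (hU _ (sr_mem_U S eS hm hk 0)) rfl
  · -- inverts
    have h1 : g' * y S eS (k := k) * g'⁻¹ = (y S eS (k := k))⁻¹ := by
      rw [← hwe, h, y, ← map_inv, inv_r]
    have h2 := sr_inverts S eS (k := k) 0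
    have hainv : (φ (sr 0 : DihedralGroup m))⁻¹ = φ (sr 0) := by
      rw [← map_inv, inv_sr]
    have hC : g' * φ (sr 0) ∈ Cy S eS (k := k) := by
      rw [mem_Cy]
      have h3 : (g' * φ (sr 0)) * y S eS (k := k) * (g' * φ (sr 0))⁻¹ = y S eS (k := k) := by
        calc (g' * φ (sr 0)) * y S eS (k := k) * (g' * φ (sr 0))⁻¹
            = g' * (φ (sr 0) * y S eS (k := k) * (φ (sr 0))⁻¹) * g'⁻¹ := by group
          _ = g' * (y S eS (k := k))⁻¹ * g'⁻¹ := by rw [h2]
          _ = (g' * y S eS (k := k) * g'⁻¹)⁻¹ := by group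
          _ = _ := by rw [h1]; group
      calc y S eS (k := k) * (g' * φ (sr 0))
          = ((g' * φ (sr 0)) * y S eS (k := k) * (g' * φ (sr 0))⁻¹) * (g' * φ (sr 0)) := by rw [h3]
        _ = _ := by group
    refine C_analysis S eS hm hk hC (hU _ (sr_mem_U S eS hm hk 0)) ?_
    calc g' * φ (sr 0) * φ (sr 0) * (g' * φ (sr 0))⁻¹
        = g' * φ (sr 0) * (φ (sr 0) * (φ (sr 0))⁻¹) * g'⁻¹ := by group
      _ = g' * φ (sr 0) * g'⁻¹ := by simp

end Main

theorem result {X : Type*} [Group X] [Finite X] (S : Sylow 2 X) (m : ℕ) (hm : 2 ≤ m) (eS : (S : Subgroup X) ≃* DihedralGroup m) : (Nat.card S = 4 → ∀ U V : Subgroup X, IsKleinFour U → IsKleinFour V → (∃ x : X, U.map (MulAut.conj x).toMonoidHom = V)) ∧ (4 < Nat.card S → ∃ U₁ U₂ : Subgroup X, IsKleinFour U₁ ∧ IsKleinFour U₂ ∧ ¬ (∃ x : X, U₁.map (MulAut.conj x).toMonoidHom = U₂) ∧ ∀ V : Subgroup X, IsKleinFour V → (∃ x : X, V.map (MulAut.conj x).toMonoidHom = U₁) ∨ (∃ x : X, V.map (MulAut.conj x).toMonoidHom = U₂)) := by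
  constructor
  · intro h4 U V hU hV
    have key : ∀ W : Subgroup X, IsKleinFour W → ∃ g : X,
        W.map (MulAut.conj g).toMonoidHom = (S : Subgroup X) := by
      intro W hW
      have pW : IsPGroup 2 W := by
        rw [IsPGroup.iff_card]
        exact ⟨2, by rw [hW.card_four]; norm_num⟩
      obtain ⟨g, hg⟩ := conj_into_sylow S pW
      refine ⟨g, Subgroup.eq_of_le_of_card_ge ?_ ?_⟩
      · rintro _ ⟨t, ht, rfl⟩
        exact hg t ht
      · rw [card_map_conj, hW.card_four]
        exact h4.le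
    obtain ⟨g, hg⟩ := key U hU
    obtain ⟨h, hh⟩ := key V hV
    refine ⟨h⁻¹ * g, ?_⟩
    ext v
    constructor
    · rintro ⟨u, hu, rfl⟩
      have h1 : g * u * g⁻¹ ∈ (S : Subgroup X) := by
        rw [← hg]; exact ⟨u, hu, rfl⟩
      rw [← hh] at h1
      obtain ⟨v', hv', he⟩ := h1
      simp only [MulEquiv.coe_toMonoidHom, MulAut.conj_apply] at he ⊢
      have : h⁻¹ * g * u * (h⁻¹ * g)⁻¹ = v' := by
        calc h⁻¹ * g * u * (h⁻¹ * g)⁻¹ = h⁻¹ * (g * u * g⁻¹) * h := by group
          _ = h⁻¹ * (h * v' * h⁻¹) * h := by rw [he]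
          _ = v' := by group
      rw [this]; exact hv'
    · intro hv
      have h1 : h * v * h⁻¹ ∈ (S : Subgroup X) := by
        rw [← hh]; exact ⟨v, hv, rfl⟩
      rw [← hg] at h1
      obtain ⟨u, hu, he⟩ := h1
      simp only [MulEquiv.coe_toMonoidHom, MulAut.conj_apply] at he
      refine ⟨u, hu, ?_⟩
      simp only [MulEquiv.coe_toMonoidHom, MulAut.conj_apply]
      calc h⁻¹ * g * u * (h⁻¹ * g)⁻¹ = h⁻¹ * (g * u * g⁻¹) * h := by group
        _ = h⁻¹ * (h * v * h⁻¹) * h := by rw [he]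
        _ = v := by group
  · intro h4
    -- `m = 4 k`
    obtain ⟨k, hmk, hk⟩ : ∃ k, m = 4 * k ∧ 1 ≤ k := by
      have hc : Nat.card (S : Subgroup X) = 2 * m := card_S S eS
      obtain ⟨e, he⟩ := S.isPGroup'.exists_card_eq
      have h4' : 4 < Nat.card (S : Subgroup X) := h4
      rw [hc] at he
      rw [hc] at h4'
      match e, he with
      | 0, he => simp at he; try omega
      | 1, he => simp at he; try omega
      | 2, he => simp at he; try omega
      | e + 3, he =>
        refine ⟨2 ^ e, ?_, Nat.one_le_two_pow⟩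
        have : 2 ^ (e + 3) = 2 * (4 * 2 ^ e) := by ring
        omega
    refine ⟨U S eS hmk hk 0, U S eS hmk hk 1, U_klein S eS hmk hk 0, U_klein S eS hmk hk 1, ?_, ?_⟩
    · rintro ⟨x, hx⟩
      exact no_conj S eS hmk hk hx
    · intro V hV
      have pV : IsPGroup 2 V := by
        rw [IsPGroup.iff_card]
        exact ⟨2, by rw [hV.card_four]; norm_num⟩
      obtain ⟨g, hg⟩ := conj_into_sylow S pV
      have hV' := map_klein hV g
      have hle : V.map (MulAut.conj g).toMonoidHom ≤ (S : Subgroup X) := by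
        rintro _ ⟨t, ht, rfl⟩
        exact hg t ht
      obtain ⟨i, hi⟩ := exists_U S eS hmk hk hV' hle
      have : NeZero m := ⟨by omega⟩
      have compose : ∀ (c : ZMod m),
          V.map (MulAut.conj (φ' S eS c * g)).toMonoidHom = U S eS hmk hk (i - 2 * c) := by
        intro c
        rw [← map_U S eS hmk hk i c, hi]
        ext v
        simp only [Subgroup.mem_map, MulEquiv.coe_toMonoidHom, MulAut.conj_apply]
        constructor
        · rintro ⟨u, hu, rfl⟩
          exact ⟨g * u * g⁻¹, ⟨u, hu, rfl⟩, by simp [φ', mul_assoc]⟩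
        · rintro ⟨_, ⟨u, hu, rfl⟩, rfl⟩
          exact ⟨u, hu, by simp [φ', mul_assoc]⟩
      rcases Nat.even_or_odd' i.val with ⟨c, hc | hc⟩
      · left
        refine ⟨φ' S eS (c : ZMod m) * g, ?_⟩
        rw [compose]
        congr 1
        have hv := ZMod.natCast_zmod_val i
        rw [hc] at hv
        push_cast at hv
        rw [← hv]; ring
      · right
        refine ⟨φ' S eS (c : ZMod m) * g, ?_⟩
        rw [compose]
        congr 1
        have hv := ZMod.natCast_zmod_val i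
        rw [hc] at hv
        push_cast at hv
        rw [← hv]; ring

end Cfsg.Agent.S1256
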