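import Cfsg.Statements.S1258
import Mathlib
import Cfsg.Agent.Lib.Components.Basic

set_option autoImplicit false
open Cfsg
open scoped commutatorElement

namespace Cfsg.Agent.S1258

/-- If the central quotient of a finite group X is non-abelian simple, then X = X' Z(X) and the commutator subgroup X' is quasisimple. -/
theorem result {X : Type*} [Group X] [Finite X] (hs : IsSimpleGroup (X ⧸ Subgroup.center X)) (hna : ¬ IsMulCommutative (X ⧸ Subgroup.center X)) : commutator X ⊔ Subgroup.center X = ⊤ ∧ Cfsg.IsQuasisimple ↥(commutator X) := by
  have hmap : (commutator X).map (QuotientGroup.mk' (Subgroup.center X)) = ⊤ := by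
    have hn : ((commutator X).map (QuotientGroup.mk' (Subgroup.center X))).Normal :=
      Subgroup.Normal.map inferInstance _ (QuotientGroup.mk'_surjective _)
    rcases hn.eq_bot_or_eq_top with h | h
    · exfalso
      apply hna
      refine ⟨⟨?_⟩⟩
      intro a b
      induction a using QuotientGroup.induction_on with
      | H a =>
        induction b using QuotientGroup.induction_on with
        | H b =>
          have hab : ⁅a, b⁆ ∈ commutator X := by
            rw [commutator_def]
            exact Subgroup.commutator_mem_commutator (Subgroup.mem_top a) (Subgroup.mem_top b)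
          have h1 := Subgroup.mem_map_of_mem (QuotientGroup.mk' (Subgroup.center X)) hab
          rw [h] at h1
          have h2 := Subgroup.mem_bot.mp h1
          have h3 : ⁅(a : X ⧸ Subgroup.center X), (b : X ⧸ Subgroup.center X)⁆ = 1 := by
            rw [← h2]; simp [commutatorElement_def]
          exact commutatorElement_eq_one_iff_mul_comm.mp h3
    · exact h
  have hsup : commutator X ⊔ Subgroup.center X = ⊤ := by
    rw [eq_top_iff]
    intro x _
    have hx : (QuotientGroup.mk' (Subgroup.center X)) x ∈
        (commutator X).map (QuotientGroup.mk' (Subgroup.center X)) := by rw [hmap]; trivial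
    obtain ⟨y, hy, hyx⟩ := hx
    have : y⁻¹ * x ∈ Subgroup.center X := by
      rw [← QuotientGroup.ker_mk' (Subgroup.center X), MonoidHom.mem_ker, map_mul, map_inv, hyx]
      simp
    have h2 : x = y * (y⁻¹ * x) := by group
    rw [h2]
    exact Subgroup.mul_mem_sup hy this
  refine ⟨hsup, ?_, ?_⟩
  · -- perfect
    rw [Subgroup.isPerfect_iff]
    apply le_antisymm (Subgroup.commutator_mono le_top le_top)
    refine Subgroup.commutator_le.mpr ?_
    intro a _ b _
    have ha : a ∈ commutator X ⊔ Subgroup.center X := hsup ▸ Subgroup.mem_top a
    have hb : b ∈ commutator X ⊔ Subgroup.center X := hsup ▸ Subgroup.mem_top b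
    obtain ⟨a1, ha1, z1, hz1, rfl⟩ := Subgroup.mem_sup_of_normal_right.mp ha
    obtain ⟨b1, hb1, z2, hz2, rfl⟩ := Subgroup.mem_sup_of_normal_right.mp hb
    rw [Cfsg.Agent.Lib.Components.Basic.commutatorElement_mul_central _ _ _ _ hz1 hz2]
    exact Subgroup.commutator_mem_commutator ha1 hb1
  · -- simple
    let f : (commutator X) →* X ⧸ Subgroup.center X :=
      (QuotientGroup.mk' (Subgroup.center X)).comp (commutator X).subtype
    have hf : Function.Surjective f := by
      intro y
      have hy : y ∈ (commutator X).map (QuotientGroup.mk' (Subgroup.center X)) := by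
        rw [hmap]; trivial
      obtain ⟨c, hc, rfl⟩ := hy
      exact ⟨⟨c, hc⟩, rfl⟩
    have hker : f.ker = Subgroup.center (commutator X) := by
      ext c
      rw [MonoidHom.mem_ker]
      constructor
      · intro hc
        have hc' : (c : X) ∈ Subgroup.center X := by
          rw [← QuotientGroup.ker_mk' (Subgroup.center X), MonoidHom.mem_ker]
          exact hc
        rw [Subgroup.mem_center_iff]
        intro g
        exact Subtype.ext (Subgroup.mem_center_iff.mp hc' g)
      · intro hc
        have hc' : (c : X) ∈ Subgroup.center X := by
          rw [Subgroup.mem_center_iff]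
          intro g
          have hg : g ∈ commutator X ⊔ Subgroup.center X := hsup ▸ Subgroup.mem_top g
          obtain ⟨a1, ha1, z1, hz1, rfl⟩ := Subgroup.mem_sup_of_normal_right.mp hg
          have h1 := congrArg Subtype.val (Subgroup.mem_center_iff.mp hc ⟨a1, ha1⟩)
          have h2 := Subgroup.mem_center_iff.mp hz1
          simp only [Subgroup.coe_mul] at h1
          calc a1 * z1 * (c : X) = a1 * ((c : X) * z1) := by rw [mul_assoc, ← h2 c]
            _ = (a1 * c) * z1 := by group
            _ = (c * a1) * z1 := by rw [h1]
            _ = c * (a1 * z1) := by group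
        show (QuotientGroup.mk' (Subgroup.center X)) (c : X) = 1
        rw [← MonoidHom.mem_ker, QuotientGroup.ker_mk']
        exact hc'
    have := hs
    let e : (commutator X) ⧸ Subgroup.center (commutator X) ≃* X ⧸ Subgroup.center X :=
      (QuotientGroup.quotientMulEquivOfEq hker.symm).trans (QuotientGroup.quotientKerEquivOfSurjective f hf)
    exact e.isSimpleGroup

end Cfsg.Agent.S1258
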