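import Cfsg.Statements.S1286
import Mathlib
-- import your own Cfsg.Agent.* helpers here

set_option autoImplicit false
open Cfsg

namespace Cfsg.Agent.S1286

abbrev S7 := Equiv.Perm (Fin 7)

def a : S7 := Equiv.swap 0 1 * Equiv.swap 2 3
def b : S7 := Equiv.swap 0 1 * Equiv.swap 4 5
def c : S7 := Equiv.swap 2 3 * Equiv.swap 4 5
def x : S7 := Equiv.swap 4 5 * Equiv.swap 5 6
def y : S7 := Equiv.swap 2 3 * Equiv.swap 3 6
def z : S7 := Equiv.swap 0 1 * Equiv.swap 1 6

def A : Subgroup S7 where
  carrier := {g | g = 1 ∨ g = a ∨ g = b ∨ g = c}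
  mul_mem' := by
    rintro u v (rfl | rfl | rfl | rfl) (rfl | rfl | rfl | rfl) <;>
      simp only [Set.mem_setOf_eq] <;> decide +kernel
  one_mem' := Or.inl rfl
  inv_mem' := by
    rintro u (rfl | rfl | rfl | rfl) <;> simp only [Set.mem_setOf_eq] <;> decide +kernel

theorem mem_A (g : S7) : g ∈ A ↔ g = 1 ∨ g = a ∨ g = b ∨ g = c := Iff.rfl

def θ : S7 → Subgroup S7 := fun g =>
  if g = a then Subgroup.zpowers x else if g = b then Subgroup.zpowers y else Subgroup.zpowers z

theorem θ_a : θ a = Subgroup.zpowers x := by simp [θ]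
theorem θ_b : θ b = Subgroup.zpowers y := by
  have : b ≠ a := by decide +kernel
  simp [θ, this]
theorem θ_c : θ c = Subgroup.zpowers z := by
  have h1 : c ≠ a := by decide +kernel
  have h2 : c ≠ b := by decide +kernel
  simp [θ, h1, h2]

theorem zpow_cases (w : S7) (hw : w ^ 3 = 1) (g : S7) (hg : g ∈ Subgroup.zpowers w) :
    g = 1 ∨ g = w ∨ g = w⁻¹ := by
  obtain ⟨k, rfl⟩ := hg
  have hk : w ^ k = w ^ (k % 3) := by
    conv_lhs => rw [← Int.emod_add_mul_ediv k 3]
    rw [zpow_add, zpow_mul]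
    have : w ^ (3 : ℤ) = 1 := by exact_mod_cast hw
    rw [this]; simp
  have h0 : 0 ≤ k % 3 := Int.emod_nonneg _ (by norm_num)
  have h3 : k % 3 < 3 := Int.emod_lt_of_pos _ (by norm_num)
  have hcases : k % 3 = 0 ∨ k % 3 = 1 ∨ k % 3 = 2 := by omega
  show w ^ k = 1 ∨ w ^ k = w ∨ w ^ k = w⁻¹
  rw [hk]
  rcases hcases with h | h | h <;> rw [h]
  · left; simp
  · right; left; simp
  · right; right
    have : w ^ (2 : ℤ) * w = 1 := by
      have : w ^ (2 : ℤ) * w = w ^ 3 := by
        rw [pow_succ]; norm_cast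
      rw [this, hw]
    exact eq_inv_of_mul_eq_one_left this

theorem x3 : x ^ 3 = 1 := by decide +kernel
theorem y3 : y ^ 3 = 1 := by decide +kernel
theorem z3 : z ^ 3 = 1 := by decide +kernel
theorem x1 : x ≠ 1 := by decide +kernel
theorem y1 : y ≠ 1 := by decide +kernel
theorem z1 : z ≠ 1 := by decide +kernel

instance fact_prime_three : Fact (Nat.Prime 3) := ⟨by norm_num⟩

theorem not_two_dvd (w : S7) (h3 : w ^ 3 = 1) (h1 : w ≠ 1) : ¬ 2 ∣ Nat.card (Subgroup.zpowers w) := by
  rw [Nat.card_zpowers, orderOf_eq_prime h3 h1]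
  norm_num

theorem cent_of (w v : S7) (h : v * w = w * v) (h3 : w ^ 3 = 1) :
    Subgroup.zpowers w ≤ Subgroup.centralizer {v} := by
  rw [Subgroup.zpowers_le, Subgroup.mem_centralizer_singleton_iff]
  exact h.symm

/-- conjugation invariance of `⟨w⟩` for an element `v` with `v w v⁻¹ ∈ {w, w⁻¹}`. -/
theorem conj_mem_of (w v : S7) (h : v * w * v⁻¹ = w ∨ v * w * v⁻¹ = w⁻¹) (g : S7)
    (hg : g ∈ Subgroup.zpowers w) : v * g * v⁻¹ ∈ Subgroup.zpowers w := by
  obtain ⟨k, rfl⟩ := hg
  show v * w ^ k * v⁻¹ ∈ Subgroup.zpowers w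
  have e : v * w ^ k * v⁻¹ = (v * w * v⁻¹) ^ k := by
    have := map_zpow (MulAut.conj v).toMonoidHom w k
    simpa using this.symm
  rw [e]
  rcases h with h | h <;> rw [h]
  · exact zpow_mem (Subgroup.mem_zpowers w) k
  · exact zpow_mem (inv_mem (Subgroup.mem_zpowers w)) k

/-- elements of `⟨w⟩` commuting with `v`, when `v` inverts `w` and `w` has order three, are trivial. -/
theorem inter_bot (w v u : S7) (h3 : w ^ 3 = 1) (hinv : ¬ (w * v = v * w)) (hu : u ∈ Subgroup.zpowers w)
    (hc : u * v = v * u) : u = 1 := by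
  rcases zpow_cases w h3 u hu with rfl | rfl | rfl
  · rfl
  · exact absurd hc hinv
  · exfalso
    apply hinv
    have := congrArg (fun t => w * t * w) hc
    have e1 : w * (w⁻¹ * v) * w = v * w := by group
    have e2 : w * (v * w⁻¹) * w = w * v := by group
    rw [e1, e2] at this
    exact this.symm

/-- There exist a finite group X, an elementary abelian subgroup A of order 4 and a solvable A-signalizer functor θ on X for the prime 2 which is not complete. -/
theorem result : ∃ (X : Type) (_ : Group X) (_ : Finite X) (A : Subgroup X) (θ : X → Subgroup X), Cfsg.IsElementaryAbelian 2 A ∧ Nat.card ↥A = 4 ∧ Cfsg.IsSolvableSignalizerFunctor 2 A θ ∧ ¬ Cfsg.IsCompleteSignalizerFunctor 2 A θ := by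
  refine ⟨S7, inferInstance, inferInstance, A, θ, ⟨?_, ?_⟩, ?_, ⟨⟨?_, ?_, ?_, ?_⟩, ?_⟩, ?_⟩
  · -- commutative
    refine ⟨⟨?_⟩⟩
    rintro ⟨u, hu⟩ ⟨v, hv⟩
    apply Subtype.ext
    show u * v = v * u
    rcases hu with rfl | rfl | rfl | rfl <;> rcases hv with rfl | rfl | rfl | rfl <;> decide +kernel
  · intro u hu
    rcases hu with rfl | rfl | rfl | rfl <;> decide +kernel
  · -- card
    have e : ((A : Set S7)) = (({1, a, b, c} : Finset S7) : Set S7) := by
      ext g
      simp [mem_A]
    have : Nat.card A = (A : Set S7).ncard := Nat.card_coe_set_eq _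
    rw [this, e, Set.ncard_coe_finset]
    decide +kernel
  · intro u hu hu1
    rcases hu with rfl | rfl | rfl | rfl
    · exact absurd rfl hu1
    · rw [θ_a]; exact cent_of _ _ (by decide +kernel) x3
    · rw [θ_b]; exact cent_of _ _ (by decide +kernel) y3
    · rw [θ_c]; exact cent_of _ _ (by decide +kernel) z3
  · intro u hu hu1
    rcases hu with rfl | rfl | rfl | rfl
    · exact absurd rfl hu1
    · rw [θ_a]; exact not_two_dvd _ x3 x1
    · rw [θ_b]; exact not_two_dvd _ y3 y1
    · rw [θ_c]; exact not_two_dvd _ z3 z1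
  · intro u hu hu1 v hv g hg
    rcases hu with rfl | rfl | rfl | rfl
    · exact absurd rfl hu1
    · rw [θ_a] at hg ⊢
      refine conj_mem_of _ _ ?_ g hg
      rcases hv with rfl | rfl | rfl | rfl <;> decide +kernel
    · rw [θ_b] at hg ⊢
      refine conj_mem_of _ _ ?_ g hg
      rcases hv with rfl | rfl | rfl | rfl <;> decide +kernel
    · rw [θ_c] at hg ⊢
      refine conj_mem_of _ _ ?_ g hg
      rcases hv with rfl | rfl | rfl | rfl <;> decide +kernel
  · intro u hu hu1 v hv hv1 g hg
    obtain ⟨hg1, hg2⟩ := Subgroup.mem_inf.1 hg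
    rw [Subgroup.mem_centralizer_singleton_iff] at hg2
    rcases hu with rfl | rfl | rfl | rfl
    · exact absurd rfl hu1
    · rw [θ_a] at hg1
      rcases hv with rfl | rfl | rfl | rfl
      · exact absurd rfl hv1
      · rw [θ_a]; exact hg1
      · rw [inter_bot x b g x3 (by decide +kernel) hg1 hg2]; exact one_mem _
      · rw [inter_bot x c g x3 (by decide +kernel) hg1 hg2]; exact one_mem _
    · rw [θ_b] at hg1
      rcases hv with rfl | rfl | rfl | rfl
      · exact absurd rfl hv1
      · rw [inter_bot y a g y3 (by decide +kernel) hg1 hg2]; exact one_mem _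
      · rw [θ_b]; exact hg1
      · rw [inter_bot y c g y3 (by decide +kernel) hg1 hg2]; exact one_mem _
    · rw [θ_c] at hg1
      rcases hv with rfl | rfl | rfl | rfl
      · exact absurd rfl hv1
      · rw [inter_bot z a g z3 (by decide +kernel) hg1 hg2]; exact one_mem _
      · rw [inter_bot z b g z3 (by decide +kernel) hg1 hg2]; exact one_mem _
      · rw [θ_c]; exact hg1
  · -- solvable
    intro u hu hu1
    have hsol : ∀ w : S7, Group.IsSolvable (Subgroup.zpowers w) := fun w => by
      apply Group.isSolvable_of_comm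
      rintro ⟨p, hp⟩ ⟨q, hq⟩
      obtain ⟨i, rfl⟩ := hp
      obtain ⟨j, rfl⟩ := hq
      apply Subtype.ext
      show w ^ i * w ^ j = w ^ j * w ^ i
      rw [← zpow_add, ← zpow_add, add_comm]
    rcases hu with rfl | rfl | rfl | rfl
    · exact absurd rfl hu1
    · rw [θ_a]; exact hsol x
    · rw [θ_b]; exact hsol y
    · rw [θ_c]; exact hsol z
  · -- not complete
    rintro ⟨_, X, _, hX2, hX⟩
    have ha1 : a ≠ 1 := by decide +kernel
    have hb1 : b ≠ 1 := by decide +kernel
    have hxX : x ∈ X := by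
      have := hX a (Or.inr (Or.inl rfl)) ha1
      rw [θ_a] at this
      have h := Subgroup.mem_zpowers x
      rw [← this] at h
      exact h.1
    have hyX : y ∈ X := by
      have := hX b (Or.inr (Or.inr (Or.inl rfl))) hb1
      rw [θ_b] at this
      have h := Subgroup.mem_zpowers y
      rw [← this] at h
      exact h.1
    let w : S7 := x * y * x⁻¹ * y
    have hw : w ∈ X := mul_mem (mul_mem (mul_mem hxX hyX) (inv_mem hxX)) hyX
    have hw2 : w ^ 2 = 1 := by decide +kernel
    have hw1 : w ≠ 1 := by decide +kernel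
    have ho : orderOf w = 2 := orderOf_eq_prime hw2 hw1
    apply hX2
    have := orderOf_dvd_natCard (⟨w, hw⟩ : X)
    rwa [Subgroup.orderOf_mk, ho] at this

end Cfsg.Agent.S1286
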