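import Cfsg.Statements.S1287
import Cfsg.Agent.Lib.Coprime.BrauerWielandt
import Cfsg.Agent.Lib.Coprime.FrattiniAct
import Cfsg.Agent.Lib.Coprime.GenerationE
import Cfsg.Agent.Lib.Coprime.Three
import Cfsg.Agent.Lib.Basic.ProductCard
import Mathlib

set_option autoImplicit false
set_option linter.unusedSectionVars false
open Cfsg
open scoped Pointwise

namespace Cfsg.Agent.S1287

open Cfsg.Agent.Lib.Coprime.Three Cfsg.Agent.Lib.Coprime.BrauerWielandt
  Cfsg.Agent.Lib.Basic.ProductCard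

/-- Let A be a noncyclic elementary abelian p-subgroup of a finite group H normalizing a subgroup K of order prime to p, and X, Y ≤ K subgroups normalized by A with C_K(a) = C_X(a) C_Y(a) (as sets) for every non-identity a ∈ A, where X is also normalized by C_K(A). Then K = XY as sets. -/
theorem result {H : Type*} [Group H] [Finite H] (p : ℕ) [Fact p.Prime] (A K X Y : Subgroup H) (hA : Cfsg.IsElementaryAbelian p A) (hA2 : p ^ 2 ≤ Nat.card ↥A) (hK : ¬ p ∣ Nat.card ↥K) (hAK : A ≤ Subgroup.normalizer (K : Set H)) (hX : X ≤ K) (hY : Y ≤ K) (hAX : A ≤ Subgroup.normalizer (X : Set H)) (hAY : A ≤ Subgroup.normalizer (Y : Set H)) (hCX : K ⊓ Subgroup.centralizer (A : Set H) ≤ Subgroup.normalizer (X : Set H)) (hfac : ∀ a ∈ A, a ≠ 1 → ((K ⊓ Subgroup.centralizer {a} : Subgroup H) : Set H) = ((X ⊓ Subgroup.centralizer {a} : Subgroup H) : Set H) * ((Y ⊓ Subgroup.centralizer {a} : Subgroup H) : Set H)) : (K : Set H) = (X : Set H) * (Y : Set H) := by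
  classical
  have hpp : p.Prime := Fact.out
  have hAp : IsPGroup p A := Cfsg.Agent.Lib.Coprime.GenerationE.isPGroup_of_isElementaryAbelian hA
  -- a subgroup of order `p ^ 2`
  have hd : p ^ 2 ∣ Nat.card A := by
    obtain ⟨k, hk⟩ := IsPGroup.iff_card.mp hAp
    rw [hk] at hA2 ⊢
    exact pow_dvd_pow p ((Nat.pow_le_pow_iff_right hpp.one_lt).mp hA2)
  obtain ⟨E₀, hE₀⟩ := Sylow.exists_subgroup_card_pow_prime p hd
  set E : Subgroup H := E₀.map A.subtype with hE
  have hEA : E ≤ A := Subgroup.map_subtype_le _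
  have hEc : Nat.card E = p ^ 2 := by
    rw [hE, Subgroup.card_map_of_injective A.subtype_injective, hE₀]
  have hEexp : ∀ e ∈ E, e ^ p = 1 := fun e he => hA.2 e (hEA he)
  have hEcomm : ∀ a ∈ E, ∀ b ∈ E, a * b = b * a := by
    intro a ha b hb
    have := hA.1.is_comm.comm ⟨a, hEA ha⟩ ⟨b, hEA hb⟩
    simpa using congrArg Subtype.val this
  have hEp : IsPGroup p E := IsPGroup.of_card hEc
  letI : Fintype ↥E := Fintype.ofFinite _
  letI : Fintype (Lines ↥E p) := Fintype.ofFinite _
  -- the subgroups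
  have hXnd : ¬ p ∣ Nat.card X := fun h => hK (h.trans (Subgroup.card_dvd_of_le hX))
  have hYnd : ¬ p ∣ Nat.card Y := fun h => hK (h.trans (Subgroup.card_dvd_of_le hY))
  have hXYnd : ¬ p ∣ Nat.card ↥(X ⊓ Y) :=
    fun h => hXnd (h.trans (Subgroup.card_dvd_of_le inf_le_left))
  have hEK := hEA.trans hAK
  have hEX := hEA.trans hAX
  have hEY := hEA.trans hAY
  have hEXY : E ≤ Subgroup.normalizer ((X ⊓ Y : Subgroup H) : Set H) := fun e he =>
    inf_mem_normalizer (hEX he) (hEY he)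
  have bK := card_subgroup hEc hEexp hEcomm hEK hK
  have bX := card_subgroup hEc hEexp hEcomm hEX hXnd
  have bY := card_subgroup hEc hEexp hEcomm hEY hYnd
  have bXY := card_subgroup hEc hEexp hEcomm hEXY hXYnd
  -- the factorization of fixed points of a non-identity element
  have hfacC : ∀ a ∈ E, a ≠ 1 →
      Nat.card ↥(K ⊓ Subgroup.centralizer ({a} : Set H)) *
        Nat.card ↥((X ⊓ Y) ⊓ Subgroup.centralizer ({a} : Set H)) =
      Nat.card ↥(X ⊓ Subgroup.centralizer ({a} : Set H)) *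
        Nat.card ↥(Y ⊓ Subgroup.centralizer ({a} : Set H)) := by
    intro a ha ha1
    have h1 := ncard_mul_mul_card_inf (X ⊓ Subgroup.centralizer ({a} : Set H))
      (Y ⊓ Subgroup.centralizer ({a} : Set H))
    rw [← hfac a (hEA ha) ha1, ← inf_inf_distrib_right] at h1
    have h2 : ((K ⊓ Subgroup.centralizer ({a} : Set H) : Subgroup H) : Set H).ncard =
        Nat.card ↥(K ⊓ Subgroup.centralizer ({a} : Set H)) := (Nat.card_coe_set_eq _).symm
    rw [h2] at h1
    exact h1
  have hexpΓ : ∀ g : ↥E, g ^ p = 1 := fun g => Subtype.ext (hEexp g g.2)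
  -- the centralizer of a line is the centralizer of any of its generators
  have hline : ∀ B : Lines ↥E p, ∃ a ∈ E, a ≠ 1 ∧
      Subgroup.centralizer (((B.1 : Subgroup ↥E).map E.subtype : Subgroup H) : Set H) =
        Subgroup.centralizer ({a} : Set H) := by
    intro B
    have h1 : 1 < Nat.card B.1 := by rw [B.2]; exact hpp.one_lt
    haveI : Nontrivial B.1 := Finite.one_lt_card_iff_nontrivial.mp h1
    obtain ⟨b, hbB, hb1⟩ : ∃ b : ↥E, b ∈ B.1 ∧ b ≠ 1 := by
      obtain ⟨b, hb⟩ := exists_ne (1 : B.1)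
      exact ⟨b.1, b.2, fun h => hb (Subtype.ext h)⟩
    have hz := zpowers_eq_of_mem hexpΓ B.2 hbB hb1
    refine ⟨(b : H), b.2, fun h => hb1 (Subtype.ext h), ?_⟩
    rw [← hz, MonoidHom.map_zpowers]
    ext x
    exact Cfsg.Agent.Lib.Coprime.FrattiniAct.mem_centralizer_zpowers_iff
  have hfacB : ∀ B : Lines ↥E p,
      Nat.card ↥(K ⊓ Subgroup.centralizer (((B.1 : Subgroup ↥E).map E.subtype : Subgroup H) : Set H)) *
        Nat.card ↥((X ⊓ Y) ⊓ Subgroup.centralizer (((B.1 : Subgroup ↥E).map E.subtype : Subgroup H) : Set H)) =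
      Nat.card ↥(X ⊓ Subgroup.centralizer (((B.1 : Subgroup ↥E).map E.subtype : Subgroup H) : Set H)) *
        Nat.card ↥(Y ⊓ Subgroup.centralizer (((B.1 : Subgroup ↥E).map E.subtype : Subgroup H) : Set H)) := by
    intro B
    obtain ⟨a, ha, ha1, hC⟩ := hline B
    rw [hC]
    exact hfacC a ha ha1
  -- a non-identity element of `E`
  obtain ⟨a₀, ha₀, ha₀1⟩ : ∃ a ∈ E, a ≠ 1 := by
    have h1 : 1 < Nat.card E := by
      rw [hEc]
      exact Nat.one_lt_pow (by norm_num) hpp.one_lt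
    haveI : Nontrivial E := Finite.one_lt_card_iff_nontrivial.mp h1
    obtain ⟨b, hb⟩ := exists_ne (1 : E)
    exact ⟨b, b.2, fun h => hb (Subtype.ext h)⟩
  -- the factorization of the fixed points of `E`
  have hsetE : ((K ⊓ Subgroup.centralizer (E : Set H) : Subgroup H) : Set H) =
      ((X ⊓ Subgroup.centralizer (E : Set H) : Subgroup H) : Set H) *
        ((Y ⊓ Subgroup.centralizer (E : Set H) : Subgroup H) : Set H) := by
    ext c
    constructor
    · rintro ⟨hcK, hcC⟩
      have hcCa : c ∈ K ⊓ Subgroup.centralizer ({a₀} : Set H) := by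
        refine ⟨hcK, Subgroup.centralizer_le ?_ hcC⟩
        intro y hy
        rw [Set.mem_singleton_iff] at hy
        rw [hy]
        exact ha₀
      have hcm : c ∈ ((X ⊓ Subgroup.centralizer ({a₀} : Set H) : Subgroup H) : Set H) *
          ((Y ⊓ Subgroup.centralizer ({a₀} : Set H) : Subgroup H) : Set H) := by
        rw [← hfac a₀ (hEA ha₀) ha₀1]
        exact hcCa
      obtain ⟨x, hx, y, hy, hxy⟩ := Set.mem_mul.mp hcm
      -- the set of admissible first factors
      let F : Set H := {z | z ∈ X ∧ z⁻¹ * c ∈ Y}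
      have hFinv : ∀ d ∈ E, ∀ z ∈ F, MulAut.conj d z ∈ F := by
        rintro d hd z ⟨hzX, hzY⟩
        have hdc : d * c = c * d := (Subgroup.mem_centralizer_iff.mp hcC) d hd
        have hdc' : c * d⁻¹ = d⁻¹ * c := by
          rw [mul_inv_eq_iff_eq_mul, mul_assoc, ← hdc]; group
        refine ⟨conj_mem_of_mem_normalizer (hEX hd) hzX, ?_⟩
        have h2 : (MulAut.conj d z)⁻¹ * c = d * (z⁻¹ * c) * d⁻¹ := by
          simp only [MulAut.conj_apply]
          calc (d * z * d⁻¹)⁻¹ * c = d * z⁻¹ * (d⁻¹ * c) := by group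
            _ = d * z⁻¹ * (c * d⁻¹) := by rw [hdc']
            _ = _ := by group
        rw [h2]
        exact conj_mem_of_mem_normalizer (hEY hd) hzY
      have hFcard : Nat.card F = Nat.card ↥(X ⊓ Y) := by
        refine Nat.card_congr ⟨fun z => ⟨x⁻¹ * z.1, X.mul_mem (X.inv_mem hx.1) z.2.1, ?_⟩,
          fun w => ⟨x * w.1, X.mul_mem hx.1 w.2.1, ?_⟩, ?_, ?_⟩
        · have h3 : x⁻¹ * z.1 = (x⁻¹ * c) * (z.1⁻¹ * c)⁻¹ := by group
          rw [h3]
          refine Y.mul_mem ?_ (Y.inv_mem z.2.2)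
          rw [← hxy]
          have h4 : x⁻¹ * (x * y) = y := by group
          rw [h4]
          exact hy.1
        · have h3 : (x * w.1)⁻¹ * c = w.1⁻¹ * y := by
            rw [← hxy]; group
          rw [h3]
          exact Y.mul_mem (Y.inv_mem w.2.2) hy.1
        · intro z
          apply Subtype.ext
          simp
        · intro w
          apply Subtype.ext
          simp
      have hFnd : ¬ p ∣ Nat.card F := by rw [hFcard]; exact hXYnd
      obtain ⟨z, hzF, hzfix⟩ := exists_fixed_of_invariant (K := H) hEp MulAut.conj F hFinv hFnd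
      have hzC : z ∈ Subgroup.centralizer (E : Set H) := by
        refine Subgroup.mem_centralizer_iff.mpr ?_
        intro d hd
        have h3 : d * z * d⁻¹ = z := hzfix d hd
        rw [mul_inv_eq_iff_eq_mul] at h3
        exact h3
      refine Set.mem_mul.mpr ⟨z, ⟨hzF.1, hzC⟩, z⁻¹ * c, ⟨hzF.2, ?_⟩, by group⟩
      exact Subgroup.mul_mem _ (Subgroup.inv_mem _ hzC) hcC
    · intro hc
      obtain ⟨x, hx, y, hy, rfl⟩ := Set.mem_mul.mp hc
      exact ⟨K.mul_mem (hX hx.1) (hY hy.1), Subgroup.mul_mem _ hx.2 hy.2⟩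
  have hfacE : Nat.card ↥(K ⊓ Subgroup.centralizer (E : Set H)) *
        Nat.card ↥((X ⊓ Y) ⊓ Subgroup.centralizer (E : Set H)) =
      Nat.card ↥(X ⊓ Subgroup.centralizer (E : Set H)) *
        Nat.card ↥(Y ⊓ Subgroup.centralizer (E : Set H)) := by
    have h1 := ncard_mul_mul_card_inf (X ⊓ Subgroup.centralizer (E : Set H))
      (Y ⊓ Subgroup.centralizer (E : Set H))
    rw [← hsetE, ← inf_inf_distrib_right] at h1
    have h2 : ((K ⊓ Subgroup.centralizer (E : Set H) : Subgroup H) : Set H).ncard =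
        Nat.card ↥(K ⊓ Subgroup.centralizer (E : Set H)) := (Nat.card_coe_set_eq _).symm
    rw [h2] at h1
    exact h1
  -- the numerical conclusion
  have hnum : Nat.card K * Nat.card ↥(X ⊓ Y) = Nat.card X * Nat.card Y := by
    have h1 : (Nat.card K * Nat.card ↥(K ⊓ Subgroup.centralizer (E : Set H)) ^ p) *
        (Nat.card ↥(X ⊓ Y) * Nat.card ↥((X ⊓ Y) ⊓ Subgroup.centralizer (E : Set H)) ^ p) =
        (Nat.card X * Nat.card ↥(X ⊓ Subgroup.centralizer (E : Set H)) ^ p) *
        (Nat.card Y * Nat.card ↥(Y ⊓ Subgroup.centralizer (E : Set H)) ^ p) := by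
      rw [bK, bXY, bX, bY, ← Finset.prod_mul_distrib, ← Finset.prod_mul_distrib]
      exact Finset.prod_congr rfl fun B _ => hfacB B
    have h2 : (Nat.card K * Nat.card ↥(X ⊓ Y)) *
        (Nat.card ↥(K ⊓ Subgroup.centralizer (E : Set H)) *
          Nat.card ↥((X ⊓ Y) ⊓ Subgroup.centralizer (E : Set H))) ^ p =
        (Nat.card X * Nat.card Y) *
        (Nat.card ↥(X ⊓ Subgroup.centralizer (E : Set H)) *
          Nat.card ↥(Y ⊓ Subgroup.centralizer (E : Set H))) ^ p := by
      rw [mul_pow, mul_pow]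
      calc _ = (Nat.card K * Nat.card ↥(K ⊓ Subgroup.centralizer (E : Set H)) ^ p) *
        (Nat.card ↥(X ⊓ Y) * Nat.card ↥((X ⊓ Y) ⊓ Subgroup.centralizer (E : Set H)) ^ p) := by ring
        _ = _ := h1
        _ = _ := by ring
    rw [hfacE] at h2
    have hpos : 0 < (Nat.card ↥(X ⊓ Subgroup.centralizer (E : Set H)) *
          Nat.card ↥(Y ⊓ Subgroup.centralizer (E : Set H))) ^ p :=
      pow_pos (Nat.mul_pos Nat.card_pos Nat.card_pos) _
    exact Nat.eq_of_mul_eq_mul_right hpos h2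
  have h3 := ncard_mul_mul_card_inf X Y
  rw [← hnum] at h3
  have h4 : ((X : Set H) * (Y : Set H)).ncard = Nat.card K :=
    Nat.eq_of_mul_eq_mul_right Nat.card_pos h3
  symm
  refine Set.eq_of_subset_of_ncard_le ?_ ?_ (Set.toFinite _)
  · rintro _ ⟨x, hx, y, hy, rfl⟩
    exact K.mul_mem (hX hx) (hY hy)
  · rw [h4]
    exact (Nat.card_coe_set_eq _).ge

end Cfsg.Agent.S1287
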