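import Cfsg.Statements.S1288
import Cfsg.Agent.Lib.Coprime.FrattiniAct
import Cfsg.Agent.Lib.Coprime.InvSylow
import Cfsg.Agent.Lib.Coprime.GenerationE
import Cfsg.Agent.Lib.Coprime.Three
import Cfsg.Agent.Lib.Solvable.PSeries
import Cfsg.Agent.Lib.Components.PConstrained
import Cfsg.Agent.Lib.PGroup.Basic
import Cfsg.Agent.Lib.Basic.PCore
import Mathlib

set_option autoImplicit false
open Cfsg

namespace Cfsg.Agent.S1288

open Cfsg.Agent.Lib.Coprime.Three Cfsg.Agent.Lib.Coprime.FrattiniAct Cfsg.Agent.Lib.PGroup.Basic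
open scoped commutatorElement

/-- Let A be a noncyclic elementary abelian p-subgroup of a finite group H normalizing a solvable subgroup K of order prime to p, q a prime dividing |K|, and U ≤ K a subgroup of order prime to q such that ⁅U, C_K(B)⁆ has order prime to q for every subgroup B of index p in A. Then U ≤ O_{q'}(K). -/
theorem result {H : Type*} [Group H] [Finite H] (p : ℕ) [Fact p.Prime] (A K : Subgroup H) (hA : Cfsg.IsElementaryAbelian p A) (hA2 : p ^ 2 ≤ Nat.card ↥A) (hK : ¬ p ∣ Nat.card ↥K) (hKs : Group.IsSolvable ↥K) (hAK : A ≤ Subgroup.normalizer (K : Set H)) (q : ℕ) [Fact q.Prime] (hqK : q ∣ Nat.card ↥K) (U : Subgroup H) (hU : U ≤ K) (hUq : ¬ q ∣ Nat.card ↥U) (hcomm : ∀ B : Subgroup H, B ≤ A → B.relIndex A = p → ¬ q ∣ Nat.card ↥⁅U, K ⊓ Subgroup.centralizer (B : Set H)⁆) : U ≤ (Cfsg.pPrimeCore q ↥K).map K.subtype := by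
  classical
  have hpp : p.Prime := Fact.out
  have hqq : q.Prime := Fact.out
  haveI := hKs
  set R₀ : Subgroup ↥K := pPrimeCore q ↥K with hR₀
  set π : ↥K →* (↥K ⧸ R₀) := QuotientGroup.mk' R₀ with hπ
  set O : Subgroup (↥K ⧸ R₀) := pCore q (↥K ⧸ R₀) with hO
  haveI hOn : O.Normal := Cfsg.Agent.Lib.Basic.PCore.pCore_normal q _
  have hOq : IsPGroup q O := Cfsg.Agent.Lib.Basic.PCore.pCore_isPGroup q
  set P₀ : Subgroup ↥K := pPrimePCore q ↥K with hP₀
  have hP₀c : P₀.Characteristic := by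
    rw [hP₀, ← Cfsg.Agent.Lib.Solvable.PSeries.upper_two]
    exact Cfsg.Agent.Lib.Solvable.PSeries.upper_characteristic 2
  set P : Subgroup H := P₀.map K.subtype with hP
  have hPK : P ≤ K := Subgroup.map_subtype_le P₀
  have hAP : A ≤ Subgroup.normalizer (P : Set H) := fun a ha =>
    map_char_mem_normalizer P₀ hP₀c (hAK ha)
  -- coprimality
  have hApg : IsPGroup p A := Cfsg.Agent.Lib.Coprime.GenerationE.isPGroup_of_isElementaryAbelian hA
  have hPnd : ¬ p ∣ Nat.card P := fun h => hK (h.trans (Subgroup.card_dvd_of_le hPK))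
  have hcopAP : (Nat.card A).Coprime (Nat.card P) :=
    Cfsg.Agent.Lib.Coprime.GenerationE.coprime_of_isElementaryAbelian hA hPnd
  obtain ⟨T, hT⟩ := Cfsg.Agent.Lib.Coprime.InvSylow.exists_invariant_sylow hAP hcopAP
    (Or.inl (Cfsg.Agent.Lib.Components.PConstrained.isPGroup_isSolvable hApg)) q
  set T' : Subgroup H := (T : Subgroup ↥P).map P.subtype with hT'
  have hT'P : T' ≤ P := Subgroup.map_subtype_le _
  have hT'K : T' ≤ K := hT'P.trans hPK
  have hT'nd : ¬ p ∣ Nat.card T' := fun h => hPnd (h.trans (Subgroup.card_dvd_of_le hT'P))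
  -- generation
  have hT'nd' : ¬ p ∣ Nat.card T' := hT'nd
  have hgen := Cfsg.Agent.Lib.Coprime.GenerationE.le_iSup_relIndex_le A T' hA hT'nd' hT
  -- the subgroup of elements commuting with `U` modulo `R₀`
  let U₀ : Subgroup ↥K := U.subgroupOf K
  let Ubar : Subgroup (↥K ⧸ R₀) := U₀.map π
  let M : Subgroup H := ((Subgroup.centralizer (Ubar : Set (↥K ⧸ R₀))).comap π).map K.subtype
  have hMmem : ∀ x : ↥K, (x : H) ∈ M ↔ π x ∈ Subgroup.centralizer (Ubar : Set (↥K ⧸ R₀)) := by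
    intro x
    constructor
    · rintro ⟨y, hy, hyx⟩
      have : y = x := Subtype.ext hyx
      rw [← this]; exact hy
    · intro hx
      exact ⟨x, hx, rfl⟩
  -- the image of `T'` lies in `O`
  have hT'O : ∀ x : ↥K, (x : H) ∈ T' → π x ∈ O := by
    intro x hx
    have h1 : (x : H) ∈ P := hT'P hx
    obtain ⟨y, hy, hyx⟩ := h1
    have : y = x := Subtype.ext hyx
    rw [← this]
    exact hy
  -- each generator lies in `M`
  have hexists : ∃ B' : Subgroup H, B' ≤ A ∧ B'.relIndex A = p := by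
    haveI : Nontrivial ↥A := by
      rw [← Finite.one_lt_card_iff_nontrivial]
      calc 1 < p ^ 2 := Nat.one_lt_pow (by norm_num) hpp.one_lt
        _ ≤ _ := hA2
    obtain ⟨C, hC, -⟩ : ∃ C : Subgroup ↥A, IsCoatom C ∧ (⊥ : Subgroup ↥A) ≤ C :=
      (eq_top_or_exists_le_coatom (⊥ : Subgroup ↥A)).resolve_left bot_ne_top
    refine ⟨C.map A.subtype, Subgroup.map_subtype_le C, ?_⟩
    have h1 : (C.map A.subtype).subgroupOf A = C :=
      Subgroup.comap_map_eq_self_of_injective A.subtype_injective C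
    show ((C.map A.subtype).subgroupOf A).index = p
    rw [h1]
    exact index_eq_of_isCoatom hApg hC
  have hstep : ∀ B : Subgroup H, B ≤ A → B.relIndex A ≤ p →
      T' ⊓ Subgroup.centralizer (B : Set H) ≤ M := by
    intro B hBA hBi
    -- reduce to index exactly `p`
    obtain ⟨B', hB'A, hB'i, hCC⟩ : ∃ B' : Subgroup H, B' ≤ A ∧ B'.relIndex A = p ∧
        Subgroup.centralizer (B : Set H) ≤ Subgroup.centralizer (B' : Set H) := by
      by_cases hB1 : B.relIndex A = 1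
      · obtain ⟨B', hB'A, hB'i⟩ := hexists
        refine ⟨B', hB'A, hB'i, Subgroup.centralizer_le ?_⟩
        exact fun x hx => Subgroup.relIndex_eq_one.mp hB1 (hB'A hx)
      · have hd : B.relIndex A ∣ Nat.card A := Subgroup.relIndex_dvd_card B A
        obtain ⟨n, hn⟩ := IsPGroup.iff_card.mp hApg
        rw [hn] at hd
        obtain ⟨j, hj, hje⟩ := (Nat.dvd_prime_pow hpp).mp hd
        have hj1 : j = 1 := by
          by_contra hj2
          have hj0 : j ≠ 0 := by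
            rintro rfl
            exact hB1 (by simpa using hje)
          have : p ^ 2 ≤ p ^ j := Nat.pow_le_pow_right hpp.pos (by omega)
          rw [← hje] at this
          have h3 := this.trans hBi
          nlinarith [hpp.two_le]
        refine ⟨B, hBA, ?_, le_rfl⟩
        rw [hje, hj1, pow_one]
    intro τ hτ
    have hτK : τ ∈ K := hT'K hτ.1
    refine (hMmem ⟨τ, hτK⟩).mpr ?_
    refine Subgroup.mem_centralizer_iff.mpr ?_
    rintro _ ⟨⟨u, huK⟩, hu, rfl⟩
    have huU : u ∈ U := hu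
    -- the commutator
    have hw : ⁅u, τ⁆ ∈ (⁅U, K ⊓ Subgroup.centralizer (B' : Set H)⁆ : Subgroup H) :=
      Subgroup.commutator_mem_commutator huU ⟨hτK, hCC hτ.2⟩
    have hwK : ⁅u, τ⁆ ∈ K := by
      rw [commutatorElement_def]
      exact K.mul_mem (K.mul_mem (K.mul_mem huK hτK) (K.inv_mem huK)) (K.inv_mem hτK)
    have hwq : ¬ q ∣ orderOf ⁅u, τ⁆ := fun h =>
      hcomm B' hB'A hB'i (h.trans (Subgroup.orderOf_dvd_natCard _ hw))
    have hπw : π ⟨⁅u, τ⁆, hwK⟩ = ⁅π ⟨u, huK⟩, π ⟨τ, hτK⟩⁆ := by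
      rw [← map_commutatorElement]
      rfl
    have hwO : π ⟨⁅u, τ⁆, hwK⟩ ∈ O := by
      rw [hπw, commutatorElement_def]
      have h1 : π ⟨τ, hτK⟩ ∈ O := hT'O _ hτ.1
      have h2 := hOn.conj_mem _ (O.inv_mem h1) (π ⟨u, huK⟩)
      have h3 : π ⟨u, huK⟩ * π ⟨τ, hτK⟩ * (π ⟨u, huK⟩)⁻¹ * (π ⟨τ, hτK⟩)⁻¹ =
          (π ⟨u, huK⟩ * π ⟨τ, hτK⟩ * (π ⟨u, huK⟩)⁻¹) * (π ⟨τ, hτK⟩)⁻¹ := rfl
      rw [h3]
      exact O.mul_mem (hOn.conj_mem _ h1 _) (O.inv_mem h1)
    -- so it is trivial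
    have hwone : π ⟨⁅u, τ⁆, hwK⟩ = 1 := by
      obtain ⟨k, hk⟩ := hOq ⟨_, hwO⟩
      have hk' : (π ⟨⁅u, τ⁆, hwK⟩) ^ q ^ k = 1 := by
        have := congrArg Subtype.val hk
        simpa using this
      have hd1 : orderOf (π ⟨⁅u, τ⁆, hwK⟩) ∣ q ^ k := orderOf_dvd_of_pow_eq_one hk'
      have hd2 : orderOf (π ⟨⁅u, τ⁆, hwK⟩) ∣ orderOf ⁅u, τ⁆ := by
        refine (orderOf_map_dvd _ _).trans ?_
        rw [Subgroup.orderOf_mk]
      have hcop : (q ^ k).Coprime (orderOf ⁅u, τ⁆) :=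
        Nat.Coprime.pow_left k ((Nat.Prime.coprime_iff_not_dvd hqq).mpr hwq)
      have := Nat.dvd_gcd hd1 hd2
      rw [hcop] at this
      exact orderOf_eq_one_iff.mp (Nat.dvd_one.mp this)
    rw [hπw, commutatorElement_eq_one_iff_mul_comm] at hwone
    exact hwone
  have hT'M : T' ≤ M := by
    refine hgen.trans (iSup_le ?_)
    rintro ⟨B, hBA, hBi⟩
    exact hstep B hBA hBi
  -- `Ubar` centralizes `O`
  have hsurjT : ∀ c ∈ O, ∃ x : ↥K, (x : H) ∈ T' ∧ π x = c := by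
    intro c hc
    -- transfer the Sylow subgroup to `P₀`
    let e : ↥P →* ↥P₀ := (P₀.equivMapOfInjective K.subtype K.subtype_injective).symm.toMonoidHom
    have he : Function.Surjective e := (P₀.equivMapOfInjective K.subtype K.subtype_injective).symm.surjective
    let T₁ : Sylow q ↥P₀ := T.mapSurjective he
    have hmap := Cfsg.Agent.Lib.Components.PConstrained.map_sylow_pPrimePCore (p := q) (X := ↥K) T₁
    have hc' : c ∈ (((T₁ : Subgroup ↥P₀).map P₀.subtype).map π) := by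
      rw [show (((T₁ : Subgroup ↥P₀).map P₀.subtype).map π) = O from hmap]
      exact hc
    obtain ⟨x, hx, hxc⟩ := hc'
    obtain ⟨y, hy, hyx⟩ := hx
    obtain ⟨t, ht, hty⟩ := hy
    refine ⟨x, ?_, hxc⟩
    have h1 : ((x : ↥K) : H) = ((t : ↥P) : H) := by
      rw [← hyx, ← hty]
      have h2 := (P₀.equivMapOfInjective K.subtype K.subtype_injective).apply_symm_apply t
      have h3 := congrArg Subtype.val h2
      exact h3
    rw [h1]
    exact ⟨t, ht, rfl⟩
  have hUC : Ubar ≤ Subgroup.centralizer (O : Set (↥K ⧸ R₀)) := by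
    intro ubar hubar
    refine Subgroup.mem_centralizer_iff.mpr ?_
    intro c hc
    obtain ⟨x, hx, rfl⟩ := hsurjT c hc
    have h1 := (hMmem x).mp (hT'M hx)
    exact (Subgroup.mem_centralizer_iff.mp h1 ubar hubar).symm
  have hred : pPrimeCore q (↥K ⧸ R₀) = ⊥ := Cfsg.Agent.Lib.Solvable.PSeries.pPrimeCore_quotient q
  have hUO : Ubar ≤ O :=
    hUC.trans (Cfsg.Agent.Lib.Solvable.PSeries.centralizer_pCore_le
      Cfsg.Agent.Lib.Solvable.PSeries.isPSolvable_of_solvable hred)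
  -- conclusion
  intro u hu
  have huK : u ∈ K := hU hu
  have h1 : π ⟨u, huK⟩ ∈ O := hUO ⟨⟨u, huK⟩, hu, rfl⟩
  have hone : π ⟨u, huK⟩ = 1 := by
    obtain ⟨k, hk⟩ := hOq ⟨_, h1⟩
    have hk' : (π ⟨u, huK⟩) ^ q ^ k = 1 := by
      have := congrArg Subtype.val hk
      simpa using this
    have hd1 : orderOf (π ⟨u, huK⟩) ∣ q ^ k := orderOf_dvd_of_pow_eq_one hk'
    have hd2 : orderOf (π ⟨u, huK⟩) ∣ Nat.card U := by
      refine (orderOf_map_dvd _ _).trans ?_
      rw [Subgroup.orderOf_mk]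
      exact Subgroup.orderOf_dvd_natCard U hu
    have hcop : (q ^ k).Coprime (Nat.card U) :=
      Nat.Coprime.pow_left k ((Nat.Prime.coprime_iff_not_dvd hqq).mpr hUq)
    have := Nat.dvd_gcd hd1 hd2
    rw [hcop] at this
    exact orderOf_eq_one_iff.mp (Nat.dvd_one.mp this)
  have h2 : (⟨u, huK⟩ : ↥K) ∈ R₀ := by
    rwa [hπ, QuotientGroup.mk'_apply, QuotientGroup.eq_one_iff] at hone
  exact ⟨_, h2, rfl⟩

end Cfsg.Agent.S1288
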