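import Cfsg.Statements.S1297
import Mathlib
import Cfsg.Agent.Lib.Components.Balance5

set_option autoImplicit false
open Cfsg
open Cfsg.Agent.Lib.Components.Balance5

namespace Cfsg.Agent.S1297

/-- Let G be finite. Suppose that for every involution x, writing C = C_G(x), every component K of C / O(C) has K / Z(K) locally balanced. Then G is balanced. -/
theorem result {G : Type*} [Group G] [Finite G] (h : ∀ x : G, orderOf x = 2 → ∀ K : Subgroup (↥(Subgroup.centralizer ({x} : Set G)) ⧸ Cfsg.oddCore ↥(Subgroup.centralizer ({x} : Set G))), Cfsg.IsComponent K → Cfsg.IsLocallyBalanced (↥K ⧸ Subgroup.center ↥K)) : Cfsg.IsBalanced G := by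
  classical
  have : Fact (Nat.Prime 2) := ⟨Nat.prime_two⟩
  have key : ∀ x y : G, orderOf x = 2 → orderOf y = 2 → x * y = y * x →
      centralizerPPrimeCore 2 x ⊓ Subgroup.centralizer {y} ≤
        centralizerPPrimeCore 2 y ⊓ Subgroup.centralizer {x} := by
    rintro x y hx hy hxy z ⟨hzx, hzy⟩
    have hzC : z ∈ Subgroup.centralizer ({x} : Set G) := (Subgroup.map_subtype_le _) hzx
    refine ⟨?_, hzC⟩
    have hBe : IsElementaryAbelian 2 (Subgroup.zpowers x) := by
      constructor
      · infer_instance
      · intro w hw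
        obtain ⟨i, rfl⟩ := Subgroup.mem_zpowers_iff.mp hw
        have hx2 : x ^ 2 = 1 := by rw [← hx]; exact pow_orderOf_eq_one x
        rw [← zpow_natCast, ← zpow_mul, mul_comm, zpow_mul, zpow_natCast, hx2, one_zpow]
    have hBc : Nat.card (Subgroup.zpowers x) = 2 ^ 1 := by
      rw [Nat.card_zpowers, hx, pow_one]
    have hzD : z ∈ signalizerDelta 2 (Subgroup.zpowers x) := by
      rw [signalizerDelta, Subgroup.mem_iInf]
      rintro ⟨w, hw, hw1⟩
      obtain ⟨i, rfl⟩ := Subgroup.mem_zpowers_iff.mp hw
      have hx2 : x ^ 2 = 1 := by rw [← hx]; exact pow_orderOf_eq_one x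
      have h1 : x ^ i = x := by
        rcases Int.even_or_odd' i with ⟨c, rfl | rfl⟩
        · exfalso
          apply hw1
          rw [zpow_mul, zpow_ofNat, hx2, one_zpow]
        · rw [zpow_add, zpow_mul, zpow_ofNat, hx2, one_zpow, one_mul, zpow_one]
      change z ∈ centralizerPPrimeCore 2 (x ^ i)
      rw [h1]
      exact hzx
    have hBa : Subgroup.zpowers x ≤ Subgroup.centralizer ({y} : Set G) := by
      rw [Subgroup.zpowers_le, Subgroup.mem_centralizer_singleton_iff]
      exact hxy
    exact mem_centralizerPPrimeCore_of_delta hy (le_refl 1)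
      (fun L hL => autHyp_of_locallyKBalanced_quot (Subgroup.isPerfect_iff.mp hL.2.1)
        (locallyKBalanced_of_locallyBalanced (h y hy L hL))) hBe hBc hBa hzD hzy
  intro x y hx hy hxy
  exact le_antisymm (key x y hx hy hxy) (key y x hy hx hxy.symm)

end Cfsg.Agent.S1297
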