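import Cfsg.Statements.S1300
import Mathlib
-- import your own Cfsg.Agent.* helpers here

set_option autoImplicit false
open Cfsg

namespace Cfsg.Agent.S1300

/-- For a finite group G, balance in the sense of commuting involutions is the same as 1-balance for the prime 2. -/
theorem result {G : Type*} [Group G] [Finite G] : Cfsg.IsBalanced G ↔ Cfsg.IsKBalanced 2 1 G := by
  classical
  -- Δ for a subgroup of order two
  have hDelta : ∀ (A : Subgroup G) (x : G), x ∈ A → x ≠ 1 → Nat.card A = 2 →
      signalizerDelta 2 A = centralizerPPrimeCore 2 x := by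
    intro A x hx hx1 hcard
    have huniq : ∀ a ∈ A, a ≠ 1 → a = x := by
      intro a ha ha1
      by_contra hne
      have h3 : 3 ≤ Nat.card A := by
        have hs : ({⟨1, A.one_mem⟩, ⟨a, ha⟩, ⟨x, hx⟩} : Finset A).card = 3 := by
          rw [Finset.card_eq_three]
          refine ⟨_, _, _, ?_, ?_, ?_, rfl⟩
          · intro h; exact ha1 (congrArg Subtype.val h).symm
          · intro h; exact hx1 (congrArg Subtype.val h).symm
          · intro h; exact hne (congrArg Subtype.val h)
        haveI := Fintype.ofFinite A
        calc 3 = _ := hs.symm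
          _ ≤ Fintype.card A := Finset.card_le_univ _
          _ = Nat.card A := (Nat.card_eq_fintype_card).symm
      omega
    unfold signalizerDelta
    apply le_antisymm
    · exact iInf_le_of_le ⟨x, hx, hx1⟩ le_rfl
    · apply le_iInf
      rintro ⟨a, ha, ha1⟩
      show centralizerPPrimeCore 2 x ≤ centralizerPPrimeCore 2 a
      rw [huniq a ha ha1]
  constructor
  · intro hbal A hA hcard b hb hcomm
    have hcard' : Nat.card A = 2 := by simpa using hcard
    -- pick the nontrivial element of `A`
    have hnt : Nontrivial A := by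
      rw [← Finite.one_lt_card_iff_nontrivial, hcard']; norm_num
    obtain ⟨⟨x, hx⟩, hx1⟩ := exists_ne (1 : A)
    have hx1' : x ≠ 1 := fun h => hx1 (Subtype.ext h)
    have hox : orderOf x = 2 := orderOf_eq_prime (hA.2 x hx) hx1'
    rw [hDelta A x hx hx1' hcard']
    have := hbal x b hox hb (hcomm x hx)
    rw [this]
    exact inf_le_left
  · intro hk x y hx hy hxy
    have hone : ∀ u v : G, orderOf u = 2 → orderOf v = 2 → u * v = v * u →
        centralizerPPrimeCore 2 u ⊓ Subgroup.centralizer {v} ≤
          centralizerPPrimeCore 2 v ⊓ Subgroup.centralizer {u} := by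
      intro u v hu hv huv
      set A : Subgroup G := Subgroup.zpowers u with hAdef
      have hcard : Nat.card A = 2 := by
        rw [hAdef, Nat.card_zpowers, hu]
      have hAcomm : IsMulCommutative A := by
        haveI : IsCyclic A := by rw [hAdef]; infer_instance
        exact IsCyclic.commutative
      have hAel : ∀ a ∈ A, a ^ 2 = 1 := by
        intro a ha
        obtain ⟨k, rfl⟩ := Subgroup.mem_zpowers_iff.mp ha
        rw [← zpow_natCast, ← zpow_mul, mul_comm, zpow_mul, zpow_natCast]
        have : u ^ 2 = 1 := by rw [← hu]; exact pow_orderOf_eq_one u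
        rw [this]; simp
      have hu1 : u ≠ 1 := by
        intro h; rw [h, orderOf_one] at hu; omega
      have hcommA : ∀ a ∈ A, a * v = v * a := by
        intro a ha
        obtain ⟨k, rfl⟩ := Subgroup.mem_zpowers_iff.mp ha
        exact ((Commute.zpow_left huv k))
      have h1 := hk A ⟨hAcomm, hAel⟩ (by simpa using hcard) v hv hcommA
      rw [hDelta A u (Subgroup.mem_zpowers u) hu1 hcard] at h1
      intro w hw
      refine ⟨h1 hw, ?_⟩
      -- `w ∈ O(C(u)) ≤ C(u)`
      obtain ⟨w', _, rfl⟩ := hw.1
      exact w'.2
    exact le_antisymm (hone x y hx hy hxy) (hone y x hy hx hxy.symm)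

end Cfsg.Agent.S1300
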