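import Cfsg.Statements.S1303
import Mathlib
import Cfsg.Agent.S2427
-- import your own Cfsg.Agent.* helpers here

set_option autoImplicit false
open Cfsg

namespace Cfsg.Agent.S1303

open Cfsg.Agent.S2427

set_option maxRecDepth 100000

theorem card_top_not_two_group : ¬ IsPGroup 2 (⊤ : Subgroup G) := by
  intro h
  obtain ⟨n, hn⟩ := IsPGroup.iff_card.1 h
  have hc : Nat.card (⊤ : Subgroup G) = 24 := by
    rw [Subgroup.card_top, Nat.card_eq_fintype_card, card_G]
  rw [hc] at hn
  have h3 : 3 ∣ 2 ^ n := by rw [← hn]; norm_num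
  have := Nat.Prime.dvd_of_dvd_pow (by norm_num) h3
  omega

theorem center_card : Nat.card (Subgroup.center G) = 2 := by
  have : Nat.card (Subgroup.center G) = Nat.card {x : G // x ^ 2 = 1} :=
    Nat.card_congr (Equiv.subtypeEquivRight center_iff)
  rw [this, Nat.card_eq_fintype_card, card_center]

theorem core_bot : Cfsg.pPrimeCore 2 G = ⊥ := by
  unfold Cfsg.pPrimeCore
  rw [sSup_eq_bot]
  rintro N ⟨hN, hc⟩
  rcases normal_classif N hN with h | h | h | h
  · exact h
  · exfalso
    rw [h, Subgroup.card_top, Nat.card_eq_fintype_card, card_G] at hc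
    norm_num at hc
  · exfalso
    rw [h, center_card] at hc
    norm_num at hc
  · exfalso
    rw [h, card_comm] at hc
    norm_num at hc

theorem comm_two : IsPGroup 2 (commutator G) := by
  apply IsPGroup.of_card (n := 3)
  rw [card_comm]
  norm_num

theorem center_le_comm : Subgroup.center G ≤ commutator G := by
  rw [comm_eq]
  intro x hx
  have h2 := (center_iff x).1 hx
  show x ^ 4 = 1
  rw [show (4 : ℕ) = 2 * 2 by norm_num, pow_mul, h2, one_pow]

theorem pp_core : Cfsg.pPrimePCore 2 G = commutator G := by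
  unfold Cfsg.pPrimePCore
  have hcb := core_bot
  have hinj : Function.Injective (QuotientGroup.mk' (Cfsg.pPrimeCore 2 G)) := by
    rw [← MonoidHom.ker_eq_bot_iff, QuotientGroup.ker_mk', hcb]
  have hsurj : Function.Surjective (QuotientGroup.mk' (Cfsg.pPrimeCore 2 G)) :=
    QuotientGroup.mk'_surjective _
  apply le_antisymm
  · intro x hx
    rw [Subgroup.mem_comap] at hx
    have hle : Cfsg.pCore 2 (G ⧸ Cfsg.pPrimeCore 2 G) ≤
        (commutator G).map (QuotientGroup.mk' (Cfsg.pPrimeCore 2 G)) := by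
      unfold Cfsg.pCore
      apply sSup_le
      rintro N ⟨hN, h2⟩ y hy
      obtain ⟨z, rfl⟩ := hsurj y
      have hnc : (N.comap (QuotientGroup.mk' (Cfsg.pPrimeCore 2 G))).Normal := hN.comap _
      have hpc : IsPGroup 2 (N.comap (QuotientGroup.mk' (Cfsg.pPrimeCore 2 G))) :=
        h2.comap_of_injective _ hinj
      refine ⟨z, ?_, rfl⟩
      have hz : z ∈ N.comap (QuotientGroup.mk' (Cfsg.pPrimeCore 2 G)) := hy
      rcases normal_classif _ hnc with h | h | h | h
      · rw [h, Subgroup.mem_bot] at hz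
        rw [hz]
        exact one_mem _
      · rw [h] at hpc
        exact absurd hpc card_top_not_two_group
      · rw [h] at hz
        exact center_le_comm hz
      · rw [h] at hz
        exact hz
    obtain ⟨w, hw, e⟩ := hle hx
    have := hinj e
    rwa [← this]
  · intro x hx
    rw [Subgroup.mem_comap]
    unfold Cfsg.pCore
    have hnm : ((commutator G).map (QuotientGroup.mk' (Cfsg.pPrimeCore 2 G))).Normal :=
      Subgroup.Normal.map inferInstance _ hsurj
    have hp2 : IsPGroup 2 ((commutator G).map (QuotientGroup.mk' (Cfsg.pPrimeCore 2 G))) :=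
      comm_two.map _
    exact (le_sSup (show _ ∈ {N : Subgroup (G ⧸ Cfsg.pPrimeCore 2 G) | N.Normal ∧ IsPGroup 2 N} from ⟨hnm, hp2⟩))
      (Subgroup.mem_map_of_mem _ hx)

theorem cent_comm : ∀ x : G, (∀ y : G, y ^ 4 = 1 → y * x = x * y) → x ^ 4 = 1 := by
  decide +kernel

def mat3 : G := ⟨!![1, 1; 0, 1], by decide +kernel⟩
theorem mat3_cube : mat3 ^ 3 = 1 := by decide +kernel
theorem mat3_ne : mat3 ≠ 1 := by decide +kernel

instance fact_prime_three : Fact (Nat.Prime 3) := ⟨by norm_num⟩

/-- The group X = SL(2, 3): it is 2-constrained, O_{2'}(X) = 1, its centre A = Z(X) contains every involution of X = C_X(A), and X has a subgroup of order 3 (normalized by A) not contained in O_{2'}(X). -/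
theorem result : Cfsg.IsPConstrained 2 (Matrix.SpecialLinearGroup (Fin 2) (ZMod 3)) ∧ Cfsg.pPrimeCore 2 (Matrix.SpecialLinearGroup (Fin 2) (ZMod 3)) = ⊥ ∧ (∀ t : Matrix.SpecialLinearGroup (Fin 2) (ZMod 3), orderOf t = 2 → t ∈ Subgroup.center (Matrix.SpecialLinearGroup (Fin 2) (ZMod 3))) ∧ ∃ Q : Subgroup (Matrix.SpecialLinearGroup (Fin 2) (ZMod 3)), Nat.card ↥Q = 3 ∧ ¬ (Q ≤ Cfsg.pPrimeCore 2 (Matrix.SpecialLinearGroup (Fin 2) (ZMod 3))) := by
  refine ⟨?_, core_bot, ?_, ?_⟩
  · intro P
    have hM := pp_core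
    have hMp : IsPGroup 2 (Cfsg.pPrimePCore 2 G) := by rw [hM]; exact comm_two
    have hP : (P : Subgroup (Cfsg.pPrimePCore 2 G)) = ⊤ :=
      (P.is_maximal' (hMp.to_subgroup ⊤) le_top).symm
    rw [hP, ← MonoidHom.range_eq_map, Subgroup.range_subtype, hM]
    intro x hx
    rw [Subgroup.mem_centralizer_iff] at hx
    rw [comm_eq]
    exact cent_comm x (fun y hy => hx y (by
      show y ∈ (commutator G : Set G)
      rw [comm_eq]
      exact hy))
  · intro t ht
    have h2 := pow_orderOf_eq_one t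
    rw [ht] at h2
    exact (center_iff t).2 h2
  · refine ⟨Subgroup.zpowers mat3, ?_, ?_⟩
    · rw [Nat.card_zpowers]
      exact orderOf_eq_prime mat3_cube mat3_ne
    · rw [core_bot]
      intro h
      exact mat3_ne (Subgroup.mem_bot.1 (h (Subgroup.mem_zpowers mat3)))

end Cfsg.Agent.S1303
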