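import Cfsg.Statements.S1304
import Mathlib
-- import your own Cfsg.Agent.* helpers here

set_option autoImplicit false
open Cfsg

namespace Cfsg.Agent.S1304

/-- Let X be a perfect group and α an automorphism of X with α(x) x⁻¹ central for every x. Then α is the identity. -/
theorem result {X : Type*} [Group X] (hperf : commutator X = ⊤) (α : X ≃* X) (h : ∀ x : X, α x * x⁻¹ ∈ Subgroup.center X) : ∀ x : X, α x = x := by
  have hfix : (commutator X) ≤ MonoidHom.eqLocus (α : X →* X) (MonoidHom.id X) := by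
    rw [commutator_def, Subgroup.commutator_le]
    intro a _ b _
    show α (a * b * a⁻¹ * b⁻¹) = a * b * a⁻¹ * b⁻¹
    have ha : α a = (α a * a⁻¹) * a := by group
    have hb : α b = (α b * b⁻¹) * b := by group
    have hza := h a
    have hzb := h b
    set z := α a * a⁻¹ with hz
    set w := α b * b⁻¹ with hw
    rw [map_mul, map_mul, map_mul, map_inv, map_inv, ha, hb]
    have hcz : ∀ g, z * g = g * z := fun g => (Subgroup.mem_center_iff.mp hza g).symm
    have hcw : ∀ g, w * g = g * w := fun g => (Subgroup.mem_center_iff.mp hzb g).symm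
    have hcz' : ∀ g, z⁻¹ * g = g * z⁻¹ := fun g => by
      have := hcz g
      calc z⁻¹ * g = z⁻¹ * (g * z) * z⁻¹ := by group
        _ = z⁻¹ * (z * g) * z⁻¹ := by rw [this]
        _ = g * z⁻¹ := by group
    have hcw' : ∀ g, w⁻¹ * g = g * w⁻¹ := fun g => by
      have := hcw g
      calc w⁻¹ * g = w⁻¹ * (g * w) * w⁻¹ := by group
        _ = w⁻¹ * (w * g) * w⁻¹ := by rw [this]
        _ = g * w⁻¹ := by group
    simp only [mul_inv_rev]
    calc z * a * (w * b) * (a⁻¹ * z⁻¹) * (b⁻¹ * w⁻¹)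
        = z * (a * (w * b)) * a⁻¹ * (z⁻¹ * (b⁻¹ * w⁻¹)) := by group
      _ = (a * (w * b) * a⁻¹) * z * (z⁻¹ * (b⁻¹ * w⁻¹)) := by
            rw [hcz (a * (w * b)), mul_assoc (a * (w * b)) z, hcz a⁻¹]; group
      _ = a * (w * b) * a⁻¹ * (b⁻¹ * w⁻¹) := by group
      _ = w * (a * b * a⁻¹ * b⁻¹) * w⁻¹ := by
            rw [show a * (w * b) * a⁻¹ * (b⁻¹ * w⁻¹) = (a * w) * b * a⁻¹ * b⁻¹ * w⁻¹ by group, ← hcw a]
            group
      _ = a * b * a⁻¹ * b⁻¹ := by
            rw [hcw (a * b * a⁻¹ * b⁻¹)]; group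
  intro x
  have hx : x ∈ commutator X := by rw [hperf]; exact Subgroup.mem_top x
  exact hfix hx

end Cfsg.Agent.S1304
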