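import Cfsg.Statements.S1306
import Mathlib
import Cfsg.Agent.Lib.Components.Standard

set_option autoImplicit false
open Cfsg

namespace Cfsg.Agent.S1306

open Subgroup Cfsg.Agent.Lib.Components.Standard

/-- Let G be finite, x an involution and L ≤ C_G(x) a component of C_G(x). Suppose L is a component of C_G(y) for every involution y ∈ C_G(L), and ⁅L, g L g⁻¹⁆ ≠ 1 whenever g L g⁻¹ ≠ L. Then L is a standard subgroup of G. -/
theorem result {G : Type*} [Group G] [Finite G] (x : G) (hx : orderOf x = 2) (L : Subgroup G) (hLx : L ≤ Subgroup.centralizer ({x} : Set G)) (hL : Cfsg.IsComponent (L.subgroupOf (Subgroup.centralizer ({x} : Set G)))) (hne : ∀ y : G, orderOf y = 2 → y ∈ Subgroup.centralizer (L : Set G) → L ≤ Subgroup.centralizer ({y} : Set G) ∧ Cfsg.IsComponent (L.subgroupOf (Subgroup.centralizer ({y} : Set G)))) (hnc : ∀ g : G, L.map (MulAut.conj g).toMonoidHom ≠ L → ⁅L, L.map (MulAut.conj g).toMonoidHom⁆ ≠ ⊥) : Cfsg.IsStandardSubgroup L := by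
  classical
  have hcomp : CompOf L x := ⟨hLx, hL⟩
  have hxC : x ∈ centralizer (L : Set G) := by
    rw [mem_centralizer_iff]
    intro l hl
    exact ((mem_centralizer_singleton_iff).mp (hLx hl))
  -- the key step
  have key : ∀ (g y : G), orderOf y = 2 → y ∈ centralizer (L : Set G) →
      y ∈ centralizer ((cj g L : Subgroup G) : Set G) → cj g L = L := by
    intro g y hy hyL hyL'
    have h1 : CompOf L y := hne y hy hyL
    rw [centralizer_cj, mem_cj] at hyL'
    have hy' : orderOf (g⁻¹ * y * g) = 2 := by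
      have h0 : g⁻¹ * y * g = MulAut.conj g⁻¹ y := by simp [MulAut.conj_apply]
      rw [h0, MulEquiv.orderOf_eq]
      exact hy
    have h2 : CompOf L (g⁻¹ * y * g) := hne _ hy' hyL'
    have h3 := h2.conj g
    have e : g * (g⁻¹ * y * g) * g⁻¹ = y := by group
    rw [e] at h3
    rcases h1.eq_or_comm h3 with h | h
    · exact h.symm
    · by_contra hne'
      exact hnc g hne' h
  refine ⟨hcomp.quasisimple, ⟨?_, ?_⟩, hnc, ?_⟩
  · -- even order
    have h1 : orderOf (⟨x, hxC⟩ : ↥(centralizer (L : Set G))) ∣ Nat.card ↥(centralizer (L : Set G)) :=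
      orderOf_dvd_natCard _
    rw [Subgroup.orderOf_mk, hx] at h1
    exact even_iff_two_dvd.mpr h1
  · intro g hg
    by_contra hodd
    rw [Nat.not_odd_iff_even] at hodd
    haveI : Fact (Nat.Prime 2) := ⟨Nat.prime_two⟩
    obtain ⟨y, hy⟩ := exists_prime_orderOf_dvd_card' 2 hodd.two_dvd
    have hy1 : (y : G) ∈ centralizer (L : Set G) := y.2.1
    have hy2 : (y : G) ∈ centralizer ((cj g L : Subgroup G) : Set G) := by
      rw [centralizer_cj]
      exact y.2.2
    have hyo : orderOf (y : G) = 2 := by rwa [Subgroup.orderOf_coe]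
    have h := key g y hyo hy1 hy2
    apply hg
    rw [← cj_eq_iff, ← centralizer_cj, h]
  · apply le_antisymm
    · intro g hg
      rw [← cj_eq_iff, ← centralizer_cj, cj_eq_iff.mpr hg]
    · intro g hg
      have hg' := cj_eq_iff.mpr hg
      rw [← centralizer_cj] at hg'
      rw [← cj_eq_iff]
      exact key g x hx hxC (by rw [hg']; exact hxC)

end Cfsg.Agent.S1306
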