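-- Statement S1328.
import Cfsg.Statements.S1328
import Mathlib
import Cfsg.Agent.Lib.Components.BenderKey
import Cfsg.Agent.Lib.Components.Balance
import Cfsg.Agent.Lib.Components.Transport
import Cfsg.Agent.Lib.Components.PComponent
import Cfsg.Agent.Lib.Components.Quasisimple
import Cfsg.Agent.Lib.Coprime.Three

set_option autoImplicit false
set_option linter.style.haveILetI false
open Cfsg

namespace Cfsg.Agent.S1328

open Subgroup Cfsg.Agent.Lib.Components
open scoped commutatorElement Pointwise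

section basics

variable {G : Type*} [Group G]

/-- `x` is a 2-element. -/
def Two (x : G) : Prop := ∃ k : ℕ, x ^ 2 ^ k = 1

theorem two_one : Two (1 : G) := ⟨0, by simp⟩

theorem Two.inv {x : G} (h : Two x) : Two x⁻¹ := by
  obtain ⟨k, hk⟩ := h
  exact ⟨k, by rw [inv_pow, hk, inv_one]⟩

theorem Two.mul {x y : G} (hc : Commute x y) (hx : Two x) (hy : Two y) : Two (x * y) := by
  obtain ⟨k, hk⟩ := hx
  obtain ⟨l, hl⟩ := hy
  refine ⟨k + l, ?_⟩
  rw [hc.mul_pow, pow_add, pow_mul, hk, one_pow, one_mul, mul_comm, pow_mul, hl, one_pow]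

theorem Two.conj {x : G} (h : Two x) (g : G) : Two (g * x * g⁻¹) := by
  obtain ⟨k, hk⟩ := h
  exact ⟨k, by rw [conj_pow, hk]; simp⟩

theorem two_of_isPGroup {P : Subgroup G} (hP : IsPGroup 2 P) {x : G} (hx : x ∈ P) : Two x := by
  obtain ⟨k, hk⟩ := hP ⟨x, hx⟩
  exact ⟨k, by simpa using congrArg Subtype.val hk⟩

/-- Conjugate of a subgroup. -/
def cj (g : G) (L : Subgroup G) : Subgroup G := L.map (MulAut.conj g).toMonoidHom

theorem conj_mem_cj {g a : G} {L : Subgroup G} (ha : a ∈ L) : g * a * g⁻¹ ∈ cj g L := ⟨a, ha, rfl⟩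

theorem cj_mul (g h : G) (L : Subgroup G) : cj (g * h) L = cj g (cj h L) := by
  unfold cj
  rw [Subgroup.map_map]
  congr 1
  ext x
  simp [mul_assoc]

theorem cj_one (L : Subgroup G) : cj 1 L = L := by
  unfold cj
  ext x
  simp

theorem cj_inj (g : G) {L L' : Subgroup G} (h : cj g L = cj g L') : L = L' := by
  have := congrArg (cj g⁻¹) h
  simpa [← cj_mul, cj_one] using this

theorem cj_eq_iff (g : G) (L : Subgroup G) : cj g L = L ↔ g ∈ normalizer (L : Set G) :=
  Balance.map_conj_eq_iff_mem_normalizer g L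

end basics

section descent

variable {X : Type*} [Group X] [Group.IsNilpotent X]

theorem descent (C : Set X) (h1 : (1 : X) ∈ C) (t x : X) (hx : x ∉ C) (P : Subgroup X)
    (hxP : x ∈ P) (hP : ∀ v ∈ P, t * v * t⁻¹ ∈ P) :
    ∃ a ∈ P, a ∉ C ∧ a⁻¹ * (t * a * t⁻¹) ∈ C := by
  classical
  let f : X → X := fun v => v⁻¹ * (t * v * t⁻¹)
  obtain ⟨n, hn⟩ := _root_.nilpotent_iff_lowerCentralSeries.1 (inferInstance : Group.IsNilpotent X)
  have hmem : ∀ k, f^[k] x ∈ P ∧ f^[k] x ∈ (⊤ : Subgroup X).lowerCentralSeries k := by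
    intro k
    induction k with
    | zero => exact ⟨hxP, by simp [_root_.lowerCentralSeries_zero]⟩
    | succ k ih =>
      rw [Function.iterate_succ_apply']
      refine ⟨P.mul_mem (P.inv_mem ih.1) (hP _ ih.1), ?_⟩
      have h2 : f (f^[k] x) = ⁅(f^[k] x)⁻¹, t⁆ := by
        simp only [f, commutatorElement_def, inv_inv]
        group
      rw [h2, _root_.lowerCentralSeries_succ]
      exact Subgroup.commutator_mem_commutator (inv_mem ih.2) (mem_top t)
  have hex : ∃ k, f^[k] x ∈ C := by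
    refine ⟨n, ?_⟩
    have := (hmem n).2
    rw [hn, mem_bot] at this
    rw [this]
    exact h1
  have h0 : Nat.find hex ≠ 0 := by
    intro h
    have := Nat.find_spec hex
    rw [h] at this
    exact hx this
  obtain ⟨k, hk⟩ := Nat.exists_eq_succ_of_ne_zero h0
  refine ⟨f^[k] x, (hmem k).1, ?_, ?_⟩
  · exact Nat.find_min hex (by omega)
  · have := Nat.find_spec hex
    rw [hk, Function.iterate_succ_apply'] at this
    exact this

end descent

section schur

/-- In a perfect finite group with central Sylow 2-subgroup ... : a perfect group of even order has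
non-central Sylow 2-subgroups. -/
theorem sylow_not_le_center {X : Type*} [Group X] [Finite X] [hX : Group.IsPerfect X]
    (heven : 2 ∣ Nat.card X) (P : Sylow 2 X) : ¬ (P : Subgroup X) ≤ center X := by
  intro hle
  have hne : (P : Subgroup X) ≠ ⊥ := P.ne_bot_of_dvd_card heven
  have hodd : ¬ 2 ∣ (center X).index := by
    intro h
    exact P.not_dvd_index (h.trans (Subgroup.index_dvd_of_le hle))
  -- Schur: `g ↦ g ^ n` is a homomorphism to the centre, hence trivial
  have hker : ∀ g : X, g ^ (center X).index = 1 := by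
    intro g
    have h1 : (MonoidHom.transferCenterPow X).ker = ⊤ := by
      rw [eq_top_iff, ← Group.IsPerfect.commutator_eq_top (G := X)]
      rw [commutator_def, Subgroup.commutator_le]
      intro a _ b _
      rw [MonoidHom.mem_ker, map_commutatorElement, commutatorElement_eq_one_iff_mul_comm]
      exact Subtype.ext (mem_center_iff.1 (MonoidHom.transferCenterPow X b).2
        ((MonoidHom.transferCenterPow X a : center X) : X))
    have h2 : MonoidHom.transferCenterPow X g = 1 := by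
      have : g ∈ (MonoidHom.transferCenterPow X).ker := by rw [h1]; trivial
      exact this
    have := MonoidHom.transferCenterPow_apply g
    rw [h2] at this
    exact this.symm
  apply hne
  rw [eq_bot_iff]
  intro v hv
  have hv1 := hker v
  obtain ⟨k, hk⟩ := P.isPGroup' ⟨v, hv⟩
  have hk' : v ^ 2 ^ k = 1 := by simpa using congrArg Subtype.val hk
  have hc : (2 ^ k).Coprime (center X).index :=
    Nat.Coprime.pow_left _ ((Nat.Prime.coprime_iff_not_dvd Nat.prime_two).2 hodd)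
  have := orderOf_dvd_of_pow_eq_one hv1
  have h3 := orderOf_dvd_of_pow_eq_one hk'
  have h4 : orderOf v = 1 := Nat.eq_one_of_dvd_coprimes hc h3 this
  rw [mem_bot]
  exact orderOf_eq_one_iff.1 h4

end schur

section existence

variable {G : Type*} [Group G] [Finite G]

theorem exists_two {L : Subgroup G} (hq : IsQuasisimple ↥L) (heven : 2 ∣ Nat.card L) {t : G}
    (htL : t ∈ normalizer (L : Set G)) (ht : Two t) :
    ∃ a ∈ L, Two a ∧ (∃ l ∈ L, a * l ≠ l * a) ∧
      (∀ l ∈ L, (a⁻¹ * (t * a * t⁻¹)) * l = l * (a⁻¹ * (t * a * t⁻¹))) ∧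
      Two (a⁻¹ * (t * a * t⁻¹)) := by
  classical
  haveI : Group.IsPerfect ↥L := hq.1
  let τ : MulAut ↥L := PComponent.conjRestrict L t htL
  have hτp : IsPGroup 2 (zpowers τ) := by
    obtain ⟨k, hk⟩ := ht
    have hτk : τ ^ 2 ^ k = 1 := by
      have hpow : ∀ n : ℕ, ∀ v : ↥L, ((τ ^ n) v : G) = t ^ n * v * (t ^ n)⁻¹ := by
        intro n
        induction n with
        | zero => intro v; simp
        | succ n ih =>
          intro v
          rw [pow_succ, MulAut.mul_apply, ih]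
          change t ^ n * (t * v * t⁻¹) * (t ^ n)⁻¹ = _
          rw [pow_succ]
          group
      ext v
      rw [hpow, hk]
      simp
    apply IsPGroup.of_card (n := (orderOf τ).factorization 2)
    rw [Nat.card_zpowers]
    have hd : orderOf τ ∣ 2 ^ k := orderOf_dvd_of_pow_eq_one hτk
    obtain ⟨j, -, hj⟩ := (Nat.dvd_prime_pow Nat.prime_two).1 hd
    rw [hj]
    simp [Nat.Prime.factorization_self Nat.prime_two]
  haveI : Fact (Nat.Prime 2) := ⟨Nat.prime_two⟩
  have hcard : ¬ 2 ∣ Nat.card (Sylow 2 ↥L) := by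
    intro h
    have h1 := card_sylow_modEq_one 2 ↥L
    have h2 : Nat.card (Sylow 2 ↥L) % 2 = 1 := h1
    omega
  obtain ⟨P, hP⟩ := hτp.nonempty_fixed_point_of_prime_not_dvd_card (Sylow 2 ↥L) hcard
  have hPτ : τ • P = P := hP ⟨τ, mem_zpowers τ⟩
  have hPstable : ∀ v ∈ (P : Subgroup ↥L), τ v ∈ (P : Subgroup ↥L) := by
    intro v hv
    have h1 : τ • v ∈ τ • (P : Subgroup ↥L) := Subgroup.smul_mem_pointwise_smul v τ _ hv
    rw [← Sylow.pointwise_smul_def, hPτ] at h1
    exact h1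
  -- the 2-group `T`
  set T0 : Subgroup G := (P : Subgroup ↥L).map L.subtype with hT0
  have hT0p : IsPGroup 2 T0 := P.isPGroup'.map _
  have hT0t : ∀ v ∈ T0, t * v * t⁻¹ ∈ T0 := by
    rintro _ ⟨v, hv, rfl⟩
    exact ⟨τ v, hPstable v hv, rfl⟩
  have hzt : IsPGroup 2 (zpowers t) := by
    obtain ⟨k, hk⟩ := ht
    apply IsPGroup.of_card (n := (orderOf t).factorization 2)
    rw [Nat.card_zpowers]
    have hd : orderOf t ∣ 2 ^ k := orderOf_dvd_of_pow_eq_one hk
    obtain ⟨j, -, hj⟩ := (Nat.dvd_prime_pow Nat.prime_two).1 hd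
    rw [hj]
    simp [Nat.Prime.factorization_self Nat.prime_two]
  have hTp : IsPGroup 2 (T0 ⊔ zpowers t : Subgroup G) :=
    hT0p.to_sup_of_normal_left' hzt (by
      rw [zpowers_le]
      exact Cfsg.Agent.Lib.Coprime.Three.mem_normalizer_of_conj_mem hT0t)
  set T : Subgroup G := T0 ⊔ zpowers t with hT
  haveI hTn : Group.IsNilpotent T := hTp.isNilpotent
  -- a non-central element
  have hnc := sylow_not_le_center heven P
  obtain ⟨x, hxP, hxc⟩ := SetLike.not_le_iff_exists.1 hnc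
  let Zs : Set T := {v | ∀ l ∈ L, (v : G) * l = l * v}
  have hZs1 : (1 : T) ∈ Zs := by
    intro l _
    simp
  have hxT : (x : G) ∈ T := (le_sup_left : T0 ≤ T) ⟨x, hxP, rfl⟩
  have hxZ : (⟨x, hxT⟩ : T) ∉ Zs := by
    intro h
    apply hxc
    rw [mem_center_iff]
    intro l
    exact Subtype.ext (h l l.2).symm
  let tT : T := ⟨t, (le_sup_right : zpowers t ≤ T) (mem_zpowers t)⟩
  obtain ⟨a, haP, haZ, haz⟩ := descent Zs hZs1 tT ⟨x, hxT⟩ hxZ (T0.subgroupOf T)
    (by exact ⟨x, hxP, rfl⟩)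
    (by
      intro v hv
      exact hT0t _ hv)
  have haT0 : (a : G) ∈ T0 := haP
  refine ⟨a, ?_, two_of_isPGroup hT0p haT0, ?_, ?_, ?_⟩
  · obtain ⟨v, -, hv⟩ := haT0
    rw [← hv]
    exact v.2
  · by_contra hcon
    push_neg at hcon
    exact haZ hcon
  · intro l hl
    exact haz l hl
  · have h1 : ((a : G))⁻¹ * (t * a * t⁻¹) ∈ T0 := T0.mul_mem (T0.inv_mem haT0) (hT0t _ haT0)
    exact two_of_isPGroup hT0p h1

end existence

section core

variable {G : Type*} [Group G] [Finite G]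

/-- The abstract setting. -/
structure Ctx (H R : Subgroup G) (t : G) (F : Set (Subgroup G)) : Prop where
  t2 : t * t = 1
  tN : t ∈ normalizer (H : Set G)
  comm : ∀ L ∈ F, ∀ L' ∈ F, L ≠ L' → ∀ a ∈ L, ∀ b ∈ L', a * b = b * a
  le : ∀ L ∈ F, L ≤ H
  cj_mem : ∀ g ∈ normalizer (H : Set G), ∀ L ∈ F, cj g L ∈ F
  qs : ∀ L ∈ F, IsQuasisimple ↥L
  even : ∀ L ∈ F, 2 ∣ Nat.card L
  rOdd : ∀ r ∈ R, Two r → r = 1
  rN : ∀ c ∈ H, c * t = t * c → ∀ r ∈ R, c * r * c⁻¹ ∈ R
  rH : R ≤ H
  rT : ∀ r ∈ R, r * t = t * r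
  zc : ∀ L ∈ F, ∀ z ∈ L, (∀ l ∈ L, z * l = l * z) → Two z → ∀ r ∈ R, r * z = z * r
  yodd : ∀ r ∈ R, (orderOf r).Coprime 2

variable {H R : Subgroup G} {t : G} {F : Set (Subgroup G)}

theorem Ctx.mem_normalizer_of_sq (C : Ctx H R t F) {L : Subgroup G} {y : G} (hy : y ∈ R)
    (h : y * y ∈ normalizer (L : Set G)) : y ∈ normalizer (L : Set G) := by
  obtain ⟨m, hm⟩ := exists_pow_eq_self_of_coprime ((C.yodd y hy).symm)
  rw [← hm]
  rw [pow_two]
  exact pow_mem h m

theorem Ctx.two_t (C : Ctx H R t F) : Two t := ⟨1, by rw [pow_one, pow_two]; exact C.t2⟩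

theorem Ctx.r_commutator_mem (C : Ctx H R t F) {u y : G} (hu : u ∈ H) (hut : u * t = t * u)
    (hy : y ∈ R) : u⁻¹ * (y * u * y⁻¹) ∈ R := by
  have hut' : u⁻¹ * t = t * u⁻¹ := (show Commute u t from hut).inv_left
  have h1 := C.rN u⁻¹ (inv_mem hu) hut' y hy
  have h2 := R.mul_mem h1 (R.inv_mem hy)
  have h3 : u⁻¹ * y * u⁻¹⁻¹ * y⁻¹ = u⁻¹ * (y * u * y⁻¹) := by group
  rwa [h3] at h2

/-- If `t` normalizes `L`, so does every element of `R`. -/
theorem Ctx.fact5 (C : Ctx H R t F) {L : Subgroup G} (hL : L ∈ F) {y : G} (hy : y ∈ R)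
    (htL : t ∈ normalizer (L : Set G)) : y ∈ normalizer (L : Set G) := by
  by_contra hne
  have hyH : y ∈ H := C.rH hy
  have hyN : y ∈ normalizer (H : Set G) := le_normalizer hyH
  have hyt : y * t = t * y := C.rT y hy
  obtain ⟨a, haL, ha2, ⟨l0, hl0, hanc⟩, hzc, hz2⟩ :=
    exists_two (C.qs L hL) (C.even L hL) htL C.two_t
  set z := a⁻¹ * (t * a * t⁻¹) with hz
  have hzL : z ∈ L := L.mul_mem (L.inv_mem haL) ((mem_normalizer_iff.1 htL a).1 haL)
  have hzy : y * z = z * y := C.zc L hL z hzL hzc hz2 y hy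
  have hL1 : cj y L ∈ F := C.cj_mem y hyN L hL
  have hL2 : cj y (cj y L) ∈ F := C.cj_mem y hyN _ hL1
  have n1 : L ≠ cj y L := fun h => hne ((cj_eq_iff y L).1 h.symm)
  have n2 : L ≠ cj y (cj y L) := by
    intro h
    apply hne
    apply C.mem_normalizer_of_sq hy
    rw [← cj_eq_iff, cj_mul]
    exact h.symm
  have n3 : cj y L ≠ cj y (cj y L) := fun h => n1 (cj_inj y h)
  set b := y * a * y⁻¹ with hb
  set b2 := y * b * y⁻¹ with hb2
  have hbm : b ∈ cj y L := conj_mem_cj haL
  have hb2m : b2 ∈ cj y (cj y L) := conj_mem_cj hbm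
  have cab : a * b = b * a := C.comm L hL _ hL1 n1 a haL b hbm
  have cab2 : a * b2 = b2 * a := C.comm L hL _ hL2 n2 a haL b2 hb2m
  have cbb2 : b * b2 = b2 * b := C.comm _ hL1 _ hL2 n3 b hbm b2 hb2m
  have htz : t * a * t⁻¹ = a * z := by rw [hz]; group
  have htb : t * b * t⁻¹ = b * z := by
    have e1 : t * b * t⁻¹ = y * (t * a * t⁻¹) * y⁻¹ := by
      have h1 : t * y = y * t := hyt.symm
      have h2 : y⁻¹ * t⁻¹ = t⁻¹ * y⁻¹ := by
        rw [← mul_inv_rev, ← mul_inv_rev, hyt]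
      calc t * b * t⁻¹ = (t * y) * a * (y⁻¹ * t⁻¹) := by rw [hb]; group
        _ = (y * t) * a * (t⁻¹ * y⁻¹) := by rw [h1, h2]
        _ = _ := by group
    rw [e1, htz]
    calc y * (a * z) * y⁻¹ = (y * a * y⁻¹) * (y * z) * y⁻¹ := by group
      _ = (y * a * y⁻¹) * (z * y) * y⁻¹ := by rw [hzy]
      _ = b * z := by rw [hb]; group
  set u := a * b⁻¹ with hu
  have hut : u * t = t * u := by
    have e1 : t * u * t⁻¹ = u := by
      calc t * u * t⁻¹ = (t * a * t⁻¹) * (t * b * t⁻¹)⁻¹ := by rw [hu]; group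
        _ = (a * z) * (b * z)⁻¹ := by rw [htz, htb]
        _ = u := by rw [hu]; group
    calc u * t = (t * u * t⁻¹) * t := by rw [e1]
      _ = t * u := by group
  have huH : u ∈ H :=
    H.mul_mem (C.le L hL haL) (H.inv_mem (C.le _ hL1 hbm))
  have hr := C.r_commutator_mem huH hut hy
  have hval : u⁻¹ * (y * u * y⁻¹) = a⁻¹ * (b * b * b2⁻¹) := by
    have e2 : y * u * y⁻¹ = b * b2⁻¹ := by rw [hu, hb2, hb]; group
    have cinv : b * a⁻¹ = a⁻¹ * b := by
      rw [eq_inv_mul_iff_mul_eq, ← mul_assoc, cab, mul_assoc]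
      simp
    rw [e2, hu]
    calc (a * b⁻¹)⁻¹ * (b * b2⁻¹) = b * a⁻¹ * (b * b2⁻¹) := by group
      _ = a⁻¹ * b * (b * b2⁻¹) := by rw [cinv]
      _ = _ := by group
  have hb2two : Two b := ha2.conj y
  have hb22 : Two b2 := hb2two.conj y
  have hcc : Commute (b * b) b2⁻¹ :=
    ((Commute.inv_right (show Commute b b2 from cbb2)).mul_left
      (Commute.inv_right (show Commute b b2 from cbb2)))
  have hcab : Commute a (b * b * b2⁻¹) := by
    have h1 : Commute a b := cab
    have h2 : Commute a b2 := cab2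
    exact (h1.mul_right h1).mul_right h2.inv_right
  have h2r : Two (a⁻¹ * (b * b * b2⁻¹)) :=
    Two.mul hcab.inv_left ha2.inv (Two.mul hcc (Two.mul (Commute.refl b) hb2two hb2two) hb22.inv)
  have hone := C.rOdd _ hr (by rw [hval]; exact h2r)
  rw [hval] at hone
  have haeq : a = b * b * b2⁻¹ := by
    rw [inv_mul_eq_one] at hone
    exact hone
  apply hanc
  rw [haeq]
  have c1 : Commute b l0 := (C.comm L hL _ hL1 n1 l0 hl0 b hbm).symm
  have c2 : Commute b2 l0 := (C.comm L hL _ hL2 n2 l0 hl0 b2 hb2m).symm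
  exact ((c1.mul_left c1).mul_left c2.inv_left)

/-- If `t` does not normalize `L`, every element of `R` still normalizes `L`. -/
theorem Ctx.fact41 (C : Ctx H R t F) {L : Subgroup G} (hL : L ∈ F) {y : G} (hy : y ∈ R)
    (htL : t ∉ normalizer (L : Set G)) : y ∈ normalizer (L : Set G) := by
  by_contra hne
  have hyH : y ∈ H := C.rH hy
  have hyN : y ∈ normalizer (H : Set G) := le_normalizer hyH
  have hyt : y * t = t * y := C.rT y hy
  obtain ⟨a, haL, ha2, ⟨l0, hl0, hanc⟩, -, -⟩ :=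
    exists_two (C.qs L hL) (C.even L hL) (one_mem (normalizer (L : Set G))) two_one
  have hL' : cj t L ∈ F := C.cj_mem t C.tN L hL
  have hM : cj y L ∈ F := C.cj_mem y hyN L hL
  have hM' : cj t (cj y L) ∈ F := C.cj_mem t C.tN _ hM
  have htt : ∀ K : Subgroup G, cj t (cj t K) = K := by
    intro K
    rw [← cj_mul, C.t2, cj_one]
  have hty : cj t (cj y L) = cj y (cj t L) := by
    rw [← cj_mul, ← cj_mul, hyt]
  have n1 : L ≠ cj t L := fun h => htL ((cj_eq_iff t L).1 h.symm)
  have n2 : L ≠ cj y L := fun h => hne ((cj_eq_iff y L).1 h.symm)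
  have n3 : L ≠ cj t (cj y L) := by
    intro h
    apply hne
    apply C.mem_normalizer_of_sq hy
    rw [← cj_eq_iff]
    have e : y * y = (t * y) * (t * y) := by
      calc y * y = t * t * y * y := by rw [C.t2, one_mul]
        _ = t * (t * y) * y := by group
        _ = t * (y * t) * y := by rw [hyt]
        _ = _ := by group
    have h' : cj (t * y) L = L := by rw [cj_mul]; exact h.symm
    rw [e, cj_mul, h', h']
  have n4 : cj t L ≠ cj y L := by
    intro h
    apply n3
    rw [← h, htt]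
  have n5 : cj t L ≠ cj t (cj y L) := fun h => n2 (cj_inj t h)
  have n6 : cj y L ≠ cj t (cj y L) := by
    rw [hty]
    exact fun h => n1 (cj_inj y h)
  set a' := t * a * t⁻¹ with ha'
  set b := y * a * y⁻¹ with hb
  set b' := t * b * t⁻¹ with hb'
  have ha'm : a' ∈ cj t L := conj_mem_cj haL
  have hbm : b ∈ cj y L := conj_mem_cj haL
  have hb'm : b' ∈ cj t (cj y L) := conj_mem_cj hbm
  have c1 : Commute a a' := C.comm L hL _ hL' n1 a haL a' ha'm
  have c2 : Commute a b := C.comm L hL _ hM n2 a haL b hbm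
  have c3 : Commute a b' := C.comm L hL _ hM' n3 a haL b' hb'm
  have c4 : Commute a' b := C.comm _ hL' _ hM n4 a' ha'm b hbm
  have c5 : Commute a' b' := C.comm _ hL' _ hM' n5 a' ha'm b' hb'm
  have c6 : Commute b b' := C.comm _ hM _ hM' n6 b hbm b' hb'm
  set u := a * a' with hu
  have ht1 : t⁻¹ = t := by
    rw [inv_eq_iff_mul_eq_one]
    exact C.t2
  have hut : u * t = t * u := by
    have e1 : t * a' * t⁻¹ = a := by
      rw [ha']
      calc t * (t * a * t⁻¹) * t⁻¹ = (t * t) * a * (t⁻¹ * t⁻¹) := by group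
        _ = a := by rw [ht1, C.t2]; simp
    have e2 : t * u * t⁻¹ = u := by
      calc t * u * t⁻¹ = (t * a * t⁻¹) * (t * a' * t⁻¹) := by rw [hu]; group
        _ = a' * a := by rw [e1]
        _ = u := c1.eq.symm
    calc u * t = (t * u * t⁻¹) * t := by rw [e2]
      _ = t * u := by group
  have huH : u ∈ H := H.mul_mem (C.le L hL haL) (C.le _ hL' ha'm)
  have hr := C.r_commutator_mem huH hut hy
  have hbb : y * a' * y⁻¹ = b' := by
    have h1 : t * y = y * t := hyt.symm
    have h2 : y⁻¹ * t⁻¹ = t⁻¹ * y⁻¹ := by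
      rw [← mul_inv_rev, ← mul_inv_rev, hyt]
    calc y * a' * y⁻¹ = (y * t) * a * (t⁻¹ * y⁻¹) := by rw [ha']; group
      _ = (t * y) * a * (y⁻¹ * t⁻¹) := by rw [h1, h2]
      _ = b' := by rw [hb', hb]; group
  have hval : u⁻¹ * (y * u * y⁻¹) = (a * a')⁻¹ * (b * b') := by
    have : y * u * y⁻¹ = b * b' := by
      rw [← hbb, hu, hb]; group
    rw [this, hu]
  have ha'2 : Two a' := ha2.conj t
  have hb2 : Two b := ha2.conj y
  have hb'2 : Two b' := hb2.conj t
  have h2r : Two ((a * a')⁻¹ * (b * b')) := by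
    refine Two.mul ?_ (Two.mul c1 ha2 ha'2).inv (Two.mul c6 hb2 hb'2)
    exact (((c2.mul_right c3).mul_left (c4.mul_right c5))).inv_left
  have hone := C.rOdd _ hr (by rw [hval]; exact h2r)
  rw [hval, inv_mul_eq_one] at hone
  have haeq : a = a'⁻¹ * (b * b') := by
    rw [eq_inv_mul_iff_mul_eq, ← c1.eq]
    exact hone
  apply hanc
  rw [haeq]
  have d1 : Commute a' l0 := (C.comm L hL _ hL' n1 l0 hl0 a' ha'm).symm
  have d2 : Commute b l0 := (C.comm L hL _ hM n2 l0 hl0 b hbm).symm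
  have d3 : Commute b' l0 := (C.comm L hL _ hM' n3 l0 hl0 b' hb'm).symm
  exact d1.inv_left.mul_left (d2.mul_left d3)

/-- Every element of `R` normalizes every member of `F`. -/
theorem Ctx.normalizes (C : Ctx H R t F) {L : Subgroup G} (hL : L ∈ F) {y : G} (hy : y ∈ R) :
    y ∈ normalizer (L : Set G) := by
  by_cases h : t ∈ normalizer (L : Set G)
  · exact C.fact5 hL hy h
  · exact C.fact41 hL hy h

theorem Ctx.central_of_hom (C : Ctx H R t F) {L : Subgroup G} (hq : IsQuasisimple ↥L)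
    (d : ↥L →* G) (hdH : ∀ l, d l ∈ H) (hdt : ∀ l, d l * t = t * d l) {y : G} (hy : y ∈ R)
    (hyL : y ∈ normalizer (L : Set G))
    (hdy : ∀ l : ↥L, y * d l * y⁻¹ = d ⟨y * l * y⁻¹, (mem_normalizer_iff.1 hyL l).1 l.2⟩)
    (a : ↥L) (ha : d a ∉ R) : ∀ l ∈ L, Commute y l := by
  have hn : (R.comap d).Normal := by
    refine ⟨fun n hn m => ?_⟩
    rw [mem_comap, map_mul, map_mul, map_inv]
    exact C.rN _ (hdH m) (hdt m) _ hn
  have hdich := Quasisimple.eq_top_or_le_center_of_isSubnormal hq hn.isSubnormal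
  have hle : R.comap d ≤ center ↥L := by
    rcases hdich with h | h
    · exfalso
      apply ha
      have : a ∈ R.comap d := by rw [h]; trivial
      exact this
    · exact h
  refine Balance.commute_of_central_action (Subgroup.isPerfect_iff.1 hq.1) ?_ ?_
  · intro v hv
    exact (mem_normalizer_iff.1 hyL v).1 hv
  · intro v hv b hb
    let vL : ↥L := ⟨v, hv⟩
    let vy : ↥L := ⟨y * v * y⁻¹, (mem_normalizer_iff.1 hyL v).1 hv⟩
    have hmem : vL⁻¹ * vy ∈ R.comap d := by
      rw [mem_comap, map_mul, map_inv, ← hdy vL]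
      exact C.r_commutator_mem (hdH vL) (hdt vL) hy
    have hz := hle hmem
    rw [mem_center_iff] at hz
    exact congrArg Subtype.val (hz ⟨b, hb⟩)

/-- If `t` moves `L` then `R` centralizes `L`. -/
theorem Ctx.central_of_moved (C : Ctx H R t F) {L : Subgroup G} (hL : L ∈ F) {y : G} (hy : y ∈ R)
    (htL : t ∉ normalizer (L : Set G)) : ∀ l ∈ L, Commute y l := by
  have hyL := C.normalizes hL hy
  have hL' : cj t L ∈ F := C.cj_mem t C.tN L hL
  have n1 : L ≠ cj t L := fun h => htL ((cj_eq_iff t L).1 h.symm)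
  have hcomm : ∀ a ∈ L, ∀ b ∈ L, Commute a (t * b * t⁻¹) := fun a ha b hb =>
    C.comm L hL _ hL' n1 a ha _ (conj_mem_cj hb)
  have ht1 : t⁻¹ = t := by
    rw [inv_eq_iff_mul_eq_one]
    exact C.t2
  have htt : ∀ v : G, t * (t * v * t⁻¹) * t⁻¹ = v := by
    intro v
    calc t * (t * v * t⁻¹) * t⁻¹ = (t * t) * v * (t⁻¹ * t⁻¹) := by group
      _ = v := by rw [ht1, C.t2]; simp
  let d : ↥L →* G := MonoidHom.mk' (fun l => (l : G) * (t * l * t⁻¹)) (by
    intro m n
    have h1 : Commute (n : G) (t * m * t⁻¹) := hcomm n n.2 m m.2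
    simp only [Subgroup.coe_mul]
    calc (m : G) * n * (t * (m * n) * t⁻¹) = m * (n * (t * m * t⁻¹)) * (t * n * t⁻¹) := by group
      _ = m * ((t * m * t⁻¹) * n) * (t * n * t⁻¹) := by rw [h1.eq]
      _ = _ := by group)
  have hdv : ∀ l : ↥L, d l = (l : G) * (t * l * t⁻¹) := fun l => rfl
  have hdH : ∀ l, d l ∈ H := by
    intro l
    rw [hdv]
    exact H.mul_mem (C.le L hL l.2) (C.le _ hL' (conj_mem_cj l.2))
  have hdt : ∀ l, d l * t = t * d l := by
    intro l
    have e2 : t * d l * t⁻¹ = d l := by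
      rw [hdv]
      calc t * ((l : G) * (t * l * t⁻¹)) * t⁻¹ = (t * l * t⁻¹) * (t * (t * l * t⁻¹) * t⁻¹) := by
            group
        _ = (t * l * t⁻¹) * l := by rw [htt]
        _ = _ := (hcomm l l.2 l l.2).eq.symm
    calc d l * t = (t * d l * t⁻¹) * t := by rw [e2]
      _ = t * d l := by group
  have hyt : y * t = t * y := C.rT y hy
  obtain ⟨a, haL, ha2, ⟨l0, hl0, hanc⟩, -, -⟩ :=
    exists_two (C.qs L hL) (C.even L hL) (one_mem (normalizer (L : Set G))) two_one
  refine C.central_of_hom (C.qs L hL) d hdH hdt hy hyL ?_ ⟨a, haL⟩ ?_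
  · intro l
    rw [hdv, hdv]
    have h1 : t * y = y * t := hyt.symm
    have h2 : y⁻¹ * t⁻¹ = t⁻¹ * y⁻¹ := by
      rw [← mul_inv_rev, ← mul_inv_rev, hyt]
    simp only
    calc y * ((l : G) * (t * l * t⁻¹)) * y⁻¹
        = (y * l * y⁻¹) * ((y * t) * l * (t⁻¹ * y⁻¹)) := by group
      _ = (y * l * y⁻¹) * ((t * y) * l * (y⁻¹ * t⁻¹)) := by rw [h1, h2]
      _ = _ := by group
  · intro hda
    have h2 : Two (d ⟨a, haL⟩) := by
      rw [hdv]
      exact Two.mul (hcomm a haL a haL) ha2 (ha2.conj t)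
    have h3 := C.rOdd _ hda h2
    rw [hdv] at h3
    have h4 : (a : G) = (t * a * t⁻¹)⁻¹ := eq_inv_of_mul_eq_one_left h3
    apply hanc
    rw [h4]
    have d1 : Commute (t * a * t⁻¹) l0 := (hcomm l0 hl0 a haL).symm
    exact d1.inv_left

/-- If `t` centralizes `L` then `R` centralizes `L`. -/
theorem Ctx.central_of_central (C : Ctx H R t F) {L : Subgroup G} (hL : L ∈ F) {y : G} (hy : y ∈ R)
    (htL : t ∈ centralizer (L : Set G)) : ∀ l ∈ L, Commute y l := by
  have htN : t ∈ normalizer (L : Set G) := centralizer_le_normalizer _ htL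
  have hyL := C.normalizes hL hy
  obtain ⟨a, haL, ha2, ⟨l0, hl0, hanc⟩, -, -⟩ :=
    exists_two (C.qs L hL) (C.even L hL) (one_mem (normalizer (L : Set G))) two_one
  refine C.central_of_hom (C.qs L hL) L.subtype (fun l => C.le L hL l.2) ?_ hy hyL ?_ ⟨a, haL⟩ ?_
  · intro l
    exact mem_centralizer_iff.1 htL l l.2
  · intro l
    rfl
  · intro hda
    have h3 : a = 1 := C.rOdd _ hda ha2
    apply hanc
    rw [h3]
    simp

end core

section concrete

variable {G : Type*} [Group G] [Finite G]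

/-- The family of components of `H`, inside `G`. -/
def fam (H : Subgroup G) : Set (Subgroup G) :=
  {L | ∃ E : Subgroup ↥H, IsComponent E ∧ L = E.map H.subtype}

theorem fam_cj (H : Subgroup G) {g : G} (hg : g ∈ normalizer (H : Set G)) {L : Subgroup G}
    (hL : L ∈ fam H) : cj g L ∈ fam H := by
  obtain ⟨E, hE, rfl⟩ := hL
  refine ⟨E.map (PComponent.conjRestrict H g hg).toMonoidHom,
    Transport.isComponent_map_equiv _ hE, ?_⟩
  unfold cj
  rw [Subgroup.map_map, Subgroup.map_map]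
  rfl

theorem fam_quasi {H : Subgroup G} {L : Subgroup G} (hL : L ∈ fam H) : IsQuasisimple ↥L := by
  obtain ⟨E, hE, rfl⟩ := hL
  exact Transport.isQuasisimple_of_equiv (E.equivMapOfInjective _ H.subtype_injective) hE.2

theorem fam_comm {H : Subgroup G} {L L' : Subgroup G} (hL : L ∈ fam H) (hL' : L' ∈ fam H)
    (hne : L ≠ L') : ∀ a ∈ L, ∀ b ∈ L', a * b = b * a := by
  obtain ⟨E, hE, rfl⟩ := hL
  obtain ⟨E', hE', rfl⟩ := hL'
  have h1 : E ≠ E' := fun h => hne (by rw [h])
  rcases Layer.eq_or_commutator_eq_bot hE hE' with h | h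
  · exact absurd h h1
  · rintro _ ⟨a, ha, rfl⟩ _ ⟨b, hb, rfl⟩
    have := (Layer.commutator_eq_bot_iff_forall.1 h) a ha b hb
    exact congrArg Subtype.val this

theorem fam_even {H : Subgroup G} (hO : oddCore ↥H = ⊥) {L : Subgroup G} (hL : L ∈ fam H) :
    2 ∣ Nat.card L := by
  obtain ⟨E, hE, rfl⟩ := hL
  rw [← Nat.card_congr (Subgroup.equivMapOfInjective E H.subtype H.subtype_injective).toEquiv]
  by_contra hcon
  have hc : (Nat.card E).Coprime 2 := ((Nat.Prime.coprime_iff_not_dvd Nat.prime_two).2 hcon).symm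
  have h1 : E ≤ pPrimeCore 2 ↥H := PComponent.le_pPrimeCore_of_isSubnormal 2 hE.1 hc
  have h2 : E = ⊥ := le_bot_iff.1 (h1.trans (le_of_eq hO))
  exact Layer.ne_bot_of_isComponent hE h2

theorem eq_one_of_coprime_card {K : Subgroup G} (hK : (Nat.card K).Coprime 2) {x : G} (hx : x ∈ K)
    (h2 : Two x) : x = 1 := by
  obtain ⟨k, hk⟩ := h2
  have h1 : orderOf x ∣ 2 ^ k := orderOf_dvd_of_pow_eq_one hk
  have h3 : orderOf x ∣ Nat.card K := by
    have := Subgroup.orderOf_dvd_natCard K hx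
    exact this
  have h4 : orderOf x = 1 :=
    Nat.eq_one_of_dvd_coprimes (Nat.Coprime.pow_left k hK.symm) h1 h3
  exact orderOf_eq_one_iff.1 h4

theorem fitting_le_pCore {X : Type*} [Group X] [Finite X] (hO : pPrimeCore 2 X = ⊥) :
    fittingSubgroup X ≤ pCore 2 X := by
  haveI : Fact (Nat.Prime 2) := ⟨Nat.prime_two⟩
  rw [Cfsg.Agent.Lib.Nilpotent.Fitting.fittingSubgroup_eq_iSup_primes]
  refine iSup_le ?_
  rintro ⟨r, hr⟩
  by_cases h : r = 2
  · subst h
    exact le_refl _
  · haveI : Fact r.Prime := ⟨hr⟩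
    have h1 : pCore r X ≤ pPrimeCore 2 X := by
      apply PComponent.le_pPrimeCore' (Cfsg.Agent.Lib.Nilpotent.Fitting.pCore_normal r)
      obtain ⟨k, hk⟩ := IsPGroup.iff_card.1 (Cfsg.Agent.Lib.Basic.PCore.pCore_isPGroup (G := X) r)
      rw [hk]
      exact Nat.Coprime.pow_left _ ((Nat.coprime_primes hr Nat.prime_two).2 h)
    show pCore r X ≤ _
    rw [hO, le_bot_iff] at h1
    rw [h1]
    exact bot_le

variable (H : Subgroup G) (t : G)

/-- The odd core of `C_H(t)`, in `G`. -/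
abbrev oddC : Subgroup G :=
  (oddCore ↥(H ⊓ centralizer ({t} : Set G))).map (H ⊓ centralizer ({t} : Set G)).subtype

theorem oddC_card : (Nat.card (oddC H t)).Coprime 2 := by
  rw [oddC, ← Nat.card_congr (Subgroup.equivMapOfInjective _ _ (Subgroup.subtype_injective _)).toEquiv]
  exact Transport.coprime_card_pPrimeCore 2

theorem oddC_le : oddC H t ≤ H ⊓ centralizer ({t} : Set G) := map_subtype_le _

theorem oddC_rN {c : G} (hc : c ∈ H) (hct : c * t = t * c) {r : G} (hr : r ∈ oddC H t) :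
    c * r * c⁻¹ ∈ oddC H t := by
  obtain ⟨r', hr', rfl⟩ := hr
  have hcC : c ∈ H ⊓ centralizer ({t} : Set G) :=
    ⟨hc, mem_centralizer_singleton_iff.2 hct⟩
  have := (PComponent.pPrimeCore_normal' 2 (X := ↥(H ⊓ centralizer ({t} : Set G)))).conj_mem
    r' hr' ⟨c, hcC⟩
  exact ⟨_, this, rfl⟩

variable {H t}

theorem oddC_comm_pCore (ht : orderOf t = 2) (htH : t ∈ normalizer (H : Set G)) :
    ((pCore 2 ↥H).map H.subtype : Subgroup G) ≤ centralizer (oddC H t : Set G) := by
  haveI : Fact (Nat.Prime 2) := ⟨Nat.prime_two⟩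
  set P : Subgroup G := (pCore 2 ↥H).map H.subtype with hPdef
  have hP : IsPGroup 2 P := (Cfsg.Agent.Lib.Basic.PCore.pCore_isPGroup (G := ↥H) 2).map _
  have hNP : H ≤ normalizer (P : Set G) := by
    have := Subgroup.le_normalizer_map (H := pCore 2 ↥H) H.subtype
    rwa [normalizer_eq_top_iff.2 (Cfsg.Agent.Lib.Nilpotent.Fitting.pCore_normal 2),
      ← MonoidHom.range_eq_map, range_subtype] at this
  have htP : t ∈ normalizer (P : Set G) := by
    apply Cfsg.Agent.Lib.Coprime.Three.mem_normalizer_of_conj_mem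
    rintro _ ⟨v, hv, rfl⟩
    have h1 := Transport.pCore_map_equiv 2 (PComponent.conjRestrict H t htH)
    have h2 : (PComponent.conjRestrict H t htH) v ∈ pCore 2 ↥H := by
      rw [← h1]
      exact ⟨v, hv, rfl⟩
    exact ⟨_, h2, rfl⟩
  have hzt : IsPGroup 2 (zpowers t) := by
    apply IsPGroup.of_card (n := 1)
    rw [Nat.card_zpowers, ht, pow_one]
  have := Cfsg.Agent.Lib.Solvable.AxB.ab_lemma (p := 2) (A := oddC H t) (B := zpowers t) (P := P)
    hP hzt (oddC_card H t) ?_ ?_ ?_ ?_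
  · exact this
  · intro r hr
    rw [mem_centralizer_iff]
    rintro _ ⟨n, rfl⟩
    have hc : Commute r t := ((oddC_le H t hr).2 |> mem_centralizer_singleton_iff.1)
    exact (hc.zpow_right n).eq.symm
  · exact (fun r hr => hNP (oddC_le H t hr).1)
  · rw [zpowers_le]
    exact htP
  · rintro c ⟨hcP, hct⟩
    rw [mem_centralizer_iff]
    intro r hr
    have hcH : c ∈ H := by
      obtain ⟨v, -, rfl⟩ := hcP
      exact v.2
    have hct' : c * t = t * c := by
      have := (mem_centralizer_iff.1 hct) t (mem_zpowers t)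
      exact this.symm
    have h1 : c * r * c⁻¹ * r⁻¹ ∈ oddC H t :=
      (oddC H t).mul_mem (oddC_rN H t hcH hct' hr) ((oddC H t).inv_mem hr)
    have h2 : c * r * c⁻¹ * r⁻¹ ∈ P := by
      have h3 : c * r * c⁻¹ * r⁻¹ = c * (r * c⁻¹ * r⁻¹) := by group
      rw [h3]
      exact P.mul_mem hcP ((mem_normalizer_iff.1 (hNP (oddC_le H t hr).1) _).1 (P.inv_mem hcP))
    have h4 := eq_one_of_coprime_card (oddC_card H t) h1 (two_of_isPGroup hP h2)
    have h5 : c * r = r * c := by
      have h6 : c * r * c⁻¹ = r := by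
        rwa [mul_inv_eq_one] at h4
      rw [mul_inv_eq_iff_eq_mul] at h6
      exact h6
    exact h5.symm

theorem mkCtx (hO : oddCore ↥H = ⊥) (ht : orderOf t = 2) (htH : t ∈ normalizer (H : Set G)) :
    Ctx H (oddC H t) t (fam H) := by
  haveI : Fact (Nat.Prime 2) := ⟨Nat.prime_two⟩
  refine ⟨?_, htH, ?_, ?_, ?_, ?_, ?_, ?_, ?_, ?_, ?_, ?_, ?_⟩
  · rw [← pow_two, ← ht]
    exact pow_orderOf_eq_one t
  · intro L hL L' hL' hne
    exact fam_comm hL hL' hne
  · rintro L ⟨E, -, rfl⟩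
    exact map_subtype_le E
  · intro g hg L hL
    exact fam_cj H hg hL
  · intro L hL
    exact fam_quasi hL
  · intro L hL
    exact fam_even hO hL
  · intro r hr h2
    exact eq_one_of_coprime_card (oddC_card H t) hr h2
  · intro c hc hct r hr
    exact oddC_rN H t hc hct hr
  · exact fun r hr => (oddC_le H t hr).1
  · intro r hr
    exact mem_centralizer_singleton_iff.1 (oddC_le H t hr).2
  · rintro L ⟨E, hE, rfl⟩ _ ⟨z', hz', rfl⟩ hzc hz2 r hr
    -- `z'` lies in `O_2(H)`
    have hzE : (⟨z', hz'⟩ : E) ∈ center ↥E := by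
      rw [mem_center_iff]
      intro l
      have := hzc (l : ↥H) ⟨l, l.2, rfl⟩
      exact Subtype.ext (Subtype.ext this.symm)
    have hsn : ((center ↥E).map E.subtype).IsSubnormal :=
      Subgroup.IsSubnormal.trans' (Subgroup.Normal.isSubnormal inferInstance) hE.1
    have hnil : Group.IsNilpotent ↥((center ↥E).map E.subtype) := by
      haveI : IsMulCommutative ↥((center ↥E).map E.subtype) := by
        refine ⟨⟨fun a b => ?_⟩⟩
        obtain ⟨_, ⟨a', ha', rfl⟩⟩ := a
        obtain ⟨_, ⟨b', hb', rfl⟩⟩ := b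
        apply Subtype.ext
        have := (mem_center_iff.1 ha') b'
        show ((a' : ↥H) * b') = (b' : ↥H) * a'
        exact congrArg Subtype.val this.symm
      exact FStar2.isNilpotent_of_isMulCommutative
    have hzF : z' ∈ fittingSubgroup ↥H :=
      Fitting.le_fitting_of_subnormal hsn hnil ⟨⟨z', hz'⟩, hzE, rfl⟩
    obtain ⟨k, hk⟩ := hz2
    have hk' : z' ^ 2 ^ k = 1 := Subtype.ext hk
    obtain ⟨j, -, hj⟩ := (Nat.dvd_prime_pow Nat.prime_two).1 (orderOf_dvd_of_pow_eq_one hk')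
    have hzP := Cfsg.Agent.Lib.Nilpotent.Fitting.mem_pCore_of_mem_nilpotent_normal
      (Cfsg.Agent.Lib.Nilpotent.Fitting.isNilpotent_fittingSubgroup) hzF hj
    have := mem_centralizer_iff.1 (oddC_comm_pCore ht htH ⟨z', hzP, rfl⟩) r hr
    exact this
  · intro r hr
    have h1 : orderOf r ∣ Nat.card (oddC H t) := Subgroup.orderOf_dvd_natCard _ hr
    exact Nat.Coprime.coprime_dvd_left h1 (oddC_card H t)

end concrete

/-- Let G be finite, H ≤ G with O(H) = 1, t an involution of G normalizing H, and Y a nontrivial subgroup of O(C_H(t)). Then some component E of H is normalized by t and by Y and centralized by neither t nor Y. -/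
theorem result {G : Type*} [Group G] [Finite G] (H : Subgroup G) (hO : Cfsg.oddCore ↥H = ⊥) (t : G) (ht : orderOf t = 2) (htH : t ∈ Subgroup.normalizer (H : Set G)) (Y : Subgroup G) (hY1 : Y ≠ ⊥) (hY : Y ≤ (Cfsg.oddCore ↥(H ⊓ Subgroup.centralizer ({t} : Set G))).map (H ⊓ Subgroup.centralizer ({t} : Set G)).subtype) : ∃ E : Subgroup ↥H, Cfsg.IsComponent E ∧ (E.map H.subtype).map (MulAut.conj t).toMonoidHom = E.map H.subtype ∧ Y ≤ Subgroup.normalizer ((E.map H.subtype : Subgroup G) : Set G) ∧ ¬ (t ∈ Subgroup.centralizer ((E.map H.subtype : Subgroup G) : Set G)) ∧ ¬ (Y ≤ Subgroup.centralizer ((E.map H.subtype : Subgroup G) : Set G)) := by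
  classical
  haveI : Fact (Nat.Prime 2) := ⟨Nat.prime_two⟩
  have C := mkCtx hO ht htH
  have hex : ∃ E : Subgroup ↥H, IsComponent E ∧
      ¬ Y ≤ centralizer ((E.map H.subtype : Subgroup G) : Set G) := by
    by_contra hcon
    push_neg at hcon
    apply hY1
    have hYH : Y ≤ H := fun y hy => (oddC_le H t (hY hy)).1
    set Y' : Subgroup ↥H := Y.subgroupOf H with hY'
    have hE : layer ↥H ≤ centralizer (Y' : Set ↥H) := by
      refine sSup_le fun E hE => ?_
      intro e he
      rw [mem_centralizer_iff]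
      intro y hy
      have h1 := mem_centralizer_iff.1 (hcon E hE hy) (e : G) ⟨e, he, rfl⟩
      exact Subtype.ext h1.symm
    have hP : pCore 2 ↥H ≤ centralizer (Y' : Set ↥H) := by
      intro e he
      rw [mem_centralizer_iff]
      intro y hy
      have h1 := mem_centralizer_iff.1 (oddC_comm_pCore ht htH ⟨e, he, rfl⟩) (y : G) (hY hy)
      exact Subtype.ext h1
    have hF : fittingSubgroup ↥H ≤ pCore 2 ↥H := fitting_le_pCore hO
    have hFs : generalizedFittingSubgroup ↥H ≤ centralizer (Y' : Set ↥H) :=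
      sup_le hE (hF.trans hP)
    have hWC : Y' ≤ centralizer (generalizedFittingSubgroup ↥H : Set ↥H) :=
      le_centralizer_iff.1 hFs
    have hWF : Y' ≤ generalizedFittingSubgroup ↥H :=
      hWC.trans FStar.centralizer_generalizedFitting_le
    have hWFit : Y' ≤ fittingSubgroup ↥H :=
      (le_inf hWF hWC).trans BenderKey.generalizedFitting_inf_centralizer_le
    rw [eq_bot_iff]
    intro y hy
    have hy1 : (⟨y, hYH hy⟩ : ↥H) ∈ Y' := hy
    have hy2 := hF (hWFit hy1)
    have h2 : Two y := by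
      obtain ⟨k, hk⟩ := Cfsg.Agent.Lib.Basic.PCore.pCore_isPGroup (G := ↥H) 2 ⟨_, hy2⟩
      have := congrArg (fun x => ((x : ↥H) : G)) (congrArg Subtype.val hk)
      exact ⟨k, by simpa using this⟩
    rw [mem_bot]
    exact C.rOdd y (hY hy) h2
  obtain ⟨E, hE, hYE⟩ := hex
  have hL : E.map H.subtype ∈ fam H := ⟨E, hE, rfl⟩
  obtain ⟨y, hy, hyc⟩ := SetLike.not_le_iff_exists.1 hYE
  have hnc : ¬ ∀ l ∈ E.map H.subtype, Commute y l := by
    intro h
    apply hyc
    rw [mem_centralizer_iff]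
    intro l hl
    exact (h l hl).eq.symm
  have htN : t ∈ normalizer ((E.map H.subtype : Subgroup G) : Set G) := by
    by_contra h
    exact hnc (C.central_of_moved hL (hY hy) h)
  refine ⟨E, hE, (Balance.map_conj_eq_iff_mem_normalizer _ _).2 htN, ?_, ?_, hYE⟩
  · intro y' hy'
    exact C.normalizes hL (hY hy')
  · intro h
    exact hnc (C.central_of_central hL (hY hy) h)

end Cfsg.Agent.S1328
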