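import Cfsg.Statements.S1331
import Mathlib
import Cfsg.Agent.Lib.Coprime.GenerationE
-- import your own Cfsg.Agent.* helpers here

set_option autoImplicit false
open Cfsg

namespace Cfsg.Agent.S1331

/-- Let θ be a solvable A-signalizer functor on the finite group G for the prime p, A elementary abelian of rank at least 3, X a member of the family of θ, and B ≤ A with |B| ≥ p². Then X is generated by the subgroups X ∩ ⋂_{d ∈ D, d ≠ 1} θ d, D ranging over the subgroups of index p in B. -/
theorem result {G : Type*} [Group G] [Finite G] (p : ℕ) [Fact p.Prime] (A : Subgroup G) (hA : Cfsg.IsElementaryAbelian p A) (hA3 : p ^ 3 ≤ Nat.card ↥A) (θ : G → Subgroup G) (hθ : Cfsg.IsSolvableSignalizerFunctor p A θ) (X : Subgroup G) (hX : X ∈ Cfsg.signalizerFamily p A θ) (B : Subgroup G) (hB : B ≤ A) (hB2 : p ^ 2 ≤ Nat.card ↥B) : X = ⨆ D : {D : Subgroup G // D ≤ B ∧ D.relIndex B = p}, X ⊓ Cfsg.signalizerInf (D : Subgroup G) θ := by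
  classical
  have hBE : Cfsg.IsElementaryAbelian p B :=
    ⟨⟨⟨fun a b => by
      apply Subtype.ext
      have := hA.1.is_comm.comm ⟨a.1, hB a.2⟩ ⟨b.1, hB b.2⟩
      simpa using congrArg Subtype.val this⟩⟩, fun a ha => hA.2 a (hB ha)⟩
  have hXp := hX.2.1
  have hXn : B ≤ Subgroup.normalizer (X : Set G) := by
    intro b hb
    have hinv : ∀ a ∈ A, ∀ u ∈ X, a * u * a⁻¹ ∈ X := hX.2.2.1
    have hA' : ∀ a ∈ A, ∀ u, a * u * a⁻¹ ∈ X ↔ u ∈ X := by
      intro a ha u
      refine ⟨fun h => ?_, hinv a ha u⟩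
      obtain ⟨n, hn, hne⟩ := isOfFinOrder_iff_pow_eq_one.mp (isOfFinOrder_of_finite a)
      have key : ∀ k : ℕ, ∀ v ∈ X, a ^ k * v * (a ^ k)⁻¹ ∈ X := by
        intro k
        induction k with
        | zero => intro v hv; simpa using hv
        | succ k ih =>
          intro v hv
          have := hinv a ha _ (ih v hv)
          have h2 : a * (a ^ k * v * (a ^ k)⁻¹) * a⁻¹ = a ^ (k + 1) * v * (a ^ (k + 1))⁻¹ := by
            rw [pow_succ', mul_inv_rev]; group
          rwa [h2] at this
      have h3 := key (n - 1) _ h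
      have h4 : a ^ (n - 1) * (a * u * a⁻¹) * (a ^ (n - 1))⁻¹ = a ^ n * u * (a ^ n)⁻¹ := by
        have hn' : n = (n - 1) + 1 := by omega
        conv_rhs => rw [hn', pow_succ, mul_inv_rev]
        group
      rw [h4, hne] at h3
      simpa using h3
    rw [Subgroup.mem_normalizer_iff]
    intro u
    exact (hA' b (hB hb) u).symm
  have hinf : ∀ D : Subgroup G, D ≤ B → X ⊓ Subgroup.centralizer (D : Set G) ≤ X ⊓ Cfsg.signalizerInf D θ := by
    intro D hD u hu
    rw [Subgroup.mem_inf] at hu ⊢
    refine ⟨hu.1, ?_⟩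
    rw [Cfsg.signalizerInf, Subgroup.mem_iInf]
    rintro ⟨a, haD, ha1⟩
    refine hX.2.2.2 a (hB (hD haD)) ha1 ?_
    rw [Subgroup.mem_inf]
    refine ⟨hu.1, ?_⟩
    have h5 := hu.2
    rw [Subgroup.mem_centralizer_iff] at h5 ⊢
    intro g hg
    rw [Set.mem_singleton_iff] at hg
    rw [hg]
    exact h5 a haD
  have hBp : IsPGroup p B := Cfsg.Agent.Lib.Coprime.GenerationE.isPGroup_of_isElementaryAbelian hBE
  -- a subgroup of index `p` in `B`
  have hexD : ∃ D : Subgroup G, D ≤ B ∧ D.relIndex B = p := by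
    obtain ⟨n, hn⟩ := (IsPGroup.iff_card).mp hBp
    have hpp : p.Prime := Fact.out
    have hn0 : n ≠ 0 := by
      rintro rfl
      rw [hn] at hB2
      have := hpp.two_le
      simp only [pow_zero] at hB2
      nlinarith
    obtain ⟨m, rfl⟩ := Nat.exists_eq_succ_of_ne_zero hn0
    obtain ⟨K, hK⟩ := Sylow.exists_subgroup_card_pow_prime (G := B) p (n := m) (by rw [hn]; exact pow_dvd_pow p (Nat.le_succ m))
    refine ⟨K.map B.subtype, by
      rintro _ ⟨k, _, rfl⟩
      exact k.2, ?_⟩
    have h6 : (K.map B.subtype).relIndex B = K.index := by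
      rw [Subgroup.relIndex]
      congr 1
      ext x
      simp [Subgroup.mem_subgroupOf]
    rw [h6]
    have h7 := K.index_mul_card
    rw [hK, hn, pow_succ] at h7
    exact Nat.eq_of_mul_eq_mul_right (pow_pos hpp.pos m) (by rw [h7]; ring)
  apply le_antisymm
  · refine (Cfsg.Agent.Lib.Coprime.GenerationE.le_iSup_relIndex_le B X hBE hXp hXn).trans ?_
    refine iSup_le ?_
    rintro ⟨B', hB', hidx⟩
    -- `B'` either has index `p` or equals `B`
    by_cases h : B'.relIndex B = p
    · exact le_iSup_of_le ⟨B', hB', h⟩ (hinf B' hB')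
    · obtain ⟨D, hD, hDi⟩ := hexD
      refine le_trans ?_ (le_iSup_of_le ⟨D, hD, hDi⟩ (hinf D hD))
      have hdvd : B'.relIndex B ∣ Nat.card B := Subgroup.relIndex_dvd_card _ _
      have hrel : B'.relIndex B = 1 := by
        obtain ⟨n, hn⟩ := (IsPGroup.iff_card).mp hBp
        rw [hn] at hdvd
        obtain ⟨k, hk, hk2⟩ := (Nat.dvd_prime_pow (Fact.out : p.Prime)).mp hdvd
        rw [hk2] at hidx h ⊢
        have hpp : p.Prime := Fact.out
        rcases k with _ | k
        · simp
        · rcases k with _ | k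
          · simp at h
          · exfalso
            have : p ^ (k + 2) ≥ p ^ 2 := Nat.pow_le_pow_right hpp.pos (by omega)
            have h3 := hpp.two_le
            nlinarith
      have hBB' : B ≤ B' := Subgroup.relIndex_eq_one.mp hrel
      have hBeq : B' = B := le_antisymm hB' hBB'
      subst hBeq
      apply inf_le_inf_left
      exact Subgroup.centralizer_le hD
  · exact iSup_le fun D => inf_le_left

end Cfsg.Agent.S1331
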