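import Cfsg.Statements.S1335
import Mathlib
-- import your own Cfsg.Agent.* helpers here

set_option autoImplicit false
open Cfsg

namespace Cfsg.Agent.S1335

lemma not_rank_of_injective' {K K' : Type*} [Group K] [Group K'] {p j : ℕ} (f : K →* K')
    (hf : Function.Injective f) (h : ¬ Cfsg.PRankLE p j K) : ¬ Cfsg.PRankLE p j K' := by
  intro hK'
  apply h
  intro A hA hA2
  have hcomm : IsMulCommutative ↥(A.map f) := by
    refine ⟨⟨?_⟩⟩
    rintro ⟨_, a, ha, rfl⟩ ⟨_, b, hb, rfl⟩
    apply Subtype.ext
    show f a * f b = f b * f a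
    rw [← map_mul, ← map_mul]
    congr 1
    exact congrArg Subtype.val (hA.is_comm.comm ⟨a, ha⟩ ⟨b, hb⟩)
  have := hK' (A.map f) hcomm (by
    rintro _ ⟨a, ha, rfl⟩
    rw [← map_pow, hA2 a ha, map_one])
  rwa [Subgroup.card_map_of_injective hf] at this

/-- Let H be a subgroup of the finite group G, p a prime, k ≥ 1, P a Sylow p-subgroup of H of p-rank at least k, and suppose N_G(X) ≤ H for every subgroup X ≤ P of p-rank at least k. Then P is a Sylow p-subgroup of G. -/
theorem result {G : Type*} [Group G] [Finite G] {p : ℕ} [Fact p.Prime] (k : ℕ) (hk : 1 ≤ k) (H : Subgroup G) (P : Sylow p ↥H) (hP : ¬ Cfsg.PRankLE p (k - 1) ↥(P : Subgroup ↥H)) (hΓ : (∀ X : Subgroup G, X ≤ (P : Subgroup ↥H).map H.subtype → ¬ Cfsg.PRankLE p (k - 1) ↥X → Subgroup.normalizer (X : Set G) ≤ H)) : ∃ Q : Sylow p G, (Q : Subgroup G) = (P : Subgroup ↥H).map H.subtype := by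
  set PG : Subgroup G := (P : Subgroup ↥H).map H.subtype with hPG
  have hPGp : IsPGroup p PG := P.isPGroup'.map _
  have hrank : ¬ Cfsg.PRankLE p (k - 1) ↥PG := by
    have hf : Function.Injective ((H.subtype.comp (P : Subgroup ↥H).subtype).codRestrict PG (by
        intro x
        exact ⟨x.1, x.2, rfl⟩)) := by
      intro a b hab
      have := congrArg (fun x : PG => (x : G)) hab
      exact Subtype.ext (Subtype.ext this)
    exact not_rank_of_injective' _ hf hP
  have hN : Subgroup.normalizer (PG : Set G) ≤ H := hΓ PG le_rfl hrank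
  obtain ⟨T, hT⟩ := hPGp.exists_le_sylow
  by_cases heq : (T : Subgroup G) = PG
  · exact ⟨T, heq⟩
  · exfalso
    have hlt : PG.subgroupOf (T : Subgroup G) < ⊤ := by
      rw [lt_top_iff_ne_top]
      intro htop
      apply heq
      apply le_antisymm _ hT
      intro x hx
      have : (⟨x, hx⟩ : (T : Subgroup G)) ∈ PG.subgroupOf (T : Subgroup G) := by rw [htop]; trivial
      exact this
    have hnil : Group.IsNilpotent (T : Subgroup G) := T.isPGroup'.isNilpotent
    have hcond := Group.normalizerCondition_of_isNilpotent (G := (T : Subgroup G))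
    obtain ⟨t, htN, htP⟩ := SetLike.exists_of_lt (hcond _ hlt)
    -- t normalizes PG
    have htNG : (t : G) ∈ Subgroup.normalizer (PG : Set G) := by
      rw [Subgroup.mem_normalizer_iff]
      intro y
      have ht2 := Subgroup.mem_normalizer_iff.mp htN
      constructor
      · intro hy
        have := (ht2 ⟨y, hT hy⟩).mp hy
        exact this
      · intro hy
        have hy2 : (t : G) * y * (t : G)⁻¹ ∈ (T : Subgroup G) := hT hy
        have hyT : y ∈ (T : Subgroup G) := by
          have : y = (t : G)⁻¹ * ((t : G) * y * (t : G)⁻¹) * t := by group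
          rw [this]
          exact Subgroup.mul_mem _ (Subgroup.mul_mem _ (Subgroup.inv_mem _ t.2) hy2) t.2
        exact (ht2 ⟨y, hyT⟩).mpr hy
    -- Q : the p-subgroup (T ⊓ N(PG)) of H
    have hQp : IsPGroup p (((T : Subgroup G) ⊓ Subgroup.normalizer (PG : Set G)).comap H.subtype) := by
      apply IsPGroup.comap_of_injective _ _ H.subtype_injective
      exact T.isPGroup'.to_le inf_le_left
    have hle : (P : Subgroup ↥H) ≤ ((T : Subgroup G) ⊓ Subgroup.normalizer (PG : Set G)).comap H.subtype := by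
      intro x hx
      have hxPG : (x : G) ∈ PG := ⟨x, hx, rfl⟩
      exact ⟨hT hxPG, Subgroup.le_normalizer hxPG⟩
    have heq2 := P.is_maximal' hQp hle
    have htQ : (⟨t, hN htNG⟩ : H) ∈ ((T : Subgroup G) ⊓ Subgroup.normalizer (PG : Set G)).comap H.subtype :=
      ⟨t.2, htNG⟩
    rw [heq2] at htQ
    apply htP
    exact ⟨_, htQ, rfl⟩

end Cfsg.Agent.S1335
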