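import Cfsg.Statements.S1336
import Mathlib

set_option autoImplicit false
open Cfsg

namespace Cfsg.Agent.S1336

variable {G : Type*} [Group G] [Finite G] (p : ℕ) [hp : Fact p.Prime]

/-- vertices -/
def V (A : Subgroup G) : Prop := IsElementaryAbelian p A ∧ p ^ 1 ≤ Nat.card ↥A

/-- edges -/
def Adj (A B : Subgroup G) : Prop :=
  IsElementaryAbelian p A ∧ p ^ 1 ≤ Nat.card ↥A ∧ IsElementaryAbelian p B ∧
        p ^ 1 ≤ Nat.card ↥B ∧ ∀ a ∈ A, ∀ b ∈ B, a * b = b * a

abbrev cj (g : G) (A : Subgroup G) : Subgroup G := A.map (MulAut.conj g).toMonoidHom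

omit [Finite G] [hp : Fact p.Prime] in
lemma V_cj {A : Subgroup G} (g : G) (h : V p A) : V p (cj g A) := by
  obtain ⟨⟨hc, hx⟩, hn⟩ := h
  refine ⟨⟨⟨⟨?_⟩⟩, ?_⟩, ?_⟩
  · rintro ⟨a, a', ha, rfl⟩ ⟨b, b', hb, rfl⟩
    apply Subtype.ext
    have : a' * b' = b' * a' := by
      have := hc.is_comm.comm ⟨a', ha⟩ ⟨b', hb⟩
      exact congrArg Subtype.val this
    show (g * a' * g⁻¹) * (g * b' * g⁻¹) = (g * b' * g⁻¹) * (g * a' * g⁻¹)
    calc g * a' * g⁻¹ * (g * b' * g⁻¹) = g * (a' * b') * g⁻¹ := by group
      _ = g * (b' * a') * g⁻¹ := by rw [this]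
      _ = _ := by group
  · rintro _ ⟨a, ha, rfl⟩
    have := hx a ha
    simp only [MulEquiv.coe_toMonoidHom, MulAut.conj_apply, conj_pow, this]
    group
  · have : Nat.card ↥(cj g A) = Nat.card ↥A :=
      Nat.card_congr (A.equivMapOfInjective _ (MulAut.conj g).injective).toEquiv.symm
    rw [this]; exact hn

omit [Finite G] [hp : Fact p.Prime] in
lemma Adj_cj {A B : Subgroup G} (g : G) (h : Adj p A B) : Adj p (cj g A) (cj g B) := by
  obtain ⟨h1, h2, h3, h4, h5⟩ := h
  obtain ⟨h1', h2'⟩ := V_cj p g ⟨h1, h2⟩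
  obtain ⟨h3', h4'⟩ := V_cj p g ⟨h3, h4⟩
  refine ⟨h1', h2', h3', h4', ?_⟩
  rintro _ ⟨a, ha, rfl⟩ _ ⟨b, hb, rfl⟩
  have := h5 a ha b hb
  simp only [MulEquiv.coe_toMonoidHom, MulAut.conj_apply]
  calc g * a * g⁻¹ * (g * b * g⁻¹) = g * (a * b) * g⁻¹ := by group
    _ = g * (b * a) * g⁻¹ := by rw [this]
    _ = _ := by group

omit [Finite G] [hp : Fact p.Prime] in
lemma Conn_cj {A B : Subgroup G} (g : G) (h : Relation.ReflTransGen (Adj p) A B) :
    Relation.ReflTransGen (Adj p) (cj g A) (cj g B) := by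
  induction h with
  | refl => exact Relation.ReflTransGen.refl
  | tail _ hbc ih => exact ih.tail (Adj_cj p g hbc)

omit [Finite G] [hp : Fact p.Prime] in
lemma Adj_symm {A B : Subgroup G} (h : Adj p A B) : Adj p B A := by
  obtain ⟨h1, h2, h3, h4, h5⟩ := h
  exact ⟨h3, h4, h1, h2, fun a ha b hb => (h5 b hb a ha).symm⟩

omit [Finite G] [hp : Fact p.Prime] in
lemma Conn_symm {A B : Subgroup G} (h : Relation.ReflTransGen (Adj p) A B) :
    Relation.ReflTransGen (Adj p) B A := by
  induction h with
  | refl => exact Relation.ReflTransGen.refl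
  | tail _ hbc ih => exact Relation.ReflTransGen.head (Adj_symm p hbc) ih

omit [Finite G] [hp : Fact p.Prime] in
lemma V_zpowers {x : G} (hx : orderOf x = p) : V p (Subgroup.zpowers x) := by
  refine ⟨⟨inferInstance, ?_⟩, ?_⟩
  · rintro a ⟨k, rfl⟩
    have : x ^ p = 1 := by rw [← hx]; exact pow_orderOf_eq_one x
    simp only []
    rw [← zpow_natCast, ← zpow_mul, mul_comm, zpow_mul, zpow_natCast, this, one_zpow]
  · rw [Nat.card_zpowers, hx, pow_one]

omit [hp : Fact p.Prime] [Finite G] in
lemma exists_order {A : Subgroup G} (hp' : p.Prime) (h : V p A) :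
    ∃ x ∈ A, orderOf x = p := by
  obtain ⟨⟨_, hx⟩, hn⟩ := h
  have h1 : 1 < Nat.card A := lt_of_lt_of_le hp'.one_lt (by simpa using hn)
  obtain ⟨a, ha⟩ : ∃ a : A, a ≠ 1 := by
    have : Finite A := Nat.finite_of_card_ne_zero (by omega)
    have : Nontrivial A := (Finite.one_lt_card_iff_nontrivial).1 h1
    exact exists_ne 1
  haveI := Fact.mk hp'
  refine ⟨a, a.2, orderOf_eq_prime (hx a a.2) ?_⟩
  intro h; exact ha (Subtype.ext h)

lemma conn_of_pgroup {P A B : Subgroup G} (hP : IsPGroup p P) (hA : A ≤ P) (hB : B ≤ P)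
    (vA : V p A) (vB : V p B) : Relation.ReflTransGen (Adj p) A B := by
  obtain ⟨x, hxA, hxo⟩ := exists_order p hp.out vA
  have : Nontrivial P := by
    have hx1 : x ≠ 1 := by
      rintro rfl
      simp at hxo
      exact hp.out.one_lt.ne hxo
    exact ⟨⟨⟨x, hA hxA⟩, 1, fun h => hx1 (congrArg Subtype.val h)⟩⟩
  have hc : Nontrivial (Subgroup.center P) := hP.center_nontrivial
  have hd : p ∣ Nat.card (Subgroup.center P) := by
    have hPc : IsPGroup p (Subgroup.center P) := hP.to_subgroup _
    obtain ⟨k, hk⟩ := hPc.exists_card_eq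
    have : k ≠ 0 := by
      rintro rfl
      have := Finite.one_lt_card_iff_nontrivial.2 hc
      simp only [pow_zero] at hk
      omega
    rw [hk]; exact dvd_pow_self p this
  obtain ⟨z, hz⟩ := exists_prime_orderOf_dvd_card' p hd
  have hz' : orderOf ((z : P) : G) = p := by
    rw [Subgroup.orderOf_coe, Subgroup.orderOf_coe, hz]
  have hcomm : ∀ y ∈ P, ((z : P) : G) * y = y * ((z : P) : G) := fun y hy => by
    have := (Subgroup.mem_center_iff.1 z.2) ⟨y, hy⟩
    exact (congrArg Subtype.val this).symm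
  have vZ := V_zpowers p hz'
  have key : ∀ C : Subgroup G, C ≤ P → V p C → Adj p C (Subgroup.zpowers ((z : P) : G)) := by
    intro C hC vC
    refine ⟨vC.1, vC.2, vZ.1, vZ.2, ?_⟩
    rintro a ha _ ⟨k, rfl⟩
    have : Commute ((z : P) : G) a := hcomm a (hC ha)
    exact ((this.zpow_left k).symm).eq
  refine (Relation.ReflTransGen.single (key A hA vA)).trans (Conn_symm p (Relation.ReflTransGen.single (key B hB vB)))

theorem result {G : Type*} [Group G] [Finite G] (p : ℕ) [Fact p.Prime] : (∃ H : Subgroup G, H ≠ ⊤ ∧ p ∣ Nat.card ↥H ∧ ∀ g : G, g ∉ H → ¬ p ∣ Nat.card ↥(H ⊓ H.map (MulAut.conj g).toMonoidHom)) ↔ ¬ Cfsg.IsKConnected p 1 G := by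
  have hpp : p.Prime := Fact.out
  constructor
  · rintro ⟨H, hne, hd, hs⟩ hconn
    obtain ⟨x, hx⟩ := exists_prime_orderOf_dvd_card' p hd
    have hxG : orderOf (x : G) = p := by rw [Subgroup.orderOf_coe, hx]
    obtain ⟨g, hg⟩ : ∃ g, g ∉ H := by
      by_contra hh
      push Not at hh
      exact hne (eq_top_iff.2 fun g _ => hh g)
    have hvx := V_zpowers p hxG
    set y := g * (x : G) * g⁻¹ with hy
    have hyo : orderOf y = p := by rw [hy]; have := orderOf_injective (MulAut.conj g).toMonoidHom (MulAut.conj g).injective (x : G); simp only [MulEquiv.coe_toMonoidHom, MulAut.conj_apply] at this; rw [this]; exact hxG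
    have hvy := V_zpowers p hyo
    have hC := hconn _ _ hvx.1 hvx.2 hvy.1 hvy.2
    -- key centralizer fact
    have hcent : ∀ e ∈ H, orderOf e = p → ∀ a : G, a * e = e * a → a ∈ H := by
      intro e he heo a ha
      by_contra ha'
      apply hs a ha'
      have hmem : e ∈ H ⊓ H.map (MulAut.conj a).toMonoidHom := by
        refine ⟨he, e, he, ?_⟩
        simp only [MulEquiv.coe_toMonoidHom, MulAut.conj_apply, ha]
        group
      have hoe : orderOf (⟨e, hmem⟩ : ↥(H ⊓ H.map (MulAut.conj a).toMonoidHom)) = p := by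
        rw [Subgroup.orderOf_mk, heo]
      rw [← hoe]
      exact orderOf_dvd_natCard _
    have hall : ∀ B : Subgroup G, Relation.ReflTransGen (fun A B : Subgroup G => IsElementaryAbelian p A ∧ p ^ 1 ≤ Nat.card ↥A ∧ IsElementaryAbelian p B ∧
        p ^ 1 ≤ Nat.card ↥B ∧ ∀ a ∈ A, ∀ b ∈ B, a * b = b * a) (Subgroup.zpowers (x : G)) B → B ≤ H := by
      intro B hB
      induction hB with
      | refl => exact (Subgroup.zpowers_le).2 x.2
      | tail _ hAB ih =>
        obtain ⟨h1, h2, h3, h4, h5⟩ := hAB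
        obtain ⟨e, heA, heo⟩ := exists_order p hpp ⟨h1, h2⟩
        intro b hb
        exact hcent e (ih heA) heo b (h5 e heA b hb).symm
    have hyH : y ∈ H := hall _ hC (Subgroup.mem_zpowers y)
    apply hs g hg
    have hmem : y ∈ H ⊓ H.map (MulAut.conj g).toMonoidHom := by
      refine ⟨hyH, x, x.2, ?_⟩
      simp [hy]
    have hoe : orderOf (⟨y, hmem⟩ : ↥(H ⊓ H.map (MulAut.conj g).toMonoidHom)) = p := by
      rw [Subgroup.orderOf_mk, hyo]
    rw [← hoe]
    exact orderOf_dvd_natCard _
  · intro hnc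
    unfold IsKConnected at hnc
    push Not at hnc
    obtain ⟨E, E', h1, h2, h3, h4, hnot⟩ := hnc
    have vE : V p E := ⟨h1, h2⟩
    have vE' : V p E' := ⟨h3, h4⟩
    change ¬ Relation.ReflTransGen (Adj p) E E' at hnot
    -- stabilizer
    let H : Subgroup G :=
      { carrier := {g | Relation.ReflTransGen (Adj p) E (cj g E)}
        one_mem' := by
          have : cj (1 : G) E = E := by
            ext a; simp [cj]
          show Relation.ReflTransGen (Adj p) E (cj 1 E)
          rw [this]
        mul_mem' := by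
          intro a b ha hb
          have h := Conn_cj p a hb
          have : cj a (cj b E) = cj (a * b) E := by
            ext y
            simp only [cj, Subgroup.mem_map, MulEquiv.coe_toMonoidHom, MulAut.conj_apply]
            constructor
            · rintro ⟨_, ⟨z, hz, rfl⟩, rfl⟩
              exact ⟨z, hz, by group⟩
            · rintro ⟨z, hz, rfl⟩
              exact ⟨_, ⟨z, hz, rfl⟩, by group⟩
          rw [this] at h
          exact ha.trans h
        inv_mem' := by
          intro a ha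
          have h := Conn_cj p a⁻¹ ha
          have : cj a⁻¹ (cj a E) = E := by
            ext y
            simp only [cj, Subgroup.mem_map, MulEquiv.coe_toMonoidHom, MulAut.conj_apply]
            constructor
            · rintro ⟨_, ⟨z, hz, rfl⟩, rfl⟩
              convert hz using 1
              group
            · intro hy
              exact ⟨_, ⟨y, hy, rfl⟩, by group⟩
          rw [this] at h
          exact Conn_symm p h }
    have memH : ∀ g, g ∈ H ↔ Relation.ReflTransGen (Adj p) E (cj g E) := fun g => Iff.rfl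
    have hEH : E ≤ H := by
      intro a ha
      rw [memH]
      have : cj a E = E := by
        ext y
        simp only [cj, Subgroup.mem_map, MulEquiv.coe_toMonoidHom, MulAut.conj_apply]
        constructor
        · rintro ⟨z, hz, rfl⟩
          exact E.mul_mem (E.mul_mem ha hz) (E.inv_mem ha)
        · intro hy
          exact ⟨a⁻¹ * y * a, E.mul_mem (E.mul_mem (E.inv_mem ha) hy) ha, by group⟩
      rw [this]
    obtain ⟨x₀, hx₀E, hx₀o⟩ := exists_order p hpp vE
    refine ⟨H, ?_, ?_, ?_⟩
    · -- proper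
      intro htop
      obtain ⟨P, hP⟩ := (IsPGroup.of_card (n := 0) (p := p) (G := Subgroup.zpowers (1:G)) (by simp)).exists_le_sylow
      have hEp : IsPGroup p E := by
        intro a
        exact ⟨1, by simpa [Subtype.ext_iff] using vE.1.2 a a.2⟩
      have hE'p : IsPGroup p E' := by
        intro a
        exact ⟨1, by simpa [Subtype.ext_iff] using vE'.1.2 a a.2⟩
      obtain ⟨P₁, hP₁⟩ := hEp.exists_le_sylow
      obtain ⟨P₂, hP₂⟩ := hE'p.exists_le_sylow
      obtain ⟨g, hg⟩ := MulAction.exists_smul_eq G P₁ P₂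
      have hgP : cj g E ≤ (P₂ : Subgroup G) := by
        rw [← hg]
        rintro _ ⟨a, ha, rfl⟩
        rw [Sylow.coe_subgroup_smul]
        exact Subgroup.mem_pointwise_smul_iff_inv_smul_mem.2 (by
          simpa [MulAut.smul_def, mul_assoc] using hP₁ ha)
      have c1 : Relation.ReflTransGen (Adj p) (cj g E) E' :=
        conn_of_pgroup p P₂.isPGroup' hgP hP₂ (V_cj p g vE) vE'
      have c2 : g ∈ H := by rw [htop]; trivial
      exact hnot (((memH g).1 c2).trans c1)
    · have hord : orderOf (⟨x₀, hEH hx₀E⟩ : H) = p := by rw [Subgroup.orderOf_mk, hx₀o]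
      rw [← hord]
      exact orderOf_dvd_natCard _
    · intro g hg hd
      obtain ⟨x, hx⟩ := exists_prime_orderOf_dvd_card' p hd
      have hxG : orderOf (x : G) = p := by rw [Subgroup.orderOf_coe, hx]
      obtain ⟨hxH, y, hyH, hyx⟩ := x.2
      simp only [MulEquiv.coe_toMonoidHom, MulAut.conj_apply] at hyx
      -- claim K
      have claim : ∀ w ∈ H, orderOf w = p →
          Relation.ReflTransGen (Adj p) E (Subgroup.zpowers w) := by
        intro w hw hwo
        have hEp : IsPGroup p (E.subgroupOf H) := by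
          intro a
          refine ⟨1, ?_⟩
          apply Subtype.ext
          apply Subtype.ext
          simpa using vE.1.2 a.1 (Subgroup.mem_subgroupOf.1 a.2)
        have hwp : IsPGroup p (Subgroup.zpowers (⟨w, hw⟩ : H)) := by
          have : orderOf (⟨w, hw⟩ : H) = p := by rw [Subgroup.orderOf_mk, hwo]
          rw [IsPGroup.iff_card]
          exact ⟨1, by rw [Nat.card_zpowers, this, pow_one]⟩
        obtain ⟨T₁, hT₁⟩ := hEp.exists_le_sylow
        obtain ⟨T, hT⟩ := hwp.exists_le_sylow
        obtain ⟨h, hh⟩ := MulAction.exists_smul_eq H T₁ T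
        have hTG : IsPGroup p ((T : Subgroup H).map H.subtype) :=
          T.isPGroup'.map _
        have hcjE : cj (h : G) E ≤ (T : Subgroup H).map H.subtype := by
          rintro _ ⟨a, ha, rfl⟩
          have haH : a ∈ H := hEH ha
          refine ⟨h * ⟨a, haH⟩ * h⁻¹, ?_, by simp⟩
          rw [← hh, Sylow.coe_subgroup_smul]
          refine Subgroup.mem_pointwise_smul_iff_inv_smul_mem.2 ?_
          have : (⟨a, haH⟩ : H) ∈ (T₁ : Subgroup H) := hT₁ (Subgroup.mem_subgroupOf.2 ha)
          simpa [MulAut.smul_def, mul_assoc] using this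
        have hwT : Subgroup.zpowers w ≤ (T : Subgroup H).map H.subtype := by
          rw [Subgroup.zpowers_le]
          exact ⟨⟨w, hw⟩, hT (Subgroup.mem_zpowers _), rfl⟩
        have c1 := conn_of_pgroup p hTG hcjE hwT (V_cj p _ vE) (V_zpowers p hwo)
        exact ((memH _).1 h.2).trans c1
      have k1 := claim x hxH hxG
      have hyo : orderOf y = p := by
        have : orderOf (g * y * g⁻¹) = p := by rw [hyx]; exact hxG
        have h2 := orderOf_injective (MulAut.conj g).toMonoidHom (MulAut.conj g).injective y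
        simp only [MulEquiv.coe_toMonoidHom, MulAut.conj_apply] at h2
        rwa [h2] at this
      have k2 := Conn_cj p g (claim y hyH hyo)
      have hz : cj g (Subgroup.zpowers y) = Subgroup.zpowers (x : G) := by
        rw [← hyx, cj, MonoidHom.map_zpowers]
        simp
      rw [hz] at k2
      exact hg ((memH g).2 (k1.trans (Conn_symm p k2)))

end Cfsg.Agent.S1336
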