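import Cfsg.Statements.S1337
import Mathlib
import Cfsg.Agent.Lib.PGroup.NormalFour

set_option autoImplicit false
open Cfsg

namespace Cfsg.Agent.S1337

open Subgroup Cfsg.Agent.Lib.PGroup.RankThree Cfsg.Agent.Lib.PGroup.Critical
  Cfsg.Agent.Lib.PGroup.NormalRank

theorem not_prankLE_centralizer_iff {P : Type*} [Group P] [Finite P] (p : ℕ) [hp : Fact p.Prime]
    (hP : IsPGroup p P) (X : Subgroup P) :
    ¬ Cfsg.PRankLE p 2 ↥(centralizer (X : Set P)) ↔
      ∃ F : Subgroup P, F ≤ centralizer (X : Set P) ∧ Cfsg.IsElementaryAbelian p F ∧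
        p ^ 3 ≤ Nat.card F := by
  constructor
  · intro h
    obtain ⟨F, hF, hFc⟩ := exists_elemAb_of_not_prankLE (hP.to_subgroup _) h
    refine ⟨F.map (centralizer (X : Set P)).subtype, ?_, ?_, ?_⟩
    · rintro _ ⟨y, -, rfl⟩
      exact y.2
    · rw [Cfsg.Agent.Lib.PGroup.Basic.isElementaryAbelian_iff] at hF ⊢
      constructor
      · rintro _ ⟨a, ha, rfl⟩ _ ⟨b, hb, rfl⟩
        exact congrArg Subtype.val (hF.1 a ha b hb)
      · rintro _ ⟨a, ha, rfl⟩
        exact congrArg Subtype.val (hF.2 a ha)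
    · rwa [Subgroup.card_map_of_injective (centralizer (X : Set P)).subtype_injective]
  · rintro ⟨F, hFC, hF, hFc⟩ hrk
    have h1 := hrk (F.subgroupOf (centralizer (X : Set P))) ?_ ?_
    · have h2 : Nat.card (F.subgroupOf (centralizer (X : Set P))) = Nat.card F :=
        Nat.card_congr (subgroupOfEquivOfLe hFC).toEquiv
      rw [h2] at h1
      have h3 : p ^ 2 < p ^ 3 := Nat.pow_lt_pow_right hp.out.one_lt (by norm_num)
      omega
    · rw [Cfsg.Agent.Lib.PGroup.Basic.isElementaryAbelian_iff] at hF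
      exact ⟨⟨fun a b => Subtype.ext (Subtype.ext (hF.1 _ a.2 _ b.2))⟩⟩
    · rw [Cfsg.Agent.Lib.PGroup.Basic.isElementaryAbelian_iff] at hF
      intro a ha
      exact Subtype.ext (hF.2 _ ha)

theorem card_inf_centralizer {R : Type*} [Group R] [Finite R] {p : ℕ}
    [hp : Fact p.Prime] (hR : IsPGroup p R) (E : Subgroup R) [hE : E.Normal]
    (hEc : Nat.card E = p ^ 2) (F : Subgroup R) (hFc : p ^ 3 ≤ Nat.card F) :
    p ^ 2 ≤ Nat.card (F ⊓ centralizer (E : Set R) : Subgroup R) := by
  have hidx : (centralizer (E : Set R)).relIndex F ≤ p := by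
    refine le_trans (Nat.le_of_dvd ?_ (relIndex_dvd_index_of_normal _ _))
      (index_centralizer_le_of_card_sq hR E hEc)
    exact Nat.pos_of_ne_zero index_ne_zero_of_finite
  have hcard : Nat.card F = Nat.card (F ⊓ centralizer (E : Set R) : Subgroup R) *
      (centralizer (E : Set R)).relIndex F := by
    rw [← inf_relIndex_left]
    exact card_eq_mul_relIndex inf_le_left
  have hp0 := hp.out.pos
  by_contra hlt
  push Not at hlt
  have h1 : Nat.card F ≤ (p ^ 2 - 1) * p := by
    rw [hcard]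
    exact Nat.mul_le_mul (by omega) hidx
  have h2 : (p ^ 2 - 1) * p < p ^ 3 := by
    have : 1 ≤ p ^ 2 := Nat.one_le_pow _ _ hp0
    calc (p ^ 2 - 1) * p < p ^ 2 * p := by
          apply Nat.mul_lt_mul_of_pos_right _ hp0
          omega
      _ = p ^ 3 := by ring
  omega

theorem exists_normal_E {P : Type*} [Group P] [Finite P] (p : ℕ) [hp : Fact p.Prime]
    (hP : IsPGroup p P) (hrk : ¬ Cfsg.PRankLE p 2 P) :
    ∃ U : Subgroup P, U.Normal ∧ Cfsg.IsElementaryAbelian p U ∧ Nat.card U = p ^ 2 := by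
  obtain ⟨F, hF, hFc⟩ := exists_elemAb_of_not_prankLE hP hrk
  by_cases hp2 : p = 2
  · subst hp2
    exact Cfsg.Agent.Lib.PGroup.NormalFour.exists_normal_four hP F hF hFc
  · obtain ⟨n, hn⟩ := IsPGroup.iff_card.mp (hP.to_subgroup F)
    have hn3 : 3 ≤ n := by
      rw [hn] at hFc
      exact (Nat.pow_le_pow_iff_right hp.out.one_lt).mp hFc
    obtain ⟨K, hK⟩ := Sylow.exists_subgroup_card_pow_prime (G := F) p (n := 2) (by
      rw [hn]; exact pow_dvd_pow p (by omega))
    have hKc : Nat.card (K.map F.subtype) = p ^ 2 := by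
      rwa [Subgroup.card_map_of_injective F.subtype_injective]
    have hnc : ¬ IsCyclic (⊤ : Subgroup P) := by
      apply not_isCyclic_top_of_elemAb (p := p) (K.map F.subtype) _ hKc
      rintro _ ⟨a, -, rfl⟩
      exact hF.2 _ a.2
    obtain ⟨A, -, hAn, hAe, hAc⟩ := exists_normal_rank_two hp2 hP ⊤ hnc
    exact ⟨A, hAn, hAe, hAc⟩

/-- Let P be a finite p-group of p-rank greater than 2. Then P has a normal elementary abelian subgroup U of order p², and for every elementary abelian X ≤ P with |X| ≥ p²: X is joined to U by a chain of pairwise commuting elementary abelian subgroups of order ≥ p² if and only if C_P(X) has p-rank greater than 2. -/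
theorem result {P : Type*} [Group P] [Finite P] (p : ℕ) [Fact p.Prime] (hP : IsPGroup p P) (hrk : ¬ Cfsg.PRankLE p 2 P) : ∃ U : Subgroup P, U.Normal ∧ Cfsg.IsElementaryAbelian p U ∧ Nat.card ↥U = p ^ 2 ∧ ∀ X : Subgroup P, Cfsg.IsElementaryAbelian p X → p ^ 2 ≤ Nat.card ↥X → (Relation.ReflTransGen (fun A B : Subgroup P => Cfsg.IsElementaryAbelian p A ∧ p ^ 2 ≤ Nat.card ↥A ∧ Cfsg.IsElementaryAbelian p B ∧ p ^ 2 ≤ Nat.card ↥B ∧ ∀ a ∈ A, ∀ b ∈ B, a * b = b * a) X U ↔ ¬ Cfsg.PRankLE p 2 ↥(Subgroup.centralizer (X : Set P))) := by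
  have hpp := (Fact.out : p.Prime)
  obtain ⟨U, hUn, hUe, hUc⟩ := exists_normal_E p hP hrk
  haveI := hUn
  obtain ⟨F₀, hF₀, hF₀c⟩ := exists_elemAb_of_not_prankLE hP hrk
  refine ⟨U, hUn, hUe, hUc, fun X hXe hXc => ?_⟩
  have hcomm : ∀ {E : Subgroup P}, Cfsg.IsElementaryAbelian p E → ∀ a ∈ E, ∀ b ∈ E, a * b = b * a :=
    fun hE => (Cfsg.Agent.Lib.PGroup.Basic.isElementaryAbelian_iff.mp hE).1
  -- `U` itself has a centralizer of rank at least three
  have hgoodU : ¬ Cfsg.PRankLE p 2 ↥(centralizer (U : Set P)) := by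
    rw [not_prankLE_centralizer_iff p hP]
    obtain ⟨y, hyF, hyC, hyU⟩ := exists_mem_centralizer_notMem hP U hUe hUc F₀ hF₀ hF₀c
    have hyp : y ^ p = 1 := hF₀.2 y hyF
    refine ⟨U ⊔ zpowers y, ?_, ?_, ?_⟩
    · refine sup_le (le_centralizer_iff_isMulCommutative.mpr hUe.1) (zpowers_le.mpr hyC)
    · apply Cfsg.Agent.Lib.PGroup.Basic.IsElementaryAbelian.sup_zpowers hUe hyp
      intro a ha
      exact (mem_centralizer_iff.mp hyC a ha).symm
    · rw [card_sup_zpowers U hyU (by rw [hyp]; exact one_mem _), hUc]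
      exact le_of_eq (by ring)
  constructor
  · -- the chain direction
    intro hchain
    induction hchain using Relation.ReflTransGen.head_induction_on with
    | refl => exact hgoodU
    | @head A B hab _ ih =>
      obtain ⟨hAe, hAc, hBe, hBc, hAB⟩ := hab
      intro hrA
      have hsup : Cfsg.IsElementaryAbelian p (A ⊔ B) := by
        rw [Cfsg.Agent.Lib.PGroup.Basic.isElementaryAbelian_iff] at hAe hBe ⊢
        have hcA : A ≤ centralizer (A : Set P) := fun a ha => mem_centralizer_iff.mpr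
          fun c hc => hAe.1 c hc a ha
        have hcB : B ≤ centralizer (B : Set P) := fun a ha => mem_centralizer_iff.mpr
          fun c hc => hBe.1 c hc a ha
        have h1 : A ⊔ B ≤ centralizer (A : Set P) := sup_le hcA fun b hb =>
          mem_centralizer_iff.mpr fun a ha => hAB a ha b hb
        have h2 : A ⊔ B ≤ centralizer (B : Set P) := sup_le (fun a ha =>
          mem_centralizer_iff.mpr fun b hb => (hAB a ha b hb).symm) hcB
        have h3 : A ≤ centralizer ((A ⊔ B : Subgroup P) : Set P) := fun a ha =>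
          mem_centralizer_iff.mpr fun c hc => (mem_centralizer_iff.mp (h1 hc) a ha).symm
        have h4 : B ≤ centralizer ((A ⊔ B : Subgroup P) : Set P) := fun a ha =>
          mem_centralizer_iff.mpr fun c hc => (mem_centralizer_iff.mp (h2 hc) a ha).symm
        have h5 := sup_le h3 h4
        have hc : ∀ a ∈ A ⊔ B, ∀ b ∈ A ⊔ B, a * b = b * a := fun a ha b hb =>
          mem_centralizer_iff.mp (h5 hb) a ha
        refine ⟨hc, ?_⟩
        have hcl : A ⊔ B = closure ((A : Set P) ∪ B) := by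
          rw [Subgroup.closure_union, Subgroup.closure_eq, Subgroup.closure_eq]
        have key : ∀ x ∈ closure ((A : Set P) ∪ B), x ∈ closure ((A : Set P) ∪ B) ∧ x ^ p = 1 := by
          intro x hx
          induction hx using Subgroup.closure_induction with
          | mem x hx =>
            refine ⟨Subgroup.subset_closure hx, ?_⟩
            rcases hx with hx | hx
            · exact hAe.2 x hx
            · exact hBe.2 x hx
          | one => exact ⟨one_mem _, one_pow p⟩
          | mul x y _ _ hx hy =>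
            refine ⟨mul_mem hx.1 hy.1, ?_⟩
            have hcomm : Commute x y := hc x (hcl ▸ hx.1) y (hcl ▸ hy.1)
            rw [hcomm.mul_pow, hx.2, hy.2, one_mul]
          | inv x _ hx => exact ⟨inv_mem hx.1, by rw [inv_pow, hx.2, inv_one]⟩
        intro a ha
        exact (key a (hcl ▸ ha)).2
      have hle : A ⊔ B ≤ centralizer (A : Set P) := by
        refine sup_le (le_centralizer_iff_isMulCommutative.mpr hAe.1) ?_
        intro b hb
        rw [mem_centralizer_iff]
        intro a ha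
        exact hAB a ha b hb
      have hcard : Nat.card (A ⊔ B : Subgroup P) ≤ p ^ 2 := by
        by_contra hlt
        push Not at hlt
        apply (not_prankLE_centralizer_iff p hP A).mpr _ hrA
        exact ⟨A ⊔ B, hle, hsup, pow_succ_le_card_of_lt hP _ hlt⟩
      have hAeq : A = A ⊔ B := Subgroup.eq_of_le_of_card_ge le_sup_left (le_trans hcard hAc)
      have hBeq : B = A ⊔ B := Subgroup.eq_of_le_of_card_ge le_sup_right (le_trans hcard hBc)
      have hABeq : A = B := hAeq.trans hBeq.symm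
      rw [hABeq] at hrA
      exact ih hBe hBc hrA
  · intro hg
    obtain ⟨F, hFX, hFe, hFc⟩ := (not_prankLE_centralizer_iff p hP X).mp hg
    have hp2le : p ^ 2 ≤ p ^ 3 := Nat.pow_le_pow_right hpp.pos (by norm_num)
    have hV := card_inf_centralizer hP U hUc F hFc
    have hVe : Cfsg.IsElementaryAbelian p (F ⊓ centralizer (U : Set P)) :=
      Cfsg.Agent.Lib.PGroup.Basic.IsElementaryAbelian.mono hFe inf_le_left
    have s1 := Relation.ReflTransGen.single (r := fun A B : Subgroup P => Cfsg.IsElementaryAbelian p A ∧ p ^ 2 ≤ Nat.card ↥A ∧ Cfsg.IsElementaryAbelian p B ∧ p ^ 2 ≤ Nat.card ↥B ∧ ∀ a ∈ A, ∀ b ∈ B, a * b = b * a) (a := X) (b := F)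
      ⟨hXe, hXc, hFe, le_trans hp2le hFc, fun a ha b hb => mem_centralizer_iff.mp (hFX hb) a ha⟩
    have s2 := Relation.ReflTransGen.single (r := fun A B : Subgroup P => Cfsg.IsElementaryAbelian p A ∧ p ^ 2 ≤ Nat.card ↥A ∧ Cfsg.IsElementaryAbelian p B ∧ p ^ 2 ≤ Nat.card ↥B ∧ ∀ a ∈ A, ∀ b ∈ B, a * b = b * a) (a := F) (b := F ⊓ centralizer (U : Set P))
      ⟨hFe, le_trans hp2le hFc, hVe, hV, fun a ha b hb => hcomm hFe a ha b hb.1⟩
    have s3 := Relation.ReflTransGen.single (r := fun A B : Subgroup P => Cfsg.IsElementaryAbelian p A ∧ p ^ 2 ≤ Nat.card ↥A ∧ Cfsg.IsElementaryAbelian p B ∧ p ^ 2 ≤ Nat.card ↥B ∧ ∀ a ∈ A, ∀ b ∈ B, a * b = b * a) (a := F ⊓ centralizer (U : Set P)) (b := U)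
      ⟨hVe, hV, hUe, hUc.ge, fun a ha b hb => (mem_centralizer_iff.mp ha.2 b hb).symm⟩
    exact s1.trans (s2.trans s3)

end Cfsg.Agent.S1337
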