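import Cfsg.Statements.S1338
import Cfsg.Agent.S0122
import Cfsg.Agent.Lib.PGroup.Basic

set_option autoImplicit false
open Cfsg
open Subgroup

namespace Cfsg.Agent.S1338

open Cfsg.Agent.Lib.PGroup.Basic

variable {P : Type*} [Group P] [Finite P]

/-- Kernels of composites in a finite commutative group. -/
theorem card_ker_comp_le {A : Type*} [CommGroup A] [Finite A] (f g : A →* A) :
    Nat.card (g.comp f).ker ≤ Nat.card f.ker * Nat.card g.ker := by
  classical
  -- the restriction of `f` to the kernel of the composite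
  let r : (g.comp f).ker →* g.ker :=
    { toFun := fun a => ⟨f a, by
        have := a.2
        rw [MonoidHom.mem_ker] at this ⊢
        simpa using this⟩
      map_one' := by ext; simp
      map_mul' := by intro a b; ext; simp }
  have h1 : Nat.card (g.comp f).ker = Nat.card r.ker * Nat.card r.range := by
    rw [← Subgroup.index_ker r, Subgroup.card_mul_index]
  have h2 : Nat.card r.range ≤ Nat.card g.ker := Subgroup.card_le_card_group _
  have h3 : Nat.card r.ker ≤ Nat.card f.ker := by
    refine Nat.card_le_card_of_injective (fun a : r.ker => (⟨(a : (g.comp f).ker).1, ?_⟩ : f.ker)) ?_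
    · have := a.2
      rw [MonoidHom.mem_ker] at this ⊢
      exact congrArg Subtype.val this
    · intro a b hab
      apply Subtype.ext; apply Subtype.ext
      exact congrArg (fun y : f.ker => (y : A)) hab
  rw [h1]
  exact Nat.mul_le_mul h3 h2

theorem cube_aux {A : Type*} [CommGroup A] (a v w : A) (hv : v ^ 3 = 1) (hw : w ^ 3 = 1) :
    (a * (w⁻¹ * w⁻¹) * v) * (w * (v⁻¹ * v⁻¹) * a)⁻¹ = 1 := by
  have : (a * (w⁻¹ * w⁻¹) * v) * (w * (v⁻¹ * v⁻¹) * a)⁻¹ = (a * a⁻¹) * (v * v * v) * (w * w * w)⁻¹ := by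
    simp only [mul_inv, inv_inv]
    ac_rfl
  rw [this, mul_inv_cancel, one_mul]
  have e1 : v * v * v = v ^ 3 := by simp [pow_succ]
  have e2 : w * w * w = w ^ 3 := by simp [pow_succ]
  rw [e1, e2, hv, hw]; simp

/-- An order-three element acting on a normal elementary abelian subgroup of order `81` centralizes
a subgroup of order at least nine. -/
theorem nine_le_card_centralizer {N : Subgroup P} [hN : N.Normal] (hNe : Cfsg.IsElementaryAbelian 3 N)
    (hcard : Nat.card N = 3 ^ 4) {x : P} (hx : x ^ 3 = 1) :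
    3 ^ 2 ≤ Nat.card ↥(N ⊓ centralizer ({x} : Set P)) := by
  classical
  rw [isElementaryAbelian_iff] at hNe
  let _ : CommGroup N :=
    { (inferInstance : Group N) with
      mul_comm := fun a b => Subtype.ext (hNe.1 a a.2 b b.2) }
  -- the conjugation endomorphism and the commutator map
  let c : N →* N :=
    { toFun := fun a => ⟨x * a * x⁻¹, hN.conj_mem a a.2 x⟩
      map_one' := by ext; simp
      map_mul' := by intro a b; ext; simp [mul_assoc] }
  let f : N →* N :=
    { toFun := fun a => c a * a⁻¹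
      map_one' := by simp
      map_mul' := by
        intro a b
        rw [map_mul, mul_inv]
        exact mul_mul_mul_comm _ _ _ _ }
  have hccc : ∀ a : N, c (c (c a)) = a := by
    intro a
    apply Subtype.ext
    show x * (x * (x * a * x⁻¹) * x⁻¹) * x⁻¹ = a
    have : x * (x * (x * (a : P) * x⁻¹) * x⁻¹) * x⁻¹ = x ^ 3 * a * (x ^ 3)⁻¹ := by
      simp only [pow_succ, pow_zero, one_mul, mul_inv_rev, mul_assoc]
    rw [this, hx]; simp
  have hcube : ∀ a : N, a ^ 3 = 1 := fun a => Subtype.ext (by simpa using hNe.2 a a.2)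
  have hf : ∀ a : N, f a = c a * a⁻¹ := fun a => rfl
  have hfff : ∀ a : N, f (f (f a)) = 1 := by
    intro a
    have e2 : f (f a) = c (c a) * ((c a)⁻¹ * (c a)⁻¹) * a := by
      rw [hf, hf, map_mul, map_inv, mul_inv, inv_inv]
      simp only [mul_assoc]
    rw [e2, hf, map_mul, map_mul, map_mul, map_inv, hccc]
    have e3 := cube_aux a (c a) (c (c a)) (hcube _) (hcube _)
    exact e3
  -- counting
  have hk3 : (f.comp (f.comp f)).ker = ⊤ := by
    rw [eq_top_iff]
    intro a _
    rw [MonoidHom.mem_ker]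
    exact hfff a
  have hle : Nat.card N ≤ Nat.card f.ker ^ 3 := by
    have h1 := card_ker_comp_le (f.comp f) f
    have h2 := card_ker_comp_le f f
    rw [hk3, Subgroup.card_top] at h1
    calc Nat.card N ≤ Nat.card (f.comp f).ker * Nat.card f.ker := h1
      _ ≤ (Nat.card f.ker * Nat.card f.ker) * Nat.card f.ker := Nat.mul_le_mul_right _ h2
      _ = Nat.card f.ker ^ 3 := by ring
  have hdvd : Nat.card f.ker ∣ 3 ^ 4 := by
    rw [← hcard]; exact Subgroup.card_subgroup_dvd_card _
  obtain ⟨k, -, hk⟩ := (Nat.dvd_prime_pow Nat.prime_three).1 hdvd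
  have hk2 : 2 ≤ k := by
    by_contra hlt
    have hk1 : k ≤ 1 := by omega
    have : Nat.card f.ker ≤ 3 := by
      rw [hk]
      calc 3 ^ k ≤ 3 ^ 1 := Nat.pow_le_pow_right (by norm_num) hk1
        _ = 3 := by norm_num
    have h27 : Nat.card f.ker ^ 3 ≤ 3 ^ 3 := Nat.pow_le_pow_left this 3
    rw [hcard] at hle
    have : (3 : ℕ) ^ 4 ≤ 3 ^ 3 := hle.trans h27
    norm_num at this
  have hinj : Nat.card f.ker ≤ Nat.card ↥(N ⊓ centralizer ({x} : Set P)) := by
    refine Nat.card_le_card_of_injective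
      (fun a : f.ker => (⟨((a : N) : P), (a : N).2, ?_⟩ : ↥(N ⊓ centralizer ({x} : Set P)))) ?_
    · have ha := a.2
      rw [MonoidHom.mem_ker, hf, mul_inv_eq_one] at ha
      have h3 : x * ((a : N) : P) * x⁻¹ = ((a : N) : P) := congrArg Subtype.val ha
      show ((a : N) : P) ∈ centralizer ({x} : Set P)
      rw [Subgroup.mem_centralizer_iff]
      rintro y rfl
      rw [mul_inv_eq_iff_eq_mul] at h3
      exact h3
    · intro a b hab
      apply Subtype.ext; apply Subtype.ext
      exact congrArg (fun y : ↥(N ⊓ centralizer ({x} : Set P)) => (y : P)) hab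
  calc 3 ^ 2 ≤ 3 ^ k := Nat.pow_le_pow_right (by norm_num) hk2
    _ = Nat.card f.ker := hk.symm
    _ ≤ _ := hinj

/-- A subgroup of `P` of 3-power order with more than three elements has at least nine. -/
theorem nine_le_of_three_lt {W : Subgroup P} (hP : IsPGroup 3 P) (h : 3 < Nat.card W) :
    3 ^ 2 ≤ Nat.card W := by
  haveI : Fact (Nat.Prime 3) := ⟨Nat.prime_three⟩
  obtain ⟨k, hk⟩ := (hP.to_subgroup W).exists_card_eq
  rw [hk] at h ⊢
  refine Nat.pow_le_pow_right (by norm_num) ?_
  by_contra hlt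
  have hk1 : k ≤ 1 := by omega
  have : 3 ^ k ≤ 3 ^ 1 := Nat.pow_le_pow_right (by norm_num) hk1
  omega

/-- The edge relation of the graph. -/
abbrev Adj (P : Type*) [Group P] : Subgroup P → Subgroup P → Prop :=
  fun A B => IsElementaryAbelian 3 A ∧ 3 ^ 2 ≤ Nat.card ↥A ∧ IsElementaryAbelian 3 B ∧
        3 ^ 2 ≤ Nat.card ↥B ∧ ∀ a ∈ A, ∀ b ∈ B, a * b = b * a

theorem adj_symm {A B : Subgroup P} (h : Adj P A B) : Adj P B A := by
  obtain ⟨h1, h2, h3, h4, h5⟩ := h
  exact ⟨h3, h4, h1, h2, fun a ha b hb => (h5 b hb a ha).symm⟩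

theorem conn_symm {A B : Subgroup P} (h : Relation.ReflTransGen (Adj P) A B) :
    Relation.ReflTransGen (Adj P) B A := by
  induction h with
  | refl => exact Relation.ReflTransGen.refl
  | tail _ hbc ih => exact Relation.ReflTransGen.head (adj_symm hbc) ih

/-- Every vertex is joined to the normal subgroup of order `81`. -/
theorem conn_to_normal (hP : IsPGroup 3 P) {N : Subgroup P} [hN : N.Normal]
    (hNe : Cfsg.IsElementaryAbelian 3 N) (hcard : Nat.card N = 3 ^ 4)
    {E : Subgroup P} (hE : Cfsg.IsElementaryAbelian 3 E) (hE9 : 3 ^ 2 ≤ Nat.card E) :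
    Relation.ReflTransGen (Adj P) E N := by
  classical
  haveI : Fact (Nat.Prime 3) := ⟨Nat.prime_three⟩
  -- a central element of order three in `N`
  have hNne : N ≠ ⊥ := by
    rintro rfl
    rw [Subgroup.card_bot] at hcard
    norm_num at hcard
  have hZ := inf_center_ne_bot hP hNne
  obtain ⟨⟨z, hz⟩, hz1⟩ := Subgroup.ne_bot_iff_exists_ne_one.1 hZ
  have hz1' : z ≠ 1 := fun h => hz1 (Subtype.ext h)
  have hzN : z ∈ N := hz.1
  have hzc : z ∈ center P := hz.2
  have hNe' := (isElementaryAbelian_iff).1 hNe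
  have hz3 : z ^ 3 = 1 := hNe'.2 z hzN
  have hEe' := (isElementaryAbelian_iff).1 hE
  have hzcomm : ∀ a : P, z * a = a * z := fun a => (Subgroup.mem_center_iff.1 hzc a).symm
  -- an element of `E` outside `⟨z⟩`
  have hzcard : Nat.card (zpowers z) = 3 := by
    rw [Nat.card_zpowers]
    exact orderOf_eq_prime hz3 hz1'
  obtain ⟨x, hxE, hxz⟩ : ∃ x ∈ E, x ∉ zpowers z := by
    by_contra hcon
    push Not at hcon
    have hle : E ≤ zpowers z := hcon
    have := Subgroup.card_le_of_le hle
    rw [hzcard] at this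
    omega
  have hx3 : x ^ 3 = 1 := hEe'.2 x hxE
  -- the vertex ⟨z, x⟩
  let W : Subgroup P := zpowers z ⊔ zpowers x
  have hzpe : Cfsg.IsElementaryAbelian 3 (zpowers z) := by
    rw [isElementaryAbelian_iff]
    constructor
    · rintro _ ⟨i, rfl⟩ _ ⟨j, rfl⟩
      simp only
      rw [← zpow_add, ← zpow_add, add_comm]
    · rintro _ ⟨i, rfl⟩
      simp only
      rw [← zpow_natCast, ← zpow_mul, mul_comm, zpow_mul, zpow_natCast, hz3, one_zpow]
  have hWe : Cfsg.IsElementaryAbelian 3 W := by
    refine IsElementaryAbelian.sup_zpowers hzpe hx3 ?_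
    rintro _ ⟨i, rfl⟩
    have h0 : Commute z x := hzcomm x
    have : Commute x (z ^ i) := (h0.zpow_left i).symm
    exact this
  have hW9 : 3 ^ 2 ≤ Nat.card W := by
    refine nine_le_of_three_lt hP ?_
    have hlt : zpowers z < W := by
      refine lt_of_le_of_ne le_sup_left ?_
      intro heq
      apply hxz
      rw [heq]
      exact (le_sup_right : zpowers x ≤ W) (mem_zpowers x)
    have h5 : Nat.card (zpowers z) < Nat.card W :=
      Set.ncard_lt_ncard (s := (zpowers z : Set P)) (t := (W : Set P)) hlt (Set.toFinite _)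
    rwa [hzcard] at h5
  -- the vertex `C_N(x)`
  let C : Subgroup P := N ⊓ centralizer ({x} : Set P)
  have hCe : Cfsg.IsElementaryAbelian 3 C := IsElementaryAbelian.mono hNe inf_le_left
  have hC9 : 3 ^ 2 ≤ Nat.card C := nine_le_card_centralizer hNe hcard hx3
  have hN9 : 3 ^ 2 ≤ Nat.card N := by rw [hcard]; norm_num
  have hWE : ∀ w ∈ W, ∀ e ∈ E, w * e = e * w := by
    intro w hw e he
    have hcl : W ≤ centralizer (E : Set P) := by
      refine sup_le ?_ ?_
      · rw [zpowers_le, Subgroup.mem_centralizer_iff]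
        intro y _
        exact (hzcomm y).symm
      · rw [zpowers_le, Subgroup.mem_centralizer_iff]
        intro y hy
        exact hEe'.1 y hy x hxE
    exact (Subgroup.mem_centralizer_iff.1 (hcl hw) e he).symm
  have hWC : ∀ w ∈ W, ∀ e ∈ C, w * e = e * w := by
    intro w hw e he
    have hcl : W ≤ centralizer (C : Set P) := by
      refine sup_le ?_ ?_
      · rw [zpowers_le, Subgroup.mem_centralizer_iff]
        intro y _
        exact (hzcomm y).symm
      · rw [zpowers_le, Subgroup.mem_centralizer_iff]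
        intro y hy
        have := Subgroup.mem_centralizer_iff.1 hy.2 x rfl
        exact this.symm
    exact (Subgroup.mem_centralizer_iff.1 (hcl hw) e he).symm
  have e1 : Adj P E W := ⟨hE, hE9, hWe, hW9, fun a ha b hb => (hWE b hb a ha).symm⟩
  have e2 : Adj P W C := ⟨hWe, hW9, hCe, hC9, hWC⟩
  have e3 : Adj P C N := ⟨hCe, hC9, hNe, hN9, fun a ha b hb => hNe'.1 a ha.1 b hb⟩
  exact ((Relation.ReflTransGen.single e1).tail e2).tail e3

/-- A finite 3-group of 3-rank at least 4 is 2-connected for the prime 3: its commuting graph on elementary abelian subgroups of order ≥ 9 is connected. -/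
theorem result {P : Type*} [Group P] [Finite P] (hP : IsPGroup 3 P) (hrk : ¬ Cfsg.PRankLE 3 3 P) : Cfsg.IsKConnected 3 2 P := by
  classical
  haveI : Fact (Nat.Prime 3) := ⟨Nat.prime_three⟩
  -- an elementary abelian subgroup of order `81`
  unfold Cfsg.PRankLE at hrk
  push Not at hrk
  obtain ⟨A, hAc, hA3, hAcard⟩ := hrk
  have hAe : Cfsg.IsElementaryAbelian 3 A := ⟨hAc, hA3⟩
  have hAp : IsPGroup 3 A := hP.to_subgroup A
  obtain ⟨k, hk⟩ := hAp.exists_card_eq
  have hk4 : 4 ≤ k := by
    rw [hk] at hAcard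
    exact (Nat.pow_lt_pow_iff_right (by norm_num)).1 hAcard
  have hdvd : 3 ^ 4 ∣ Nat.card A := by
    rw [hk]; exact pow_dvd_pow 3 hk4
  obtain ⟨B, hBcard⟩ := Sylow.exists_subgroup_card_pow_prime (G := A) 3 hdvd
  let E : Subgroup P := B.map A.subtype
  have hEle : E ≤ A := by
    rintro _ ⟨b, _, rfl⟩
    exact b.2
  have hEe : Cfsg.IsElementaryAbelian 3 E := IsElementaryAbelian.mono hAe hEle
  have hEc : Nat.card E = 3 ^ 4 := by
    rw [← hBcard]
    exact Nat.card_congr (B.equivMapOfInjective _ A.subtype_injective).toEquiv.symm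
  obtain ⟨N, hN, hNe, hNc⟩ := Cfsg.Agent.S0122.result (p := 3) (by norm_num) hP E hEe hEc
  intro E₁ E₂ h1 h2 h3 h4
  have p1 := conn_to_normal hP hNe hNc h1 h2
  have p2 := conn_to_normal hP hNe hNc h3 h4
  exact p1.trans (conn_symm p2)

end Cfsg.Agent.S1338
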