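import Cfsg.Statements.S1343
import Mathlib
import Cfsg.Agent.Lib.Components.ExtLayer
-- import your own Cfsg.Agent.* helpers here

set_option autoImplicit false
open Cfsg
open Cfsg.Agent.Lib.Components.Transport Cfsg.Agent.Lib.Components.ExtLayer

namespace Cfsg.Agent.S1343

/-- Let X be finite. Then L*_{2'}(X) = L_{2'}(X) ⊔ F for some subgroup F of odd order normalized by a Sylow 2-subgroup of X. -/
theorem result {X : Type*} [Group X] [Finite X] : ∃ F : Subgroup X, Odd (Nat.card ↥F) ∧ (∃ S : Sylow 2 X, (S : Subgroup X) ≤ Subgroup.normalizer (F : Set X)) ∧ Cfsg.extendedTwoLayer X = Cfsg.pLayer 2 X ⊔ F := by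
  classical
  obtain ⟨T⟩ : Nonempty (Sylow 2 (layerN X)) := inferInstance
  obtain ⟨S, hTS⟩ := (isPGroup_tmap T).exists_le_sylow
  refine ⟨pPrimeCore 2 X ⊔ OC (tmap T), ?_, ⟨S, ?_⟩, ?_⟩
  · -- odd order
    have h1 : (Nat.card (pPrimeCore 2 X)).Coprime 2 := coprime_card_pPrimeCore 2
    have h2 : (Nat.card (OC (tmap T))).Coprime 2 := by
      unfold OC
      rw [Subgroup.card_map_of_injective (Subgroup.subtype_injective _)]
      exact coprime_card_pPrimeCore 2
    have h3 := card_sup_dvd (pPrimeCore 2 X) (OC (tmap T))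
    have h4 := Nat.Coprime.coprime_dvd_left h3 (Nat.Coprime.mul_left h1 h2)
    exact Nat.odd_iff.2 (by
      have := Nat.coprime_two_right.1 h4
      exact Nat.odd_iff.1 this)
  · -- normalized by S
    have hS : ∀ s ∈ (S : Subgroup X), (tmap T).map (MulAut.conj s).toMonoidHom = tmap T := by
      intro s hs
      obtain ⟨T', hT'⟩ := exists_sylow_conj (layerN X) T s
      -- `tmap T'` is a p-subgroup of `S ⊓ N`; by maximality `tmap T' = tmap T`.
      have hQ : IsPGroup 2 ((S : Subgroup X).subgroupOf (layerN X)) :=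
        S.isPGroup'.comap_subtype
      have hT1 : (T : Subgroup (layerN X)) ≤ (S : Subgroup X).subgroupOf (layerN X) := by
        intro x hx
        exact hTS ⟨x, hx, rfl⟩
      have hT2 : (T' : Subgroup (layerN X)) ≤ (S : Subgroup X).subgroupOf (layerN X) := by
        intro x hx
        have h1 : (x : X) ∈ tmap T' := ⟨x, hx, rfl⟩
        rw [hT'] at h1
        obtain ⟨y, hy, hyx⟩ := h1
        rw [Subgroup.mem_subgroupOf, ← hyx]
        exact mul_mem (mul_mem hs (hTS hy)) (inv_mem hs)
      have e1 := T.is_maximal' hQ hT1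
      have e2 := T'.is_maximal' hQ hT2
      have e3 : (T' : Subgroup (layerN X)) = (T : Subgroup (layerN X)) := e2.symm.trans e1
      rw [← hT']
      unfold tmap
      rw [e3]
    intro s hs
    rw [Subgroup.mem_normalizer_iff_map_conj_eq]
    have e1 := pPrimeCore_map_equiv 2 (MulAut.conj s)
    have e2 : (OC (tmap T)).map (MulAut.conj s).toMonoidHom = OC (tmap T) := by
      rw [OC_map_equiv, hS s hs]
    exact (Subgroup.map_sup _ _ _).trans (congrArg₂ (· ⊔ ·) e1 e2)
  · rw [extendedTwoLayer_eq_of_sylow T, sup_assoc]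

end Cfsg.Agent.S1343
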