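import Cfsg.Statements.S1386
import Mathlib

set_option autoImplicit false
open Cfsg

namespace Cfsg.Agent.S1386

theorem eq_of_card_eq_cyclic {K : Type*} [Group K] [Finite K] [IsCyclic K] (A B : Subgroup K)
    (h : Nat.card A = Nat.card B) : A = B := by
  classical
  haveI := Fintype.ofFinite K
  set d := Nat.card A with hd
  have hpos : 0 < d := Nat.card_pos
  have hle := IsCyclic.card_pow_eq_one_le (α := K) hpos
  have key : ∀ C : Subgroup K, Nat.card C = d → ∀ x : K, x ∈ C ↔ x ^ d = 1 := by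
    intro C hC
    have hsub : (Set.toFinset (C : Set K)) ⊆ Finset.univ.filter (fun a : K => a ^ d = 1) := by
      intro x hx
      rw [Set.mem_toFinset] at hx
      rw [Finset.mem_filter]
      refine ⟨Finset.mem_univ _, ?_⟩
      have := pow_card_eq_one' (x := (⟨x, hx⟩ : C))
      rw [hC] at this
      simpa using congrArg Subtype.val this
    have hcardC : (Set.toFinset (C : Set K)).card = d := by
      rw [Set.toFinset_card, ← Nat.card_eq_fintype_card]
      exact hC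
    have heq := Finset.eq_of_subset_of_card_le hsub (by rw [hcardC]; exact hle)
    intro x
    constructor
    · intro hx
      have : x ∈ Set.toFinset (C : Set K) := Set.mem_toFinset.mpr hx
      exact (Finset.mem_filter.mp (hsub this)).2
    · intro hx
      have : x ∈ Finset.univ.filter (fun a : K => a ^ d = 1) :=
        Finset.mem_filter.mpr ⟨Finset.mem_univ _, hx⟩
      rw [← heq] at this
      exact Set.mem_toFinset.mp this
  ext x
  rw [key A rfl, key B h.symm]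

theorem card_sup_of_commute {G : Type*} [Group G] [Finite G] (A B : Subgroup G)
    (hc : ∀ a ∈ A, ∀ b ∈ B, a * b = b * a) (hd : A ⊓ B = ⊥) :
    Nat.card ↥(A ⊔ B) = Nat.card A * Nat.card B := by
  let P : Subgroup G :=
    { carrier := {x | ∃ a ∈ A, ∃ b ∈ B, x = a * b}
      one_mem' := ⟨1, A.one_mem, 1, B.one_mem, by simp⟩
      mul_mem' := by
        rintro _ _ ⟨a, ha, b, hb, rfl⟩ ⟨a', ha', b', hb', rfl⟩
        refine ⟨a * a', A.mul_mem ha ha', b * b', B.mul_mem hb hb', ?_⟩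
        have := hc a' ha' b hb
        calc a * b * (a' * b') = a * (b * a') * b' := by group
          _ = a * (a' * b) * b' := by rw [this]
          _ = a * a' * (b * b') := by group
      inv_mem' := by
        rintro _ ⟨a, ha, b, hb, rfl⟩
        refine ⟨a⁻¹, A.inv_mem ha, b⁻¹, B.inv_mem hb, ?_⟩
        rw [mul_inv_rev]
        have := hc a⁻¹ (A.inv_mem ha) b⁻¹ (B.inv_mem hb)
        exact this.symm }
  have hP : A ⊔ B ≤ P := sup_le
    (fun a ha => ⟨a, ha, 1, B.one_mem, by simp⟩)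
    (fun b hb => ⟨1, A.one_mem, b, hb, by simp⟩)
  let f : A × B → ↥(A ⊔ B) := fun p =>
    ⟨(p.1 : G) * p.2, Subgroup.mul_mem _ ((le_sup_left : A ≤ A ⊔ B) p.1.2) ((le_sup_right : B ≤ A ⊔ B) p.2.2)⟩
  have hf : Function.Bijective f := by
    constructor
    · rintro ⟨a, b⟩ ⟨a', b'⟩ h
      have h1 : (a : G) * b = a' * b' := congrArg Subtype.val h
      have h2 : (a' : G)⁻¹ * a = b' * (b : G)⁻¹ := by
        rw [inv_mul_eq_iff_eq_mul, ← mul_assoc, ← h1]; group
      have h3 : (a' : G)⁻¹ * a ∈ A ⊓ B := by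
        refine ⟨A.mul_mem (A.inv_mem a'.2) a.2, ?_⟩
        rw [h2]; exact B.mul_mem b'.2 (B.inv_mem b.2)
      rw [hd, Subgroup.mem_bot] at h3
      have h4 : (a : G) = a' := by
        rw [inv_mul_eq_one] at h3; exact h3.symm
      have h5 : (b : G) = b' := by
        rw [h4] at h1; exact mul_left_cancel h1
      exact Prod.ext (Subtype.ext h4) (Subtype.ext h5)
    · rintro ⟨x, hx⟩
      obtain ⟨a, ha, b, hb, rfl⟩ := hP hx
      exact ⟨(⟨a, ha⟩, ⟨b, hb⟩), rfl⟩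
  rw [← Nat.card_prod]
  exact (Nat.card_congr (Equiv.ofBijective f hf)).symm

/-- Let G be a finite group, W₁, W₂ subgroups forming a self-normalizing cyclic pair, S a subgroup with W₂ ≤ S and W₁ a complement to S' in S, and (W₁, U, W₂') type-P data for S. Then W₂' = W₂ (that is, C_{S'}(W₁) = W₂). -/
theorem result {G : Type*} [Group G] [Finite G] (W₁ W₂ S U W₂' : Subgroup G) (hW : Cfsg.IsSelfNormalizingCyclic W₁ W₂)
    (hSW : Cfsg.IsComplIn ⁅S, S⁆ W₁ S) (hW₂S : W₂ ≤ S) (hP : Cfsg.IsTypePWith S W₁ U W₂') :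
    W₂' = W₂ := by
  obtain ⟨hW1, hW2, hd, hc, hcyc, hN⟩ := hW
  obtain ⟨-, hW2', hd', hc', hcyc', -⟩ := hP.selfNormalizing
  obtain ⟨w1, hw1, hw11⟩ := (Subgroup.bot_or_exists_ne_one W₁).resolve_left hW1
  obtain ⟨w2, hw2, hw21⟩ := (Subgroup.bot_or_exists_ne_one W₂).resolve_left hW2
  have hz1 : w1 * w2 ∈ W₁ ⊔ W₂ :=
    Subgroup.mul_mem _ ((le_sup_left : W₁ ≤ W₁ ⊔ W₂) hw1) ((le_sup_right : W₂ ≤ W₁ ⊔ W₂) hw2)
  have hzA : w1 * w2 ∉ W₁ := by
    intro h
    have h2 : w2 ∈ W₁ := by simpa using W₁.mul_mem (W₁.inv_mem hw1) h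
    have h3 : w2 ∈ W₁ ⊓ W₂ := ⟨h2, hw2⟩
    rw [hd, Subgroup.mem_bot] at h3
    exact hw21 h3
  have hzB : w1 * w2 ∉ W₂ := by
    intro h
    have h2 : w1 ∈ W₂ := by simpa using W₂.mul_mem h (W₂.inv_mem hw2)
    have h3 : w1 ∈ W₁ ⊓ W₂ := ⟨hw1, h2⟩
    rw [hd, Subgroup.mem_bot] at h3
    exact hw11 h3
  have hNz := hN {w1 * w2} (by
    rintro _ rfl
    exact ⟨hz1, fun h => h.elim hzA hzB⟩) ⟨_, rfl⟩
  have hW1c : ∀ x ∈ W₁, ∀ y ∈ W₁, x * y = y * x := by
    have := hP.W₁_cyclic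
    intro x hx y hy
    have h := mul_comm' (⟨x, hx⟩ : W₁) ⟨y, hy⟩
    exact congrArg Subtype.val h
  have hstep : W₂ ≤ W₁ ⊔ W₂' := by
    intro w hw
    obtain ⟨s, hs, a, ha, hwe⟩ := hSW.2.2.2 w (hW₂S hw)
    have hsC : s ∈ ⁅S, S⁆ ⊓ Subgroup.centralizer ({w1} : Set G) := by
      refine ⟨hs, ?_⟩
      show s ∈ Subgroup.centralizer ({w1} : Set G)
      rw [Subgroup.mem_centralizer_iff]
      intro y hy
      rw [Set.mem_singleton_iff] at hy
      subst hy
      have h1 : y * w = w * y := hc y hw1 w hw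
      have h2 : y * a = a * y := hW1c y hw1 a ha
      have hs' : s = w * a⁻¹ := by rw [hwe]; group
      rw [hs']
      calc y * (w * a⁻¹) = (y * w) * a⁻¹ := by group
        _ = w * (y * a⁻¹) := by rw [h1]; group
        _ = w * (a⁻¹ * y) := by
            congr 1
            rw [eq_inv_mul_iff_mul_eq, ← mul_assoc, ← h2]; group
        _ = w * a⁻¹ * y := by group
    rw [hP.W₂_centralizer w1 hw1 hw11] at hsC
    rw [hwe]
    exact Subgroup.mul_mem _ ((le_sup_right : W₂' ≤ W₁ ⊔ W₂') hsC) ((le_sup_left : W₁ ≤ W₁ ⊔ W₂') ha)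
  have hzz : w1 * w2 ∈ W₁ ⊔ W₂' :=
    Subgroup.mul_mem _ ((le_sup_left : W₁ ≤ W₁ ⊔ W₂') hw1) (hstep hw2)
  have hle : W₁ ⊔ W₂' ≤ W₁ ⊔ W₂ := by
    intro x hx
    rw [← hNz, Subgroup.mem_set_normalizer_iff]
    have hcomm : x * (w1 * w2) = (w1 * w2) * x :=
      congrArg Subtype.val (mul_comm' (⟨x, hx⟩ : ↥(W₁ ⊔ W₂')) ⟨_, hzz⟩)
    intro h
    rw [Set.mem_singleton_iff, Set.mem_singleton_iff]
    constructor
    · rintro rfl
      rw [hcomm]; group
    · intro h2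
      have : h = x⁻¹ * (w1 * w2) * x := by rw [← h2]; group
      rw [this, mul_assoc, ← hcomm]; group
  have hE : W₁ ⊔ W₂ = W₁ ⊔ W₂' := le_antisymm (sup_le le_sup_left hstep) hle
  have hc1 := card_sup_of_commute W₁ W₂ hc hd
  have hc2 := card_sup_of_commute W₁ W₂' hc' hd'
  rw [hE] at hc1
  have hcard : Nat.card W₂ = Nat.card W₂' := by
    have h1 : 0 < Nat.card W₁ := Nat.card_pos
    exact Nat.eq_of_mul_eq_mul_left h1 (hc1.symm.trans hc2)
  have hleW2 : W₂ ≤ W₁ ⊔ W₂' := hstep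
  have hleW2' : W₂' ≤ W₁ ⊔ W₂' := le_sup_right
  have hsg : W₂.subgroupOf (W₁ ⊔ W₂') = W₂'.subgroupOf (W₁ ⊔ W₂') := by
    apply eq_of_card_eq_cyclic
    rw [Nat.card_congr (Subgroup.subgroupOfEquivOfLe hleW2).toEquiv,
      Nat.card_congr (Subgroup.subgroupOfEquivOfLe hleW2').toEquiv]
    exact hcard
  ext x
  constructor
  · intro hx
    have : (⟨x, hleW2' hx⟩ : ↥(W₁ ⊔ W₂')) ∈ W₂'.subgroupOf (W₁ ⊔ W₂') := hx
    rw [← hsg] at this
    exact this
  · intro hx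
    have : (⟨x, hleW2 hx⟩ : ↥(W₁ ⊔ W₂')) ∈ W₂.subgroupOf (W₁ ⊔ W₂') := hx
    rw [hsg] at this
    exact this

end Cfsg.Agent.S1386
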