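import Cfsg.Statements.S1387
import Mathlib
import Cfsg.Agent.Lib.Nilpotent.FittingHall
-- import your own Cfsg.Agent.* helpers here

set_option autoImplicit false
open Cfsg

namespace Cfsg.Agent.S1387

/-- Let M be a subgroup of a finite group G with type-P data (W₁, U, W₂) and H = M_F. Then the Fitting subgroup F(M) is generated by H and the centralizer of H in U. -/
theorem result {G : Type*} [Group G] [Finite G] (M W₁ U W₂ : Subgroup G) (hP : Cfsg.IsTypePWith M W₁ U W₂) :
    Cfsg.fittingOf M = Cfsg.fittingHallOf M ⊔ (U ⊓ Subgroup.centralizer (Cfsg.fittingHallOf M : Set G)) := by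
  open Cfsg.Agent.Lib.Nilpotent.FittingHall in
  apply le_antisymm
  · intro x hx
    obtain ⟨h, hh, u, hu, rfl⟩ := hP.U_compl.2.2.2 x (hP.fitting_le hx)
    have hHF : Cfsg.fittingHallOf M ≤ Cfsg.fittingOf M := by
      rw [← hP.fitting_eq]
      exact le_sup_left
    have huF : u ∈ Cfsg.fittingOf M := by
      have h1 := (Cfsg.fittingOf M).mul_mem ((Cfsg.fittingOf M).inv_mem (hHF hh)) hx
      simpa using h1
    have huC := mem_centralizer_of_mem_U_of_mem_fitting hP hu huF
    exact Subgroup.mul_mem_sup hh ⟨hu, huC⟩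
  · rw [← hP.fitting_eq]
    refine sup_le le_sup_left (le_trans ?_ le_sup_right)
    exact inf_le_inf_right _ (hP.U_compl.2.1.trans (derived_le M))

end Cfsg.Agent.S1387
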