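import Cfsg.Statements.S1388
import Mathlib
import Cfsg.Agent.Lib.Nilpotent.FittingHall
-- import your own Cfsg.Agent.* helpers here

set_option autoImplicit false
open Cfsg

namespace Cfsg.Agent.S1388

/-- Let M be a subgroup of a finite group G with type-P data (W₁, U, W₂) and H = M_F. Then the derived subgroup of U centralizes H, and if U ≠ 1 then U does not centralize H. -/
theorem result {G : Type*} [Group G] [Finite G] (M W₁ U W₂ : Subgroup G) (hP : Cfsg.IsTypePWith M W₁ U W₂) :
    ⁅U, U⁆ ≤ Subgroup.centralizer (Cfsg.fittingHallOf M : Set G) ∧ (U ≠ ⊥ → ¬ U ≤ Subgroup.centralizer (Cfsg.fittingHallOf M : Set G)) := by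
  classical
  open Cfsg.Agent.Lib.Nilpotent.FittingHall in
  have hUM' : U ≤ ⁅M, M⁆ := hP.U_compl.2.1
  have hUM : U ≤ M := hUM'.trans (derived_le M)
  refine ⟨?_, ?_⟩
  · -- `[U,U] ≤ M'' ≤ F(M)`
    intro x hx
    apply mem_centralizer_of_mem_U_of_mem_fitting hP
    · exact (Subgroup.commutator_le.2 fun _ ha _ hb => U.mul_mem (U.mul_mem (U.mul_mem ha hb) (U.inv_mem ha)) (U.inv_mem hb)) hx
    · rw [← hP.fitting_eq]
      apply hP.derived_two_le
      exact Subgroup.commutator_mono hUM' hUM' hx
  · intro hne hcent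
    apply hne
    -- `U` is normal in `M`
    have hnormal : (U.subgroupOf M).Normal := by
      constructor
      rintro ⟨u, huM⟩ hu ⟨m, hm⟩
      rw [Subgroup.mem_subgroupOf] at hu ⊢
      show m * u * m⁻¹ ∈ U
      have hmem : m * u * m⁻¹ ∈ ⁅M, M⁆ := by
        have h1 : m * u * m⁻¹ = (m * u * m⁻¹ * u⁻¹) * u := by
          group
        rw [h1]
        exact (⁅M, M⁆ : Subgroup G).mul_mem (Subgroup.commutator_mem_commutator hm huM) (hUM' hu)
      obtain ⟨h, hh, u', hu', hmu⟩ := hP.U_compl.2.2.2 _ hmem
      have hcomm : Commute h u' := by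
        have := Subgroup.mem_centralizer_iff.1 (hcent hu') h hh
        exact this
      have hn1 : u ^ Nat.card U = 1 :=
        orderOf_dvd_iff_pow_eq_one.1 (Subgroup.orderOf_dvd_natCard _ hu)
      have hn2 : u' ^ Nat.card U = 1 :=
        orderOf_dvd_iff_pow_eq_one.1 (Subgroup.orderOf_dvd_natCard _ hu')
      have hpow : h ^ Nat.card U = 1 := by
        have h1 : (m * u * m⁻¹) ^ Nat.card U = 1 := by
          rw [conj_pow, hn1]
          simp
        rw [hmu, hcomm.mul_pow, hn2, mul_one] at h1
        exact h1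
      have hord1 : orderOf h ∣ Nat.card U := orderOf_dvd_of_pow_eq_one hpow
      have hord2 : orderOf h ∣ Nat.card (Cfsg.fittingHallOf M) := Subgroup.orderOf_dvd_natCard _ hh
      have hord : orderOf h = 1 :=
        Nat.eq_one_of_dvd_coprimes (coprime_H_U hP) hord2 hord1
      rw [orderOf_eq_one_iff] at hord
      rw [hmu, hord, one_mul]
      exact hu'
    have hcard : Nat.card (U.subgroupOf M) = Nat.card U :=
      Nat.card_congr (Subgroup.subgroupOfEquivOfLe hUM).toEquiv
    have hnil : Group.IsNilpotent (U.subgroupOf M) := by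
      haveI := hP.U_nilpotent
      exact Group.nilpotent_of_surjective (Subgroup.subgroupOfEquivOfLe hUM).symm.toMonoidHom
        (Subgroup.subgroupOfEquivOfLe hUM).symm.surjective
    have hindex : (U.subgroupOf M).index = Nat.card (Cfsg.fittingHall M) * Nat.card W₁ := by
      have h1 := card_eq_of_isComplIn hP.W₁_compl
      have h2 := card_eq_of_isComplIn hP.U_compl
      rw [h2, card_fittingHallOf] at h1
      have h3 := Subgroup.card_mul_index (U.subgroupOf M)
      rw [hcard, h1, mul_comm (Nat.card (Cfsg.fittingHall M)), mul_assoc] at h3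
      exact Nat.eq_of_mul_eq_mul_left Nat.card_pos h3
    have hcop : (Nat.card (U.subgroupOf M)).Coprime (U.subgroupOf M).index := by
      rw [hcard, hindex]
      refine Nat.Coprime.mul_right ?_ (coprime_W₁_U hP).symm
      have := coprime_H_U hP
      rw [card_fittingHallOf] at this
      exact this.symm
    have hle := le_fittingHall hnormal hnil hcop
    rw [eq_bot_iff, ← hP.U_compl.2.2.1]
    refine le_inf ?_ le_rfl
    intro u hu
    exact ⟨⟨u, hUM hu⟩, hle (by simpa [Subgroup.mem_subgroupOf] using hu), rfl⟩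

end Cfsg.Agent.S1388
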