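import Cfsg.Statements.S1441
import Cfsg.Agent.Lib.Coprime.StabilityElem
import Mathlib

set_option autoImplicit false
open Cfsg

namespace Cfsg.Agent.S1441

open Cfsg.Agent.Lib.Coprime.StabilityElem

/-- Let G be a finite group, H a solvable subgroup and A a subgroup normalizing H. Suppose there is a chain H = H₀ ≥ H₁ ≥ ⋯ ≥ H_n = 1 of subgroups normal in H and normalized by A such that A acts trivially on each factor H_{i-1}/H_i (that is, [H_{i-1}, A] ≤ H_i). Then every prime dividing the index of C_A(H) in A divides the order of H. -/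
theorem result {G : Type*} [Group G] [Finite G] (H A : Subgroup G) (hH : Group.IsSolvable H) (hA : (A ≤ Subgroup.normalizer (H : Set G)))
    (n : ℕ) (c : Fin (n + 1) → Subgroup G) (hc0 : c 0 = H) (hcn : c (Fin.last n) = ⊥) (hanti : Antitone c)
    (hcN : ∀ i, H ≤ Subgroup.normalizer ((c i : Subgroup G) : Set G)) (hcA : ∀ i, A ≤ Subgroup.normalizer ((c i : Subgroup G) : Set G))
    (htriv : ∀ i : Fin n, ⁅c i.castSucc, A⁆ ≤ c i.succ) :
    ∀ p : ℕ, p.Prime → p ∣ (A ⊓ Subgroup.centralizer (H : Set G)).relIndex A → p ∣ Nat.card H := by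
  intro p hp hdvd
  by_contra hpH
  have : Fact p.Prime := ⟨hp⟩
  -- a Sylow `p`-subgroup of `A` not inside the centralizer
  obtain ⟨S⟩ : Nonempty (Sylow p A) := inferInstance
  -- every `p`-element of `A` centralizes `H`
  have key : ∀ a ∈ A, (∃ k : ℕ, a ^ (p ^ k) = 1) → a ∈ Subgroup.centralizer (H : Set G) := by
    rintro a haA ⟨k, hk⟩
    have hcop : (Nat.card H).Coprime (p ^ k) :=
      Nat.Coprime.pow_right k ((Nat.Prime.coprime_iff_not_dvd hp).mpr hpH).symm
    -- downward induction along the chain
    have hstep : ∀ j : ℕ, (hj : j ≤ n) → ∀ x ∈ c ⟨n - j, by omega⟩, a * x = x * a := by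
      intro j
      induction j with
      | zero =>
        intro _ x hx
        have : c ⟨n - 0, by omega⟩ = ⊥ := by
          simpa [Fin.last] using hcn
        rw [this, Subgroup.mem_bot] at hx
        simp [hx]
      | succ j ih =>
        intro hj x hx
        have hjn : n - (j + 1) < n := by omega
        have ih' := ih (by omega)
        have hsucc : (⟨n - (j + 1), hjn⟩ : Fin n).succ = ⟨n - j, by omega⟩ := by
          ext; simp; omega
        have hcast : (⟨n - (j + 1), hjn⟩ : Fin n).castSucc = ⟨n - (j + 1), by omega⟩ := rfl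
        have htr := htriv ⟨n - (j + 1), hjn⟩
        rw [hsucc, hcast] at htr
        have hxH : x ∈ H := by
          rw [← hc0]
          exact hanti (Fin.zero_le _) hx
        -- the commutator
        have hcomm : x⁻¹ * a * x * a⁻¹ ∈ c ⟨n - j, by omega⟩ := by
          apply htr
          have := Subgroup.commutator_mem_commutator (inv_mem hx) haA
          simpa [commutatorElement_def] using this
        have hle : c ⟨n - j, by omega⟩ ≤ H := by
          rw [← hc0]
          exact hanti (Fin.zero_le _)
        -- apply stability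
        refine comm_of_mem_centralized (N := c ⟨n - j, by omega⟩) (m := p ^ k) hcomm ih' ?_ ?_
        · exact Nat.Coprime.coprime_dvd_left (Subgroup.card_dvd_of_le hle) hcop
        · rw [hk]; simp
    have hH0 : ∀ x ∈ H, a * x = x * a := by
      intro x hx
      have := hstep n le_rfl x
      have h0 : (⟨n - n, by omega⟩ : Fin (n + 1)) = 0 := by ext; simp
      rw [h0, hc0] at this
      exact this hx
    rw [Subgroup.mem_centralizer_iff]
    intro x hx
    exact (hH0 x hx).symm
  have hle : (S : Subgroup A) ≤ (A ⊓ Subgroup.centralizer (H : Set G)).subgroupOf A := by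
    intro a ha
    rw [Subgroup.mem_subgroupOf]
    refine ⟨a.2, key a a.2 ?_⟩
    obtain ⟨k, hk⟩ := (IsPGroup.iff_orderOf.mp S.2) ⟨a, ha⟩
    refine ⟨k, ?_⟩
    have h1 : (⟨a, ha⟩ : (S : Subgroup A)) ^ (p ^ k) = 1 := by
      rw [← hk]; exact pow_orderOf_eq_one _
    have h2 := congrArg (fun y : (S : Subgroup A) => ((y : A) : G)) h1
    simpa using h2
  have h3 : ((A ⊓ Subgroup.centralizer (H : Set G)).relIndex A) ∣ (S : Subgroup A).index :=
    Subgroup.index_dvd_of_le hle
  exact S.not_dvd_index (hdvd.trans h3)

end Cfsg.Agent.S1441
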