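import Cfsg.Statements.S1443
import Cfsg.Agent.S1442
import Cfsg.Agent.Lib.Coprime.OmegaOne
import Mathlib

set_option autoImplicit false
open Cfsg

namespace Cfsg.Agent.S1443

open Cfsg.Agent.Lib.Coprime.OmegaOne Cfsg.Agent.Lib.Coprime.Three

/-- Let G be a finite group, p an odd prime, H a p-subgroup, E an elementary abelian subgroup of H, and A a subgroup of order coprime to p normalizing H. If A centralizes every element of order p in H ∩ C_G(E), then A centralizes H. -/
theorem result {G : Type*} [Group G] [Finite G] (p : ℕ) [Fact p.Prime] (hp : p ≠ 2) (H E A : Subgroup G) (hH : IsPGroup p H) (hE : E ≤ H) (hEe : Cfsg.IsElementaryAbelian p E)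
    (hA : (A ≤ Subgroup.normalizer (H : Set G))) (hcop : (Nat.card A).Coprime p)
    (hfix : ∀ x ∈ (H ⊓ Subgroup.centralizer (E : Set G)), orderOf x = p → A ≤ Subgroup.centralizer ({x} : Set G)) :
    A ≤ Subgroup.centralizer (H : Set G) := by
  have hpp : p.Prime := Fact.out
  -- elements of `H₀` with `x ^ p = 1` are fixed
  have hfix' : ∀ x ∈ (H ⊓ Subgroup.centralizer (E : Set G)), x ^ p = 1 → ∀ a ∈ A, a * x = x * a := by
    intro x hx hxp a ha
    by_cases hx1 : x = 1
    · simp [hx1]
    · have hord : orderOf x = p := orderOf_eq_prime hxp hx1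
      have := hfix x hx hord ha
      exact ((Subgroup.mem_centralizer_iff.mp this) x rfl).symm
  -- `E` is centralized by `A`
  have hEA : ∀ e ∈ E, ∀ a ∈ A, a * e = e * a := by
    intro e he a ha
    refine hfix' e ⟨hE he, ?_⟩ (hEe.2 e he) a ha
    refine Subgroup.mem_centralizer_iff.mpr ?_
    intro f hf
    have := hEe.1
    have h2 : (⟨f, hf⟩ : E) * ⟨e, he⟩ = ⟨e, he⟩ * ⟨f, hf⟩ := mul_comm' _ _
    simpa using congrArg (fun y : E => (y : G)) h2
  -- `H₀` is centralized by `A`
  have hH0A : ∀ x ∈ (H ⊓ Subgroup.centralizer (E : Set G)), ∀ a ∈ A, a * x = x * a := by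
    intro x hx a ha
    have hnE : a ∈ Subgroup.normalizer (E : Set G) := by
      apply mem_normalizer_of_conj_mem
      intro e he
      have h1 : a * e * a⁻¹ = e := by rw [hEA e he a ha]; group
      rwa [h1]
    have hn : a ∈ Subgroup.normalizer ((H ⊓ Subgroup.centralizer (E : Set G) : Subgroup G) : Set G) :=
      inf_mem_normalizer (hA ha) (centralizer_mem_normalizer hnE)
    have hordc : (orderOf a).Coprime p :=
      Nat.Coprime.coprime_dvd_left (Subgroup.orderOf_dvd_natCard A ha) hcop
    exact comm_of_forall_pow_eq_one hp (hH.to_le inf_le_left) hn hordc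
      (fun y hy hyp => hfix' y hy hyp a ha) x hx
  -- apply S1442
  refine Cfsg.Agent.S1442.result H A hH.isNilpotent hA ?_ ?_
  · obtain ⟨k, hk⟩ := IsPGroup.iff_card.mp hH
    rw [hk]
    exact Nat.Coprime.pow_right k hcop
  · intro x hx
    have hxE : x ∈ Subgroup.centralizer (E : Set G) := by
      refine Subgroup.mem_centralizer_iff.mpr ?_
      intro e he
      have heC : e ∈ (H ⊓ Subgroup.centralizer (A : Set G)) := by
        refine ⟨hE he, ?_⟩
        refine Subgroup.mem_centralizer_iff.mpr ?_
        intro a ha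
        exact hEA e he a ha
      exact (Subgroup.mem_centralizer_iff.mp hx.2) e heC
    refine ⟨hx.1, ?_⟩
    refine Subgroup.mem_centralizer_iff.mpr ?_
    intro a ha
    exact hH0A x ⟨hx.1, hxE⟩ a ha

end Cfsg.Agent.S1443
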