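import Cfsg.Statements.S1447
import Cfsg.Agent.Lib.OddOrder.MetaAct
import Cfsg.Agent.Lib.Coprime.Coset
import Cfsg.Agent.Lib.Coprime.Averaging

set_option autoImplicit false
open Cfsg

namespace Cfsg.Agent.S1447

open Cfsg.Agent.Lib.OddOrder.MetaAct Cfsg.Agent.Lib.Coprime
open scoped commutatorElement

/-- Let G be a finite group, p an odd prime, R a metacyclic p-subgroup and A a subgroup of order coprime to p normalizing R. Then [R, A] is abelian; R is generated by [R, A] and R ∩ C_G(A), which meet trivially; and if R is non-abelian and A does not centralize R, then [R, A] and R ∩ C_G(A) are nontrivial cyclic groups and [R, R] ≤ [R, A]. -/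
theorem result {G : Type*} [Group G] [Finite G] (p : ℕ) [Fact p.Prime] (hp : p ≠ 2) (R A : Subgroup G) (hR : IsPGroup p R) (hRm : Cfsg.IsMetacyclic R)
    (hA : (A ≤ Subgroup.normalizer (R : Set G))) (hcop : (Nat.card A).Coprime p) :
    IsMulCommutative ↥⁅R, A⁆ ∧ ⁅R, A⁆ ⊔ (R ⊓ Subgroup.centralizer (A : Set G)) = R ∧ ⁅R, A⁆ ⊓ (R ⊓ Subgroup.centralizer (A : Set G)) = ⊥ ∧
      (¬ IsMulCommutative R → ¬ A ≤ Subgroup.centralizer (R : Set G) →
        ⁅R, A⁆ ≠ ⊥ ∧ IsCyclic ↥⁅R, A⁆ ∧ (R ⊓ Subgroup.centralizer (A : Set G)) ≠ ⊥ ∧ IsCyclic ↥(R ⊓ Subgroup.centralizer (A : Set G)) ∧ ⁅R, R⁆ ≤ ⁅R, A⁆) := by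
  have hodd : Odd p := (Fact.out : p.Prime).odd_of_ne_two hp
  set T : Subgroup G := ⁅R, A⁆ with hT
  set C : Subgroup G := R ⊓ Subgroup.centralizer (A : Set G) with hC
  have hTR : T ≤ R := Coset.commutator_le_left_of_le_normalizer hA
  have hCR : C ≤ R := inf_le_left
  have hcard : (Nat.card A).Coprime (Nat.card R) := by
    obtain ⟨e, he⟩ := IsPGroup.iff_card.mp hR
    rw [he]
    exact hcop.pow_right e
  have hsolv : Group.IsSolvable A ∨ Group.IsSolvable R := by
    right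
    have := hR.isNilpotent
    infer_instance
  have h2 : T ⊔ C = R := Coset.commutator_sup_centralizer hA hcard hsolv
  have hTT : ⁅T, A⁆ = T := Coset.commutator_commutator_eq hA hcard hsolv
  have hAT : A ≤ Subgroup.normalizer (T : Set G) := Coset.commutator_le_normalizer_right hA
  have hTi : Function.Injective (Subgroup.inclusion hTR) := Subgroup.inclusion_injective hTR
  have hTp : IsPGroup p T := hR.of_injective _ hTi
  have hTm : Cfsg.IsMetacyclic T := isMetacyclic_of_injective _ hTi hRm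
  have hgen : AutAction.commClosure (Averaging.conjHom A T hAT) = ⊤ := by
    have hle : ⁅T, A⁆ ≤ (AutAction.commClosure (Averaging.conjHom A T hAT)).map T.subtype := by
      rw [Subgroup.commutator_le]
      intro t ht a ha
      refine ⟨(⟨t, ht⟩ : T)⁻¹⁻¹ * Averaging.conjHom A T hAT ⟨a, ha⟩ (⟨t, ht⟩ : T)⁻¹,
        Subgroup.subset_closure ⟨_, _, rfl⟩, ?_⟩
      simp [Averaging.conjHom_coe, commutatorElement_def, mul_assoc]
    rw [hTT] at hle
    rw [eq_top_iff]
    intro x _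
    obtain ⟨y, hy, hyx⟩ := hle x.2
    have : y = x := Subtype.ext hyx
    rwa [← this]
  have hcomm := comm_of_commClosure_eq_top hodd hTp hTm (Averaging.conjHom A T hAT) hcop hgen
  have h1 : IsMulCommutative T := ⟨⟨hcomm⟩⟩
  have hcardT : (Nat.card A).Coprime (Nat.card T) := by
    obtain ⟨e, he⟩ := IsPGroup.iff_card.mp hTp
    rw [he]
    exact hcop.pow_right e
  have h3 : T ⊓ C = ⊥ := by
    have h4 := (Averaging.centralizer_inf_commutator_and_sup A T hAT hcardT).1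
    rw [hTT] at h4
    rw [eq_bot_iff]
    intro x hx
    have hx' : x ∈ (T ⊓ Subgroup.centralizer (A : Set G)) ⊓ T := ⟨⟨hx.1, hx.2.2⟩, hx.1⟩
    rw [h4] at hx'
    exact hx'
  refine ⟨h1, h2, h3, ?_⟩
  intro hnc hnA
  have hT0 : T ≠ ⊥ := by
    intro h0
    apply hnA
    have h5 := Subgroup.commutator_eq_bot_iff_le_centralizer.mp h0
    exact Subgroup.le_centralizer_iff.mp h5
  have hC0 : C ≠ ⊥ := by
    intro h0
    apply hnc
    have h5 : T = R := by rw [← h2, h0, sup_bot_eq]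
    rw [← h5]
    exact h1
  have hCp : IsPGroup p C := hR.of_injective _ (Subgroup.inclusion_injective hCR)
  have hTc : IsCyclic T := by
    by_contra hnc'
    obtain ⟨y, hy, hyp, hy1⟩ := exists_orderOf_eq C hCp hC0
    have hyT := mem_of_pow_eq_one_of_not_isCyclic hodd R T hTR hR hRm hnc' (hCR hy) hyp
    have : y ∈ T ⊓ C := ⟨hyT, hy⟩
    rw [h3] at this
    exact hy1 this
  have hCc : IsCyclic C := by
    by_contra hnc'
    obtain ⟨y, hy, hyp, hy1⟩ := exists_orderOf_eq T hTp hT0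
    have hyC := mem_of_pow_eq_one_of_not_isCyclic hodd R C hCR hR hRm hnc' (hTR hy) hyp
    have : y ∈ T ⊓ C := ⟨hy, hyC⟩
    rw [h3] at this
    exact hy1 this
  refine ⟨hT0, hTc, hC0, hCc, ?_⟩
  -- `R' ≤ T`
  have hRT : R ≤ Subgroup.normalizer (T : Set G) := Coset.commutator_le_normalizer_left hA
  let T' : Subgroup R := T.subgroupOf R
  let C' : Subgroup R := C.subgroupOf R
  haveI hT'n : T'.Normal := ⟨fun t ht g => by
    rw [Subgroup.mem_subgroupOf] at ht ⊢
    exact (Subgroup.mem_normalizer_iff.mp (hRT g.2) _).mp ht⟩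
  have hsup : T' ⊔ C' = ⊤ := by
    rw [eq_top_iff]
    rintro ⟨x, hx⟩ _
    rw [← h2] at hx
    have hle : T ⊔ C ≤ (T' ⊔ C').map R.subtype := by
      refine sup_le ?_ ?_
      · intro t ht
        exact ⟨⟨t, hTR ht⟩, Subgroup.mem_sup_left (Subgroup.mem_subgroupOf.mpr ht), rfl⟩
      · intro t ht
        exact ⟨⟨t, hCR ht⟩, Subgroup.mem_sup_right (Subgroup.mem_subgroupOf.mpr ht), rfl⟩
    obtain ⟨y, hy, hyx⟩ := hle hx
    have : y = ⟨x, by rw [← h2]; exact hx⟩ := Subtype.ext hyx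
    rw [← this]
    exact hy
  have hCcomm : ∀ c ∈ C, ∀ c' ∈ C, c * c' = c' * c := by
    intro c hc c' hc'
    let _ := IsCyclic.commGroup (α := ↥C)
    have := mul_comm (⟨c, hc⟩ : C) ⟨c', hc'⟩
    exact congrArg Subtype.val this
  rw [Subgroup.commutator_le]
  intro x hx y hy
  have hxs : (⟨x, hx⟩ : R) ∈ T' ⊔ C' := by rw [hsup]; trivial
  have hys : (⟨y, hy⟩ : R) ∈ T' ⊔ C' := by rw [hsup]; trivial
  obtain ⟨t, ht, c, hc, hxe⟩ := Subgroup.mem_sup_of_normal_left.mp hxs
  obtain ⟨t', ht', c', hc', hye⟩ := Subgroup.mem_sup_of_normal_left.mp hys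
  have hcc : c * c' = c' * c := Subtype.ext (hCcomm _ (Subgroup.mem_subgroupOf.mp hc) _
    (Subgroup.mem_subgroupOf.mp hc'))
  have hπ : ⁅(⟨x, hx⟩ : R), (⟨y, hy⟩ : R)⁆ ∈ T' := by
    rw [← QuotientGroup.eq_one_iff]
    have hx1 : (((⟨x, hx⟩ : R) : R) : R ⧸ T') = ((c : R) : R ⧸ T') := by
      rw [← hxe, QuotientGroup.mk_mul, (QuotientGroup.eq_one_iff t).mpr ht, one_mul]
    have hy1 : (((⟨y, hy⟩ : R) : R) : R ⧸ T') = ((c' : R) : R ⧸ T') := by
      rw [← hye, QuotientGroup.mk_mul, (QuotientGroup.eq_one_iff t').mpr ht', one_mul]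
    have h6 := map_commutatorElement (QuotientGroup.mk' T') (⟨x, hx⟩ : R) (⟨y, hy⟩ : R)
    simp only [QuotientGroup.mk'_apply] at h6
    rw [h6, hx1, hy1, ← QuotientGroup.mk'_apply, ← QuotientGroup.mk'_apply,
      ← map_commutatorElement, commutatorElement_eq_one_iff_mul_comm.mpr hcc, map_one]
  exact Subgroup.mem_subgroupOf.mp hπ

end Cfsg.Agent.S1447
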