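import Cfsg.Statements.S1456
import Mathlib
import Cfsg.Agent.Lib.OddOrder.BG4E
import Cfsg.Agent.Lib.OddOrder.BG4F
-- import your own Cfsg.Agent.* helpers here

set_option autoImplicit false
open Cfsg

namespace Cfsg.Agent.S1456

/-- Let G be a solvable group of odd order, p a prime, and E an elementary abelian p-subgroup of the Fitting subgroup F(G) such that F(G) ∩ C_G(E) has no elementary abelian subgroup of order q ^ 3 for any prime q. Then the derived subgroup of G is contained in F(G). -/
theorem result {G : Type*} [Group G] [Finite G] [Group.IsSolvable G] (hodd : Odd (Nat.card G)) (p : ℕ) [Fact p.Prime] (E : Subgroup G) (hE : E ≤ Cfsg.fittingSubgroup G) (hEe : Cfsg.IsElementaryAbelian p E)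
    (hr : Cfsg.RankLE 2 ↥(Cfsg.fittingSubgroup G ⊓ Subgroup.centralizer (E : Set G))) :
    commutator G ≤ Cfsg.fittingSubgroup G := by
  classical
  open Cfsg.Agent.Lib.OddOrder.BG4 Cfsg.Agent.Lib.Basic.PCore in
  have hEp : E ≤ pCore p G := by
    intro x hx
    have h1 : x ^ p = 1 := hEe.2 x hx
    have h2 : orderOf x ∣ p := orderOf_dvd_of_pow_eq_one h1
    obtain ⟨k, -, hk⟩ := (Nat.dvd_prime_pow (Fact.out : p.Prime)).1
      (show orderOf x ∣ p ^ 1 by rwa [pow_one])
    exact mem_pCore_of_normal_nilpotent inferInstance fittingSubgroup_isNilpotent (hE hx) Fact.out hk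
  open Cfsg.Agent.Lib.OddOrder.BG4 Cfsg.Agent.Lib.Basic.PCore in
  refine commutator_le_fitting_of_pow fun r _ c hc => ?_
  open Cfsg.Agent.Lib.OddOrder.BG4 Cfsg.Agent.Lib.Basic.PCore in
  by_cases hrp : r = p
  · subst hrp
    by_cases hrk : PRankLE r 2 (pCore r G)
    · exact pow_mem_centralizer_pCore hodd hrk hc
    · have hr2' : r ≠ 2 := by
        rintro rfl
        apply hrk
        intro A _ _
        have h1 : pCore 2 G = ⊥ := pCore_eq_bot_of_odd hodd
        have hc1 : Nat.card (pCore 2 G) = 1 := by rw [h1]; exact Subgroup.card_bot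
        have h2 : Nat.card A ≤ Nat.card (pCore 2 G) := Subgroup.card_le_card_group A
        omega
      set R := pCore r G with hR
      have hRp : IsPGroup r R := pCore_isPGroup r
      have hE₁ : IsElementaryAbelian r (E.subgroupOf R) := by
        rw [Cfsg.Agent.Lib.PGroup.Basic.isElementaryAbelian_iff]
        have hEc := (Cfsg.Agent.Lib.PGroup.Basic.isElementaryAbelian_iff.1 hEe)
        refine ⟨fun a ha b hb => Subtype.ext (hEc.1 _ ha _ hb), fun a ha => Subtype.ext ?_⟩
        simpa using hEc.2 _ ha
      obtain ⟨Em, hEm, hle, hmax⟩ := exists_maximal_elementary (E.subgroupOf R) hE₁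
      have hEmc := (Cfsg.Agent.Lib.PGroup.Basic.isElementaryAbelian_iff.1 hEm)
      have hmem : ∀ x : Em, ((x : R) : G) ∈ fittingSubgroup G ⊓ Subgroup.centralizer (E : Set G) := by
        intro x
        refine ⟨pCore_le_fittingSubgroup r (x : R).2, Subgroup.mem_centralizer_iff.2 ?_⟩
        intro y hy
        have hyE : (⟨y, hEp hy⟩ : R) ∈ Em := hle hy
        have := hEmc.1 _ hyE _ x.2
        exact congrArg Subtype.val this
      let f : Em →* ↥(fittingSubgroup G ⊓ Subgroup.centralizer (E : Set G)) :=
        (R.subtype.comp Em.subtype).codRestrict _ hmem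
      have hf : Function.Injective f := by
        intro x y h
        have h0 := congrArg Subtype.val h
        exact Subtype.ext (Subtype.ext h0)
      have hrk' := prankLE_of_injective' f hf (hr r Fact.out)
      have hcard : Nat.card Em ≤ r ^ 2 := by
        have := hrk' ⊤ ⟨⟨fun a b => Subtype.ext (Subtype.ext (hEmc.1 _ a.1.2 _ b.1.2))⟩⟩
          (fun a _ => Subtype.ext (hEmc.2 _ a.2))
        rwa [Subgroup.card_top] at this
      have hEm2 : Nat.card Em = r ^ 2 :=
        le_antisymm hcard (sq_le_card_of_maximal hRp hrk Em hEm hmax)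
      obtain ⟨-, h2⟩ := aut_of_maximal_elementary hr2' hRp hrk Em hEm hEm2 hmax
      let φ : G →* MulAut R := MulAut.conjNormal
      have hmem2 : φ c ∈ commutator (MulAut R) := by
        have h1 : (commutator G).map φ ≤ commutator (MulAut R) := by
          rw [commutator_def, Subgroup.map_commutator]
          exact Subgroup.commutator_mono le_top le_top
        exact h1 ⟨c, hc, rfl⟩
      obtain ⟨k, hk⟩ := h2 _ hmem2
      refine ⟨k, ?_⟩
      have h3 : φ (c ^ (r ^ k)) = 1 := by rw [map_pow, hk]
      rw [Subgroup.mem_centralizer_iff]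
      intro u hu
      have h4 := congrArg (fun f : MulAut R => ((f ⟨u, hu⟩ : R) : G)) h3
      simp only [MulAut.conjNormal_apply, φ, MulAut.one_apply] at h4
      calc u * c ^ r ^ k = (c ^ r ^ k * u * (c ^ r ^ k)⁻¹) * c ^ r ^ k := by rw [h4]
        _ = c ^ r ^ k * u := by group
  · have hle : pCore r G ≤ fittingSubgroup G ⊓ Subgroup.centralizer (E : Set G) := by
      refine le_inf (pCore_le_fittingSubgroup r) ?_
      intro x hx
      rw [Subgroup.mem_centralizer_iff]
      intro y hy
      exact (pCore_commute hrp hx (hEp hy)).symm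
    have hrk : PRankLE r 2 (pCore r G) :=
      prankLE_of_injective' (Subgroup.inclusion hle) (Subgroup.inclusion_injective _) (hr r Fact.out)
    exact pow_mem_centralizer_pCore hodd hrk hc

end Cfsg.Agent.S1456
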