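import Cfsg.Statements.S1457
import Mathlib
import Cfsg.Agent.Lib.Solvable.Stability

set_option autoImplicit false
open Cfsg

namespace Cfsg.Agent.S1457

open Subgroup Cfsg.Agent.Lib.Basic.PCore Cfsg.Agent.Lib.Solvable.PSeries
open Cfsg.Agent.Lib.Solvable.Stability

set_option linter.style.haveILetI false

/-- Let G be a solvable group of odd order, p a prime, S a Sylow p-subgroup of G and A an abelian subgroup of S normal in S. Then A ≤ O_{p',p}(G). -/
theorem result {G : Type*} [Group G] [Finite G] [Group.IsSolvable G] (hodd : Odd (Nat.card G)) (p : ℕ) [Fact p.Prime] (S : Sylow p G) (A : Subgroup G) (hA : A ≤ (S : Subgroup G)) (hAc : IsMulCommutative A)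
    (hAn : (S : Subgroup G) ≤ Subgroup.normalizer (A : Set G)) :
    A ≤ Cfsg.pPrimePCore p G := by
  classical
  by_cases hp2 : p = 2
  · -- then `S` is trivial
    intro a ha
    have h1 : orderOf a ∣ Nat.card (S : Subgroup G) := Subgroup.orderOf_dvd_natCard _ (hA ha)
    have h2 : orderOf a ∣ Nat.card G := h1.trans (Subgroup.card_subgroup_dvd_card _)
    obtain ⟨k, hk⟩ := IsPGroup.iff_card.mp S.isPGroup'
    rw [hk] at h1
    have hodd' : Odd (orderOf a) := Odd.of_dvd_nat hodd h2
    obtain ⟨j, -, hj⟩ := (Nat.dvd_prime_pow (Fact.out : p.Prime)).mp h1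
    have ha1 : orderOf a = 1 := by
      rcases j with _ | j
      · simpa using hj
      · rw [hj, hp2] at hodd'
        simp [pow_succ, Nat.odd_iff] at hodd'
    rw [orderOf_eq_one_iff.mp ha1]
    exact Subgroup.one_mem _
  set K := pPrimeCore p G with hK
  haveI hKn : K.Normal := pPrimeCore_normal p G
  set π : G →* G ⧸ K := QuotientGroup.mk' K with hπ
  have hπs : Function.Surjective π := QuotientGroup.mk'_surjective K
  have hsol : IsPSolvable p (G ⧸ K) := isPSolvable_of_solvable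
  have hq : QHyp p (Nat.card (G ⧸ K)) :=
    Or.inr ⟨hp2, Odd.of_dvd_nat hodd (Subgroup.card_quotient_dvd_card K)⟩
  have hcomm : ∀ x ∈ A, ∀ y ∈ A, x * y = y * x := by
    intro x hx y hy
    have := hAc.is_comm.comm (⟨x, hx⟩ : A) ⟨y, hy⟩
    exact congrArg Subtype.val this
  intro a ha
  show π a ∈ pCore p (G ⧸ K)
  apply mem_pCore_of_sectionQuad hq hsol (pPrimeCore_quotient p)
  apply sectionQuad_of_quadratic
  intro x hx
  -- `x` is the image of an element of `S`
  have h1 : pCore p (G ⧸ K) ≤ ((S.mapSurjective hπs : Sylow p (G ⧸ K)) : Subgroup (G ⧸ K)) :=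
    pCore_le_sylow _
  rw [Sylow.coe_mapSurjective] at h1
  obtain ⟨s, hs, rfl⟩ := h1 hx
  have h2 : s * a⁻¹ * s⁻¹ ∈ A := (mem_normalizer_iff.mp (hAn hs) a⁻¹).mp (A.inv_mem ha)
  have h3 := hcomm a ha (a * (s * a⁻¹ * s⁻¹)) (A.mul_mem ha h2)
  have h4 : π a * π s * (π a)⁻¹ * (π s)⁻¹ = π (a * (s * a⁻¹ * s⁻¹)) := by
    simp only [map_mul, map_inv]; group
  rw [h4, ← map_inv, ← map_mul, ← map_mul, h3, mul_inv_cancel_right]


end Cfsg.Agent.S1457
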