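import Cfsg.Statements.S1458
import Cfsg.Agent.Lib.PGroup.GenControlZC
-- import your own Cfsg.Agent.* helpers here

set_option autoImplicit false
open Cfsg

namespace Cfsg.Agent.S1458

/-- Let G be a solvable group of odd order, p a prime and S a Sylow p-subgroup of G. Then the subgroup generated by the centre of the Thompson subgroup of S and O_{p'}(G) is normal in G. -/
theorem result {G : Type*} [Group G] [Finite G] [Group.IsSolvable G] (hodd : Odd (Nat.card G)) (p : ℕ) [Fact p.Prime] (S : Sylow p G) :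
    (Cfsg.centerThompsonOf p (S : Subgroup G) ⊔ Cfsg.pPrimeCore p G).Normal := by
  classical
  by_cases hp2 : p = 2
  · subst hp2
    have hc : Nat.Coprime (Nat.card (⊤ : Subgroup G)) 2 := by
      rw [Subgroup.card_top]
      exact (Nat.coprime_two_right).mpr hodd
    have hO : Cfsg.pPrimeCore 2 G = ⊤ := le_antisymm le_top
      (le_sSup (show (⊤ : Subgroup G) ∈ {N : Subgroup G | N.Normal ∧ (Nat.card N).Coprime 2} from
        ⟨inferInstance, hc⟩))
    rw [hO, sup_top_eq]
    infer_instance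
  have hfree := Cfsg.Agent.Lib.PGroup.GenControlZC.not_sec_of_odd (p := p) hp2 hodd
  set O := Cfsg.pPrimeCore p G with hOdef
  haveI hOn : O.Normal := inferInstance
  set φ := QuotientGroup.mk' O with hφ
  have hφs : Function.Surjective φ := QuotientGroup.mk'_surjective _
  let S' : Sylow p (G ⧸ O) := S.mapSurjective hφs
  have hS' : (S' : Subgroup _) = (S : Subgroup G).map φ := rfl
  have hinj := Cfsg.Agent.Lib.PGroup.ZJCore.hinj_core (S.isPGroup')
  have hZm := Cfsg.Agent.Lib.PGroup.GTFunctor.ZC_map_hom (k := p) φ hinj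
  have hcore : Cfsg.pPrimeCore p (G ⧸ O) = ⊥ := Cfsg.Agent.Lib.Solvable.PSeries.pPrimeCore_quotient p
  have hsol : Cfsg.IsPSolvable p (G ⧸ O) := Cfsg.Agent.Lib.Solvable.PSeries.isPSolvable_of_solvable
  have hc := Cfsg.Agent.Lib.Solvable.PSeries.centralizer_pCore_le hsol hcore
  have hn := Cfsg.Agent.Lib.PGroup.GenControlZC.zc_normal hp2 _ (G ⧸ O) rfl
    (fun h => hfree (Cfsg.Agent.Lib.PGroup.QdSplit.Sec.of_surj hφs h)) S' hc
  have h1 : Cfsg.centerThompsonOf p (S : Subgroup G) = Cfsg.Agent.Lib.PGroup.GTFunctor.ZC p (S : Subgroup G) := by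
    unfold Cfsg.centerThompsonOf Cfsg.Agent.Lib.PGroup.GTFunctor.ZC
    rw [Cfsg.Agent.Lib.PGroup.ZJ.thompsonSubgroupOf_eq]
  rw [h1]
  rw [hS', ← hZm] at hn
  have h2 : ((Cfsg.Agent.Lib.PGroup.GTFunctor.ZC p (S : Subgroup G)).map φ).comap φ =
      Cfsg.Agent.Lib.PGroup.GTFunctor.ZC p (S : Subgroup G) ⊔ O := by
    rw [Subgroup.comap_map_eq, hφ, QuotientGroup.ker_mk']
  rw [← h2]
  exact hn.comap φ

end Cfsg.Agent.S1458
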