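import Cfsg.Statements.S1460
import Cfsg.Agent.Lib.Coprime.Coset
import Cfsg.Agent.Lib.Coprime.Three
import Mathlib

set_option autoImplicit false
open Cfsg

namespace Cfsg.Agent.S1460

open Cfsg.Agent.Lib.Coprime.Three
open scoped commutatorElement

/-- Let G be a finite solvable group, K a normal subgroup and U a subgroup with G = KU, and H ≤ U a subgroup whose order is coprime to that of K. Then H ∩ G' = H ∩ U'; N_G(H) is generated by K ∩ C_G(H) and U ∩ N_G(H); and if gHg⁻¹ ≤ U for some g ∈ G then g = u c with u ∈ U and c ∈ K ∩ C_G(H). -/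
theorem result {G : Type*} [Group G] [Finite G] [Group.IsSolvable G] (K U H : Subgroup G) [K.Normal] (hKU : K ⊔ U = ⊤) (hH : H ≤ U) (hcop : (Nat.card H).Coprime (Nat.card K)) :
    H ⊓ commutator G = H ⊓ ⁅U, U⁆ ∧
      Subgroup.normalizer (H : Set G) = (K ⊓ Subgroup.centralizer (H : Set G)) ⊔ (U ⊓ Subgroup.normalizer (H : Set G)) ∧
      ∀ g : G, H.map (MulAut.conj g).toMonoidHom ≤ U → ∃ u ∈ U, ∃ c ∈ K ⊓ Subgroup.centralizer (H : Set G), g = u * c := by
  classical
  have hinf : H ⊓ K = ⊥ := Cfsg.Agent.Lib.Coprime.Coset.inf_eq_bot_of_coprime hcop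
  -- the third statement
  have part3 : ∀ g : G, H.map (MulAut.conj g).toMonoidHom ≤ U →
      ∃ u ∈ U, ∃ c ∈ K ⊓ Subgroup.centralizer (H : Set G), g = u * c := by
    intro g hg
    have hginv : g⁻¹ ∈ K ⊔ U := by rw [hKU]; trivial
    obtain ⟨k₀, hk₀, u₀, hu₀, hgeq⟩ := Subgroup.mem_sup_of_normal_left.mp hginv
    -- `g = u k`
    set u := u₀⁻¹ with hu
    set k := k₀⁻¹ with hk
    have huU : u ∈ U := U.inv_mem hu₀
    have hkK : k ∈ K := K.inv_mem hk₀
    have hguk : g = u * k := by
      rw [hu, hk, ← mul_inv_rev, hgeq, inv_inv]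
    -- `k H k⁻¹` lies in `U`
    have hconjU : ∀ h ∈ H, k * h * k⁻¹ ∈ U := by
      intro h hh
      have h1 : g * h * g⁻¹ ∈ U := hg ⟨h, hh, rfl⟩
      have h2 : k * h * k⁻¹ = u⁻¹ * (g * h * g⁻¹) * u := by
        rw [hguk]; group
      rw [h2]
      exact U.mul_mem (U.mul_mem (U.inv_mem huU) h1) huU
    -- the normal subgroup `U ∩ K`
    set N : Subgroup G := K ⊓ U with hN
    have hHN : H ≤ Subgroup.normalizer (N : Set G) := by
      intro h hh
      refine inf_mem_normalizer ?_ (Subgroup.le_normalizer (hH hh))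
      exact mem_normalizer_of_conj_mem fun e he => (inferInstance : K.Normal).conj_mem e he h
    have hcopN : (Nat.card H).Coprime (Nat.card N) :=
      Nat.Coprime.coprime_dvd_right (Subgroup.card_dvd_of_le inf_le_left) hcop
    obtain ⟨n, hnN, hconj⟩ := Cfsg.Agent.Lib.Coprime.Coset.exists_conj_eq_of_card_eq
      (A := H) (N := N) (A' := H.map (MulAut.conj k).toMonoidHom) hHN hcopN
      (Or.inl inferInstance)
      (by
        rintro _ ⟨h, hh, rfl⟩
        show k * h * k⁻¹ ∈ N ⊔ H
        have h1 : k * h * k⁻¹ = (k * h * k⁻¹ * h⁻¹) * h := by group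
        rw [h1]
        refine Subgroup.mul_mem _ ((le_sup_left : N ≤ N ⊔ H) ⟨?_, ?_⟩) ((le_sup_right : H ≤ N ⊔ H) hh)
        · have h2 := (inferInstance : K.Normal).conj_mem k⁻¹ (K.inv_mem hkK) h
          have h3 : k * h * k⁻¹ * h⁻¹ = k * (h * k⁻¹ * h⁻¹) := by group
          rw [h3]
          exact K.mul_mem hkK h2
        · exact U.mul_mem (hconjU h hh) (U.inv_mem (hH hh)))
      (Subgroup.card_map_of_injective (MulAut.conj k).injective)
    have hcK : n⁻¹ * k ∈ K := K.mul_mem (K.inv_mem hnN.1) hkK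
    have hcN : ∀ h ∈ H, (n⁻¹ * k) * h * (n⁻¹ * k)⁻¹ ∈ H := by
      intro h hh
      have h1 : k * h * k⁻¹ ∈ H.map (MulAut.conj n).toMonoidHom := by
        rw [hconj]; exact ⟨h, hh, rfl⟩
      obtain ⟨h', hh', hh'eq⟩ := h1
      have h2 : n * h' * n⁻¹ = k * h * k⁻¹ := hh'eq
      have h3 : (n⁻¹ * k) * h * (n⁻¹ * k)⁻¹ = n⁻¹ * (k * h * k⁻¹) * n := by group
      rw [h3, ← h2]
      have h4 : n⁻¹ * (n * h' * n⁻¹) * n = h' := by group
      rw [h4]
      exact hh'
    have hcC : n⁻¹ * k ∈ Subgroup.centralizer (H : Set G) := by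
      refine Subgroup.mem_centralizer_iff.mpr ?_
      intro h hh
      have h1 := hcN h hh
      have h2 : (n⁻¹ * k) * h * (n⁻¹ * k)⁻¹ * h⁻¹ ∈ H ⊓ K := by
        refine ⟨H.mul_mem h1 (H.inv_mem hh), ?_⟩
        have h3 : (n⁻¹ * k) * h * (n⁻¹ * k)⁻¹ * h⁻¹ = (n⁻¹ * k) * (h * (n⁻¹ * k)⁻¹ * h⁻¹) := by group
        rw [h3]
        exact K.mul_mem hcK ((inferInstance : K.Normal).conj_mem _ (K.inv_mem hcK) h)
      rw [hinf, Subgroup.mem_bot, mul_inv_eq_one, mul_inv_eq_iff_eq_mul] at h2
      exact h2.symm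
    refine ⟨u * n, U.mul_mem huU hnN.2, n⁻¹ * k, ⟨hcK, hcC⟩, ?_⟩
    rw [hguk]; group
  refine ⟨?_, ?_, part3⟩
  · -- the first statement
    apply le_antisymm
    · rintro x ⟨hxH, hxG⟩
      refine ⟨hxH, ?_⟩
      let π := QuotientGroup.mk' K
      have hmap : (commutator G).map π = (⁅U, U⁆ : Subgroup G).map π := by
        have htop : (⊤ : Subgroup G).map π = U.map π := by
          rw [← hKU, Subgroup.map_sup]
          have : K.map π = ⊥ := by
            rw [Subgroup.map_eq_bot_iff, QuotientGroup.ker_mk']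
          rw [this, bot_sup_eq]
        rw [commutator_def, Subgroup.map_commutator, Subgroup.map_commutator, htop]
      have h1 : π x ∈ (⁅U, U⁆ : Subgroup G).map π := by
        rw [← hmap]; exact ⟨x, hxG, rfl⟩
      obtain ⟨u', hu', hu'x⟩ := h1
      have hu'U : u' ∈ U := (Subgroup.commutator_le_self U) hu'
      have hw : u'⁻¹ * x ∈ K := QuotientGroup.eq.mp hu'x
      have hxU : x ∈ U := hH hxH
      have hwU : u'⁻¹ * x ∈ U := U.mul_mem (U.inv_mem hu'U) hxU
      have hu'c : (⟨u', hu'U⟩ : U) ∈ commutator U := by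
        rw [← Subgroup.map_subtype_commutator] at hu'
        obtain ⟨y, hy, hyx⟩ := hu'
        have : y = ⟨u', hu'U⟩ := Subtype.ext hyx
        rwa [← this]
      have hof : Abelianization.of (⟨x, hxU⟩ : U) = Abelianization.of (⟨u'⁻¹ * x, hwU⟩ : U) := by
        have h2 : (⟨x, hxU⟩ : U) = ⟨u', hu'U⟩ * ⟨u'⁻¹ * x, hwU⟩ := by
          apply Subtype.ext
          simp
        rw [h2, map_mul]
        have h3 : Abelianization.of (⟨u', hu'U⟩ : U) = 1 := by
          have : (⟨u', hu'U⟩ : U) ∈ (Abelianization.of (G := U)).ker := by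
            rw [Abelianization.ker_of]; exact hu'c
          exact this
        rw [h3, one_mul]
      have hd1 : orderOf (Abelianization.of (⟨x, hxU⟩ : U)) ∣ Nat.card H := by
        refine (orderOf_map_dvd _ _).trans ?_
        rw [Subgroup.orderOf_mk]
        exact Subgroup.orderOf_dvd_natCard H hxH
      have hd2 : orderOf (Abelianization.of (⟨x, hxU⟩ : U)) ∣ Nat.card K := by
        rw [hof]
        refine (orderOf_map_dvd _ _).trans ?_
        rw [Subgroup.orderOf_mk]
        exact Subgroup.orderOf_dvd_natCard K hw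
      have hd3 : orderOf (Abelianization.of (⟨x, hxU⟩ : U)) = 1 := by
        have := Nat.dvd_gcd hd1 hd2
        rw [hcop] at this
        exact Nat.dvd_one.mp this
      have h4 : Abelianization.of (⟨x, hxU⟩ : U) = 1 := orderOf_eq_one_iff.mp hd3
      have hker : (⟨x, hxU⟩ : U) ∈ (Abelianization.of (G := U)).ker := h4
      rw [Abelianization.ker_of] at hker
      rw [← Subgroup.map_subtype_commutator]
      exact ⟨_, hker, rfl⟩
    · refine inf_le_inf_left _ ?_
      rw [commutator_def]
      exact Subgroup.commutator_mono le_top le_top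
  · -- the second statement
    apply le_antisymm
    · intro g hg
      have h1 : H.map (MulAut.conj g).toMonoidHom ≤ U := by
        rintro _ ⟨h, hh, rfl⟩
        exact hH (conj_mem_of_mem_normalizer hg hh)
      obtain ⟨u, hu, c, hc, rfl⟩ := part3 g h1
      have hcN : c ∈ Subgroup.normalizer (H : Set G) := by
        apply mem_normalizer_of_conj_mem
        intro h hh
        have h2 := (Subgroup.mem_centralizer_iff.mp hc.2) h hh
        rw [← h2]
        have : h * c * c⁻¹ = h := by group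
        rw [this]
        exact hh
      have huN : u ∈ Subgroup.normalizer (H : Set G) := by
        have := Subgroup.mul_mem _ hg (Subgroup.inv_mem _ hcN)
        simpa using this
      exact Subgroup.mul_mem _ ((le_sup_right : U ⊓ _ ≤ _) ⟨hu, huN⟩) ((le_sup_left : K ⊓ _ ≤ _) hc)
    · refine sup_le ?_ inf_le_right
      rintro c ⟨-, hc⟩
      apply mem_normalizer_of_conj_mem
      intro h hh
      have h2 := (Subgroup.mem_centralizer_iff.mp hc) h hh
      rw [← h2]
      have : h * c * c⁻¹ = h := by group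
      rw [this]
      exact hh

end Cfsg.Agent.S1460
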