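import Cfsg.Statements.S1462
import Mathlib
import Cfsg.Agent.Lib.Solvable.AxB
import Cfsg.Agent.Lib.Solvable.PSeries
import Cfsg.Agent.Lib.Coprime.OmegaOne
-- import your own Cfsg.Agent.* helpers here

set_option autoImplicit false
set_option linter.style.haveILetI false
open Cfsg

namespace Cfsg.Agent.S1462

open Subgroup Cfsg.Agent.Lib.Basic.PCore Cfsg.Agent.Lib.Solvable.PSeries
open Cfsg.Agent.Lib.Coprime.Three
open scoped commutatorElement

variable {H : Type*} [Group H] [Finite H] {p : ℕ} [Fact p.Prime]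

theorem eq_one_of_mem_coprime {A B : Subgroup H} (h : (Nat.card A).Coprime (Nat.card B)) {x : H}
    (hA : x ∈ A) (hB : x ∈ B) : x = 1 := by
  have h1 : orderOf x ∣ Nat.card A := Subgroup.orderOf_dvd_natCard A hA
  have h2 : orderOf x ∣ Nat.card B := Subgroup.orderOf_dvd_natCard B hB
  have h3 : orderOf x = 1 := Nat.Coprime.eq_one_of_dvd (Nat.Coprime.coprime_dvd_left h1 h) h2
  exact orderOf_eq_one_iff.mp h3

theorem coprime_pgroup {A B : Subgroup H} (hA : (Nat.card A).Coprime p) (hB : IsPGroup p B) :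
    (Nat.card A).Coprime (Nat.card B) := by
  obtain ⟨k, hk⟩ := IsPGroup.iff_card.mp hB
  rw [hk]
  exact Nat.Coprime.pow_right k hA

/-- The core of the argument, in a group with trivial `p'`-core. -/
theorem eq_bot_of_core {Lb Eb : Subgroup H} (hp2 : p ≠ 2) (hsol : IsPSolvable p H)
    (h0 : pPrimeCore p H = ⊥) (hLb : (Nat.card Lb).Coprime p) (hEb : Eb ≤ pCore p H)
    (hc : Lb ≤ centralizer (Eb : Set H))
    (hx : ∀ x ∈ pCore p H, x ∈ centralizer (Eb : Set H) → x ^ p = 1 → x ∈ Eb) : Lb = ⊥ := by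
  have hP : IsPGroup p (pCore p H) := pCore_isPGroup p
  have hnorm : (pCore p H).Normal := pCore_normal p H
  have hN : ∀ T : Subgroup H, T ≤ normalizer ((pCore p H : Subgroup H) : Set H) := by
    intro T z _
    rw [normalizer_eq_top_iff.mpr hnorm]
    trivial
  have hcen : pCore p H ⊓ centralizer (Eb : Set H) ≤ centralizer (Lb : Set H) := by
    intro x hx'
    rw [mem_centralizer_iff]
    intro a ha
    have hKp : IsPGroup p ↥(pCore p H ⊓ centralizer (Eb : Set H)) := hP.to_le inf_le_left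
    have hanorm : a ∈ normalizer ((pCore p H ⊓ centralizer (Eb : Set H) : Subgroup H) : Set H) := by
      apply inf_mem_normalizer (hN Lb ha)
      apply centralizer_mem_normalizer
      apply mem_normalizer_of_conj_mem
      intro v hv
      have := mem_centralizer_iff.mp (hc ha) v hv
      rw [← this, mul_inv_cancel_right]
      exact hv
    have hao : (orderOf a).Coprime p :=
      Nat.Coprime.coprime_dvd_left (Subgroup.orderOf_dvd_natCard Lb ha) hLb
    refine Cfsg.Agent.Lib.Coprime.OmegaOne.comm_of_forall_pow_eq_one hp2 hKp hanorm hao ?_ x hx'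
    intro y hy hyp
    have hyE := hx y hy.1 hy.2 hyp
    exact (mem_centralizer_iff.mp (hc ha) y hyE).symm
  have hab := Cfsg.Agent.Lib.Solvable.AxB.ab_lemma hP (hP.to_le hEb) hLb hc (hN Lb) (hN Eb) hcen
  have hLP : Lb ≤ pCore p H := by
    refine le_trans ?_ (centralizer_pCore_le hsol h0)
    intro a ha
    rw [mem_centralizer_iff]
    intro y hy
    exact (mem_centralizer_iff.mp (hab hy) a ha).symm
  rw [eq_bot_iff]
  intro x hx'
  rw [mem_bot]
  exact eq_one_of_mem_coprime (coprime_pgroup hLb hP) hx' (hLP hx')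

/-- Elements of order `p` centralising the image of `E` lie in that image. -/
theorem mem_map_of_max {G : Type*} [Group G] [Finite G] (E : Subgroup G)
    (hE : IsElementaryAbelian p E)
    (hEmax : ∀ B : Subgroup G, IsElementaryAbelian p B → E ≤ B → B = E)
    (K : Subgroup G) [K.Normal] (hK : (Nat.card K).Coprime p)
    {x : G ⧸ K} (hxc : x ∈ centralizer ((E.map (QuotientGroup.mk' K) : Subgroup _) : Set (G ⧸ K)))
    (hxp : x ^ p = 1) : x ∈ E.map (QuotientGroup.mk' K) := by
  classical
  set π : G →* G ⧸ K := QuotientGroup.mk' K with hπ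
  have hπs : Function.Surjective π := QuotientGroup.mk'_surjective K
  set Eb : Subgroup (G ⧸ K) := E.map π with hEb
  have hcomm : ∀ a ∈ E, ∀ b ∈ E, a * b = b * a := by
    intro a ha b hb
    have := hE.1.is_comm.comm (⟨a, ha⟩ : E) ⟨b, hb⟩
    exact congrArg Subtype.val this
  have hEbcomm : ∀ a ∈ Eb, ∀ b ∈ Eb, a * b = b * a := by
    rintro _ ⟨a, ha, rfl⟩ _ ⟨b, hb, rfl⟩
    rw [← map_mul, ← map_mul, hcomm a ha b hb]
  set T : Subgroup (G ⧸ K) := Eb ⊔ zpowers x with hT
  -- `T` is commutative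
  have hgen : ∀ a ∈ (Eb : Set (G ⧸ K)) ∪ {x}, ∀ b ∈ (Eb : Set (G ⧸ K)) ∪ {x}, a * b = b * a := by
    rintro a (ha | rfl) b (hb | rfl)
    · exact hEbcomm a ha b hb
    · exact (mem_centralizer_iff.mp hxc a ha)
    · exact (mem_centralizer_iff.mp hxc b hb).symm
    · rfl
  have hTeq : T = closure ((Eb : Set (G ⧸ K)) ∪ {x}) := by
    rw [hT, zpowers_eq_closure, Subgroup.closure_union, closure_eq]
  have hTcomm : ∀ a ∈ T, ∀ b ∈ T, a * b = b * a := by
    rw [hTeq]
    intro a ha b hb
    exact (Subgroup.closure_induction₂ (p := fun a b _ _ => a * b = b * a)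
      (fun a b ha hb => hgen a ha b hb) (by simp) (by simp)
      (fun x y z _ _ _ h1 h2 => by
        show x * y * z = z * (x * y)
        rw [mul_assoc, h2, ← mul_assoc, h1, mul_assoc])
      (fun y z x _ _ _ h1 h2 => by
        show x * (y * z) = y * z * x
        rw [← mul_assoc, h1, mul_assoc, h2, mul_assoc])
      (fun x y _ _ h => by
        show x⁻¹ * y = y * x⁻¹
        rw [eq_mul_inv_iff_mul_eq, mul_assoc, ← h, inv_mul_cancel_left])
      (fun x y _ _ h => by
        show x * y⁻¹ = y⁻¹ * x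
        rw [mul_inv_eq_iff_eq_mul, mul_assoc, h, inv_mul_cancel_left]) ha hb)
  have hTexp : ∀ t ∈ T, t ^ p = 1 := by
    rw [hTeq]
    intro t ht
    induction ht using Subgroup.closure_induction with
    | mem t ht =>
      rcases ht with ⟨e, he, rfl⟩ | rfl
      · rw [← map_pow, hE.2 e he, map_one]
      · exact hxp
    | one => exact one_pow p
    | mul a b ha hb h1 h2 =>
      have hc : Commute a b := by
        rw [← hTeq] at ha hb
        exact hTcomm a ha b hb
      rw [hc.mul_pow, h1, h2, one_mul]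
    | inv a _ h1 => rw [inv_pow, h1, inv_one]
  have hTp : IsPGroup p T := by
    intro t
    refine ⟨1, ?_⟩
    rw [pow_one]
    exact Subtype.ext (by simpa using hTexp t t.2)
  have hEpg : IsPGroup p E := by
    intro t
    refine ⟨1, ?_⟩
    rw [pow_one]
    exact Subtype.ext (by simpa using hE.2 t t.2)
  -- the preimage of `T`
  set Q : Subgroup G := T.comap π with hQ
  have hEQ : E ≤ Q := fun e he => (le_sup_left : Eb ≤ T) ⟨e, he, rfl⟩
  have hE' : IsPGroup p (E.subgroupOf Q) := hEpg.comap_of_injective _ (subtype_injective Q)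
  obtain ⟨S, hS⟩ := hE'.exists_le_sylow
  have hφ : Function.Surjective (π.subgroupComap T) :=
    π.subgroupComap_surjective_of_surjective T hπs
  have htop : ((S.mapSurjective hφ : Sylow p T) : Subgroup T) = ⊤ :=
    ((S.mapSurjective hφ).is_maximal' (Q := ⊤) (hTp.to_subgroup ⊤) le_top).symm
  have hxT : x ∈ T := (le_sup_right : zpowers x ≤ T) (mem_zpowers x)
  have hxm : (⟨x, hxT⟩ : T) ∈ ((S.mapSurjective hφ : Sylow p T) : Subgroup T) := by
    rw [htop]; trivial
  rw [Sylow.coe_mapSurjective] at hxm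
  obtain ⟨s, hs, hsx⟩ := hxm
  have hsx' : π (s : G) = x := congrArg Subtype.val hsx
  -- the subgroup `S'`
  set S' : Subgroup G := (S : Subgroup Q).map Q.subtype with hS'
  have hS'p : IsPGroup p S' := S.isPGroup'.map Q.subtype
  have hS'Q : S' ≤ Q := by
    rintro _ ⟨y, -, rfl⟩
    exact y.2
  have hcop : (Nat.card K).Coprime (Nat.card S') := coprime_pgroup hK hS'p
  have hker : ∀ y ∈ S', π y = 1 → y = 1 := by
    intro y hy hy1
    have : y ∈ K := (QuotientGroup.eq_one_iff y).mp hy1
    exact eq_one_of_mem_coprime hcop this hy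
  have hES' : E ≤ S' := by
    intro e he
    exact ⟨⟨e, hEQ he⟩, hS he, rfl⟩
  have hS'el : IsElementaryAbelian p S' := by
    constructor
    · refine ⟨⟨fun a b => ?_⟩⟩
      apply Subtype.ext
      have h1 : (a : G) * b * ((b : G) * a)⁻¹ = 1 := by
        apply hker _ (S'.mul_mem (S'.mul_mem a.2 b.2) (S'.inv_mem (S'.mul_mem b.2 a.2)))
        rw [map_mul, map_inv, map_mul, map_mul,
          hTcomm (π a) (hS'Q a.2) (π b) (hS'Q b.2), mul_inv_cancel]
      exact mul_inv_eq_one.mp h1
    · intro a ha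
      apply hker _ (S'.pow_mem ha p)
      rw [map_pow]
      exact hTexp _ (hS'Q ha)
  have hEq := hEmax S' hS'el hES'
  have hsE : (s : G) ∈ S' := ⟨s, hs, rfl⟩
  rw [hEq] at hsE
  exact ⟨s, hsE, hsx'⟩

/-- A `p`-subgroup lies in every normal subgroup of index prime to `p`. -/
theorem pgroup_le_of_index_coprime {N T : Subgroup H} [N.Normal] (hN : N.index.Coprime p)
    (hT : IsPGroup p T) : T ≤ N := by
  intro t ht
  obtain ⟨k, hk⟩ := hT ⟨t, ht⟩
  have hk' : t ^ p ^ k = 1 := congrArg Subtype.val hk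
  rw [← QuotientGroup.eq_one_iff]
  have h1 : ((t : H ⧸ N)) ^ p ^ k = 1 := by
    rw [← QuotientGroup.mk_pow, hk', QuotientGroup.mk_one]
  have h2 : orderOf (t : H ⧸ N) ∣ N.index := by
    rw [Subgroup.index]
    exact orderOf_dvd_natCard _
  have h3 := orderOf_dvd_of_pow_eq_one h1
  exact orderOf_eq_one_iff.mp (Nat.Coprime.eq_one_of_dvd
    (Nat.Coprime.coprime_dvd_left h2 (Nat.Coprime.pow_right k hN)) h3)

/-- Let G be a finite solvable group, p an odd prime with G = O_{p',p,p'}(G), E an elementary abelian p-subgroup contained in no larger elementary abelian p-subgroup of G, and L a subgroup of order coprime to p normalized by E. Then L ≤ O_{p'}(G). -/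
theorem result {G : Type*} [Group G] [Finite G] [Group.IsSolvable G] (p : ℕ) [Fact p.Prime] (hp : p ≠ 2) (hpl : Cfsg.PLengthLE p 1 G) (E L : Subgroup G) (hE : Cfsg.IsElementaryAbelian p E)
    (hEmax : ∀ B : Subgroup G, Cfsg.IsElementaryAbelian p B → E ≤ B → B = E) (hL : (Nat.card L).Coprime p) (hEL : E ≤ Subgroup.normalizer (L : Set G)) :
    L ≤ Cfsg.pPrimeCore p G := by
  classical
  set K := pPrimeCore p G with hK
  haveI hKn : K.Normal := pPrimeCore_normal p G
  set π : G →* G ⧸ K := QuotientGroup.mk' K with hπ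
  have hπs : Function.Surjective π := QuotientGroup.mk'_surjective K
  set R := pPrimePCore p G with hR
  haveI hRn : R.Normal := by rw [hR, pPrimePCore]; infer_instance
  have hEpg : IsPGroup p E := by
    intro t
    refine ⟨1, ?_⟩
    rw [pow_one]
    exact Subtype.ext (by simpa using hE.2 t t.2)
  have hidx : R.index.Coprime p := by
    have h := relIndex_upper (p := p) (G := G) 2
    have heven : Even 2 := by decide
    have h3 : (upperPSeries p G 3).1 = ⊤ := hpl
    rw [upper_two, show 2 + 1 = 3 from rfl, h3, relIndex_top_right] at h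
    simpa [GoodIdx, heven] using h
  have hER : E ≤ R := pgroup_le_of_index_coprime hidx hEpg
  have hsol : IsPSolvable p (G ⧸ K) := isPSolvable_of_solvable
  have hLb : (Nat.card (L.map π)).Coprime p :=
    Nat.Coprime.coprime_dvd_left (Subgroup.card_map_dvd L π) hL
  have hEb : E.map π ≤ pCore p (G ⧸ K) := by
    rw [map_le_iff_le_comap]
    exact hER
  have hc : L.map π ≤ centralizer ((E.map π : Subgroup (G ⧸ K)) : Set (G ⧸ K)) := by
    rintro _ ⟨l, hl, rfl⟩
    rw [mem_centralizer_iff]
    rintro _ ⟨e, he, rfl⟩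
    -- the commutator lies in `L ⊓ R`
    have h1 : e * l * e⁻¹ * l⁻¹ ∈ L :=
      L.mul_mem ((mem_normalizer_iff.mp (hEL he) l).mp hl) (L.inv_mem hl)
    have h2 : e * (l * e⁻¹ * l⁻¹) ∈ R :=
      R.mul_mem (hER he) (hRn.conj_mem _ (R.inv_mem (hER he)) l)
    have h3 : e * l * e⁻¹ * l⁻¹ ∈ R := by
      convert h2 using 1; group
    have h4 : π (e * l * e⁻¹ * l⁻¹) = 1 :=
      eq_one_of_mem_coprime (coprime_pgroup hLb (pCore_isPGroup p (G := G ⧸ K)))
        (⟨_, h1, rfl⟩ : π (e * l * e⁻¹ * l⁻¹) ∈ L.map π) h3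
    rw [map_mul, map_mul, map_mul, map_inv, map_inv] at h4
    have h5 := mul_inv_eq_one.mp h4
    have h6 := mul_inv_eq_iff_eq_mul.mp h5
    exact h6
  have hbot : L.map π = ⊥ := eq_bot_of_core hp hsol (pPrimeCore_quotient p) hLb hEb hc
    (fun x _ hxc hxp => mem_map_of_max E hE hEmax K (pPrimeCore_coprime p) hxc hxp)
  intro l hl
  have : π l ∈ L.map π := ⟨l, hl, rfl⟩
  rw [hbot, mem_bot] at this
  exact (QuotientGroup.eq_one_iff l).mp this

end Cfsg.Agent.S1462
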