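import Cfsg.Statements.S1463
import Cfsg.Agent.Lib.PSL2.DOdd
-- import your own Cfsg.Agent.* helpers here

set_option autoImplicit false
open Cfsg
open scoped MatrixGroups

namespace Cfsg.Agent.S1463

open Matrix Cfsg.Agent.Lib.PSL2.Basic Cfsg.Agent.Lib.PSL2.DOdd

variable {F : Type*} [Field F]

/-- Two vectors with vanishing cross product, the first nonzero. -/
lemma mem_span_of_cross {v w : Fin 2 → F} (hv : v ≠ 0) (h : v 0 * w 1 - v 1 * w 0 = 0) :
    w ∈ Submodule.span F {v} := by
  rw [Submodule.mem_span_singleton]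
  by_cases h0 : v 0 = 0
  · have h1 : v 1 ≠ 0 := by
      intro h1
      apply hv
      ext i
      fin_cases i
      · exact h0
      · exact h1
    rw [h0] at h
    have h2 : w 0 = 0 := by
      have : v 1 * w 0 = 0 := by linear_combination -h
      exact (mul_eq_zero.1 this).resolve_left h1
    refine ⟨w 1 / v 1, ?_⟩
    ext i
    fin_cases i
    · simp [h0, h2]
    · simp [h1]
  · refine ⟨w 0 / v 0, ?_⟩
    ext i
    fin_cases i
    · simp [h0]
    · simp only [Pi.smul_apply, smul_eq_mul, Fin.mk_one, Fin.isValue]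
      field_simp
      linear_combination -h

/-- The fixed space of a non-trivial trace two element is spanned by any nonzero fixed vector. -/
lemma mem_span_of_fixed {A : SL(2, F)} (hA : A ≠ 1) (htr : tr A = 2) {v w : Fin 2 → F} (hv : v ≠ 0)
    (hAv : A.1.mulVec v = v) (hAw : A.1.mulVec w = w) : w ∈ Submodule.span F {v} := by
  apply mem_span_of_cross hv
  rw [tr_def] at htr
  have hdet := det_entries A
  have e0 : A.1 0 0 * v 0 + A.1 0 1 * v 1 = v 0 := by
    have := congrFun hAv 0
    simpa [Matrix.mulVec, dotProduct, Fin.sum_univ_two] using this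
  have e1 : A.1 1 0 * v 0 + A.1 1 1 * v 1 = v 1 := by
    have := congrFun hAv 1
    simpa [Matrix.mulVec, dotProduct, Fin.sum_univ_two] using this
  have f0 : A.1 0 0 * w 0 + A.1 0 1 * w 1 = w 0 := by
    have := congrFun hAw 0
    simpa [Matrix.mulVec, dotProduct, Fin.sum_univ_two] using this
  have f1 : A.1 1 0 * w 0 + A.1 1 1 * w 1 = w 1 := by
    have := congrFun hAw 1
    simpa [Matrix.mulVec, dotProduct, Fin.sum_univ_two] using this
  by_contra hcross
  apply hA
  -- the two vectors form a basis, hence `A = 1`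
  set D := v 0 * w 1 - v 1 * w 0 with hD
  have h00 : (A.1 0 0 - 1) * D = 0 := by
    rw [hD]
    linear_combination (w 1) * e0 - (v 1) * f0
  have h01 : A.1 0 1 * D = 0 := by
    rw [hD]
    linear_combination (v 0) * f0 - (w 0) * e0
  have h10 : A.1 1 0 * D = 0 := by
    rw [hD]
    linear_combination (w 1) * e1 - (v 1) * f1
  have h11 : (A.1 1 1 - 1) * D = 0 := by
    rw [hD]
    linear_combination (v 0) * f1 - (w 0) * e1
  apply ext2
  · have := (mul_eq_zero.1 h00).resolve_right hcross
    simpa using sub_eq_zero.1 this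
  · have := (mul_eq_zero.1 h01).resolve_right hcross
    simpa using this
  · have := (mul_eq_zero.1 h10).resolve_right hcross
    simpa using this
  · have := (mul_eq_zero.1 h11).resolve_right hcross
    simpa using sub_eq_zero.1 this

/-- A trace two element has a nonzero fixed vector. -/
lemma exists_fixed {A : SL(2, F)} (htr : tr A = 2) : ∃ v : Fin 2 → F, v ≠ 0 ∧ A.1.mulVec v = v := by
  rw [tr_def] at htr
  have hdet := det_entries A
  have h : (A.1 - 1).det = 0 := by
    rw [det_fin_two]
    simp only [Matrix.sub_apply, Matrix.one_apply]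
    simp
    linear_combination hdet - htr
  obtain ⟨v, hv, hv0⟩ := Matrix.exists_mulVec_eq_zero_iff.2 h
  refine ⟨v, hv, ?_⟩
  rw [Matrix.sub_mulVec, Matrix.one_mulVec, sub_eq_zero] at hv0
  exact hv0

/-- An eigenvalue of a trace two element is `1`. -/
lemma eigen_eq_one {A : SL(2, F)} (htr : tr A = 2) {v : Fin 2 → F} (hv : v ≠ 0) {l : F}
    (h : A.1.mulVec v = l • v) : l = 1 := by
  have h1 := cayley_hamilton A
  rw [htr] at h1
  have h2 : (A.1 * A.1).mulVec v = ((2 : F) • A.1 - 1).mulVec v := by rw [h1]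
  rw [← Matrix.mulVec_mulVec, h, Matrix.mulVec_smul, h, Matrix.sub_mulVec, Matrix.smul_mulVec,
    h, Matrix.one_mulVec] at h2
  have h3 : ((l - 1) ^ 2) • v = 0 := by
    have : ((l - 1) ^ 2) • v = l • l • v - ((2 : F) • l • v - v) := by
      module
    rw [this, h2, sub_self]
  rcases smul_eq_zero.1 h3 with h4 | h4
  · exact sub_eq_zero.1 (pow_eq_zero_iff (two_ne_zero) |>.1 h4)
  · exact absurd h4 hv

/-- The elements of determinant one. -/
def detKer (H : Subgroup (GL (Fin 2) F)) : Subgroup H :=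
  (Matrix.GeneralLinearGroup.det.comp H.subtype).ker

lemma det_of_mem {H : Subgroup (GL (Fin 2) F)} (z : detKer H) :
    ((z.1.1 : GL (Fin 2) F) : Matrix (Fin 2) (Fin 2) F).det = 1 := by
  have h : Matrix.GeneralLinearGroup.det (z.1.1) = 1 := MonoidHom.mem_ker.1 z.2
  have h1 := congrArg (fun u : Fˣ => (u : F)) h
  simpa using h1

/-- The embedding of the elements of determinant one. -/
def toSL (H : Subgroup (GL (Fin 2) F)) : detKer H →* SL(2, F) where
  toFun z := ⟨((z.1.1 : GL (Fin 2) F) : Matrix (Fin 2) (Fin 2) F), det_of_mem z⟩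
  map_one' := rfl
  map_mul' _ _ := rfl

lemma toSL_injective (H : Subgroup (GL (Fin 2) F)) : Function.Injective (toSL H) := by
  intro a b h
  have h1 : ((a.1.1 : GL (Fin 2) F) : Matrix (Fin 2) (Fin 2) F) = ((b.1.1 : GL (Fin 2) F) : Matrix (Fin 2) (Fin 2) F) :=
    congrArg Subtype.val h
  exact Subtype.ext (Subtype.ext (Units.ext h1))

/-- Let F be a field of odd characteristic p and H a finite subgroup of odd order of GL(2, F) that leaves no 1-dimensional subspace of F² invariant. Then p does not divide the order of H. -/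
theorem result {F : Type*} [Field F] (p : ℕ) [Fact p.Prime] [CharP F p] (hp : p ≠ 2)
    (H : Subgroup (GL (Fin 2) F)) [Finite H] (hodd : Odd (Nat.card H))
    (hirr : ∀ v : Fin 2 → F, v ≠ 0 → ∃ g ∈ H, (g : Matrix (Fin 2) (Fin 2) F).mulVec v ∉ Submodule.span F {v}) :
    ¬ p ∣ Nat.card H := by
  intro hdvd
  have hS : Sys p (toSL H) :=
    { inj := toSL_injective H
      odd := hodd.of_dvd_nat (Subgroup.card_subgroup_dvd_card _)
      hp2 := hp }
  -- an element of order `p`
  obtain ⟨u, hu⟩ := exists_prime_orderOf_dvd_card' p hdvd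
  have hup : u ^ p = 1 := by rw [← hu]; exact pow_orderOf_eq_one u
  have hu1 : u ≠ 1 := by
    rintro rfl
    rw [orderOf_one] at hu
    exact (Fact.out : p.Prime).one_lt.ne hu
  have hdetu : u ∈ detKer H := by
    rw [detKer, MonoidHom.mem_ker]
    apply units_pow_char_eq_one (p := p)
    rw [← map_pow, hup, map_one]
  let u' : detKer H := ⟨u, hdetu⟩
  have hu'p : u' ^ p = 1 := Subtype.ext hup
  have hu'1 : u' ≠ 1 := fun h => hu1 (congrArg Subtype.val h)
  have htr : tr (toSL H u') = 2 := hS.tr_of_pow (n := 1) (by rwa [pow_one])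
  have hne : toSL H u' ≠ 1 := (hS.noncentral hu'1).1
  obtain ⟨v, hv0, hv⟩ := exists_fixed htr
  obtain ⟨g, hg, hgv⟩ := hirr v hv0
  apply hgv
  -- the conjugate of `u` by `g⁻¹`
  let g' : H := ⟨g, hg⟩
  have hnorm : (detKer H).Normal := by
    rw [detKer]
    infer_instance
  let w : detKer H := ⟨g'⁻¹ * u * g', by
    have := hnorm.conj_mem u hdetu g'⁻¹
    simpa using this⟩
  have hwp : w ^ p = 1 := by
    apply Subtype.ext
    show (g'⁻¹ * u * g') ^ p = 1
    have : (g'⁻¹ * u * g') ^ p = g'⁻¹ * u ^ p * g' := by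
      have := conj_pow (a := g'⁻¹) (b := u) (i := p)
      simpa using this
    rw [this, hup]
    group
  have hcomm := hS.commute_of_pow hu'p hwp
  have htrw : tr (toSL H w) = 2 := hS.tr_of_pow (n := 1) (by rwa [pow_one])
  -- matrices
  let U : Matrix (Fin 2) (Fin 2) F := (toSL H u').1
  let W : Matrix (Fin 2) (Fin 2) F := (toSL H w).1
  let Gm : Matrix (Fin 2) (Fin 2) F := (g : Matrix (Fin 2) (Fin 2) F)
  let Gi : Matrix (Fin 2) (Fin 2) F := ((g⁻¹ : GL (Fin 2) F) : Matrix (Fin 2) (Fin 2) F)
  have hUW : U * W = W * U := by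
    have := congrArg (fun z : detKer H => (toSL H z).1) hcomm
    simpa using this
  have hWdef : W = Gi * U * Gm := rfl
  have hGG : Gm * Gi = 1 := by
    show ((g * g⁻¹ : GL (Fin 2) F) : Matrix (Fin 2) (Fin 2) F) = 1
    simp
  have hUv : U.mulVec v = v := hv
  -- `W v` is fixed by `U`
  have h1 : U.mulVec (W.mulVec v) = W.mulVec v := by
    rw [Matrix.mulVec_mulVec, hUW, ← Matrix.mulVec_mulVec, hUv]
  have h2 : W.mulVec v ∈ Submodule.span F {v} := mem_span_of_fixed hne htr hv0 hv h1
  obtain ⟨l, hl⟩ := Submodule.mem_span_singleton.1 h2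
  have hl1 : l = 1 := eigen_eq_one htrw hv0 hl.symm
  have h3 : W.mulVec v = v := by rw [← hl, hl1, one_smul]
  -- hence `g v` is fixed by `U`
  have h4 : U.mulVec (Gm.mulVec v) = Gm.mulVec v := by
    have : Gm.mulVec (W.mulVec v) = Gm.mulVec v := by rw [h3]
    rw [Matrix.mulVec_mulVec, hWdef] at this
    have e : Gm * (Gi * U * Gm) = U * Gm := by
      rw [← Matrix.mul_assoc, ← Matrix.mul_assoc, hGG, Matrix.one_mul]
    rw [e, ← Matrix.mulVec_mulVec] at this
    exact this
  exact mem_span_of_fixed hne htr hv0 hv h4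

end Cfsg.Agent.S1463
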