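import Cfsg.Statements.S1468
import Mathlib
import Cfsg.Agent.S1465
import Cfsg.Agent.Lib.Solvable.Puig
import Cfsg.Agent.Lib.Basic.PCore
-- import your own Cfsg.Agent.* helpers here

set_option autoImplicit false
open Cfsg

namespace Cfsg.Agent.S1468

set_option linter.style.haveILetI false

open Subgroup Cfsg.Agent.Lib.Basic.PCore Cfsg.Agent.Lib.Solvable.Puig

/-- Sandwich for a normal `p`-subgroup `T = O_p(G)`. -/
theorem sandwich {G : Type*} [Group G] [Finite G] [Group.IsSolvable G] (hodd : Odd (Nat.card G))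
    (p : ℕ) [Fact p.Prime] (hp : p ≠ 2) (hO : Cfsg.pPrimeCore p G = ⊥) (S : Sylow p G) :
    lower (S : Subgroup G) ≤ lower (pCore p G) ∧ upper (pCore p G) ≤ upper (S : Subgroup G) := by
  have hTS : pCore p G ≤ (S : Subgroup G) := pCore_le_sylow S
  have hTn : (pCore p G).Normal := pCore_normal p G
  have hTp : IsPGroup p (pCore p G) := pCore_isPGroup p
  have hsand := relSeq_sandwich (S := (S : Subgroup G)) (T := pCore p G) hTS (by
    intro n B hB hc hN
    set P := relSeq (pCore p G) (2 * n + 1) with hP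
    haveI hPn : P.Normal := relSeq_normal hTn _
    have hPp : IsPGroup p P := by
      have hle : P ≤ pCore p G := relStep_le_self _ _
      exact hTp.to_le hle
    have hBp : IsPGroup p B := (S.isPGroup').to_le hB
    have h := (Cfsg.Agent.S1465.result hodd p hp P hPp {B} (by
      intro B' hB'
      rw [Set.mem_singleton_iff] at hB'
      subst hB'
      exact ⟨hc, hBp, hN⟩)).2 hO (centralizer_relSeq_odd_le (pCore p G) n)
    simpa using h)
  obtain ⟨k1, hk1⟩ := exists_stable (S : Subgroup G)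
  obtain ⟨k2, hk2⟩ := exists_stable (pCore p G)
  set k := max k1 k2 with hk
  have hS := hk1 k (le_max_left _ _)
  have hT := hk2 k (le_max_right _ _)
  have h := hsand k
  rw [hS.1, hS.2, hT.1, hT.2] at h
  exact h

/-- Let p be an odd prime, G a solvable group of odd order with O_{p'}(G) = 1, S a Sylow p-subgroup and T = O_p(G). Then, viewing the Puig subgroups of S and of T inside G, L_*(S) ≤ L_*(T) ≤ L(T) ≤ L(S). -/
theorem result {G : Type*} [Group G] [Finite G] [Group.IsSolvable G] (hodd : Odd (Nat.card G)) (p : ℕ) [Fact p.Prime] (hp : p ≠ 2) (hO : Cfsg.pPrimeCore p G = ⊥) (S : Sylow p G) :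
    (Cfsg.puigLower ↥(S : Subgroup G)).map (S : Subgroup G).subtype ≤ (Cfsg.puigLower ↥(Cfsg.pCore p G)).map (Cfsg.pCore p G).subtype ∧
      (Cfsg.puigLower ↥(Cfsg.pCore p G)).map (Cfsg.pCore p G).subtype ≤ (Cfsg.puigSubgroup ↥(Cfsg.pCore p G)).map (Cfsg.pCore p G).subtype ∧
      (Cfsg.puigSubgroup ↥(Cfsg.pCore p G)).map (Cfsg.pCore p G).subtype ≤ (Cfsg.puigSubgroup ↥(S : Subgroup G)).map (S : Subgroup G).subtype := by
  obtain ⟨h1, h2⟩ := sandwich hodd p hp hO S
  exact ⟨h1, lower_le_upper _, h2⟩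

end Cfsg.Agent.S1468
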