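import Cfsg.Statements.S1469
import Mathlib
import Cfsg.Agent.S1468
import Cfsg.Agent.Lib.Solvable.Puig
import Cfsg.Agent.Lib.Solvable.ModCore
import Cfsg.Agent.Lib.Solvable.Stability
import Cfsg.Agent.Lib.PGroup.ZJ
import Cfsg.Agent.Lib.Coprime.Three
-- import your own Cfsg.Agent.* helpers here

set_option autoImplicit false
open Cfsg

namespace Cfsg.Agent.S1469

set_option linter.style.haveILetI false

open Subgroup Cfsg.Agent.Lib.Basic.PCore Cfsg.Agent.Lib.Solvable.Puig
open Cfsg.Agent.Lib.Solvable.Stability Cfsg.Agent.Lib.Solvable.ModCore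
open Cfsg.Agent.Lib.PGroup.ZJ Cfsg.Agent.Lib.Solvable.PSeries

/-- Conjugation preserves `upper`. -/
theorem conj_upper_eq {G : Type*} [Group G] [Finite G] {R : Subgroup G} {n : G}
    (hn : n ∈ normalizer (R : Set G)) : (upper R).map (MulAut.conj n).toMonoidHom = upper R := by
  have hmap : R.map (MulAut.conj n).toMonoidHom = R := by
    ext y
    constructor
    · rintro ⟨z, hz, rfl⟩
      exact (mem_normalizer_iff.mp hn z).mp hz
    · intro hy
      refine ⟨n⁻¹ * y * n, ?_, by simp [mul_assoc]⟩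
      exact (mem_normalizer_iff.mp (inv_mem hn) y).mp hy |> fun h => by simpa using h
  obtain ⟨k, hk⟩ := exists_stable R
  have h := relSeq_map (MulAut.conj n) R (2 * k + 1)
  rw [hmap, (hk k le_rfl).2] at h
  exact h

/-- Normality of `Z(L(S))` for trivial `p'`-core. -/
theorem center_normal {G : Type*} [Group G] [Finite G] [Group.IsSolvable G]
    (hodd : Odd (Nat.card G)) (p : ℕ) [Fact p.Prime] (hp : p ≠ 2)
    (hO : Cfsg.pPrimeCore p G = ⊥) (S : Sylow p G) :
    (upper (S : Subgroup G) ⊓ centralizer (upper (S : Subgroup G) : Set G)).Normal := by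
  classical
  set W := upper (S : Subgroup G) with hW
  set Y := lower (S : Subgroup G) with hY
  set T := pCore p G with hT
  set A := upper T with hA
  obtain ⟨h1, h2⟩ := Cfsg.Agent.S1468.sandwich hodd p hp hO S
  have hTn : T.Normal := pCore_normal p G
  have hAn : A.Normal := upper_normal hTn
  set X : Subgroup G := A ⊓ centralizer (A : Set G) with hX
  haveI hXn : X.Normal := by
    haveI := hAn
    exact Subgroup.normal_inf_normal _ _
  have hAT : A ≤ T := upper_le_self T
  have hAS : A ≤ (S : Subgroup G) := hAT.trans (pCore_le_sylow S)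
  have hXS : X ≤ (S : Subgroup G) := inf_le_left.trans hAS
  have hXp : IsPGroup p X := S.isPGroup'.to_le hXS
  have hXc : IsMulCommutative X := by
    refine ⟨⟨?_⟩⟩
    rintro ⟨x, hx⟩ ⟨y, hy⟩
    apply Subtype.ext
    exact mem_centralizer_iff.mp (Subgroup.mem_inf.mp hy).2 x (Subgroup.mem_inf.mp hx).1
  set Z : Subgroup G := W ⊓ centralizer (W : Set G) with hZ
  have hZc : IsMulCommutative Z := by
    refine ⟨⟨?_⟩⟩
    rintro ⟨x, hx⟩ ⟨y, hy⟩
    apply Subtype.ext
    exact mem_centralizer_iff.mp (Subgroup.mem_inf.mp hy).2 x (Subgroup.mem_inf.mp hx).1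
  have hWS : W ≤ (S : Subgroup G) := upper_le_self _
  have hZY : Z ≤ Y := by
    rw [hY, ← relStep_upper]
    apply le_relStep (inf_le_left.trans hWS) hZc
    intro w hw
    rw [mem_normalizer_iff]
    intro z
    constructor
    · intro hz
      have hzZ := Subgroup.mem_inf.mp hz
      have h3 : w * z * w⁻¹ = z := by
        rw [mem_centralizer_iff.mp hzZ.2 w hw, mul_inv_cancel_right]
      show w * z * w⁻¹ ∈ Z
      rw [h3]
      exact hz
    · intro hz
      have hzZ := Subgroup.mem_inf.mp hz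
      have h3 : w * (w * z * w⁻¹) = w * z * w⁻¹ * w := mem_centralizer_iff.mp hzZ.2 w hw
      have h4 : z = w * z * w⁻¹ := by
        have : w * z = w * (w * z * w⁻¹) := by
          rw [h3]; group
        exact mul_left_cancel this
      rw [h4]
      exact hz
  have hYA : Y ≤ A := h1.trans (lower_le_upper T)
  have hZX : Z ≤ X := by
    intro z hz
    have hzZ := Subgroup.mem_inf.mp hz
    refine Subgroup.mem_inf.mpr ⟨hYA (hZY hz), ?_⟩
    rw [mem_centralizer_iff]
    intro a ha
    exact mem_centralizer_iff.mp hzZ.2 a (h2 ha)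
  have hXY : X ≤ Y := by
    rw [hY, ← relStep_upper]
    apply le_relStep hXS hXc
    intro w _
    exact (normalizer_eq_top_iff.mpr hXn) ▸ mem_top w
  -- the generators of `W` lie in `TT p X`
  have hWT : W ≤ TT p X := by
    rw [hW, ← relStep_lower]
    apply relStep_le
    intro B hB hc hN b hb
    rw [mem_TT]
    apply stable_core (Or.inr ⟨hp, hodd⟩) isPSolvable_of_solvable X hXp b
    apply sectionQuad_of_quadratic
    intro x hx
    have hxY := hN (hXY hx)
    have h2' : x * b⁻¹ * x⁻¹ ∈ B := (mem_normalizer_iff.mp hxY b⁻¹).mp (B.inv_mem hb)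
    have h3 : b * (x * b⁻¹ * x⁻¹) ∈ B := B.mul_mem hb h2'
    have h4 := hc.is_comm.comm (⟨b, hb⟩ : B) ⟨_, h3⟩
    have h5 : b * (b * (x * b⁻¹ * x⁻¹)) = b * (x * b⁻¹ * x⁻¹) * b := congrArg Subtype.val h4
    have h6 : b * x * b⁻¹ * x⁻¹ = b * (x * b⁻¹ * x⁻¹) := by group
    rw [h6, h5, mul_inv_cancel_right]
  set R : Subgroup G := (S : Subgroup G) ⊓ TT p X with hR
  have hRS : R ≤ (S : Subgroup G) := inf_le_left
  have hWR : W ≤ R := le_inf hWS hWT
  have hup : upper R = W := (upper_eq_of_between hRS hWR).1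
  refine ⟨fun z hz g => ?_⟩
  obtain ⟨n, hn, c, hc, rfl⟩ := exists_factor S X g
  -- `c` centralizes `Z`
  have hcz : c * z * c⁻¹ = z := by
    have := mem_centralizer_iff.mp hc z (hZX hz)
    rw [← this, mul_inv_cancel_right]
  have hnW : (upper R).map (MulAut.conj n).toMonoidHom = upper R := conj_upper_eq hn
  rw [hup] at hnW
  have heq : n * c * z * (n * c)⁻¹ = n * z * n⁻¹ := by
    calc n * c * z * (n * c)⁻¹ = n * (c * z * c⁻¹) * n⁻¹ := by group
      _ = n * z * n⁻¹ := by rw [hcz]
  rw [heq]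
  have hzZ := Subgroup.mem_inf.mp hz
  refine Subgroup.mem_inf.mpr ⟨?_, ?_⟩
  · rw [← hnW]
    exact ⟨z, hzZ.1, rfl⟩
  · rw [mem_centralizer_iff]
    intro w hw
    rw [← hnW] at hw
    obtain ⟨v, hv, rfl⟩ := hw
    have := mem_centralizer_iff.mp hzZ.2 v hv
    show n * v * n⁻¹ * (n * z * n⁻¹) = n * z * n⁻¹ * (n * v * n⁻¹)
    calc n * v * n⁻¹ * (n * z * n⁻¹) = n * (v * z) * n⁻¹ := by group
      _ = n * (z * v) * n⁻¹ := by rw [this]
      _ = n * z * n⁻¹ * (n * v * n⁻¹) := by group

/-- The upper Puig subgroup of the image of a Sylow subgroup. -/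
theorem map_center_upper {G : Type*} [Group G] [Finite G] {p : ℕ} [Fact p.Prime]
    (K : Subgroup G) [K.Normal] (hK : (Nat.card K).Coprime p) (S : Sylow p G) :
    (upper (S : Subgroup G) ⊓ centralizer (upper (S : Subgroup G) : Set G)).map
        (QuotientGroup.mk' K) =
      upper (sylowImage K S : Subgroup (G ⧸ K)) ⊓
        centralizer (upper (sylowImage K S : Subgroup (G ⧸ K)) : Set (G ⧸ K)) := by
  classical
  set π := QuotientGroup.mk' K with hπ
  have hup : upper (sylowImage K S : Subgroup (G ⧸ K)) = (upper (S : Subgroup G)).map π := by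
    rw [upper, upper, ← puigSubgroup_map (sylowEquiv K hK S)]
    ext x
    constructor
    · rintro ⟨_, ⟨y, hy, rfl⟩, rfl⟩
      exact ⟨(y : G), ⟨y, hy, rfl⟩, rfl⟩
    · rintro ⟨_, ⟨y, hy, rfl⟩, rfl⟩
      exact ⟨sylowEquiv K hK S y, ⟨y, hy, rfl⟩, rfl⟩
  rw [hup]
  ext x
  constructor
  · rintro ⟨z, hz, rfl⟩
    have hzZ := Subgroup.mem_inf.mp hz
    refine Subgroup.mem_inf.mpr ⟨⟨z, hzZ.1, rfl⟩, ?_⟩
    rw [mem_centralizer_iff]
    rintro _ ⟨w, hw, rfl⟩
    have := mem_centralizer_iff.mp hzZ.2 w hw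
    rw [← map_mul, ← map_mul, this]
  · intro hx
    have hx' := Subgroup.mem_inf.mp hx
    obtain ⟨z, hz, rfl⟩ := hx'.1
    refine ⟨z, Subgroup.mem_inf.mpr ⟨hz, ?_⟩, rfl⟩
    rw [mem_centralizer_iff]
    intro w hw
    have h1 := mem_centralizer_iff.mp hx'.2 (π w) ⟨w, hw, rfl⟩
    have hzS : z ∈ (S : Subgroup G) := upper_le_self _ hz
    have hwS : w ∈ (S : Subgroup G) := upper_le_self _ hw
    have h2 : (w * z) * (z * w)⁻¹ ∈ K := by
      apply (QuotientGroup.eq_one_iff _).mp
      show π ((w * z) * (z * w)⁻¹) = 1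
      rw [map_mul, map_inv, map_mul, map_mul, h1, mul_inv_cancel]
    have h3 : (w * z) * (z * w)⁻¹ ∈ (S : Subgroup G) :=
      mul_mem (mul_mem hwS hzS) (inv_mem (mul_mem hzS hwS))
    have h4 := eq_one_of_mem_of_isPGroup hK S.isPGroup' h2 h3
    exact mul_inv_eq_one.mp h4

/-- Let p be an odd prime, G a solvable group of odd order and S a Sylow p-subgroup, and let Z be the centre of the Puig subgroup L(S), viewed inside G. Then G is generated by O_{p'}(G) and N_G(Z); and if O_{p'}(G) = 1 then Z is normal in G. -/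
theorem result {G : Type*} [Group G] [Finite G] [Group.IsSolvable G] (hodd : Odd (Nat.card G)) (p : ℕ) [Fact p.Prime] (hp : p ≠ 2) (S : Sylow p G) :
    Cfsg.pPrimeCore p G ⊔ Subgroup.normalizer ((((Subgroup.center ↥(Cfsg.puigSubgroup ↥(S : Subgroup G))).map (Cfsg.puigSubgroup ↥(S : Subgroup G)).subtype).map (S : Subgroup G).subtype : Subgroup G) : Set G) = ⊤ ∧
      (Cfsg.pPrimeCore p G = ⊥ → (((Subgroup.center ↥(Cfsg.puigSubgroup ↥(S : Subgroup G))).map (Cfsg.puigSubgroup ↥(S : Subgroup G)).subtype).map (S : Subgroup G).subtype).Normal) := by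
  have hcenter := center_upper_eq (S : Subgroup G)
  set Z : Subgroup G := ((center (puigSubgroup (S : Subgroup G))).map (puigSubgroup (S : Subgroup G)).subtype).map (S : Subgroup G).subtype with hZ
  have hZp : IsPGroup p Z := by
    apply S.isPGroup'.to_le
    rw [hZ]
    exact map_subtype_le _
  refine ⟨?_, ?_⟩
  · set K := Cfsg.pPrimeCore p G with hK
    haveI hKn : K.Normal := pPrimeCore_normal p G
    have hKc : (Nat.card K).Coprime p := pPrimeCore_coprime p
    refine frattini_of_normal_image K hKc Z hZp ?_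
    rw [hcenter, map_center_upper K hKc S]
    have hO' : Cfsg.pPrimeCore p (G ⧸ K) = ⊥ := pPrimeCore_quotient p
    have hodd' : Odd (Nat.card (G ⧸ K)) := by
      have h1 : Nat.card (G ⧸ K) ∣ Nat.card G := Subgroup.card_quotient_dvd_card K
      exact Odd.of_dvd_nat hodd h1
    exact center_normal hodd' p hp hO' _
  · intro hO
    rw [hcenter]
    exact center_normal hodd p hp hO S

end Cfsg.Agent.S1469
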