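import Cfsg.Statements.S1472
import Mathlib
import Cfsg.Agent.Lib.OddOrder.AppCNorm
import Cfsg.Agent.Lib.OddOrder.ThmC4

set_option autoImplicit false
open Cfsg

namespace Cfsg.Agent.S1472

open Cfsg.Agent.Lib.OddOrder.ThmC

/-- From the coprimality hypothesis, `q ∤ p - 1`. -/
private lemma coprime_q (p q : ℕ) (hp : p.Prime) (hq : q.Prime)
    (hA : Nat.Coprime ((p ^ q - 1) / (p - 1)) (p - 1)) : Nat.Coprime q (p - 1) := by
  rw [Nat.Prime.coprime_iff_not_dvd hq]
  intro hd
  have hp1 : 1 < p := hp.one_lt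
  rw [← Nat.geomSum_eq (Nat.succ_le_of_lt hp1) q] at hA
  have hmod : p ≡ 1 [MOD q] := ((Nat.modEq_iff_dvd' hp1.le).2 hd).symm
  have key : ∀ n, (∑ i ∈ Finset.range n, p ^ i) ≡ n [MOD q] := by
    intro n
    induction n with
    | zero => simp [Nat.ModEq]
    | succ n ih =>
      rw [Finset.sum_range_succ]
      have : p ^ n ≡ 1 [MOD q] := by simpa using hmod.pow n
      exact ih.add this
  have h3 := key q
  have h4 : q ∣ ∑ i ∈ Finset.range q, p ^ i :=
    Nat.modEq_zero_iff_dvd.1 (h3.trans (by simp [Nat.ModEq]))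
  have h5 := Nat.dvd_gcd h4 hd
  rw [hA.gcd_eq_one] at h5
  exact hq.one_lt.ne' (Nat.dvd_one.1 h5)

/-- Elements fixed by Frobenius are natural numbers below `p`. -/
private lemma fp_aux {F : Type*} [Field F] {p : ℕ} [Fact p.Prime] [CharP F p] (c : F)
    (hc : c ^ p = c) : ∃ m : ℕ, m < p ∧ (m : F) = c := by
  classical
  have hp1 : 1 < p := (Fact.out : p.Prime).one_lt
  open Polynomial in
  have hne : (X ^ p - X : F[X]) ≠ 0 := FiniteField.X_pow_card_sub_X_ne_zero F hp1
  open Polynomial in
  have hdeg : (X ^ p - X : F[X]).natDegree = p := FiniteField.X_pow_card_sub_X_natDegree_eq F hp1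
  open Polynomial in
  have hroots : ∀ z : F, z ^ p = z → z ∈ (X ^ p - X : F[X]).roots.toFinset := by
    intro z hz
    rw [Multiset.mem_toFinset, mem_roots hne, IsRoot.def]
    simp [hz]
  have hinj : Set.InjOn (fun m : ℕ => (m : F)) (Finset.range p : Set ℕ) := by
    intro a ha b hb hab
    exact CharP.natCast_injOn_Iio F p (by simpa using ha) (by simpa using hb) hab
  open Polynomial in
  have hsub : (Finset.range p).image (fun m : ℕ => (m : F)) ⊆ (X ^ p - X : F[X]).roots.toFinset := by
    intro x hx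
    obtain ⟨m, _, rfl⟩ := Finset.mem_image.1 hx
    apply hroots
    have := map_natCast (frobenius F p) m
    rwa [frobenius_def] at this
  open Polynomial in
  have hcard : (X ^ p - X : F[X]).roots.toFinset.card ≤ ((Finset.range p).image (fun m : ℕ => (m : F))).card := by
    rw [Finset.card_image_of_injOn hinj, Finset.card_range]
    calc _ ≤ Multiset.card (X ^ p - X : F[X]).roots := Multiset.toFinset_card_le _
      _ ≤ (X ^ p - X : F[X]).natDegree := card_roots' _
      _ = p := hdeg
  have heq := Finset.eq_of_subset_of_card_le hsub hcard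
  have hcm := hroots c hc
  rw [← heq] at hcm
  obtain ⟨m, hm, rfl⟩ := Finset.mem_image.1 hcm
  exact ⟨m, Finset.mem_range.1 hm, rfl⟩

/-- Additive subgroups stable under the norm one group are everything. -/
private lemma span_aux {F : Type*} [Field F] [Finite F] {p q N : ℕ} [Fact p.Prime]
    [Algebra (ZMod p) F] (hq : q.Prime) (hfin : Module.finrank (ZMod p) F = q) (hN : 0 < N)
    {a : F} (ha : a ^ N = 1) (ha1 : a ≠ 1) (hcop : Nat.Coprime N (p - 1)) (S : AddSubgroup F)
    (hS : ∀ e : F, e ^ N = 1 → ∀ c ∈ S, e * c ∈ S) (c : F) (hc : c ∈ S) (hc0 : c ≠ 0) : S = ⊤ := by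
  let V : Subalgebra (ZMod p) F :=
    { carrier := {d | ∀ s ∈ S, d * s ∈ S}
      mul_mem' := by
        intro a b ha hb s hs
        rw [mul_assoc]
        exact ha _ (hb s hs)
      add_mem' := by
        intro a b ha hb s hs
        rw [add_mul]
        exact S.add_mem (ha s hs) (hb s hs)
      algebraMap_mem' := by
        intro r s hs
        have h1 : algebraMap (ZMod p) F r = ((r.val : ℕ) : F) := by
          rw [← map_natCast (algebraMap (ZMod p) F), ZMod.natCast_zmod_val]
        show algebraMap (ZMod p) F r * s ∈ S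
        rw [h1, ← nsmul_eq_mul]
        exact S.nsmul_mem hs _ }
  have hsimple : IsSimpleOrder (Subalgebra (ZMod p) F) :=
    Subalgebra.isSimpleOrder_of_finrank_prime (ZMod p) F (by rw [hfin]; exact hq)
  rcases hsimple.eq_bot_or_eq_top V with hV | hV
  · exfalso
    have haV : a ∈ V := hS a ha
    rw [hV] at haV
    obtain ⟨r, hr⟩ := Algebra.mem_bot.1 haV
    have hp : p ≠ 0 := (Fact.out : p.Prime).ne_zero
    have h1 : a ^ p = a := by
      rw [← hr, ← map_pow, ZMod.pow_card]
    have ha0 : a ≠ 0 := by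
      rintro rfl
      rw [zero_pow hN.ne'] at ha
      exact zero_ne_one ha
    have h2 : a ^ (p - 1) = 1 := by
      have h5 : a ^ (p - 1) * a = a := by rw [pow_sub_one_mul hp, h1]
      exact (mul_eq_right₀ ha0).1 h5
    have h5 := (pow_gcd_eq_one (a := a)).2 ⟨ha, h2⟩
    rw [hcop.gcd_eq_one, pow_one] at h5
    exact ha1 h5
  · rw [AddSubgroup.eq_top_iff']
    intro d
    have hd : d * c⁻¹ ∈ V := by rw [hV]; trivial
    have := hd c hc
    rwa [mul_assoc, inv_mul_cancel₀ hc0, mul_one] at this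

/-- Let p, q be primes with (p^q − 1)/(p − 1) coprime to p − 1, G a finite group, F a field with p ^ q elements, and P, U, Q subgroups of G with: f : G → F bijective from P onto F and additive on P; U normalizing P and acting through ψ : G → F, injective and multiplicative on U with ψ(u) ≠ 0 and f(uxu⁻¹) = ψ(u) f(x); #U · (p − 1) = p^q − 1; Q abelian of order coprime to p, normalized by every x ∈ P with f(x) in the prime field; and some y ∈ Q such that y x y⁻¹ normalizes U for every such x. Then p ≤ q. -/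
theorem result {G : Type*} [Group G] [Finite G] (p q : ℕ) [Fact p.Prime] [Fact q.Prime] (hA : Nat.Coprime ((p ^ q - 1) / (p - 1)) (p - 1))
    (F : Type*) [Field F] [Fintype F] (hF : Fintype.card F = p ^ q) (P U Q : Subgroup G) (f ψ : G → F)
    (hf : Set.BijOn f (P : Set G) Set.univ) (hfadd : ∀ x ∈ P, ∀ z ∈ P, f (x * z) = f x + f z)
    (hUP : U ≤ Subgroup.normalizer (P : Set G)) (hψ : ∀ u ∈ U, ψ u ≠ 0 ∧ ∀ x ∈ P, f (u * x * u⁻¹) = ψ u * f x)
    (hψmul : ∀ u ∈ U, ∀ v ∈ U, ψ (u * v) = ψ u * ψ v) (hψinj : Set.InjOn ψ (U : Set G)) (hUcard : Nat.card U * (p - 1) = p ^ q - 1)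
    (hQ : IsMulCommutative Q) (hQp : (Nat.card Q).Coprime p) (hP0Q : ∀ x ∈ P, f x ^ p = f x → x ∈ Subgroup.normalizer (Q : Set G))
    (y : G) (hy : y ∈ Q) (hP0U : ∀ x ∈ P, f x ^ p = f x → y * x * y⁻¹ ∈ Subgroup.normalizer (U : Set G)) :
    p ≤ q := by
  classical
  have hpp : p.Prime := Fact.out
  have hqp : q.Prime := Fact.out
  by_cases hp2 : p = 2
  · rw [hp2]; exact hqp.two_le
  have hq2 : q ≠ 2 := by
    rintro rfl
    have h1 := coprime_q p 2 hpp hqp hA
    have h2 : 2 ∣ p - 1 := by
      have := hpp.eq_two_or_odd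
      omega
    have h3 := Nat.Coprime.eq_one_of_dvd h1 h2
    omega
  -- the characteristic
  obtain ⟨r, hr⟩ := CharP.exists F
  obtain ⟨n, hrp, hrn⟩ := FiniteField.card F r
  have hrp' : r = p := by
    have h1 : r ∣ p ^ q := by
      rw [← hF, hrn]
      exact dvd_pow_self r n.ne_zero
    exact (Nat.prime_dvd_prime_iff_eq hrp hpp).1 (hrp.dvd_of_dvd_pow h1)
  subst hrp'
  let _ : Algebra (ZMod r) F := ZMod.algebra F r
  have hfin : Module.finrank (ZMod r) F = q := by
    have h1 := Module.card_eq_pow_finrank (K := ZMod r) (V := F)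
    rw [hF, ZMod.card] at h1
    exact (Nat.pow_right_injective hpp.two_le h1).symm
  obtain ⟨a, ha1, hna, hna2⟩ :=
    Cfsg.Agent.Lib.OddOrder.AppCNorm.exists_of_prime_finrank hp2 hqp hq2 hfin
  -- the number `N`
  have hN : (r ^ q - 1) / (r - 1) = ∑ i ∈ Finset.range q, r ^ i :=
    (Nat.geomSum_eq hpp.two_le q).symm
  set N := ∑ i ∈ Finset.range q, r ^ i with hNdef
  rw [hN] at hA
  have hr1 : 0 < r - 1 := Nat.sub_pos_of_lt hpp.one_lt
  have hcardU : Nat.card U = N := by
    rw [← hN]
    exact (Nat.div_eq_of_eq_mul_left hr1 hUcard.symm).symm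
  have hNpos : 0 < N := by
    rw [← hcardU]
    exact Nat.card_pos
  have hUpow : ∀ u ∈ U, u ^ N = 1 := by
    intro u hu
    rw [← hcardU]
    have h1 := pow_card_eq_one' (x := (⟨u, hu⟩ : U))
    exact congrArg Subtype.val h1
  have hpow : ∀ x : F, Algebra.norm (ZMod r) x = 1 → x ^ N = 1 := by
    intro x hx
    have h1 := FiniteField.algebraMap_norm_eq_pow (K := ZMod r) (K' := F) (x := x)
    rw [hx, map_one, Nat.card_eq_fintype_card, hF, Nat.card_zmod, hN] at h1
    exact h1.symm
  -- `ψ` on powers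
  have hψ1 : ψ 1 = 1 := by
    have h1 := hψmul 1 U.one_mem 1 U.one_mem
    have h2 := (hψ 1 U.one_mem).1
    rw [mul_one] at h1
    exact (mul_eq_left₀ h2).1 h1.symm
  have hψpow : ∀ u ∈ U, ∀ m : ℕ, ψ (u ^ m) = ψ u ^ m := by
    intro u hu m
    induction m with
    | zero => simp [hψ1]
    | succ m ih =>
      rw [pow_succ, hψmul _ (pow_mem hu m) _ hu, ih, pow_succ]
  have hsurj : ∀ c : F, c ^ N = 1 → ∃ u ∈ U, ψ u = c := by
    intro c hc
    let S : Set F := ψ '' (U : Set G)
    let R : Set F := {c | c ^ N = 1}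
    have hSR : S ⊆ R := by
      rintro _ ⟨u, hu, rfl⟩
      show ψ u ^ N = 1
      rw [← hψpow u hu, hUpow u hu, hψ1]
    have hS : S.ncard = N := by
      rw [Set.InjOn.ncard_image hψinj, ← hcardU]
      exact (Nat.card_coe_set_eq (U : Set G)).symm
    have hRN : R.ncard ≤ N := by
      have hsub : R ⊆ ((Polynomial.nthRoots N (1 : F)).toFinset : Set F) := by
        intro z hz
        simp only [Finset.mem_coe, Multiset.mem_toFinset, Polynomial.mem_nthRoots hNpos]
        exact hz
      calc R.ncard ≤ ((Polynomial.nthRoots N (1 : F)).toFinset : Set F).ncard :=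
            Set.ncard_le_ncard hsub (Finset.finite_toSet _)
        _ = (Polynomial.nthRoots N (1 : F)).toFinset.card := Set.ncard_coe_finset _
        _ ≤ Multiset.card (Polynomial.nthRoots N (1 : F)) := Multiset.toFinset_card_le _
        _ ≤ N := Polynomial.card_nthRoots _ _
    have heq : S = R := Set.eq_of_subset_of_ncard_le hSR (hRN.trans hS.ge) (Set.toFinite _)
    have hcS : c ∈ S := by rw [heq]; exact hc
    obtain ⟨u, hu, huc⟩ := hcS
    exact ⟨u, hu, huc⟩
  -- the map `T`
  choose T hTmem hTf using (fun c : F => hf.surjOn (Set.mem_univ c))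
  have hfinj := hf.injOn
  have hf1 : f 1 = 0 := by
    have h1 := hfadd 1 P.one_mem 1 P.one_mem
    rw [mul_one] at h1
    exact left_eq_add.1 h1
  have hcopp : Nat.Coprime N r := by
    rw [Nat.coprime_comm, Nat.Prime.coprime_iff_not_dvd hpp]
    intro hd
    have h1 : r ∣ r ^ q - 1 := by
      rw [← hUcard, hcardU]
      exact Dvd.dvd.mul_right hd _
    have h2 : r ∣ r ^ q := dvd_pow_self r hqp.ne_zero
    have h3 : r ∣ r ^ q - (r ^ q - 1) := Nat.dvd_sub h2 h1
    have h4 : 1 ≤ r ^ q := Nat.one_le_pow _ _ hpp.pos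
    have h5 : r ^ q - (r ^ q - 1) = 1 := by omega
    rw [h5] at h3
    exact hpp.one_lt.ne' (Nat.dvd_one.1 h3)
  have hf1p : f (T 1) ^ r = f (T 1) := by
    rw [hTf, one_pow]
  have hT1Q : T 1 ∈ Subgroup.normalizer (Q : Set G) := hP0Q _ (hTmem 1) hf1p
  have hyQ : y ∈ Subgroup.normalizer (Q : Set G) := Subgroup.le_normalizer hy
  have sys : Sys T U Q ψ y (y * T 1 * y⁻¹) r N :=
    { hp := hpp
      char := hr
      T_add := by
        intro c d
        apply hfinj (hTmem _) (P.mul_mem (hTmem _) (hTmem _))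
        rw [hfadd _ (hTmem _) _ (hTmem _), hTf, hTf, hTf]
      T_one := by
        intro c hc
        have h1 := hTf c
        rw [hc, hf1] at h1
        exact h1.symm
      conj_T := by
        intro u hu c
        have hmem : u * T c * u⁻¹ ∈ P :=
          (Subgroup.mem_normalizer_iff.1 (hUP hu) _).1 (hTmem c)
        apply hfinj hmem (hTmem _)
        rw [(hψ u hu).2 _ (hTmem c), hTf, hTf]
      ψ_mul := hψmul
      ψ_inj := hψinj
      ψ_ne := fun u hu => (hψ u hu).1
      ψ_surj := hsurj
      U_pow := hUpow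
      cop_p := hcopp
      cop_p1 := hA
      pow_N := by
        intro c hc
        have h1 : (r - 1) * N = Fintype.card F - 1 := by
          rw [mul_comm, ← hcardU, hUcard, hF]
        rw [h1]
        exact FiniteField.pow_card_sub_one_eq_one c hc
      Q_comm := by
        intro a ha b hb
        have h1 := hQ.is_comm.comm ⟨a, ha⟩ ⟨b, hb⟩
        exact congrArg Subtype.val h1
      Q_p := by
        intro a ha hap
        have h1 : orderOf a ∣ Nat.card Q := Q.orderOf_dvd_natCard ha
        have h2 : orderOf a ∣ r := orderOf_dvd_of_pow_eq_one hap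
        have h3 : orderOf a = 1 := Nat.eq_one_of_dvd_coprimes hQp h1 h2
        exact orderOf_eq_one_iff.1 h3
      y_Q := hy
      t_eq := rfl
      t_Q := mul_mem (mul_mem hyQ hT1Q) (inv_mem hyQ)
      t_U := hP0U _ (hTmem 1) hf1p
      span := by
        intro S hS c hc hc0
        exact span_aux hqp hfin hNpos (hpow a hna) ha1 hA S hS c hc hc0
      fp := fun c hc => fp_aux c hc
      exists_ne := by
        obtain ⟨u, hu, hua⟩ := hsurj a (hpow a hna)
        exact ⟨u, hu, by rw [hua]; exact ha1⟩ }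
  obtain ⟨u, hu, hua⟩ := hsurj a (hpow a hna)
  obtain ⟨v, hv, hvb⟩ := hsurj (2 - a) (hpow _ hna2)
  have hbound := sys.bound hqp.pos hu hv (by rw [hua, hvb]; ring) (by rw [hua]; exact ha1)
  have h1 := hpp.eq_two_or_odd
  have h2 := hqp.eq_two_or_odd
  omega

end Cfsg.Agent.S1472
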