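import Cfsg.Statements.S1475
import Mathlib
import Cfsg.Agent.Lib.Solvable.Hall
import Cfsg.Agent.Lib.Solvable.MinimalNormal
import Cfsg.Agent.Lib.Frobenius.Norm
import Cfsg.Agent.Lib.PGroup.Timmesfeld

set_option autoImplicit false

namespace Cfsg.Agent.S1475

open Subgroup

/-- A product of two commuting elements of coprime nontrivial orders does not have prime power order. -/
theorem not_isPrimePow_mul {a b : ℕ} (ha : a ≠ 1) (hb : b ≠ 1) (hab : a.Coprime b) :
    ¬ IsPrimePow (a * b) := by
  rintro ⟨r, j, hr, hj, hrj⟩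
  have hr' : r.Prime := hr.nat_prime
  have h1 : a ∣ r ^ j := hrj ▸ dvd_mul_right a b
  have h2 : b ∣ r ^ j := hrj ▸ dvd_mul_left b a
  obtain ⟨i, -, hi⟩ := (Nat.dvd_prime_pow hr').mp h1
  obtain ⟨l, -, hl⟩ := (Nat.dvd_prime_pow hr').mp h2
  have hi0 : i ≠ 0 := by rintro rfl; simp at hi; exact ha hi
  have hl0 : l ≠ 0 := by rintro rfl; simp at hl; exact hb hl
  have h3 : r ∣ a := hi ▸ dvd_pow_self r hi0
  have h4 : r ∣ b := hl ▸ dvd_pow_self r hl0
  have h5 := Nat.dvd_gcd h3 h4
  rw [hab] at h5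
  exact hr'.one_lt.ne' (Nat.dvd_one.mp h5)

/-- Let G be a finite solvable group such that the order of every element is a prime power (1 included). Then at most two distinct primes divide the order of G. -/
theorem result {G : Type*} [Group G] [Finite G] [Group.IsSolvable G] (h : ∀ g : G, IsPrimePow (orderOf g) ∨ g = 1) :
    (Nat.card G).primeFactors.card ≤ 2 := by
  classical
  by_contra hcard
  push Not at hcard
  have hn0 : Nat.card G ≠ 0 := Nat.card_pos.ne'
  haveI hnt : Nontrivial G := by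
    by_contra hns
    rw [not_nontrivial_iff_subsingleton] at hns
    rw [Nat.card_of_subsingleton (1 : G)] at hcard
    simp at hcard
  obtain ⟨p, V, hp, hVn, hVne, hVp, hVc, -⟩ := Cfsg.Agent.Lib.Solvable.Hall.exists_normal_abelian_pSubgroup G
  haveI hfp : Fact p.Prime := ⟨hp⟩
  haveI := hVn
  haveI := hVc
  obtain ⟨a, m, hm, hma⟩ := Nat.exists_eq_pow_mul_and_not_dvd hn0 p hp.ne_one
  have hco : m.Coprime (p ^ a) :=
    Nat.Coprime.pow_right a ((Nat.Prime.coprime_iff_not_dvd hp).mpr hm).symm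
  obtain ⟨H, hH⟩ := Cfsg.Agent.Lib.Solvable.Hall.exists_card_eq m (p ^ a) (by rw [hma]; ring) hco
  -- fixed point free action of `H` on `V`
  have hfpf : ∀ x ∈ H, x ≠ 1 → ∀ v ∈ V, x * v = v * x → v = 1 := by
    intro x hx hx1 v hv hcomm
    by_contra hv1
    have hxo : orderOf x ∣ m := by
      have : orderOf (⟨x, hx⟩ : H) ∣ Nat.card H := orderOf_dvd_natCard _
      rwa [Subgroup.orderOf_mk, hH] at this
    have hxop : (orderOf x).Coprime p := by
      apply Nat.Coprime.coprime_dvd_left hxo
      exact ((Nat.Prime.coprime_iff_not_dvd hp).mpr hm).symm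
    obtain ⟨k, hk⟩ := hVp ⟨v, hv⟩
    have hv' : v ^ (p ^ k) = 1 := by simpa using congrArg Subtype.val hk
    obtain ⟨j, -, hj⟩ := (Nat.dvd_prime_pow hp).mp (orderOf_dvd_of_pow_eq_one hv')
    have hvo : orderOf v ≠ 1 := fun h1 => hv1 (orderOf_eq_one_iff.mp h1)
    have hxo1 : orderOf x ≠ 1 := fun h1 => hx1 (orderOf_eq_one_iff.mp h1)
    have hcop : (orderOf x).Coprime (orderOf v) := by
      rw [hj]; exact Nat.Coprime.pow_right j hxop
    have hcomm' : Commute x v := hcomm
    have hord := hcomm'.orderOf_mul_eq_mul_orderOf_of_coprime hcop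
    rcases h (x * v) with h1 | h1
    · rw [hord] at h1
      exact not_isPrimePow_mul hxo1 hvo hcop h1
    · rw [h1, orderOf_one] at hord
      exact hxo1 (Nat.eq_one_of_mul_eq_one_right hord.symm)
  have hHV : H ≤ normalizer ((V : Subgroup G) : Set G) := by
    rw [normalizer_eq_top]; exact le_top
  -- minimal normal subgroup of `H`
  haveI hHnt : Nontrivial H := by
    rw [Subgroup.nontrivial_iff_ne_bot]
    intro hb
    rw [hb, card_bot] at hH
    rw [← hH, mul_one] at hma
    have hsub : (Nat.card G).primeFactors ⊆ {p} := by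
      intro q hq
      have hq' := Nat.prime_of_mem_primeFactors hq
      have hd := Nat.dvd_of_mem_primeFactors hq
      rw [hma] at hd
      exact Finset.mem_singleton.mpr ((Nat.prime_dvd_prime_iff_eq hq' hp).mp (hq'.dvd_of_dvd_pow hd))
    have := Finset.card_le_card hsub
    simp at this
    omega
  obtain ⟨N, hN⟩ := Cfsg.Agent.Lib.Solvable.MinimalNormal.exists_isMinNormal (G := H)
  obtain ⟨t, ht, hNp, hNc, hNexp⟩ := hN.exists_isPGroup
  haveI hft : Fact t.Prime := ⟨ht⟩
  haveI hNn := hN.normal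
  let NG : Subgroup G := N.map H.subtype
  have hNGH : NG ≤ H := map_subtype_le N
  have hNGcard : Nat.card NG = Nat.card N :=
    (Nat.card_congr (N.equivMapOfInjective H.subtype H.subtype_injective).toEquiv).symm
  have hNGexp : ∀ x ∈ NG, x ^ t = 1 := by
    rintro _ ⟨y, hy, rfl⟩
    have := hNexp y hy
    simpa using congrArg Subtype.val this
  have hNGp : IsPGroup t NG := hNp.map H.subtype
  -- order `t`
  obtain ⟨k, hk⟩ := IsPGroup.iff_card.mp hNGp
  have hNGne : NG ≠ ⊥ := by
    intro hb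
    apply hN.ne_bot
    have := (Subgroup.map_eq_bot_iff_of_injective N H.subtype_injective).mp hb
    exact this
  have hk1 : k = 1 := by
    rcases k with _ | _ | k
    · exfalso
      apply hNGne
      rw [pow_zero] at hk
      exact Subgroup.eq_bot_of_card_eq NG hk
    · rfl
    · exfalso
      -- a subgroup of order `t ^ 2`
      have hdvd : t ^ 2 ∣ Nat.card NG := by
        rw [hk]; exact pow_dvd_pow t (by omega)
      obtain ⟨E0, hE0⟩ := Sylow.exists_subgroup_card_pow_prime t hdvd
      let E : Subgroup G := E0.map NG.subtype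
      have hEcard : Nat.card E = t ^ 2 := by
        rw [← hE0]
        exact (Nat.card_congr (E0.equivMapOfInjective NG.subtype NG.subtype_injective).toEquiv).symm
      have hEN : E ≤ NG := map_subtype_le E0
      refine Cfsg.Agent.Lib.Frobenius.Norm.no_elementary_of_fpf E V hVne ?_ ?_ hEcard ?_
      · rw [normalizer_eq_top]; exact le_top
      · intro x hx hx1 v hv hc
        exact hfpf x (hNGH (hEN hx)) hx1 v hv hc
      · intro x hx
        exact hNGexp x (hEN hx)
  subst hk1
  rw [pow_one] at hk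
  -- another prime
  obtain ⟨s, hs, hsne⟩ : ∃ s ∈ (Nat.card G).primeFactors, s ∉ ({p, t} : Finset ℕ) := by
    have h1 : ({p, t} : Finset ℕ).card < (Nat.card G).primeFactors.card := by
      have h2 := Finset.card_le_two (a := p) (b := t)
      omega
    exact Finset.exists_mem_notMem_of_card_lt_card h1
  have hsp : s.Prime := Nat.prime_of_mem_primeFactors hs
  have hsd : s ∣ Nat.card G := Nat.dvd_of_mem_primeFactors hs
  simp only [Finset.mem_insert, Finset.mem_singleton, not_or] at hsne
  obtain ⟨hsnep, hsnet⟩ := hsne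
  have hsH : s ∣ Nat.card H := by
    rw [hH]
    rw [hma] at hsd
    rcases (Nat.Prime.dvd_mul hsp).mp hsd with h1 | h1
    · exact absurd ((Nat.prime_dvd_prime_iff_eq hsp hp).mp (hsp.dvd_of_dvd_pow h1)) hsnep
    · exact h1
  haveI hfs : Fact s.Prime := ⟨hsp⟩
  obtain ⟨x0, hx0⟩ := exists_prime_orderOf_dvd_card' (G := H) s hsH
  set x : G := (x0 : G) with hxdef
  have hxH : x ∈ H := x0.2
  have hxo : orderOf x = s := by rw [hxdef, Subgroup.orderOf_coe]; exact hx0
  -- the subgroup of order `t * s`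
  let Z : Subgroup G := zpowers x
  have hZH : Z ≤ H := by
    rw [zpowers_le]; exact hxH
  have hZcard : Nat.card Z = s := by rw [Nat.card_zpowers]; exact hxo
  have hZN : Z ≤ normalizer ((NG : Subgroup G) : Set G) := by
    rw [zpowers_le]
    have h1 : H ≤ normalizer ((NG : Subgroup G) : Set G) := by
      rw [le_normalizer_iff]
      rintro k hk _ ⟨n, hn, rfl⟩
      exact ⟨⟨k, hk⟩ * n * ⟨k, hk⟩⁻¹, hNn.conj_mem n hn ⟨k, hk⟩, by simp⟩
    exact h1 hxH
  have hinf : Z ⊓ NG = ⊥ := by
    haveI hZp : IsPGroup s Z := IsPGroup.of_card (n := 1) (by rw [hZcard, pow_one])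
    exact (IsPGroup.disjoint_of_ne s t hsnet Z NG hZp hNGp).eq_bot
  let E : Subgroup G := Z ⊔ NG
  have hEcard : Nat.card E = t * s := by
    have h1 := Cfsg.Agent.Lib.PGroup.Timmesfeld.card_sup_mul_card_inf_of_le_normalizer Z NG hZN
    rw [hinf, card_bot, mul_one, hZcard, hk] at h1
    rw [h1]; ring
  have hEH : E ≤ H := sup_le hZH hNGH
  have hEV : E ≤ normalizer ((V : Subgroup G) : Set G) := hEH.trans hHV
  have hEfpf : ∀ a ∈ E, a ≠ 1 → ∀ v ∈ V, a * v = v * a → v = 1 := by
    intro y hy hy1 v hv hc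
    exact hfpf y (hEH hy) hy1 v hv hc
  have hcyc : IsCyclic E := by
    rcases lt_or_gt_of_ne hsnet with hlt | hlt
    · exact Cfsg.Agent.Lib.Frobenius.Norm.isCyclic_of_card_mul_of_fpf E V hVne hEV hEfpf hsp ht hlt
        (by rw [hEcard]; ring)
    · exact Cfsg.Agent.Lib.Frobenius.Norm.isCyclic_of_card_mul_of_fpf E V hVne hEV hEfpf ht hsp hlt
        hEcard
  obtain ⟨y, hy⟩ := hcyc.exists_generator
  have hyo : orderOf (y : G) = t * s := by
    rw [Subgroup.orderOf_coe, orderOf_eq_card_of_forall_mem_zpowers hy, hEcard]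
  rcases h (y : G) with h1 | h1
  · rw [hyo] at h1
    exact not_isPrimePow_mul ht.ne_one hsp.ne_one ((Nat.coprime_primes ht hsp).mpr (Ne.symm hsnet)) h1
  · rw [h1, orderOf_one] at hyo
    exact ht.ne_one (Nat.eq_one_of_mul_eq_one_right hyo.symm)

end Cfsg.Agent.S1475
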