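import Cfsg.Statements.S1477
import Mathlib
import Cfsg.Agent.Lib.Nilpotent.CN

set_option autoImplicit false
open Cfsg

namespace Cfsg.Agent.S1477

open Cfsg.Agent.Lib.Nilpotent.CN

/-- Let G be a finite group in which every non-identity element has nilpotent centralizer, and H a nilpotent subgroup not properly contained in any nilpotent subgroup. Then the order of H is coprime to its index; if the order of H is not a prime power then H ∩ gHg⁻¹ = 1 whenever gHg⁻¹ ≠ H; and if H ∩ gHg⁻¹ = 1 whenever gHg⁻¹ ≠ H, then C_G(x) ≤ H for every non-identity x ∈ H. -/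
theorem result {G : Type*} [Group G] [Finite G] (hCN : Cfsg.IsCNGroup G) (H : Subgroup G) (hH : Group.IsNilpotent H)
    (hmax : ∀ L : Subgroup G, Group.IsNilpotent L → H ≤ L → L = H) :
    (Nat.card H).Coprime H.index ∧
      (¬ IsPrimePow (Nat.card H) → Nat.card H ≠ 1 → ∀ g : G, H.map (MulAut.conj g).toMonoidHom ≠ H → H ⊓ H.map (MulAut.conj g).toMonoidHom = ⊥) ∧
      ((∀ g : G, H.map (MulAut.conj g).toMonoidHom ≠ H → H ⊓ H.map (MulAut.conj g).toMonoidHom = ⊥) → ∀ x ∈ H, x ≠ 1 → Subgroup.centralizer ({x} : Set G) ≤ H) :=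
  ⟨coprime_card_index hCN hH hmax,
    fun hpp h1 g hne => map_conj_eq_of_not_isPrimePow hCN hH hmax hpp h1 g hne,
    fun hTI _ hx hx1 => centralizer_le_of_TI hCN hH hmax hTI hx hx1⟩

end Cfsg.Agent.S1477
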