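import Cfsg.Statements.S1483
import Mathlib
import Cfsg.Agent.Lib.Nilpotent.CNMinimal
-- import your own Cfsg.Agent.* helpers here

set_option autoImplicit false
open Cfsg

namespace Cfsg.Agent.S1483

open Cfsg.Agent.Lib.Nilpotent.CNMinimal Cfsg.Agent.Lib.Nilpotent.CN Cfsg.Agent.Lib.Nilpotent.Elements

/-- Let G be a minimal simple group of odd order in which every non-identity element has nilpotent centralizer. Then any two nilpotent subgroups each contained in no larger nilpotent subgroup are either conjugate or of coprime orders; and for primes p, q, r: if some elements x, y ≠ 1 of p-power and q-power order commute, and some elements y', z ≠ 1 of q-power and r-power order commute, then some elements of p-power and r-power order, both ≠ 1, commute. -/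
theorem result {G : Type*} [Group G] [Finite G] (hG : Cfsg.IsMinSimpleOddOrder G) (hCN : Cfsg.IsCNGroup G) :
    (∀ H₁ H₂ : Subgroup G, (Group.IsNilpotent ↥H₁ ∧ ∀ L : Subgroup G, Group.IsNilpotent L → H₁ ≤ L → L = H₁) → (Group.IsNilpotent ↥H₂ ∧ ∀ L : Subgroup G, Group.IsNilpotent L → H₂ ≤ L → L = H₂) → (∃ g : G, H₂ = H₁.map (MulAut.conj g).toMonoidHom) ∨ (Nat.card H₁).Coprime (Nat.card H₂)) ∧
      ∀ (p q r : ℕ), p.Prime → q.Prime → r.Prime → ∀ (x y y' z : G), x ≠ 1 → y ≠ 1 → y' ≠ 1 → z ≠ 1 →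
        IsPGroup p (Subgroup.zpowers x) → IsPGroup q (Subgroup.zpowers y) → IsPGroup q (Subgroup.zpowers y') → IsPGroup r (Subgroup.zpowers z) →
        x * y = y * x → y' * z = z * y' →
        ∃ x' z' : G, x' ≠ 1 ∧ z' ≠ 1 ∧ IsPGroup p (Subgroup.zpowers x') ∧ IsPGroup r (Subgroup.zpowers z') ∧ x' * z' = z' * x' := by
  classical
  refine ⟨?_, ?_⟩
  · rintro H₁ H₂ ⟨hH₁, hmax₁⟩ ⟨hH₂, hmax₂⟩
    by_cases hcop : (Nat.card H₁).Coprime (Nat.card H₂)
    · exact Or.inr hcop
    · left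
      obtain ⟨p, hp, h₁, h₂⟩ := Nat.Prime.not_coprime_iff_dvd.1 hcop
      haveI : Fact p.Prime := ⟨hp⟩
      exact maxNil_conj_of_prime_dvd hG hCN hH₁ hmax₁ hH₂ hmax₂ h₁ h₂
  · intro p q r hp hq hr x y y' z hx hy hy' hz hxp hyq hy'q hzr hxy hy'z
    by_cases hpr : p = r
    · subst hpr
      exact ⟨x, x, hx, hx, hxp, hxp, rfl⟩
    haveI : Fact p.Prime := ⟨hp⟩
    haveI : Fact q.Prime := ⟨hq⟩
    haveI : Fact r.Prime := ⟨hr⟩
    obtain ⟨H, hCH, hH, hmax⟩ := exists_maxNil_ge (hCN y hy)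
    obtain ⟨H', hCH', hH', hmax'⟩ := exists_maxNil_ge (hCN y' hy')
    have hxH : x ∈ H := hCH (Subgroup.mem_centralizer_singleton_iff.2 hxy)
    have hyH : y ∈ H := hCH (Subgroup.mem_centralizer_singleton_iff.2 rfl)
    have hzH' : z ∈ H' := hCH' (Subgroup.mem_centralizer_singleton_iff.2 hy'z.symm)
    have hy'H' : y' ∈ H' := hCH' (Subgroup.mem_centralizer_singleton_iff.2 rfl)
    have hdiv : ∀ {w : G} {K : Subgroup G}, w ∈ K → w ≠ 1 → IsPGroup q (Subgroup.zpowers w) →
        q ∣ Nat.card K := by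
      intro w K hw hw1 hwp
      obtain ⟨n, hn⟩ := IsPGroup.iff_card.1 hwp
      rw [Nat.card_zpowers] at hn
      have hn0 : n ≠ 0 := by
        rintro rfl
        rw [pow_zero] at hn
        exact hw1 (orderOf_eq_one_iff.1 hn)
      have h1 : orderOf w ∣ Nat.card K := Subgroup.orderOf_dvd_natCard K hw
      rw [hn] at h1
      exact (dvd_pow_self q hn0).trans h1
    obtain ⟨g, hg⟩ := maxNil_conj_of_prime_dvd hG hCN hH hmax hH' hmax' (hdiv hyH hy hyq) (hdiv hy'H' hy' hy'q)
    have hzmem : z ∈ H.map (MulAut.conj g).toMonoidHom := hg ▸ hzH'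
    obtain ⟨w, hw, hwz⟩ := hzmem
    have hwz' : g * w * g⁻¹ = z := hwz
    have hordw : orderOf w = orderOf z := by
      rw [← hwz']
      exact ((MulAut.conj g).orderOf_eq w).symm
    have hw1 : w ≠ 1 := by
      rintro rfl
      apply hz
      rw [← hwz']
      group
    obtain ⟨a, ha⟩ := IsPGroup.iff_card.1 hxp
    obtain ⟨b, hb⟩ := IsPGroup.iff_card.1 hzr
    rw [Nat.card_zpowers] at ha hb
    refine ⟨x, w, hx, hw1, hxp, ?_, ?_⟩
    · rw [IsPGroup.iff_card, Nat.card_zpowers, hordw]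
      exact ⟨b, hb⟩
    · haveI := hH
      have hcomm : Commute (⟨x, hxH⟩ : H) (⟨w, hw⟩ : H) := by
        apply commute_of_coprime_orderOf
        rw [Subgroup.orderOf_mk, Subgroup.orderOf_mk, ha, hordw, hb]
        exact Nat.Coprime.pow a b ((Nat.coprime_primes hp hr).2 hpr)
      exact congrArg Subtype.val hcomm

end Cfsg.Agent.S1483
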