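import Cfsg.Statements.S1485
import Mathlib
import Cfsg.Agent.Lib.Char.IndConj
-- import your own Cfsg.Agent.* helpers here

set_option autoImplicit false
open Cfsg

namespace Cfsg.Agent.S1485

/-- Let H be a normal subgroup of the finite group G and θ an irreducible character of H. On H, the function induced from θ equals r times the sum of the distinct G-conjugates of θ, where r is the number of elements of G fixing θ under conjugation divided by the order of H (the index of H in the inertia group). -/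
theorem result {G : Type*} [Group G] [Fintype G] (H : Subgroup G) [hN : H.Normal] (θ : H → ℂ) (hθ : Cfsg.IsIrrCharacter H θ) : (fun h : H => Cfsg.indFun H θ h) = ((Nat.card {g : G // ∀ h : H, θ ⟨g * h * g⁻¹, hN.conj_mem h h.2 g⟩ = θ h} : ℂ) / (Nat.card H : ℂ)) • ∑ᶠ ψ ∈ {ψ : H → ℂ | ∃ g : G, ψ = fun h : H => θ ⟨g * h * g⁻¹, hN.conj_mem h h.2 g⟩}, ψ := by
  classical
  have := Fintype.ofFinite H
  have hH : (Nat.card H : ℂ) ≠ 0 := Cfsg.Agent.Lib.Char.Induced.natCard_ne_zero_complex
  let s : Finset (H → ℂ) := Finset.univ.image (fun y : G => Cfsg.Agent.Lib.Char.IndNormal.conjFun H θ y)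
  have hset : {ψ : H → ℂ | ∃ g : G, ψ = fun h : H => θ ⟨g * h * g⁻¹, hN.conj_mem h h.2 g⟩} = ↑s := by
    ext ψ
    simp only [Set.mem_setOf_eq, s, Finset.coe_image, Finset.coe_univ, Set.image_univ, Set.mem_range]
    constructor
    · rintro ⟨g, rfl⟩
      exact ⟨g, rfl⟩
    · rintro ⟨g, rfl⟩
      exact ⟨g, rfl⟩
  rw [hset, finsum_mem_coe_finset]
  funext h
  rw [Pi.smul_apply, Finset.sum_apply, Cfsg.Agent.Lib.Char.IndNormal.indFun_apply_normal]
  set T := {g : G // ∀ h : H, θ ⟨g * h * g⁻¹, hN.conj_mem h h.2 g⟩ = θ h} with hTdef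
  have hfib : ∑ y : G, Cfsg.Agent.Lib.Char.IndNormal.conjFun H θ y h
      = (Nat.card T : ℂ) * ∑ ψ ∈ s, ψ h := by
    refine Cfsg.Agent.Lib.Char.Induced.sum_comp_of_fiber_card
      (fun y : G => Cfsg.Agent.Lib.Char.IndNormal.conjFun H θ y) s ?_ (Nat.card T) ?_ (fun ψ => ψ h)
    · intro b
      simp [s]
    · intro ψ hψ
      obtain ⟨y0, -, rfl⟩ := Finset.mem_image.1 hψ
      rw [Nat.card_eq_fintype_card, ← Finset.card_univ]
      symm
      refine Finset.card_bij (fun t _ => (t : G) * y0) ?_ ?_ ?_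
      · intro t _
        simp only [Finset.mem_filter, Finset.mem_univ, true_and]
        rw [Cfsg.Agent.Lib.Char.IndNormal.conjFun_mul]
        congr 1
        funext h'
        exact t.2 h'
      · intro a _ b _ hab
        exact Subtype.ext (mul_right_cancel hab)
      · intro b hb
        have hb' := (Finset.mem_filter.1 hb).2
        refine ⟨⟨b * y0⁻¹, ?_⟩, Finset.mem_univ _, by simp⟩
        intro h'
        have h1 : Cfsg.Agent.Lib.Char.IndNormal.conjFun H θ (b * y0⁻¹) = θ := by
          rw [Cfsg.Agent.Lib.Char.IndNormal.conjFun_mul, hb', ← Cfsg.Agent.Lib.Char.IndNormal.conjFun_mul,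
            mul_inv_cancel, Cfsg.Agent.Lib.Char.IndNormal.conjFun_one]
        exact congrFun h1 h'
  rw [hfib, smul_eq_mul, div_eq_mul_inv]
  ring

end Cfsg.Agent.S1485
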