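import Cfsg.Statements.S1487
import Mathlib
import Cfsg.Agent.Lib.Char.IndConj
import Cfsg.Agent.Lib.Char.Values
import Cfsg.Agent.Lib.Char.Basic
-- import your own Cfsg.Agent.* helpers here

set_option autoImplicit false
open Cfsg

namespace Cfsg.Agent.S1487

/-- Let A ≤ H be normal subgroups of the finite group G and θ an irreducible character of H. Then θ takes the value θ 1 on all of A if and only if the function induced from θ to G takes its value at 1 on all of A. -/
theorem result {G : Type*} [Group G] [Fintype G] (A H : Subgroup G) [A.Normal] [H.Normal] (hAH : A ≤ H) (θ : H → ℂ) (hθ : Cfsg.IsIrrCharacter H θ) : (∀ a : H, (a : G) ∈ A → θ a = θ 1) ↔ (∀ a : G, a ∈ A → Cfsg.indFun H θ a = Cfsg.indFun H θ 1) := by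
  classical
  have := Fintype.ofFinite H
  have hH : (Nat.card H : ℂ) ≠ 0 := Cfsg.Agent.Lib.Char.Induced.natCard_ne_zero_complex
  have hχ := Cfsg.Agent.Lib.Char.Basic.isCharacter_of_isIrrCharacter hθ
  have hone : ∀ g : G, g * ((1 : H) : G) * g⁻¹ = ((1 : H) : G) := by intro g; simp
  have hind1 : Cfsg.indFun H θ 1 = (Nat.card H : ℂ)⁻¹ * ∑ y : G, θ 1 := by
    have := Cfsg.Agent.Lib.Char.IndNormal.indFun_apply_normal H θ (1 : H)
    simp only [OneMemClass.coe_one] at this
    rw [this]
    congr 1
    refine Finset.sum_congr rfl fun y _ => ?_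
    simp only [Cfsg.Agent.Lib.Char.IndNormal.conjFun_apply]
    congr 1
    apply Subtype.ext
    simp
  constructor
  · intro h a ha
    have haH := hAH ha
    have := Cfsg.Agent.Lib.Char.IndNormal.indFun_apply_normal H θ ⟨a, haH⟩
    simp only at this
    rw [this, hind1]
    congr 1
    refine Finset.sum_congr rfl fun y _ => ?_
    simp only [Cfsg.Agent.Lib.Char.IndNormal.conjFun_apply]
    exact h _ (Subgroup.Normal.conj_mem inferInstance a ha y)
  · intro h a ha
    have h1 := h (a : G) ha
    have h2 := Cfsg.Agent.Lib.Char.IndNormal.indFun_apply_normal H θ a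
    rw [h2, hind1] at h1
    have h3 := mul_left_cancel₀ (inv_ne_zero hH) h1
    obtain ⟨d, hd⟩ := Cfsg.Agent.Lib.Char.Values.IsCharacter.exists_one_eq hχ
    have hnorm : ∀ b : H, ‖θ b‖ ≤ (d : ℝ) := by
      intro b
      have := Cfsg.Agent.Lib.Char.Values.IsCharacter.norm_le hχ b
      rwa [hd, Complex.norm_natCast] at this
    have hre : ∀ y : G, (d : ℝ) - (Cfsg.Agent.Lib.Char.IndNormal.conjFun H θ y a).re = 0 := by
      have h5 : ∑ y : G, ((d : ℝ) - (Cfsg.Agent.Lib.Char.IndNormal.conjFun H θ y a).re) = 0 := by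
        have h6 := congrArg Complex.re h3
        simp only [Complex.re_sum, hd, Complex.natCast_re] at h6
        rw [Finset.sum_sub_distrib, h6, sub_self]
      have h7 := (Finset.sum_eq_zero_iff_of_nonneg (fun y _ => ?_)).1 h5
      · exact fun y => h7 y (Finset.mem_univ y)
      · simp only [Cfsg.Agent.Lib.Char.IndNormal.conjFun_apply]
        have h8 := hnorm ⟨y * a * y⁻¹, Subgroup.Normal.conj_mem inferInstance (a : G) a.2 y⟩
        have h9 := Complex.re_le_norm (θ ⟨y * a * y⁻¹, Subgroup.Normal.conj_mem inferInstance (a : G) a.2 y⟩)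
        linarith
    have h10 := hre 1
    rw [Cfsg.Agent.Lib.Char.IndNormal.conjFun_one] at h10
    have h11 : (θ a).re = d := by linarith
    have h12 := hnorm a
    have h13 : (θ a).im = 0 := by
      have h14 : ‖θ a‖ ^ 2 = (θ a).re ^ 2 + (θ a).im ^ 2 := by
        rw [Complex.sq_norm, Complex.normSq_apply]; ring
      have h15 : (0 : ℝ) ≤ ‖θ a‖ := norm_nonneg _
      have h16 : ‖θ a‖ ^ 2 ≤ (d : ℝ) ^ 2 := by
        exact pow_le_pow_left₀ h15 h12 2
      rw [h14, h11] at h16
      nlinarith [sq_nonneg (θ a).im]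
    apply Complex.ext
    · rw [h11, hd, Complex.natCast_re]
    · rw [h13, hd, Complex.natCast_im]

end Cfsg.Agent.S1487
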