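import Cfsg.Statements.S1488
import Mathlib
import Cfsg.Agent.Lib.Char.IndRep
-- import your own Cfsg.Agent.* helpers here

set_option autoImplicit false
open Cfsg

namespace Cfsg.Agent.S1488

/-- Let A be a normal subgroup of the finite group G contained in the subgroup H, let θ be a function on H and θ₁ a function on the image of H in G ⧸ A whose composite with the projection is θ. Then the function induced from θ₁ to G ⧸ A, composed with the projection G → G ⧸ A, equals the function induced from θ to G. -/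
theorem result {G : Type*} [Group G] [Fintype G] (A H : Subgroup G) [A.Normal] (hAH : A ≤ H) [Fintype (G ⧸ A)] [Fintype ↥(H.map (QuotientGroup.mk' A))] (θ : H → ℂ) (θ₁ : ↥(H.map (QuotientGroup.mk' A)) → ℂ) (hθ : ∀ x : H, θ₁ ⟨QuotientGroup.mk' A x, Subgroup.mem_map_of_mem _ x.2⟩ = θ x) (g : G) : Cfsg.indFun (H.map (QuotientGroup.mk' A)) θ₁ (QuotientGroup.mk' A g) = Cfsg.indFun H θ g := by
  classical
  have := Fintype.ofFinite H
  have := Fintype.ofFinite A
  let π := QuotientGroup.mk' A
  let Hb := H.map π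
  have hH : (Nat.card H : ℂ) ≠ 0 := Cfsg.Agent.Lib.Char.Induced.natCard_ne_zero_complex
  have hA : (Nat.card A : ℂ) ≠ 0 := Cfsg.Agent.Lib.Char.Induced.natCard_ne_zero_complex
  have hHb : (Nat.card Hb : ℂ) ≠ 0 := Cfsg.Agent.Lib.Char.Induced.natCard_ne_zero_complex
  -- `H` is the preimage of its image
  have hmem : ∀ a : G, π a ∈ Hb ↔ a ∈ H := by
    intro a
    constructor
    · rintro ⟨x, hx, hxa⟩
      have h1 : x⁻¹ * a ∈ A := QuotientGroup.eq.mp hxa
      have h2 : a = x * (x⁻¹ * a) := by group
      rw [h2]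
      exact H.mul_mem hx (hAH h1)
    · intro ha
      exact Subgroup.mem_map_of_mem _ ha
  have hext : ∀ a : G, Cfsg.extendByZero H θ a = Cfsg.extendByZero Hb θ₁ (π a) := by
    intro a
    by_cases ha : a ∈ H
    · rw [Cfsg.Agent.Lib.Char.Induced.extendByZero_of_mem _ _ ha,
        Cfsg.Agent.Lib.Char.Induced.extendByZero_of_mem _ _ ((hmem a).2 ha)]
      exact (hθ ⟨a, ha⟩).symm
    · rw [Cfsg.Agent.Lib.Char.Induced.extendByZero_of_notMem _ _ ha,
        Cfsg.Agent.Lib.Char.Induced.extendByZero_of_notMem _ _ (fun h => ha ((hmem a).1 h))]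
  have hcard : (Nat.card H : ℂ) = (Nat.card A : ℂ) * (Nat.card Hb : ℂ) := by
    have h1 : Nat.card H = Nat.card A * Nat.card Hb := by
      let f : H →* Hb := π.subgroupMap H
      have hsurj : Function.Surjective f := π.subgroupMap_surjective H
      have hker : f.ker = A.subgroupOf H := by
        ext x
        rw [MonoidHom.mem_ker, Subgroup.mem_subgroupOf]
        have : f x = 1 ↔ π (x : G) = 1 := by
          rw [Subtype.ext_iff]
          rfl
        rw [this]
        exact QuotientGroup.eq_one_iff _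
      have h2 : Nat.card f.ker = Nat.card A := by
        rw [hker]
        exact Nat.card_congr (Subgroup.subgroupOfEquivOfLe hAH).toEquiv
      have h3 : f.ker.index = Nat.card Hb := by
        rw [Subgroup.index_ker, MonoidHom.range_eq_top.2 hsurj]
        exact Nat.card_congr Subgroup.topEquiv.toEquiv
      rw [← h2, ← h3, Subgroup.card_mul_index]
    exact_mod_cast h1
  rw [Cfsg.Agent.Lib.Char.Induced.indFun_apply, Cfsg.Agent.Lib.Char.Induced.indFun_apply]
  change (Nat.card Hb : ℂ)⁻¹ * ∑ c : G ⧸ A, Cfsg.extendByZero Hb θ₁ (c⁻¹ * π g * c) = _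
  have hsum : ∑ x : G, Cfsg.extendByZero H θ (x⁻¹ * g * x)
      = (Nat.card A : ℂ) * ∑ c : G ⧸ A, Cfsg.extendByZero Hb θ₁ (c⁻¹ * π g * c) := by
    rw [Cfsg.Agent.Lib.Char.IndRep.sum_eq_card_mul_sum_quotient A]
    · congr 1
      refine Finset.sum_congr rfl fun c _ => ?_
      rw [hext]
      have hc : π (Quotient.out c) = c := Quotient.out_eq' c
      simp only [map_mul, map_inv, hc]
    · intro x a
      rw [hext, hext (x⁻¹ * g * x)]
      congr 1
      simp only [map_mul, map_inv]
      have h1 : π (a : G) = 1 := (QuotientGroup.eq_one_iff _).2 a.2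
      simp [h1]
  rw [hsum, hcard]
  field_simp

end Cfsg.Agent.S1488
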