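import Cfsg.Statements.S1489
import Mathlib
import Cfsg.Agent.Lib.Char.CliffordCorr
-- import your own Cfsg.Agent.* helpers here

set_option autoImplicit false
open Cfsg

namespace Cfsg.Agent.S1489

/-- Let H be a normal subgroup of the finite group G, θ an irreducible character of H, and T the inertia group of θ (the elements g with θ(g h g⁻¹) = θ(h) for all h ∈ H). If ψ and ψ' are irreducible characters of T having nonzero inner product with the function induced from θ to T, then the function induced from ψ to G is an irreducible character of G, and it equals the one induced from ψ' only if ψ = ψ'. -/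
theorem result {G : Type*} [Group G] [Fintype G] (H T : Subgroup G) [hN : H.Normal] [Fintype T] (θ : H → ℂ) (hθ : Cfsg.IsIrrCharacter H θ) (hT : ∀ g : G, g ∈ T ↔ ∀ h : H, θ ⟨g * h * g⁻¹, hN.conj_mem h h.2 g⟩ = θ h) (hHT : H ≤ T) (ψ ψ' : T → ℂ) (hψ : Cfsg.IsIrrCharacter T ψ) (hψ' : Cfsg.IsIrrCharacter T ψ') (hc : Cfsg.classInner (Cfsg.indFun (H.subgroupOf T) (fun x => θ ⟨(x : T), Subgroup.mem_subgroupOf.mp x.2⟩)) ψ ≠ 0) (hc' : Cfsg.classInner (Cfsg.indFun (H.subgroupOf T) (fun x => θ ⟨(x : T), Subgroup.mem_subgroupOf.mp x.2⟩)) ψ' ≠ 0) : Cfsg.IsIrrCharacter G (Cfsg.indFun T ψ) ∧ (Cfsg.indFun T ψ = Cfsg.indFun T ψ' → ψ = ψ') := by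
  classical
  letI : Fintype H := Fintype.ofFinite _
  letI : Fintype (H.subgroupOf T) := Fintype.ofFinite _
  have key : ∀ ψ₀ : T → ℂ, IsIrrCharacter T ψ₀ →
      Cfsg.classInner (Cfsg.indFun (H.subgroupOf T)
        (fun x => θ ⟨(x : T), Subgroup.mem_subgroupOf.mp x.2⟩)) ψ₀ ≠ 0 →
      Cfsg.classInner (Cfsg.Agent.Lib.Char.CliffordCorr.resT H T hHT ψ₀) θ ≠ 0 := by
    intro ψ₀ hψ₀ hc₀
    have hcl := Cfsg.Agent.Lib.Char.Basic.isClassFunction_of_isCharacter
      (Cfsg.Agent.Lib.Char.Basic.isCharacter_of_isIrrCharacter hψ₀)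
    rw [Cfsg.Agent.Lib.Char.Induced.frobenius_reciprocity (H.subgroupOf T) _ ψ₀ hcl] at hc₀
    let e : H.subgroupOf T ≃* H := Subgroup.subgroupOfEquivOfLe hHT
    have h1 := Cfsg.Agent.Lib.Char.Clifford.classInner_comp_equiv e θ
      (Cfsg.Agent.Lib.Char.CliffordCorr.resT H T hHT ψ₀)
    intro h0
    apply hc₀
    have h2 : Cfsg.classInner θ (Cfsg.Agent.Lib.Char.CliffordCorr.resT H T hHT ψ₀) = 0 := by
      rw [← Cfsg.Agent.Lib.Char.Ortho.classInner_conj_symm, h0]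
      simp
    rw [h2] at h1
    exact h1
  exact ⟨Cfsg.Agent.Lib.Char.CliffordCorr.isIrr_indFun H θ T hHT hθ hT hψ (key ψ hψ hc),
    Cfsg.Agent.Lib.Char.CliffordCorr.eq_of_indFun_eq H θ T hHT hθ hT hψ hψ' (key ψ hψ hc)
      (key ψ' hψ' hc')⟩

end Cfsg.Agent.S1489
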