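import Cfsg.Statements.S1490
import Mathlib
import Cfsg.Agent.Lib.Char.AbelianQuot
-- import your own Cfsg.Agent.* helpers here

set_option autoImplicit false
open Cfsg

namespace Cfsg.Agent.S1490

open Cfsg.Agent.Lib.Char.Basic Cfsg.Agent.Lib.Char.Ortho Cfsg.Agent.Lib.Char.Induced
  Cfsg.Agent.Lib.Char.IndRep Cfsg.Agent.Lib.Char.Clifford Cfsg.Agent.Lib.Char.CliffordCorr
  Cfsg.Agent.Lib.Char.Gallagher Cfsg.Agent.Lib.Char.GallagherAvg Cfsg.Agent.Lib.Char.AbelianQuot

/-- Let H be a normal subgroup of the finite group G, θ an irreducible character of H with inertia group T, and suppose the commutator of any two elements of T lies in H (T/H abelian). Then there are a positive integer e and a finite set C of irreducible characters of G with e ^ 2 * |C| * |H| = |T|, such that the function induced from θ is e times the sum of the members of C and every member of C has degree [G:T] * e * θ(1). -/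
theorem result {G : Type*} [Group G] [Fintype G] (H T : Subgroup G) [hN : H.Normal] (θ : H → ℂ) (hθ : Cfsg.IsIrrCharacter H θ) (hT : ∀ g : G, g ∈ T ↔ ∀ h : H, θ ⟨g * h * g⁻¹, hN.conj_mem h h.2 g⟩ = θ h) (hab : ∀ x ∈ T, ∀ y ∈ T, x * y * x⁻¹ * y⁻¹ ∈ H) : ∃ (e : ℕ) (C : Finset (G → ℂ)), 0 < e ∧ (∀ χ ∈ C, Cfsg.IsIrrCharacter G χ) ∧ e ^ 2 * C.card * Nat.card H = Nat.card T ∧ Cfsg.indFun H θ = (e : ℂ) • ∑ χ ∈ C, χ ∧ ∀ χ ∈ C, χ 1 = (T.index : ℂ) * e * θ 1 := by
  classical
  letI : Fintype H := Fintype.ofFinite _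
  letI : Fintype T := Fintype.ofFinite _
  letI : Fintype (H.subgroupOf T) := Fintype.ofFinite _
  have hθc := isCharacter_of_isIrrCharacter hθ
  have hθcl := isClassFunction_of_isCharacter hθc
  have hHT : H ≤ T := by
    intro h hh
    refine (hT h).mpr (fun n => ?_)
    exact hθcl n ⟨h, hh⟩
  let e₀ : H.subgroupOf T ≃* H := Subgroup.subgroupOfEquivOfLe hHT
  let θ' : H.subgroupOf T → ℂ := fun x => θ (e₀ x)
  have hθ' : IsIrrCharacter (H.subgroupOf T) θ' :=
    isIrrCharacter_comp_surjective hθ e₀.toMonoidHom e₀.surjective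
  have hab' : ∀ x y : T, x * y * x⁻¹ * y⁻¹ ∈ H.subgroupOf T := by
    intro x y
    rw [Subgroup.mem_subgroupOf]
    exact hab x x.2 y y.2
  have hinv : ∀ (g : T) (n : H.subgroupOf T),
      θ' ⟨g * n * g⁻¹, (inferInstance : (H.subgroupOf T).Normal).conj_mem (n : T) n.2 g⟩ = θ' n := by
    intro g n
    exact (hT g).mp g.2 (e₀ n)
  obtain ⟨e, Ξ, he, hΞ, hΞe, hdec, hcard⟩ := indFun_of_abelian (H.subgroupOf T) hab' hθ' hinv
  have htrans : ∀ ψ : T → ℂ, classInner (fun n : H.subgroupOf T => ψ n) θ' =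
      classInner (resT H T hHT ψ) θ := fun ψ => classInner_comp_equiv e₀ (resT H T hHT ψ) θ
  have key : ∀ ψ ∈ Ξ, classInner (resT H T hHT (ψ : T → ℂ)) θ ≠ 0 := by
    intro ψ hψ
    rw [← htrans]
    exact (hΞ ψ).mp hψ
  let F : IrrCharacter T → G → ℂ := fun ψ => indFun T (ψ : T → ℂ)
  have hFinj : Set.InjOn F Ξ := by
    intro ψ hψ ψ' hψ' h
    exact Subtype.ext (eq_of_indFun_eq H θ T hHT hθ hT ψ.2 ψ'.2 (key ψ hψ) (key ψ' hψ') h)
  refine ⟨e, Ξ.image F, he, ?_, ?_, ?_, ?_⟩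
  · intro χ hχ
    obtain ⟨ψ, hψ, rfl⟩ := Finset.mem_image.mp hχ
    exact isIrr_indFun H θ T hHT hθ hT ψ.2 (key ψ hψ)
  · rw [Finset.card_image_of_injOn hFinj, hcard]
    have h1 : Nat.card (H.subgroupOf T) = Nat.card H := Nat.card_congr e₀.toEquiv
    rw [← h1]
    exact Subgroup.index_mul_card _
  · have h1 : indFun H θ = indFun T (indFun (H.subgroupOf T) θ') := (indFun_trans H T hHT θ).symm
    rw [h1, hdec, indFun_smul_sum, Finset.sum_image hFinj, Finset.smul_sum]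
  · intro χ hχ
    obtain ⟨ψ, hψ, rfl⟩ := Finset.mem_image.mp hχ
    have h3 := res_eq_smul_of_invariant (H.subgroupOf T) ψ.2 hθ' ((hΞ ψ).mp hψ) hinv
    rw [hΞe ψ hψ] at h3
    have h4 := congrFun h3 1
    simp only [Pi.smul_apply, smul_eq_mul, Subgroup.coe_one] at h4
    simp only [F]
    rw [indFun_one T, h4, mul_assoc]
    rfl

end Cfsg.Agent.S1490
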