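import Cfsg.Statements.S1491
import Mathlib
import Cfsg.Agent.Lib.Char.AbelianQuot
import Cfsg.Agent.Lib.Char.DetExt2
import Cfsg.Agent.S0867
-- import your own Cfsg.Agent.* helpers here

set_option autoImplicit false
open Cfsg

namespace Cfsg.Agent.S1491

open Cfsg.Agent.Lib.Char.Basic Cfsg.Agent.Lib.Char.Ortho Cfsg.Agent.Lib.Char.Induced
  Cfsg.Agent.Lib.Char.IndRep Cfsg.Agent.Lib.Char.Clifford Cfsg.Agent.Lib.Char.CliffordCorr
  Cfsg.Agent.Lib.Char.Gallagher Cfsg.Agent.Lib.Char.GallagherAvg Cfsg.Agent.Lib.Char.AbelianQuot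
  Cfsg.Agent.Lib.Char.DetExt

/-- Let H be a normal subgroup of the finite group G and θ an irreducible character of H with inertia group T, where T/H is abelian (commutators of T lie in H) and the index of H in T is coprime to the order of H. Then the function induced from θ is the sum of a set of exactly [T:H] irreducible characters of G, each of degree [G:T] * θ(1). -/
theorem result {G : Type*} [Group G] [Fintype G] (H T : Subgroup G) [hN : H.Normal] (θ : H → ℂ) (hθ : Cfsg.IsIrrCharacter H θ) (hT : ∀ g : G, g ∈ T ↔ ∀ h : H, θ ⟨g * h * g⁻¹, hN.conj_mem h h.2 g⟩ = θ h) (hab : ∀ x ∈ T, ∀ y ∈ T, x * y * x⁻¹ * y⁻¹ ∈ H) (hcop : Nat.Coprime (Nat.card H) (H.relIndex T)) : ∃ C : Finset (G → ℂ), (∀ χ ∈ C, Cfsg.IsIrrCharacter G χ) ∧ C.card = H.relIndex T ∧ Cfsg.indFun H θ = ∑ χ ∈ C, χ ∧ ∀ χ ∈ C, χ 1 = (T.index : ℂ) * θ 1 := by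
  classical
  letI : Fintype H := Fintype.ofFinite _
  letI : Fintype T := Fintype.ofFinite _
  letI : Fintype (H.subgroupOf T) := Fintype.ofFinite _
  have hθc := isCharacter_of_isIrrCharacter hθ
  have hθcl := isClassFunction_of_isCharacter hθc
  have hHT : H ≤ T := by
    intro h hh
    refine (hT h).mpr (fun n => ?_)
    exact hθcl n ⟨h, hh⟩
  let e₀ : H.subgroupOf T ≃* H := Subgroup.subgroupOfEquivOfLe hHT
  let θ' : H.subgroupOf T → ℂ := fun x => θ (e₀ x)
  have hθ' : IsIrrCharacter (H.subgroupOf T) θ' :=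
    isIrrCharacter_comp_surjective hθ e₀.toMonoidHom e₀.surjective
  have hab' : ∀ x y : T, x * y * x⁻¹ * y⁻¹ ∈ H.subgroupOf T := by
    intro x y
    rw [Subgroup.mem_subgroupOf]
    exact hab x x.2 y y.2
  have hinv : ∀ (g : T) (n : H.subgroupOf T),
      θ' ⟨g * n * g⁻¹, (inferInstance : (H.subgroupOf T).Normal).conj_mem (n : T) n.2 g⟩ = θ' n := by
    intro g n
    exact (hT g).mp g.2 (e₀ n)
  obtain ⟨e, Ξ, he, hΞ, hΞe, hdec, hcard⟩ := indFun_of_abelian (H.subgroupOf T) hab' hθ' hinv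
  -- the extension of `θ'` to `T`
  have hcardH : Nat.card (H.subgroupOf T) = Nat.card H := Nat.card_congr e₀.toEquiv
  have hcop' : Nat.Coprime (H.subgroupOf T).index (Nat.card (H.subgroupOf T)) := by
    rw [hcardH]
    exact hcop.symm
  obtain ⟨d, hd⟩ := exists_degree_of_isCharacter (isCharacter_of_isIrrCharacter hθ')
  have hddvd : d ∣ Nat.card (H.subgroupOf T) := by
    obtain ⟨m, ρ, hρ, hρ2⟩ := hθ'
    haveI := hρ
    have h1 := Cfsg.Agent.Lib.Char.Integrality.finrank_dvd_card ρ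
    rw [← hρ2, ρ.char_one] at hd
    have h2 : Module.finrank ℂ (Fin m → ℂ) = d := by exact_mod_cast hd
    rwa [h2] at h1
  have hodvd : detOrder θ' ∣ Nat.card (H.subgroupOf T) := by
    obtain ⟨l, hl⟩ := exists_hom_detChar (isCharacter_of_isIrrCharacter hθ')
    unfold detOrder
    apply orderOf_dvd_of_pow_eq_one
    funext n
    simp only [Pi.pow_apply, Pi.one_apply, hl]
    have : l n ^ Nat.card (H.subgroupOf T) = 1 := by
      rw [← map_pow, pow_card_eq_one', map_one]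
    have h2 := congrArg (fun u : ℂˣ => (u : ℂ)) this
    simpa using h2
  have hcop2 : Nat.Coprime (H.subgroupOf T).index (detOrder θ' * d) :=
    Nat.Coprime.mul_right (Nat.Coprime.coprime_dvd_right hodvd hcop')
      (Nat.Coprime.coprime_dvd_right hddvd hcop')
  obtain ⟨ψ₀, ⟨hψ₀, hψ₀ext, -⟩, -⟩ := Cfsg.Agent.S0867.result (H.subgroupOf T) θ' hθ' hinv d hd hcop2
  have hψ₀in : classInner (fun n : H.subgroupOf T => ψ₀ n) θ' = 1 := by
    have : (fun n : H.subgroupOf T => ψ₀ n) = θ' := funext hψ₀ext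
    rw [this]
    exact classInner_irr_self hθ'
  have hmem : (⟨ψ₀, hψ₀⟩ : IrrCharacter T) ∈ Ξ := by
    rw [hΞ]
    simp only
    rw [hψ₀in]
    exact one_ne_zero
  have he1 : e = 1 := by
    have := hΞe _ hmem
    simp only at this
    rw [hψ₀in] at this
    exact_mod_cast this.symm
  subst he1
  have hcard2 : Ξ.card = H.relIndex T := by
    have h1 : 1 ^ 2 * Ξ.card = (H.subgroupOf T).index := hcard
    rw [one_pow, one_mul] at h1
    exact h1
  have htrans : ∀ ψ : T → ℂ, classInner (fun n : H.subgroupOf T => ψ n) θ' =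
      classInner (resT H T hHT ψ) θ := fun ψ => classInner_comp_equiv e₀ (resT H T hHT ψ) θ
  have key : ∀ ψ ∈ Ξ, classInner (resT H T hHT (ψ : T → ℂ)) θ ≠ 0 := by
    intro ψ hψ
    rw [← htrans]
    exact (hΞ ψ).mp hψ
  let F : IrrCharacter T → G → ℂ := fun ψ => indFun T (ψ : T → ℂ)
  have hFinj : Set.InjOn F Ξ := by
    intro ψ hψ ψ' hψ' h
    exact Subtype.ext (eq_of_indFun_eq H θ T hHT hθ hT ψ.2 ψ'.2 (key ψ hψ) (key ψ' hψ') h)
  refine ⟨Ξ.image F, ?_, ?_, ?_, ?_⟩
  · intro χ hχ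
    obtain ⟨ψ, hψ, rfl⟩ := Finset.mem_image.mp hχ
    exact isIrr_indFun H θ T hHT hθ hT ψ.2 (key ψ hψ)
  · rw [Finset.card_image_of_injOn hFinj, hcard2]
  · have h1 : indFun H θ = indFun T (indFun (H.subgroupOf T) θ') := (indFun_trans H T hHT θ).symm
    rw [h1, hdec, indFun_smul_sum, Finset.sum_image hFinj]
    refine Finset.sum_congr rfl (fun x _ => ?_)
    rw [Nat.cast_one, one_smul]
  · intro χ hχ
    obtain ⟨ψ, hψ, rfl⟩ := Finset.mem_image.mp hχ
    have h3 := res_eq_smul_of_invariant (H.subgroupOf T) ψ.2 hθ' ((hΞ ψ).mp hψ) hinv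
    rw [hΞe ψ hψ] at h3
    have h4 := congrFun h3 1
    simp only [Pi.smul_apply, smul_eq_mul, Subgroup.coe_one] at h4
    simp only [F]
    rw [indFun_one T, h4, Nat.cast_one, one_mul]
    rfl

end Cfsg.Agent.S1491
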