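import Cfsg.Statements.S1492
import Mathlib
import Cfsg.Agent.Lib.Char.CliffordCorr
import Cfsg.Agent.Lib.Char.Integrality
import Cfsg.Agent.Lib.Char.Values
-- import your own Cfsg.Agent.* helpers here

set_option autoImplicit false
open Cfsg
open Cfsg.Agent.Lib.Char

namespace Cfsg.Agent.S1492

/-- The equality case of the triangle inequality used below. -/
theorem eq_of_add_eq {a b A B : ℂ} {x y : ℝ} (ha : ‖a‖ ≤ x) (hb : ‖b‖ ≤ y) (hA : A = x) (hB : B = y)
    (h : a + b = A + B) : a = A := by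
  subst hA hB
  have h1 : a.re + b.re = x + y := by
    have := congrArg Complex.re h
    simpa using this
  have h2 : a.re ≤ x := (Complex.re_le_norm a).trans ha
  have h3 : b.re ≤ y := (Complex.re_le_norm b).trans hb
  have h4 : a.re = x := by linarith
  have h5 : a.im = 0 := by
    have h6 : ‖a‖ ^ 2 = a.re ^ 2 + a.im ^ 2 := by
      rw [← Complex.normSq_eq_norm_sq, Complex.normSq_apply]
      ring
    have hxnn : 0 ≤ x := (norm_nonneg a).trans ha
    have h7 : ‖a‖ ^ 2 ≤ x ^ 2 := by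
      exact pow_le_pow_left₀ (norm_nonneg a) ha 2
    rw [h6, h4] at h7
    have : a.im ^ 2 ≤ 0 := by linarith
    have h8 : a.im ^ 2 = 0 := le_antisymm this (sq_nonneg _)
    exact pow_eq_zero_iff (two_ne_zero) |>.mp h8
  apply Complex.ext
  · simpa using h4
  · simpa using h5

/-- Let ψ be an irreducible character of the finite group G and B ≤ D ≤ C subgroups with B normal in C, every commutator of an element of D with an element of C lying in B (so D/B is central in C/B), and ψ constant equal to ψ 1 on B. Then ψ(1) ^ 2 * |C| * |D| ≤ |G| ^ 2. -/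
theorem result {G : Type*} [Group G] [Finite G] (ψ : G → ℂ) (hψ : Cfsg.IsIrrCharacter G ψ) (B C D : Subgroup G) (hBD : B ≤ D) (hDC : D ≤ C) (hBn : ∀ c ∈ C, ∀ b ∈ B, c * b * c⁻¹ ∈ B) (hcent : ∀ d ∈ D, ∀ c ∈ C, d * c * d⁻¹ * c⁻¹ ∈ B) (hker : ∀ b ∈ B, ψ b = ψ 1) : ‖ψ 1‖ ^ 2 * (Nat.card C : ℝ) * (Nat.card D : ℝ) ≤ (Nat.card G : ℝ) ^ 2 := by
  classical
  letI : Fintype G := Fintype.ofFinite _
  letI : Fintype C := Fintype.ofFinite _
  have hψc := Basic.isCharacter_of_isIrrCharacter hψ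
  have hres := Basic.isCharacter_restrict hψc C
  have hψ1 := Ortho.irr_apply_one_ne_zero hψ
  obtain ⟨ξ, hξ, hne⟩ := CliffordCorr.exists_irr_constituent hres (by simpa using hψ1)
  have hξc := Basic.isCharacter_of_isIrrCharacter hξ
  obtain ⟨m, hm⟩ := Basic.exists_degree_of_isCharacter hψc
  -- the degree bound from induction
  obtain ⟨k, hk⟩ := Basic.exists_degree_of_isCharacter hξc
  have hmk : m ≤ C.index * k := by
    have hfr := Induced.frobenius_reciprocity C ξ ψ (Basic.isClassFunction_of_isCharacter hψc)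
    have hne' : classInner (indFun C ξ) ψ ≠ 0 := by
      rw [hfr, ← Ortho.classInner_conj_symm]
      intro h
      exact hne ((map_eq_zero _).mp h)
    obtain ⟨Ξ, hΞ, hsum⟩ := Clifford.exists_char_add (IndRep.isCharacter_indFun C hξc) hψ hne'
    obtain ⟨r, hr⟩ := Basic.exists_degree_of_isCharacter hΞ
    have h1 := congrFun hsum 1
    rw [Induced.indFun_one, hk, Pi.add_apply, hm, hr] at h1
    have h2 : C.index * k = m + r := by exact_mod_cast h1
    omega
  -- `B` lies in the kernel of `ξ`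
  obtain ⟨Ξ', hΞ', hsum'⟩ := Clifford.exists_char_add hres hξ hne
  obtain ⟨r', hr'⟩ := Basic.exists_degree_of_isCharacter hΞ'
  have hBC : B ≤ C := hBD.trans hDC
  have hkerξ : ∀ b : C, (b : G) ∈ B → ξ b = (k : ℂ) := by
    intro b hb
    have h1 := congrFun hsum' b
    have h2 := congrFun hsum' 1
    simp only [Pi.add_apply] at h1 h2
    have h3 : ψ b = ψ 1 := hker b hb
    have h4 : ξ b + Ξ' b = ξ 1 + Ξ' 1 := by
      rw [← h1, ← h2, h3]
      rfl
    have h5 : ‖ξ b‖ ≤ (k : ℝ) := by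
      have := Values.IsCharacter.norm_le hξc b
      rwa [hk, Complex.norm_natCast] at this
    have h6 : ‖Ξ' b‖ ≤ (r' : ℝ) := by
      have := Values.IsCharacter.norm_le hΞ' b
      rwa [hr', Complex.norm_natCast] at this
    have := eq_of_add_eq h5 h6 (A := ξ 1) (B := Ξ' 1) (by rw [hk]; simp) (by rw [hr']; simp) h4
    rw [this, hk]
  -- values on `D`
  obtain ⟨n', σ, hσirr, hσ⟩ := hξ
  haveI : σ.IsIrreducible := hσirr
  have hkn : k = n' := by
    have h1 : σ.character 1 = (k : ℂ) := by rw [hσ, hk]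
    rw [σ.char_one] at h1
    simp only [Module.finrank_fin_fun] at h1
    exact_mod_cast h1.symm
  have hσB : ∀ b : C, (b : G) ∈ B → σ b = LinearMap.id := by
    intro b hb
    rw [← Values.character_eq_finrank_iff σ b, hσ, hkerξ b hb, hkn]
    simp
  have hnormD : ∀ c : C, (c : G) ∈ D → ‖ξ c‖ = (k : ℝ) := by
    intro d hd
    have hcomm : ∀ c : C, σ d ∘ₗ σ c = σ c ∘ₗ σ d := by
      intro c
      have h1 : (d : G) * c * (d : G)⁻¹ * (c : G)⁻¹ ∈ B := hcent d hd c c.2
      let b : C := d * c * d⁻¹ * c⁻¹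
      have hb : (b : G) ∈ B := by
        simpa [b] using h1
      have h2 := hσB b hb
      have h3 : d * c = b * (c * d) := by
        simp only [b]
        group
      have : σ d * σ c = σ c * σ d := by
        rw [← map_mul, h3, map_mul, h2, ← map_mul]
        rfl
      exact this
    have h1 := Integrality.eq_trace_div_smul_of_commute σ (σ d) hcomm
    have h2 := (Values.norm_character_eq_iff σ d).mpr ⟨_, h1⟩
    rw [hσ] at h2
    rw [h2]
    simp [hkn]
  -- orthonormality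
  have hone : classInner ξ ξ = 1 := Ortho.classInner_irr_self ⟨n', σ, hσirr, hσ⟩
  have hsumC : ∑ c : C, ‖ξ c‖ ^ 2 = (Nat.card C : ℝ) := by
    have h1 := Ortho.classInner_self_eq ξ
    rw [hone] at h1
    have h2 : (1 : ℝ) = (Nat.card C : ℝ)⁻¹ * ∑ c : C, ‖ξ c‖ ^ 2 := by exact_mod_cast h1
    have h3 : (Nat.card C : ℝ) ≠ 0 := by
      have : Nat.card C ≠ 0 := Nat.card_pos.ne'
      exact_mod_cast this
    field_simp at h2
    linarith
  have hcardD : (Finset.univ.filter (fun c : C => (c : G) ∈ D)).card = Nat.card D := by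
    rw [← Nat.card_congr (Subgroup.subgroupOfEquivOfLe hDC).toEquiv, Nat.card_eq_fintype_card,
      Fintype.card_subtype]
    rfl
  have hDk : (Nat.card D : ℝ) * (k : ℝ) ^ 2 ≤ (Nat.card C : ℝ) := by
    rw [← hsumC, ← hcardD]
    calc (((Finset.univ.filter (fun c : C => (c : G) ∈ D)).card : ℕ) : ℝ) * (k : ℝ) ^ 2
        = ∑ c ∈ Finset.univ.filter (fun c : C => (c : G) ∈ D), ‖ξ c‖ ^ 2 := by
          rw [Finset.sum_congr rfl (fun c hc => by rw [hnormD c (Finset.mem_filter.mp hc).2])]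
          simp
      _ ≤ ∑ c : C, ‖ξ c‖ ^ 2 :=
          Finset.sum_le_sum_of_subset_of_nonneg (Finset.filter_subset _ _)
            (fun _ _ _ => by positivity)
  -- arithmetic
  have hG : (Nat.card G : ℝ) = (Nat.card C : ℝ) * (C.index : ℝ) := by
    exact_mod_cast (Subgroup.card_mul_index C).symm
  have hm' : ‖ψ 1‖ = (m : ℝ) := by rw [hm]; simp
  rw [hm', hG]
  have hmk' : (m : ℝ) ≤ (C.index : ℝ) * k := by exact_mod_cast hmk
  have h1 : (m : ℝ) ^ 2 ≤ ((C.index : ℝ) * k) ^ 2 := pow_le_pow_left₀ (by positivity) hmk' 2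
  have hCpos : (0 : ℝ) ≤ (Nat.card C : ℝ) := by positivity
  have hDpos : (0 : ℝ) ≤ (Nat.card D : ℝ) := by positivity
  have hIpos : (0 : ℝ) ≤ (C.index : ℝ) := by positivity
  calc (m : ℝ) ^ 2 * (Nat.card C : ℝ) * (Nat.card D : ℝ)
      ≤ ((C.index : ℝ) * k) ^ 2 * (Nat.card C : ℝ) * (Nat.card D : ℝ) := by
        gcongr
    _ = (C.index : ℝ) ^ 2 * (Nat.card C : ℝ) * ((Nat.card D : ℝ) * (k : ℝ) ^ 2) := by ring
    _ ≤ (C.index : ℝ) ^ 2 * (Nat.card C : ℝ) * (Nat.card C : ℝ) := by gcongr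
    _ = ((Nat.card C : ℝ) * (C.index : ℝ)) ^ 2 := by ring

end Cfsg.Agent.S1492
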