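import Cfsg.Statements.S1493
import Mathlib
import Cfsg.Agent.Lib.Char.Galois

set_option autoImplicit false
open Cfsg

namespace Cfsg.Agent.S1493

open Cfsg.Agent.Lib.Char.Galois in

/-- Let G be a finite group of order a * b with a and b coprime, let k be coprime to a, and let χ be a character of G. Then there is a character χ' of G such that χ'(g) = χ(g ^ k) whenever the order of g divides a and χ'(g) = χ(g) whenever the order of g is coprime to a; moreover χ' is irreducible if χ is. -/
theorem result {G : Type*} [Group G] [Finite G] (a b k : ℕ) (hab : Nat.card G = a * b) (hcop : Nat.Coprime a b) (hk : Nat.Coprime k a) (χ : G → ℂ) (hχ : Cfsg.IsCharacter G χ) : ∃ χ' : G → ℂ, Cfsg.IsCharacter G χ' ∧ (Cfsg.IsIrrCharacter G χ → Cfsg.IsIrrCharacter G χ') ∧ (∀ g : G, orderOf g ∣ a → χ' g = χ (g ^ k)) ∧ (∀ g : G, Nat.Coprime (orderOf g) a → χ' g = χ g) := by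
  let c := Nat.chineseRemainder hcop k 1
  have hc1 : (c : ℕ) ≡ k [MOD a] := c.2.1
  have hc2 : (c : ℕ) ≡ 1 [MOD b] := c.2.2
  have hca : (c : ℕ).Coprime a := by
    have := hc1.gcd_eq
    rw [Nat.Coprime, this]
    exact hk
  have hcb : (c : ℕ).Coprime b := by
    have := hc2.gcd_eq
    rw [Nat.Coprime, this]
    simp
  have hcc : (c : ℕ).Coprime (Nat.card G) := by
    rw [hab]
    exact Nat.Coprime.mul_right hca hcb
  refine ⟨fun g => χ (g ^ (c : ℕ)), isCharacter_pow_of_coprime hχ hcc,
    fun h => isIrrCharacter_pow_of_coprime h hcc, fun g hg => ?_, fun g hg => ?_⟩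
  · have hgA : g ^ a = 1 := orderOf_dvd_iff_pow_eq_one.1 hg
    exact congrArg χ (pow_congr_of_modEq hgA hc1)
  · have h1 : orderOf g ∣ a * b := by
      rw [← hab]
      exact orderOf_dvd_natCard g
    have h2 : orderOf g ∣ b := hg.dvd_of_dvd_mul_left h1
    have hgB : g ^ b = 1 := orderOf_dvd_iff_pow_eq_one.1 h2
    have := pow_congr_of_modEq hgB hc2
    rw [pow_one] at this
    exact congrArg χ this

end Cfsg.Agent.S1493
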