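import Cfsg.Statements.S1495
import Mathlib
import Cfsg.Agent.Lib.Char.Galois

set_option autoImplicit false
open Cfsg

namespace Cfsg.Agent.S1495

open Cfsg.Agent.Lib.Char.Galois in
theorem rat_int_of_integral (q : ℚ) (h : IsIntegral ℤ (q : ℂ)) : ∃ m : ℤ, q = m := by
  have h1 : IsIntegral ℤ q := by
    have h2 : IsIntegral ℤ (algebraMap ℚ ℂ q) := by simpa using h
    exact (isIntegral_algebraMap_iff (algebraMap ℚ ℂ).injective).1 h2
  obtain ⟨m, hm⟩ := IsIntegrallyClosed.isIntegral_iff.1 h1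
  exact ⟨m, by simpa using hm.symm⟩

open Cfsg.Agent.Lib.Char.Galois in

/-- Let p be a prime, ε = exp(2πi/p), and n an integer such that n = (1 − ε) * ω for some algebraic integer ω. Then p divides n. -/
theorem result (p : ℕ) (hp : p.Prime) (n : ℤ) (ω : ℂ) (hω : IsIntegral ℤ ω) (h : (n : ℂ) = (1 - Complex.exp (2 * Real.pi * Complex.I / p)) * ω) : (p : ℤ) ∣ n := by
  classical
  haveI : Fact p.Prime := ⟨hp⟩
  haveI : NeZero p := ⟨hp.ne_zero⟩
  have hprim : IsPrimitiveRoot (Complex.exp (2 * Real.pi * Complex.I / p)) p :=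
    Complex.isPrimitiveRoot_exp p hp.ne_zero
  set ε : ℂ := Complex.exp (2 * Real.pi * Complex.I / p) with hε
  rcases eq_or_ne p 2 with rfl | hp2
  · have h1 : ε = -1 := hprim.eq_neg_one_of_two_right
    rw [h1] at h
    have h2 : ω = (((n : ℚ) / 2 : ℚ) : ℂ) := by
      push_cast
      rw [h]
      ring
    rw [h2] at hω
    obtain ⟨m, hm⟩ := rat_int_of_integral _ hω
    refine ⟨m, ?_⟩
    have h3 : (n : ℚ) = 2 * m := by rw [← hm]; ring
    exact_mod_cast h3
  by_contra hnd
  have hcop : IsCoprime n (p : ℤ) := by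
    have hpp : Prime (p : ℤ) := Nat.prime_iff_prime_int.1 hp
    exact ((Prime.coprime_iff_not_dvd hpp).2 hnd).symm
  obtain ⟨a, b, hab⟩ := hcop
  obtain ⟨K, hK⟩ := exists_cyclotomic_subfield p
  haveI : IsGalois ℚ K := IsCyclotomicExtension.isGalois {p} ℚ K
  haveI : FiniteDimensional ℚ K := IsCyclotomicExtension.finiteDimensional {p} ℚ K
  obtain ⟨j, hj⟩ := exists_zeta_pow p K hprim.pow_eq_one
  let ξ : K := IsCyclotomicExtension.zeta p ℚ K ^ j
  have hξC : algebraMap K ℂ ξ = ε := by simp [ξ, hj]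
  have hξ : IsPrimitiveRoot ξ p := by
    refine IsPrimitiveRoot.of_map_of_injective (f := algebraMap K ℂ) ?_ (algebraMap K ℂ).injective
    rw [hξC]
    exact hprim
  have hirr := Polynomial.cyclotomic.irreducible_rat (NeZero.pos p)
  have hnorm : Algebra.norm ℚ (ξ - 1) = p := hξ.norm_sub_one_of_prime_ne_two' hirr hp2
  -- `p = (ε - 1) * c`
  have hprod := Algebra.norm_eq_prod_automorphisms ℚ (ξ - 1)
  rw [hnorm] at hprod
  let c : K := ∏ σ ∈ (Finset.univ : Finset (K ≃ₐ[ℚ] K)).erase AlgEquiv.refl, σ (ξ - 1)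
  have hc : (p : K) = (ξ - 1) * c := by
    have h4 := Finset.mul_prod_erase (Finset.univ : Finset (K ≃ₐ[ℚ] K))
      (fun σ => σ (ξ - 1)) (Finset.mem_univ AlgEquiv.refl)
    simp only [AlgEquiv.coe_refl, id_eq] at h4
    have h5 : algebraMap ℚ K (p : ℚ) = (p : K) := by simp
    rw [← h5, hprod]
    exact h4.symm
  have hξint : IsIntegral ℤ ξ := hξ.isIntegral (NeZero.pos p)
  have hcint : IsIntegral ℤ c := by
    refine IsIntegral.prod _ fun σ _ => ?_
    exact (hξint.sub isIntegral_one).map σ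
  have hcC : IsIntegral ℤ (algebraMap K ℂ c) :=
    (isIntegral_algebraMap_iff (algebraMap K ℂ).injective).2 hcint
  let γ : ℂ := - (a * ω) + b * algebraMap K ℂ c
  have hγint : IsIntegral ℤ γ := by
    refine IsIntegral.add (IsIntegral.neg (IsIntegral.mul ?_ hω)) (IsIntegral.mul ?_ hcC)
    · simpa using isIntegral_algebraMap (R := ℤ) (A := ℂ) (x := a)
    · simpa using isIntegral_algebraMap (R := ℤ) (A := ℂ) (x := b)
  have hγ : (ε - 1) * γ = 1 := by
    have h5 : (p : ℂ) = (ε - 1) * algebraMap K ℂ c := by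
      have := congrArg (algebraMap K ℂ) hc
      rw [map_mul, map_sub, hξC, map_one, map_natCast] at this
      exact this
    have h6 : ((a * n + b * p : ℤ) : ℂ) = 1 := by rw [hab]; simp
    push_cast at h6
    rw [h, h5] at h6
    simp only [γ]
    linear_combination h6
  -- `γ` is the inverse of `ε - 1`, so lies in `K`, and its norm `1/p` is integral
  have hne : ξ - 1 ≠ 0 := by
    intro h0
    have : algebraMap K ℂ (ξ - 1) = 0 := by rw [h0, map_zero]
    rw [map_sub, hξC, map_one] at this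
    rw [this, zero_mul] at hγ
    exact zero_ne_one hγ
  have hγK : γ = algebraMap K ℂ (ξ - 1)⁻¹ := by
    rw [map_inv₀, map_sub, hξC, map_one]
    exact eq_inv_of_mul_eq_one_right hγ
  have hγint' : IsIntegral ℤ (ξ - 1)⁻¹ := by
    rw [hγK] at hγint
    exact (isIntegral_algebraMap_iff (algebraMap K ℂ).injective).1 hγint
  have hnormint : IsIntegral ℤ (Algebra.norm ℚ (ξ - 1)⁻¹) := Algebra.isIntegral_norm ℚ hγint'
  have h6 : Algebra.norm ℚ (ξ - 1)⁻¹ * p = 1 := by
    rw [← hnorm, ← map_mul, inv_mul_cancel₀ hne, map_one]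
  obtain ⟨m, hm⟩ := IsIntegrallyClosed.isIntegral_iff.1 hnormint
  have hm' : (m : ℚ) = Algebra.norm ℚ (ξ - 1)⁻¹ := by simpa using hm
  have h7 : (m : ℚ) * p = 1 := by rw [hm', h6]
  have h8 : m * (p : ℤ) = 1 := by exact_mod_cast h7
  have h9 : (p : ℤ) ∣ 1 := ⟨m, by linarith⟩
  have h10 := Int.isUnit_iff.1 (isUnit_of_dvd_one h9)
  have h11 : 1 < (p : ℤ) := by exact_mod_cast hp.one_lt
  omega

end Cfsg.Agent.S1495
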