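import Cfsg.Statements.S1497
import Mathlib
-- import your own Cfsg.Agent.* helpers here

set_option autoImplicit false
open Cfsg

namespace Cfsg.Agent.S1497

/-- Let A be a nonempty subset of the finite group G not containing 1 and L a subgroup. Then A is a TI-subset whose normaliser is L if and only if the Dade hypothesis holds for A, L and the constant choice H(a) = ⊥. -/
theorem result {G : Type*} [Group G] [Finite G] (A : Set G) (hA : A.Nonempty) (h1 : (1 : G) ∉ A) (L : Subgroup G) : (Cfsg.IsTISubset A ∧ Subgroup.normalizer A = L) ↔ Cfsg.DadeHypothesis A L (fun _ => ⊥) := by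
  classical
  constructor
  · rintro ⟨hTI, rfl⟩
    have hN : ∀ a ∈ A, ∀ g : G, g * a * g⁻¹ ∈ A → g ∈ Subgroup.normalizer A := by
      intro a ha g hg
      by_contra hgn
      have := hTI g hgn a ha hg
      exact h1 (this ▸ ha)
    refine ⟨h1, ?_, ?_, ?_, ?_, ?_, ?_, ?_, ?_⟩
    · intro a ha
      exact hN a ha a (by simpa using ha)
    · intro x hx a ha
      exact (Subgroup.mem_set_normalizer_iff.mp hx a).mp ha
    · intro a ha g hg
      exact ⟨g, hN a ha g hg, rfl⟩
    · intro a _ ; exact bot_le
    · intro a _ c _ u hu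
      rw [Subgroup.mem_bot] at hu ⊢
      simp [hu]
    · intro a _ ; exact bot_inf_eq _
    · intro a ha
      rw [bot_sup_eq]
      apply le_antisymm inf_le_right
      intro c hc
      refine ⟨hN a ha c ?_, hc⟩
      have : c * a * c⁻¹ = a := by
        rw [Subgroup.mem_centralizer_singleton_iff] at hc
        rw [hc]; group
      rwa [this]
    · intro a _ b _
      simp
  · intro hD
    have hCle : ∀ a ∈ A, Subgroup.centralizer ({a} : Set G) ≤ L := by
      intro a ha
      have := hD.sup_eq a ha
      simp only [bot_sup_eq] at this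
      rw [← this]
      exact inf_le_left
    have hfus : ∀ a ∈ A, ∀ g : G, g * a * g⁻¹ ∈ A → g ∈ L := by
      intro a ha g hg
      obtain ⟨x, hx, hxe⟩ := hD.fusion a ha g hg
      have hc : x⁻¹ * g ∈ Subgroup.centralizer ({a} : Set G) := by
        rw [Subgroup.mem_centralizer_singleton_iff]
        have h5 : g * a = x * a * x⁻¹ * g := by rw [hxe]; group
        calc x⁻¹ * g * a = x⁻¹ * (g * a) := by group
          _ = x⁻¹ * (x * a * x⁻¹ * g) := by rw [h5]
          _ = a * (x⁻¹ * g) := by group
      have := L.mul_mem hx (hCle a ha hc)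
      simpa using this
    have hLN : L ≤ Subgroup.normalizer A := by
      intro x hx
      rw [Subgroup.mem_set_normalizer_iff]
      intro h
      refine ⟨hD.conj_mem x hx h, fun hh => ?_⟩
      have := hD.conj_mem x⁻¹ (L.inv_mem hx) _ hh
      simpa [mul_assoc] using this
    have hNL : Subgroup.normalizer A ≤ L := by
      intro g hg
      obtain ⟨a, ha⟩ := hA
      exact hfus a ha g ((Subgroup.mem_set_normalizer_iff.mp hg a).mp ha)
    refine ⟨?_, le_antisymm hNL hLN⟩
    intro g hg x hx hgx
    exfalso
    exact hg (hLN (hfus x hx g hgx))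

end Cfsg.Agent.S1497
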