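import Cfsg.Statements.S1503
import Mathlib
import Cfsg.Agent.Lib.Char.CyclicTI
import Cfsg.Agent.Lib.Char.Basic
-- import your own Cfsg.Agent.* helpers here

set_option autoImplicit false
open Cfsg
open Cfsg.Agent.Lib.Char
open Cfsg.Agent.Lib.Char.Virtual

namespace Cfsg.Agent.S1503

/-- Let W₁, W₂ ≤ G with W = W₁ ⊔ W₂ and let χ an orthonormal family of irreducible characters of G up to sign, indexed by the linear characters ω of W, with χ_1 = 1, χ_ω = ω on W outside W₁ ∪ W₂, and the induction identity for (1 − φ)(1 − ψ). If θ is an irreducible character of G orthogonal to χ ω for every linear character ω of W, then θ vanishes at every element of W lying outside W₁ ∪ W₂. -/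
theorem result {G : Type*} [Group G] [Fintype G] (W₁ W₂ : Subgroup G) (hW : Cfsg.IsSelfNormalizingCyclic W₁ W₂) (χ : (↥(W₁ ⊔ W₂) →* ℂˣ) → (G → ℂ)) (hχ : Cfsg.IsCyclicTIFamily W₁ W₂ χ) (θ : G → ℂ) (hθ : Cfsg.IsIrrCharacter G θ) (horth : ∀ ω, Cfsg.classInner θ (χ ω) = 0) (w : ↥(W₁ ⊔ W₂)) (hw₁ : (w : G) ∉ W₁) (hw₂ : (w : G) ∉ W₂) : θ w = 0 := by
  classical
  have hcyc : IsCyclic ↥(W₁ ⊔ W₂) := hW.2.2.2.2.1
  letI hfin : Fintype ↥(W₁ ⊔ W₂) := Fintype.ofFinite _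
  letI cg : CommGroup ↥(W₁ ⊔ W₂) := IsCyclic.commGroup
  have hexp : NeZero ((Monoid.exponent ↥(W₁ ⊔ W₂) : ℕ) : ℂ) :=
    ⟨Nat.cast_ne_zero.2 Monoid.exponent_ne_zero_of_finite⟩
  have hroots : HasEnoughRootsOfUnity ℂ (Monoid.exponent ↥(W₁ ⊔ W₂)) := inferInstance
  letI hfh : Fintype (↥(W₁ ⊔ W₂) →* ℂˣ) := Fintype.ofFinite _
  have hθcl := Basic.isClassFunction_of_isCharacter (Basic.isCharacter_of_isIrrCharacter hθ)
  have hF : ∀ φ ψ : ↥(W₁ ⊔ W₂) →* ℂˣ, (∀ y ∈ W₂.subgroupOf (W₁ ⊔ W₂), φ y = 1) →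
      (∀ x ∈ W₁.subgroupOf (W₁ ⊔ W₂), ψ x = 1) →
      classInner (fun x : ↥(W₁ ⊔ W₂) => θ x) (fun w => 1 - ((φ w : ℂˣ) : ℂ) - ((ψ w : ℂˣ) : ℂ) +
        ((φ w : ℂˣ) : ℂ) * ((ψ w : ℂˣ) : ℂ)) = 0 := by
    intro φ ψ hφ hψ
    by_cases hφ1 : φ = 1
    · subst hφ1
      simp [classInner]
    by_cases hψ1 : ψ = 1
    · subst hψ1
      simp [classInner]
    have hind := hχ.induced_eq φ ψ hφ1 hψ1 (fun w hw => hφ w (Subgroup.mem_subgroupOf.mpr hw))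
      (fun w hw => hψ w (Subgroup.mem_subgroupOf.mpr hw))
    have h1 := Induced.frobenius_reciprocity (W₁ ⊔ W₂)
      (fun w => 1 - ((φ w : ℂˣ) : ℂ) - ((ψ w : ℂˣ) : ℂ) + ((φ w : ℂˣ) : ℂ) * ((ψ w : ℂˣ) : ℂ))
      θ hθcl
    rw [hind] at h1
    have h2 : (fun g => 1 - χ φ g - χ ψ g + χ (φ * ψ) g) = χ 1 - χ φ - χ ψ + χ (φ * ψ) := by
      funext g
      simp [hχ.map_one]
    rw [h2] at h1
    have h3 : classInner (χ 1 - χ φ - χ ψ + χ (φ * ψ)) θ = 0 := by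
      rw [← classInner_conj_symm, classInner_add_right, classInner_sub_right, classInner_sub_right,
        horth, horth, horth, horth]
      simp
    rw [← classInner_conj_symm, ← h1, h3, map_zero]
  obtain ⟨u, hu, v, hv, huv⟩ := CyclicTI.exists_mul_of_mem_sup hW.2.2.2.1 w.2
  have hXY : W₁.subgroupOf (W₁ ⊔ W₂) ⊓ W₂.subgroupOf (W₁ ⊔ W₂) = ⊥ := by
    rw [eq_bot_iff]
    rintro x ⟨hx1, hx2⟩
    have : (x : G) ∈ W₁ ⊓ W₂ := ⟨Subgroup.mem_subgroupOf.mp hx1, Subgroup.mem_subgroupOf.mp hx2⟩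
    rw [hW.2.2.1, Subgroup.mem_bot] at this
    rw [Subgroup.mem_bot]
    exact Subtype.ext this
  let u' : ↥(W₁ ⊔ W₂) := ⟨u, Subgroup.mem_sup_left hu⟩
  let v' : ↥(W₁ ⊔ W₂) := ⟨v, Subgroup.mem_sup_right hv⟩
  have hu1 : u' ≠ 1 := by
    intro h
    have h' : u = 1 := congrArg Subtype.val h
    rw [h', one_mul] at huv
    exact hw₂ (huv ▸ hv)
  have hv1 : v' ≠ 1 := by
    intro h
    have h' : v = 1 := congrArg Subtype.val h
    rw [h', mul_one] at huv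
    exact hw₁ (huv ▸ hu)
  have := CyclicTI.vanish_abstract (W₁.subgroupOf (W₁ ⊔ W₂)) (W₂.subgroupOf (W₁ ⊔ W₂)) hXY
    (fun x : ↥(W₁ ⊔ W₂) => θ x) hF (u := u') (v := v') (Subgroup.mem_subgroupOf.mpr hu)
    (Subgroup.mem_subgroupOf.mpr hv) hu1 hv1
  have hw' : u' * v' = w := Subtype.ext huv.symm
  rw [hw'] at this
  exact this

end Cfsg.Agent.S1503
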