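import Cfsg.Statements.S1504
import Mathlib
-- import your own Cfsg.Agent.* helpers here

set_option autoImplicit false
open Cfsg

namespace Cfsg.Agent.S1504

variable {W : Type*} [Group W]

lemma lin_indep_units : LinearIndependent ℂ (fun χ : W →* ℂˣ => fun w : W => ((χ w : ℂˣ) : ℂ)) := by
  have h := linearIndependent_monoidHom W ℂ
  have hinj : Function.Injective (fun χ : W →* ℂˣ => (Units.coeHom ℂ).comp χ) := by
    intro a b hab
    ext w
    have := DFunLike.congr_fun hab w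
    simpa using this
  have h2 : (fun χ : W →* ℂˣ => fun w : W => ((χ w : ℂˣ) : ℂ)) =
      (fun f : W →* ℂ => (f : W → ℂ)) ∘ (fun χ : W →* ℂˣ => (Units.coeHom ℂ).comp χ) := by
    funext χ w
    simp
  rw [h2]
  exact h.comp _ hinj

/-- Abstract form of the independence. -/
lemma indep_abstract (P Q : W → Prop)
    (hgen : ∀ θ : W →* ℂˣ, (∀ w, P w → θ w = 1) → (∀ w, Q w → θ w = 1) → θ = 1) :
    LinearIndependent ℂ (fun p : {p : (W →* ℂˣ) × (W →* ℂˣ) // p.1 ≠ 1 ∧ p.2 ≠ 1 ∧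
        (∀ w : W, Q w → p.1 w = 1) ∧ (∀ w : W, P w → p.2 w = 1)} =>
      fun w : W => 1 - (p.1.1 w : ℂ) - (p.1.2 w : ℂ) + (p.1.1 w : ℂ) * (p.1.2 w : ℂ)) := by
  classical
  let e : (W →* ℂˣ) → W → ℂ := fun χ w => ((χ w : ℂˣ) : ℂ)
  have he : LinearIndependent ℂ e := lin_indep_units
  let g : {p : (W →* ℂˣ) × (W →* ℂˣ) // p.1 ≠ 1 ∧ p.2 ≠ 1 ∧
        (∀ w : W, Q w → p.1 w = 1) ∧ (∀ w : W, P w → p.2 w = 1)} → ((W →* ℂˣ) →₀ ℂ) := fun p =>
    Finsupp.single 1 1 - Finsupp.single p.1.1 1 - Finsupp.single p.1.2 1 +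
      Finsupp.single (p.1.1 * p.1.2) 1
  have hfam : (fun p : {p : (W →* ℂˣ) × (W →* ℂˣ) // p.1 ≠ 1 ∧ p.2 ≠ 1 ∧
        (∀ w : W, Q w → p.1 w = 1) ∧ (∀ w : W, P w → p.2 w = 1)} =>
      fun w : W => 1 - (p.1.1 w : ℂ) - (p.1.2 w : ℂ) + (p.1.1 w : ℂ) * (p.1.2 w : ℂ)) =
      (Finsupp.linearCombination ℂ e) ∘ g := by
    funext p w
    simp [g, e, Finsupp.linearCombination_single, map_add, map_sub]
  rw [hfam]
  apply LinearIndependent.map'
  · rw [linearIndependent_iff']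
    intro s c hsum p₀ hp₀
    obtain ⟨⟨φ₀, ψ₀⟩, hφ₀, hψ₀, hφ₀Q, hψ₀P⟩ := p₀
    simp only at hφ₀ hψ₀ hφ₀Q hψ₀P
    have hval : ∀ p : {p : (W →* ℂˣ) × (W →* ℂˣ) // p.1 ≠ 1 ∧ p.2 ≠ 1 ∧
        (∀ w : W, Q w → p.1 w = 1) ∧ (∀ w : W, P w → p.2 w = 1)},
        (g p) (φ₀ * ψ₀) = if p = ⟨(φ₀, ψ₀), hφ₀, hψ₀, hφ₀Q, hψ₀P⟩ then 1 else 0 := by
      rintro ⟨⟨φ, ψ⟩, hφ, hψ, hφQ, hψP⟩
      simp only at hφ hψ hφQ hψP
      have h1 : (1 : W →* ℂˣ) ≠ φ₀ * ψ₀ := by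
        intro h
        apply hφ₀
        apply hgen
        · intro w hw
          have h2 := DFunLike.congr_fun h w
          simp only [MonoidHom.one_apply, MonoidHom.mul_apply, hψ₀P w hw, mul_one] at h2
          exact h2.symm
        · exact hφ₀Q
      have h2 : φ ≠ φ₀ * ψ₀ := by
        intro h
        apply hψ₀
        apply hgen
        · exact hψ₀P
        · intro w hw
          have h2 := DFunLike.congr_fun h w
          simp only [MonoidHom.mul_apply, hφQ w hw, hφ₀Q w hw, one_mul] at h2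
          exact h2.symm
      have h3 : ψ ≠ φ₀ * ψ₀ := by
        intro h
        apply hφ₀
        apply hgen
        · intro w hw
          have h2 := DFunLike.congr_fun h w
          simp only [MonoidHom.mul_apply, hψP w hw, hψ₀P w hw, mul_one] at h2
          exact h2.symm
        · exact hφ₀Q
      have h4 : φ * ψ = φ₀ * ψ₀ ↔ (φ = φ₀ ∧ ψ = ψ₀) := by
        constructor
        · intro h
          have h5 : φ = φ₀ := by
            have h6 : φ * φ₀⁻¹ = 1 := by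
              apply hgen
              · intro w hw
                have h2 := DFunLike.congr_fun h w
                simp only [MonoidHom.mul_apply, hψP w hw, hψ₀P w hw, mul_one] at h2
                simp [h2]
              · intro w hw
                simp [hφQ w hw, hφ₀Q w hw]
            exact mul_inv_eq_one.mp h6
          subst h5
          exact ⟨rfl, mul_left_cancel h⟩
        · rintro ⟨rfl, rfl⟩
          rfl
      simp only [g, Finsupp.add_apply, Finsupp.sub_apply, Finsupp.single_apply]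
      rw [if_neg h1, if_neg h2, if_neg h3]
      by_cases h5 : φ = φ₀ ∧ ψ = ψ₀
      · obtain ⟨rfl, rfl⟩ := h5
        simp
      · rw [if_neg (fun h => h5 (h4.mp h)), if_neg]
        · simp
        · intro h
          have := congrArg Subtype.val h
          simp only [Prod.mk.injEq] at this
          exact h5 this
    have h6 := DFunLike.congr_fun hsum (φ₀ * ψ₀)
    rw [Finsupp.finsetSum_apply] at h6
    simp only [Finsupp.smul_apply, hval, smul_eq_mul, mul_ite, mul_one, mul_zero, Finsupp.zero_apply] at h6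
    rw [Finset.sum_ite_eq' s, if_pos hp₀] at h6
    exact h6
  · rw [LinearMap.ker_eq_bot]
    exact he


/-- Let W₁, W₂ be subgroups of a finite group with W₁ ⊓ W₂ = ⊥ whose elements commute, and W = W₁ ⊔ W₂. For linear characters φ, ψ of W with φ trivial on W₂ and ψ trivial on W₁, the function (1 − φ)(1 − ψ) vanishes on W₁ ∪ W₂; and the family of these functions, indexed by pairs (φ, ψ) with φ ≠ 1 ≠ ψ, is linearly independent over ℂ. -/
theorem result {G : Type*} [Group G] [Finite G] (W₁ W₂ : Subgroup G) (hdisj : W₁ ⊓ W₂ = ⊥) (hcomm : ∀ a ∈ W₁, ∀ b ∈ W₂, a * b = b * a) : (∀ φ ψ : ↥(W₁ ⊔ W₂) →* ℂˣ, (∀ w : ↥(W₁ ⊔ W₂), (w : G) ∈ W₂ → φ w = 1) → (∀ w : ↥(W₁ ⊔ W₂), (w : G) ∈ W₁ → ψ w = 1) → ∀ w : ↥(W₁ ⊔ W₂), ((w : G) ∈ W₁ ∨ (w : G) ∈ W₂) → (1 - (φ w : ℂ) - (ψ w : ℂ) + (φ w : ℂ) * (ψ w : ℂ)) = 0) ∧ LinearIndependent ℂ (fun p : {p : (↥(W₁ ⊔ W₂) →* ℂˣ) × (↥(W₁ ⊔ W₂) →* ℂˣ) // p.1 ≠ 1 ∧ p.2 ≠ 1 ∧ (∀ w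 : ↥(W₁ ⊔ W₂), (w : G) ∈ W₂ → p.1 w = 1) ∧ (∀ w : ↥(W₁ ⊔ W₂), (w : G) ∈ W₁ → p.2 w = 1)} => fun w : ↥(W₁ ⊔ W₂) => 1 - (p.1.1 w : ℂ) - (p.1.2 w : ℂ) + (p.1.1 w : ℂ) * (p.1.2 w : ℂ)) := by
  constructor
  · intro φ ψ hφ hψ w hw
    rcases hw with hw | hw
    · simp [hψ w hw]
    · simp [hφ w hw]
  · apply indep_abstract (fun w : ↥(W₁ ⊔ W₂) => (w : G) ∈ W₁) (fun w : ↥(W₁ ⊔ W₂) => (w : G) ∈ W₂)
    intro θ h1 h2
    have hle : W₁ ⊔ W₂ ≤ (θ.ker).map (W₁ ⊔ W₂).subtype := by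
      apply sup_le
      · intro a ha
        exact ⟨⟨a, Subgroup.mem_sup_left ha⟩, h1 _ ha, rfl⟩
      · intro a ha
        exact ⟨⟨a, Subgroup.mem_sup_right ha⟩, h2 _ ha, rfl⟩
    ext w
    obtain ⟨w', hw', hww'⟩ := hle w.2
    have : w' = w := Subtype.ext hww'
    rw [this] at hw'
    have h3 : θ w = 1 := hw'
    simp [h3]

end Cfsg.Agent.S1504
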