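import Cfsg.Statements.S1512
import Cfsg.Agent.S1496
import Mathlib

set_option autoImplicit false
open Cfsg

namespace Cfsg.Agent.S1512

/-- Let K be a normal subgroup of the finite group L and x a non-identity element whose order is coprime to the order of K, such that K ⊓ C_L(y) = W₂ for every non-identity element y of the cyclic group generated by x. Then the number of conjugacy classes of K mapped to themselves by conjugation by x is at most Nat.card W₂. -/
theorem result {L : Type*} [Group L] [Finite L] (K W₂ : Subgroup L) [hK : K.Normal] (x : L) (hx1 : x ≠ 1) (hx : Nat.Coprime (orderOf x) (Nat.card K)) (hC : ∀ y ∈ Subgroup.zpowers x, y ≠ 1 → K ⊓ Subgroup.centralizer ({y} : Set L) = W₂) : Nat.card {C : ConjClasses K // ConjClasses.map (MulEquiv.toMonoidHom ((MulAut.conjNormal x : MulAut K))) C = C} ≤ Nat.card W₂ := by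
  classical
  have hW : K ⊓ Subgroup.centralizer ({x} : Set L) = W₂ := hC x (Subgroup.mem_zpowers x) hx1
  have hxN : x ∈ Subgroup.normalizer (K : Set L) := by
    rw [Subgroup.normalizer_eq_top_iff.mpr hK]; trivial
  have key : ∀ C : {C : ConjClasses K // ConjClasses.map (MulEquiv.toMonoidHom ((MulAut.conjNormal x : MulAut K))) C = C},
      ∃ w : W₂, ∃ hw : (w : L) ∈ K, ConjClasses.mk (⟨w, hw⟩ : K) = C.1 := by
    rintro ⟨C, hCfix⟩
    obtain ⟨k, rfl⟩ := ConjClasses.mk_surjective C
    have h1 : ConjClasses.mk ((MulAut.conjNormal x : MulAut K) k) = ConjClasses.mk k := hCfix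
    rw [ConjClasses.mk_eq_mk_iff_isConj] at h1
    obtain ⟨u, hu⟩ := isConj_iff.mp h1
    have hu' : (u : L) * (x * (k : L) * x⁻¹) * (u : L)⁻¹ = k := by
      have := congrArg Subtype.val hu
      simpa using this
    -- u x commutes with k
    obtain ⟨v, hvK, c, hcK, hcx, hv⟩ := Cfsg.Agent.S1496.result K x hxN hx (u : L) u.2
    have hcomm1 : (u : L) * x * (k : L) = k * ((u : L) * x) := by
      calc (u : L) * x * (k : L) = ((u : L) * (x * (k : L) * x⁻¹) * (u : L)⁻¹) * ((u : L) * x) := by group
        _ = k * ((u : L) * x) := by rw [hu']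
    set k' : L := v * (k : L) * v⁻¹ with hk'
    have hk'K : k' ∈ K := K.mul_mem (K.mul_mem hvK k.2) (K.inv_mem hvK)
    have hcomm2 : (c * x) * k' = k' * (c * x) := by
      rw [← hv, hk']
      calc v * ((u : L) * x) * v⁻¹ * (v * (k : L) * v⁻¹) = v * ((u : L) * x * (k : L)) * v⁻¹ := by group
        _ = v * ((k : L) * ((u : L) * x)) * v⁻¹ := by rw [hcomm1]
        _ = v * (k : L) * v⁻¹ * (v * ((u : L) * x) * v⁻¹) := by group
    -- x is a power of c x
    have hcc : (orderOf x).Coprime (orderOf c) :=
      Nat.Coprime.coprime_dvd_right (Subgroup.orderOf_dvd_natCard K hcK) hx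
    obtain ⟨s, t, hst⟩ := Nat.isCoprime_iff_coprime.mpr hcc
    have hcxc : Commute c x := hcx
    have hpow : (c * x) ^ (t * (orderOf c : ℤ)) = x := by
      have hc1 : c ^ (t * (orderOf c : ℤ)) = 1 := by
        rw [mul_comm, zpow_mul, zpow_natCast, pow_orderOf_eq_one, one_zpow]
      have hx2 : x ^ (t * (orderOf c : ℤ)) = x := by
        have h3 : t * (orderOf c : ℤ) = 1 - s * (orderOf x : ℤ) := by linarith
        rw [h3, zpow_sub, zpow_one, mul_comm s, zpow_mul, zpow_natCast, pow_orderOf_eq_one]
        simp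
      rw [hcxc.mul_zpow, hc1, hx2, one_mul]
    have hcomm3 : Commute (c * x) k' := hcomm2
    have hcomm4 : Commute x k' := by
      have := hcomm3.zpow_left (t * (orderOf c : ℤ))
      rwa [hpow] at this
    have hmemW : k' ∈ W₂ := by
      rw [← hW]
      refine ⟨hk'K, Subgroup.mem_centralizer_iff.mpr ?_⟩
      intro z hz
      rw [Set.mem_singleton_iff] at hz
      subst hz
      exact hcomm4.eq
    refine ⟨⟨k', hmemW⟩, hk'K, ?_⟩
    rw [ConjClasses.mk_eq_mk_iff_isConj]
    rw [isConj_comm]
    refine isConj_iff.mpr ⟨⟨v, hvK⟩, ?_⟩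
    apply Subtype.ext
    simp [hk']
  choose F hF hF2 using key
  have hinj : Function.Injective F := by
    intro C D h
    apply Subtype.ext
    rw [← hF2 C, ← hF2 D]
    congr 2
    simp [h]
  exact Nat.card_le_card_of_injective F hinj

end Cfsg.Agent.S1512
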