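import Cfsg.Statements.S1515
import Mathlib
import Cfsg.Agent.Lib.Char.Virtual
-- import your own Cfsg.Agent.* helpers here

set_option autoImplicit false
open Cfsg
open Cfsg.Agent.Lib.Char.Virtual

namespace Cfsg.Agent.S1515

/-- Let (S, τ, R) be a coherence system from L to G, χ ∈ S, and ψ an integer combination of S with ⟨χ, ψ⟩ = ⟨conj χ, ψ⟩ = 0. Let τ₁ be a linear isometry on the integer combinations of χ − ψ and χ − conj χ, with virtual-character values, agreeing with τ on integer multiples of χ − conj χ. Then the sum over α ∈ R χ of the squared absolute values of ⟨τ₁(χ − ψ), α⟩ is at least ⟨χ, χ⟩; and if ⟨τ₁(χ − ψ), τ₁(χ − ψ)⟩ minus that sum is at least ⟨ψ, ψ⟩, then the sum equals ⟨χ, χ⟩ and every ⟨τ₁(χ − ψ), α⟩ with α ∈ R χ is 0 or 1. -/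
theorem result {L : Type*} [Group L] [Fintype L] {G : Type*} [Group G] [Fintype G] (S : Set (L → ℂ)) (τ : (L → ℂ) → (G → ℂ)) (R : (L → ℂ) → Finset (G → ℂ)) (hS : Cfsg.IsCoherenceSystem S τ R) (χ : L → ℂ) (hχ : χ ∈ S) (ψ : L → ℂ) (hψ : ψ ∈ Cfsg.zspan S) (h1 : Cfsg.classInner χ ψ = 0) (h2 : Cfsg.classInner (Cfsg.conjFun χ) ψ = 0) (τ₁ : (L → ℂ) → (G → ℂ)) (hτ₁ : Cfsg.IsLinearIsometryOn (Cfsg.zspan {χ - ψ, χ - Cfsg.conjFun χ}) τ₁) (hagree : ∀ n : ℤ, τ₁ (n • (χ - Cfsg.conjFun χ)) = τ (n • (χ - Cfsg.conjFun χ))) : (Cfsg.classInner χ χ).re ≤ ∑ α ∈ R χ, ‖Cfsg.classInner (τ₁ (χ - ψ)) α‖ ^ 2 ∧ ((Cfsg.classInner ψ ψ).re ≤ (Cfsg.classInner (τ₁ (χ - ψ)) (τ₁ (χ - ψ))).re - ∑ α ∈ R χ, ‖Cfsg.classInner (τ₁ (χ - ψ)) α‖ ^ 2 → (∑ α ∈ R χ, ‖Cfsg.classInner (τ₁ (χ - ψ)) α‖ ^ 2 = (Cfsg.classInner χ χ).re ∧ ∀ α ∈ R χ, Cfsg.classInner (τ₁ (χ - ψ)) α = 0 ∨ Cfsg.classInner (τ₁ (χ - ψ)) α = 1)) := by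
  classical
  have hm1 : χ - ψ ∈ zspan {χ - ψ, χ - conjFun χ} :=
    Submodule.subset_span (by simp)
  have hm2 : χ - conjFun χ ∈ zspan {χ - ψ, χ - conjFun χ} :=
    Submodule.subset_span (by simp)
  have hTeq : τ₁ (χ - conjFun χ) = ∑ α ∈ R χ, α := by
    have := hagree 1
    rw [one_smul] at this
    rw [this, hS.sum_eq χ hχ]
  have hχc : classInner χ (conjFun χ) = 0 :=
    hS.orthogonal χ hχ _ (hS.conj_mem χ hχ) (hS.conj_ne χ hχ).symm
  have hψχ : classInner ψ χ = 0 := by rw [← classInner_conj_symm, h1, map_zero]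
  have hψχc : classInner ψ (conjFun χ) = 0 := by rw [← classInner_conj_symm, h2, map_zero]
  have hpair : classInner (τ₁ (χ - ψ)) (τ₁ (χ - conjFun χ)) = classInner χ χ := by
    rw [hτ₁.2.2.1 _ hm1 _ hm2, classInner_sub_left, classInner_sub_right, classInner_sub_right,
      hχc, hψχ, hψχc]
    simp
  have hnormX : classInner (τ₁ (χ - ψ)) (τ₁ (χ - ψ)) = classInner χ χ + classInner ψ ψ := by
    rw [hτ₁.2.2.1 _ hm1 _ hm1, classInner_sub_left, classInner_sub_right, classInner_sub_right,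
      h1, hψχ]
    simp
  set X := τ₁ (χ - ψ) with hX
  have hXvirt : IsGeneralizedCharacter G X := hτ₁.2.2.2 _ hm1
  have hint : ∀ α ∈ R χ, ∃ n : ℤ, classInner X α = n := fun α hα =>
    exists_int_classInner hXvirt (hS.virtual χ hχ α hα)
  choose! a ha using hint
  have hsum : ∑ α ∈ R χ, ((a α : ℤ) : ℂ) = classInner χ χ := by
    rw [← hpair, hTeq, classInner_finset_sum_right]
    exact Finset.sum_congr rfl fun α hα => (ha α hα).symm
  have hre : (classInner χ χ).re = ∑ α ∈ R χ, ((a α : ℤ) : ℝ) := by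
    rw [← hsum, Complex.re_sum]
    exact Finset.sum_congr rfl fun α _ => by simp
  have hnorms : ∑ α ∈ R χ, ‖classInner X α‖ ^ 2 = ∑ α ∈ R χ, (((a α) ^ 2 : ℤ) : ℝ) := by
    refine Finset.sum_congr rfl fun α hα => ?_
    rw [ha α hα, Complex.norm_intCast]
    push_cast
    exact sq_abs _
  have hle : ∀ α ∈ R χ, ((a α : ℤ) : ℝ) ≤ (((a α) ^ 2 : ℤ) : ℝ) := by
    intro α _
    have : a α ≤ (a α) ^ 2 := by
      have h : 0 ≤ (a α) * (a α - 1) := by
        rcases le_or_gt (a α) 0 with h | h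
        · exact mul_nonneg_of_nonpos_of_nonpos h (by omega)
        · exact mul_nonneg h.le (by omega)
      nlinarith
    exact_mod_cast this
  constructor
  · rw [hre, hnorms]
    exact Finset.sum_le_sum hle
  · intro hcond
    have hXre : (classInner X X).re = (classInner χ χ).re + (classInner ψ ψ).re := by
      rw [hnormX, Complex.add_re]
    rw [hXre, hnorms] at hcond
    have hle2 : ∑ α ∈ R χ, (((a α) ^ 2 : ℤ) : ℝ) ≤ ∑ α ∈ R χ, ((a α : ℤ) : ℝ) := by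
      rw [← hre]; linarith
    have hsumle : ∑ α ∈ R χ, ((a α : ℤ) : ℝ) ≤ ∑ α ∈ R χ, (((a α) ^ 2 : ℤ) : ℝ) :=
      Finset.sum_le_sum hle
    have heq : ∑ α ∈ R χ, ((a α : ℤ) : ℝ) = ∑ α ∈ R χ, (((a α) ^ 2 : ℤ) : ℝ) :=
      le_antisymm hsumle hle2
    refine ⟨?_, fun α hα => ?_⟩
    · rw [hnorms, hre, heq]
    · have h3 := (Finset.sum_eq_sum_iff_of_le hle).mp heq α hα
      have h4 : a α = (a α) ^ 2 := by exact_mod_cast h3
      have h5 : a α * (a α - 1) = 0 := by ring_nf; linarith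
      rw [ha α hα]
      rcases mul_eq_zero.mp h5 with h | h
      · left; simp [h]
      · right
        have : a α = 1 := by omega
        simp [this]

end Cfsg.Agent.S1515
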