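import Cfsg.Statements.S1518
import Mathlib
import Cfsg.Agent.S1501
import Cfsg.Agent.Lib.Char.Burnside2
import Cfsg.Agent.Lib.Char.CompleteCor
-- import your own Cfsg.Agent.* helpers here

set_option autoImplicit false
open Cfsg

namespace Cfsg.Agent.S1518

open Cfsg Cfsg.Agent.Lib.Char.Basic Cfsg.Agent.Lib.Char.Virtual Cfsg.Agent.Lib.Char.Galois
  Cfsg.Agent.Lib.Char.Dade Cfsg.Agent.S1501
open scoped ComplexConjugate

/-- The complex conjugate of an irreducible character is irreducible. -/
theorem isIrr_conj {G : Type*} [Group G] [Finite G] {χ : G → ℂ} (hχ : IsIrrCharacter G χ) :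
    IsIrrCharacter G (conjFun χ) := by
  haveI := Fintype.ofFinite G
  have hk : (Nat.card G - 1).Coprime (Nat.card G) := by
    have hpos : 0 < Nat.card G := Nat.card_pos
    rw [Nat.coprime_self_sub_left hpos]
    simp
  have := isIrrCharacter_pow_of_coprime hχ hk
  convert this using 1
  funext g
  change conj (χ g) = χ (g ^ (Nat.card G - 1))
  have hg : g ^ (Nat.card G - 1) = g⁻¹ := by
    apply eq_inv_of_mul_eq_one_left
    rw [← pow_succ, Nat.sub_add_cancel Nat.card_pos, pow_card_eq_one']
  rw [hg, Cfsg.Agent.Lib.Char.Complete.isIrr_inv hχ]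

/-- The Dade map commutes with complex conjugation. -/
theorem dade_conj {G : Type*} [Group G] (A : Set G) (L : Subgroup G) (H : G → Subgroup G)
    (α : L → ℂ) : dadeIsometry A L H (conjFun α) = conjFun (dadeIsometry A L H α) := by
  classical
  funext g
  change dadeIsometry A L H (conjFun α) g = conj (dadeIsometry A L H α g)
  by_cases h : Wit A L H g
  · unfold dadeIsometry
    have h' : ∃ a : ↥L, (a : G) ∈ A ∧ ∃ x : G, ∃ u ∈ H (a : G), x * g * x⁻¹ = (a : G) * u := h
    rw [dif_pos h', dif_pos h']
    rfl
  · rw [dade_of_not_wit _ h, dade_of_not_wit _ h, map_zero]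

/-- Under the Dade hypothesis for (A, L, H): if χ is an irreducible character of L vanishing at every non-identity element of L outside A, then the Dade image of χ − conj χ equals μ − conj μ for some irreducible character μ of G. -/
theorem result {G : Type*} [Group G] [Fintype G] (A : Set G) (L : Subgroup G) [Fintype L] (H : G → Subgroup G) (hD : Cfsg.DadeHypothesis A L H) (χ : L → ℂ) (hχ : Cfsg.IsIrrCharacter L χ) (hsupp : ∀ x : L, x ≠ 1 → (x : G) ∉ A → χ x = 0) : ∃ μ : G → ℂ, Cfsg.IsIrrCharacter G μ ∧ Cfsg.dadeIsometry A L H (χ - Cfsg.conjFun χ) = μ - Cfsg.conjFun μ := by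
  classical
  have hχ' := isIrr_conj hχ
  have hdade0 : dadeIsometry A L H (0 : L → ℂ) = 0 := by
    funext g
    by_cases h : Wit A L H g
    · unfold dadeIsometry
      have h' : ∃ a : ↥L, (a : G) ∈ A ∧ ∃ x : G, ∃ u ∈ H (a : G), x * g * x⁻¹ = (a : G) * u := h
      rw [dif_pos h']
      rfl
    · exact dade_of_not_wit _ h
  by_cases he : conjFun χ = χ
  · refine ⟨fun _ => 1, Cfsg.Agent.Lib.Char.Burnside2.isIrrCharacter_one, ?_⟩
    rw [he, sub_self, hdade0]
    funext g
    simp [conjFun]
  have hξ : IsGeneralizedCharacter L (χ - conjFun χ) :=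
    isGeneralized_sub (isGeneralized_of_isIrr hχ) (isGeneralized_of_isIrr hχ')
  have hξA : ∀ x : L, (x : G) ∉ A → (χ - conjFun χ) x = 0 := by
    intro x hx
    by_cases h1 : x = 1
    · subst h1
      have := Cfsg.Agent.Lib.Char.CompleteCor.conj_apply_one hχ
      simp only [Pi.sub_apply, conjFun]
      rw [this, sub_self]
    · simp only [Pi.sub_apply, conjFun]
      rw [hsupp x h1 hx]
      simp
  have hθ := Cfsg.Agent.S1501.result A L H hD _ hξ hξA
  have hcξ := classFun_of_isGeneralized hξ
  have hnorm : classInner (χ - conjFun χ) (χ - conjFun χ) = 2 := by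
    rw [classInner_sub_left, classInner_sub_right, classInner_sub_right,
      classInner_irr_self hχ, classInner_irr_self hχ',
      classInner_irr_of_ne hχ hχ' (Ne.symm he), classInner_irr_of_ne hχ' hχ he]
    norm_num
  have h2 : classInner (dadeIsometry A L H (χ - conjFun χ)) (dadeIsometry A L H (χ - conjFun χ)) = 2 := by
    rw [classInner_dade_dade hD _ _ hcξ hξA hcξ, hnorm]
  have hone : dadeIsometry A L H (χ - conjFun χ) 1 = 0 := by
    apply dade_of_not_wit
    rintro ⟨a, ha, x, u, hu, hxe⟩
    have e : (a : G) * u = 1 := by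
      rw [← hxe]
      group
    have hau : (a : G) = u⁻¹ := eq_inv_of_mul_eq_one_left e
    have h5 : (a : G) ∈ H (a : G) := by
      have := (H (a : G)).inv_mem hu
      rwa [← hau] at this
    have hmem : (a : G) ∈ H (a : G) ⊓ (L ⊓ Subgroup.centralizer ({(a : G)} : Set G)) :=
      ⟨h5, self_mem hD ha⟩
    rw [hD.inf_eq_bot _ ha] at hmem
    apply hD.one_not_mem
    have : (a : G) = 1 := hmem
    rw [← this]
    exact ha
  obtain ⟨a, b, ha, hb, hab, heq⟩ := exists_of_norm_two_of_one hθ h2 hone
  refine ⟨a, ha, ?_⟩
  have hconj : conjFun (dadeIsometry A L H (χ - conjFun χ)) = -dadeIsometry A L H (χ - conjFun χ) := by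
    rw [← dade_conj]
    have : conjFun (χ - conjFun χ) = -(χ - conjFun χ) := by
      funext x
      simp [conjFun]
    rw [this]
    funext g
    by_cases h : Wit A L H g
    · have h' : ∃ a : ↥L, (a : G) ∈ A ∧ ∃ x : G, ∃ u ∈ H (a : G), x * g * x⁻¹ = (a : G) * u := h
      have e1 : dadeIsometry A L H (-(χ - conjFun χ)) g = (-(χ - conjFun χ)) (Classical.choose h') :=
        dif_pos h'
      have e2 : dadeIsometry A L H (χ - conjFun χ) g = (χ - conjFun χ) (Classical.choose h') :=
        dif_pos h'
      rw [Pi.neg_apply, e1, e2]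
      rfl
    · simp only [Pi.neg_apply]
      rw [dade_of_not_wit _ h, dade_of_not_wit _ h, neg_zero]
  rw [heq] at hconj
  have hsum : conjFun a + a = conjFun b + b := by
    have e1 : conjFun (a - b) = conjFun a - conjFun b := by
      funext x
      simp [conjFun]
    rw [e1] at hconj
    have : conjFun a - conjFun b = b - a := by
      rw [hconj]
      abel
    have h3 : conjFun a - conjFun b + (conjFun b + a) = b - a + (conjFun b + a) := by rw [this]
    calc conjFun a + a = conjFun a - conjFun b + (conjFun b + a) := by abel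
      _ = b - a + (conjFun b + a) := h3
      _ = conjFun b + b := by abel
  have hb' := isIrr_conj hb
  have ha' := isIrr_conj ha
  have hi := congrArg (fun f => classInner f a) hsum
  simp only [classInner_add_left] at hi
  rw [classInner_irr_self ha, classInner_irr_of_ne hb ha (Ne.symm hab)] at hi
  have hba : conjFun b = a := by
    by_contra hne
    rw [classInner_irr_of_ne hb' ha hne] at hi
    by_cases hq : conjFun a = a
    · rw [hq, classInner_irr_self ha] at hi
      norm_num at hi
    · rw [classInner_irr_of_ne ha' ha hq] at hi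
      norm_num at hi
  rw [heq]
  congr 1
  have : b = conjFun a := by
    rw [← hba]
    funext x
    simp [conjFun]
  exact this

end Cfsg.Agent.S1518
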