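import Cfsg.Statements.S1525
import Mathlib
import Cfsg.Agent.S1498
import Cfsg.Agent.S1499
-- import your own Cfsg.Agent.* helpers here

set_option autoImplicit false
open Cfsg

namespace Cfsg.Agent.S1525

open Classical in
/-- `x * a * x⁻¹` decomposition of the centralizer. -/
theorem aux_decomp {G : Type*} [Group G] (T K : Subgroup G)
    (hnorm : ∀ t ∈ T, ∀ k ∈ K, t * k * t⁻¹ ∈ K) (c : G) (hc : c ∈ K ⊔ T) :
    ∃ t ∈ T, ∃ k ∈ K, c = t * k := by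
  let P : Subgroup G :=
    { carrier := {x | ∃ t ∈ T, ∃ k ∈ K, x = t * k}
      one_mem' := ⟨1, T.one_mem, 1, K.one_mem, by simp⟩
      mul_mem' := by
        rintro _ _ ⟨t, ht, k, hk, rfl⟩ ⟨t', ht', k', hk', rfl⟩
        refine ⟨t * t', T.mul_mem ht ht', t'⁻¹ * k * t'⁻¹⁻¹ * k', K.mul_mem (hnorm _ (T.inv_mem ht') k hk) hk', by group⟩
      inv_mem' := by
        rintro _ ⟨t, ht, k, hk, rfl⟩
        refine ⟨t⁻¹, T.inv_mem ht, t * k⁻¹ * t⁻¹, hnorm t ht k⁻¹ (K.inv_mem hk), by group⟩ }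
  have hP : K ⊔ T ≤ P := sup_le
    (fun k hk => ⟨1, T.one_mem, k, hk, by simp⟩)
    (fun t ht => ⟨t, ht, 1, K.one_mem, by simp⟩)
  exact hP hc

section

variable {G : Type*} [Group G] [Fintype G] (A : Set G) (L : Subgroup G) (H : G → Subgroup G)

open Classical in
/-- The set of triples `(x, a, u)`. -/
noncomputable def TT : Finset (G × G × G) :=
  Finset.univ.filter (fun t => t.2.1 ∈ A ∧ t.2.2 ∈ H t.2.1)

open Classical in
theorem fibre_bound (hD : Cfsg.DadeHypothesis A L H) (g : G) :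
    ∑ t ∈ (TT A H).filter (fun t => t.1⁻¹ * (t.2.1 * t.2.2) * t.1 = g),
      ((Nat.card (H t.2.1) : ℝ)⁻¹) ≤ Nat.card L := by
  set F := (TT A H).filter (fun t => t.1⁻¹ * (t.2.1 * t.2.2) * t.1 = g) with hF
  by_cases hne : F.Nonempty
  swap
  · rw [Finset.not_nonempty_iff_eq_empty.1 hne, Finset.sum_empty]
    positivity
  obtain ⟨⟨x₀, a₀, u₀⟩, ht₀⟩ := hne
  have hmemF : ∀ x a u, (x, a, u) ∈ F ↔ a ∈ A ∧ u ∈ H a ∧ x⁻¹ * (a * u) * x = g := by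
    intro x a u
    simp [hF, TT, and_assoc]
  obtain ⟨ha₀, hu₀, hg₀⟩ := (hmemF _ _ _).1 ht₀
  have hcomm : ∀ c ∈ A, ∀ u ∈ H c, Commute c u := by
    intro c hc u hu
    have := hD.le_centralizer c hc hu
    rw [Subgroup.mem_centralizer_iff] at this
    exact this c rfl
  -- Claim A
  have hA : ∀ x a u, (x, a, u) ∈ F → a = (x * x₀⁻¹) * a₀ * (x * x₀⁻¹)⁻¹ := by
    intro x a u ht
    obtain ⟨ha, hu, hg⟩ := (hmemF _ _ _).1 ht
    obtain ⟨m, ham, ha₀m, hum, hu₀m⟩ := Cfsg.Agent.S1499.exists_extract A L H hD a a₀ ha ha₀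
    have h1 : (a * u) ^ m = a := by
      rw [(hcomm a ha u hu).mul_pow, ham, hum u hu, mul_one]
    have h2 : (a₀ * u₀) ^ m = a₀ := by
      rw [(hcomm a₀ ha₀ u₀ hu₀).mul_pow, ha₀m, hu₀m u₀ hu₀, mul_one]
    have h3 : x⁻¹ * a * x = x₀⁻¹ * a₀ * x₀ := by
      have e1 : x⁻¹ * a * x = g ^ m := by
        rw [← hg]
        have := conj_pow (a := x⁻¹) (b := a * u) (i := m)
        rw [inv_inv] at this
        rw [this, h1]
      have e2 : x₀⁻¹ * a₀ * x₀ = g ^ m := by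
        rw [← hg₀]
        have := conj_pow (a := x₀⁻¹) (b := a₀ * u₀) (i := m)
        rw [inv_inv] at this
        rw [this, h2]
      rw [e1, e2]
    calc a = x * (x⁻¹ * a * x) * x⁻¹ := by group
      _ = x * (x₀⁻¹ * a₀ * x₀) * x⁻¹ := by rw [h3]
      _ = (x * x₀⁻¹) * a₀ * (x * x₀⁻¹)⁻¹ := by group
  -- Fusion
  have hfus : ∀ x a u, (x, a, u) ∈ F →
      ∃ l ∈ L, l * a₀ * l⁻¹ = (x * x₀⁻¹) * a₀ * (x * x₀⁻¹)⁻¹ := by
    intro x a u ht
    obtain ⟨ha, -, -⟩ := (hmemF _ _ _).1 ht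
    have h1 := hA x a u ht
    exact hD.fusion a₀ ha₀ (x * x₀⁻¹) (by rw [← h1]; exact ha)
  -- equal cards
  have hcard : ∀ x a u, (x, a, u) ∈ F → Nat.card (H a) = Nat.card (H a₀) := by
    intro x a u ht
    obtain ⟨l, hl, hl'⟩ := hfus x a u ht
    have h1 := hA x a u ht
    rw [← hl'] at h1
    rw [h1, Cfsg.Agent.S1498.result A L H hD a₀ ha₀ l hl]
    exact Subgroup.card_map_of_injective (MulAut.conj l).injective
  -- membership in `L * H a₀`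
  have hmem : ∀ x a u, (x, a, u) ∈ F → ∃ l ∈ L, ∃ h ∈ H a₀, x * x₀⁻¹ = l * h := by
    intro x a u ht
    obtain ⟨l, hl, hl'⟩ := hfus x a u ht
    set y := x * x₀⁻¹ with hy
    have hc : l⁻¹ * y ∈ Subgroup.centralizer ({a₀} : Set G) := by
      rw [Subgroup.mem_centralizer_singleton_iff]
      calc l⁻¹ * y * a₀ = l⁻¹ * (y * a₀ * y⁻¹) * y := by group
        _ = l⁻¹ * (l * a₀ * l⁻¹) * y := by rw [hl']
        _ = a₀ * (l⁻¹ * y) := by group
    rw [← hD.sup_eq a₀ ha₀] at hc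
    obtain ⟨t, ht', k, hk, e⟩ := aux_decomp (L ⊓ Subgroup.centralizer ({a₀} : Set G)) (H a₀) (fun t ht k hk =>
      hD.conj_mem_H a₀ ha₀ t (Subgroup.mem_inf.1 ht).2 k hk) _ hc
    refine ⟨l * t, L.mul_mem hl ht'.1, k, hk, ?_⟩
    calc y = l * (l⁻¹ * y) := by group
      _ = l * (t * k) := by rw [e]
      _ = l * t * k := by group
  -- cardinality of the fibre
  let LF : Finset G := Finset.univ.filter (· ∈ L)
  let HF : Finset G := Finset.univ.filter (· ∈ H a₀)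
  have hLF : LF.card = Nat.card L := (Nat.subtype_card LF (by simp [LF])).symm
  have hHF : HF.card = Nat.card (H a₀) := (Nat.subtype_card HF (by simp [HF])).symm
  have hFcard : F.card ≤ Nat.card L * Nat.card (H a₀) := by
    have h1 : F.card ≤ ((LF ×ˢ HF).image (fun p : G × G => p.1 * p.2)).card := by
      refine Finset.card_le_card_of_injOn (fun t => t.1 * x₀⁻¹) ?_ ?_
      · rintro ⟨x, a, u⟩ ht
        obtain ⟨l, hl, h, hh, e⟩ := hmem x a u ht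
        refine Finset.mem_image.2 ⟨(l, h), Finset.mem_product.2 ⟨?_, ?_⟩, e.symm⟩
        · simpa [LF] using hl
        · simpa [HF] using hh
      · rintro ⟨x, a, u⟩ ht ⟨x', a', u'⟩ ht' e
        have e' : x = x' := mul_right_cancel e
        subst e'
        have h1 := hA x a u ht
        have h2 := hA x a' u' ht'
        have h3 : a = a' := h1.trans h2.symm
        subst h3
        obtain ⟨-, -, hg1⟩ := (hmemF _ _ _).1 ht
        obtain ⟨-, -, hg2⟩ := (hmemF _ _ _).1 ht'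
        have h4 : x⁻¹ * (a * u) * x = x⁻¹ * (a * u') * x := hg1.trans hg2.symm
        have h5 : u = u' := by
          have := mul_right_cancel h4
          exact mul_left_cancel (mul_left_cancel this)
        rw [h5]
    refine h1.trans (Finset.card_image_le.trans ?_)
    rw [Finset.card_product, hLF, hHF]
  have hsum : ∑ t ∈ F, ((Nat.card (H t.2.1) : ℝ)⁻¹) = F.card * ((Nat.card (H a₀) : ℝ)⁻¹) := by
    rw [← nsmul_eq_mul, ← Finset.sum_const]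
    refine Finset.sum_congr rfl ?_
    rintro ⟨x, a, u⟩ ht
    show ((Nat.card (H a) : ℝ)⁻¹) = _
    rw [hcard x a u ht]
  rw [hsum]
  have hpos : (0 : ℝ) < Nat.card (H a₀) := by exact_mod_cast Nat.card_pos
  have h1 : (F.card : ℝ) ≤ Nat.card L * Nat.card (H a₀) := by exact_mod_cast hFcard
  calc (F.card : ℝ) * ((Nat.card (H a₀) : ℝ)⁻¹)
      ≤ (Nat.card L * Nat.card (H a₀)) * ((Nat.card (H a₀) : ℝ)⁻¹) := by gcongr
    _ = Nat.card L := by field_simp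

open Classical in
theorem main_ineq (hD : Cfsg.DadeHypothesis A L H) (χ : G → ℂ) (hχ : Cfsg.IsClassFunction G χ) :
    (Nat.card G : ℝ) * ∑ a ∈ Finset.univ.filter (· ∈ A),
        ((Nat.card (H a) : ℝ)⁻¹ * ∑ u ∈ Finset.univ.filter (· ∈ H a), ‖χ (a * u)‖ ^ 2) ≤
      Nat.card L * ∑ g ∈ Finset.univ.filter
        (· ∈ {g : G | ∃ a ∈ A, ∃ u ∈ H a, ∃ x : G, x * g * x⁻¹ = a * u}), ‖χ g‖ ^ 2 := by
  set DF := Finset.univ.filter
        (· ∈ {g : G | ∃ a ∈ A, ∃ u ∈ H a, ∃ x : G, x * g * x⁻¹ = a * u}) with hDF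
  let f : G × G × G → ℝ := fun t => (Nat.card (H t.2.1) : ℝ)⁻¹ * ‖χ (t.2.1 * t.2.2)‖ ^ 2
  have h1 : ∑ t ∈ TT A H, f t = (Nat.card G : ℝ) * ∑ a ∈ Finset.univ.filter (· ∈ A),
        ((Nat.card (H a) : ℝ)⁻¹ * ∑ u ∈ Finset.univ.filter (· ∈ H a), ‖χ (a * u)‖ ^ 2) := by
    rw [TT, Finset.sum_filter, Fintype.sum_prod_type]
    simp only [Fintype.sum_prod_type, f]
    rw [Finset.sum_const, Finset.card_univ, nsmul_eq_mul, Nat.card_eq_fintype_card]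
    congr 1
    rw [Finset.sum_filter]
    refine Finset.sum_congr rfl fun a _ => ?_
    by_cases ha : a ∈ A
    · simp only [ha, true_and, if_true]
      rw [Finset.mul_sum, Finset.sum_filter]
    · simp [ha]
  have hmaps : ∀ t ∈ TT A H, t.1⁻¹ * (t.2.1 * t.2.2) * t.1 ∈ DF := by
    rintro ⟨x, a, u⟩ ht
    simp only [TT, Finset.mem_filter, Finset.mem_univ, true_and] at ht
    simp only [hDF, Finset.mem_filter, Finset.mem_univ, true_and, Set.mem_ofPred_eq]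
    exact ⟨a, ht.1, u, ht.2, x, by group⟩
  have h2 := Finset.sum_fiberwise_of_maps_to hmaps f
  rw [← h1, ← h2, Finset.mul_sum]
  refine Finset.sum_le_sum fun g _ => ?_
  have h3 : ∑ t ∈ (TT A H).filter (fun t => t.1⁻¹ * (t.2.1 * t.2.2) * t.1 = g), f t =
      (∑ t ∈ (TT A H).filter (fun t => t.1⁻¹ * (t.2.1 * t.2.2) * t.1 = g),
        ((Nat.card (H t.2.1) : ℝ)⁻¹)) * ‖χ g‖ ^ 2 := by
    rw [Finset.sum_mul]
    refine Finset.sum_congr rfl ?_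
    rintro ⟨x, a, u⟩ ht
    simp only [Finset.mem_filter] at ht
    show (Nat.card (H a) : ℝ)⁻¹ * ‖χ (a * u)‖ ^ 2 = _
    have h4 : χ g = χ (a * u) := by
      rw [← ht.2]
      have := hχ (a * u) x⁻¹
      rw [inv_inv] at this
      exact this
    rw [h4]
  rw [h3]
  exact mul_le_mul_of_nonneg_right (fibre_bound A L H hD g) (by positivity)

end

theorem aux_cs {ι : Type*} (s : Finset ι) (hs : s.Nonempty) (z : ι → ℂ) :
    ‖((s.card : ℂ)⁻¹ * ∑ i ∈ s, z i)‖ ^ 2 ≤ (s.card : ℝ)⁻¹ * ∑ i ∈ s, ‖z i‖ ^ 2 := by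
  have hpos : (0 : ℝ) < s.card := by exact_mod_cast Finset.card_pos.2 hs
  have h1 : ‖∑ i ∈ s, z i‖ ≤ ∑ i ∈ s, ‖z i‖ := norm_sum_le _ _
  have h2 : (∑ i ∈ s, ‖z i‖) ^ 2 ≤ s.card * ∑ i ∈ s, ‖z i‖ ^ 2 := sq_sum_le_card_mul_sum_sq
  have h3 : ‖∑ i ∈ s, z i‖ ^ 2 ≤ s.card * ∑ i ∈ s, ‖z i‖ ^ 2 :=
    (pow_le_pow_left₀ (norm_nonneg _) h1 2).trans h2
  rw [norm_mul, norm_inv, Complex.norm_natCast, mul_pow, inv_pow]
  calc ((s.card : ℝ) ^ 2)⁻¹ * ‖∑ i ∈ s, z i‖ ^ 2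
      ≤ ((s.card : ℝ) ^ 2)⁻¹ * (s.card * ∑ i ∈ s, ‖z i‖ ^ 2) := by gcongr
    _ = (s.card : ℝ)⁻¹ * ∑ i ∈ s, ‖z i‖ ^ 2 := by field_simp


/-- Under the Dade hypothesis for (A, L, H), let χ be a class function of G and let ψ be a function on L whose value at each a ∈ A is the average of χ over the coset a·H(a). Then (1/|G|) Σ |χ g|² over the elements g of G conjugate into some coset a·H(a) with a ∈ A is at least (1/|L|) Σ_{a ∈ A ∩ L} |ψ a|². -/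
theorem result {G : Type*} [Group G] [Fintype G] (A : Set G) (L : Subgroup G) [Fintype L] (H : G → Subgroup G) (hD : Cfsg.DadeHypothesis A L H) (χ : G → ℂ) (hχ : Cfsg.IsClassFunction G χ) (ψ : L → ℂ) (hψ : ∀ a : L, (a : G) ∈ A → ψ a = (Nat.card (H a) : ℂ)⁻¹ * ∑ᶠ u ∈ (H a : Set G), χ (a * u)) : (Nat.card L : ℝ)⁻¹ * ∑ᶠ a ∈ {a : L | (a : G) ∈ A}, ‖ψ a‖ ^ 2 ≤ (Nat.card G : ℝ)⁻¹ * ∑ᶠ g ∈ {g : G | ∃ a ∈ A, ∃ u ∈ H a, ∃ x : G, x * g * x⁻¹ = a * u}, ‖χ g‖ ^ 2 := by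
  classical
  have hmain := main_ineq A L H hD χ hχ
  set DF := Finset.univ.filter
        (· ∈ {g : G | ∃ a ∈ A, ∃ u ∈ H a, ∃ x : G, x * g * x⁻¹ = a * u}) with hDF
  have hRHS : ∑ᶠ g ∈ {g : G | ∃ a ∈ A, ∃ u ∈ H a, ∃ x : G, x * g * x⁻¹ = a * u}, ‖χ g‖ ^ 2 =
      ∑ g ∈ DF, ‖χ g‖ ^ 2 := by
    rw [finsum_mem_eq_toFinset_sum]
    refine Finset.sum_congr ?_ fun _ _ => rfl
    ext g
    simp [hDF]
  let AL : Finset L := Finset.univ.filter (fun a : L => (a : G) ∈ A)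
  have hLHS : ∑ᶠ a ∈ {a : L | (a : G) ∈ A}, ‖ψ a‖ ^ 2 = ∑ a ∈ AL, ‖ψ a‖ ^ 2 := by
    rw [finsum_mem_eq_toFinset_sum]
    refine Finset.sum_congr ?_ fun _ _ => rfl
    ext g
    simp [AL]
  rw [hRHS, hLHS]
  let av : G → ℝ := fun a => (Nat.card (H a) : ℝ)⁻¹ * ∑ u ∈ Finset.univ.filter (· ∈ H a), ‖χ (a * u)‖ ^ 2
  have hcs : ∀ a ∈ AL, ‖ψ a‖ ^ 2 ≤ av a := by
    intro a ha
    have ha' : (a : G) ∈ A := (Finset.mem_filter.1 ha).2
    have hcardH : Nat.card (H a) = (Finset.univ.filter (· ∈ H a)).card :=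
      Nat.subtype_card _ (by simp)
    have hsumH : ∑ᶠ u ∈ (H a : Set G), χ (a * u) = ∑ u ∈ Finset.univ.filter (· ∈ H a), χ (a * u) := by
      rw [finsum_mem_eq_toFinset_sum]
      refine Finset.sum_congr ?_ fun _ _ => rfl
      ext g
      simp
    rw [hψ a ha', hsumH]
    show _ ≤ (Nat.card (H a) : ℝ)⁻¹ * _
    rw [hcardH]
    exact aux_cs _ ⟨1, by simp [one_mem]⟩ _
  have hbij : ∑ a ∈ AL, av a = ∑ a ∈ Finset.univ.filter (· ∈ A), av a := by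
    refine Finset.sum_bij (fun a _ => (a : G)) ?_ ?_ ?_ ?_
    · intro a ha
      simpa [AL] using ha
    · intro a _ b _ h
      exact Subtype.ext h
    · intro b hb
      have hb' : b ∈ A := (Finset.mem_filter.1 hb).2
      exact ⟨⟨b, hD.subset hb'⟩, by simpa [AL] using hb', rfl⟩
    · intro a _
      rfl
  have hGpos : (0 : ℝ) < Nat.card G := by exact_mod_cast Nat.card_pos
  have hLpos : (0 : ℝ) < Nat.card L := by exact_mod_cast Nat.card_pos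
  have h1 : ∑ a ∈ AL, ‖ψ a‖ ^ 2 ≤ ∑ a ∈ Finset.univ.filter (· ∈ A), av a := by
    rw [← hbij]
    exact Finset.sum_le_sum hcs
  rw [inv_mul_le_iff₀ hLpos]
  calc ∑ a ∈ AL, ‖ψ a‖ ^ 2 ≤ ∑ a ∈ Finset.univ.filter (· ∈ A), av a := h1
    _ = (Nat.card G : ℝ)⁻¹ * ((Nat.card G : ℝ) * ∑ a ∈ Finset.univ.filter (· ∈ A), av a) := by
      field_simp
    _ ≤ (Nat.card G : ℝ)⁻¹ * ((Nat.card L : ℝ) * ∑ g ∈ DF, ‖χ g‖ ^ 2) := by
      gcongr
    _ = (Nat.card L : ℝ) * ((Nat.card G : ℝ)⁻¹ * ∑ g ∈ DF, ‖χ g‖ ^ 2) := by ring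

end Cfsg.Agent.S1525
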