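import Cfsg.Statements.S1527
import Mathlib
-- import your own Cfsg.Agent.* helpers here

set_option autoImplicit false
open Cfsg

namespace Cfsg.Agent.S1527

open Classical in
/-- Count of the nontrivial conjugates of a TI-subgroup. -/
theorem card_conj_nontrivial {G : Type*} [Group G] [Fintype G] (H : Subgroup G)
    (hTI : Cfsg.IsTISubset (H : Set G)) :
    (Finset.univ.filter (fun g : G => g ≠ 1 ∧ ∃ x : G, x * g * x⁻¹ ∈ H)).card =
      (Subgroup.normalizer (H : Set G)).index * (Nat.card H - 1) := by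
  set C := Finset.univ.filter (fun g : G => g ≠ 1 ∧ ∃ x : G, x * g * x⁻¹ ∈ H) with hC
  set N := Subgroup.normalizer (H : Set G) with hN
  let Hs : Finset G := Finset.univ.filter (fun h : G => h ∈ H ∧ h ≠ 1)
  have hHs : Hs.card = Nat.card H - 1 := by
    have h1 : Hs = (Finset.univ.filter (fun h : G => h ∈ H)).erase 1 := by
      ext h
      simp [Hs, and_comm]
    rw [h1, Finset.card_erase_of_mem (by simp [one_mem]),
      Nat.subtype_card (Finset.univ.filter (fun h : G => h ∈ H)) (by simp)]
  let P : Finset (G × G) := Finset.univ ×ˢ Hs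
  have hP : P.card = Nat.card G * (Nat.card H - 1) := by
    rw [Finset.card_product, hHs, Finset.card_univ, Nat.card_eq_fintype_card (α := G)]
  have hmaps : ∀ p ∈ P, p.1 * p.2 * p.1⁻¹ ∈ C := by
    intro p hp
    obtain ⟨_, hp2⟩ := Finset.mem_product.mp hp
    obtain ⟨_, hpH, hp1⟩ := Finset.mem_filter.mp hp2
    refine Finset.mem_filter.mpr ⟨Finset.mem_univ _, ?_, p.1⁻¹, ?_⟩
    · intro h
      apply hp1
      have : p.2 = p.1⁻¹ * (p.1 * p.2 * p.1⁻¹) * p.1 := by group
      rw [this, h]
      group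
    · have : p.1⁻¹ * (p.1 * p.2 * p.1⁻¹) * (p.1⁻¹)⁻¹ = p.2 := by group
      rw [this]
      exact hpH
  have hfib : ∀ g ∈ C, (P.filter (fun p => p.1 * p.2 * p.1⁻¹ = g)).card = Nat.card N := by
    intro g hg
    obtain ⟨_, hg1, x, hx⟩ := Finset.mem_filter.mp hg
    set h0 := x * g * x⁻¹ with hh0
    have hh01 : h0 ≠ 1 := by
      intro h
      apply hg1
      have : g = x⁻¹ * h0 * x := by rw [hh0]; group
      rw [this, h]
      group
    rw [Nat.subtype_card (Finset.univ.filter (fun n : G => n ∈ N)) (by simp)]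
    symm
    refine Finset.card_nbij' (fun n => (x⁻¹ * n, n⁻¹ * h0 * n)) (fun p => x * p.1) ?_ ?_ ?_ ?_
    · intro n hn
      have hnN : n ∈ N := (Finset.mem_filter.mp hn).2
      have hk : n⁻¹ * h0 * n ∈ H := by
        have h1 := (Subgroup.mem_normalizer_iff.mp (inv_mem hnN) h0).mp hx
        simpa using h1
      refine Finset.mem_coe.mpr (Finset.mem_filter.mpr ⟨Finset.mem_product.mpr ⟨Finset.mem_univ _,
        Finset.mem_filter.mpr ⟨Finset.mem_univ _, hk, ?_⟩⟩, ?_⟩)
      · intro h
        have h' : n⁻¹ * h0 * n = 1 := h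
        apply hh01
        have : h0 = n * (n⁻¹ * h0 * n) * n⁻¹ := by group
        rw [this, h']
        group
      · show x⁻¹ * n * (n⁻¹ * h0 * n) * (x⁻¹ * n)⁻¹ = g
        rw [hh0]
        group
    · intro p hp
      obtain ⟨hpP, hpg⟩ := Finset.mem_filter.mp (Finset.mem_coe.mp hp)
      obtain ⟨_, hp2⟩ := Finset.mem_product.mp hpP
      obtain ⟨_, hpH, hp1⟩ := Finset.mem_filter.mp hp2
      refine Finset.mem_coe.mpr (Finset.mem_filter.mpr ⟨Finset.mem_univ _, ?_⟩)
      by_contra hnotN
      have h1 : (x * p.1) * p.2 * (x * p.1)⁻¹ = h0 := by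
        rw [hh0, ← hpg]
        group
      exact hp1 (hTI (x * p.1) hnotN p.2 hpH (by rw [h1]; exact hx))
    · intro n _
      show x * (x⁻¹ * n) = n
      group
    · intro p hp
      obtain ⟨hpP, hpg⟩ := Finset.mem_filter.mp (Finset.mem_coe.mp hp)
      refine Prod.ext ?_ ?_
      · show x⁻¹ * (x * p.1) = p.1
        group
      · show (x * p.1)⁻¹ * h0 * (x * p.1) = p.2
        rw [hh0, ← hpg]
        group
  have hcount : P.card = C.card * Nat.card N := by
    rw [Finset.card_eq_sum_card_fiberwise hmaps, Finset.sum_congr rfl hfib, Finset.sum_const, smul_eq_mul]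
  have hG : Nat.card G = N.index * Nat.card N := (Subgroup.index_mul_card N).symm
  have hNpos : 0 < Nat.card N := Nat.card_pos
  rw [hP, hG] at hcount
  have : (N.index * (Nat.card H - 1)) * Nat.card N = C.card * Nat.card N := by
    rw [← hcount]; ring
  exact (Nat.eq_of_mul_eq_mul_right hNpos this).symm

/-- Let G be a finite group and H i (i in a finite index type) subgroups of pairwise coprime orders, each of whose underlying sets is a TI-subset of G, such that every non-identity element of G is conjugate to an element of some H i. Then Nat.card G − 1 = Σ_i [G : N_G(H i)] · (Nat.card (H i) − 1). -/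
theorem result {G : Type*} [Group G] [Finite G] {ι : Type*} [Fintype ι] (H : ι → Subgroup G) (hcop : ∀ i j, i ≠ j → Nat.Coprime (Nat.card (H i)) (Nat.card (H j))) (hTI : ∀ i, Cfsg.IsTISubset (H i : Set G)) (hcover : ∀ g : G, g ≠ 1 → ∃ i, ∃ x : G, x * g * x⁻¹ ∈ H i) : Nat.card G - 1 = ∑ i, (Subgroup.normalizer (H i : Set G)).index * (Nat.card (H i) - 1) := by
  classical
  have := Fintype.ofFinite G
  let C : ι → Finset G := fun i => Finset.univ.filter (fun g : G => g ≠ 1 ∧ ∃ x : G, x * g * x⁻¹ ∈ H i)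
  have hU : (Finset.univ : Finset G).erase 1 = Finset.univ.biUnion C := by
    ext g
    simp only [Finset.mem_erase, Finset.mem_univ, and_true, Finset.mem_biUnion, true_and, C, Finset.mem_filter]
    constructor
    · intro hg
      obtain ⟨i, x, hx⟩ := hcover g hg
      exact ⟨i, hg, x, hx⟩
    · rintro ⟨_, hg, _⟩
      exact hg
  have hdisj : ∀ i ∈ (Finset.univ : Finset ι), ∀ j ∈ (Finset.univ : Finset ι), i ≠ j → Disjoint (C i) (C j) := by
    intro i _ j _ hij
    rw [Finset.disjoint_left]
    intro g hgi hgj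
    obtain ⟨_, hg1, x, hx⟩ := Finset.mem_filter.mp hgi
    obtain ⟨_, _, y, hy⟩ := Finset.mem_filter.mp hgj
    have ho : ∀ z : G, orderOf (z * g * z⁻¹) = orderOf g := fun z => by
      have : z * g * z⁻¹ = MulAut.conj z g := rfl
      rw [this, MulEquiv.orderOf_eq]
    have h1 : orderOf g ∣ Nat.card (H i) := ho x ▸ Subgroup.orderOf_dvd_natCard _ hx
    have h2 : orderOf g ∣ Nat.card (H j) := ho y ▸ Subgroup.orderOf_dvd_natCard _ hy
    have h3 : orderOf g = 1 := Nat.eq_one_of_dvd_coprimes (hcop i j hij) h1 h2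
    exact hg1 (orderOf_eq_one_iff.mp h3)
  have hcard : Nat.card G - 1 = ((Finset.univ : Finset G).erase 1).card := by
    rw [Finset.card_erase_of_mem (Finset.mem_univ _), Finset.card_univ, Nat.card_eq_fintype_card]
  rw [hcard, hU, Finset.card_biUnion hdisj]
  exact Finset.sum_congr rfl fun i _ => by
    convert card_conj_nontrivial (H i) (hTI i)

end Cfsg.Agent.S1527
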