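import Cfsg.Statements.S1529
import Mathlib
import Cfsg.Agent.Lib.Char.Virtual
-- import your own Cfsg.Agent.* helpers here

set_option autoImplicit false
open Cfsg
open Cfsg.Agent.Lib.Char.Virtual

namespace Cfsg.Agent.S1529

/-- Let N be a subgroup of the finite group G, S a set of irreducible characters of N with at least two members, and τ₁ a linear isometry on the integer combinations of S with virtual-character values such that τ₁ α vanishes at 1 whenever α ∈ ℤ[S] does. Then there is ε ∈ {1, −1} such that ε • τ₁ χ is an irreducible character of G for every χ ∈ S, and distinct members of S give distinct characters. -/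
theorem result {G : Type*} [Group G] [Fintype G] (N : Subgroup G) [Fintype N] (S : Set (N → ℂ)) (hirr : ∀ χ ∈ S, Cfsg.IsIrrCharacter N χ) (htwo : ∃ χ ∈ S, ∃ ψ ∈ S, χ ≠ ψ) (τ₁ : (N → ℂ) → (G → ℂ)) (hτ₁ : Cfsg.IsLinearIsometryOn (Cfsg.zspan S) τ₁) (h0 : ∀ α ∈ Cfsg.zspan S, α 1 = 0 → τ₁ α 1 = 0) : ∃ ε : ℂ, (ε = 1 ∨ ε = -1) ∧ (∀ χ ∈ S, Cfsg.IsIrrCharacter G (ε • τ₁ χ)) ∧ (∀ χ ∈ S, ∀ ψ ∈ S, τ₁ χ = τ₁ ψ → χ = ψ) := by
  obtain ⟨χ₀, hχ₀, -, -, -⟩ := htwo
  obtain ⟨hadd, hsmul, hinner, hvirt⟩ := hτ₁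
  have hmem : ∀ χ ∈ S, χ ∈ Cfsg.zspan S := fun χ hχ => Submodule.subset_span hχ
  have hsigned : ∀ χ ∈ S, IsSignedIrr G (τ₁ χ) := by
    intro χ hχ
    apply isSignedIrr_of_norm_one (hvirt χ (hmem χ hχ))
    rw [hinner χ (hmem χ hχ) χ (hmem χ hχ), classInner_irr_self (hirr χ hχ)]
  -- the values at `1` are in proportion
  have hprop : ∀ χ ∈ S, ∀ ψ ∈ S, ∃ a b : ℕ, 0 < a ∧ 0 < b ∧
      (a : ℂ) * τ₁ χ 1 = (b : ℂ) * τ₁ ψ 1 := by
    intro χ hχ ψ hψ
    obtain ⟨b, hb, hbe⟩ := exists_degree_of_isIrr (hirr χ hχ)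
    obtain ⟨a, ha, hae⟩ := exists_degree_of_isIrr (hirr ψ hψ)
    refine ⟨a, b, ha, hb, ?_⟩
    have h1 : (a : ℤ) • χ ∈ Cfsg.zspan S := Submodule.smul_mem _ _ (hmem χ hχ)
    have h2 : (-(b : ℤ)) • ψ ∈ Cfsg.zspan S := Submodule.smul_mem _ _ (hmem ψ hψ)
    have h3 : (a : ℤ) • χ + (-(b : ℤ)) • ψ ∈ Cfsg.zspan S := Submodule.add_mem _ h1 h2
    have h4 : ((a : ℤ) • χ + (-(b : ℤ)) • ψ) 1 = 0 := by
      rw [Pi.add_apply, Pi.smul_apply, Pi.smul_apply, hae, hbe, zsmul_eq_mul, zsmul_eq_mul]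
      push_cast
      ring
    have h5 := h0 _ h3 h4
    rw [hadd _ h1 _ h2, hsmul _ (hmem χ hχ), hsmul _ (hmem ψ hψ)] at h5
    rw [Pi.add_apply, Pi.smul_apply, Pi.smul_apply, zsmul_eq_mul, zsmul_eq_mul] at h5
    push_cast at h5
    linear_combination h5
  have hinj : ∀ χ ∈ S, ∀ ψ ∈ S, τ₁ χ = τ₁ ψ → χ = ψ := by
    intro χ hχ ψ hψ h
    by_contra hne
    have h1 := hinner χ (hmem χ hχ) ψ (hmem ψ hψ)
    rw [← h, hinner χ (hmem χ hχ) χ (hmem χ hχ), classInner_irr_self (hirr χ hχ),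
      classInner_irr_of_ne (hirr χ hχ) (hirr ψ hψ) hne] at h1
    exact one_ne_zero h1
  have hnum : ∀ (a b m n : ℕ), 0 < a → 0 < m → (a : ℂ) * (-(m : ℂ)) = (b : ℂ) * (n : ℂ) → False := by
    intro a b m n ha hm h
    have h1 : ((a * m + b * n : ℕ) : ℂ) = 0 := by
      push_cast
      linear_combination -h
    have h2 : a * m + b * n = 0 := by exact_mod_cast h1
    have : 0 < a * m := Nat.mul_pos ha hm
    omega
  rcases hsigned χ₀ hχ₀ with h | h
  · refine ⟨1, Or.inl rfl, fun χ hχ => ?_, hinj⟩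
    rw [one_smul]
    rcases hsigned χ hχ with h' | h'
    · exact h'
    · exfalso
      obtain ⟨a, b, ha, hb, hab⟩ := hprop χ hχ χ₀ hχ₀
      obtain ⟨m, hm, hm'⟩ := exists_degree_of_isIrr h'
      obtain ⟨n, hn, hn'⟩ := exists_degree_of_isIrr h
      have hm'' : τ₁ χ 1 = -(m : ℂ) := by
        have : (-τ₁ χ) 1 = (m : ℂ) := hm'
        simp only [Pi.neg_apply] at this
        rw [← this, neg_neg]
      rw [hm'', hn'] at hab
      exact hnum a b m n ha hm hab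
  · refine ⟨-1, Or.inr rfl, fun χ hχ => ?_, hinj⟩
    rw [neg_smul, one_smul]
    rcases hsigned χ hχ with h' | h'
    · exfalso
      obtain ⟨a, b, ha, hb, hab⟩ := hprop χ₀ hχ₀ χ hχ
      obtain ⟨m, hm, hm'⟩ := exists_degree_of_isIrr h
      obtain ⟨n, hn, hn'⟩ := exists_degree_of_isIrr h'
      have hm'' : τ₁ χ₀ 1 = -(m : ℂ) := by
        have : (-τ₁ χ₀) 1 = (m : ℂ) := hm'
        simp only [Pi.neg_apply] at this
        rw [← this, neg_neg]
      rw [hm'', hn'] at hab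
      exact hnum a b m n ha hm hab
    · exact h'

end Cfsg.Agent.S1529
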