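import Cfsg.Statements.S1530
import Mathlib
import Cfsg.Agent.Lib.Char.Coherence
-- import your own Cfsg.Agent.* helpers here

set_option autoImplicit false
open Cfsg
open Cfsg.Agent.Lib.Char.Virtual Cfsg.Agent.Lib.Char.Coherence

namespace Cfsg.Agent.S1530

/-- The arithmetic core. -/
theorem arith_core (D q A N T₀ : ℤ) (hD : 0 < D) (hq : 0 < q) (hN : 0 ≤ N)
    (h1 : D ^ 2 * N = D ^ 2 * (1 + 2 * q * A) - A ^ 2 * T₀) (hlt : 2 * D ^ 2 * q < T₀) :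
    A = 0 ∨ (A = 1 ∧ N = 0) := by
  by_cases hA : A = 0
  · exact Or.inl hA
  right
  have hD2 : 0 < D ^ 2 := by positivity
  have hA2 : 0 < A ^ 2 := by positivity
  have h2 : 0 ≤ D ^ 2 * N := mul_nonneg hD2.le hN
  have h3 : A ^ 2 * (2 * D ^ 2 * q) < A ^ 2 * T₀ := mul_lt_mul_of_pos_left hlt hA2
  have h4 : D ^ 2 * (2 * q * A * (A - 1)) < D ^ 2 * 1 := by nlinarith
  have h5 : 2 * q * A * (A - 1) < 1 := lt_of_mul_lt_mul_left h4 hD2.le
  have h6 : 0 ≤ A * (A - 1) := by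
    rcases le_or_gt A 0 with h | h
    · exact mul_nonneg_of_nonpos_of_nonpos h (by omega)
    · exact mul_nonneg h.le (by omega)
  have h7 : A * (A - 1) = 0 := by
    by_contra hne
    have h8 : 1 ≤ A * (A - 1) := by omega
    nlinarith
  have hA1 : A = 1 := by
    rcases mul_eq_zero.mp h7 with h | h
    · exact absurd h hA
    · omega
  subst hA1
  refine ⟨rfl, ?_⟩
  have h9 : D ^ 2 * N < D ^ 2 * 1 := by nlinarith
  have h10 : N < 1 := lt_of_mul_lt_mul_left h9 hD2.le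
  omega

/-- Let N be a subgroup of the finite group G and S₀ a finite set of irreducible characters of N, χ an irreducible character of N not in S₀, with degrees ξ 1 = d ξ. Let τ be a linear isometry on the integer combinations of S₀ ∪ {χ} vanishing at 1, with values virtual characters of G vanishing at 1, such that (S₀, N minus 1, τ) is coherent. If some ψ ∈ S₀ has d ψ dividing d χ and 2 · d ψ · d χ < Σ_{ξ ∈ S₀} (d ξ)², then (S₀ ∪ {χ}, N minus 1, τ) is coherent. -/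
theorem result {G : Type*} [Group G] [Fintype G] (N : Subgroup G) [Fintype N] (S₀ : Finset (N → ℂ)) (χ : N → ℂ) (hirr : ∀ ξ ∈ S₀, Cfsg.IsIrrCharacter N ξ) (hχ : Cfsg.IsIrrCharacter N χ) (hχS : χ ∉ S₀) (d : (N → ℂ) → ℕ) (hd : ∀ ξ ∈ insert χ S₀, ξ 1 = (d ξ : ℂ)) (τ : (N → ℂ) → (G → ℂ)) (hτ : Cfsg.IsLinearIsometryOn (Cfsg.zspanOn (↑(insert χ S₀) : Set (N → ℂ)) {1}ᶜ) τ) (hτ1 : ∀ α ∈ Cfsg.zspanOn (↑(insert χ S₀) : Set (N → ℂ)) {1}ᶜ, τ α 1 = 0) (hcoh : Cfsg.IsCoherent (↑S₀ : Set (N → ℂ)) {1}ᶜ τ) (ψ : N → ℂ) (hψ : ψ ∈ S₀) (hdvd : d ψ ∣ d χ) (hlt : 2 * d ψ * d χ < ∑ ξ ∈ S₀, d ξ ^ 2) : Cfsg.IsCoherent (↑(insert χ S₀) : Set (N → ℂ)) {1}ᶜ τ := by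
  classical
  obtain ⟨-, τ₁, hτ₁, hagree⟩ := hcoh
  set SS : Set (N → ℂ) := (↑(insert χ S₀) : Set (N → ℂ)) with hSS
  set S0 : Set (N → ℂ) := (↑S₀ : Set (N → ℂ)) with hS0
  have hS0SS : S0 ⊆ SS := by
    intro x hx
    simp only [hSS, Finset.coe_insert]
    exact Set.mem_insert_of_mem _ hx
  have hχSS : χ ∈ SS := by simp [hSS]
  have hψS0 : ψ ∈ S0 := by simpa [hS0] using hψ
  obtain ⟨q, hq⟩ := hdvd
  have hχ1 : χ 1 = (d χ : ℂ) := hd χ (Finset.mem_insert_self _ _)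
  have hψ1 : ψ 1 = (d ψ : ℂ) := hd ψ (Finset.mem_insert_of_mem hψ)
  have hdeg0 : ∀ ξ ∈ insert χ S₀, IsIrrCharacter N ξ → 0 < d ξ := by
    intro ξ hξ hirrξ
    obtain ⟨n, hn, hn'⟩ := exists_degree_of_isIrr hirrξ
    have h := hd ξ hξ
    rw [hn'] at h
    have : n = d ξ := by exact_mod_cast h
    omega
  have hDpos : 0 < d ψ := hdeg0 ψ (Finset.mem_insert_of_mem hψ) (hirr ψ hψ)
  have hEpos : 0 < d χ := hdeg0 χ (Finset.mem_insert_self _ _) hχ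
  have hqpos : 0 < q := by
    rcases Nat.eq_zero_or_pos q with h | h
    · rw [h, mul_zero] at hq; omega
    · exact h
  -- inner products of members of S₀
  have hin : ∀ ξ ∈ S₀, ∀ η ∈ S₀, classInner ξ η = if ξ = η then 1 else 0 := fun ξ hξ η hη =>
    Cfsg.Agent.Lib.Char.OrthoBasic.classInner_irr_irr (hirr ξ hξ) (hirr η hη)
  have hχne : ∀ ξ ∈ S₀, χ ≠ ξ := fun ξ hξ h => hχS (h ▸ hξ)
  have hχξ : ∀ ξ ∈ S₀, classInner χ ξ = 0 := fun ξ hξ =>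
    classInner_irr_of_ne hχ (hirr ξ hξ) (hχne ξ hξ)
  have hξχ : ∀ ξ ∈ S₀, classInner ξ χ = 0 := fun ξ hξ =>
    classInner_irr_of_ne (hirr ξ hξ) hχ (hχne ξ hξ).symm
  have hχβ : ∀ β ∈ zspan S0, classInner χ β = 0 := by
    intro β hβ
    refine zspan_induction (P := fun β => classInner χ β = 0) ?_ ?_ ?_ ?_ hβ
    · intro x hx; exact hχξ x hx
    · exact classInner_zero_right _
    · intro a b ha hb; rw [classInner_add_right, ha, hb, add_zero]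
    · intro n a ha; rw [classInner_zsmul_right, ha, mul_zero]
  -- the element θ
  set θ : N → ℂ := χ - (q : ℤ) • ψ with hθ
  have hθmem : θ ∈ zspanOn SS {1}ᶜ := by
    rw [mem_zspanOn_compl_one]
    refine ⟨zspan_sub (mem_zspan_of_mem hχSS)
      (zspan_zsmul _ (mem_zspan_of_mem (hS0SS hψS0))), ?_⟩
    rw [hθ, Pi.sub_apply, Pi.smul_apply, zsmul_eq_mul, hχ1, hψ1, hq]
    push_cast
    ring
  have hβmem : ∀ β ∈ zspanOn S0 {1}ᶜ, β ∈ zspanOn SS {1}ᶜ := fun β hβ => zspanOn_mono hS0SS hβ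
  have hS0span : ∀ ξ ∈ S₀, ξ ∈ zspan S0 := fun ξ hξ => mem_zspan_of_mem (by simpa [hS0] using hξ)
  have hψspan := hS0span ψ hψ
  set X : G → ℂ := τ θ + (q : ℤ) • τ₁ ψ with hX
  have hXvirt : IsGeneralizedCharacter G X := by
    apply isGeneralized_add (hτ.2.2.2 θ hθmem)
    rw [← Int.cast_smul_eq_zsmul ℂ]
    exact isGeneralized_intCast_smul (hτ₁.2.2.2 ψ hψspan) _
  have hτ₁in : ∀ ξ ∈ S₀, ∀ η ∈ S₀, classInner (τ₁ ξ) (τ₁ η) = if ξ = η then 1 else 0 := by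
    intro ξ hξ η hη
    rw [hτ₁.2.2.1 ξ (hS0span ξ hξ) η (hS0span η hη), hin ξ hξ η hη]
  -- orthogonality to the degree zero part
  have hF1 : ∀ β ∈ zspanOn S0 {1}ᶜ, classInner X (τ₁ β) = 0 := by
    intro β hβ
    have hβ' := hβmem β hβ
    rw [hX, classInner_add_left, classInner_zsmul_left, hτ₁.2.2.1 ψ hψspan β hβ.1, hagree β hβ,
      hτ.2.2.1 θ hθmem β hβ', hθ, classInner_sub_left, classInner_zsmul_left, hχβ β hβ.1]
    ring
  have hint : ∀ ξ ∈ S₀, ∃ n : ℤ, classInner X (τ₁ ξ) = n := fun ξ hξ =>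
    exists_int_classInner hXvirt (hτ₁.2.2.2 ξ (hS0span ξ hξ))
  choose! a ha using hint
  -- the elements β_ξ
  have hβξ : ∀ ξ ∈ S₀, ((d ψ : ℤ) • ξ - (d ξ : ℤ) • ψ) ∈ zspanOn S0 {1}ᶜ := by
    intro ξ hξ
    rw [mem_zspanOn_compl_one]
    refine ⟨zspan_sub (zspan_zsmul _ (hS0span ξ hξ)) (zspan_zsmul _ hψspan), ?_⟩
    rw [Pi.sub_apply, Pi.smul_apply, Pi.smul_apply, zsmul_eq_mul, zsmul_eq_mul, hψ1,
      hd ξ (Finset.mem_insert_of_mem hξ)]
    push_cast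
    ring
  have hτ₁β : ∀ ξ ∈ S₀, τ₁ ((d ψ : ℤ) • ξ - (d ξ : ℤ) • ψ) =
      (d ψ : ℤ) • τ₁ ξ - (d ξ : ℤ) • τ₁ ψ := by
    intro ξ hξ
    rw [IsLinearIsometryOn.map_sub hτ₁ (zspan_zsmul _ (hS0span ξ hξ)) (zspan_zsmul _ hψspan),
      hτ₁.2.1 ξ (hS0span ξ hξ), hτ₁.2.1 ψ hψspan]
  have hF2 : ∀ ξ ∈ S₀, (d ψ : ℤ) * a ξ = (d ξ : ℤ) * a ψ := by
    intro ξ hξ
    have h := hF1 _ (hβξ ξ hξ)
    rw [hτ₁β ξ hξ, classInner_sub_right, classInner_zsmul_right, classInner_zsmul_right,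
      ha ξ hξ, ha ψ hψ] at h
    have h2 : (((d ψ : ℤ) * a ξ - (d ξ : ℤ) * a ψ : ℤ) : ℂ) = 0 := by
      push_cast
      push_cast at h
      exact h
    have h3 : (d ψ : ℤ) * a ξ - (d ξ : ℤ) * a ψ = 0 := by exact_mod_cast h2
    omega
  -- values at 1
  set v : ℂ := τ₁ ψ 1 with hv
  have hv0 : v ≠ 0 := by
    have hs : IsSignedIrr G (τ₁ ψ) := by
      apply isSignedIrr_of_norm_one (hτ₁.2.2.2 ψ hψspan)
      rw [hτ₁in ψ hψ ψ hψ, if_pos rfl]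
    obtain ⟨ε, φ, hε, hφ, he⟩ := hs.exists_sign
    have := irr_one_ne_zero hφ
    rw [hv, he]
    rcases hε with rfl | rfl <;> simpa using this
  have hval : ∀ ξ ∈ S₀, (d ψ : ℂ) * τ₁ ξ 1 = (d ξ : ℂ) * v := by
    intro ξ hξ
    have h := hτ1 _ (hβmem _ (hβξ ξ hξ))
    rw [← hagree _ (hβξ ξ hξ), hτ₁β ξ hξ, Pi.sub_apply, Pi.smul_apply, Pi.smul_apply,
      zsmul_eq_mul, zsmul_eq_mul] at h
    push_cast at h
    linear_combination h
  have hXval : X 1 = (q : ℂ) * v := by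
    rw [hX, Pi.add_apply, Pi.smul_apply, hτ1 θ hθmem, zsmul_eq_mul]
    push_cast
    ring
  -- the norm of X
  have hP : classInner (τ θ) (τ θ) = 1 + (q : ℂ) ^ 2 := by
    rw [hτ.2.2.1 θ hθmem θ hθmem, hθ, classInner_sub_left, classInner_sub_right,
      classInner_sub_right, classInner_zsmul_left, classInner_zsmul_right,
      classInner_zsmul_right, classInner_zsmul_left, classInner_irr_self hχ, hχξ ψ hψ, hξχ ψ hψ,
      classInner_irr_self (hirr ψ hψ)]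
    push_cast
    ring
  have hQ : classInner (τ₁ ψ) (τ₁ ψ) = 1 := by rw [hτ₁in ψ hψ ψ hψ, if_pos rfl]
  have hPQ : classInner (τ θ) (τ₁ ψ) = (a ψ : ℂ) - q := by
    have h := ha ψ hψ
    rw [hX, classInner_add_left, classInner_zsmul_left, hQ] at h
    push_cast at h
    linear_combination h
  have hQP : classInner (τ₁ ψ) (τ θ) = (a ψ : ℂ) - q := by
    rw [← hPQ]
    exact classInner_comm_of_isGeneralized (hτ₁.2.2.2 ψ hψspan) (hτ.2.2.2 θ hθmem)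
  have hXX : classInner X X = 1 + 2 * (q : ℂ) * (a ψ : ℂ) := by
    rw [hX, classInner_add_left, classInner_add_right, classInner_add_right,
      classInner_zsmul_left, classInner_zsmul_right, classInner_zsmul_right,
      classInner_zsmul_left, hP, hQ, hPQ, hQP]
    push_cast
    ring
  -- the remainder Y
  set Y : G → ℂ := X - ∑ ξ ∈ S₀, (a ξ) • τ₁ ξ with hY
  have hsum1 : classInner X (∑ ξ ∈ S₀, (a ξ) • τ₁ ξ) = ((∑ ξ ∈ S₀, (a ξ) ^ 2 : ℤ) : ℂ) := by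
    rw [classInner_finset_sum_right]
    push_cast
    refine Finset.sum_congr rfl fun ξ hξ => ?_
    rw [classInner_zsmul_right, ha ξ hξ]
    ring
  have hsum2 : classInner (∑ ξ ∈ S₀, (a ξ) • τ₁ ξ) X = ((∑ ξ ∈ S₀, (a ξ) ^ 2 : ℤ) : ℂ) := by
    rw [← classInner_conj_symm, hsum1, map_intCast]
  have hsum3 : classInner (∑ ξ ∈ S₀, (a ξ) • τ₁ ξ) (∑ ξ ∈ S₀, (a ξ) • τ₁ ξ) =
      ((∑ ξ ∈ S₀, (a ξ) ^ 2 : ℤ) : ℂ) := by
    rw [classInner_finset_sum_right]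
    push_cast
    refine Finset.sum_congr rfl fun ξ hξ => ?_
    rw [classInner_zsmul_right, classInner_finset_sum_left, Finset.sum_eq_single ξ]
    · rw [classInner_zsmul_left, hτ₁in ξ hξ ξ hξ, if_pos rfl]
      ring
    · intro η hη hne
      rw [classInner_zsmul_left, hτ₁in η hη ξ hξ, if_neg hne, mul_zero]
    · intro h; exact absurd hξ h
  have hYvirt : IsGeneralizedCharacter G Y := by
    apply isGeneralized_sub hXvirt
    apply isGeneralized_finset_sum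
    intro ξ hξ
    rw [← Int.cast_smul_eq_zsmul ℂ]
    exact isGeneralized_intCast_smul (hτ₁.2.2.2 ξ (hS0span ξ hξ)) _
  obtain ⟨Nn, hNn⟩ := exists_int_classInner hYvirt hYvirt
  have hYY : classInner Y Y = 1 + 2 * (q : ℂ) * (a ψ : ℂ) - ((∑ ξ ∈ S₀, (a ξ) ^ 2 : ℤ) : ℂ) := by
    rw [hY, classInner_sub_left, classInner_sub_right, classInner_sub_right, hXX, hsum1, hsum2,
      hsum3]
    ring
  have hNnonneg : 0 ≤ Nn := by
    have h := classInner_self_re_nonneg Y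
    rw [hNn] at h
    simpa using h
  have hNeq : Nn = 1 + 2 * (q : ℤ) * a ψ - ∑ ξ ∈ S₀, (a ξ) ^ 2 := by
    have h : (Nn : ℂ) = ((1 + 2 * (q : ℤ) * a ψ - ∑ ξ ∈ S₀, (a ξ) ^ 2 : ℤ) : ℂ) := by
      rw [← hNn, hYY]
      push_cast
      ring
    exact_mod_cast h
  have hSq : (d ψ : ℤ) ^ 2 * ∑ ξ ∈ S₀, (a ξ) ^ 2 = (a ψ) ^ 2 * ∑ ξ ∈ S₀, (d ξ : ℤ) ^ 2 := by
    rw [Finset.mul_sum, Finset.mul_sum]
    refine Finset.sum_congr rfl fun ξ hξ => ?_
    have := hF2 ξ hξ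
    calc (d ψ : ℤ) ^ 2 * (a ξ) ^ 2 = ((d ψ : ℤ) * a ξ) ^ 2 := by ring
      _ = ((d ξ : ℤ) * a ψ) ^ 2 := by rw [this]
      _ = (a ψ) ^ 2 * (d ξ : ℤ) ^ 2 := by ring
  have hltZ : 2 * (d ψ : ℤ) ^ 2 * q < ∑ ξ ∈ S₀, (d ξ : ℤ) ^ 2 := by
    have h : ((2 * d ψ * d χ : ℕ) : ℤ) < ((∑ ξ ∈ S₀, d ξ ^ 2 : ℕ) : ℤ) := by exact_mod_cast hlt
    push_cast at h
    rw [hq] at h
    push_cast at h
    linarith
  have hcore := arith_core (d ψ : ℤ) (q : ℤ) (a ψ) Nn (∑ ξ ∈ S₀, (d ξ : ℤ) ^ 2)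
    (by exact_mod_cast hDpos) (by exact_mod_cast hqpos) hNnonneg
    (by rw [hNeq, mul_sub, hSq]) hltZ
  have hA0 : a ψ = 0 := by
    rcases hcore with h | ⟨h1, h2⟩
    · exact h
    · exfalso
      -- Y = 0 and evaluation at 1 gives a contradiction
      have hY0 : Y = 0 := by
        apply eq_zero_of_classInner_self_eq_zero
        rw [hNn, h2]; simp
      have hXs : X = ∑ ξ ∈ S₀, (a ξ) • τ₁ ξ := sub_eq_zero.mp hY0
      have h3 : X 1 = ∑ ξ ∈ S₀, (a ξ : ℂ) * τ₁ ξ 1 := by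
        rw [hXs, Finset.sum_apply]
        refine Finset.sum_congr rfl fun ξ _ => ?_
        rw [Pi.smul_apply, zsmul_eq_mul]
      have h4 : ((d ψ : ℂ) ^ 2) * X 1 = ((∑ ξ ∈ S₀, (d ξ : ℤ) ^ 2 : ℤ) : ℂ) * v := by
        rw [h3, Finset.mul_sum]
        push_cast
        rw [Finset.sum_mul]
        refine Finset.sum_congr rfl fun ξ hξ => ?_
        have h5 := hF2 ξ hξ
        rw [h1, mul_one] at h5
        have h6 : ((d ψ : ℂ)) * (a ξ : ℂ) = (d ξ : ℂ) := by exact_mod_cast h5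
        calc (d ψ : ℂ) ^ 2 * ((a ξ : ℂ) * τ₁ ξ 1) = ((d ψ : ℂ) * (a ξ : ℂ)) * ((d ψ : ℂ) * τ₁ ξ 1) := by
              ring
          _ = (d ξ : ℂ) * ((d ξ : ℂ) * v) := by rw [h6, hval ξ hξ]
          _ = (d ξ : ℂ) ^ 2 * v := by ring
      rw [hXval] at h4
      have h7 : (d ψ : ℂ) ^ 2 * (q : ℂ) = ((∑ ξ ∈ S₀, (d ξ : ℤ) ^ 2 : ℤ) : ℂ) := by
        apply mul_right_cancel₀ hv0
        rw [← h4]; ring
      have h8 : (d ψ : ℤ) ^ 2 * (q : ℤ) = ∑ ξ ∈ S₀, (d ξ : ℤ) ^ 2 := by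
        have : (((d ψ : ℤ) ^ 2 * (q : ℤ) : ℤ) : ℂ) = ((∑ ξ ∈ S₀, (d ξ : ℤ) ^ 2 : ℤ) : ℂ) := by
          rw [← h7]; push_cast; ring
        exact_mod_cast this
      have h9 : 0 < (d ψ : ℤ) ^ 2 * (q : ℤ) := by
        have h10 : (0 : ℤ) < d ψ := by exact_mod_cast hDpos
        have h11 : (0 : ℤ) < q := by exact_mod_cast hqpos
        positivity
      nlinarith
  have hazero : ∀ ξ ∈ S₀, a ξ = 0 := by
    intro ξ hξ
    have h := hF2 ξ hξ
    rw [hA0, mul_zero] at h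
    have hD : (d ψ : ℤ) ≠ 0 := by exact_mod_cast hDpos.ne'
    exact (mul_eq_zero.mp h).resolve_left hD
  have hXorth : ∀ ξ ∈ S₀, classInner X (τ₁ ξ) = 0 := by
    intro ξ hξ
    rw [ha ξ hξ, hazero ξ hξ]; simp
  have hXorth' : ∀ ξ ∈ S₀, classInner (τ₁ ξ) X = 0 := by
    intro ξ hξ
    rw [← classInner_conj_symm, hXorth ξ hξ, map_zero]
  have hXnorm : classInner X X = 1 := by rw [hXX, hA0]; simp
  -- the extension
  set f : (N → ℂ) → (G → ℂ) := fun ξ => if ξ = χ then X else τ₁ ξ with hf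
  have hfχ : f χ = X := by simp [hf]
  have hfξ : ∀ ξ ∈ S₀, f ξ = τ₁ ξ := by
    intro ξ hξ
    simp only [hf]
    rw [if_neg (hχne ξ hξ).symm]
  have hirrAll : ∀ ξ ∈ insert χ S₀, IsIrrCharacter N ξ := by
    intro ξ hξ
    rcases Finset.mem_insert.mp hξ with rfl | h
    · exact hχ
    · exact hirr ξ h
  have hne : ∀ ξ ∈ insert χ S₀, classInner ξ ξ ≠ 0 := by
    intro ξ hξ
    rw [classInner_irr_self (hirrAll ξ hξ)]
    exact one_ne_zero
  have horth : ∀ ξ ∈ insert χ S₀, ∀ η ∈ insert χ S₀, ξ ≠ η → classInner ξ η = 0 :=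
    fun ξ hξ η hη hne => classInner_irr_of_ne (hirrAll ξ hξ) (hirrAll η hη) hne
  have hfvirt : ∀ ξ ∈ insert χ S₀, IsGeneralizedCharacter G (f ξ) := by
    intro ξ hξ
    rcases Finset.mem_insert.mp hξ with rfl | h
    · rw [hfχ]; exact hXvirt
    · rw [hfξ ξ h]; exact hτ₁.2.2.2 ξ (hS0span ξ h)
  have hfin : ∀ ξ ∈ insert χ S₀, ∀ η ∈ insert χ S₀, classInner (f ξ) (f η) = classInner ξ η := by
    intro ξ hξ η hη
    rcases Finset.mem_insert.mp hξ with rfl | h <;> rcases Finset.mem_insert.mp hη with rfl | h'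
    · rw [hfχ, hXnorm, classInner_irr_self hχ]
    · rw [hfχ, hfξ η h', hXorth η h', hχξ η h']
    · rw [hfχ, hfξ ξ h, hXorth' ξ h, hξχ ξ h]
    · rw [hfξ ξ h, hfξ η h', hτ₁.2.2.1 ξ (hS0span ξ h) η (hS0span η h')]
  have hext := isLinearIsometryOn_extend f hne horth hfvirt hfin
  have hextS0 : ∀ α ∈ zspan S0, extend (insert χ S₀) f α = τ₁ α := by
    intro α hα
    have : α ∈ zspan S0 ∧ extend (insert χ S₀) f α = τ₁ α := by
      refine zspan_induction (P := fun α => α ∈ zspan S0 ∧ extend (insert χ S₀) f α = τ₁ α)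
        ?_ ?_ ?_ ?_ hα
      · intro x hx
        have hx' : x ∈ S₀ := by simpa [hS0] using hx
        refine ⟨mem_zspan_of_mem hx, ?_⟩
        rw [extend_of_mem f hne horth (Finset.mem_insert_of_mem hx'), hfξ x hx']
      · refine ⟨zspan_zero _, ?_⟩
        rw [extend_zero, IsLinearIsometryOn.map_zero hτ₁ (zspan_zero _)]
      · rintro a b ⟨ha, ha'⟩ ⟨hb, hb'⟩
        refine ⟨zspan_add ha hb, ?_⟩
        rw [extend_add, ha', hb', hτ₁.1 a ha b hb]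
      · rintro n a ⟨ha, ha'⟩
        refine ⟨zspan_zsmul n ha, ?_⟩
        rw [extend_zsmul, ha', hτ₁.2.1 a ha]
    exact this.2
  have hextχ : extend (insert χ S₀) f χ = X := by
    rw [extend_of_mem f hne horth (Finset.mem_insert_self _ _), hfχ]
  -- decomposition of elements of ℤ[S]
  have hdecomp : ∀ α ∈ zspan SS, ∃ n : ℤ, ∃ α₀ ∈ zspan S0, α = n • χ + α₀ := by
    intro α hα
    refine zspan_induction (P := fun α => ∃ n : ℤ, ∃ α₀ ∈ zspan S0, α = n • χ + α₀) ?_ ?_ ?_ ?_ hα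
    · intro x hx
      have hx' : x ∈ insert χ S₀ := by simpa [hSS] using hx
      rcases Finset.mem_insert.mp hx' with rfl | h
      · exact ⟨1, 0, zspan_zero _, by simp⟩
      · exact ⟨0, x, hS0span x h, by simp⟩
    · exact ⟨0, 0, zspan_zero _, by simp⟩
    · rintro a b ⟨n, a₀, ha₀, rfl⟩ ⟨m, b₀, hb₀, rfl⟩
      exact ⟨n + m, a₀ + b₀, zspan_add ha₀ hb₀, by rw [add_smul]; abel⟩
    · rintro k a ⟨n, a₀, ha₀, rfl⟩
      exact ⟨k * n, k • a₀, zspan_zsmul k ha₀, by rw [smul_add, mul_smul]⟩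
  refine ⟨⟨θ, hθmem, ?_⟩, extend (insert χ S₀) f, ?_, ?_⟩
  · intro h0
    have h := hχβ (ψ) hψspan
    have h1 : classInner θ χ = 1 := by
      rw [hθ, classInner_sub_left, classInner_zsmul_left, hξχ ψ hψ, classInner_irr_self hχ]
      simp
    rw [h0, classInner_zero_left] at h1
    exact zero_ne_one h1
  · exact hext
  · intro α hα
    obtain ⟨n, α₀, hα₀, rfl⟩ := hdecomp α hα.1
    rw [mem_zspanOn_compl_one] at hα
    have hαval := hα.2
    have hα₀S : α₀ ∈ zspan SS := zspan_mono hS0SS hα₀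
    have hχspan : χ ∈ zspan SS := mem_zspan_of_mem hχSS
    set β : N → ℂ := α₀ + ((n * (q : ℤ)) • ψ) with hβ
    have hβmem' : β ∈ zspanOn S0 {1}ᶜ := by
      rw [mem_zspanOn_compl_one]
      refine ⟨zspan_add hα₀ (zspan_zsmul _ hψspan), ?_⟩
      rw [Pi.add_apply, Pi.smul_apply] at hαval
      rw [hβ, Pi.add_apply, Pi.smul_apply]
      rw [zsmul_eq_mul, hχ1] at hαval
      rw [zsmul_eq_mul, hψ1]
      rw [hq] at hαval
      push_cast at hαval ⊢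
      linear_combination hαval
    have heq : n • χ + α₀ = n • θ + β := by
      rw [hθ, hβ, smul_sub, mul_smul]
      abel
    have hnθ : n • θ ∈ zspanOn SS {1}ᶜ := by
      have h := mem_zspanOn_compl_one.mp hθmem
      rw [mem_zspanOn_compl_one]
      exact ⟨zspan_zsmul n h.1, by rw [Pi.smul_apply, h.2, smul_zero]⟩
    have h1 : τ (n • χ + α₀) = n • τ θ + τ β := by
      rw [heq, hτ.1 _ hnθ _ (hβmem β hβmem'), hτ.2.1 θ hθmem n]
    have h2 : extend (insert χ S₀) f (n • χ + α₀) = n • X + τ₁ α₀ := by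
      rw [extend_add, extend_zsmul, hextχ, hextS0 α₀ hα₀]
    have h3 : τ β = τ₁ α₀ + (n * (q : ℤ)) • τ₁ ψ := by
      rw [← hagree β hβmem', hβ, hτ₁.1 _ hα₀ _ (zspan_zsmul _ hψspan), hτ₁.2.1 ψ hψspan]
    rw [h1, h2, h3, hX, smul_add, mul_smul]
    abel

end Cfsg.Agent.S1530
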