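import Cfsg.Statements.S1532
import Cfsg.Agent.Lib.OddOrder.PF6Rel

set_option autoImplicit false
open Cfsg
open Cfsg.Agent.Lib.OddOrder.PF6Rel Cfsg.Agent.Lib.OddOrder.PF6Basic

namespace Cfsg.Agent.S1532

/-- Let G be a finite group, p an odd prime and P a Sylow p-subgroup that is non-abelian, whose underlying set is a TI-subset of G, with P properly contained in its set normaliser N and C_G(x) ≤ P for every non-identity x ∈ P. Let Z be a nontrivial subgroup of the centre of P normalised by N. Then the set of irreducible characters χ of N with χ z ≠ χ 1 for some z ∈ Z is coherent for the map induced by induction from N to G. -/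
theorem result {G : Type*} [Group G] [Fintype G] (p : ℕ) [Fact p.Prime] (hp : p ≠ 2) (P : Sylow p G) (hna : ¬ IsMulCommutative (P : Subgroup G)) (hTI : Cfsg.IsTISubset ((P : Subgroup G) : Set G)) (hlt : (P : Subgroup G) < Subgroup.normalizer ((P : Subgroup G) : Set G)) (hC : ∀ k ∈ (P : Subgroup G), k ≠ 1 → Subgroup.centralizer ({k} : Set G) ≤ (P : Subgroup G)) [Fintype ↥(Subgroup.normalizer ((P : Subgroup G) : Set G))] (Z : Subgroup G) (hZ1 : Z ≠ ⊥) (hZP : ∀ z ∈ Z, z ∈ (P : Subgroup G) ∧ ∀ y ∈ (P : Subgroup G), z * y = y * z) (hZn : ∀ x ∈ Subgroup.normalizer ((P : Subgroup G) : Set G), ∀ z ∈ Z, x * z * x⁻¹ ∈ Z) : Cfsg.IsCoherent {χ : ↥(Subgroup.normalizer ((P : Subgroup G) : Set G)) → ℂ | Cfsg.IsIrrCharacter ↥(Subgroup.normalizer ((P : Subgroup G) : Set G)) χ ∧ ∃ z : ↥(Subgroup.normalizer ((P : Subgroup G) : Set G)), (z : G) ∈ Z ∧ χ z ≠ χ 1} {1}ᶜ (fun α => Cfsg.indFun (Subgroup.normalizer ((P : Subgroup G) : Set G)) α) := by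
  classical
  have D := datum_of_centralizer (P : Subgroup G) hTI hC
  have hoddH : Odd (Nat.card (P : Subgroup G)) := by
    obtain ⟨k, hk⟩ := IsPGroup.iff_card.mp P.2
    rw [hk]
    exact ((Fact.out : p.Prime).odd_of_ne_two hp).pow
  have hoddL := odd_of_nonabelian D hoddH hna
  haveI hKn := D.normalK
  have hnilK : Group.IsNilpotent ((P : Subgroup G).subgroupOf (Subgroup.normalizer ((P : Subgroup G) : Set G))) :=
    (Group.isNilpotent_congr (Subgroup.subgroupOfEquivOfLe D.le)).mpr (IsPGroup.isNilpotent P.2)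
  haveI := hnilK
  have hP1 : (P : Subgroup G) ≠ ⊥ := by
    intro h
    apply hna
    rw [h]
    infer_instance
  have hK1 : (P : Subgroup G).subgroupOf (Subgroup.normalizer ((P : Subgroup G) : Set G)) ≠ ⊥ := by
    intro h
    apply hP1
    rw [eq_bot_iff]
    intro x hx
    have h1 : (⟨x, D.le hx⟩ : Subgroup.normalizer ((P : Subgroup G) : Set G)) ∈
        (P : Subgroup G).subgroupOf (Subgroup.normalizer ((P : Subgroup G) : Set G)) :=
      Subgroup.mem_subgroupOf.mpr hx
    rw [h, Subgroup.mem_bot] at h1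
    have := congrArg Subtype.val h1
    simpa using this
  have hH₁K := commutator_lt _ hnilK hK1
  have hKL : (P : Subgroup G).subgroupOf (Subgroup.normalizer ((P : Subgroup G) : Set G)) < ⊤ := by
    obtain ⟨x, hxL, hxH⟩ := SetLike.exists_of_lt hlt
    refine lt_top_iff_ne_top.mpr fun h => hxH ?_
    have : (⟨x, hxL⟩ : Subgroup.normalizer ((P : Subgroup G) : Set G)) ∈
        (P : Subgroup G).subgroupOf (Subgroup.normalizer ((P : Subgroup G) : Set G)) := by
      rw [h]
      trivial
    exact Subgroup.mem_subgroupOf.mp this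
  haveI : (⁅(P : Subgroup G).subgroupOf (Subgroup.normalizer ((P : Subgroup G) : Set G)),
      (P : Subgroup G).subgroupOf (Subgroup.normalizer ((P : Subgroup G) : Set G))⁆).Normal :=
    Subgroup.commutator_normal _ _
  have hfrobK := Cfsg.Agent.Lib.OddOrder.PF6Sib2.frob_mod
    ((P : Subgroup G).subgroupOf (Subgroup.normalizer ((P : Subgroup G) : Set G)))
    ⁅(P : Subgroup G).subgroupOf (Subgroup.normalizer ((P : Subgroup G) : Set G)),
      (P : Subgroup G).subgroupOf (Subgroup.normalizer ((P : Subgroup G) : Set G))⁆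
    (Subgroup.commutator_le_self _) D.frobK
  have hsolv : Group.IsSolvable ((P : Subgroup G).subgroupOf (Subgroup.normalizer ((P : Subgroup G) : Set G))) :=
    inferInstance
  obtain ⟨χ₀, hχ₀, -⟩ := exists_linear_mem_S _ hsolv _ hH₁K
  obtain ⟨R, hS⟩ := Cfsg.Agent.Lib.OddOrder.PF6Sib3.exists_system D rfl hTI hoddL ⟨χ₀, S_subset_bot _ _ hχ₀⟩
  haveI hZ'n : (Z.subgroupOf (Subgroup.normalizer ((P : Subgroup G) : Set G))).Normal := by
    refine ⟨fun z hz g => ?_⟩
    rw [Subgroup.mem_subgroupOf] at hz ⊢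
    exact hZn g g.2 z hz
  have hZ'1 : Z.subgroupOf (Subgroup.normalizer ((P : Subgroup G) : Set G)) ≠ ⊥ := by
    intro h
    apply hZ1
    rw [eq_bot_iff]
    intro x hx
    have h1 : (⟨x, D.le (hZP x hx).1⟩ : Subgroup.normalizer ((P : Subgroup G) : Set G)) ∈
        Z.subgroupOf (Subgroup.normalizer ((P : Subgroup G) : Set G)) :=
      Subgroup.mem_subgroupOf.mpr hx
    rw [h, Subgroup.mem_bot] at h1
    have := congrArg Subtype.val h1
    simpa using this
  obtain ⟨hset, hcoh⟩ := Cfsg.Agent.S1522.result _ hsolv (fun α => Cfsg.indFun (Subgroup.normalizer ((P : Subgroup G) : Set G)) α)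
    R hS hoddL hnilK hH₁K hKL hfrobK (Z.subgroupOf (Subgroup.normalizer ((P : Subgroup G) : Set G))) hZ'1
    (fun z hz => Subgroup.mem_subgroupOf.mpr (hZP z (Subgroup.mem_subgroupOf.mp hz)).1)
    (fun z hz k hk => by
      apply Subtype.ext
      exact (hZP z (Subgroup.mem_subgroupOf.mp hz)).2 k (Subgroup.mem_subgroupOf.mp hk))
    (fun χ hχ => Cfsg.Agent.Lib.OddOrder.PF7Coh.SS_irr D hχ.1)
  rw [hset] at hcoh
  simpa only [Subgroup.mem_subgroupOf] using hcoh

end Cfsg.Agent.S1532
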