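import Cfsg.Statements.S1533
import Cfsg.Agent.Lib.OddOrder.PF6Rel

set_option autoImplicit false
open Cfsg
open Cfsg.Agent.Lib.OddOrder.PF6Rel Cfsg.Agent.Lib.OddOrder.PF6Basic

namespace Cfsg.Agent.S1533

/-- Let G be a finite group, p an odd prime, and P a nontrivial Sylow p-subgroup whose underlying set is a TI-subset of G, with P properly contained in its set normaliser N and C_G(x) ≤ P for every non-identity x ∈ P. Let S be the set of irreducible characters χ of N with χ x ≠ χ 1 for some x ∈ P. Then either S has exactly one member, P is elementary abelian and Nat.card P = [N:P] + 1; or (S, N minus 1, induction to G) is coherent. -/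
theorem result {G : Type*} [Group G] [Fintype G] (p : ℕ) [Fact p.Prime] (hp : p ≠ 2) (P : Sylow p G) (hP1 : (P : Subgroup G) ≠ ⊥) (hTI : Cfsg.IsTISubset ((P : Subgroup G) : Set G)) (hlt : (P : Subgroup G) < Subgroup.normalizer ((P : Subgroup G) : Set G)) (hC : ∀ k ∈ (P : Subgroup G), k ≠ 1 → Subgroup.centralizer ({k} : Set G) ≤ (P : Subgroup G)) [Fintype ↥(Subgroup.normalizer ((P : Subgroup G) : Set G))] : (Nat.card {χ : ↥(Subgroup.normalizer ((P : Subgroup G) : Set G)) → ℂ // Cfsg.IsIrrCharacter ↥(Subgroup.normalizer ((P : Subgroup G) : Set G)) χ ∧ ∃ x : ↥(Subgroup.normalizer ((P : Subgroup G) : Set G)), (x : G) ∈ (P : Subgroup G) ∧ χ x ≠ χ 1} = 1 ∧ Cfsg.IsElementaryAbelian p (P : Subgroup G) ∧ Nat.card (P : Subgroup G) = ((P : Subgroup G).subgroupOf (Subgroup.normalizer ((P : Subgroup G) : Set G))).index + 1) ∨ Cfsg.IsCoherent {χ : ↥(Subgroup.normalizer ((P : Subgroup G) : Set G)) → ℂ | Cfsg.IsIrrCharacter ↥(Subgroup.normalizer ((P : Subgroup G) : Set G)) χ ∧ ∃ x : ↥(Subgroup.normalizer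 ((P : Subgroup G) : Set G)), (x : G) ∈ (P : Subgroup G) ∧ χ x ≠ χ 1} {1}ᶜ (fun α => Cfsg.indFun (Subgroup.normalizer ((P : Subgroup G) : Set G)) α) := by
  classical
  have D := datum_of_centralizer (P : Subgroup G) hTI hC
  haveI hKn := D.normalK
  have hoddH : Odd (Nat.card (P : Subgroup G)) := by
    obtain ⟨k, hk⟩ := IsPGroup.iff_card.mp P.2
    rw [hk]
    exact ((Fact.out : p.Prime).odd_of_ne_two hp).pow
  have hnilK : Group.IsNilpotent ((P : Subgroup G).subgroupOf (Subgroup.normalizer ((P : Subgroup G) : Set G))) :=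
    (Group.isNilpotent_congr (Subgroup.subgroupOfEquivOfLe D.le)).mpr (IsPGroup.isNilpotent P.2)
  have hset := rel_eq_SS D
  have hcardS : Nat.card {χ : ↥(Subgroup.normalizer ((P : Subgroup G) : Set G)) → ℂ // Cfsg.IsIrrCharacter ↥(Subgroup.normalizer ((P : Subgroup G) : Set G)) χ ∧ ∃ x : ↥(Subgroup.normalizer ((P : Subgroup G) : Set G)), (x : G) ∈ (P : Subgroup G) ∧ χ x ≠ χ 1} =
      (Cfsg.Agent.Lib.OddOrder.PF7Coh.SS (P : Subgroup G) (Subgroup.normalizer ((P : Subgroup G) : Set G))).ncard := by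
    rw [← hset]
    exact Nat.card_coe_set_eq _
  rw [hset]
  have hcardK : Nat.card ((P : Subgroup G).subgroupOf (Subgroup.normalizer ((P : Subgroup G) : Set G))) = Nat.card (P : Subgroup G) :=
    Nat.card_congr (Subgroup.subgroupOfEquivOfLe D.le).toEquiv
  by_cases hab : IsMulCommutative (P : Subgroup G)
  · have hab' : ∀ a ∈ (P : Subgroup G), ∀ b ∈ (P : Subgroup G), a * b = b * a := by
      intro a ha b hb
      have := (isMulCommutative_iff.mp hab) ⟨a, ha⟩ ⟨b, hb⟩
      exact congrArg Subtype.val this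
    obtain ⟨hdeg, hcount⟩ := card_SS_of_abelian D hab'
    have hτ := Cfsg.Agent.Lib.OddOrder.PF6Sib3.ind_isometry D rfl hTI
    by_cases hs : (Cfsg.Agent.Lib.OddOrder.PF7Coh.SS (P : Subgroup G) (Subgroup.normalizer ((P : Subgroup G) : Set G))).ncard = 1
    · left
      rw [hs, one_mul] at hcount
      have hcardP : Nat.card (P : Subgroup G) = ((P : Subgroup G).subgroupOf (Subgroup.normalizer ((P : Subgroup G) : Set G))).index + 1 := by
        rw [← hcardK, hcount]
      refine ⟨hcardS.trans hs, ⟨hab, fun a ha => ?_⟩, hcardP⟩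
      have hdvd : p ∣ Nat.card ((P : Subgroup G).subgroupOf (Subgroup.normalizer ((P : Subgroup G) : Set G))) := by
        rw [hcardK]
        obtain ⟨k, hk⟩ := IsPGroup.iff_card.mp P.2
        rw [hk]
        refine dvd_pow_self _ ?_
        rintro rfl
        apply hP1
        exact (Subgroup.eq_bot_iff_card _).mpr (by simpa using hk)
      have h1 := pow_eq_one_of_card _ D.frobK hcount.symm (Fact.out : p.Prime) hdvd ⟨a, D.le ha⟩
        (Subgroup.mem_subgroupOf.mpr ha)
      have h2 := congrArg Subtype.val h1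
      simpa using h2
    · right
      have hs0 : (Cfsg.Agent.Lib.OddOrder.PF7Coh.SS (P : Subgroup G) (Subgroup.normalizer ((P : Subgroup G) : Set G))).ncard ≠ 0 := by
        intro h0
        rw [h0, zero_mul, zero_add, hcardK] at hcount
        exact hP1 ((Subgroup.eq_bot_iff_card _).mpr hcount.symm)
      have h1 : 1 < (Cfsg.Agent.Lib.OddOrder.PF7Coh.SS (P : Subgroup G) (Subgroup.normalizer ((P : Subgroup G) : Set G))).ncard := by
        omega
      obtain ⟨a, b, ha, hb, hab2⟩ := (Set.one_lt_ncard_iff (Set.finite_of_ncard_pos (by omega))).mp h1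
      exact coherent_of_uniform _ (fun χ hχ => Cfsg.Agent.Lib.OddOrder.PF7Coh.SS_irr D hχ)
        (fun φ hφ ψ hψ => by rw [hdeg φ hφ, hdeg ψ hψ]) ⟨a, ha, b, hb, hab2⟩ _ hτ.1 hτ.2
  · right
    exact Cfsg.Agent.Lib.OddOrder.PF6Sib6.coherent_of_datum D rfl hTI (odd_of_nonabelian D hoddH hab)
      hP1 hlt hnilK

end Cfsg.Agent.S1533
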