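import Cfsg.Statements.S1535
import Cfsg.Agent.Lib.OddOrder.PF6Feit2
import Cfsg.Agent.Lib.OddOrder.PF6Feit3

set_option autoImplicit false
open Cfsg
open Cfsg.Agent.Lib.Char.Coherence Cfsg.Agent.Lib.Char.Virtual
open Cfsg.Agent.Lib.OddOrder.PF6Basic Cfsg.Agent.Lib.OddOrder.PF6Rel Cfsg.Agent.Lib.OddOrder.PF6Feit1
open Cfsg.Agent.Lib.OddOrder.PF6Feit2

namespace Cfsg.Agent.S1535

theorem num_b (e y v t : ℕ) (he : 2 ≤ e) (hy : e + 1 ≤ y) (hv : e + 1 ≤ v) (ht : t ^ 2 ≤ v)
    (h9 : y * v ≠ 9) (h16 : y * v ≠ 16) : (2 * t + 1) * e + 1 < y * v := by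
  have hmono : (e + 1) * v ≤ y * v := Nat.mul_le_mul_right _ hy
  by_cases ht1 : t ≤ 1
  · -- `t ≤ 1`
    have h1 : (2 * t + 1) * e ≤ 3 * e := Nat.mul_le_mul_right _ (by omega)
    have h2 : (e + 1) * (e + 1) ≤ y * v := Nat.mul_le_mul hy hv
    nlinarith
  · have ht2 : 2 ≤ t := by omega
    have h2t : 2 * t ≤ v := by nlinarith
    by_cases hve : v = e + 1
    · subst hve
      have h3 : (2 * t) ^ 2 ≤ 4 * (e + 1) := by nlinarith
      by_cases he4 : 4 ≤ e
      · have h4 : 2 * t < e + 1 := by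
          by_contra hcon
          have : e + 1 ≤ 2 * t := by omega
          nlinarith
        have h5 : (e + 1) * (e + 1) ≤ y * (e + 1) := hmono
        have h6 : (2 * t + 1) * e ≤ (e + 1) * e := Nat.mul_le_mul_right _ (by omega)
        nlinarith
      · -- `e = 2` or `e = 3`
        have he' : e = 2 ∨ e = 3 := by omega
        rcases he' with rfl | rfl
        · exfalso
          have : t ≤ 1 := by nlinarith
          omega
        · have ht3 : t = 2 := by nlinarith
          subst ht3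
          have hy5 : 5 ≤ y := by
            by_contra hcon
            have : y = 4 := by omega
            subst this
            exact h16 rfl
          omega
    · have hve' : e + 2 ≤ v := by omega
      have h6 : (2 * t + 1) * e ≤ (v + 1) * e := Nat.mul_le_mul_right _ (by omega)
      nlinarith

theorem dvd_sub_one_of_mul {e y v : ℕ} (hy : 0 < y) (hv : 0 < v) (h1 : e ∣ y * v - 1)
    (h2 : e ∣ v - 1) : e ∣ y - 1 := by
  obtain ⟨v', rfl⟩ : ∃ v', v = v' + 1 := ⟨v - 1, by omega⟩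
  obtain ⟨y', rfl⟩ : ∃ y', y = y' + 1 := ⟨y - 1, by omega⟩
  simp only [Nat.add_sub_cancel] at h2 ⊢
  have h5 : (y' + 1) * (v' + 1) - 1 = (y' + 1) * v' + y' := by
    have : (y' + 1) * (v' + 1) = (y' + 1) * v' + y' + 1 := by ring
    omega
  rw [h5] at h1
  exact (Nat.dvd_add_right (h2.mul_left _)).mp h1


/-- Let N be a finite group with a proper nontrivial normal subgroup H such that every element commuting with a non-identity element of H lies in H (N is a Frobenius group with kernel H); let e be the index of H and suppose Nat.card H ≠ e + 1. Let S be the set of irreducible characters χ of N with χ h ≠ χ 1 for some h ∈ H, and τ a linear isometry on the integer combinations of S vanishing at 1, with values virtual characters of a finite group G vanishing at 1. Then (S, N minus 1, τ) is coherent, or there is a prime p with Nat.card H a power of p, H non-abelian and [H : [H,H]] ≤ 4e² + 1. -/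
theorem result {N : Type*} [Group N] [Fintype N] {G : Type*} [Group G] [Fintype G] (H : Subgroup N) [H.Normal] (hH1 : H ≠ ⊥) (hH2 : H ≠ ⊤) (hC : ∀ h ∈ H, h ≠ 1 → Subgroup.centralizer ({h} : Set N) ≤ H) (he : Nat.card H ≠ H.index + 1) (τ : (N → ℂ) → (G → ℂ)) (hτ : Cfsg.IsLinearIsometryOn (Cfsg.zspanOn {χ : N → ℂ | Cfsg.IsIrrCharacter N χ ∧ ∃ h ∈ H, χ h ≠ χ 1} {1}ᶜ) τ) (hτ1 : ∀ α ∈ Cfsg.zspanOn {χ : N → ℂ | Cfsg.IsIrrCharacter N χ ∧ ∃ h ∈ H, χ h ≠ χ 1} {1}ᶜ, τ α 1 = 0) : Cfsg.IsCoherent {χ : N → ℂ | Cfsg.IsIrrCharacter N χ ∧ ∃ h ∈ H, χ h ≠ χ 1} {1}ᶜ τ ∨ ∃ p : ℕ, p.Prime ∧ (∃ m : ℕ, Nat.card H = p ^ m) ∧ ¬ IsMulCommutative H ∧ (⁅H, H⁆.subgroupOf H).index ≤ 4 * H.index ^ 2 + 1 := by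
  classical
  have hS := rel_eq_S H hC
  rw [hS] at hτ hτ1 ⊢
  have hnil : Group.IsNilpotent H := Cfsg.Agent.Lib.Char.FrobPair.isNilpotent H hC hH2
  have he1 : H.index ≠ 1 := fun h => hH2 (Subgroup.index_eq_one.mp h)
  have he2 : 2 ≤ H.index := by
    have := index_pos' H
    omega
  set C : Subgroup N := ⁅H, H⁆ with hCdef
  haveI hCn : C.Normal := Subgroup.commutator_normal H H
  have hCH : C < H := Cfsg.Agent.Lib.OddOrder.PF6Rel.commutator_lt H hnil hH1
  -- the first level
  set Φ := (finite_S H hC C).toFinset with hΦ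
  have hΦc : (Φ : Set (N → ℂ)) = inducedIrrAbove H C := (finite_S H hC C).coe_toFinset
  have hΦm : ∀ φ, φ ∈ Φ ↔ φ ∈ inducedIrrAbove H C := fun φ => (finite_S H hC C).mem_toFinset
  have hlin : ∀ φ ∈ inducedIrrAbove H C, aOf H φ = 1 := by
    rintro φ ⟨θ, hθ, -, hθC, rfl⟩
    obtain ⟨t, ht0, ht⟩ := Cfsg.Agent.Lib.Char.Ortho.irr_degree_pos hθ
    have h1 := degree_bound (⊤ : Subgroup H) (⊤ : Subgroup H) (C.subgroupOf H) le_top le_rfl
      (fun x _ y _ => Subgroup.mem_subgroupOf.mpr (by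
        have h0 : (x : N) * y * (x : N)⁻¹ * (y : N)⁻¹ ∈ C :=
          Subgroup.commutator_mem_commutator x.2 y.2
        simpa using h0))
      hθ (fun b hb => hθC b (Subgroup.mem_subgroupOf.mp hb)) ht
    simp only [Subgroup.index_top, Subgroup.relIndex_self] at h1
    have h2 : t = 1 := by nlinarith
    rw [aOf_ind H ht, h2]
  have hdegC : ∀ φ ∈ inducedIrrAbove H C, φ 1 = (H.index : ℂ) := by
    intro φ hφ
    rw [deg_of_mem H hφ, hlin φ hφ]
    simp
  have hsum : H.index * Φ.card + 1 = C.relIndex H := by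
    have h1 := sum_a H hC C Φ hΦc
    have h2 : ∑ φ ∈ Φ, aOf H φ ^ 2 = Φ.card := by
      rw [Finset.card_eq_sum_ones]
      refine Finset.sum_congr rfl fun φ hφ => ?_
      rw [hlin φ ((hΦm φ).mp hφ), one_pow]
    rw [← h1, h2]
  have hb1 : C.relIndex H ≠ 1 := fun h => hCH.not_ge (Subgroup.relIndex_eq_one.mp h)
  have hcard0 : Φ.card ≠ 0 := by
    intro h
    rw [h] at hsum
    exact hb1 (by omega)
  obtain ⟨χ₁, hχ₁Φ⟩ := Finset.card_pos.mp (Nat.pos_of_ne_zero hcard0)
  have hχ₁C : χ₁ ∈ inducedIrrAbove H C := (hΦm _).mp hχ₁Φ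
  have hχ₁B : χ₁ ∈ inducedIrrAbove H ⊥ := S_subset_bot H C hχ₁C
  have h := baseData H hC hτ hχ₁B (hdegC _ hχ₁C)
  have hw : 2 ≤ Φ.card → ∃ w : G → ℂ, IsGeneralizedCharacter G w ∧ classInner w w = 1 ∧
      Good τ (aOf H) χ₁ (inducedIrrAbove H C) w := by
    intro h2
    obtain ⟨a, ha, b, hb, hab⟩ := Finset.one_lt_card.mp h2
    refine h.good_of_coherent (S_subset_bot H C) hχ₁C ?_
    exact coherent_of_uniform _ (fun χ hχ => irr_of_mem H hC hχ)
      (fun φ hφ ψ hψ => by rw [hdegC φ hφ, hdegC ψ hψ])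
      ⟨a, (hΦm a).mp ha, b, (hΦm b).mp hb, hab⟩ τ
      (IsLinearIsometryOn.mono hτ (zspanOn_mono (S_subset_bot H C)))
      (fun α hα => hτ1 α (zspanOn_mono (S_subset_bot H C) hα))
  have hfinal : 2 ≤ Φ.card → ∀ w : G → ℂ, IsGeneralizedCharacter G w → classInner w w = 1 →
      Good τ (aOf H) χ₁ (inducedIrrAbove H ⊥) w → IsCoherent (inducedIrrAbove H ⊥) {1}ᶜ τ := by
    intro h2 w hwv hwn hg
    obtain ⟨a, ha, b, hb, hab⟩ := Finset.one_lt_card.mp h2
    have hc0 : (((finite_S H hC ⊥).toFinset : Finset (N → ℂ)) : Set (N → ℂ)) = inducedIrrAbove H ⊥ :=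
      (finite_S H hC ⊥).coe_toFinset
    have hm0 : ∀ φ, φ ∈ (finite_S H hC ⊥).toFinset ↔ φ ∈ inducedIrrAbove H ⊥ :=
      fun φ => (finite_S H hC ⊥).mem_toFinset
    have := h.coherent_of_good (finite_S H hC ⊥).toFinset (fun φ hφ => (hm0 φ).mp hφ)
      ((hm0 _).mpr hχ₁B) hwv hwn (by rw [hc0]; exact hg) (by
        by_cases h3 : a = χ₁
        · exact ⟨b, (hm0 _).mpr (S_subset_bot H C ((hΦm b).mp hb)), fun h4 => hab (h3.trans h4.symm)⟩
        · exact ⟨a, (hm0 _).mpr (S_subset_bot H C ((hΦm a).mp ha)), h3⟩)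
    rwa [hc0] at this
  by_cases hab : C = ⊥
  · -- `H` is abelian
    left
    have h2 : 2 ≤ Φ.card := by
      by_contra hcon
      have h3 : Φ.card = 1 := by omega
      rw [h3, hab, Subgroup.relIndex_bot_left] at hsum
      exact he (by omega)
    obtain ⟨w, hwv, hwn, hg⟩ := hw h2
    rw [hab] at hg
    exact hfinal h2 w hwv hwn hg
  by_cases hpp : (∃ p : ℕ, p.Prime ∧ ∃ m : ℕ, Nat.card H = p ^ m) ∧
      C.relIndex H ≤ 4 * H.index ^ 2 + 1
  · right
    obtain ⟨⟨p, hp, hm⟩, hle⟩ := hpp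
    refine ⟨p, hp, hm, ?_, hle⟩
    intro hcomm
    apply hab
    rw [hCdef, eq_bot_iff, Subgroup.commutator_le]
    intro x hx y hy
    have h1 := hcomm.is_comm.comm (⟨x, hx⟩ : H) (⟨y, hy⟩ : H)
    have h2 : x * y = y * x := congrArg Subtype.val h1
    rw [commutatorElement_def, h2]
    simp
  left
  by_cases hbig : 4 * H.index ^ 2 + 1 < C.relIndex H
  · -- the bad quotient is large
    have h2 : 2 ≤ Φ.card := by
      by_contra hcon
      have h3 : Φ.card ≤ 1 := by omega
      have h4 : H.index * Φ.card ≤ H.index * 1 := Nat.mul_le_mul_left _ h3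
      nlinarith
    obtain ⟨w, hwv, hwn, hg⟩ := hw h2
    exact hfinal h2 w hwv hwn (chain_a H hC hnil he1 h hwv hwn _ C rfl hCH.le hbig hχ₁C hg)
  · -- the kernel is not a `p`-group
    have hnp : ¬ ∃ p : ℕ, p.Prime ∧ ∃ m : ℕ, Nat.card H = p ^ m := fun h3 => hpp ⟨h3, by omega⟩
    have hCi : (C.relIndex H) = (_root_.commutator H).index := by
      rw [Subgroup.relIndex]
      congr 1
      rw [hCdef, ← Subgroup.map_subtype_commutator, Subgroup.subgroupOf,
        Subgroup.comap_map_eq_self_of_injective H.subtype_injective]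
    have hprimes : ∃ p q : ℕ, p.Prime ∧ q.Prime ∧ p ≠ q ∧ p ∣ C.relIndex H ∧ q ∣ C.relIndex H := by
      have hn1 : Nat.card H ≠ 1 := by
        intro h3
        exact hH1 (Subgroup.card_eq_one.mp h3)
      have hn0 : Nat.card H ≠ 0 := Nat.card_pos.ne'
      have hp := Nat.minFac_prime hn1
      obtain ⟨q, hq, hqd, hqp⟩ : ∃ q : ℕ, q.Prime ∧ q ∣ Nat.card H ∧ q ≠ (Nat.card H).minFac := by
        by_contra hcon
        push Not at hcon
        exact hnp ⟨(Nat.card H).minFac, hp, _, Nat.eq_prime_pow_of_unique_prime_dvd hn0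
          (fun {d} hd hd2 => hcon d hd hd2)⟩
      haveI := hnil
      refine ⟨_, q, hp, hq, hqp.symm, ?_, ?_⟩
      · rw [hCi]
        exact Cfsg.Agent.Lib.OddOrder.PF6Group2.prime_dvd_index_commutator hp (Nat.minFac_dvd _)
      · rw [hCi]
        exact Cfsg.Agent.Lib.OddOrder.PF6Group2.prime_dvd_index_commutator hq hqd
    obtain ⟨p, q, hp, hq, hpq, hpd, hqd⟩ := hprimes
    obtain ⟨M, D, hMn, hDn, hMC, hCD, hDH, hcent⟩ :=
      Cfsg.Agent.Lib.OddOrder.PF6Feit3.exists_step H hnil hab hp hq hpq hpd hqd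
    have hmul : C.relIndex D * D.relIndex H = C.relIndex H :=
      Subgroup.relIndex_mul_relIndex C D H hCD.le hDH
    have hb0 : 0 < C.relIndex H := by omega
    have hy0 : 0 < C.relIndex D := Nat.pos_of_ne_zero fun h3 => by
      rw [h3, zero_mul] at hmul
      omega
    have hv0 : 0 < D.relIndex H := Nat.pos_of_ne_zero fun h3 => by
      rw [h3, mul_zero] at hmul
      omega
    have hy1 : C.relIndex D ≠ 1 := fun h3 => hCD.not_ge (Subgroup.relIndex_eq_one.mp h3)
    have hv1 : D.relIndex H ≠ 1 := by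
      intro h3
      have h4 : H ≤ D := Subgroup.relIndex_eq_one.mp h3
      have h5 : C ≤ M := by
        rw [hCdef, Subgroup.commutator_le]
        intro x hx y hy
        exact hcent x (h4 hx) y hy
      exact hMC.not_ge h5
    have hdv : H.index ∣ D.relIndex H - 1 := dvd_relIndex_sub_one H hC D
    have hdb : H.index ∣ C.relIndex H - 1 := dvd_relIndex_sub_one H hC C
    have hdy : H.index ∣ C.relIndex D - 1 := by
      rw [← hmul] at hdb
      exact dvd_sub_one_of_mul hy0 hv0 hdb hdv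
    have hy : H.index + 1 ≤ C.relIndex D := by
      have := Nat.le_of_dvd (by omega) hdy
      omega
    have hv : H.index + 1 ≤ D.relIndex H := by
      have := Nat.le_of_dvd (by omega) hdv
      omega
    have h2 : 2 ≤ Φ.card := by
      by_contra hcon
      have h3 : Φ.card ≤ 1 := by omega
      have h4 : H.index * Φ.card ≤ H.index * 1 := Nat.mul_le_mul_left _ h3
      have h5 : (H.index + 1) * (H.index + 1) ≤ C.relIndex D * D.relIndex H :=
        Nat.mul_le_mul hy hv
      rw [hmul] at h5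
      nlinarith
    obtain ⟨w, hwv, hwn, hg⟩ := hw h2
    have hM9 : C.relIndex D * D.relIndex H ≠ 9 := by
      rw [hmul]
      intro h3
      rw [h3] at hpd hqd
      have h4 : p ∣ 3 ^ 2 := by simpa using hpd
      have h5 : q ∣ 3 ^ 2 := by simpa using hqd
      have h6 := (Nat.prime_dvd_prime_iff_eq hp Nat.prime_three).mp (hp.dvd_of_dvd_pow h4)
      have h7 := (Nat.prime_dvd_prime_iff_eq hq Nat.prime_three).mp (hq.dvd_of_dvd_pow h5)
      exact hpq (h6.trans h7.symm)
    have hM16 : C.relIndex D * D.relIndex H ≠ 16 := by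
      rw [hmul]
      intro h3
      rw [h3] at hpd hqd
      have h4 : p ∣ 2 ^ 4 := by simpa using hpd
      have h5 : q ∣ 2 ^ 4 := by simpa using hqd
      have h6 := (Nat.prime_dvd_prime_iff_eq hp Nat.prime_two).mp (hp.dvd_of_dvd_pow h4)
      have h7 := (Nat.prime_dvd_prime_iff_eq hq Nat.prime_two).mp (hq.dvd_of_dvd_pow h5)
      exact hpq (h6.trans h7.symm)
    have hg' : Good τ (aOf H) χ₁ (inducedIrrAbove H M) w := by
      refine level_step H hC h C M hχ₁C hwv hwn hg ?_
      rintro χ ⟨θ, hθ, -, hθM, rfl⟩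
      obtain ⟨t, -, ht⟩ := Cfsg.Agent.Lib.Char.Ortho.irr_degree_pos hθ
      rw [aOf_ind H ht]
      have h3 := degree_bound (⊤ : Subgroup H) (D.subgroupOf H) (M.subgroupOf H)
        (Subgroup.comap_mono (hMC.le.trans hCD.le)) le_top
        (fun x hx y _ => ?_) hθ (fun b hb => hθM b (Subgroup.mem_subgroupOf.mp hb)) ht
      · simp only [Subgroup.index_top, one_pow, one_mul, Subgroup.relIndex_top_right] at h3
        rw [← hmul]
        exact num_b _ _ _ t he2 hy hv h3 hM9 hM16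
      · rw [Subgroup.mem_subgroupOf]
        simpa using hcent _ (Subgroup.mem_subgroupOf.mp hx) _ y.2
    have hMH : M ≤ H := hMC.le.trans hCH.le
    have hχ₁M : χ₁ ∈ inducedIrrAbove H M := S_anti H hMC.le hχ₁C
    have hmul2 : M.relIndex C * C.relIndex H = M.relIndex H :=
      Subgroup.relIndex_mul_relIndex M C H hMC.le hCH.le
    have hy'0 : 0 < M.relIndex C := Nat.pos_of_ne_zero (by
      simp only [Subgroup.relIndex]
      exact Subgroup.index_ne_zero_of_finite)
    have hy'1 : M.relIndex C ≠ 1 := fun h3 => hMC.not_ge (Subgroup.relIndex_eq_one.mp h3)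
    have hdy' : H.index ∣ M.relIndex C - 1 := by
      have h3 := dvd_relIndex_sub_one H hC M
      rw [← hmul2] at h3
      exact dvd_sub_one_of_mul hy'0 hb0 h3 hdb
    have hy' : H.index + 1 ≤ M.relIndex C := by
      have := Nat.le_of_dvd (by omega) hdy'
      omega
    have hbigM : 4 * H.index ^ 2 + 1 < M.relIndex H := by
      rw [← hmul2, ← hmul]
      have h5 : (H.index + 1) * (H.index + 1) ≤ C.relIndex D * D.relIndex H :=
        Nat.mul_le_mul hy hv
      have h6 : (H.index + 1) * ((H.index + 1) * (H.index + 1)) ≤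
          M.relIndex C * (C.relIndex D * D.relIndex H) := Nat.mul_le_mul hy' h5
      nlinarith
    exact hfinal h2 w hwv hwn (chain_a H hC hnil he1 h hwv hwn _ M rfl hMH hbigM hχ₁M hg')

end Cfsg.Agent.S1535
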