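import Cfsg.Statements.S1534
import Cfsg.Agent.S1535

set_option autoImplicit false
open Cfsg
open Cfsg.Agent.Lib.OddOrder.PF6Rel

namespace Cfsg.Agent.S1534

theorem index_commutator_equiv {A B : Type*} [Group A] [Group B] (f : A ≃* B) :
    (_root_.commutator A).index = (_root_.commutator B).index := by
  have h : (_root_.commutator A).map f.toMonoidHom = _root_.commutator B := by
    rw [commutator_def, commutator_def, Subgroup.map_commutator]
    have h1 : (⊤ : Subgroup A).map f.toMonoidHom = ⊤ :=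
      Subgroup.map_top_of_surjective _ f.surjective
    rw [h1]
  rw [← h]
  exact (Subgroup.index_map_of_bijective f.bijective _).symm

theorem subgroupOf_commutator {X : Type*} [Group X] (H : Subgroup X) :
    (⁅H, H⁆).subgroupOf H = _root_.commutator H := by
  rw [← Subgroup.map_subtype_commutator, Subgroup.subgroupOf,
    Subgroup.comap_map_eq_self_of_injective H.subtype_injective]

theorem aux {G : Type*} [Group G] [Fintype G] (K L : Subgroup G) [Fintype L]
    (D : Cfsg.Agent.Lib.OddOrder.PF7Coh.Datum K L) (hN : Subgroup.normalizer (K : Set G) = L)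
    (hK1 : K ≠ ⊥) (hnil : Group.IsNilpotent K) (hTI : Cfsg.IsTISubset (K : Set G)) (hlt : K < L) :
    (Nat.card {χ : ↥L → ℂ // Cfsg.IsIrrCharacter ↥L χ ∧ ∃ k : ↥L, (k : G) ∈ K ∧ χ k ≠ χ 1} = 1 ∧
      Nat.card K = (K.subgroupOf L).index + 1 ∧ ∃ p : ℕ, p.Prime ∧ Cfsg.IsElementaryAbelian p K) ∨
    (Nat.card K = 2 ^ (Nat.card G).factorization 2 ∧
      (⁅K, K⁆.subgroupOf K).index < 4 * (K.subgroupOf L).index ^ 2) ∨
    Cfsg.IsCoherent {χ : ↥L → ℂ | Cfsg.IsIrrCharacter ↥L χ ∧ ∃ k : ↥L, (k : G) ∈ K ∧ χ k ≠ χ 1} {1}ᶜ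
      (fun α => Cfsg.indFun L α) := by
  classical
  haveI hHn : (K.subgroupOf L).Normal := D.normalK
  have hfrob := D.frobK
  have hrel := rel_eq_SS D
  have hcardH : Nat.card (K.subgroupOf L) = Nat.card K :=
    Nat.card_congr (Subgroup.subgroupOfEquivOfLe D.le).toEquiv
  have hH1 : K.subgroupOf L ≠ ⊥ := by
    intro h
    apply hK1
    rw [eq_bot_iff]
    intro x hx
    have h1 : (⟨x, D.le hx⟩ : L) ∈ K.subgroupOf L := Subgroup.mem_subgroupOf.mpr hx
    rw [h, Subgroup.mem_bot] at h1
    have := congrArg Subtype.val h1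
    simpa using this
  have hH2 : K.subgroupOf L ≠ ⊤ := by
    obtain ⟨x, hxL, hxH⟩ := SetLike.exists_of_lt hlt
    intro h
    apply hxH
    have : (⟨x, hxL⟩ : L) ∈ K.subgroupOf L := by
      rw [h]
      trivial
    exact Subgroup.mem_subgroupOf.mp this
  have he1 : (K.subgroupOf L).index ≠ 1 := fun h => hH2 (Subgroup.index_eq_one.mp h)
  have hKne1 : Nat.card K ≠ 1 := fun h => hK1 (Subgroup.card_eq_one.mp h)
  by_cases he : Nat.card K = (K.subgroupOf L).index + 1
  · -- the small case
    left
    have he' : Nat.card (K.subgroupOf L) = (K.subgroupOf L).index + 1 := by rw [hcardH]; exact he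
    obtain ⟨-, habH⟩ := transitive_of_card (K.subgroupOf L) hfrob he'
    have hab : ∀ a ∈ K, ∀ b ∈ K, a * b = b * a := by
      intro a ha b hb
      have h1 := habH ⟨a, D.le ha⟩ (Subgroup.mem_subgroupOf.mpr ha) ⟨b, D.le hb⟩
        (Subgroup.mem_subgroupOf.mpr hb)
      exact congrArg Subtype.val h1
    obtain ⟨hdeg, hcount⟩ := card_SS_of_abelian D hab
    have hp := Nat.minFac_prime hKne1
    have hpow := pow_eq_one_of_card (K.subgroupOf L) hfrob he' hp
      (by rw [hcardH]; exact Nat.minFac_dvd _)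
    refine ⟨?_, he, (Nat.card K).minFac, hp, IsMulCommutative.of_comm fun a b =>
      Subtype.ext (hab _ a.2 _ b.2), ?_⟩
    · have h1 : Nat.card {χ : ↥L → ℂ // Cfsg.IsIrrCharacter ↥L χ ∧ ∃ k : ↥L, (k : G) ∈ K ∧ χ k ≠ χ 1} =
          (Cfsg.Agent.Lib.OddOrder.PF7Coh.SS K L).ncard := by
        rw [← hrel]
        rfl
      rw [h1]
      rw [he'] at hcount
      have hepos : 0 < (K.subgroupOf L).index := Nat.pos_of_ne_zero Subgroup.index_ne_zero_of_finite
      have h2 : (Cfsg.Agent.Lib.OddOrder.PF7Coh.SS K L).ncard * (K.subgroupOf L).index =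
          1 * (K.subgroupOf L).index := by omega
      exact Nat.eq_of_mul_eq_mul_right hepos h2
    · intro a ha
      have h1 := hpow ⟨a, D.le ha⟩ (Subgroup.mem_subgroupOf.mpr ha)
      have := congrArg Subtype.val h1
      simpa using this
  right
  have hset : {χ : ↥L → ℂ | Cfsg.IsIrrCharacter ↥L χ ∧ ∃ h ∈ K.subgroupOf L, χ h ≠ χ 1} =
      Cfsg.Agent.Lib.OddOrder.PF7Coh.SS K L := by
    rw [← hrel]
    simp only [Subgroup.mem_subgroupOf]
  obtain ⟨hiso, hiso1⟩ := Cfsg.Agent.Lib.OddOrder.PF6Sib3.ind_isometry D hN hTI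
  have hmain := Cfsg.Agent.S1535.result (K.subgroupOf L) hH1 hH2 hfrob
    (by rw [hcardH]; exact he) (fun α : L → ℂ => Cfsg.indFun L α)
    (by rw [hset]; exact hiso) (by rw [hset]; exact hiso1)
  rw [hset] at hmain
  rcases hmain with hcoh | ⟨p, hp, ⟨m, hm⟩, hna, hle⟩
  · right
    rw [hrel]
    exact hcoh
  have hnilH : Group.IsNilpotent (K.subgroupOf L) :=
    (Group.isNilpotent_congr (Subgroup.subgroupOfEquivOfLe D.le)).mpr hnil
  have hnaK : ¬ IsMulCommutative K := by
    intro hc
    apply hna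
    refine IsMulCommutative.of_comm fun a b => Subtype.ext (Subtype.ext ?_)
    have h1 := hc.is_comm.comm (⟨a, Subgroup.mem_subgroupOf.mp a.2⟩ : K)
      (⟨b, Subgroup.mem_subgroupOf.mp b.2⟩ : K)
    have h2 : ((a : L) : G) * ((b : L) : G) = ((b : L) : G) * ((a : L) : G) :=
      congrArg Subtype.val h1
    exact h2
  rw [hcardH] at hm
  by_cases hp2 : p = 2
  · -- the Sylow 2-subgroup case
    subst hp2
    left
    have hcop := Cfsg.Agent.Lib.OddOrder.PF7Group.coprime_of_frob (K.subgroupOf L) hfrob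
    rw [hcardH] at hcop
    have hcop2 := Cfsg.Agent.Lib.OddOrder.PF6Sib2.coprime_of_pgroup K L D.le hN hp hm hcop
    constructor
    · -- `|K|` is the full power of 2
      have h1 : Nat.card G = Nat.card K * K.index := (Subgroup.card_mul_index K).symm
      have hm0 : m ≠ 0 := by
        rintro rfl
        exact hKne1 (by simpa using hm)
      have hodd : ¬ 2 ∣ K.index := by
        intro h2
        have h3 : 2 ∣ Nat.card K := by
          rw [hm]
          exact dvd_pow_self _ hm0
        have := Nat.Coprime.eq_one_of_dvd (Nat.Coprime.coprime_dvd_left h3 hcop2) h2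
        omega
      have hne0 : K.index ≠ 0 := Subgroup.index_ne_zero_of_finite
      have hcardne0 : Nat.card K ≠ 0 := Nat.card_pos.ne'
      have h2 : (Nat.card G).factorization 2 = m := by
        rw [h1, Nat.factorization_mul hcardne0 hne0, hm, Nat.Prime.factorization_pow hp]
        simp [Nat.factorization_eq_zero_of_not_dvd hodd]
      rw [h2, hm]
    · have hb : (⁅K, K⁆.subgroupOf K).index =
          ((⁅K.subgroupOf L, K.subgroupOf L⁆).subgroupOf (K.subgroupOf L)).index := by
        rw [subgroupOf_commutator, subgroupOf_commutator]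
        exact (index_commutator_equiv (Subgroup.subgroupOfEquivOfLe D.le)).symm
      rw [hb]
      set b := ((⁅K.subgroupOf L, K.subgroupOf L⁆).subgroupOf (K.subgroupOf L)).index with hbdef
      haveI hCn : (⁅K.subgroupOf L, K.subgroupOf L⁆).Normal := Subgroup.commutator_normal _ _
      have hCH := commutator_lt (K.subgroupOf L) hnilH hH1
      have hb1 : b ≠ 1 := fun h => hCH.not_ge (Subgroup.relIndex_eq_one.mp h)
      have hbdvd : b ∣ 2 ^ m := by
        rw [← hm, ← hcardH]
        exact Subgroup.relIndex_dvd_card _ _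
      obtain ⟨j, -, hj⟩ := (Nat.dvd_prime_pow hp).mp hbdvd
      have hj0 : j ≠ 0 := by
        rintro rfl
        exact hb1 (by simpa using hj)
      have hbeven : 2 ∣ b := by
        rw [hj]
        exact dvd_pow_self _ hj0
      have hdvd : (K.subgroupOf L).index ∣ b - 1 :=
        Cfsg.Agent.Lib.OddOrder.PF6Feit2.dvd_relIndex_sub_one (K.subgroupOf L) hfrob
          (⁅K.subgroupOf L, K.subgroupOf L⁆)
      by_contra hcon
      have h3 : 4 * (K.subgroupOf L).index ^ 2 ≤ b := by omega
      have h4 : b = 4 * (K.subgroupOf L).index ^ 2 ∨ b = 4 * (K.subgroupOf L).index ^ 2 + 1 := by omega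
      rcases h4 with h4 | h4
      · -- `b = 4 e²` is impossible
        rw [h4] at hdvd
        have hepos : 0 < (K.subgroupOf L).index :=
          Nat.pos_of_ne_zero Subgroup.index_ne_zero_of_finite
        have h5 : (K.subgroupOf L).index ∣ 4 * (K.subgroupOf L).index ^ 2 :=
          ⟨4 * (K.subgroupOf L).index, by ring⟩
        have h6 : (K.subgroupOf L).index ∣ 1 := by
          have h7 : 4 * (K.subgroupOf L).index ^ 2 = (4 * (K.subgroupOf L).index ^ 2 - 1) + 1 :=
            (Nat.sub_add_cancel (Nat.succ_le_of_lt (by positivity))).symm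
          rw [h7] at h5
          exact (Nat.dvd_add_right hdvd).mp h5
        exact he1 (Nat.dvd_one.mp h6)
      · -- parity
        rw [h4] at hbeven
        omega
  · -- odd order
    right
    have hoddK : Odd (Nat.card K) := by
      rw [hm]
      exact (hp.odd_of_ne_two hp2).pow
    have hoddL := odd_of_nonabelian D hoddK hnaK
    rw [hrel]
    exact Cfsg.Agent.Lib.OddOrder.PF6Sib6.coherent_of_datum D hN hTI hoddL hK1 hlt hnilH


/-- Let G be a finite group and K a nontrivial nilpotent subgroup whose underlying set is a TI-subset of G, properly contained in its set normaliser N, with C_G(k) ≤ K for every non-identity k ∈ K; let e be the index of K in N and S the set of irreducible characters χ of N with χ k ≠ χ 1 for some k ∈ K. Then one of: S has exactly one member, Nat.card K = e + 1 and K is an elementary abelian p-group for some prime p; or K is a Sylow 2-subgroup of G (Nat.card K is the largest power of 2 dividing Nat.card G) and [K : [K,K]] < 4e²; or (S, N minus 1, induction to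 G) is coherent. -/
theorem result {G : Type*} [Group G] [Fintype G] (K : Subgroup G) (hK1 : K ≠ ⊥) (hnil : Group.IsNilpotent K) (hTI : Cfsg.IsTISubset (K : Set G)) (hlt : K < Subgroup.normalizer (K : Set G)) (hC : ∀ k ∈ K, k ≠ 1 → Subgroup.centralizer ({k} : Set G) ≤ K) [Fintype ↥(Subgroup.normalizer (K : Set G))] : (Nat.card {χ : ↥(Subgroup.normalizer (K : Set G)) → ℂ // Cfsg.IsIrrCharacter ↥(Subgroup.normalizer (K : Set G)) χ ∧ ∃ k : ↥(Subgroup.normalizer (K : Set G)), (k : G) ∈ K ∧ χ k ≠ χ 1} = 1 ∧ Nat.card K = (K.subgroupOf (Subgroup.normalizer (K : Set G))).index + 1 ∧ ∃ p : ℕ, p.Prime ∧ Cfsg.IsElementaryAbelian p K) ∨ (Nat.card K = 2 ^ (Nat.card G).factorization 2 ∧ (⁅K, K⁆.subgroupOf K).index < 4 * (K.subgroupOf (Subgroup.normalizer (K : Set G))).index ^ 2) ∨ Cfsg.IsCoherent {χ : ↥(Subgroup.normalizer (K : Set G)) → ℂ | Cfsg.IsIrrCharacter ↥(Subgroup.normalizer (K : Set G)) χ ∧ ∃ k : ↥(Subgroup.normalizer (K : Set G)), (k : G) ∈ K ∧ χ k ≠ χ 1} {1}ᶜ (fun α => Cfsg.indFun (Subgroup.normalizer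 (K : Set G)) α) := by
  exact aux K _ (datum_of_centralizer K hTI hC) rfl hK1 hnil hTI hlt

end Cfsg.Agent.S1534
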