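import Cfsg.Statements.S1536
import Cfsg.Agent.Lib.Char.GlaubSolv
import Cfsg.Agent.Lib.Char.CompleteCor
import Cfsg.Agent.Lib.Char.Burnside2
import Cfsg.Agent.Lib.Char.Monomial

set_option autoImplicit false
open Cfsg

namespace Cfsg.Agent.S1536

open Cfsg.Agent.Lib.Char.Basic Cfsg.Agent.Lib.Char.GlaubP

universe u

/-- See the statement. -/
theorem result {M : Type*} [Group M] [Finite M] (H : Subgroup M) [hN : H.Normal] (hHall : Nat.Coprime (Nat.card H) H.index) (x : M) : (∃ θ : H → ℂ, Cfsg.IsIrrCharacter H θ ∧ θ ≠ (fun _ => 1) ∧ (fun h : H => θ ⟨x * h * x⁻¹, hN.conj_mem h h.2 x⟩) = θ) ↔ ∃ h ∈ H, h ≠ 1 ∧ x * h = h * x := by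
  classical
  letI : Fintype M := Fintype.ofFinite _
  letI : Fintype H := Fintype.ofFinite _
  -- split `x`
  set n := Nat.card H with hn
  set m := H.index with hm
  have hxm : x ^ m ∈ H := by
    rw [← QuotientGroup.eq_one_iff, QuotientGroup.mk_pow]
    exact pow_card_eq_one'
  obtain ⟨a, b, hab⟩ : ∃ a b : ℤ, a * n + b * m = 1 := by
    have h := Nat.gcd_eq_gcd_ab n m
    rw [hHall] at h
    exact ⟨Nat.gcdA n m, Nat.gcdB n m, by push_cast at h; linarith⟩
  let u : M := x ^ (b * m)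
  let v : M := x ^ (a * n)
  have huH : u ∈ H := by
    show x ^ (b * m) ∈ H
    rw [mul_comm, zpow_mul, zpow_natCast]
    exact H.zpow_mem hxm b
  have hx : x = u * v := by
    show x = x ^ (b * m) * x ^ (a * n)
    rw [← zpow_add, add_comm, hab, zpow_one]
  have hvm : v ^ m = 1 := by
    show (x ^ (a * n)) ^ m = 1
    have h1 : (x ^ m) ^ n = 1 := by
      have := pow_card_eq_one' (x := (⟨x ^ m, hxm⟩ : H))
      exact congrArg Subtype.val this
    rw [← zpow_natCast, ← zpow_mul, show a * (n : ℤ) * m = ((m : ℤ) * n) * a by ring, zpow_mul, zpow_mul,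
      zpow_natCast, zpow_natCast, h1, one_zpow]
  let S : Subgroup M := Subgroup.zpowers v
  have hScard : Nat.Coprime (Nat.card H) (Nat.card S) := by
    have h1 : Nat.card S = orderOf v := Nat.card_zpowers v
    rw [h1]
    exact Nat.Coprime.coprime_dvd_right (orderOf_dvd_of_pow_eq_one hvm) hHall
  have hnorm : ∀ s ∈ S, ∀ g ∈ H, s * g * s⁻¹ ∈ H := fun s _ g hg => hN.conj_mem g hg s
  have hsolv : Group.IsSolvable S := by
    haveI : IsCyclic S := Subgroup.isCyclic_zpowers v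
    infer_instance
  let C : Subgroup M := H ⊓ Subgroup.centralizer (S : Set M)
  have hcard := Cfsg.Agent.Lib.Char.GlaubSolv.card_sinv_eq (C := C) hnorm hScard hsolv rfl
  rw [Cfsg.Agent.Lib.Char.CompleteCor.card_irr_eq_card_conjClasses] at hcard
  have hmemC : ∀ h : M, h ∈ C ↔ h ∈ H ∧ v * h = h * v := by
    intro h
    show h ∈ H ⊓ Subgroup.centralizer (S : Set M) ↔ _
    rw [Subgroup.mem_inf, Subgroup.mem_centralizer_iff]
    constructor
    · rintro ⟨h1, h2⟩
      exact ⟨h1, h2 v (Subgroup.mem_zpowers v)⟩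
    · rintro ⟨h1, h2⟩
      refine ⟨h1, fun s hs => ?_⟩
      obtain ⟨k, rfl⟩ := Subgroup.mem_zpowers_iff.mp hs
      exact ((show Commute v h from h2).zpow_left k).eq
  -- the principal character
  let p : IrrCharacter H := ⟨fun _ => 1, Cfsg.Agent.Lib.Char.Burnside2.isIrrCharacter_one⟩
  have hcl : ∀ θ : H → ℂ, IsIrrCharacter H θ → IsClassFunction H θ := fun θ hθ =>
    isClassFunction_of_isCharacter (isCharacter_of_isIrrCharacter hθ)
  have hcv : Commute v x := (Commute.refl x).zpow_left _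
  have hcu : Commute u x := (Commute.refl x).zpow_left _
  have hSInv : ∀ θ : H → ℂ, IsIrrCharacter H θ →
      (fun h : H => θ ⟨x * h * x⁻¹, hN.conj_mem h h.2 x⟩) = θ → SInv S θ := by
    intro θ hθ hfix
    let I : Subgroup M := Cfsg.Agent.Lib.Char.Monomial.inertiaOf H θ
    have hv : v ∈ I := by
      intro h
      have h1 : θ ⟨x * h * x⁻¹, hN.conj_mem h h.2 x⟩ = θ h := congrFun hfix h
      have h2 := hcl θ hθ ⟨x * h * x⁻¹, hN.conj_mem h h.2 x⟩ ⟨u⁻¹, H.inv_mem huH⟩
      rw [← h1, ← h2]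
      refine congrArg θ (Subtype.ext ?_)
      show v * h * v⁻¹ = u⁻¹ * (x * h * x⁻¹) * (u⁻¹)⁻¹
      rw [hx]
      have hvu : u⁻¹ * (u * v) = v := by group
      calc v * h * v⁻¹ = u⁻¹ * (u * v * h * (u * v)⁻¹) * u := by group
        _ = _ := by rw [inv_inv]
    have hS : S ≤ I := by
      rw [Subgroup.zpowers_le]
      exact hv
    intro s hs g g' hg'
    have := hS hs g
    have hg2 : g' = ⟨s * g * s⁻¹, hN.conj_mem g g.2 s⟩ := Subtype.ext hg'
    rw [hg2]
    exact this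
  have hnt : ∀ (K : Subgroup M), (∃ z ∈ K, z ≠ 1) ↔ 1 < Nat.card (ConjClasses K) := by
    intro K
    haveI : Finite (ConjClasses K) := inferInstance
    rw [Finite.one_lt_card_iff_nontrivial]
    constructor
    · rintro ⟨z, hz, hz1⟩
      refine ⟨⟨ConjClasses.mk 1, ConjClasses.mk ⟨z, hz⟩, ?_⟩⟩
      intro h
      have h2 := ConjClasses.mk_eq_mk_iff_isConj.mp h
      have h3 := isConj_one_right.mp h2
      exact hz1 (congrArg Subtype.val h3)
    · intro h
      by_contra hcon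
      push Not at hcon
      have hsub : Subsingleton K := ⟨fun a b => Subtype.ext (by rw [hcon a a.2, hcon b b.2])⟩
      obtain ⟨a, b, hab⟩ := h
      apply hab
      obtain ⟨a, rfl⟩ := ConjClasses.mk_surjective a
      obtain ⟨b, rfl⟩ := ConjClasses.mk_surjective b
      rw [Subsingleton.elim a b]
  constructor
  · rintro ⟨θ, hθ, hne, hfix⟩
    by_cases hu : u = 1
    · have hxv : x = v := by rw [hx, hu, one_mul]
      have h1 : 1 < Nat.card {χ : IrrCharacter H // SInv S (χ : H → ℂ)} := by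
        rw [Finite.one_lt_card_iff_nontrivial]
        refine ⟨⟨⟨⟨θ, hθ⟩, hSInv θ hθ hfix⟩, ⟨p, fun _ _ _ _ _ => rfl⟩, ?_⟩⟩
        intro h
        exact hne (congrArg (fun y : {χ : IrrCharacter H // SInv S (χ : H → ℂ)} => ((y.1 : IrrCharacter H) : H → ℂ)) h)
      rw [hcard] at h1
      obtain ⟨z, hz, hz1⟩ := (hnt C).mpr h1
      obtain ⟨h2, h3⟩ := (hmemC z).mp hz
      exact ⟨z, h2, hz1, by rw [hxv]; exact h3⟩
    · exact ⟨u, huH, hu, hcu.eq.symm⟩
  · rintro ⟨h, hh, hh1, hcomm⟩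
    have hvh : v * h = h * v := ((show Commute x h from hcomm).zpow_left _).eq
    have h1 : 1 < Nat.card (ConjClasses C) := (hnt C).mp ⟨h, (hmemC h).mpr ⟨hh, hvh⟩, hh1⟩
    rw [← hcard, Finite.one_lt_card_iff_nontrivial] at h1
    obtain ⟨⟨θ, hθS⟩, hne⟩ := exists_ne (⟨p, fun _ _ _ _ _ => rfl⟩ : {χ : IrrCharacter H // SInv S (χ : H → ℂ)})
    refine ⟨θ, θ.2, ?_, ?_⟩
    · intro h2
      apply hne
      apply Subtype.ext
      apply Subtype.ext
      exact h2
    · funext n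
      have h3 := hcl θ θ.2 ⟨v * n * v⁻¹, hN.conj_mem n n.2 v⟩ ⟨u, huH⟩
      have h4 := hθS v (Subgroup.mem_zpowers v) n ⟨v * n * v⁻¹, hN.conj_mem n n.2 v⟩ rfl
      rw [← h4, ← h3]
      refine congrArg _ (Subtype.ext ?_)
      show x * n * x⁻¹ = u * (v * n * v⁻¹) * u⁻¹
      rw [hx]
      group

end Cfsg.Agent.S1536
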