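import Cfsg.Statements.S1546
import Mathlib

set_option autoImplicit false
open Cfsg

namespace Cfsg.Agent.S1546

open Finset

private lemma sum_mod_of_eq_one (g p q : ℕ) (h : p ≡ 1 [MOD g]) :
    (∑ i ∈ range q, p ^ i) ≡ q [MOD g] := by
  induction q with
  | zero => simp [Nat.ModEq]
  | succ n ih =>
    rw [sum_range_succ]
    have : p ^ n ≡ 1 [MOD g] := by simpa using h.pow n
    exact ih.add this

private lemma prime_div (p q r : ℕ) (hq : q.Prime) (hp1 : 1 < p) (hr : r.Prime)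
    (hnot : p % q ≠ 1) (hd : r ∣ ∑ i ∈ range q, p ^ i) : r % q = 1 := by
  have : Fact r.Prime := ⟨hr⟩
  have hr' : r ∣ p ^ q - 1 := by
    have h := Nat.geomSum_eq (Nat.succ_le_of_lt hp1) q
    have h2 : (∑ i ∈ range q, p ^ i) * (p - 1) = p ^ q - 1 := by
      rw [h]
      have hd1 : p - 1 ∣ p ^ q - 1 := by
        simpa using Nat.sub_dvd_pow_sub_pow p 1 q
      exact Nat.div_mul_cancel hd1
    rw [← h2]
    exact dvd_mul_of_dvd_left hd _
  have h1p : 1 ≤ p ^ q := Nat.one_le_pow _ _ (by omega)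
  have hpow : ((p : ZMod r)) ^ q = 1 := by
    have := (ZMod.natCast_eq_zero_iff (p ^ q - 1) r).2 hr'
    rw [Nat.cast_sub h1p] at this
    push_cast at this
    exact sub_eq_zero.mp this
  have hne : (p : ZMod r) ≠ 0 := by
    intro h0
    rw [h0, zero_pow hq.ne_zero] at hpow
    exact zero_ne_one hpow
  have hord : orderOf (p : ZMod r) ∣ q := orderOf_dvd_of_pow_eq_one hpow
  rcases (Nat.dvd_prime hq).1 hord with h1 | hq'
  · -- p ≡ 1 mod r, so N ≡ q mod r, r = q
    exfalso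
    have hp1' : (p : ZMod r) = 1 := orderOf_eq_one_iff.1 h1
    have hmod : p ≡ 1 [MOD r] := by
      have := (ZMod.natCast_eq_natCast_iff p 1 r).1 (by simpa using hp1')
      exact this
    have h3 := sum_mod_of_eq_one r p q hmod
    have h4 : r ∣ q := by
      have := (Nat.modEq_zero_iff_dvd.1 ((h3.symm).trans (Nat.modEq_zero_iff_dvd.2 hd)))
      exact this
    have h5 : r = q := (Nat.prime_dvd_prime_iff_eq hr hq).1 h4
    subst h5
    apply hnot
    have := hmod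
    unfold Nat.ModEq at this
    rw [this, Nat.mod_eq_of_lt hr.one_lt]
  · have h6 : orderOf (p : ZMod r) ∣ r - 1 := ZMod.orderOf_dvd_card_sub_one hne
    rw [hq'] at h6
    have h7 : 1 ≤ r := hr.one_lt.le
    have : r % q = 1 % q := by
      have := (Nat.modEq_iff_dvd' h7).2 h6
      exact this.symm
    rw [this, Nat.mod_eq_of_lt hq.one_lt]

private lemma all_div (p q : ℕ) (hq : q.Prime) (hp1 : 1 < p)
    (hnot : p % q ≠ 1) (x : ℕ) (hd : x ∣ ∑ i ∈ range q, p ^ i) : x % q = 1 := by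
  have hpos : 0 < ∑ i ∈ range q, p ^ i :=
    sum_pos (fun i _ => pow_pos (by omega) _) ⟨0, mem_range.2 hq.pos⟩
  induction x using Nat.recOnMul with
  | zero => exact absurd (Nat.eq_zero_of_zero_dvd hd) hpos.ne'
  | one => exact Nat.mod_eq_of_lt hq.one_lt
  | prime r hr => exact prime_div p q r hq hp1 hr hnot hd
  | mul a b ha hb =>
    have h1 := ha (dvd_trans (dvd_mul_right _ _) hd)
    have h2 := hb (dvd_trans (dvd_mul_left _ _) hd)
    rw [Nat.mul_mod, h1, h2]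
    simp [Nat.mod_eq_of_lt hq.one_lt]

theorem result (p q : ℕ) (hp : p.Prime) (hq : q.Prime) (hp2 : p ≠ 2) (hq2 : q ≠ 2) : Odd ((p ^ q - 1) / (p - 1)) ∧ (p % q = 1 → q ∣ (p ^ q - 1) / (p - 1)) ∧ (p % q ≠ 1 → Nat.Coprime ((p ^ q - 1) / (p - 1)) (p - 1) ∧ ∀ x : ℕ, x ∣ (p ^ q - 1) / (p - 1) → x % q = 1) := by
  have hp1 : 1 < p := hp.one_lt
  have hpodd : Odd p := hp.odd_of_ne_two hp2
  have hqodd : Odd q := hq.odd_of_ne_two hq2
  rw [← Nat.geomSum_eq (Nat.succ_le_of_lt hp1) q]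
  refine ⟨?_, ?_, ?_⟩
  · -- parity
    have h := sum_mod_of_eq_one 2 p q (by
      have := Nat.odd_iff.1 hpodd
      simp [Nat.ModEq, this])
    rw [Nat.odd_iff]
    unfold Nat.ModEq at h
    rw [h, Nat.odd_iff.1 hqodd]
  · intro h
    have hmod : p ≡ 1 [MOD q] := by
      unfold Nat.ModEq
      rw [h, Nat.mod_eq_of_lt hq.one_lt]
    have h3 := sum_mod_of_eq_one q p q hmod
    exact Nat.modEq_zero_iff_dvd.1 (h3.trans (by simp [Nat.ModEq]))
  · intro hnot
    refine ⟨?_, fun x hx => all_div p q hq hp1 hnot x hx⟩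
    rw [Nat.Coprime]
    by_contra hg
    obtain ⟨r, hr, hrd⟩ := Nat.exists_prime_and_dvd hg
    have hr1 : r ∣ ∑ i ∈ range q, p ^ i := hrd.trans (Nat.gcd_dvd_left _ _)
    have hr2 : r ∣ p - 1 := hrd.trans (Nat.gcd_dvd_right _ _)
    have hmod : p ≡ 1 [MOD r] := ((Nat.modEq_iff_dvd' hp1.le).2 hr2).symm
    have h3 := sum_mod_of_eq_one r p q hmod
    have h4 : r ∣ q := Nat.modEq_zero_iff_dvd.1 ((h3.symm).trans (Nat.modEq_zero_iff_dvd.2 hr1))
    have h5 : r = q := (Nat.prime_dvd_prime_iff_eq hr hq).1 h4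
    subst h5
    apply hnot
    unfold Nat.ModEq at hmod
    rw [hmod, Nat.mod_eq_of_lt hr.one_lt]

end Cfsg.Agent.S1546
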