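import Cfsg.Statements.S1552
import Mathlib
import Cfsg.Agent.Lib.Sporadic.M24SxOnSx

set_option autoImplicit false
open scoped Pointwise
open Cfsg

namespace Cfsg.Agent.S1552

open Cfsg.Agent.Lib.Sporadic.GolayCore Cfsg.Agent.Lib.Sporadic.M24Tbl
open Cfsg.Agent.Lib.Sporadic.M24Chain Cfsg.Agent.Lib.Sporadic.M24Basic
open Cfsg.Agent.Lib.Sporadic.M24Act Cfsg.Agent.Lib.Sporadic.M24Lists
open Cfsg.Agent.Lib.Sporadic.M24Orbit Cfsg.Agent.Lib.Sporadic.M24Count
open Cfsg.Agent.Lib.Sporadic.M24Sextet Cfsg.Agent.Lib.Sporadic.M24Fast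
open Cfsg.Agent.Lib.Sporadic.M24Classes Cfsg.Agent.Lib.Sporadic.M24Cert
open scoped Pointwise
open Cfsg.Agent.Lib.Sporadic.M24SxStab Cfsg.Agent.Lib.Sporadic.M24SxOnSx Cfsg.Agent.Lib.Sporadic.M24SextetTab

/-- A sextet stabiliser has four orbits on the 1771 sextets, of sizes 1, 90, 240, 1440; and the stabiliser is a maximal proper subgroup. -/
theorem result (S : Finset (Finset Cfsg.GolayPt)) (hS : S ∈ Cfsg.sextets) : ∃ X₁ ∈ Cfsg.sextets, ∃ X₂ ∈ Cfsg.sextets, ∃ X₃ ∈ Cfsg.sextets, (MulAction.orbit ↥(MulAction.stabilizer Cfsg.M24 S) X₁).ncard = 90 ∧ (MulAction.orbit ↥(MulAction.stabilizer Cfsg.M24 S) X₂).ncard = 240 ∧ (MulAction.orbit ↥(MulAction.stabilizer Cfsg.M24 S) X₃).ncard = 1440 ∧ Cfsg.sextets = {S} ∪ MulAction.orbit ↥(MulAction.stabilizer Cfsg.M24 S) X₁ ∪ MulAction.orbit ↥(MulAction.stabilizer Cfsg.M24 S) X₂ ∪ MulAction.orbit ↥(MulAction.stabilizer Cfsg.M24 S) X₃ ∧ IsCoatom (MulAction.stabilizer Cfsg.M24 S) := by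
  have hS0 : famOf famS ∈ sextets := sx0_mem
  have hobj : sxObj 8388615 = famOf famS := (entry_spec (m := 8388615) (v := famS) (by decide +kernel)).2.2.2.2.2.symm
  have hr : repsS_S = [(3780, 8388615, famS), (324, 8388649, _), (356, 8388619, _), (196, 8388633, _)] := rfl
  obtain ⟨k, hk, rfl⟩ := exists_smul_sextet hS0 hS
  obtain ⟨X₁, h1, X₂, h2, X₃, h3, c1, c2, c3, hU⟩ :=
    CS_S.one_three hk hr hcvS_S n0 n1 n2 n3
  rw [hobj] at hU
  refine ⟨X₁, h1, X₂, h2, X₃, h3, c1, c2, c3, hU, ?_⟩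
  have hcoat : IsCoatom (MulAction.stabilizer M24 (famOf famS)) := by
    have hv : ∀ y ∈ sextets, clF (famOf famS) y ∈ ([3780, 324, 356, 196] : List ℕ) := fun y hy => by
      simpa [repsS_S] using CS_S.val_mem hy
    have hself : clF (famOf famS) (famOf famS) = 3780 := by
      have := CS_S.cl_rep (c := 3780) (r := 8388615) (vr := famS) List.mem_cons_self hcvS_S
      rwa [hobj] at this
    have hone : clF (famOf famS) (sxObj 8388649) = 324 :=
      CS_S.cl_rep (c := 324) (r := 8388649) (vr := _) (List.mem_cons_of_mem _ List.mem_cons_self) hcvS_S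
    let vals4 : Fin 4 → ℕ := ![3780, 324, 356, 196]
    let toFin4 : ℕ → Fin 4 := fun a => if a = 3780 then 0 else if a = 324 then 1 else if a = 356 then 2 else 3
    have hlist : ∀ a ∈ ([3780, 324, 356, 196] : List ℕ), vals4 (toFin4 a) = a := by decide +kernel
    refine CS_S.classes.isCoatom vals4 toFin4 (by decide +kernel) (fun y hy => hlist _ (hv y hy)) 0
      hself ?_ (y₀ := sxObj 8388649) (CS_S.obj_mem (v := _) (by rfl)) ?_ ![1, 90, 240, 1440] 1771 ncard_sextets ?_
      (orbit_sextet hS0) (by decide +kernel)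
    · intro y hy hc
      have := CS_S.uniq (c := 3780) (r := 8388615) (vr := famS) List.mem_cons_self hcvS_S n0 y hy hc
      rwa [hobj] at this
    · intro h
      rw [h, hself] at hone
      exact absurd hone (by decide)
    · intro c
      fin_cases c
      · show {y | y ∈ sextets ∧ clF (famOf famS) y = 3780}.ncard = 1
        rw [CS_S.count, n0]
      · show {y | y ∈ sextets ∧ clF (famOf famS) y = 324}.ncard = 90
        rw [CS_S.count, n1]
      · show {y | y ∈ sextets ∧ clF (famOf famS) y = 356}.ncard = 240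
        rw [CS_S.count, n2]
      · show {y | y ∈ sextets ∧ clF (famOf famS) y = 196}.ncard = 1440
        rw [CS_S.count, n3]
  exact Cfsg.Agent.Lib.Sporadic.M24Lists.isCoatom_stabilizer_smul (⟨k, hk⟩ : M24) hcoat

end Cfsg.Agent.S1552
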