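import Cfsg.Statements.S1559
import Mathlib
import Cfsg.Agent.Lib.Sporadic.M24TrOnTr
import Cfsg.Agent.Lib.Sporadic.M24TrioTrans

set_option autoImplicit false
open scoped Pointwise
open Cfsg

namespace Cfsg.Agent.S1559

open Cfsg.Agent.Lib.Sporadic.GolayCore Cfsg.Agent.Lib.Sporadic.M24Tbl
open Cfsg.Agent.Lib.Sporadic.M24Chain Cfsg.Agent.Lib.Sporadic.M24Basic
open Cfsg.Agent.Lib.Sporadic.M24Act Cfsg.Agent.Lib.Sporadic.M24Lists
open Cfsg.Agent.Lib.Sporadic.M24Orbit Cfsg.Agent.Lib.Sporadic.M24Count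
open Cfsg.Agent.Lib.Sporadic.M24Sextet Cfsg.Agent.Lib.Sporadic.M24Fast
open Cfsg.Agent.Lib.Sporadic.M24Classes Cfsg.Agent.Lib.Sporadic.M24Cert
open scoped Pointwise
open Cfsg.Agent.Lib.Sporadic.M24TrStab Cfsg.Agent.Lib.Sporadic.M24TrOnTr Cfsg.Agent.Lib.Sporadic.M24TrioTab Cfsg.Agent.Lib.Sporadic.M24TrioTrans

/-- A trio stabiliser has five orbits on the 3795 trios, of sizes 1, 42, 56, 1008, 2688; and the stabiliser is a maximal proper subgroup. -/
theorem result (T : Finset (Finset Cfsg.GolayPt)) (hT : T ∈ Cfsg.trios) : ∃ X₁ ∈ Cfsg.trios, ∃ X₂ ∈ Cfsg.trios, ∃ X₃ ∈ Cfsg.trios, ∃ X₄ ∈ Cfsg.trios, (MulAction.orbit ↥(MulAction.stabilizer Cfsg.M24 T) X₁).ncard = 42 ∧ (MulAction.orbit ↥(MulAction.stabilizer Cfsg.M24 T) X₂).ncard = 56 ∧ (MulAction.orbit ↥(MulAction.stabilizer Cfsg.M24 T) X₃).ncard = 1008 ∧ (MulAction.orbit ↥(MulAction.stabilizer Cfsg.M24 T) X₄).ncard = 2688 ∧ Cfsg.trios = {T} ∪ MulAction.orbit ↥(MulAction.stabilizer Cfsg.M24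 T) X₁ ∪ MulAction.orbit ↥(MulAction.stabilizer Cfsg.M24 T) X₂ ∪ MulAction.orbit ↥(MulAction.stabilizer Cfsg.M24 T) X₃ ∪ MulAction.orbit ↥(MulAction.stabilizer Cfsg.M24 T) X₄ ∧ IsCoatom (MulAction.stabilizer Cfsg.M24 T) := by
  obtain ⟨k, hk, rfl⟩ := exists_smul_trio famT_mem hT
  obtain ⟨X₁, h1, X₂, h2, X₃, h3, X₄, h4, c1, c2, c3, c4, hU⟩ :=
    CT_T.one_four hk rfl hcvT_T nT_T0 nT_T1 nT_T2 nT_T3 nT_T4
  have hU' := hU
  rw [show trObj 143212182249168 = famOf famT from obj_key0] at hU'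
  refine ⟨X₁, h1, X₂, h2, X₃, h3, X₄, h4, c1, c2, c3, c4, hU', ?_⟩
  have hcoat : IsCoatom (MulAction.stabilizer M24 (famOf famT)) := by
    have hv : ∀ y ∈ trios, clF (famOf famT) y ∈ ([1171881, 393129, 3753, 2601, 2025] : List ℕ) :=
      fun y hy => by simpa [repsT_T] using CT_T.val_mem hy
    have hself : clF (famOf famT) (famOf famT) = 1171881 := by
      have := CT_T.cl_rep (c := 1171881) (r := key0) (vr := famT) List.mem_cons_self hcvT_T
      rwa [obj_key0] at this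
    have hone := CT_T.cl_rep (c := 393129) (r := _) (vr := _)
      (List.mem_cons_of_mem _ List.mem_cons_self) hcvT_T
    let vals5 : Fin 5 → ℕ := ![1171881, 393129, 3753, 2601, 2025]
    let toFin5 : ℕ → Fin 5 := fun a =>
      if a = 1171881 then 0 else if a = 393129 then 1 else if a = 3753 then 2 else
        if a = 2601 then 3 else 4
    have hlist : ∀ a ∈ ([1171881, 393129, 3753, 2601, 2025] : List ℕ), vals5 (toFin5 a) = a := by
      decide +kernel
    refine CT_T.classes.isCoatom vals5 toFin5 (by decide +kernel) (fun y hy => hlist _ (hv y hy)) 0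
      hself ?_ (y₀ := _) (CT_T.rep_mem (List.mem_cons_of_mem _ List.mem_cons_self)) ?_
      ![1, 42, 56, 1008, 2688] 3795 Cfsg.Agent.S1557.result.2 ?_ (orbit_trio famT_mem) (by decide +kernel)
    · intro y hy hc
      have := CT_T.uniq (c := 1171881) (r := key0) (vr := famT) List.mem_cons_self hcvT_T nT_T0 y hy hc
      rwa [obj_key0] at this
    · intro h
      rw [h, hself] at hone
      exact absurd hone (by decide)
    · intro c
      fin_cases c
      · show {y | y ∈ trios ∧ clF (famOf famT) y = 1171881}.ncard = 1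
        rw [CT_T.count, nT_T0]
      · show {y | y ∈ trios ∧ clF (famOf famT) y = 393129}.ncard = 42
        rw [CT_T.count, nT_T1]
      · show {y | y ∈ trios ∧ clF (famOf famT) y = 3753}.ncard = 56
        rw [CT_T.count, nT_T2]
      · show {y | y ∈ trios ∧ clF (famOf famT) y = 2601}.ncard = 1008
        rw [CT_T.count, nT_T3]
      · show {y | y ∈ trios ∧ clF (famOf famT) y = 2025}.ncard = 2688
        rw [CT_T.count, nT_T4]
  exact Cfsg.Agent.Lib.Sporadic.M24Lists.isCoatom_stabilizer_smul (⟨k, hk⟩ : M24) hcoat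

end Cfsg.Agent.S1559
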