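import Cfsg.Statements.S1560
import Cfsg.Agent.Lib.Sporadic.M24Dodecad
import Cfsg.Agent.Lib.Sporadic.M24Count
import Cfsg.Prelude.Def_SporadicCombinatorics
-- import your own Cfsg.Agent.* helpers here

set_option autoImplicit false
open scoped Pointwise
open Cfsg

namespace Cfsg.Agent.S1560

open Cfsg.Agent.Lib.Sporadic.GolayCore Cfsg.Agent.Lib.Sporadic.M24Tbl Cfsg.Agent.Lib.Sporadic.M24Dodecad
open Cfsg.Agent.Lib.Sporadic.M24Count Cfsg.Agent.Lib.Sporadic.M24Act Cfsg.Agent.Lib.Sporadic.M24Chain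
open scoped Pointwise

theorem popc_inter_dod0 (o : Finset GolayPt) :
    (ofMask dod0 ∩ o).card = popc (dod0 &&& toMask o) := by
  rw [card_eq_popc, toMask_inter, toMask_ofMask (by decide)]

theorem count0 (k : ℕ) : {d' : Finset GolayPt | d' ∈ dodecads ∧ (ofMask dod0 ∩ d').card = k}.ncard =
    codeCount (fun m => popc m == 12 && popc (dod0 &&& m) == k) := by
  apply ncard_dodecads_filter
  · intro o ho
    have h12 : popc (toMask o) = 12 := by rw [← card_eq_popc]; exact ho.2
    rw [popc_inter_dod0]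
    simp [h12]
  · intro m hm
    simp only [Bool.and_eq_true, beq_iff_eq] at hm
    exact hm.1

theorem count_transport {d : Finset GolayPt} {g : Equiv.Perm GolayPt} (hg : g ∈ M24)
    (hgd : g • ofMask dod0 = d) (k : ℕ) :
    {d' : Finset GolayPt | d' ∈ dodecads ∧ (d ∩ d').card = k}.ncard =
      {d' : Finset GolayPt | d' ∈ dodecads ∧ (ofMask dod0 ∩ d').card = k}.ncard := by
  symm
  apply ncard_smul_eq g
  intro s
  simp only [Set.mem_ofPred_eq]
  rw [← hgd, card_smul_inter, smul_mem_dodecads_iff hg]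

theorem meet_values0 {m : ℕ} (hm : m ∈ dodecadList) (hne : m ≠ dod0) :
    popc (dod0 &&& m) = 0 ∨ popc (dod0 &&& m) = 4 ∨ popc (dod0 &&& m) = 6 ∨ popc (dod0 &&& m) = 8 := by
  have h : codeAll (fun m => !(popc m == 12) || m == dod0 ||
      (let k := popc (dod0 &&& m); k == 0 || k == 4 || k == 6 || k == 8)) = true := by
    decide +kernel
  have hm' := List.mem_filter.mp hm
  have h12 : popc m = 12 := by simpa using hm'.2
  have := (codeAll_iff _).1 h m hm'.1
  simpa [h12, hne, or_assoc] using this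

/-- Intersection numbers of dodecads: a dodecad meets every other dodecad in 0, 4, 6 or 8 points, meeting 495 of them in 4 points, 1584 in 6 points and 495 in 8 points. -/
theorem result (d : Finset Cfsg.GolayPt) (hd : d ∈ Cfsg.dodecads) : (∀ d' ∈ Cfsg.dodecads, d' ≠ d → (d ∩ d').card = 0 ∨ (d ∩ d').card = 4 ∨ (d ∩ d').card = 6 ∨ (d ∩ d').card = 8) ∧ {d' : Finset Cfsg.GolayPt | d' ∈ Cfsg.dodecads ∧ (d ∩ d').card = 4}.ncard = 495 ∧ {d' : Finset Cfsg.GolayPt | d' ∈ Cfsg.dodecads ∧ (d ∩ d').card = 6}.ncard = 1584 ∧ {d' : Finset Cfsg.GolayPt | d' ∈ Cfsg.dodecads ∧ (d ∩ d').card = 8}.ncard = 495 := by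
  obtain ⟨g, hg, hgd⟩ := exists_smul_dod0 hd
  refine ⟨?_, ?_, ?_, ?_⟩
  · intro d' hd' hne
    have hd'' : g⁻¹ • d' ∈ dodecads := smul_mem_dodecads (M24.inv_mem hg) hd'
    have hne' : toMask (g⁻¹ • d') ≠ dod0 := by
      intro e
      apply hne
      have h1 : g⁻¹ • d' = ofMask dod0 := by
        rw [← e, ofMask_toMask]
      rw [← hgd, ← h1, smul_inv_smul]
    have h2 := meet_values0 ((mem_dodecads_iff _).1 hd'') hne'
    have h3 : (d ∩ d').card = (ofMask dod0 ∩ (g⁻¹ • d')).card := by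
      rw [← card_smul_inter g (ofMask dod0) (g⁻¹ • d'), smul_inv_smul, hgd]
    rw [h3, popc_inter_dod0]
    exact h2
  · rw [count_transport hg hgd, count0]; decide +kernel
  · rw [count_transport hg hgd, count0]; decide +kernel
  · rw [count_transport hg hgd, count0]; decide +kernel

end Cfsg.Agent.S1560
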