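-- Statement S1577: the joint stabiliser of two minimal vectors of inner product `-16`.
import Cfsg.Statements.S1577
import Mathlib
import Cfsg.Agent.Lib.Sporadic.U62Pair.Data
import Cfsg.Agent.Lib.Compute.Schur2.U62Main

set_option autoImplicit false
set_option maxRecDepth 1000000
set_option Elab.async false
open Cfsg

namespace Cfsg.Agent.S1577

open Cfsg.Agent.Lib.Compute.SchurLin Cfsg.Agent.Lib.Compute.PermCert Cfsg.Agent.Lib.Compute.Schur2
open Cfsg.Agent.Lib.Compute.OutChain Cfsg.Agent.Lib.Compute.OutFinal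
open Cfsg.Agent.Lib.Sporadic.GolayCore Cfsg.Agent.Lib.Sporadic.LeechBasic Cfsg.Agent.Lib.Sporadic.LeechKey
  Cfsg.Agent.Lib.Sporadic.LeechEnum Cfsg.Agent.Lib.Sporadic.LeechMat
  Cfsg.Agent.Lib.Sporadic.LeechNorm Cfsg.Agent.Lib.Sporadic.LeechAut Cfsg.Agent.Lib.Sporadic.LeechA0
  Cfsg.Agent.Lib.Sporadic.LeechRep
  Cfsg.Agent.Lib.Sporadic.U62Pair

theorem hdN : 891 ≤ 2 ^ 10 := by norm_num

theorem chainOkF : chkChainF 10 1023 891 22 4194303 10 ls = true := by decide +kernel

theorem chainOk : chkChain 10 1023 891 22 4194303 ls = true :=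
  (chkChainF_eq hdN (tw := 22) (tm := 4194303) (w := 10) (m := 1023) (ls := ls)).symm.trans chainOkF

theorem chainOrd : ordC ls = 9196830720 := by decide +kernel

theorem validEs : es.all (validB 10 1023 891) = true := by decide +kernel

theorem siftEs : es.all (fun e => siftF 10 1023 891 22 4194303 10 ls (gt 10 1023 e)) = true := by decide +kernel

/-- The group generated by the four elements. -/
abbrev P : Subgroup (Equiv.Perm (Fin 891)) := genGroup 10 1023 891 es

theorem hmem (j : ℕ) : gPerm 10 1023 891 es j ∈ P := by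
  unfold gPerm letterPerm
  have h1 : Nat.div (2 * j) 2 = j := by
    show (2 * j) / 2 = j
    omega
  have h2 : Nat.mod (2 * j) 2 = 0 := by
    show (2 * j) % 2 = 0
    omega
  rw [h1, h2]
  cases hn : nth es j with
  | none => exact one_mem _
  | some e => exact Subgroup.subset_closure ⟨e, nth_mem hn, rfl⟩

theorem relsChk : allB (fun k => allB (fun i => Nat.beq (wordPt 10 1023 es (U62D.c.W.getD k []) i) i) 891)
    U62D.c.nrel = true := by
  decide +kernel

theorem wordsChk : wordsB 10 1023 891 es 4 es [[0], [2], [4], [6]] = true := by decide +kernel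

/-- The generators. -/
noncomputable abbrev gJ : ℕ → P := gP 10 1023 891 es P

theorem hrel : ∀ k < U62D.c.nrel, Cfsg.Agent.Lib.Compute.ToddCoxeterCore.wordEl (ltr gJ) (U62D.c.W.getD k []) = 1 := by
  intro k hk
  apply rel_of_check validEs hmem
  have := (allB_iff _ _).mp relsChk k hk
  exact this

theorem hgen (x : P) : x ∈ Subgroup.closure (gJ '' Set.Iio U62D.c.n) :=
  gen_of_words validEs hmem (k := 4) (gens := es) (us := [[0], [2], [4], [6]]) rfl wordsChk x

theorem nontrivial_P : Nontrivial P := by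
  have hne : permOf 10 1023 891 ex ≠ 1 :=
    ne_one_of_point (by decide +kernel) (i := 0) (by norm_num) (by decide +kernel)
  refine ⟨⟨⟨permOf 10 1023 891 ex, Subgroup.subset_closure ⟨ex, by simp [es], rfl⟩⟩, 1, ?_⟩⟩
  intro h
  exact hne (congrArg Subtype.val h)

theorem nonempty_P : Nonempty (P ≃* U62Main.H) :=
  haveI := nontrivial_P
  U62Main.nonempty_of_rel hrel hgen

theorem card_P : Nat.card P = 9196830720 := by
  obtain ⟨κ⟩ := nonempty_P
  rw [Nat.card_congr κ.toEquiv]
  exact U62Main.card_H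

/-! ### The stabiliser -/

/-- The order of the joint stabiliser of two minimal vectors of inner product `-16`. -/
theorem card_stab_m16 (v w : leechLattice) (hv : sqNorm (v : GolayPt → ℤ) = 32) (hw : sqNorm (w : GolayPt → ℤ) = 32)
    (hd : dotInt (v : GolayPt → ℤ) (w : GolayPt → ℤ) = -16) :
    Nat.card ↥(MulAction.stabilizer Co0 v ⊓ MulAction.stabilizer Co0 w) = 9196830720 := by
  have h := Cfsg.Agent.Lib.Sporadic.LeechOrders.card_inf_stab (MulAction.stabilizer Co0 v) w
    {x : leechLattice | sqNorm (x : GolayPt → ℤ) = 32 ∧ dotInt (v : GolayPt → ℤ) (x : GolayPt → ℤ) = -16}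
    ⟨hw, hd⟩
    (by
      rintro k hk z ⟨h1, h2⟩
      have hk' : k • v = v := hk
      refine ⟨(co0_sqNorm k z).trans h1, ?_⟩
      rw [← hk', co0_dotInt]
      exact h2)
    (by
      rintro z ⟨h1, h2⟩
      obtain ⟨k, hk1, hk2⟩ := co2_trans_m16 v w z hv hw h1 hd h2
      exact ⟨k, hk1, hk2⟩)
  rw [Cfsg.Agent.Lib.Sporadic.LeechOrders.card_stab32 v hv,
    Cfsg.Agent.Lib.Sporadic.LeechTree.ncard_sub (fun x => sqNorm x = 32 ∧ dotInt (v : GolayPt → ℤ) x = -16)] at h
  have h2 := (Cfsg.Agent.S1573.result (v : GolayPt → ℤ) v.2 hv).1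
  rw [h2] at h
  omega

theorem StabL_eq : StabL FP = MulAction.stabilizer Co0 a0 ⊓ MulAction.stabilizer Co0 b0 := by
  ext g
  rw [mem_FP, Subgroup.mem_inf, MulAction.mem_stabilizer_iff, MulAction.mem_stabilizer_iff]

theorem card_FP : Nat.card (StabL FP) = 9196830720 := by
  rw [StabL_eq]
  exact card_stab_m16 a0 b0 sqNorm_a0 sqNorm_b0 dot_a0_b0

/-! ### The action on the 891 vectors -/

theorem gen1_ok : (List.range 891).all (fun i => matL M1 2 (X891.getD i []) == X891.getD (get 10 1023 e1.f i) []) = true := by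
  decide +kernel

theorem gen2_ok : (List.range 891).all (fun i => matL M2 1 (X891.getD i []) == X891.getD (get 10 1023 e2.f i) []) = true := by
  decide +kernel

theorem valid1 : validB 10 1023 891 e1 = true := by decide +kernel

theorem valid2 : validB 10 1023 891 e2 = true := by decide +kernel

theorem mem_gens : ∀ e ∈ hdG ls, permOf 10 1023 891 e ∈ phi.range := by
  intro e he
  have he' : e ∈ [e1, e2] := he
  simp only [List.mem_cons, List.not_mem_nil, or_false] at he'
  rcases he' with rfl | rfl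
  · exact permOf_mem_range hN891 X891_len X891_nodup X891_mem_lat _ hpres valid1
      (acts_mem_StabL (acts_mat M1_ok) (by decide +kernel)) (acts_mat M1_ok) gen1_ok
  · exact permOf_mem_range hN891 X891_len X891_nodup X891_mem_lat _ hpres valid2
      (acts_mem_StabL (acts_mat M2_ok) (by decide +kernel)) (acts_mat M2_ok) gen2_ok

theorem hRep : ChainFor 10 1023 891 22 4194303 phi.range ls ∧ Function.Injective phi :=
  rep_chain hN891 X891_len X891_nodup X891_mem_lat (StabL FP) hpres chainOk mem_gens (by rw [card_FP, chainOrd])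

theorem phi_inj : Function.Injective phi := hRep.2

theorem card_range : Nat.card phi.range = 9196830720 := by
  rw [← hRep.1.ord]
  exact chainOrd

theorem P_le : P ≤ phi.range := by
  refine (Subgroup.closure_le _).mpr ?_
  rintro _ ⟨e, he, rfl⟩
  have hv : validB 10 1023 891 e = true := List.all_eq_true.mp validEs e he
  have hs : siftF 10 1023 891 22 4194303 10 ls (gt 10 1023 e) = true := List.all_eq_true.mp siftEs e he
  exact hRep.1.mem_of_sift hdN (gt_eq hv) hs

theorem P_eq : P = phi.range := Subgroup.eq_of_le_of_card_ge P_le (by rw [card_P, card_range])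

/-- The standard joint stabiliser. -/
theorem nonempty_std : Nonempty (StabL FP ≃* PSU 6 SU62.K9 2) := by
  obtain ⟨κ⟩ := nonempty_P
  obtain ⟨e⟩ := U62Main.nonempty_H
  exact ⟨(MonoidHom.ofInjective phi_inj).trans ((MulEquiv.subgroupCongr P_eq.symm).trans (κ.trans e))⟩

/-- The joint stabiliser of two minimal vectors of customary inner product −2 is isomorphic to PSU(6, 2). -/
theorem result (v w : ↥Cfsg.leechLattice) (hv : Cfsg.sqNorm (v : Cfsg.GolayPt → ℤ) = 32) (hw : Cfsg.sqNorm (w : Cfsg.GolayPt → ℤ) = 32) (hd : Cfsg.dotInt (v : Cfsg.GolayPt → ℤ) (w : Cfsg.GolayPt → ℤ) = -16) (F : Type) [Field F] [Fintype F] (hF : Fintype.card F = 4) : Nonempty (↥(MulAction.stabilizer ↥Cfsg.Co0 v ⊓ MulAction.stabilizer ↥Cfsg.Co0 w) ≃* Cfsg.PSU 6 F 2) := by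
  obtain ⟨h, hh⟩ := Cfsg.Agent.Lib.Sporadic.LeechMin.co0_transitive_min v a0 hv sqNorm_a0
  have h1 : dotInt (co a0) (co (h • w)) = -16 := by
    rw [← hh, co0_dotInt]
    exact hd
  obtain ⟨k, hk1, hk2⟩ := co2_trans_m16 a0 (h • w) b0 sqNorm_a0 (by rw [co0_sqNorm]; exact hw) sqNorm_b0 h1 dot_a0_b0
  have hGa : (k * h) • v = a0 := by rw [mul_smul, hh, hk1]
  have hGb : (k * h) • w = b0 := by rw [mul_smul, hk2]
  generalize k * h = G at hGa hGb
  obtain ⟨e1⟩ := nonempty_std
  obtain ⟨e2⟩ := SU62.nonempty_equiv hF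
  have hm : (MulAction.stabilizer Co0 v ⊓ MulAction.stabilizer Co0 w).map (MulAut.conj G).toMonoidHom = StabL FP := by
    ext y
    rw [Subgroup.mem_map_equiv, mem_FP, ← hGa, ← hGb]
    have e : (MulAut.conj G).symm y = G⁻¹ * y * G := by
      simp [MulAut.conj_symm_apply]
    rw [e]
    have c1 : ∀ u : leechLattice, y • (G • u) = G • u ↔ (G⁻¹ * y * G) • u = u := by
      intro u
      rw [mul_smul, mul_smul, inv_smul_eq_iff]
    rw [c1, c1]
    simp only [Subgroup.mem_inf, MulAction.mem_stabilizer_iff]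
  exact ⟨((MulAut.conj G).subgroupMap _).trans ((MulEquiv.subgroupCongr hm).trans (e1.trans e2.symm))⟩

end Cfsg.Agent.S1577
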