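import Cfsg.Statements.S1579
import Mathlib
import Cfsg.Agent.Lib.Sporadic.LeechA0

set_option autoImplicit false
open Cfsg

namespace Cfsg.Agent.S1579

open Cfsg.Agent.Lib.Sporadic.LeechA0 Cfsg.Agent.Lib.Sporadic.LeechNorm Cfsg.Agent.Lib.Sporadic.LeechMin Cfsg.Agent.Lib.Sporadic.LeechAut

/-- The stabiliser of a vector of customary norm 6 is transitive on the 552 minimal vectors that complete it to a sum of two minimal vectors. -/
theorem result (u v v' : ↥Cfsg.leechLattice) (hu : Cfsg.sqNorm (u : Cfsg.GolayPt → ℤ) = 48) (hv : Cfsg.sqNorm (v : Cfsg.GolayPt → ℤ) = 32 ∧ Cfsg.sqNorm ((u - v) : Cfsg.GolayPt → ℤ) = 32) (hv' : Cfsg.sqNorm (v' : Cfsg.GolayPt → ℤ) = 32 ∧ Cfsg.sqNorm ((u - v') : Cfsg.GolayPt → ℤ) = 32) : ∃ g : ↥Cfsg.Co0, g • u = u ∧ g • v = v' := by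
  have hdot : ∀ a : leechLattice, sqNorm (a : GolayPt → ℤ) = 32 → sqNorm ((u - a : leechLattice) : GolayPt → ℤ) = 32 →
      dotInt (a : GolayPt → ℤ) ((u - a : leechLattice) : GolayPt → ℤ) = -8 := by
    intro a ha hb
    have h1 : ((u : leechLattice) : GolayPt → ℤ) = (a : GolayPt → ℤ) + ((u - a : leechLattice) : GolayPt → ℤ) := by
      have : u = a + (u - a) := by abel
      exact congrArg Subtype.val this
    have h2 := sqNorm_add (a : GolayPt → ℤ) ((u - a : leechLattice) : GolayPt → ℤ)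
    rw [← h1, hu, ha, hb] at h2
    omega
  obtain ⟨hv1, hv2⟩ := hv
  obtain ⟨hv1', hv2'⟩ := hv'
  have hb : sqNorm ((u - v : leechLattice) : GolayPt → ℤ) = 32 := hv2
  have hb' : sqNorm ((u - v' : leechLattice) : GolayPt → ℤ) = 32 := hv2'
  obtain ⟨h, hh⟩ := co0_transitive_min v v' hv1 hv1'
  have hd1 : dotInt (v' : GolayPt → ℤ) ((h • (u - v) : leechLattice) : GolayPt → ℤ) = -8 := by
    rw [← hh, co0_dotInt]
    exact hdot v hv1 hb
  obtain ⟨k, hk1, hk2⟩ := co2_trans_m8 v' (h • (u - v)) (u - v') hv1'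
    (by rw [co0_sqNorm]; exact hb) hb' hd1 (hdot v' hv1' hb')
  refine ⟨k * h, ?_, ?_⟩
  · have h1 : u = v + (u - v) := by abel
    have h2 : (k * h) • u = (k * h) • v + (k * h) • (u - v) := by
      rw [← co0_map_add, ← h1]
    rw [h2, mul_smul, mul_smul, hh, hk1, hk2]
    abel
  · rw [mul_smul, hh, hk1]

end Cfsg.Agent.S1579
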