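import Cfsg.Statements.S1584
import Mathlib
import Cfsg.Agent.Lib.Sporadic.LeechHSc

set_option autoImplicit false
open Cfsg

namespace Cfsg.Agent.S1584

open Cfsg Cfsg.Agent.Lib.Sporadic.GolayCore Cfsg.Agent.Lib.Sporadic.LeechBasic Cfsg.Agent.Lib.Sporadic.LeechNorm Cfsg.Agent.Lib.Sporadic.LeechFacts Cfsg.Agent.Lib.Sporadic.LeechAut Cfsg.Agent.Lib.Sporadic.LeechMat Cfsg.Agent.Lib.Sporadic.LeechOrb Cfsg.Agent.Lib.Sporadic.LeechShape Cfsg.Agent.Lib.Sporadic.LeechKey Cfsg.Agent.Lib.Sporadic.LeechMin Cfsg.Agent.Lib.Sporadic.LeechA0 Cfsg.Agent.Lib.Sporadic.LeechEnum Cfsg.Agent.Lib.Sporadic.LeechTree Cfsg.Agent.Lib.Sporadic.LeechCo3 Cfsg.Agent.Lib.Sporadic.LeechHS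

/-- The Higman–Sims group acts with rank 3 and subdegrees 1, 22, 77 on its 100 points, the orbits of a point stabiliser being distinguished by customary inner product 1 with the fixed point. -/
theorem result (v w x : ↥Cfsg.leechLattice) (hv : Cfsg.sqNorm (v : Cfsg.GolayPt → ℤ) = 48) (hw : Cfsg.sqNorm (w : Cfsg.GolayPt → ℤ) = 48) (hvw : Cfsg.dotInt (v : Cfsg.GolayPt → ℤ) (w : Cfsg.GolayPt → ℤ) = -32) (hx : x ∈ {x : ↥Cfsg.leechLattice | Cfsg.sqNorm (x : Cfsg.GolayPt → ℤ) = 32 ∧ Cfsg.dotInt (v : Cfsg.GolayPt → ℤ) (x : Cfsg.GolayPt → ℤ) = 24 ∧ Cfsg.dotInt (w : Cfsg.GolayPt → ℤ) (x : Cfsg.GolayPt → ℤ) = -24}) : {y : ↥Cfsg.leechLattice | y ∈ {x : ↥Cfsg.leechLattice | Cfsg.sqNorm (x : Cfsg.GolayPt → ℤ) = 32 ∧ Cfsg.dotInt (v : Cfsg.GolayPt → ℤ) (x : Cfsg.GolayPt → ℤ) = 24 ∧ Cfsg.dotInt (w : Cfsg.GolayPt → ℤ) (x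 : Cfsg.GolayPt → ℤ) = -24} ∧ Cfsg.dotInt (x : Cfsg.GolayPt → ℤ) (y : Cfsg.GolayPt → ℤ) = 8}.ncard = 22 ∧ {y : ↥Cfsg.leechLattice | y ∈ {x : ↥Cfsg.leechLattice | Cfsg.sqNorm (x : Cfsg.GolayPt → ℤ) = 32 ∧ Cfsg.dotInt (v : Cfsg.GolayPt → ℤ) (x : Cfsg.GolayPt → ℤ) = 24 ∧ Cfsg.dotInt (w : Cfsg.GolayPt → ℤ) (x : Cfsg.GolayPt → ℤ) = -24} ∧ y ≠ x ∧ Cfsg.dotInt (x : Cfsg.GolayPt → ℤ) (y : Cfsg.GolayPt → ℤ) ≠ 8}.ncard = 77 ∧ ∀ y ∈ {x : ↥Cfsg.leechLattice | Cfsg.sqNorm (x : Cfsg.GolayPt → ℤ) = 32 ∧ Cfsg.dotInt (v : Cfsg.GolayPt → ℤ) (x : Cfsg.GolayPt → ℤ) = 24 ∧ Cfsg.dotInt (w : Cfsg.GolayPt → ℤ) (x : Cfsg.GolayPt → ℤ) = -24}, ∀ y' ∈ {x : ↥Cfsg.leechLattice | Cfsg.sqNorm (x : Cfsg.GolayPt → ℤ) = 32 ∧ Cfsg.dotInt (v : Cfsg.GolayPt → ℤ) (x : Cfsg.GolayPt → ℤ) = 24 ∧ Cfsg.dotInt (w : Cfsg.GolayPt → ℤ) (x : Cfsg.GolayPt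 → ℤ) = -24}, y ≠ x → y' ≠ x → (Cfsg.dotInt (x : Cfsg.GolayPt → ℤ) (y : Cfsg.GolayPt → ℤ) = 8 ↔ Cfsg.dotInt (x : Cfsg.GolayPt → ℤ) (y' : Cfsg.GolayPt → ℤ) = 8) → ∃ g : ↥Cfsg.Co0, g • v = v ∧ g • w = w ∧ g • x = x ∧ g • y = y' := by
  have hr22 := ncard_rank3 v w x hv hw hvw hx 8
  have hr16 := ncard_rank3 v w x hv hw hvw hx 16
  rw [ncard_22] at hr22
  rw [ncard_77] at hr16
  have hdots := dots_frame v w x hv hw hvw hx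
  have hxx : Cfsg.dotInt (x : Cfsg.GolayPt → ℤ) (x : Cfsg.GolayPt → ℤ) = 32 := by
    rw [dotInt_self]
    exact hx.1
  refine ⟨?_, ?_, ?_⟩
  · refine Eq.trans ?_ hr22
    congr 1
    ext y
    constructor
    · rintro ⟨⟨h1, h2, h3⟩, h4⟩
      exact ⟨h1, h4, h2, h3⟩
    · rintro ⟨h1, h4, h2, h3⟩
      exact ⟨⟨h1, h2, h3⟩, h4⟩
  · refine Eq.trans ?_ hr16
    congr 1
    ext y
    constructor
    · rintro ⟨⟨h1, h2, h3⟩, h4, h5⟩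
      rcases hdots y h1 h2 h3 with h6 | h6 | h6
      · exact absurd h6 h5
      · exact ⟨h1, h6, h2, h3⟩
      · exact absurd h6 h4
    · rintro ⟨h1, h4, h2, h3⟩
      refine ⟨⟨h1, h2, h3⟩, ?_, ?_⟩
      · rintro rfl
        omega
      · omega
  · rintro y hy y' hy' hne hne' hiff
    rcases hdots y hy.1 hy.2.1 hy.2.2 with h6 | h6 | h6
    · exact trans_frame v w x hv hw hvw hx y y' hy hy' (Or.inl ⟨h6, hiff.1 h6⟩)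
    · rcases hdots y' hy'.1 hy'.2.1 hy'.2.2 with h7 | h7 | h7
      · have := hiff.2 h7
        omega
      · exact trans_frame v w x hv hw hvw hx y y' hy hy' (Or.inr ⟨h6, h7⟩)
      · exact absurd h7 hne'
    · exact absurd h6 hne

end Cfsg.Agent.S1584
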