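import Cfsg.Statements.S1587
import Mathlib
-- import your own Cfsg.Agent.* helpers here

set_option autoImplicit false
open Matrix
open Cfsg

namespace Cfsg.Agent.S1587

/-- First step of the characterisation of the rank-24 lattice: in an even lattice without roots, norm-8 vectors congruent modulo 2 are equal, opposite or orthogonal. -/
theorem result (B : Matrix (Fin 24) (Fin 24) ℤ) (hsymm : B.IsSymm) (hpos : ∀ x : Fin 24 → ℤ, x ≠ 0 → 0 < x ⬝ᵥ (B *ᵥ x)) (heven : ∀ x : Fin 24 → ℤ, (2 : ℤ) ∣ x ⬝ᵥ (B *ᵥ x)) (h2 : ∀ x : Fin 24 → ℤ, x ⬝ᵥ (B *ᵥ x) ≠ 2) (x y : Fin 24 → ℤ) (hx : x ⬝ᵥ (B *ᵥ x) = 8) (hy : y ⬝ᵥ (B *ᵥ y) = 8) (hc : ∀ i, (2 : ℤ) ∣ (x - y) i) : y = x ∨ y = -x ∨ x ⬝ᵥ (B *ᵥ y) = 0 := by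
  classical
  -- the half-difference
  choose a ha using hc
  have ha' : x - y = (2 : ℤ) • a := by
    funext i
    simp [ha i, Pi.smul_apply]
  set b : Fin 24 → ℤ := a + y with hb
  have hxe : x = a + b := by
    funext i
    have := ha i
    simp only [hb, Pi.add_apply, Pi.sub_apply] at *
    linarith
  have hye : y = b - a := by
    funext i
    simp [hb]
  have hs : ∀ u v : Fin 24 → ℤ, u ⬝ᵥ (B *ᵥ v) = v ⬝ᵥ (B *ᵥ u) := by
    intro u v
    rw [Matrix.dotProduct_mulVec, ← Matrix.mulVec_transpose, hsymm.eq, dotProduct_comm]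
  have hqx : a ⬝ᵥ (B *ᵥ a) + 2 * (a ⬝ᵥ (B *ᵥ b)) + b ⬝ᵥ (B *ᵥ b) = 8 := by
    have := hx
    rw [hxe] at this
    simp only [Matrix.mulVec_add, add_dotProduct, dotProduct_add] at this
    rw [hs b a] at this
    linarith
  have hqy : a ⬝ᵥ (B *ᵥ a) - 2 * (a ⬝ᵥ (B *ᵥ b)) + b ⬝ᵥ (B *ᵥ b) = 8 := by
    have := hy
    rw [hye] at this
    simp only [Matrix.mulVec_sub, sub_dotProduct, dotProduct_sub] at this
    rw [hs b a] at this
    linarith
  have hab : a ⬝ᵥ (B *ᵥ b) = 0 := by linarith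
  have hsum : a ⬝ᵥ (B *ᵥ a) + b ⬝ᵥ (B *ᵥ b) = 8 := by linarith
  by_cases ha0 : a = 0
  · left
    rw [hxe, hye, ha0]; simp
  by_cases hb0 : b = 0
  · right; left
    rw [hxe, hye, hb0]; simp
  right; right
  have hpa := hpos a ha0
  have hpb := hpos b hb0
  obtain ⟨m, hm⟩ := heven a
  obtain ⟨n, hn⟩ := heven b
  have h2a := h2 a
  have h2b := h2 b
  have hm4 : a ⬝ᵥ (B *ᵥ a) = 4 := by
    rw [hm] at hpa hsum h2a ⊢
    rw [hn] at hpb hsum h2b
    have : m + n = 4 := by linarith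
    have hm1 : 0 < m := by linarith
    have hn1 : 0 < n := by linarith
    have hm2 : m ≠ 1 := by
      intro h; apply h2a; rw [h]; norm_num
    have hn2 : n ≠ 1 := by
      intro h; apply h2b; rw [h]; norm_num
    have : m = 2 := by omega
    rw [this]; norm_num
  have hn4 : b ⬝ᵥ (B *ᵥ b) = 4 := by linarith
  rw [hxe, hye]
  simp only [Matrix.mulVec_sub, add_dotProduct, dotProduct_sub]
  rw [hs b a, hm4, hn4]
  ring

end Cfsg.Agent.S1587
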