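import Cfsg.Statements.S1588
import Mathlib
import Cfsg.Agent.S1587
-- import your own Cfsg.Agent.* helpers here

set_option autoImplicit false
open Matrix
open Cfsg

namespace Cfsg.Agent.S1588

section Aux

variable (B : Matrix (Fin 24) (Fin 24) ℤ)

local notation:max "⟪" x ", " y "⟫" => x ⬝ᵥ (B *ᵥ y)

variable {B}

lemma bil_comm (hsymm : B.IsSymm) (u v : Fin 24 → ℤ) : ⟪u, v⟫ = ⟪v, u⟫ := by
  rw [Matrix.dotProduct_mulVec, ← Matrix.mulVec_transpose, hsymm.eq, dotProduct_comm]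

lemma bil_neg_neg (x : Fin 24 → ℤ) : ⟪(-x), (-x)⟫ = ⟪x, x⟫ := by
  simp [Matrix.mulVec_neg]

/-- The decomposition `x = a + b`, `y = b - a` of two vectors congruent modulo `2`. -/
lemma cong_decomp (hsymm : B.IsSymm) (x y : Fin 24 → ℤ) (hc : ∀ i, (2 : ℤ) ∣ (x - y) i) :
    ∃ a b : Fin 24 → ℤ, x = a + b ∧ y = b - a ∧ 2 * (⟪a, a⟫ + ⟪b, b⟫) = ⟪x, x⟫ + ⟪y, y⟫ := by
  choose a ha using hc
  set b : Fin 24 → ℤ := a + y with hb
  have hxe : x = a + b := by
    funext i
    have := ha i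
    simp only [hb, Pi.add_apply, Pi.sub_apply] at *
    linarith
  have hye : y = b - a := by
    funext i
    simp [hb]
  refine ⟨a, b, hxe, hye, ?_⟩
  have hs := bil_comm hsymm a b
  have h1 : ⟪x, x⟫ = ⟪a, a⟫ + 2 * ⟪a, b⟫ + ⟪b, b⟫ := by
    rw [hxe]
    simp only [Matrix.mulVec_add, add_dotProduct, dotProduct_add]
    rw [← hs]
    ring
  have h2 : ⟪y, y⟫ = ⟪a, a⟫ - 2 * ⟪a, b⟫ + ⟪b, b⟫ := by
    rw [hye]
    simp only [Matrix.mulVec_sub, sub_dotProduct, dotProduct_sub]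
    rw [← hs]
    ring
  rw [h1, h2]
  ring

/-- Congruent vectors of small norm are equal or opposite. -/
lemma cong_small (hsymm : B.IsSymm) (hpos : ∀ x : Fin 24 → ℤ, x ≠ 0 → 0 < ⟪x, x⟫)
    (heven : ∀ x : Fin 24 → ℤ, (2 : ℤ) ∣ ⟪x, x⟫) (h2 : ∀ x : Fin 24 → ℤ, ⟪x, x⟫ ≠ 2)
    (x y : Fin 24 → ℤ) (hc : ∀ i, (2 : ℤ) ∣ (x - y) i) (hlt : ⟪x, x⟫ + ⟪y, y⟫ < 16) :
    y = x ∨ y = -x := by
  obtain ⟨a, b, hxe, hye, hsum⟩ := cong_decomp hsymm x y hc
  by_cases ha0 : a = 0
  · left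
    rw [hxe, hye, ha0]
    simp
  by_cases hb0 : b = 0
  · right
    rw [hxe, hye, hb0]
    simp
  exfalso
  have hpa := hpos a ha0
  have hpb := hpos b hb0
  obtain ⟨m, hm⟩ := heven a
  obtain ⟨n, hn⟩ := heven b
  have h2a := h2 a
  have h2b := h2 b
  rw [hm] at hpa h2a hsum
  rw [hn] at hpb h2b hsum
  omega

lemma bil_smul (v : Fin 24 → ℤ) (c : ℤ) (u : Fin 24 → ℤ) : ⟪v, c • u⟫ = c * ⟪v, u⟫ := by
  rw [Matrix.mulVec_smul, dotProduct_smul, smul_eq_mul]

/-- Pairwise orthogonal vectors of non-zero norm number at most `24`. -/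
lemma card_le_24 (P : Finset (Fin 24 → ℤ)) (hne : ∀ v ∈ P, ⟪v, v⟫ ≠ 0)
    (horth : ∀ v ∈ P, ∀ w ∈ P, v ≠ w → ⟪v, w⟫ = 0) : P.card ≤ 24 := by
  classical
  have hli : LinearIndependent ℤ (fun v : P => (v : Fin 24 → ℤ)) := by
    rw [linearIndependent_iff']
    intro s g hsum j hj
    let L : (Fin 24 → ℤ) →ₗ[ℤ] ℤ :=
      { toFun := fun w => ⟪(j : Fin 24 → ℤ), w⟫
        map_add' := by intro u v; simp [Matrix.mulVec_add, dotProduct_add]
        map_smul' := by intro c u; exact bil_smul _ c u }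
    have h1 := congrArg L hsum
    rw [map_sum, map_zero, Finset.sum_eq_single j] at h1
    · have h2 : L (g j • (j : Fin 24 → ℤ)) = g j * ⟪(j : Fin 24 → ℤ), (j : Fin 24 → ℤ)⟫ :=
        bil_smul _ _ _
      rw [h2] at h1
      exact (mul_eq_zero.1 h1).resolve_right (hne j j.2)
    · intro i _ hij
      have h3 : L (g i • (i : Fin 24 → ℤ)) = g i * ⟪(j : Fin 24 → ℤ), (i : Fin 24 → ℤ)⟫ :=
        bil_smul _ _ _
      rw [h3, horth j j.2 i i.2 (fun h => hij (Subtype.ext h.symm))]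
      simp
    · intro h
      exact absurd hj h
  have := hli.fintype_card_le_finrank
  simpa using this

/-- Vectors of non-zero norm, pairwise equal, opposite or orthogonal number at most `48`. -/
lemma card_le_48 (hsymm : B.IsSymm) (S : Finset (Fin 24 → ℤ)) (hne : ∀ v ∈ S, ⟪v, v⟫ ≠ 0)
    (hrel : ∀ x ∈ S, ∀ y ∈ S, y = x ∨ y = -x ∨ ⟪x, y⟫ = 0) : S.card ≤ 48 := by
  classical
  let F := S.powerset.filter (fun P => ∀ v ∈ P, ∀ w ∈ P, v ≠ w → ⟪v, w⟫ = 0)
  have hmemF : ∀ P : Finset (Fin 24 → ℤ), P ∈ F ↔ P ⊆ S ∧ ∀ v ∈ P, ∀ w ∈ P, v ≠ w → ⟪v, w⟫ = 0 := by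
    intro P
    simp only [F, Finset.mem_filter, Finset.mem_powerset]
  have hF : F.Nonempty := ⟨∅, by simp [hmemF]⟩
  obtain ⟨P, hP, hmax⟩ := Finset.exists_max_image F Finset.card hF
  obtain ⟨hPS, hPo⟩ := (hmemF P).1 hP
  have hcard : P.card ≤ 24 := card_le_24 P (fun v hv => hne v (hPS hv)) hPo
  have hsub : S ⊆ P ∪ P.image (fun v => -v) := by
    intro y hy
    by_contra hcon
    rw [Finset.mem_union, not_or] at hcon
    obtain ⟨hyP, hyN⟩ := hcon
    have hmem : insert y P ∈ F := by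
      refine (hmemF _).2 ⟨Finset.insert_subset hy hPS, ?_⟩
      have key : ∀ v ∈ P, ⟪v, y⟫ = 0 := by
        intro v hv
        rcases hrel v (hPS hv) y hy with h | h | h
        · subst h
          exact absurd hv hyP
        · exfalso
          apply hyN
          refine Finset.mem_image.2 ⟨v, hv, ?_⟩
          rw [h]
        · exact h
      intro v hv w hw hvw
      rw [Finset.mem_insert] at hv hw
      rcases hv with rfl | hv
      · rcases hw with rfl | hw
        · exact absurd rfl hvw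
        · rw [bil_comm hsymm]
          exact key w hw
      · rcases hw with rfl | hw
        · exact key v hv
        · exact hPo v hv w hw hvw
    have := hmax _ hmem
    rw [Finset.card_insert_of_notMem hyP] at this
    omega
  have h1 := Finset.card_le_card hsub
  have h2 := Finset.card_union_le P (P.image (fun v => -v))
  have h3 : (P.image (fun v => -v)).card ≤ P.card := Finset.card_image_le
  omega

end Aux

/-- Reduction modulo `2`. -/
def red (x : Fin 24 → ℤ) : Fin 24 → ZMod 2 := fun i => (x i : ZMod 2)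

lemma red_eq_iff (x y : Fin 24 → ℤ) : red x = red y ↔ ∀ i, (2 : ℤ) ∣ (x - y) i := by
  constructor
  · intro h i
    have h1 : (x i : ZMod 2) = (y i : ZMod 2) := congrFun h i
    have h2 := (ZMod.intCast_eq_intCast_iff_dvd_sub (x i) (y i) 2).1 h1
    have h3 : (2 : ℤ) ∣ y i - x i := by exact_mod_cast h2
    rw [Pi.sub_apply]
    rw [← dvd_neg, neg_sub]
    exact h3
  · intro h
    funext i
    have h3 := h i
    rw [Pi.sub_apply, ← dvd_neg, neg_sub] at h3
    exact (ZMod.intCast_eq_intCast_iff_dvd_sub (x i) (y i) 2).2 (by exact_mod_cast h3)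

/-- Second step of the characterisation: under the vector counts of the rank-24 lattice, the norm-8 vectors fall into congruence classes of exactly 48 modulo twice the lattice. -/
theorem result (B : Matrix (Fin 24) (Fin 24) ℤ) (hsymm : B.IsSymm) (hpos : ∀ x : Fin 24 → ℤ, x ≠ 0 → 0 < x ⬝ᵥ (B *ᵥ x)) (heven : ∀ x : Fin 24 → ℤ, (2 : ℤ) ∣ x ⬝ᵥ (B *ᵥ x)) (h2 : ∀ x : Fin 24 → ℤ, x ⬝ᵥ (B *ᵥ x) ≠ 2) (h4 : {x : Fin 24 → ℤ | x ⬝ᵥ (B *ᵥ x) = 4}.ncard = 196560) (h6 : {x : Fin 24 → ℤ | x ⬝ᵥ (B *ᵥ x) = 6}.ncard = 16773120) (h8 : {x : Fin 24 → ℤ | x ⬝ᵥ (B *ᵥ x) = 8}.ncard = 398034000) (x : Fin 24 → ℤ) (hx : x ⬝ᵥ (B *ᵥ x) = 8) : {y : Fin 24 → ℤ | y ⬝ᵥ (B *ᵥ y) = 8 ∧ ∀ i, (2 : ℤ) ∣ (x - y) i}.ncard = 48 := by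
  classical
  have hs := @bil_comm B hsymm
  -- finiteness
  have hf4 : {x : Fin 24 → ℤ | x ⬝ᵥ (B *ᵥ x) = 4}.Finite :=
    Set.finite_of_ncard_ne_zero (by rw [h4]; norm_num)
  have hf6 : {x : Fin 24 → ℤ | x ⬝ᵥ (B *ᵥ x) = 6}.Finite :=
    Set.finite_of_ncard_ne_zero (by rw [h6]; norm_num)
  have hf8 : {x : Fin 24 → ℤ | x ⬝ᵥ (B *ᵥ x) = 8}.Finite :=
    Set.finite_of_ncard_ne_zero (by rw [h8]; norm_num)
  set A4 := hf4.toFinset with hA4
  set A6 := hf6.toFinset with hA6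
  set A8 := hf8.toFinset with hA8
  have c4 : A4.card = 196560 := by rw [hA4, ← Set.ncard_eq_toFinset_card _ hf4, h4]
  have c6 : A6.card = 16773120 := by rw [hA6, ← Set.ncard_eq_toFinset_card _ hf6, h6]
  have c8 : A8.card = 398034000 := by rw [hA8, ← Set.ncard_eq_toFinset_card _ hf8, h8]
  have m4 : ∀ z, z ∈ A4 ↔ z ⬝ᵥ (B *ᵥ z) = 4 := fun z => by simp [hA4]
  have m6 : ∀ z, z ∈ A6 ↔ z ⬝ᵥ (B *ᵥ z) = 6 := fun z => by simp [hA6]
  have m8 : ∀ z, z ∈ A8 ↔ z ⬝ᵥ (B *ᵥ z) = 8 := fun z => by simp [hA8]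
  have hsmall := cong_small hsymm hpos heven h2
  -- fibres over small norms have at most two elements
  have fib : ∀ (A : Finset (Fin 24 → ℤ)) (hA : ∀ z ∈ A, z ⬝ᵥ (B *ᵥ z) < 8),
      A.card ≤ 2 * (A.image red).card := by
    intro A hA
    apply Finset.card_le_mul_card_image
    intro c hc
    obtain ⟨z, hz, rfl⟩ := Finset.mem_image.1 hc
    have hsub : A.filter (fun w => red w = red z) ⊆ {z, -z} := by
      intro w hw
      obtain ⟨hw1, hw2⟩ := Finset.mem_filter.1 hw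
      have hlt : z ⬝ᵥ (B *ᵥ z) + w ⬝ᵥ (B *ᵥ w) < 16 := by
        have := hA z hz
        have := hA w hw1
        linarith
      have := hsmall z w ((red_eq_iff z w).1 hw2.symm) hlt
      simpa using this
    exact (Finset.card_le_card hsub).trans (Finset.card_le_two)
  have i4 := fib A4 (fun z hz => by rw [(m4 z).1 hz]; norm_num)
  have i6 := fib A6 (fun z hz => by rw [(m6 z).1 hz]; norm_num)
  rw [c4] at i4
  rw [c6] at i6
  -- disjointness
  have hdisj : ∀ (u v : Fin 24 → ℤ), u ⬝ᵥ (B *ᵥ u) ≠ v ⬝ᵥ (B *ᵥ v) →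
      u ⬝ᵥ (B *ᵥ u) + v ⬝ᵥ (B *ᵥ v) < 16 → red u ≠ red v := by
    intro u v hne hlt he
    rcases hsmall u v ((red_eq_iff u v).1 he) hlt with h | h
    · exact hne (by rw [h])
    · exact hne (by rw [h, bil_neg_neg])
  have hq0 : (0 : Fin 24 → ℤ) ⬝ᵥ (B *ᵥ (0 : Fin 24 → ℤ)) = 0 := by simp
  have d46 : Disjoint (A4.image red) (A6.image red) := by
    rw [Finset.disjoint_left]
    intro c hc hc'
    obtain ⟨u, hu, rfl⟩ := Finset.mem_image.1 hc
    obtain ⟨v, hv, hv'⟩ := Finset.mem_image.1 hc'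
    rw [m4] at hu
    rw [m6] at hv
    exact hdisj u v (by rw [hu, hv]; norm_num) (by rw [hu, hv]; norm_num) hv'.symm
  have d468 : Disjoint (A4.image red ∪ A6.image red) (A8.image red) := by
    rw [Finset.disjoint_left]
    intro c hc hc'
    obtain ⟨v, hv, hv'⟩ := Finset.mem_image.1 hc'
    rw [m8] at hv
    rcases Finset.mem_union.1 hc with hc | hc
    · obtain ⟨u, hu, rfl⟩ := Finset.mem_image.1 hc
      rw [m4] at hu
      exact hdisj u v (by rw [hu, hv]; norm_num) (by rw [hu, hv]; norm_num) hv'.symm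
    · obtain ⟨u, hu, rfl⟩ := Finset.mem_image.1 hc
      rw [m6] at hu
      exact hdisj u v (by rw [hu, hv]; norm_num) (by rw [hu, hv]; norm_num) hv'.symm
  have d0 : Disjoint ({red 0} : Finset (Fin 24 → ZMod 2)) ((A4.image red ∪ A6.image red) ∪ A8.image red) := by
    rw [Finset.disjoint_singleton_left]
    intro hc
    rcases Finset.mem_union.1 hc with hc | hc
    · rcases Finset.mem_union.1 hc with hc | hc
      · obtain ⟨u, hu, hu'⟩ := Finset.mem_image.1 hc
        rw [m4] at hu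
        exact hdisj u 0 (by rw [hu, hq0]; norm_num) (by rw [hu, hq0]; norm_num) hu'
      · obtain ⟨u, hu, hu'⟩ := Finset.mem_image.1 hc
        rw [m6] at hu
        exact hdisj u 0 (by rw [hu, hq0]; norm_num) (by rw [hu, hq0]; norm_num) hu'
    · obtain ⟨u, hu, hu'⟩ := Finset.mem_image.1 hc
      rw [m8] at hu
      exact hdisj u 0 (by rw [hu, hq0]; norm_num) (by rw [hu, hq0]; norm_num) hu'
  have hcardU : (({red 0} : Finset (Fin 24 → ZMod 2)) ∪ ((A4.image red ∪ A6.image red) ∪ A8.image red)).card ≤ 2 ^ 24 := by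
    have := Finset.card_le_univ (({red 0} : Finset (Fin 24 → ZMod 2)) ∪ ((A4.image red ∪ A6.image red) ∪ A8.image red))
    simpa [Fintype.card_fun, ZMod.card] using this
  rw [Finset.card_union_of_disjoint d0, Finset.card_union_of_disjoint d468,
    Finset.card_union_of_disjoint d46, Finset.card_singleton] at hcardU
  have hI8 : (A8.image red).card ≤ 8292375 := by omega
  -- fibres over norm eight have at most 48 elements
  have hfib8 : ∀ c, (A8.filter (fun w => red w = c)).card ≤ 48 := by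
    intro c
    apply card_le_48 hsymm
    · intro v hv
      rw [(m8 v).1 (Finset.mem_filter.1 hv).1]
      norm_num
    · intro u hu v hv
      obtain ⟨hu1, hu2⟩ := Finset.mem_filter.1 hu
      obtain ⟨hv1, hv2⟩ := Finset.mem_filter.1 hv
      exact Cfsg.Agent.S1587.result B hsymm hpos heven h2 u v ((m8 u).1 hu1) ((m8 v).1 hv1)
        ((red_eq_iff u v).1 (hu2.trans hv2.symm))
  -- the sum of the fibre sizes
  have hsum : A8.card = ∑ c ∈ A8.image red, (A8.filter (fun w => red w = c)).card :=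
    Finset.card_eq_sum_card_image red A8
  have hx8 : x ∈ A8 := (m8 x).2 hx
  have hmem : red x ∈ A8.image red := Finset.mem_image_of_mem _ hx8
  have hfx : (A8.filter (fun w => red w = red x)).card = 48 := by
    by_contra hne
    have hlt : (A8.filter (fun w => red w = red x)).card ≤ 47 := by
      have := hfib8 (red x)
      omega
    rw [← Finset.add_sum_erase _ _ hmem] at hsum
    have h3 : ∑ c ∈ (A8.image red).erase (red x), (A8.filter (fun w => red w = c)).card ≤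
        ((A8.image red).erase (red x)).card * 48 :=
      Finset.sum_le_card_nsmul _ _ _ (fun c _ => hfib8 c)
    rw [Finset.card_erase_of_mem hmem] at h3
    rw [c8] at hsum
    omega
  have hset : {y : Fin 24 → ℤ | y ⬝ᵥ (B *ᵥ y) = 8 ∧ ∀ i, (2 : ℤ) ∣ (x - y) i} =
      ((A8.filter (fun w => red w = red x) : Finset (Fin 24 → ℤ)) : Set (Fin 24 → ℤ)) := by
    ext y
    simp only [Set.mem_ofPred_eq, Finset.coe_filter, m8, red_eq_iff y x]
    constructor
    · rintro ⟨h1, h2'⟩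
      refine ⟨h1, fun i => ?_⟩
      have := h2' i
      rw [Pi.sub_apply, ← dvd_neg, neg_sub] at this
      exact this
    · rintro ⟨h1, h2'⟩
      refine ⟨h1, fun i => ?_⟩
      have := h2' i
      rw [Pi.sub_apply, ← dvd_neg, neg_sub] at this
      exact this
  rw [hset, Set.ncard_coe_finset, hfx]

end Cfsg.Agent.S1588
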