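import Cfsg.Statements.S1589
import Cfsg.Agent.Lib.Sporadic.M24IdxMain

set_option autoImplicit false
open scoped Pointwise
open Cfsg

namespace Cfsg.Agent.S1589

open Cfsg.Agent.Lib.Sporadic.M24Idx Cfsg.Agent.Lib.Sporadic.M24Basic Cfsg.Agent.Lib.Sporadic.M24Act
open Cfsg.Agent.Lib.Sporadic.M24OctadStab Cfsg.Agent.Lib.Sporadic.M24Sextet Cfsg.Agent.Lib.Sporadic.M24Tbl

local notation "P" => Equiv.Perm Cfsg.GolayPt

theorem card_H {H : Subgroup ↥Cfsg.M24} {n c : ℕ} (hn : H.index = n) (hc : n * c = 244823040) (hn0 : n ≠ 0) :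
    Nat.card (H.map (Cfsg.M24 : Subgroup P).subtype) = c := by
  rw [Subgroup.card_map_of_injective (Subgroup.subtype_injective _)]
  have h := Subgroup.index_mul_card H
  rw [hn, card_M24, ← hc] at h
  exact Nat.eq_of_mul_eq_mul_left (Nat.pos_of_ne_zero hn0) h

theorem map_le (H : Subgroup ↥Cfsg.M24) : H.map (Cfsg.M24 : Subgroup P).subtype ≤ Cfsg.M24 := by
  rintro _ ⟨x, -, rfl⟩
  exact x.2

theorem mem_map' {H : Subgroup ↥Cfsg.M24} (y : ↥Cfsg.M24) (hy : y ∈ H) : (y : P) ∈ H.map (Cfsg.M24 : Subgroup P).subtype :=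
  ⟨y, hy, rfl⟩

/-- Subgroups of the group of the length-24 code of index 759, 276 and 1771 are exactly the octad, duad and sextet stabilisers, and no subgroup has index 253. -/
theorem result : (∀ H : Subgroup ↥Cfsg.M24, H.index = 759 → ∃ o ∈ Cfsg.octads, H = MulAction.stabilizer Cfsg.M24 o) ∧ (∀ H : Subgroup ↥Cfsg.M24, H.index = 276 → ∃ s : Finset Cfsg.GolayPt, s.card = 2 ∧ H = MulAction.stabilizer Cfsg.M24 s) ∧ (∀ H : Subgroup ↥Cfsg.M24, H.index = 1771 → ∃ S ∈ Cfsg.sextets, H = MulAction.stabilizer Cfsg.M24 S) ∧ ∀ H : Subgroup ↥Cfsg.M24, H.index ≠ 253 := by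
  refine ⟨?_, ?_, ?_, ?_⟩
  · intro H hH
    have hc := card_H (c := 322560) hH (by norm_num) (by norm_num)
    obtain ⟨m, hm, Y, hmem, hcY, hYM, hcase⟩ := normal_form (map_le H) (by rw [hc]; norm_num)
    rw [hc] at hcY
    rcases hcase with h | ⟨ht, hT⟩
    · refine ⟨m⁻¹ • O8s, smul_mem_octads (Cfsg.M24.inv_mem hm) O8s_mem, ?_⟩
      apply eq_stab_of_conj H hm
      · intro y hy
        exact h _ ((hmem _).2 ⟨_, mem_map' y hy, rfl⟩)
      · rw [card_stab_octad (smul_mem_octads (Cfsg.M24.inv_mem hm) O8s_mem)]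
        rw [Subgroup.card_map_of_injective (Subgroup.subtype_injective _)] at hc
        rw [hc]
    · exact (no_759 hYM hcY ht hT).elim
  · intro H hH
    have hc := card_H (c := 887040) hH (by norm_num) (by norm_num)
    obtain ⟨s, hs, h⟩ := duad_276 (map_le H) hc
    refine ⟨s, hs, ?_⟩
    have e := eq_stab_of_conj H (m := 1) (Cfsg.M24.one_mem) (s := s) (by
      intro y hy
      simpa using h _ (mem_map' y hy)) (by
      rw [inv_one, one_smul, card_stab_duad hs]
      rw [Subgroup.card_map_of_injective (Subgroup.subtype_injective _)] at hc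
      rw [hc])
    rwa [inv_one, one_smul] at e
  · intro H hH
    have hc := card_H (c := 138240) hH (by norm_num) (by norm_num)
    obtain ⟨m, hm, Y, hmem, hcY, hYM, hcase⟩ := normal_form (map_le H) (by rw [hc]; norm_num)
    rw [hc] at hcY
    rcases hcase with h | ⟨ht, hT⟩
    · exfalso
      have hd := card_dvd_stab hYM h
      rw [hcY, card_stab_octad O8s_mem] at hd
      revert hd
      norm_num
    · obtain ⟨S₀, hS₀, hS⟩ := sextet_1771 hYM hcY ht hT
      refine ⟨m⁻¹ • S₀, smul_mem_sextets (Cfsg.M24.inv_mem hm) hS₀, ?_⟩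
      apply eq_stab_of_conj_ff H hm
      · intro y hy
        exact hS _ ((hmem _).2 ⟨_, mem_map' y hy, rfl⟩)
      · rw [card_stab_sextet (smul_mem_sextets (Cfsg.M24.inv_mem hm) hS₀)]
        rw [Subgroup.card_map_of_injective (Subgroup.subtype_injective _)] at hc
        rw [hc]
  · intro H hH
    have hc := card_H (c := 967680) hH (by norm_num) (by norm_num)
    obtain ⟨m, hm, Y, hmem, hcY, hYM, hcase⟩ := normal_form (map_le H) (by rw [hc]; norm_num)
    rw [hc] at hcY
    rcases hcase with h | ⟨ht, hT⟩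
    · have hd := card_dvd_stab hYM h
      rw [hcY, card_stab_octad O8s_mem] at hd
      revert hd
      norm_num
    · exact no_253 hYM hcY ht hT

end Cfsg.Agent.S1589
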