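import Cfsg.Statements.S1593
import Mathlib
import Cfsg.Agent.Lib.Compute.TernaryGolay
-- import your own Cfsg.Agent.* helpers here

set_option autoImplicit false
open Cfsg
open Cfsg.Agent.Lib.Compute

namespace Cfsg.Agent.S1593

/-- The only sign changes preserving the length-12 ternary code are the identity and negation of all coordinates. -/
theorem result (c : Cfsg.ArrayPt → (ZMod 3)ˣ) (h : (∀ x ∈ Cfsg.ternaryGolayCode, Cfsg.monomialMap 1 c x ∈ Cfsg.ternaryGolayCode)) : (∀ p, c p = 1) ∨ (∀ p, c p = -1) := by
  have hunit : ∀ u : (ZMod 3)ˣ, u = 1 ∨ u = -1 := by decide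
  rcases hunit (c (0,0)) with h0 | h0
  · left
    intro p
    rw [TernaryGolay.diag_const c h p (0,0), h0]
  · right
    intro p
    rw [TernaryGolay.diag_const c h p (0,0), h0]

end Cfsg.Agent.S1593
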