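import Cfsg.Statements.S1600
import Cfsg.Agent.Lib.Compute.M24Tools

set_option autoImplicit false
open scoped Pointwise
open Cfsg

namespace Cfsg.Agent.S1600

open Cfsg.Agent.Lib.Compute.M24 Cfsg.Agent.Lib.Compute.Golay Cfsg.Agent.Lib.Compute.GolayFast
open Cfsg.Agent.Lib.Sporadic.M24Dodecad (exists_smul_dodecad)
open Cfsg.Agent.Lib.Sporadic.M24Act (card_sub_eq_of_conj mem_stabilizer_M24)

/-- The stabilizer of the dodecad and three of its points is transitive on the complement. -/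
def m9CompLevels : List Level := [
  ⟨4, [[0,1,2,3,4,5,6,7,8,9,10,11,12,13,14,15,16,17,18,19,20,21,22,23],
    [0,1,6,9,5,4,2,7,15,3,10,11,14,20,12,8,18,17,16,21,13,19,22,23],
    [0,1,7,12,10,13,9,3,6,15,4,19,2,17,14,8,22,20,21,16,5,18,11,23],
    [0,1,7,3,11,16,12,14,15,2,21,4,8,22,9,6,17,18,5,20,19,13,10,23],
    [0,1,2,15,13,20,8,12,7,3,5,19,6,4,9,14,22,10,21,18,17,11,16,23],
    [0,1,2,12,16,18,15,9,3,6,21,5,14,22,8,7,4,11,17,10,19,20,13,23],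
    [0,1,7,8,17,5,6,2,3,12,13,16,9,10,15,14,11,4,18,21,20,19,22,23],
    [0,1,6,14,18,16,8,3,9,2,19,4,12,22,15,7,5,11,17,10,21,13,20,23],
    [0,1,15,3,19,22,7,8,9,6,16,20,2,18,12,14,13,21,10,4,11,5,17,23],
    [0,1,6,3,20,10,14,15,2,12,17,19,7,5,8,9,22,13,21,11,4,16,18,23],
    [0,1,14,8,21,22,2,3,12,6,11,20,7,18,9,15,10,19,13,17,16,5,4,23],
    [0,1,2,6,22,21,14,3,15,8,11,20,9,16,7,12,13,19,10,5,18,17,4,23]], []⟩
]

theorem m9Comp_ok : transCheckOn memD (fun q => !dm.testBit q) [1, 0, 23] m9CompLevels = true := by decide +kernel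

/-- The tail of the chain of `M11`. -/
theorem m9Chain_ok : chainCheckTo memD [dm] [3, 2, 1, 0, 23] [1, 0, 23] (m11Levels.drop 2) = true := by decide +kernel

theorem card_m9 : Nat.card (fixIn KD [1, 0, 23]) = 72 := by
  rw [chain_card_to ctxD _ fixKD_trivial _ _ m9Chain_ok]
  decide +kernel

theorem m9_trans_base (y : GolayPt) (hy : y ∉ dd) : ∃ g ∈ fixIn KD [1, 0, 23], g (idxPt 4) = y := by
  have hall := allTransOn_of_check ctxD (fun q => !dm.testBit q) [1, 0, 23] m9CompLevels m9Comp_ok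
  have hb : m9CompLevels.map Level.b = [4] := by decide +kernel
  rw [hb] at hall
  simp only [AllTransOn, and_true] at hall
  have hne : ¬ dm.testBit (ptIdx y) = true := fun h => hy ((mem_maskSupport_iff _ _).2 h)
  have h1 : ptIdx y ∉ ([1, 0, 23] : List ℕ) := by
    intro h
    apply hy
    have : ∀ q ∈ ([1, 0, 23] : List ℕ), dm.testBit q = true := by decide +kernel
    exact (mem_maskSupport_iff _ _).2 (this _ h)
  obtain ⟨g, hg, h2⟩ := hall.2 (ptIdx y) (ptIdx_lt y) (by simpa using hne) h1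
  exact ⟨g, hg, ptIdx_injective h2⟩

/-- A dodecad and three points on it can be moved to the base ones. -/
theorem exists_to_base3 {d : Finset GolayPt} (hd : d ∈ dodecads) {p q r : GolayPt} (hp : p ∈ d) (hq : q ∈ d)
    (hr : r ∈ d) (hpq : p ≠ q) (hpr : p ≠ r) (hqr : q ≠ r) :
    ∃ u ∈ Cfsg.M24, u • dd = d ∧ u (idxPt 23) = p ∧ u (idxPt 0) = q ∧ u (idxPt 1) = r := by
  obtain ⟨g, hg, hgd⟩ := exists_smul_dodecad dd_mem hd
  have hin : ∀ x ∈ dd, g x ∈ d := by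
    intro x hx
    rw [← hgd]
    exact Finset.smul_mem_smul_finset hx
  have hb : ∀ i ∈ ([23, 0, 1] : List ℕ), idxPt i ∈ dd := by decide +kernel
  have h1 : g (idxPt 23) ≠ g (idxPt 0) := fun h => absurd (g.injective h) (by decide)
  have h2 : g (idxPt 23) ≠ g (idxPt 1) := fun h => absurd (g.injective h) (by decide)
  have h3 : g (idxPt 0) ≠ g (idxPt 1) := fun h => absurd (g.injective h) (by decide)
  obtain ⟨h, h4, h5, h6⟩ := exists_stab_map3 hd (hin _ (hb 23 (by simp))) (hin _ (hb 0 (by simp)))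
    (hin _ (hb 1 (by simp))) hp hq hr h1 h2 h3 hpq hpr hqr
  refine ⟨((h : Cfsg.M24) : P) * g, Cfsg.M24.mul_mem (h : Cfsg.M24).2 hg, ?_, h4, h5, h6⟩
  rw [mul_smul, hgd]
  exact (mem_stab_iff' _ _).1 h.2

/-- The pointwise stabiliser of three points of a dodecad inside the dodecad stabiliser (order 72) is transitive on the complementary dodecad. -/
theorem result (d : Finset Cfsg.GolayPt) (hd : d ∈ Cfsg.dodecads) (p q r : Cfsg.GolayPt) (hp : p ∈ d) (hq : q ∈ d) (hr : r ∈ d) (hpq : p ≠ q) (hpr : p ≠ r) (hqr : q ≠ r) : Nat.card ↥(MulAction.stabilizer Cfsg.M24 d ⊓ MulAction.stabilizer Cfsg.M24 p ⊓ MulAction.stabilizer Cfsg.M24 q ⊓ MulAction.stabilizer Cfsg.M24 r) = 72 ∧ ∀ x ∉ d, ∀ y ∉ d, ∃ g ∈ (MulAction.stabilizer Cfsg.M24 d ⊓ MulAction.stabilizer Cfsg.M24 p ⊓ MulAction.stabilizer Cfsg.M24 q ⊓ MulAction.stabilizer Cfsg.M24 r), ((g : ↥Cfsg.M24) : Equiv.Perm Cfsg.GolayPt) x = y := by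
  obtain ⟨u, hu, hud, hup, huq, hur⟩ := exists_to_base3 hd hp hq hr hpq hpr hqr
  have hmem : ∀ x : Cfsg.M24, x ∈ (MulAction.stabilizer Cfsg.M24 d ⊓ MulAction.stabilizer Cfsg.M24 p ⊓
      MulAction.stabilizer Cfsg.M24 q ⊓ MulAction.stabilizer Cfsg.M24 r) ↔ (u⁻¹ * (x : P) * u) ∈ fixIn KD [1, 0, 23] := by
    intro x
    rw [Subgroup.mem_inf, Subgroup.mem_inf, Subgroup.mem_inf, mem_stab_iff', mem_stabilizer_M24, mem_stabilizer_M24,
      mem_stabilizer_M24, mem_fixIn, mem_KD]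
    simp only [List.mem_cons, List.not_mem_nil, or_false, forall_eq_or_imp, forall_eq, Equiv.Perm.mul_apply]
    have hmemM : u⁻¹ * (x : P) * u ∈ Cfsg.M24 := Cfsg.M24.mul_mem (Cfsg.M24.mul_mem (Cfsg.M24.inv_mem hu) x.2) hu
    rw [hup, huq, hur, Equiv.Perm.inv_eq_iff_eq, Equiv.Perm.inv_eq_iff_eq, Equiv.Perm.inv_eq_iff_eq, hup, huq, hur,
      mul_smul, mul_smul, hud, inv_smul_eq_iff, hud]
    constructor
    · rintro ⟨⟨⟨h1, h2⟩, h3⟩, h4⟩
      exact ⟨⟨hmemM, h1⟩, h4, h3, h2⟩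
    · rintro ⟨⟨-, h1⟩, h4, h3, h2⟩
      exact ⟨⟨⟨h1, h2⟩, h3⟩, h4⟩
  constructor
  · rw [card_sub_eq_of_conj (g := u⁻¹) (Cfsg.M24.inv_mem hu) (B := fixIn KD [1, 0, 23])
      (fun g hg => ctxD.le hg.1) (by simpa using hmem), card_m9]
  · intro x hx y hy
    have hout : ∀ z : GolayPt, z ∉ d → (u⁻¹ : P) z ∉ dd := by
      intro z hz h
      apply hz
      rw [← hud, Finset.mem_smul_finset]
      exact ⟨_, h, by simp⟩
    obtain ⟨g1, hg1, h1⟩ := m9_trans_base _ (hout x hx)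
    obtain ⟨g2, hg2, h2⟩ := m9_trans_base _ (hout y hy)
    have hg : g2 * g1⁻¹ ∈ fixIn KD [1, 0, 23] := (fixIn KD [1, 0, 23]).mul_mem hg2 ((fixIn KD [1, 0, 23]).inv_mem hg1)
    have hM := (mem_KD.1 hg.1).1
    have hmem2 : u * (g2 * g1⁻¹) * u⁻¹ ∈ Cfsg.M24 := Cfsg.M24.mul_mem (Cfsg.M24.mul_mem hu hM) (Cfsg.M24.inv_mem hu)
    refine ⟨⟨u * (g2 * g1⁻¹) * u⁻¹, hmem2⟩, (hmem _).2 ?_, ?_⟩
    · have : u⁻¹ * (u * (g2 * g1⁻¹) * u⁻¹) * u = g2 * g1⁻¹ := by group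
      show u⁻¹ * (u * (g2 * g1⁻¹) * u⁻¹) * u ∈ _
      rw [this]
      exact hg
    · show (u * (g2 * g1⁻¹) * u⁻¹) x = y
      have h3 : (g2 * g1⁻¹) ((u⁻¹ : P) x) = (u⁻¹ : P) y := by
        rw [Equiv.Perm.mul_apply, ← h1, ← h2]
        simp
      rw [Equiv.Perm.mul_apply, Equiv.Perm.mul_apply, h3]
      simp


end Cfsg.Agent.S1600
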