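import Cfsg.Statements.S1602
import Cfsg.Agent.Lib.Compute.M24Exhaust

set_option autoImplicit false
open scoped Pointwise
open Cfsg

namespace Cfsg.Agent.S1602

open Cfsg.Agent.Lib.Compute.M24 Cfsg.Agent.Lib.Compute.Golay Cfsg.Agent.Lib.Compute.GolayFast
open Cfsg.Agent.Lib.Sporadic.M24Act (mem_stabilizer_M24)

/-- All elements of the stabilizer of `dd` and the points 23, 4, 5. -/
def L60 : List (List ℕ) := [[0,1,2,3,4,5,6,7,8,9,10,11,12,13,14,15,16,17,18,19,20,21,22,23],[0,1,3,14,4,5,12,15,7,6,13,18,9,20,2,8,11,17,16,21,10,22,19,23],[0,1,14,2,4,5,9,8,15,12,20,16,6,10,3,7,18,17,11,22,13,19,21,23],[0,7,2,12,4,5,6,1,15,14,10,11,3,18,9,8,20,22,13,21,16,19,17,23],[0,7,9,2,4,5,14,15,8,3,16,20,6,10,12,1,13,22,11,17,18,21,19,23],[0,7,12,9,4,5,3,8,1,6,18,13,14,16,2,15,11,22,20,19,10,17,21,23],[0,8,6,12,4,5,2,15,1,9,11,10,3,18,14,7,16,21,13,22,20,17,19,23],[0,8,12,14,4,5,3,7,15,2,18,13,9,20,6,1,10,21,16,17,11,1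9,22,23],[0,8,14,6,4,5,9,1,7,3,20,16,2,11,12,15,13,21,10,19,18,22,17,23],[0,15,3,9,4,5,12,1,8,2,13,18,14,16,6,7,10,19,20,22,11,21,17,23],[0,15,6,3,4,5,2,8,7,14,11,10,12,13,9,1,20,19,18,17,16,22,21,23],[0,15,9,6,4,5,14,7,1,12,16,20,2,11,3,8,18,19,10,21,13,17,22,23],[1,0,2,14,4,5,12,8,7,9,20,21,6,13,3,15,22,17,19,18,10,11,16,23],[1,0,3,2,4,5,9,7,15,6,10,22,12,20,14,8,19,17,21,16,13,18,11,23],[1,0,14,3,4,5,6,15,8,12,13,19,9,10,2,7,21,17,22,11,20,16,18,23],[1,7,3,12,4,5,9,0,8,14,10,22,2,21,6,15,13,11,20,18,19,16,17,23],[1,7,6,3,4,5,14,8,15,2,19,13,9,10,12,0,20,11,22,17,21,18,16,23],[1,7,12,6,4,5,2,15,0,9,21,20,14,19,3,8,22,11,13,16,10,17,18,23],[1,8,2,6,4,5,12,0,15,3,20,21,14,19,9,7,10,16,13,11,22,18,17,23],[1,8,6,9,4,5,14,7,0,12,19,13,3,22,2,15,21,16,10,18,20,17,11,23],[1,8,9,2,4,5,3,15,7,14,22,10,12,20,6,0,13,16,21,17,19,11,18,23],[1,15,9,12,4,5,3,8,0,6,22,10,2,21,14,7,19,18,20,11,13,17,16,23],[1,15,12,14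,4,5,2,7,8,3,21,20,6,13,9,0,10,18,19,17,22,16,11,23],[1,15,14,9,4,5,6,0,7,2,13,19,3,22,12,8,20,18,10,16,21,11,17,23],[7,0,2,9,4,5,3,15,1,14,16,19,6,18,12,8,17,22,21,13,10,11,20,23],[7,0,9,12,4,5,6,8,15,3,18,21,14,10,2,1,19,22,17,11,16,20,13,23],[7,0,12,2,4,5,14,1,8,6,10,17,3,16,9,15,21,22,19,20,18,13,11,23],[7,1,3,6,4,5,2,8,0,14,19,16,9,21,12,15,17,11,18,20,10,22,13,23],[7,1,6,12,4,5,9,15,8,2,21,18,14,10,3,0,16,11,17,22,19,13,20,23],[7,1,12,3,4,5,14,0,15,9,10,17,2,19,6,8,18,11,16,13,21,20,22,23],[7,8,3,9,4,5,2,1,15,12,19,16,6,18,14,0,10,13,21,22,17,20,11,23],[7,8,9,14,4,5,6,0,1,2,18,21,12,17,3,15,16,13,10,20,19,11,22,23],[7,8,14,3,4,5,12,15,0,6,17,10,2,19,9,1,21,13,16,11,18,22,20,23],[7,15,2,6,4,5,3,0,8,12,16,19,9,21,14,1,10,20,18,11,17,13,22,23],[7,15,6,14,4,5,9,1,0,3,21,18,12,17,2,8,19,20,10,13,16,22,11,23],[7,15,14,2,4,5,12,8,1,9,17,10,3,16,6,0,18,20,19,22,21,11,13,23],[8,0,6,14,4,5,3,1,15,9,20,17,2,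18,12,7,19,21,22,13,11,10,16,23],[8,0,12,6,4,5,9,15,7,2,11,19,3,20,14,1,22,21,17,16,18,13,10,23],[8,0,14,12,4,5,2,7,1,3,18,22,9,11,6,15,17,21,19,10,20,16,13,23],[8,1,2,9,4,5,14,15,0,3,22,18,12,19,6,7,17,16,11,13,20,21,10,23],[8,1,6,2,4,5,3,0,7,12,20,17,14,22,9,15,11,16,18,10,19,13,21,23],[8,1,9,6,4,5,12,7,15,14,19,11,3,20,2,0,18,16,17,21,22,10,13,23],[8,7,3,14,4,5,6,15,1,12,17,20,2,18,9,0,11,13,22,21,19,16,10,23],[8,7,9,3,4,5,12,1,0,2,19,11,6,17,14,15,22,13,20,10,18,21,16,23],[8,7,14,9,4,5,2,0,15,6,18,22,12,19,3,1,20,13,11,16,17,10,21,23],[8,15,2,12,4,5,14,1,7,6,22,18,9,11,3,0,20,10,19,21,17,13,16,23],[8,15,3,2,4,5,6,7,0,9,17,20,14,22,12,1,19,10,18,16,11,21,13,23],[8,15,12,3,4,5,9,0,1,14,11,19,6,17,2,7,18,10,20,13,22,16,21,23],[15,0,3,6,4,5,14,8,1,2,11,21,12,16,9,7,17,19,22,20,13,18,10,23],[15,0,6,9,4,5,12,7,8,14,16,22,2,13,3,1,21,19,17,18,11,10,20,23],[15,0,9,3,4,5,2,1,7,12,13,17,14,11,6,8,22,19,21,10,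16,20,18,23],[15,1,9,14,4,5,2,0,8,6,13,17,3,21,12,7,16,18,11,20,22,10,19,23],[15,1,12,9,4,5,6,8,7,3,22,16,2,13,14,0,11,18,17,19,21,20,10,23],[15,1,14,12,4,5,3,7,0,2,21,11,6,22,9,8,17,18,16,10,13,19,20,23],[15,7,2,14,4,5,9,8,0,12,17,13,3,21,6,1,22,20,11,18,16,19,10,23],[15,7,6,2,4,5,12,0,1,3,16,22,9,17,14,8,11,20,13,10,21,18,19,23],[15,7,14,6,4,5,3,1,8,9,21,11,12,16,2,0,13,20,22,19,17,10,18,23],[15,8,2,3,4,5,9,7,1,6,17,13,14,11,12,0,16,10,21,19,22,18,20,23],[15,8,3,12,4,5,14,0,7,9,11,21,6,22,2,1,13,10,16,18,17,20,19,23],[15,8,12,2,4,5,6,1,0,14,22,16,9,17,3,7,21,10,13,20,11,19,18,23]]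

/-- An element exchanging 4 and 5. -/
def g0L : List ℕ := [7,1,14,9,5,4,12,0,8,3,10,17,6,21,2,15,16,11,18,20,19,13,22,23]

/-- The second level of the complementary chain, with the block of the dodecad. -/
def lvC5 : Level := ⟨5, ((m11CompLevels.drop 1).headD ⟨0, [], []⟩).T, [dm]⟩

theorem lvC5_ok : levelCheck memD [dm] [4, 23] lvC5 = true := by decide +kernel

theorem card60 : Nat.card (fixIn KD [5, 4, 23]) = 60 := by
  have h := level_card ctxD lvC5_ok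
  rw [card_m11_comp] at h
  have h2 : lvC5.T.length = 11 := by decide +kernel
  rw [h2] at h
  have h3 : lvC5.b = 5 := rfl
  rw [h3] at h
  omega

theorem L60_ok : L60.all (fun l => memD l && fixCheck [5, 4, 23] l) = true := by decide +kernel

theorem L60_nodup : L60.Nodup := by decide +kernel

theorem L60_len : L60.length = 60 := by decide +kernel

theorem mem_L60 : ∀ g ∈ fixIn KD [5, 4, 23], toL (g : GolayPt → GolayPt) ∈ L60 :=
  forall_of_list_card ctxD _ L60 L60_ok L60_nodup (by rw [card60, L60_len])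

/-- The five point orbit on the dodecad. -/
def ON : List ℕ := [0, 1, 7, 8, 15]

/-- The pair of points. -/
def pairS : Finset GolayPt := {idxPt 4, idxPt 5}

/-- The stabilizer of the pair in the base copy of `M11`. -/
def K1 : Subgroup P := fixIn KD [23] ⊓ MulAction.stabilizer P pairS

theorem mem_K1 {g : P} : g ∈ K1 ↔ g ∈ fixIn KD [23] ∧ g • pairS = pairS := by
  simp [K1, Subgroup.mem_inf, MulAction.mem_stabilizer_iff]

theorem exists_g0 : ∃ g ∈ fixIn KD [23], toL g = g0L := exists_of_check ctxD [23] (by decide +kernel) (by decide +kernel)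

theorem g0L_4 : g0L.getD 4 0 = 5 := by decide +kernel
theorem g0L_5 : g0L.getD 5 0 = 4 := by decide +kernel

theorem hinv_O_step (l : List ℕ) (hl : l ∈ L60 ∨ l = g0L) : ∀ i ∈ ON, l.getD i 0 ∈ ON := by
  have h1 : L60.all (fun l => ON.all (fun i => ON.contains (l.getD i 0))) = true := by decide +kernel
  have h2 : ON.all (fun i => ON.contains (g0L.getD i 0)) = true := by decide +kernel
  rcases hl with hl | rfl
  · intro i hi
    have := List.all_eq_true.1 (List.all_eq_true.1 h1 l hl) i hi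
    simpa using this
  · intro i hi
    have := List.all_eq_true.1 h2 i hi
    simpa using this

theorem ON_lt : ∀ i ∈ ON, i < 24 := by decide +kernel

/-- The orbit as a set of points. -/
def OS : Finset GolayPt := ON.toFinset.image idxPt

theorem mem_OS {x : GolayPt} : x ∈ OS ↔ ptIdx x ∈ ON := by
  simp only [OS, Finset.mem_image, List.mem_toFinset]
  constructor
  · rintro ⟨i, hi, rfl⟩
    rwa [ptIdx_idxPt (ON_lt i hi)]
  · intro h
    exact ⟨_, h, idxPt_ptIdx x⟩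

theorem mem_pair {x : GolayPt} : x ∈ pairS ↔ x = idxPt 4 ∨ x = idxPt 5 := by
  simp [pairS]

theorem g4_ne_5 : idxPt 4 ≠ idxPt 5 := by decide

/-- Elements of the pair stabilizer preserve the orbit. -/
theorem K1_maps_O {g : P} (hg : g ∈ K1) {x : GolayPt} (hx : x ∈ OS) : g x ∈ OS := by
  obtain ⟨hg1, hg2⟩ := mem_K1.1 hg
  rw [mem_OS] at hx ⊢
  have h4 : g (idxPt 4) ∈ pairS := by
    rw [← hg2]
    exact Finset.smul_mem_smul_finset (by simp [pairS])
  have h5 : g (idxPt 5) ∈ pairS := by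
    rw [← hg2]
    exact Finset.smul_mem_smul_finset (by simp [pairS])
  have hne : g (idxPt 4) ≠ g (idxPt 5) := fun h => g4_ne_5 (g.injective h)
  have hmain : ∀ h : P, toL h ∈ L60 ∨ toL h = g0L → ptIdx (h x) ∈ ON := by
    intro h hh
    have := hinv_O_step _ hh _ hx
    rwa [getD_toL h (ptIdx_lt x), idxPt_ptIdx] at this
  rcases mem_pair.1 h4 with h41 | h41
  · have h51 : g (idxPt 5) = idxPt 5 := by
      rcases mem_pair.1 h5 with h52 | h52
      · exact absurd (h41.trans h52.symm) hne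
      · exact h52
    have hfix : g ∈ fixIn KD [5, 4, 23] := by
      refine ⟨hg1.1, ?_⟩
      intro i hi
      simp only [List.mem_cons, List.not_mem_nil, or_false] at hi
      rcases hi with rfl | rfl | rfl
      · exact h51
      · exact h41
      · exact hg1.2 23 (by simp)
    exact hmain g (Or.inl (mem_L60 g hfix))
  · have h51 : g (idxPt 5) = idxPt 4 := by
      rcases mem_pair.1 h5 with h52 | h52
      · exact h52
      · exact absurd (h41.trans h52.symm) hne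
    obtain ⟨g0, hg0, hg0L⟩ := exists_g0
    have hg04 : g0 (idxPt 4) = idxPt 5 := by
      have := getD_toL g0 (i := 4) (by norm_num)
      rw [hg0L, g0L_4] at this
      rw [← idxPt_ptIdx (g0 (idxPt 4)), ← this]
    have hg05 : g0 (idxPt 5) = idxPt 4 := by
      have := getD_toL g0 (i := 5) (by norm_num)
      rw [hg0L, g0L_5] at this
      rw [← idxPt_ptIdx (g0 (idxPt 5)), ← this]
    have hfix : g0⁻¹ * g ∈ fixIn KD [5, 4, 23] := by
      refine ⟨KD.mul_mem (KD.inv_mem hg0.1) hg1.1, ?_⟩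
      intro i hi
      simp only [List.mem_cons, List.not_mem_nil, or_false] at hi
      rcases hi with rfl | rfl | rfl
      · rw [Equiv.Perm.mul_apply, h51, Equiv.Perm.inv_eq_iff_eq, hg05]
      · rw [Equiv.Perm.mul_apply, h41, Equiv.Perm.inv_eq_iff_eq, hg04]
      · rw [Equiv.Perm.mul_apply, hg1.2 23 (by simp), Equiv.Perm.inv_eq_iff_eq, hg0.2 23 (by simp)]
    have h1 := mem_L60 _ hfix
    have hx2 : ptIdx ((g0⁻¹ * g) x) ∈ ON := hmain _ (Or.inl h1)
    have h2 : (g0⁻¹ * g) x ∈ OS := mem_OS.2 hx2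
    have h3 := hmain g0 (Or.inr hg0L)
    have hg' : g x = g0 ((g0⁻¹ * g) x) := by simp
    rw [hg']
    have := hinv_O_step _ (Or.inr hg0L) _ hx2
    rwa [getD_toL g0 (ptIdx_lt _), idxPt_ptIdx] at this

theorem K1_iff_O (g : K1) (x : GolayPt) : (g : P) x ∈ OS ↔ x ∈ OS := by
  constructor
  · intro h
    have := K1_maps_O (K1.inv_mem g.2) h
    simpa using this
  · exact K1_maps_O g.2

/-- The action on the orbit. -/
def actO : K1 →* Equiv.Perm {x // x ∈ OS} :=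
  MonoidHom.mk' (fun g => (g : P).subtypePerm (K1_iff_O g)) (fun a b => by
    ext x
    rfl)

theorem actO_inj : Function.Injective actO := by
  rw [← MonoidHom.ker_eq_bot_iff, eq_bot_iff]
  intro g hg
  rw [MonoidHom.mem_ker] at hg
  have hfix : ∀ x (hx : x ∈ OS), (g : P) x = x := by
    intro x hx
    have := congrArg (fun s : Equiv.Perm {x // x ∈ OS} => (s ⟨x, hx⟩ : GolayPt)) hg
    exact this
  have hmem := mem_K1.1 g.2
  obtain ⟨h1, h2⟩ := mem_KD.1 hmem.1.1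
  let e5 : Fin 5 ↪ GolayPt := ⟨![idxPt 23, idxPt 0, idxPt 1, idxPt 7, idxPt 8], by decide⟩
  have he : ∀ i, e5 i ∈ dd := by decide +kernel
  have hone := eq_one_of_fix_five dd_mem e5 he h1 h2 (by
    intro i
    have h23 := hmem.1.2 23 (by simp)
    have hO : ∀ i ∈ ON, idxPt i ∈ OS := by
      intro i hi
      exact Finset.mem_image.2 ⟨i, List.mem_toFinset.2 hi, rfl⟩
    fin_cases i
    · exact h23
    · exact hfix _ (hO 0 (by decide))
    · exact hfix _ (hO 1 (by decide))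
    · exact hfix _ (hO 7 (by decide))
    · exact hfix _ (hO 8 (by decide)))
  rw [Subgroup.mem_bot]
  exact Subtype.ext hone

theorem card_OS : Fintype.card {x // x ∈ OS} = 5 := by
  rw [Fintype.card_coe]
  decide +kernel

theorem card_K1_ge : 120 ≤ Nat.card K1 := by
  have hle : fixIn KD [5, 4, 23] ≤ K1 := by
    intro g hg
    refine mem_K1.2 ⟨⟨hg.1, ?_⟩, ?_⟩
    · intro i hi
      exact hg.2 i (by simp at hi ⊢; exact Or.inr (Or.inr hi))
    · have h4 := hg.2 4 (by simp)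
      have h5 := hg.2 5 (by simp)
      simp [pairS, Finset.smul_finset_insert, h4, h5, Finset.smul_finset_singleton]
  obtain ⟨g0, hg0, hg0L⟩ := exists_g0
  have hg04 : g0 (idxPt 4) = idxPt 5 := by
    have := getD_toL g0 (i := 4) (by norm_num)
    rw [hg0L, g0L_4] at this
    rw [← idxPt_ptIdx (g0 (idxPt 4)), ← this]
  have hg05 : g0 (idxPt 5) = idxPt 4 := by
    have := getD_toL g0 (i := 5) (by norm_num)
    rw [hg0L, g0L_5] at this
    rw [← idxPt_ptIdx (g0 (idxPt 5)), ← this]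
  have hg0K : g0 ∈ K1 := by
    refine mem_K1.2 ⟨hg0, ?_⟩
    simp only [pairS, Finset.smul_finset_insert, Finset.smul_finset_singleton, Equiv.Perm.smul_def, hg04, hg05]
    exact Finset.pair_comm _ _
  have hnot : g0 ∉ fixIn KD [5, 4, 23] := by
    intro h
    have h4 := h.2 4 (by simp)
    rw [hg04] at h4
    exact g4_ne_5 h4.symm
  have hdvd : Nat.card (fixIn KD [5, 4, 23]) ∣ Nat.card K1 := Subgroup.card_dvd_of_le hle
  rw [card60] at hdvd
  obtain ⟨k, hk⟩ := hdvd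
  have hpos : 0 < Nat.card K1 := Nat.card_pos
  have hk1 : k ≠ 1 := by
    rintro rfl
    have : (fixIn KD [5, 4, 23] : Set P) = K1 := by
      apply Set.eq_of_subset_of_ncard_le hle
      · rw [← Nat.card_coe_set_eq, ← Nat.card_coe_set_eq]
        show Nat.card K1 ≤ Nat.card (fixIn KD [5, 4, 23])
        rw [card60, hk]
    exact hnot (by rw [← SetLike.mem_coe, this]; exact hg0K)
  have hk0 : k ≠ 0 := by
    rintro rfl
    omega
  have : 2 ≤ k := by omega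
  omega

theorem base_equiv : Nonempty (K1 ≃* Equiv.Perm (Fin 5)) := by
  classical
  have hcP : Nat.card (Equiv.Perm {x // x ∈ OS}) = 120 := by
    rw [Nat.card_eq_fintype_card, Fintype.card_perm, card_OS]
    rfl
  have hle : Nat.card K1 ≤ 120 := by
    rw [← hcP]
    exact Nat.card_le_card_of_injective _ actO_inj
  have hc : Nat.card K1 = Nat.card (Equiv.Perm {x // x ∈ OS}) := by
    rw [hcP]
    exact le_antisymm hle card_K1_ge
  have hbij := (Nat.bijective_iff_injective_and_card actO).2 ⟨actO_inj, hc⟩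
  have e1 : K1 ≃* Equiv.Perm {x // x ∈ OS} := MulEquiv.ofBijective actO hbij
  have e2 : {x // x ∈ OS} ≃ Fin 5 := Fintype.equivFinOfCardEq card_OS
  exact ⟨e1.trans e2.permCongrHom⟩


/-- In the 12-point action of the smallest Mathieu group the setwise stabiliser of a pair is isomorphic to the symmetric group of degree 5. -/
theorem result (d : Finset Cfsg.GolayPt) (hd : d ∈ Cfsg.dodecads) (p q q' : Cfsg.GolayPt) (hp : p ∈ d) (hq : q ∉ d) (hq' : q' ∉ d) (hqq' : q ≠ q') : Nonempty (↥(MulAction.stabilizer Cfsg.M24 d ⊓ MulAction.stabilizer Cfsg.M24 p ⊓ MulAction.stabilizer Cfsg.M24 ({q, q'} : Finset Cfsg.GolayPt)) ≃* Equiv.Perm (Fin 5)) := by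
  obtain ⟨u, hu, hud, hup, huq, huq'⟩ := exists_to_base1_2 hd hp hq hq' hqq'
  have hpair : u • pairS = ({q, q'} : Finset GolayPt) := by
    simp only [pairS, Finset.smul_finset_insert, Finset.smul_finset_singleton, Equiv.Perm.smul_def, huq, huq']
  have hmem : ∀ x : Cfsg.M24, x ∈ (MulAction.stabilizer Cfsg.M24 d ⊓ MulAction.stabilizer Cfsg.M24 p ⊓
      MulAction.stabilizer Cfsg.M24 ({q, q'} : Finset GolayPt)) ↔ (u⁻¹ * (x : P) * u⁻¹⁻¹) ∈ K1 := by
    intro x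
    rw [Subgroup.mem_inf, Subgroup.mem_inf, mem_stab_iff', mem_stabilizer_M24, mem_stab_iff', mem_K1, mem_fixIn, mem_KD,
      inv_inv]
    simp only [List.mem_cons, List.not_mem_nil, or_false, forall_eq, Equiv.Perm.mul_apply]
    have hmemM : u⁻¹ * (x : P) * u ∈ Cfsg.M24 := Cfsg.M24.mul_mem (Cfsg.M24.mul_mem (Cfsg.M24.inv_mem hu) x.2) hu
    rw [hup, Equiv.Perm.inv_eq_iff_eq, hup, mul_smul, mul_smul, hud, inv_smul_eq_iff, hud, mul_smul, mul_smul, hpair,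
      inv_smul_eq_iff, hpair]
    constructor
    · rintro ⟨⟨h1, h2⟩, h3⟩
      exact ⟨⟨⟨hmemM, h1⟩, h2⟩, h3⟩
    · rintro ⟨⟨⟨-, h1⟩, h2⟩, h3⟩
      exact ⟨⟨h1, h2⟩, h3⟩
  obtain ⟨e⟩ := base_equiv
  exact ⟨(conjEquiv (B := K1) (Cfsg.M24.inv_mem hu) (fun g hg => ctxD.le (mem_K1.1 hg).1.1) hmem).trans e⟩

end Cfsg.Agent.S1602
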