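import Cfsg.Statements.S1603
import Cfsg.Agent.Lib.Compute.M24Exhaust

set_option autoImplicit false
open scoped Pointwise
open Cfsg

namespace Cfsg.Agent.S1603

open Cfsg.Agent.Lib.Compute.M24 Cfsg.Agent.Lib.Compute.Golay Cfsg.Agent.Lib.Compute.GolayFast
open Cfsg.Agent.Lib.Compute.GFModel Cfsg.Agent.Lib.Compute.SLHom
open Cfsg.Agent.Lib.Sporadic.M24Act (mem_stabilizer_M24)
open Matrix
open scoped MatrixGroups

/-- The chosen involution. -/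
def X0 : List ℕ := [0,1,2,14,4,17,7,6,12,15,20,18,8,13,3,9,16,5,11,21,10,19,22,23]

/-- The centraliser of the chosen involution. -/
def C48 : List (List ℕ) := [[0,1,2,3,4,5,6,7,8,9,10,11,12,13,14,15,16,17,18,19,20,21,22,23],[0,1,2,6,22,21,14,3,15,8,11,20,9,16,7,12,13,19,10,5,18,17,4,23],[0,1,2,7,22,19,3,14,9,12,18,10,15,16,6,8,13,21,20,17,11,5,4,23],[0,1,2,8,16,11,9,15,14,7,19,17,3,22,12,6,4,18,5,20,21,10,13,23],[0,1,2,9,13,10,12,8,6,14,17,21,7,4,15,3,22,20,19,11,5,18,16,23],[0,1,2,12,16,18,15,9,3,6,21,5,14,22,8,7,4,11,17,10,19,20,13,23],[0,1,2,14,4,17,7,6,12,15,20,18,8,13,3,9,16,5,11,21,10,19,22,23],[0,1,2,15,13,20,8,12,7,3,5,19,6,4,9,14,22,10,21,18,17,11,16,23],[0,2,1,3,22,17,7,6,15,12,11,10,9,13,14,8,16,5,20,19,18,21,4,23],[0,2,1,6,4,19,3,14,12,9,20,11,8,16,7,15,13,21,18,5,10,17,22,23],[0,2,1,7,4,21,14,3,8,15,10,18,12,16,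6,9,13,19,11,17,20,5,22,23],[0,2,1,8,13,18,15,9,6,3,17,19,7,22,12,14,4,11,21,20,5,10,16,23],[0,2,1,9,16,20,8,12,3,7,21,17,14,4,15,6,22,10,5,11,19,18,13,23],[0,2,1,12,13,11,9,15,7,14,5,21,6,22,8,3,4,18,19,10,17,20,16,23],[0,2,1,14,22,5,6,7,9,8,18,20,15,13,3,12,16,17,10,21,11,19,4,23],[0,2,1,15,16,10,12,8,14,6,19,5,3,4,9,7,22,20,17,18,21,11,13,23],[1,0,2,3,4,17,8,12,6,15,10,19,7,13,14,9,22,5,21,11,20,18,16,23],[1,0,2,6,22,19,15,9,14,12,11,5,3,16,7,8,4,21,17,20,18,10,13,23],[1,0,2,7,22,21,9,15,3,8,18,17,14,16,6,12,4,19,5,10,11,20,13,23],[1,0,2,8,16,18,14,3,9,6,19,20,15,22,12,7,13,11,10,17,21,5,4,23],[1,0,2,9,13,20,6,7,12,3,17,11,8,4,15,14,16,10,18,21,5,19,22,23],[1,0,2,12,16,11,3,14,15,7,21,10,9,22,8,6,13,18,20,5,19,17,4,23],[1,0,2,14,4,5,12,8,7,9,20,21,6,13,3,15,22,17,19,18,10,11,16,23],[1,0,2,15,13,10,7,6,8,14,5,18,12,4,9,3,16,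20,11,19,17,21,22,23],[1,2,0,3,16,5,12,8,9,7,19,10,15,13,14,6,22,17,20,11,21,18,4,23],[1,2,0,6,13,21,9,15,8,3,5,11,12,16,7,14,4,19,18,20,17,10,22,23],[1,2,0,7,13,19,15,9,12,14,17,18,8,16,6,3,4,21,11,10,5,20,22,23],[1,2,0,8,4,11,3,14,7,15,20,19,6,22,12,9,13,18,21,17,10,5,16,23],[1,2,0,9,22,10,7,6,14,8,11,17,3,4,15,12,16,20,5,21,18,19,13,23],[1,2,0,12,4,18,14,3,6,9,10,21,7,22,8,15,13,11,19,5,20,17,16,23],[1,2,0,14,16,17,8,12,15,6,21,20,9,13,3,7,22,5,10,18,19,11,4,23],[1,2,0,15,22,20,6,7,3,12,18,5,14,4,9,8,16,10,17,19,11,21,13,23],[2,0,1,3,22,5,15,9,7,8,11,19,6,13,14,12,4,17,21,10,18,20,16,23],[2,0,1,6,4,21,12,8,3,15,20,5,14,16,7,9,22,19,17,11,10,18,13,23],[2,0,1,7,4,19,8,12,14,9,10,17,3,16,6,15,22,21,5,18,20,11,13,23],[2,0,1,8,13,11,6,7,15,14,17,20,9,22,12,3,16,18,10,19,5,21,4,23],[2,0,1,9,16,10,3,14,8,6,21,11,12,4,15,7,13,20,18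,17,19,5,22,23],[2,0,1,12,13,18,7,6,9,3,5,10,15,22,8,14,16,11,20,21,17,19,4,23],[2,0,1,14,22,17,9,15,6,12,18,21,7,13,3,8,4,5,19,20,11,10,16,23],[2,0,1,15,16,20,14,3,12,7,19,18,8,4,9,6,13,10,11,5,21,17,22,23],[2,1,0,3,16,17,9,15,12,6,19,11,8,13,14,7,4,5,18,10,21,20,22,23],[2,1,0,6,13,19,8,12,9,14,5,20,15,16,7,3,22,21,10,11,17,18,4,23],[2,1,0,7,13,21,12,8,15,3,17,10,9,16,6,14,22,19,20,18,5,11,4,23],[2,1,0,8,4,18,7,6,3,9,20,17,14,22,12,15,16,11,5,19,10,21,13,23],[2,1,0,9,22,20,14,3,7,12,11,21,6,4,15,8,13,10,19,17,18,5,16,23],[2,1,0,12,4,11,6,7,14,15,10,5,3,22,8,9,16,18,17,21,20,19,13,23],[2,1,0,14,16,5,15,9,8,7,21,18,12,13,3,6,4,17,11,20,19,10,22,23],[2,1,0,15,22,10,3,14,6,8,18,19,7,4,9,12,13,20,21,5,11,17,16,23]]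

/-- The involutions with conjugating elements. -/
def pairs : List (List ℕ × List ℕ) := [([0,1,2,14,4,17,7,6,12,15,20,18,8,13,3,9,16,5,11,21,10,19,22,23],[0,1,2,3,4,5,6,7,8,9,10,11,12,13,14,15,16,17,18,19,20,21,22,23]),
  ([0,1,14,3,4,17,8,9,6,7,13,11,15,10,2,12,18,5,16,19,20,22,21,23],[0,1,3,14,4,5,12,15,7,6,13,18,9,20,2,8,11,17,16,21,10,22,19,23]),
  ([0,1,3,2,4,17,15,12,9,8,10,16,7,20,14,6,11,5,18,22,13,21,19,23],[0,1,14,2,4,5,9,8,15,12,20,16,6,10,3,7,18,17,11,22,13,19,21,23]),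
  ([0,9,7,15,4,21,12,2,8,1,16,11,6,13,14,3,10,17,20,22,18,5,19,23],[0,8,14,6,4,5,9,1,7,3,20,16,2,11,12,15,13,21,10,19,18,22,17,23]),
  ([0,3,15,1,4,21,6,9,8,7,13,20,14,10,12,2,16,22,18,19,11,5,17,23],[0,8,6,12,4,5,2,15,1,9,11,10,3,18,14,7,16,21,13,22,20,17,19,23]),
  ([0,2,1,7,4,21,14,3,8,15,10,18,12,16,6,9,13,19,11,17,20,5,22,23],[0,8,12,14,4,5,3,7,15,2,18,13,9,20,6,1,10,21,16,17,11,19,22,23]),
  ([0,2,1,6,4,19,3,14,12,9,20,11,8,16,7,15,13,21,18,5,10,17,22,23],[0,15,9,6,4,5,14,7,1,12,16,20,2,11,3,8,18,19,10,21,13,17,22,23]),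
  ([0,14,8,9,4,19,6,12,2,3,18,16,7,13,1,15,11,22,10,5,20,21,17,23],[0,15,6,3,4,5,2,8,7,14,11,10,12,13,9,1,20,19,18,17,16,22,21,23]),
  ([0,12,7,3,4,19,9,2,14,6,10,13,1,11,8,15,16,17,20,5,18,22,21,23],[0,15,3,9,4,5,12,1,8,2,13,18,14,16,6,7,10,19,20,22,11,21,17,23]),
  ([0,7,2,12,4,5,6,1,15,14,10,11,3,18,9,8,20,22,13,21,16,19,17,23],[0,6,2,15,4,22,1,7,14,12,16,13,9,11,8,3,10,17,18,21,20,19,5,23]),
  ([0,14,9,8,4,22,15,7,3,2,18,11,12,20,1,6,16,19,10,17,13,21,5,23],[0,7,12,9,4,5,3,8,1,6,18,13,14,16,2,15,11,22,20,19,10,17,21,23]),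
  ([0,3,12,1,4,22,8,7,6,9,10,20,2,13,15,14,18,21,16,19,11,17,5,23],[0,7,9,2,4,5,14,15,8,3,16,20,6,10,12,1,13,22,11,17,18,21,19,23]),
  ([0,6,2,15,4,22,1,7,14,12,16,13,9,11,8,3,10,17,18,21,20,19,5,23],[0,7,2,12,4,5,6,1,15,14,10,11,3,18,9,8,20,22,13,21,16,19,17,23]),
  ([0,15,6,3,4,5,2,8,7,14,11,10,12,13,9,1,20,19,18,17,16,22,21,23],[0,3,12,1,4,22,8,7,6,9,10,20,2,13,15,14,18,21,16,19,11,17,5,23]),
  ([0,8,6,12,4,5,2,15,1,9,11,10,3,18,14,7,16,21,13,22,20,17,19,23],[0,9,14,15,4,17,8,1,12,2,13,11,3,16,7,6,20,21,10,22,18,19,5,23]),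
  ([2,1,0,12,4,11,6,7,14,15,10,5,3,22,8,9,16,18,17,21,20,19,13,23],[7,1,6,3,4,11,15,9,14,0,19,17,8,10,12,2,16,5,18,13,21,22,20,23]),
  ([9,1,8,3,4,11,12,7,2,0,19,5,6,13,15,14,18,17,16,10,22,21,20,23],[7,1,3,12,4,11,8,2,9,15,10,18,0,21,6,14,17,5,16,22,19,20,13,23]),
  ([14,1,15,6,4,11,3,7,9,8,21,5,12,20,0,2,17,16,18,19,13,10,22,23],[7,1,12,6,4,11,0,14,2,8,21,16,15,19,3,9,18,5,17,20,10,13,22,23]),
  ([1,0,3,2,4,5,9,7,15,6,10,22,12,20,14,8,19,17,21,16,13,18,11,23],[7,14,12,15,4,11,0,1,9,3,21,16,6,17,8,2,10,22,19,13,18,20,5,23]),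
  ([9,3,6,1,4,20,2,7,12,0,19,22,8,13,14,15,16,21,18,10,5,17,11,23],[7,14,15,8,4,11,6,2,1,0,17,19,3,18,12,9,16,22,10,20,21,5,13,23]),
  ([2,6,0,9,4,13,1,7,8,3,16,22,15,5,14,12,10,18,17,19,20,21,11,23],[7,14,8,12,4,11,3,9,2,6,18,10,0,21,15,1,19,22,16,5,17,13,20,23]),
  ([3,12,2,0,4,20,14,7,9,8,10,13,1,11,6,15,17,16,19,18,5,21,22,23],[7,2,15,3,4,11,6,14,9,12,17,19,8,10,0,1,21,13,18,5,16,20,22,23]),
  ([15,8,2,3,4,5,9,7,1,6,17,13,14,11,12,0,16,10,21,19,22,18,20,23],[7,2,3,0,4,11,8,1,14,6,10,18,12,16,15,9,19,13,21,20,17,22,5,23]),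
  ([12,9,14,8,4,20,6,7,3,1,18,11,0,22,2,15,21,17,10,19,5,16,13,23],[7,15,6,2,4,20,1,9,12,8,16,10,0,17,14,3,19,5,18,22,21,13,11,23]),
  ([6,12,15,14,4,13,0,7,8,9,21,20,1,5,3,2,16,17,19,18,11,10,22,23],[7,9,8,0,4,11,3,14,1,15,18,10,12,16,6,2,17,20,21,13,19,5,22,23]),
  ([8,15,3,2,4,5,6,7,0,9,17,20,14,22,12,1,19,10,18,16,11,21,13,23],[7,9,6,8,4,11,15,1,2,12,19,17,3,18,0,14,21,20,10,22,16,13,5,23]),
  ([12,2,1,3,4,13,15,7,8,14,10,11,0,5,9,6,21,19,18,17,22,16,20,23],[7,3,8,1,4,20,14,9,15,0,19,21,6,10,2,12,18,22,16,13,17,5,11,23]),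
  ([2,1,0,8,4,18,7,6,3,9,20,17,14,22,12,15,16,11,5,19,10,21,13,23],[9,1,15,3,4,17,2,0,12,7,13,5,14,19,8,6,16,11,18,10,22,20,21,23]),
  ([7,1,12,3,4,5,14,0,15,9,10,17,2,19,6,8,18,11,16,13,21,20,22,23],[9,1,3,8,4,17,14,6,0,2,19,18,7,22,15,12,5,11,16,20,13,21,10,23]),
  ([14,1,6,15,4,16,2,12,8,9,21,17,7,13,0,3,5,11,18,22,20,10,19,23],[9,1,8,15,4,17,7,12,6,14,22,16,2,13,3,0,18,11,5,21,19,10,20,23]),
  ([15,7,14,6,4,5,3,1,8,9,21,11,12,16,2,0,13,20,22,19,17,10,18,23],[9,12,8,2,4,17,7,1,0,3,22,16,15,5,14,6,19,20,13,10,18,21,11,23]),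
  ([7,3,2,1,4,22,15,0,14,9,10,21,12,19,8,6,16,20,18,13,17,11,5,23],[9,12,2,14,4,17,15,6,1,7,5,13,3,18,8,0,16,20,19,21,22,11,10,23]),
  ([3,15,8,0,4,18,7,6,2,9,11,10,12,13,14,1,19,20,5,16,17,21,22,23],[9,12,14,8,4,17,3,0,6,15,18,19,7,22,2,1,13,20,16,11,5,10,21,23]),
  ([14,8,2,7,4,16,6,3,1,9,17,21,15,18,0,12,5,10,13,19,20,11,22,23],[9,6,2,3,4,17,15,12,0,8,5,13,14,19,7,1,22,10,18,11,16,21,20,23]),
  ([15,14,7,3,4,19,6,2,12,9,17,11,8,13,1,0,16,10,22,5,21,20,18,23],[9,6,3,7,4,17,14,1,12,15,19,18,8,16,2,0,13,10,22,21,5,20,11,23]),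
  ([1,0,2,14,4,5,12,8,7,9,20,21,6,13,3,15,22,17,19,18,10,11,16,23],[9,2,15,6,4,21,1,0,8,14,16,19,7,5,12,3,13,11,18,20,22,10,17,23]),
  ([12,6,15,3,4,13,1,8,7,9,11,10,0,5,14,2,22,17,18,19,21,20,16,23],[9,3,14,1,4,21,12,0,2,7,13,22,15,19,6,8,18,20,16,10,5,11,17,23]),
  ([3,1,9,0,4,16,6,14,8,2,13,11,15,10,7,12,5,18,17,20,19,21,22,23],[1,8,6,2,4,16,7,14,3,15,20,10,0,22,9,12,21,5,13,17,19,18,11,23]),
  ([12,1,2,7,4,16,9,3,8,6,10,18,0,21,15,14,5,17,11,19,22,13,20,23],[1,8,2,9,4,16,0,12,14,7,22,13,15,19,6,3,10,5,21,18,20,11,17,23]),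
  ([8,1,2,9,4,5,14,15,0,3,22,18,12,19,6,7,17,16,11,13,20,21,10,23],[1,12,2,15,4,16,0,8,3,6,22,13,9,21,7,14,20,17,19,11,10,18,5,23]),
  ([3,1,7,0,4,18,8,2,6,14,10,11,12,13,9,15,17,16,5,20,19,22,21,23],[1,12,15,7,4,16,9,14,8,0,21,19,6,10,2,3,13,17,20,18,22,5,11,23]),
  ([6,1,8,7,4,18,0,3,2,12,19,16,9,21,14,15,11,17,5,10,20,13,22,23],[1,14,15,6,4,16,9,12,3,2,21,19,7,20,0,8,22,11,10,5,13,18,17,23]),
  ([15,1,12,9,4,5,6,8,7,3,22,16,2,13,14,0,11,18,17,19,21,20,10,23],[1,14,6,0,4,16,7,8,12,9,20,10,2,13,15,3,19,11,22,18,21,17,5,23]),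
  ([14,9,12,3,4,10,7,6,8,1,5,17,2,13,0,15,21,11,20,19,18,16,22,23],[3,8,15,6,4,21,14,0,2,1,11,5,12,19,7,9,13,16,10,20,17,18,22,23]),
  ([1,0,14,3,4,5,6,15,8,12,13,19,9,10,2,7,21,17,22,11,20,16,18,23],[3,8,6,7,4,21,12,9,0,14,19,10,1,17,15,2,5,16,13,18,11,22,20,23]),
  ([1,0,2,3,4,17,8,12,6,15,10,19,7,13,14,9,22,5,21,11,20,18,16,23],[3,2,14,12,4,21,15,9,8,1,5,11,6,10,7,0,13,18,19,22,17,16,20,23]),
  ([6,9,2,3,4,10,0,14,15,1,5,11,12,19,7,8,20,17,21,13,16,18,22,23],[3,2,12,7,4,21,6,0,9,15,10,19,1,17,14,8,11,18,13,16,5,20,22,23]),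
  ([8,7,9,3,4,5,12,1,0,2,19,11,6,17,14,15,22,13,20,10,18,21,16,23],[3,14,15,9,4,22,8,0,7,12,13,19,1,5,2,6,11,16,10,18,17,20,21,23]),
  ([2,7,0,3,4,11,6,1,9,8,10,5,12,17,15,14,20,13,22,19,16,21,18,23],[3,6,12,8,4,22,2,0,14,1,11,17,15,19,9,7,10,18,13,20,5,16,21,23]),
  ([7,15,2,6,4,5,3,0,8,12,16,19,9,21,14,1,10,20,18,11,17,13,22,23],[8,2,14,15,4,13,0,7,6,9,17,11,3,22,1,12,18,21,19,16,20,10,5,23]),
  ([6,14,2,12,4,10,0,9,8,7,5,11,3,21,1,15,16,22,19,18,20,13,17,23],[8,2,15,1,4,13,3,12,7,0,22,19,9,20,14,6,11,21,18,10,17,5,16,23]),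
  ([9,6,3,2,4,10,1,14,8,0,5,22,12,16,7,15,13,17,18,20,19,21,11,23],[8,12,15,9,4,13,3,2,6,14,22,19,1,18,0,7,17,16,20,5,11,10,21,23]),
  ([8,2,1,15,4,21,6,9,0,7,22,11,12,17,14,3,19,13,18,16,20,5,10,23],[6,14,12,2,4,22,15,3,7,8,5,16,9,20,1,0,11,10,19,17,21,13,18,23]),
  ([9,12,2,8,4,20,6,15,3,0,22,19,1,18,14,7,16,17,13,11,5,21,10,23],[6,14,2,1,4,22,9,0,3,15,20,19,8,21,12,7,16,10,11,13,5,18,17,23]),
  ([7,8,9,14,4,5,6,0,1,2,18,21,12,17,3,15,16,13,10,20,19,11,22,23],[6,12,15,3,4,17,7,0,1,2,11,19,8,5,14,9,16,13,20,10,21,18,22,23]),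
  ([0,8,2,6,19,22,3,9,1,7,10,18,12,13,15,14,20,17,11,4,16,21,5,23],[0,2,12,7,17,5,15,14,3,8,11,20,6,13,9,1,10,22,16,4,18,19,21,23]),
  ([0,15,2,8,21,22,14,12,3,9,20,11,7,18,6,1,16,17,13,19,10,4,5,23],[0,2,9,12,17,5,8,3,1,6,18,10,15,11,7,14,16,22,20,21,13,4,19,23]),
  ([0,7,8,3,21,19,15,1,2,9,11,10,14,13,12,6,18,17,16,5,20,4,22,23],[0,3,9,15,17,5,8,2,14,7,18,10,12,20,6,1,13,19,11,4,16,21,22,23]),
  ([0,8,12,3,22,19,6,14,1,15,13,11,2,10,7,9,20,17,18,5,16,21,4,23],[0,3,6,9,17,5,7,14,1,12,16,13,8,18,15,2,11,19,10,22,20,4,21,23]),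
  ([0,1,12,6,5,4,3,15,8,14,13,18,2,10,9,7,16,17,11,22,20,21,19,23],[0,1,8,15,17,5,9,14,2,6,10,18,12,20,7,3,16,4,11,19,13,22,21,23]),
  ([0,1,9,12,5,4,14,8,7,2,20,16,3,13,6,15,11,17,18,19,10,22,21,23],[0,1,15,7,17,5,12,3,14,9,20,11,6,13,8,2,18,4,16,22,10,21,19,23]),
  ([0,1,6,9,5,4,2,7,15,3,10,11,14,20,12,8,18,17,16,21,13,19,22,23],[0,1,7,8,17,5,6,2,3,12,13,16,9,10,15,14,11,4,18,21,20,19,22,23]),
  ([0,3,14,1,19,5,7,6,9,8,18,11,12,16,2,15,13,17,10,4,20,22,21,23],[0,15,12,1,17,21,2,14,9,6,10,13,8,20,3,7,11,22,16,19,18,4,5,23]),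
  ([0,15,9,7,22,21,6,3,12,2,10,16,8,18,14,1,11,17,13,19,20,5,4,23],[0,14,6,8,17,5,7,3,2,15,16,13,9,10,12,1,20,21,18,4,11,22,19,23]),
  ([0,7,15,9,19,21,8,1,6,3,11,10,12,20,14,2,16,17,18,4,13,5,22,23],[0,14,12,6,17,5,15,2,1,9,11,20,7,16,8,3,18,21,13,19,10,4,22,23]),
  ([0,2,1,14,22,5,6,7,9,8,18,20,15,13,3,12,16,17,10,21,11,19,4,23],[0,7,6,2,17,21,3,14,15,8,11,18,12,13,1,9,16,19,10,4,20,22,5,23]),
  ([0,14,3,2,21,5,7,6,8,9,10,20,15,16,1,12,13,17,18,22,11,4,19,23],[0,8,9,1,17,22,3,2,6,12,13,20,7,10,14,15,18,19,11,21,16,4,5,23]),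
  ([12,8,2,9,19,20,7,6,1,3,10,11,0,21,14,15,22,17,18,4,5,13,16,23],[14,2,15,7,17,20,1,8,9,0,4,22,3,11,6,12,10,5,16,13,19,21,18,23]),
  ([8,9,2,12,11,20,15,7,0,1,16,4,3,13,14,6,10,17,21,19,5,18,22,23],[14,2,7,6,17,20,3,12,8,1,11,16,0,19,15,9,22,5,10,21,4,18,13,23]),
  ([2,3,0,1,10,5,6,12,15,9,4,11,7,18,14,8,19,17,13,16,21,20,22,23],[14,9,6,1,17,20,0,2,8,7,19,10,15,22,3,12,11,21,4,13,16,18,5,23]),
  ([8,1,7,6,11,18,3,2,0,9,10,4,15,13,14,12,16,17,5,22,21,20,19,23],[14,9,1,3,17,20,15,12,2,0,22,4,7,16,6,8,10,21,11,18,19,5,13,23]),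
  ([7,1,6,8,16,18,2,0,3,15,22,11,12,20,14,9,4,17,5,19,13,21,10,23],[14,12,1,7,17,20,15,9,8,6,22,4,3,11,0,2,19,13,16,5,10,18,21,23]),
  ([15,12,6,3,16,13,2,9,8,7,10,19,1,5,14,0,4,17,20,11,18,21,22,23],[14,8,3,0,17,20,7,9,2,1,16,11,6,10,15,12,22,18,19,13,4,5,21,23]),
  ([3,2,1,0,10,5,9,12,8,6,4,22,7,21,14,15,16,17,20,19,18,13,11,23],[14,8,15,3,17,20,1,2,12,6,4,22,7,16,0,9,19,18,11,21,10,13,5,23]),
  ([6,15,12,3,22,13,0,7,9,8,19,11,2,5,14,1,16,17,21,10,20,18,4,23],[14,7,3,2,17,18,9,8,1,0,4,19,15,11,12,6,16,21,10,13,22,5,20,23]),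
  ([14,3,2,1,13,5,12,7,8,15,16,11,6,4,0,9,10,17,19,18,22,21,20,23],[8,2,7,3,17,22,9,15,0,12,4,16,14,21,1,6,5,20,10,18,13,19,11,23]),
  ([9,7,2,3,21,10,14,1,8,0,5,19,15,13,6,12,16,17,18,11,22,4,20,23],[8,2,3,1,17,22,14,6,15,9,21,10,12,13,7,0,16,20,5,19,4,11,18,23]),
  ([14,15,7,9,13,21,6,2,8,3,10,11,12,4,0,1,16,17,22,20,19,5,18,23],[8,6,12,9,17,22,1,15,2,14,5,13,7,16,3,0,10,18,4,19,21,20,11,23]),
  ([7,2,1,12,10,16,6,0,8,9,4,20,3,13,15,14,5,17,22,19,11,21,18,23],[8,6,9,3,17,22,7,0,15,1,16,4,14,21,12,2,13,18,10,20,5,11,19,23]),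
  ([1,0,9,6,5,4,3,7,8,2,10,22,14,13,12,15,21,17,19,18,20,16,11,23],[8,15,7,14,17,22,9,2,6,1,4,16,3,10,12,0,13,11,21,19,5,18,20,23]),
  ([2,1,0,14,16,5,15,9,8,7,21,18,12,13,3,6,4,17,11,20,19,10,22,23],[8,12,1,15,17,19,2,0,3,9,10,4,14,5,6,7,13,20,16,18,21,11,22,23]),
  ([7,6,2,3,18,10,1,0,12,14,5,13,8,11,9,15,22,17,4,19,20,21,16,23],[2,3,15,12,17,10,14,9,7,1,18,11,0,21,8,6,19,5,13,22,4,16,20,23]),
  ([3,14,2,0,13,5,6,8,7,15,22,21,12,4,1,9,20,17,18,19,16,11,10,23],[2,6,12,1,17,10,0,3,7,15,21,13,8,19,14,9,18,22,4,20,11,16,5,23]),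
  ([7,1,2,15,18,16,6,0,9,8,22,11,14,13,12,3,5,17,4,21,20,19,10,23],[2,6,1,14,17,10,8,9,3,0,19,4,15,11,12,7,13,22,18,16,21,5,20,23]),
  ([15,1,2,12,11,16,8,14,6,9,20,4,3,19,7,0,5,17,18,13,10,21,22,23],[2,9,1,15,17,10,8,6,7,12,19,4,14,18,0,3,21,20,11,5,13,16,22,23]),
  ([2,14,0,3,20,5,8,7,6,12,19,13,9,11,1,15,21,17,18,10,4,16,22,23],[7,3,15,14,17,19,6,8,0,9,4,11,2,22,1,12,5,10,13,16,20,21,18,23]),
  ([2,8,0,15,20,22,14,7,1,9,21,11,12,13,6,3,19,17,18,16,4,10,5,23],[7,12,9,6,17,19,1,8,3,2,5,20,15,11,14,0,13,16,4,21,22,10,18,23]),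
  ([15,3,8,1,13,11,6,7,2,14,18,5,12,4,9,0,19,17,10,16,20,21,22,23],[7,12,6,14,17,19,15,0,8,1,11,4,2,22,9,3,20,16,13,10,5,18,21,23]),
  ([3,1,14,0,11,5,15,7,12,9,21,4,8,22,2,6,18,17,16,19,20,10,13,23],[7,9,1,8,17,21,3,0,14,6,13,4,2,5,12,15,20,10,11,16,22,18,19,23]),
  ([14,2,1,3,20,5,8,15,6,9,11,10,12,19,0,7,16,17,22,13,4,21,18,23],[3,12,9,1,17,13,0,14,15,8,22,20,7,21,2,6,16,19,4,10,18,11,5,23]),
  ([15,1,9,3,16,11,7,6,14,2,10,5,12,19,8,0,4,17,18,13,20,22,21,23],[3,12,1,2,17,13,7,6,14,0,21,4,8,18,9,15,20,19,16,11,22,5,10,23]),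
  ([8,1,15,3,18,11,6,12,0,14,13,5,7,10,9,2,16,17,4,19,21,20,22,23],[3,6,1,8,17,13,7,12,15,9,21,4,2,16,0,14,22,10,18,5,20,11,19,23]),
  ([3,7,12,0,10,19,6,1,14,9,4,21,2,22,8,15,16,17,18,5,20,11,13,23],[15,9,6,12,17,21,1,7,14,3,5,10,8,18,2,0,20,11,4,22,19,13,16,23]),
  ([8,14,6,7,20,18,2,3,0,9,10,21,12,16,1,15,13,17,5,19,4,11,22,23],[15,9,12,2,17,21,8,0,7,1,18,4,3,19,6,14,10,11,20,13,5,16,22,23]),
  ([14,1,3,2,18,5,6,9,12,7,10,16,8,22,0,15,11,17,4,20,19,21,13,23],[15,6,1,7,17,22,14,0,2,12,20,4,3,5,9,8,10,13,18,11,19,16,21,23]),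
  ([0,9,3,2,17,21,6,15,14,1,18,11,12,13,8,7,20,4,10,19,16,5,22,23],[0,12,6,14,22,5,1,9,7,3,20,18,15,13,8,2,11,21,10,17,16,4,19,23]),
  ([0,15,14,12,5,4,9,7,8,6,16,20,3,13,2,1,10,19,18,17,11,21,22,23],[0,7,8,1,22,5,3,12,9,14,16,11,6,18,15,2,13,4,20,17,10,19,21,23]),
  ([0,8,3,2,5,4,12,7,1,14,18,13,6,11,9,15,16,21,10,19,20,17,22,23],[0,7,15,8,22,5,14,9,2,6,10,13,3,16,1,12,20,4,11,21,18,17,19,23]),
  ([0,14,2,3,21,17,12,15,9,8,10,13,6,11,1,7,20,5,18,19,16,4,22,23],[0,2,3,1,22,5,8,9,12,15,11,16,6,18,14,7,10,17,20,4,13,21,19,23]),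
  ([0,3,2,1,19,17,9,8,7,6,16,11,15,18,14,12,10,5,13,4,20,21,22,23],[0,2,14,3,22,5,15,12,7,6,13,10,8,11,1,9,20,17,16,19,18,4,21,23]),
  ([0,1,7,8,17,5,6,2,3,12,13,16,9,10,15,14,11,4,18,21,20,19,22,23],[0,1,6,2,22,19,12,9,8,15,11,13,3,18,7,14,20,21,10,4,16,17,5,23]),
  ([0,12,14,15,17,19,6,8,7,9,10,20,1,18,2,3,16,4,13,5,11,21,22,23],[0,9,6,15,22,5,1,12,2,8,20,18,14,10,3,7,16,19,13,4,11,17,21,23]),
  ([0,6,12,8,19,5,1,9,3,7,10,16,2,13,14,15,11,21,20,4,18,17,22,23],[0,14,15,12,22,19,7,9,1,3,20,16,6,13,2,8,10,4,11,17,18,21,5,23]),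
  ([0,6,9,3,21,5,1,12,8,2,13,11,7,10,15,14,16,19,20,17,18,4,22,23],[0,3,8,2,22,21,7,12,15,6,13,18,14,11,9,1,16,4,20,19,10,17,5,23]),
  ([6,1,3,2,17,18,0,8,7,9,21,11,12,19,15,14,16,4,5,13,20,10,22,23],[9,12,1,14,22,18,2,3,8,0,17,21,7,20,15,6,11,5,10,13,4,19,16,23]),
  ([12,3,7,1,10,5,14,2,8,9,4,17,0,16,6,15,13,11,19,18,20,21,22,23],[9,8,15,2,22,18,0,12,3,14,4,11,1,21,7,6,20,19,17,13,10,16,5,23]),
  ([3,6,2,0,21,16,1,15,8,9,10,11,14,13,12,7,5,20,19,18,17,4,22,23],[9,8,2,7,22,18,1,6,12,0,21,17,14,10,15,3,11,19,20,16,4,5,13,23]),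
  ([1,0,6,3,20,13,2,7,14,9,17,11,15,5,8,12,18,10,16,19,4,21,22,23],[9,3,7,0,22,18,14,8,12,2,10,20,15,11,1,6,21,16,4,13,17,5,19,23]),
  ([15,2,1,8,11,13,12,7,3,9,10,4,6,5,14,0,19,21,18,16,20,17,22,23],[9,14,7,12,22,16,8,3,2,0,17,4,1,20,6,15,10,19,11,13,21,5,18,23]),
  ([9,8,7,3,16,5,15,2,1,0,11,10,12,17,14,6,4,13,21,19,20,18,22,23],[3,12,14,7,22,21,8,1,0,6,17,10,9,19,2,15,5,18,11,16,13,4,20,23]),
  ([8,6,14,3,20,11,1,7,0,15,10,5,12,13,2,9,16,19,21,17,4,18,22,23],[3,12,7,2,22,21,9,15,1,8,19,11,6,13,14,0,10,18,5,4,17,20,16,23]),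
  ([9,2,1,3,18,19,6,8,7,0,10,11,14,17,12,15,21,13,4,5,20,16,22,23],[3,15,6,8,22,21,2,1,12,9,5,13,14,10,7,0,11,16,17,4,19,18,20,23]),
  ([2,1,0,3,16,17,9,15,12,6,19,11,8,13,14,7,4,5,18,10,21,20,22,23],[3,1,14,9,22,21,8,12,15,2,17,10,7,11,6,0,13,20,19,4,5,16,18,23]),
  ([12,15,2,3,18,5,6,9,14,7,17,19,0,13,8,1,20,10,4,11,16,21,22,23],[3,6,2,1,22,4,12,0,7,8,11,17,9,5,15,14,13,18,10,16,19,20,21,23]),
  ([14,7,2,8,19,10,9,1,3,6,5,21,12,13,0,15,17,16,18,4,20,11,22,23],[12,15,2,9,22,11,3,8,7,0,4,17,1,20,6,14,13,21,16,10,19,5,18,23]),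
  ([1,0,2,15,13,10,7,6,8,14,5,18,12,4,9,3,16,20,11,19,17,21,22,23],[12,8,2,1,22,11,3,15,14,6,4,17,9,16,0,7,19,18,20,5,13,10,21,23]),
  ([12,1,9,15,11,5,8,7,6,2,19,4,0,20,14,3,16,18,17,10,13,21,22,23],[14,7,1,9,22,4,15,3,0,8,17,20,12,21,2,6,5,11,13,10,18,19,16,23]),
  ([12,7,3,2,10,21,6,1,8,15,4,19,0,13,14,9,16,18,17,11,20,5,22,23],[14,6,8,15,22,4,2,3,7,12,5,18,1,20,9,0,13,10,17,19,21,11,16,23]),
  ([1,0,7,12,10,20,6,2,9,8,4,16,3,17,14,15,11,13,18,19,5,21,22,23],[14,6,15,9,22,4,1,0,3,2,20,17,12,21,8,7,18,10,13,11,5,16,19,23]),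
  ([9,14,12,15,13,5,6,7,8,0,10,20,2,4,1,3,21,18,17,19,11,16,22,23],[7,6,8,2,22,13,0,9,1,3,21,18,14,19,12,15,10,4,17,11,16,20,5,23]),
  ([1,0,2,9,13,20,6,7,12,3,17,11,8,4,15,14,16,10,18,21,5,19,22,23],[7,6,2,12,22,13,14,15,9,0,19,17,3,16,8,1,18,4,10,20,21,5,11,23]),
  ([7,1,14,9,5,4,12,0,8,3,10,17,6,21,2,15,16,11,18,20,19,13,22,23],[1,8,15,6,22,19,2,14,9,7,5,11,3,16,12,0,18,20,17,21,4,13,10,23]),
  ([9,1,2,6,18,5,3,12,14,0,20,11,7,21,8,15,17,16,4,19,10,13,22,23],[1,15,2,14,22,21,9,0,12,6,18,17,7,5,8,3,11,13,16,20,4,10,19,23]),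
  ([0,9,15,3,22,5,14,7,12,1,10,13,8,11,6,2,18,19,16,17,20,21,4,23],[7,3,0,2,5,11,14,6,12,9,18,19,8,21,15,1,10,13,17,4,16,22,20,23]),
  ([6,1,2,8,11,5,0,7,3,14,10,4,15,13,9,12,17,16,18,21,22,19,20,23],[7,1,2,9,5,11,8,3,12,0,21,17,15,10,14,6,18,4,16,20,19,22,13,23]),
  ([6,2,1,9,20,5,0,7,14,3,18,22,12,13,8,15,17,16,10,19,4,21,11,23],[7,12,15,14,5,11,9,3,6,2,16,10,0,19,8,1,21,22,18,4,17,20,13,23]),
  ([3,9,6,0,13,5,2,7,8,1,21,22,12,4,15,14,16,19,18,17,20,10,11,23],[7,12,8,15,5,11,2,6,1,0,17,21,9,16,14,3,18,22,10,13,19,4,20,23]),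
  ([14,6,8,12,20,5,1,7,2,9,10,11,3,22,0,15,16,21,19,18,4,17,13,23],[7,9,15,6,5,22,3,12,2,14,17,18,8,10,1,0,16,13,19,4,21,20,11,23]),
  ([0,12,8,6,22,5,3,7,2,15,16,11,1,20,14,9,10,21,18,19,13,17,4,23],[7,14,0,1,5,20,3,6,15,8,10,21,9,19,12,2,18,13,17,22,16,4,11,23]),
  ([1,0,15,8,17,5,6,14,3,9,10,21,12,13,7,2,19,4,22,16,20,11,18,23],[12,6,9,15,5,21,3,8,14,1,17,16,7,13,2,0,20,11,19,22,4,18,10,23]),
  ([0,1,8,15,17,5,9,14,2,6,10,18,12,20,7,3,16,4,11,19,13,22,21,23],[12,0,1,3,5,21,2,8,6,7,20,4,9,16,15,14,19,22,17,18,13,11,10,23]),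
  ([15,6,2,7,19,5,1,3,9,8,22,11,12,13,14,0,16,20,21,4,17,18,10,23],[12,14,2,3,5,21,1,6,8,15,4,20,9,16,7,0,13,18,17,22,19,10,11,23]),
  ([7,9,8,3,22,5,6,0,2,1,10,19,15,17,14,12,16,13,18,11,21,20,4,23],[14,6,3,1,5,20,12,15,2,0,22,19,8,10,9,7,16,21,11,13,4,17,18,23]),
  ([6,7,2,15,11,5,0,1,12,9,10,4,8,18,14,3,22,20,13,19,17,21,16,23],[14,2,9,12,5,20,0,6,15,1,4,16,3,19,8,7,10,17,22,13,11,18,21,23]),
  ([9,1,15,12,16,5,7,6,8,0,10,11,3,21,14,2,4,18,17,22,20,13,19,23],[14,8,1,2,5,13,6,7,3,0,19,4,12,11,15,9,10,21,16,18,22,17,20,23]),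
  ([2,12,0,7,10,5,6,3,8,14,4,11,1,13,9,15,21,22,18,20,19,16,17,23],[6,15,8,1,5,19,7,3,9,2,22,10,14,13,12,0,18,20,4,21,17,16,11,23]),
  ([8,12,2,3,21,5,7,6,0,9,17,11,1,19,15,14,22,10,18,13,20,4,16,23],[9,3,2,12,5,13,15,14,7,0,4,17,6,20,1,8,11,19,10,16,21,22,18,23]),
  ([0,1,15,7,17,5,12,3,14,9,20,11,6,13,8,2,18,4,16,22,10,21,19,23],[9,0,1,14,5,22,3,7,12,15,10,4,6,11,8,2,21,19,17,16,20,18,13,23]),
  ([6,1,7,3,16,5,0,2,8,15,13,17,14,10,12,9,4,11,18,19,22,21,20,23],[3,8,1,6,5,10,9,15,12,7,22,4,14,18,0,2,21,13,16,17,20,11,19,23]),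
  ([12,1,6,3,18,5,2,14,9,8,19,17,0,13,7,15,16,11,4,10,20,22,21,23],[3,15,1,14,5,10,9,8,2,0,22,4,6,16,7,12,20,19,18,11,21,17,13,23]),
  ([0,9,2,7,19,5,8,3,6,1,20,13,14,11,12,15,16,22,18,4,10,21,17,23],[2,0,15,8,5,22,1,9,12,3,11,19,14,18,6,7,21,17,4,20,13,10,16,23]),
  ([0,12,2,9,21,5,15,14,8,3,16,18,1,13,7,6,10,22,11,19,20,4,17,23],[2,0,8,6,5,22,14,7,9,1,18,4,3,13,15,12,19,17,21,10,11,16,20,23]),
  ([0,2,1,3,22,17,7,6,15,12,11,10,9,13,14,8,16,5,20,19,18,21,4,23],[0,14,3,2,21,5,7,6,8,9,10,20,15,16,1,12,13,17,18,22,11,4,19,23]),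
  ([0,6,7,14,17,22,1,2,15,9,11,10,12,16,3,8,13,4,18,19,20,21,5,23],[0,12,9,7,21,5,1,6,14,15,13,11,3,20,2,8,18,22,10,4,16,17,19,23]),
  ([0,7,6,14,5,4,2,1,8,12,10,11,9,16,3,15,13,22,20,19,18,21,17,23],[0,8,15,1,21,5,2,6,12,3,18,16,9,11,7,14,10,4,13,17,20,22,19,23]),
  ([15,9,2,14,13,16,6,12,8,1,10,19,7,4,3,0,5,22,18,11,20,21,17,23],[8,6,2,9,21,16,12,7,3,0,22,19,14,18,1,15,20,5,11,13,17,4,10,23]),
  ([7,14,15,3,16,10,9,0,8,6,5,11,12,13,1,2,4,19,22,17,20,21,18,23],[8,3,12,14,21,16,2,15,6,0,19,22,9,11,1,7,20,4,18,10,17,5,13,23]),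
  ([1,0,12,7,10,13,15,3,8,9,4,11,2,5,14,6,16,20,18,22,17,21,19,23],[8,9,14,6,21,10,3,7,12,0,22,17,2,18,15,1,11,4,20,13,19,5,16,23]),
  ([3,8,15,0,22,20,6,7,1,12,10,11,9,13,14,2,19,18,17,16,5,21,4,23],[7,6,14,12,21,19,8,1,2,3,4,20,15,13,9,0,11,16,5,17,22,18,10,23]),
  ([8,1,12,14,5,4,9,7,0,6,19,11,2,22,3,15,17,16,18,10,20,21,13,23],[7,1,15,3,21,19,12,2,6,8,5,13,9,11,14,0,20,10,22,17,4,16,18,23]),
  ([12,14,2,6,11,22,3,7,15,9,17,4,0,13,1,8,16,10,19,18,20,21,5,23],[7,2,9,8,21,19,3,6,1,12,22,11,14,20,15,0,13,18,4,17,5,10,16,23]),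
  ([9,1,14,7,17,11,6,3,15,0,22,5,12,13,2,8,16,4,18,20,19,21,10,23],[6,1,12,8,21,20,7,3,14,0,17,22,2,18,15,9,13,19,10,11,4,5,16,23]),
  ([6,8,14,3,20,19,0,12,1,9,10,17,7,13,2,15,22,11,18,5,4,21,16,23],[9,15,3,1,21,17,12,7,14,6,5,16,2,18,8,0,13,11,22,4,19,20,10,23]),
  ([2,9,0,6,19,18,3,8,7,1,10,22,12,17,14,15,16,13,5,4,20,21,11,23],[14,15,12,6,21,13,9,1,8,0,4,22,7,10,3,2,16,17,11,18,19,5,20,23]),
  ([14,1,2,3,18,17,15,8,7,12,10,11,9,19,0,6,16,5,4,13,22,21,20,23],[2,3,1,15,21,4,12,9,8,14,5,20,7,10,6,0,16,18,22,19,17,13,11,23]),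
  ([14,12,9,3,22,11,6,7,15,2,17,5,1,13,0,8,21,10,18,19,20,16,4,23],[7,6,3,1,20,11,14,0,8,2,17,16,15,18,12,9,19,5,21,4,10,22,13,23]),
  ([9,15,2,14,13,22,8,7,6,0,10,11,12,4,3,1,17,16,21,19,20,18,5,23],[7,12,2,8,20,13,9,0,1,3,21,16,15,10,6,14,19,4,17,5,18,22,11,23]),
  ([2,15,0,3,21,13,12,14,8,9,10,17,6,5,7,1,16,11,22,19,20,4,18,23],[3,8,9,6,20,22,0,2,1,14,13,17,15,10,12,7,19,18,11,4,5,21,16,23]),
  ([7,12,3,2,10,18,8,0,6,9,4,11,1,13,14,15,22,21,5,19,20,17,16,23],[9,15,14,6,20,10,7,0,1,3,22,18,12,13,8,2,19,4,5,17,16,21,11,23]),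
  ([3,1,2,0,11,17,12,9,15,7,22,4,6,21,14,8,16,5,18,19,20,13,10,23],[1,14,2,15,20,13,6,12,0,9,11,17,3,16,8,7,18,21,5,22,4,10,19,23]),
  ([12,1,8,14,17,16,6,15,2,9,10,11,0,22,3,7,5,4,18,19,21,20,13,23],[9,1,6,0,11,17,14,3,8,7,22,5,2,19,12,15,18,4,16,21,13,20,10,23]),
  ([15,1,3,2,5,4,14,7,8,12,21,11,9,13,6,0,16,18,17,19,22,10,20,23],[8,7,1,3,11,22,6,14,15,9,21,4,0,16,2,12,13,20,5,18,10,17,19,23]),
  ([1,0,8,3,20,10,14,9,2,7,5,11,12,17,6,15,16,13,18,19,4,22,21,23],[12,15,3,1,11,21,8,2,6,7,20,13,14,19,0,9,16,22,17,10,4,5,18,23]),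
  ([6,3,9,1,16,21,0,15,8,2,10,22,12,13,14,7,4,20,18,19,17,5,11,23],[14,12,8,3,19,4,7,15,2,6,21,20,9,18,1,0,13,16,17,22,5,11,10,23]),
  ([8,3,2,1,18,20,6,14,0,12,10,21,9,13,7,15,16,22,4,19,5,11,17,23],[15,2,6,3,19,18,14,7,9,0,22,21,12,16,1,8,13,4,11,20,17,5,10,23])]

/-- The table of a homomorphism from `GL₂(3)`, on the codes of matrices. -/
def rowsL : List (List ℕ) := [[],
  [],
  [],
  [],
  [],
  [],
  [],
  [],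
  [],
  [],
  [],
  [],
  [0,2,1,14,22,5,6,7,9,8,18,20,15,13,3,12,16,17,10,21,11,19,4,23],
  [1,0,2,8,16,18,14,3,9,6,19,20,15,22,12,7,13,11,10,17,21,5,4,23],
  [2,1,0,6,13,19,8,12,9,14,5,20,15,16,7,3,22,21,10,11,17,18,4,23],
  [0,1,2,6,22,21,14,3,15,8,11,20,9,16,7,12,13,19,10,5,18,17,4,23],
  [1,2,0,14,16,17,8,12,15,6,21,20,9,13,3,7,22,5,10,18,19,11,4,23],
  [2,0,1,8,13,11,6,7,15,14,17,20,9,22,12,3,16,18,10,19,5,21,4,23],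
  [],
  [],
  [],
  [0,1,2,7,22,19,3,14,9,12,18,10,15,16,6,8,13,21,20,17,11,5,4,23],
  [2,0,1,12,13,18,7,6,9,3,5,10,15,22,8,14,16,11,20,21,17,19,4,23],
  [1,2,0,3,16,5,12,8,9,7,19,10,15,13,14,6,22,17,20,11,21,18,4,23],
  [0,2,1,3,22,17,7,6,15,12,11,10,9,13,14,8,16,5,20,19,18,21,4,23],
  [2,1,0,7,13,21,12,8,15,3,17,10,9,16,6,14,22,19,20,18,5,11,4,23],
  [1,0,2,12,16,11,3,14,15,7,21,10,9,22,8,6,13,18,20,5,19,17,4,23],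
  [],
  [0,1,2,3,4,5,6,7,8,9,10,11,12,13,14,15,16,17,18,19,20,21,22,23],
  [0,2,1,7,4,21,14,3,8,15,10,18,12,16,6,9,13,19,11,17,20,5,22,23],
  [],
  [1,2,0,12,4,18,14,3,6,9,10,21,7,22,8,15,13,11,19,5,20,17,16,23],
  [1,0,2,3,4,17,8,12,6,15,10,19,7,13,14,9,22,5,21,11,20,18,16,23],
  [],
  [2,0,1,7,4,19,8,12,14,9,10,17,3,16,6,15,22,21,5,18,20,11,13,23],
  [2,1,0,12,4,11,6,7,14,15,10,5,3,22,8,9,16,18,17,21,20,19,13,23],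
  [],
  [2,0,1,9,16,10,3,14,8,6,21,11,12,4,15,7,13,20,18,17,19,5,22,23],
  [1,0,2,15,13,10,7,6,8,14,5,18,12,4,9,3,16,20,11,19,17,21,22,23],
  [2,1,0,15,22,10,3,14,6,8,18,19,7,4,9,12,13,20,21,5,11,17,16,23],
  [],
  [0,1,2,9,13,10,12,8,6,14,17,21,7,4,15,3,22,20,19,11,5,18,16,23],
  [1,2,0,9,22,10,7,6,14,8,11,17,3,4,15,12,16,20,5,21,18,19,13,23],
  [0,2,1,15,16,10,12,8,14,6,19,5,3,4,9,7,22,20,17,18,21,11,13,23],
  [],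
  [],
  [1,2,0,6,13,21,9,15,8,3,5,11,12,16,7,14,4,19,18,20,17,10,22,23],
  [2,1,0,14,16,5,15,9,8,7,21,18,12,13,3,6,4,17,11,20,19,10,22,23],
  [2,0,1,14,22,17,9,15,6,12,18,21,7,13,3,8,4,5,19,20,11,10,16,23],
  [0,2,1,8,13,18,15,9,6,3,17,19,7,22,12,14,4,11,21,20,5,10,16,23],
  [],
  [1,0,2,6,22,19,15,9,14,12,11,5,3,16,7,8,4,21,17,20,18,10,13,23],
  [],
  [0,1,2,8,16,11,9,15,14,7,19,17,3,22,12,6,4,18,5,20,21,10,13,23],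
  [],
  [0,2,1,6,4,19,3,14,12,9,20,11,8,16,7,15,13,21,18,5,10,17,22,23],
  [0,1,2,14,4,17,7,6,12,15,20,18,8,13,3,9,16,5,11,21,10,19,22,23],
  [],
  [2,1,0,8,4,18,7,6,3,9,20,17,14,22,12,15,16,11,5,19,10,21,13,23],
  [2,0,1,6,4,21,12,8,3,15,20,5,14,16,7,9,22,19,17,11,10,18,13,23],
  [],
  [1,0,2,14,4,5,12,8,7,9,20,21,6,13,3,15,22,17,19,18,10,11,16,23],
  [1,2,0,8,4,11,3,14,7,15,20,19,6,22,12,9,13,18,21,17,10,5,16,23],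
  [],
  [2,1,0,3,16,17,9,15,12,6,19,11,8,13,14,7,4,5,18,10,21,20,22,23],
  [1,2,0,7,13,19,15,9,12,14,17,18,8,16,6,3,4,21,11,10,5,20,22,23],
  [1,0,2,7,22,21,9,15,3,8,18,17,14,16,6,12,4,19,5,10,11,20,13,23],
  [0,1,2,12,16,18,15,9,3,6,21,5,14,22,8,7,4,11,17,10,19,20,13,23],
  [],
  [2,0,1,3,22,5,15,9,7,8,11,19,6,13,14,12,4,17,21,10,18,20,16,23],
  [],
  [0,2,1,12,13,11,9,15,7,14,5,21,6,22,8,3,4,18,19,10,17,20,16,23],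
  [],
  [1,0,2,9,13,20,6,7,12,3,17,11,8,4,15,14,16,10,18,21,5,19,22,23],
  [2,0,1,15,16,20,14,3,12,7,19,18,8,4,9,6,13,10,11,5,21,17,22,23],
  [1,2,0,15,22,20,6,7,3,12,18,5,14,4,9,8,16,10,17,19,11,21,13,23],
  [],
  [0,2,1,9,16,20,8,12,3,7,21,17,14,4,15,6,22,10,5,11,19,18,13,23],
  [2,1,0,9,22,20,14,3,7,12,11,21,6,4,15,8,13,10,19,17,18,5,16,23],
  [0,1,2,15,13,20,8,12,7,3,5,19,6,4,9,14,22,10,21,18,17,11,16,23],
  []]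

/-- The table as a function. -/
def T (x : ℕ) : List ℕ := rowsL.getD x []

/-- The test on the elements of the group. -/
def Q (L : List ℕ) : Bool :=
  (mulL L L != idL || L == idL || pairs.any (fun p => p.1 == L)) &&
    (mulL L X0 != mulL X0 L || C48.contains L)

set_option maxHeartbeats 0 in
theorem chkQ : allProd m11Levels idL Q = true := by decide +kernel

theorem hQ : ∀ g ∈ fixIn KD [23], Q (toL (g : GolayPt → GolayPt)) = true :=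
  chain_forall ctxD _ fixKD_trivial Q [23] m11Levels m11Chain_ok chkQ

theorem X0_ok : memD X0 = true ∧ fixCheck [23] X0 = true := by decide +kernel

theorem pairs_ok : pairs.all (fun p => memD p.2 && fixCheck [23] p.2 && mulL p.1 p.2 == mulL p.2 X0) = true := by
  decide +kernel

theorem X0_ne : X0 ≠ idL := by decide +kernel

theorem X0_sq : mulL X0 X0 = idL := by decide +kernel

theorem C48_len : C48.length = 48 := by decide +kernel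

/-- The base involution. -/
theorem exists_x0 : ∃ σ ∈ fixIn KD [23], toL σ = X0 := exists_of_check ctxD [23] X0_ok.1 X0_ok.2

/-- The element of the base group of the chosen involution. -/
noncomputable def x0 : fixIn KD [23] := ⟨exists_x0.choose, exists_x0.choose_spec.1⟩

theorem x0_toL : toL ((x0 : P) : GolayPt → GolayPt) = X0 := exists_x0.choose_spec.2

/-- Every involution of the base group is conjugate to the chosen one. -/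
theorem conj_of_invol (y : fixIn KD [23]) (h1 : y * y = 1) (h2 : y ≠ 1) : ∃ h : fixIn KD [23], h * x0 * h⁻¹ = y := by
  have h3 := hQ y y.2
  simp only [Q, Bool.and_eq_true, Bool.or_eq_true, bne_iff_ne, ne_eq, beq_iff_eq, List.any_eq_true] at h3
  have h4 : mulL (toL ((y : P) : GolayPt → GolayPt)) (toL ((y : P) : GolayPt → GolayPt)) = idL := by
    rw [mulL_toL]
    have : (y : P) * (y : P) = 1 := congrArg Subtype.val h1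
    rw [this]
    exact toL_one
  have h5 : toL ((y : P) : GolayPt → GolayPt) ≠ idL := by
    intro h
    apply h2
    apply Subtype.ext
    apply eq_of_toL_eq
    rw [h]
    exact toL_one.symm
  rcases h3.1 with (h6 | h6) | ⟨p, hp, hp2⟩
  · exact absurd h4 h6
  · exact absurd h6 h5
  · have h7 := List.all_eq_true.1 pairs_ok p hp
    simp only [Bool.and_eq_true, beq_iff_eq] at h7
    obtain ⟨⟨h8, h9⟩, h10⟩ := h7
    obtain ⟨σ, hσ, hσL⟩ := exists_of_check ctxD [23] h8 h9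
    refine ⟨⟨σ, hσ⟩, ?_⟩
    rw [hp2, ← hσL, ← x0_toL, mulL_toL, mulL_toL] at h10
    have h11 := eq_of_toL_eq h10
    apply Subtype.ext
    show σ * (x0 : P) * σ⁻¹ = y
    rw [← h11]
    group

/-- The validity of the code of an invertible matrix. -/
def validGL (x : ℕ) : Bool :=
  Nat.blt (x / 3 / 3 / 3) 3 && !(Nat.beq (x % 3 * (x / 3 / 3 / 3) % 3) (x / 3 % 3 * (x / 3 / 3 % 3) % 3))

theorem validGL_key : ∀ a b c d : ZMod 3, a * d - b * c ≠ 0 →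
    validGL (a.val + 3 * (b.val + 3 * (c.val + 3 * d.val))) = true := by decide

theorem validGL_enc (A : GL (Fin 2) (ZMod 3)) : validGL (enc2 (zmodModel 3) A.1) = true := by
  have hdet : A.1.det ≠ 0 := by
    have := (Matrix.isUnit_iff_isUnit_det _).1 A.isUnit
    exact this.ne_zero
  rw [Matrix.det_fin_two] at hdet
  exact validGL_key _ _ _ _ hdet

theorem forall_gl {p : ℕ → Bool} (chk : (List.range 81).all (fun x => !validGL x || p x) = true)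
    (A : GL (Fin 2) (ZMod 3)) : p (enc2 (zmodModel 3) A.1) = true := by
  have h := List.all_eq_true.mp chk (enc2 (zmodModel 3) A.1)
    (List.mem_range.mpr (by simpa [zmodModel] using enc2_lt (m := zmodModel 3) A.1))
  rw [validGL_enc A] at h
  simpa using h

/-- The code of the identity. -/
def code1 : ℕ := 1 + 3 * (0 + 3 * (0 + 3 * 1))

/-- The test on a code. -/
def PT (x : ℕ) : Bool :=
  memD (T x) && fixCheck [23] (T x) && (mulL (T x) X0 == mulL X0 (T x)) && (x == code1 || T x != idL) &&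
      (List.range 81).all (fun y => !validGL y || T (mul2N (zmodModel 3) x y) == mulL (T x) (T y))

set_option maxHeartbeats 0 in
theorem chkT : (List.range 81).all (fun x => !validGL x || PT x) = true := by
  decide +kernel

theorem hT (A : GL (Fin 2) (ZMod 3)) : PT (enc2 (zmodModel 3) A.1) = true := forall_gl chkT A

theorem exists_f : ∃ f : GL (Fin 2) (ZMod 3) →* fixIn KD [23], ∀ A,
    toL ((f A : P) : GolayPt → GolayPt) = T (enc2 (zmodModel 3) A.1) := by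
  refine exists_hom_of_table ctxD [23] (fun A : GL (Fin 2) (ZMod 3) => enc2 (zmodModel 3) A.1) T (fun _ => True)
    (fun R h _ g => h g trivial) ?_ ?_
  · intro g
    have := hT g
    simp only [PT, Bool.and_eq_true] at this
    exact this.1.1.1
  · intro g s _
    have := hT g
    simp only [PT, Bool.and_eq_true, List.all_eq_true] at this
    have hlt : enc2 (zmodModel 3) s.1 ∈ List.range 81 :=
      List.mem_range.mpr (by simpa [zmodModel] using enc2_lt (m := zmodModel 3) s.1)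
    have h2 := this.2 _ hlt
    rw [validGL_enc s] at h2
    simp only [Bool.not_true, Bool.false_or, beq_iff_eq] at h2
    rw [← enc2_mul] at h2
    exact h2

theorem card_GL : Nat.card (GL (Fin 2) (ZMod 3)) = 48 := by
  rw [Matrix.card_GL_field, Fin.prod_univ_two]
  simp [ZMod.card]

theorem card_centralizer_le : Nat.card (Subgroup.centralizer ({x0} : Set (fixIn KD [23]))) ≤ 48 := by
  classical
  let φ : Subgroup.centralizer ({x0} : Set (fixIn KD [23])) → {l // l ∈ C48.toFinset} := fun g =>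
    ⟨toL (((g : fixIn KD [23]) : P) : GolayPt → GolayPt), by
      have h3 := hQ g.1 g.1.2
      simp only [Q, Bool.and_eq_true, Bool.or_eq_true, bne_iff_ne, ne_eq, List.contains_iff_mem] at h3
      rcases h3.2 with h4 | h4
      · exfalso
        apply h4
        have h5 := Subgroup.mem_centralizer_singleton_iff.1 g.2
        rw [← x0_toL, mulL_toL, mulL_toL]
        have : ((g : fixIn KD [23]) : P) * (x0 : P) = (x0 : P) * ((g : fixIn KD [23]) : P) := by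
          have h6 := congrArg Subtype.val h5
          exact h6
        rw [this]
      · exact List.mem_toFinset.2 h4⟩
  have hφ : Function.Injective φ := by
    intro a b h
    apply Subtype.ext
    apply Subtype.ext
    apply eq_of_toL_eq
    exact congrArg Subtype.val h
  have h1 := Nat.card_le_card_of_injective φ hφ
  have h2 : Nat.card {l // l ∈ C48.toFinset} = C48.toFinset.card := by
    rw [Nat.card_eq_fintype_card, Fintype.card_coe]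
  calc _ ≤ _ := h1
    _ = _ := h2
    _ ≤ C48.length := List.toFinset_card_le _
    _ = 48 := C48_len

theorem base_equiv : Nonempty (Subgroup.centralizer ({x0} : Set (fixIn KD [23])) ≃* GL (Fin 2) (ZMod 3)) := by
  obtain ⟨f, hf⟩ := exists_f
  have hcomm : ∀ A, f A ∈ Subgroup.centralizer ({x0} : Set (fixIn KD [23])) := by
    intro A
    rw [Subgroup.mem_centralizer_singleton_iff]
    have := hT A
    simp only [PT, Bool.and_eq_true, beq_iff_eq] at this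
    have h2 := this.1.1.2
    rw [← hf, ← x0_toL, mulL_toL, mulL_toL] at h2
    apply Subtype.ext
    exact eq_of_toL_eq h2
  let f' : GL (Fin 2) (ZMod 3) →* Subgroup.centralizer ({x0} : Set (fixIn KD [23])) := f.codRestrict _ hcomm
  have hinj : Function.Injective f' := by
    rw [← MonoidHom.ker_eq_bot_iff, eq_bot_iff]
    intro A hA
    rw [MonoidHom.mem_ker] at hA
    have h1 : f A = 1 := congrArg Subtype.val hA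
    have := hT A
    simp only [PT, Bool.and_eq_true, Bool.or_eq_true, beq_iff_eq, bne_iff_ne, ne_eq] at this
    rcases this.1.2 with h2 | h2
    · rw [Subgroup.mem_bot]
      apply Units.ext
      apply enc2_injective (m := zmodModel 3)
      rw [h2]
      decide +kernel
    · exfalso
      apply h2
      rw [← hf, h1]
      exact toL_one
  have hc : Nat.card (GL (Fin 2) (ZMod 3)) = Nat.card (Subgroup.centralizer ({x0} : Set (fixIn KD [23]))) :=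
    le_antisymm (Nat.card_le_card_of_injective f' hinj) (by rw [card_GL]; exact card_centralizer_le)
  have hbij := (Nat.bijective_iff_injective_and_card f').2 ⟨hinj, hc⟩
  exact ⟨(MulEquiv.ofBijective f' hbij).symm⟩

/-- Centralisers under an isomorphism. -/
theorem centralizer_equiv {A B : Type*} [Group A] [Group B] (φ : A ≃* B) (x : A) (y : B) (h : φ x = y) :
    Nonempty (Subgroup.centralizer ({x} : Set A) ≃* Subgroup.centralizer ({y} : Set B)) := by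
  subst h
  refine ⟨{ toFun := fun a => ⟨φ a, ?_⟩, invFun := fun b => ⟨φ.symm b, ?_⟩, left_inv := ?_, right_inv := ?_, map_mul' := ?_ }⟩
  · have := Subgroup.mem_centralizer_singleton_iff.1 a.2
    rw [Subgroup.mem_centralizer_singleton_iff, ← map_mul, this, map_mul]
  · have := Subgroup.mem_centralizer_singleton_iff.1 b.2
    rw [Subgroup.mem_centralizer_singleton_iff]
    apply φ.injective
    simp [this]
  · intro a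
    apply Subtype.ext
    simp
  · intro b
    apply Subtype.ext
    simp
  · intro a b
    apply Subtype.ext
    simp


/-- Involution centralisers in the smallest Mathieu group are isomorphic to GL(2, 3). -/
theorem result (d : Finset Cfsg.GolayPt) (hd : d ∈ Cfsg.dodecads) (p : Cfsg.GolayPt) (hp : p ∈ d) (x : ↥(MulAction.stabilizer Cfsg.M24 d ⊓ MulAction.stabilizer Cfsg.M24 p)) (hx : orderOf x = 2) : Nonempty (↥(Subgroup.centralizer ({x} : Set ↥(MulAction.stabilizer Cfsg.M24 d ⊓ MulAction.stabilizer Cfsg.M24 p))) ≃* GL (Fin 2) (ZMod 3)) := by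
  obtain ⟨u, hu, hud, hup⟩ := exists_to_base hd hp
  have hmem : ∀ x : Cfsg.M24, x ∈ (MulAction.stabilizer Cfsg.M24 d ⊓ MulAction.stabilizer Cfsg.M24 p) ↔
      (u⁻¹ * (x : P) * u⁻¹⁻¹) ∈ fixIn KD [23] := by
    intro x
    rw [Subgroup.mem_inf, mem_stab_iff', mem_stabilizer_M24, mem_fixIn, mem_KD, inv_inv]
    simp only [List.mem_singleton, forall_eq, Equiv.Perm.mul_apply]
    have hmemM : u⁻¹ * (x : P) * u ∈ Cfsg.M24 := Cfsg.M24.mul_mem (Cfsg.M24.mul_mem (Cfsg.M24.inv_mem hu) x.2) hu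
    rw [hup, Equiv.Perm.inv_eq_iff_eq, hup, mul_smul, mul_smul, hud, inv_smul_eq_iff, hud]
    constructor
    · rintro ⟨h1, h2⟩
      exact ⟨⟨hmemM, h1⟩, h2⟩
    · rintro ⟨⟨-, h1⟩, h2⟩
      exact ⟨h1, h2⟩
  let e := conjEquiv (B := fixIn KD [23]) (Cfsg.M24.inv_mem hu) (fun g hg => ctxD.le hg.1) hmem
  have hy1 : e x * e x = 1 := by
    rw [← map_mul, ← pow_two, ← hx, pow_orderOf_eq_one, map_one]
  have hy2 : e x ≠ 1 := by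
    intro h
    have h1 : x = 1 := e.injective (by rw [h, map_one])
    rw [h1, orderOf_one] at hx
    omega
  obtain ⟨h, hh⟩ := conj_of_invol (e x) hy1 hy2
  obtain ⟨e1⟩ := centralizer_equiv e x (e x) rfl
  obtain ⟨e2⟩ := centralizer_equiv (MulAut.conj h) x0 (e x) (by rw [MulAut.conj_apply, hh])
  obtain ⟨e3⟩ := base_equiv
  exact ⟨e1.trans (e2.symm.trans e3)⟩

end Cfsg.Agent.S1603
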