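import Cfsg.Statements.S1610
import Mathlib
import Cfsg.Agent.Lib.Compute.GF4
-- import your own Cfsg.Agent.* helpers here

set_option autoImplicit false
open Cfsg

namespace Cfsg.Agent.S1610

open Cfsg.Agent.Lib.Compute.GF4

/-- The hexacode word with coefficients `a, b, c` over `F4`. -/
def wv (ω a b c : F4) : Fin 6 → F4 :=
  ![a * ω + b * ω ^ 2 + c * ω ^ 2, a * ω ^ 2 + b * ω + c * ω, a * ω ^ 2 + b * ω + c * ω ^ 2,
    a * ω + b * ω ^ 2 + c * ω, a * ω ^ 2 + b * ω ^ 2 + c * ω, a * ω + b * ω + c * ω ^ 2]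

def wtN (ω a b c : F4) : ℕ := (Finset.univ.filter fun i => wv ω a b c i ≠ 0).card

def Chk (ω : F4) : Prop :=
  (∀ a b c a' b' c' : F4, (∀ i, wv ω a b c i = wv ω a' b' c' i) → a = a' ∧ b = b' ∧ c = c') ∧
  (∀ a b c : F4, ¬ (a = 0 ∧ b = 0 ∧ c = 0) → wtN ω a b c = 4 ∨ wtN ω a b c = 6) ∧
  (Finset.univ.filter fun s : F4 × F4 × F4 => wtN ω s.1 s.2.1 s.2.2 = 4).card = 45 ∧
  (Finset.univ.filter fun s : F4 × F4 × F4 => wtN ω s.1 s.2.1 s.2.2 = 6).card = 18

instance (ω : F4) : Decidable (Chk ω) := by unfold Chk; infer_instance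

set_option maxRecDepth 100000 in
theorem chk_w : Chk F4.w := by decide +kernel

set_option maxRecDepth 100000 in
theorem chk_v : Chk F4.v := by decide +kernel

theorem chk_of (ω : F4) (h : ω ^ 2 + ω + 1 = 0) : Chk ω := by
  have : ω = F4.w ∨ ω = F4.v := by
    revert ω
    decide
  rcases this with rfl | rfl
  · exact chk_w
  · exact chk_v


/-- The hexacode has 64 words, minimum weight 4, and weight distribution 0^1 4^45 6^18. -/
theorem result (F : Type*) [Field F] [Fintype F] [DecidableEq F] (hF : Fintype.card F = 4) (ω : F) (hω : ω ^ 2 + ω + 1 = 0) : Nat.card ↥(Cfsg.hexacode F ω) = 64 ∧ (∀ x ∈ Cfsg.hexacode F ω, x ≠ 0 → (Finset.univ.filter fun i => x i ≠ 0).card = 4 ∨ (Finset.univ.filter fun i => x i ≠ 0).card = 6) ∧ {x : Fin 6 → F | x ∈ Cfsg.hexacode F ω ∧ (Finset.univ.filter fun i => x i ≠ 0).card = 4}.ncard = 45 ∧ {x : Fin 6 → F | x ∈ Cfsg.hexacode F ω ∧ (Finset.univ.filter fun i => x i ≠ 0).card = 6}.ncard = 18 := by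
  set e := equivOfCard F hF with he
  set ω' := e ω with hω'
  have hc : Chk ω' := chk_of ω' (by
    rw [hω', ← map_pow, ← map_add, ← map_one e, ← map_add, hω, map_zero])
  obtain ⟨hinj, hwts, h45, h18⟩ := hc
  let Φ : F × F × F → (Fin 6 → F) := fun t =>
    t.1 • ![ω, ω ^ 2, ω ^ 2, ω, ω ^ 2, ω] + t.2.1 • ![ω ^ 2, ω, ω, ω ^ 2, ω ^ 2, ω] +
      t.2.2 • ![ω ^ 2, ω, ω ^ 2, ω, ω, ω ^ 2]
  have hmem : ∀ x, x ∈ Cfsg.hexacode F ω ↔ ∃ t, Φ t = x := by
    intro x
    rw [Cfsg.hexacode, Submodule.mem_span_triple]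
    constructor
    · rintro ⟨a, b, c, rfl⟩
      exact ⟨(a, b, c), rfl⟩
    · rintro ⟨⟨a, b, c⟩, rfl⟩
      exact ⟨a, b, c, rfl⟩
  have hΦe : ∀ t i, e (Φ t i) = wv ω' (e t.1) (e t.2.1) (e t.2.2) i := by
    rintro ⟨a, b, c⟩ i
    fin_cases i <;> simp [Φ, wv, map_add, map_mul, map_pow, hω']
  have hwt : ∀ t, (Finset.univ.filter fun i => Φ t i ≠ 0).card =
      wtN ω' (e t.1) (e t.2.1) (e t.2.2) := by
    intro t
    unfold wtN
    apply congrArg Finset.card
    ext i
    simp only [Finset.mem_filter, Finset.mem_univ, true_and, ← hΦe]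
    rw [ne_eq, ne_eq, map_eq_zero_iff e e.injective]
  have hΦinj : Function.Injective Φ := by
    intro s t hst
    have h := hinj (e s.1) (e s.2.1) (e s.2.2) (e t.1) (e t.2.1) (e t.2.2) (fun i => by
      rw [← hΦe, ← hΦe, hst])
    obtain ⟨h1, h2, h3⟩ := h
    exact Prod.ext (e.injective h1) (Prod.ext (e.injective h2) (e.injective h3))
  let E : F × F × F → F4 × F4 × F4 := fun t => (e t.1, e t.2.1, e t.2.2)
  have hEinj : Function.Injective E := by
    intro s t hst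
    have h1 := congrArg Prod.fst hst
    have h2 := congrArg (fun x => x.2.1) hst
    have h3 := congrArg (fun x => x.2.2) hst
    exact Prod.ext (e.injective h1) (Prod.ext (e.injective h2) (e.injective h3))
  have hEsurj : Function.Surjective E := by
    rintro ⟨a, b, c⟩
    exact ⟨(e.symm a, e.symm b, e.symm c), by simp [E]⟩
  have hcount : ∀ k m : ℕ,
      (Finset.univ.filter fun s : F4 × F4 × F4 => wtN ω' s.1 s.2.1 s.2.2 = k).card = m →
      {x : Fin 6 → F | x ∈ Cfsg.hexacode F ω ∧ (Finset.univ.filter fun i => x i ≠ 0).card = k}.ncard = m := by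
    intro k m hm
    have h1 : {x : Fin 6 → F | x ∈ Cfsg.hexacode F ω ∧ (Finset.univ.filter fun i => x i ≠ 0).card = k} =
        Φ '' (E ⁻¹' (↑(Finset.univ.filter fun s : F4 × F4 × F4 => wtN ω' s.1 s.2.1 s.2.2 = k))) := by
      ext x
      simp only [Set.mem_ofPred_eq, hmem, Set.mem_image, Set.mem_preimage, Finset.coe_filter,
        Finset.mem_univ, true_and]
      constructor
      · rintro ⟨⟨t, rfl⟩, h⟩
        exact ⟨t, by rw [← hwt t]; exact h, rfl⟩
      · rintro ⟨t, h, rfl⟩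
        exact ⟨⟨t, rfl⟩, by rw [hwt t]; exact h⟩
    rw [h1, Set.ncard_image_of_injective _ hΦinj,
      Set.ncard_preimage_of_injective_subset_range hEinj (by rw [hEsurj.range_eq]; exact Set.subset_univ _),
      Set.ncard_coe_finset, hm]
  refine ⟨?_, ?_, hcount 4 45 h45, hcount 6 18 h18⟩
  · have h : Nat.card ↥(Cfsg.hexacode F ω) = Nat.card (F × F × F) := by
      refine Nat.card_congr (Equiv.ofBijective (fun t => ⟨Φ t, (hmem _).2 ⟨t, rfl⟩⟩) ⟨?_, ?_⟩).symm
      · intro s t hst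
        exact hΦinj (congrArg Subtype.val hst)
      · rintro ⟨x, hx⟩
        obtain ⟨t, rfl⟩ := (hmem x).1 hx
        exact ⟨t, rfl⟩
    rw [h, Nat.card_prod, Nat.card_prod, Nat.card_eq_fintype_card, hF]
  · intro x hx hx0
    obtain ⟨t, rfl⟩ := (hmem x).1 hx
    rw [hwt t]
    apply hwts
    rintro ⟨h1, h2, h3⟩
    apply hx0
    have h1' := (map_eq_zero_iff e e.injective).1 h1
    have h2' := (map_eq_zero_iff e e.injective).1 h2
    have h3' := (map_eq_zero_iff e e.injective).1 h3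
    simp [Φ, h1', h2', h3']

end Cfsg.Agent.S1610
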