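import Cfsg.Statements.S1612
import Cfsg.Agent.Lib.Fischer.Perfect
import Cfsg.Agent.Lib.Fischer.MaxComm

set_option autoImplicit false
open Cfsg

namespace Cfsg.Agent.S1612

/-- In a 3-transposition group (no solvable normal subgroup, perfect derived group), the normaliser of a commuting set of transpositions of maximum size contains a Sylow 2-subgroup and is doubly transitive on the set. -/
theorem result {G : Type*} [Group G] [Finite G] (hsol : ∀ N : Subgroup G, N.Normal → Group.IsSolvable ↥N → N = ⊥) (hperf : ⁅commutator G, commutator G⁆ = commutator G) {D : Set G} (hD : Cfsg.IsThreeTranspositionClass D) {E : Set G} (hE : E ⊆ D) (hc : ∀ a ∈ E, ∀ b ∈ E, Commute a b) (hmax : ∀ E' : Set G, E' ⊆ D → (∀ a ∈ E', ∀ b ∈ E', Commute a b) → E'.ncard ≤ E.ncard) : (∃ P : Sylow 2 G, (P : Subgroup G) ≤ Subgroup.normalizer E) ∧ ∀ a ∈ E, ∀ b ∈ E, ∀ c ∈ E, ∀ d ∈ E, a ≠ b → c ≠ d → ∃ g ∈ Subgroup.normalizer E, g * a * g⁻¹ = c ∧ g *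 b * g⁻¹ = d := by
  obtain ⟨hs, hna⟩ := Cfsg.Agent.Lib.Fischer.Perfect.simple_of_hsol hsol hperf hD
  have hmod := Cfsg.Agent.Lib.Fischer.Prim.noMod_of_simple hD hs hna
  have h := Cfsg.Agent.Lib.Fischer.Basic.TT.of_class hD
  have hE' : Cfsg.Agent.Lib.Fischer.MaxComm.IsMaxC D E := ⟨hE, hc, hmax⟩
  have hDg : Cfsg.IsThreeTranspositionGroup D := ⟨hD.1, h.conj, hD.2.2⟩
  refine ⟨Cfsg.Agent.Lib.Fischer.MaxComm.exists_sylow_le hDg hE', ?_⟩
  intro a ha b hb c hc' d hd hab hcd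
  exact Cfsg.Agent.Lib.Fischer.MaxComm.two_transitive hD hmod hE' ha hb hc' hd hab hcd

end Cfsg.Agent.S1612
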