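import Cfsg.Statements.S1613
import Cfsg.Agent.Lib.Fischer.Perfect
import Cfsg.Agent.Lib.Fischer.MaxComm

set_option autoImplicit false
open Cfsg

namespace Cfsg.Agent.S1613

/-- For a transposition x of a Fischer 3-transposition group, the transpositions commuting with x (other than x) form one conjugacy class of the subgroup they generate. -/
theorem result {G : Type*} [Group G] [Finite G] (hsol : ∀ N : Subgroup G, N.Normal → Group.IsSolvable ↥N → N = ⊥) (hperf : ⁅commutator G, commutator G⁆ = commutator G) {D : Set G} (hD : Cfsg.IsThreeTranspositionClass D) (x : G) (hx : x ∈ D) : ∀ y ∈ {y : G | y ∈ D ∧ y ≠ x ∧ Commute x y}, ∀ y' ∈ {y : G | y ∈ D ∧ y ≠ x ∧ Commute x y}, ∃ g ∈ Subgroup.closure {y : G | y ∈ D ∧ y ≠ x ∧ Commute x y}, g * y * g⁻¹ = y' := by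
  obtain ⟨hs, hna⟩ := Cfsg.Agent.Lib.Fischer.Perfect.simple_of_hsol hsol hperf hD
  have hmod := Cfsg.Agent.Lib.Fischer.Prim.noMod_of_simple hD hs hna
  intro y hy y' hy'
  exact Cfsg.Agent.Lib.Fischer.Rank3.trans_dlt (Cfsg.Agent.Lib.Fischer.Basic.TT.of_class hD)
    (fun a ha b hb => Cfsg.Agent.Lib.Fischer.Basic.exists_conj hD ha hb) hmod hx hy hy'

end Cfsg.Agent.S1613
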