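import Cfsg.Statements.S1615
import Cfsg.Agent.Lib.Fischer.OddS5

set_option autoImplicit false
open Cfsg

namespace Cfsg.Agent.S1615

open Cfsg.Agent.Lib.Fischer.Basic Cfsg.Agent.Lib.Fischer.OddS5

/-- If O(⟨D_x⟩) is not central in ⟨D_x⟩ for some transposition x, the 3-transposition group is the symmetric group of degree 5. -/
theorem result {G : Type*} [Group G] [Finite G] (hsol : ∀ N : Subgroup G, N.Normal → Group.IsSolvable ↥N → N = ⊥) (hperf : ⁅commutator G, commutator G⁆ = commutator G) {D : Set G} (hD : Cfsg.IsThreeTranspositionClass D) (x : G) (hx : x ∈ D) (h : ¬ Cfsg.oddCore ↥(Subgroup.closure {y : G | y ∈ D ∧ y ≠ x ∧ Commute x y}) ≤ Subgroup.center ↥(Subgroup.closure {y : G | y ∈ D ∧ y ≠ x ∧ Commute x y})) : Nonempty (G ≃* Equiv.Perm (Fin 5)) := by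
  classical
  have tt := TT.of_class hD
  have hgen := hD.2.2
  haveI : Fact (Nat.Prime 3) := ⟨Nat.prime_three⟩
  haveI hn3 : (pCore 3 G).Normal := Cfsg.Agent.Lib.Nilpotent.Fitting.pCore_normal 3
  have h3 : pCore 3 G = ⊥ := hsol _ hn3
    (@IsNilpotent.to_isSolvable _ _ (Cfsg.Agent.Lib.Nilpotent.Fitting.isNilpotent_pCore 3))
  set X : Set G := {y : G | y ∈ D ∧ y ≠ x ∧ Commute x y} with hX
  set H : Subgroup G := Subgroup.closure X with hH
  have hHc : ∀ g ∈ H, Commute x g := by
    intro g hg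
    have hle : H ≤ Subgroup.centralizer ({x} : Set G) := by
      rw [hH, Subgroup.closure_le]
      intro e he
      rw [SetLike.mem_coe, Subgroup.mem_centralizer_iff]
      intro y hy
      rw [Set.mem_singleton_iff] at hy
      subst hy
      exact he.2.2
    have := hle hg
    rw [Subgroup.mem_centralizer_iff] at this
    exact this x rfl
  haveI hNn : (oddCore ↥H).Normal := pPrimeCore_normal 2 ↥H
  have hcard : (Nat.card (oddCore ↥H)).Coprime 2 :=
    Cfsg.Agent.Lib.Solvable.PSeries.pPrimeCore_coprime 2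
  obtain ⟨n, hnN, hnZ⟩ := SetLike.not_le_iff_exists.1 h
  have hex : ∃ a ∈ X, ¬ Commute a (n : G) := by
    by_contra hno
    push Not at hno
    apply hnZ
    rw [Subgroup.mem_center_iff]
    rintro ⟨g, hg⟩
    have hle : H ≤ Subgroup.centralizer ({(n : G)} : Set G) := by
      refine (Subgroup.closure_le _).2 ?_
      intro e he
      rw [SetLike.mem_coe, Subgroup.mem_centralizer_iff]
      intro y hy
      rw [Set.mem_singleton_iff] at hy
      subst hy
      exact (hno e he).symm
    have := hle hg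
    rw [Subgroup.mem_centralizer_iff] at this
    exact Subtype.ext (this n rfl).symm
  obtain ⟨y, hyX, hyn⟩ := hex
  have hyD : y ∈ D := hyX.1
  have hyy : y * y = 1 := tt.sq y hyD
  have hiy : y⁻¹ = y := tt.inv_eq hyD
  have hzD : (n : G) * y * (n : G)⁻¹ ∈ D := tt.conj _ _ hyD
  have hxn : Commute x (n : G) := hHc _ n.2
  have hxy : Commute x y := hyX.2.2
  have hxz : Commute x ((n : G) * y * (n : G)⁻¹) := (hxn.mul_right hxy).mul_right hxn.inv_right
  have hzx : (n : G) * y * (n : G)⁻¹ ≠ x := by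
    intro he
    apply hyX.2.1
    have e : y = (n : G)⁻¹ * x * (n : G) := by rw [← he]; group
    rw [e, mul_assoc, hxn.eq]
    group
  have hzX : (n : G) * y * (n : G)⁻¹ ∈ X := ⟨hzD, hzx, hxz⟩
  set z : G := (n : G) * y * (n : G)⁻¹ with hzdef
  let y' : ↥H := ⟨y, Subgroup.subset_closure hyX⟩
  let z' : ↥H := ⟨z, Subgroup.subset_closure hzX⟩
  have hiy' : y'⁻¹ = y' := Subtype.ext hiy
  have hzz : z * z = 1 := tt.sq z hzD
  have hyz' : y' * z' ∈ oddCore ↥H := by
    have e : y' * z' = (y' * n * y'⁻¹) * n⁻¹ := by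
      apply Subtype.ext
      show y * ((n : G) * y * (n : G)⁻¹) = y * (n : G) * y⁻¹ * (n : G)⁻¹
      rw [hiy]
      group
    rw [e]
    exact Subgroup.mul_mem _ (hNn.conj_mem _ hnN _) (Subgroup.inv_mem _ hnN)
  have hzy' : z' * y' ∈ oddCore ↥H := by
    have e : z' * y' = (y' * z')⁻¹ := by
      apply Subtype.ext
      show z * y = (y * z)⁻¹
      rw [mul_inv_rev, hiy, tt.inv_eq hzD]
    rw [e]
    exact Subgroup.inv_mem _ hyz'
  have hyzne : y ≠ z := by
    intro he
    apply hyn
    have e : y * (n : G) = (n : G) * y := by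
      conv_lhs => rw [he, hzdef]
      group
    exact e
  have hyz : ¬ Commute y z := by
    intro hc
    have t2 : (y' * z') * (y' * z') = 1 := by
      apply Subtype.ext
      show (y * z) * (y * z) = 1
      calc (y * z) * (y * z) = y * (z * y) * z := by group
        _ = y * (y * z) * z := by rw [hc.eq]
        _ = (y * y) * (z * z) := by group
        _ = 1 := by rw [hyy, hzz, one_mul]
    have t1 := inv_odd (oddCore ↥H) hcard hyz' t2
    have t3 : y * z = 1 := congrArg Subtype.val t1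
    apply hyzne
    have := eq_inv_of_mul_eq_one_left t3
    rwa [tt.inv_eq hzD] at this
  -- the property of the line
  have base : ∀ w ∈ D, Commute w x → w ≠ y → w ≠ z → (Commute w y ↔ Commute w z) := by
    intro w hw hwx hwy hwz
    by_cases hwx' : w = x
    · subst hwx'
      exact ⟨fun _ => hxz, fun _ => hxy⟩
    have hwX : w ∈ X := ⟨hw, hwx', hwx.symm⟩
    let w' : ↥H := ⟨w, Subgroup.subset_closure hwX⟩
    have hww : w' * w' = 1 := Subtype.ext (tt.sq w hw)
    have hyy' : y' * y' = 1 := Subtype.ext hyy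
    have hzz' : z' * z' = 1 := Subtype.ext hzz
    constructor
    · intro h1
      by_contra h2
      exact odd_core_aux (oddCore ↥H) hcard hww hyy' hzz' hyz' (Subtype.ext h1)
        (Subtype.ext (tt.braid hw hzD h2)) (fun he => hwy (congrArg Subtype.val he))
    · intro h1
      by_contra h2
      exact odd_core_aux (oddCore ↥H) hcard hww hzz' hyy' hzy' (Subtype.ext h1)
        (Subtype.ext (tt.braid hw hyD h2)) (fun he => hwz (congrArg Subtype.val he))
  -- twins do not exist
  have hntw : ¬ Cfsg.Agent.Lib.Fischer.WClass.Tw D y z := by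
    intro ht
    have hm := Cfsg.Agent.Lib.Fischer.WClass.mul_mem_pCore_of_tw tt hyD hzD ht
    rw [h3, Subgroup.mem_bot] at hm
    apply hyzne
    have := eq_inv_of_mul_eq_one_left hm
    rwa [tt.inv_eq hzD] at this
  have key : ∃ v ∈ D, (v ≠ y ∧ Commute v y ∧ ¬ Commute v z) ∨ (v ≠ z ∧ Commute v z ∧ ¬ Commute v y) := by
    by_contra hno
    apply hntw
    ext u
    constructor
    · rintro ⟨hu, h1, h2⟩
      refine ⟨hu, ?_, ?_⟩
      · rintro rfl
        exact hyz h2
      · by_contra h3'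
        exact hno ⟨u, hu, Or.inl ⟨h1, h2.symm, fun h => h3' h.symm⟩⟩
    · rintro ⟨hu, h1, h2⟩
      refine ⟨hu, ?_, ?_⟩
      · rintro rfl
        exact hyz h2.symm
      · by_contra h3'
        exact hno ⟨u, hu, Or.inr ⟨h1, h2.symm, fun h => h3' h.symm⟩⟩
  obtain ⟨v, hv, ⟨vy, cvy, nvz⟩ | ⟨vz, cvz, nvy⟩⟩ := key
  · have vz : v ≠ z := by
      rintro rfl
      exact hyz cvy.symm
    have nvx : ¬ Commute v x := fun hc => nvz ((base v hv hc vy vz).1 cvy)
    obtain ⟨φ, S⟩ := sys_of_chain tt hx hv hzD hyD hxz hxy cvy (fun h => nvx h.symm) nvz (fun h => hyz h.symm)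
      (Ne.symm hzx) base
    exact S.iso hD h3
  · have vy : v ≠ y := by
      rintro rfl
      exact hyz cvz
    have nvx : ¬ Commute v x := fun hc => nvy ((base v hv hc vy vz).2 cvz)
    obtain ⟨φ, S⟩ := sys_of_chain tt hx hv hyD hzD hxy hxz cvz (fun h => nvx h.symm) nvy hyz
      (Ne.symm hyX.2.1) (fun w hw h1 h2 h4 => (base w hw h1 h4 h2).symm)
    exact S.iso hD h3

end Cfsg.Agent.S1615
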