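import Cfsg.Statements.S1624
import Cfsg.Agent.Lib.Compute.G24J2.Hundred
import Cfsg.Agent.Lib.Compute.G2Two
import Cfsg.Agent.Lib.Compute.Schur2.PresIso
import Cfsg.Agent.S1057

set_option autoImplicit false
set_option maxRecDepth 100000
open Cfsg

namespace Cfsg.Agent.S1624

open Cfsg.Agent.Lib.Compute.SchurLin Cfsg.Agent.Lib.Compute.Schur2 Cfsg.Agent.Lib.Compute.PermCert MulAction
open Cfsg.Agent.Lib.Compute.ToddCoxeterCore (wordEl wordEl_nil wordEl_cons wordEl_append)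
open Cfsg.Agent.Lib.Sporadic.J2.Group Cfsg.Agent.Lib.Compute.GFModel Cfsg.Agent.Lib.Compute.MatCode
open Cfsg.Agent.Lib.Compute.G24J2 Cfsg.Agent.Lib.Classical.Herm
open Cfsg.Agent.Lib.Compute.G2Two (hF9 U U_mem uc uc_valid Um W W_eq card_SU3)

/-! ### The orbits -/

theorem cl_inv : allB (fun i => allB (fun x => Nat.beq (clF (cJ.t i x)) (clF i)) 4) 100 = true := by decide +kernel

theorem clV_step {i : ℕ} (hi : i < 100) {x : ℕ} (hx : x < 4) : clV (ltr gJ x • om i) = clV (om i) := by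
  have h1 : ltr gJ x • om i = om (cJ.t i x) := tabJ.1.hact i hi x (by show x < 6; omega)
  have h2 : cJ.t i x < 100 := tabJ.1.hlt i hi x (by show x < 6; omega)
  have h3 := (allB_iff _ _).mp ((allB_iff _ _).mp cl_inv i hi) x hx
  have h4 : clF (cJ.t i x) = clF i := Nat.eq_of_beq_eq_true h3
  rw [h1]
  have e1 := clV_om ⟨_, h2⟩
  have e2 := clV_om ⟨_, hi⟩
  simp only at e1 e2
  rw [e1, e2]
  exact Fin.ext h4

theorem om_surj' (q : J315 ⧸ LJ) : ∃ i : Fin 100, om i = q := ⟨omE.symm q, omE.apply_symm_apply q⟩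

theorem clV_ltr {x : ℕ} (hx : x < 4) (q : J315 ⧸ LJ) : clV (ltr gJ x • q) = clV q := by
  obtain ⟨i, rfl⟩ := om_surj' q
  exact clV_step i.2 hx

theorem clV_inv {g : J315} (h : ∀ q : J315 ⧸ LJ, clV (g • q) = clV q) (q : J315 ⧸ LJ) : clV (g⁻¹ • q) = clV q := by
  have := h (g⁻¹ • q)
  rw [smul_inv_smul] at this
  exact this.symm

theorem clV_LJ {g : J315} (hg : g ∈ LJ) (q : J315 ⧸ LJ) : clV (g • q) = clV q := by
  revert q
  induction hg using Subgroup.closure_induction with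
  | mem x hx =>
    obtain ⟨k, hk, rfl⟩ := hx
    intro q
    have hk' : 21 ≤ k := hk
    rcases Nat.lt_or_ge k 23 with h | h
    · have h2 : k = 21 ∨ k = 22 := by omega
      rcases h2 with rfl | rfl
      · have e : cJ.W.getD 21 [] = [0] := by decide +kernel
        rw [e, wordEl_cons, wordEl_nil, one_mul]
        exact clV_ltr (x := 0) (by norm_num) q
      · have e : cJ.W.getD 22 [] = [2] := by decide +kernel
        rw [e, wordEl_cons, wordEl_nil, one_mul]
        exact clV_ltr (x := 2) (by norm_num) q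
    · have hlen : cJ.W.length = 23 := by decide +kernel
      rw [List.getD_eq_default _ _ (by omega), wordEl_nil, one_smul]
  | one =>
    intro q
    rw [one_smul]
  | mul x y _ _ hx hy =>
    intro q
    rw [mul_smul, hx, hy]
  | inv x _ hx => exact clV_inv hx

theorem orbit_LJ (i : Fin 100) (hroot : rootOf (clF i) = i.val) :
    orbit ↥LJ (om i) = {q | clV q = clV (om i)} := by
  ext q
  constructor
  · rintro ⟨⟨g, hg⟩, rfl⟩
    show clV (g • om i) = clV (om i)
    exact clV_LJ hg _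
  · intro hq
    obtain ⟨j, rfl⟩ := om_surj' q
    have h1 : clV (om j) = clV (om i) := hq
    rw [clV_om, clV_om] at h1
    have hc : clF j = clF i := congrArg Fin.val h1
    refine ⟨⟨wE j, wE_mem j.2⟩, ?_⟩
    have h2 := wE_smul j.2
    rw [hc, hroot] at h2
    exact h2

theorem ncard_class (c : Fin 3) : {q : J315 ⧸ LJ | clV q = c}.ncard = (![1, 63, 36] : Fin 3 → ℕ) c := by
  classical
  rw [← count_cl c, ← Set.ncard_coe_finset]
  have hinj : Function.Injective omE := omE.injective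
  rw [← Set.ncard_image_of_injective _ hinj]
  congr 1
  ext q
  constructor
  · intro hq
    obtain ⟨j, rfl⟩ := omE.surjective q
    refine ⟨j, ?_, rfl⟩
    simp only [Finset.coe_filter, Finset.mem_univ, true_and, Set.mem_setOf_eq] at hq ⊢
    rw [omE_apply, clV_om] at hq
    exact hq
  · rintro ⟨j, hj, rfl⟩
    simp only [Finset.coe_filter, Finset.mem_univ, true_and, Set.mem_setOf_eq] at hj ⊢
    rw [omE_apply, clV_om]
    exact hj

theorem orbit13 : (orbit ↥LJ (om 13)).ncard = 36 := by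
  have h := orbit_LJ ⟨13, by norm_num⟩ (by decide +kernel)
  rw [show ((⟨13, by norm_num⟩ : Fin 100) : ℕ) = 13 from rfl] at h
  rw [h, clV_om ⟨13, by norm_num⟩]
  have h2 : (⟨clF (⟨13, by norm_num⟩ : Fin 100), clF_lt (⟨13, by norm_num⟩ : Fin 100).2⟩ : Fin 3) = 2 := by decide +kernel
  rw [h2]
  exact ncard_class 2

theorem orbit1 : (orbit ↥LJ (om 1)).ncard = 63 := by
  have h := orbit_LJ ⟨1, by norm_num⟩ (by decide +kernel)
  rw [show ((⟨1, by norm_num⟩ : Fin 100) : ℕ) = 1 from rfl] at h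
  rw [h, clV_om ⟨1, by norm_num⟩]
  have h2 : (⟨clF (⟨1, by norm_num⟩ : Fin 100), clF_lt (⟨1, by norm_num⟩ : Fin 100).2⟩ : Fin 3) = 1 := by decide +kernel
  rw [h2]
  exact ncard_class 1

/-- Orbits along an isomorphism. -/
theorem orbit_transport {A B : Type*} [Group A] [Group B] (e : A ≃* B) (L : Subgroup B) (q : B ⧸ L) :
    ∃ c : A ⧸ L.comap e.toMonoidHom, (orbit ↥(L.comap e.toMonoidHom) c).ncard = (orbit ↥L q).ncard := by
  set K := L.comap e.toMonoidHom with hK
  obtain ⟨b, rfl⟩ := QuotientGroup.mk_surjective q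
  refine ⟨((e.symm b : A) : A ⧸ K), ?_⟩
  have hw : ∀ x y : A, (QuotientGroup.leftRel K) x y → (QuotientGroup.leftRel L) (e x) (e y) := by
    intro x y h
    rw [QuotientGroup.leftRel_apply] at h ⊢
    have h1 : e (x⁻¹ * y) ∈ L := h
    simpa using h1
  let ψ : A ⧸ K → B ⧸ L := Quotient.map' e hw
  have hψ : ∀ x : A, ψ ((x : A) : A ⧸ K) = ((e x : B) : B ⧸ L) := fun _ => rfl
  have hinj : Function.Injective ψ := by
    intro u v huv
    obtain ⟨x, rfl⟩ := QuotientGroup.mk_surjective u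
    obtain ⟨y, rfl⟩ := QuotientGroup.mk_surjective v
    rw [hψ, hψ] at huv
    have h1 : (e x)⁻¹ * e y ∈ L := QuotientGroup.eq.mp huv
    apply QuotientGroup.eq.mpr
    show e (x⁻¹ * y) ∈ L
    simpa using h1
  rw [← Set.ncard_image_of_injective _ hinj]
  congr 1
  ext u
  constructor
  · rintro ⟨_, ⟨⟨h, hh⟩, rfl⟩, rfl⟩
    refine ⟨⟨e h, hh⟩, ?_⟩
    show ((e h * b : B) : B ⧸ L) = ((e (h * e.symm b) : B) : B ⧸ L)
    simp
  · rintro ⟨⟨l, hl⟩, rfl⟩
    refine ⟨_, ⟨⟨e.symm l, ?_⟩, rfl⟩, ?_⟩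
    · show e (e.symm l) ∈ L
      simpa using hl
    · show ((e (e.symm l * e.symm b) : B) : B ⧸ L) = ((l * b : B) : B ⧸ L)
      simp

/-! ### The unitary group -/

abbrev S3 : Type := ↥(SU 3 GF9 3)

/-- The codes of the four letters. -/
def cds : List ℕ := [14703203, 14703203, 289192006, 136274779]

/-- The words of the generators. -/
def uws : List (List ℕ) := [[0], [2, 2, 2, 0, 2, 2, 2], [2, 2, 0, 2, 0, 2, 0, 3, 0, 3, 0, 3, 3], [3, 0, 3, 3, 0, 2, 2, 0, 2], [0, 3, 0, 3, 0, 3, 0, 2, 0, 2, 0, 2, 0], [0, 2, 0, 3, 0], [0], [3, 3, 0, 2, 2, 0, 3, 3, 0, 2, 2, 0], [2, 2, 0, 2, 0, 2, 0, 3, 0, 3, 0, 3, 3], [0, 3, 3, 0, 2, 2, 0], [0, 3, 0, 3, 0, 3, 0, 2, 0, 2, 0, 2, 0], [0, 2, 0, 3, 0], [2, 0, 3, 0, 3, 3, 0, 2, 2, 2, 0], [3, 0, 2, 0, 2, 2, 0, 2, 2, 2], [2, 2, 0, 3, 0, 2, 2, 2, 0, 2, 2, 0, 2], [0, 3, 3, 0, 2, 2, 2, 0, 2, 0, 3], [0, 3, 3, 0, 2, 2, 0, 2, 0, 3, 3, 0]]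

theorem cds_valid : allB (fun j => valid3 gf9 1 (cds.getD j 0)) 4 = true := by decide +kernel

/-- A letter, as a matrix. -/
def Lm (j : ℕ) : Matrix (Fin 3) (Fin 3) GF9 := dec3 gf9 (cds.getD j 0)

theorem Lm_frame : ∀ (j : Fin 4) (a b : Fin 3),
    hermForm 3 GF9 3 (fun k => Lm j k a) (fun k => Lm j k b) = if a = b then 1 else 0 := by
  decide +kernel

/-- A letter, as an element of the special linear group. -/
def Ls (j : ℕ) (hj : j < 4) : Matrix.SpecialLinearGroup (Fin 3) GF9 :=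
  ⟨Lm j, det_dec3 rfl ((allB_iff _ _).mp cds_valid j hj)⟩

theorem Ls_mem (j : ℕ) (hj : j < 4) : Ls j hj ∈ SU 3 GF9 3 :=
  (GU.preserves_iff_frame hF9 (Lm j)).2 (Lm_frame ⟨j, hj⟩)

/-- A letter, as an element. -/
def Le (j : ℕ) (hj : j < 4) : S3 := ⟨Ls j hj, Ls_mem j hj⟩

theorem enc_Le (j : ℕ) (hj : j < 4) : enc3 gf9 (((Le j hj : S3) : Matrix.SpecialLinearGroup (Fin 3) GF9) : Matrix (Fin 3) (Fin 3) GF9) = cds.getD j 0 :=
  enc3_dec3 ((allB_iff _ _).mp cds_valid j hj)

/-- The code of the identity. -/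
def oneC : ℕ := enc3 gf9 (1 : Matrix (Fin 3) (Fin 3) GF9)

/-- The code of a word. -/
def wc : List ℕ → ℕ
  | [] => oneC
  | x :: u => mul3N gf9 (wc u) (cds.getD x 0)

/-- The code of an element. -/
def encS (g : S3) : ℕ := enc3 gf9 ((g : Matrix.SpecialLinearGroup (Fin 3) GF9) : Matrix (Fin 3) (Fin 3) GF9)

theorem encS_mul (a b : S3) : encS (a * b) = mul3N gf9 (encS a) (encS b) := enc3_mul _ _

theorem encS_one : encS 1 = oneC := rfl

theorem encS_inj {a b : S3} (h : encS a = encS b) : a = b := by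
  apply Subtype.ext
  apply Subtype.ext
  exact enc3_injective h

theorem inv_chk : mul3N gf9 (cds.getD 0 0) (cds.getD 1 0) = oneC ∧ mul3N gf9 (cds.getD 2 0) (cds.getD 3 0) = oneC := by
  decide +kernel

/-- The generators. -/
def gS (j : ℕ) : S3 := if j = 0 then Le 0 (by norm_num) else if j = 1 then Le 2 (by norm_num) else 1

theorem inv_Le0 : (Le 0 (by norm_num))⁻¹ = Le 1 (by norm_num) := by
  apply inv_eq_of_mul_eq_one_right
  apply encS_inj
  rw [encS_mul, encS_one]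
  exact (show encS (Le 0 (by norm_num)) = _ from enc_Le 0 _) ▸ (show encS (Le 1 (by norm_num)) = _ from enc_Le 1 _) ▸ inv_chk.1

theorem inv_Le2 : (Le 2 (by norm_num))⁻¹ = Le 3 (by norm_num) := by
  apply inv_eq_of_mul_eq_one_right
  apply encS_inj
  rw [encS_mul, encS_one]
  exact (show encS (Le 2 (by norm_num)) = _ from enc_Le 2 _) ▸ (show encS (Le 3 (by norm_num)) = _ from enc_Le 3 _) ▸ inv_chk.2

theorem ltr_gS {x : ℕ} (hx : x < 4) : ltr gS x = Le x hx := by
  have h0 : gS 0 = Le 0 (by norm_num) := rfl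
  have h1 : gS 1 = Le 2 (by norm_num) := rfl
  have h : x = 0 ∨ x = 1 ∨ x = 2 ∨ x = 3 := by omega
  rcases h with rfl | rfl | rfl | rfl
  · exact h0
  · show (gS 0)⁻¹ = _
    rw [h0, inv_Le0]
  · exact h1
  · show (gS 1)⁻¹ = _
    rw [h1, inv_Le2]

theorem encS_word (w : List ℕ) (hw : ∀ x ∈ w, x < 4) : encS (wordEl (ltr gS) w) = wc w := by
  induction w with
  | nil => exact encS_one
  | cons x u ih =>
    rw [wordEl_cons, encS_mul, ih (fun y hy => hw y (by simp [hy])), ltr_gS (hw x (by simp))]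
    rw [show encS (Le x (hw x (by simp))) = _ from enc_Le x _]
    rfl

theorem U33_lt : allB (fun k => (U33.c.W.getD k []).all fun x => Nat.blt x 4) 8 = true := by decide +kernel

theorem U33_lt' {k : ℕ} (hk : k < 8) : ∀ x ∈ U33.c.W.getD k [], x < 4 := by
  have h := (allB_iff _ _).mp U33_lt k hk
  simp only [List.all_eq_true, Nat.blt_eq] at h
  exact h

theorem rels_S : allB (fun k => Nat.beq (wc (U33.c.W.getD k [])) oneC) 8 = true := by decide +kernel

theorem hraS : ∀ k < U33.c.nrel, wordEl (ltr gS) (U33.c.W.getD k []) = 1 := by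
  intro k hk
  have hk' : k < 8 := hk
  apply encS_inj
  rw [encS_word _ (U33_lt' hk'), encS_one]
  exact Nat.eq_of_beq_eq_true ((allB_iff _ _).mp rels_S k hk')

theorem uws_chk : allB (fun i => (uws.getD i []).all (fun x => Nat.blt x 4) && Nat.beq (wc (uws.getD i [])) (Cfsg.Agent.Lib.Compute.G2Two.ucs.getD i 0)) 17 = true := by
  decide +kernel

theorem hgaS (s : S3) : s ∈ Subgroup.closure (gS '' Set.Iio U33.c.n) := by
  set C : Subgroup S3 := Subgroup.closure (gS '' Set.Iio U33.c.n) with hC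
  have hgm : ∀ j, gS j ∈ C := by
    intro j
    by_cases hj : j < 2
    · exact Subgroup.subset_closure ⟨j, hj, rfl⟩
    · have : gS j = 1 := by
        unfold gS
        rw [if_neg (by omega), if_neg (by omega)]
      rw [this]
      exact C.one_mem
  have hwm : ∀ w : List ℕ, wordEl (ltr gS) w ∈ C := by
    intro w
    induction w with
    | nil => exact C.one_mem
    | cons x u ih =>
      rw [wordEl_cons]
      refine C.mul_mem ih ?_
      unfold ltr
      split_ifs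
      · exact hgm _
      · exact C.inv_mem (hgm _)
  have hU : ∀ i : Fin 17, U i ∈ C.map (SU 3 GF9 3).subtype := by
    intro i
    have h := (allB_iff _ _).mp uws_chk i.val i.2
    simp only [Bool.and_eq_true, List.all_eq_true, Nat.blt_eq] at h
    refine ⟨wordEl (ltr gS) (uws.getD i.val []), hwm _, ?_⟩
    apply Subtype.ext
    apply enc3_injective (m := gf9)
    have h1 : enc3 gf9 (U i).1 = uc i := enc3_dec3 (uc_valid i)
    rw [h1]
    have h2 := encS_word _ h.1
    rw [Nat.eq_of_beq_eq_true h.2] at h2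
    exact h2
  have hW : W ≤ C.map (SU 3 GF9 3).subtype := by
    rw [Cfsg.Agent.Lib.Compute.G2Two.W, Subgroup.closure_le]
    rintro _ ⟨i, rfl⟩
    exact hU i
  have hs : (s : Matrix.SpecialLinearGroup (Fin 3) GF9) ∈ W := by
    rw [W_eq.1]
    exact s.2
  obtain ⟨y, hy, hys⟩ := hW hs
  have : y = s := Subtype.ext hys
  rwa [this] at hy

/-! ### The subgroup -/

/-- The generators of the subgroup. -/
noncomputable def gL (j : ℕ) : LJ := if j = 0 then ⟨gJ 0, gJ0_mem⟩ else if j = 1 then ⟨gJ 1, gJ1_mem⟩ else 1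

theorem ltr_gL {x : ℕ} (hx : x < 4) : ((ltr gL x : LJ) : J315) = ltr gJ x := by
  have h : x = 0 ∨ x = 1 ∨ x = 2 ∨ x = 3 := by omega
  rcases h with rfl | rfl | rfl | rfl
  · rfl
  · rfl
  · rfl
  · rfl

theorem coe_word_gL (w : List ℕ) (hw : ∀ x ∈ w, x < 4) : ((wordEl (ltr gL) w : LJ) : J315) = wordEl (ltr gJ) w := by
  induction w with
  | nil => rfl
  | cons x u ih =>
    rw [wordEl_cons, wordEl_cons, Subgroup.coe_mul, ih (fun y hy => hw y (by simp [hy])), ltr_gL (hw x (by simp))]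

theorem nest_chk : allB (fun k => decide (Cfsg.Agent.S2040.mp k < 21) && cJ.W.getD (Cfsg.Agent.S2040.mp k) [] == U33.c.W.getD k []) 8 = true := by
  decide +kernel

theorem hrbL : ∀ k < U33.c.nrel, wordEl (ltr gL) (U33.c.W.getD k []) = 1 := by
  intro k hk
  have hk' : k < 8 := hk
  apply Subtype.ext
  rw [coe_word_gL _ (U33_lt' hk')]
  have h := (allB_iff _ _).mp nest_chk k hk'
  simp only [Bool.and_eq_true, decide_eq_true_eq, beq_iff_eq] at h
  rw [← h.2]
  exact Cfsg.Agent.S2040.hrel _ h.1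

theorem hgbL (s : LJ) : s ∈ Subgroup.closure (gL '' Set.Iio U33.c.n) := by
  set C : Subgroup LJ := Subgroup.closure (gL '' Set.Iio U33.c.n) with hC
  have h0 : gL 0 ∈ C := Subgroup.subset_closure ⟨0, by show 0 < 2; norm_num, rfl⟩
  have h1 : gL 1 ∈ C := Subgroup.subset_closure ⟨1, by show 1 < 2; norm_num, rfl⟩
  have hle : LJ ≤ C.map LJ.subtype := by
    apply (Subgroup.closure_le _).2
    rintro y ⟨k, hk, rfl⟩
    have hk' : 21 ≤ k := hk
    rcases Nat.lt_or_ge k 23 with h | h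
    · have h2 : k = 21 ∨ k = 22 := by omega
      rcases h2 with rfl | rfl
      · have e : cJ.W.getD 21 [] = [0] := by decide +kernel
        rw [e, wordEl_cons, wordEl_nil, one_mul]
        exact ⟨gL 0, h0, rfl⟩
      · have e : cJ.W.getD 22 [] = [2] := by decide +kernel
        rw [e, wordEl_cons, wordEl_nil, one_mul]
        exact ⟨gL 1, h1, rfl⟩
    · have hlen : cJ.W.length = 23 := by decide +kernel
      rw [List.getD_eq_default _ _ (by omega), wordEl_nil]
      exact Subgroup.one_mem _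
  obtain ⟨y, hy, e⟩ := hle s.2
  have : y = s := Subtype.ext e
  rwa [this] at hy

theorem exists_iso : Nonempty (↥LJ ≃* S3) := by
  have h1 : TC.Sound.{0} U33.c := U33.sound
  have h2 : SubBound.{0} U33.c 7 := U33.hSB
  have h3 : Nat.card S3 = U33.c.N * 7 := by
    rw [card_SU3]
    decide +kernel
  have h4 : Nat.card LJ = U33.c.N * 7 ∨ (IsSimpleGroup S3 ∧ Nontrivial LJ) := Or.inl tabJ.2
  have : Finite S3 := Nat.finite_of_card_ne_zero (by rw [card_SU3]; norm_num)
  obtain ⟨κ, -⟩ := @exists_equiv_of_relators U33.c 7 h1 h2 S3 (↥LJ) (Subgroup.toGroup _) (Subgroup.toGroup _) _ _ gS gL hraS hrbL hgaS hgbL h3 h4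
  exact ⟨κ⟩

/-- The Hall–Janko group contains PSU(3, 3) with index 100 and acts on the 100 cosets with rank 3 and subdegrees 1, 36, 63. -/
theorem result : ∃ H : Subgroup Cfsg.Spor.J2, H.index = 100 ∧ (∃ (F : Type) (_ : Field F) (_ : Fintype F), Fintype.card F = 9 ∧ Nonempty (↥H ≃* Cfsg.PSU 3 F 3)) ∧ ∃ c₁ c₂ : Cfsg.Spor.J2 ⧸ H, (MulAction.orbit ↥H c₁).ncard = 36 ∧ (MulAction.orbit ↥H c₂).ncard = 63 := by
  refine ⟨LJ.comap isoJ.toMonoidHom, ?_, ⟨GF9, inferInstance, inferInstance, card_GF9, ?_⟩, ?_⟩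
  · rw [Subgroup.index_comap_of_surjective _ isoJ.surjective]
    exact index_LJ
  · obtain ⟨κ⟩ := exists_iso
    obtain ⟨p⟩ := Cfsg.Agent.S1057.psu_equiv (K := GF9) (by rw [card_GF9]; norm_num)
    have hm : (LJ.comap isoJ.toMonoidHom).map isoJ.toMonoidHom = LJ := Subgroup.map_comap_eq_self_of_surjective isoJ.surjective _
    exact ⟨(isoJ.subgroupMap _).trans ((MulEquiv.subgroupCongr hm).trans (κ.trans p.symm))⟩
  · obtain ⟨c₁, h1⟩ := orbit_transport isoJ LJ (om 13)
    obtain ⟨c₂, h2⟩ := orbit_transport isoJ LJ (om 1)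
    exact ⟨c₁, c₂, h1.trans orbit13, h2.trans orbit1⟩

end Cfsg.Agent.S1624
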