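import Cfsg.Statements.S1631
import Mathlib
import Cfsg.Agent.Lib.Classical.Herm.Class
-- import your own Cfsg.Agent.* helpers here

set_option autoImplicit false
open scoped MatrixGroups
open Cfsg
open scoped Matrix
open Cfsg.Agent.Lib.Classical.Herm.Basic Cfsg.Agent.Lib.Classical.Herm.SU
open Cfsg.Agent.Lib.Classical.Herm.Tv Cfsg.Agent.Lib.Classical.Herm.Comm
open Cfsg.Agent.Lib.Classical.Herm.Class

namespace Cfsg.Agent.S1631

/-- The unitary transvections of SU(n, 2), n ≥ 4, form a generating conjugacy class of 3-transpositions. -/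
theorem result (F : Type) [Field F] [Fintype F] [DecidableEq F] (hF : Fintype.card F = 4) (n : ℕ) (hn : 4 ≤ n) : Cfsg.IsThreeTranspositionClass {g : ↥(Cfsg.SU n F 2) | (((g : Matrix.SpecialLinearGroup (Fin n) F) : Matrix (Fin n) (Fin n) F) - 1).rank = 1} := by
  have hF4 : Fintype.card F = 2 ^ 2 := by rw [hF]; norm_num
  -- characteristic two
  have h2 : (2 : F) = 0 := by
    have h3 := pow_q_add hF4 (1 : F) 1
    rw [one_pow, ← two_mul, mul_one] at h3
    have h4 : (2 : F) * ((2 : F) - 1) = 0 := by linear_combination h3
    rcases mul_eq_zero.mp h4 with h5 | h5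
    · exact h5
    · exfalso
      have : (1 : F) = 0 := by linear_combination h5
      exact one_ne_zero this
  have h1tr : (1 : F) + 1 ^ 2 = 0 := by linear_combination h2
  -- every element is a transvection with coefficient one
  have hform : ∀ g : SU n F 2, (mat g - 1).rank = 1 → ∃ (v : Fin n → F) (hv : hermForm n F 2 v v = 0),
      v ≠ 0 ∧ g = tv hF4 hv h1tr := by
    intro g hg
    obtain ⟨v, c, hv0, hc0, hv, hc, hm⟩ := exists_normal_form_rank hF4 g hg
    have hc1 : c = 1 := by
      have h3 : c * (c + 1) = 0 := by linear_combination hc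
      have h4 := (mul_eq_zero.mp h3).resolve_left hc0
      linear_combination h4 - h2
    subst hc1
    exact ⟨v, hv, hv0, eq_tv hF4 hv hc hm⟩
  refine ⟨⟨?_, ?_⟩, ?_, ?_⟩
  · -- order two
    intro d hd
    obtain ⟨v, hv, hv0, rfl⟩ := hform d hd
    have : Fact (Nat.Prime 2) := ⟨Nat.prime_two⟩
    apply orderOf_eq_prime
    · apply ext_act
      intro x
      rw [pow_two, act_mul]
      simp only [act_tv, hermForm_add_left, hermForm_smul_left, hv, act_one]
      funext i
      simp only [Pi.add_apply, Pi.smul_apply, smul_eq_mul]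
      linear_combination (hermForm n F 2 x v * v i) * h2
    · intro h1
      obtain ⟨x, hx⟩ : ∃ x, hermForm n F 2 x v ≠ 0 := by
        by_contra hcon
        push Not at hcon
        exact hv0 (hermForm_nondegenerate_right hF4 n v hcon)
      have h3 := act_tv hF4 hv h1tr x
      rw [h1, act_one] at h3
      have h4 : (1 * hermForm n F 2 x v) • v = 0 := by
        simpa using h3.symm
      rcases smul_eq_zero.mp h4 with h5 | h5
      · rw [one_mul] at h5
        exact hx h5
      · exact hv0 h5
  · -- products
    intro d hd e he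
    obtain ⟨u, hu, hu0, rfl⟩ := hform d hd
    obtain ⟨v, hv, hv0, rfl⟩ := hform e he
    by_cases hs : hermForm n F 2 u v = 0
    · left
      have hs' : hermForm n F 2 v u = 0 := hermForm_symm_zero hF4 hs
      apply ext_act
      intro x
      rw [pow_two]
      simp only [act_mul, act_tv, hermForm_add_left, hermForm_smul_left, hu, hv, hs, hs', act_one]
      funext i
      simp only [Pi.add_apply, Pi.smul_apply, smul_eq_mul]
      linear_combination (hermForm n F 2 x u * u i + hermForm n F 2 x v * v i) * h2
    · right
      -- normalise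
      have hs3 : (hermForm n F 2 u v) ^ 3 = 1 := by
        have := FiniteField.pow_card_sub_one_eq_one _ hs
        rwa [hF] at this
      obtain ⟨l, hl⟩ : ∃ l : F, l = ((hermForm n F 2 u v)⁻¹) ^ 2 := ⟨_, rfl⟩
      have hl3 : l * l ^ 2 = 1 := by
        rw [hl]
        have : (hermForm n F 2 u v)⁻¹ ^ 3 = 1 := by
          rw [inv_pow, hs3, inv_one]
        calc ((hermForm n F 2 u v)⁻¹ ^ 2) * ((hermForm n F 2 u v)⁻¹ ^ 2) ^ 2
            = ((hermForm n F 2 u v)⁻¹ ^ 3) ^ 2 := by ring
          _ = 1 := by rw [this, one_pow]
      have hl2 : l ^ 2 * hermForm n F 2 u v = 1 := by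
        rw [hl, pow_q_pow_q hF4]
        field_simp
      have hw : hermForm n F 2 (l • v) (l • v) = 0 := by
        rw [hermForm_smul_left, hermForm_smul_right, hv]
        ring
      have heq : tv hF4 hv h1tr = tv hF4 hw h1tr := by
        apply ext_act
        intro x
        rw [act_tv, act_tv, hermForm_smul_right, smul_smul]
        congr 2
        linear_combination (-(hermForm n F 2 x v)) * hl3
      rw [heq]
      have huw : hermForm n F 2 u (l • v) = 1 := by
        rw [hermForm_smul_right]
        exact hl2
      have hwu : hermForm n F 2 (l • v) u = 1 := hermForm_symm_one hF4 huw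
      generalize l • v = w at hw huw hwu
      apply ext_act
      intro x
      rw [pow_succ, pow_two]
      simp only [act_mul, act_tv, hermForm_add_left, hermForm_smul_left, hu, hw, huw, hwu, act_one]
      funext i
      simp only [Pi.add_apply, Pi.smul_apply, smul_eq_mul]
      linear_combination ((4 * hermForm n F 2 x u + 6 * hermForm n F 2 x w) * u i +
        (2 * hermForm n F 2 x u + 4 * hermForm n F 2 x w) * w i) * h2
  · -- one class
    obtain ⟨d, hd, hd'⟩ := rank_one_eq_conjugates hF4 (by omega : 3 ≤ n)
    exact ⟨d, hd, hd'⟩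
  · -- generation
    exact closure_rank_one hF4 (by omega) (by omega)

end Cfsg.Agent.S1631
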