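import Cfsg.Statements.S1636
import Cfsg.Agent.Lib.Compute.Golay
-- import your own Cfsg.Agent.* helpers here

set_option autoImplicit false
open Cfsg

namespace Cfsg.Agent.S1636

open Cfsg.Agent.Lib.Compute.Golay

/-- The punctured word of a mask: the coordinates at the residues. -/
def punct (m : ℕ) : ZMod 23 → ZMod 2 := fun x => maskWord m (some x)

/-- The punctured code, as in the statement. -/
abbrev PCode : Set (ZMod 23 → ZMod 2) :=
  {u : ZMod 23 → ZMod 2 | ∃ w ∈ Cfsg.golayCode, ∀ x : ZMod 23, u x = w (some x)}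

theorem mem_PCode {u : ZMod 23 → ZMod 2} : u ∈ PCode ↔ ∃ m ∈ codeMasks, u = punct m := by
  constructor
  · rintro ⟨w, hw, h⟩
    obtain ⟨m, hm, rfl⟩ := exists_mask_of_mem_code hw
    exact ⟨m, hm, funext h⟩
  · rintro ⟨m, hm, rfl⟩
    exact ⟨maskWord m, mem_code_of_mem_codeMasks hm, fun _ => rfl⟩

theorem punct_apply (m : ℕ) (x : ZMod 23) :
    punct m x = if m.testBit x.val = true then 1 else 0 := rfl

theorem hammingNorm_punct (m : ℕ) : hammingNorm (punct m) = popN 23 m := by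
  rw [popN_eq_card, hammingNorm]
  refine Finset.card_bij (fun x _ => (⟨x.val, ZMod.val_lt x⟩ : Fin 23)) ?_ ?_ ?_
  · intro x hx
    simp only [Finset.mem_filter, Finset.mem_univ, true_and] at hx ⊢
    by_contra h
    apply hx
    rw [punct_apply, if_neg h]
  · intro a _ b _ h
    exact ZMod.val_injective 23 (Fin.ext_iff.mp h)
  · intro i hi
    refine ⟨(i.val : ZMod 23), ?_, ?_⟩
    · simp only [Finset.mem_filter, Finset.mem_univ, true_and] at hi ⊢
      have hv : ((i.val : ℕ) : ZMod 23).val = i.val := ZMod.val_natCast_of_lt i.2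
      rw [punct_apply, hv, if_pos hi]
      decide
    · exact Fin.ext (ZMod.val_natCast_of_lt i.2)

theorem popN_zero_code : codeMasks.all (fun m => popN 23 m != 0 || m == 0) = true := by
  decide +kernel

theorem eq_zero_of_popN {x : ℕ} (hx : x ∈ codeMasks) (h : popN 23 x = 0) : x = 0 := by
  have := List.all_eq_true.mp popN_zero_code x hx
  simpa [h] using this

theorem punct_inj {a b : ℕ} (ha : a ∈ codeMasks) (hb : b ∈ codeMasks)
    (h : punct a = punct b) : a = b := by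
  have hx : a ^^^ b ∈ codeMasks := xor_mem_xorSpan ha hb
  have hp : punct (a ^^^ b) = 0 := by
    funext x
    have := congrFun h x
    simp only [punct, maskWord_xor, Pi.add_apply, Pi.zero_apply] at this ⊢
    rw [this]
    exact CharTwo.add_self_eq_zero _
  have hn : popN 23 (a ^^^ b) = 0 := by
    rw [← hammingNorm_punct, hp]
    exact hammingNorm_zero
  have h0 := eq_zero_of_popN hx hn
  exact Nat.xor_eq_zero_iff.mp h0

/-- The masks with a given punctured weight. -/
def lowMasks (k : ℕ) : List ℕ := codeMasks.filter fun m => popN 23 m = k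

theorem ncard_PCode : PCode.ncard = 4096 := by
  have h : PCode = punct '' {m | m ∈ codeMasks} := by
    ext u
    rw [mem_PCode]
    constructor
    · rintro ⟨m, hm, rfl⟩
      exact ⟨m, hm, rfl⟩
    · rintro ⟨m, hm, rfl⟩
      exact ⟨m, hm, rfl⟩
  have hinj : Set.InjOn punct {m | m ∈ codeMasks} := fun a ha b hb h => punct_inj ha hb h
  rw [h, Set.InjOn.ncard_image hinj]
  have h2 : {m | m ∈ codeMasks} = (codeMasks.toFinset : Set ℕ) := by
    ext; simp
  rw [h2, Set.ncard_coe_finset, List.toFinset_card_of_nodup codeMasks_nodup, codeMasks_length]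

theorem ncard_weight (k : ℕ) :
    {u : ZMod 23 → ZMod 2 | u ∈ PCode ∧ hammingNorm u = k}.ncard = (lowMasks k).length := by
  have h : {u : ZMod 23 → ZMod 2 | u ∈ PCode ∧ hammingNorm u = k} =
      punct '' {m | m ∈ lowMasks k} := by
    ext u
    constructor
    · rintro ⟨hu, hk⟩
      obtain ⟨m, hm, rfl⟩ := mem_PCode.mp hu
      refine ⟨m, ?_, rfl⟩
      rw [hammingNorm_punct] at hk
      simp [lowMasks, hm, hk]
    · rintro ⟨m, hm, rfl⟩
      simp only [lowMasks, Set.mem_ofPred_eq, List.mem_filter, decide_eq_true_eq] at hm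
      exact ⟨mem_PCode.mpr ⟨m, hm.1, rfl⟩, by rw [hammingNorm_punct, hm.2]⟩
  have hsub : ∀ m ∈ lowMasks k, m ∈ codeMasks := fun m hm => (List.mem_filter.mp hm).1
  have hinj : Set.InjOn punct {m | m ∈ lowMasks k} := fun a ha b hb h =>
    punct_inj (hsub a ha) (hsub b hb) h
  have hnd : (lowMasks k).Nodup := codeMasks_nodup.filter _
  rw [h, Set.InjOn.ncard_image hinj]
  have h2 : {m | m ∈ lowMasks k} = ((lowMasks k).toFinset : Set ℕ) := by
    ext; simp
  rw [h2, Set.ncard_coe_finset, List.toFinset_card_of_nodup hnd]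

theorem min_weight_code : codeMasks.all (fun m => popN 23 m == 0 || decide (7 ≤ popN 23 m)) = true := by
  decide +kernel

theorem min_weight {u : ZMod 23 → ZMod 2} (hu : u ∈ PCode) (h0 : u ≠ 0) : 7 ≤ hammingNorm u := by
  obtain ⟨m, hm, rfl⟩ := mem_PCode.mp hu
  rw [hammingNorm_punct]
  have := List.all_eq_true.mp min_weight_code m hm
  simp only [Bool.or_eq_true, beq_iff_eq, decide_eq_true_eq] at this
  rcases this with h | h
  · exfalso
    apply h0
    rw [← hammingNorm_eq_zero, hammingNorm_punct, h]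
  · exact h

/-- The punctured length-23 code has weight distribution 0^1 7^253 8^506 11^1288 12^1288 15^506 16^253 23^1. -/
theorem result : {u : ZMod 23 → ZMod 2 | ∃ w ∈ Cfsg.golayCode, ∀ x : ZMod 23, u x = w (some x)}.ncard = 4096 ∧ {u : ZMod 23 → ZMod 2 | u ∈ {u : ZMod 23 → ZMod 2 | ∃ w ∈ Cfsg.golayCode, ∀ x : ZMod 23, u x = w (some x)} ∧ hammingNorm u = 7}.ncard = 253 ∧ {u : ZMod 23 → ZMod 2 | u ∈ {u : ZMod 23 → ZMod 2 | ∃ w ∈ Cfsg.golayCode, ∀ x : ZMod 23, u x = w (some x)} ∧ hammingNorm u = 8}.ncard = 506 ∧ {u : ZMod 23 → ZMod 2 | u ∈ {u : ZMod 23 → ZMod 2 | ∃ w ∈ Cfsg.golayCode, ∀ x : ZMod 23, u x = w (some x)} ∧ hammingNorm u = 11}.ncard = 1288 ∧ {u : ZMod 23 → ZMod 2 | u ∈ {u : ZMod 23 → ZMod 2 | ∃ w ∈ Cfsg.golayCode, ∀ x : ZMod 23, u x = w (some x)} ∧ hammingNorm u = 12}.ncard = 1288 ∧ {u : ZMod 23 → ZMod 2 | u ∈ {u : ZMod 23 → ZMod 2 | ∃ w ∈ Cfsg.golayCode, ∀ x : ZMod 23, u x = w (some x)} ∧ hammingNorm u = 15}.ncard = 506 ∧ {u :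 ZMod 23 → ZMod 2 | u ∈ {u : ZMod 23 → ZMod 2 | ∃ w ∈ Cfsg.golayCode, ∀ x : ZMod 23, u x = w (some x)} ∧ hammingNorm u = 16}.ncard = 253 ∧ ∀ u ∈ {u : ZMod 23 → ZMod 2 | ∃ w ∈ Cfsg.golayCode, ∀ x : ZMod 23, u x = w (some x)}, u ≠ 0 → 7 ≤ hammingNorm u := by
  refine ⟨ncard_PCode, ?_, ?_, ?_, ?_, ?_, ?_, fun u hu h0 => min_weight hu h0⟩ <;> rw [ncard_weight] <;> decide +kernel

end Cfsg.Agent.S1636
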