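import Cfsg.Statements.S1637
import Cfsg.Agent.S1636
-- import your own Cfsg.Agent.* helpers here

set_option autoImplicit false
open Cfsg

namespace Cfsg.Agent.S1637

open Cfsg.Agent.S1636 Cfsg.Agent.Lib.Compute.Golay

abbrev Wd := ZMod 23 → ZMod 2

theorem sub_mem {a b : Wd} (ha : a ∈ PCode) (hb : b ∈ PCode) : a - b ∈ PCode := by
  obtain ⟨m, hm, rfl⟩ := mem_PCode.mp ha
  obtain ⟨n, hn, rfl⟩ := mem_PCode.mp hb
  refine mem_PCode.mpr ⟨m ^^^ n, xor_mem_xorSpan hm hn, ?_⟩
  funext x
  have h : punct (m ^^^ n) x = punct m x + punct n x := by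
    simp only [punct, maskWord_xor, Pi.add_apply]
  rw [h, Pi.sub_apply, CharTwo.sub_eq_add]

theorem dist_eq_norm (a b : Wd) : hammingDist a b = hammingNorm (a - b) := by
  rw [hammingDist_comm, hammingDist_eq_hammingNorm, neg_add_eq_sub]

theorem dist_code {a b : Wd} (ha : a ∈ PCode) (hb : b ∈ PCode) (hab : a ≠ b) :
    7 ≤ hammingDist a b := by
  rw [dist_eq_norm]
  exact min_weight (sub_mem ha hb) (sub_ne_zero.mpr hab)

/-- The ball of radius 3 around the zero word has 2048 elements. -/
theorem card_ball : (Finset.univ.filter fun u : Wd => hammingNorm u ≤ 3).card = 2048 := by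
  classical
  let e : Wd ≃ Finset (ZMod 23) :=
    { toFun := fun u => Finset.univ.filter fun x => u x ≠ 0
      invFun := fun s x => if x ∈ s then 1 else 0
      left_inv := by
        intro u
        funext x
        have hx : ∀ y : ZMod 2, y = 0 ∨ y = 1 := by decide
        rcases hx (u x) with h | h <;> simp [h]
      right_inv := by
        intro s
        ext x
        by_cases h : x ∈ s <;> simp [h] }
  have h1 : (Finset.univ.filter fun u : Wd => hammingNorm u ≤ 3).card =
      (Finset.univ.filter fun s : Finset (ZMod 23) => s.card ≤ 3).card := by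
    refine Finset.card_bij (fun u _ => e u) ?_ ?_ ?_
    · intro u hu
      simpa [hammingNorm, e] using hu
    · intro a _ b _ h
      exact e.injective h
    · intro s hs
      refine ⟨e.symm s, ?_, by simp⟩
      simp only [Finset.mem_filter, Finset.mem_univ, true_and] at hs ⊢
      have : hammingNorm (e.symm s) = (e (e.symm s)).card := rfl
      rw [this, e.apply_symm_apply]
      exact hs
  rw [h1]
  have h2 : (Finset.univ.filter fun s : Finset (ZMod 23) => s.card ≤ 3) =
      (Finset.powersetCard 0 Finset.univ ∪ Finset.powersetCard 1 Finset.univ ∪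
        Finset.powersetCard 2 Finset.univ ∪ Finset.powersetCard 3 Finset.univ) := by
    ext s
    simp only [Finset.mem_filter, Finset.mem_univ, true_and, Finset.mem_union,
      Finset.mem_powersetCard, Finset.subset_univ]
    omega
  rw [h2]
  have hd : ∀ i j : ℕ, i ≠ j → Disjoint (Finset.powersetCard i (Finset.univ : Finset (ZMod 23)))
      (Finset.powersetCard j Finset.univ) := fun i j h => Finset.pairwise_disjoint_powersetCard _ h
  rw [Finset.card_union_of_disjoint, Finset.card_union_of_disjoint, Finset.card_union_of_disjoint]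
  · simp only [Finset.card_powersetCard, Finset.card_univ, ZMod.card]
    decide
  · exact hd 0 1 (by decide)
  · exact Finset.disjoint_union_left.mpr ⟨hd 0 2 (by decide), hd 1 2 (by decide)⟩
  · exact Finset.disjoint_union_left.mpr
      ⟨Finset.disjoint_union_left.mpr ⟨hd 0 3 (by decide), hd 1 3 (by decide)⟩, hd 2 3 (by decide)⟩

theorem card_ball_at (c : Wd) : (Finset.univ.filter fun u : Wd => hammingDist u c ≤ 3).card = 2048 := by
  rw [← card_ball]
  refine Finset.card_bij (fun u _ => u - c) ?_ ?_ ?_
  · intro u hu
    simp only [Finset.mem_filter, Finset.mem_univ, true_and] at hu ⊢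
    rwa [← dist_eq_norm]
  · intro a _ b _ h
    exact sub_left_injective h
  · intro u hu
    refine ⟨u + c, ?_, by simp⟩
    simp only [Finset.mem_filter, Finset.mem_univ, true_and] at hu ⊢
    rw [dist_eq_norm]
    simpa using hu

theorem covered (u : Wd) : ∃ c ∈ PCode, hammingDist u c ≤ 3 := by
  classical
  have hfin : PCode.Finite := Set.toFinite _
  let C : Finset Wd := hfin.toFinset
  have hC : C.card = 4096 := by
    have : (C : Set Wd) = PCode := hfin.coe_toFinset
    rw [← Set.ncard_coe_finset, this, ncard_PCode]
  let B : Wd → Finset Wd := fun c => Finset.univ.filter fun u : Wd => hammingDist u c ≤ 3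
  have hdisj : (C : Set Wd).PairwiseDisjoint B := by
    intro a ha b hb hab
    refine Finset.disjoint_left.mpr ?_
    intro x hxa hxb
    simp only [B, Finset.mem_filter, Finset.mem_univ, true_and] at hxa hxb
    have hd := dist_code (hfin.mem_toFinset.mp ha) (hfin.mem_toFinset.mp hb) hab
    have ht := hammingDist_triangle a x b
    rw [hammingDist_comm a x] at ht
    omega
  have hU : (C.biUnion B).card = 8388608 := by
    rw [Finset.card_biUnion hdisj]
    simp only [B, card_ball_at, Finset.sum_const, hC, smul_eq_mul]
  have hall : C.biUnion B = Finset.univ := by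
    apply Finset.eq_univ_of_card
    rw [hU, Fintype.card_fun, ZMod.card, ZMod.card]
    norm_num
  have hu : u ∈ C.biUnion B := by
    rw [hall]
    exact Finset.mem_univ u
  obtain ⟨c, hc, hu⟩ := Finset.mem_biUnion.mp hu
  simp only [B, Finset.mem_filter, Finset.mem_univ, true_and] at hu
  exact ⟨c, hfin.mem_toFinset.mp hc, hu⟩

/-- The punctured length-23 code is a perfect 3-error-correcting code: each word of length 23 is within distance 3 of exactly one codeword. -/
theorem result (u : ZMod 23 → ZMod 2) : ∃! c : ZMod 23 → ZMod 2, c ∈ {u : ZMod 23 → ZMod 2 | ∃ w ∈ Cfsg.golayCode, ∀ x : ZMod 23, u x = w (some x)} ∧ hammingDist u c ≤ 3 := by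
  obtain ⟨c, hc, hd⟩ := covered u
  refine ⟨c, ⟨hc, hd⟩, ?_⟩
  rintro c' ⟨hc', hd'⟩
  by_contra hne
  have h7 := dist_code hc' hc hne
  have ht := hammingDist_triangle c' u c
  rw [hammingDist_comm c' u] at ht
  omega

end Cfsg.Agent.S1637
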