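import Cfsg.Statements.S1638
import Mathlib
import Cfsg.Agent.Lib.Sporadic.M24Duad

set_option autoImplicit false
open scoped Pointwise
open Cfsg

namespace Cfsg.Agent.S1638

open Cfsg.Agent.Lib.Sporadic.GolayCore Cfsg.Agent.Lib.Sporadic.M24Tbl
open Cfsg.Agent.Lib.Sporadic.M24Chain Cfsg.Agent.Lib.Sporadic.M24Basic
open Cfsg.Agent.Lib.Sporadic.M24Act Cfsg.Agent.Lib.Sporadic.M24Lists
open Cfsg.Agent.Lib.Sporadic.M24Orbit Cfsg.Agent.Lib.Sporadic.M24Count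
open Cfsg.Agent.Lib.Sporadic.M24Sextet

open scoped Pointwise
open Cfsg.Agent.Lib.Sporadic.M24Duad

/-- Fix two points p ≠ q and a pair s of two further points. Among the pairs avoiding p, q and disjoint from s, exactly 30 lie in an octad together with p, q and s and exactly 160 do not; and any two pairs other than s that meet s in equally many points and agree on that octad property are carried to one another by an element of the group of the length-24 code fixing p, q and s. -/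
theorem result (p q : Cfsg.GolayPt) (hpq : p ≠ q) (s : Finset Cfsg.GolayPt) (hs : (s.card = 2 ∧ p ∉ s ∧ q ∉ s)) : {t : Finset Cfsg.GolayPt | (t.card = 2 ∧ p ∉ t ∧ q ∉ t) ∧ Disjoint s t ∧ (∃ o ∈ Cfsg.octads, p ∈ o ∧ q ∈ o ∧ s ∪ t ⊆ o)}.ncard = 30 ∧ {t : Finset Cfsg.GolayPt | (t.card = 2 ∧ p ∉ t ∧ q ∉ t) ∧ Disjoint s t ∧ ¬ (∃ o ∈ Cfsg.octads, p ∈ o ∧ q ∈ o ∧ s ∪ t ⊆ o)}.ncard = 160 ∧ ∀ t t' : Finset Cfsg.GolayPt, (t.card = 2 ∧ p ∉ t ∧ q ∉ t) → (t'.card = 2 ∧ p ∉ t' ∧ q ∉ t') → t ≠ s → t' ≠ s → (s ∩ t).card = (s ∩ t').card → ((∃ o ∈ Cfsg.octads, p ∈ o ∧ q ∈ o ∧ s ∪ t ⊆ o) ↔ (∃ o ∈ Cfsg.octads, p ∈ o ∧ q ∈ o ∧ s ∪ t' ⊆ o)) → ∃ g : Equiv.Perm Cfsg.GolayPt, g ∈ Cfsg.M24 ∧ g p = p ∧ g q = q ∧ g • s = s ∧ g • t = t' := by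
  obtain ⟨hs2, hps, hqs⟩ := hs
  obtain ⟨a, b, hab, rfl⟩ := Finset.card_eq_two.1 hs2
  simp only [Finset.mem_insert, Finset.mem_singleton, not_or] at hps hqs
  obtain ⟨k, hk, hkL⟩ := exists_map_lists (L := [pt 23, pt 0, pt 1, pt 2]) (L' := [p, q, a, b])
    (by decide +kernel) (by simp; tauto) rfl (by norm_num)
  simp only [List.map_cons, List.map_nil, List.cons.injEq, and_true] at hkL
  obtain ⟨k1, k2, k3, k4⟩ := hkL
  have hs0 : k • s0 = {a, b} := by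
    have : s0 = {pt 1, pt 2} := by decide +kernel
    rw [this, Finset.smul_finset_insert, Finset.smul_finset_singleton]
    show ({k (pt 1), k (pt 2)} : Finset GolayPt) = _
    rw [k3, k4]
  have hk' : k⁻¹ ∈ M24 := M24.inv_mem hk
  have hp : ∀ {x : GolayPt} {t : Finset GolayPt}, k x ∈ k • t ↔ x ∈ t := by
    intro x t
    exact Finset.smul_mem_smul_finset_iff (a := k) (b := x)
  have key : ∀ t : Finset GolayPt, ((k • t).card = 2 ∧ p ∉ k • t ∧ q ∉ k • t) ↔ (t.card = 2 ∧ pt 23 ∉ t ∧ pt 0 ∉ t) := by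
    intro t
    rw [Finset.card_smul_finset, ← k1, ← k2, hp, hp]
  have hdj : ∀ t : Finset GolayPt, Disjoint ({a, b} : Finset GolayPt) (k • t) ↔ Disjoint s0 t := by
    intro t
    rw [← hs0, Finset.disjoint_iff_inter_eq_empty, Finset.disjoint_iff_inter_eq_empty,
      ← Finset.smul_finset_inter, Finset.smul_finset_eq_empty]
  have hsp : ∀ t : Finset GolayPt, (∃ o ∈ octads, p ∈ o ∧ q ∈ o ∧ ({a, b} : Finset GolayPt) ∪ (k • t) ⊆ o) ↔ Spec (pt 23) (pt 0) s0 t := by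
    intro t
    rw [← spec_smul hk (p := pt 23) (q := pt 0), k1, k2, hs0]
    rfl
  refine ⟨?_, ?_, ?_⟩
  · have h1 : {t : Finset GolayPt | (t.card = 2 ∧ p ∉ t ∧ q ∉ t) ∧ Disjoint ({a, b} : Finset GolayPt) t ∧ (∃ o ∈ octads, p ∈ o ∧ q ∈ o ∧ ({a, b} : Finset GolayPt) ∪ t ⊆ o)} =
        (fun y => k • y) '' {t : Finset GolayPt | (t.card = 2 ∧ pt 23 ∉ t ∧ pt 0 ∉ t) ∧ Disjoint s0 t ∧ Spec (pt 23) (pt 0) s0 t} := by
      ext t
      constructor
      · intro h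
        have h' : (k • (k⁻¹ • t)) = t := smul_inv_smul k t
        refine ⟨k⁻¹ • t, ?_, h'⟩
        show _ ∧ _ ∧ _
        rw [← key, ← hdj, ← hsp, h']
        exact h
      · rintro ⟨y, hy, rfl⟩
        show _ ∧ _ ∧ _
        rw [key, hdj, hsp]
        exact hy
    rw [h1, Set.ncard_image_of_injective _ (MulAction.injective k), count_30]
  · have h1 : {t : Finset GolayPt | (t.card = 2 ∧ p ∉ t ∧ q ∉ t) ∧ Disjoint ({a, b} : Finset GolayPt) t ∧ ¬ (∃ o ∈ octads, p ∈ o ∧ q ∈ o ∧ ({a, b} : Finset GolayPt) ∪ t ⊆ o)} =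
        (fun y => k • y) '' {t : Finset GolayPt | (t.card = 2 ∧ pt 23 ∉ t ∧ pt 0 ∉ t) ∧ Disjoint s0 t ∧ ¬ Spec (pt 23) (pt 0) s0 t} := by
      ext t
      constructor
      · intro h
        have h' : (k • (k⁻¹ • t)) = t := smul_inv_smul k t
        refine ⟨k⁻¹ • t, ?_, h'⟩
        show _ ∧ _ ∧ _
        rw [← key, ← hdj, ← hsp, h']
        exact h
      · rintro ⟨y, hy, rfl⟩
        show _ ∧ _ ∧ _
        rw [key, hdj, hsp]
        exact hy
    rw [h1, Set.ncard_image_of_injective _ (MulAction.injective k), count_160]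
  · intro t t' ht ht' hne hne' hc hE
    have e : ∀ u : Finset GolayPt, k • (k⁻¹ • u) = u := fun u => smul_inv_smul k u
    have c1 := (key (k⁻¹ • t)).1 (by rw [e]; exact ht)
    have c2 := (key (k⁻¹ • t')).1 (by rw [e]; exact ht')
    have hI : ∀ u : Finset GolayPt, (s0 ∩ (k⁻¹ • u)).card = (({a, b} : Finset GolayPt) ∩ u).card := by
      intro u
      rw [← hs0]
      conv_rhs => rw [← e u]
      rw [← Finset.smul_finset_inter, Finset.card_smul_finset]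
    obtain ⟨g, hg, g1, g2, g3, g4⟩ := conj_std' c1.1 c2.1 c1.2.1 c1.2.2 c2.2.1 c2.2.2
      (fun h => hne (by rw [← hs0, ← h, e])) (fun h => hne' (by rw [← hs0, ← h, e]))
      (by rw [hI, hI]; exact hc)
      (by rw [← hsp, ← hsp, e, e]; exact hE)
    refine ⟨k * g * k⁻¹, M24.mul_mem (M24.mul_mem hk hg) hk', ?_, ?_, ?_, ?_⟩
    · show k (g (k⁻¹ p)) = p
      rw [← k1]
      simp [g1]
    · show k (g (k⁻¹ q)) = q
      rw [← k2]
      simp [g2]
    · rw [← hs0, mul_smul, mul_smul, inv_smul_smul, g3]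
    · rw [mul_smul, mul_smul, g4, smul_inv_smul]

end Cfsg.Agent.S1638
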