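-- S1643: PSL(2,23) maximal in M24 and 23:11 maximal in M23, by Sylow arithmetic.
import Cfsg.Statements.S1643
import Cfsg.Agent.Lib.Compute.M24Card
import Cfsg.Agent.Lib.Compute.M24Enum

set_option autoImplicit false
open scoped Pointwise
open Cfsg

namespace Cfsg.Agent.S1643

open Cfsg.Agent.Lib.Compute.M24 Cfsg.Agent.Lib.Compute.M24Enum
open Cfsg.Agent.Lib.Compute.Golay Cfsg.Agent.Lib.Compute.GolayFast

/-! ### General lemmas -/

theorem sylow_count {G : Type*} [Group G] [Finite G] (J Q : Subgroup G) (hQJ : Q ≤ J) (p : ℕ)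
    [hp : Fact p.Prime] (hQ : Nat.card Q = p) (hp2 : ¬ p ^ 2 ∣ Nat.card J) :
    ∃ n, Nat.card J = Nat.card ↥(Subgroup.normalizer (Q : Set G) ⊓ J) * n ∧ n ≡ 1 [MOD p] := by
  classical
  set H : Subgroup J := Q.subgroupOf J with hH
  have hcardH : Nat.card H = p := by
    rw [hH, Nat.card_congr (Subgroup.subgroupOfEquivOfLe hQJ).toEquiv, hQ]
  have hJne : Nat.card J ≠ 0 := Nat.card_pos.ne'
  have hdvd : p ∣ Nat.card J := by
    rw [← hcardH]; exact Subgroup.card_subgroup_dvd_card H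
  have hfac : (Nat.card J).factorization p = 1 := by
    have h1 : 1 ≤ (Nat.card J).factorization p :=
      (Nat.Prime.pow_dvd_iff_le_factorization hp.out hJne).1 (by simpa using hdvd)
    have h2 : ¬ 2 ≤ (Nat.card J).factorization p := fun h =>
      hp2 ((Nat.Prime.pow_dvd_iff_le_factorization hp.out hJne).2 h)
    omega
  let S : Sylow p J := Sylow.ofCard H (by rw [hcardH, hfac, pow_one])
  have hS : (S : Subgroup J) = H := rfl
  refine ⟨Nat.card (Sylow p J), ?_, card_sylow_modEq_one p J⟩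
  have h1 : Nat.card (Sylow p J) = (Subgroup.normalizer (H : Set J)).index := S.card_eq_index_normalizer
  rw [hH, ← Subgroup.subgroupOf_normalizer_eq hQJ] at h1
  rw [h1, ← Nat.card_congr (Subgroup.subgroupOfEquivOfLe
    (inf_le_right : Subgroup.normalizer (Q : Set G) ⊓ J ≤ J)).toEquiv, Subgroup.inf_subgroupOf_right]
  exact (Subgroup.card_mul_index _).symm

/-- A bound for a normalizer from the centralizer. -/
theorem card_norm_dvd {G : Type*} [Group G] [Finite G] (X Q : Subgroup G) [IsCyclic Q]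
    (hC : ∀ g ∈ X, (∀ h ∈ Q, g * h = h * g) → g ∈ Q) :
    Nat.card ↥(Subgroup.normalizer (Q : Set G) ⊓ X) ∣ Nat.card Q * (Nat.card Q).totient := by
  classical
  let φ : ↥(Subgroup.normalizer (Q : Set G) ⊓ X) →* MulAut Q :=
    Q.normalizerMonoidHom.comp (Subgroup.inclusion inf_le_left)
  have h1 : Nat.card ↥(Subgroup.normalizer (Q : Set G) ⊓ X) = Nat.card φ.ker * φ.ker.index :=
    (Subgroup.card_mul_index _).symm
  have h2 : φ.ker.index = Nat.card φ.range := Subgroup.index_ker φ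
  have h3 : Nat.card φ.range ∣ (Nat.card Q).totient := by
    rw [← IsCyclic.card_mulAut]
    exact Subgroup.card_subgroup_dvd_card _
  have h4 : Nat.card φ.ker ∣ Nat.card Q := by
    let ι : φ.ker →* G := (Subgroup.normalizer (Q : Set G) ⊓ X).subtype.comp φ.ker.subtype
    have hι : Function.Injective ι := fun a b h => by
      apply Subtype.ext; apply Subtype.ext; exact h
    have h5 : ι.range ≤ Q := by
      rintro _ ⟨a, rfl⟩
      have hm := a.2
      rw [MonoidHom.mem_ker] at hm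
      refine hC _ ((a : ↥(Subgroup.normalizer (Q : Set G) ⊓ X)).2.2) fun h hh => ?_
      have h6 := congrArg (fun f : MulAut Q => ((f ⟨h, hh⟩ : Q) : G)) hm
      have h7 : (a : ↥(Subgroup.normalizer (Q : Set G) ⊓ X)).1 * h *
          ((a : ↥(Subgroup.normalizer (Q : Set G) ⊓ X)).1)⁻¹ = h := h6
      exact mul_inv_eq_iff_eq_mul.mp h7
    have h8 : Nat.card φ.ker = Nat.card ι.range :=
      Nat.card_congr (MonoidHom.ofInjective hι).toEquiv
    rw [h8]
    exact Subgroup.card_dvd_of_le h5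
  rw [h1, h2]
  exact Nat.mul_dvd_mul h4 h3

instance fact23 : Fact (Nat.Prime 23) := ⟨by norm_num⟩
instance fact11 : Fact (Nat.Prime 11) := ⟨by norm_num⟩
instance fact2' : Fact (Nat.Prime 2) := ⟨by norm_num⟩

/-! ### The maps -/

/-- Translation. -/
def tr (c : ZMod 23) : P := Equiv.optionCongr (Equiv.addRight c)
/-- Multiplication. -/
def ml (u : (ZMod 23)ˣ) : P := Equiv.optionCongr (Units.mulLeft u)

@[simp] theorem tr_none (c : ZMod 23) : tr c none = none := rfl
@[simp] theorem tr_some (c x : ZMod 23) : tr c (some x) = some (x + c) := rfl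
@[simp] theorem ml_none (u : (ZMod 23)ˣ) : ml u none = none := rfl
@[simp] theorem ml_some (u : (ZMod 23)ˣ) (x : ZMod 23) : ml u (some x) = some ((u : ZMod 23) * x) := rfl

theorem tr_mul (c d : ZMod 23) : tr c * tr d = tr (c + d) := by
  ext (_ | x) <;> simp [add_comm, add_left_comm, add_assoc]

theorem tr_zero : tr 0 = 1 := by
  ext (_ | x) <;> simp

theorem tr_inv (c : ZMod 23) : (tr c)⁻¹ = tr (-c) := by
  rw [inv_eq_iff_mul_eq_one, tr_mul]; simp [tr_zero]

theorem ml_mul (u v : (ZMod 23)ˣ) : ml u * ml v = ml (u * v) := by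
  ext (_ | x) <;> simp [mul_assoc]

theorem ml_one : ml 1 = 1 := by
  ext (_ | x) <;> simp

theorem ml_inv (u : (ZMod 23)ˣ) : (ml u)⁻¹ = ml u⁻¹ := by
  rw [inv_eq_iff_mul_eq_one, ml_mul]; simp [ml_one]

theorem ml_tr (u : (ZMod 23)ˣ) (d : ZMod 23) : ml u * tr d = tr ((u : ZMod 23) * d) * ml u := by
  ext (_ | x) <;> simp [mul_add]

theorem tr_zpow (z : ℤ) : tr 1 ^ z = tr (z : ZMod 23) := by
  induction z using Int.induction_on with
  | zero => simp [tr_zero]
  | succ n ih =>
    rw [zpow_add_one, ih, tr_mul]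
    congr 1
    push_cast
    ring
  | pred n ih =>
    rw [zpow_sub_one, ih, tr_inv, tr_mul]
    congr 1
    push_cast
    ring

theorem tr_pow (n : ℕ) : tr 1 ^ n = tr (n : ZMod 23) := by
  have := tr_zpow (n : ℤ)
  simpa using this

theorem inv_ml : ∀ v : (ZMod 23)ˣ, projInv * ml v = ml v⁻¹ * projInv := by decide +kernel

theorem inv_inv' : projInv * projInv = 1 := by decide +kernel

theorem inv_sq : projInv ^ 2 = 1 := by decide +kernel

theorem inv_tr : ∀ w : (ZMod 23)ˣ, projInv * tr (w : ZMod 23) * projInv =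
    tr (-((w⁻¹ : (ZMod 23)ˣ) : ZMod 23)) * ml (w⁻¹ * w⁻¹) * projInv * tr (-((w⁻¹ : (ZMod 23)ˣ) : ZMod 23)) := by
  decide +kernel

/-- The affine group. -/
def BB : Subgroup P := Subgroup.closure ({tr 1} ∪ {g : P | ∃ u : (ZMod 23)ˣ, IsSquare u ∧ g = ml u})
/-- The projective group. -/
def LL : Subgroup P := Subgroup.closure ({tr 1, projInv} ∪ {g : P | ∃ u : (ZMod 23)ˣ, IsSquare u ∧ g = ml u})

theorem tr_mem_BB (c : ZMod 23) : tr c ∈ BB := by
  have h : tr 1 ∈ BB := Subgroup.subset_closure (Or.inl rfl)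
  have h2 := BB.pow_mem h c.val
  rw [tr_pow] at h2
  simpa using h2

theorem ml_mem_BB {u : (ZMod 23)ˣ} (hu : IsSquare u) : ml u ∈ BB :=
  Subgroup.subset_closure (Or.inr ⟨u, hu, rfl⟩)

theorem BB_le_LL : BB ≤ LL := by
  refine Subgroup.closure_mono ?_
  rintro g (rfl | h)
  · exact Or.inl (Or.inl rfl)
  · exact Or.inr h

theorem proj_mem_LL : projInv ∈ LL := Subgroup.subset_closure (Or.inl (Or.inr rfl))

theorem isSquare_inv {u : (ZMod 23)ˣ} (hu : IsSquare u) : IsSquare u⁻¹ := hu.inv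

/-- Normal form in the affine group. -/
theorem mem_BB_form {g : P} (hg : g ∈ BB) : ∃ (c : ZMod 23) (u : (ZMod 23)ˣ), IsSquare u ∧ g = tr c * ml u := by
  have key : ∀ (c : ZMod 23) (u v : (ZMod 23)ˣ), tr c * ml u * ml v = tr c * ml (u * v) := by
    intro c u v; rw [mul_assoc, ml_mul]
  have key2 : ∀ (c d : ZMod 23) (u : (ZMod 23)ˣ), tr c * ml u * tr d = tr (c + (u : ZMod 23) * d) * ml u := by
    intro c d u; rw [mul_assoc, ml_tr, ← mul_assoc, tr_mul]
  induction hg using Subgroup.closure_induction_right with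
  | one => exact ⟨0, 1, IsSquare.one, by simp [tr_zero, ml_one]⟩
  | mul_right x hx y hy ih =>
    obtain ⟨c, u, hu, rfl⟩ := ih
    rcases hy with rfl | ⟨v, hv, rfl⟩
    · exact ⟨_, u, hu, key2 c 1 u⟩
    · exact ⟨c, u * v, hu.mul hv, key c u v⟩
  | mul_inv_cancel x hx y hy ih =>
    obtain ⟨c, u, hu, rfl⟩ := ih
    rcases hy with rfl | ⟨v, hv, rfl⟩
    · rw [tr_inv]; exact ⟨_, u, hu, key2 c (-1) u⟩
    · rw [ml_inv]; exact ⟨c, u * v⁻¹, hu.mul hv.inv, key c u v⁻¹⟩

/-- The squares. -/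
def sqUnits : Finset (ZMod 23)ˣ := Finset.univ.filter IsSquare

theorem sqUnits_card : sqUnits.card = 11 := by decide +kernel

theorem BB_sub : (BB : Set P) ⊆ ((Finset.univ ×ˢ sqUnits).image fun x : ZMod 23 × (ZMod 23)ˣ => tr x.1 * ml x.2 : Finset P) := by
  intro g hg
  obtain ⟨c, u, hu, rfl⟩ := mem_BB_form hg
  simp only [Finset.coe_image, Set.mem_image, Finset.mem_coe, Finset.mem_product, Finset.mem_univ, true_and]
  exact ⟨(c, u), by simpa [sqUnits] using hu, rfl⟩

theorem card_prod : (Finset.univ ×ˢ sqUnits : Finset (ZMod 23 × (ZMod 23)ˣ)).card = 253 := by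
  rw [Finset.card_product, sqUnits_card]; rfl

theorem orderOf_tr : orderOf (tr 1) = 23 :=
  orderOf_eq_prime (by rw [tr_pow]; exact (by decide +kernel : tr ((23 : ℕ) : ZMod 23) = 1))
    (by decide +kernel)

/-- The unit `2`. -/
def u2 : (ZMod 23)ˣ := ⟨2, 12, by decide, by decide⟩

/-- The element of order 11. -/
def ss : P := ml u2

theorem u2_sq : IsSquare u2 := by decide +kernel

theorem orderOf_ss : orderOf ss = 11 :=
  orderOf_eq_prime (by decide +kernel) (by decide +kernel)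

theorem card_BB : Nat.card BB = 253 := by
  classical
  have h1 : Nat.card BB ≤ 253 := by
    have h0 : Nat.card ↥(BB : Set P) = (BB : Set P).ncard := Nat.card_coe_set_eq _
    refine (h0.le).trans ?_
    refine (Set.ncard_le_ncard BB_sub (Finset.finite_toSet _)).trans ?_
    rw [Set.ncard_coe_finset, ← card_prod]
    exact Finset.card_image_le
  have h2 : 23 ∣ Nat.card BB := by
    have := orderOf_dvd_natCard (⟨tr 1, tr_mem_BB 1⟩ : BB)
    rwa [← Subgroup.orderOf_coe, orderOf_tr] at this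
  have h3 : 11 ∣ Nat.card BB := by
    have := orderOf_dvd_natCard (⟨ss, ml_mem_BB u2_sq⟩ : BB)
    rwa [← Subgroup.orderOf_coe, orderOf_ss] at this
  have h4 : 23 * 11 ∣ Nat.card BB := Nat.Coprime.mul_dvd_of_dvd_of_dvd (by norm_num) h2 h3
  have h5 := Nat.le_of_dvd Nat.card_pos h4
  omega

/-- Normal forms in the projective group. -/
def LForm (g : P) : Prop :=
  (∃ (c : ZMod 23) (u : (ZMod 23)ˣ), IsSquare u ∧ g = tr c * ml u) ∨
    ∃ (c : ZMod 23) (u : (ZMod 23)ˣ) (d : ZMod 23), IsSquare u ∧ g = tr c * ml u * projInv * tr d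

theorem LForm_tr {g : P} (h : LForm g) (e : ZMod 23) : LForm (g * tr e) := by
  rcases h with ⟨c, u, hu, rfl⟩ | ⟨c, u, d, hu, rfl⟩
  · refine Or.inl ⟨c + (u : ZMod 23) * e, u, hu, ?_⟩
    rw [mul_assoc, ml_tr, ← mul_assoc, tr_mul]
  · refine Or.inr ⟨c, u, d + e, hu, ?_⟩
    rw [mul_assoc, tr_mul]

theorem LForm_ml {g : P} (h : LForm g) {v : (ZMod 23)ˣ} (hv : IsSquare v) : LForm (g * ml v) := by
  rcases h with ⟨c, u, hu, rfl⟩ | ⟨c, u, d, hu, rfl⟩
  · refine Or.inl ⟨c, u * v, hu.mul hv, ?_⟩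
    rw [mul_assoc, ml_mul]
  · refine Or.inr ⟨c, u * v⁻¹, ((v⁻¹ : (ZMod 23)ˣ) : ZMod 23) * d, hu.mul hv.inv, ?_⟩
    have h1 : tr d * ml v = ml v * tr (((v⁻¹ : (ZMod 23)ˣ) : ZMod 23) * d) := by
      rw [ml_tr, Units.mul_inv_cancel_left]
    have h2 := inv_ml v
    calc tr c * ml u * projInv * tr d * ml v
        = tr c * ml u * projInv * (tr d * ml v) := by rw [mul_assoc]
      _ = tr c * ml u * (projInv * ml v) * tr (((v⁻¹ : (ZMod 23)ˣ) : ZMod 23) * d) := by
          rw [h1]; simp only [mul_assoc]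
      _ = tr c * ml (u * v⁻¹) * projInv * tr (((v⁻¹ : (ZMod 23)ˣ) : ZMod 23) * d) := by
          rw [h2, ← ml_mul]; simp only [mul_assoc]

theorem LForm_proj {g : P} (h : LForm g) : LForm (g * projInv) := by
  rcases h with ⟨c, u, hu, rfl⟩ | ⟨c, u, d, hu, rfl⟩
  · exact Or.inr ⟨c, u, 0, hu, by rw [tr_zero, mul_one]⟩
  · by_cases hd : d = 0
    · subst hd
      refine Or.inl ⟨c, u, hu, ?_⟩
      rw [tr_zero, mul_one, mul_assoc, inv_inv', mul_one]
    · obtain ⟨w, rfl⟩ : ∃ w : (ZMod 23)ˣ, (w : ZMod 23) = d :=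
        ⟨Units.mk0 d hd, rfl⟩
      have h1 := inv_tr w
      refine Or.inr ⟨c + (u : ZMod 23) * (-((w⁻¹ : (ZMod 23)ˣ) : ZMod 23)), u * (w⁻¹ * w⁻¹),
        -((w⁻¹ : (ZMod 23)ˣ) : ZMod 23), hu.mul (IsSquare.mul_self _), ?_⟩
      calc tr c * ml u * projInv * tr (w : ZMod 23) * projInv
          = tr c * ml u * (projInv * tr (w : ZMod 23) * projInv) := by simp only [mul_assoc]
        _ = tr c * ml u * (tr (-((w⁻¹ : (ZMod 23)ˣ) : ZMod 23)) * ml (w⁻¹ * w⁻¹) * projInv *
              tr (-((w⁻¹ : (ZMod 23)ˣ) : ZMod 23))) := by rw [h1]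
        _ = tr c * (ml u * tr (-((w⁻¹ : (ZMod 23)ˣ) : ZMod 23))) * ml (w⁻¹ * w⁻¹) * projInv *
              tr (-((w⁻¹ : (ZMod 23)ˣ) : ZMod 23)) := by simp only [mul_assoc]
        _ = _ := by
            rw [ml_tr, ← mul_assoc (tr c), tr_mul, mul_assoc _ (ml u), ml_mul]

theorem mem_LL_form {g : P} (hg : g ∈ LL) : LForm g := by
  induction hg using Subgroup.closure_induction_right with
  | one => exact Or.inl ⟨0, 1, IsSquare.one, by simp [tr_zero, ml_one]⟩
  | mul_right x hx y hy ih =>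
    rcases hy with (rfl | rfl) | ⟨v, hv, rfl⟩
    · exact LForm_tr ih 1
    · exact LForm_proj ih
    · exact LForm_ml ih hv
  | mul_inv_cancel x hx y hy ih =>
    rcases hy with (rfl | rfl) | ⟨v, hv, rfl⟩
    · rw [tr_inv]; exact LForm_tr ih _
    · have : (projInv : P)⁻¹ = projInv := inv_eq_of_mul_eq_one_left inv_inv'
      rw [this]; exact LForm_proj ih
    · rw [ml_inv]; exact LForm_ml ih hv.inv

theorem LL_card_le : Nat.card LL ≤ 6072 := by
  classical
  let T : Finset P := ((Finset.univ ×ˢ sqUnits).image fun x : ZMod 23 × (ZMod 23)ˣ => tr x.1 * ml x.2) ∪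
    ((Finset.univ ×ˢ sqUnits ×ˢ Finset.univ).image
      fun x : ZMod 23 × (ZMod 23)ˣ × ZMod 23 => tr x.1 * ml x.2.1 * projInv * tr x.2.2)
  have hT : (LL : Set P) ⊆ T := by
    intro g hg
    simp only [T, Finset.coe_union, Finset.coe_image, Set.mem_union, Set.mem_image, Finset.mem_coe,
      Finset.mem_product, Finset.mem_univ, true_and, and_true]
    rcases mem_LL_form hg with ⟨c, u, hu, rfl⟩ | ⟨c, u, d, hu, rfl⟩
    · exact Or.inl ⟨(c, u), by simpa [sqUnits] using hu, rfl⟩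
    · exact Or.inr ⟨(c, u, d), by simpa [sqUnits] using hu, rfl⟩
  have hcard : T.card ≤ 6072 := by
    refine (Finset.card_union_le _ _).trans ?_
    have h1 := Finset.card_image_le (s := (Finset.univ ×ˢ sqUnits : Finset (ZMod 23 × (ZMod 23)ˣ)))
      (f := fun x : ZMod 23 × (ZMod 23)ˣ => tr x.1 * ml x.2)
    have h2 := Finset.card_image_le
      (s := (Finset.univ ×ˢ sqUnits ×ˢ Finset.univ : Finset (ZMod 23 × (ZMod 23)ˣ × ZMod 23)))
      (f := fun x : ZMod 23 × (ZMod 23)ˣ × ZMod 23 => tr x.1 * ml x.2.1 * projInv * tr x.2.2)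
    have h3 : (Finset.univ ×ˢ sqUnits ×ˢ Finset.univ : Finset (ZMod 23 × (ZMod 23)ˣ × ZMod 23)).card = 23 * (11 * 23) := by
      rw [Finset.card_product, Finset.card_product, sqUnits_card]; rfl
    rw [card_prod] at h1
    rw [h3] at h2
    omega
  have h0 : Nat.card ↥(LL : Set P) = (LL : Set P).ncard := Nat.card_coe_set_eq _
  refine (h0.le).trans ?_
  refine (Set.ncard_le_ncard hT (Finset.finite_toSet _)).trans ?_
  rwa [Set.ncard_coe_finset]

/-- A subgroup with the translations and the inversion is transitive. -/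
theorem index_stab_eq {H : Subgroup P} (h1 : ∀ c, tr c ∈ H) (h2 : projInv ∈ H) :
    (MulAction.stabilizer H (none : GolayPt)).index = 24 := by
  classical
  rw [MulAction.index_stabilizer]
  have : MulAction.orbit H (none : GolayPt) = Set.univ := by
    ext p
    simp only [Set.mem_univ, iff_true, MulAction.mem_orbit_iff]
    rcases p with _ | x
    · exact ⟨1, rfl⟩
    · refine ⟨⟨tr x * projInv, H.mul_mem (h1 x) h2⟩, ?_⟩
      show (tr x * projInv) none = some x
      have : projInv none = some 0 := rfl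
      simp [this]
  rw [this, Set.ncard_univ, Nat.card_eq_fintype_card, Fintype.card_option, ZMod.card]

theorem tr_mem_M24 (c : ZMod 23) : tr c ∈ M24 := by
  have h : tr 1 ∈ M24 := mem_M24_of_inM24 (codes_toL _) (by decide +kernel)
  have h2 := M24.pow_mem h c.val
  rw [tr_pow] at h2
  simpa using h2

theorem proj_mem_M24 : projInv ∈ M24 := mem_M24_of_inM24 (codes_toL _) (by decide +kernel)

theorem check_sq : ∀ r : (ZMod 23)ˣ, inM24 (toL (ml (r * r))) = true := by decide +kernel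

theorem ml_mem_M24 {u : (ZMod 23)ˣ} (hu : IsSquare u) : ml u ∈ M24 := by
  obtain ⟨r, rfl⟩ := hu
  exact mem_M24_of_inM24 (codes_toL _) (check_sq r)

theorem LL_le_M24 : LL ≤ M24 := by
  rw [LL, Subgroup.closure_le]
  rintro g ((rfl | rfl) | ⟨v, hv, rfl⟩)
  · exact tr_mem_M24 1
  · exact proj_mem_M24
  · exact ml_mem_M24 hv

theorem card_LL : Nat.card LL = 6072 := by
  have h1 : 253 ∣ Nat.card LL := by
    rw [← card_BB]; exact Subgroup.card_dvd_of_le BB_le_LL
  have h2 : 24 ∣ Nat.card LL := by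
    have h := index_stab_eq (H := LL) (fun c => BB_le_LL (tr_mem_BB c)) proj_mem_LL
    have h3 := (MulAction.stabilizer LL (none : GolayPt)).card_mul_index
    rw [h] at h3
    exact ⟨_, by rw [← h3, mul_comm]⟩
  have h4 : 253 * 24 ∣ Nat.card LL := Nat.Coprime.mul_dvd_of_dvd_of_dvd (by norm_num) h1 h2
  have h5 := Nat.le_of_dvd Nat.card_pos h4
  have h6 := LL_card_le
  omega

theorem inM24_of_mem {σ : P} (h : σ ∈ M24) : inM24 (toL σ) = true := by
  unfold inM24
  rw [validL_toL, Bool.true_and, List.all_eq_true]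
  intro b hb
  exact isCode_imgMask_toL h (isCode_of_mem_codeMasks (redBasis_sub b hb))

/-- The subgroup of translations. -/
def Q23 : Subgroup P := Subgroup.zpowers (tr 1)
/-- The subgroup of order 11. -/
def Q11 : Subgroup P := Subgroup.zpowers ss

theorem mem_Q23 {h : P} : h ∈ Q23 ↔ ∃ c, h = tr c := by
  constructor
  · rintro ⟨z, rfl⟩
    exact ⟨z, tr_zpow z⟩
  · rintro ⟨c, rfl⟩
    refine ⟨(c.val : ℤ), ?_⟩
    show tr 1 ^ (c.val : ℤ) = tr c
    rw [tr_zpow]; simp

theorem card_Q23 : Nat.card Q23 = 23 := by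
  rw [Q23, Nat.card_zpowers, orderOf_tr]

theorem card_Q11 : Nat.card Q11 = 11 := by
  rw [Q11, Nat.card_zpowers, orderOf_ss]

theorem Q23_le_BB : Q23 ≤ BB := by
  rw [Q23, Subgroup.zpowers_le]; exact tr_mem_BB 1

theorem Q11_le_BB : Q11 ≤ BB := by
  rw [Q11, Subgroup.zpowers_le]; exact ml_mem_BB u2_sq

theorem mem_norm_of_conj {x g : P} (h1 : g * x * g⁻¹ ∈ Subgroup.zpowers x)
    (h2 : g⁻¹ * x * g ∈ Subgroup.zpowers x) :
    g ∈ Subgroup.normalizer ((Subgroup.zpowers x : Subgroup P) : Set P) := by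
  rw [Subgroup.mem_normalizer_iff]
  intro h
  constructor
  · rintro ⟨z, rfl⟩
    show g * x ^ z * g⁻¹ ∈ _
    rw [← conj_zpow]
    exact Subgroup.zpow_mem _ h1 z
  · rintro ⟨z, hz⟩
    have hz' : x ^ z = g * h * g⁻¹ := hz
    have : h = (g⁻¹ * x * g) ^ z := by
      have h3 : (g⁻¹ * x * g) ^ z = g⁻¹ * x ^ z * g := by
        simpa using conj_zpow (a := g⁻¹) (b := x) (i := z)
      rw [h3, hz']; group
    rw [this]
    exact Subgroup.zpow_mem _ h2 z

theorem conj_tr (c d : ZMod 23) (u : (ZMod 23)ˣ) :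
    (tr c * ml u) * tr d * (tr c * ml u)⁻¹ = tr ((u : ZMod 23) * d) := by
  have h : (tr c * ml u) * tr d = tr ((u : ZMod 23) * d) * (tr c * ml u) := by
    rw [mul_assoc, ml_tr, ← mul_assoc, tr_mul, ← mul_assoc, tr_mul, add_comm]
  rw [h, mul_inv_cancel_right]

theorem BB_le_norm : BB ≤ Subgroup.normalizer (Q23 : Set P) := by
  intro g hg
  refine mem_norm_of_conj ?_ ?_
  · obtain ⟨c, u, hu, rfl⟩ := mem_BB_form hg
    rw [conj_tr]
    exact mem_Q23.2 ⟨_, rfl⟩
  · obtain ⟨c, u, hu, hg'⟩ := mem_BB_form (BB.inv_mem hg)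
    have hg2 : g = (tr c * ml u)⁻¹ := by rw [← hg', inv_inv]
    rw [hg']
    nth_rw 1 [hg2]
    rw [conj_tr]
    exact mem_Q23.2 ⟨_, rfl⟩

theorem check_ml_sq : ∀ u : (ZMod 23)ˣ, inM24 (toL (ml u)) = true → IsSquare u := by
  decide +kernel

theorem tr_one_ne : tr 1 ≠ 1 := by decide +kernel

theorem norm_le_BB {g : P} (hN : g ∈ Subgroup.normalizer (Q23 : Set P)) (hM : g ∈ M24) : g ∈ BB := by
  have h1 : g * tr 1 * g⁻¹ ∈ Q23 := (Subgroup.mem_normalizer_iff.1 hN _).1 (mem_Q23.2 ⟨1, rfl⟩)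
  obtain ⟨k, hk⟩ := mem_Q23.1 h1
  have hk0 : k ≠ 0 := by
    rintro rfl
    rw [tr_zero] at hk
    have h2 : g * tr 1 = g := mul_inv_eq_one.1 hk
    exact tr_one_ne (by simpa using h2)
  have hcomm : ∀ p, g (tr 1 p) = tr k (g p) := by
    intro p
    have h2 : g * tr 1 = tr k * g := by rw [← hk]; group
    exact congrArg (fun f : P => f p) h2
  have hnone : g none = none := by
    have h2 := hcomm none
    rw [tr_none] at h2
    cases hx : g none with
    | none => rfl
    | some y =>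
      rw [hx, tr_some] at h2
      have h3 : y = y + k := Option.some.inj h2
      exact absurd (by simpa using h3.symm) hk0
  have hsome : ∀ x : ZMod 23, ∃ y, g (some x) = some y := by
    intro x
    cases hx : g (some x) with
    | none =>
      have h2 := g.injective (hx.trans hnone.symm)
      exact absurd h2 (by simp)
    | some y => exact ⟨y, rfl⟩
  choose f hf using hsome
  have hfs : ∀ x, f (x + 1) = f x + k := by
    intro x
    have h2 := hcomm (some x)
    rw [tr_some, hf, hf, tr_some] at h2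
    exact Option.some.inj h2
  have hfn : ∀ n : ℕ, f (n : ZMod 23) = f 0 + n * k := by
    intro n
    induction n with
    | zero => simp
    | succ n ih =>
      push_cast
      rw [hfs, ih]
      ring
  have hfx : ∀ x, f x = f 0 + k * x := by
    intro x
    have h2 := hfn x.val
    simpa [mul_comm] using h2
  let u : (ZMod 23)ˣ := Units.mk0 k hk0
  have hg : g = tr (f 0) * ml u := by
    ext1 p
    rcases p with _ | x
    · simp [hnone]
    · have h3 := hfx x
      show g (some x) = (tr (f 0) * ml u) (some x)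
      rw [hf, h3]
      show some (f 0 + k * x) = some (k * x + f 0)
      rw [add_comm]
  have hu : ml u ∈ M24 := by
    have h2 : ml u = (tr (f 0))⁻¹ * g := by rw [hg]; group
    rw [h2]
    exact M24.mul_mem (M24.inv_mem (tr_mem_M24 _)) hM
  have hsq : IsSquare u := check_ml_sq u (inM24_of_mem hu)
  rw [hg]
  exact BB.mul_mem (tr_mem_BB _) (ml_mem_BB hsq)

theorem norm23_eq {J : Subgroup P} (h1 : BB ≤ J) (h2 : J ≤ M24) :
    Subgroup.normalizer (Q23 : Set P) ⊓ J = BB := by
  apply le_antisymm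
  · intro g hg
    exact norm_le_BB hg.1 (h2 hg.2)
  · exact le_inf BB_le_norm h1

/-! ### The centralizer of the element of order 11 -/

/-- Multiplication on points. -/
def pw (x : ZMod 23) (p : GolayPt) : GolayPt := p.map (x * ·)

/-- Candidates for an element centralizing `ss`. -/
def FF (e a b : GolayPt) : GolayPt → GolayPt
  | none => e
  | some x => if x = 0 then (if e = none then some 0 else none)
      else if x ^ 11 = 1 then pw x a else pw (-x) b

theorem cent_check : ∀ e ∈ ([none, some 0] : List GolayPt), ∀ a b : GolayPt,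
    inM24 (toL (FF e a b)) = true →
      ∃ n : Fin 11, toL (FF e a b) = toL (ml (u2 ^ n.val)) := by
  decide +kernel

theorem ml_pow (u : (ZMod 23)ˣ) (n : ℕ) : ml u ^ n = ml (u ^ n) := by
  induction n with
  | zero => simp [ml_one]
  | succ n ih => rw [pow_succ, ih, ml_mul, pow_succ]

theorem ml_eq_pw (u : (ZMod 23)ˣ) (p : GolayPt) : ml u p = pw u p := by
  cases p <;> rfl

theorem pow_check1 : ∀ x : ZMod 23, x ^ 11 = 1 → ∃ n : Fin 11, x = ((u2 ^ n.val : (ZMod 23)ˣ) : ZMod 23) := by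
  decide +kernel

theorem pow_check2 : ∀ x : ZMod 23, x ≠ 0 → x ^ 11 ≠ 1 →
    ∃ n : Fin 11, -x = ((u2 ^ n.val : (ZMod 23)ˣ) : ZMod 23) := by
  decide +kernel

theorem fix_ss : ∀ p : GolayPt, ss p = p → p = none ∨ p = some 0 := by decide +kernel

theorem cent_Q11 {g : P} (hM : g ∈ M24) (hc : ∀ h ∈ Q11, g * h = h * g) : g ∈ Q11 := by
  have hcs : g * ss = ss * g := hc ss (Subgroup.mem_zpowers ss)
  have hpow : ∀ (n : ℕ) (p : GolayPt), g (ml (u2 ^ n) p) = ml (u2 ^ n) (g p) := by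
    intro n p
    have h2 : g * ml (u2 ^ n) = ml (u2 ^ n) * g := by
      rw [← ml_pow]
      exact (Commute.pow_right hcs n).eq
    exact congrArg (fun f : P => f p) h2
  have hss : ∀ p : GolayPt, g (ss p) = ss (g p) := fun p => congrArg (fun f : P => f p) hcs
  have he : g none = none ∨ g none = some 0 := fix_ss _ (by rw [← hss]; rfl)
  have h0 : g (some 0) = none ∨ g (some 0) = some 0 := fix_ss _ (by
    rw [← hss]
    congr 1)
  have hne : g none ≠ g (some 0) := fun h => by simpa using g.injective h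
  have hF : (g : GolayPt → GolayPt) = FF (g none) (g (some 1)) (g (some (-1))) := by
    funext p
    rcases p with _ | x
    · rfl
    · by_cases hx0 : x = 0
      · subst hx0
        rcases he with he | he <;> rcases h0 with h0 | h0
        · exact absurd (he.trans h0.symm) hne
        · simp [FF, he, h0]
        · simp [FF, he, h0]
        · exact absurd (he.trans h0.symm) hne
      · by_cases hx11 : x ^ 11 = 1
        · obtain ⟨n, hn⟩ := pow_check1 x hx11
          have h3 : (some x : GolayPt) = ml (u2 ^ n.val) (some 1) := by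
            rw [ml_some, mul_one, ← hn]
          have h4 : g (some x) = pw x (g (some 1)) := by
            rw [h3, hpow, ml_eq_pw, ← hn]
          simp [FF, hx0, hx11, h4]
        · obtain ⟨n, hn⟩ := pow_check2 x hx0 hx11
          have h3 : (some x : GolayPt) = ml (u2 ^ n.val) (some (-1)) := by
            rw [ml_some, ← hn]
            simp
          have h4 : g (some x) = pw (-x) (g (some (-1))) := by
            rw [h3, hpow, ml_eq_pw, ← hn]
          simp [FF, hx0, hx11, h4]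
  have hin : inM24 (toL (FF (g none) (g (some 1)) (g (some (-1))))) = true := by
    rw [← hF]; exact inM24_of_mem hM
  have hmem : g none ∈ ([none, some 0] : List GolayPt) := by
    rcases he with he | he <;> simp [he]
  obtain ⟨n, hn⟩ := cent_check _ hmem _ _ hin
  have h5 : g = ml (u2 ^ n.val) := by
    apply eq_of_toL
    rw [hF]
    exact hn
  rw [h5, ← ml_pow]
  exact Q11.pow_mem (Subgroup.mem_zpowers ss) _

instance : IsCyclic Q11 := by
  unfold Q11; infer_instance

theorem card_N1 : Nat.card ↥(Subgroup.normalizer (Q11 : Set P) ⊓ M24) ∣ 110 := by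
  have h := card_norm_dvd M24 Q11 (fun g hg hc => cent_Q11 hg hc)
  rw [card_Q11, Nat.totient_prime (by norm_num : Nat.Prime 11)] at h
  exact h

theorem proj_norm : projInv ∈ Subgroup.normalizer (Q11 : Set P) := by
  have h0 : projInv⁻¹ = projInv := inv_eq_of_mul_eq_one_left inv_inv'
  have h1 : projInv * ss * projInv⁻¹ = ss⁻¹ := by
    rw [h0, ss, inv_ml, ml_inv, mul_assoc, inv_inv', mul_one]
  have h2 : projInv⁻¹ * ss * projInv = ss⁻¹ := by
    rw [h0]; simpa [h0] using h1
  refine mem_norm_of_conj ?_ ?_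
  · rw [h1]; exact Subgroup.inv_mem _ (Subgroup.mem_zpowers ss)
  · rw [h2]; exact Subgroup.inv_mem _ (Subgroup.mem_zpowers ss)

theorem fix_norm {g : P} (hg : g ∈ Subgroup.normalizer (Q11 : Set P)) {p : GolayPt}
    (hp : p = none ∨ p = some 0) : g p = none ∨ g p = some 0 := by
  have hss : ss p = p := by
    rcases hp with rfl | rfl
    · rfl
    · exact (by decide +kernel : ss (some 0) = some 0)
  have h1 : g⁻¹ * ss * g⁻¹⁻¹ ∈ Q11 :=
    (Subgroup.mem_normalizer_iff.1 (Subgroup.inv_mem _ hg) ss).1 (Subgroup.mem_zpowers ss)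
  obtain ⟨z, hz⟩ := h1
  have hz' : ss ^ z = g⁻¹ * ss * g⁻¹⁻¹ := hz
  have h2 : (ss ^ z) p = p := Equiv.Perm.zpow_apply_eq_self_of_apply_eq_self hss z
  refine fix_ss _ ?_
  rw [hz'] at h2
  have h3 : ss (g p) = g ((g⁻¹ * ss * g⁻¹⁻¹) p) := by simp
  rw [h3, h2]

theorem card_N2 : 2 * Nat.card ↥(Subgroup.normalizer (Q11 : Set P) ⊓
    (M24 ⊓ MulAction.stabilizer P (none : GolayPt))) ∣ 110 := by
  classical
  set N1 := Subgroup.normalizer (Q11 : Set P) ⊓ M24 with hN1
  set N2 := Subgroup.normalizer (Q11 : Set P) ⊓ (M24 ⊓ MulAction.stabilizer P (none : GolayPt)) with hN2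
  have hle : N2 ≤ N1 := inf_le_inf_left _ inf_le_left
  have hproj : projInv ∈ N1 := ⟨proj_norm, proj_mem_M24⟩
  have hmem : ∀ x : P, x ∈ N1 → (x ∈ N2 ↔ x none = none) := by
    intro x hx
    constructor
    · intro h; exact h.2.2
    · intro h; exact ⟨hx.1, hx.2, h⟩
  have hind : (N2.subgroupOf N1).index = 2 := by
    rw [Subgroup.index_eq_two_iff]
    refine ⟨⟨projInv, hproj⟩, fun b => ?_⟩
    rw [Subgroup.mem_subgroupOf, Subgroup.mem_subgroupOf]
    have hb := b.2
    have hba : (b * ⟨projInv, hproj⟩ : N1).1 ∈ N1 := (b * ⟨projInv, hproj⟩ : N1).2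
    rw [hmem _ hba, hmem _ hb]
    have e1 : ((b * ⟨projInv, hproj⟩ : N1).1) none = b.1 (some 0) := rfl
    rw [e1]
    have h1 := fix_norm hb.1 (p := none) (Or.inl rfl)
    have h2 := fix_norm hb.1 (p := some 0) (Or.inr rfl)
    have hne : b.1 none ≠ b.1 (some 0) := fun h => by simpa using b.1.injective h
    rcases h1 with h1 | h1 <;> rcases h2 with h2 | h2
    · exact absurd (h1.trans h2.symm) hne
    · right; exact ⟨h1, by simp [h2]⟩
    · left; exact ⟨h2, by simp [h1]⟩
    · exact absurd (h1.trans h2.symm) hne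
  have hcard := (N2.subgroupOf N1).card_mul_index
  rw [hind, Nat.card_congr (Subgroup.subgroupOfEquivOfLe hle).toEquiv] at hcard
  rw [mul_comm, hcard]
  exact card_N1

/-! ### Arithmetic -/

theorem arith_aux : ∀ k : ℕ, k < 1754 → (23 * k + 1) ∣ 40320 →
    ((23 * k + 1) % 11 = 1 ∨ (23 * k + 1) % 11 = 5) → 23 * k + 1 = 1 ∨ 23 * k + 1 = 40320 := by
  decide +kernel

theorem arith {m : ℕ} (h1 : m ∣ 40320) (h2 : m % 23 = 1) (h3 : m % 11 = 1 ∨ m % 11 = 5) :
    m = 1 ∨ m = 40320 := by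
  have hle := Nat.le_of_dvd (by norm_num) h1
  have hm : m = 23 * (m / 23) + 1 := by omega
  rw [hm] at h1 h3 ⊢
  exact arith_aux _ (by omega) h1 h3

theorem not_sq {J : Subgroup P} (h2 : J ≤ M24) : ¬ 23 ^ 2 ∣ Nat.card J ∧ ¬ 11 ^ 2 ∣ Nat.card J := by
  have hdvd : Nat.card J ∣ 244823040 := card_M24 ▸ Subgroup.card_dvd_of_le h2
  constructor
  · intro h; exact absurd (h.trans hdvd) (by norm_num)
  · intro h; exact absurd (h.trans hdvd) (by norm_num)

theorem orderOf_proj : orderOf projInv = 2 :=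
  orderOf_eq_prime inv_sq (by decide +kernel)

/-- Main step for `PSL(2,23)`. -/
theorem L_case (J : Subgroup P) (h1 : LL ≤ J) (h2 : J ≤ M24) :
    Nat.card J = 6072 ∨ Nat.card J = 244823040 := by
  have hdvd : Nat.card J ∣ 244823040 := card_M24 ▸ Subgroup.card_dvd_of_le h2
  have hL : 6072 ∣ Nat.card J := card_LL ▸ Subgroup.card_dvd_of_le h1
  obtain ⟨m, hm⟩ := hL
  have hBJ : BB ≤ J := BB_le_LL.trans h1
  have hQ23 : Q23 ≤ J := Q23_le_BB.trans hBJ
  have hQ11 : Q11 ≤ J := Q11_le_BB.trans hBJ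
  obtain ⟨n, hn, hn1⟩ := sylow_count J Q23 hQ23 23 card_Q23 (not_sq h2).1
  rw [norm23_eq hBJ h2, card_BB] at hn
  obtain ⟨n', hn', hn1'⟩ := sylow_count J Q11 hQ11 11 card_Q11 (not_sq h2).2
  have hd1 : Nat.card ↥(Subgroup.normalizer (Q11 : Set P) ⊓ J) ∣ 110 :=
    (Subgroup.card_dvd_of_le (inf_le_inf_left _ h2)).trans card_N1
  have hs : (⟨ss, Subgroup.le_normalizer (Subgroup.mem_zpowers ss), hQ11 (Subgroup.mem_zpowers ss)⟩ :
      ↥(Subgroup.normalizer (Q11 : Set P) ⊓ J)) = ⟨ss, Subgroup.le_normalizer (Subgroup.mem_zpowers ss), hQ11 (Subgroup.mem_zpowers ss)⟩ := rfl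
  have hd2 : 11 ∣ Nat.card ↥(Subgroup.normalizer (Q11 : Set P) ⊓ J) := by
    have h3 := orderOf_dvd_natCard (⟨ss, Subgroup.le_normalizer (Subgroup.mem_zpowers ss), hQ11 (Subgroup.mem_zpowers ss)⟩ :
      ↥(Subgroup.normalizer (Q11 : Set P) ⊓ J))
    rwa [← Subgroup.orderOf_coe, orderOf_ss] at h3
  have hd3 : 2 ∣ Nat.card ↥(Subgroup.normalizer (Q11 : Set P) ⊓ J) := by
    have h3 := orderOf_dvd_natCard (⟨projInv, proj_norm, h1 proj_mem_LL⟩ :
      ↥(Subgroup.normalizer (Q11 : Set P) ⊓ J))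
    rwa [← Subgroup.orderOf_coe, orderOf_proj] at h3
  generalize Nat.card ↥(Subgroup.normalizer (Q11 : Set P) ⊓ J) = d at *
  have hd : d = 22 ∨ d = 110 := by
    have hle := Nat.le_of_dvd (by norm_num) hd1
    interval_cases d <;> omega
  have hn1a : n % 23 = 1 := hn1
  have hn1b : n' % 11 = 1 := hn1'
  have hm23 : m % 23 = 1 := by omega
  have hm11 : m % 11 = 1 ∨ m % 11 = 5 := by
    rcases hd with rfl | rfl <;> omega
  have hm0 : m ∣ 40320 := by
    rw [hm] at hdvd
    exact Nat.dvd_of_mul_dvd_mul_left (by norm_num : 0 < 6072) (by simpa using hdvd)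
  rcases arith hm0 hm23 hm11 with rfl | rfl
  · left; omega
  · right; omega

/-- Main step for `23:11`. -/
theorem B_case (J : Subgroup P) (h1 : BB ≤ J) (h2 : J ≤ M24) (h3 : ∀ g ∈ J, g none = none)
    (hdvd : Nat.card J ∣ 10200960) :
    Nat.card J = 253 ∨ Nat.card J = 10200960 := by
  have hL : 253 ∣ Nat.card J := card_BB ▸ Subgroup.card_dvd_of_le h1
  obtain ⟨m, hm⟩ := hL
  have hQ23 : Q23 ≤ J := Q23_le_BB.trans h1
  have hQ11 : Q11 ≤ J := Q11_le_BB.trans h1
  obtain ⟨n, hn, hn1⟩ := sylow_count J Q23 hQ23 23 card_Q23 (not_sq h2).1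
  rw [norm23_eq h1 h2, card_BB] at hn
  obtain ⟨n', hn', hn1'⟩ := sylow_count J Q11 hQ11 11 card_Q11 (not_sq h2).2
  have hle : Subgroup.normalizer (Q11 : Set P) ⊓ J ≤ Subgroup.normalizer (Q11 : Set P) ⊓
      (M24 ⊓ MulAction.stabilizer P (none : GolayPt)) :=
    inf_le_inf_left _ (le_inf h2 (fun g hg => h3 g hg))
  have hd1' : 2 * Nat.card ↥(Subgroup.normalizer (Q11 : Set P) ⊓ J) ∣ 110 :=
    (Nat.mul_dvd_mul_left 2 (Subgroup.card_dvd_of_le hle)).trans card_N2
  have hd1 : Nat.card ↥(Subgroup.normalizer (Q11 : Set P) ⊓ J) ∣ 55 :=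
    Nat.dvd_of_mul_dvd_mul_left (by norm_num : 0 < 2) (by simpa using hd1')
  have hd2 : 11 ∣ Nat.card ↥(Subgroup.normalizer (Q11 : Set P) ⊓ J) := by
    have h3 := orderOf_dvd_natCard (⟨ss, Subgroup.le_normalizer (Subgroup.mem_zpowers ss), hQ11 (Subgroup.mem_zpowers ss)⟩ :
      ↥(Subgroup.normalizer (Q11 : Set P) ⊓ J))
    rwa [← Subgroup.orderOf_coe, orderOf_ss] at h3
  generalize Nat.card ↥(Subgroup.normalizer (Q11 : Set P) ⊓ J) = d at *
  have hd : d = 11 ∨ d = 55 := by
    have hle := Nat.le_of_dvd (by norm_num) hd1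
    interval_cases d <;> omega
  have hn1a : n % 23 = 1 := hn1
  have hn1b : n' % 11 = 1 := hn1'
  have hm23 : m % 23 = 1 := by omega
  have hm11 : m % 11 = 1 ∨ m % 11 = 5 := by
    rcases hd with rfl | rfl <;> omega
  have hm0 : m ∣ 40320 := by
    rw [hm] at hdvd
    exact Nat.dvd_of_mul_dvd_mul_left (by norm_num : 0 < 253) (by simpa using hdvd)
  rcases arith hm0 hm23 hm11 with rfl | rfl
  · left; omega
  · right; omega

theorem BB_le_stab : BB ≤ MulAction.stabilizer P (none : GolayPt) := by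
  intro g hg
  obtain ⟨c, u, hu, rfl⟩ := mem_BB_form hg
  show (tr c * ml u) none = none
  rfl

theorem BB_le_M24 : BB ≤ M24 := BB_le_LL.trans LL_le_M24

/-- The point stabilizer in `M24`. -/
theorem card_stab : Nat.card (MulAction.stabilizer M24 (none : GolayPt)) = 10200960 := by
  have h := index_stab_eq (H := M24) tr_mem_M24 proj_mem_M24
  have h3 := (MulAction.stabilizer M24 (none : GolayPt)).card_mul_index
  rw [h, card_M24] at h3
  omega

theorem coatom1 : IsCoatom (LL.subgroupOf M24) := by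
  refine ⟨?_, fun J hJ => ?_⟩
  · intro h
    rw [Subgroup.subgroupOf_eq_top] at h
    have := Subgroup.card_le_of_le h
    rw [card_M24, card_LL] at this
    omega
  · have hcard : Nat.card (J.map M24.subtype) = Nat.card J :=
      Nat.card_congr (Subgroup.equivMapOfInjective J M24.subtype M24.subtype_injective).symm.toEquiv
    have h1 : LL ≤ J.map M24.subtype := by
      intro g hg
      exact ⟨⟨g, LL_le_M24 hg⟩, hJ.le hg, rfl⟩
    have h2 : J.map M24.subtype ≤ M24 := by
      rintro _ ⟨x, _, rfl⟩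
      exact x.2
    rcases L_case _ h1 h2 with h | h
    · exfalso
      have h3 : LL = J.map M24.subtype :=
        Subgroup.eq_of_le_of_card_ge h1 (by rw [h, card_LL])
      apply hJ.not_ge
      intro x hx
      show x.1 ∈ LL
      rw [h3]
      exact ⟨x, hx, rfl⟩
    · rw [hcard] at h
      exact Subgroup.eq_top_of_card_eq J (by rw [h, card_M24])

theorem coatom2 : IsCoatom ((BB.subgroupOf M24).subgroupOf (MulAction.stabilizer M24 (none : GolayPt))) := by
  set X := MulAction.stabilizer M24 (none : GolayPt) with hX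
  refine ⟨?_, fun J hJ => ?_⟩
  · intro h
    rw [Subgroup.subgroupOf_eq_top] at h
    have h1 : ∀ x : X, x.1.1 ∈ BB := fun x => h x.2
    have h2 : Nat.card X ≤ Nat.card BB := by
      refine Nat.card_le_card_of_injective (fun x : X => (⟨x.1.1, h1 x⟩ : BB)) ?_
      intro a b hab
      exact Subtype.ext (Subtype.ext (congrArg (fun y : BB => y.1) hab))
    rw [card_stab, card_BB] at h2
    omega
  · set J' : Subgroup P := (J.map X.subtype).map M24.subtype with hJ'
    have hcard : Nat.card J' = Nat.card J :=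
      (Nat.card_congr (Subgroup.equivMapOfInjective (J.map X.subtype) M24.subtype M24.subtype_injective).symm.toEquiv).trans
        (Nat.card_congr (Subgroup.equivMapOfInjective J X.subtype X.subtype_injective).symm.toEquiv)
    have h1 : BB ≤ J' := by
      intro g hg
      have hX' : (⟨g, BB_le_M24 hg⟩ : M24) ∈ X := BB_le_stab hg
      have hH : (⟨⟨g, BB_le_M24 hg⟩, hX'⟩ : X) ∈ J := hJ.le hg
      exact ⟨_, ⟨_, hH, rfl⟩, rfl⟩
    have h2 : J' ≤ M24 := by
      rintro _ ⟨x, _, rfl⟩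
      exact x.2
    have h3 : ∀ g ∈ J', g none = none := by
      rintro _ ⟨_, ⟨x, _, rfl⟩, rfl⟩
      exact x.2
    have h4 : Nat.card J' ∣ 10200960 := by
      rw [hcard, ← card_stab]
      exact Subgroup.card_subgroup_dvd_card J
    rcases B_case J' h1 h2 h3 h4 with h | h
    · exfalso
      have h5 : BB = J' := Subgroup.eq_of_le_of_card_ge h1 (by rw [h, card_BB])
      apply hJ.not_ge
      intro x hx
      show x.1.1 ∈ BB
      rw [h5]
      exact ⟨_, ⟨x, hx, rfl⟩, rfl⟩
    · rw [hcard] at h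
      exact Subgroup.eq_top_of_card_eq J (by rw [h, card_stab])


/-- PSL(2, 23) = ⟨t ↦ t+1, t ↦ u t (u square), t ↦ −1/t⟩ is maximal of order 6072 in the group of the length-24 code, and its point stabiliser 23:11 (order 253) is maximal in the Mathieu group of degree 23. -/
theorem result : (Subgroup.closure ({Equiv.optionCongr (Equiv.addRight (1 : ZMod 23)), Cfsg.projInv} ∪ {g : Equiv.Perm Cfsg.GolayPt | ∃ u : (ZMod 23)ˣ, IsSquare u ∧ g = Equiv.optionCongr (Units.mulLeft u)}) ≤ Cfsg.M24 ∧ Nat.card ↥(Subgroup.closure ({Equiv.optionCongr (Equiv.addRight (1 : ZMod 23)), Cfsg.projInv} ∪ {g : Equiv.Perm Cfsg.GolayPt | ∃ u : (ZMod 23)ˣ, IsSquare u ∧ g = Equiv.optionCongr (Units.mulLeft u)})) = 6072 ∧ IsCoatom ((Subgroup.closure ({Equiv.optionCongr (Equiv.addRight (1 : ZMod 23)), Cfsg.projInv} ∪ {g : Equiv.Perm Cfsg.GolayPt | ∃ u : (ZMod 23)ˣ, IsSquare u ∧ g = Equiv.optionCongr (Units.mulLeft u)})).subgroupOf Cfsg.M24)) ∧ (Subgroup.closure ({Equiv.optionCongr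 (Equiv.addRight (1 : ZMod 23))} ∪ {g : Equiv.Perm Cfsg.GolayPt | ∃ u : (ZMod 23)ˣ, IsSquare u ∧ g = Equiv.optionCongr (Units.mulLeft u)}) ≤ Cfsg.M24 ⊓ MulAction.stabilizer (Equiv.Perm Cfsg.GolayPt) (none : Cfsg.GolayPt) ∧ Nat.card ↥(Subgroup.closure ({Equiv.optionCongr (Equiv.addRight (1 : ZMod 23))} ∪ {g : Equiv.Perm Cfsg.GolayPt | ∃ u : (ZMod 23)ˣ, IsSquare u ∧ g = Equiv.optionCongr (Units.mulLeft u)})) = 253 ∧ IsCoatom (((Subgroup.closure ({Equiv.optionCongr (Equiv.addRight (1 : ZMod 23))} ∪ {g : Equiv.Perm Cfsg.GolayPt | ∃ u : (ZMod 23)ˣ, IsSquare u ∧ g = Equiv.optionCongr (Units.mulLeft u)})).subgroupOf Cfsg.M24).subgroupOf (MulAction.stabilizer Cfsg.M24 (none : Cfsg.GolayPt)))) :=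
  ⟨⟨LL_le_M24, card_LL, coatom1⟩, le_inf BB_le_M24 BB_le_stab, card_BB, coatom2⟩

end Cfsg.Agent.S1643
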