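import Cfsg.Statements.S1717
import Mathlib
-- import your own Cfsg.Agent.* helpers here

set_option autoImplicit false
open Cfsg

namespace Cfsg.Agent.S1717

open Matrix
open scoped Pointwise

abbrev M5 := Matrix (Fin 5) (Fin 5) (ZMod 2)

/-- Position of an index in the flag order `0 < 2 < 3 < 4 < 1`. -/
def pos : Fin 5 → ℕ := ![0, 4, 1, 2, 3]

lemma pos_le (i : Fin 5) : pos i ≤ 4 := by
  fin_cases i <;> decide

/-- Level `k` strict triangularity. -/
def L (k : ℕ) (N : M5) : Prop := ∀ i j, pos j < pos i + k → N i j = 0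

lemma L_mul {k l : ℕ} {N N' : M5} (h : L k N) (h' : L l N') : L (k + l) (N * N') := by
  intro i j hij
  rw [Matrix.mul_apply]
  apply Finset.sum_eq_zero
  intro x _
  by_cases hx : pos x < pos i + k
  · rw [h i x hx, zero_mul]
  · rw [h' x j (by omega), mul_zero]

lemma L_add {k : ℕ} {N N' : M5} (h : L k N) (h' : L k N') : L k (N + N') := by
  intro i j hij
  rw [Matrix.add_apply, h i j hij, h' i j hij, add_zero]

lemma L_one : L 0 (1 : M5) := by
  intro i j hij
  rw [Matrix.one_apply_ne]
  rintro rfl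
  omega

lemma L_pow {N : M5} (h : L 1 N) (k : ℕ) : L k (N ^ k) := by
  induction k with
  | zero => simpa using L_one
  | succ k ih => rw [pow_succ]; exact L_mul ih h

lemma pow_five_eq_zero {N : M5} (h : L 1 N) : N ^ 5 = 0 := by
  ext i j
  have := L_pow h 5 i j (by have := pos_le j; omega)
  simpa using this

lemma add_self_M (A : M5) : A + A = 0 := by
  ext i j
  simp only [Matrix.add_apply, Matrix.zero_apply]
  exact CharTwo.add_self_eq_zero _

lemma sq_one_add (A : M5) : (1 + A) ^ 2 = 1 + A ^ 2 := by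
  have : (1 + A) ^ 2 = 1 + (A + A) + A ^ 2 := by noncomm_ring
  rw [this, add_self_M, add_zero]

lemma pow_eight_one_add {N : M5} (h : L 1 N) : (1 + N) ^ 8 = 1 := by
  have h5 := pow_five_eq_zero h
  have e8 : (1 + N) ^ 8 = (((1 + N) ^ 2) ^ 2) ^ 2 := by rw [← pow_mul, ← pow_mul]
  rw [e8, sq_one_add, sq_one_add, sq_one_add, ← pow_mul, ← pow_mul]
  have : N ^ (2 * 2 * 2) = N ^ 5 * N ^ 3 := by rw [← pow_add]
  rw [this, h5, zero_mul, add_zero]

/-- Elements of the unitriangular group for the flag. -/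
def Pr (g : SpecialLinearGroup (Fin 5) (ZMod 2)) : Prop := L 1 ((g : M5) - 1)

lemma Pr_mul {g h : SpecialLinearGroup (Fin 5) (ZMod 2)} (hg : Pr g) (hh : Pr h) : Pr (g * h) := by
  unfold Pr at *
  have e : ((g * h : SpecialLinearGroup (Fin 5) (ZMod 2)) : M5) - 1
      = ((g : M5) - 1) + ((h : M5) - 1) + ((g : M5) - 1) * ((h : M5) - 1) := by
    change (g : M5) * (h : M5) - 1 = _
    noncomm_ring
  rw [e]
  refine L_add (L_add hg hh) ?_
  intro i j hij
  exact L_mul hg hh i j (by omega)

lemma Pr_one : Pr (1 : SpecialLinearGroup (Fin 5) (ZMod 2)) := by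
  intro i j _
  simp

lemma Pr_pow_eight {g : SpecialLinearGroup (Fin 5) (ZMod 2)} (hg : Pr g) : g ^ 8 = 1 := by
  have := pow_eight_one_add hg
  rw [add_sub_cancel] at this
  apply Subtype.ext
  change (g : M5) ^ 8 = 1
  exact this

lemma Pr_npow {g : SpecialLinearGroup (Fin 5) (ZMod 2)} (hg : Pr g) (n : ℕ) : Pr (g ^ n) := by
  induction n with
  | zero => simpa using Pr_one
  | succ n ih => rw [pow_succ]; exact Pr_mul ih hg

lemma Pr_inv {g : SpecialLinearGroup (Fin 5) (ZMod 2)} (hg : Pr g) : Pr g⁻¹ := by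
  have : g⁻¹ = g ^ 7 := by
    rw [inv_eq_iff_mul_eq_one, ← pow_succ']
    exact Pr_pow_eight hg
  rw [this]
  exact Pr_npow hg 7

/-- The subgroup of the flag. -/
def UU : Subgroup (SpecialLinearGroup (Fin 5) (ZMod 2)) where
  carrier := {g | Pr g}
  mul_mem' := Pr_mul
  one_mem' := Pr_one
  inv_mem' := Pr_inv

lemma isPGroup_UU : IsPGroup 2 UU := by
  intro g
  refine ⟨3, ?_⟩
  apply Subtype.ext
  exact Pr_pow_eight g.2

/-- The four transvections. -/
def tv (a b : Fin 5) (h : a ≠ b) : SpecialLinearGroup (Fin 5) (ZMod 2) :=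
  ⟨Matrix.transvection a b 1, Matrix.det_transvection_of_ne a b h 1⟩

lemma comm_entries {a b : Fin 5} (h : a ≠ b) {A : M5}
    (hc : Matrix.transvection a b (1 : ZMod 2) * A = A * Matrix.transvection a b 1) (k l : Fin 5) :
    (if k = a then A b l else 0) = (if l = b then A k a else 0) := by
  have h1 := congrFun (congrFun hc k) l
  simp only [Matrix.transvection, Matrix.add_mul, Matrix.mul_add, Matrix.one_mul, Matrix.mul_one,
    Matrix.add_apply] at h1
  have h2 := add_left_cancel h1
  by_cases hk : k = a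
  · by_cases hl : l = b
    · subst hk hl
      simpa using h2
    · subst hk
      simpa [hl] using h2
  · by_cases hl : l = b
    · subst hl
      simpa [hk] using h2
    · simp [hk, hl]

lemma pin {A : M5}
    (h1 : Matrix.transvection 0 2 (1 : ZMod 2) * A = A * Matrix.transvection 0 2 1)
    (h2 : Matrix.transvection 2 3 (1 : ZMod 2) * A = A * Matrix.transvection 2 3 1)
    (h3 : Matrix.transvection 3 4 (1 : ZMod 2) * A = A * Matrix.transvection 3 4 1)
    (h4 : Matrix.transvection 4 1 (1 : ZMod 2) * A = A * Matrix.transvection 4 1 1)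
    (hd : A.det = 1) : A = 1 ∨ A = Matrix.transvection 0 1 1 := by
  have e1 := comm_entries (by decide) h1
  have e2 := comm_entries (by decide) h2
  have e3 := comm_entries (by decide) h3
  have e4 := comm_entries (by decide) h4
  have c0 : ∀ k : Fin 5, k ≠ 0 → A k 0 = 0 := fun k hk => by simpa [hk] using (e1 k 2).symm
  have c2 : ∀ k : Fin 5, k ≠ 2 → A k 2 = 0 := fun k hk => by simpa [hk] using (e2 k 3).symm
  have c3 : ∀ k : Fin 5, k ≠ 3 → A k 3 = 0 := fun k hk => by simpa [hk] using (e3 k 4).symm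
  have c4 : ∀ k : Fin 5, k ≠ 4 → A k 4 = 0 := fun k hk => by simpa [hk] using (e4 k 1).symm
  have r2 : ∀ l : Fin 5, l ≠ 2 → A 2 l = 0 := fun l hl => by simpa [hl] using e1 0 l
  have r3 : ∀ l : Fin 5, l ≠ 3 → A 3 l = 0 := fun l hl => by simpa [hl] using e2 2 l
  have r4 : ∀ l : Fin 5, l ≠ 4 → A 4 l = 0 := fun l hl => by simpa [hl] using e3 3 l
  have r1 : ∀ l : Fin 5, l ≠ 1 → A 1 l = 0 := fun l hl => by simpa [hl] using e4 4 l
  have d2 : A 2 2 = A 0 0 := by simpa using e1 0 2
  have d3 : A 3 3 = A 2 2 := by simpa using e2 2 3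
  have d4 : A 4 4 = A 3 3 := by simpa using e3 3 4
  have d1 : A 1 1 = A 4 4 := by simpa using e4 4 1
  have two : ∀ x : ZMod 2, x = 0 ∨ x = 1 := by decide
  have h00 : A 0 0 = 1 := by
    rcases two (A 0 0) with h | h
    · exfalso
      have hz : A.det = 0 := by
        apply Matrix.det_eq_zero_of_column_eq_zero 0
        intro k
        by_cases hk : k = 0
        · subst hk; exact h
        · exact c0 k hk
      rw [hz] at hd
      exact absurd hd (by decide)
    · exact h
  have h11 : A 1 1 = 1 := by rw [d1, d4, d3, d2, h00]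
  have h22 : A 2 2 = 1 := by rw [d2, h00]
  have h33 : A 3 3 = 1 := by rw [d3, d2, h00]
  have h44 : A 4 4 = 1 := by rw [d4, d3, d2, h00]
  have five : ∀ j : Fin 5, j = 0 ∨ j = 1 ∨ j = 2 ∨ j = 3 ∨ j = 4 := by decide
  have off : ∀ i j : Fin 5, i ≠ j → ¬ (i = 0 ∧ j = 1) → A i j = 0 := by
    intro i j hij hn
    rcases five j with rfl | rfl | rfl | rfl | rfl
    · exact c0 i hij
    · rcases five i with rfl | rfl | rfl | rfl | rfl
      · exact absurd ⟨rfl, rfl⟩ hn
      · exact absurd rfl hij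
      · exact r2 _ (by decide)
      · exact r3 _ (by decide)
      · exact r4 _ (by decide)
    · exact c2 i hij
    · exact c3 i hij
    · exact c4 i hij
  have dia : ∀ i : Fin 5, A i i = 1 := by
    intro i
    rcases five i with rfl | rfl | rfl | rfl | rfl <;> assumption
  have hA : A = (1 : M5) + Matrix.single 0 1 (A 0 1) := by
    ext i j
    rw [Matrix.add_apply, Matrix.single_apply]
    by_cases hij : i = j
    · subst hij
      have : ¬ (0 = i ∧ 1 = i) := by
        rintro ⟨rfl, h⟩
        exact absurd h (by decide)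
      simp [dia, this]
    · by_cases h0 : i = 0 ∧ j = 1
      · obtain ⟨rfl, rfl⟩ := h0
        simp
      · have h1 : ¬ (0 = i ∧ 1 = j) := fun h => h0 ⟨h.1.symm, h.2.symm⟩
        simp [Matrix.one_apply, hij, h1, off i j hij h0]
  have hv : A 0 1 = 0 ∨ A 0 1 = 1 := two _
  rcases hv with hv | hv
  · left
    rw [hA, hv]
    simp
  · right
    rw [hA, hv]
    rfl

lemma Pr_tv {a b : Fin 5} (hab : a ≠ b) (hpos : pos a < pos b) : Pr (tv a b hab) := by
  intro i j hij
  change (Matrix.transvection a b (1 : ZMod 2) - 1 : M5) i j = 0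
  rw [Matrix.transvection, add_sub_cancel_left, Matrix.single_apply]
  rw [if_neg]
  rintro ⟨rfl, rfl⟩
  omega

lemma Pr_tv02 : Pr (tv 0 2 (by decide)) := Pr_tv _ (by decide)
lemma Pr_tv23 : Pr (tv 2 3 (by decide)) := Pr_tv _ (by decide)
lemma Pr_tv34 : Pr (tv 3 4 (by decide)) := Pr_tv _ (by decide)
lemma Pr_tv41 : Pr (tv 4 1 (by decide)) := Pr_tv _ (by decide)

lemma tv_comm {a b c d : Fin 5} (h1 : b ≠ c) (h2 : d ≠ a) :
    (Matrix.transvection a b (1:ZMod 2) : M5) * Matrix.transvection c d 1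
      = Matrix.transvection c d 1 * Matrix.transvection a b 1 := by
  unfold Matrix.transvection
  simp only [add_mul, mul_add, one_mul, mul_one]
  rw [Matrix.single_mul_single_of_ne _ _ _ _ h1, Matrix.single_mul_single_of_ne _ _ _ _ h2]
  abel

lemma comm_s {s x : SpecialLinearGroup (Fin 5) (ZMod 2)}
    (hs : (s : M5) = Matrix.transvection 0 1 1)
    (h : (x : M5) * Matrix.transvection 0 1 1 = Matrix.transvection 0 1 1 * (x : M5)) :
    x ∈ Subgroup.centralizer ({s} : Set (SpecialLinearGroup (Fin 5) (ZMod 2))) := by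
  rw [Subgroup.mem_centralizer_singleton_iff]
  apply Subtype.ext
  change (x : M5) * (s : M5) = (s : M5) * (x : M5)
  rw [hs, h]

/-- Sylow subgroups of the centralizer contain the four transvections up to conjugacy. -/
theorem main_aux {C : Type*} [Group C] [Finite C] (s : SpecialLinearGroup (Fin 5) (ZMod 2))
    (hs : (s : M5) = Matrix.transvection 0 1 1)
    (C₀ : Subgroup (SpecialLinearGroup (Fin 5) (ZMod 2)))
    (hC₀ : C₀ = Subgroup.centralizer ({s} : Set (SpecialLinearGroup (Fin 5) (ZMod 2))))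
    (e : C ≃* C₀)
    (T : Sylow 2 C) (y : C) (hy : ∀ t ∈ (T : Subgroup C), t * y = y * t) :
    y = 1 ∨ (e y : SpecialLinearGroup (Fin 5) (ZMod 2)) = s := by
  have m1 : tv 0 2 (by decide) ∈ C₀ := by
    rw [hC₀]; exact comm_s hs (tv_comm (by decide) (by decide))
  have m2 : tv 2 3 (by decide) ∈ C₀ := by
    rw [hC₀]; exact comm_s hs (tv_comm (by decide) (by decide))
  have m3 : tv 3 4 (by decide) ∈ C₀ := by
    rw [hC₀]; exact comm_s hs (tv_comm (by decide) (by decide))
  have m4 : tv 4 1 (by decide) ∈ C₀ := by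
    rw [hC₀]; exact comm_s hs (tv_comm (by decide) (by decide))
  have hY : IsPGroup 2 (UU.subgroupOf C₀) := isPGroup_UU.comap_subtype
  obtain ⟨P₀, hP₀⟩ := hY.exists_le_sylow
  have hsurj : Function.Surjective e.symm.toMonoidHom := e.symm.surjective
  set P₁ : Sylow 2 C := P₀.mapSurjective hsurj with hP₁
  obtain ⟨h, hh⟩ := MulAction.exists_smul_eq C P₁ T
  have hT : (T : Subgroup C) = MulAut.conj h • (P₁ : Subgroup C) := by
    rw [← hh, Sylow.coe_subgroup_smul]
  -- the conjugate of y commutes with P₁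
  obtain ⟨y', hy'⟩ : ∃ y', y' = h⁻¹ * y * h := ⟨_, rfl⟩
  have hc : ∀ t ∈ (P₁ : Subgroup C), t * y' = y' * t := by
    intro t ht
    have h1 : h * t * h⁻¹ ∈ (T : Subgroup C) := by
      rw [hT]
      exact Subgroup.mem_pointwise_smul_iff_inv_smul_mem.mpr (by simpa [MulAut.smul_def, mul_assoc] using ht)
    have h2 := hy _ h1
    rw [hy']
    have : t * (h⁻¹ * y * h) = h⁻¹ * ((h * t * h⁻¹) * y) * h := by group
    rw [this, h2]
    group
  have hmem : ∀ x : C₀, (x : SpecialLinearGroup (Fin 5) (ZMod 2)) ∈ UU →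
      (x : SpecialLinearGroup (Fin 5) (ZMod 2)) * (e y' : SpecialLinearGroup (Fin 5) (ZMod 2))
        = (e y' : SpecialLinearGroup (Fin 5) (ZMod 2)) * x := by
    intro x hx
    have h1 : x ∈ (P₀ : Subgroup C₀) := hP₀ hx
    have h2 : e.symm x ∈ (P₁ : Subgroup C) := by
      rw [hP₁, Sylow.coe_mapSurjective]
      exact ⟨x, h1, rfl⟩
    have h3 := hc _ h2
    have h4 := congrArg e h3
    rw [map_mul e (e.symm x) y', map_mul e y' (e.symm x), MulEquiv.apply_symm_apply] at h4
    exact congrArg (fun g : C₀ => (g : SpecialLinearGroup (Fin 5) (ZMod 2))) h4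
  have comm_of : ∀ {a b : Fin 5} (hab : a ≠ b), Pr (tv a b hab) → tv a b hab ∈ C₀ →
      Matrix.transvection a b (1 : ZMod 2) * ((e y' : SpecialLinearGroup (Fin 5) (ZMod 2)) : M5)
        = ((e y' : SpecialLinearGroup (Fin 5) (ZMod 2)) : M5) * Matrix.transvection a b 1 := by
    intro a b hab hPr hm
    have := hmem ⟨tv a b hab, hm⟩ hPr
    exact congrArg (fun g : SpecialLinearGroup (Fin 5) (ZMod 2) => (g : M5)) this
  have hpin := pin (comm_of _ Pr_tv02 m1) (comm_of _ Pr_tv23 m2) (comm_of _ Pr_tv34 m3)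
    (comm_of _ Pr_tv41 m4) (e y').1.2
  rcases hpin with h1 | h1
  · left
    have h2 : e y' = 1 := by
      apply Subtype.ext
      apply Subtype.ext
      exact h1
    have h3 : y' = 1 := by
      rw [← map_one e] at h2
      exact e.injective h2
    rw [hy'] at h3
    have : y = h * (h⁻¹ * y * h) * h⁻¹ := by group
    rw [this, h3]
    group
  · right
    have h2 : (e y' : SpecialLinearGroup (Fin 5) (ZMod 2)) = s := by
      apply Subtype.ext
      rw [hs]
      exact h1
    have h3 : y = h * y' * h⁻¹ := by rw [hy']; group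
    rw [h3, map_mul e (h * y') h⁻¹, map_mul e h y', map_inv]
    have hcomm : ((e h : C₀) : SpecialLinearGroup (Fin 5) (ZMod 2)) * s
        = s * ((e h : C₀) : SpecialLinearGroup (Fin 5) (ZMod 2)) :=
      Subgroup.mem_centralizer_singleton_iff.mp (hC₀ ▸ (e h).2)
    change ((e h : C₀) : SpecialLinearGroup (Fin 5) (ZMod 2)) * (e y' : SpecialLinearGroup (Fin 5) (ZMod 2))
      * ((e h : C₀) : SpecialLinearGroup (Fin 5) (ZMod 2))⁻¹ = s
    rw [h2, hcomm]
    group

theorem result_aux {G : Type*} [Group G] [Finite G] (s : Matrix.SpecialLinearGroup (Fin 5) (ZMod 2)) (hs : (s : Matrix (Fin 5) (Fin 5) (ZMod 2)) = Matrix.transvection 0 1 1) (z : G) (hz : orderOf z = 2) (C : Subgroup G) (hC : C = Subgroup.centralizer ({z} : Set G)) (e : C ≃* Subgroup.centralizer ({s} : Set (Matrix.SpecialLinearGroup (Fin 5) (ZMod 2)))) (T : Sylow 2 C) : ¬ 2 ∣ ((T : Subgroup C).map (Subgroup.subtype C)).index := by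
  have hcmem : ∀ c ∈ C, c * z = z * c := by
    intro c hc
    rw [hC] at hc
    exact Subgroup.mem_centralizer_singleton_iff.mp hc
  have hzC : z ∈ C := by
    rw [hC, Subgroup.mem_centralizer_singleton_iff]
  set z₀ : C := ⟨z, hzC⟩ with hz₀
  have hz₀c : ∀ c : C, c * z₀ = z₀ * c := by
    intro c
    apply Subtype.ext
    exact hcmem _ c.2
  have hz₀1 : z₀ ≠ 1 := by
    intro h
    have : z = 1 := congrArg Subtype.val h
    rw [this, orderOf_one] at hz
    omega
  -- z₀ lies in T
  have hz₀T : z₀ ∈ (T : Subgroup C) := by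
    have hnormal : (Subgroup.zpowers z₀).Normal := by
      refine ⟨fun x hx c => ?_⟩
      obtain ⟨k, rfl⟩ := Subgroup.mem_zpowers_iff.mp hx
      have : c * z₀ ^ k * c⁻¹ = z₀ ^ k := by
        have h1 : Commute c (z₀ ^ k) := (Commute.zpow_right (hz₀c c) k)
        rw [h1.eq]
        group
      rw [this]
      exact Subgroup.zpow_mem_zpowers _ _
    have hp : IsPGroup 2 (Subgroup.zpowers z₀) := by
      apply IsPGroup.of_card (n := 1)
      rw [Nat.card_zpowers, pow_one]
      exact (Subgroup.orderOf_mk z hzC).trans hz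
    haveI := hnormal
    have hsup : IsPGroup 2 (((T : Subgroup C) ⊔ Subgroup.zpowers z₀ : Subgroup C)) := T.2.to_sup_of_normal_right hp
    have := T.is_maximal' hsup le_sup_left
    rw [← this]
    exact (le_sup_right : Subgroup.zpowers z₀ ≤ _) (Subgroup.mem_zpowers z₀)
  have hcen : ∀ y ∈ (T : Subgroup C), (∀ t ∈ (T : Subgroup C), t * y = y * t) → y = 1 ∨ y = z₀ := by
    intro y hyT hy
    have h1 := main_aux s hs _ rfl e T y hy
    have h2 := main_aux s hs _ rfl e T z₀ (fun t _ => hz₀c t)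
    rcases h2 with h2 | h2
    · exact absurd h2 hz₀1
    rcases h1 with h1 | h1
    · exact Or.inl h1
    · right
      apply e.injective
      apply Subtype.ext
      rw [h1, h2]
  set That := (T : Subgroup C).map C.subtype with hThat
  have hTp : IsPGroup 2 That := T.2.map _
  obtain ⟨S, hS⟩ := hTp.exists_le_sylow
  have hEq : That = S := by
    by_contra hne
    have hlt : That.subgroupOf S < ⊤ := by
      rw [lt_top_iff_ne_top]
      intro htop
      apply hne
      apply le_antisymm hS
      intro x hx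
      have : (⟨x, hx⟩ : (S : Subgroup G)) ∈ That.subgroupOf S := by rw [htop]; trivial
      exact this
    haveI : Group.IsNilpotent (S : Subgroup G) := S.2.isNilpotent
    have hnc := normalizerCondition_of_isNilpotent (G := (S : Subgroup G)) _ hlt
    obtain ⟨g, hg, hgn⟩ := SetLike.exists_of_lt hnc
    rw [Subgroup.mem_normalizer_iff] at hg
    -- g normalizes That
    have hgT : ∀ t ∈ That, (g : G) * t * (g : G)⁻¹ ∈ That := by
      intro t ht
      have h1 : (⟨t, hS ht⟩ : (S : Subgroup G)) ∈ That.subgroupOf S := ht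
      have h2 := (hg _).mp h1
      exact h2
    have hgT' : ∀ t ∈ That, (g : G)⁻¹ * t * (g : G) ∈ That := by
      intro t ht
      have h1 : (⟨t, hS ht⟩ : (S : Subgroup G)) ∈ That.subgroupOf S := ht
      have h2 : ((g : (S : Subgroup G))⁻¹ * ⟨t, hS ht⟩ * g) ∈ That.subgroupOf S := by
        refine (hg _).mpr ?_
        have : g * (g⁻¹ * ⟨t, hS ht⟩ * g) * g⁻¹ = ⟨t, hS ht⟩ := by group
        rw [this]
        exact h1
      exact h2
    have hzThat : z ∈ That := ⟨z₀, hz₀T, rfl⟩
    have hw := hgT z hzThat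
    obtain ⟨w, hwT, hwe⟩ := hw
    have hwc : ∀ t ∈ (T : Subgroup C), t * w = w * t := by
      intro t ht
      apply Subtype.ext
      change (t : G) * (w : G) = (w : G) * (t : G)
      rw [show (w : G) = (g : G) * z * (g : G)⁻¹ from hwe]
      have h3 := hgT' (t : G) ⟨t, ht, rfl⟩
      obtain ⟨t', _, ht'⟩ := h3
      have h4 : (t' : G) * z = z * (t' : G) := hcmem _ t'.2
      rw [show (t' : G) = (g : G)⁻¹ * t * (g : G) from ht'] at h4
      have : (t : G) * ((g : G) * z * (g : G)⁻¹) = (g : G) * (((g : G)⁻¹ * t * (g : G)) * z) * (g : G)⁻¹ := by group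
      rw [this, h4]
      group
    have hwz := hcen w hwT hwc
    have hgz : (g : G) * z * (g : G)⁻¹ = z := by
      rcases hwz with h5 | h5
      · exfalso
        rw [h5] at hwe
        have h6 : (g : G) * z * (g : G)⁻¹ = 1 := by rw [← show ((1 : C) : G) = (g : G) * z * (g : G)⁻¹ from hwe]; rfl
        have h7 : z = 1 := by
          have : z = (g : G)⁻¹ * ((g : G) * z * (g : G)⁻¹) * (g : G) := by group
          rw [this, h6]; group
        rw [h7, orderOf_one] at hz
        omega
      · rw [h5] at hwe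
        exact hwe.symm
    have hgC : (g : G) ∈ C := by
      rw [hC, Subgroup.mem_centralizer_singleton_iff]
      have : (g : G) * z = ((g : G) * z * (g : G)⁻¹) * (g : G) := by group
      rw [this, hgz]
    set g₀ : C := ⟨g, hgC⟩ with hg₀
    have hg₀n : (Subgroup.zpowers g₀) ≤ Subgroup.normalizer ((T : Subgroup C) : Set C) := by
      rw [Subgroup.zpowers_le, Subgroup.mem_normalizer_iff]
      intro t
      constructor
      · intro ht
        obtain ⟨t', ht', e'⟩ := hgT (t : G) ⟨t, ht, rfl⟩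
        have : g₀ * t * g₀⁻¹ = t' := by
          apply Subtype.ext
          exact e'.symm
        rw [this]
        exact ht'
      · intro ht
        obtain ⟨t', ht', e'⟩ := hgT' ((g₀ * t * g₀⁻¹ : C) : G) ⟨_, ht, rfl⟩
        have : t = t' := by
          apply Subtype.ext
          rw [show (t' : G) = (g : G)⁻¹ * ((g₀ * t * g₀⁻¹ : C) : G) * (g : G) from e']
          change (t : G) = (g : G)⁻¹ * ((g : G) * (t : G) * (g : G)⁻¹) * (g : G)
          group
        rw [this]
        exact ht'
    have hg₀p : IsPGroup 2 (Subgroup.zpowers g₀) := by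
      obtain ⟨n, hn⟩ := (IsPGroup.iff_orderOf.mp S.2) g
      have hn' : orderOf g₀ = 2 ^ n := by
        rw [← hn]
        exact (Subgroup.orderOf_mk (g : G) hgC).trans (Subgroup.orderOf_mk (g : G) g.2).symm
      exact IsPGroup.of_card (n := n) (by rw [Nat.card_zpowers]; exact hn')
    have hsup : IsPGroup 2 (((T : Subgroup C) ⊔ Subgroup.zpowers g₀ : Subgroup C)) :=
      IsPGroup.to_sup_of_normal_left' T.2 hg₀p hg₀n
    have hmax := T.is_maximal' hsup le_sup_left
    have hg₀T : g₀ ∈ (T : Subgroup C) := by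
      rw [← hmax]
      exact (le_sup_right : Subgroup.zpowers g₀ ≤ _) (Subgroup.mem_zpowers g₀)
    exact hgn ⟨g₀, hg₀T, rfl⟩
  rw [hEq]
  exact S.not_dvd_index

theorem result {G : Type*} [Group G] [Finite G] (s : Matrix.SpecialLinearGroup (Fin 5) (ZMod 2)) (hs : (s : Matrix (Fin 5) (Fin 5) (ZMod 2)) = Matrix.transvection 0 1 1) (z : G) (hz : orderOf z = 2) (e : (Subgroup.centralizer ({z} : Set G)) ≃* Subgroup.centralizer ({s} : Set (Matrix.SpecialLinearGroup (Fin 5) (ZMod 2)))) (T : Sylow 2 (Subgroup.centralizer ({z} : Set G))) : ¬ 2 ∣ ((T : Subgroup (Subgroup.centralizer ({z} : Set G))).map (Subgroup.subtype (Subgroup.centralizer ({z} : Set G)))).index :=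
  result_aux s hs z hz _ rfl e T

end Cfsg.Agent.S1717
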