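import Cfsg.Statements.S1723
import Mathlib
import Cfsg.Agent.Lib.HallJanko.PkgBuild
import Cfsg.Agent.Lib.HallJanko.Sylow5
import Cfsg.Agent.Lib.HallJanko.ThreeClasses

set_option autoImplicit false
open Cfsg

namespace Cfsg.Agent.S1723


/-- Sylow 3-structure of a group of Hall–Janko type (large-extraspecial hypothesis with Q of order 32, quotient Ω⁻(4, 2), z not weakly closed in Q, more than one class of involutions): a Sylow 3-subgroup P is extraspecial of order 27, its normaliser has order 216, and the elements of order 3 form exactly two conjugacy classes. -/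
theorem result {G : Type*} [Group G] [Finite G] (z : G) (hz : orderOf z = 2) (Q : Subgroup (Subgroup.centralizer ({z} : Set G))) [Q.Normal] (hF : Cfsg.generalizedFittingSubgroup (Subgroup.centralizer ({z} : Set G)) = Q) (hQ : Cfsg.IsExtraspecial 2 Q) (hcard : Nat.card Q = 2 ^ 5) (e : (Subgroup.centralizer ({z} : Set G)) ⧸ Q ≃* Cfsg.Omega (ZMod 2) (Cfsg.quadFormMinus 1 (ZMod 2) 1 1)) (hnwc : ∃ g : G, (∃ hq : g * z * g⁻¹ ∈ Subgroup.centralizer ({z} : Set G), (⟨g * z * g⁻¹, hq⟩ : Subgroup.centralizer ({z} : Set G)) ∈ Q) ∧ g * z * g⁻¹ ≠ z) (hcl : ∃ x y : G, orderOf x = 2 ∧ orderOf y = 2 ∧ ¬ IsConj x y) (P : Sylow 3 G) : Cfsg.IsExtraspecial 3 (P : Subgroup G) ∧ Nat.card P = 27 ∧ Nat.card (Subgroup.normalizer ((P : Subgroup G) : Set G)) = 216 ∧ ∃ a b : G, orderOf a = 3 ∧ orderOf b = 3 ∧ ¬ IsConj a b ∧ ∀ c : G, orderOf c = 3 → IsConj c a ∨ IsConj c b := by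

  obtain ⟨p, -⟩ := Cfsg.Agent.Lib.HallJanko.exists_pkg z hz Q hF hQ hcard e hnwc hcl
  exact Cfsg.Agent.Lib.HallJanko.Three.sylow3 p (Cfsg.Agent.Lib.HallJanko.fiveFacts p) P


end Cfsg.Agent.S1723
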