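import Cfsg.Statements.S1753
import Mathlib
-- import your own Cfsg.Agent.* helpers here

set_option autoImplicit false
universe u
open Cfsg

namespace Cfsg.Agent.S1753

/-- Let K be any property of groups. (1) If G is a minimal counterexample relative to K — a finite non-abelian simple group not satisfying K such that every finite non-abelian simple group of smaller order satisfies K — then every proper subgroup of G is a K-group (all its non-abelian simple sections satisfy K), since such sections have smaller order than G. (2) Consequently (induction on the order), if every finite non-abelian simple group all of whose proper subgroups are K-groups satisfies K, then every finite non-abelian simple group satisfies K. -/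
theorem result (K : ∀ (X : Type u) [Group X], Prop) :
    (∀ (G : Type u) [Group G], Cfsg.IsMinCounterexampleWith K G → Cfsg.IsKProperWith K G) ∧
      ((∀ (X : Type u) [Group X] [Finite X], IsSimpleGroup X → ¬ IsMulCommutative X → Cfsg.IsKProperWith K X → K X) →
        ∀ (G : Type u) [Group G] [Finite G], IsSimpleGroup G → ¬ IsMulCommutative G → K G) := by
  constructor
  · intro G _ hG H hH H' N _ hs hn
    obtain ⟨hfin, hsimple, hna, hK, hmin⟩ := hG
    haveI := hfin
    apply hmin (H' ⧸ N) hs hn
    have h1 : Nat.card (H' ⧸ N) ≤ Nat.card H' := by
      rw [Subgroup.card_eq_card_quotient_mul_card_subgroup N]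
      apply Nat.le_mul_of_pos_right
      exact Nat.card_pos
    have h1' : Nat.card H' ≤ Nat.card H := Subgroup.card_le_card_group H'
    have h2 : Nat.card H < Nat.card G :=
      lt_of_le_of_ne (Subgroup.card_le_card_group H) (fun h => hH (Subgroup.eq_top_of_card_eq H h))
    omega
  · intro hall
    have key : ∀ n : ℕ, ∀ (G : Type u) [Group G] [Finite G], Nat.card G = n → IsSimpleGroup G →
        ¬ IsMulCommutative G → K G := by
      intro n
      induction n using Nat.strong_induction_on with
      | _ n ih =>
        intro G _ _ hn hs hna
        apply hall G hs hna
        intro H hH H' N _ hs' hn'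
        have h1 : Nat.card (H' ⧸ N) ≤ Nat.card H' := by
          rw [Subgroup.card_eq_card_quotient_mul_card_subgroup N]
          apply Nat.le_mul_of_pos_right
          exact Nat.card_pos
        have h1' : Nat.card H' ≤ Nat.card H := Subgroup.card_le_card_group H'
        have h2 : Nat.card H < Nat.card G :=
          lt_of_le_of_ne (Subgroup.card_le_card_group H) (fun h => hH (Subgroup.eq_top_of_card_eq H h))
        exact ih (Nat.card (H' ⧸ N)) (by omega) (H' ⧸ N) rfl hs' hn'
    intro G _ _ hs hna
    exact key _ G rfl hs hna

end Cfsg.Agent.S1753
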