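import Cfsg.Statements.S1754
import Mathlib

set_option autoImplicit false

namespace Cfsg.Agent.S1754

/-- Quasisimplicity transfers along group isomorphisms. -/
theorem isQuasisimple_of_mulEquiv {G H : Type*} [Group G] [Group H] (e : G ≃* H)
    (hH : Cfsg.IsQuasisimple H) : Cfsg.IsQuasisimple G := by
  obtain ⟨h1, h2⟩ := hH
  refine ⟨?_, ?_⟩
  · exact Group.IsPerfect.ofSurjective (f := e.symm.toMonoidHom) e.symm.surjective
  · have hmap : (Subgroup.center G).map e.toMonoidHom = Subgroup.center H := by
      ext x
      constructor
      · rintro ⟨y, hy, rfl⟩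
        rw [SetLike.mem_coe, Subgroup.mem_center_iff] at hy
        rw [Subgroup.mem_center_iff]
        intro g
        have := hy (e.symm g)
        have h3 := congrArg e this
        simpa using h3
      · intro hx
        refine ⟨e.symm x, ?_, by simp⟩
        rw [SetLike.mem_coe, Subgroup.mem_center_iff]
        rw [Subgroup.mem_center_iff] at hx
        intro g
        have := hx (e g)
        have h3 := congrArg e.symm this
        simpa using h3
    exact (QuotientGroup.congr (Subgroup.center G) (Subgroup.center H) e hmap).isSimpleGroup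

/-- If A is a standard subgroup and t an involution centralizing A, then C(t) normalizes A, and A is a component of C(t). -/
theorem result {G : Type*} [Group G] [Finite G]
    (A : Subgroup G) (hA : Cfsg.IsStandardSubgroup A) (t : G) (ht : orderOf t = 2) (htA : t ∈ Subgroup.centralizer (A : Set G)) :
    Subgroup.centralizer ({t} : Set G) ≤ Subgroup.normalizer (A : Set G) ∧
      Cfsg.IsComponent (A.subgroupOf (Subgroup.centralizer ({t} : Set G))) := by
  obtain ⟨hq, ⟨-, hte⟩, -, hnorm⟩ := hA
  have hle : Subgroup.centralizer ({t} : Set G) ≤ Subgroup.normalizer (A : Set G) := by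
    intro g hg
    rw [hnorm]
    by_contra hgn
    have hodd := hte g hgn
    have htm : t ∈ Subgroup.centralizer (A : Set G) ⊓
        (Subgroup.centralizer (A : Set G)).map (MulAut.conj g).toMonoidHom := by
      refine ⟨htA, t, htA, ?_⟩
      have hgt : g * t = t * g := by
        have := Subgroup.mem_centralizer_iff.mp hg t (by simp)
        exact this.symm
      simp [MulAut.conj_apply, hgt]
    have hdvd : orderOf (⟨t, htm⟩ : ↥(Subgroup.centralizer (A : Set G) ⊓
        (Subgroup.centralizer (A : Set G)).map (MulAut.conj g).toMonoidHom)) ∣ _ :=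
      orderOf_dvd_natCard _
    rw [Subgroup.orderOf_mk, ht] at hdvd
    exact (Nat.not_even_iff_odd.mpr hodd) (even_iff_two_dvd.mpr hdvd)
  refine ⟨hle, ?_, ?_⟩
  · -- normal, hence subnormal
    have hn : (A.subgroupOf (Subgroup.centralizer ({t} : Set G))).Normal := by
      refine ⟨fun x hx g => ?_⟩
      rw [Subgroup.mem_subgroupOf] at hx ⊢
      have := (Subgroup.mem_normalizer_iff.mp (hle g.2) x).mp hx
      simpa using this
    exact hn.isSubnormal
  · have hAle : A ≤ Subgroup.centralizer ({t} : Set G) := by
      intro a ha
      rw [Subgroup.mem_centralizer_iff]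
      rintro _ rfl
      exact (Subgroup.mem_centralizer_iff.mp htA a ha).symm
    exact isQuasisimple_of_mulEquiv (Subgroup.subgroupOfEquivOfLe hAle) hq

end Cfsg.Agent.S1754
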