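import Cfsg.Statements.S1755
import Mathlib
import Cfsg.Agent.Lib.Basic.PCore
import Cfsg.Agent.Lib.Components.FStar

set_option autoImplicit false
open Cfsg

namespace Cfsg.Agent.S1755

theorem involution_unique {H : Type*} [Group H] [Finite H] [IsCyclic H] {x y : H}
    (hx : orderOf x = 2) (hy : orderOf y = 2) : x = y := by
  classical
  have := Fintype.ofFinite H
  have hle := IsCyclic.card_pow_eq_one_le (α := H) (n := 2) (by norm_num)
  by_contra hne
  have hx1 : x ≠ 1 := by
    rintro rfl
    simp at hx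
  have hy1 : y ≠ 1 := by
    rintro rfl
    simp at hy
  have hsub : ({1, x, y} : Finset H) ⊆ Finset.univ.filter (fun a => a ^ 2 = 1) := by
    intro a ha
    simp only [Finset.mem_insert, Finset.mem_singleton] at ha
    simp only [Finset.mem_filter, Finset.mem_univ, true_and]
    rcases ha with rfl | rfl | rfl
    · simp
    · rw [← hx]; exact pow_orderOf_eq_one _
    · rw [← hy]; exact pow_orderOf_eq_one _
  have hcard := Finset.card_le_card hsub
  have h3 : ({1, x, y} : Finset H).card = 3 :=
    Finset.card_eq_three.mpr ⟨1, x, y, hx1.symm, hy1.symm, hne, rfl⟩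
  omega

theorem orderOf_conj' {G : Type*} [Group G] (q x : G) : orderOf (q * x * q⁻¹) = orderOf x := by
  have := orderOf_injective (MulAut.conj q).toMonoidHom (MulAut.conj q).injective x
  simpa using this

/-- `z` is central in its centralizer, so it generates a normal subgroup there. -/
theorem zpowers_normal {G : Type*} [Group G] (z : G) (C : Subgroup G)
    (hC : C = Subgroup.centralizer ({z} : Set G)) :
    (Subgroup.zpowers (⟨z, hC ▸ (by
      rw [Subgroup.mem_centralizer_iff]; rintro _ rfl; rfl)⟩ : C)).Normal := by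
  constructor
  rintro _ ⟨k, rfl⟩ c
  refine ⟨k, ?_⟩
  have hc : c * ⟨z, hC ▸ (by
      rw [Subgroup.mem_centralizer_iff]; rintro _ rfl; rfl)⟩ = (⟨z, hC ▸ (by
      rw [Subgroup.mem_centralizer_iff]; rintro _ rfl; rfl)⟩ : C) * c := by
    apply Subtype.ext
    have hcm : (c : G) ∈ Subgroup.centralizer ({z} : Set G) := hC ▸ c.2
    exact (Subgroup.mem_centralizer_iff.mp hcm z rfl).symm
  have hcomm := Commute.zpow_right hc k
  change _ ^ k = c * _ ^ k * c⁻¹
  rw [hcomm.eq]; group

theorem zpowers_nilpotent {H : Type*} [Group H] (x : H) : Group.IsNilpotent (Subgroup.zpowers x) := by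
  letI := IsCyclic.commGroup (α := Subgroup.zpowers x)
  exact CommGroup.isNilpotent

/-- The conclusion at the level of `G`. -/
theorem core_G {G : Type*} [Group G] [Finite G] (z : G) (hz : orderOf z = 2) (C : Subgroup G)
    (hC : C = Subgroup.centralizer ({z} : Set G)) (B' : Subgroup G) (hcyc : IsCyclic B')
    (h2 : IsPGroup 2 B') (hnorm : ∀ c ∈ C, ∀ b ∈ B', c * b * c⁻¹ ∈ B')
    (hzB : B' ≠ ⊥ → z ∈ B') (g : G) :
    B'.map (MulAut.conj g).toMonoidHom = B' ∨ B'.map (MulAut.conj g).toMonoidHom ⊓ B' = ⊥ := by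
  by_cases hI : B'.map (MulAut.conj g).toMonoidHom ⊓ B' = ⊥
  · exact Or.inr hI
  left
  set I := B'.map (MulAut.conj g).toMonoidHom ⊓ B' with hIdef
  have hI2 : IsPGroup 2 I := h2.to_le inf_le_right
  have hnt : Nontrivial I := (Subgroup.nontrivial_iff_ne_bot I).mpr hI
  have hdvd : 2 ∣ Nat.card I := by
    rcases hI2.card_eq_or_dvd with h | h
    · exact absurd h (Finite.one_lt_card (α := I)).ne'
    · exact h
  obtain ⟨i, hi⟩ := exists_prime_orderOf_dvd_card' 2 hdvd
  have hi' : orderOf (i : G) = 2 := by rw [Subgroup.orderOf_coe]; exact hi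
  have hiB : (i : G) ∈ B' := i.2.2
  have hB'ne : B' ≠ ⊥ := by
    intro h
    have : (i : G) = 1 := by
      have := hiB
      rw [h] at this
      exact this
    rw [this] at hi'
    simp at hi'
  have hzB' := hzB hB'ne
  have hiz : (i : G) = z := by
    have := involution_unique (H := B') (x := ⟨i, hiB⟩) (y := ⟨z, hzB'⟩)
      (by rw [Subgroup.orderOf_mk]; exact hi') (by rw [Subgroup.orderOf_mk]; exact hz)
    exact congrArg Subtype.val this
  obtain ⟨b, hb, hbi⟩ := i.2.1
  have hbi' : g * b * g⁻¹ = (i : G) := hbi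
  have hbord : orderOf b = 2 := by
    rw [← orderOf_conj' g b, hbi']; exact hi'
  have hbz : b = z := by
    have := involution_unique (H := B') (x := ⟨b, hb⟩) (y := ⟨z, hzB'⟩)
      (by rw [Subgroup.orderOf_mk]; exact hbord) (by rw [Subgroup.orderOf_mk]; exact hz)
    exact congrArg Subtype.val this
  have hgz : g * z * g⁻¹ = z := by rw [← hbz, hbi', hiz, hbz]
  have hgC : g ∈ C := by
    rw [hC, Subgroup.mem_centralizer_iff]
    intro w hw
    have hw' : w = z := hw
    rw [hw']
    calc z * g = (g * z * g⁻¹) * g := by rw [hgz]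
      _ = g * z := by group
  apply le_antisymm
  · rintro _ ⟨b, hb, rfl⟩
    exact hnorm g hgC b hb
  · intro b hb
    refine ⟨g⁻¹ * b * g, ?_, ?_⟩
    · have := hnorm g⁻¹ (inv_mem hgC) b hb
      simpa using this
    · change g * (g⁻¹ * b * g) * g⁻¹ = b
      group

theorem core {G : Type*} [Group G] [Finite G] (z : G) (hz : orderOf z = 2) (C : Subgroup G)
    (hC : C = Subgroup.centralizer ({z} : Set G)) (Q : Subgroup C) [hQn : Q.Normal]
    (hzQ : (⟨z, hC ▸ (by
      rw [Subgroup.mem_centralizer_iff]; rintro _ rfl; rfl)⟩ : C) ∈ Q)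
    (hQ : Cfsg.IsOfSymplecticType ↥Q)
    (B : Subgroup ↥Q) (hBc : B.Characteristic) (hBa : IsMulCommutative ↥B) (g : G) :
    ((B.map Q.subtype).map C.subtype).map (MulAut.conj g).toMonoidHom =
        (B.map Q.subtype).map C.subtype ∨
      ((B.map Q.subtype).map C.subtype).map (MulAut.conj g).toMonoidHom ⊓
        (B.map Q.subtype).map C.subtype = ⊥ := by
  classical
  have hzC : z ∈ C := hC ▸ (by
      rw [Subgroup.mem_centralizer_iff]; rintro _ rfl; rfl)
  let zC : ↥C := ⟨z, hzC⟩
  let zQ : ↥Q := ⟨zC, hzQ⟩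
  have hzCcen : ∀ c : ↥C, c * zC = zC * c := by
    intro c
    apply Subtype.ext
    have hcm : (c : G) ∈ Subgroup.centralizer ({z} : Set G) := hC ▸ c.2
    exact (Subgroup.mem_centralizer_iff.mp hcm z rfl).symm
  have hzQcen : zQ ∈ Subgroup.center ↥Q := by
    rw [Subgroup.mem_center_iff]
    intro q
    apply Subtype.ext
    exact hzCcen (q : ↥C)
  have hzQ2 : orderOf zQ = 2 := by
    have h1 : orderOf zC = 2 := by rw [Subgroup.orderOf_mk]; exact hz
    rw [Subgroup.orderOf_mk]; exact h1
  -- cyclicity of `Z(Q)` and `B`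
  have hZcyc : IsCyclic (Subgroup.center ↥Q) :=
    hQ.2 _ inferInstance inferInstance
  have hBcyc : IsCyclic B := hQ.2 B hBc hBa
  have hBnormal : B.Normal := Subgroup.normal_of_characteristic B
  have h2B : IsPGroup 2 B := hQ.1.to_subgroup B
  -- `z` lies in `B` if `B` is nontrivial
  have hzB : B ≠ ⊥ → zQ ∈ B := by
    intro hne
    have hnt : Nontrivial B := (Subgroup.nontrivial_iff_ne_bot B).mpr hne
    have hdvd : 2 ∣ Nat.card B := by
      rcases h2B.card_eq_or_dvd with h | h
      · exact absurd h (Finite.one_lt_card (α := B)).ne'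
      · exact h
    obtain ⟨w, hw⟩ := exists_prime_orderOf_dvd_card' 2 hdvd
    have hycen : (w : ↥Q) ∈ Subgroup.center ↥Q := by
      rw [Subgroup.mem_center_iff]
      intro q
      have hmem : q * (w : ↥Q) * q⁻¹ ∈ B := hBnormal.conj_mem _ w.2 q
      have hord : orderOf (⟨q * (w : ↥Q) * q⁻¹, hmem⟩ : B) = 2 := by
        rw [Subgroup.orderOf_mk, orderOf_conj', Subgroup.orderOf_coe]
        exact hw
      have := involution_unique hord hw
      have h3 : q * (w : ↥Q) * q⁻¹ = w := congrArg Subtype.val this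
      calc q * (w : ↥Q) = (q * (w : ↥Q) * q⁻¹) * q := by group
        _ = w * q := by rw [h3]
    have hord2 : orderOf (⟨(w : ↥Q), hycen⟩ : Subgroup.center ↥Q) = 2 := by
      rw [Subgroup.orderOf_mk, Subgroup.orderOf_coe]
      exact hw
    have hordz : orderOf (⟨zQ, hzQcen⟩ : Subgroup.center ↥Q) = 2 := by
      rw [Subgroup.orderOf_mk]; exact hzQ2
    have heq := involution_unique hord2 hordz
    have : (w : ↥Q) = zQ := congrArg Subtype.val heq
    rw [← this]
    exact w.2
  -- pass to `G`
  set φ : ↥Q →* G := C.subtype.comp Q.subtype with hφ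
  have hφinj : Function.Injective φ := by
    intro a b hab
    exact Subtype.ext (Subtype.ext hab)
  have hB' : (B.map Q.subtype).map C.subtype = B.map φ := by
    rw [Subgroup.map_map]
  rw [hB']
  refine core_G z hz C hC (B.map φ) ?_ (h2B.map φ) ?_ ?_ g
  · exact isCyclic_of_surjective (φ.subgroupMap B) (MonoidHom.subgroupMap_surjective φ B)
  · rintro c hc _ ⟨b, hb, rfl⟩
    have hnc : (B.map Q.subtype).Normal :=
      Cfsg.Agent.Lib.Basic.PCore.map_subtype_normal_of_characteristic B
    have h1 : (⟨c, hc⟩ : C) * (b : C) * (⟨c, hc⟩ : C)⁻¹ ∈ B.map Q.subtype :=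
      hnc.conj_mem _ ⟨b, hb, rfl⟩ _
    obtain ⟨b', hb', he⟩ := h1
    refine ⟨b', hb', ?_⟩
    change ((Q.subtype b' : C) : G) = _
    rw [he]
    rfl
  · intro hne
    have hB0 : B ≠ ⊥ := by
      rintro rfl
      exact hne (by simp)
    exact ⟨zQ, hzB hB0, rfl⟩

/-- Let G be a finite group and let z be an involution of G such that Q, the generalized Fitting subgroup of the centralizer C of z, is a 2-group of symplectic type (every characteristic abelian subgroup of Q is cyclic). Let B be a characteristic abelian subgroup of Q, viewed as a subgroup of G. Then for every g in G, the conjugate of B by g either equals B or meets B trivially. -/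
theorem result {G : Type*} [Group G] [Finite G] (z : G) (hz : orderOf z = 2) (hQ : Cfsg.IsOfSymplecticType ↥(Cfsg.generalizedFittingSubgroup ↥(Subgroup.centralizer ({z} : Set G))))
    (B : Subgroup ↥(Cfsg.generalizedFittingSubgroup ↥(Subgroup.centralizer ({z} : Set G)))) (hBc : B.Characteristic) (hBa : IsMulCommutative ↥B) (g : G) :
    ((B.map (Cfsg.generalizedFittingSubgroup ↥(Subgroup.centralizer ({z} : Set G))).subtype).map (Subgroup.centralizer ({z} : Set G)).subtype).map (MulAut.conj g).toMonoidHom =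
        (B.map (Cfsg.generalizedFittingSubgroup ↥(Subgroup.centralizer ({z} : Set G))).subtype).map (Subgroup.centralizer ({z} : Set G)).subtype ∨
      ((B.map (Cfsg.generalizedFittingSubgroup ↥(Subgroup.centralizer ({z} : Set G))).subtype).map (Subgroup.centralizer ({z} : Set G)).subtype).map (MulAut.conj g).toMonoidHom ⊓
        (B.map (Cfsg.generalizedFittingSubgroup ↥(Subgroup.centralizer ({z} : Set G))).subtype).map (Subgroup.centralizer ({z} : Set G)).subtype = ⊥ := by
  exact core z hz _ rfl _ (Cfsg.Agent.Lib.Components.FStar.fitting_le_generalizedFitting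
    (Cfsg.Agent.Lib.Basic.PCore.le_fittingSubgroup (zpowers_normal z _ rfl)
      (zpowers_nilpotent _) (Subgroup.mem_zpowers _))) hQ B hBc hBa g

end Cfsg.Agent.S1755
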