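import Cfsg.Statements.S1756
import Mathlib
import Cfsg.Agent.Lib.PGroup.Extraspecial

set_option autoImplicit false
open Cfsg

namespace Cfsg.Agent.S1756

open scoped commutatorElement
open Cfsg.Agent.Lib.PGroup.Extraspecial

theorem inner_of_fixing_index_two {Q : Type*} [Group Q] [Finite Q] (hQ : Cfsg.IsExtraspecial 2 Q)
    (α : Q →* Q) (hα : ∀ x, α (α x) = x) (H : Subgroup Q) (hH2 : H.index = 2)
    (hfix : ∀ h ∈ H, α h = h) : ∃ e : Q, ∀ x, α x = e * x * e⁻¹ := by
  haveI : Fact (Nat.Prime 2) := ⟨Nat.prime_two⟩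
  have hc : ∀ x y : Q, ⁅x, y⁆ ∈ Subgroup.center Q := IsExtraspecial.comm_mem_center hQ
  have hsq : ∀ x : Q, x ^ 2 ∈ Subgroup.center Q := IsExtraspecial.pow_mem_center hQ
  have hZ : Nat.card (Subgroup.center Q) = 2 := hQ.2
  -- `α` fixes the centre
  have hαc : ∀ z ∈ Subgroup.center Q, α z = z := by
    intro z hz
    by_cases hz1 : z = 1
    · rw [hz1, map_one]
    have hαz : α z ∈ Subgroup.center Q := by
      rw [Subgroup.mem_center_iff]
      intro g
      have h1 : z * α g = α g * z := (Subgroup.mem_center_iff.1 hz (α g)).symm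
      have h2 := congrArg α h1
      rw [map_mul, map_mul, hα] at h2
      exact h2.symm
    have hαz1 : α z ≠ 1 := by
      intro h
      have := hα z
      rw [h, map_one] at this
      exact hz1 this.symm
    obtain ⟨y, hy, huniq⟩ := (Nat.card_eq_two_iff' (1 : Subgroup.center Q)).1 hZ
    have e1 := huniq ⟨z, hz⟩ (by
      intro h; exact hz1 (congrArg Subtype.val h))
    have e2 := huniq ⟨α z, hαz⟩ (by
      intro h; exact hαz1 (congrArg Subtype.val h))
    have := e2.trans e1.symm
    exact congrArg Subtype.val this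
  -- the central element
  have hw : ∀ x : Q, x⁻¹ * α x ∈ Subgroup.center Q := by
    intro x
    by_cases hx : x ∈ H
    · rw [hfix x hx, inv_mul_cancel]; exact one_mem _
    have hαx : α x ∉ H := by
      intro h
      have h1 := hfix _ h
      rw [hα] at h1
      rw [← h1] at h
      exact hx h
    set w := x⁻¹ * α x with hwdef
    have hwH : w ∈ H := by
      rw [hwdef, Subgroup.mul_mem_iff_of_index_two hH2]
      simp [hx, hαx]
    have hαw : α w = w⁻¹ := by
      rw [hwdef, map_mul, map_inv, hα, mul_inv_rev, inv_inv]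
    have hww : w * w = 1 := by
      have h1 := hfix w hwH
      rw [hαw] at h1
      have : w * w = w⁻¹ * w := by rw [h1]
      rw [this, inv_mul_cancel]
    have hwinv : w⁻¹ = w := by
      rw [inv_eq_iff_mul_eq_one]; exact hww
    have hαxw : α x = x * w := by
      rw [hwdef]; group
    have hwh : ∀ h ∈ H, w * h = h * w := by
      intro h hh
      have h1 : α ⁅x, h⁆ = ⁅x, h⁆ := hαc _ (hc x h)
      rw [map_commutatorElement, hfix h hh, hαxw, comm_mul_left hc] at h1
      have h2 : ⁅w, h⁆ = 1 := by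
        have h3 := mul_left_cancel (a := ⁅x, h⁆) (b := ⁅w, h⁆) (c := 1) (by rw [h1, mul_one])
        exact h3
      exact commutatorElement_eq_one_iff_mul_comm.1 h2
    have hwx : w * x = x * w := by
      have h1 : α (x ^ 2) = x ^ 2 := hαc _ (hsq x)
      rw [map_pow, hαxw, pow_two, pow_two] at h1
      have h2 : x * (w * x * w) = x * x := by
        rw [← h1]; group
      have h3 := mul_left_cancel h2
      calc w * x = w * x * (w * w) := by rw [hww, mul_one]
        _ = (w * x * w) * w := by group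
        _ = x * w := by rw [h3]
    rw [Subgroup.mem_center_iff]
    intro g
    by_cases hg : g ∈ H
    · exact (hwh g hg).symm
    have hxg : x⁻¹ * g ∈ H := by
      rw [Subgroup.mul_mem_iff_of_index_two hH2]
      simp [hx, hg]
    have h1 := hwh _ hxg
    have hgeq : g = x * (x⁻¹ * g) := by group
    rw [hgeq]
    calc x * (x⁻¹ * g) * w = x * ((x⁻¹ * g) * w) := by group
      _ = x * (w * (x⁻¹ * g)) := by rw [h1]
      _ = (x * w) * (x⁻¹ * g) := by group
      _ = (w * x) * (x⁻¹ * g) := by rw [hwx]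
      _ = w * (x * (x⁻¹ * g)) := by group
  -- the homomorphism
  let c : Q →* Subgroup.center Q :=
    { toFun := fun y => ⟨y⁻¹ * α y, hw y⟩
      map_one' := by
        ext; simp
      map_mul' := by
        intro a b
        ext
        simp only [map_mul, Subgroup.coe_mul, mul_inv_rev]
        have h1 := (Subgroup.mem_center_iff.1 (hw a) b⁻¹)
        calc b⁻¹ * a⁻¹ * (α a * α b) = (b⁻¹ * (a⁻¹ * α a)) * α b := by group
          _ = ((a⁻¹ * α a) * b⁻¹) * α b := by rw [h1]
          _ = a⁻¹ * α a * (b⁻¹ * α b) := by group }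
  have hcv : ∀ y, (c y : Q) = y⁻¹ * α y := fun y => rfl
  have hcZ : ∀ z ∈ Subgroup.center Q, c z = 1 := by
    intro z hz
    ext
    rw [hcv, hαc z hz]
    simp
  obtain ⟨e, he⟩ := exists_comm_eq_of_hom hQ.1.1 hc hZ c hcZ
  refine ⟨e, fun x => ?_⟩
  have h1 : x⁻¹ * α x = ⁅e, x⁆ := by rw [← he, hcv]
  have h2 : α x = x * ⁅e, x⁆ := by
    rw [← h1]; group
  have h3 : x * ⁅e, x⁆ = ⁅e, x⁆ * x := (Subgroup.mem_center_iff.1 (hc e x) x)
  rw [h2, h3, commutatorElement_def]
  group


/-- Let Q be an extraspecial 2-subgroup of the finite group G (special with centre of order 2) and t an involution of G normalizing Q such that the centralizer of t in Q has index at most 2 in Q. Then t lies in the product of Q with the centralizer of Q. -/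
theorem result {G : Type*} [Group G] [Finite G] (Q : Subgroup G)
    (hQ : Cfsg.IsExtraspecial 2 ↥Q) (t : G) (ht : orderOf t = 2) (htN : t ∈ Subgroup.normalizer (Q : Set G))
    (hi : (Subgroup.centralizer ({t} : Set G) ⊓ Q).relIndex Q ≤ 2) :
    t ∈ Q ⊔ Subgroup.centralizer (Q : Set G) := by
  have htt : t * t = 1 := by
    rw [← pow_two, ← ht, pow_orderOf_eq_one]
  have htinv : t⁻¹ = t := by
    rw [inv_eq_iff_mul_eq_one]; exact htt
  have hmem : ∀ y : Q, t * (y : G) * t⁻¹ ∈ Q := fun y =>
    (Subgroup.le_normalizer_iff.1 (Subgroup.zpowers_le.2 htN)) t (Subgroup.mem_zpowers t) y y.2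
  let α : Q →* Q :=
    { toFun := fun y => ⟨t * (y : G) * t⁻¹, hmem y⟩
      map_one' := by ext; simp
      map_mul' := by
        intro a b; ext; simp only [Subgroup.coe_mul]; group }
  have hαv : ∀ y : Q, ((α y : Q) : G) = t * (y : G) * t⁻¹ := fun y => rfl
  have hα : ∀ x, α (α x) = x := by
    intro x
    ext
    rw [hαv, hαv, htinv]
    calc t * (t * (x : G) * t) * t = (t * t) * (x : G) * (t * t) := by group
      _ = x := by rw [htt]; group
  let H : Subgroup Q := (Subgroup.centralizer ({t} : Set G) ⊓ Q).subgroupOf Q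
  have hfix : ∀ h ∈ H, α h = h := by
    intro h hh
    have h1 : (h : G) ∈ Subgroup.centralizer ({t} : Set G) ⊓ Q := hh
    have h2 := Subgroup.mem_centralizer_singleton_iff.1 h1.1
    ext
    rw [hαv, ← h2]
    group
  have hidx : H.index ≤ 2 := hi
  have hidx0 : H.index ≠ 0 := Subgroup.index_ne_zero_of_finite
  have hcases : H.index = 1 ∨ H.index = 2 := by omega
  rcases hcases with h1 | h2
  · have htop : H = ⊤ := Subgroup.index_eq_one.1 h1
    refine Subgroup.mem_sup_right ?_
    rw [Subgroup.mem_centralizer_iff]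
    intro y hy
    have h3 : (⟨y, hy⟩ : Q) ∈ H := by rw [htop]; trivial
    have h4 : y ∈ Subgroup.centralizer ({t} : Set G) ⊓ Q := h3
    exact (Subgroup.mem_centralizer_singleton_iff.1 h4.1)
  · obtain ⟨e, he⟩ := inner_of_fixing_index_two hQ α hα H h2 hfix
    have hteq : t = (e : G) * ((e : G)⁻¹ * t) := by group
    rw [hteq]
    refine Subgroup.mul_mem_sup e.2 ?_
    rw [Subgroup.mem_centralizer_iff]
    intro y hy
    have h3 := congrArg Subtype.val (he ⟨y, hy⟩)
    rw [hαv] at h3
    simp only [Subgroup.coe_mul, Subgroup.coe_inv] at h3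
    have h5 : t * y = (e : G) * y * (e : G)⁻¹ * t := by
      rw [← h3]; group
    calc y * ((e : G)⁻¹ * t) = (e : G)⁻¹ * ((e : G) * y * (e : G)⁻¹ * t) := by group
      _ = (e : G)⁻¹ * (t * y) := by rw [h5]
      _ = (e : G)⁻¹ * t * y := by group

end Cfsg.Agent.S1756
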