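import Cfsg.Statements.S1780
import Mathlib

set_option autoImplicit false
open Cfsg

namespace Cfsg.Agent.S1780

/-- Let A be a finite abelian 2-group and t an automorphism of A whose order is a power of 2. If every element of A fixed by t² is fixed by t, then t fixes every element of A. -/
theorem result {A : Type*} [CommGroup A] [Finite A]
    (hA : IsPGroup 2 A) (t : MulAut A) (ht : ∃ k : ℕ, orderOf t = 2 ^ k) (hC : ∀ a : A, t (t a) = a → t a = a) :
    ∀ a : A, t a = a := by
  classical
  by_contra hne
  push Not at hne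
  obtain ⟨a₀, ha₀⟩ := hne
  -- the group generated by `t`
  have hG : IsPGroup 2 (Subgroup.zpowers t) := by
    obtain ⟨k, hk⟩ := ht
    apply IsPGroup.of_card (n := k)
    rw [Nat.card_zpowers, hk]
  -- the image of `a ↦ t a * a⁻¹`
  let f : A →* A :=
    { toFun := fun a => t a * a⁻¹
      map_one' := by simp
      map_mul' := fun a b => by
        simp only [map_mul, mul_inv]
        exact mul_mul_mul_comm _ _ _ _ }
  have hf : ∀ a, f a = t a * a⁻¹ := fun _ => rfl
  let S : SubMulAction (Subgroup.zpowers t) A :=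
    { carrier := (f.range : Set A)
      smul_mem' := by
        rintro ⟨g, hg⟩ y ⟨a, rfl⟩
        obtain ⟨n, rfl⟩ := Subgroup.mem_zpowers_iff.mp hg
        refine ⟨(t ^ n) a, ?_⟩
        change t ((t ^ n) a) * ((t ^ n) a)⁻¹ = (t ^ n) (t a * a⁻¹)
        have : t ((t ^ n) a) = (t ^ n) (t a) := by
          have : t * t ^ n = t ^ n * t := (Commute.refl t).zpow_right n
          exact DFunLike.congr_fun this a
        rw [this, map_mul, map_inv] }
  have hcard : 2 ∣ Nat.card S := by
    have h1 : Nat.card S = Nat.card f.range := rfl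
    rw [h1]
    have hI : IsPGroup 2 f.range := hA.to_subgroup _
    obtain ⟨n, hn⟩ := IsPGroup.iff_card.mp hI
    rw [hn]
    cases n with
    | zero =>
      exfalso
      have h2 : Nat.card f.range = 1 := by simpa using hn
      have : f a₀ = 1 := by
        have := (Subgroup.card_eq_one.mp h2)
        have h3 : f a₀ ∈ f.range := ⟨a₀, rfl⟩
        rw [this] at h3
        simpa using h3
      apply ha₀
      have h4 : t a₀ * a₀⁻¹ = 1 := this
      exact mul_inv_eq_one.mp h4
    | succ n => exact dvd_pow_self 2 (Nat.succ_ne_zero n)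
  have hone : (1 : A) ∈ S := ⟨1, map_one f⟩
  have h1fix : (⟨1, hone⟩ : S) ∈ MulAction.fixedPoints (Subgroup.zpowers t) S := by
    intro g
    apply Subtype.ext
    exact smul_one (g : MulAut A)
  obtain ⟨⟨y, hy⟩, hyfix, hyne⟩ :=
    hG.exists_fixed_point_of_prime_dvd_card_of_fixed_point S hcard h1fix
  have hy1 : y ≠ 1 := fun h => hyne (Subtype.ext h.symm)
  obtain ⟨a, rfl⟩ := hy
  -- `f a` is fixed by `t`
  have hfixy : t (f a) = f a := by
    have := hyfix ⟨t, Subgroup.mem_zpowers t⟩
    exact congrArg Subtype.val this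
  -- the order of `f a` is a power of 2
  obtain ⟨m, hm⟩ := (IsPGroup.iff_orderOf.mp hA) (f a)
  have hm0 : m ≠ 0 := by
    rintro rfl
    exact hy1 (orderOf_eq_one_iff.mp (by simpa using hm))
  obtain ⟨m', rfl⟩ := Nat.exists_eq_succ_of_ne_zero hm0
  set y' := f a ^ 2 ^ m' with hy'
  have hy'1 : y' ≠ 1 := by
    intro h
    have h1 := orderOf_dvd_of_pow_eq_one h
    rw [hm] at h1
    have := Nat.le_of_dvd (by positivity) h1
    rw [Nat.pow_le_pow_iff_right (by norm_num)] at this
    omega
  have hy'2 : y' * y' = 1 := by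
    rw [hy', ← pow_add, ← two_mul, ← pow_succ', ← hm]
    exact pow_orderOf_eq_one _
  set a' := a ^ 2 ^ m' with ha'
  have hta' : t a' = a' * y' := by
    have h1 : f a' = y' := by rw [ha', map_pow]
    have h2 : t a' * a'⁻¹ = y' := h1
    rw [← h2]
    simp
  have hty' : t y' = y' := by rw [hy', map_pow, hfixy]
  have h2 : t (t a') = a' := by
    rw [hta', map_mul, hta', hty', mul_assoc, hy'2, mul_one]
  have h3 := hC a' h2
  rw [hta'] at h3
  exact hy'1 (by simpa using h3)

end Cfsg.Agent.S1780
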