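import Cfsg.Statements.S1781
import Mathlib
import Cfsg.Agent.S1780
-- import your own Cfsg.Agent.* helpers here

set_option autoImplicit false
open Cfsg

namespace Cfsg.Agent.S1781

/-- Key step: if `b ∈ A` normalizes a conjugate `D = A^h ≠ A` with `b² ≠ 1`, then `b` centralizes `D`
and `D` normalizes `A`. -/
theorem key {G : Type*} [Group G] [Finite G] (A : Subgroup G)
    (hA2 : IsPGroup 2 ↥A) (hAa : IsMulCommutative ↥A)
    (hti : ∀ h : G, A.map (MulAut.conj h).toMonoidHom = A ∨ A.map (MulAut.conj h).toMonoidHom ⊓ A = ⊥)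
    (g : G) (hg : A.map (MulAut.conj g).toMonoidHom ≠ A) (b : G) (hbA : b ∈ A)
    (hbn : b ∈ Subgroup.normalizer ((A.map (MulAut.conj g).toMonoidHom : Subgroup G) : Set G))
    (hb2 : b * b ≠ 1) :
    A.map (MulAut.conj g).toMonoidHom ≤ Subgroup.normalizer (A : Set G) := by
  classical
  set D := A.map (MulAut.conj g).toMonoidHom with hD
  have hDA : D ⊓ A = ⊥ := (hti g).resolve_left hg
  -- an element commuting with a nontrivial element of `A` normalizes `A`
  have hnorm : ∀ x : G, ∀ c ∈ A, c ≠ 1 → x * c = c * x → x ∈ Subgroup.normalizer (A : Set G) := by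
    intro x c hc hc1 hxc
    have hmap : A.map (MulAut.conj x).toMonoidHom = A := by
      refine (hti x).resolve_right ?_
      intro hbot
      apply hc1
      have : c ∈ A.map (MulAut.conj x).toMonoidHom ⊓ A := by
        refine ⟨⟨c, hc, ?_⟩, hc⟩
        simp [MulAut.conj_apply, hxc]
      rw [hbot] at this
      simpa using this
    rw [Subgroup.mem_normalizer_iff]
    intro y
    constructor
    · intro hy
      have : x * y * x⁻¹ ∈ A.map (MulAut.conj x).toMonoidHom := ⟨y, hy, by simp [MulAut.conj_apply]⟩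
      rwa [hmap] at this
    · intro hy
      rw [← hmap] at hy
      obtain ⟨z, hz, hzy⟩ := hy
      have : z = y := by
        have h2 : x * z * x⁻¹ = x * y * x⁻¹ := by simpa [MulAut.conj_apply] using hzy
        simpa using h2
      rwa [← this]
  -- `D` is abelian and a 2-group
  have hDp : IsPGroup 2 ↥D := by
    have e : ↥A ≃* ↥D := A.equivMapOfInjective _ (MulAut.conj g).injective
    exact IsPGroup.of_equiv hA2 e
  have hDab : ∀ x y : ↥D, x * y = y * x := by
    rintro ⟨x, x', hx', rfl⟩ ⟨y, y', hy', rfl⟩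
    apply Subtype.ext
    have := hAa.is_comm.comm ⟨x', hx'⟩ ⟨y', hy'⟩
    have h' : x' * y' = y' * x' := congrArg Subtype.val this
    simp only [Subgroup.coe_mul]
    simp only [MulEquiv.coe_toMonoidHom, MulAut.conj_apply]
    simp only [mul_assoc, inv_mul_cancel_left]
    rw [← mul_assoc x', h', mul_assoc y']
  let _ : CommGroup ↥D := { (inferInstance : Group ↥D) with mul_comm := hDab }
  have hbmem := Subgroup.mem_normalizer_iff.mp hbn
  have hbinv : b⁻¹ ∈ Subgroup.normalizer (D : Set G) := inv_mem hbn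
  have hbinvmem := Subgroup.mem_normalizer_iff.mp hbinv
  -- conjugation by `b` on `D`
  let t : MulAut ↥D :=
    { toFun := fun x => ⟨b * x * b⁻¹, (hbmem x).mp x.2⟩
      invFun := fun x => ⟨b⁻¹ * x * b, by simpa using (hbinvmem x).mp x.2⟩
      left_inv := fun x => Subtype.ext (by simp [mul_assoc])
      right_inv := fun x => Subtype.ext (by simp [mul_assoc])
      map_mul' := fun x y => Subtype.ext (by simp [mul_assoc]) }
  have ht : ∀ x : ↥D, ((t x : ↥D) : G) = b * x * b⁻¹ := fun _ => rfl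
  have htn : ∀ (n : ℕ) (x : ↥D), (((t ^ n) x : ↥D) : G) = b ^ n * x * (b ^ n)⁻¹ := by
    intro n
    induction n with
    | zero => intro x; simp
    | succ n ih =>
      intro x
      rw [pow_succ, MulAut.mul_apply, ih, ht, pow_succ]
      simp [mul_assoc]
  -- the order of `t` is a power of two
  have htord : ∃ k : ℕ, orderOf t = 2 ^ k := by
    obtain ⟨k, hk⟩ := (IsPGroup.iff_orderOf.mp hA2) ⟨b, hbA⟩
    have hk' : orderOf b = 2 ^ k := by
      rw [← hk]; exact (Subgroup.orderOf_mk b hbA).symm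
    have h1 : t ^ 2 ^ k = 1 := by
      ext x
      rw [htn, ← hk', pow_orderOf_eq_one]
      simp
    obtain ⟨j, -, hj⟩ := (Nat.dvd_prime_pow Nat.prime_two).mp (orderOf_dvd_of_pow_eq_one h1)
    exact ⟨j, hj⟩
  -- fixed points of `t²` are fixed points of `t`
  have hC : ∀ a : ↥D, t (t a) = a → t a = a := by
    intro a ha
    have h1 : ((t (t a) : ↥D) : G) = b * (b * a * b⁻¹) * b⁻¹ := rfl
    have h2 : b * (b * a * b⁻¹) * b⁻¹ = a := by rw [← h1, ha]
    have h3 : (a : G) * (b * b) = (b * b) * a := by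
      calc (a : G) * (b * b) = (b * (b * a * b⁻¹) * b⁻¹) * (b * b) := by rw [h2]
        _ = (b * b) * a := by group
    have hbbA : b * b ∈ A := A.mul_mem hbA hbA
    have hnA := hnorm a (b * b) hbbA hb2 h3
    have hcomm : (t a : G) * (a : G)⁻¹ ∈ D ⊓ A := by
      constructor
      · exact D.mul_mem (t a).2 (D.inv_mem a.2)
      · rw [ht]
        have : b * a * b⁻¹ * (a : G)⁻¹ = b * (a * b⁻¹ * (a : G)⁻¹) := by group
        rw [this]
        refine A.mul_mem hbA ?_
        exact (Subgroup.mem_normalizer_iff.mp hnA _).mp (A.inv_mem hbA)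
    rw [hDA] at hcomm
    have h4 : (t a : G) * (a : G)⁻¹ = 1 := by simpa using hcomm
    exact Subtype.ext (mul_inv_eq_one.mp h4)
  have hfix := Cfsg.Agent.S1780.result hDp t htord hC
  -- conclude
  have hb1 : b ≠ 1 := by
    rintro rfl
    simp at hb2
  intro x hx
  have h1 : ((t ⟨x, hx⟩ : ↥D) : G) = x := by rw [hfix]
  have h2 : b * x * b⁻¹ = x := h1
  refine hnorm x b hbA hb1 ?_
  calc x * b = (b * x * b⁻¹) * b := by rw [h2]
    _ = b * x := by group

/-- Let A be an abelian 2-subgroup of the finite group G such that every conjugate of A equals A or meets A trivially, and let g ∈ G with g A g⁻¹ ≠ A. Then either the subgroup of those elements of A that normalize g A g⁻¹ is an elementary abelian 2-group, or A and g A g⁻¹ commute elementwise. -/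
theorem result {G : Type*} [Group G] [Finite G] (A : Subgroup G)
    (hA2 : IsPGroup 2 ↥A) (hAa : IsMulCommutative ↥A)
    (hti : ∀ h : G, A.map (MulAut.conj h).toMonoidHom = A ∨ A.map (MulAut.conj h).toMonoidHom ⊓ A = ⊥)
    (g : G) (hg : A.map (MulAut.conj g).toMonoidHom ≠ A) :
    Cfsg.IsElementaryAbelian 2 (A ⊓ Subgroup.normalizer ((A.map (MulAut.conj g).toMonoidHom : Subgroup G) : Set G)) ∨
      ⁅A, A.map (MulAut.conj g).toMonoidHom⁆ = ⊥ := by
  classical
  by_cases h : Cfsg.IsElementaryAbelian 2 (A ⊓ Subgroup.normalizer ((A.map (MulAut.conj g).toMonoidHom : Subgroup G) : Set G))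
  · exact Or.inl h
  right
  set D := A.map (MulAut.conj g).toMonoidHom with hD
  have hDA : D ⊓ A = ⊥ := (hti g).resolve_left hg
  -- find `b` with `b² ≠ 1`
  obtain ⟨b, hb, hb2⟩ : ∃ b ∈ A ⊓ Subgroup.normalizer (D : Set G), b * b ≠ 1 := by
    by_contra hcon
    push Not at hcon
    apply h
    refine ⟨⟨⟨fun x y => ?_⟩⟩, fun a ha => by rw [pow_two]; exact hcon a ha⟩
    apply Subtype.ext
    have := hAa.is_comm.comm ⟨x.1, x.2.1⟩ ⟨y.1, y.2.1⟩
    have h' : (x : G) * y = y * x := congrArg Subtype.val this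
    exact h'
  obtain ⟨hbA, hbn⟩ := hb
  have h1 : D ≤ Subgroup.normalizer (A : Set G) := key A hA2 hAa hti g hg b hbA hbn hb2
  -- conjugate by `g⁻¹`
  have hmem : ∀ (k x : G), x ∈ A.map (MulAut.conj k).toMonoidHom ↔ k⁻¹ * x * k ∈ A := by
    intro k x
    rw [Subgroup.mem_map_equiv, MulAut.conj_symm_apply]
  have hg' : A.map (MulAut.conj g⁻¹).toMonoidHom ≠ A := by
    intro hcon
    apply hg
    ext x
    rw [hD, hmem]
    constructor
    · intro hx
      rw [← hcon, hmem] at hx
      simpa [mul_assoc] using hx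
    · intro hx
      rw [← hcon, hmem]
      simpa [mul_assoc] using hx
  have hbn' : b ∈ Subgroup.normalizer ((A.map (MulAut.conj g⁻¹).toMonoidHom : Subgroup G) : Set G) := by
    have hbD : g * b * g⁻¹ ∈ D := by
      rw [hD, hmem]; simpa [mul_assoc] using hbA
    have hc := Subgroup.mem_normalizer_iff.mp (h1 hbD)
    rw [Subgroup.mem_normalizer_iff]
    intro y
    rw [hmem, hmem, hc]
    have : g * b * g⁻¹ * (g⁻¹⁻¹ * y * g⁻¹) * (g * b * g⁻¹)⁻¹ = g⁻¹⁻¹ * (b * y * b⁻¹) * g⁻¹ := by group
    rw [this]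
  have h2 := key A hA2 hAa hti g⁻¹ hg' b hbA hbn' hb2
  -- `A` normalizes `D`
  have h3 : A ≤ Subgroup.normalizer (D : Set G) := by
    intro a ha
    have hca : g⁻¹ * a * g ∈ A.map (MulAut.conj g⁻¹).toMonoidHom := by
      rw [hmem]; simpa [mul_assoc] using ha
    have hc := Subgroup.mem_normalizer_iff.mp (h2 hca)
    rw [Subgroup.mem_normalizer_iff]
    intro y
    rw [hD, hmem, hmem, hc]
    have : g⁻¹ * a * g * (g⁻¹ * y * g) * (g⁻¹ * a * g)⁻¹ = g⁻¹ * (a * y * a⁻¹) * g := by group
    rw [this]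
  rw [eq_bot_iff, Subgroup.commutator_le]
  intro a ha d hd
  rw [← hDA]
  refine ⟨?_, ?_⟩
  · have := (Subgroup.mem_normalizer_iff.mp (h3 ha) d).mp hd
    rw [commutatorElement_def]
    exact D.mul_mem this (D.inv_mem hd)
  · have := (Subgroup.mem_normalizer_iff.mp (h1 hd) a⁻¹).mp (A.inv_mem ha)
    rw [commutatorElement_def]
    have h4 : a * d * a⁻¹ * d⁻¹ = a * (d * a⁻¹ * d⁻¹) := by group
    rw [h4]
    exact A.mul_mem ha this

end Cfsg.Agent.S1781
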