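import Cfsg.Statements.S1782
import Mathlib
import Cfsg.Agent.Lib.PGroup.WeaklyClosed
import Cfsg.Agent.Lib.PGroup.Basic

set_option autoImplicit false
open Cfsg

namespace Cfsg.Agent.S1782

open Subgroup
open scoped commutatorElement
open Cfsg.Agent.Lib.PGroup.WeaklyClosed (cj mem_cj conj_mem_cj cj_eq_self_iff)

section Lemmas

variable {S : Type*} [Group S]

lemma pow_conj (t g : S) (k : ℕ) : (t * g * t⁻¹) ^ k = t * g ^ k * t⁻¹ := conj_pow

/-- Powers in a product of commuting elements of subgroups with trivial intersection. -/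
lemma pow_eq_one_left {A B : Subgroup S} (hi : ∀ g ∈ A, g ∈ B → g = 1) {a b : S} (ha : a ∈ A)
    (hb : b ∈ B) (hab : a * b = b * a) {k : ℕ} (h : (a * b) ^ k = 1) : a ^ k = 1 := by
  have hc : Commute a b := hab
  rw [hc.mul_pow] at h
  apply hi _ (A.pow_mem ha k)
  have : a ^ k = (b ^ k)⁻¹ := eq_inv_of_mul_eq_one_left h
  rw [this]
  exact B.inv_mem (B.pow_mem hb k)

variable [Finite S]

/-- The element `x` is an involution or trivial. -/
theorem sq_eq_one_of_noncommuting (hS : IsPGroup 2 S) {x t : S} {R T : Subgroup S} (hx : x ∈ R)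
    (ht : t ∈ T)
    (hRc : ∀ a ∈ R, ∀ b ∈ cj t R, a * b = b * a) (hRi : ∀ g ∈ R, g ∈ cj t R → g = 1)
    (hTc : ∀ a ∈ T, ∀ b ∈ cj x T, a * b = b * a)
    (hR2 : ∀ g ∈ R, g ∈ cj (t * t) R → g ≠ 1 → cj (t * t) R = R) : x ^ 2 = 1 := by
  classical
  by_contra hx2
  set y := t * x⁻¹ * t⁻¹ with hy
  have hyR : y ∈ cj t R := conj_mem_cj (R.inv_mem hx)
  have hxy : x * y = y * x := hRc x hx y hyR
  set a := x * t * x⁻¹ with ha
  have haT : a ∈ cj x T := conj_mem_cj ht
  have hta : t * a = a * t := hTc t ht a haT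
  obtain ⟨u, hu⟩ : ∃ u, u = x * y := ⟨_, rfl⟩
  have hue : u = a * t⁻¹ := by rw [hu, hy, ha]; group
  have hux : u * x = x * u := by rw [hu, mul_assoc, hxy.symm]
  have hut : u * t = t * u := by
    rw [hue, inv_mul_cancel_right, ← mul_assoc, hta, mul_inv_cancel_right]
  have hcux : Commute u x := hux
  have hcut : Commute u t := hut
  have hconj1 : t * x * t⁻¹ = u⁻¹ * x := by rw [hu, hy]; group
  have hconj2 : (t * t) * x * (t * t)⁻¹ = u⁻¹ * u⁻¹ * x := by
    have h1 : (t * t) * x * (t * t)⁻¹ = t * (t * x * t⁻¹) * t⁻¹ := by group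
    rw [h1, hconj1]
    have h2 : t * (u⁻¹ * x) * t⁻¹ = (t * u⁻¹ * t⁻¹) * (t * x * t⁻¹) := by group
    rw [h2, hconj1]
    have h3 : t * u⁻¹ * t⁻¹ = u⁻¹ := by
      have := hcut.inv_left.eq
      rw [mul_inv_eq_iff_eq_mul, this]
    rw [h3, mul_assoc]
  -- the order of `x`
  obtain ⟨e, he⟩ := (IsPGroup.iff_orderOf.1 hS) x
  have he2 : 2 ≤ e := by
    by_contra hlt
    apply hx2
    have h1 : orderOf x ∣ 2 := by
      rw [he]
      exact pow_dvd_pow 2 (show e ≤ 1 by omega) |>.trans (by norm_num)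
    exact orderOf_dvd_iff_pow_eq_one.1 h1
  obtain ⟨e', rfl⟩ : ∃ e', e = e' + 1 := ⟨e - 1, by omega⟩
  set k := 2 ^ e' with hk
  have horder : orderOf x = 2 * k := by rw [he, pow_succ, mul_comm]
  have hxk1 : x ^ (2 * k) = 1 := by rw [← horder, pow_orderOf_eq_one]
  have hkpos : 0 < k := by positivity
  have hxk : x ^ k ≠ 1 := by
    intro h
    have := Nat.le_of_dvd hkpos (orderOf_dvd_of_pow_eq_one h)
    omega
  -- `u ^ (2 * k) = 1`
  have huk : u ^ (2 * k) = 1 := by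
    have hc : Commute x y := hxy
    rw [hu, hc.mul_pow, hxk1, one_mul, hy, pow_conj, inv_pow, hxk1, inv_one, mul_one,
      mul_inv_cancel]
  -- the power of `x` is fixed by `t * t`
  have hfix : (t * t) * x ^ k * (t * t)⁻¹ = x ^ k := by
    have h1 : ((t * t) * x * (t * t)⁻¹) ^ k = (t * t) * x ^ k * (t * t)⁻¹ := pow_conj _ _ _
    rw [← h1, hconj2]
    have hcu : Commute (u⁻¹ * u⁻¹) x := (hcux.inv_left).mul_left hcux.inv_left
    rw [hcu.mul_pow]
    have h2 : (u⁻¹ * u⁻¹) ^ k = 1 := by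
      have : u⁻¹ * u⁻¹ = (u ^ 2)⁻¹ := by rw [pow_two, mul_inv_rev]
      rw [this, inv_pow, ← pow_mul, huk, inv_one]
    rw [h2, one_mul]
  have hmem : x ^ k ∈ cj (t * t) R := by
    rw [← hfix]
    exact conj_mem_cj (R.pow_mem hx k)
  have hRR := hR2 _ (R.pow_mem hx k) hmem hxk
  -- hence `u ^ 2` lies in `R`
  have h1 : (t * t) * x * (t * t)⁻¹ ∈ R := by
    rw [← hRR]
    exact conj_mem_cj hx
  rw [hconj2] at h1
  have h2 : (u⁻¹ * u⁻¹) ∈ R := by
    have := R.mul_mem h1 (R.inv_mem hx)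
    simpa using this
  have hu2 : u ^ 2 ∈ R := by
    have h3 : u ^ 2 = (u⁻¹ * u⁻¹)⁻¹ := by rw [pow_two, mul_inv_rev, inv_inv]
    rw [h3]
    exact R.inv_mem h2
  have hcxy : Commute x y := hxy
  have hy2 : y ^ 2 ∈ R := by
    have h3 : y ^ 2 = (x ^ 2)⁻¹ * u ^ 2 := by
      rw [hu, hcxy.mul_pow]; group
    rw [h3]
    exact R.mul_mem (R.inv_mem (R.pow_mem hx 2)) hu2
  have hy21 : y ^ 2 = 1 := hRi _ hy2 ((cj t R).pow_mem hyR 2)
  apply hx2
  rw [hy, pow_conj, inv_pow] at hy21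
  have h3 : (x ^ 2)⁻¹ = 1 := by
    have : t * (x ^ 2)⁻¹ * t⁻¹ = 1 := hy21
    rw [mul_inv_eq_one, mul_eq_left] at this
    exact this
  exact inv_eq_one.1 h3

/-- The contradiction in the main case. -/
theorem eq_one_of_inverting (hS : IsPGroup 2 S) {x z t : S} {R T : Subgroup S} (hx : x ∈ R)
    (hz : z ∈ R) (ht : t ∈ T)
    (hRc : ∀ a ∈ R, ∀ b ∈ cj t R, a * b = b * a) (hRi : ∀ g ∈ R, g ∈ cj t R → g = 1)
    (hTc : ∀ a ∈ T, ∀ b ∈ cj x T, a * b = b * a) (hTi : ∀ g ∈ T, g ∈ cj x T → g = 1)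
    (hzT : z * t * z⁻¹ ∈ T) (hx2 : x ^ 2 = 1) (hzx : (z * x) ^ 2 = 1) : z = 1 := by
  classical
  set y := t * z⁻¹ * t⁻¹ with hy
  have hyR : y ∈ cj t R := conj_mem_cj (R.inv_mem hz)
  have hzy : z * y = y * z := hRc z hz y hyR
  have hxy : x * y = y * x := hRc x hx y hyR
  set v := z * y with hv
  have hvT : v ∈ T := by
    have : v = (z * t * z⁻¹) * t⁻¹ := by rw [hv, hy]; group
    rw [this]
    exact T.mul_mem hzT (T.inv_mem ht)
  set b := x * v⁻¹ * x⁻¹ with hb
  have hbT : b ∈ cj x T := conj_mem_cj (T.inv_mem hvT)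
  have hvb : v * b = b * v := hTc v hvT b hbT
  have hxinv : x⁻¹ = x := by
    rw [inv_eq_iff_mul_eq_one, ← pow_two, hx2]
  -- `x` inverts `z`
  have hinvz : x * z⁻¹ * x⁻¹ = z := by
    have h1 : z * x * (z * x) = 1 := by rw [← pow_two]; exact hzx
    have h2 : x * z * x = z⁻¹ := by
      rw [eq_inv_iff_mul_eq_one]
      have : x * z * x * z = x⁻¹ * (x * (x * z * x * z) * x) * x⁻¹ := by group
      have h3 : x * z * x * z = z⁻¹ * (z * x * (z * x)) * z := by group
      rw [h3, h1]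
      group
    have h3 : x * z⁻¹ * x⁻¹ = (x * z * x⁻¹)⁻¹ := by group
    rw [h3, hxinv, h2, inv_inv]
  -- the commutator of `v` and `x` is `z ^ 2`
  have hw : v * b = z ^ 2 := by
    have h1 : v * x * v⁻¹ = z * x * z⁻¹ := by
      have h2 : y * x * y⁻¹ = x := by
        rw [mul_inv_eq_iff_eq_mul]; exact hxy.symm
      have h3 : v * x * v⁻¹ = z * (y * x * y⁻¹) * z⁻¹ := by rw [hv]; group
      rw [h3, h2]
    have h2 : v * b = (v * x * v⁻¹) * x⁻¹ := by rw [hb]; group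
    rw [h2, h1]
    have h3 : z * x * z⁻¹ * x⁻¹ = z * (x * z⁻¹ * x⁻¹) := by group
    rw [h3, hinvz, pow_two]
  -- powers
  have hkey : ∀ k : ℕ, z ^ (2 * k) = 1 → z ^ k = 1 := by
    intro k hk
    have h1 : (v * b) ^ k = 1 := by rw [hw, ← pow_mul, hk]
    have h2 : v ^ k = 1 := pow_eq_one_left hTi hvT hbT hvb h1
    exact pow_eq_one_left hRi hz hyR hzy h2
  obtain ⟨e, he⟩ := (IsPGroup.iff_orderOf.1 hS) z
  rcases e with _ | e'
  · rw [pow_zero] at he
    exact orderOf_eq_one_iff.1 he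
  · exfalso
    have horder : orderOf z = 2 * 2 ^ e' := by rw [he, pow_succ, mul_comm]
    have h1 : z ^ (2 * 2 ^ e') = 1 := by rw [← horder, pow_orderOf_eq_one]
    have h2 := hkey _ h1
    have h3 := Nat.le_of_dvd (by positivity) (orderOf_dvd_of_pow_eq_one h2)
    have : 0 < 2 ^ e' := by positivity
    omega

/-- If `T` normalizes `R`, then the elements of `R` normalize `T`. -/
theorem eq_one_of_normalizes {x : S} {R T : Subgroup S} (hN : T ≤ normalizer (R : Set S))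
    (hx : x ∈ R) (hTi : ∀ g ∈ T, g ∈ cj x T → g = 1) (hcard : Nat.card R = Nat.card T) : x = 1 := by
  classical
  let f : T → R := fun t => ⟨x * ((t : S) * x⁻¹ * (t : S)⁻¹), R.mul_mem hx
    ((mem_normalizer_iff.1 (hN t.2) x⁻¹).1 (R.inv_mem hx))⟩
  have hf : Function.Injective f := by
    intro t t' h
    have h1 : x * ((t : S) * x⁻¹ * (t : S)⁻¹) = x * ((t' : S) * x⁻¹ * (t' : S)⁻¹) :=
      congrArg Subtype.val h
    have h2 : (t' : S)⁻¹ * t = (x * ((t' : S)⁻¹ * t) * x⁻¹) := by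
      have h3 : x * (t : S) * x⁻¹ * (t : S)⁻¹ = x * (t' : S) * x⁻¹ * (t' : S)⁻¹ := by
        simpa [mul_assoc] using h1
      have h4 : x * ((t' : S)⁻¹ * t) * x⁻¹ = (x * (t' : S) * x⁻¹)⁻¹ * (x * (t : S) * x⁻¹) := by
        group
      rw [h4]
      have h5 : x * (t : S) * x⁻¹ = x * (t' : S) * x⁻¹ * (t' : S)⁻¹ * t := by
        rw [← h3]; group
      rw [h5]
      group
    have h6 : (t' : S)⁻¹ * t = 1 := hTi _ (T.mul_mem (T.inv_mem t'.2) t.2) (by
      rw [h2]
      exact conj_mem_cj (T.mul_mem (T.inv_mem t'.2) t.2))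
    apply Subtype.ext
    exact (inv_mul_eq_one.1 h6).symm
  have hb : Function.Bijective f := (Nat.bijective_iff_injective_and_card f).2 ⟨hf, hcard.symm⟩
  obtain ⟨t₀, ht₀⟩ := hb.2 ⟨x, hx⟩
  have h1 : x * ((t₀ : S) * x⁻¹ * (t₀ : S)⁻¹) = x := congrArg Subtype.val ht₀
  have h2 : (t₀ : S) * x⁻¹ * (t₀ : S)⁻¹ = 1 := by
    simpa using h1
  have h3 : x⁻¹ = 1 := by
    rw [mul_inv_eq_one, mul_eq_left] at h2
    exact h2
  exact inv_eq_one.1 h3

/-- A maximal subgroup inside a subgroup. -/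
theorem exists_maximal_in (hS : IsPGroup 2 S) {A K : Subgroup S} (hAK : A ≤ K) (hne : A ≠ K) :
    ∃ M : Subgroup S, A ≤ M ∧ M ≤ K ∧ M ≠ K ∧ ∀ s ∈ K, ∀ g ∈ M, s * g * s⁻¹ ∈ M := by
  classical
  haveI : Fact (Nat.Prime 2) := ⟨Nat.prime_two⟩
  have hH : A.subgroupOf K ≠ ⊤ := by
    intro h
    apply hne
    apply le_antisymm hAK
    intro x hx
    have : (⟨x, hx⟩ : K) ∈ A.subgroupOf K := by rw [h]; trivial
    exact this
  obtain ⟨M, hAM, hMn, hMi⟩ :=
    Cfsg.Agent.Lib.PGroup.Basic.exists_normal_index_ge (hS.to_subgroup K) hH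
  refine ⟨M.map K.subtype, ?_, ?_, ?_, ?_⟩
  · intro a ha
    exact ⟨⟨a, hAK ha⟩, hAM (mem_subgroupOf.2 ha), rfl⟩
  · rintro _ ⟨m, -, rfl⟩
    exact m.2
  · intro h
    have hc : Nat.card (M.map K.subtype) = Nat.card M :=
      Subgroup.card_map_of_injective K.subtype_injective
    rw [h] at hc
    have h2 := Subgroup.card_mul_index M
    rw [hMi, ← hc] at h2
    have h3 : 0 < Nat.card K := Nat.card_pos
    omega
  · rintro s hs _ ⟨m, hm, rfl⟩
    have := hMn.conj_mem m hm ⟨s, hs⟩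
    exact ⟨_, this, rfl⟩

/-- The induction. -/
theorem main (hS : IsPGroup 2 S) (Δ : Set (Subgroup S))
    (hinv : ∀ s : S, ∀ R ∈ Δ, R.map (MulAut.conj s).toMonoidHom ∈ Δ)
    (hz : ∀ R ∈ Δ, ∃ z ∈ R, z ^ 2 ≠ 1) (hord : ∀ R ∈ Δ, ∀ T ∈ Δ, Nat.card ↥R = Nat.card ↥T)
    (hti : ∀ R ∈ Δ, ∀ T ∈ Δ, R = T ∨ R ⊓ T = ⊥) :
    ∀ (n : ℕ) (K : Subgroup S), Nat.card K = n → ∀ R ∈ Δ, ∀ T ∈ Δ, R ≤ K → T ≤ K → R ≠ T →
      ∀ r ∈ R, ∀ t ∈ T, r * t = t * r := by
  classical
  intro n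
  induction n using Nat.strong_induction_on with
  | _ n ih =>
    intro K hK R hR T hT hRK hTK hne
    -- a member of `Δ` is not the whole of `K`
    have hti' : ∀ A ∈ Δ, ∀ B ∈ Δ, A ≠ B → ∀ g ∈ A, g ∈ B → g = 1 := by
      intro A hA B hB hAB g hgA hgB
      have h1 := (hti A hA B hB).resolve_left hAB
      have h2 : g ∈ A ⊓ B := ⟨hgA, hgB⟩
      rw [h1, mem_bot] at h2
      exact h2
    have hRne : R ≠ K := by
      intro h
      obtain ⟨z, hzT, hz2⟩ := hz T hT
      apply hz2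
      rw [hti' R hR T hT hne z (h ▸ hTK hzT) hzT, one_pow]
    have hTne : T ≠ K := by
      intro h
      obtain ⟨z, hzR, hz2⟩ := hz R hR
      apply hz2
      rw [hti' R hR T hT hne z hzR (h ▸ hRK hzR), one_pow]
    -- conjugates commute or coincide
    have hI : ∀ A ∈ Δ, A ≤ K → A ≠ K → ∀ s ∈ K, s ∉ normalizer (A : Set S) →
        ∀ a ∈ A, ∀ b ∈ cj s A, a * b = b * a := by
      intro A hA hAK hAne s hs hsN a ha b hb
      obtain ⟨M, hAM, hMK, hMne, hMc⟩ := exists_maximal_in hS hAK hAne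
      have hlt : Nat.card M < Nat.card K := by
        by_contra hcon
        push Not at hcon
        exact hMne (Subgroup.eq_of_le_of_card_ge hMK hcon)
      have hcjM : cj s A ≤ M := by
        rintro _ ⟨y, hy, rfl⟩
        exact hMc s hs y (hAM hy)
      have hAne' : A ≠ cj s A := by
        intro h
        exact hsN (cj_eq_self_iff.1 h.symm)
      exact ih _ (hK ▸ hlt) M rfl A hA (cj s A) (hinv s A hA) hAM hcjM hAne' a ha b hb
    have hIi : ∀ A ∈ Δ, ∀ s : S, s ∉ normalizer (A : Set S) → ∀ g ∈ A, g ∈ cj s A → g = 1 := by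
      intro A hA s hsN g hg hg'
      refine hti' A hA (cj s A) (hinv s A hA) ?_ g hg hg'
      intro h
      exact hsN (cj_eq_self_iff.1 h.symm)
    -- normalizing one way gives commuting
    have hcomm : ∀ A ∈ Δ, ∀ B ∈ Δ, A ≠ B → B ≤ normalizer (A : Set S) →
        A ≤ normalizer (B : Set S) := by
      intro A hA B hB _ hN x hx
      by_contra hxN
      have h1 := eq_one_of_normalizes hN hx (hIi B hB x hxN) (hord A hA B hB)
      apply hxN
      rw [h1]
      exact Subgroup.one_mem _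
    have hfin : ∀ A B : Subgroup S, A ≠ B → A ∈ Δ → B ∈ Δ → A ≤ normalizer (B : Set S) →
        B ≤ normalizer (A : Set S) → ∀ r ∈ A, ∀ t ∈ B, r * t = t * r := by
      intro A B hAB hA hB hAN hBN r hr t ht
      have h1 : ⁅r, t⁆ ∈ A ⊓ B := by
        refine ⟨?_, ?_⟩
        · have := (mem_normalizer_iff.1 (hBN ht) r⁻¹).1 (A.inv_mem hr)
          have h2 := A.mul_mem hr this
          have e : ⁅r, t⁆ = r * (t * r⁻¹ * t⁻¹) := by
            rw [commutatorElement_def]; group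
          rw [e]; exact h2
        · have := (mem_normalizer_iff.1 (hAN hr) t).1 ht
          have h2 := B.mul_mem this (B.inv_mem ht)
          rw [commutatorElement_def]; exact h2
      have h3 : ⁅r, t⁆ = 1 := hti' A hA B hB hAB _ h1.1 h1.2
      exact commutatorElement_eq_one_iff_mul_comm.1 h3
    by_cases hA1 : T ≤ normalizer (R : Set S)
    · exact hfin R T hne hR hT (hcomm R hR T hT hne hA1) hA1
    by_cases hA2 : R ≤ normalizer (T : Set S)
    · exact hfin R T hne hR hT hA2 (hcomm T hT R hR hne.symm hA2)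
    -- the main case: derive a contradiction
    exfalso
    obtain ⟨t, ht, htN⟩ := SetLike.not_le_iff_exists.1 hA1
    obtain ⟨x, hx, hxN⟩ := SetLike.not_le_iff_exists.1 hA2
    have hRc := hI R hR hRK hRne t (hTK ht) htN
    have hRi := hIi R hR t htN
    have hR2 : ∀ g ∈ R, g ∈ cj (t * t) R → g ≠ 1 → cj (t * t) R = R := by
      intro g hg hg' hg1
      by_contra hcon
      exact hg1 (hti' R hR (cj (t * t) R) (hinv _ R hR) (Ne.symm hcon) g hg hg')
    have hsq : ∀ w ∈ R, w ∉ normalizer (T : Set S) → w ^ 2 = 1 := by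
      intro w hw hwN
      exact sq_eq_one_of_noncommuting hS hw ht hRc hRi
        (hI T hT hTK hTne w (hRK hw) hwN) hR2
    obtain ⟨z, hzR, hz2⟩ := hz R hR
    have hzN : z ∈ normalizer (T : Set S) := by
      by_contra h
      exact hz2 (hsq z hzR h)
    have hzxN : z * x ∉ normalizer (T : Set S) := by
      intro h
      apply hxN
      have := (normalizer (T : Set S)).mul_mem ((normalizer (T : Set S)).inv_mem hzN) h
      simpa using this
    have hz1 := eq_one_of_inverting hS hx hzR ht hRc hRi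
      (hI T hT hTK hTne x (hRK hx) hxN) (hIi T hT x hxN)
      ((mem_normalizer_iff.1 hzN t).1 ht) (hsq x hx hxN) (hsq _ (R.mul_mem hzR hx) hzxN)
    exact hz2 (by rw [hz1, one_pow])

end Lemmas

/-- Let S be a finite 2-group and Δ a set of subgroups of S closed under conjugation by S, all of the same order, each with nontrivial Frattini subgroup, and such that two distinct members of Δ meet trivially. Then any two distinct members of Δ commute elementwise. -/
theorem result {S : Type*} [Group S] [Finite S] (hS : IsPGroup 2 S)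
    (Δ : Set (Subgroup S)) (hinv : ∀ s : S, ∀ R ∈ Δ, R.map (MulAut.conj s).toMonoidHom ∈ Δ)
    (hΦ : ∀ R ∈ Δ, frattini ↥R ≠ ⊥) (hord : ∀ R ∈ Δ, ∀ T ∈ Δ, Nat.card ↥R = Nat.card ↥T)
    (hti : ∀ R ∈ Δ, ∀ T ∈ Δ, R = T ∨ R ⊓ T = ⊥) :
    ∀ R ∈ Δ, ∀ T ∈ Δ, R ≠ T → ⁅R, T⁆ = ⊥ := by
  classical
  haveI : Fact (Nat.Prime 2) := ⟨Nat.prime_two⟩
  have hz : ∀ R ∈ Δ, ∃ z ∈ R, z ^ 2 ≠ 1 := by
    intro R hR
    by_contra hcon
    push Not at hcon
    apply hΦ R hR
    rw [eq_bot_iff, Cfsg.Agent.Lib.PGroup.Basic.frattini_le_iff (hS.to_subgroup R)]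
    have hsq : ∀ a : R, a ^ 2 = 1 := fun a => Subtype.ext (hcon a a.2)
    constructor
    · intro a
      rw [hsq]
      exact Subgroup.one_mem _
    · intro a b
      rw [Subgroup.mem_bot, commutatorElement_eq_one_iff_mul_comm]
      have h1 : (a * b) * (a * b) = 1 := by rw [← pow_two]; exact hsq _
      have h2 : a * a = 1 := by rw [← pow_two]; exact hsq _
      have h3 : b * b = 1 := by rw [← pow_two]; exact hsq _
      calc a * b = a * b * (a * b) * (b⁻¹ * a⁻¹) := by group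
        _ = b⁻¹ * a⁻¹ := by rw [h1, one_mul]
        _ = b * a := by
          rw [inv_eq_of_mul_eq_one_left h3, inv_eq_of_mul_eq_one_left h2]
  intro R hR T hT hne
  rw [eq_bot_iff, Subgroup.commutator_le]
  intro r hr t ht
  rw [Subgroup.mem_bot, commutatorElement_eq_one_iff_mul_comm]
  exact main hS Δ hinv hz hord hti _ ⊤ rfl R hR T hT le_top le_top hne r hr t ht

end Cfsg.Agent.S1782
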