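import Cfsg.Statements.S1783
import Mathlib
import Cfsg.Agent.S1782
import Cfsg.Agent.S1781
import Cfsg.Agent.Lib.PGroup.WeaklyClosed
import Cfsg.Agent.Lib.PGroup.Basic
import Cfsg.Agent.Lib.Basic.PCore
import Cfsg.Agent.Lib.Coprime.FrattiniAct
import Cfsg.Agent.Lib.Coprime.Stability
import Cfsg.Agent.Lib.Components.FStar

set_option autoImplicit false
open Cfsg

namespace Cfsg.Agent.S1783

open Subgroup
open scoped commutatorElement
open Cfsg.Agent.Lib.PGroup.WeaklyClosed (cj mem_cj conj_mem_cj cj_eq_self_iff cj_mul card_cj cj_one)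

section Lemmas

/-- Conjugates of a TI subgroup of a `2`-group which is not elementary commute. -/
theorem conj_commute_of_ti {Y : Type*} [Group Y] [Finite Y] (hY : IsPGroup 2 Y) (A : Subgroup Y)
    (hti : ∀ h : Y, cj h A = A ∨ cj h A ⊓ A = ⊥) (hz : ∃ z ∈ A, z ^ 2 ≠ 1) (y : Y)
    (hne : cj y A ≠ A) : ∀ a ∈ A, ∀ b ∈ cj y A, a * b = b * a := by
  classical
  let Δ : Set (Subgroup Y) := Set.range (fun x : Y => cj x A)
  have hinv : ∀ s : Y, ∀ R ∈ Δ, R.map (MulAut.conj s).toMonoidHom ∈ Δ := by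
    rintro s _ ⟨x, rfl⟩
    exact ⟨s * x, cj_mul s x A⟩
  have hz' : ∀ R ∈ Δ, ∃ z ∈ R, z ^ 2 ≠ 1 := by
    rintro _ ⟨x, rfl⟩
    obtain ⟨z, hz, hz2⟩ := hz
    refine ⟨x * z * x⁻¹, conj_mem_cj hz, ?_⟩
    rw [conj_pow]
    intro h
    apply hz2
    have h1 : x * z ^ 2 * x⁻¹ * x = 1 * x := by rw [h]
    simpa using h1
  have hord : ∀ R ∈ Δ, ∀ T ∈ Δ, Nat.card ↥R = Nat.card ↥T := by
    rintro _ ⟨x, rfl⟩ _ ⟨w, rfl⟩
    show Nat.card (cj x A) = Nat.card (cj w A)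
    rw [card_cj, card_cj]
  have hti' : ∀ R ∈ Δ, ∀ T ∈ Δ, R = T ∨ R ⊓ T = ⊥ := by
    rintro _ ⟨x, rfl⟩ _ ⟨w, rfl⟩
    show cj x A = cj w A ∨ cj x A ⊓ cj w A = ⊥
    rcases hti (w⁻¹ * x) with h | h
    · left
      have h1 : cj x A = cj w (cj (w⁻¹ * x) A) := by rw [← cj_mul]; simp
      rw [h1, h]
    · right
      rw [eq_bot_iff]
      intro g hg
      obtain ⟨hg1, hg2⟩ := mem_inf.1 hg
      rw [mem_cj] at hg1 hg2
      have h1 : w⁻¹ * g * w ∈ cj (w⁻¹ * x) A ⊓ A := by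
        refine mem_inf.2 ⟨?_, hg2⟩
        rw [mem_cj]
        have e : (w⁻¹ * x)⁻¹ * (w⁻¹ * g * w) * (w⁻¹ * x) = x⁻¹ * g * x := by group
        rw [e]; exact hg1
      rw [h, mem_bot] at h1
      rw [mem_bot]
      have h2 : g = w * (w⁻¹ * g * w) * w⁻¹ := by group
      rw [h2, h1]
      group
  exact Cfsg.Agent.S1782.main hY Δ hinv hz' hord hti' _ ⊤ rfl A ⟨1, cj_one A⟩ (cj y A) ⟨y, rfl⟩
    le_top le_top (Ne.symm hne)

variable {X : Type*} [Group X] [Finite X]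

/-- The conjugates of `A` under a normal `2`-subgroup commute. -/
theorem conj_commute {A Q : Subgroup X} (hA2 : IsPGroup 2 A)
    (hti : ∀ h : X, cj h A = A ∨ cj h A ⊓ A = ⊥) (hz : ∃ z ∈ A, z ^ 2 ≠ 1) (hQn : Q.Normal)
    (hQ2 : IsPGroup 2 Q) {q : X} (hq : q ∈ Q) (hne : cj q A ≠ A) :
    ∀ a ∈ A, ∀ b ∈ cj q A, a * b = b * a := by
  classical
  haveI : Fact (Nat.Prime 2) := ⟨Nat.prime_two⟩
  set S' : Subgroup X := A ⊔ Q with hS'
  have hS2 : IsPGroup 2 S' := hA2.to_sup_of_normal_right hQ2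
  have hAS : A ≤ S' := le_sup_left
  have hQS : Q ≤ S' := le_sup_right
  let y : S' := ⟨q, hQS hq⟩
  let A' : Subgroup S' := A.subgroupOf S'
  have hmem : ∀ (h : S') (x : S'), x ∈ cj h A' ↔ (x : X) ∈ cj (h : X) A := by
    intro h x
    rw [mem_cj, mem_cj, mem_subgroupOf]
    simp
  have hti' : ∀ h : S', cj h A' = A' ∨ cj h A' ⊓ A' = ⊥ := by
    intro h
    rcases hti h with h1 | h1
    · left
      ext x
      rw [hmem, h1, mem_subgroupOf]
    · right
      rw [eq_bot_iff]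
      intro g hg
      obtain ⟨hg1, hg2⟩ := mem_inf.1 hg
      have h2 : (g : X) ∈ cj (h : X) A ⊓ A := mem_inf.2 ⟨(hmem h g).1 hg1, mem_subgroupOf.1 hg2⟩
      rw [h1, mem_bot] at h2
      rw [mem_bot]
      exact Subtype.ext h2
  have hz' : ∃ z ∈ A', z ^ 2 ≠ 1 := by
    obtain ⟨z, hz, hz2⟩ := hz
    refine ⟨⟨z, hAS hz⟩, mem_subgroupOf.2 hz, fun h => hz2 ?_⟩
    exact congrArg Subtype.val h
  have hne' : cj y A' ≠ A' := by
    intro h
    apply hne
    ext x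
    constructor
    · intro hx
      have hxS : x ∈ S' := by
        have h1 := (mem_cj.1 hx)
        have h2 := S'.mul_mem (S'.mul_mem (hQS hq) (hAS h1)) (S'.inv_mem (hQS hq))
        have e : q * (q⁻¹ * x * q) * q⁻¹ = x := by group
        rwa [e] at h2
      have h1 : (⟨x, hxS⟩ : S') ∈ cj y A' := (hmem y _).2 hx
      rw [h] at h1
      exact mem_subgroupOf.1 h1
    · intro hx
      have h1 : (⟨x, hAS hx⟩ : S') ∈ A' := mem_subgroupOf.2 hx
      rw [← h] at h1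
      exact (hmem y _).1 h1
  have key := conj_commute_of_ti hS2 A' hti' hz' y hne'
  intro a ha b hb
  have hbS : b ∈ S' := by
    have h1 := (mem_cj.1 hb)
    have h2 := S'.mul_mem (S'.mul_mem (hQS hq) (hAS h1)) (S'.inv_mem (hQS hq))
    have e : q * (q⁻¹ * b * q) * q⁻¹ = b := by group
    rwa [e] at h2
  have h1 := key ⟨a, hAS ha⟩ (mem_subgroupOf.2 ha) ⟨b, hbS⟩ ((hmem y _).2 hb)
  exact congrArg Subtype.val h1

/-- Conjugates inherit the TI property. -/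
theorem ti_conj {A : Subgroup X} (hti : ∀ h : X, cj h A = A ∨ cj h A ⊓ A = ⊥) (g : X) :
    ∀ h : X, cj h (cj g A) = cj g A ∨ cj h (cj g A) ⊓ cj g A = ⊥ := by
  intro h
  have e : cj h (cj g A) = cj g (cj (g⁻¹ * h * g) A) := by
    rw [← cj_mul, ← cj_mul]
    congr 1
    group
  rw [e]
  rcases hti (g⁻¹ * h * g) with h1 | h1
  · left; rw [h1]
  · right
    rw [eq_bot_iff]
    intro x hx
    obtain ⟨hx1, hx2⟩ := mem_inf.1 hx
    rw [mem_cj] at hx1 hx2
    have h2 : g⁻¹ * x * g ∈ cj (g⁻¹ * h * g) A ⊓ A := mem_inf.2 ⟨hx1, hx2⟩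
    rw [h1, mem_bot] at h2
    rw [mem_bot]
    have h3 : x = g * (g⁻¹ * x * g) * g⁻¹ := by group
    rw [h3, h2]
    group

/-- Quadratic action. -/
theorem quad {A Q : Subgroup X} (hA2 : IsPGroup 2 A) (hAa : ∀ a ∈ A, ∀ b ∈ A, a * b = b * a)
    (hti : ∀ h : X, cj h A = A ∨ cj h A ⊓ A = ⊥) (hz : ∃ z ∈ A, z ^ 2 ≠ 1) (hQn : Q.Normal)
    (hQ2 : IsPGroup 2 Q) {d q : X} (hd : d ∈ A) (hq : q ∈ Q) :
    d * (q * d * q⁻¹) = (q * d * q⁻¹) * d := by
  by_cases h : cj q A = A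
  · apply hAa d hd
    rw [← h]
    exact conj_mem_cj hd
  · exact conj_commute hA2 hti hz hQn hQ2 hq h d hd _ (conj_mem_cj hd)

/-- The squares lie in `O₂(X)`, the normal closure being a `2`-group. -/
theorem normalClosure_le {A : Subgroup X} (hX : Cfsg.generalizedFittingSubgroup X = Cfsg.pCore 2 X)
    (hA2 : IsPGroup 2 A) (hAa : ∀ a ∈ A, ∀ b ∈ A, a * b = b * a)
    (hti : ∀ h : X, cj h A = A ∨ cj h A ⊓ A = ⊥) (hz : ∃ z ∈ A, z ^ 2 ≠ 1) :
    Subgroup.normalClosure ((fun a : X => a ^ 2) '' (A : Set X)) ≤ Cfsg.pCore 2 X := by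
  classical
  haveI hF2 : Fact (Nat.Prime 2) := ⟨Nat.prime_two⟩
  set Q := Cfsg.pCore 2 X with hQ
  have hQ2 : IsPGroup 2 Q := Cfsg.Agent.Lib.Basic.PCore.pCore_isPGroup 2
  haveI hQn : Q.Normal := Cfsg.Agent.Lib.Basic.PCore.pCore_normal 2 X
  have hCQ : centralizer (Q : Set X) ≤ Q := by
    have := Cfsg.Agent.Lib.Components.FStar.centralizer_generalizedFitting_le (G := X)
    rwa [hX] at this
  set Φ : Subgroup X := (frattini ↥Q).map Q.subtype with hΦ
  -- the stabilizer of the Frattini quotient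
  let U : Subgroup X :=
    { carrier := {x | ∀ q ∈ Q, q⁻¹ * (x * q * x⁻¹) ∈ Φ}
      mul_mem' := by
        intro x w hx hw q hq
        have hq' : w * q * w⁻¹ ∈ Q := hQn.conj_mem q hq w
        have h1 := hx _ hq'
        have h2 := hw q hq
        have e : q⁻¹ * (x * w * q * (x * w)⁻¹) =
            (q⁻¹ * (w * q * w⁻¹)) * ((w * q * w⁻¹)⁻¹ * (x * (w * q * w⁻¹) * x⁻¹)) := by
          group
        rw [e]
        exact Φ.mul_mem h2 h1
      one_mem' := by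
        intro q _
        simp
      inv_mem' := by
        intro x hx q hq
        have hr : x⁻¹ * q * x⁻¹⁻¹ ∈ Q := hQn.conj_mem q hq x⁻¹
        have h1 := hx _ hr
        have e : q⁻¹ * (x⁻¹ * q * x⁻¹⁻¹) =
            ((x⁻¹ * q * x⁻¹⁻¹)⁻¹ * (x * (x⁻¹ * q * x⁻¹⁻¹) * x⁻¹))⁻¹ := by
          group
        rw [e]
        exact Φ.inv_mem h1 }
  have hgen : Subgroup.normalClosure ((fun a : X => a ^ 2) '' (A : Set X)) ≤ U := by
    rw [Subgroup.normalClosure, closure_le]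
    intro x hx
    rw [Group.mem_conjugatesOfSet_iff] at hx
    obtain ⟨_, ⟨a, ha, rfl⟩, hconj⟩ := hx
    obtain ⟨g, rfl⟩ := isConj_iff.1 hconj
    intro q hq
    have haA : a ∈ A := ha
    set d := g * a * g⁻¹ with hd
    have hdA : d ∈ cj g A := conj_mem_cj haA
    have hAa' : ∀ u ∈ cj g A, ∀ v ∈ cj g A, u * v = v * u := by
      intro u hu v hv
      rw [mem_cj] at hu hv
      have h1 := hAa _ hu _ hv
      have h2 : u * v = g * ((g⁻¹ * u * g) * (g⁻¹ * v * g)) * g⁻¹ := by group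
      have h3 : v * u = g * ((g⁻¹ * v * g) * (g⁻¹ * u * g)) * g⁻¹ := by group
      rw [h2, h3, h1]
    have hz' : ∃ w ∈ cj g A, w ^ 2 ≠ 1 := by
      obtain ⟨z, hz, hz2⟩ := hz
      refine ⟨g * z * g⁻¹, conj_mem_cj hz, ?_⟩
      rw [conj_pow]
      intro h
      apply hz2
      have h1 : z ^ 2 = g⁻¹ * (g * z ^ 2 * g⁻¹) * g := by group
      rw [h1, h]
      group
    have hquad := quad (Cfsg.Agent.Lib.PGroup.WeaklyClosed.isPGroup_cj hA2) hAa' (ti_conj hti g)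
      hz' hQn hQ2 hdA (Q.inv_mem hq)
    rw [inv_inv] at hquad
    set f := q⁻¹ * (d * q * d⁻¹) with hf
    have hfQ : f ∈ Q := Q.mul_mem (Q.inv_mem hq) (hQn.conj_mem q hq d)
    have hfd : f = (q⁻¹ * d * q) * d⁻¹ := by rw [hf]; group
    have hcomm : Commute (q⁻¹ * d * q) d⁻¹ := by
      have : Commute d (q⁻¹ * d * q) := hquad
      exact this.symm.inv_right
    have hf2 : f ^ 2 = q⁻¹ * (g * a ^ 2 * g⁻¹ * q * (g * a ^ 2 * g⁻¹)⁻¹) := by
      rw [hfd, hcomm.mul_pow]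
      have h1 : (q⁻¹ * d * q) ^ 2 = q⁻¹ * d ^ 2 * q := by
        have := conj_pow (a := q⁻¹) (b := d) (i := 2)
        simpa using this
      have h2 : d ^ 2 = g * a ^ 2 * g⁻¹ := by rw [hd, conj_pow]
      rw [h1, inv_pow, h2]
      group
    rw [show (fun a : X => a ^ 2) a = a ^ 2 from rfl, ← hf2]
    have h2 := Cfsg.Agent.Lib.PGroup.Basic.pow_mem_frattini (hQ2) (⟨f, hfQ⟩ : Q)
    exact ⟨_, h2, rfl⟩
  have hp : IsPGroup 2 (Subgroup.normalClosure ((fun a : X => a ^ 2) '' (A : Set X))) := by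
    apply Cfsg.Agent.Lib.Coprime.Stability.isPGroup_of_forall_coprime Nat.prime_two
    intro d hd hc
    have hdU : d ∈ U := hgen hd
    have hcent := Cfsg.Agent.Lib.Coprime.FrattiniAct.le_centralizer_of_frattini (T := Q)
      (A := zpowers d) hQ2
      (by
        rw [zpowers_le, normalizer_eq_top_iff.2 hQn]
        trivial)
      (by rw [Nat.card_zpowers]; exact hc)
      (fun t ht a ha => by
        have haU : a ∈ U := by
          have : zpowers d ≤ U := by rw [zpowers_le]; exact hdU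
          exact this ha
        exact haU t ht)
    have hdC : d ∈ centralizer (Q : Set X) := hcent (mem_zpowers d)
    exact Cfsg.Agent.Lib.Coprime.Stability.eq_one_of_mem_of_coprime hQ2 (hCQ hdC) hc
  exact Cfsg.Agent.Lib.Basic.PCore.le_pCore (Subgroup.normalClosure_normal) hp

/-- For squares of nonelementary type, all squares normalize all conjugates. -/
theorem sq_mem_normalizer {A Q : Subgroup X} (hA2 : IsPGroup 2 A)
    (hAa : ∀ a ∈ A, ∀ b ∈ A, a * b = b * a) (hti : ∀ h : X, cj h A = A ∨ cj h A ⊓ A = ⊥)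
    (hQn : Q.Normal) (hQ2 : IsPGroup 2 Q) (hBQ : ∀ a ∈ A, a ^ 2 ∈ Q) {a₀ : X} (ha₀ : a₀ ∈ A)
    (ha₀4 : a₀ ^ 4 ≠ 1) {a₁ : X} (ha₁ : a₁ ∈ A) (g : X) :
    a₁ ^ 2 ∈ normalizer ((cj g A : Subgroup X) : Set X) := by
  classical
  by_contra hb
  have hz : ∃ z ∈ A, z ^ 2 ≠ 1 := ⟨a₀, ha₀, fun h => ha₀4 (by
    rw [show 4 = 2 * 2 from rfl, pow_mul, h, one_pow])⟩
  set b := a₁ ^ 2 with hbdef
  have hbQ : b ∈ Q := hBQ a₁ ha₁
  set A₂ := cj g A with hA₂
  have hA₂p : IsPGroup 2 A₂ := Cfsg.Agent.Lib.PGroup.WeaklyClosed.isPGroup_cj hA2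
  have hz₂ : ∃ w ∈ A₂, w ^ 2 ≠ 1 := by
    obtain ⟨z, hz, hz2⟩ := hz
    refine ⟨g * z * g⁻¹, conj_mem_cj hz, ?_⟩
    rw [conj_pow]
    intro h
    apply hz2
    have h1 : z ^ 2 = g⁻¹ * (g * z ^ 2 * g⁻¹) * g := by group
    rw [h1, h]
    group
  have hti₂ := ti_conj hti g
  have hTI : ∀ s : X, cj s A₂ ≠ A₂ → ∀ x ∈ A₂, x ∈ cj s A₂ → x = 1 := by
    intro s hs x hx hx'
    have h1 := (hti₂ s).resolve_left hs
    have h2 : x ∈ cj s A₂ ⊓ A₂ := mem_inf.2 ⟨hx', hx⟩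
    rw [h1, mem_bot] at h2
    exact h2
  have hne2 : cj b A₂ ≠ A₂ := fun h => hb (cj_eq_self_iff.1 h)
  have hc2 := conj_commute hA₂p hti₂ hz₂ hQn hQ2 hbQ hne2
  have hi2 := hTI b hne2
  have key : ∀ d ∈ A₂, (d ^ 2) ^ 2 = 1 := by
    intro d hd
    set c := d ^ 2 with hc
    have hcA : c ∈ A₂ := A₂.pow_mem hd 2
    have hcQ : c ∈ Q := by
      rw [mem_cj] at hd
      have h1 := hQn.conj_mem _ (hBQ _ hd) g
      have e : g * (g⁻¹ * d * g) ^ 2 * g⁻¹ = d ^ 2 := by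
        have := conj_pow (a := g⁻¹) (b := d) (i := 2)
        rw [inv_inv] at this
        rw [this]
        group
      rwa [e] at h1
    have hquad := quad hA2 hAa hti hz hQn hQ2 ha₁ hcQ
    obtain ⟨t, ht⟩ : ∃ t, t = a₁ * c * a₁⁻¹ * c⁻¹ := ⟨_, rfl⟩
    have htQ : t ∈ Q := by
      rw [ht]
      exact Q.mul_mem (hQn.conj_mem c hcQ a₁) (Q.inv_mem hcQ)
    have hta : a₁ * t = t * a₁ := by
      have e : t = a₁ * (c * a₁ * c⁻¹)⁻¹ := by rw [ht]; group
      have h1 : Commute a₁ (c * a₁ * c⁻¹) := hquad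
      have h2 : Commute a₁ (a₁ * (c * a₁ * c⁻¹)⁻¹) := (Commute.refl a₁).mul_right h1.inv_right
      rw [e]
      exact h2
    have e1 : a₁ * c * a₁⁻¹ = t * c := by rw [ht]; group
    have hbt : b * t = t * b := by
      have h1 : Commute a₁ t := hta
      exact (h1.pow_left 2).eq
    have hconjb : b * c * b⁻¹ = t ^ 2 * c := by
      have h1 : b * c * b⁻¹ = a₁ * (a₁ * c * a₁⁻¹) * a₁⁻¹ := by rw [hbdef, pow_two]; group
      rw [h1, e1]
      have h2 : a₁ * (t * c) * a₁⁻¹ = (a₁ * t * a₁⁻¹) * (a₁ * c * a₁⁻¹) := by group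
      rw [h2, e1, hta, mul_inv_cancel_right]
      simp only [pow_two, mul_assoc]
    have hconjb2 : (b * b) * c * (b * b)⁻¹ = t ^ 4 * c := by
      have h1 : (b * b) * c * (b * b)⁻¹ = b * (b * c * b⁻¹) * b⁻¹ := by group
      rw [h1, hconjb]
      have h2 : b * (t ^ 2 * c) * b⁻¹ = (b * t ^ 2 * b⁻¹) * (b * c * b⁻¹) := by group
      rw [h2, hconjb]
      have h3 : b * t ^ 2 * b⁻¹ = t ^ 2 := by
        have : Commute b t := hbt
        rw [(this.pow_right 2).eq, mul_inv_cancel_right]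
      rw [h3, ← mul_assoc, ← pow_add]
    obtain ⟨c₂, hc₂⟩ : ∃ c₂, c₂ = b * c * b⁻¹ := ⟨_, rfl⟩
    have hc₂A : c₂ ∈ cj b A₂ := by rw [hc₂]; exact conj_mem_cj hcA
    have hcc₂ : c * c₂ = c₂ * c := hc2 c hcA c₂ hc₂A
    have htwo : t ^ 2 = c₂ * c⁻¹ := by
      rw [hc₂, hconjb]; group
    have hcomm : Commute c₂ c⁻¹ := (show Commute c c₂ from hcc₂).symm.inv_right
    have hfour : t ^ 4 = c₂ ^ 2 * (c⁻¹) ^ 2 := by
      rw [show 4 = 2 * 2 from rfl, pow_mul, htwo, hcomm.mul_pow]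
    by_cases hN : b * b ∈ normalizer ((A₂ : Subgroup X) : Set X)
    · -- case `b ^ 2` normalizes
      have hc₄ : (b * b) * c * (b * b)⁻¹ ∈ A₂ := (mem_normalizer_iff.1 hN c).1 hcA
      rw [hconjb2] at hc₄
      have h1 : c₂ ^ 2 ∈ A₂ := by
        have h2 := A₂.mul_mem hc₄ (A₂.pow_mem hcA 1)
        have e : t ^ 4 * c * c ^ 1 = c₂ ^ 2 := by
          rw [hfour]; group
        rwa [e] at h2
      have h2 := hi2 _ h1 ((cj b A₂).pow_mem hc₂A 2)
      rw [hc₂, conj_pow] at h2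
      have h3 : c ^ 2 = b⁻¹ * (b * c ^ 2 * b⁻¹) * b := by group
      rw [h3, h2]
      group
    · -- case `b ^ 2` does not normalize
      have hne4 : cj (b * b) A₂ ≠ A₂ := fun h => hN (cj_eq_self_iff.1 h)
      have hbbQ : b * b ∈ Q := Q.mul_mem hbQ hbQ
      have hc4 := conj_commute hA₂p hti₂ hz₂ hQn hQ2 hbbQ hne4
      have hi4 := hTI (b * b) hne4
      obtain ⟨c₄, hc₄⟩ : ∃ c₄, c₄ = (b * b) * c * (b * b)⁻¹ := ⟨_, rfl⟩
      have hc₄A : c₄ ∈ cj (b * b) A₂ := by rw [hc₄]; exact conj_mem_cj hcA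
      have hcc₄ : c * c₄ = c₄ * c := hc4 c hcA c₄ hc₄A
      have hk1 : ∀ k : ℕ, t ^ (4 * k) = 1 → c ^ k = 1 := by
        intro k hk
        have h1 : t ^ 4 = c⁻¹ * c₄ := by
          have h2 : c₄ = t ^ 4 * c := by rw [hc₄, hconjb2]
          have h3 : c₄ * c⁻¹ = c⁻¹ * c₄ :=
            ((show Commute c c₄ from hcc₄).inv_left).symm.eq
          rw [← h3, h2]
          group
        rw [pow_mul, h1] at hk
        have h2 := Cfsg.Agent.S1782.pow_eq_one_left hi4 (A₂.inv_mem hcA) hc₄A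
          ((show Commute c c₄ from hcc₄).inv_left).eq hk
        rwa [inv_pow, inv_eq_one] at h2
      have hk2 : ∀ k : ℕ, c ^ k = 1 → t ^ (2 * k) = 1 := by
        intro k hk
        rw [pow_mul, htwo, hcomm.mul_pow, inv_pow, hk, inv_one, mul_one, hc₂, conj_pow, hk]
        group
      obtain ⟨e, he⟩ := (IsPGroup.iff_orderOf.1 hQ2) ⟨t, htQ⟩
      have he' : orderOf t = 2 ^ e := by
        rw [← he]
        exact (Subgroup.orderOf_mk t htQ).symm
      have ht2 : t ^ 2 = 1 := by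
        by_cases hle : e ≤ 1
        · have : orderOf t ∣ 2 := by
            rw [he']
            exact (pow_dvd_pow 2 hle).trans (by norm_num)
          exact orderOf_dvd_iff_pow_eq_one.1 this
        · exfalso
          push Not at hle
          obtain ⟨e', rfl⟩ : ∃ e', e = e' + 2 := ⟨e - 2, by omega⟩
          have h1 : t ^ (4 * 2 ^ e') = 1 := by
            have : 4 * 2 ^ e' = orderOf t := by rw [he']; ring
            rw [this, pow_orderOf_eq_one]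
          have h2 := hk2 _ (hk1 _ h1)
          have h3 := Nat.le_of_dvd (by positivity) (orderOf_dvd_of_pow_eq_one h2)
          rw [he'] at h3
          have h4 : 2 ^ (e' + 2) = 4 * 2 ^ e' := by ring
          have h5 : 0 < 2 ^ e' := by positivity
          omega
      have hc1 : c = 1 := by
        have h1 : t ^ (4 * 1) = 1 := by
          rw [show 4 * 1 = 2 * 2 from rfl, pow_mul, ht2, one_pow]
        simpa using hk1 1 h1
      rw [hc1, one_pow]
  have h1 := key _ (conj_mem_cj ha₀ : g * a₀ * g⁻¹ ∈ A₂)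
  apply ha₀4
  rw [conj_pow, conj_pow] at h1
  have h2 : (a₀ ^ 2) ^ 2 = a₀ ^ 4 := by rw [← pow_mul]
  rw [h2] at h1
  have h3 : a₀ ^ 4 = g⁻¹ * (g * a₀ ^ 4 * g⁻¹) * g := by group
  rw [h3, h1]
  group

/-- All conjugates commute when the squares are not elementary. -/
theorem commute_conj {A Q : Subgroup X} (hA2 : IsPGroup 2 A)
    (hAa : IsMulCommutative A) (hti : ∀ h : X, cj h A = A ∨ cj h A ⊓ A = ⊥)
    (hQn : Q.Normal) (hQ2 : IsPGroup 2 Q) (hBQ : ∀ a ∈ A, a ^ 2 ∈ Q) {a₀ : X} (ha₀ : a₀ ∈ A)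
    (ha₀4 : a₀ ^ 4 ≠ 1) (g : X) : ∀ a ∈ A, ∀ b ∈ cj g A, a * b = b * a := by
  have hAa' : ∀ a ∈ A, ∀ b ∈ A, a * b = b * a := fun a ha b hb =>
    congrArg Subtype.val (hAa.is_comm.comm (⟨a, ha⟩ : A) ⟨b, hb⟩)
  by_cases hg : cj g A = A
  · rw [hg]; exact hAa'
  · rcases Cfsg.Agent.S1781.result A hA2 hAa hti g hg with h | h
    · exfalso
      have h1 : a₀ ^ 2 ∈ A ⊓ normalizer ((cj g A : Subgroup X) : Set X) :=
        mem_inf.2 ⟨A.pow_mem ha₀ 2, sq_mem_normalizer hA2 hAa' hti hQn hQ2 hBQ ha₀ ha₀4 ha₀ g⟩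
      have h2 := h.2 _ h1
      apply ha₀4
      rw [← pow_mul] at h2
      exact h2
    · intro a ha b hb
      have h1 : ⁅a, b⁆ ∈ ⁅A, cj g A⁆ := commutator_mem_commutator ha hb
      rw [h, mem_bot] at h1
      exact commutatorElement_eq_one_iff_mul_comm.1 h1

end Lemmas

/-- Let X be a finite group whose generalized Fitting subgroup equals its largest normal 2-subgroup Q, and let A be an abelian 2-subgroup of X such that every conjugate of A equals A or meets A trivially. Let B be the subgroup generated by the squares of the elements of A. Then B lies in Q, and if B is not an elementary abelian 2-group then the normal closure of B in X is commutative. -/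
theorem result {X : Type*} [Group X] [Finite X]
    (hX : Cfsg.generalizedFittingSubgroup X = Cfsg.pCore 2 X) (A : Subgroup X) (hA2 : IsPGroup 2 ↥A) (hAa : IsMulCommutative ↥A)
    (hti : ∀ h : X, A.map (MulAut.conj h).toMonoidHom = A ∨ A.map (MulAut.conj h).toMonoidHom ⊓ A = ⊥) :
    Subgroup.closure ((fun a : X => a ^ 2) '' (A : Set X)) ≤ Cfsg.pCore 2 X ∧
      (¬ Cfsg.IsElementaryAbelian 2 (Subgroup.closure ((fun a : X => a ^ 2) '' (A : Set X))) →
        IsMulCommutative ↥(Subgroup.normalClosure ((fun a : X => a ^ 2) '' (A : Set X)))) := by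
  classical
  haveI hF2 : Fact (Nat.Prime 2) := ⟨Nat.prime_two⟩
  have hAa' : ∀ a ∈ A, ∀ b ∈ A, a * b = b * a := fun a ha b hb =>
    congrArg Subtype.val (hAa.is_comm.comm (⟨a, ha⟩ : A) ⟨b, hb⟩)
  have hti' : ∀ h : X, cj h A = A ∨ cj h A ⊓ A = ⊥ := hti
  have hQ2 : IsPGroup 2 (Cfsg.pCore 2 X) := Cfsg.Agent.Lib.Basic.PCore.pCore_isPGroup 2
  have hQn : (Cfsg.pCore 2 X).Normal := Cfsg.Agent.Lib.Basic.PCore.pCore_normal 2 X
  have hsq : ∀ a ∈ A, a ^ 2 ∈ Cfsg.pCore 2 X := by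
    intro a ha
    by_cases hz : ∃ z ∈ A, z ^ 2 ≠ 1
    · apply normalClosure_le hX hA2 hAa' hti' hz
      exact Subgroup.subset_normalClosure ⟨a, ha, rfl⟩
    · push Not at hz
      rw [hz a ha]
      exact Subgroup.one_mem _
  refine ⟨?_, fun hne => ?_⟩
  · rw [closure_le]
    rintro _ ⟨a, ha, rfl⟩
    exact hsq a ha
  -- there is an element of order at least eight
  obtain ⟨a₀, ha₀, ha₀4⟩ : ∃ a₀ ∈ A, a₀ ^ 4 ≠ 1 := by
    by_contra hcon
    push Not at hcon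
    apply hne
    rw [Cfsg.Agent.Lib.PGroup.Basic.isElementaryAbelian_iff]
    have hP : ∀ x ∈ Subgroup.closure ((fun a : X => a ^ 2) '' (A : Set X)), x ∈ A ∧ x ^ 2 = 1 := by
      intro x hx
      induction hx using Subgroup.closure_induction with
      | mem x hx =>
        obtain ⟨a, ha, rfl⟩ := hx
        refine ⟨A.pow_mem ha 2, ?_⟩
        show (a ^ 2) ^ 2 = 1
        rw [← pow_mul]
        exact hcon a ha
      | one => exact ⟨A.one_mem, one_pow 2⟩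
      | mul x y _ _ hx hy =>
        refine ⟨A.mul_mem hx.1 hy.1, ?_⟩
        have : Commute x y := hAa' x hx.1 y hy.1
        rw [this.mul_pow, hx.2, hy.2, one_mul]
      | inv x _ hx =>
        refine ⟨A.inv_mem hx.1, ?_⟩
        rw [inv_pow, hx.2, inv_one]
    exact ⟨fun x hx y hy => hAa' x (hP x hx).1 y (hP y hy).1, fun x hx => (hP x hx).2⟩
  have hcomm := commute_conj hA2 hAa hti' hQn hQ2 hsq ha₀ ha₀4
  -- the generators of the normal closure commute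
  have hgen : ∀ x ∈ Group.conjugatesOfSet ((fun a : X => a ^ 2) '' (A : Set X)),
      ∀ y ∈ Group.conjugatesOfSet ((fun a : X => a ^ 2) '' (A : Set X)), x * y = y * x := by
    intro x hx y hy
    rw [Group.mem_conjugatesOfSet_iff] at hx hy
    obtain ⟨_, ⟨a, ha, rfl⟩, hconj⟩ := hx
    obtain ⟨_, ⟨b, hb, rfl⟩, hconj'⟩ := hy
    obtain ⟨h, rfl⟩ := isConj_iff.1 hconj
    obtain ⟨k, rfl⟩ := isConj_iff.1 hconj'
    have h1 := hcomm (h⁻¹ * k) _ (A.pow_mem ha 2) _ (conj_mem_cj (A.pow_mem hb 2))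
    have e1 : h * a ^ 2 * h⁻¹ * (k * b ^ 2 * k⁻¹) =
        h * (a ^ 2 * ((h⁻¹ * k) * b ^ 2 * (h⁻¹ * k)⁻¹)) * h⁻¹ := by group
    have e2 : k * b ^ 2 * k⁻¹ * (h * a ^ 2 * h⁻¹) =
        h * (((h⁻¹ * k) * b ^ 2 * (h⁻¹ * k)⁻¹) * a ^ 2) * h⁻¹ := by group
    show h * a ^ 2 * h⁻¹ * (k * b ^ 2 * k⁻¹) = k * b ^ 2 * k⁻¹ * (h * a ^ 2 * h⁻¹)
    rw [e1, e2, h1]
  refine ⟨⟨fun a b => ?_⟩⟩
  exact (Subgroup.closureCommGroupOfComm hgen).mul_comm a b

end Cfsg.Agent.S1783
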