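import Cfsg.Statements.S1785
import Mathlib

set_option autoImplicit false
open Cfsg

namespace Cfsg.Agent.S1785

variable {X : Type*} [Group X]

lemma ea_comm {A : Subgroup X} (hA : IsElementaryAbelian 2 A) {a b : X} (ha : a ∈ A) (hb : b ∈ A) :
    a * b = b * a := by
  have := hA.1.is_comm.comm (⟨a, ha⟩ : A) ⟨b, hb⟩
  exact congrArg Subtype.val this

lemma ea_mono {A B : Subgroup X} (hA : IsElementaryAbelian 2 A) (h : B ≤ A) :
    IsElementaryAbelian 2 B := by
  refine ⟨⟨⟨fun x y => ?_⟩⟩, fun a ha => hA.2 a (h ha)⟩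
  exact Subtype.ext (ea_comm hA (h x.2) (h y.2))

lemma ea_sup {W : Subgroup X} (hW : IsElementaryAbelian 2 W) {a : X} (ha : a ^ 2 = 1)
    (hc : ∀ w ∈ W, a * w = w * a) : IsElementaryAbelian 2 (W ⊔ Subgroup.zpowers a) := by
  have hcomm : ∀ x ∈ W ⊔ Subgroup.zpowers a, ∀ y ∈ W ⊔ Subgroup.zpowers a, x * y = y * x := by
    have hsub : W ⊔ Subgroup.zpowers a ≤ Subgroup.centralizer (W : Set X) := by
      refine sup_le (fun x hx => ?_) ?_
      · rw [Subgroup.mem_centralizer_iff]; intro w hw; exact ea_comm hW hw hx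
      · rw [Subgroup.zpowers_le, Subgroup.mem_centralizer_iff]; intro w hw; exact (hc w hw).symm
    have hsub2 : W ⊔ Subgroup.zpowers a ≤ Subgroup.centralizer
        ((Subgroup.zpowers a : Subgroup X) : Set X) := by
      refine sup_le (fun x hx => ?_) ?_
      · rw [Subgroup.mem_centralizer_iff]; intro z hz
        obtain ⟨k, rfl⟩ := Subgroup.mem_zpowers_iff.1 hz
        have : Commute a x := hc x hx
        exact (this.zpow_left k)
      · intro x hx
        obtain ⟨k, rfl⟩ := Subgroup.mem_zpowers_iff.1 hx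
        rw [Subgroup.mem_centralizer_iff]; intro z hz
        obtain ⟨l, rfl⟩ := Subgroup.mem_zpowers_iff.1 hz
        exact ((Commute.refl a).zpow_zpow l k)
    intro x hx y hy
    have h3 : W ⊔ Subgroup.zpowers a ≤ Subgroup.centralizer ({x} : Set X) := by
      refine sup_le (fun w hw => ?_) ?_
      · rw [Subgroup.mem_centralizer_iff]; intro z hz
        rw [Set.mem_singleton_iff] at hz; subst hz
        exact (Subgroup.mem_centralizer_iff.1 (hsub hx) w hw).symm
      · rw [Subgroup.zpowers_le, Subgroup.mem_centralizer_iff]; intro z hz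
        rw [Set.mem_singleton_iff] at hz; subst hz
        exact (Subgroup.mem_centralizer_iff.1 (hsub2 hx) a (Subgroup.mem_zpowers a)).symm
    exact (Subgroup.mem_centralizer_iff.1 (h3 hy) x rfl)
  refine ⟨⟨⟨fun x y => Subtype.ext (hcomm x.1 x.2 y.1 y.2)⟩⟩, ?_⟩
  intro x hx
  have hle : W ⊔ Subgroup.zpowers a ≤ (Subgroup.closure
      (((W ⊔ Subgroup.zpowers a : Subgroup X) : Set X) ∩ {g : X | g ^ 2 = 1})) := by
    refine sup_le (fun w hw => Subgroup.subset_closure ⟨Subgroup.mem_sup_left hw, hW.2 w hw⟩) ?_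
    rw [Subgroup.zpowers_le]
    exact Subgroup.subset_closure ⟨Subgroup.mem_sup_right (Subgroup.mem_zpowers a), ha⟩
  have : ∀ y ∈ (Subgroup.closure
      (((W ⊔ Subgroup.zpowers a : Subgroup X) : Set X) ∩ {g : X | g ^ 2 = 1})),
      y ∈ W ⊔ Subgroup.zpowers a ∧ y ^ 2 = 1 := by
    intro y hy
    induction hy using Subgroup.closure_induction with
    | mem y hy => exact ⟨hy.1, hy.2⟩
    | one => exact ⟨one_mem _, one_pow _⟩
    | mul u v _ _ hu hv =>
      refine ⟨mul_mem hu.1 hv.1, ?_⟩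
      have : Commute u v := hcomm u hu.1 v hv.1
      rw [this.mul_pow, hu.2, hv.2, one_mul]
    | inv u _ hu => exact ⟨inv_mem hu.1, by rw [inv_pow, hu.2, inv_one]⟩
  exact (this x (hle hx)).2

lemma card_ea_sup [Finite X] {W : Subgroup X} {a : X} (ha : a ^ 2 = 1) (ha1 : a ≠ 1)
    (hc : ∀ w ∈ W, a * w = w * a) (hn : a ∉ W) :
    Nat.card ↥(W ⊔ Subgroup.zpowers a) = 2 * Nat.card W := by
  have hord : orderOf a = 2 := orderOf_eq_prime ha ha1
  have hz : Nat.card (Subgroup.zpowers a) = 2 := by rw [Nat.card_zpowers, hord]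
  have hcomm : ∀ (x : W) (y : Subgroup.zpowers a), Commute (x : X) (y : X) := by
    rintro ⟨x, hx⟩ ⟨y, hy⟩
    obtain ⟨k, rfl⟩ := Subgroup.mem_zpowers_iff.1 hy
    exact (Commute.zpow_right (hc x hx).symm k)
  have hcomm' : ∀ (x : W) (y : Subgroup.zpowers a),
      Commute (W.subtype x) ((Subgroup.zpowers a).subtype y) := hcomm
  let f : W × Subgroup.zpowers a →* X := MonoidHom.noncommCoprod W.subtype (Subgroup.zpowers a).subtype
    hcomm'
  have hr : f.range = W ⊔ Subgroup.zpowers a := by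
    have := MonoidHom.noncommCoprod_range (f := W.subtype) (g := (Subgroup.zpowers a).subtype) hcomm'
    simpa only [Subgroup.range_subtype] using this
  have hinj : Function.Injective f := by
    rw [injective_iff_map_eq_one]
    rintro ⟨⟨x, hx⟩, ⟨y, hy⟩⟩ h
    have h' : x * y = 1 := h
    have hy' : y ∈ W := by
      have : y = x⁻¹ := eq_inv_of_mul_eq_one_right h'
      rw [this]; exact inv_mem hx
    have hy1 : y = 1 := by
      by_contra hne
      apply hn
      obtain ⟨k, rfl⟩ := Subgroup.mem_zpowers_iff.1 hy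
      have hk : (a ^ k) = 1 ∨ a ^ k = a := by
        have h2 : a ^ k = a ^ (k % 2) := by
          conv_lhs => rw [← Int.mul_ediv_add_emod k 2]
          rw [zpow_add, zpow_mul]
          simp [ha]
        rcases Int.emod_two_eq_zero_or_one k with h | h
        · left; rw [h2, h]; simp
        · right; rw [h2, h]; simp
      rcases hk with hk | hk
      · exact absurd hk hne
      · rwa [hk] at hy'
    subst hy1
    have hx1 : x = 1 := by simpa using h'
    subst hx1
    rfl
  have hcard : Nat.card f.range = Nat.card (W × Subgroup.zpowers a) :=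
    Nat.card_congr (Equiv.ofInjective f hinj).symm
  rw [← hr, hcard, Nat.card_prod, hz, mul_comm]

/-- The squaring-type bound. -/
lemma card_le_sq [Finite X] (U : Subgroup X) (hU : IsElementaryAbelian 2 U) (t : X) (ht : t ^ 2 = 1)
    (hn : ∀ u ∈ U, t * u * t⁻¹ ∈ U) :
    Nat.card U ≤ Nat.card ↥(U ⊓ Subgroup.centralizer ({t} : Set X)) ^ 2 := by
  have htinv : t⁻¹ = t := by
    rw [inv_eq_iff_mul_eq_one, ← pow_two, ht]
  let f : U →* U :=
    { toFun := fun u => ⟨(u : X) * (t * u * t⁻¹), mul_mem u.2 (hn u u.2)⟩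
      map_one' := by
        ext; simp
      map_mul' := by
        rintro ⟨x, hx⟩ ⟨y, hy⟩
        ext
        simp only [Subgroup.coe_mul]
        have h1 := ea_comm hU (hn x hx) hy
        calc x * y * (t * (x * y) * t⁻¹) = x * (y * (t * x * t⁻¹)) * (t * y * t⁻¹) := by group
          _ = x * ((t * x * t⁻¹) * y) * (t * y * t⁻¹) := by rw [← h1]
          _ = x * (t * x * t⁻¹) * (y * (t * y * t⁻¹)) := by group }
  have hf : ∀ u : U, (f u : X) = (u : X) * (t * u * t⁻¹) := fun u => rfl
  have h1 : f.ker.map U.subtype ≤ U ⊓ Subgroup.centralizer ({t} : Set X) := by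
    rintro _ ⟨u, hu, rfl⟩
    refine ⟨u.2, Subgroup.mem_centralizer_iff.2 ?_⟩
    intro z hz
    rw [Set.mem_singleton_iff] at hz; subst hz
    have h0 : f u = 1 := hu
    have h2 : (u : X) * (z * u * z⁻¹) = 1 := by
      have := congrArg Subtype.val h0
      simpa [hf] using this
    have h3 : (u : X) ^ 2 = 1 := hU.2 u u.2
    have h4 : z * u * z⁻¹ = (u : X)⁻¹ := eq_inv_of_mul_eq_one_right h2
    have h5 : (u : X)⁻¹ = u := by rw [inv_eq_iff_mul_eq_one, ← pow_two, h3]
    rw [h5] at h4
    show z * (u : X) = u * z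
    calc z * (u : X) = z * u * z⁻¹ * z := by group
      _ = u * z := by rw [h4]
  have h2 : f.range.map U.subtype ≤ U ⊓ Subgroup.centralizer ({t} : Set X) := by
    rintro _ ⟨_, ⟨u, rfl⟩, rfl⟩
    refine ⟨(f u).2, Subgroup.mem_centralizer_iff.2 ?_⟩
    intro z hz
    rw [Set.mem_singleton_iff] at hz; subst hz
    show z * ((f u : U) : X) = (f u : X) * z
    rw [hf]
    have hzz : z * z = 1 := by rw [← pow_two, ht]
    have hcomm : ((u : X)) * (z * u * z⁻¹) = (z * u * z⁻¹) * u := ea_comm hU u.2 (hn u u.2)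
    rw [htinv] at hcomm ⊢
    calc z * ((u : X) * (z * u * z)) = z * ((z * u * z) * u) := by rw [hcomm]
      _ = (z * z) * u * (z * u) := by group
      _ = u * (z * u) := by rw [hzz, one_mul]
      _ = (u : X) * (z * u * (z * z)) := by rw [hzz]; group
      _ = (u : X) * (z * u * z) * z := by group
  have c1 : Nat.card f.ker ≤ Nat.card ↥(U ⊓ Subgroup.centralizer ({t} : Set X)) := by
    rw [← Subgroup.card_map_of_injective (f := U.subtype) U.subtype_injective]
    exact Subgroup.card_le_of_le h1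
  have c2 : Nat.card f.range ≤ Nat.card ↥(U ⊓ Subgroup.centralizer ({t} : Set X)) := by
    rw [← Subgroup.card_map_of_injective (f := U.subtype) U.subtype_injective]
    exact Subgroup.card_le_of_le h2
  have c3 : Nat.card f.ker * Nat.card f.range = Nat.card U := by
    rw [← Subgroup.index_ker f, Subgroup.card_mul_index]
  rw [← c3, pow_two]
  exact Nat.mul_le_mul c1 c2

section two_group

variable [Finite X] (hX : IsPGroup 2 X)
include hX

/-- A subgroup of at least `2 ^ n` elements contains a subgroup of exactly `2 ^ n`. -/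
lemma exists_sub (U : Subgroup X) {n : ℕ} (h : 2 ^ n ≤ Nat.card U) :
    ∃ D : Subgroup X, D ≤ U ∧ Nat.card D = 2 ^ n := by
  have : Fact (Nat.Prime 2) := ⟨Nat.prime_two⟩
  have hU : IsPGroup 2 U := hX.to_subgroup U
  obtain ⟨K, hK⟩ := Sylow.exists_subgroup_card_pow_prime_of_le_card Nat.prime_two hU h
  refine ⟨K.map U.subtype, ?_, ?_⟩
  · rintro _ ⟨u, _, rfl⟩; exact u.2
  · rw [Subgroup.card_map_of_injective U.subtype_injective, hK]

end two_group

abbrev Rel : Subgroup X → Subgroup X → Prop :=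
  fun C D => IsElementaryAbelian 2 C ∧ Nat.card ↥C = 8 ∧ IsElementaryAbelian 2 D ∧ Nat.card ↥D = 8 ∧ ⁅C, D⁆ = ⊥

lemma rel_symm {C D : Subgroup X} (h : Rel C D) : Rel D C := by
  rcases h with ⟨a, b, c, d, e⟩
  exact ⟨c, d, a, b, by rw [Subgroup.commutator_comm]; exact e⟩

lemma rel_of_comm {C D : Subgroup X} (hC : IsElementaryAbelian 2 C) (hC8 : Nat.card ↥C = 8)
    (hD : IsElementaryAbelian 2 D) (hD8 : Nat.card ↥D = 8)
    (h : ∀ c ∈ C, ∀ d ∈ D, c * d = d * c) : Rel C D := by
  refine ⟨hC, hC8, hD, hD8, ?_⟩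
  rw [Subgroup.commutator_eq_bot_iff_le_centralizer]
  intro c hc
  rw [Subgroup.mem_centralizer_iff]
  intro d hd
  exact (h c hc d hd).symm

/-- There is a nontrivial element of `E` central in `X`. -/
lemma exists_central [Finite X] (hX : IsPGroup 2 X) (E : Subgroup X) [E.Normal]
    (hE : 32 ≤ Nat.card ↥E) : ∃ w ∈ E, w ≠ 1 ∧ ∀ x : X, x * w = w * x := by
  have hG : IsPGroup 2 (ConjAct X) := hX.of_equiv ConjAct.toConjAct
  have : Fact (Nat.Prime 2) := ⟨Nat.prime_two⟩
  have hdvd : 2 ∣ Nat.card E := by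
    obtain ⟨n, hn⟩ := IsPGroup.iff_card.1 (hX.to_subgroup E)
    rw [hn]
    refine dvd_pow_self _ ?_
    rintro rfl
    rw [hn] at hE; simp at hE
  have h1 : (1 : E) ∈ MulAction.fixedPoints (ConjAct X) E := by
    intro g; simp
  obtain ⟨b, hb, hne⟩ := hG.exists_fixed_point_of_prime_dvd_card_of_fixed_point E hdvd h1
  refine ⟨b, b.2, ?_, ?_⟩
  · intro h; apply hne; ext; exact h.symm
  · intro x
    have h2 := hb (ConjAct.toConjAct x)
    have h3 := congrArg Subtype.val h2
    rw [ConjAct.Subgroup.val_conj_smul, ConjAct.smul_def] at h3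
    simp only [ConjAct.ofConjAct_toConjAct] at h3
    calc x * b = x * b * x⁻¹ * x := by group
      _ = b * x := by rw [h3]

/-- the main counting statement for two involutions -/
lemma two_involutions [Finite X] (hX : IsPGroup 2 X) (E : Subgroup X) [hEn : E.Normal]
    (hE : IsElementaryAbelian 2 E) (hE32 : 32 ≤ Nat.card ↥E) {a b : X} (ha : a ^ 2 = 1)
    (hb : b ^ 2 = 1) (hab : a * b = b * a) :
    ∃ W : Subgroup X, Nat.card W = 4 ∧ W ≤ E ∧ W ≤ Subgroup.centralizer ({a} : Set X) ∧
      W ≤ Subgroup.centralizer ({b} : Set X) := by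
  let U1 := E ⊓ Subgroup.centralizer ({a} : Set X)
  let U2 := U1 ⊓ Subgroup.centralizer ({b} : Set X)
  have h1 : Nat.card E ≤ Nat.card U1 ^ 2 :=
    card_le_sq E hE a ha (fun u hu => hEn.conj_mem u hu a)
  have hU1 : IsElementaryAbelian 2 U1 := ea_mono hE inf_le_left
  have h2 : Nat.card U1 ≤ Nat.card U2 ^ 2 := by
    refine card_le_sq U1 hU1 b hb (fun u hu => ⟨hEn.conj_mem u hu.1 b, Subgroup.mem_centralizer_iff.2 ?_⟩)
    intro z hz
    rw [Set.mem_singleton_iff] at hz; subst hz
    have hu2 := Subgroup.mem_centralizer_iff.1 hu.2 z rfl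
    have hab' : Commute z b := hab
    have hbinv : Commute z b⁻¹ := hab'.inv_right
    calc z * (b * u * b⁻¹) = (z * b) * u * b⁻¹ := by group
      _ = b * (z * u) * b⁻¹ := by rw [hab]; group
      _ = b * (u * z) * b⁻¹ := by rw [hu2]
      _ = b * u * (z * b⁻¹) := by group
      _ = b * u * (b⁻¹ * z) := by rw [hbinv.eq]
      _ = b * u * b⁻¹ * z := by group
  have h3 : 32 ≤ Nat.card U2 ^ 4 := by
    calc 32 ≤ Nat.card E := hE32
      _ ≤ Nat.card U1 ^ 2 := h1
      _ ≤ (Nat.card U2 ^ 2) ^ 2 := Nat.pow_le_pow_left h2 2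
      _ = Nat.card U2 ^ 4 := by ring
  have h4 : 2 ^ 2 ≤ Nat.card U2 := by
    obtain ⟨n, hn⟩ := IsPGroup.iff_card.1 (hX.to_subgroup U2)
    rw [hn] at h3 ⊢
    by_contra hlt
    have hn2 : n ≤ 1 := by
      by_contra h
      exact hlt (Nat.pow_le_pow_right (by norm_num) (by omega))
    have : (2 ^ n) ^ 4 ≤ (2 ^ 1) ^ 4 :=
      Nat.pow_le_pow_left (Nat.pow_le_pow_right (by norm_num) hn2) 4
    have h16 : ((2 : ℕ) ^ 1) ^ 4 = 16 := by norm_num
    linarith
  obtain ⟨W, hW, hc⟩ := exists_sub hX U2 h4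
  exact ⟨W, by rw [hc]; norm_num, fun x hx => (hW hx).1.1, fun x hx => (hW hx).1.2, fun x hx => (hW hx).2⟩

/-- One involution gives order 8. -/
lemma one_involution [Finite X] (hX : IsPGroup 2 X) (E : Subgroup X) [hEn : E.Normal]
    (hE : IsElementaryAbelian 2 E) (hE32 : 32 ≤ Nat.card ↥E) {a : X} (ha : a ^ 2 = 1) :
    ∃ W : Subgroup X, Nat.card W = 8 ∧ W ≤ E ∧ W ≤ Subgroup.centralizer ({a} : Set X) := by
  let U1 := E ⊓ Subgroup.centralizer ({a} : Set X)
  have h1 : Nat.card E ≤ Nat.card U1 ^ 2 :=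
    card_le_sq E hE a ha (fun u hu => hEn.conj_mem u hu a)
  have h4 : 2 ^ 3 ≤ Nat.card U1 := by
    obtain ⟨n, hn⟩ := IsPGroup.iff_card.1 (hX.to_subgroup U1)
    have h3 : 32 ≤ Nat.card U1 ^ 2 := hE32.trans h1
    rw [hn] at h3 ⊢
    by_contra hlt
    have hn2 : n ≤ 2 := by
      by_contra h
      exact hlt (Nat.pow_le_pow_right (by norm_num) (by omega))
    have : (2 ^ n) ^ 2 ≤ (2 ^ 2) ^ 2 :=
      Nat.pow_le_pow_left (Nat.pow_le_pow_right (by norm_num) hn2) 2
    have h16 : ((2 : ℕ) ^ 2) ^ 2 = 16 := by norm_num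
    linarith
  obtain ⟨W, hW, hc⟩ := exists_sub hX U1 h4
  exact ⟨W, by rw [hc]; norm_num, fun x hx => (hW hx).1, fun x hx => (hW hx).2⟩

lemma comm_of_mem_centralizer_singleton {a z : X} (h : z ∈ Subgroup.centralizer ({a} : Set X)) :
    z * a = a * z := (Subgroup.mem_centralizer_iff.1 h a rfl).symm

lemma exists_not_mem [Finite X] (A W : Subgroup X) (h : Nat.card W < Nat.card A) :
    ∃ a ∈ A, a ∉ W := by
  by_contra hcon
  push Not at hcon
  have : A ≤ W := hcon
  exact absurd (Subgroup.card_le_of_le this) (by omega)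

/-- Every E8 is connected to an E8 inside E. -/
lemma connect_to_E [Finite X] (hX : IsPGroup 2 X) (E : Subgroup X) [hEn : E.Normal]
    (hE : IsElementaryAbelian 2 E) (hE32 : 32 ≤ Nat.card ↥E) (A : Subgroup X)
    (hA : IsElementaryAbelian 2 A) (hA8 : Nat.card A = 8) :
    ∃ D : Subgroup X, D ≤ E ∧ Nat.card D = 8 ∧ Relation.ReflTransGen Rel A D := by
  -- the central element
  obtain ⟨w, hwE, hw1, hwc⟩ := exists_central hX E hE32
  have hw2 : w ^ 2 = 1 := hE.2 w hwE
  -- choose a, b
  have hz1 : Nat.card (Subgroup.zpowers w) = 2 := by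
    rw [Nat.card_zpowers, orderOf_eq_prime hw2 hw1]
  obtain ⟨a, haA, hanz⟩ := exists_not_mem A (Subgroup.zpowers w) (by rw [hz1, hA8]; norm_num)
  have ha2 : a ^ 2 = 1 := hA.2 a haA
  have ha1 : a ≠ 1 := by
    rintro rfl; exact hanz (one_mem _)
  have hwa : Nat.card ↥(Subgroup.zpowers w ⊔ Subgroup.zpowers a) = 4 := by
    have := card_ea_sup (W := Subgroup.zpowers w) ha2 ha1 (by
      intro z hz
      obtain ⟨k, rfl⟩ := Subgroup.mem_zpowers_iff.1 hz
      exact (Commute.zpow_right (hwc a) k)) hanz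
    rw [this, hz1]
  obtain ⟨b, hbA, hbn⟩ := exists_not_mem A (Subgroup.zpowers w ⊔ Subgroup.zpowers a)
    (by rw [hwa, hA8]; norm_num)
  have hb2 : b ^ 2 = 1 := hA.2 b hbA
  have hb1 : b ≠ 1 := by
    rintro rfl; exact hbn (one_mem _)
  have hz2 : Nat.card (Subgroup.zpowers a) = 2 := by
    rw [Nat.card_zpowers, orderOf_eq_prime ha2 ha1]
  have hbza : b ∉ Subgroup.zpowers a := fun h => hbn (Subgroup.mem_sup_right h)
  have hab : a * b = b * a := ea_comm hA haA hbA
  have hzpa : ∀ z ∈ Subgroup.zpowers a, b * z = z * b := by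
    intro z hz
    obtain ⟨k, rfl⟩ := Subgroup.mem_zpowers_iff.1 hz
    exact (Commute.zpow_right (Commute.symm hab) k)
  have hV4 : Nat.card ↥(Subgroup.zpowers a ⊔ Subgroup.zpowers b) = 4 := by
    have := card_ea_sup (W := Subgroup.zpowers a) hb2 hb1 hzpa hbza
    rw [this, hz2]
  set V := Subgroup.zpowers a ⊔ Subgroup.zpowers b with hVdef
  have hVA : V ≤ A := sup_le ((Subgroup.zpowers_le).2 haA) ((Subgroup.zpowers_le).2 hbA)
  have hwV : w ∉ V := by
    intro hw
    have hle : Subgroup.zpowers w ⊔ Subgroup.zpowers a ≤ V :=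
      sup_le ((Subgroup.zpowers_le).2 hw) (le_sup_left)
    have heq : Subgroup.zpowers w ⊔ Subgroup.zpowers a = V :=
      Subgroup.eq_of_le_of_card_ge hle (by rw [hwa, hV4])
    apply hbn
    rw [heq]
    exact Subgroup.mem_sup_right (Subgroup.mem_zpowers b)
  have hVea : IsElementaryAbelian 2 V := ea_mono hA hVA
  have hwcV : ∀ z ∈ V, w * z = z * w := fun z _ => (hwc z).symm
  -- A1
  have hA1ea : IsElementaryAbelian 2 (V ⊔ Subgroup.zpowers w) := ea_sup hVea hw2 hwcV
  have hA1card : Nat.card ↥(V ⊔ Subgroup.zpowers w) = 8 := by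
    rw [card_ea_sup hw2 hw1 hwcV hwV, hV4]
  have hrel1 : Rel A (V ⊔ Subgroup.zpowers w) := by
    refine rel_of_comm hA hA8 hA1ea hA1card ?_
    intro c hc d hd
    have hsub : V ⊔ Subgroup.zpowers w ≤ Subgroup.centralizer ({c} : Set X) := by
      refine sup_le (fun v hv => ?_) ?_
      · rw [Subgroup.mem_centralizer_iff]; intro y hy
        rw [Set.mem_singleton_iff] at hy; subst hy
        exact ea_comm hA hc (hVA hv)
      · rw [Subgroup.zpowers_le, Subgroup.mem_centralizer_iff]; intro y hy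
        rw [Set.mem_singleton_iff] at hy; subst hy
        exact hwc y
    exact Subgroup.mem_centralizer_iff.1 (hsub hd) c rfl
  set A1 := V ⊔ Subgroup.zpowers w with hA1def
  -- W: order four inside E commuting with a, b
  obtain ⟨W, hW4, hWE, hWa, hWb⟩ := two_involutions hX E hE hE32 ha2 hb2 hab
  have hWc : W ≤ Subgroup.centralizer (A1 : Set X) := by
    intro u hu
    rw [Subgroup.mem_centralizer_iff]
    intro c hc
    have hsub : A1 ≤ Subgroup.centralizer ({u} : Set X) := by
      refine sup_le (sup_le ?_ ?_) ?_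
      · rw [Subgroup.zpowers_le, Subgroup.mem_centralizer_iff]; intro y hy
        rw [Set.mem_singleton_iff] at hy; subst hy
        exact comm_of_mem_centralizer_singleton (hWa hu)
      · rw [Subgroup.zpowers_le, Subgroup.mem_centralizer_iff]; intro y hy
        rw [Set.mem_singleton_iff] at hy; subst hy
        exact comm_of_mem_centralizer_singleton (hWb hu)
      · rw [Subgroup.zpowers_le, Subgroup.mem_centralizer_iff]; intro y hy
        rw [Set.mem_singleton_iff] at hy; subst hy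
        exact hwc y
    exact (Subgroup.mem_centralizer_iff.1 (hsub hc) u rfl).symm
  have hWea : IsElementaryAbelian 2 W := ea_mono hE hWE
  -- a' in A1 not in W
  obtain ⟨a', ha'A1, ha'W⟩ := exists_not_mem A1 W (by rw [hW4, hA1card]; norm_num)
  have ha'2 : a' ^ 2 = 1 := hA1ea.2 a' ha'A1
  have ha'1 : a' ≠ 1 := by
    rintro rfl; exact ha'W (one_mem _)
  have ha'c : ∀ u ∈ W, a' * u = u * a' := by
    intro u hu
    exact Subgroup.mem_centralizer_iff.1 (hWc hu) a' ha'A1
  have hA2ea : IsElementaryAbelian 2 (W ⊔ Subgroup.zpowers a') := ea_sup hWea ha'2 ha'c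
  have hA2card : Nat.card ↥(W ⊔ Subgroup.zpowers a') = 8 := by
    rw [card_ea_sup ha'2 ha'1 ha'c ha'W, hW4]
  have hrel2 : Rel A1 (W ⊔ Subgroup.zpowers a') := by
    refine rel_of_comm hA1ea hA1card hA2ea hA2card ?_
    intro c hc d hd
    have hsub : W ⊔ Subgroup.zpowers a' ≤ Subgroup.centralizer ({c} : Set X) := by
      refine sup_le (fun v hv => ?_) ?_
      · rw [Subgroup.mem_centralizer_iff]; intro y hy
        rw [Set.mem_singleton_iff] at hy; subst hy
        exact Subgroup.mem_centralizer_iff.1 (hWc hv) y hc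
      · rw [Subgroup.zpowers_le, Subgroup.mem_centralizer_iff]; intro y hy
        rw [Set.mem_singleton_iff] at hy; subst hy
        exact ea_comm hA1ea hc ha'A1
    exact Subgroup.mem_centralizer_iff.1 (hsub hd) c rfl
  -- D
  obtain ⟨D, hD8, hDE, hDc⟩ := one_involution hX E hE hE32 ha'2
  have hDea : IsElementaryAbelian 2 D := ea_mono hE hDE
  have hrel3 : Rel (W ⊔ Subgroup.zpowers a') D := by
    refine rel_of_comm hA2ea hA2card hDea hD8 ?_
    intro c hc d hd
    have hsub : W ⊔ Subgroup.zpowers a' ≤ Subgroup.centralizer ({d} : Set X) := by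
      refine sup_le (fun v hv => ?_) ?_
      · rw [Subgroup.mem_centralizer_iff]; intro y hy
        rw [Set.mem_singleton_iff] at hy; subst hy
        exact ea_comm hE (hDE hd) (hWE hv)
      · rw [Subgroup.zpowers_le, Subgroup.mem_centralizer_iff]; intro y hy
        rw [Set.mem_singleton_iff] at hy; subst hy
        exact (comm_of_mem_centralizer_singleton (hDc hd))
    exact (Subgroup.mem_centralizer_iff.1 (hsub hc) d rfl).symm
  exact ⟨D, hDE, hD8, .tail (.tail (.tail .refl hrel1) hrel2) hrel3⟩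

/-- Let X be a finite 2-group having a normal elementary abelian subgroup of order at least 32. Then (a) for any two elementary abelian subgroups A, B of X of order 8 there is a chain A = A₁, A₂, …, Aₙ = B of elementary abelian subgroups of order 8 in which consecutive members commute elementwise; and (b) every elementary abelian subgroup of X of order 4 is contained in an elementary abelian subgroup of order 8. -/
theorem result {X : Type*} [Group X] [Finite X]
    (hX : IsPGroup 2 X) (E : Subgroup X) [E.Normal] (hE : Cfsg.IsElementaryAbelian 2 E) (hE32 : 32 ≤ Nat.card ↥E) :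
    (∀ A B : Subgroup X, Cfsg.IsElementaryAbelian 2 A → Nat.card ↥A = 8 → Cfsg.IsElementaryAbelian 2 B → Nat.card ↥B = 8 →
        Relation.ReflTransGen
          (fun C D : Subgroup X => Cfsg.IsElementaryAbelian 2 C ∧ Nat.card ↥C = 8 ∧ Cfsg.IsElementaryAbelian 2 D ∧ Nat.card ↥D = 8 ∧ ⁅C, D⁆ = ⊥)
          A B) ∧
      (∀ V : Subgroup X, Cfsg.IsElementaryAbelian 2 V → Nat.card ↥V = 4 →
        ∃ A : Subgroup X, V ≤ A ∧ Cfsg.IsElementaryAbelian 2 A ∧ Nat.card ↥A = 8) := by
  constructor
  · intro A B hA hA8 hB hB8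
    obtain ⟨D, hDE, hD8, hAD⟩ := connect_to_E hX E hE hE32 A hA hA8
    obtain ⟨D', hDE', hD8', hBD⟩ := connect_to_E hX E hE hE32 B hB hB8
    have hmid : Rel D D' :=
      rel_of_comm (ea_mono hE hDE) hD8 (ea_mono hE hDE') hD8'
        (fun c hc d hd => ea_comm hE (hDE hc) (hDE' hd))
    have hsym : Std.Symm (Rel (X := X)) := ⟨fun _ _ h => rel_symm h⟩
    have hDB : Relation.ReflTransGen Rel D' B := Std.Symm.symm _ _ hBD
    exact (hAD.tail hmid).trans hDB
  · intro V hV hV4
    -- two generators of V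
    have hX' := hX
    have hV2 : (2 : ℕ) ^ 2 = Nat.card V := by rw [hV4]; norm_num
    -- pick generators
    obtain ⟨v1, hv1V, hv1⟩ : ∃ v ∈ V, v ≠ 1 := by
      by_contra hcon
      push Not at hcon
      have : V = ⊥ := by
        rw [eq_bot_iff]; intro x hx; simp [hcon x hx]
      rw [this] at hV4; simp at hV4
    have hv12 : v1 ^ 2 = 1 := hV.2 v1 hv1V
    have hz1 : Nat.card (Subgroup.zpowers v1) = 2 := by
      rw [Nat.card_zpowers, orderOf_eq_prime hv12 hv1]
    obtain ⟨v2, hv2V, hv2n⟩ := exists_not_mem V (Subgroup.zpowers v1) (by rw [hz1, hV4]; norm_num)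
    have hv22 : v2 ^ 2 = 1 := hV.2 v2 hv2V
    have hv21 : v2 ≠ 1 := by
      rintro rfl; exact hv2n (one_mem _)
    have hc12 : v1 * v2 = v2 * v1 := ea_comm hV hv1V hv2V
    have hV' : Subgroup.zpowers v1 ⊔ Subgroup.zpowers v2 = V := by
      refine Subgroup.eq_of_le_of_card_ge (sup_le ((Subgroup.zpowers_le).2 hv1V)
        ((Subgroup.zpowers_le).2 hv2V)) ?_
      rw [card_ea_sup hv22 hv21 (by
        intro z hz
        obtain ⟨k, rfl⟩ := Subgroup.mem_zpowers_iff.1 hz
        exact (Commute.zpow_right (Commute.symm hc12) k)) hv2n, hz1, hV4]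
    obtain ⟨W, hW4, hWE, hWa, hWb⟩ := two_involutions hX E hE hE32 hv12 hv22 hc12
    have hWc : ∀ u ∈ W, ∀ v ∈ V, v * u = u * v := by
      intro u hu v hv
      rw [← hV'] at hv
      have hsub : Subgroup.zpowers v1 ⊔ Subgroup.zpowers v2 ≤ Subgroup.centralizer ({u} : Set X) := by
        refine sup_le ?_ ?_
        · rw [Subgroup.zpowers_le, Subgroup.mem_centralizer_iff]; intro y hy
          rw [Set.mem_singleton_iff] at hy; subst hy
          exact comm_of_mem_centralizer_singleton (hWa hu)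
        · rw [Subgroup.zpowers_le, Subgroup.mem_centralizer_iff]; intro y hy
          rw [Set.mem_singleton_iff] at hy; subst hy
          exact comm_of_mem_centralizer_singleton (hWb hu)
      exact (Subgroup.mem_centralizer_iff.1 (hsub hv) u rfl).symm
    -- a point of E commuting with V outside V
    have hex : ∃ w ∈ E, w ∉ V ∧ ∀ v ∈ V, v * w = w * v := by
      by_contra hcon
      push Not at hcon
      have hWV : W ≤ V := by
        intro u hu
        by_contra huV
        obtain ⟨v, hv, hne⟩ := hcon u (hWE hu) huV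
        exact hne (hWc u hu v hv)
      have hWeq : W = V := Subgroup.eq_of_le_of_card_ge hWV (by rw [hW4, hV4])
      have hVE : V ≤ E := hWeq ▸ hWE
      obtain ⟨w, hwE, hwV⟩ := exists_not_mem E V (by rw [hV4]; omega)
      obtain ⟨v, hv, hne⟩ := hcon w hwE hwV
      exact hne (ea_comm hE (hVE hv) hwE)
    obtain ⟨w, hwE, hwV, hwc⟩ := hex
    have hw2 : w ^ 2 = 1 := hE.2 w hwE
    have hw1 : w ≠ 1 := by
      rintro rfl; exact hwV (one_mem _)
    have hwcV : ∀ z ∈ V, w * z = z * w := fun z hz => (hwc z hz).symm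
    refine ⟨V ⊔ Subgroup.zpowers w, le_sup_left, ea_sup hV hw2 hwcV, ?_⟩
    rw [card_ea_sup hw2 hw1 hwcV hwV, hV4]

end Cfsg.Agent.S1785
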