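import Cfsg.Statements.S1957
import Cfsg.Agent.Lib.Basic.PCore
import Cfsg.Agent.Lib.Coprime.Generation
import Cfsg.Agent.Lib.PGroup.Basic

set_option autoImplicit false
open Cfsg

namespace Cfsg.Agent.S1957

open Subgroup Cfsg.Agent.Lib.Basic.PCore

section aux

variable {G : Type*} [Group G] [Finite G]

/-- The normalizer of the cyclic group generated by `u`. -/
abbrev Nz (u : G) : Subgroup G := normalizer ((zpowers u : Subgroup G) : Set G)

/-- `O_2(N(⟨u⟩))`, as a subgroup of `G`. -/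
def QQ (u : G) : Subgroup G := (pCore 2 ↥(Nz u)).map (Nz u).subtype

theorem mem_Nz {u c : G} (h : c * u = u * c) : c ∈ Nz u := by
  have hc : ∀ k : ℤ, c * u ^ k * c⁻¹ = u ^ k := by
    intro k
    have : Commute c (u ^ k) := (show Commute c u from h).zpow_right k
    rw [this.eq]
    simp
  rw [mem_normalizer_iff]
  intro x
  constructor
  · rintro ⟨k, rfl⟩
    exact ⟨k, (hc k).symm⟩
  · rintro ⟨k, hk⟩
    have hk' : c * u ^ k * c⁻¹ = c * x * c⁻¹ := by
      rw [hc k]
      exact hk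
    have : u ^ k = x := by
      simpa using hk'
    exact ⟨k, this⟩

theorem mem_zpowers_two {u x : G} (hu2 : u * u = 1) (hx : x ∈ zpowers u) : x = 1 ∨ x = u := by
  obtain ⟨k, rfl⟩ := hx
  have hu2' : u ^ (2 : ℤ) = 1 := by
    rw [zpow_ofNat, pow_two, hu2]
  rcases Int.even_or_odd' k with ⟨m, rfl | rfl⟩
  · left
    change u ^ (2 * m) = 1
    rw [zpow_mul, hu2', one_zpow]
  · right
    change u ^ (2 * m + 1) = u
    rw [zpow_add, zpow_mul, hu2', one_zpow, one_mul, zpow_one]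

theorem Nz_comm {u c : G} (hu2 : u * u = 1) (hu1 : u ≠ 1) (hc : c ∈ Nz u) : c * u = u * c := by
  have h1 : c * u * c⁻¹ ∈ zpowers u := (mem_normalizer_iff.mp hc u).mp (mem_zpowers u)
  rcases mem_zpowers_two hu2 h1 with h | h
  · exfalso
    apply hu1
    have : u = c⁻¹ * (c * u * c⁻¹) * c := by group
    rw [this, h]
    group
  · calc c * u = (c * u * c⁻¹) * c := by group
      _ = u * c := by rw [h]

theorem QQ_isPGroup (u : G) : IsPGroup 2 (QQ u) := by
  haveI : Fact (Nat.Prime 2) := ⟨Nat.prime_two⟩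
  exact (pCore_isPGroup 2).map _

theorem QQ_le (u : G) : QQ u ≤ Nz u := map_subtype_le _

theorem QQ_conj {u c q : G} (hc : c ∈ Nz u) (hq : q ∈ QQ u) : c * q * c⁻¹ ∈ QQ u := by
  obtain ⟨q', hq', rfl⟩ := hq
  refine ⟨⟨c, hc⟩ * q' * (⟨c, hc⟩ : ↥(Nz u))⁻¹, ?_, rfl⟩
  exact (pCore_normal 2 ↥(Nz u)).conj_mem q' hq' _

theorem mem_QQ_of_comm (h2 : IsCharacteristicTwoType G) {u x : G} (hu1 : u ≠ 1) (hu2 : u * u = 1)
    (hx : x ∈ Nz u) (hc : ∀ q ∈ QQ u, x * q = q * x) : x ∈ QQ u := by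
  have hp : IsPGroup 2 (zpowers u) := by
    rintro ⟨_, k, rfl⟩
    refine ⟨1, ?_⟩
    apply Subtype.ext
    change (u ^ k) ^ 2 ^ 1 = 1
    rw [pow_one, ← zpow_natCast, ← zpow_mul, mul_comm, zpow_mul, zpow_natCast, pow_two, hu2,
      one_zpow]
  have hne : zpowers u ≠ ⊥ := by
    intro h
    apply hu1
    have : u ∈ zpowers u := mem_zpowers u
    rw [h] at this
    exact this
  have hchar := h2.2 (zpowers u) hp hne
  have hmem : (⟨x, hx⟩ : ↥(Nz u)) ∈ Subgroup.centralizer (pCore 2 ↥(Nz u) : Set ↥(Nz u)) := by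
    rw [mem_centralizer_iff]
    intro y hy
    apply Subtype.ext
    exact (hc y.1 ⟨y, hy, rfl⟩).symm
  exact ⟨⟨x, hx⟩, hchar hmem, rfl⟩

theorem le_QQ {u : G} {N : Subgroup G} (hN : N ≤ Nz u)
    (hn : ∀ c ∈ Nz u, ∀ n ∈ N, c * n * c⁻¹ ∈ N) (hp : IsPGroup 2 N) : N ≤ QQ u := by
  haveI : Fact (Nat.Prime 2) := ⟨Nat.prime_two⟩
  intro x hx
  have h1 : (N.subgroupOf (Nz u)).Normal := by
    refine ⟨fun y hy c => ?_⟩
    rw [mem_subgroupOf] at hy ⊢
    exact hn c c.2 y hy
  have h2 : IsPGroup 2 (N.subgroupOf (Nz u)) := by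
    refine hp.of_injective (MonoidHom.codRestrict
      ((Nz u).subtype.comp (N.subgroupOf (Nz u)).subtype) N (fun y => y.2)) ?_
    intro a b hab
    apply Subtype.ext
    apply Subtype.ext
    exact congrArg (fun z : ↥N => (z : G)) hab
  exact ⟨⟨x, hN hx⟩, le_pCore h1 h2 (mem_subgroupOf.mpr hx), rfl⟩

theorem QQ_norm_of_le {u : G} {S : Subgroup G} (hS : S ≤ Nz u) :
    S ≤ normalizer ((QQ u : Subgroup G) : Set G) := by
  intro s hs
  rw [mem_normalizer_iff'']
  intro q
  constructor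
  · intro hq
    have := QQ_conj (inv_mem (hS hs)) hq
    simpa using this
  · intro hq
    have := QQ_conj (hS hs) hq
    have e : s * (s⁻¹ * q * s) * s⁻¹ = q := by group
    rwa [e] at this

theorem QQ_le_sylow {u : G} (S : Sylow 2 G) (hS : (S : Subgroup G) ≤ Nz u) :
    QQ u ≤ (S : Subgroup G) := by
  haveI : Fact (Nat.Prime 2) := ⟨Nat.prime_two⟩
  have hp : IsPGroup 2 (QQ u ⊔ (S : Subgroup G) : Subgroup G) :=
    IsPGroup.to_sup_of_normal_left' (QQ_isPGroup u) S.isPGroup' (QQ_norm_of_le hS)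
  have := S.is_maximal' hp le_sup_right
  exact le_sup_left.trans this.le

/-- The stabilizer of the chain `Q ≥ ⟨u⟩ ≥ 1`. -/
def Stab (u : G) (hu2 : u * u = 1) : Subgroup G where
  carrier := {m | m * u = u * m ∧ ∀ q ∈ QQ u, m * q * m⁻¹ * q⁻¹ = 1 ∨ m * q * m⁻¹ * q⁻¹ = u}
  one_mem' := by
    refine ⟨by simp, fun q _ => Or.inl (by simp)⟩
  mul_mem' := by
    rintro m₁ m₂ ⟨h1, h1'⟩ ⟨h2, h2'⟩
    refine ⟨by rw [mul_assoc, h2, ← mul_assoc, h1, mul_assoc], fun q hq => ?_⟩
    have hq' : m₂ * q * m₂⁻¹ ∈ QQ u := QQ_conj (mem_Nz h2) hq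
    have e : m₁ * m₂ * q * (m₁ * m₂)⁻¹ * q⁻¹ =
        (m₁ * (m₂ * q * m₂⁻¹) * m₁⁻¹ * (m₂ * q * m₂⁻¹)⁻¹) * (m₂ * q * m₂⁻¹ * q⁻¹) := by group
    rw [e]
    rcases h1' _ hq' with a | a <;> rcases h2' q hq with b | b <;> rw [a, b]
    · left; simp
    · right; simp
    · right; simp
    · left; exact hu2
  inv_mem' := by
    rintro m ⟨h1, h1'⟩
    have hm : m⁻¹ * u = u * m⁻¹ := by
      calc m⁻¹ * u = m⁻¹ * (u * m) * m⁻¹ := by group
        _ = m⁻¹ * (m * u) * m⁻¹ := by rw [h1]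
        _ = u * m⁻¹ := by group
    refine ⟨hm, fun q hq => ?_⟩
    have hq' : m⁻¹ * q * m ∈ QQ u := by
      have := QQ_conj (mem_Nz hm) hq
      simpa using this
    have e : m * (m⁻¹ * q * m) * m⁻¹ * (m⁻¹ * q * m)⁻¹ = q * (m⁻¹ * q * m)⁻¹ := by group
    have hu' : u⁻¹ = u := inv_eq_of_mul_eq_one_left hu2
    rcases h1' _ hq' with a | a <;> rw [e] at a
    · left
      have a' : m⁻¹ * q * m = q := (mul_inv_eq_one.mp a).symm
      simp only [inv_inv]
      rw [a']
      group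
    · right
      have a' : (m⁻¹ * q * m)⁻¹ = q⁻¹ * u := by
        rw [← a]
        group
      have a'' : m⁻¹ * q * m = u * q := by
        have := congrArg (·⁻¹) a'
        simp only [inv_inv, mul_inv_rev, hu'] at this
        exact this
      simp only [inv_inv]
      rw [a'']
      group

theorem Stab_isPGroup (h2 : IsCharacteristicTwoType G) {u : G} (hu1 : u ≠ 1) (hu2 : u * u = 1) :
    IsPGroup 2 (Stab u hu2) := by
  classical
  rintro ⟨n, hn⟩
  have hpos : orderOf n ≠ 0 := (orderOf_pos n).ne'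
  obtain ⟨a, k, hk, hak⟩ := Nat.exists_eq_two_pow_mul_odd hpos
  have hy : n ^ 2 ^ a ∈ Stab u hu2 := pow_mem hn _
  set y := n ^ 2 ^ a with hydef
  have hyk : y ^ k = 1 := by
    rw [hydef, ← pow_mul, ← hak, pow_orderOf_eq_one]
  have hyu : y * u = u * y := hy.1
  have hcomm : ∀ q ∈ QQ u, y * q = q * y := by
    intro q hq
    rcases hy.2 q hq with e | e
    · calc y * q = (y * q * y⁻¹ * q⁻¹) * (q * y) := by group
        _ = q * y := by rw [e, one_mul]
    · exfalso
      have hyq : y * q * y⁻¹ = u * q := by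
        calc y * q * y⁻¹ = (y * q * y⁻¹ * q⁻¹) * q := by group
          _ = u * q := by rw [e]
      have hpow : ∀ j : ℕ, y ^ j * q * (y ^ j)⁻¹ = u ^ j * q := by
        intro j
        induction j with
        | zero => simp
        | succ j ih =>
          have hc : y * u ^ j = u ^ j * y := ((show Commute y u from hyu).pow_right j).eq
          calc y ^ (j + 1) * q * (y ^ (j + 1))⁻¹ = y * (y ^ j * q * (y ^ j)⁻¹) * y⁻¹ := by
                rw [pow_succ', mul_inv_rev]
                simp only [mul_assoc]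
            _ = y * (u ^ j * q) * y⁻¹ := by rw [ih]
            _ = u ^ j * (y * q * y⁻¹) := by
                rw [← mul_assoc y, hc]
                group
            _ = u ^ (j + 1) * q := by
                rw [hyq, pow_succ]
                group
      have h3 := hpow k
      rw [hyk] at h3
      simp only [one_mul, inv_one, mul_one] at h3
      obtain ⟨m, rfl⟩ := hk
      have h4 : u ^ (2 * m + 1) = u := by
        rw [pow_succ, pow_mul, pow_two, hu2, one_pow, one_mul]
      rw [h4] at h3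
      apply hu1
      exact (mul_eq_right.mp h3.symm)
  have hyQ : y ∈ QQ u := mem_QQ_of_comm h2 hu1 hu2 (mem_Nz hyu) hcomm
  obtain ⟨b, hb⟩ := QQ_isPGroup u ⟨y, hyQ⟩
  have hb' : y ^ 2 ^ b = 1 := congrArg Subtype.val hb
  have hy1 : y = 1 := by
    have h1 : orderOf y ∣ 2 ^ b := orderOf_dvd_of_pow_eq_one hb'
    have h3 : orderOf y ∣ k := orderOf_dvd_of_pow_eq_one hyk
    have hcop : Nat.Coprime (2 ^ b) k := Nat.Coprime.pow_left b (Nat.coprime_two_left.mpr hk)
    have h4 : orderOf y ∣ 1 := by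
      have := Nat.dvd_gcd h1 h3
      rwa [hcop] at this
    exact orderOf_eq_one_iff.mp (Nat.dvd_one.mp h4)
  refine ⟨a, ?_⟩
  apply Subtype.ext
  exact hy1

theorem Stab_le_QQ (h2 : IsCharacteristicTwoType G) {u : G} (hu1 : u ≠ 1) (hu2 : u * u = 1) :
    Stab u hu2 ≤ QQ u := by
  refine le_QQ (fun m hm => mem_Nz hm.1) ?_ (Stab_isPGroup h2 hu1 hu2)
  rintro c hc n ⟨h1, h1'⟩
  have hcu : c * u = u * c := Nz_comm hu2 hu1 hc
  have hcu' : c⁻¹ * u = u * c⁻¹ := by
    calc c⁻¹ * u = c⁻¹ * (u * c) * c⁻¹ := by group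
      _ = c⁻¹ * (c * u) * c⁻¹ := by rw [hcu]
      _ = u * c⁻¹ := by group
  refine ⟨?_, fun q hq => ?_⟩
  · calc c * n * c⁻¹ * u = c * n * (c⁻¹ * u) := by group
      _ = c * n * (u * c⁻¹) := by rw [hcu']
      _ = c * (n * u) * c⁻¹ := by group
      _ = c * (u * n) * c⁻¹ := by rw [h1]
      _ = (c * u) * n * c⁻¹ := by group
      _ = (u * c) * n * c⁻¹ := by rw [hcu]
      _ = u * (c * n * c⁻¹) := by group
  · have hq' : c⁻¹ * q * c ∈ QQ u := by
      have := QQ_conj (inv_mem hc) hq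
      simpa using this
    have e : c * n * c⁻¹ * q * (c * n * c⁻¹)⁻¹ * q⁻¹ =
        c * (n * (c⁻¹ * q * c) * n⁻¹ * (c⁻¹ * q * c)⁻¹) * c⁻¹ := by group
    rw [e]
    rcases h1' _ hq' with a | a <;> rw [a]
    · left; simp
    · right
      calc c * u * c⁻¹ = u * c * c⁻¹ := by rw [hcu]
        _ = u := by group

theorem four_sq {U : Subgroup G} (hU4 : IsKleinFour ↥U) {x : G} (hx : x ∈ U) : x * x = 1 := by
  have h := Monoid.pow_exponent_eq_one (⟨x, hx⟩ : ↥U)
  rw [IsKleinFour.exponent_two, pow_two] at h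
  exact congrArg Subtype.val h

theorem four_comm {U : Subgroup G} (hU4 : IsKleinFour ↥U) {x y : G} (hx : x ∈ U) (hy : y ∈ U) :
    x * y = y * x := by
  have h1 := four_sq hU4 hx
  have h2 := four_sq hU4 hy
  have h3 := four_sq hU4 (mul_mem hx hy)
  calc x * y = x * (x * y * (x * y)) * y := by rw [h3]; group
    _ = (x * x) * y * x * (y * y) := by group
    _ = y * x := by rw [h1, h2]; group

theorem klein_elements {U : Subgroup G} (hU4 : IsKleinFour ↥U) {u w : G} (hu : u ∈ U) (hw : w ∈ U)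
    (hu1 : u ≠ 1) (hw1 : w ≠ 1) (huw : u ≠ w) {x : G} (hx : x ∈ U) :
    x = 1 ∨ x = u ∨ x = w ∨ x = u * w := by
  classical
  have hsq := four_sq hU4 hu
  have h1 : u * w ≠ 1 := by
    intro h
    apply huw
    calc u = u * (w * w) := by rw [four_sq hU4 hw, mul_one]
      _ = (u * w) * w := by group
      _ = w := by rw [h, one_mul]
  have h2 : u * w ≠ u := fun h => hw1 (mul_eq_left.mp h)
  have h3 : u * w ≠ w := fun h => hu1 (mul_eq_right.mp h)
  let s : Finset G := {1, u, w, u * w}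
  have hcard : s.card = 4 := by
    simp only [s]
    rw [Finset.card_insert_of_notMem, Finset.card_insert_of_notMem, Finset.card_insert_of_notMem,
      Finset.card_singleton]
    · simp [h3.symm]
    · simp [huw, h2.symm]
    · simp [hu1.symm, hw1.symm, h1.symm]
  have hsub : (s : Set G) ⊆ (U : Set G) := by
    intro y hy
    simp only [s, Finset.coe_insert, Finset.coe_singleton, Set.mem_insert_iff,
      Set.mem_singleton_iff] at hy
    rcases hy with rfl | rfl | rfl | rfl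
    · exact one_mem _
    · exact hu
    · exact hw
    · exact mul_mem hu hw
  have hcardU : (U : Set G).ncard = 4 := by
    have := Nat.card_coe_set_eq (U : Set G)
    rw [← this]
    exact IsKleinFour.card_four
  have heq : (s : Set G) = (U : Set G) := by
    refine Set.eq_of_subset_of_ncard_le hsub ?_ (Set.toFinite _)
    rw [hcardU, Set.ncard_coe_finset, hcard]
  have hxs : x ∈ (s : Set G) := by
    rw [heq]
    exact hx
  simpa only [s, Finset.coe_insert, Finset.coe_singleton, Set.mem_insert_iff,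
    Set.mem_singleton_iff] using hxs

theorem inv_inv_of_four {U : Subgroup G} (hU4 : IsKleinFour ↥U) {x : G} (hx : x ∈ U) : x⁻¹ = x :=
  inv_eq_of_mul_eq_one_left (four_sq hU4 hx)

/-- A four-group normal in a Sylow subgroup centralizing its element `u` lies in `O_2(C(u))`. -/
theorem four_le_QQ (h2 : IsCharacteristicTwoType G) (S : Sylow 2 G) {U : Subgroup G}
    (hU4 : IsKleinFour ↥U) (hSU : ∀ s ∈ (S : Subgroup G), ∀ x ∈ U, s * x * s⁻¹ ∈ U) {u : G}
    (hu : u ∈ U) (hu1 : u ≠ 1) (huS : ∀ s ∈ (S : Subgroup G), s * u = u * s) : U ≤ QQ u := by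
  have hu2 := four_sq hU4 hu
  have hS : (S : Subgroup G) ≤ Nz u := fun s hs => mem_Nz (huS s hs)
  have hQS := QQ_le_sylow S hS
  intro w hw
  apply Stab_le_QQ h2 hu1 hu2
  refine ⟨four_comm hU4 hw hu, fun q hq => ?_⟩
  have hqS := hQS hq
  have hqu := huS q hqS
  by_cases hw1 : w = 1
  · left
    subst hw1
    simp
  by_cases hwu : w = u
  · left
    subst hwu
    have : w * q = q * w := hqu.symm
    rw [this]
    group
  have hqw : q * w * q⁻¹ ∈ U := hSU q hqS w hw
  have e0 : w * q * w⁻¹ * q⁻¹ = w * (q * w * q⁻¹)⁻¹ := by group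
  rw [e0]
  have hw' : u ≠ w := fun h => hwu h.symm
  rcases klein_elements hU4 hu hw hu1 hw1 hw' hqw with a | a | a | a
  · exfalso
    apply hw1
    have : w = q⁻¹ * (q * w * q⁻¹) * q := by group
    rw [this, a]
    group
  · exfalso
    apply hwu
    have : w = q⁻¹ * (q * w * q⁻¹) * q := by group
    rw [this, a]
    calc q⁻¹ * u * q = q⁻¹ * (u * q) := by group
      _ = q⁻¹ * (q * u) := by rw [hqu]
      _ = u := by group
  · left
    rw [a]
    group
  · right
    rw [a, mul_inv_rev, inv_inv_of_four hU4 hw, inv_inv_of_four hU4 hu]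
    calc w * (w * u) = (w * w) * u := by group
      _ = u := by rw [four_sq hU4 hw, one_mul]

end aux

section noncentral

variable {G : Type*} [Group G] [Finite G]

/-- Data for the non-central case. -/
structure NC (P : Sylow 2 G) (U : Subgroup G) (z u : G) : Prop where
  hU4 : IsKleinFour ↥U
  hUP : U ≤ (P : Subgroup G)
  hUn : ∀ p ∈ (P : Subgroup G), ∀ x ∈ U, p * x * p⁻¹ ∈ U
  hcyc : IsCyclic ↥((P : Subgroup G) ⊓ Subgroup.centralizer ((P : Subgroup G) : Set G))
  hz : z ∈ U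
  hz1 : z ≠ 1
  hzP : ∀ p ∈ (P : Subgroup G), p * z = z * p
  hu : u ∈ U
  hu1 : u ≠ 1
  hzu : z ≠ u

/-- The centralizer of `u` in `P`. -/
abbrev Pu (P : Sylow 2 G) (u : G) : Subgroup G := (P : Subgroup G) ⊓ centralizer ({u} : Set G)

theorem mem_Pu {P : Sylow 2 G} {u c : G} : c ∈ Pu P u ↔ c ∈ (P : Subgroup G) ∧ c * u = u * c := by
  rw [mem_inf, mem_centralizer_singleton_iff]

namespace NC

variable {P : Sylow 2 G} {U : Subgroup G} {z u : G}

theorem zsq (h : NC P U z u) : z * z = 1 := four_sq h.hU4 h.hz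

theorem usq (h : NC P U z u) : u * u = 1 := four_sq h.hU4 h.hu

theorem elems (h : NC P U z u) {x : G} (hx : x ∈ U) : x = 1 ∨ x = z ∨ x = u ∨ x = z * u :=
  klein_elements h.hU4 h.hz h.hu h.hz1 h.hu1 h.hzu hx

theorem conj_u (h : NC P U z u) {p : G} (hp : p ∈ (P : Subgroup G)) :
    p * u * p⁻¹ = u ∨ p * u * p⁻¹ = z * u := by
  have h1 : p * u * p⁻¹ ∈ U := h.hUn p hp u h.hu
  rcases h.elems h1 with a | a | a | a
  · exfalso
    apply h.hu1
    have : u = p⁻¹ * (p * u * p⁻¹) * p := by group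
    rw [this, a]
    group
  · exfalso
    apply h.hzu
    have : u = p⁻¹ * (p * u * p⁻¹) * p := by group
    rw [this, a]
    have hpz := h.hzP p hp
    calc z = p⁻¹ * (p * z) := by group
      _ = p⁻¹ * (z * p) := by rw [hpz]
      _ = p⁻¹ * z * p := by group
  · exact Or.inl a
  · exact Or.inr a

theorem dich (h : NC P U z u) {τ p : G} (hτ : τ ∈ (P : Subgroup G)) (hτu : τ * u ≠ u * τ)
    (hp : p ∈ (P : Subgroup G)) : p ∈ Pu P u ∨ τ⁻¹ * p ∈ Pu P u := by
  have hτ' : τ * u * τ⁻¹ = z * u := by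
    rcases h.conj_u hτ with a | a
    · exfalso
      apply hτu
      calc τ * u = (τ * u * τ⁻¹) * τ := by group
        _ = u * τ := by rw [a]
    · exact a
  rcases h.conj_u hp with a | a
  · left
    refine mem_Pu.mpr ⟨hp, ?_⟩
    calc p * u = (p * u * p⁻¹) * p := by group
      _ = u * p := by rw [a]
  · right
    refine mem_Pu.mpr ⟨mul_mem (inv_mem hτ) hp, ?_⟩
    have e : p * u * p⁻¹ = τ * u * τ⁻¹ := by rw [a, hτ']
    calc τ⁻¹ * p * u = τ⁻¹ * (p * u * p⁻¹) * p := by group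
      _ = τ⁻¹ * (τ * u * τ⁻¹) * p := by rw [e]
      _ = u * (τ⁻¹ * p) := by group

theorem comm_Pu (h : NC P U z u) {c x : G} (hc : c ∈ Pu P u) (hx : x ∈ U) : c * x = x * c := by
  obtain ⟨hc1, hc2⟩ := mem_Pu.mp hc
  have hcz := h.hzP c hc1
  rcases h.elems hx with rfl | rfl | rfl | rfl
  · group
  · exact hcz
  · exact hc2
  · rw [← mul_assoc, hcz, mul_assoc, hc2, mul_assoc]

theorem U_le_Pu (h : NC P U z u) {x : G} (hx : x ∈ U) : x ∈ Pu P u :=
  mem_Pu.mpr ⟨h.hUP hx, four_comm h.hU4 hx h.hu⟩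

theorem P_norm (h : NC P U z u) {p c : G} (hp : p ∈ (P : Subgroup G)) (hc : c ∈ Pu P u) :
    p * c * p⁻¹ ∈ Pu P u := by
  obtain ⟨hc1, hc2⟩ := mem_Pu.mp hc
  refine mem_Pu.mpr ⟨mul_mem (mul_mem hp hc1) (inv_mem hp), ?_⟩
  have hv : p⁻¹ * u * p ∈ U := by
    have := h.hUn p⁻¹ (inv_mem hp) u h.hu
    simpa using this
  have e := h.comm_Pu hc hv
  calc p * c * p⁻¹ * u = p * (c * (p⁻¹ * u * p)) * p⁻¹ := by group
    _ = p * ((p⁻¹ * u * p) * c) * p⁻¹ := by rw [e]
    _ = u * (p * c * p⁻¹) := by group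

theorem central_two (h : NC P U z u) {x : G} (hx : x ∈ (P : Subgroup G))
    (hxP : ∀ p ∈ (P : Subgroup G), p * x = x * p) (hx2 : x * x = 1) : x = 1 ∨ x = z := by
  classical
  by_contra hcon
  push Not at hcon
  obtain ⟨hx1, hxz⟩ := hcon
  set Zc : Subgroup G := (P : Subgroup G) ⊓ Subgroup.centralizer ((P : Subgroup G) : Set G) with hZc
  have hxZ : x ∈ Zc := mem_inf.mpr ⟨hx, mem_centralizer_iff.mpr fun p hp => hxP p hp⟩
  have hzZ : z ∈ Zc := mem_inf.mpr ⟨h.hUP h.hz, mem_centralizer_iff.mpr fun p hp => h.hzP p hp⟩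
  haveI := h.hcyc
  haveI : Fintype ↥Zc := Fintype.ofFinite _
  have hc := IsCyclic.card_pow_eq_one_le (α := ↥Zc) (n := 2) (by norm_num)
  have hsub : ({1, ⟨x, hxZ⟩, ⟨z, hzZ⟩} : Finset ↥Zc) ⊆
      Finset.filter (fun a : ↥Zc => a ^ 2 = 1) Finset.univ := by
    intro a ha
    simp only [Finset.mem_insert, Finset.mem_singleton] at ha
    simp only [Finset.mem_filter, Finset.mem_univ, true_and]
    rcases ha with rfl | rfl | rfl
    · simp
    · apply Subtype.ext
      simpa [pow_two] using hx2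
    · apply Subtype.ext
      simpa [pow_two] using h.zsq
  have hcard : ({1, ⟨x, hxZ⟩, ⟨z, hzZ⟩} : Finset ↥Zc).card = 3 := by
    rw [Finset.card_insert_of_notMem, Finset.card_insert_of_notMem, Finset.card_singleton]
    · simp only [Finset.mem_singleton, Subtype.mk.injEq]
      exact hxz
    · simp only [Finset.mem_insert, Finset.mem_singleton, not_or]
      constructor
      · intro e
        exact hx1 (congrArg Subtype.val e).symm
      · intro e
        exact h.hz1 (congrArg Subtype.val e).symm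
  have := Finset.card_le_card hsub
  omega

theorem central_of (h : NC P U z u) {τ w : G} (hτ : τ ∈ (P : Subgroup G)) (hτu : τ * u ≠ u * τ)
    (hw : w ∈ Pu P u) (hwc : ∀ c ∈ Pu P u, c * w = w * c) (hτw : τ * w = w * τ) :
    ∀ p ∈ (P : Subgroup G), p * w = w * p := by
  intro p hp
  rcases h.dich hτ hτu hp with a | a
  · exact hwc p a
  · have e := hwc _ a
    calc p * w = τ * ((τ⁻¹ * p) * w) := by group
      _ = τ * (w * (τ⁻¹ * p)) := by rw [e]
      _ = (τ * w) * (τ⁻¹ * p) := by group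
      _ = (w * τ) * (τ⁻¹ * p) := by rw [hτw]
      _ = w * p := by group

/-- `Ω₁(Z(C_P(u))) = U`. -/
theorem key_A (h : NC P U z u) {τ x : G} (hτ : τ ∈ (P : Subgroup G)) (hτu : τ * u ≠ u * τ)
    (hx : x ∈ Pu P u) (hx2 : x * x = 1) (hxc : ∀ c ∈ Pu P u, c * x = x * c) : x ∈ U := by
  have hτ' : τ * u * τ⁻¹ = z * u := by
    rcases h.conj_u hτ with a | a
    · exfalso
      apply hτu
      calc τ * u = (τ * u * τ⁻¹) * τ := by group
        _ = u * τ := by rw [a]
    · exact a
  have hτz : τ * z * τ⁻¹ = z := by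
    rw [h.hzP τ hτ]
    group
  have huPu := h.U_le_Pu h.hu
  have hzPu := h.U_le_Pu h.hz
  have hzu' : z * u = u * z := four_comm h.hU4 h.hz h.hu
  -- `τ²` centralizes `u`
  have hτ2 : τ * τ ∈ Pu P u := by
    refine mem_Pu.mpr ⟨mul_mem hτ hτ, ?_⟩
    have e : τ * τ * u * (τ * τ)⁻¹ = u := by
      calc τ * τ * u * (τ * τ)⁻¹ = τ * (τ * u * τ⁻¹) * τ⁻¹ := by group
        _ = τ * (z * u) * τ⁻¹ := by rw [hτ']
        _ = (τ * z * τ⁻¹) * (τ * u * τ⁻¹) := by group
        _ = z * (z * u) := by rw [hτz, hτ']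
        _ = (z * z) * u := by group
        _ = u := by rw [h.zsq, one_mul]
    calc τ * τ * u = (τ * τ * u * (τ * τ)⁻¹) * (τ * τ) := by group
      _ = u * (τ * τ) := by rw [e]
  set x' := τ * x * τ⁻¹ with hx'
  have hx'Pu : x' ∈ Pu P u := h.P_norm hτ hx
  have hx'2 : x' * x' = 1 := by
    calc x' * x' = τ * (x * x) * τ⁻¹ := by rw [hx']; group
      _ = 1 := by rw [hx2]; group
  have hx'c : ∀ c ∈ Pu P u, c * x' = x' * c := by
    intro c hc
    have hc' : τ⁻¹ * c * τ ∈ Pu P u := by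
      have := h.P_norm (inv_mem hτ) hc
      simpa using this
    have e := hxc _ hc'
    calc c * x' = τ * ((τ⁻¹ * c * τ) * x) * τ⁻¹ := by rw [hx']; group
      _ = τ * (x * (τ⁻¹ * c * τ)) * τ⁻¹ := by rw [e]
      _ = x' * c := by rw [hx']; group
  set y := x * x' with hy
  have hyPu : y ∈ Pu P u := mul_mem hx hx'Pu
  have hyc : ∀ c ∈ Pu P u, c * y = y * c := by
    intro c hc
    calc c * y = (c * x) * x' := by rw [hy]; group
      _ = x * (c * x') := by rw [hxc c hc]; group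
      _ = y * c := by rw [hx'c c hc, hy]; group
  have hy2 : y * y = 1 := by
    calc y * y = x * (x' * x) * x' := by rw [hy]; group
      _ = x * (x * x') * x' := by rw [hxc x' hx'Pu]
      _ = (x * x) * (x' * x') := by group
      _ = 1 := by rw [hx2, hx'2, one_mul]
  have hτx' : τ * x' * τ⁻¹ = x := by
    have e := hxc _ hτ2
    calc τ * x' * τ⁻¹ = (τ * τ) * x * (τ * τ)⁻¹ := by rw [hx']; group
      _ = x * (τ * τ) * (τ * τ)⁻¹ := by rw [e]
      _ = x := by group
  have hτy : τ * y = y * τ := by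
    have e : τ * y * τ⁻¹ = y := by
      calc τ * y * τ⁻¹ = (τ * x * τ⁻¹) * (τ * x' * τ⁻¹) := by rw [hy]; group
        _ = x' * x := by rw [hτx']
        _ = y := hxc x' hx'Pu
    calc τ * y = (τ * y * τ⁻¹) * τ := by group
      _ = y * τ := by rw [e]
  have hyP := h.central_of hτ hτu hyPu hyc hτy
  rcases h.central_two (mem_Pu.mp hyPu).1 hyP hy2 with e | e
  · -- `x' = x`
    have hxe : x' = x := by
      have : x * x' = 1 := e
      calc x' = x * (x * x') := by rw [← mul_assoc, hx2, one_mul]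
        _ = x := by rw [this, mul_one]
    have hτx : τ * x = x * τ := by
      calc τ * x = x' * τ := by rw [hx']; group
        _ = x * τ := by rw [hxe]
    have hxP := h.central_of hτ hτu hx hxc hτx
    rcases h.central_two (mem_Pu.mp hx).1 hxP hx2 with a | a
    · rw [a]; exact one_mem _
    · rw [a]; exact h.hz
  · -- `x' = x z`
    have hxe : x' = x * z := by
      have : x * x' = z := e
      calc x' = x * (x * x') := by rw [← mul_assoc, hx2, one_mul]
        _ = x * z := by rw [this]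
    set w := x * u with hwdef
    have hwPu : w ∈ Pu P u := mul_mem hx huPu
    have hwc : ∀ c ∈ Pu P u, c * w = w * c := by
      intro c hc
      have e2 := h.comm_Pu hc h.hu
      calc c * w = (c * x) * u := by rw [hwdef]; group
        _ = x * (c * u) := by rw [hxc c hc]; group
        _ = w * c := by rw [e2, hwdef]; group
    have hw2 : w * w = 1 := by
      have e2 := hxc u huPu
      calc w * w = x * (u * x) * u := by rw [hwdef]; group
        _ = x * (x * u) * u := by rw [e2]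
        _ = (x * x) * (u * u) := by group
        _ = 1 := by rw [hx2, h.usq, one_mul]
    have hτw : τ * w = w * τ := by
      have e3 : τ * w * τ⁻¹ = w := by
        calc τ * w * τ⁻¹ = x' * (τ * u * τ⁻¹) := by rw [hwdef, hx']; group
          _ = (x * z) * (z * u) := by rw [hxe, hτ']
          _ = x * (z * z) * u := by group
          _ = w := by rw [h.zsq, mul_one]
      calc τ * w = (τ * w * τ⁻¹) * τ := by group
        _ = w * τ := by rw [e3]
    have hwP := h.central_of hτ hτu hwPu hwc hτw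
    have hxw : x = w * u := by
      calc x = x * (u * u) := by rw [h.usq, mul_one]
        _ = w * u := by rw [hwdef]; group
    rcases h.central_two (mem_Pu.mp hwPu).1 hwP hw2 with a | a
    · rw [hxw, a, one_mul]
      exact h.hu
    · rw [hxw, a]
      exact mul_mem h.hz h.hu

theorem norm_U (h : NC P U z u) {τ l : G} (hτ : τ ∈ (P : Subgroup G)) (hτu : τ * u ≠ u * τ)
    (hl : l ∈ normalizer ((Pu P u : Subgroup G) : Set G)) {x : G} (hx : x ∈ U) :
    l * x * l⁻¹ ∈ U := by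
  have hxPu := h.U_le_Pu hx
  refine h.key_A hτ hτu ?_ ?_ ?_
  · exact (mem_normalizer_iff.mp hl x).mp hxPu
  · calc l * x * l⁻¹ * (l * x * l⁻¹) = l * (x * x) * l⁻¹ := by group
      _ = 1 := by rw [four_sq h.hU4 hx]; group
  · intro c hc
    have hc' : l⁻¹ * c * l ∈ Pu P u := by
      have := (mem_normalizer_iff.mp (inv_mem hl) c).mp hc
      simpa using this
    have e := h.comm_Pu hc' hx
    calc c * (l * x * l⁻¹) = l * ((l⁻¹ * c * l) * x) * l⁻¹ := by group
      _ = l * (x * (l⁻¹ * c * l)) * l⁻¹ := by rw [e]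
      _ = l * x * l⁻¹ * c := by group

/-- The main step: `z ∈ O_2(C(u))`. -/
theorem z_mem_QQ (h2 : IsCharacteristicTwoType G) (h : NC P U z u) {τ : G}
    (hτ : τ ∈ (P : Subgroup G)) (hτu : τ * u ≠ u * τ) : z ∈ QQ u := by
  classical
  haveI hf : Fact (Nat.Prime 2) := ⟨Nat.prime_two⟩
  have hu2 := h.usq
  by_cases hQ : QQ u ≤ Pu P u
  · refine mem_QQ_of_comm h2 h.hu1 hu2 (mem_Nz (four_comm h.hU4 h.hz h.hu)) ?_
    intro q hq
    exact (h.hzP q (mem_Pu.mp (hQ hq)).1).symm
  -- normalizer growth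
  have hPuN : Pu P u ≤ Nz u := fun c hc => mem_Nz (mem_Pu.mp hc).2
  have hPup : IsPGroup 2 (Pu P u) := P.isPGroup'.to_le inf_le_left
  have hT : IsPGroup 2 (QQ u ⊔ Pu P u : Subgroup G) :=
    IsPGroup.to_sup_of_normal_left' (QQ_isPGroup u) hPup (QQ_norm_of_le hPuN)
  have hlt : Pu P u < QQ u ⊔ Pu P u := by
    refine lt_of_le_of_ne le_sup_right ?_
    intro e
    apply hQ
    rw [e]
    exact le_sup_left
  obtain ⟨y, hyT, hyPu, hyN⟩ := Cfsg.Agent.Lib.PGroup.Basic.exists_mem_normalizer_of_lt hT hlt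
  have hyNz : y ∈ Nz u := (sup_le (QQ_le u) hPuN) hyT
  have hyu : y * u = u * y := Nz_comm hu2 h.hu1 hyNz
  obtain ⟨k, hk⟩ := hT ⟨y, hyT⟩
  have hk' : y ^ 2 ^ k = 1 := congrArg Subtype.val hk
  -- Sylow in the normalizer of `Pu`
  set L : Subgroup G := normalizer ((Pu P u : Subgroup G) : Set G) with hL
  have hPL : (P : Subgroup G) ≤ L := fun p hp =>
    Cfsg.Agent.Lib.Coprime.Three.mem_normalizer_of_conj_mem (fun c hc => h.P_norm hp hc)
  have hY : IsPGroup 2 (zpowers (⟨y, hyN⟩ : ↥L)) := by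
    rintro ⟨_, j, rfl⟩
    refine ⟨k, ?_⟩
    apply Subtype.ext
    apply Subtype.ext
    change (y ^ j) ^ 2 ^ k = 1
    rw [← zpow_natCast, ← zpow_mul, mul_comm, zpow_mul, zpow_natCast, hk', one_zpow]
  obtain ⟨S, hS⟩ := hY.exists_le_sylow
  obtain ⟨l, hl⟩ := MulAction.exists_smul_eq ↥L (P.subtype hPL) S
  have hyS : (⟨y, hyN⟩ : ↥L) ∈ ((l • P.subtype hPL : Sylow 2 ↥L) : Subgroup ↥L) := by
    rw [hl]
    exact hS (mem_zpowers _)
  rw [Sylow.coe_subgroup_smul, Subgroup.mem_pointwise_smul_iff_inv_smul_mem, Sylow.coe_subtype,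
    mem_subgroupOf] at hyS
  have hy' : (l : G)⁻¹ * y * (l : G) ∈ (P : Subgroup G) := by
    simpa [MulAut.smul_def, MulAut.conj_inv_apply] using hyS
  have hlN : (l : G) ∈ L := l.2
  set y' := (l : G)⁻¹ * y * (l : G) with hy'def
  have hy'u : y' * u ≠ u * y' := by
    intro e
    apply hyPu
    have h1 : y' ∈ Pu P u := mem_Pu.mpr ⟨hy', e⟩
    have h2' := (mem_normalizer_iff.mp hlN y').mp h1
    have e2 : (l : G) * y' * (l : G)⁻¹ = y := by
      rw [hy'def]
      group
    rwa [e2] at h2'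
  -- the conjugate Sylow subgroup
  let S' : Sylow 2 G := (l : G) • P
  have hmemS' : ∀ s ∈ (S' : Subgroup G), (l : G)⁻¹ * s * (l : G) ∈ (P : Subgroup G) := by
    intro s hs
    have hs' := hs
    change s ∈ (((l : G) • P : Sylow 2 G) : Subgroup G) at hs'
    rw [Sylow.coe_subgroup_smul, Subgroup.mem_pointwise_smul_iff_inv_smul_mem] at hs'
    simpa [MulAut.smul_def, MulAut.conj_inv_apply] using hs'
  have hS'u : ∀ s ∈ (S' : Subgroup G), s * u = u * s := by
    intro s hs
    have hp := hmemS' s hs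
    have es : s = (l : G) * ((l : G)⁻¹ * s * (l : G)) * (l : G)⁻¹ := by group
    rcases h.dich hy' hy'u hp with a | a
    · have h3 := (mem_normalizer_iff.mp hlN _).mp a
      rw [← es] at h3
      exact (mem_Pu.mp h3).2
    · have h3 := (mem_normalizer_iff.mp hlN _).mp a
      have es' : s = y * ((l : G) * (y'⁻¹ * ((l : G)⁻¹ * s * (l : G))) * (l : G)⁻¹) := by
        rw [hy'def]
        group
      have h4 := (mem_Pu.mp h3).2
      rw [es']
      calc y * ((l : G) * (y'⁻¹ * ((l : G)⁻¹ * s * (l : G))) * (l : G)⁻¹) * u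
          = y * (((l : G) * (y'⁻¹ * ((l : G)⁻¹ * s * (l : G))) * (l : G)⁻¹) * u) := by group
        _ = y * (u * ((l : G) * (y'⁻¹ * ((l : G)⁻¹ * s * (l : G))) * (l : G)⁻¹)) := by rw [h4]
        _ = (y * u) * ((l : G) * (y'⁻¹ * ((l : G)⁻¹ * s * (l : G))) * (l : G)⁻¹) := by group
        _ = (u * y) * ((l : G) * (y'⁻¹ * ((l : G)⁻¹ * s * (l : G))) * (l : G)⁻¹) := by rw [hyu]
        _ = u * (y * ((l : G) * (y'⁻¹ * ((l : G)⁻¹ * s * (l : G))) * (l : G)⁻¹)) := by group
  have hS'U : ∀ s ∈ (S' : Subgroup G), ∀ x ∈ U, s * x * s⁻¹ ∈ U := by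
    intro s hs x hx
    have hp := hmemS' s hs
    have h1 : (l : G)⁻¹ * x * (l : G) ∈ U := by
      have := h.norm_U hτ hτu (inv_mem hlN) hx
      simpa using this
    have h3 := h.hUn _ hp _ h1
    have h4 := h.norm_U hτ hτu hlN h3
    have e : (l : G) * ((l : G)⁻¹ * s * (l : G) * ((l : G)⁻¹ * x * (l : G)) *
        ((l : G)⁻¹ * s * (l : G))⁻¹) * (l : G)⁻¹ = s * x * s⁻¹ := by group
    rwa [e] at h4
  exact four_le_QQ h2 S' h.hU4 hS'U h.hu h.hu1 hS'u h.hz

end NC

end noncentral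

/-- Let `G` be a finite non-abelian simple group in which every local subgroup is solvable and which is of characteristic 2 type. Let `P` be a Sylow 2-subgroup of `G` and `U` a normal subgroup of `P` that is a four-group, with `U` central in `P` if the centre of `P` is not cyclic. Then `U` centralizes every subgroup of odd order of `G` that it normalizes. -/
theorem result {G : Type*} [Group G] [Finite G]
    [IsSimpleGroup G] (hna : ¬ IsMulCommutative G) (hN : Cfsg.IsNGroup G) (h2 : Cfsg.IsCharacteristicTwoType G)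
    (P : Sylow 2 G) (U : Subgroup G) (hUP : U ≤ (P : Subgroup G)) (hUn : (P : Subgroup G) ≤ Subgroup.normalizer (U : Set G))
    (hU4 : IsKleinFour ↥U)
    (hUZ : ¬ IsCyclic ↥((P : Subgroup G) ⊓ Subgroup.centralizer ((P : Subgroup G) : Set G)) →
      U ≤ Subgroup.centralizer ((P : Subgroup G) : Set G))
    (K : Subgroup G) (hK : Odd (Nat.card K)) (hUK : U ≤ Subgroup.normalizer (K : Set G)) :
    U ≤ Subgroup.centralizer (K : Set G) := by
  classical
  haveI hf : Fact (Nat.Prime 2) := ⟨Nat.prime_two⟩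
  have hUn' : ∀ p ∈ (P : Subgroup G), ∀ x ∈ U, p * x * p⁻¹ ∈ U := fun p hp x hx =>
    (mem_normalizer_iff.mp (hUn hp) x).mp hx
  have hconcl : ∀ {u d w : G}, w ∈ QQ u → d ∈ K → d * u = u * d → w ∈ U → d * w = w * d := by
    intro u d w hwQ hd hdu hwU
    set c := d * w * d⁻¹ * w⁻¹ with hc
    have h1 : c ∈ QQ u := mul_mem (QQ_conj (mem_Nz hdu) hwQ) (inv_mem hwQ)
    have h2' : c ∈ K := by
      have h3 : w * d⁻¹ * w⁻¹ ∈ K := (mem_normalizer_iff.mp (hUK hwU) d⁻¹).mp (inv_mem hd)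
      have e : c = d * (w * d⁻¹ * w⁻¹) := by rw [hc]; group
      rw [e]
      exact mul_mem hd h3
    obtain ⟨b, hb⟩ := QQ_isPGroup u ⟨c, h1⟩
    have hb' : c ^ 2 ^ b = 1 := congrArg Subtype.val hb
    have h3 : orderOf c ∣ 2 ^ b := orderOf_dvd_of_pow_eq_one hb'
    have h4 : orderOf c ∣ Nat.card K := Subgroup.orderOf_dvd_natCard K h2'
    have hcop : Nat.Coprime (2 ^ b) (Nat.card K) :=
      Nat.Coprime.pow_left b (Nat.coprime_two_left.mpr hK)
    have h5 : orderOf c ∣ 1 := by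
      have := Nat.dvd_gcd h3 h4
      rwa [hcop] at this
    have h6 : c = 1 := orderOf_eq_one_iff.mp (Nat.dvd_one.mp h5)
    calc d * w = c * (w * d) := by rw [hc]; group
      _ = w * d := by rw [h6, one_mul]
  have hmain : ∀ u ∈ U, u ≠ 1 → ∀ d ∈ K, d * u = u * d → ∀ w ∈ U, d * w = w * d := by
    intro u hu hu1 d hd hdu w hw
    by_cases hc : ∀ p ∈ (P : Subgroup G), p * u = u * p
    · exact hconcl (four_le_QQ h2 P hU4 hUn' hu hu1 hc hw) hd hdu hw
    · push Not at hc
      obtain ⟨τ, hτ, hτu⟩ := hc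
      have hcyc : IsCyclic ↥((P : Subgroup G) ⊓ centralizer ((P : Subgroup G) : Set G)) := by
        by_contra hnc
        have h3 := hUZ hnc
        exact hτu ((mem_centralizer_iff.mp (h3 hu)) τ hτ)
      obtain ⟨z, hz, hz1, hzP⟩ : ∃ z ∈ U, z ≠ 1 ∧ ∀ p ∈ (P : Subgroup G), p * z = z * p := by
        haveI hn : (U.subgroupOf (P : Subgroup G)).Normal :=
          ⟨fun n hn g => mem_subgroupOf.mpr (hUn' g g.2 n (mem_subgroupOf.mp hn))⟩
        have hne : U.subgroupOf (P : Subgroup G) ≠ ⊥ := by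
          intro e
          have h3 : (⟨u, hUP hu⟩ : ↥(P : Subgroup G)) ∈ U.subgroupOf (P : Subgroup G) :=
            mem_subgroupOf.mpr hu
          rw [e] at h3
          exact hu1 (congrArg Subtype.val ((mem_bot).mp h3))
        have hinf := Cfsg.Agent.Lib.PGroup.Basic.inf_center_ne_bot P.isPGroup' hne
        rcases Subgroup.bot_or_exists_ne_one (U.subgroupOf (P : Subgroup G) ⊓ center ↥(P : Subgroup G)) with h3 | ⟨x, hx, hx1⟩
        · exact absurd h3 hinf
        · obtain ⟨hx2, hx3⟩ := mem_inf.mp hx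
          refine ⟨x, mem_subgroupOf.mp hx2, fun e => hx1 (Subtype.ext e), fun p hp => ?_⟩
          have := (mem_center_iff.mp hx3) ⟨p, hp⟩
          exact congrArg Subtype.val this
      have hzu : z ≠ u := by
        rintro rfl
        exact hτu (hzP τ hτ)
      have hNC : NC P U z u := ⟨hU4, hUP, hUn', hcyc, hz, hz1, hzP, hu, hu1, hzu⟩
      have hzQ := hNC.z_mem_QQ h2 hτ hτu
      have hdz := hconcl hzQ hd hdu hz
      rcases hNC.elems hw with rfl | rfl | rfl | rfl
      · group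
      · exact hdz
      · exact hdu
      · rw [← mul_assoc, hdz, mul_assoc, hdu, mul_assoc]
  have hcop : (Nat.card U).Coprime (Nat.card K) := by
    rw [IsKleinFour.card_four]
    have h3 : Nat.Coprime 2 (Nat.card K) := Nat.coprime_two_left.mpr hK
    exact Nat.Coprime.pow_left 2 h3
  have hAab : IsMulCommutative U := ⟨⟨fun a b => Subtype.ext (four_comm hU4 a.2 b.2)⟩⟩
  have hgen := Cfsg.Agent.Lib.Coprime.Generation.le_iSup_cocyclic U K hAab hUK hcop
  have hKC : K ≤ centralizer (U : Set G) := by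
    refine hgen.trans (iSup₂_le fun B hB => ?_)
    obtain ⟨hBU, a, ha, hBa⟩ := hB
    have hne : B ≠ ⊥ := by
      rintro rfl
      rw [bot_sup_eq] at hBa
      have h3 : Nat.card U = orderOf a := by
        rw [← hBa, Nat.card_zpowers]
      have h4 : orderOf a ∣ 2 := orderOf_dvd_of_pow_eq_one (by rw [pow_two, four_sq hU4 ha])
      have h5 : Nat.card U = 4 := IsKleinFour.card_four
      have h6 := Nat.le_of_dvd (by norm_num) h4
      omega
    rcases Subgroup.bot_or_exists_ne_one B with h3 | ⟨u, hu, hu1⟩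
    · exact absurd h3 hne
    · intro d hd
      obtain ⟨hd1, hd2⟩ := mem_inf.mp hd
      rw [mem_centralizer_iff]
      intro w hw
      have hdu : d * u = u * d := ((mem_centralizer_iff.mp hd2) u hu).symm
      exact (hmain u (hBU hu) hu1 d hd1 hdu w hw).symm
  exact (Subgroup.le_centralizer_iff).mpr hKC

end Cfsg.Agent.S1957
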