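import Cfsg.Statements.S1959
import Cfsg.Agent.Lib.Transfer.FamilyControl

open Cfsg.Agent.Lib.Transfer.WellPlaced Cfsg.Agent.Lib.Transfer.WellPlacedControl Cfsg.Agent.Lib.Transfer.FamilyControl Subgroup

set_option autoImplicit false
open Cfsg

namespace Cfsg.Agent.S1959

/-- Let p be a prime, G a finite group with Sylow p-subgroup S, and 𝓦 a set of conjugacy functors for p on G. Suppose that 𝓦 controls strong fusion in N_G(T) for every nonidentity subgroup T of S for which N_S(T) is a Sylow p-subgroup of N_G(T). Then 𝓦 controls strong fusion in G. (A set of functors controls strong fusion in a subgroup H when, for a Sylow p-subgroup T' of H, every conjugation of a tuple of elements of T' into T' by an element of H is a composite of conjugations inside the normalizers N_H(W(T')), W ∈ 𝓦, all intermediate tuples staying in T'.) -/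
theorem result {G : Type*} [Group G] [Finite G] {p : ℕ} [Fact p.Prime] (S : Sylow p G) (𝓦 : Set (Subgroup G → Subgroup G)) (h𝓦 : ∀ W ∈ 𝓦, Cfsg.IsConjugacyFunctor p W) (hloc : ∀ T : Subgroup G, T ≤ (S : Subgroup G) → T ≠ ⊥ → ¬ p ∣ ((S : Subgroup G) ⊓ Subgroup.normalizer ((T : Subgroup G) : Set G)).relIndex (Subgroup.normalizer ((T : Subgroup G) : Set G)) → Cfsg.FamilyControlsStrongFusionIn p 𝓦 (Subgroup.normalizer ((T : Subgroup G) : Set G))) : Cfsg.FamilyControlsStrongFusionIn p 𝓦 ⊤ := by
  refine ⟨S, le_top, S.isPGroup', by rw [Subgroup.relIndex_top_right]; exact S.not_dvd_index, ?_⟩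
  intro A h _ hA hhA
  have h1 : closure A ≤ S := (closure_le _).2 hA
  have h2 : cj h (closure A) ≤ S := by
    rw [cj, MonoidHom.map_closure, closure_le]
    rintro _ ⟨a, ha, rfl⟩
    exact hhA ⟨a, ha, rfl⟩
  obtain ⟨c₀, hc₀, hagree⟩ := fusion_of_family S 𝓦 h𝓦 (fun T hTS hT hfn => hloc T hTS hT hfn) _ h1 h h2
  obtain ⟨n, c, h0, hstep, hconj, hlast⟩ := hc₀.toFin
  refine ⟨n, c, h0, fun i => ?_, ?_, ?_⟩
  · obtain ⟨W, hW, hi⟩ := hstep i
    exact ⟨W, hW, Subgroup.mem_top _, hi⟩
  · rintro i _ ⟨a, ha, rfl⟩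
    exact hconj i (conj_mem_cj (subset_closure ha))
  · intro a ha
    rw [hlast]
    exact hagree a (subset_closure ha)

end Cfsg.Agent.S1959
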