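import Cfsg.Statements.S1966
import Cfsg.Agent.Lib.Basic.PCore
import Mathlib

set_option autoImplicit false
open Cfsg

namespace Cfsg.Agent.S1966

open Cfsg.Agent.Lib.Basic.PCore in
/-- Let p be a prime, G a finite group with Sylow p-subgroup S and 𝓕 a conjugation family for S in G. Then the members of 𝓕 containing O_p(G) still form a conjugation family for S in G. -/
theorem result {G : Type*} [Group G] [Finite G] {p : ℕ} [Fact p.Prime] (S : Sylow p G) (𝓕 : Set (Subgroup G)) (h : Cfsg.IsConjugationFamily 𝓕 (S : Subgroup G)) : Cfsg.IsConjugationFamily {T : Subgroup G | T ∈ 𝓕 ∧ Cfsg.pCore p G ≤ T} (S : Subgroup G) := by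
  obtain ⟨hle, hfam⟩ := h
  refine ⟨fun T hT => hle T hT.1, ?_⟩
  intro A g hne hAS hgA
  have hN := pCore_normal p G
  have hOS : (pCore p G : Set G) ⊆ (S : Subgroup G) := pCore_le_sylow S
  obtain ⟨n, T, x, hprod, hT, hNorm, h0, hstep⟩ :=
    hfam (A ∪ (pCore p G : Set G)) g (hne.mono Set.subset_union_left)
      (Set.union_subset hAS hOS) (by
        rintro _ ⟨a, (ha | ha), rfl⟩
        · exact hgA ⟨a, ha, rfl⟩
        · exact hOS (hN.conj_mem' a ha g))
  refine ⟨n, T, x, hprod, ?_, hNorm, fun h => Set.subset_union_left.trans (h0 h), fun i h => ?_⟩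
  · rintro ⟨k, hk⟩
    refine ⟨hT _, ?_⟩
    cases k with
    | zero => exact fun o ho => h0 hk (Or.inr ho)
    | succ k =>
      intro o ho
      have hstep' := hstep ⟨k, by omega⟩ hk
      set y := ((List.ofFn x).take (k + 1)).prod with hy
      have := hstep' ⟨y * o * y⁻¹, Or.inr (hN.conj_mem o ho y), rfl⟩
      simpa [mul_assoc] using this
  · exact (Set.image_mono Set.subset_union_left).trans (hstep i h)

end Cfsg.Agent.S1966
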