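import Cfsg.Statements.S1967
import Mathlib
-- import your own Cfsg.Agent.* helpers here

set_option autoImplicit false
open Cfsg

namespace Cfsg.Agent.S1967

/-- Let p be a prime, G a finite group with Sylow p-subgroup S and W a conjugacy functor for p on G. Then W controls strong fusion in G if and only if, whenever T ≤ S and g ∈ G satisfy gTg⁻¹ ≤ S, one can write g = n c with n ∈ N_G(W(S)) and c ∈ C_G(T). -/
theorem result {G : Type*} [Group G] [Finite G] {p : ℕ} [Fact p.Prime] (S : Sylow p G) (W : Subgroup G → Subgroup G) (hW : Cfsg.IsConjugacyFunctor p W) : Cfsg.ControlsStrongFusionIn p W ⊤ ↔ ∀ (T : Subgroup G) (g : G), T ≤ (S : Subgroup G) → T.map (MulAut.conj g).toMonoidHom ≤ (S : Subgroup G) → ∃ n ∈ Subgroup.normalizer ((W (S : Subgroup G) : Subgroup G) : Set G), ∃ c ∈ Subgroup.centralizer (T : Set G), g = n * c := by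
  classical
  constructor
  · rintro ⟨T₀, -, hT₀p, hT₀i, hctrl⟩ T g hTS hgT
    rw [Subgroup.relIndex_top_right] at hT₀i
    let S₀ : Sylow p G := hT₀p.toSylow hT₀i
    obtain ⟨s, hs⟩ := MulAction.exists_smul_eq G S S₀
    have hs' : T₀ = (S : Subgroup G).map (MulAut.conj s).toMonoidHom := by
      have h1 : ((s • S : Sylow p G) : Subgroup G) = T₀ := by rw [hs]; rfl
      rw [← h1, Sylow.coe_subgroup_smul]
      rfl
    have hW := (hW (S : Subgroup G) S.isPGroup').2.2 s
    rw [← hs'] at hW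
    let A : Set G := (fun t => s * t * s⁻¹) '' (T : Set G)
    let h : G := s * g * s⁻¹
    have hAT : A ⊆ (T₀ : Set G) := by
      rintro _ ⟨t, ht, rfl⟩
      rw [hs']
      exact ⟨t, hTS ht, rfl⟩
    have hhA : (fun a => h * a * h⁻¹) '' A ⊆ (T₀ : Set G) := by
      rintro _ ⟨_, ⟨t, ht, rfl⟩, rfl⟩
      rw [hs']
      refine ⟨g * t * g⁻¹, hgT ⟨t, ht, rfl⟩, ?_⟩
      show s * (g * t * g⁻¹) * s⁻¹ = h * (s * t * s⁻¹) * h⁻¹
      simp only [h]
      group
    obtain ⟨x, hx, hxa⟩ := hctrl A h (Subgroup.mem_top _) hAT hhA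
    have hxN : x ∈ Subgroup.normalizer ((W T₀ : Subgroup G) : Set G) := hx.2
    let n : G := s⁻¹ * x * s
    have hnN : n ∈ Subgroup.normalizer ((W (S : Subgroup G) : Subgroup G) : Set G) := by
      rw [hW] at hxN
      rw [Subgroup.mem_set_normalizer_iff]
      intro y
      have h2 := (Subgroup.mem_set_normalizer_iff).1 hxN (s * y * s⁻¹)
      have h3 : ∀ z : G, z ∈ ((W (S : Subgroup G)).map (MulAut.conj s).toMonoidHom : Subgroup G) ↔
          s⁻¹ * z * s ∈ W (S : Subgroup G) := by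
        intro z
        rw [Subgroup.mem_map_equiv]
        simp [MulAut.conj_symm_apply]
      simp only [SetLike.mem_coe] at h2 ⊢
      rw [h3, h3] at h2
      have e1 : s⁻¹ * (s * y * s⁻¹) * s = y := by group
      have e2 : s⁻¹ * (x * (s * y * s⁻¹) * x⁻¹) * s = n * y * n⁻¹ := by
        simp only [n]; group
      rw [e1, e2] at h2
      exact h2
    refine ⟨n, hnN, n⁻¹ * g, ?_, by group⟩
    rw [Subgroup.mem_centralizer_iff]
    intro t ht
    have h4 := hxa (s * t * s⁻¹) ⟨t, ht, rfl⟩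
    have h5 : n * t * n⁻¹ = g * t * g⁻¹ := by
      have e1 : n * t * n⁻¹ = s⁻¹ * (x * (s * t * s⁻¹) * x⁻¹) * s := by
        simp only [n]; group
      rw [e1, h4]
      simp only [h]
      group
    calc t * (n⁻¹ * g) = n⁻¹ * (n * t * n⁻¹) * g := by group
      _ = n⁻¹ * (g * t * g⁻¹) * g := by rw [h5]
      _ = n⁻¹ * g * t := by group
  · intro h
    refine ⟨S, le_top, S.isPGroup', ?_, ?_⟩
    · rw [Subgroup.relIndex_top_right]
      exact S.not_dvd_index
    · intro A g _ hA hgA
      have hcl : Subgroup.closure A ≤ (S : Subgroup G) := (Subgroup.closure_le _).2 hA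
      have hcl2 : (Subgroup.closure A).map (MulAut.conj g).toMonoidHom ≤ (S : Subgroup G) := by
        rw [Subgroup.map_le_iff_le_comap, Subgroup.closure_le]
        intro a ha
        exact hgA ⟨a, ha, rfl⟩
      obtain ⟨n, hn, c, hc, hg⟩ := h _ g hcl hcl2
      refine ⟨n, ⟨Subgroup.mem_top _, hn⟩, ?_⟩
      intro a ha
      have hca := Subgroup.mem_centralizer_iff.1 hc a (Subgroup.subset_closure ha)
      rw [hg]
      calc n * a * n⁻¹ = n * (a * c) * c⁻¹ * n⁻¹ := by group
        _ = n * (c * a) * c⁻¹ * n⁻¹ := by rw [hca]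
        _ = n * c * a * (n * c)⁻¹ := by group

end Cfsg.Agent.S1967
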