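import Cfsg.Statements.S1968
import Cfsg.Agent.Lib.Transfer.WellPlacedControl

open Cfsg.Agent.Lib.Transfer.WellPlaced Cfsg.Agent.Lib.Transfer.WellPlacedControl Subgroup

set_option autoImplicit false
open Cfsg

namespace Cfsg.Agent.S1968


/-- The first step of a chain at which the subgroup moves. -/
theorem first_step {G : Type*} [Group G] {𝓕 : Set (Subgroup G)} {B : Subgroup G} {h : G}
    (H : FChain 𝓕 B h) (hne : cj h B ≠ B) :
    ∃ T ∈ 𝓕, ∃ x ∈ Nz T, B ≤ T ∧ cj x B ≠ B := by
  induction H with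
  | nil B => exact absurd (cj_one B) hne
  | @cons B T x h hT hx hB _ ih =>
    by_cases hxB : cj x B = B
    · rw [cj_mul, hxB] at hne
      rw [hxB] at ih
      exact ih hne
    · exact ⟨T, hT, x, hx, hB, hxB⟩


/-- Let p be a prime, G a finite group with Sylow p-subgroup S and W a conjugacy functor for p on G with Z(P) ≤ W(P) for every p-subgroup P. Let A be a subgroup of Z(S) normalized by N_G(W(S)) that is not weakly closed in S with respect to G. Then there is a subgroup T of S, well placed in S with respect to W, such that: A ≤ T; N_G(W(N_S(T))) normalizes A; N_S(T) is a Sylow p-subgroup of N_G(T); A ≤ Z(N_S(T)); and A is not weakly closed in N_S(T) with respect to N_G(T), that is, some N_G(T)-conjugate of A other than A lies in N_S(T). -/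
theorem result {G : Type*} [Group G] [Finite G] {p : ℕ} [Fact p.Prime] (S : Sylow p G) (W : Subgroup G → Subgroup G) (hW : Cfsg.IsConjugacyFunctor p W) (hWZ : ∀ P : Subgroup G, IsPGroup p ↥P → P ⊓ Subgroup.centralizer (P : Set G) ≤ W P) (A : Subgroup G) (hAZ : A ≤ (S : Subgroup G) ⊓ Subgroup.centralizer ((S : Subgroup G) : Set G)) (hAN : Subgroup.normalizer ((W (S : Subgroup G) : Subgroup G) : Set G) ≤ Subgroup.normalizer ((A : Subgroup G) : Set G)) (hnwc : ¬ Cfsg.IsWeaklyClosed A (S : Subgroup G)) : ∃ T : Subgroup G, Cfsg.IsWellPlaced p W (S : Subgroup G) T ∧ A ≤ T ∧ Subgroup.normalizer ((W ((S : Subgroup G) ⊓ Subgroup.normalizer ((T : Subgroup G) : Set G)) : Subgroup G) : Set G) ≤ Subgroup.normalizer ((A : Subgroup G) : Set G) ∧ ¬ p ∣ ((S : Subgroup G) ⊓ Subgroup.normalizer ((T : Subgroup G) : Set G)).relIndex (Subgroup.normalizer ((T : Subgroup G) : Set G)) ∧ A ≤ Subgroup.centralizer (((S : Subgroup G) ⊓ Subgroup.normalizer ((T : Subgroup G) : Set G) : Subgroup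 G) : Set G) ∧ ∃ g ∈ Subgroup.normalizer ((T : Subgroup G) : Set G), A.map (MulAut.conj g).toMonoidHom ≤ (S : Subgroup G) ⊓ Subgroup.normalizer ((T : Subgroup G) : Set G) ∧ A.map (MulAut.conj g).toMonoidHom ≠ A := by
  classical
  -- the conjugation moving `A`
  have hAS : A ≤ (S : Subgroup G) := hAZ.trans inf_le_left
  have hW' : ∃ g : G, cj g A ≤ (S : Subgroup G) ∧ cj g A ≠ A := by
    by_contra hcon
    push Not at hcon
    exact hnwc ⟨hAS, hcon⟩
  obtain ⟨g, hg, hgA⟩ := hW'
  obtain ⟨T₀, hT₀, hx₀⟩ := first_step (fchain_wellPlaced S hW hAS hg) hgA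
  -- the candidates
  let C : Subgroup G → Prop := fun T => IsWellPlaced p W (S : Subgroup G) T ∧ A ≤ T ∧
    ∃ g ∈ Nz T, cj g A ≤ (S : Subgroup G) ⊓ Nz T ∧ cj g A ≠ A
  have hC₀ : C T₀ := by
    obtain ⟨x, hx, hAT, hxA⟩ := hx₀
    refine ⟨hT₀, hAT, x, hx, ?_, hxA⟩
    have := cj_mono (g := x) hAT
    rw [mem_Nz_iff.1 hx] at this
    exact this.trans (le_inf hT₀.1 (le_Nz_self _))
  haveI : Nonempty {T : Subgroup G // C T} := ⟨⟨T₀, hC₀⟩⟩
  obtain ⟨⟨T, hwp, hAT, x, hx, hxA, hxne⟩, hmax⟩ := Finite.exists_max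
    (fun T : {T : Subgroup G // C T} => Nat.card ↥((S : Subgroup G) ⊓ Nz T.1))
  have hTS : T ≤ (S : Subgroup G) := hwp.1
  have hTle : T ≤ (S : Subgroup G) ⊓ Nz T := le_inf hTS (le_Nz_self T)
  have hAcent : A ≤ centralizer (((S : Subgroup G) ⊓ Nz T : Subgroup G) : Set G) := by
    intro a ha
    rw [Subgroup.mem_centralizer_iff]
    intro r hr
    have h0 : a ∈ centralizer ((S : Subgroup G) : Set G) := (hAZ ha).2
    rw [Subgroup.mem_centralizer_iff] at h0
    exact h0 r hr.1
  refine ⟨T, hwp, hAT, ?_, hwp.2 0, hAcent, x, hx, hxA, hxne⟩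
  -- the maximality
  set R : Subgroup G := (S : Subgroup G) ⊓ Nz T with hR
  have hRS : R ≤ (S : Subgroup G) := inf_le_left
  have hRp : IsPGroup p R := S.isPGroup'.to_le hRS
  by_cases hRtop : R = (S : Subgroup G)
  · rw [hRtop]
    exact hAN
  · have hRlt : R < (S : Subgroup G) := lt_of_le_of_ne hRS hRtop
    have hlt := lt_inf_Nz_W S hW hRlt
    intro y hy
    by_contra hyA
    have hyA' : cj y A ≠ A := fun h => hyA (mem_Nz_iff.2 h)
    have hAW : A ≤ W R := by
      refine le_trans ?_ (hWZ R hRp)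
      exact le_inf (hAT.trans hTle) hAcent
    have hcand : C (W R) := by
      refine ⟨IsWellPlaced.next S hW hwp, hAW, y, hy, ?_, hyA'⟩
      have := cj_mono (g := y) hAW
      rw [mem_Nz_iff.1 hy] at this
      exact this.trans (le_inf ((W_le hW hRp).trans hRS) (le_Nz_self _))
    have h1 := hmax ⟨W R, hcand⟩
    have h2 := card_lt_of_lt hlt
    exact absurd h1 (not_le.2 h2)

end Cfsg.Agent.S1968
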