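import Cfsg.Statements.S1969
import Cfsg.Agent.Lib.Transfer.FusionCore
open Cfsg.Agent.Lib.Transfer.WellPlaced Cfsg.Agent.Lib.Transfer.FamilyControl Cfsg.Agent.Lib.Transfer.SectionBasic Cfsg.Agent.Lib.Transfer.FusionBasic Cfsg.Agent.Lib.Transfer.FusionCore
set_option autoImplicit false
universe u
open Cfsg

namespace Cfsg.Agent.S1969

/-- Let p be a prime, G a finite group and W an isomorphism-invariant p-group functor (W assigns to every group Q a subgroup W(Q), nontrivial whenever Q is a nontrivial finite p-group, and every isomorphism from a finite p-group Q onto a group R carries W(Q) onto W(R)). Suppose that W(S*) is normal in G* whenever G* = K/R is a section of G with C_{G*}(O_p(G*)) ≤ O_p(G*) and S* is a Sylow p-subgroup of G*. Then W controls strong fusion in every section of G: for every section K/R and every Sylow p-subgroup T of K/R, the subgroup W(T) controls strong fusion in K/R. -/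
theorem result {G : Type u} [Group G] [Finite G] {p : ℕ} [Fact p.Prime] (W : ∀ (Q : Type u) [Group Q], Subgroup Q) (hW : Cfsg.IsCharPFunctor.{u} p W) (hloc : ∀ (K R : Subgroup G) [hR : (R.subgroupOf K).Normal], Subgroup.centralizer ((Cfsg.pCore p (↥K ⧸ R.subgroupOf K) : Subgroup (↥K ⧸ R.subgroupOf K)) : Set (↥K ⧸ R.subgroupOf K)) ≤ Cfsg.pCore p (↥K ⧸ R.subgroupOf K) → ∀ T : Sylow p (↥K ⧸ R.subgroupOf K), (Cfsg.inducedFunctor (G := (↥K ⧸ R.subgroupOf K)) W ((T : Subgroup (↥K ⧸ R.subgroupOf K)))).Normal) : ∀ (K R : Subgroup G) [hR : (R.subgroupOf K).Normal], ∀ T : Sylow p (↥K ⧸ R.subgroupOf K), Cfsg.ControlsStrongFusion p (Cfsg.inducedFunctor (G := (↥K ⧸ R.subgroupOf K)) W ((T : Subgroup (↥K ⧸ R.subgroupOf K)))) := by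
  classical
  have h𝓦 : ∀ W' ∈ ({W} : Set WT.{u}), IsCharPFunctor.{u} p W' := by
    rintro _ rfl
    exact hW
  have main := FF_all_of_normal_form (G := G) h𝓦 (by
    intro K R hR hc S B hB g hg
    have hn := hloc K R hc S
    have hg' : g ∈ Nz (inducedFunctor (G := (↥K ⧸ R.subgroupOf K)) W (S : Subgroup (↥K ⧸ R.subgroupOf K))) := by
      rw [Nz, Subgroup.normalizer_eq_top_iff.2 hn]
      trivial
    exact FR_of_chain (GChain.one_step hB hg ⟨W, rfl, rfl⟩ hg'))
  intro K R hR T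
  have hW' := isConjugacyFunctor_iW (X := (↥K ⧸ R.subgroupOf K)) hW
  refine ⟨T, W_le hW' T.isPGroup', fun A hA => ⟨hA, fun g hg => ?_⟩⟩
  have hB : Subgroup.closure A ≤ (T : Subgroup (↥K ⧸ R.subgroupOf K)) := (Subgroup.closure_le _).2 hA
  have hgB : cj g (Subgroup.closure A) ≤ (T : Subgroup (↥K ⧸ R.subgroupOf K)) := by
    rw [cj, MonoidHom.map_closure, Subgroup.closure_le]
    rintro _ ⟨a, ha, rfl⟩
    exact hg ⟨a, ha, rfl⟩
  obtain ⟨c, hc, hag⟩ := main _ (IsSec.quot_sub K R) T _ hB g hgB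
  refine ⟨c, ?_, fun a ha => (hag a (Subgroup.subset_closure ha)).symm⟩
  -- a chain for a single functor stays in the normalizer
  have key : ∀ (B₀ : Subgroup (↥K ⧸ R.subgroupOf K)) (c₀ : (↥K ⧸ R.subgroupOf K)),
      GChain (IF {W} (↥K ⧸ R.subgroupOf K)) (T : Subgroup (↥K ⧸ R.subgroupOf K)) B₀ c₀ →
      c₀ ∈ Subgroup.normalizer ((inducedFunctor (G := (↥K ⧸ R.subgroupOf K)) W (T : Subgroup (↥K ⧸ R.subgroupOf K)) : Subgroup (↥K ⧸ R.subgroupOf K)) : Set (↥K ⧸ R.subgroupOf K)) := by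
    intro B₀ c₀ h
    induction h with
    | nil h => exact Subgroup.one_mem _
    | cons h1 h2 h3 h4 ih =>
      obtain ⟨W₀, hW₀, rfl⟩ := h2
      have : W₀ = W := hW₀
      subst this
      exact Subgroup.mul_mem _ ih h3
  exact key _ _ hc

end Cfsg.Agent.S1969
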