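import Cfsg.Statements.S1975
import Mathlib
-- import your own Cfsg.Agent.* helpers here

set_option autoImplicit false
open Cfsg

namespace Cfsg.Agent.S1975

/-- Let P be a finite p-group. In the K-sequence of P the odd-indexed terms decrease and the even-indexed terms increase: with the numbering used here, kSeqOdd P (n+1) ≤ kSeqOdd P n and kSeqEven P n ≤ kSeqEven P (n+1) for every n. -/
theorem result {P : Type*} [Group P] [Finite P] {p : ℕ} [Fact p.Prime] (hP : IsPGroup p P) (n : ℕ) : Cfsg.kSeqOdd P (n + 1) ≤ Cfsg.kSeqOdd P n ∧ Cfsg.kSeqEven P n ≤ Cfsg.kSeqEven P (n + 1) := by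
  have hL : ∀ Q Q' : Subgroup P, Q' ≤ Q → sSup (kLowerStarFamily Q) ≤ sSup (kLowerStarFamily Q') := by
    intro Q Q' hle
    apply sSup_le_sSup
    rintro B ⟨h1, h2, h3⟩
    exact ⟨h1, hle.trans h2, fun A hA hAQ => h3 A hA (hAQ.trans hle)⟩
  have hU : ∀ Q Q' : Subgroup P, Q' ≤ Q → sSup (kUpperStarFamily Q) ≤ sSup (kUpperStarFamily Q') := by
    intro Q Q' hle
    apply sSup_le_sSup
    rintro B ⟨h1, h2⟩
    exact ⟨h1, (Subgroup.commutator_mono le_rfl hle).trans h2⟩
  have hodd : ∀ n, kSeqOdd P (n + 1) ≤ kSeqOdd P n := by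
    intro n
    induction n with
    | zero => exact le_top
    | succ k ih =>
      show sSup (kUpperStarFamily (sSup (kLowerStarFamily (kSeqOdd P (k + 1))))) ≤
        sSup (kUpperStarFamily (sSup (kLowerStarFamily (kSeqOdd P k))))
      exact hU _ _ (hL _ _ ih)
  exact ⟨hodd n, hL _ _ (hodd n)⟩

end Cfsg.Agent.S1975
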