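import Cfsg.Statements.S1981
import Mathlib
import Cfsg.Agent.Lib.PGroup.KInf

set_option autoImplicit false
open Cfsg

namespace Cfsg.Agent.S1981

/-- Let P be a finite p-group generated by its abelian normal subgroups. Then both K-infinity subgroups of P equal P. -/
theorem result {P : Type*} [Group P] [Finite P] {p : ℕ} [Fact p.Prime] (hP : IsPGroup p P) (hgen : ⨆ A ∈ {A : Subgroup P | A.Normal ∧ IsMulCommutative ↥A}, A = ⊤) : Cfsg.kInfLower P = ⊤ ∧ Cfsg.kInfUpper P = ⊤ := by
  have h1 : ∀ n, (⊤ : Subgroup P) ≤ kSeqEven P n := by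
    intro n
    rw [← hgen]
    refine iSup₂_le fun A hA => ?_
    haveI := hA.1
    exact le_sSup (Cfsg.Agent.Lib.PGroup.KInf.normal_abelian_mem_lower A hA.2 _)
  have h2 : ∀ n, (⊤ : Subgroup P) ≤ kSeqOdd P n := by
    intro n
    cases n with
    | zero => exact le_rfl
    | succ n =>
      rw [Cfsg.Agent.Lib.PGroup.KInf.seqOdd_succ, ← hgen]
      refine iSup₂_le fun A hA => ?_
      haveI := hA.1
      exact le_sSup (Cfsg.Agent.Lib.PGroup.KInf.normal_abelian_mem_upper A hA.2 _)
  refine ⟨top_le_iff.mp ((h1 0).trans (le_iSup (kSeqEven P) 0)), top_le_iff.mp (le_iInf h2)⟩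

end Cfsg.Agent.S1981
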