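import Cfsg.Statements.S1989
import Cfsg.Agent.Lib.PGroup.KInfQuartic
import Cfsg.Agent.Lib.PGroup.KInfIso
import Cfsg.Agent.Lib.PGroup.QdKInf
import Cfsg.Agent.Lib.PGroup.QuadLocal
import Cfsg.Agent.S0274
import Cfsg.Agent.Lib.Transfer.FusionApps
open Cfsg.Agent.Lib.Transfer.SectionBasic Cfsg.Agent.Lib.Transfer.FusionApps Cfsg.Agent.Lib.PGroup.QuadLocal Cfsg.Agent.Lib.PGroup.QuadG Cfsg.Agent.Lib.PGroup.QdSplit
set_option autoImplicit false
universe u
open Cfsg

namespace Cfsg.Agent.S1989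


theorem stable_of_sec_free {G : Type u} [Group G] [Finite G] {p : ℕ} [Fact p.Prime] (hp2 : p ≠ 2)
    (hfree : ¬ Sec (qd p) G) (K R : Subgroup G) [hR : (R.subgroupOf K).Normal] :
    IsNormalizerPStable p (↥K ⧸ R.subgroupOf K) := by
  intro Q hQ g hg hq
  by_contra hcore
  have hqa := quad_elem hq
  obtain ⟨g₁, hg₁, h, hh, hcop, hhC⟩ := exists_pair_of_not_core Q hQ hg hqa hcore
  have hb : g₁ * g * g₁⁻¹ ∈ Subgroup.normalizer (Q : Set _) :=
    mul_mem (mul_mem hg₁ hg) (inv_mem hg₁)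
  obtain ⟨hsec, -⟩ := sec_of_ambient_pair (fun F _ _ _ H hH => Cfsg.Agent.S0274.result p hp2 H hH) hp2 Q hQ g _ h hg hb hqa
    (quad_elem_conj hg₁ hqa) hh hcop hhC
  exact hfree (Sec.subgroup (Sec.of_surj (QuotientGroup.mk'_surjective _) hsec))


/-- Let p be an odd prime and G a finite group. Then Qd(p) (the natural semidirect product of an elementary abelian group of order p² by SL₂(p)) is not involved in G if and only if, in every section K/R of G and for every Sylow p-subgroup T of K/R, the lower K-infinity subgroup of T controls strong fusion in K/R. -/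
theorem result {G : Type u} [Group G] [Finite G] {p : ℕ} [Fact p.Prime] (hp : p ≠ 2) : ¬ Cfsg.Involves ↥(Cfsg.qd p) G ↔ ∀ (K R : Subgroup G) [hR : (R.subgroupOf K).Normal], ∀ T : Sylow p (↥K ⧸ R.subgroupOf K), Cfsg.ControlsStrongFusion p (Cfsg.inducedFunctor (G := (↥K ⧸ R.subgroupOf K)) Cfsg.kInfLower (T : Subgroup (↥K ⧸ R.subgroupOf K))) := by
  constructor
  · intro hI K R hR T
    have hfree : ¬ Sec (qd p) G := by
      rintro ⟨K₁, Φ, hΦ⟩
      obtain ⟨R₁, hR₁, ⟨e⟩⟩ := quotient_form hΦ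
      exact hI ⟨K₁, R₁, hR₁, ⟨e⟩⟩
    have hWc := Cfsg.Agent.Lib.PGroup.KInfIso.isCharPFunctor_kInfLower.{u} p
    have main := FF_single_all (G := G) hWc (by
      intro Y _ _ hY hc T
      by_contra hn
      obtain ⟨g, -, -, -, -, h⟩ := Cfsg.Agent.Lib.PGroup.KInfQuartic.main T (Or.inl hn)
      obtain ⟨N, hN, hNs⟩ := h hc
      apply hNs
      obtain ⟨K, R, hR, ⟨e⟩⟩ := ((IsSec.quotient N).trans hY).exists_equiv
      exact normalizerPStable_of_equiv e.symm (stable_of_sec_free hp hfree K R))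
    exact controlsStrongFusion_of_FF hWc (main _ (IsSec.quot_sub K R)) T
  · intro hctl ⟨K, R, hR, ⟨e⟩⟩
    obtain ⟨T, hT⟩ := Cfsg.Agent.Lib.PGroup.QdKInf.exists_not_control e
    exact hT (hctl K R T)

end Cfsg.Agent.S1989
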