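import Cfsg.Statements.S1993
import Cfsg.Agent.Lib.PGroup.KInfQuartic
import Cfsg.Agent.Lib.PGroup.KInfIso
import Cfsg.Agent.Lib.Transfer.FusionApps
import Cfsg.Agent.Lib.Transfer.KInfControl
open Cfsg.Agent.Lib.Transfer.SectionBasic Cfsg.Agent.Lib.Transfer.FusionApps

set_option autoImplicit false
universe u
open Cfsg

namespace Cfsg.Agent.S1993

/-- Let p be a prime, G a finite group with Sylow p-subgroup S, and K the upper K-infinity subgroup of S. If p ≥ 5 then S ∩ G' = S ∩ (N_G(K))'; and if p is odd and every section of G is p-stable in the normalizer form, then K controls strong fusion in G. -/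
theorem result {G : Type u} [Group G] [Finite G] {p : ℕ} [Fact p.Prime] (S : Sylow p G) : (5 ≤ p → (S : Subgroup G) ⊓ commutator G = (S : Subgroup G) ⊓ ⁅Subgroup.normalizer ((Cfsg.inducedFunctor Cfsg.kInfUpper (S : Subgroup G) : Subgroup G) : Set G), Subgroup.normalizer ((Cfsg.inducedFunctor Cfsg.kInfUpper (S : Subgroup G) : Subgroup G) : Set G)⁆) ∧ (p ≠ 2 → (∀ (K R : Subgroup G) [hR : (R.subgroupOf K).Normal], Cfsg.IsNormalizerPStable p (↥K ⧸ R.subgroupOf K)) → Cfsg.ControlsStrongFusion p (Cfsg.inducedFunctor Cfsg.kInfUpper (S : Subgroup G))) := by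
  refine ⟨fun hp5 => Cfsg.Agent.Lib.Transfer.KInfControl.controls_at Cfsg.kInfUpper (Or.inr rfl) hp5 S, fun hp hst => ?_⟩
  have hW := Cfsg.Agent.Lib.PGroup.KInfIso.isCharPFunctor_kInfUpper.{u} p
  have main := FF_single_all (G := G) hW (by
    intro Y _ _ hY hc T
    by_contra hn
    obtain ⟨g, -, -, -, -, h⟩ := Cfsg.Agent.Lib.PGroup.KInfQuartic.main T (Or.inr hn)
    obtain ⟨N, hN, hNs⟩ := h hc
    apply hNs
    obtain ⟨K, R, hR, ⟨e⟩⟩ := ((IsSec.quotient N).trans hY).exists_equiv
    haveI : Finite (Y ⧸ N) := inferInstance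
    exact normalizerPStable_of_equiv e.symm (hst K R))
  exact controlsStrongFusion_of_FF hW (main G (IsSec.refl G)) S

end Cfsg.Agent.S1993
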