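import Cfsg.Statements.S1996
import Cfsg.Agent.Lib.Transfer.FusionCore
open Cfsg.Agent.Lib.Transfer.WellPlaced Cfsg.Agent.Lib.Transfer.FamilyControl Cfsg.Agent.Lib.Transfer.SectionBasic Cfsg.Agent.Lib.Transfer.FusionBasic Cfsg.Agent.Lib.Transfer.FusionCore
set_option autoImplicit false
universe u
open Cfsg

namespace Cfsg.Agent.S1996

/-- Let p be a prime, G a finite group and W₁, W₂ two isomorphism-invariant p-group functors (W assigns to every group Q a subgroup W(Q), nontrivial whenever Q is a nontrivial finite p-group, and every isomorphism from a finite p-group Q onto a group R carries W(Q) onto W(R)). Suppose that G* = N_{G*}(W₁(S*)) N_{G*}(W₂(S*)) whenever G* = K/R is a section of G with C_{G*}(O_p(G*)) ≤ O_p(G*) and S* is a Sylow p-subgroup of G*. Then the pair {W₁, W₂} controls strong fusion in G. -/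
theorem result {G : Type u} [Group G] [Finite G] {p : ℕ} [Fact p.Prime] (W₁ W₂ : ∀ (Q : Type u) [Group Q], Subgroup Q) (hW₁ : Cfsg.IsCharPFunctor.{u} p W₁) (hW₂ : Cfsg.IsCharPFunctor.{u} p W₂) (hfac : ∀ (K R : Subgroup G) [hR : (R.subgroupOf K).Normal], Subgroup.centralizer ((Cfsg.pCore p (↥K ⧸ R.subgroupOf K) : Subgroup (↥K ⧸ R.subgroupOf K)) : Set (↥K ⧸ R.subgroupOf K)) ≤ Cfsg.pCore p (↥K ⧸ R.subgroupOf K) → ∀ T : Sylow p (↥K ⧸ R.subgroupOf K), ∀ x : (↥K ⧸ R.subgroupOf K), ∃ a ∈ Subgroup.normalizer ((Cfsg.inducedFunctor (G := (↥K ⧸ R.subgroupOf K)) W₁ (T : Subgroup (↥K ⧸ R.subgroupOf K)) : Subgroup (↥K ⧸ R.subgroupOf K)) : Set (↥K ⧸ R.subgroupOf K)), ∃ b ∈ Subgroup.normalizer ((Cfsg.inducedFunctor (G := (↥K ⧸ R.subgroupOf K)) W₂ (T : Subgroup (↥K ⧸ R.subgroupOf K)) : Subgroup (↥K ⧸ R.subgroupOf K)) : Set (↥K ⧸ R.subgroupOf K)), x = a * b) : Cfsg.FamilyControlsStrongFusionIn p {Cfsg.inducedFunctor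 (G := G) W₁, Cfsg.inducedFunctor (G := G) W₂} ⊤ := by
  classical
  have h𝓦 : ∀ W' ∈ ({W₁, W₂} : Set WT.{u}), IsCharPFunctor.{u} p W' := by
    rintro _ (rfl | rfl)
    · exact hW₁
    · exact hW₂
  have main := FF_all_of_normal_form (G := G) h𝓦 (by
    intro K R hR hc S B hB g hg
    have hRelY := isRel_fusionRel (IF ({W₁, W₂} : Set WT.{u}) (↥K ⧸ R.subgroupOf K)) (S : Subgroup (↥K ⧸ R.subgroupOf K))
    obtain ⟨a, ha, b, hb, rfl⟩ := hfac K R hc S g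
    set N₁ := Nz (inducedFunctor (G := (↥K ⧸ R.subgroupOf K)) W₁ (S : Subgroup (↥K ⧸ R.subgroupOf K))) with hN₁
    set N₂ := Nz (inducedFunctor (G := (↥K ⧸ R.subgroupOf K)) W₂ (S : Subgroup (↥K ⧸ R.subgroupOf K))) with hN₂
    have hSN₁ : (S : Subgroup (↥K ⧸ R.subgroupOf K)) ≤ N₁ :=
      (le_Nz_self _).trans (Nz_le_Nz_W (isConjugacyFunctor_iW hW₁) S.isPGroup')
    have hSN₂ : (S : Subgroup (↥K ⧸ R.subgroupOf K)) ≤ N₂ :=
      (le_Nz_self _).trans (Nz_le_Nz_W (isConjugacyFunctor_iW hW₂) S.isPGroup')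
    have ha' : a ∈ N₁ := ha
    have hb' : b ∈ N₂ := hb
    have hB₁ : cj b B ≤ N₁ ⊓ N₂ := by
      refine le_inf ?_ ?_
      · rintro _ ⟨x, hx, rfl⟩
        have h1 : (a * b) * x * (a * b)⁻¹ ∈ (S : Subgroup (↥K ⧸ R.subgroupOf K)) := hg (conj_mem_cj hx)
        have e : b * x * b⁻¹ = a⁻¹ * ((a * b) * x * (a * b)⁻¹) * a := by group
        show b * x * b⁻¹ ∈ _
        rw [e]
        exact N₁.mul_mem (N₁.mul_mem (N₁.inv_mem ha') (hSN₁ h1)) ha'
      · rintro _ ⟨x, hx, rfl⟩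
        exact N₂.mul_mem (N₂.mul_mem hb' (hSN₂ (hB hx))) (N₂.inv_mem hb')
    obtain ⟨d, hd, hdB⟩ := exists_conj_le_of_sylow (le_inf hSN₁ hSN₂ : (S : Subgroup (↥K ⧸ R.subgroupOf K)) ≤ N₁ ⊓ N₂) S.isPGroup'
      (not_dvd_relIndex_of_le S (le_inf hSN₁ hSN₂)) hB₁ (IsPGroup_cj (S.isPGroup'.to_le hB) b)
    have h1 : fusionRel (IF ({W₁, W₂} : Set WT.{u}) (↥K ⧸ R.subgroupOf K)) S B (d * b) := by
      refine FR_of_chain (GChain.one_step hB (by rw [cj_mul]; exact hdB) ⟨W₂, by simp, rfl⟩ (N₂.mul_mem hd.2 hb'))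
    have h2 : fusionRel (IF ({W₁, W₂} : Set WT.{u}) (↥K ⧸ R.subgroupOf K)) S (cj (d * b) B) (a * d⁻¹) := by
      refine FR_of_chain (GChain.one_step (by rw [cj_mul]; exact hdB) ?_ ⟨W₁, by simp, rfl⟩ (N₁.mul_mem ha' (N₁.inv_mem hd.1)))
      rw [← cj_mul, show a * d⁻¹ * (d * b) = a * b by group]
      exact hg
    have h3 := hRelY.comp h1 h2
    rwa [show a * d⁻¹ * (d * b) = a * b by group] at h3)
  have h := control_of_FF h𝓦 (main G (IsSec.refl G))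
  have e : IF ({W₁, W₂} : Set WT.{u}) G = {inducedFunctor (G := G) W₁, inducedFunctor (G := G) W₂} := Set.image_pair _ _ _
  rwa [e] at h

end Cfsg.Agent.S1996
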