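import Cfsg.Statements.S1997
import Cfsg.Agent.Lib.Transfer.OmegaClosure
import Cfsg.Agent.S1996
set_option autoImplicit false
universe u
open Cfsg

namespace Cfsg.Agent.S1997


open Subgroup Cfsg.Agent.Lib.Transfer.WellPlaced Cfsg.Agent.Lib.Transfer.FamilyControl
open Cfsg.Agent.Lib.Transfer.SectionBasic Cfsg.Agent.Lib.Transfer.FusionBasic
open Cfsg.Agent.Lib.Transfer.OmegaClosure

theorem pow_of_closure {Y : Type*} [Group Y] {p : ℕ} {T : Set Y} (hT : ∀ x ∈ T, x ^ p = 1)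
    (hc : ∀ x ∈ closure T, ∀ y ∈ closure T, x * y = y * x) : ∀ a ∈ closure T, a ^ p = 1 := by
  intro a ha
  induction ha using Subgroup.closure_induction with
  | mem x hx => exact hT x hx
  | one => simp
  | mul x y hx hy h1 h2 =>
    have : Commute x y := hc x hx y hy
    rw [this.mul_pow, h1, h2, one_mul]
  | inv x hx h1 => rw [inv_pow, h1, inv_one]

theorem chain_mem {Y : Type*} [Group Y] {𝓕 : Set (Subgroup Y → Subgroup Y)} {S₀ M : Subgroup Y}
    (h : ∀ W ∈ 𝓕, Nz (W S₀) ≤ M) {B : Subgroup Y} {c : Y} (hc : GChain 𝓕 S₀ B c) : c ∈ M := by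
  induction hc with
  | nil hB => exact one_mem _
  | cons hB hW hx hrest ih => exact mul_mem ih (h _ hW hx)


/-- Let p be a prime, G a finite group with Sylow p-subgroup S, and W₁, W₂ two isomorphism-invariant p-group functors (W assigns to every group Q a subgroup W(Q), nontrivial whenever Q is a nontrivial finite p-group, and every isomorphism from a finite p-group Q onto a group R carries W(Q) onto W(R)). Suppose that G* = C_{G*}(Ω₁Z(S*)) N_{G*}(W₁(S*)) = C_{G*}(Ω₁Z(S*)) N_{G*}(W₂(S*)) = N_{G*}(W₁(S*)) N_{G*}(W₂(S*)) whenever G* = K/R is a section of G with C_{G*}(O_p(G*)) ≤ O_p(G*) and S* is a Sylow p-subgroup of G*, where Ω₁Z denotes the subgroup generated by the elements of order dividing p in the centre. Suppose also Ω₁Z(S) ≤ W₁(S) ∩ W₂(S), and let A be the normal closure of Ω₁Z(S) in N_G(W₁(S)). Then A is an elementary abelian subgroup of S, strongly closed in S with respect to G, and A controls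 strong fusion in G. -/
theorem result {G : Type u} [Group G] [Finite G] {p : ℕ} [Fact p.Prime] (S : Sylow p G) (W₁ W₂ : ∀ (Q : Type u) [Group Q], Subgroup Q) (hW₁ : Cfsg.IsCharPFunctor.{u} p W₁) (hW₂ : Cfsg.IsCharPFunctor.{u} p W₂) (hfac : ∀ (K R : Subgroup G) [hR : (R.subgroupOf K).Normal], Subgroup.centralizer ((Cfsg.pCore p (↥K ⧸ R.subgroupOf K) : Subgroup (↥K ⧸ R.subgroupOf K)) : Set (↥K ⧸ R.subgroupOf K)) ≤ Cfsg.pCore p (↥K ⧸ R.subgroupOf K) → ∀ T : Sylow p (↥K ⧸ R.subgroupOf K), (∀ x : (↥K ⧸ R.subgroupOf K), ∃ a ∈ Subgroup.centralizer ((Cfsg.omegaOne p ((T : Subgroup (↥K ⧸ R.subgroupOf K)) ⊓ Subgroup.centralizer (((T : Subgroup (↥K ⧸ R.subgroupOf K)) : Subgroup (↥K ⧸ R.subgroupOf K)) : Set (↥K ⧸ R.subgroupOf K))) : Subgroup (↥K ⧸ R.subgroupOf K)) : Set (↥K ⧸ R.subgroupOf K)), ∃ b ∈ Subgroup.normalizer ((Cfsg.inducedFunctor (G := (↥K ⧸ R.subgroupOf K)) W₁ (T : Subgroup (↥K ⧸ R.subgroupOf K)) : Subgroup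 (↥K ⧸ R.subgroupOf K)) : Set (↥K ⧸ R.subgroupOf K)), x = a * b) ∧ (∀ x : (↥K ⧸ R.subgroupOf K), ∃ a ∈ Subgroup.centralizer ((Cfsg.omegaOne p ((T : Subgroup (↥K ⧸ R.subgroupOf K)) ⊓ Subgroup.centralizer (((T : Subgroup (↥K ⧸ R.subgroupOf K)) : Subgroup (↥K ⧸ R.subgroupOf K)) : Set (↥K ⧸ R.subgroupOf K))) : Subgroup (↥K ⧸ R.subgroupOf K)) : Set (↥K ⧸ R.subgroupOf K)), ∃ b ∈ Subgroup.normalizer ((Cfsg.inducedFunctor (G := (↥K ⧸ R.subgroupOf K)) W₂ (T : Subgroup (↥K ⧸ R.subgroupOf K)) : Subgroup (↥K ⧸ R.subgroupOf K)) : Set (↥K ⧸ R.subgroupOf K)), x = a * b) ∧ (∀ x : (↥K ⧸ R.subgroupOf K), ∃ a ∈ Subgroup.normalizer ((Cfsg.inducedFunctor (G := (↥K ⧸ R.subgroupOf K)) W₁ (T : Subgroup (↥K ⧸ R.subgroupOf K)) : Subgroup (↥K ⧸ R.subgroupOf K)) : Set (↥K ⧸ R.subgroupOf K)), ∃ b ∈ Subgroup.normalizer ((Cfsg.inducedFunctor (G := (↥K ⧸ R.subgroupOf K)) W₂ (T : Subgroup (↥K ⧸ R.subgroupOf K)) : Subgroup (↥K ⧸ R.subgroupOf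 K)) : Set (↥K ⧸ R.subgroupOf K)), x = a * b)) (hZ : Cfsg.omegaOne p ((S : Subgroup G) ⊓ Subgroup.centralizer (((S : Subgroup G) : Subgroup G) : Set G)) ≤ Cfsg.inducedFunctor (G := G) W₁ (S : Subgroup G) ⊓ Cfsg.inducedFunctor (G := G) W₂ (S : Subgroup G)) (N₁ : Subgroup G) (hN₁ : N₁ = Subgroup.normalizer ((Cfsg.inducedFunctor (G := G) W₁ (S : Subgroup G) : Subgroup G) : Set G)) (A : Subgroup G) (hA : A = (Subgroup.normalClosure (((Cfsg.omegaOne p ((S : Subgroup G) ⊓ Subgroup.centralizer (((S : Subgroup G) : Subgroup G) : Set G))).subgroupOf N₁ : Subgroup ↥N₁) : Set ↥N₁)).map N₁.subtype) : A ≤ (S : Subgroup G) ∧ Cfsg.IsElementaryAbelian p A ∧ Cfsg.IsStronglyClosed A (S : Subgroup G) ∧ Cfsg.ControlsStrongFusion p A := by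
  classical
  subst hN₁
  set U := inducedFunctor (G := G) W₁ (S : Subgroup G) with hU
  set N₁ := normalizer ((U : Subgroup G) : Set G) with hN₁
  have hUS : U ≤ (S : Subgroup G) := (isConjugacyFunctor_iW hW₁ _ S.isPGroup').1
  have hZ₁ : ZZ p (S : Subgroup G) ≤ U := hZ.trans inf_le_left
  have hUN : U ≤ N₁ := le_normalizer
  -- identify `A`
  have hAeq : A = BBH p ⊤ W₁ (S : Subgroup G) := by
    apply le_antisymm
    · rw [hA, Subgroup.map_le_iff_le_comap]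
      haveI : ((BBH p ⊤ W₁ (S : Subgroup G)).comap N₁.subtype).Normal := by
        refine ⟨fun x hx n => ?_⟩
        exact conj_mem_BBH (mem_top _) n.2 hx
      refine Subgroup.normalClosure_le_normal ?_
      intro z hz
      have h1 : (z : G) ∈ ZZ p (S : Subgroup G) := hz
      have := mem_BBH (H := ⊤) (W := W₁) (n := 1) (mem_top _) (one_mem _) h1
      have h3 : (z : G) ∈ BBH p ⊤ W₁ (S : Subgroup G) := by simpa using this
      exact h3
    · refine (closure_le _).2 ?_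
      rintro _ ⟨n, ⟨-, hn⟩, z, hz, rfl⟩
      rw [hA]
      have hzN : z ∈ N₁ := hUN (hZ₁ hz)
      have h1 : (⟨z, hzN⟩ : N₁) ∈ Subgroup.normalClosure (((ZZ p (S : Subgroup G)).subgroupOf N₁ : Subgroup N₁) : Set N₁) :=
        Subgroup.subset_normalClosure hz
      have h2 := (Subgroup.normalClosure_normal (s := (((ZZ p (S : Subgroup G)).subgroupOf N₁ : Subgroup N₁) : Set N₁))).conj_mem _ h1 ⟨n, hn⟩
      exact ⟨_, h2, rfl⟩
  -- the elements of the section class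
  have hF₁ : ∀ (X : Type u) [Group X] [Finite X], IsSec X G → FacW p W₁ X := by
    intro X _ _ hX
    obtain ⟨K, R, hR, ⟨e⟩⟩ := hX.exists_equiv
    haveI : Finite (↥K ⧸ R.subgroupOf K) := Finite.of_equiv X e.toEquiv
    refine FacW.of_equiv hW₁ e ?_
    intro hc T x
    exact (hfac K R hc T).1 x
  have hF₂ : ∀ (X : Type u) [Group X] [Finite X], IsSec X G → FacW p W₂ X := by
    intro X _ _ hX
    obtain ⟨K, R, hR, ⟨e⟩⟩ := hX.exists_equiv
    haveI : Finite (↥K ⧸ R.subgroupOf K) := Finite.of_equiv X e.toEquiv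
    refine FacW.of_equiv hW₂ e ?_
    intro hc T x
    exact (hfac K R hc T).2.1 x
  have hBB : BBH p ⊤ W₁ (S : Subgroup G) = BBH p ⊤ W₂ (S : Subgroup G) :=
    main hW₁ hW₂ (fun X _ => IsSec X G) (fun X _ H h => (IsSec.subgroup H).trans h)
      (fun X _ N _ h => (IsSec.quotient N).trans h) hF₁ hF₂ _ G rfl (IsSec.refl G) S hZ
  have hBU : BBH p ⊤ W₁ (S : Subgroup G) ≤ U := by
    refine (closure_le _).2 ?_
    rintro _ ⟨n, ⟨-, hn⟩, z, hz, rfl⟩
    exact (Subgroup.mem_normalizer_iff.1 hn z).1 (hZ₁ hz)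
  have hBC : BBH p ⊤ W₁ (S : Subgroup G) ≤ centralizer (U : Set G) := by
    refine (closure_le _).2 ?_
    rintro _ ⟨n, ⟨-, hn⟩, z, hz, rfl⟩
    refine mem_centralizer_iff.2 fun u hu => ?_
    have h1 : n⁻¹ * u * n ∈ U := by
      have := (Subgroup.mem_normalizer_iff.1 (inv_mem hn) u).1 hu
      simpa using this
    have h2 := (mem_centralizer_iff.1 (ZZ_le _ hz).2) _ (hUS h1)
    have e1 : u * (n * z * n⁻¹) = n * ((n⁻¹ * u * n) * z) * n⁻¹ := by group
    have e2 : n * z * n⁻¹ * u = n * (z * (n⁻¹ * u * n)) * n⁻¹ := by group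
    rw [e1, e2, h2]
  have hcomm : ∀ x ∈ BBH p ⊤ W₁ (S : Subgroup G), ∀ y ∈ BBH p ⊤ W₁ (S : Subgroup G), x * y = y * x := by
    intro x hx y hy
    exact ((mem_centralizer_iff.1 (hBC hy)) x (hBU hx))
  have hzp : ∀ z ∈ ZZ p (S : Subgroup G), z ^ p = 1 := by
    refine pow_of_closure (fun x hx => hx.2) ?_
    intro x hx y hy
    exact ((mem_centralizer_iff.1 (ZZ_le _ hy).2) x (ZZ_le _ hx).1)
  have hpow : ∀ x ∈ BBH p ⊤ W₁ (S : Subgroup G), x ^ p = 1 := by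
    refine pow_of_closure ?_ hcomm
    rintro _ ⟨n, -, z, hz, rfl⟩
    rw [conj_pow, hzp z hz]
    simp
  -- the chains
  have hFam := Cfsg.Agent.S1996.result W₁ W₂ hW₁ hW₂ (fun K R hR hc T x => (hfac K R hc T).2.2 x)
  have h𝓦 : ∀ W' ∈ ({W₁, W₂} : Set WT.{u}), IsCharPFunctor.{u} p W' := by
    rintro _ (rfl | rfl)
    · exact hW₁
    · exact hW₂
  have e : IF ({W₁, W₂} : Set WT.{u}) G = {inducedFunctor (G := G) W₁, inducedFunctor (G := G) W₂} := Set.image_pair _ _ _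
  rw [← e] at hFam
  have hFF := FF_of_control h𝓦 hFam S
  have hNA : ∀ W ∈ IF ({W₁, W₂} : Set WT.{u}) G, Nz (W (S : Subgroup G)) ≤ Nz A := by
    rintro _ ⟨W, hW, rfl⟩ n hn
    rw [hAeq]
    rcases hW with rfl | rfl
    · exact mem_Nz_BBH hn
    · rw [hBB]
      exact mem_Nz_BBH hn
  have hAS : A ≤ (S : Subgroup G) := by
    rw [hAeq]
    exact hBU.trans hUS
  refine ⟨hAS, ⟨?_, ?_⟩, ⟨hAS, ?_⟩, ⟨S, hAS, ?_⟩⟩
  · subst hAeq
    refine ⟨⟨fun a b => ?_⟩⟩
    exact Subtype.ext (hcomm _ a.2 _ b.2)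
  · rw [hAeq]
    exact hpow
  · intro x hx g hg
    have hB : zpowers x ≤ (S : Subgroup G) := by
      rw [zpowers_le]
      exact hAS hx
    have hgB : cj g (zpowers x) ≤ (S : Subgroup G) := by
      rintro _ ⟨y, ⟨k, rfl⟩, rfl⟩
      have : (MulAut.conj g).toMonoidHom ((fun k => x ^ k) k) = (g * x * g⁻¹) ^ k := by
        simp [MulAut.conj_apply, conj_zpow]
      rw [this]
      exact zpow_mem hg k
    obtain ⟨c, hc, hag⟩ := hFF (zpowers x) hB g hgB
    have hcN := chain_mem hNA hc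
    rw [← hag x (mem_zpowers x)]
    exact (Subgroup.mem_normalizer_iff.1 hcN x).1 hx
  · intro A' hA'
    refine ⟨hA', fun g hg => ?_⟩
    have hB : closure A' ≤ (S : Subgroup G) := (closure_le _).2 hA'
    have hgB : cj g (closure A') ≤ (S : Subgroup G) := by
      rw [cj, MonoidHom.map_closure, closure_le]
      rintro _ ⟨a, ha, rfl⟩
      exact hg ⟨a, ha, rfl⟩
    obtain ⟨c, hc, hag⟩ := hFF (closure A') hB g hgB
    exact ⟨c, chain_mem hNA hc, fun a ha => (hag a (subset_closure ha)).symm⟩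


end Cfsg.Agent.S1997
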