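import Cfsg.Statements.S1998
import Cfsg.Agent.Lib.Transfer.TransferReduction
import Cfsg.Agent.Lib.Transfer.EngelCore
import Cfsg.Agent.Lib.Transfer.Frobenius

open Cfsg.Agent.Lib.Transfer.WellPlaced Cfsg.Agent.Lib.Transfer.WellPlacedControl Cfsg.Agent.Lib.Transfer.FamilyControl Cfsg.Agent.Lib.Transfer.SectionBasic Cfsg.Agent.Lib.Transfer.TransferReduction Cfsg.Agent.Lib.Basic.PCore Subgroup

set_option autoImplicit false
universe u
open Cfsg

namespace Cfsg.Agent.S1998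

open scoped commutatorElement

/-- `FT` under isomorphisms. -/
theorem FT_congr {X Y : Type u} [Group X] [Group Y] [Finite X] [Finite Y] {p : ℕ} [Fact p.Prime]
    {𝓦 : Set WT.{u}} (h𝓦 : ∀ W ∈ 𝓦, IsCharPFunctor.{u} p W) (e : X ≃* Y) (h : FT p 𝓦 X) :
    FT p 𝓦 Y := by
  intro S
  let S₁ : Sylow p X := Sylow.mapSurjective (f := e.symm.toMonoidHom) e.symm.surjective S
  have hS₁ : (S₁ : Subgroup X).map e.toMonoidHom = S := by
    show ((S : Subgroup Y).map e.symm.toMonoidHom).map e.toMonoidHom = S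
    ext y
    simp
  rintro y ⟨hy1, hy2⟩
  have hx1 : e.symm y ∈ (S₁ : Subgroup X) := ⟨y, hy1, rfl⟩
  have hx2 : e.symm y ∈ commutator X := map_mem_commutator e.symm.toMonoidHom hy2
  have h1 := h S₁ ⟨hx1, hx2⟩
  have h2 := DD_map_equiv h𝓦 e S₁.isPGroup' ⟨_, h1, rfl⟩
  rw [hS₁] at h2
  simpa using h2

/-- Let p be a prime, G a finite group with Sylow p-subgroup S, and 𝓦 a nonempty set of isomorphism-invariant p-group functors (W assigns to every group Q a subgroup W(Q), nontrivial whenever Q is a nontrivial finite p-group, and every isomorphism from a finite p-group Q onto a group R carries W(Q) onto W(R)). Suppose the induced conjugacy functors control transfer in every section of G other than G itself, but not in G. Let T be the subgroup generated by the S ∩ (N_G(W(S)))', W ∈ 𝓦, and M = N_G(T ∩ O_p(G)). Then: C_G(O_p(G)) ≤ O_p(G); M is a proper subgroup of G containing every proper subgroup of G that contains S (the unique maximal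 subgroup over S); [O_p(G), M] ≤ O_p(G) ∩ M' ≤ O_p(G) ∩ T; and every element u of S outside O_p(G) satisfies [X, u, …, u] ≰ Y with p − 1 entries u, for some chief factor X/Y of G with X ≤ O_p(G). -/
theorem result {G : Type u} [Group G] [Finite G] {p : ℕ} [Fact p.Prime] (S : Sylow p G) (𝓦 : Set (∀ (Q : Type u) [Group Q], Subgroup Q)) (h𝓦 : ∀ W ∈ 𝓦, Cfsg.IsCharPFunctor.{u} p W) (hne : 𝓦.Nonempty) (hsec : ∀ (K R : Subgroup G) [hR : (R.subgroupOf K).Normal], (K = ⊤ → R ≠ ⊥) → Cfsg.FamilyControlsTransferIn p ((fun W => Cfsg.inducedFunctor (G := (↥K ⧸ R.subgroupOf K)) W) '' 𝓦) ⊤) (hG : ¬ Cfsg.FamilyControlsTransferIn p ((fun W => Cfsg.inducedFunctor (G := G) W) '' 𝓦) ⊤) (T M : Subgroup G) (hT : T = (⨆ W ∈ 𝓦, (S : Subgroup G) ⊓ ⁅Subgroup.normalizer ((Cfsg.inducedFunctor (G := G) W (S : Subgroup G) : Subgroup G) : Set G), Subgroup.normalizer ((Cfsg.inducedFunctor (G := G) W (S : Subgroup G) : Subgroup G) : Set G)⁆)) (hM : M = Subgroup.normalizer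 ((T ⊓ Cfsg.pCore p G : Subgroup G) : Set G)) : Subgroup.centralizer ((Cfsg.pCore p G : Subgroup G) : Set G) ≤ Cfsg.pCore p G ∧ (M ≠ ⊤ ∧ ∀ H : Subgroup G, (S : Subgroup G) ≤ H → H ≠ ⊤ → H ≤ M) ∧ (⁅Cfsg.pCore p G, M⁆ ≤ Cfsg.pCore p G ⊓ ⁅M, M⁆ ∧ Cfsg.pCore p G ⊓ ⁅M, M⁆ ≤ Cfsg.pCore p G ⊓ T) ∧ ∀ u : G, u ∈ (S : Subgroup G) → u ∉ Cfsg.pCore p G → ∃ U V : Subgroup G, Cfsg.IsChiefFactor U V ∧ U ≤ Cfsg.pCore p G ∧ ¬ Cfsg.iterCommutator U (Subgroup.zpowers u) (p - 1) ≤ V := by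
  classical
  have hFTsub : ∀ H : Subgroup G, H ≠ ⊤ → FT p 𝓦 H := by
    intro H hH
    haveI : ((⊥ : Subgroup G).subgroupOf H).Normal := by
      rw [Subgroup.bot_subgroupOf]
      infer_instance
    have h1 := hsec H ⊥ (fun h => absurd h hH)
    have h2 := FT_of_familyControls h𝓦 h1
    have e : (↥H ⧸ (⊥ : Subgroup G).subgroupOf H) ≃* H :=
      (QuotientGroup.quotientMulEquivOfEq (Subgroup.bot_subgroupOf H)).trans
        QuotientGroup.quotientBot
    exact FT_congr h𝓦 e h2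
  have hFTquot : ∀ (D : Subgroup G) [D.Normal], D ≠ ⊥ → FT p 𝓦 (G ⧸ D) := by
    intro D _ hD
    have h1 := hsec ⊤ D (fun _ => hD)
    have h2 := FT_of_familyControls h𝓦 h1
    let f : ↥(⊤ : Subgroup G) →* G ⧸ D := (QuotientGroup.mk' D).comp (⊤ : Subgroup G).subtype
    have hf : Function.Surjective f := fun y => by
      obtain ⟨x, rfl⟩ := QuotientGroup.mk'_surjective D y
      exact ⟨⟨x, mem_top x⟩, rfl⟩
    have hker : f.ker = D.subgroupOf ⊤ := by
      ext x
      simp [f, Subgroup.mem_subgroupOf]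
    exact FT_congr h𝓦 ((QuotientGroup.quotientMulEquivOfEq hker.symm).trans
      (QuotientGroup.quotientKerEquivOfSurjective f hf)) h2
  have hnFT : ¬ FT p 𝓦 G := fun h => hG (familyControls_of_FT h)
  have hT' : T = DD 𝓦 (S : Subgroup G) := hT
  have hnS : ¬ ((S : Subgroup G) ⊓ commutator G ≤ T) := by
    rw [hT']
    intro h
    apply hG
    refine ⟨S, le_top, S.isPGroup', by rw [Subgroup.relIndex_top_right]; exact S.not_dvd_index, ?_⟩
    apply le_antisymm
    · refine h.trans ?_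
      refine iSup₂_le fun W hW => ?_
      refine le_iSup₂_of_le (inducedFunctor W) ⟨W, hW, rfl⟩ ?_
      simp only [top_inf_eq]
      exact le_rfl
    · refine iSup₂_le ?_
      rintro _ ⟨W, hW, rfl⟩
      exact inf_le_inf_left _ (Subgroup.commutator_mono le_top le_top)
  set Q : Subgroup G := pCore p G with hQ
  haveI hQn : Q.Normal := pCore_normal p G
  have hQp : IsPGroup p Q := pCore_isPGroup p
  have hQS : Q ≤ S := pCore_le_sylow S
  -- (a)
  have ha : centralizer (Q : Set G) ≤ Q := by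
    by_contra hnc
    exact hnFT (FT_of_local h𝓦 hFTsub hFTquot (fun hc => absurd hc hnc))
  have hQ1 : Q ≠ ⊥ := by
    intro h
    apply hnS
    rw [hT']
    exact ft_step_nocore h𝓦 S h hFTsub
  have hcore : ¬ (Q ⊓ commutator G ≤ T) := by
    intro h
    apply hnS
    rw [hT'] at h ⊢
    exact ft_step_core h𝓦 S h hFTsub (hFTquot Q hQ1)
  have hHT : ∀ H : Subgroup G, (S : Subgroup G) ≤ H → H ≠ ⊤ → (S : Subgroup G) ⊓ ⁅H, H⁆ ≤ T := by
    intro H hSH hH
    rw [hT']
    exact ft_subgroup_le_DD h𝓦 (hFTsub H hH) S hSH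
  have hTS : T ≤ S := by
    rw [hT']
    exact DD_le_self _
  -- a functor
  obtain ⟨W₀, hW₀⟩ := hne
  have hWf := isConjugacyFunctor_iW (X := G) (h𝓦 W₀ hW₀)
  set N₀ : Subgroup G := Nz (inducedFunctor W₀ (S : Subgroup G)) with hN₀
  have hSN₀ : (S : Subgroup G) ≤ N₀ := (le_Nz_self _).trans (Nz_le_Nz_W hWf S.isPGroup')
  have hN₀ne : N₀ ≠ ⊤ := by
    intro htop
    apply hnS
    have h1 : (S : Subgroup G) ⊓ ⁅N₀, N₀⁆ ≤ T := by
      rw [hT']
      exact le_DD hW₀ _
    rw [htop] at h1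
    rwa [← commutator_def] at h1
  have hST : ⁅(S : Subgroup G), (S : Subgroup G)⁆ ≤ T := by
    have h1 : (S : Subgroup G) ⊓ ⁅N₀, N₀⁆ ≤ T := by
      rw [hT']
      exact le_DD hW₀ _
    refine le_trans (le_inf ?_ (Subgroup.commutator_mono hSN₀ hSN₀)) h1
    exact Subgroup.commutator_le_self _
  set J : Subgroup G := T ⊓ Q with hJ
  have hJle : ∀ H : Subgroup G, (S : Subgroup G) ≤ H → H ≠ ⊤ → H ≤ normalizer (J : Set G) := by
    intro H hSH hH h hh
    refine Cfsg.Agent.Lib.Transfer.Frobenius.mem_normalizer_of_conj_mem fun x hx => ?_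
    have hxQ : x ∈ Q := (mem_inf.mp hx).2
    have hcommQ : h * x * h⁻¹ * x⁻¹ ∈ Q := mul_mem (hQn.conj_mem x hxQ h) (inv_mem hxQ)
    have hcomm : h * x * h⁻¹ * x⁻¹ ∈ T := by
      refine hHT H hSH hH (mem_inf.mpr ⟨hQS hcommQ, ?_⟩)
      have e : h * x * h⁻¹ * x⁻¹ = ⁅h, x⁆ := rfl
      rw [e]
      exact Subgroup.commutator_mem_commutator hh (hSH (hQS hxQ))
    have e : h * x * h⁻¹ = (h * x * h⁻¹ * x⁻¹) * x := by group
    rw [e]
    exact mul_mem (mem_inf.mpr ⟨hcomm, hcommQ⟩) hx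
  have hMne : M ≠ ⊤ := by
    intro htop
    rw [hM] at htop
    haveI hJn : J.Normal := normalizer_eq_top_iff.mp htop
    let π : G →* G ⧸ J := QuotientGroup.mk' J
    have hπs : Function.Surjective π := QuotientGroup.mk'_surjective J
    haveI hQb : (Q.map π).Normal := Subgroup.Normal.map hQn π hπs
    let C : Subgroup G := (centralizer ((Q.map π : Subgroup (G ⧸ J)) : Set (G ⧸ J))).comap π
    haveI hCn : C.Normal := Subgroup.Normal.comap inferInstance π
    have hCH : ∀ H : Subgroup G, (S : Subgroup G) ≤ H → H ≠ ⊤ → H ≤ C := by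
      intro H hSH hH h hh
      rw [mem_comap, mem_centralizer_iff]
      rintro _ ⟨q, hq, rfl⟩
      have hcommQ : h * q * h⁻¹ * q⁻¹ ∈ Q := mul_mem (hQn.conj_mem q hq h) (inv_mem hq)
      have hcomm : h * q * h⁻¹ * q⁻¹ ∈ T := by
        refine hHT H hSH hH (mem_inf.mpr ⟨hQS hcommQ, ?_⟩)
        have e : h * q * h⁻¹ * q⁻¹ = ⁅h, q⁆ := rfl
        rw [e]
        exact Subgroup.commutator_mem_commutator hh (hSH (hQS hq))
      have h1 : π (h * q * h⁻¹ * q⁻¹) = 1 :=
        (QuotientGroup.eq_one_iff _).mpr (mem_inf.mpr ⟨hcomm, hcommQ⟩)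
      simp only [map_mul, map_inv] at h1
      have h2 : π h * π q = π q * π h := by
        have h3 := congrArg (· * (π q * π h)) h1
        simpa [mul_assoc] using h3
      exact h2.symm
    have hN₀C := hCH N₀ hSN₀ hN₀ne
    have hSC : (S : Subgroup G) ≤ C := hSN₀.trans hN₀C
    have hNSC : normalizer ((S : Subgroup G) : Set G) ≤ C :=
      (Nz_le_Nz_W hWf S.isPGroup').trans hN₀C
    have htopC : C = ⊤ := by
      have h1 := Sylow.normalizer_sup_eq_top' S hSC
      rw [eq_top_iff, ← h1]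
      exact sup_le hNSC le_rfl
    apply hcore
    intro x hx
    obtain ⟨hxQ, hxc⟩ := mem_inf.mp hx
    let Sb : Sylow p (G ⧸ J) := S.mapSurjective hπs
    have hSb : (Sb : Subgroup (G ⧸ J)) = (S : Subgroup G).map π := rfl
    have hcen : ∀ y : G ⧸ J, y * π x = π x * y := by
      intro y
      obtain ⟨y, rfl⟩ := hπs y
      have h1 : y ∈ C := by rw [htopC]; trivial
      rw [mem_comap, mem_centralizer_iff] at h1
      exact (h1 (π x) ⟨x, hxQ, rfl⟩).symm
    have h2 := central_mem_commutator Sb (z := π x) ⟨x, hQS hxQ, rfl⟩ hcen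
      (map_mem_commutator π hxc)
    rw [hSb, ← Subgroup.map_commutator] at h2
    obtain ⟨y, hy, hyx⟩ := h2
    have hy' : y⁻¹ * x ∈ J := QuotientGroup.eq.mp hyx
    have e : x = y * (y⁻¹ * x) := by group
    rw [e]
    exact mul_mem (hST hy) (mem_inf.mp hy').1
  have hMle : ∀ H : Subgroup G, (S : Subgroup G) ≤ H → H ≠ ⊤ → H ≤ M := by
    intro H hSH hH
    rw [hM]
    exact hJle H hSH hH
  have hSM : (S : Subgroup G) ≤ M := hSN₀.trans (hMle N₀ hSN₀ hN₀ne)
  refine ⟨ha, ⟨hMne, hMle⟩, ⟨?_, ?_⟩, ?_⟩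
  · refine le_inf (Subgroup.commutator_le_left Q M) ?_
    exact Subgroup.commutator_mono (hQS.trans hSM) le_rfl
  · intro x hx
    obtain ⟨h1, h2⟩ := mem_inf.mp hx
    exact mem_inf.mpr ⟨h1, hHT M hSM hMne (mem_inf.mpr ⟨hQS h1, h2⟩)⟩
  · intro u huS huQ
    by_contra hcon
    push Not at hcon
    apply hcore
    refine Cfsg.Agent.Lib.Transfer.EngelCore.core_le_of_engel S T hTS hST u huS huQ ?_ ?_
    · intro U V hc hU
      exact hcon U V hc hU
    · intro H hH hSH
      exact hHT H hSH hH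

end Cfsg.Agent.S1998
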