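import Cfsg.Statements.S2004
import Mathlib
import Cfsg.Agent.Lib.PGroup.QuadLocal
import Cfsg.Agent.S0274
-- import your own Cfsg.Agent.* helpers here

set_option autoImplicit false
open Cfsg

namespace Cfsg.Agent.S2004

/-- Let p be an odd prime and G a finite group such that SL₂(p) is not involved in N_G(P) for any nonidentity p-subgroup P of G. Then every section of G is p-stable in the normalizer form: in each section, whenever an element of the normalizer of a p-subgroup Q acts quadratically on Q, its image in N(Q)/C(Q) lies in O_p(N(Q)/C(Q)). -/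
theorem result {G : Type*} [Group G] [Finite G] {p : ℕ} [Fact p.Prime] (hp : p ≠ 2) (h : ∀ P : Subgroup G, IsPGroup p ↥P → P ≠ ⊥ → ¬ Cfsg.Involves (Matrix.SpecialLinearGroup (Fin 2) (ZMod p)) ↥(Subgroup.normalizer ((P : Subgroup G) : Set G))) : ∀ (K R : Subgroup G) [hR : (R.subgroupOf K).Normal], Cfsg.IsNormalizerPStable p (↥K ⧸ R.subgroupOf K) := by
  intro K R _
  refine Cfsg.Agent.Lib.PGroup.QuadLocal.normalizer_stable_of_section
    (fun F _ _ _ H hH => Cfsg.Agent.S0274.result p hp H hH) hp ?_ K R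
  intro P hP hP1 hsec
  obtain ⟨K₁, Φ, hΦ⟩ := hsec
  obtain ⟨R₁, hR₁, ⟨e⟩⟩ := Cfsg.Agent.Lib.PGroup.QdSplit.quotient_form hΦ
  exact h P hP hP1 ⟨K₁, R₁, hR₁, ⟨e⟩⟩

end Cfsg.Agent.S2004
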