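import Cfsg.Statements.S2007
import Mathlib
import Cfsg.Agent.Lib.Transfer.GrunResidual

set_option autoImplicit false
open Cfsg

namespace Cfsg.Agent.S2007

open Cfsg.Agent.Lib.Transfer.Basic Cfsg.Agent.Lib.Transfer.GrunResidual Subgroup

/-- Let p be a prime, G a finite group with Sylow p-subgroup S, and T a normal subgroup of S containing C_S(T). If N_G(T)/C_G(T) is a p-group (every element of N_G(T) of order prime to p centralizes T), then N_G(T) has a normal p-complement. -/
theorem result {G : Type*} [Group G] [Finite G] {p : ℕ} [Fact p.Prime] (S : Sylow p G) (T : Subgroup G) (hTS : T ≤ (S : Subgroup G)) (hTn : (S : Subgroup G) ≤ Subgroup.normalizer ((T : Subgroup G) : Set G)) (hC : (S : Subgroup G) ⊓ Subgroup.centralizer ((T : Subgroup G) : Set G) ≤ T) (hN : ∀ g ∈ Subgroup.normalizer ((T : Subgroup G) : Set G), (orderOf g).Coprime p → g ∈ Subgroup.centralizer ((T : Subgroup G) : Set G)) : Cfsg.HasNormalPComplement p ↥(Subgroup.normalizer ((T : Subgroup G) : Set G)) := by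
  classical
  set N₀ : Subgroup G := normalizer (T : Set G) with hN₀
  set C : Subgroup G := centralizer (T : Set G) with hCdef
  have hCN : C ≤ N₀ := by
    intro c hc
    rw [hN₀, mem_normalizer_iff]
    intro t
    have hcent : ∀ x ∈ T, c * x * c⁻¹ = x := by
      intro x hx
      have := mem_centralizer_iff.1 hc x hx
      rw [mul_inv_eq_iff_eq_mul]
      exact this.symm
    constructor
    · intro ht
      rwa [hcent t ht]
    · intro ht
      have h1 := hcent _ ht
      have h2 : c * t * c⁻¹ = t := by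
        calc c * t * c⁻¹ = c⁻¹ * (c * (c * t * c⁻¹) * c⁻¹) * c := by group
          _ = c⁻¹ * (c * t * c⁻¹) * c := by rw [h1]
          _ = t := by group
      rwa [h2] at ht
  have hCnorm : ∀ n ∈ N₀, ∀ c ∈ C, n * c * n⁻¹ ∈ C := by
    intro n hn c hc
    rw [hCdef, mem_centralizer_iff]
    intro t ht
    have ht' : t ∈ T := ht
    have h1 : n⁻¹ * t * n ∈ T := (mem_normalizer_iff''.1 hn t).1 ht'
    have h2 := mem_centralizer_iff.1 hc _ h1
    calc t * (n * c * n⁻¹) = n * ((n⁻¹ * t * n) * c) * n⁻¹ := by group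
      _ = n * (c * (n⁻¹ * t * n)) * n⁻¹ := by rw [h2]
      _ = n * c * n⁻¹ * t := by group
  -- S is Sylow in N₀
  have hSN : SylowIn p (S : Subgroup G) N₀ := (sylowIn_top S).of_le hTn le_top
  -- Sylow p-subgroups of C are central in C
  obtain ⟨P'⟩ : Nonempty (Sylow p C) := inferInstance
  have hPT : ∀ x ∈ (P' : Subgroup C), (x : G) ∈ T := by
    intro x hx
    let P : Subgroup G := (P' : Subgroup C).map C.subtype
    have hPp : IsPGroup p P := P'.isPGroup'.map _
    have hPN : P ≤ N₀ := (Subgroup.map_subtype_le _).trans hCN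
    obtain ⟨g, hg, hgP⟩ := hSN.conj P hPN hPp
    have hxP : (x : G) ∈ P := ⟨x, hx, rfl⟩
    have h1 := hgP _ hxP
    have h2 : g * x * g⁻¹ ∈ C := hCnorm g hg _ x.2
    have h3 : g * x * g⁻¹ ∈ T := hC ⟨h1, h2⟩
    have h4 := (mem_normalizer_iff.1 hg x).2 h3
    exact h4
  have hle : normalizer ((P' : Subgroup C) : Set C) ≤ centralizer (P' : Set C) := by
    intro c _
    rw [mem_centralizer_iff]
    intro x hx
    have h1 := hPT x hx
    have h2 := mem_centralizer_iff.1 c.2 _ h1
    apply Subtype.ext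
    exact h2
  have hcompl := MonoidHom.ker_transferSylow_isComplement' P' hle
  set K' : Subgroup C := (MonoidHom.transferSylow P' hle).ker with hK'
  haveI hK'n : K'.Normal := MonoidHom.normal_ker _
  have hK'card : (Nat.card K').Coprime p := coprime_card_of_isComplement' hcompl
  have hK'q : IsPGroup p (C ⧸ K') := isPGroup_quotient_of_isComplement' hcompl
  have hK'mem : ∀ x : C, x ∈ K' ↔ Nat.Coprime (orderOf (x : G)) p := by
    intro x
    rw [mem_iff_coprime_of_normal K' hK'card hK'q x, Subgroup.orderOf_coe]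
  -- the subgroup of N₀
  let K₀ : Subgroup N₀ := (K'.map C.subtype).subgroupOf N₀
  have hK₀mem : ∀ x : N₀, x ∈ K₀ ↔ (x : G) ∈ C ∧ Nat.Coprime (orderOf (x : G)) p := by
    intro x
    rw [Subgroup.mem_subgroupOf]
    constructor
    · rintro ⟨y, hy, hyx⟩
      have hyx' : (y : G) = x := hyx
      rw [← hyx']
      exact ⟨y.2, (hK'mem y).1 hy⟩
    · rintro ⟨h1, h2⟩
      exact ⟨⟨x, h1⟩, (hK'mem _).2 h2, rfl⟩
  have hK₀n : K₀.Normal := by
    constructor
    intro x hx n
    rw [hK₀mem] at hx ⊢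
    refine ⟨hCnorm _ n.2 _ hx.1, ?_⟩
    have h1 : ((n * x * n⁻¹ : N₀) : G) = (n : G) * x * (n : G)⁻¹ := by simp
    rw [h1, orderOf_conj_eq]
    exact hx.2
  refine hasNormalPComplement_iff.2 ⟨K₀, hK₀n, ?_, ?_⟩
  · -- order
    have hle2 : K'.map C.subtype ≤ N₀ := (Subgroup.map_subtype_le _).trans hCN
    have h1 : Nat.card K₀ = Nat.card K' := by
      have e1 : K₀ ≃* (K'.map C.subtype : Subgroup G) := Subgroup.subgroupOfEquivOfLe hle2
      have e2 : K' ≃* (K'.map C.subtype : Subgroup G) :=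
        K'.equivMapOfInjective C.subtype C.subtype_injective
      exact (Nat.card_congr e1.toEquiv).trans (Nat.card_congr e2.toEquiv).symm
    rw [h1]
    exact hK'card
  · -- quotient
    intro q
    obtain ⟨x, rfl⟩ := QuotientGroup.mk_surjective q
    obtain ⟨a, b, rfl, -, -, -, ⟨k, hk⟩, hb⟩ := exists_pPart_decomp (p := p) x
    have hbK : b ∈ K₀ := by
      rw [hK₀mem]
      have hb' : Nat.Coprime (orderOf (b : G)) p := by rwa [Subgroup.orderOf_coe]
      exact ⟨hN _ b.2 hb', hb'⟩
    have hb1 : (QuotientGroup.mk b : N₀ ⧸ K₀) = 1 := (QuotientGroup.eq_one_iff b).2 hbK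
    refine ⟨k, ?_⟩
    rw [QuotientGroup.mk_mul, hb1, mul_one, ← QuotientGroup.mk_pow, ← hk, pow_orderOf_eq_one,
      QuotientGroup.mk_one]

end Cfsg.Agent.S2007
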