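import Cfsg.Statements.S2008
import Mathlib

set_option autoImplicit false
open Cfsg

namespace Cfsg.Agent.S2008

/-- Let H be a finite group and z an involution such that every proper normal subgroup of H meets the centralizer of z trivially, and suppose z lies in a Klein four-subgroup E of H all three of whose involutions are conjugate to z in H. Then H has no non-trivial abelian normal subgroup. -/
theorem result {H : Type*} [Group H] [Finite H] (z : H) (hz : orderOf z = 2) (hN : ∀ N : Subgroup H, N.Normal → N ≠ ⊤ → N ⊓ Subgroup.centralizer ({z} : Set H) = ⊥) (E : Subgroup H) (hE : IsKleinFour ↥E) (hzE : z ∈ E) (hc : ∀ e ∈ E, e ≠ 1 → IsConj z e) (N : Subgroup H) [hNn : N.Normal] (hab : IsMulCommutative ↥N) : N = ⊥ := by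
  have hz1 : z ≠ 1 := by
    intro h; rw [h, orderOf_one] at hz; omega
  have hzz : z * z = 1 := by
    have := pow_orderOf_eq_one z
    rw [hz, pow_two] at this; exact this
  -- another element of E
  obtain ⟨e, heE, he1, hez⟩ : ∃ e ∈ E, e ≠ 1 ∧ e ≠ z := by
    by_contra hcon
    push Not at hcon
    have hsub : (E : Set H) ⊆ {1, z} := by
      intro x hx
      by_cases hx1 : x = 1
      · exact Or.inl hx1
      · exact Or.inr (hcon x hx hx1)
    have h4 : Nat.card E = 4 := IsKleinFour.card_four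
    have h5 : (E : Set H).ncard ≤ ({1, z} : Set H).ncard := Set.ncard_le_ncard hsub (Set.toFinite _)
    have h7 : (E : Set H).ncard = 4 := by rw [← Nat.card_coe_set_eq]; exact h4
    have h6 := Set.ncard_insert_le (1 : H) ({z} : Set H)
    rw [Set.ncard_singleton] at h6
    omega
  have hNc : ∀ x ∈ N, ∀ y ∈ N, x * y = y * x := fun x hx y hy =>
    Subgroup.mem_centralizer_iff.mp (Subgroup.le_centralizer N hy) x hx
  by_cases hT : N = ⊤
  · exfalso
    obtain ⟨g, hg⟩ := isConj_iff.mp (hc e heE he1)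
    have : g * z = z * g := hNc g (hT ▸ Subgroup.mem_top g) z (hT ▸ Subgroup.mem_top z)
    apply hez
    rw [← hg, this]; group
  have hN' := hN N hNn hT
  -- fixed points are trivial
  have hF : ∀ f ∈ E, f ≠ 1 → ∀ w ∈ N, f * w = w * f → w = 1 := by
    intro f hf hf1 w hw hfw
    obtain ⟨g, hg⟩ := isConj_iff.mp (hc f hf hf1)
    have h1 : g⁻¹ * w * g ∈ N := hNn.conj_mem' w hw g
    have h2 : g⁻¹ * w * g ∈ Subgroup.centralizer ({z} : Set H) := by
      rw [Subgroup.mem_centralizer_iff]
      intro y hy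
      rw [Set.mem_singleton_iff] at hy
      subst hy
      have hy : y = g⁻¹ * f * g := by rw [← hg]; group
      rw [hy]
      calc g⁻¹ * f * g * (g⁻¹ * w * g) = g⁻¹ * (f * w) * g := by group
        _ = g⁻¹ * (w * f) * g := by rw [hfw]
        _ = g⁻¹ * w * g * (g⁻¹ * f * g) := by group
    have h3 : g⁻¹ * w * g ∈ N ⊓ Subgroup.centralizer ({z} : Set H) := ⟨h1, h2⟩
    rw [hN', Subgroup.mem_bot] at h3
    have : w = g * (g⁻¹ * w * g) * g⁻¹ := by group
    rw [this, h3]; group
  -- each involution inverts N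
  have hInv : ∀ f ∈ E, f ≠ 1 → ∀ v ∈ N, f * v * f⁻¹ = v⁻¹ := by
    intro f hf hf1 v hv
    obtain ⟨g, hg⟩ := isConj_iff.mp (hc f hf hf1)
    have hff : f * f = 1 := by
      rw [← hg]
      calc g * z * g⁻¹ * (g * z * g⁻¹) = g * (z * z) * g⁻¹ := by group
        _ = 1 := by rw [hzz]; group
    have hfi : f⁻¹ = f := inv_eq_of_mul_eq_one_left hff
    have hv' : f * v * f⁻¹ ∈ N := hNn.conj_mem v hv f
    have hw := hF f hf hf1 (v * (f * v * f⁻¹)) (N.mul_mem hv hv') (by
      calc f * (v * (f * v * f⁻¹)) = (f * v * f⁻¹) * (f * f) * v * f⁻¹ := by group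
        _ = (f * v * f⁻¹) * v * f⁻¹ := by rw [hff]; group
        _ = v * (f * v * f⁻¹) * f⁻¹ := by rw [hNc _ hv' _ hv]
        _ = v * (f * v * f⁻¹) * f := by rw [hfi])
    exact (eq_inv_of_mul_eq_one_right hw)
  rw [eq_bot_iff]
  intro v hv
  rw [Subgroup.mem_bot]
  have he3 : z * e ∈ E := E.mul_mem hzE heE
  have he31 : z * e ≠ 1 := by
    intro h
    apply hez
    have : z⁻¹ = z := inv_eq_of_mul_eq_one_left hzz
    rw [← this]
    exact (inv_eq_of_mul_eq_one_right h).symm
  apply hF (z * e) he3 he31 v hv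
  have h1 := hInv e heE he1 v hv
  have h2 := hInv z hzE hz1 v⁻¹ (N.inv_mem hv)
  rw [inv_inv] at h2
  have h3 : (z * e) * v * (z * e)⁻¹ = v := by
    calc (z * e) * v * (z * e)⁻¹ = z * (e * v * e⁻¹) * z⁻¹ := by group
      _ = v := by rw [h1, h2]
  calc (z * e) * v = ((z * e) * v * (z * e)⁻¹) * (z * e) := by group
    _ = v * (z * e) := by rw [h3]

end Cfsg.Agent.S2008
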