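import Cfsg.Statements.S2009
import Mathlib
import Cfsg.Agent.S2008
-- import your own Cfsg.Agent.* helpers here

set_option autoImplicit false
open Cfsg

namespace Cfsg.Agent.S2009

lemma abelian_of_fpf {H : Type*} [Group H] [Finite H] (z : H) (hz : z * z = 1) (N : Subgroup H)
    [hn : N.Normal] (hfpf : N ⊓ Subgroup.centralizer ({z} : Set H) = ⊥) : IsMulCommutative ↥N := by
  classical
  have hzinv : z⁻¹ = z := inv_eq_of_mul_eq_one_left hz
  let f : ↥N → ↥N := fun x => ⟨(x : H)⁻¹ * (z * x * z), by
    refine mul_mem (inv_mem x.2) ?_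
    have := hn.conj_mem x x.2 z
    rwa [hzinv] at this⟩
  have hfinj : Function.Injective f := by
    intro x y hxy
    have h1 : (x : H)⁻¹ * (z * x * z) = (y : H)⁻¹ * (z * y * z) := congrArg Subtype.val hxy
    have h2 : (y : H) * (x : H)⁻¹ ∈ N ⊓ Subgroup.centralizer ({z} : Set H) := by
      refine Subgroup.mem_inf.2 ⟨mul_mem y.2 (inv_mem x.2), ?_⟩
      rw [Subgroup.mem_centralizer_iff]
      intro w hw
      rw [Set.mem_singleton_iff.1 hw]
      -- z * (y x⁻¹) = (y x⁻¹) * z
      have h5 : (z * (x : H) * z) = (x : H) * ((y : H)⁻¹ * (z * y * z)) := by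
        rw [← h1]; group
      have h6 : z * ((y : H) * (x : H)⁻¹) * z = (z * y * z) * (z * x * z)⁻¹ := by
        calc z * ((y : H) * (x : H)⁻¹) * z = (z * y * z) * (z⁻¹ * (x : H)⁻¹ * z) := by group
          _ = (z * y * z) * (z * (x : H)⁻¹ * z) := by rw [hzinv]
          _ = (z * y * z) * (z * x * z)⁻¹ := by
            congr 1
            rw [mul_inv_rev, mul_inv_rev, hzinv]
            group
      have h7 : (z * (y : H) * z) * (z * x * z)⁻¹ = (y : H) * (x : H)⁻¹ := by
        rw [h5]
        group
      have h8 : z * ((y : H) * (x : H)⁻¹) * z = (y : H) * (x : H)⁻¹ := h6.trans h7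
      calc z * ((y : H) * (x : H)⁻¹) = (z * ((y : H) * (x : H)⁻¹) * z) * z := by
            rw [mul_assoc (z * _), hz, mul_one]
        _ = (y : H) * (x : H)⁻¹ * z := by rw [h8]
    rw [hfpf, Subgroup.mem_bot] at h2
    apply Subtype.ext
    exact (mul_inv_eq_one.1 h2).symm
  have hfsurj : Function.Surjective f := Finite.surjective_of_injective hfinj
  have hinv : ∀ n ∈ N, z * n * z = n⁻¹ := by
    intro n hn'
    obtain ⟨x, hx⟩ := hfsurj ⟨n, hn'⟩
    have hx' : (x : H)⁻¹ * (z * x * z) = n := congrArg Subtype.val hx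
    rw [← hx']
    calc z * ((x : H)⁻¹ * (z * x * z)) * z = z * (x : H)⁻¹ * z * (x : H) * (z * z) := by group
      _ = z * (x : H)⁻¹ * z * (x : H) := by rw [hz, mul_one]
      _ = ((x : H)⁻¹ * (z * x * z))⁻¹ := by
        rw [mul_inv_rev, mul_inv_rev, mul_inv_rev, inv_inv, hzinv]
        group
  refine ⟨⟨?_⟩⟩
  intro a b
  apply Subtype.ext
  show (a : H) * b = b * a
  have h1 := hinv _ (mul_mem a.2 b.2)
  have h2 : z * ((a : H) * b) * z = (z * a * z) * (z * b * z) := by
    calc z * ((a : H) * b) * z = z * a * 1 * b * z := by group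
      _ = z * a * (z * z) * b * z := by rw [hz]
      _ = (z * a * z) * (z * b * z) := by group
  have h3 : ((a : H) * b)⁻¹ = ((b : H) * a)⁻¹ := by
    rw [← h1, h2, hinv _ a.2, hinv _ b.2, mul_inv_rev]
  exact inv_injective h3


/-- Let H be a finite group and z an involution such that every proper normal subgroup of H meets the centralizer of z trivially, and suppose z lies in a Klein four-subgroup E of H all three of whose involutions are conjugate to z in H. Then H is simple. -/
theorem result {H : Type*} [Group H] [Finite H] (z : H) (hz : orderOf z = 2) (hN : ∀ N : Subgroup H, N.Normal → N ≠ ⊤ → N ⊓ Subgroup.centralizer ({z} : Set H) = ⊥) (E : Subgroup H) (hE : IsKleinFour ↥E) (hzE : z ∈ E) (hc : ∀ e ∈ E, e ≠ 1 → IsConj z e) : IsSimpleGroup H := by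
  classical
  have hz1 : z * z = 1 := by
    have := pow_orderOf_eq_one z
    rw [hz, pow_two] at this
    exact this
  have hznt : z ≠ 1 := by
    rintro rfl
    rw [orderOf_one] at hz
    omega
  refine { exists_pair_ne := ⟨z, 1, hznt⟩, eq_bot_or_eq_top_of_normal := ?_ }
  intro N hNn
  by_cases htop : N = ⊤
  · exact Or.inr htop
  · left
    have hab := abelian_of_fpf z hz1 N (hN N hNn htop)
    exact Cfsg.Agent.S2008.result z hz hN E hE hzE hc N hab

end Cfsg.Agent.S2009
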