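import Cfsg.Statements.S2044
import Mathlib
import Cfsg.Agent.Lib.Compute.Schur2.Co2.Main

set_option autoImplicit false
open Cfsg

namespace Cfsg.Agent.S2044

open Cfsg.Agent.Lib.Compute.Schur2 Cfsg.Agent.Lib.Compute.OutFinal
open Cfsg.Agent.Lib.Sporadic.Co2Out.Main Cfsg.Agent.Lib.Sporadic.GolayCore Cfsg.Agent.Lib.Sporadic.LeechBasic Cfsg.Agent.Lib.Sporadic.LeechAut
  Cfsg.Agent.Lib.Sporadic.LeechMat Cfsg.Agent.Lib.Sporadic.LeechKey Cfsg.Agent.Lib.Sporadic.LeechEnum
  Cfsg.Agent.Lib.Sporadic.LeechA0 Cfsg.Agent.Lib.Sporadic.LeechMcLData Cfsg.Agent.Lib.Sporadic.LeechMcL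
  Cfsg.Agent.Lib.Sporadic.LeechMin
  Cfsg.Agent.Lib.Sporadic.LeechRep Cfsg.Agent.Lib.Sporadic.LeechGroups Cfsg.Agent.Lib.Sporadic.LeechRep2
  Cfsg.Agent.Lib.Sporadic.LeechFast
  Cfsg.Agent.Lib.Sporadic.Co2Out.Vecs Cfsg.Agent.Lib.Sporadic.Co2Out.Data Cfsg.Agent.Lib.Compute.PermOut

/-- The Schur multiplier of the Conway group Co₂ (the stabiliser of a minimal vector of the rank-24 lattice) is trivial; here the Schur multiplier is described through stem extensions, as in the definitions: surjective homomorphisms onto the group from a finite group, whose kernel is central in that finite group and contained in that finite group's commutator subgroup. -/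
theorem result : Cfsg.HasCyclicSchurMultiplier ↥Cfsg.Spor.Co2 1 := by
  obtain ⟨g0, hg⟩ := Cfsg.Agent.Lib.Sporadic.LeechMin.co0_transitive_min Spor.leechU a0 sqNorm_U sqNorm_a0
  obtain ⟨e⟩ := exists_conj_stab hg
  obtain ⟨e2⟩ := iso
  exact hasSchur_transport (e.trans e2).symm Co2.T.main

end Cfsg.Agent.S2044
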