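-- Statement S2046: proved by the Schur2 toolkit.
import Cfsg.Statements.S2046
import Mathlib
import Cfsg.Agent.Lib.Compute.Schur2.Shapes
import Cfsg.Agent.Lib.Compute.Schur2.HSMChkA
import Cfsg.Agent.Lib.Compute.Schur2.HSMChkU
import Cfsg.Agent.Lib.Compute.Schur2.HSMChkL
import Cfsg.Agent.Lib.Sporadic.HSOut.Main

set_option autoImplicit false
set_option maxRecDepth 1000000
open Cfsg

namespace Cfsg.Agent.S2046

open Cfsg.Agent.Lib.Compute.SchurLin Cfsg.Agent.Lib.Compute.PermCert Cfsg.Agent.Lib.Compute.Schur2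
open Cfsg.Agent.Lib.Compute.Schur2.HSM
open Cfsg.Agent.Lib.Compute.OutChain Cfsg.Agent.Lib.Compute.OutFinal Cfsg.Agent.Lib.Compute.OutFinal4 Cfsg.Agent.Lib.Compute.OutFinal5 Cfsg.Agent.Lib.Compute.OutFinal2 Cfsg.Agent.Lib.Compute.PermOut
  Cfsg.Agent.Lib.Sporadic.GolayCore Cfsg.Agent.Lib.Sporadic.LeechBasic Cfsg.Agent.Lib.Sporadic.LeechAut
  Cfsg.Agent.Lib.Sporadic.LeechMat Cfsg.Agent.Lib.Sporadic.LeechKey Cfsg.Agent.Lib.Sporadic.LeechEnum
  Cfsg.Agent.Lib.Sporadic.LeechA0 Cfsg.Agent.Lib.Sporadic.LeechMcLData Cfsg.Agent.Lib.Sporadic.LeechMcL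
  Cfsg.Agent.Lib.Sporadic.LeechMin
  Cfsg.Agent.Lib.Sporadic.LeechRep Cfsg.Agent.Lib.Sporadic.LeechGroups Cfsg.Agent.Lib.Sporadic.LeechRep2
  Cfsg.Agent.Lib.Sporadic.LeechFast Cfsg.Agent.Lib.Sporadic.LeechFast2
  Cfsg.Agent.Lib.Sporadic.HSOut.Vecs Cfsg.Agent.Lib.Sporadic.HSOut.Data Cfsg.Agent.Lib.Sporadic.HSOut.Check
  Cfsg.Agent.Lib.Sporadic.HSOut.Gens Cfsg.Agent.Lib.Sporadic.HSOut.Main

universe u

/-- All the edges. -/
theorem upAll : allB (fun i => allB (FastW.UPW.edgeW u 19 13 Pr i) 6) 5600 = true := by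
  refine allB_split (a := 4000) (b := 1600) ?_ upP4000 rfl
  refine allB_split (a := 2000) (b := 2000) ?_ upP2000 rfl
  exact allB_split (a := 0) (b := 2000) rfl upP0 rfl

/-- All the relators at all the points. -/
theorem lcAll : allB (FastW.ptW l Ee 2 1 1 code) 5600 = true := by
  refine allB_split (a := 4000) (b := 1600) ?_ lcP4000 rfl
  refine allB_split (a := 2000) (b := 2000) ?_ lcP2000 rfl
  exact allB_split (a := 0) (b := 2000) rfl lcP0 rfl

/-- All the flips. -/
theorem flAll : allB (fun i => allB (FastW.flipW Ee 6 1 1 i) 6) 5600 = true :=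
  allB_split (a := 0) (b := 5600) rfl flAll0 rfl

theorem upChk : u.check = true :=
  FastW.UPW.check_of_W (B := 19) (b := 13) (Pr := Pr) (fun _ _ => rfl) (fun _ => rfl) up0 up1 up2 upAll

theorem lcChk : l.check = true :=
  FastW.check_of_W (E := Ee) (rb := 1) (mask := 1) (R := 2) (code := code) (fun _ _ => rfl) (fun _ _ => rfl) rfl rfl rfl
    (fun _ _ => rfl) hcode flAll lcAll lc3 lc4

theorem validEs : es.all (validB 7 127 100) = true := by decide +kernel

theorem siftEs : es.all (fun e => siftF 7 127 100 19 524287 7 (lrlvA.map Prod.fst) (gt 7 127 e)) = true := by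
  decide +kernel

theorem hmem (j : ℕ) : gPerm 7 127 100 es j ∈ K := by
  unfold gPerm letterPerm
  have h1 : Nat.div (2 * j) 2 = j := by
    show (2 * j) / 2 = j
    omega
  have h2 : Nat.mod (2 * j) 2 = 0 := by
    show (2 * j) % 2 = 0
    omega
  rw [h1, h2]
  cases hn : nth es j with
  | none => exact one_mem _
  | some e =>
    have hv : validB 7 127 100 e = true := by
      have hg := validEs
      rw [List.all_eq_true] at hg
      exact hg e (nth_mem hn)
    have h3 : siftF 7 127 100 19 524287 7 (lrlvA.map Prod.fst) (gt 7 127 e) = true := by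
      have hs := siftEs
      rw [List.all_eq_true] at hs
      exact hs e (nth_mem hn)
    exact hA.mem_of_sift hd (gt_eq hv) h3

theorem relsChk : allB (fun k => allB (fun i => Nat.beq (wordPt 7 127 es (c.W.getD k []) i) i) 100) c.nrel = true := by
  decide +kernel

theorem wordsChk : wordsB 7 127 100 es 3 (hdG (lrlvA.map Prod.fst)) us = true := by decide +kernel

/-- The generators. -/
noncomputable abbrev gJ : ℕ → K := gP 7 127 100 es K

theorem hrel : ∀ k < c.nrel, Cfsg.Agent.Lib.Compute.ToddCoxeterCore.wordEl (ltr gJ) (c.W.getD k []) = 1 := by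
  intro k hk
  apply rel_of_check validEs hmem
  have := (allB_iff _ _).mp relsChk k hk
  exact this

theorem hgen (x : K) : x ∈ Subgroup.closure (gJ '' Set.Iio c.n) :=
  gen_of_words validEs hmem (k := 3) (gens := hdG (lrlvA.map Prod.fst)) (us := us) hA.gen_eq.symm wordsChk x

theorem hcard : Nat.card K = c.N * (M11In.c.N * 11) := by
  rw [card_K]
  rfl

theorem hsec : HasSec c gJ :=
  hasSec_of_nest sound hSB M11In.presTriv nestChk hrel hgen hcard

theorem main : HasSchurMultiplier K (Multiplicative (ZMod 2)) :=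
  hasSchur_main (g := gJ) sound hSB (fun j hj => gP_ge hmem hj) hrel hgen hcard (by decide) hnormC hsec
    u rfl rfl rfl rfl rfl rfl (m := 14) (by decide) hnormU rfl rfl upChk d tailChk
    (fun B _ h => UP.Gen.hom1 h) l rfl rfl rfl rfl rfl lcChk (a := a1 2)
    (fun j hj => by
      obtain rfl : j = 0 := by
        have : j < 1 := hj
        omega
      exact a1_pow) a1_gen

/-- The group of the definition and the permutation group. -/
theorem exists_equiv : Nonempty (Spor.HS ≃* K) := by
  have e : Spor.HS ≃* SS := conjEquiv (matCo0 M0_ok) _ _ (fun x hx => hx.1.1) fun x => by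
    rw [Subgroup.mem_inf]
    constructor
    · rintro ⟨⟨-, h1⟩, h2⟩
      refine ⟨?_, ?_⟩
      · show (matCo0 M0_ok * x * (matCo0 M0_ok)⁻¹) • c5E = c5E
        rw [← g0V]
        exact (conj_fix_iff _ x _).2 h1
      · show (matCo0 M0_ok * x * (matCo0 M0_ok)⁻¹) • upE = upE
        rw [← g0U]
        exact (conj_fix_iff _ x _).2 h2
    · rintro ⟨h1, h2⟩
      have h3 : (matCo0 M0_ok * x * (matCo0 M0_ok)⁻¹) • c5E = c5E := h1
      have h4 : (matCo0 M0_ok * x * (matCo0 M0_ok)⁻¹) • upE = upE := h2
      rw [← g0V] at h3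
      rw [← g0U] at h4
      exact ⟨⟨x.2, (conj_fix_iff _ x _).1 h3⟩, (conj_fix_iff _ x _).1 h4⟩
  obtain ⟨e2⟩ := iso
  exact ⟨e.trans e2⟩

/-- The Schur multiplier of the Higman–Sims group (as a two-vector stabiliser in the automorphism group of the rank-24 lattice) is cyclic of order 2; here the Schur multiplier is described through stem extensions, as in the definitions: surjective homomorphisms onto the group from a finite group, whose kernel is central in that finite group and contained in that finite group's commutator subgroup. -/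
theorem result : Cfsg.HasCyclicSchurMultiplier ↥Cfsg.Spor.HS 2 := by
  obtain ⟨e⟩ := exists_equiv
  exact hasSchur_transport e.symm main

end Cfsg.Agent.S2046
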