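import Cfsg.Statements.S2047
import Mathlib
import Cfsg.Agent.Lib.Compute.Schur2.McL.Main

set_option autoImplicit false
open Cfsg

namespace Cfsg.Agent.S2047

open Cfsg.Agent.Lib.Compute.Schur2 Cfsg.Agent.Lib.Sporadic.McLOut.Main Cfsg.Agent.Lib.Sporadic.LeechGroups

/-- The Schur multiplier of the McLaughlin group (as a two-vector stabiliser in the automorphism group of the rank-24 lattice) is cyclic of order 3; here the Schur multiplier is described through stem extensions, as in the definitions: surjective homomorphisms onto the group from a finite group, whose kernel is central in that finite group and contained in that finite group's commutator subgroup. -/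
theorem result : Cfsg.HasCyclicSchurMultiplier ↥Cfsg.Spor.McL 3 := by
  obtain ⟨e⟩ := exists_iso_McL
  exact hasSchur_transport (((MonoidHom.ofInjective hRep.2).symm).trans e.symm) McL.M.main

end Cfsg.Agent.S2047
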