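-- Statement S2102: proved by the Schur2 toolkit.
import Cfsg.Statements.S2102
import Mathlib
import Cfsg.Agent.Lib.Compute.Schur2.G24sChk
import Cfsg.Agent.Lib.Compute.Schur2.G24sRoots
import Cfsg.Agent.Lib.Compute.Schur2.U34s
import Cfsg.Agent.Lib.Compute.G24
import Cfsg.Agent.Lib.Compute.FMat
import Cfsg.Agent.Lib.Compute.ChevTransport

set_option autoImplicit false
set_option maxRecDepth 1000000
open Cfsg

namespace Cfsg.Agent.S2102

open Cfsg.Agent.Lib.Compute.SchurLin Cfsg.Agent.Lib.Compute.PermCert Cfsg.Agent.Lib.Compute.Schur2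
open Cfsg.Agent.Lib.Compute.Schur2.G24s
open Cfsg.Agent.Lib.Compute.G24 Cfsg.Agent.Lib.Compute.GFModel Cfsg.Agent.Lib.Compute.FMat
open Cfsg.Agent.Lib.Compute.ToddCoxeterCore (wordEl wordEl_nil wordEl_cons wordEl_append)

universe u

/-- The correspondence of relators with the inner relators. -/
def mp (k : ℕ) : ℕ := bif Nat.blt k 2 then k else Nat.succ k

theorem nestChk : nestB c U34s.c mp = true := by decide +kernel

theorem hSB : SubBound.{u} c (U34s.c.N * 13) := subBound_nest U34s.sound U34s.hSB nestChk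

theorem hnormC : normB c.n c.W = true := by decide +kernel

theorem hnormU : normB u.n u.W = true := by decide +kernel

/-! ### The group -/

/-- The lists of rows of the letters. -/
def ltrL (x : ℕ) : List (List ℕ) := mats.getD x []

/-- The matrices of the letters. -/
def Mm (x : ℕ) : Matrix (Fin 6) (Fin 6) GF4 := decM gf4 0 6 (ltrL x)

/-- The general linear group. -/
abbrev GL6 := GL (Fin 6) GF4

theorem hz : gf4.enc 0 = 0 := by decide +kernel

theorem hq : gf4.q ≤ 16 := by decide +kernel

theorem okL : ∀ x < 6, okA gf4 6 (ltrL x) = true := by decide +kernel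

theorem hb : ∀ j : Fin 6, decV gf4 0 6 (16 ^ j.val) = Pi.single j 1 := by decide +kernel

theorem hok : ∀ j : Fin 6, okN gf4 6 (16 ^ j.val) := by
  unfold okN
  decide +kernel

theorem inv1 : ∀ j < 3, Mm (2 * j) * Mm (2 * j + 1) = 1 := by decide +kernel

theorem inv2 : ∀ j < 3, Mm (2 * j + 1) * Mm (2 * j) = 1 := by decide +kernel

/-- The generators in the general linear group. -/
noncomputable def gU (j : ℕ) : GL6 :=
  if h : j < 3 then ⟨Mm (2 * j), Mm (2 * j + 1), inv1 j h, inv2 j h⟩ else 1

/-- The group generated by the generators. -/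
noncomputable abbrev K : Subgroup GL6 := Subgroup.closure (gU '' Set.Iio 3)

theorem gU_mem (j : ℕ) : gU j ∈ K := by
  by_cases h : j < 3
  · exact Subgroup.subset_closure ⟨j, h, rfl⟩
  · have : gU j = 1 := dif_neg h
    rw [this]
    exact one_mem _

/-- The generators. -/
noncomputable def g (j : ℕ) : K := ⟨gU j, gU_mem j⟩

theorem val_ltr (x : ℕ) (hx : x < 6) : (((ltr g x : K) : GL6) : Matrix (Fin 6) (Fin 6) GF4) = Mm x := by
  have h3 : x / 2 < 3 := by omega
  unfold ltr
  split_ifs with h
  · have : gU (x / 2) = ⟨Mm (2 * (x / 2)), Mm (2 * (x / 2) + 1), inv1 _ h3, inv2 _ h3⟩ := dif_pos h3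
    show ((gU (x / 2) : GL6) : Matrix (Fin 6) (Fin 6) GF4) = Mm x
    rw [this]
    show Mm (2 * (x / 2)) = Mm x
    congr 1
    omega
  · have : gU (x / 2) = ⟨Mm (2 * (x / 2)), Mm (2 * (x / 2) + 1), inv1 _ h3, inv2 _ h3⟩ := dif_pos h3
    show (((gU (x / 2))⁻¹ : GL6) : Matrix (Fin 6) (Fin 6) GF4) = Mm x
    rw [this]
    show Mm (2 * (x / 2) + 1) = Mm x
    congr 1
    omega

theorem val_word (w : List ℕ) (hw : ∀ x ∈ w, x < 6) :
    (((wordEl (ltr g) w : K) : GL6) : Matrix (Fin 6) (Fin 6) GF4) = evM gf4 0 6 ltrL w := by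
  induction w with
  | nil => rfl
  | cons x u ih =>
    rw [wordEl_cons, Subgroup.coe_mul, Units.val_mul, val_ltr x (hw x (by simp)),
      ih (fun y hy => hw y (by simp [hy]))]
    rfl

theorem relChk : allB (fun k => (c.W.getD k []).all (fun x => Nat.blt x 6) &&
    allB (fun j => Nat.beq (evC gf4 0 6 ltrL (c.W.getD k []) (16 ^ j)) (16 ^ j)) 6) c.nrel = true := by
  decide +kernel

theorem hrel : ∀ k < c.nrel, wordEl (ltr g) (c.W.getD k []) = 1 := by
  intro k hk
  have h1 := (allB_iff _ _).mp relChk k hk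
  simp only [Bool.and_eq_true, List.all_eq_true, Nat.blt_eq] at h1
  obtain ⟨h2, h3⟩ := h1
  have h4 := evM_eq_one hz hq okL hb hok _ h2 (fun j => by
    have := (allB_iff _ _).mp h3 j j.2
    exact Nat.eq_of_beq_eq_true this)
  apply Subtype.ext
  apply Units.ext
  rw [val_word _ h2, h4]
  rfl

theorem hgen (x : K) : x ∈ Subgroup.closure (g '' Set.Iio c.n) := by
  have h3 : (Subgroup.closure (g '' Set.Iio c.n)).map K.subtype = K := by
    rw [MonoidHom.map_closure, ← Set.image_comp]
    rfl
  have h4 : (x : GL6) ∈ (Subgroup.closure (g '' Set.Iio c.n)).map K.subtype := by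
    rw [h3]
    exact x.2
  obtain ⟨y, hy, hyq⟩ := h4
  have : y = x := Subtype.ext hyq
  rwa [this] at hy

/-- The words of the root elements. -/
def wsF (r a : ℕ) : List ℕ := bif Nat.beq a 0 then [] else ws.getD (r * 3 + a - 1) []

/-- The rows of the root elements. -/
def rtF (r a : ℕ) : List (List ℕ) := rootT.getD (r * 4 + a) []

theorem rootChk : ∀ r : Fin 12, ∀ a : Fin 4,
    X6 r (gf4.dec a) = decM gf4 0 6 (rtF r a) := by
  decide +kernel

theorem wordsChk : allB (fun r => allB (fun a => (wsF r a).all (fun x => Nat.blt x 6) && okA gf4 6 (rtF r a) &&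
    allB (fun j => Nat.beq (evC gf4 0 6 ltrL (wsF r a) (16 ^ j)) (appC gf4 0 6 (rtF r a) (16 ^ j))) 6) 4) 12 = true := by
  decide +kernel

theorem xn_mem (i : Fin 12 × GF4) : xn i ∈ K := by
  obtain ⟨r, t⟩ := i
  have ha : gf4.enc t < 4 := gf4.enc_lt t
  set a : ℕ := gf4.enc t with haa
  have ht : t = gf4.dec a := (gf4.dec_enc t).symm
  have h1 := (allB_iff _ _).mp ((allB_iff _ _).mp wordsChk r r.2) a ha
  simp only [Bool.and_eq_true, List.all_eq_true, Nat.blt_eq] at h1
  obtain ⟨⟨h2, h3⟩, h4⟩ := h1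
  have h5 := evM_eq hz hq okL hb hok _ h2 h3 (fun j => by
    have := (allB_iff _ _).mp h4 j j.2
    exact Nat.eq_of_beq_eq_true this)
  have h6 := rootChk r ⟨a, ha⟩
  have h7 : xn (r, t) = ((wordEl (ltr g) (wsF r a) : K) : GL6) := by
    apply Units.ext
    rw [val_word _ h2, h5]
    show X6 r t = _
    rw [ht]
    exact h6
  rw [h7]
  exact Subtype.property _

theorem range_le : rho.range ≤ K := by
  rintro _ ⟨y, rfl⟩
  have hT : Subgroup.closure (Set.range x) ≤
      (K.comap rho).map (Cfsg.Lie.chevG2.group GF4).subtype := by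
    rw [Subgroup.closure_le]
    rintro _ ⟨i, rfl⟩
    refine ⟨⟨x i, x_mem i⟩, ?_, rfl⟩
    have h1 : rho ⟨x i, x_mem i⟩ = xn i := exists_rho.choose_spec.2 i _
    show rho ⟨x i, x_mem i⟩ ∈ K
    rw [h1]
    exact xn_mem i
  have h2 : y.1 ∈ Subgroup.closure (Set.range x) := by
    rw [closure_x]
    exact y.2
  obtain ⟨y', hy', hyy⟩ := hT h2
  have h3 : y' = y := Subtype.ext hyy
  rw [h3] at hy'
  exact hy'

instance : Finite GL6 := inferInstance

theorem card_range : Nat.card rho.range = 251596800 := by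
  rw [← card_L0]
  exact Nat.card_congr (MonoidHom.ofInjective rho_inj).symm.toEquiv

theorem hcard : Nat.card K = c.N * (U34s.c.N * 13) := by
  apply le_antisymm
  · exact closure_card_le sound hSB hrel hgen
  · have h1 := Subgroup.card_le_of_le range_le
    rw [card_range] at h1
    exact h1

theorem hsec : HasSec c g :=
  hasSec_of_nest sound hSB U34s.presTriv nestChk hrel hgen hcard

theorem main : HasSchurMultiplier K (Multiplicative (ZMod 2)) :=
  hasSchur_main (g := g) sound hSB
    (fun j hj => by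
      have hj' : 3 ≤ j := hj
      apply Subtype.ext
      exact dif_neg (by omega)) hrel hgen hcard (by decide) hnormC hsec
    u rfl rfl rfl rfl rfl rfl (m := 55) (by decide) hnormU rfl rfl upChk d tailChk
    (fun B _ h => UP.Gen.hom1 h) l rfl rfl rfl rfl rfl lcChk (a := a1 2)
    (fun j hj => by
      obtain rfl : j = 0 := by
        have : j < 1 := hj
        omega
      exact a1_pow) a1_gen

theorem range_eq : rho.range = K :=
  Subgroup.eq_of_le_of_card_ge range_le (by rw [card_range, hcard]; rfl)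

/-- `G₂(4)` is the group of the matrices. -/
theorem iso : Nonempty (K ≃* L0) :=
  ⟨((MulEquiv.subgroupCongr range_eq).symm.trans (MonoidHom.ofInjective rho_inj).symm)⟩

/-- Exceptional Schur multiplier: over the field with 4 elements the Chevalley group of type G₂ has Schur multiplier cyclic of order 2 (here the Schur multiplier is described through stem extensions, as in the definitions). -/
theorem result {F : Type*} [Field F] [Fintype F] (hF : Fintype.card F = 4) : Cfsg.HasCyclicSchurMultiplier ↥(Cfsg.Lie.chevG2.group F) 2 := by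
  obtain ⟨e⟩ := iso
  obtain ⟨e2⟩ := Cfsg.Agent.Lib.Compute.ChevTransport.group_congr Cfsg.Lie.chevG2
    (equivOfCard (F := GF4) (K := F) (by rw [hF, card_GF4]))
  exact hasSchur_transport (e.trans e2) main

end Cfsg.Agent.S2102
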