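import Cfsg.Statements.S2048
import Cfsg.Agent.Lib.Compute.Mult.Suz.ThmL
import Cfsg.Agent.S2102

set_option autoImplicit false
open Cfsg

namespace Cfsg.Agent.S2048

/-- The Schur multiplier of the Suzuki sporadic group (the finitely presented group of the definitions) is cyclic of order 6; here the Schur multiplier is described through stem extensions, as in the definitions: surjective homomorphisms onto the group from a finite group, whose kernel is central in that finite group and contained in that finite group's commutator subgroup. -/
theorem result : Cfsg.HasCyclicSchurMultiplier Cfsg.Spor.Suz 6 := by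
  refine ⟨Cfsg.Agent.Lib.Compute.Mult.Suz.cover, ?_⟩
  intro Γ _ _ σ hσ
  exact Cfsg.Agent.Lib.Compute.Mult.Suz.upper (fun K _ _ hK => Cfsg.Agent.S2102.result hK) Γ σ hσ

end Cfsg.Agent.S2048
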