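import Cfsg.Statements.S2051
import Mathlib
import Cfsg.Agent.Lib.RuAut.BridgeP
import Cfsg.Agent.Lib.Compute.Schur2.RuM.Main

set_option autoImplicit false
open Cfsg

namespace Cfsg.Agent.S2051

open Cfsg.Agent.Lib.Compute.Schur2

/-- The Schur multiplier of the Rudvalis group (the unitary automorphism group of the rank-28 Gaussian lattice modulo its centre) is cyclic of order 2; here the Schur multiplier is described through stem extensions. -/
theorem result : Cfsg.HasCyclicSchurMultiplier Cfsg.Spor.Ru 2 := by
  obtain ⟨e⟩ := Cfsg.Agent.Lib.RuAut.BridgeP.iso_P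
  exact hasSchur_transport e.symm Cfsg.Agent.Lib.Compute.Schur2.RuM.M.main

end Cfsg.Agent.S2051
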