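-- Statement S2054: the multiplier of the Fischer group `Fi₂₃` is trivial.
import Cfsg.Statements.S2054
import Cfsg.Agent.Lib.Fischer.M23.Mult.Main
import Cfsg.Agent.Lib.Schur.Basic

set_option autoImplicit false
open Cfsg

namespace Cfsg.Agent.S2054

/-- The Schur multiplier of the Fischer group Fi₂₃ (the finitely presented group of the definitions) is trivial; here the Schur multiplier is described through stem extensions, as in the definitions: surjective homomorphisms onto the group from a finite group, whose kernel is central in that finite group and contained in that finite group's commutator subgroup. -/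
theorem result : Cfsg.HasCyclicSchurMultiplier Cfsg.Spor.Fi23 1 := by
  haveI : Finite Cfsg.Spor.Fi23 := Cfsg.Agent.S1697.finG
  refine Cfsg.Agent.Lib.Schur.Basic.hasCyclicSchurMultiplier_one_of ?_
  intro Γ _ _ σ hσ
  exact Cfsg.Agent.Lib.Fischer.M23.Mult.Main.ker_bot Γ σ hσ.1 hσ.2.1 hσ.2.2

end Cfsg.Agent.S2054
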