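import Cfsg.Statements.S2087
import Mathlib
import Cfsg.Agent.S2086
import Cfsg.Agent.S0255

set_option autoImplicit false
open Cfsg

namespace Cfsg.Agent.S2087

universe u v w

theorem transport {G : Type u} {G' : Type v} [Group G] [Group G'] (e : G ≃* G') {Γ : Type w} [Group Γ] {σ : Γ →* G}
    (h : IsStemExtension σ) : IsStemExtension (e.toMonoidHom.comp σ) ∧ (e.toMonoidHom.comp σ).ker = σ.ker := by
  have hk : (e.toMonoidHom.comp σ).ker = σ.ker := by
    ext x
    simp [MonoidHom.mem_ker]
  refine ⟨⟨e.surjective.comp h.1, ?_, ?_⟩, hk⟩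
  · rw [hk]; exact h.2.1
  · rw [hk]; exact h.2.2

/-- The Schur multiplier along an isomorphism (in the same universe). -/
theorem of_equiv {G G' : Type u} [Group G] [Group G'] (e : G ≃* G') {A : Type v} [CommGroup A]
    (h : HasSchurMultiplier G A) : HasSchurMultiplier G' A := by
  obtain ⟨⟨Γ, i1, i2, σ, hσ, ⟨f⟩⟩, h2⟩ := h
  refine ⟨⟨Γ, i1, i2, e.toMonoidHom.comp σ, (transport e hσ).1, ⟨?_⟩⟩, ?_⟩
  · exact (MulEquiv.subgroupCongr (transport e hσ).2).trans f
  · intro Γ' _ _ σ' hσ'
    obtain ⟨hs, hk⟩ := transport e.symm hσ'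
    obtain ⟨π, hπ⟩ := h2 Γ' _ hs
    refine ⟨(MulEquiv.subgroupCongr hk).toMonoidHom.comp π, ?_⟩
    exact (MulEquiv.subgroupCongr hk).surjective.comp hπ

/-- Exceptional Schur multiplier: over the field with 2 elements, PSL₃ has Schur multiplier cyclic of order 2 (here the Schur multiplier is described through stem extensions, as in the definitions). -/
theorem result {F : Type*} [Field F] [Fintype F] (hF : Fintype.card F = 2) : Cfsg.HasCyclicSchurMultiplier (Matrix.ProjectiveSpecialLinearGroup (Fin 3) F) 2 := by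
  letI : Fact (Nat.Prime 7) := ⟨by norm_num⟩
  let F₇ := ULift.{u_1} (ZMod 7)
  letI : Field F₇ := ULift.field
  letI : Fintype F₇ := ULift.fintype _
  have hc : Fintype.card F₇ = 7 := by
    simp [F₇, Fintype.card_ulift, ZMod.card]
  have h := Cfsg.Agent.S2086.result (F := F₇) hc 2 le_rfl (fun _ => by norm_num) (by
    intro hm
    simp only [Set.mem_insert_iff, Set.mem_singleton_iff, Prod.mk.injEq] at hm
    omega)
  obtain ⟨e⟩ := Cfsg.Agent.S0255.result (F := F₇) (K := F) hc hF
  have h2 : Nat.gcd 2 (7 - 1) = 2 := by norm_num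
  rw [h2] at h
  exact of_equiv e h

end Cfsg.Agent.S2087
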