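-- Statement S2088: the Schur multiplier of PSL₃(4) is Z₃ × Z₄ × Z₄.
-- Proof: kernel-checked coset table certificate, see Cfsg.Agent.Lib.Compute.L34Mult.
import Cfsg.Statements.S2088
import Cfsg.Agent.Lib.Compute.L34Mult.Thm

set_option autoImplicit false
open Cfsg

namespace Cfsg.Agent.S2088

open Cfsg.Agent.Lib.Compute.GFModel Cfsg.Agent.Lib.Compute.SmallField

/-- Exceptional Schur multiplier: over the field with 4 elements, PSL₃ has Schur multiplier isomorphic to the product of cyclic groups of orders 3, 4 and 4 (order 48, not cyclic; here the Schur multiplier is described through stem extensions, as in the definitions). -/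
theorem result {F : Type*} [Field F] [Fintype F] (hF : Fintype.card F = 4) : Cfsg.HasSchurMultiplier (Matrix.ProjectiveSpecialLinearGroup (Fin 3) F) (Multiplicative (ZMod 3 × ZMod 4 × ZMod 4)) :=
  Cfsg.Agent.Lib.Compute.CoverCert.hasSchur_transport
    (pslCongr (ι := Fin 3) (equivOfCard (F := GF4) (K := F) (by rw [card_GF4, hF]))).symm
    Cfsg.Agent.Lib.Compute.L34Mult.mult_main

end Cfsg.Agent.S2088
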