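-- Statement S2091: the multiplier of `PSU₆(2)`, with sections over `PSU₅(2)` from totally isotropic planes.
import Cfsg.Statements.S2091
import Mathlib
import Cfsg.Agent.Lib.Compute.Schur2.U62Main
import Cfsg.Agent.Lib.Compute.Schur2.Plane
import Cfsg.Agent.Lib.Compute.Schur2.Shapes
import Cfsg.Agent.Lib.Compute.Schur2.UM4Data
import Cfsg.Agent.Lib.Compute.Schur2.UM5Data
import Cfsg.Agent.Lib.Compute.Schur2.UM6Data
import Cfsg.Agent.Lib.Compute.Schur2.Chunk
import Cfsg.Agent.Lib.Compute.Schur2.UMC.C4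
import Cfsg.Agent.Lib.Compute.Schur2.UMC.C5
import Cfsg.Agent.Lib.Compute.Schur2.UMC.C6
import Cfsg.Agent.Lib.Compute.Schur2.UMC.B4
import Cfsg.Agent.Lib.Compute.Schur2.UMC.B5
import Cfsg.Agent.Lib.Compute.Schur2.UMC.B6
import Cfsg.Agent.Lib.Compute.Schur2.UMC.L6
import Cfsg.Agent.Lib.Compute.Schur2.UMC.E4_0
import Cfsg.Agent.Lib.Compute.Schur2.UMC.E4_1
import Cfsg.Agent.Lib.Compute.Schur2.UMC.E4_2
import Cfsg.Agent.Lib.Compute.Schur2.UMC.E4_3
import Cfsg.Agent.Lib.Compute.Schur2.UMC.E4_4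
import Cfsg.Agent.Lib.Compute.Schur2.UMC.E4_5
import Cfsg.Agent.Lib.Compute.Schur2.UMC.E4_6
import Cfsg.Agent.Lib.Compute.Schur2.UMC.E4_7
import Cfsg.Agent.Lib.Compute.Schur2.UMC.E5_0
import Cfsg.Agent.Lib.Compute.Schur2.UMC.E5_1
import Cfsg.Agent.Lib.Compute.Schur2.UMC.E5_2
import Cfsg.Agent.Lib.Compute.Schur2.UMC.E5_3
import Cfsg.Agent.Lib.Compute.Schur2.UMC.E5_4
import Cfsg.Agent.Lib.Compute.Schur2.UMC.E5_5
import Cfsg.Agent.Lib.Compute.Schur2.UMC.E5_6
import Cfsg.Agent.Lib.Compute.Schur2.UMC.E5_7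
import Cfsg.Agent.Lib.Compute.Schur2.UMC.E5_8
import Cfsg.Agent.Lib.Compute.Schur2.UMC.E5_9
import Cfsg.Agent.Lib.Compute.Schur2.UMC.E5_10
import Cfsg.Agent.Lib.Compute.Schur2.UMC.E6_0
import Cfsg.Agent.Lib.Compute.Schur2.UMC.E6_1
import Cfsg.Agent.Lib.Compute.Schur2.UMC.E6_2
import Cfsg.Agent.Lib.Compute.Schur2.UMC.E6_3
import Cfsg.Agent.Lib.Compute.Schur2.UMC.E6_4
import Cfsg.Agent.Lib.Compute.Schur2.UMC.E6_5
import Cfsg.Agent.Lib.Compute.Schur2.UMC.E6_6
import Cfsg.Agent.Lib.Compute.Schur2.UMC.E6_7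
import Cfsg.Agent.Lib.Compute.Schur2.UMC.E6_8
import Cfsg.Agent.Lib.Compute.Schur2.UMC.E6_9
import Cfsg.Agent.Lib.Compute.Schur2.UMC.E6_10
import Cfsg.Agent.Lib.Compute.Schur2.UMC.E6_11
import Cfsg.Agent.Lib.Compute.Schur2.UMC.E6_12
import Cfsg.Agent.Lib.Compute.Schur2.UMC.E6_13
import Cfsg.Agent.Lib.Compute.Schur2.UMC.E6_14
import Cfsg.Agent.Lib.Compute.Schur2.UMC.E6_15

set_option autoImplicit false
set_option maxRecDepth 1000000
set_option Elab.async false
open Cfsg

namespace Cfsg.Agent.S2091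

open Cfsg.Agent.Lib.Compute.SchurLin Cfsg.Agent.Lib.Compute.PermCert Cfsg.Agent.Lib.Compute.Schur2
open Cfsg.Agent.Lib.Compute.Schur2.Cover Cfsg.Agent.Lib.Compute.Schur2.Plane Cfsg.Agent.Lib.Compute.Schur2.UMC Cfsg.Agent.Lib.Compute.Schur2.Chunk
open Cfsg.Agent.Lib.Compute.ToddCoxeterCore (wordEl wordEl_nil wordEl_cons wordEl_append)
open Cfsg.Agent.Lib.Compute.Schur2.U62Main (H gJ hmem validEs)

universe u

/-! ### `U₄(2)` over a subgroup of order five -/

theorem sound4 : TC.Sound.{u} UM4.c := sound_of_check cert4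

theorem hSB4 : SubBound.{u} UM4.c 5 := subBound_cyc (kp := 3) (w := [2]) (by decide +kernel)

theorem up4 : UM4.u.check = true :=
  check_of_chunks 648 8 (by norm_num) (by decide +kernel) base4 (fun j hj => by
    interval_cases j
    exacts [e4_0, e4_1, e4_2, e4_3, e4_4, e4_5, e4_6, e4_7])

theorem norm4C : normB UM4.c.n UM4.c.W = true := by decide +kernel

theorem norm4U : normB UM4.u.n UM4.u.W = true := by decide +kernel

/-- The first word of the pair. -/
def w1 : List ℕ := [0]
/-- The second word of the pair. -/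
def w2 : List ℕ := [3, 1, 3, 0, 2, 0, 2]

theorem gcdK : Nat.gcd (walkSum UM4.u.t (Nat.mul 2 UM4.u.n) (ccE UM4.u UM4.d) 0 (commW w1 w2)) 2 = 1 := by decide +kernel

theorem coverProp : CoverProp UM4.c (UM4.c.N * 5) w1 w2 :=
  coverProp_of_table sound4 hSB4 (by decide) norm4C
    (fun X _ _ el hrel hgen hcard => hasSec_of_coprime sound4 hSB4 hrel hgen hcard
      (perfect_of_norm norm4C (sound4.{0}).hW hrel (by decide) hgen) [5] rfl (by
        intro p hp
        simp only [List.mem_singleton] at hp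
        subst hp
        refine ⟨by norm_num, ?_⟩
        rw [hcard]
        decide))
    UM4.u rfl rfl rfl rfl rfl rfl (m := 7) (by decide) norm4U rfl rfl up4 UM4.d tail4 rfl rfl (by decide) (by decide) gcdK

/-! ### `U₅(2)` over `U₄(2)` -/

/-- The correspondence of relators with the inner relators. -/
def mp5 (k : ℕ) : ℕ := bif Nat.blt k 2 then k else Nat.succ k

/-- The correspondence of relators with the inner relators. -/
def mp6 (k : ℕ) : ℕ := bif Nat.blt k 3 then k else Nat.succ k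

theorem nest5 : nestB UM5.c UM4.c mp5 = true := by decide +kernel

theorem sound5 : TC.Sound.{u} UM5.c := sound_of_check cert5

theorem hSB5 : SubBound.{u} UM5.c (UM4.c.N * 5) := subBound_nest sound4 hSB4 nest5

theorem up5 : UM5.u.check = true :=
  check_of_chunks 48 11 (by norm_num) (by decide +kernel) base5 (fun j hj => by
    interval_cases j
    exacts [e5_0, e5_1, e5_2, e5_3, e5_4, e5_5, e5_6, e5_7, e5_8, e5_9, e5_10])

theorem norm5C : normB UM5.c.n UM5.c.W = true := by decide +kernel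

theorem norm5U : normB UM5.u.n UM5.u.W = true := by decide +kernel

/-! ### `U₆(2)` over `U₅(2)` -/

theorem nest6 : nestB UM6.c UM5.c mp6 = true := by decide +kernel

theorem sound6 : TC.Sound.{u} UM6.c := sound_of_check cert6

theorem hSB6 : SubBound.{u} UM6.c (UM5.c.N * (UM4.c.N * 5)) := subBound_nest sound5 hSB5 nest6

theorem up6 : UM6.u.check = true :=
  check_of_chunks 42 16 (by norm_num) (by decide +kernel) base6 (fun j hj => by
    interval_cases j
    exacts [e6_0, e6_1, e6_2, e6_3, e6_4, e6_5, e6_6, e6_7, e6_8, e6_9, e6_10, e6_11, e6_12, e6_13, e6_14, e6_15])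

theorem norm6C : normB UM6.c.n UM6.c.W = true := by decide +kernel

theorem norm6U : normB UM6.u.n UM6.u.W = true := by decide +kernel

theorem relsChk : allB (fun k => allB (fun i => Nat.beq (wordPt 10 1023 U62D.es (UM6.c.W.getD k []) i) i) 693) UM6.c.nrel = true := by
  decide +kernel

theorem hrel : ∀ k < UM6.c.nrel, wordEl (ltr gJ) (UM6.c.W.getD k []) = 1 := by
  intro k hk
  apply rel_of_check validEs hmem
  have := (allB_iff _ _).mp relsChk k hk
  exact this

theorem hgen (x : H) : x ∈ Subgroup.closure (gJ '' Set.Iio UM6.c.n) :=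
  gen_of_words validEs hmem (k := 4) (gens := U62D.es) (us := U62Main.us) rfl U62Main.wordsChk x

theorem hcard : Nat.card H = UM6.c.N * (UM5.c.N * (UM4.c.N * 5)) := by
  rw [U62Main.card_H]
  rfl

/-! ### A totally isotropic plane -/

/-- Elements centralizing the first element, moving the second along a line. -/
def T1 : List ℕ := [3, 1, 3, 7, 1, 5, 2, 1, 2]
/-- Elements centralizing the first element, moving the second along a line. -/
def T2 : List ℕ := [7, 1, 5, 2, 7, 3, 1, 2, 5, 3]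
/-- Elements centralizing the first element, moving the second along a line. -/
def T3 : List ℕ := [3, 5, 2, 1, 7, 1, 3, 1, 5, 2]
/-- Elements centralizing the first element, moving the second along a line. -/
def T4 : List ℕ := [7, 1, 3, 7, 3, 1, 2, 5, 2, 1, 5]

/-- The word vanishing on the elements. -/
def chk (r : List ℕ) : Bool := allB (fun i => Nat.beq (wordPt 10 1023 U62D.es r i) i) 693

theorem chk_a : chk (w1 ++ w1) = true := by decide +kernel
theorem chk_ab : chk (commW w1 w2) = true := by decide +kernel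
theorem chk_1 : chk (commW w1 T1) = true := by decide +kernel
theorem chk_2 : chk (commW w1 T2) = true := by decide +kernel
theorem chk_3 : chk (commW w1 T3) = true := by decide +kernel
theorem chk_4 : chk (commW w1 T4) = true := by decide +kernel
theorem chk_line : chk (w2 ++ (T1 ++ w2 ++ invW T1) ++ (T2 ++ w2 ++ invW T2) ++ (T3 ++ w2 ++ invW T3) ++
    (T4 ++ w2 ++ invW T4)) = true := by decide +kernel

theorem val_one {r : List ℕ} (h : chk r = true) : wordEl (ltr gJ) r = 1 := rel_of_check validEs hmem h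

theorem comm_of_commW {u v : List ℕ} (h : chk (commW u v) = true) :
    wordEl (ltr gJ) u * wordEl (ltr gJ) v = wordEl (ltr gJ) v * wordEl (ltr gJ) u := by
  have h1 := val_one h
  rw [wordEl_commW] at h1
  have h5 : (wordEl (ltr gJ) v)⁻¹ * (wordEl (ltr gJ) u)⁻¹ * wordEl (ltr gJ) v * wordEl (ltr gJ) u = 1 := h1
  calc wordEl (ltr gJ) u * wordEl (ltr gJ) v
      = wordEl (ltr gJ) u * wordEl (ltr gJ) v * ((wordEl (ltr gJ) v)⁻¹ * (wordEl (ltr gJ) u)⁻¹ * wordEl (ltr gJ) v * wordEl (ltr gJ) u) := by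
        rw [h5, mul_one]
    _ = wordEl (ltr gJ) v * wordEl (ltr gJ) u := by group

theorem val_conj (T v : List ℕ) : wordEl (ltr gJ) (T ++ v ++ invW T) =
    (wordEl (ltr gJ) T)⁻¹ * wordEl (ltr gJ) v * wordEl (ltr gJ) T := by
  simp only [invW, wordEl_append, wordEl_inv_word, mul_assoc]

theorem line_eq {G : Type*} [Group G] (el : ℕ → G) (b u1 u2 u3 u4 : List ℕ) :
    wordEl el (b ++ u1 ++ u2 ++ u3 ++ u4) =
      wordEl el u4 * wordEl el u3 * wordEl el u2 * wordEl el u1 * wordEl el b := by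
  simp only [wordEl_append, mul_assoc]

theorem hS1 : substW (UM6.c.W.drop UM6.c.nrel) (substW (UM5.c.W.drop UM5.c.nrel) w1) = w1 := by decide +kernel

theorem hS2 : substW (UM6.c.W.drop UM6.c.nrel) (substW (UM5.c.W.drop UM5.c.nrel) w2) = w2 := by decide +kernel

theorem hsec : HasSec UM6.c gJ := by
  refine hasSec_of_plane sound6 hSB6 nest6 hrel hgen hcard sound5 hSB5 nest5 (by decide) norm5C UM5.u rfl rfl rfl rfl rfl rfl
    (m := 15) (by decide) norm5U rfl rfl up5 UM5.d rfl tail5 coverProp ?_ ?_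
  · rw [hS1, hS2]
    exact comm_of_commW chk_ab
  · intro Γ _ σ hs hc a b ha hb
    rw [hS1] at ha
    rw [hS2] at hb
    refine comm_of_plane σ hs hc (T1 := wordEl (ltr gJ) T1) (T2 := wordEl (ltr gJ) T2) (T3 := wordEl (ltr gJ) T3)
      (T4 := wordEl (ltr gJ) T4) ?_ (comm_of_commW chk_1) (comm_of_commW chk_2) (comm_of_commW chk_3)
      (comm_of_commW chk_4) (comm_of_commW chk_ab) ?_ ha hb
    · have := val_one chk_a
      rwa [wordEl_append] at this
    · have h5 := (line_eq (ltr gJ) w2 (T1 ++ w2 ++ invW T1) (T2 ++ w2 ++ invW T2) (T3 ++ w2 ++ invW T3)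
        (T4 ++ w2 ++ invW T4)).symm.trans (val_one chk_line)
      simpa only [val_conj] using h5

theorem main : HasSchurMultiplier H (Multiplicative (ZMod 3 × ZMod 2 × ZMod 2)) :=
  hasSchur_main (g := gJ) sound6 hSB6 (fun j hj => gP_ge hmem hj) hrel hgen hcard (by decide) norm6C hsec
    UM6.u rfl rfl rfl rfl rfl rfl (m := 22) (by decide) norm6U rfl rfl up6 UM6.d tail6
    (fun B _ h => UP.Gen.hom3 h) UM6.l rfl rfl rfl rfl rfl lc6 (a := a3 3 2 2)
    (fun j hj => by
      have hj' : j < 3 := hj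
      interval_cases j <;> decide) a3_gen

/-- Exceptional Schur multiplier: PSU₆(2), realised over the field with 4 elements, has Schur multiplier isomorphic to the product of cyclic groups of orders 3, 2 and 2 (order 12, not cyclic; here the Schur multiplier is described through stem extensions, as in the definitions). -/
theorem result {F : Type*} [Field F] [Fintype F] (hF : Fintype.card F = 4) : Cfsg.HasSchurMultiplier (Cfsg.PSU 6 F 2) (Multiplicative (ZMod 3 × ZMod 2 × ZMod 2)) := by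
  obtain ⟨e⟩ := SU62.nonempty_equiv hF
  obtain ⟨e2⟩ := U62Main.nonempty_H
  exact hasSchur_transport (e2.trans e.symm) main

end Cfsg.Agent.S2091
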