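import Cfsg.Statements.S2094
import Mathlib
import Cfsg.Agent.Lib.SpinB.Final
-- import your own Cfsg.Agent.* helpers here

set_option autoImplicit false
open Cfsg

namespace Cfsg.Agent.S2094

/-- Schur multipliers of the odd-dimensional orthogonal groups: for m ≥ 3 and a field F of odd order q with (m, q) ≠ (3, 3), the Schur multiplier of PΩ_(2m+1)(F) (for the form x₀² + Σ xᵢyᵢ) is cyclic of order 2 = gcd(2, q − 1); here the Schur multiplier is described through stem extensions, as in the definitions. -/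
theorem result {F : Type*} [Field F] [Fintype F] {q : ℕ} (hF : Fintype.card F = q) (hq : Odd q) (m : ℕ) (hm : 3 ≤ m) (hexc : ¬ (m = 3 ∧ q = 3)) : Cfsg.HasCyclicSchurMultiplier (Cfsg.POmega F (Cfsg.quadFormOdd m F)) 2 := by
  classical
  have hq' : Odd (Fintype.card F) := by rwa [hF]
  have h2 : (2 : F) ≠ 0 := fun h => (Nat.not_even_iff_odd.mpr hq') (Cfsg.Agent.Lib.Classical.Orth.Center.card_even_iff h)
  have hH : Cfsg.Agent.Lib.SpinB.CE.HH m F :=
    Cfsg.Agent.Lib.SpinB.HH_of hm (fun h => hexc ⟨h.1, by rw [← hF]; exact h.2⟩) hq'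
  rw [← Cfsg.Agent.Lib.Classical.Orth.Models.coe_oddForm m F]
  exact Cfsg.Agent.Lib.SpinB.schur_main h2 hm hH

end Cfsg.Agent.S2094
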