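-- Statement S2095: proved by the Schur2 toolkit, prime by prime.
import Cfsg.Statements.S2095
import Mathlib
import Cfsg.Agent.Lib.Compute.Schur2.O73Po
import Cfsg.Agent.Lib.Compute.Schur2.O73a
import Cfsg.Agent.Lib.Compute.Schur2.O73b
import Cfsg.Agent.Lib.Compute.OrthTransport

set_option autoImplicit false
open Cfsg

namespace Cfsg.Agent.S2095

open Cfsg.Agent.Lib.Compute.Schur2 Cfsg.Agent.Lib.Compute.OrthTransport

/-- The commutator subgroups along an isomorphism. -/
noncomputable def commCongr {A B : Type*} [Group A] [Group B] (e : A ≃* B) : commutator A ≃* commutator B :=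
  (e.subgroupMap (commutator A)).trans (MulEquiv.subgroupCongr (by
    have h : Subgroup.map (e : A →* B) ⊤ = ⊤ := Subgroup.map_top_of_surjective _ e.surjective
    rw [commutator_def, Subgroup.map_commutator, commutator_def, h]))

/-- The central quotients along an isomorphism. -/
noncomputable def centerCongr {A B : Type*} [Group A] [Group B] (e : A ≃* B) :
    A ⧸ Subgroup.center A ≃* B ⧸ Subgroup.center B :=
  QuotientGroup.congr _ _ e (by
    ext y
    constructor
    · rintro ⟨x, hx, rfl⟩
      have hx' : x ∈ Subgroup.center A := hx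
      rw [Subgroup.mem_center_iff] at hx'
      show e x ∈ Subgroup.center B
      rw [Subgroup.mem_center_iff]
      intro z
      obtain ⟨w, rfl⟩ := e.surjective z
      rw [← map_mul, ← map_mul, hx' w]
    · intro hy
      have hy' : y ∈ Subgroup.center B := hy
      rw [Subgroup.mem_center_iff] at hy'
      refine ⟨e.symm y, ?_, by simp⟩
      show e.symm y ∈ Subgroup.center A
      rw [Subgroup.mem_center_iff]
      intro z
      apply e.injective
      rw [map_mul, map_mul, e.apply_symm_apply, hy' (e z)])

/-- `PΩ₇` along an isomorphism of fields. -/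
noncomputable def poCongr {K L : Type*} [Field K] [Field L] (σ : K ≃+* L) :
    Cfsg.POmega K (Cfsg.quadFormOdd 3 K) ≃* Cfsg.POmega L (Cfsg.quadFormOdd 3 L) :=
  centerCongr (commCongr (isometryCongr σ _ _ (fun v => by
    simp [Cfsg.quadFormOdd, map_add, map_mul, map_sum, map_pow])))

/-- The group of the table over `G₂(3)` and `PΩ₇(3)`. -/
theorem isoA : Nonempty (O73a.KK ≃* Cfsg.POmega (ZMod 3) (Cfsg.quadFormOdd 3 (ZMod 3))) := by
  obtain ⟨e⟩ := O73a.iso
  exact ⟨e.trans O73P.equivPO⟩

/-- The multiplier of `PΩ₇(3)`. -/
theorem main : HasSchurMultiplier O73a.KK (Multiplicative (ZMod 6)) := by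
  obtain ⟨ea⟩ := O73a.iso
  obtain ⟨eb⟩ := O73b.iso
  exact hasSchur_six O73a.perf O73a.part (O73b.part.of_equiv (eb.trans ea.symm))

/-- Exceptional Schur multiplier: over the field with 3 elements, PΩ₇ (for the form x₀² + Σ xᵢyᵢ) has Schur multiplier cyclic of order 6 (the product of cyclic groups of orders 3 and 2; here the Schur multiplier is described through stem extensions, as in the definitions). -/
theorem result {F : Type*} [Field F] [Fintype F] (hF : Fintype.card F = 3) : Cfsg.HasCyclicSchurMultiplier (Cfsg.POmega F (Cfsg.quadFormOdd 3 F)) 6 := by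
  obtain ⟨e⟩ := isoA
  have σ : ZMod 3 ≃+* F := ZMod.ringEquivOfPrime F (by norm_num) hF
  exact hasSchur_transport (e.trans (poCongr σ)) main

end Cfsg.Agent.S2095
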