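-- Statement S2098: proved by the Schur2 toolkit.
import Cfsg.Statements.S2098
import Mathlib
import Cfsg.Agent.Lib.Compute.Schur2.Shapes
import Cfsg.Agent.Lib.Compute.Schur2.O8ChkA
import Cfsg.Agent.Lib.Compute.Schur2.O8ChkF
import Cfsg.Agent.Lib.Compute.Schur2.O8ChkC
import Cfsg.Agent.Lib.Compute.Schur2.O8ChkD
import Cfsg.Agent.Lib.Compute.Schur2.O8ChkU0
import Cfsg.Agent.Lib.Compute.Schur2.O8ChkU1
import Cfsg.Agent.Lib.Compute.Schur2.O8ChkU2
import Cfsg.Agent.Lib.Compute.Schur2.O8ChkU3
import Cfsg.Agent.Lib.Compute.Schur2.O8ChkL0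
import Cfsg.Agent.Lib.Compute.Schur2.O8ChkL1
import Cfsg.Agent.Lib.Compute.Schur2.O8ChkL2
import Cfsg.Agent.Lib.Compute.Schur2.O8ChkL3

set_option autoImplicit false
set_option maxRecDepth 1000000
open Cfsg

namespace Cfsg.Agent.S2098

open Cfsg.Agent.Lib.Compute.SchurLin Cfsg.Agent.Lib.Compute.PermCert Cfsg.Agent.Lib.Compute.Schur2
open Cfsg.Agent.Lib.Compute.Schur2.O8

universe u

/-- All the edges. -/
theorem upAll : allB (fun i => allB (FastW.UPW.edgeW u 22 15 Pr i) 6) 28800 = true := by
  refine allB_split (a := 28000) (b := 800) ?_ upP28000 rfl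
  refine allB_split (a := 26000) (b := 2000) ?_ upP26000 rfl
  refine allB_split (a := 24000) (b := 2000) ?_ upP24000 rfl
  refine allB_split (a := 22000) (b := 2000) ?_ upP22000 rfl
  refine allB_split (a := 20000) (b := 2000) ?_ upP20000 rfl
  refine allB_split (a := 18000) (b := 2000) ?_ upP18000 rfl
  refine allB_split (a := 16000) (b := 2000) ?_ upP16000 rfl
  refine allB_split (a := 14000) (b := 2000) ?_ upP14000 rfl
  refine allB_split (a := 12000) (b := 2000) ?_ upP12000 rfl
  refine allB_split (a := 10000) (b := 2000) ?_ upP10000 rfl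
  refine allB_split (a := 8000) (b := 2000) ?_ upP8000 rfl
  refine allB_split (a := 6000) (b := 2000) ?_ upP6000 rfl
  refine allB_split (a := 4000) (b := 2000) ?_ upP4000 rfl
  refine allB_split (a := 2000) (b := 2000) ?_ upP2000 rfl
  exact allB_split (a := 0) (b := 2000) rfl upP0 rfl

/-- All the relators at all the points. -/
theorem lcAll : allB (FastW.ptW l Ee 4 2 3 code) 28800 = true := by
  refine allB_split (a := 28000) (b := 800) ?_ lcP28000 rfl
  refine allB_split (a := 26000) (b := 2000) ?_ lcP26000 rfl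
  refine allB_split (a := 24000) (b := 2000) ?_ lcP24000 rfl
  refine allB_split (a := 22000) (b := 2000) ?_ lcP22000 rfl
  refine allB_split (a := 20000) (b := 2000) ?_ lcP20000 rfl
  refine allB_split (a := 18000) (b := 2000) ?_ lcP18000 rfl
  refine allB_split (a := 16000) (b := 2000) ?_ lcP16000 rfl
  refine allB_split (a := 14000) (b := 2000) ?_ lcP14000 rfl
  refine allB_split (a := 12000) (b := 2000) ?_ lcP12000 rfl
  refine allB_split (a := 10000) (b := 2000) ?_ lcP10000 rfl
  refine allB_split (a := 8000) (b := 2000) ?_ lcP8000 rfl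
  refine allB_split (a := 6000) (b := 2000) ?_ lcP6000 rfl
  refine allB_split (a := 4000) (b := 2000) ?_ lcP4000 rfl
  refine allB_split (a := 2000) (b := 2000) ?_ lcP2000 rfl
  exact allB_split (a := 0) (b := 2000) rfl lcP0 rfl

/-- All the flips. -/
theorem flAll : allB (fun i => allB (FastW.flipW Ee 6 2 3 i) 6) 28800 = true := by
  refine allB_split (a := 24000) (b := 4800) ?_ flP24000 rfl
  refine allB_split (a := 16000) (b := 8000) ?_ flP16000 rfl
  refine allB_split (a := 8000) (b := 8000) ?_ flP8000 rfl
  exact allB_split (a := 0) (b := 8000) rfl flP0 rfl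

theorem upChk : u.check = true :=
  FastW.UPW.check_of_W (B := 22) (b := 15) (Pr := Pr) (fun _ _ => rfl) (fun _ => rfl) up0 up1 up2 upAll

theorem lcChk : l.check = true :=
  FastW.check_of_W (E := Ee) (rb := 2) (mask := 3) (R := 4) (code := code) (fun _ _ => rfl) (fun _ _ => rfl) rfl rfl rfl
    (fun _ _ => rfl) hcode flAll lcAll lc3 lc4

/-- The group. -/
abbrev H : Subgroup (Equiv.Perm (Fin 256)) := chainGroup 8 255 256 ls

theorem hmem (j : ℕ) : gPerm 8 255 256 es j ∈ H := gPerm_mem_chain chainOk validEs siftEs j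

theorem relsChk : allB (fun k => allB (fun i => Nat.beq (wordPt 8 255 es (c.W.getD k []) i) i) 256) c.nrel = true := by
  decide +kernel

/-- The words of the generators of the group. -/
def us : List (List ℕ) := [[0], [2], [4]]

theorem wordsChk : wordsB 8 255 256 es 3 (nextGens ls) us = true := by decide +kernel

/-- The generators. -/
noncomputable abbrev gJ : ℕ → H := gP 8 255 256 es H

theorem hrel : ∀ k < c.nrel, Cfsg.Agent.Lib.Compute.ToddCoxeterCore.wordEl (ltr gJ) (c.W.getD k []) = 1 := by
  intro k hk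
  apply rel_of_check validEs hmem
  have := (allB_iff _ _).mp relsChk k hk
  exact this

theorem hgen (x : H) : x ∈ Subgroup.closure (gJ '' Set.Iio c.n) :=
  gen_of_words validEs hmem (k := 3) (gens := nextGens ls) (us := us) rfl wordsChk x

theorem hcard : Nat.card H = c.N * (U33.c.N * 7) := by
  rw [chain_card chainOk, chainOrd]
  rfl

theorem hsec : HasSec c gJ :=
  hasSec_of_nest sound hSB U33.presTriv nestChk hrel hgen hcard

theorem hperf : commutator H = ⊤ := perfect_of_norm hnormC (sound.{0}).hW hrel (by decide) hgen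

theorem main : HasSchurMultiplier H (Multiplicative (ZMod 2 × ZMod 2)) :=
  hasSchur_main (g := gJ) sound hSB (fun j hj => gP_ge hmem hj) hrel hgen hcard (by decide) hnormC hsec
    u rfl rfl rfl rfl rfl rfl (m := 13) (by decide) hnormU rfl rfl upChk d tailChk
    (fun B _ h => UP.Gen.hom2 h) l rfl rfl rfl rfl rfl lcChk (a := a2 2 2)
    (fun j hj => by
      match j, hj with
      | 0, _ => exact a2_pow0
      | 1, _ => exact a2_pow1) a2_gen

/-- Exceptional Schur multiplier: over the field with 2 elements, PΩ⁺₈ (for the form Σ xᵢyᵢ) has Schur multiplier a four-group, the product of two cyclic groups of order 2 (here the Schur multiplier is described through stem extensions, as in the definitions). -/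
theorem result {F : Type*} [Field F] [Fintype F] (hF : Fintype.card F = 2) : Cfsg.HasSchurMultiplier (Cfsg.POmega F (Cfsg.quadFormPlus 4 F)) (Multiplicative (ZMod 2 × ZMod 2)) :=
  by
  obtain ⟨e⟩ := O8Two.nonempty_equiv hF hc2 hall hcomp chainOk hsub hord hperf hZ
  exact hasSchur_transport e main

end Cfsg.Agent.S2098
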