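-- Statement S2112: proved by the Schur2 toolkit.
import Cfsg.Statements.S2112
import Mathlib
import Cfsg.Agent.Lib.Compute.Schur2.Sz8Data
import Cfsg.Agent.Lib.Suzuki.Iso
import Cfsg.Agent.Lib.Compute.GF8
import Cfsg.Agent.Lib.Compute.SzCongr

set_option autoImplicit false
set_option maxRecDepth 1000000
open Cfsg

namespace Cfsg.Agent.S2112

open Cfsg.Agent.Lib.Compute.SchurLin Cfsg.Agent.Lib.Compute.PermCert Cfsg.Agent.Lib.Compute.Schur2
open Cfsg.Agent.Lib.Compute.Schur2.Sz8
open Cfsg.Agent.Lib.Suzuki.Basic Cfsg.Agent.Lib.Suzuki.Group Cfsg.Agent.Lib.Suzuki.Struct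
  Cfsg.Agent.Lib.Suzuki.Order Cfsg.Agent.Lib.Suzuki.Gen Cfsg.Agent.Lib.Suzuki.Iso
open Cfsg.Agent.Lib.Compute.GF8
open Cfsg.Agent.Lib.Compute.ToddCoxeterCore (wordEl wordEl_nil wordEl_cons wordEl_append)

universe u

theorem certChk : certB c eE 11550 2310 eP rT 6 = true := by decide +kernel

theorem sound : TC.Sound.{u} c := sound_of_check certChk

theorem hSB : SubBound.{u} c 13 := subBound_cyc (kp := 2) (w := [0, 2]) (by decide +kernel)

theorem upChk : u.check = true := by decide +kernel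

theorem tailChk : UP.tailCheck u d = true := by decide +kernel

theorem lcChk : l.check = true := by decide +kernel

theorem hnormC : normB c.n c.W = true := by decide +kernel

theorem hnormU : normB u.n u.W = true := by decide +kernel

/-! ### The group -/

theorem hyp8 : Hyp F8 1 := ⟨le_rfl, F8.card_eq⟩

/-- The group. -/
abbrev X := G F8 1

/-- The element of the field. -/
def a0 : F8 := F8.ofN 2

/-- The generators. -/
noncomputable def g : ℕ → X
  | 0 => Tg hyp8
  | 1 => Lg hyp8 a0 0
  | _ => 1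

/-- The matrices of the letters. -/
def Mx : ℕ → Matrix (Fin 4) (Fin 4) F8
  | 0 => Tm F8
  | 1 => Tm F8
  | 2 => Lm 1 a0 0
  | 3 => Lm 1 a0 (a0 ^ 4 * a0)
  | _ => 1

/-- The matrix of a word. -/
def evM : List ℕ → Matrix (Fin 4) (Fin 4) F8
  | [] => 1
  | x :: u => evM u * Mx x

theorem mat_inj {a b : X} (h : mat a = mat b) : a = b :=
  Subtype.ext (Subtype.ext h)

theorem mat_inv_eq {a : X} {A : Matrix (Fin 4) (Fin 4) F8} (hA : mat a * A = 1) : mat a⁻¹ = A := by
  calc mat a⁻¹ = mat a⁻¹ * (mat a * A) := by rw [hA, mul_one]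
    _ = mat (a⁻¹ * a) * A := by rw [mat_mul, mul_assoc]
    _ = A := by rw [inv_mul_cancel, mat_one, one_mul]

theorem T_sq : (Tm F8) * (Tm F8) = 1 := by decide +kernel

theorem L_inv : Lm 1 a0 0 * Lm 1 a0 (a0 ^ 4 * a0) = 1 := by decide +kernel

theorem mat_ltr (x : ℕ) (hx : x < 4) : mat (ltr g x) = Mx x := by
  interval_cases x
  · exact mat_Tg hyp8
  · exact mat_inv_eq (a := g 0) (by rw [show mat (g 0) = Tm F8 from mat_Tg hyp8]; exact T_sq)
  · exact mat_Lg hyp8 _ _
  · exact mat_inv_eq (a := g 1) (by rw [show mat (g 1) = Lm 1 a0 0 from mat_Lg hyp8 _ _]; exact L_inv)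

theorem mat_word (w : List ℕ) (hw : ∀ x ∈ w, x < 4) : mat (wordEl (ltr g) w) = evM w := by
  induction w with
  | nil => rfl
  | cons x u ih =>
    rw [wordEl_cons, mat_mul, mat_ltr x (hw x (by simp)), ih (fun y hy => hw y (by simp [hy]))]
    rfl

theorem relChk : allB (fun k => (c.W.getD k []).all (fun x => decide (x < 4)) && decide (evM (c.W.getD k []) = 1)) c.nrel = true := by
  decide +kernel

theorem hrel : ∀ k < c.nrel, wordEl (ltr g) (c.W.getD k []) = 1 := by
  intro k hk
  have := (allB_iff _ _).mp relChk k hk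
  simp only [Bool.and_eq_true, List.all_eq_true, decide_eq_true_eq] at this
  apply mat_inj
  rw [mat_word _ this.1, this.2, mat_one]

theorem wsChk : (List.range 64).all (fun i => (ws.getD i []).all (fun x => decide (x < 4)) &&
    decide (evM (ws.getD i []) = Lm 1 (F8.ofN (i / 8)) (F8.ofN (i % 8)))) = true := by
  decide +kernel

theorem ofN_surj (a b : F8) : ∃ i < 64, a = F8.ofN (i / 8) ∧ b = F8.ofN (i % 8) := by
  revert a b
  decide +kernel

theorem hgen (x : X) : x ∈ Subgroup.closure (g '' Set.Iio c.n) := by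
  set H := Subgroup.closure (g '' Set.Iio c.n) with hH
  have hT : Tg hyp8 ∈ H := Subgroup.subset_closure ⟨0, by show 0 < 2; omega, rfl⟩
  have hU : Cfsg.Agent.Lib.Suzuki.Sub.Usub hyp8 ≤ H := by
    rintro _ ⟨a, b, rfl⟩
    obtain ⟨i, hi, rfl, rfl⟩ := ofN_surj a b
    have h1 := List.all_eq_true.mp wsChk i (List.mem_range.mpr hi)
    simp only [Bool.and_eq_true, List.all_eq_true, decide_eq_true_eq] at h1
    have h2 : wordEl (ltr g) (ws.getD i []) ∈ H :=
      wordEl_mem_closure' g (k := 2) (fun x hx => by have := h1.1 x hx; show x < 2 * 2; omega)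
    have h3 : wordEl (ltr g) (ws.getD i []) = Lg hyp8 (F8.ofN (i / 8)) (F8.ofN (i % 8)) := by
      apply mat_inj
      rw [mat_word _ h1.1, h1.2, mat_Lg hyp8]
    rwa [h3] at h2
  have hn : ¬ H ≤ Bor F8 1 := by
    intro hle
    have h1 : Tg hyp8 • (oI : Om F8 1) = oI := hle hT
    have h2 := congrArg Subtype.val h1
    exact pA_ne_pI (m := 1) (0 : F8) 0 ((TS_pI hyp8).symm.trans h2)
  rw [eq_top_of_U_not_Bor hyp8 H hU hn]
  trivial

instance : Finite X := finite_G

theorem hcard : Nat.card X = c.N * 13 := by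
  have := card_G hyp8
  rw [F8.card_eq] at this
  rw [this]
  rfl

theorem hsec : HasSec c g :=
  hasSec_of_coprime sound hSB hrel hgen hcard (commutator_eq_top hyp8) [13] rfl (by
    intro p hp
    rw [List.mem_singleton] at hp
    subst hp
    rw [hcard]
    refine ⟨by norm_num, ?_⟩
    show ¬ 13 ^ 2 ∣ 2240 * 13
    norm_num)

theorem main : HasSchurMultiplier X (Multiplicative (ZMod 2 × ZMod 2)) :=
  hasSchur_main (g := g) sound hSB
    (fun j hj => by
      have hj' : 2 ≤ j := hj
      obtain ⟨i, rfl⟩ : ∃ i, j = i + 2 := ⟨j - 2, by omega⟩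
      rfl) hrel hgen hcard (by decide) hnormC hsec
    u rfl rfl rfl rfl rfl rfl (m := 6) (by decide) hnormU rfl rfl upChk d tailChk
    (fun B _ h => UP.Gen.hom2 h) l rfl rfl rfl rfl rfl lcChk (a := a2 2 2)
    (fun j hj => by
      have hj' : j < 2 := hj
      interval_cases j <;> decide) a2_gen

/-- Exceptional Schur multiplier: the Suzuki group Sz(8), built over the field with 8 elements using the map x ↦ x⁴, has Schur multiplier a four-group, the product of two cyclic groups of order 2 (here the Schur multiplier is described through stem extensions, as in the definitions). -/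
theorem result {F : Type*} [Field F] [Fintype F] (hF : Fintype.card F = 8) : Cfsg.HasSchurMultiplier ↥(Cfsg.Lie.Sz F 4) (Multiplicative (ZMod 2 × ZMod 2)) := by
  obtain ⟨e8⟩ : Nonempty (F8 ≃+* F) := ⟨FiniteField.ringEquivOfCardEq (F8.card_eq.trans hF.symm)⟩
  obtain ⟨E1⟩ : Nonempty (X ≃* Cfsg.Lie.Sz F8 4) := ⟨suzEquiv hyp8⟩
  exact hasSchur_transport (E1.trans (Cfsg.Agent.Lib.Compute.SzCongr.szCongr e8 4)) main

end Cfsg.Agent.S2112
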