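import Cfsg.Statements.S2114
import Cfsg.Agent.Lib.TF4Mult.Part2h

set_option autoImplicit false
open Cfsg

namespace Cfsg.Agent.S2114

/-- Schur multipliers of the large Ree groups: for q = 2^(2m+1) with m ≥ 1 the Schur multiplier of ²F₄(q) is trivial (here the Schur multiplier is described through stem extensions, as in the definitions). -/
theorem result {K : Type*} [Field K] [Fintype K] {m : ℕ} (hm : 1 ≤ m) (hK : Fintype.card K = 2 ^ (2 * m + 1)) : Cfsg.HasCyclicSchurMultiplier ↥(Cfsg.Lie.twistedF4 K (2 ^ m)) 1 := by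
  classical
  obtain ⟨hchar, φ, hφ, hφ2, T, hρ, hτ⟩ := Cfsg.Agent.Lib.TF4.main_data hK
  have hfin : Finite ↥(Cfsg.Lie.twistedF4 K (2 ^ m)) := inferInstance
  have hyp : Cfsg.Agent.Lib.Suzuki.Basic.Hyp K m := ⟨hm, hK⟩
  have hK5 : 5 ≤ Fintype.card K := by
    rw [hK]
    calc 5 ≤ 2 ^ 3 := by norm_num
      _ ≤ 2 ^ (2 * m + 1) := Nat.pow_le_pow_right (by norm_num) (by omega)
  have hkerall : ∀ (Γ : Type _) [_root_.Group Γ] [Finite Γ] (σ : Γ →* ↥(Cfsg.Lie.twistedF4 K (2 ^ m))),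
      IsStemExtension σ → σ.ker = ⊥ := by
    intro Γ _ _ σ hσ
    rw [eq_bot_iff]
    intro z hz
    rw [Subgroup.mem_bot]
    exact Cfsg.Agent.Lib.TF4Mult.ker_triv hφ2 hρ hτ hφ hyp hφ hK5 hσ.1 hσ.2.1 hσ.2.2 hz
  refine ⟨⟨↥(Cfsg.Lie.twistedF4 K (2 ^ m)), inferInstance, hfin, MonoidHom.id _, ?_, ?_⟩, ?_⟩
  · have hk : (MonoidHom.id ↥(Cfsg.Lie.twistedF4 K (2 ^ m))).ker = ⊥ := MonoidHom.ker_id
    refine ⟨Function.surjective_id, ?_, ?_⟩
    · rw [hk]; exact bot_le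
    · rw [hk]; exact bot_le
  · have hk : (MonoidHom.id ↥(Cfsg.Lie.twistedF4 K (2 ^ m))).ker = ⊥ := MonoidHom.ker_id
    refine ⟨{ toFun := fun _ => 1, invFun := fun _ => 1, left_inv := ?_, right_inv := ?_, map_mul' := ?_ }⟩
    · intro x
      apply Subtype.ext
      have hx1 : ((x : ↥(Cfsg.Lie.twistedF4 K (2 ^ m)))) = 1 := MonoidHom.mem_ker.mp x.2
      exact hx1.symm
    · intro x
      exact Subsingleton.elim _ _
    · intro x y
      simp
  · intro Γ _ _ σ hσ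
    refine ⟨1, ?_⟩
    rintro ⟨x, hx⟩
    refine ⟨1, ?_⟩
    apply Subtype.ext
    have hx' := hx
    rw [hkerall Γ σ hσ] at hx'
    simpa using (Subgroup.mem_bot.mp hx').symm

end Cfsg.Agent.S2114
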