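import Cfsg.Statements.S2156
import Mathlib
import Cfsg.Agent.Lib.ChevAut.Perm
import Cfsg.Agent.Lib.ChevAut.StarData
import Cfsg.Agent.Lib.ChevAut.Normalize

set_option autoImplicit false
open Cfsg

namespace Cfsg.Agent.S2156

/-- Over a finite field, every automorphism of the Chevalley group of type G₂, B₂, D₄, F₄, E₆, E₇ or E₈ is the composite of a field automorphism, a graph automorphism, a diagonal automorphism and an inner automorphism: `θ y = x · d(g(f y)) · x⁻¹` for some group element `x`, diagonal `d`, graph `g` and field `f` (each possibly the identity; diagonal here includes conjugation by elements of the diagonal subgroup H). -/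
theorem result {F : Type*} [Field F] [Finite F] (D : Cfsg.Lie.ChevalleyDatum) (hD : D ∈ [Cfsg.Lie.chevG2, Cfsg.Lie.chevB2, Cfsg.Lie.chevD4, Cfsg.Lie.chevF4, Cfsg.Lie.chevE6, Cfsg.Lie.chevE7, Cfsg.Lie.chevE8]) (θ : ↥(D.group F) ≃* ↥(D.group F)) :
    ∃ (x : ↥(D.group F)) (d g f : ↥(D.group F) ≃* ↥(D.group F)),
      D.IsDiagonalAut d ∧ D.IsGraphAut g ∧ D.IsFieldAut f ∧ ∀ y : ↥(D.group F), θ y = x * d (g (f y)) * x⁻¹ := by
  obtain ⟨η, hS, -⟩ := Cfsg.Agent.Lib.Chevalley.AllEta.exists_sys_eta.{u_1} D hD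
  have hR := hS F
  have hT := Cfsg.Agent.Lib.ChevBN.FastData.tbl_of_mem hD
  have hT2 := Cfsg.Agent.Lib.ChevBN.FastData.tbl2_of_mem hD
  obtain ⟨l, hl⟩ := Cfsg.Agent.Lib.ChevAut.StarData.exists_word hD
  obtain ⟨x, π, hp, hn⟩ := Cfsg.Agent.Lib.ChevAut.Perm.exists_inner_perm hR hT hT2 hl θ
  obtain ⟨d, g, f, hd, hg, hf, h⟩ := Cfsg.Agent.Lib.ChevAut.normalize_of_perm D hD (Cfsg.Agent.Lib.ChevAut.Inner.conjBy θ x) π
    (fun i t y hy => by
      obtain ⟨u, hu⟩ := hp i t y ((Cfsg.Agent.Lib.ChevBN.Elem.eq_X hR.toAddRel).1 hy)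
      exact ⟨u, by rw [hu]; rfl⟩)
    (fun i t y hy => by
      obtain ⟨u, hu⟩ := hn i t y ((Cfsg.Agent.Lib.ChevBN.Elem.eq_X hR.toAddRel).1 hy)
      exact ⟨u, by rw [hu]; rfl⟩)
  refine ⟨x, d, g, f, hd, hg, hf, fun y => ?_⟩
  rw [← h, Cfsg.Agent.Lib.ChevAut.Inner.conjBy_apply]
  group

end Cfsg.Agent.S2156
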