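import Cfsg.Statements.S2122
import Mathlib
import Cfsg.Agent.S2156
import Cfsg.Agent.Lib.ChevAut.OutTypes

set_option autoImplicit false
open Cfsg

namespace Cfsg.Agent.S2122

/-- Outer automorphisms of the Chevalley groups of type F₄: over a field with q = p^f (p prime) elements, the outer automorphism group of F₄(q) has order gcd(2, p) · f (field automorphisms, and in characteristic 2 also the exceptional graph automorphism). -/
theorem result {F : Type*} [Field F] [Fintype F] (p f : ℕ) [Fact p.Prime] [CharP F p] (hF : Fintype.card F = p ^ f) : Nat.card (Cfsg.Out ↥(Cfsg.Lie.chevF4.group F)) = Nat.gcd 2 p * f := by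
  exact Cfsg.Agent.Lib.ChevAut.OutTypes.out_F4 p f hF (fun θ => Cfsg.Agent.S2156.result _ (by simp) θ)

end Cfsg.Agent.S2122
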