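import Cfsg.Statements.S2126
import Mathlib
import Cfsg.Agent.Lib.Suzuki.Aut

set_option autoImplicit false
open Cfsg

namespace Cfsg.Agent.S2126

open Cfsg.Agent.Lib.Suzuki.Basic Cfsg.Agent.Lib.Suzuki.Struct Cfsg.Agent.Lib.Suzuki.Aut
  Cfsg.Agent.Lib.Suzuki.Iso

variable {F : Type*} [Field F] [Fintype F] {m : ℕ}

/-- The number of ring automorphisms of the field. -/
theorem card_ringAut (h : Hyp F m) : Nat.card (F ≃+* F) = 2 * m + 1 := by
  have hc : CharP F 2 := h.charP
  let _ : Algebra (ZMod 2) F := ZMod.algebra F 2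
  have h1 : Fact (Nat.Prime 2) := ⟨Nat.prime_two⟩
  have hgal : Nat.card (F ≃ₐ[ZMod 2] F) = Module.finrank (ZMod 2) F := by
    have h2 := FiniteField.bijective_frobeniusAlgEquivOfAlgebraic_pow (ZMod 2) F
    rw [← Nat.card_congr (Equiv.ofBijective _ h2)]
    simp
  have hfin : Module.finrank (ZMod 2) F = 2 * m + 1 := by
    have h3 : Fintype.card F = Fintype.card (ZMod 2) ^ Module.finrank (ZMod 2) F :=
      Module.card_eq_pow_finrank
    rw [ZMod.card, h.hF] at h3
    exact (Nat.pow_right_injective (le_refl 2) h3).symm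
  rw [← hfin, ← hgal]
  apply Nat.card_congr
  refine
    { toFun := fun τ => AlgEquiv.ofRingEquiv (f := τ) (fun r => ?_)
      invFun := fun τ => τ.toRingEquiv
      left_inv := fun τ => by
        apply RingEquiv.ext
        intro x
        rfl
      right_inv := fun τ => by
        apply AlgEquiv.ext
        intro x
        rfl }
  exact RingHom.congr_fun (Subsingleton.elim ((τ : F →+* F).comp (algebraMap (ZMod 2) F))
    (algebraMap (ZMod 2) F)) r

/-- Transport of `Out` along an isomorphism. -/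
theorem card_out_congr {A B : Type*} [Group A] [Group B] (e : A ≃* B) :
    Nat.card (Cfsg.Out A) = Nat.card (Cfsg.Out B) := by
  have he : (Cfsg.Inn A).map (MulAut.congr e).toMonoidHom = Cfsg.Inn B := by
    ext φ
    constructor
    · rintro ⟨_, ⟨x, rfl⟩, rfl⟩
      refine ⟨e x, ?_⟩
      apply MulEquiv.ext
      intro y
      simp [MulAut.congr, MulAut.conj_apply]
    · rintro ⟨y, rfl⟩
      refine ⟨MulAut.conj (e.symm y), ⟨_, rfl⟩, ?_⟩
      apply MulEquiv.ext
      intro z
      simp [MulAut.congr, MulAut.conj_apply]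
  exact Nat.card_congr (QuotientGroup.congr _ _ (MulAut.congr e) he).toEquiv

/-- The statement. -/
theorem result {F : Type*} [Field F] [Fintype F] {m : ℕ} (hm : 1 ≤ m) (hF : Fintype.card F = 2 ^ (2 * m + 1)) : Nat.card (Cfsg.Out ↥(Cfsg.Lie.Sz F (2 ^ (m + 1)))) = 2 * m + 1 := by
  have h : Hyp F m := ⟨hm, hF⟩
  rw [← card_out_congr (suzEquiv h), ← card_ringAut h]
  exact (Nat.card_congr (Equiv.ofBijective _ (out_bijective h))).symm

end Cfsg.Agent.S2126
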