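import Cfsg.Statements.S2128
import Mathlib
import Cfsg.Agent.Lib.TF4.I2Aut7
import Cfsg.Agent.Lib.ChevAut.FieldCard

set_option autoImplicit false
open Cfsg

namespace Cfsg.Agent.S2128

/-- Outer automorphisms of the large Ree groups: for q = 2^(2m+1) with m ≥ 1 the outer automorphism group of ²F₄(q) has order 2m + 1 (field automorphisms only). -/
theorem result {K : Type*} [Field K] [Fintype K] {m : ℕ} (hm : 1 ≤ m) (hK : Fintype.card K = 2 ^ (2 * m + 1)) : Nat.card (Cfsg.Out ↥(Cfsg.Lie.twistedF4 K (2 ^ m))) = 2 * m + 1 := by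
  obtain ⟨hc, φ, hφ, hφ2, T, hρ, hτ⟩ := Cfsg.Agent.Lib.TF4.main_data (K := K) (m := m) hK
  have := hc
  have hF : Fact (Nat.Prime 2) := ⟨Nat.prime_two⟩
  obtain ⟨P, hB, hN, hS⟩ := Cfsg.Agent.Lib.TF4.exists_pair hφ2 hρ hτ hφ
  have hS' : P.S = {g : ↥(Cfsg.Lie.twistedF4 K (2 ^ m)) | (g : GL Cfsg.Lie.chevF4.Idx K) ∈ Set.range (Cfsg.Agent.Lib.TF4.nw (K := K))} := hS
  have hne : ∃ a : K, a ≠ 0 ∧ a ≠ 1 := by
    refine Cfsg.Agent.Lib.TF4.exists_ne01 ?_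
    rw [hK]
    calc 2 = 2 ^ 1 := by norm_num
      _ < 2 ^ (2 * m + 1) := Nat.pow_lt_pow_right (by norm_num) (by omega)
  have hcard : Nat.card K = 2 ^ (2 * m + 1) := by rw [Nat.card_eq_fintype_card, hK]
  have hq : Even (Nat.card K) := by
    rw [hcard]
    exact (even_two).pow_of_ne_zero (by omega)
  have hidx := Cfsg.Agent.Lib.TF4.I2.idx_odd hφ2 hρ hτ hφ hq
  have hU := Cfsg.Agent.Lib.TF4.card_U1 hφ2 hρ hτ hφ
  have hSyl : ∃ Q : Sylow 2 ↥(Cfsg.Lie.twistedF4 K (2 ^ m)), (Q : Subgroup ↥(Cfsg.Lie.twistedF4 K (2 ^ m))) =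
      (Cfsg.Lie.chevF4.posUnipotent K).subgroupOf (Cfsg.Lie.twistedF4 K (2 ^ m)) := by
    rw [Subgroup.inf_subgroupOf_right] at hidx
    have h1 : Nat.card ((Cfsg.Lie.chevF4.posUnipotent K).subgroupOf (Cfsg.Lie.twistedF4 K (2 ^ m))) = 2 ^ ((2 * m + 1) * 12) := by
      rw [Cfsg.Agent.Lib.Twisted.card_subgroupOf', hU, hcard, pow_mul]
    have h2 := Subgroup.card_mul_index ((Cfsg.Lie.chevF4.posUnipotent K).subgroupOf (Cfsg.Lie.twistedF4 K (2 ^ m)))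
    rw [h1] at h2
    exact Cfsg.Agent.Lib.Twisted.exists_sylow_of _ h1 h2.symm hidx
  rw [Cfsg.Agent.Lib.TF4.I2.out_eq hφ2 hρ hτ hφ hB hN hS' hSyl hne]
  exact Cfsg.Agent.Lib.ChevAut.FieldCard.card_aut 2 (2 * m + 1) hK

end Cfsg.Agent.S2128
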