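import Cfsg.Statements.S2136
import Cfsg.Agent.Lib.Sporadic.Co2Cent.Surj

set_option autoImplicit false
open Cfsg

namespace Cfsg.Agent.S2136

open Cfsg.Agent.Lib.Sporadic.LeechAut Cfsg.Agent.Lib.Sporadic.Co2Cent.Roots
  Cfsg.Agent.Lib.Sporadic.Co2Cent.Hom Cfsg.Agent.Lib.Sporadic.Co2Cent.PGrp
  Cfsg.Agent.Lib.Sporadic.Co2Cent.Ker Cfsg.Agent.Lib.Sporadic.Co2Cent.Surj
  Cfsg.Agent.Lib.Sporadic.Co2Cent.Abs

theorem tO_fix : tO • Spor.leechU = Spor.leechU :=
  (tO_fix_iff _).2 (by rw [leechU_coe]; exact supO_vec8 _)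

theorem tO_sq : tO * tO = 1 := by
  apply Subtype.ext
  apply Equiv.ext
  intro v
  apply Subtype.ext
  exact signChange_signChange _ _

/-- The involution in `Co₂`. -/
def tt : ↥Spor.Co2 := ⟨tO.1, tO.2, tO_fix⟩

theorem tt_order : orderOf tt = 2 := by
  apply orderOf_eq_prime
  · apply Subtype.ext
    rw [pow_two]
    have := congrArg (fun z : Co0 => (z : Equiv.Perm leechLattice)) tO_sq
    exact this
  · intro h
    apply tO_ne_one
    apply Subtype.ext
    have := congrArg (fun z : ↥Spor.Co2 => (z : Equiv.Perm leechLattice)) h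
    exact this

/-- The centraliser. -/
abbrev CCo : Subgroup ↥Spor.Co2 := Subgroup.centralizer ({tt} : Set ↥Spor.Co2)

/-- The centraliser in `Co₂` is the group `CC`. -/
def equivCC : ↥CCo ≃* CC where
  toFun y := ⟨⟨y.1.1, y.1.2.1⟩, by
    rw [mem_CC]
    refine ⟨y.1.2.2, ?_⟩
    have h := Subgroup.mem_centralizer_singleton_iff.1 y.2
    apply Subtype.ext
    have := congrArg (fun z : ↥Spor.Co2 => (z : Equiv.Perm leechLattice)) h
    exact this⟩
  invFun g := ⟨⟨g.1.1, g.1.2, (mem_CC.1 g.2).1⟩, by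
    rw [Subgroup.mem_centralizer_singleton_iff]
    apply Subtype.ext
    have := congrArg (fun z : Co0 => (z : Equiv.Perm leechLattice)) (mem_CC.1 g.2).2
    exact this⟩
  left_inv y := rfl
  right_inv g := rfl
  map_mul' x y := rfl

/-- The homomorphism from the centraliser to `Sp₆(2)`. -/
def psiC : ↥CCo →* Matrix.symplecticGroup (Fin 3) (ZMod 2) := psi.comp equivCC.toMonoidHom

theorem psiC_surj : Function.Surjective psiC := psi_surj.comp equivCC.surjective

theorem mem_ker_psiC {y : ↥CCo} : y ∈ psiC.ker ↔ (equivCC y).1 ∈ P := by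
  rw [← mem_ker_psi, MonoidHom.mem_ker, MonoidHom.mem_ker]
  rfl

/-- The kernel is the group `P`. -/
def kerEquiv : psiC.ker ≃* P where
  toFun y := ⟨(equivCC y.1).1, mem_ker_psiC.1 y.2⟩
  invFun g := ⟨equivCC.symm ⟨g.1, P_le_CC g.2⟩, by
    rw [mem_ker_psiC, MulEquiv.apply_symm_apply]
    exact g.2⟩
  left_inv y := by
    apply Subtype.ext
    apply equivCC.injective
    rw [MulEquiv.apply_symm_apply]
  right_inv g := by
    apply Subtype.ext
    show (equivCC (equivCC.symm ⟨g.1, P_le_CC g.2⟩)).1 = g.1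
    rw [MulEquiv.apply_symm_apply]
  map_mul' x y := rfl

/-- The Conway group Co₂ (the stabiliser of a minimal vector of the rank-24 lattice) has an involution whose centraliser C has largest normal 2-subgroup extraspecial of order 2^9 with quotient C / O₂(C) isomorphic to the symplectic group Sp(6, 2) (shape 2^{1+8}Sp(6, 2)). -/
theorem result : ∃ t : ↥Cfsg.Spor.Co2, orderOf t = 2 ∧ Cfsg.IsExtraspecial 2 (Cfsg.pCore 2 ↥(Subgroup.centralizer ({t} : Set ↥Cfsg.Spor.Co2))) ∧ Nat.card (Cfsg.pCore 2 ↥(Subgroup.centralizer ({t} : Set ↥Cfsg.Spor.Co2))) = 2 ^ 9 ∧ Nonempty (↥(Subgroup.centralizer ({t} : Set ↥Cfsg.Spor.Co2)) ⧸ Cfsg.pCore 2 ↥(Subgroup.centralizer ({t} : Set ↥Cfsg.Spor.Co2)) ≃* Matrix.symplecticGroup (Fin 3) (ZMod 2)) := by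
  refine ⟨tt, tt_order, ?_⟩
  exact final_abs psiC psiC_surj kerEquiv card_P exCrit_P

end Cfsg.Agent.S2136
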