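import Cfsg.Statements.S2140
import Cfsg.Agent.Lib.MinIndex.SLMain

set_option autoImplicit false
open Cfsg

namespace Cfsg.Agent.S2140

open scoped LinearAlgebra.Projectivization

theorem numerics {q k : ℕ} (hq : 2 ≤ q) :
    (q - 1) * (∑ i ∈ Finset.range k, q ^ i) + 1 = q ^ k ∧
      (q ^ (k + 1) - 1) / (q - 1) = q ^ k + ∑ i ∈ Finset.range k, q ^ i := by
  obtain ⟨x, rfl⟩ : ∃ x, q = x + 1 := ⟨q - 1, by omega⟩
  have hx : 0 < x := by omega
  simp only [Nat.add_sub_cancel]
  have h1 := geom_sum_mul_add x k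
  have h2 := geom_sum_mul_add x (k + 1)
  rw [Finset.sum_range_succ] at h2
  constructor
  · rw [mul_comm]
    exact h1
  · have h3 : (x + 1) ^ (k + 1) - 1 = x * ((x + 1) ^ k + ∑ i ∈ Finset.range k, (x + 1) ^ i) := by
      rw [← h2]
      simp only [Nat.add_sub_cancel]
      ring
    rw [h3, Nat.mul_div_cancel_left _ hx]

/-- Minimal index of a proper subgroup of the linear groups: for n ≥ 3 and a field F with q elements, (n, q) ≠ (4, 2), every proper subgroup of PSL_n(F) has index at least (q^n − 1)/(q − 1), and some subgroup has exactly that index (the stabiliser of a point of the projective space). -/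
theorem result {F : Type*} [Field F] [Fintype F] {q : ℕ} (hF : Fintype.card F = q) (n : ℕ) (hn : 3 ≤ n) (hexc : ¬ (n = 4 ∧ q = 2)) : (∀ H : Subgroup (Matrix.ProjectiveSpecialLinearGroup (Fin n) F), H ≠ ⊤ → (q ^ n - 1) / (q - 1) ≤ H.index) ∧ (∃ H : Subgroup (Matrix.ProjectiveSpecialLinearGroup (Fin n) F), H.index = (q ^ n - 1) / (q - 1)) := by
  classical
  obtain ⟨k, rfl⟩ : ∃ k, n = k + 1 := ⟨n - 1, by omega⟩
  have hk : 2 ≤ k := by omega
  have hq : 2 ≤ q := hF ▸ Fintype.one_lt_card
  obtain ⟨hN', hN⟩ := numerics (q := q) (k := k) hq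
  have hexc' : ¬ (k = 3 ∧ Fintype.card F = 2) := by
    rintro ⟨rfl, h⟩
    exact hexc ⟨rfl, hF ▸ h⟩
  rw [hN]
  constructor
  · intro H hH
    set f := QuotientGroup.mk' (Subgroup.center (Matrix.SpecialLinearGroup (Fin (k + 1)) F)) with hf
    have hsurj : Function.Surjective f := QuotientGroup.mk'_surjective _
    set H' := H.comap f with hH'
    have hidx : H'.index = H.index := Subgroup.index_comap_of_surjective H hsurj
    rw [← hidx]
    by_contra hlt
    push Not at hlt
    have htop : H' ≠ ⊤ := by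
      intro h
      apply hH
      rw [eq_top_iff]
      intro x _
      obtain ⟨y, rfl⟩ := hsurj x
      have : y ∈ H' := by rw [h]; trivial
      exact this
    let _ : Fintype (Matrix.SpecialLinearGroup (Fin (k + 1)) F ⧸ H') := Fintype.ofFinite _
    let ρ := MulAction.toPermHom (Matrix.SpecialLinearGroup (Fin (k + 1)) F) (Matrix.SpecialLinearGroup (Fin (k + 1)) F ⧸ H')
    have hρ : ρ ≠ 1 := by
      intro h1
      apply htop
      rw [eq_top_iff]
      intro g _
      have h2 : ρ g ((1 : Matrix.SpecialLinearGroup (Fin (k + 1)) F) : Matrix.SpecialLinearGroup (Fin (k + 1)) F ⧸ H') = ((1 : Matrix.SpecialLinearGroup (Fin (k + 1)) F) : Matrix.SpecialLinearGroup (Fin (k + 1)) F ⧸ H') := by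
        rw [h1]
        rfl
      have h3 : ((g * 1 : Matrix.SpecialLinearGroup (Fin (k + 1)) F) : Matrix.SpecialLinearGroup (Fin (k + 1)) F ⧸ H') = ((1 : Matrix.SpecialLinearGroup (Fin (k + 1)) F) : Matrix.SpecialLinearGroup (Fin (k + 1)) F ⧸ H') := h2
      rw [mul_one, eq_comm, QuotientGroup.eq] at h3
      simpa using h3
    have htr : ∀ a b : Matrix.SpecialLinearGroup (Fin (k + 1)) F ⧸ H', ∃ g, ρ g a = b := fun a b =>
      MulAction.exists_smul_eq _ a b
    refine Cfsg.Agent.Lib.MinIndex.SLMain.small_contra hk hexc' ρ hρ htr (N' := ∑ i ∈ Finset.range k, q ^ i) ?_ ?_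
    · rw [hF]
      exact hN'
    · rw [hF, ← Nat.card_eq_fintype_card, ← Subgroup.index_eq_card]
      exact hlt
  · let G := Matrix.SpecialLinearGroup (Fin (k + 1)) F
    let P₀ : ℙ F (Fin (k + 1) → F) := Projectivization.mk F (Pi.single 0 1) (by
      intro h
      have := congrFun h 0
      simp at this)
    let S : Subgroup G := MulAction.stabilizer G P₀
    have hS : S.index = q ^ k + ∑ i ∈ Finset.range k, q ^ i := by
      rw [MulAction.index_stabilizer_of_transitive G P₀,
        Projectivization.card_of_finrank (k := F) (V := Fin (k + 1) → F) (n := k + 1) (by simp), Finset.sum_range_succ, Nat.card_eq_fintype_card, hF, add_comm]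
    have hcenter : (QuotientGroup.mk' (Subgroup.center G)).ker ≤ S := by
      intro z hz
      rw [QuotientGroup.ker_mk'] at hz
      obtain ⟨r, -, hr⟩ := Matrix.SpecialLinearGroup.mem_center_iff.mp hz
      show z • P₀ = P₀
      rw [Projectivization.smul_mk, Projectivization.mk_eq_mk_iff']
      refine ⟨r, ?_⟩
      rw [Matrix.SpecialLinearGroup.smul_def, ← hr]
      ext i
      simp only [Matrix.scalar_apply, Matrix.smul_eq_mulVec, Matrix.mulVec_diagonal]
      by_cases h : i = 0
      · subst h
        simp [Pi.smul_apply]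
      · simp [Pi.smul_apply, Pi.single_eq_of_ne h]
    refine ⟨S.map (QuotientGroup.mk' (Subgroup.center G)), ?_⟩
    rw [Subgroup.index_map_eq _ (QuotientGroup.mk'_surjective _) hcenter, hS]

end Cfsg.Agent.S2140
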