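import Cfsg.Statements.S2141
import Cfsg.Agent.Lib.MinIndex.SpFree2
import Cfsg.Agent.Lib.Classical.Symp.SimpleMatrix

set_option autoImplicit false
open Cfsg

namespace Cfsg.Agent.S2141

open scoped LinearAlgebra.Projectivization
open Cfsg.Agent.Lib.Classical.Symp.Basic Cfsg.Agent.Lib.Classical.Symp.AltForm Cfsg.Agent.Lib.Classical.Symp.Simple Cfsg.Agent.Lib.Classical.Symp.SimpleMatrix
open Matrix

theorem numerics {q k : ℕ} (hq : 2 ≤ q) :
    (q - 1) * (∑ i ∈ Finset.range k, q ^ i) + 1 = q ^ k ∧
      (q ^ k - 1) / (q - 1) = ∑ i ∈ Finset.range k, q ^ i := by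
  obtain ⟨x, rfl⟩ : ∃ x, q = x + 1 := ⟨q - 1, by omega⟩
  have hx : 0 < x := by omega
  simp only [Nat.add_sub_cancel]
  have h1 := geom_sum_mul_add x k
  constructor
  · rw [mul_comm]
    exact h1
  · have h3 : (x + 1) ^ k - 1 = x * (∑ i ∈ Finset.range k, (x + 1) ^ i) := by
      rw [← h1]
      simp only [Nat.add_sub_cancel]
      ring
    rw [h3, Nat.mul_div_cancel_left _ hx]

/-- Minimal index of a proper subgroup of the symplectic groups over fields with at least 3 elements: for m ≥ 2 and a field F with q ≥ 3 elements, (m, q) ≠ (2, 3), every proper subgroup of PSp_2m(F) has index at least (q^(2m) − 1)/(q − 1), and that index is attained. -/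
theorem result {F : Type*} [Field F] [Fintype F] {q : ℕ} (hF : Fintype.card F = q) (m : ℕ) (hm : 2 ≤ m) (hq : 3 ≤ q) (hexc : ¬ (m = 2 ∧ q = 3)) : (∀ H : Subgroup (Cfsg.PSp m F), H ≠ ⊤ → (q ^ (2 * m) - 1) / (q - 1) ≤ H.index) ∧ (∃ H : Subgroup (Cfsg.PSp m F), H.index = (q ^ (2 * m) - 1) / (q - 1)) := by
  classical
  subst hF
  set q := Fintype.card F with hq'
  obtain ⟨hN', hN⟩ := numerics (q := q) (k := 2 * m) (by omega)
  rw [hN]
  let V := Fin m ⊕ Fin m → F
  have hfin : Module.finrank F V = 2 * m := by
    simp [V, Module.finrank_fintype_fun_eq_card]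
    ring
  have hcardV : Fintype.card V = q ^ (2 * m) := by
    rw [Module.card_eq_pow_finrank (K := F) (V := V), hfin]
  let e : symplecticGroup (Fin m) F ≃* IsomGroup (sympBilin m F) := spEquivIsom
  have hA : (sympBilin m F).IsAlt := sympBilin_isAlt
  have hB : (sympBilin m F).Nondegenerate := sympBilin_nondegenerate
  constructor
  · intro H hH
    set f := QuotientGroup.mk' (Subgroup.center (symplecticGroup (Fin m) F)) with hf
    have hsurj : Function.Surjective f := QuotientGroup.mk'_surjective _
    set H' := H.comap f with hH'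
    have hidx : H'.index = H.index := Subgroup.index_comap_of_surjective H hsurj
    rw [← hidx]
    have htop : H' ≠ ⊤ := by
      intro h
      apply hH
      rw [eq_top_iff]
      intro x _
      obtain ⟨y, rfl⟩ := hsurj x
      have : y ∈ H' := by rw [h]; trivial
      exact this
    -- the subgroup of the isometry group
    let K : Subgroup (IsomGroup (sympBilin m F)) := H'.map e.toMonoidHom
    have hK : K.index = H'.index := Subgroup.index_map_of_bijective e.bijective _
    rw [← hK]
    have hKtop : K ≠ ⊤ := by
      intro h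
      apply htop
      rw [eq_top_iff]
      intro g _
      have h1 : e g ∈ K := by rw [h]; trivial
      obtain ⟨x, hx, hxg⟩ := h1
      have : x = g := e.injective hxg
      rwa [← this]
    have hfinG : Finite (IsomGroup (sympBilin m F)) := Finite.of_equiv (symplecticGroup (Fin m) F) e.toEquiv
    let _ : Fintype (IsomGroup (sympBilin m F) ⧸ K) := Fintype.ofFinite _
    have hnt : Nontrivial (IsomGroup (sympBilin m F) ⧸ K) := by
      exact QuotientGroup.nontrivial_iff.mpr hKtop
    have h3 : q = 3 → 6 ≤ Module.finrank F V := by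
      intro h
      rw [hfin]
      by_contra hlt
      have : m = 2 := by omega
      exact hexc ⟨this, h⟩
    have hmain := Cfsg.Agent.Lib.MinIndex.SpFree2.min_degree hA hB (Ω := IsomGroup (sympBilin m F) ⧸ K) hq
      (by rw [hfin]; omega) h3 (N := ∑ i ∈ Finset.range (2 * m), q ^ i) (by rw [hcardV]; exact hN')
    rwa [Subgroup.index_eq_card, Nat.card_eq_fintype_card]
  · -- the stabilizer of a point
    have hV0 : Nontrivial V := by
      apply Module.nontrivial_of_finrank_pos (R := F)
      rw [hfin]
      omega
    obtain ⟨v, hv⟩ := exists_ne (0 : V)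
    let P₀ : ℙ F V := Projectivization.mk F v hv
    let S₀ : Subgroup (IsomGroup (sympBilin m F)) := MulAction.stabilizer (IsomGroup (sympBilin m F)) P₀
    have htr : MulAction.IsPretransitive (IsomGroup (sympBilin m F)) (ℙ F V) := pretransitive_points hA hB
    have hS₀ : S₀.index = ∑ i ∈ Finset.range (2 * m), q ^ i := by
      rw [MulAction.index_stabilizer_of_transitive _ P₀,
        Projectivization.card_of_finrank (k := F) (V := V) (n := 2 * m) hfin, Nat.card_eq_fintype_card]
    let S : Subgroup (symplecticGroup (Fin m) F) := S₀.comap e.toMonoidHom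
    have hS : S.index = S₀.index := Subgroup.index_comap_of_surjective S₀ e.surjective
    have hcenter : (QuotientGroup.mk' (Subgroup.center (symplecticGroup (Fin m) F))).ker ≤ S := by
      intro z hz
      rw [QuotientGroup.ker_mk'] at hz
      have hz' := (center_symplectic_iff z (by omega)).mp hz
      change e z • P₀ = P₀
      have hez : ((e z : IsomGroup (sympBilin m F)) : V ≃ₗ[F] V) v ≠ 0 := by
        simpa using hv
      rw [smul_mk' _ hv hez, Projectivization.mk_eq_mk_iff']
      change ∃ a : F, a • v = z.1 *ᵥ v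
      rcases hz' with h | h
      · exact ⟨1, by simp [h]⟩
      · exact ⟨-1, by simp [h, Matrix.neg_mulVec]⟩
    refine ⟨S.map (QuotientGroup.mk' (Subgroup.center (symplecticGroup (Fin m) F))), ?_⟩
    rw [Subgroup.index_map_eq _ (QuotientGroup.mk'_surjective _) hcenter, hS, hS₀]

end Cfsg.Agent.S2141
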