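import Cfsg.Statements.S2142
import Cfsg.Agent.Lib.MinIndex.Sp2Exist
import Cfsg.Agent.Lib.Classical.Symp.SimpleMatrix

set_option autoImplicit false
open Cfsg

namespace Cfsg.Agent.S2142

open Cfsg.Agent.Lib.Classical.Symp.Basic Cfsg.Agent.Lib.Classical.Symp.AltForm Cfsg.Agent.Lib.Classical.Symp.SimpleMatrix
open Matrix

/-- Minimal index of a proper subgroup of the symplectic groups over the field with 2 elements: for m ≥ 3, every proper subgroup of Sp_2m(2) has index at least 2^(m−1)(2^m − 1), and that index is attained. -/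
theorem result {F : Type*} [Field F] [Fintype F] (hF : Fintype.card F = 2) (m : ℕ) (hm : 3 ≤ m) : (∀ H : Subgroup (Cfsg.PSp m F), H ≠ ⊤ → 2 ^ (m - 1) * (2 ^ m - 1) ≤ H.index) ∧ (∃ H : Subgroup (Cfsg.PSp m F), H.index = 2 ^ (m - 1) * (2 ^ m - 1)) := by
  classical
  have hel : ∀ x : F, x = 0 ∨ x = 1 := by
    intro x
    have hsub : ({0, 1} : Finset F) = Finset.univ := by
      apply Finset.eq_univ_of_card
      rw [Finset.card_pair zero_ne_one, hF]
    have : x ∈ ({0, 1} : Finset F) := by
      rw [hsub]
      exact Finset.mem_univ x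
    simpa using this
  have h2F : (2 : F) = 0 := by
    rcases hel 2 with h | h
    · exact h
    · exfalso
      have : (1 : F) + 1 = 1 := by rw [one_add_one_eq_two, h]
      have h3 : (1 : F) = 0 := by linear_combination this
      exact one_ne_zero h3
  have : CharP F 2 := CharTwo.of_one_ne_zero_of_two_eq_zero one_ne_zero h2F
  let V := Fin m ⊕ Fin m → F
  have hfin : Module.finrank F V = 2 * m := by
    simp [V, Module.finrank_fintype_fun_eq_card]
    ring
  set r := 2 ^ m with hr
  have hcardV : Fintype.card V = r * r := by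
    rw [Module.card_eq_pow_finrank (K := F) (V := V), hfin, hF, hr, two_mul, pow_add]
  have hrpos : 0 < r := by positivity
  have hnum : r * r = 2 * (2 ^ (m - 1) * (r - 1)) + r := by
    obtain ⟨k, rfl⟩ : ∃ k, m = k + 1 := ⟨m - 1, by omega⟩
    simp only [Nat.add_sub_cancel]
    have h1 : r = 2 * 2 ^ k := by rw [hr, pow_succ']
    obtain ⟨s, hs⟩ : ∃ s, r = s + 1 := ⟨r - 1, by omega⟩
    rw [hs]
    simp only [Nat.add_sub_cancel]
    have h2 : 2 * 2 ^ k = s + 1 := by rw [← h1, hs]
    nlinarith
  let e : symplecticGroup (Fin m) F ≃* IsomGroup (sympBilin m F) := spEquivIsom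
  have hA : (sympBilin m F).IsAlt := sympBilin_isAlt
  have hB : (sympBilin m F).Nondegenerate := sympBilin_nondegenerate
  constructor
  · intro H hH
    set f := QuotientGroup.mk' (Subgroup.center (symplecticGroup (Fin m) F)) with hf
    have hsurj : Function.Surjective f := QuotientGroup.mk'_surjective _
    set H' := H.comap f with hH'
    have hidx : H'.index = H.index := Subgroup.index_comap_of_surjective H hsurj
    rw [← hidx]
    have htop : H' ≠ ⊤ := by
      intro h
      apply hH
      rw [eq_top_iff]
      intro x _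
      obtain ⟨y, rfl⟩ := hsurj x
      have : y ∈ H' := by rw [h]; trivial
      exact this
    let K : Subgroup (IsomGroup (sympBilin m F)) := H'.map e.toMonoidHom
    have hK : K.index = H'.index := Subgroup.index_map_of_bijective e.bijective _
    rw [← hK]
    have hKtop : K ≠ ⊤ := by
      intro h
      apply htop
      rw [eq_top_iff]
      intro g _
      have h1 : e g ∈ K := by rw [h]; trivial
      obtain ⟨x, hx, hxg⟩ := h1
      have : x = g := e.injective hxg
      rwa [← this]
    have hfinG : Finite (IsomGroup (sympBilin m F)) := Finite.of_equiv (symplecticGroup (Fin m) F) e.toEquiv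
    let _ : Fintype (IsomGroup (sympBilin m F) ⧸ K) := Fintype.ofFinite _
    have hnt : Nontrivial (IsomGroup (sympBilin m F) ⧸ K) := QuotientGroup.nontrivial_iff.mpr hKtop
    have hmain := Cfsg.Agent.Lib.MinIndex.Sp2Core.min_degree_two (Ω := IsomGroup (sympBilin m F) ⧸ K) hA hel hB hF
      (by rw [hfin]; omega) hcardV
    rw [Subgroup.index_eq_card, Nat.card_eq_fintype_card]
    omega
  · -- the explicit form
    let q₀ : V → F := fun x => ∑ i, x (.inl i) * x (.inr i)
    have hq₀ : ∀ u v, q₀ (u + v) = q₀ u + q₀ v + sympBilin m F u v := by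
      intro u v
      change ∑ i, (u (.inl i) + v (.inl i)) * (u (.inr i) + v (.inr i)) = _
      rw [sympBilin_apply, sympForm_apply, ← Finset.sum_add_distrib, ← Finset.sum_add_distrib]
      apply Finset.sum_congr rfl
      intro i _
      have h1 : u (.inl i) * v (.inr i) + u (.inl i) * v (.inr i) = 0 := CharTwo.add_self_eq_zero _
      linear_combination h1
    let i0 : Fin m := ⟨0, by omega⟩
    let c₀ : V := Sum.elim (fun i => if i = i0 then 1 else 0) (fun i => if i = i0 then 1 else 0)
    have hc₀ : q₀ c₀ ≠ 0 := by
      have h1 : q₀ c₀ = 1 := by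
        change ∑ i, c₀ (.inl i) * c₀ (.inr i) = 1
        have hl : ∀ i, c₀ (.inl i) = if i = i0 then 1 else 0 := fun i => rfl
        have hr' : ∀ i, c₀ (.inr i) = if i = i0 then 1 else 0 := fun i => rfl
        simp [hl, hr']
      rw [h1]
      exact one_ne_zero
    obtain ⟨H₀, hH₀⟩ := Cfsg.Agent.Lib.MinIndex.Sp2Exist.exists_index hA hel hB q₀ hq₀ hc₀ hcardV hrpos
    let S : Subgroup (symplecticGroup (Fin m) F) := H₀.comap e.toMonoidHom
    have hS : S.index = H₀.index := Subgroup.index_comap_of_surjective H₀ e.surjective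
    have hcenter : (QuotientGroup.mk' (Subgroup.center (symplecticGroup (Fin m) F))).ker ≤ S := by
      intro z hz
      rw [QuotientGroup.ker_mk'] at hz
      have hz' := (center_symplectic_iff z (by omega)).mp hz
      have hz1 : z = 1 := by
        apply Subtype.ext
        rcases hz' with h | h
        · exact h
        · rw [h]
          ext i j
          simp only [Matrix.neg_apply]
          exact CharTwo.neg_eq _
      rw [hz1]
      exact S.one_mem
    refine ⟨S.map (QuotientGroup.mk' (Subgroup.center (symplecticGroup (Fin m) F))), ?_⟩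
    rw [Subgroup.index_map_eq _ (QuotientGroup.mk'_surjective _) hcenter, hS]
    omega

end Cfsg.Agent.S2142
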