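import Cfsg.Statements.S2149
import Mathlib
import Cfsg.Agent.Lib.Compute.PSU35

set_option autoImplicit false
open Cfsg

namespace Cfsg.Agent.S2149

/-- Minimal index of a proper subgroup of PSU₃(5), realised over the field with 25 elements: every proper subgroup has index at least 50, and that index is attained. -/
theorem result {F : Type*} [Field F] [Fintype F] (hF : Fintype.card F = 25) : (∀ H : Subgroup (Cfsg.PSU 3 F 5), H ≠ ⊤ → 50 ≤ H.index) ∧ (∃ H : Subgroup (Cfsg.PSU 3 F 5), H.index = 50) := by
  exact ⟨fun H hH => Cfsg.Agent.Lib.Compute.PSU35.index_ge hF H hH,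
    Cfsg.Agent.Lib.Compute.PSU35.exists_index_fifty hF⟩

end Cfsg.Agent.S2149
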