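import Cfsg.Statements.S2153
import Cfsg.Agent.Lib.MinIndex.U2Main

set_option autoImplicit false
open Cfsg

namespace Cfsg.Agent.S2153

/-- Minimal index of a proper subgroup of the unitary groups PSU_n(2) with n divisible by 6, realised over the field with 4 elements: every proper subgroup has index at least 2^(n−1)(2^n − 1)/3, and that index is attained. -/
theorem result {F : Type*} [Field F] [Fintype F] (hF : Fintype.card F = 4) (n : ℕ) (hn : 6 ∣ n) (hpos : 6 ≤ n) : (∀ H : Subgroup (Cfsg.PSU n F 2), H ≠ ⊤ → 2 ^ (n - 1) * (2 ^ n - 1) / 3 ≤ H.index) ∧ (∃ H : Subgroup (Cfsg.PSU n F 2), H.index = 2 ^ (n - 1) * (2 ^ n - 1) / 3) := by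
  obtain ⟨k, rfl⟩ : ∃ k, n = 2 + k := ⟨n - 2, by omega⟩
  have hk : 4 ≤ k := by omega
  have hev : Even k := by
    obtain ⟨t, ht⟩ := hn
    exact ⟨3 * t - 1, by omega⟩
  have hF' : Fintype.card F = 2 ^ 2 := by
    rw [hF]
    norm_num
  obtain ⟨M, hM, h1, h2⟩ := Cfsg.Agent.Lib.MinIndex.U2Main.main_theorem2 hF' hk hev
  have e1 : (2 : ℕ) ^ (2 + k - 1) = 2 ^ (k + 1) := by
    congr 1
    omega
  have e2 : (2 : ℕ) ^ (2 + k) - 1 = 3 * M := by
    rw [add_comm, ← hM]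
    simp
  have e3 : 2 ^ (2 + k - 1) * (2 ^ (2 + k) - 1) / 3 = 2 ^ (k + 1) * M := by
    rw [e1, e2, mul_left_comm, Nat.mul_div_cancel_left _ (by norm_num)]
  rw [e3]
  exact ⟨h1, h2⟩

end Cfsg.Agent.S2153
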