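import Cfsg.Statements.S2154
import Cfsg.Agent.Lib.BorelTits.Main
import Cfsg.Agent.Lib.BorelTits.Data
import Cfsg.Agent.Lib.ChevBN.SylowU
import Cfsg.Agent.Lib.ChevBN.FastData2
import Cfsg.Agent.Lib.Chevalley.All

set_option autoImplicit false
open Cfsg

namespace Cfsg.Agent.S2154

/-- The Borel–Tits property of the finite Chevalley groups of types G₂, B₂, D₄, F₄, E₆, E₇, E₈ over a finite field of characteristic p: for every non-trivial p-subgroup U of the group G there are an element g of G and a proper set J of fundamental roots such that the normaliser of U in G lies in the conjugate by g of the standard parabolic subgroup P_J and U lies in the conjugate by g of its unipotent radical U_J. -/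
theorem result {F : Type*} [Field F] [Fintype F] (p : ℕ) [Fact p.Prime] [CharP F p] (D : Cfsg.Lie.ChevalleyDatum) (hD : D ∈ [Cfsg.Lie.chevG2, Cfsg.Lie.chevB2, Cfsg.Lie.chevD4, Cfsg.Lie.chevF4, Cfsg.Lie.chevE6, Cfsg.Lie.chevE7, Cfsg.Lie.chevE8]) (U : Subgroup (GL D.Idx F)) (hUG : U ≤ D.group F) (hU : IsPGroup p ↥U) (hne : U ≠ ⊥) : ∃ g ∈ D.group F, ∃ J : Set ℕ, (∃ i, i < D.rank ∧ i ∉ J) ∧ Subgroup.normalizer (U : Set (GL D.Idx F)) ⊓ D.group F ≤ (D.parabolicSubgroup F J).map (MulAut.conj g).toMonoidHom ∧ U ≤ (D.unipotentRadical F J).map (MulAut.conj g).toMonoidHom := by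
  obtain ⟨η, hη⟩ := Cfsg.Agent.Lib.Chevalley.All.exists_sys.{_} D hD
  have hR := hη F
  have hT := Cfsg.Agent.Lib.ChevBN.FastData.tbl_of_mem hD
  have hT2 := Cfsg.Agent.Lib.ChevBN.FastData.tbl2_of_mem hD
  have hT3 := Cfsg.Agent.Lib.BorelTits.Data.tbl3_of_mem hD
  refine Cfsg.Agent.Lib.BorelTits.Main.main hR hT hT2 hT3 hUG hne ?_
  -- by Sylow's theorem, `U` is conjugate into the group of positive root elements
  obtain ⟨P, hP⟩ := Cfsg.Agent.Lib.ChevBN.SylowU.exists_sylow hR hT p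
  have hpg : IsPGroup p ↥(U.subgroupOf (D.group F)) :=
    hU.of_injective (Subgroup.subgroupOfEquivOfLe hUG).toMonoidHom
      (Subgroup.subgroupOfEquivOfLe hUG).injective
  obtain ⟨S', hS'⟩ := hpg.exists_le_sylow
  obtain ⟨g, hg⟩ := MulAction.exists_smul_eq (↥(D.group F)) S' P
  refine ⟨((g⁻¹ : ↥(D.group F)) : GL D.Idx F), (g⁻¹ : ↥(D.group F)).2, ?_⟩
  intro y hy
  rw [Cfsg.Agent.Lib.BorelTits.Weight.mem_cj] at hy
  have hyG : y ∈ D.group F := by
    have h1 := hUG hy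
    have h2 : y = (g : GL D.Idx F) * (((g⁻¹ : ↥(D.group F)) : GL D.Idx F) * y *
        ((g⁻¹ : ↥(D.group F)) : GL D.Idx F)⁻¹) * (g : GL D.Idx F)⁻¹ := by
      simp only [InvMemClass.coe_inv]
      group
    rw [h2]
    simp only [InvMemClass.coe_inv] at h1
    exact Subgroup.mul_mem _ (Subgroup.mul_mem _ g.2 h1) (Subgroup.inv_mem _ g.2)
  have h3 : g⁻¹ * (⟨y, hyG⟩ : ↥(D.group F)) * g ∈ (S' : Subgroup ↥(D.group F)) := by
    apply hS'
    rw [Subgroup.mem_subgroupOf]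
    simpa using hy
  have h4 : g * (g⁻¹ * (⟨y, hyG⟩ : ↥(D.group F)) * g) * g⁻¹ ∈ (P : Subgroup ↥(D.group F)) := by
    rw [← hg, Sylow.coe_subgroup_smul]
    exact ⟨_, h3, rfl⟩
  have h5 : g * (g⁻¹ * (⟨y, hyG⟩ : ↥(D.group F)) * g) * g⁻¹ = ⟨y, hyG⟩ := by group
  rw [h5, hP, Subgroup.mem_subgroupOf] at h4
  exact h4

end Cfsg.Agent.S2154
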