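import Cfsg.Statements.S2160
import Mathlib
import Cfsg.Agent.Lib.Chevalley.SimpleGen
import Cfsg.Agent.Lib.Chevalley.AllEta
import Cfsg.Agent.Lib.ChevBN.FastData

set_option autoImplicit false
open Cfsg

namespace Cfsg.Agent.S2160

/-- In a Chevalley group of type G₂, B₂, D₄, F₄, E₆, E₇ or E₈ over a finite field, every field automorphism commutes with every graph automorphism. -/
theorem result {F : Type*} [Field F] [Finite F] (D : Cfsg.Lie.ChevalleyDatum) (hD : D ∈ [Cfsg.Lie.chevG2, Cfsg.Lie.chevB2, Cfsg.Lie.chevD4, Cfsg.Lie.chevF4, Cfsg.Lie.chevE6, Cfsg.Lie.chevE7, Cfsg.Lie.chevE8]) (f g : ↥(D.group F) ≃* ↥(D.group F))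
    (hf : D.IsFieldAut f) (hg : D.IsGraphAut g) (y : ↥(D.group F)) : f (g y) = g (f y) := by
  obtain ⟨η, hS, -⟩ := Cfsg.Agent.Lib.Chevalley.AllEta.exists_sys_eta.{_} D hD
  obtain ⟨σ, hσ⟩ := hf
  obtain ⟨π, -, hπ⟩ := hg
  have hT := Cfsg.Agent.Lib.ChevBN.FastData.tbl_of_mem hD
  have h := Cfsg.Agent.Lib.Chevalley.SimpleGen.hom_ext (hS F) hT
    (f.toMonoidHom.comp g.toMonoidHom) (g.toMonoidHom.comp f.toMonoidHom) ?_
  · exact DFunLike.congr_fun h y
  · intro a i t ha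
    apply Subtype.ext
    apply Units.ext
    simp only [MonoidHom.comp_apply, MulEquiv.coe_toMonoidHom]
    rcases ha with ha | ha
    · rw [hσ _ _ _ (hT.simple_lt (π i).2) ((hπ a i t).1 ha),
        (hπ _ i _).1 (hσ a _ t (hT.simple_lt i.2) ha), map_pow]
    · rw [hσ _ _ _ (hT.neg_lt (hT.simple_lt (π i).2)) ((hπ a i t).2 ha),
        (hπ _ i _).2 (hσ a _ t (hT.neg_lt (hT.simple_lt i.2)) ha), map_pow]

end Cfsg.Agent.S2160
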