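import Cfsg.Statements.S2300
import Mathlib
import Cfsg.Agent.Lib.Char.SL2Count
-- import your own Cfsg.Agent.* helpers here

set_option autoImplicit false
open Cfsg

namespace Cfsg.Agent.S2300

open Cfsg.Agent.Lib.Char.Ortho Cfsg.Agent.Lib.Char.GL2Principal Cfsg.Agent.Lib.Char.SL2Count

/-- Over a finite field F with q elements, q even, every irreducible complex character of SL₂ has degree 1, q − 1, q or q + 1; and when q ≥ 4 (so that these four numbers are distinct) there are exactly one irreducible character of degree 1, one of degree q, (q − 2)/2 of degree q + 1 and q/2 of degree q − 1. -/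
theorem result {F : Type*} [Field F] [Fintype F] [CharP F 2] :
    (∀ χ : Matrix.SpecialLinearGroup (Fin 2) F → ℂ, Cfsg.IsIrrCharacter (Matrix.SpecialLinearGroup (Fin 2) F) χ →
      χ 1 = 1 ∨ χ 1 = (Fintype.card F : ℂ) - 1 ∨ χ 1 = (Fintype.card F : ℂ) ∨ χ 1 = (Fintype.card F : ℂ) + 1) ∧
    (4 ≤ Fintype.card F →
      Nat.card {χ : Cfsg.IrrCharacter (Matrix.SpecialLinearGroup (Fin 2) F) // (χ : Matrix.SpecialLinearGroup (Fin 2) F → ℂ) 1 = 1} = 1 ∧
      Nat.card {χ : Cfsg.IrrCharacter (Matrix.SpecialLinearGroup (Fin 2) F) // (χ : Matrix.SpecialLinearGroup (Fin 2) F → ℂ) 1 = (Fintype.card F : ℂ)} = 1 ∧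
      Nat.card {χ : Cfsg.IrrCharacter (Matrix.SpecialLinearGroup (Fin 2) F) // (χ : Matrix.SpecialLinearGroup (Fin 2) F → ℂ) 1 = (Fintype.card F : ℂ) + 1} = (Fintype.card F - 2) / 2 ∧
      Nat.card {χ : Cfsg.IrrCharacter (Matrix.SpecialLinearGroup (Fin 2) F) // (χ : Matrix.SpecialLinearGroup (Fin 2) F → ℂ) 1 = (Fintype.card F : ℂ) - 1} = Fintype.card F / 2) := by
  classical
  have h2 : ringChar F = 2 := ringChar.eq F 2
  have hev := FiniteField.even_card_of_char_two h2
  have hq1 := one_lt_q (F := F)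
  have e1 : ((Fintype.card F - 1 : ℕ) : ℂ) = (Fintype.card F : ℂ) - 1 := by
    rw [Nat.cast_sub hq1.le]
    simp
  have e2 : ((Fintype.card F + 1 : ℕ) : ℂ) = (Fintype.card F : ℂ) + 1 := by
    push_cast
    rfl
  refine ⟨?_, ?_⟩
  · intro χ hχ
    obtain ⟨d, -, hd⟩ := irr_degree_pos hχ
    rcases deg_cases hχ hd with h | h | h | h | h | h
    · left
      rw [hd, h]
      simp
    · right; right; left
      rw [hd, h]
    · right; right; right
      rw [hd, h, e2]
    · omega
    · right; left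
      rw [hd, ← e1]
      congr 1
      omega
    · omega
  · intro hq
    have h3 := card_deg_one (F := F) hq
    have h4 := card_deg_q (F := F)
    obtain ⟨h5, h6⟩ := even_counts h2 hq
    rw [e2] at h5
    rw [e1] at h6
    simp only [Nat.cast_one] at h3
    exact ⟨h3, h4, h5, h6⟩

end Cfsg.Agent.S2300
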