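import Cfsg.Statements.S2301
import Cfsg.Agent.Lib.PSL2.Unipotent
import Mathlib

set_option autoImplicit false
open Cfsg

namespace Cfsg.Agent.S2301

open Cfsg.Agent.Lib.PSL2.Basic Cfsg.Agent.Lib.PSL2.Unipotent

theorem isSquare_mul_of_not {F : Type*} [Field F] [Fintype F] {a b : F}
    (ha : ¬ IsSquare a) (hb : ¬ IsSquare b) : IsSquare (a * b) := by
  classical
  have ha0 : a ≠ 0 := fun h => ha (h ▸ IsSquare.zero)
  have hb0 : b ≠ 0 := fun h => hb (h ▸ IsSquare.zero)
  rw [← quadraticChar_one_iff_isSquare (mul_ne_zero ha0 hb0), map_mul,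
    quadraticChar_neg_one_iff_not_isSquare.2 ha, quadraticChar_neg_one_iff_not_isSquare.2 hb]
  norm_num

theorem eq_of_entries {F : Type*} [Field F] (g : Matrix.SpecialLinearGroup (Fin 2) F)
    (h00 : (g : Matrix (Fin 2) (Fin 2) F) 0 0 = 1) (h11 : (g : Matrix (Fin 2) (Fin 2) F) 1 1 = 1)
    (h10 : (g : Matrix (Fin 2) (Fin 2) F) 1 0 = 0) : g = x ((g : Matrix (Fin 2) (Fin 2) F) 0 1) := by
  apply ext2 <;> simp [h00, h11, h10]

/-- Over a finite field with q elements of odd characteristic p, the elements of order p of SL₂ (the non-identity unipotent elements) fall into exactly two conjugacy classes, each of size (q² − 1)/2; two upper unitriangular matrices with non-zero off-diagonal entries b and b′ are conjugate exactly when bb′ is a square. -/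
theorem result {F : Type*} [Field F] [Fintype F] (p : ℕ) [Fact p.Prime] [CharP F p] (hp : p ≠ 2) :
    Nat.card {C : ConjClasses (Matrix.SpecialLinearGroup (Fin 2) F) // ∃ g : Matrix.SpecialLinearGroup (Fin 2) F, orderOf g = p ∧ ConjClasses.mk g = C} = 2 ∧
    (∀ g : Matrix.SpecialLinearGroup (Fin 2) F, orderOf g = p → Nat.card (ConjClasses.mk g).carrier = (Fintype.card F ^ 2 - 1) / 2) ∧
    ∀ g h : Matrix.SpecialLinearGroup (Fin 2) F, (g : Matrix (Fin 2) (Fin 2) F) 0 0 = 1 → (g : Matrix (Fin 2) (Fin 2) F) 1 1 = 1 → (g : Matrix (Fin 2) (Fin 2) F) 1 0 = 0 → (g : Matrix (Fin 2) (Fin 2) F) 0 1 ≠ 0 →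
      (h : Matrix (Fin 2) (Fin 2) F) 0 0 = 1 → (h : Matrix (Fin 2) (Fin 2) F) 1 1 = 1 → (h : Matrix (Fin 2) (Fin 2) F) 1 0 = 0 → (h : Matrix (Fin 2) (Fin 2) F) 0 1 ≠ 0 →
      (IsConj g h ↔ IsSquare ((g : Matrix (Fin 2) (Fin 2) F) 0 1 * (h : Matrix (Fin 2) (Fin 2) F) 0 1)) := by
  classical
  have hpp := (Fact.out : p.Prime)
  have hrc : ringChar F = p := ringChar.eq F p
  have h20 : (2 : F) ≠ 0 := by
    apply Ring.two_ne_zero
    rw [hrc]
    exact hp
  have hconj : ∀ g : Matrix.SpecialLinearGroup (Fin 2) F, orderOf g = p →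
      ∃ b : F, b ≠ 0 ∧ IsConj g (x b) := by
    intro g hg
    obtain ⟨h1, h2⟩ := (orderOf_eq_char_iff p g).1 hg
    obtain ⟨a, b, hb, hab⟩ := exists_conj_x_ne_of_tr_eq_two g h1 h2
    exact ⟨b, hb, isConj_iff.2 ⟨a, hab⟩⟩
  refine ⟨?_, ?_, ?_⟩
  · obtain ⟨s, hs⟩ := FiniteField.exists_nonsquare (F := F) (by rw [hrc]; exact hp)
    have hs0 : s ≠ 0 := fun h => hs (h ▸ IsSquare.zero)
    let C1 : ConjClasses (Matrix.SpecialLinearGroup (Fin 2) F) := ConjClasses.mk (x 1)
    let C2 : ConjClasses (Matrix.SpecialLinearGroup (Fin 2) F) := ConjClasses.mk (x s)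
    have hC12 : C1 ≠ C2 := by
      intro h
      have := (isConj_x_iff one_ne_zero hs0).1 (ConjClasses.mk_eq_mk_iff_isConj.1 h)
      rw [one_mul] at this
      exact hs this
    have hset : {C : ConjClasses (Matrix.SpecialLinearGroup (Fin 2) F) | ∃ g : Matrix.SpecialLinearGroup (Fin 2) F, orderOf g = p ∧ ConjClasses.mk g = C} = {C1, C2} := by
      ext C
      simp only [Set.mem_setOf_eq, Set.mem_insert_iff, Set.mem_singleton_iff]
      constructor
      · rintro ⟨g, hg, rfl⟩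
        obtain ⟨b, hb, hgb⟩ := hconj g hg
        rw [ConjClasses.mk_eq_mk_iff_isConj.2 hgb]
        by_cases hbs : IsSquare b
        · left
          apply ConjClasses.mk_eq_mk_iff_isConj.2
          apply (isConj_x_iff hb one_ne_zero).2
          rwa [mul_one]
        · right
          apply ConjClasses.mk_eq_mk_iff_isConj.2
          exact (isConj_x_iff hb hs0).2 (isSquare_mul_of_not hbs hs)
      · rintro (rfl | rfl)
        · exact ⟨x 1, orderOf_x p one_ne_zero, rfl⟩
        · exact ⟨x s, orderOf_x p hs0, rfl⟩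
    have : Nat.card {C : ConjClasses (Matrix.SpecialLinearGroup (Fin 2) F) // ∃ g : Matrix.SpecialLinearGroup (Fin 2) F, orderOf g = p ∧ ConjClasses.mk g = C} = Set.ncard {C : ConjClasses (Matrix.SpecialLinearGroup (Fin 2) F) | ∃ g : Matrix.SpecialLinearGroup (Fin 2) F, orderOf g = p ∧ ConjClasses.mk g = C} := rfl
    rw [this, hset, Set.ncard_pair hC12]
  · intro g hg
    obtain ⟨b, hb, hgb⟩ := hconj g hg
    rw [ConjClasses.mk_eq_mk_iff_isConj.2 hgb]
    exact card_class_x_of_two_ne_zero h20 hb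
  · intro g h hg00 hg11 hg10 hg01 hh00 hh11 hh10 hh01
    have h1 := eq_of_entries g hg00 hg11 hg10
    have h2 := eq_of_entries h hh00 hh11 hh10
    conv_lhs => rw [h1, h2]
    exact isConj_x_iff hg01 hh01

end Cfsg.Agent.S2301
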