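import Cfsg.Statements.S2302
import Cfsg.Agent.Lib.PSL2.Unipotent
import Mathlib

set_option autoImplicit false
open Cfsg

namespace Cfsg.Agent.S2302

open Cfsg.Agent.Lib.PSL2.Basic Cfsg.Agent.Lib.PSL2.Unipotent

/-- Over a finite field with q elements of characteristic 2, the involutions of SL₂ (the non-identity unipotent elements) form a single conjugacy class, of size q² − 1. -/
theorem result {F : Type*} [Field F] [Fintype F] [CharP F 2] (g h : Matrix.SpecialLinearGroup (Fin 2) F) (hg : orderOf g = 2) (hh : orderOf h = 2) :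
    IsConj g h ∧ Nat.card (ConjClasses.mk g).carrier = Fintype.card F ^ 2 - 1 := by
  have h20 : (2 : F) = 0 := by exact_mod_cast CharP.cast_eq_zero F 2
  have hrc : ringChar F = 2 := ringChar.eq F 2
  obtain ⟨hg1, hg2⟩ := (orderOf_eq_char_iff 2 g).1 hg
  obtain ⟨hh1, hh2⟩ := (orderOf_eq_char_iff 2 h).1 hh
  obtain ⟨a, b, hb, hab⟩ := exists_conj_x_ne_of_tr_eq_two g hg1 hg2
  obtain ⟨c, d, hd, hcd⟩ := exists_conj_x_ne_of_tr_eq_two h hh1 hh2
  have h1 : IsConj g (x b) := isConj_iff.2 ⟨a, hab⟩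
  have h2 : IsConj h (x d) := isConj_iff.2 ⟨c, hcd⟩
  have h3 : IsConj (x b) (x d) := (isConj_x_iff hb hd).2 (FiniteField.isSquare_of_char_two hrc _)
  refine ⟨h1.trans (h3.trans h2.symm), ?_⟩
  rw [ConjClasses.mk_eq_mk_iff_isConj.2 h1]
  exact card_class_x_of_two_eq_zero h20 hb

end Cfsg.Agent.S2302
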