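import Cfsg.Statements.S2303
import Mathlib
-- import your own Cfsg.Agent.* helpers here

set_option autoImplicit false
open Cfsg

namespace Cfsg.Agent.S2303

open Matrix

variable {F : Type*} [Field F]

omit [Field F] in
lemma eq_of_entries {A B : Matrix (Fin 2) (Fin 2) F} (h00 : A 0 0 = B 0 0) (h01 : A 0 1 = B 0 1)
    (h10 : A 1 0 = B 1 0) (h11 : A 1 1 = B 1 1) : A = B := by
  ext i j
  fin_cases i <;> fin_cases j <;> assumption

/-- In `GL`, commuting can be checked on the matrix level. -/
lemma mem_centralizer_singleton_iff (g x : Matrix.GeneralLinearGroup (Fin 2) F) :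
    x ∈ Subgroup.centralizer ({g} : Set (Matrix.GeneralLinearGroup (Fin 2) F)) ↔
      (g : Matrix (Fin 2) (Fin 2) F) * (x : Matrix (Fin 2) (Fin 2) F) =
        (x : Matrix (Fin 2) (Fin 2) F) * (g : Matrix (Fin 2) (Fin 2) F) := by
  rw [Subgroup.mem_centralizer_singleton_iff]
  constructor
  · intro h
    have := congrArg Units.val h
    simpa using this.symm
  · intro h
    apply Units.ext
    simpa using h.symm

lemma card_centralizer_diag [Fintype F] (g : Matrix.GeneralLinearGroup (Fin 2) F)
    (h01 : (g : Matrix (Fin 2) (Fin 2) F) 0 1 = 0) (h10 : (g : Matrix (Fin 2) (Fin 2) F) 1 0 = 0)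
    (hne : (g : Matrix (Fin 2) (Fin 2) F) 0 0 ≠ (g : Matrix (Fin 2) (Fin 2) F) 1 1) :
    Nat.card (Subgroup.centralizer ({g} : Set (Matrix.GeneralLinearGroup (Fin 2) F))) =
      (Fintype.card F - 1) ^ 2 := by
  classical
  have hdet : ∀ a : Fˣ × Fˣ, (Matrix.diagonal ![(a.1 : F), (a.2 : F)]).det ≠ 0 := by
    intro a
    simp
  let f : Fˣ × Fˣ → Subgroup.centralizer ({g} : Set (Matrix.GeneralLinearGroup (Fin 2) F)) :=
    fun a => ⟨Matrix.GeneralLinearGroup.mkOfDetNeZero _ (hdet a), by
      rw [mem_centralizer_singleton_iff]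
      apply eq_of_entries <;>
        simp [Matrix.GeneralLinearGroup.mkOfDetNeZero, Matrix.mul_apply, Fin.sum_univ_two, h01, h10,
          mul_comm]⟩
  have hf : Function.Bijective f := by
    constructor
    · rintro ⟨a, b⟩ ⟨c, d⟩ h
      have h' := congrArg (fun z : ↥(Subgroup.centralizer ({g} : Set (Matrix.GeneralLinearGroup (Fin 2) F))) =>
        ((z.1 : Matrix.GeneralLinearGroup (Fin 2) F) : Matrix (Fin 2) (Fin 2) F)) h
      have h0 := congrFun (congrFun h' 0) 0
      have h1 := congrFun (congrFun h' 1) 1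
      simp [f, Matrix.GeneralLinearGroup.mkOfDetNeZero] at h0 h1
      exact Prod.ext (Units.ext h0) (Units.ext h1)
    · rintro ⟨x, hx⟩
      rw [mem_centralizer_singleton_iff] at hx
      have e01 := congrFun (congrFun hx 0) 1
      have e10 := congrFun (congrFun hx 1) 0
      simp [Matrix.mul_apply, Fin.sum_univ_two, h01, h10] at e01 e10
      have hs : (g : Matrix (Fin 2) (Fin 2) F) 0 0 - (g : Matrix (Fin 2) (Fin 2) F) 1 1 ≠ 0 :=
        sub_ne_zero.2 hne
      have x01 : (x : Matrix (Fin 2) (Fin 2) F) 0 1 = 0 := by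
        have : ((g : Matrix (Fin 2) (Fin 2) F) 0 0 - (g : Matrix (Fin 2) (Fin 2) F) 1 1) *
            (x : Matrix (Fin 2) (Fin 2) F) 0 1 = 0 := by linear_combination e01
        exact (mul_eq_zero.1 this).resolve_left hs
      have x10 : (x : Matrix (Fin 2) (Fin 2) F) 1 0 = 0 := by
        have : ((g : Matrix (Fin 2) (Fin 2) F) 0 0 - (g : Matrix (Fin 2) (Fin 2) F) 1 1) *
            (x : Matrix (Fin 2) (Fin 2) F) 1 0 = 0 := by linear_combination -e10
        exact (mul_eq_zero.1 this).resolve_left hs
      have hdx : (x : Matrix (Fin 2) (Fin 2) F).det ≠ 0 :=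
        ((Matrix.isUnit_iff_isUnit_det _).1 x.isUnit).ne_zero
      have x00 : (x : Matrix (Fin 2) (Fin 2) F) 0 0 ≠ 0 := by
        intro h0
        apply hdx
        rw [Matrix.det_fin_two, h0, x01]
        simp
      have x11 : (x : Matrix (Fin 2) (Fin 2) F) 1 1 ≠ 0 := by
        intro h0
        apply hdx
        rw [Matrix.det_fin_two, h0, x01]
        simp
      refine ⟨(Units.mk0 _ x00, Units.mk0 _ x11), ?_⟩
      apply Subtype.ext
      apply Units.ext
      apply eq_of_entries <;>
        simp [f, Matrix.GeneralLinearGroup.mkOfDetNeZero, x01, x10]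
  rw [← Nat.card_congr (Equiv.ofBijective f hf), Nat.card_prod, Nat.card_units,
    Nat.card_eq_fintype_card, pow_two]

lemma card_centralizer_anisotropic [Fintype F] (g : Matrix.GeneralLinearGroup (Fin 2) F)
    (hg : ∀ (c : F) (v : Fin 2 → F), v ≠ 0 → (g : Matrix (Fin 2) (Fin 2) F).mulVec v ≠ c • v) :
    Nat.card (Subgroup.centralizer ({g} : Set (Matrix.GeneralLinearGroup (Fin 2) F))) =
      Fintype.card F ^ 2 - 1 := by
  classical
  set A : Matrix (Fin 2) (Fin 2) F := (g : Matrix (Fin 2) (Fin 2) F) with hA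
  -- `A 1 0 ≠ 0`: otherwise `e₁` is an eigenvector
  have hc : A 1 0 ≠ 0 := by
    intro h0
    apply hg (A 0 0) ![1, 0]
    · intro h
      have := congrFun h 0
      simp at this
    · ext i
      fin_cases i <;> simp [Matrix.mulVec, dotProduct, Fin.sum_univ_two, h0]
  have hdet : ∀ p : {p : F × F // p ≠ 0}, (p.1.1 • (1 : Matrix (Fin 2) (Fin 2) F) + p.1.2 • A).det ≠ 0 := by
    rintro ⟨⟨x, y⟩, hp⟩ h0
    obtain ⟨v, hv, hv'⟩ := Matrix.exists_mulVec_eq_zero_iff.2 h0
    have hv2 : x • v + y • A.mulVec v = 0 := by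
      rw [Matrix.add_mulVec, Matrix.smul_mulVec, Matrix.smul_mulVec, Matrix.one_mulVec] at hv'
      exact hv'
    by_cases hy : y = 0
    · subst hy
      simp only [zero_smul, add_zero] at hv2
      have hx : x = 0 := by
        by_contra hx
        exact hv (by simpa [hx] using hv2)
      exact hp (by simp [hx])
    · apply hg (-x / y) v hv
      have : A.mulVec v = (-x / y) • v := by
        have h3 : y • A.mulVec v = (-x) • v := by
          rw [neg_smul]
          exact eq_neg_of_add_eq_zero_right hv2
        calc A.mulVec v = y⁻¹ • (y • A.mulVec v) := by rw [smul_smul, inv_mul_cancel₀ hy, one_smul]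
          _ = (-x / y) • v := by rw [h3, smul_smul]; congr 1; field_simp
      exact this
  let f : {p : F × F // p ≠ 0} → Subgroup.centralizer ({g} : Set (Matrix.GeneralLinearGroup (Fin 2) F)) :=
    fun p => ⟨Matrix.GeneralLinearGroup.mkOfDetNeZero _ (hdet p), by
      rw [mem_centralizer_singleton_iff]
      change A * (p.1.1 • (1 : Matrix (Fin 2) (Fin 2) F) + p.1.2 • A) =
        (p.1.1 • (1 : Matrix (Fin 2) (Fin 2) F) + p.1.2 • A) * A
      simp [Matrix.mul_add, Matrix.add_mul]⟩
  have hf : Function.Bijective f := by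
    constructor
    · rintro ⟨⟨x, y⟩, hp⟩ ⟨⟨x', y'⟩, hp'⟩ h
      have h' : x • (1 : Matrix (Fin 2) (Fin 2) F) + y • A = x' • (1 : Matrix (Fin 2) (Fin 2) F) + y' • A :=
        congrArg (fun z : ↥(Subgroup.centralizer ({g} : Set (Matrix.GeneralLinearGroup (Fin 2) F))) =>
          ((z.1 : Matrix.GeneralLinearGroup (Fin 2) F) : Matrix (Fin 2) (Fin 2) F)) h
      have h10 := congrFun (congrFun h' 1) 0
      have h00 := congrFun (congrFun h' 0) 0
      simp at h10 h00
      have hy : y = y' := by
        rcases h10 with h | h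
        · exact h
        · exact absurd h hc
      subst hy
      have hx : x = x' := by simpa using h00
      subst hx
      rfl
    · rintro ⟨x, hx⟩
      rw [mem_centralizer_singleton_iff] at hx
      set M : Matrix (Fin 2) (Fin 2) F := (x : Matrix (Fin 2) (Fin 2) F) with hM
      have hx' : A * M = M * A := hx
      have e10 := congrFun (congrFun hx' 1) 0
      have e11 := congrFun (congrFun hx' 1) 1
      simp only [Matrix.mul_apply, Fin.sum_univ_two] at e10 e11
      set y : F := M 1 0 / A 1 0 with hy
      set z : F := M 0 0 - A 0 0 * y with hz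
      have hyc : y * A 1 0 = M 1 0 := by rw [hy]; field_simp
      have hM' : M = z • (1 : Matrix (Fin 2) (Fin 2) F) + y • A := by
        apply eq_of_entries
        · simp [hz]; ring
        · simp
          have : A 1 0 * (M 0 1 - y * A 0 1) = 0 := by
            linear_combination e11 - A 0 1 * hyc
          have h5 := (mul_eq_zero.1 this).resolve_left hc
          linear_combination h5
        · simp
          linear_combination -hyc
        · simp
          have : A 1 0 * (M 1 1 - z - y * A 1 1) = 0 := by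
            rw [hz]
            linear_combination (-1 : F) * e10 + (A 0 0 - A 1 1) * hyc
          have h5 := (mul_eq_zero.1 this).resolve_left hc
          linear_combination h5
      have hne : ((z, y) : F × F) ≠ 0 := by
        intro h0
        have h1 : z = 0 := congrArg Prod.fst h0
        have h2 : y = 0 := congrArg Prod.snd h0
        have hdx : M.det ≠ 0 := ((Matrix.isUnit_iff_isUnit_det _).1 x.isUnit).ne_zero
        apply hdx
        rw [hM', h1, h2]
        simp
      refine ⟨⟨(z, y), hne⟩, ?_⟩
      apply Subtype.ext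
      apply Units.ext
      exact hM'.symm
  rw [← Nat.card_congr (Equiv.ofBijective f hf)]
  have : Nat.card {p : F × F // p ≠ 0} = Fintype.card F ^ 2 - 1 := by
    rw [Nat.card_eq_fintype_card, Fintype.card_subtype_compl, Fintype.card_prod]
    simp [pow_two]
  exact this

/-- Over a finite field with q elements: a diagonal element of GL₂ with two distinct diagonal entries has centralizer of order (q − 1)² (so q(q + 1) conjugates), and an element of GL₂ with no eigenvector in F² has centralizer of order q² − 1 (so q(q − 1) conjugates). -/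
theorem result {F : Type*} [Field F] [Fintype F] (g : Matrix.GeneralLinearGroup (Fin 2) F) :
    ((g : Matrix (Fin 2) (Fin 2) F) 0 1 = 0 → (g : Matrix (Fin 2) (Fin 2) F) 1 0 = 0 → (g : Matrix (Fin 2) (Fin 2) F) 0 0 ≠ (g : Matrix (Fin 2) (Fin 2) F) 1 1 →
      Nat.card (Subgroup.centralizer ({g} : Set (Matrix.GeneralLinearGroup (Fin 2) F))) = (Fintype.card F - 1) ^ 2) ∧
    ((∀ (c : F) (v : Fin 2 → F), v ≠ 0 → (g : Matrix (Fin 2) (Fin 2) F).mulVec v ≠ c • v) →
      Nat.card (Subgroup.centralizer ({g} : Set (Matrix.GeneralLinearGroup (Fin 2) F))) = Fintype.card F ^ 2 - 1) := by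
  exact ⟨fun h01 h10 hne => card_centralizer_diag g h01 h10 hne,
    fun h => card_centralizer_anisotropic g h⟩

end Cfsg.Agent.S2303
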