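import Cfsg.Statements.S2308
import Mathlib
import Cfsg.Agent.Lib.Char.GL2Values
-- import your own Cfsg.Agent.* helpers here

set_option autoImplicit false
open Cfsg

namespace Cfsg.Agent.S2308

open Cfsg.Agent.Lib.Char.GL2Principal Cfsg.Agent.Lib.Char.GL2Values

/-- Values of the permutation character of GL₂ over a finite field F with q elements on the cosets of its upper triangular subgroup (equivalently, the number of lines of F² that an element maps to themselves): q + 1 at a scalar matrix, 2 at a diagonal matrix with two different diagonal entries, 0 at an element with no eigenvector in F², and 1 at an upper triangular matrix with equal diagonal entries and non-zero upper right entry. -/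
theorem result {F : Type*} [Field F] [Fintype F] (g : Matrix.GeneralLinearGroup (Fin 2) F) :
    ((∃ a : F, (g : Matrix (Fin 2) (Fin 2) F) = a • (1 : Matrix (Fin 2) (Fin 2) F)) → Cfsg.fixedPointCharacter (Cfsg.upperTriangularGL 2 F) g = Fintype.card F + 1) ∧
    ((g : Matrix (Fin 2) (Fin 2) F) 0 1 = 0 → (g : Matrix (Fin 2) (Fin 2) F) 1 0 = 0 → (g : Matrix (Fin 2) (Fin 2) F) 0 0 ≠ (g : Matrix (Fin 2) (Fin 2) F) 1 1 →
      Cfsg.fixedPointCharacter (Cfsg.upperTriangularGL 2 F) g = 2) ∧
    ((∀ (c : F) (v : Fin 2 → F), v ≠ 0 → (g : Matrix (Fin 2) (Fin 2) F).mulVec v ≠ c • v) → Cfsg.fixedPointCharacter (Cfsg.upperTriangularGL 2 F) g = 0) ∧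
    ((g : Matrix (Fin 2) (Fin 2) F) 1 0 = 0 → (g : Matrix (Fin 2) (Fin 2) F) 0 0 = (g : Matrix (Fin 2) (Fin 2) F) 1 1 → (g : Matrix (Fin 2) (Fin 2) F) 0 1 ≠ 0 →
      Cfsg.fixedPointCharacter (Cfsg.upperTriangularGL 2 F) g = 1) := by
  classical
  have hdet := det_entries_ne g
  have h1 : ∀ a : F, a ≠ 0 → (1 : MulChar F ℂ) a = 1 := fun a ha =>
    MulChar.one_apply (isUnit_iff_ne_zero.2 ha)
  refine ⟨?_, ?_, ?_, ?_⟩
  · rintro ⟨a, ha⟩
    rw [fixedPointCharacter_eq, ind_scalar 1 1 g a ha]
    have ha0 : a ≠ 0 := by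
      rintro rfl
      apply hdet
      simp [ent, ha]
    rw [h1 a ha0]
    simp
  · intro h01 h10 hne
    rw [fixedPointCharacter_eq, ind_diag 1 1 g h01 h10 hne]
    simp only [ent] at hdet
    rw [h01, h10] at hdet
    simp only [mul_zero, sub_zero, ne_eq, mul_eq_zero, not_or] at hdet
    simp only [ent]
    rw [h1 _ hdet.1, h1 _ hdet.2]
    norm_num
  · intro hg
    rw [fixedPointCharacter_eq, ind_elliptic 1 1 g hg]
  · intro h10 heq h01
    rw [fixedPointCharacter_eq, ind_unip 1 1 g h10 heq h01]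
    have h00 : ent g 0 0 ≠ 0 := by
      intro h0
      apply hdet
      simp only [ent] at h0 ⊢
      rw [h0, h10]
      simp
    rw [h1 _ h00]
    simp

end Cfsg.Agent.S2308
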