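import Cfsg.Statements.S2309
import Mathlib
import Cfsg.Agent.Lib.Char.GL2Irr
-- import your own Cfsg.Agent.* helpers here

set_option autoImplicit false
open Cfsg

namespace Cfsg.Agent.S2309

open Cfsg.Agent.Lib.Char.GL2Principal Cfsg.Agent.Lib.Char.GL2Values Cfsg.Agent.Lib.Char.GL2Irr

/-- Over a finite field F with q elements: every irreducible complex character of GL₂ of degree q − 1 vanishes at every diagonal matrix with two distinct entries, and every irreducible complex character of degree q + 1 vanishes at every element with no eigenvector in F². -/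
theorem result {F : Type*} [Field F] [Fintype F] (χ : Matrix.GeneralLinearGroup (Fin 2) F → ℂ) (hχ : Cfsg.IsIrrCharacter (Matrix.GeneralLinearGroup (Fin 2) F) χ) (g : Matrix.GeneralLinearGroup (Fin 2) F) :
    (χ 1 = (Fintype.card F : ℂ) - 1 → (g : Matrix (Fin 2) (Fin 2) F) 0 1 = 0 → (g : Matrix (Fin 2) (Fin 2) F) 1 0 = 0 → (g : Matrix (Fin 2) (Fin 2) F) 0 0 ≠ (g : Matrix (Fin 2) (Fin 2) F) 1 1 → χ g = 0) ∧
    (χ 1 = (Fintype.card F : ℂ) + 1 → (∀ (c : F) (v : Fin 2 → F), v ≠ 0 → (g : Matrix (Fin 2) (Fin 2) F).mulVec v ≠ c • v) → χ g = 0) := by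
  classical
  have hch := Cfsg.Agent.Lib.Char.Basic.isCharacter_of_isIrrCharacter hχ
  have hcl := Cfsg.Agent.Lib.Char.Basic.isClassFunction_of_isCharacter hch
  have hq0 := q_ne_zero (F := F)
  refine ⟨?_, ?_⟩
  · intro h1 h01 h10 hne
    have hdet := det_entries_ne g
    simp only [ent] at hdet
    rw [h01, h10] at hdet
    simp only [mul_zero, sub_zero, ne_eq, mul_eq_zero, not_or] at hdet
    rcases irr_cases hχ with ⟨α, β, hab, rfl⟩ | ⟨α, rfl⟩ | ⟨α, hα⟩ | hc
    · rw [ind_one] at h1
      have : (2 : ℂ) = 0 := by linear_combination h1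
      norm_num at this
    · rw [Lin_one] at h1
      exfalso
      have h2 : Fintype.card F = 2 := by
        have : (Fintype.card F : ℂ) = ((2 : ℕ) : ℂ) := by
          push_cast
          linear_combination - h1
        exact_mod_cast this
      have h3 : Fintype.card Fˣ = 1 := by
        rw [Fintype.card_units, h2]
      have h4 : Units.mk0 _ hdet.1 = Units.mk0 _ hdet.2 :=
        (Fintype.card_le_one_iff.1 h3.le) _ _
      exact hne (congrArg Units.val h4)
    · have := congrFun hα 1
      rw [ind_one, Pi.add_apply, Lin_one, h1] at this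
      have h5 : (1 : ℂ) = 0 := by linear_combination this
      norm_num at h5
    · have hg : g = bM (Units.mk0 _ hdet.1) (Units.mk0 _ hdet.2) 0 := by
        apply ext2
        · rfl
        · exact h01
        · exact h10
        · rfl
      rw [hg]
      exact cusp_diag hcl hc (fun h => hne (congrArg Units.val h))
  · intro h1 hg
    rcases irr_cases hχ with ⟨α, β, hab, rfl⟩ | ⟨α, rfl⟩ | ⟨α, hα⟩ | hc
    · exact ind_elliptic α β g hg
    · rw [Lin_one] at h1
      exfalso
      apply hq0
      linear_combination - h1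
    · have := congrFun hα 1
      rw [ind_one, Pi.add_apply, Lin_one, h1] at this
      have h5 : (1 : ℂ) = 0 := by linear_combination - this
      norm_num at h5
    · exact (not_cusp_deg hχ hc h1).elim

end Cfsg.Agent.S2309
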