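import Cfsg.Statements.S2310
import Mathlib
import Cfsg.Agent.Lib.Char.GL2Irr
-- import your own Cfsg.Agent.* helpers here

set_option autoImplicit false
open Cfsg

namespace Cfsg.Agent.S2310

open Cfsg.Agent.Lib.Char.GL2Principal Cfsg.Agent.Lib.Char.GL2Values Cfsg.Agent.Lib.Char.GL2Irr

/-- Over a finite field F with q ≥ 3 elements, let u be the upper unitriangular matrix of GL₂ with off-diagonal entry 1. An irreducible complex character χ of GL₂ takes at u the value 1 if χ has degree 1 or q + 1, the value −1 if χ has degree q − 1, and the value 0 if χ has degree q. -/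
theorem result {F : Type*} [Field F] [Fintype F] (hq : 3 ≤ Fintype.card F) (χ : Matrix.GeneralLinearGroup (Fin 2) F → ℂ) (hχ : Cfsg.IsIrrCharacter (Matrix.GeneralLinearGroup (Fin 2) F) χ)
    (u : Matrix.GeneralLinearGroup (Fin 2) F) (hu : (u : Matrix (Fin 2) (Fin 2) F) = !![1, 1; 0, 1]) :
    (χ 1 = 1 → χ u = 1) ∧ (χ 1 = (Fintype.card F : ℂ) + 1 → χ u = 1) ∧
    (χ 1 = (Fintype.card F : ℂ) - 1 → χ u = -1) ∧ (χ 1 = (Fintype.card F : ℂ) → χ u = 0) := by
  classical
  have hch := Cfsg.Agent.Lib.Char.Basic.isCharacter_of_isIrrCharacter hχ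
  have hcl := Cfsg.Agent.Lib.Char.Basic.isClassFunction_of_isCharacter hch
  have hq0 := q_ne_zero (F := F)
  have hu' : u = uM := by
    apply Units.ext
    rw [hu]
    ext i j
    fin_cases i <;> fin_cases j <;> rfl
  subst hu'
  have hqc : ∀ n : ℕ, (Fintype.card F : ℂ) = n → Fintype.card F = n := fun n h => by exact_mod_cast h
  refine ⟨?_, ?_, ?_, ?_⟩
  · intro h1
    rcases irr_cases hχ with ⟨α, β, hab, rfl⟩ | ⟨α, rfl⟩ | ⟨α, hα⟩ | hc
    · rw [ind_one] at h1
      exact absurd (by linear_combination h1) hq0
    · exact Lin_u α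
    · have := congrFun hα 1
      rw [ind_one, Pi.add_apply, Lin_one, h1] at this
      have h2 := hqc 1 (by push_cast; linear_combination this)
      omega
    · have h2 := cusp_dvd hχ hc (n := 1) (by rw [h1]; norm_num)
      have h3 := Nat.le_of_dvd (by norm_num) h2
      omega
  · intro h1
    rcases irr_cases hχ with ⟨α, β, hab, rfl⟩ | ⟨α, rfl⟩ | ⟨α, hα⟩ | hc
    · exact ind_u α β
    · rw [Lin_one] at h1
      exact absurd (by linear_combination - h1) hq0
    · have := congrFun hα 1
      rw [ind_one, Pi.add_apply, Lin_one, h1] at this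
      have h5 : (1 : ℂ) = 0 := by linear_combination - this
      norm_num at h5
    · exact (not_cusp_deg hχ hc h1).elim
  · intro h1
    rcases irr_cases hχ with ⟨α, β, hab, rfl⟩ | ⟨α, rfl⟩ | ⟨α, hα⟩ | hc
    · rw [ind_one] at h1
      have : (2 : ℂ) = 0 := by linear_combination h1
      norm_num at this
    · rw [Lin_one] at h1
      have h2 := hqc 2 (by push_cast; linear_combination - h1)
      omega
    · have := congrFun hα 1
      rw [ind_one, Pi.add_apply, Lin_one, h1] at this
      have h5 : (1 : ℂ) = 0 := by linear_combination this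
      norm_num at h5
    · have h2 := cusp_rel hcl hc
      rw [h1] at h2
      have h3 := q_sub_one_ne_zero (F := F)
      have h4 : ((Fintype.card F : ℂ) - 1) * (χ uM + 1) = 0 := by linear_combination h2
      have h5 := (mul_eq_zero.1 h4).resolve_left h3
      linear_combination h5
  · intro h1
    rcases irr_cases hχ with ⟨α, β, hab, rfl⟩ | ⟨α, rfl⟩ | ⟨α, hα⟩ | hc
    · rw [ind_one] at h1
      have : (1 : ℂ) = 0 := by linear_combination h1
      norm_num at this
    · rw [Lin_one] at h1
      have h2 := hqc 1 (by push_cast; linear_combination - h1)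
      omega
    · have := congrFun hα uM
      rw [ind_u, Pi.add_apply, Lin_u] at this
      linear_combination - this
    · have h2 := cusp_dvd hχ hc (n := Fintype.card F) h1
      have h3 : Fintype.card F - 1 ∣ 1 := by
        have h4 : Fintype.card F - 1 ∣ (Fintype.card F - 1) + 1 := by
          have : Fintype.card F - 1 + 1 = Fintype.card F := by omega
          rwa [this]
        exact (Nat.dvd_add_right (dvd_refl _)).1 h4
      have h3' := Nat.le_of_dvd (by norm_num) h3
      omega

end Cfsg.Agent.S2310
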