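import Cfsg.Statements.S2315
import Mathlib

set_option autoImplicit false
open Cfsg
namespace Cfsg.Agent.S2315

variable {F : Type*} [Field F]

section blk
variable {E₁ E₂ V : Type*} [AddCommGroup E₁] [Module F E₁] [AddCommGroup E₂] [Module F E₂]
  [AddCommGroup V] [Module F V]

/-- The conjugated block map. -/
noncomputable def blk (Φ : (E₁ × E₂) ≃ₗ[F] V) (A : Module.End F E₁) (B : Module.End F E₂) :
    Module.End F V :=
  Φ.toLinearMap ∘ₗ (A.prodMap B) ∘ₗ Φ.symm.toLinearMap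

lemma blk_apply (Φ : (E₁ × E₂) ≃ₗ[F] V) (A : Module.End F E₁) (B : Module.End F E₂)
    (x : E₁ × E₂) : blk Φ A B (Φ x) = Φ (A x.1, B x.2) := by
  simp [blk]

lemma blk_pow_apply (Φ : (E₁ × E₂) ≃ₗ[F] V) (A : Module.End F E₁) (B : Module.End F E₂)
    (i : ℕ) (x : E₁ × E₂) : (blk Φ A B ^ i) (Φ x) = Φ ((A ^ i) x.1, (B ^ i) x.2) := by
  induction i generalizing x with
  | zero => simp
  | succ i ih =>
    rw [pow_succ, Module.End.mul_apply, blk_apply, ih, pow_succ, pow_succ]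
    simp

lemma bij_pow (B : E₂ ≃ₗ[F] E₂) (N : ℕ) : Function.Bijective (B.toLinearMap ^ N) := by
  rw [Module.End.coe_pow]
  exact B.bijective.iterate N

lemma ker_blk (Φ : (E₁ × E₂) ≃ₗ[F] V) (A : Module.End F E₁) (B : E₂ ≃ₗ[F] E₂) (N : ℕ)
    (hA : A ^ N = 0) (x : V) :
    (blk Φ A B.toLinearMap ^ N) x = 0 ↔ (Φ.symm x).2 = 0 := by
  obtain ⟨y, rfl⟩ := Φ.surjective x
  rw [blk_pow_apply, hA]
  simp only [LinearMap.zero_apply, LinearEquiv.symm_apply_apply, map_eq_zero_iff Φ Φ.injective,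
    Prod.mk_eq_zero, true_and]
  exact (bij_pow B N).1.eq_iff' (map_zero _)

lemma range_blk (Φ : (E₁ × E₂) ≃ₗ[F] V) (A : Module.End F E₁) (B : E₂ ≃ₗ[F] E₂) (N : ℕ)
    (hA : A ^ N = 0) (x : V) :
    (∃ y, (blk Φ A B.toLinearMap ^ N) y = x) ↔ (Φ.symm x).1 = 0 := by
  constructor
  · rintro ⟨y, rfl⟩
    obtain ⟨y, rfl⟩ := Φ.surjective y
    rw [blk_pow_apply, hA]
    simp
  · intro h
    obtain ⟨⟨a, b⟩, rfl⟩ := Φ.surjective x
    simp only [LinearEquiv.symm_apply_apply] at h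
    subst h
    obtain ⟨c, rfl⟩ := (bij_pow B N).2 b
    refine ⟨Φ (0, c), ?_⟩
    rw [blk_pow_apply, hA]
    simp

lemma exists_alpha {E₁' E₂' : Type*} [AddCommGroup E₁'] [Module F E₁'] [AddCommGroup E₂']
    [Module F E₂'] (Φ : (E₁ × E₂) ≃ₗ[F] V) (Φ' : (E₁' × E₂') ≃ₗ[F] V)
    (h : ∀ x, (Φ.symm x).2 = 0 ↔ (Φ'.symm x).2 = 0) :
    ∃ α : E₁ ≃ₗ[F] E₁', ∀ a, Φ' (α a, 0) = Φ (a, 0) := by
  have key1 : ∀ a : E₁, Φ' ((Φ'.symm (Φ (a, 0))).1, 0) = Φ (a, 0) := by
    intro a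
    have h2 := (h (Φ (a, 0))).1 (by simp)
    have : ((Φ'.symm (Φ (a, 0))).1, (0 : E₂')) = Φ'.symm (Φ (a, 0)) := by
      ext1
      · rfl
      · exact h2.symm
    rw [this]; simp
  have key2 : ∀ a : E₁', Φ ((Φ.symm (Φ' (a, 0))).1, 0) = Φ' (a, 0) := by
    intro a
    have h2 := (h (Φ' (a, 0))).2 (by simp)
    have : ((Φ.symm (Φ' (a, 0))).1, (0 : E₂)) = Φ.symm (Φ' (a, 0)) := by
      ext1
      · rfl
      · exact h2.symm
    rw [this]; simp
  refine ⟨LinearEquiv.ofLinearMap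
    ((LinearMap.fst F E₁' E₂') ∘ₗ Φ'.symm.toLinearMap ∘ₗ Φ.toLinearMap ∘ₗ LinearMap.inl F E₁ E₂)
    ((LinearMap.fst F E₁ E₂) ∘ₗ Φ.symm.toLinearMap ∘ₗ Φ'.toLinearMap ∘ₗ LinearMap.inl F E₁' E₂')
    ?_ ?_, ?_⟩
  · ext1 a
    simp only [LinearMap.comp_apply, LinearMap.inl_apply, LinearMap.fst_apply,
      LinearEquiv.coe_coe, LinearMap.id_apply]
    rw [key2 a]; simp
  · ext1 a
    simp only [LinearMap.comp_apply, LinearMap.inl_apply, LinearMap.fst_apply,
      LinearEquiv.coe_coe, LinearMap.id_apply]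
    rw [key1 a]; simp
  · intro a
    exact key1 a

/-- The parameter type. -/
abbrev XX (F E₁ E₂ V : Type*) [Field F] [AddCommGroup E₁] [Module F E₁] [AddCommGroup E₂]
    [Module F E₂] [AddCommGroup V] [Module F V] :=
  ((E₁ × E₂) ≃ₗ[F] V) × {A : Module.End F E₁ // IsNilpotent A} × (E₂ ≃ₗ[F] E₂)

noncomputable def ff (x : XX F E₁ E₂ V) : Module.End F V :=
  blk x.1 x.2.1.1 x.2.2.toLinearMap

/-- conjugate of a nilpotent map -/
noncomputable def conjNil (α : E₁ ≃ₗ[F] E₁) (A : {A : Module.End F E₁ // IsNilpotent A}) :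
    {A : Module.End F E₁ // IsNilpotent A} :=
  ⟨α.symm.toLinearMap ∘ₗ A.1 ∘ₗ α.toLinearMap, by
    obtain ⟨N, hN⟩ := A.2
    refine ⟨N, ?_⟩
    have : ∀ (i : ℕ) (a : E₁), ((α.symm.toLinearMap ∘ₗ A.1 ∘ₗ α.toLinearMap) ^ i) a =
        α.symm ((A.1 ^ i) (α a)) := by
      intro i
      induction i with
      | zero => simp
      | succ i ih =>
        intro a
        rw [pow_succ, Module.End.mul_apply, ih, pow_succ, Module.End.mul_apply]
        simp
    ext1 a
    rw [this, hN]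
    simp⟩

noncomputable def act (x : XX F E₁ E₂ V) (h : (E₁ ≃ₗ[F] E₁) × (E₂ ≃ₗ[F] E₂)) : XX F E₁ E₂ V :=
  ((h.1.prodCongr h.2).trans x.1, conjNil h.1 x.2.1, h.2.trans (x.2.2.trans h.2.symm))

lemma ff_act (x : XX F E₁ E₂ V) (h : (E₁ ≃ₗ[F] E₁) × (E₂ ≃ₗ[F] E₂)) : ff (act x h) = ff x := by
  ext1 v
  obtain ⟨y, rfl⟩ := ((h.1.prodCongr h.2).trans x.1).surjective v
  have e1 : ff (act x h) (((h.1.prodCongr h.2).trans x.1) y) = _ := blk_apply _ _ _ y
  rw [e1]
  have e2 : ((h.1.prodCongr h.2).trans x.1) y = x.1 (h.1 y.1, h.2 y.2) := rfl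
  rw [e2]
  have e3 : ff x (x.1 (h.1 y.1, h.2 y.2)) = _ := blk_apply _ _ _ _
  rw [e3]
  have e4 : (act x h).1 (((act x h).2.1.1) y.1, ((act x h).2.2) y.2) =
      x.1 (h.1 (((act x h).2.1.1) y.1), h.2 (((act x h).2.2) y.2)) := rfl
  refine Eq.trans e4 ?_
  simp [act, conjNil]

lemma act_injective (x : XX F E₁ E₂ V) : Function.Injective (act x) := by
  intro h h' e
  have e1 : (h.1.prodCongr h.2).trans x.1 = (h'.1.prodCongr h'.2).trans x.1 :=
    congrArg Prod.fst e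
  have e2 : ∀ y : E₁ × E₂, (h.1 y.1, h.2 y.2) = (h'.1 y.1, h'.2 y.2) := by
    intro y
    have := congrArg (fun ψ => ψ y) e1
    exact x.1.injective this
  refine Prod.ext ?_ ?_
  · ext1 a
    have := e2 (a, 0)
    exact congrArg Prod.fst this
  · ext1 b
    have := e2 (0, b)
    exact congrArg Prod.snd this

lemma exists_act_of_ff_eq (x y : XX F E₁ E₂ V) (e : ff x = ff y) : ∃ h, act x h = y := by
  obtain ⟨Φ, ⟨A, hA⟩, B⟩ := x
  obtain ⟨Φ', ⟨A', hA'⟩, B'⟩ := y
  obtain ⟨N₁, hN₁⟩ := hA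
  obtain ⟨N₂, hN₂⟩ := hA'
  have hN : A ^ (N₁ + N₂) = 0 := by rw [pow_add, hN₁, zero_mul]
  have hN' : A' ^ (N₁ + N₂) = 0 := by rw [pow_add, hN₂, mul_zero]
  simp only [ff] at e
  have hker : ∀ v, (Φ.symm v).2 = 0 ↔ (Φ'.symm v).2 = 0 := by
    intro v
    rw [← ker_blk Φ A B _ hN, ← ker_blk Φ' A' B' _ hN', e]
  have hran : ∀ v, (Φ.symm v).1 = 0 ↔ (Φ'.symm v).1 = 0 := by
    intro v
    rw [← range_blk Φ A B _ hN, ← range_blk Φ' A' B' _ hN', e]
  obtain ⟨α, hα⟩ := exists_alpha Φ' Φ (fun v => (hker v).symm)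
  obtain ⟨β, hβ⟩ := exists_alpha ((LinearEquiv.prodComm F E₂ E₁).trans Φ')
    ((LinearEquiv.prodComm F E₂ E₁).trans Φ) (fun v => by
      simpa [LinearEquiv.prodComm] using (hran v).symm)
  have hβ' : ∀ b, Φ (0, β b) = Φ' (0, b) := fun b => hβ b
  -- Φ' = Φ ∘ (α × β)
  have hΦ : ∀ a b, Φ (α a, β b) = Φ' (a, b) := by
    intro a b
    have : (a, b) = (a, 0) + (0, b) := by simp
    rw [this, map_add, ← hα, ← hβ', ← map_add]
    simp
  have hΦ' : (α.prodCongr β).trans Φ = Φ' := by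
    ext1 ⟨a, b⟩
    exact hΦ a b
  have hT : ∀ a b, Φ (A (α a), B (β b)) = Φ' (A' a, B' b) := by
    intro a b
    have e1 := blk_apply Φ A B.toLinearMap (α a, β b)
    have e2 := blk_apply Φ' A' B'.toLinearMap (a, b)
    rw [hΦ, e, e2] at e1
    simpa using e1.symm
  have hA'' : ∀ a, A (α a) = α (A' a) := by
    intro a
    have h1 := hT a 0
    rw [map_zero, map_zero, map_zero, ← hα] at h1
    have := Φ.injective h1
    exact congrArg Prod.fst this
  have hB'' : ∀ b, B (β b) = β (B' b) := by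
    intro b
    have h1 := hT 0 b
    rw [map_zero, map_zero, map_zero, ← hβ'] at h1
    have := Φ.injective h1
    exact congrArg Prod.snd this
  refine ⟨(α, β), ?_⟩
  refine Prod.ext hΦ' (Prod.ext (Subtype.ext ?_) ?_)
  · ext1 a
    simp [act, conjNil, hA'']
  · ext1 b
    simp [act, hB'']

lemma card_XX_of_fibres [Finite E₁] [Finite E₂] [Finite V] :
    Nat.card (XX F E₁ E₂ V) =
      Nat.card (Set.range (ff : XX F E₁ E₂ V → Module.End F V)) *
        Nat.card ((E₁ ≃ₗ[F] E₁) × (E₂ ≃ₗ[F] E₂)) := by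
  classical
  haveI : Finite (Module.End F V) := Finite.of_injective _ DFunLike.coe_injective
  haveI : Finite (E₁ ≃ₗ[F] E₁) := Finite.of_injective _ DFunLike.coe_injective
  haveI : Finite (E₂ ≃ₗ[F] E₂) := Finite.of_injective _ DFunLike.coe_injective
  haveI : Finite (Module.End F E₁) := Finite.of_injective _ DFunLike.coe_injective
  haveI : Finite ((E₁ × E₂) ≃ₗ[F] V) := Finite.of_injective _ DFunLike.coe_injective
  haveI : Fintype (Set.range (ff : XX F E₁ E₂ V → Module.End F V)) := Fintype.ofFinite _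
  let f' : XX F E₁ E₂ V → Set.range (ff : XX F E₁ E₂ V → Module.End F V) :=
    Set.rangeFactorization ff
  have hcard : ∀ y, Nat.card {x // f' x = y} = Nat.card ((E₁ ≃ₗ[F] E₁) × (E₂ ≃ₗ[F] E₂)) := by
    rintro ⟨_, ⟨x₀, rfl⟩⟩
    symm
    refine Nat.card_congr (Equiv.ofBijective
      (fun h => ⟨act x₀ h, Subtype.ext (ff_act x₀ h)⟩) ⟨?_, ?_⟩)
    · intro h h' e
      exact act_injective x₀ (congrArg Subtype.val e)
    · rintro ⟨y, hy⟩
      obtain ⟨h, rfl⟩ := exists_act_of_ff_eq x₀ y (congrArg Subtype.val hy).symm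
      exact ⟨h, rfl⟩
  rw [← Nat.card_congr (Equiv.sigmaFiberEquiv f'), Nat.card_sigma]
  simp only [hcard]
  rw [Finset.sum_const, Finset.card_univ, smul_eq_mul, ← Nat.card_eq_fintype_card]

end blk

section count
variable [Fintype F]

/-- Number of nilpotent endomorphisms. -/
noncomputable def nu (F : Type*) [Field F] (k : ℕ) : ℕ :=
  Nat.card {A : Module.End F (Fin k → F) // IsNilpotent A}

/-- Order of GL. -/
noncomputable def ga (F : Type*) [Field F] (k : ℕ) : ℕ :=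
  Nat.card ((Fin k → F) ≃ₗ[F] (Fin k → F))

lemma ga_pos (k : ℕ) : 0 < ga F k := by
  haveI : Finite ((Fin k → F) ≃ₗ[F] (Fin k → F)) :=
    Finite.of_injective _ DFunLike.coe_injective
  exact Nat.card_pos

lemma card_XX (n : ℕ) (k : Fin (n + 1)) :
    Nat.card (XX F (Fin k → F) (Fin (n - k) → F) (Fin n → F)) =
      ga F n * (nu F k * ga F (n - k)) := by
  haveI : Finite ((Fin n → F) ≃ₗ[F] (Fin n → F)) :=
    Finite.of_injective _ DFunLike.coe_injective
  haveI : Finite ((Fin (n-k) → F) ≃ₗ[F] (Fin (n-k) → F)) :=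
    Finite.of_injective _ DFunLike.coe_injective
  haveI : Finite (Module.End F (Fin k → F)) := Finite.of_injective _ DFunLike.coe_injective
  haveI : Finite (((Fin k → F) × (Fin (n-k) → F)) ≃ₗ[F] (Fin n → F)) :=
    Finite.of_injective _ DFunLike.coe_injective
  rw [Nat.card_prod, Nat.card_prod]
  have hk : (k : ℕ) ≤ n := Nat.lt_succ_iff.mp k.2
  have hfr : Module.finrank F ((Fin k → F) × (Fin (n-k) → F)) = Module.finrank F (Fin n → F) := by
    simp only [Module.finrank_prod, Module.finrank_fin_fun]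
    omega
  let Ψ : ((Fin k → F) × (Fin (n-k) → F)) ≃ₗ[F] (Fin n → F) := LinearEquiv.ofFinrankEq _ _ hfr
  have h1 : Nat.card (((Fin k → F) × (Fin (n-k) → F)) ≃ₗ[F] (Fin n → F)) = ga F n := by
    refine Nat.card_congr ⟨fun e => Ψ.symm.trans e, fun e => Ψ.trans e, ?_, ?_⟩
    · intro e; ext1 x; simp
    · intro e; ext1 x; simp
  rw [h1]
  rfl

lemma card_HH (n : ℕ) (k : Fin (n + 1)) :
    Nat.card (((Fin k → F) ≃ₗ[F] (Fin k → F)) × ((Fin (n-k) → F) ≃ₗ[F] (Fin (n-k) → F))) =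
      ga F k * ga F (n - k) := by
  haveI : Finite ((Fin k → F) ≃ₗ[F] (Fin k → F)) :=
    Finite.of_injective _ DFunLike.coe_injective
  haveI : Finite ((Fin (n-k) → F) ≃ₗ[F] (Fin (n-k) → F)) :=
    Finite.of_injective _ DFunLike.coe_injective
  rw [Nat.card_prod]
  rfl

lemma card_range (n : ℕ) (k : Fin (n + 1)) :
    Nat.card (Set.range (ff : XX F (Fin k → F) (Fin (n - k) → F) (Fin n → F) →
      Module.End F (Fin n → F))) * ga F k = ga F n * nu F k := by
  have h := card_XX (F := F) n k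
  rw [card_XX_of_fibres, card_HH] at h
  have := ga_pos (F := F) (n - k)
  apply Nat.eq_of_mul_eq_mul_right this
  rw [mul_assoc, h, mul_assoc]

/-- Fitting decomposition of an endomorphism. -/
lemma exists_fitting {V : Type*} [AddCommGroup V] [Module F V] [FiniteDimensional F V]
    (T : Module.End F V) :
    ∃ (W U : Submodule F V) (_ : IsCompl W U) (_ : ∀ x ∈ W, T x ∈ W) (_ : ∀ x ∈ U, T x ∈ U)
      (N : ℕ), (∀ x ∈ W, (T ^ N) x = 0) ∧ (∀ x ∈ U, T x = 0 → x = 0) := by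
  obtain ⟨N, hN⟩ := Filter.eventually_atTop.mp T.eventually_isCompl_ker_pow_range_pow
  have hc := hN (N + 1) (by omega)
  refine ⟨LinearMap.ker (T ^ (N + 1)), LinearMap.range (T ^ (N + 1)), hc, ?_, ?_, N + 1, ?_, ?_⟩
  · intro x hx
    rw [LinearMap.mem_ker] at hx ⊢
    rw [← Module.End.mul_apply, ← pow_succ, pow_succ', Module.End.mul_apply, hx, map_zero]
  · rintro x ⟨y, rfl⟩
    refine ⟨T y, ?_⟩
    rw [← Module.End.mul_apply, ← Module.End.mul_apply, ← pow_succ, ← pow_succ']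
  · intro x hx
    exact hx
  · intro x hx h0
    have h1 : x ∈ LinearMap.ker (T ^ (N + 1)) := by
      rw [LinearMap.mem_ker, pow_succ, Module.End.mul_apply, h0, map_zero]
    have := (Submodule.disjoint_def.mp hc.disjoint) x h1 hx
    exact this

lemma exists_rep (n : ℕ) (T : Module.End F (Fin n → F)) :
    ∃ k : Fin (n + 1), T ∈ Set.range (ff : XX F (Fin k → F) (Fin (n - k) → F) (Fin n → F) →
      Module.End F (Fin n → F)) := by
  obtain ⟨W, U, hc, hW, hU, N, hN, hU0⟩ := exists_fitting T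
  have hdim : Module.finrank F W + Module.finrank F U = n := by
    have := Submodule.finrank_add_eq_of_isCompl hc
    simpa using this
  refine ⟨⟨Module.finrank F W, by omega⟩, ?_⟩
  set k := Module.finrank F W with hk
  let φ₁ : (Fin k → F) ≃ₗ[F] W := LinearEquiv.ofFinrankEq _ _ (by simp [hk])
  let φ₂ : (Fin (n - k) → F) ≃ₗ[F] U := LinearEquiv.ofFinrankEq _ _ (by
    simp only [Module.finrank_fin_fun]; omega)
  let Φ : ((Fin k → F) × (Fin (n - k) → F)) ≃ₗ[F] (Fin n → F) :=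
    (φ₁.prodCongr φ₂).trans (Submodule.prodEquivOfIsCompl W U hc)
  let A : Module.End F (Fin k → F) := φ₁.symm.toLinearMap ∘ₗ (T.restrict hW) ∘ₗ φ₁.toLinearMap
  have hA : ∀ a, ((φ₁ (A a) : W) : Fin n → F) = T (φ₁ a) := by
    intro a
    simp [A]
  have hApow : ∀ (i : ℕ) (a : Fin k → F), ((φ₁ ((A ^ i) a) : W) : Fin n → F) = (T ^ i) (φ₁ a) := by
    intro i
    induction i with
    | zero => simp
    | succ i ih =>
      intro a
      rw [pow_succ', Module.End.mul_apply, hA, ih, pow_succ', Module.End.mul_apply]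
  have hAnil : IsNilpotent A := by
    refine ⟨N, LinearMap.ext fun a => ?_⟩
    have h1 := hApow N a
    rw [hN _ (φ₁ a).2] at h1
    have h2 : φ₁ ((A ^ N) a) = 0 := Subtype.ext h1
    have h3 := (map_eq_zero_iff φ₁ φ₁.injective).1 h2
    rw [h3]; simp
  let B' : U ≃ₗ[F] U := LinearEquiv.ofInjectiveEndo (T.restrict hU) (by
    rw [← LinearMap.ker_eq_bot, LinearMap.ker_eq_bot']
    intro x hx
    have h1 : T x = 0 := congrArg Subtype.val hx
    exact Subtype.ext (hU0 x x.2 h1))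
  let B : (Fin (n - k) → F) ≃ₗ[F] (Fin (n - k) → F) := φ₂.trans (B'.trans φ₂.symm)
  have hB : ∀ b, ((φ₂ (B b) : U) : Fin n → F) = T (φ₂ b) := by
    intro b
    simp [B, B']
  refine ⟨(Φ, ⟨A, hAnil⟩, B), LinearMap.ext fun v => ?_⟩
  obtain ⟨⟨a, b⟩, rfl⟩ := Φ.surjective v
  have e1 : ff ((Φ, ⟨A, hAnil⟩, B) : XX F (Fin k → F) (Fin (n - k) → F) (Fin n → F)) (Φ (a, b)) =
      Φ (A a, B b) := blk_apply _ _ _ _
  rw [e1]
  have e2 : ∀ a b, Φ (a, b) = ((φ₁ a : W) : Fin n → F) + ((φ₂ b : U) : Fin n → F) := by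
    intro a b
    simp [Φ]
  rw [e2, e2, map_add, hA, hB]

lemma rep_unique (n : ℕ) (T : Module.End F (Fin n → F)) (k k' : Fin (n + 1))
    (h : T ∈ Set.range (ff : XX F (Fin k → F) (Fin (n - k) → F) (Fin n → F) →
      Module.End F (Fin n → F)))
    (h' : T ∈ Set.range (ff : XX F (Fin k' → F) (Fin (n - k') → F) (Fin n → F) →
      Module.End F (Fin n → F))) : k = k' := by
  obtain ⟨⟨Φ, ⟨A, hA⟩, B⟩, rfl⟩ := h
  obtain ⟨⟨Φ', ⟨A', hA'⟩, B'⟩, e⟩ := h'
  obtain ⟨N₁, hN₁⟩ := hA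
  obtain ⟨N₂, hN₂⟩ := hA'
  have hN : A ^ (N₁ + N₂) = 0 := by rw [pow_add, hN₁, zero_mul]
  have hN' : A' ^ (N₁ + N₂) = 0 := by rw [pow_add, hN₂, mul_zero]
  simp only [ff] at e
  have hker : ∀ v, (Φ.symm v).2 = 0 ↔ (Φ'.symm v).2 = 0 := by
    intro v
    rw [← ker_blk Φ A B _ hN, ← ker_blk Φ' A' B' _ hN', e]
  obtain ⟨α, -⟩ := exists_alpha Φ Φ' hker
  have := α.finrank_eq
  simp only [Module.finrank_fin_fun] at this
  exact Fin.ext this

lemma card_End (n : ℕ) : Nat.card (Module.End F (Fin n → F)) = Fintype.card F ^ (n * n) := by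
  rw [Nat.card_congr (LinearMap.toMatrix' (R := F) (m := Fin n) (n := Fin n)).toEquiv]
  show Nat.card (Fin n → Fin n → F) = _
  rw [Nat.card_eq_fintype_card, Fintype.card_fun, Fintype.card_fun, Fintype.card_fin, ← pow_mul]

lemma sum_eq (n : ℕ) : ∑ k : Fin (n + 1), ga F n * nu F k / (ga F k : ℚ) =
    (Fintype.card F : ℚ) ^ (n * n) := by
  classical
  haveI : Finite (Module.End F (Fin n → F)) := Finite.of_injective _ DFunLike.coe_injective
  choose g hg using exists_rep (F := F) n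
  have hfib : ∀ k : Fin (n + 1), Nat.card {T // g T = k} =
      Nat.card (Set.range (ff : XX F (Fin k → F) (Fin (n - k) → F) (Fin n → F) →
        Module.End F (Fin n → F))) := by
    intro k
    refine Nat.card_congr (Equiv.subtypeEquivRight ?_)
    intro T
    constructor
    · rintro rfl; exact hg T
    · intro h; exact rep_unique n T _ _ (hg T) h
  have h1 : Nat.card (Module.End F (Fin n → F)) = ∑ k, Nat.card {T // g T = k} := by
    rw [← Nat.card_congr (Equiv.sigmaFiberEquiv g), Nat.card_sigma]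
  rw [card_End] at h1
  have h2 : ((Fintype.card F ^ (n * n) : ℕ) : ℚ) = ∑ k, (Nat.card {T // g T = k} : ℚ) := by
    rw [h1]; push_cast; rfl
  push_cast at h2
  rw [h2]
  refine Finset.sum_congr rfl fun k _ => ?_
  rw [hfib, div_eq_iff (by exact_mod_cast (ga_pos (F := F) k).ne')]
  exact_mod_cast (card_range (F := F) n k).symm

lemma ga_eq (n : ℕ) : ga F n = ∏ i : Fin n, (Fintype.card F ^ n - Fintype.card F ^ (i : ℕ)) := by
  rw [← Matrix.card_GL_field]
  unfold ga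
  refine Nat.card_congr ?_
  exact ((Matrix.GeneralLinearGroup.toLin (n := Fin n) (R := F)).trans
    (LinearMap.GeneralLinearGroup.generalLinearEquiv F (Fin n → F))).toEquiv.symm

lemma ga_succ (n : ℕ) : ga F (n + 1) =
    ga F n * ((Fintype.card F ^ (n + 1) - 1) * Fintype.card F ^ n) := by
  rw [ga_eq, ga_eq, Fin.prod_univ_succ]
  simp only [Fin.val_zero, pow_zero, Fin.val_succ]
  have : ∀ i : Fin n, Fintype.card F ^ (n + 1) - Fintype.card F ^ ((i : ℕ) + 1) =
      Fintype.card F * (Fintype.card F ^ n - Fintype.card F ^ (i : ℕ)) := by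
    intro i
    rw [Nat.mul_sub, pow_succ', pow_succ']
  simp only [this]
  rw [Finset.prod_mul_distrib, Finset.prod_const, Finset.card_univ, Fintype.card_fin]
  ring

lemma nu_formula (n : ℕ) : nu F n = Fintype.card F ^ (n * (n - 1)) := by
  cases n with
  | zero =>
    unfold nu
    simp only [Nat.zero_mul, pow_zero]
    haveI : Subsingleton (Module.End F (Fin 0 → F)) := ⟨fun a b => by ext1 x; exact Subsingleton.elim _ _⟩
    haveI : Unique {A : Module.End F (Fin 0 → F) // IsNilpotent A} :=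
      ⟨⟨⟨0, IsNilpotent.zero⟩⟩, fun a => Subtype.ext (Subsingleton.elim _ _)⟩
    exact Nat.card_unique
  | succ n =>
    have h1 := sum_eq (F := F) n
    have h2 := sum_eq (F := F) (n + 1)
    have hq : (1 : ℕ) ≤ Fintype.card F ^ (n + 1) := Nat.one_le_pow _ _ Fintype.card_pos
    have hgn : (ga F n : ℚ) ≠ 0 := by exact_mod_cast (ga_pos (F := F) n).ne'
    have hgs : (ga F (n + 1) : ℚ) ≠ 0 := by exact_mod_cast (ga_pos (F := F) (n + 1)).ne'
    rw [Fin.sum_univ_castSucc] at h2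
    simp only [Fin.val_castSucc, Fin.val_last] at h2
    set S : ℚ := ∑ k : Fin (n + 1), (nu F k : ℚ) / ga F k with hS
    have k1 : ∑ k : Fin (n + 1), (ga F n : ℚ) * nu F k / ga F k = ga F n * S := by
      rw [hS, Finset.mul_sum]
      exact Finset.sum_congr rfl fun k _ => mul_div_assoc _ _ _
    have k2 : ∑ k : Fin (n + 1), (ga F (n + 1) : ℚ) * nu F k / ga F k = ga F (n + 1) * S := by
      rw [hS, Finset.mul_sum]
      exact Finset.sum_congr rfl fun k _ => mul_div_assoc _ _ _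
    rw [k1] at h1
    rw [k2, mul_div_cancel_left₀ _ hgs] at h2
    have hcast : (ga F (n + 1) : ℚ) =
        ga F n * (((Fintype.card F : ℚ) ^ (n + 1) - 1) * (Fintype.card F : ℚ) ^ n) := by
      rw [ga_succ]
      push_cast [Nat.cast_sub hq]
      ring
    have h3 : (nu F (n + 1) : ℚ) = (Fintype.card F : ℚ) ^ ((n + 1) * n) := by
      have h4 : (ga F (n + 1) : ℚ) * S = (Fintype.card F : ℚ) ^ (n * n) *
          (((Fintype.card F : ℚ) ^ (n + 1) - 1) * (Fintype.card F : ℚ) ^ n) := by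
        rw [← h1, hcast]; ring
      have h5 : (nu F (n + 1) : ℚ) = (Fintype.card F : ℚ) ^ ((n + 1) * (n + 1)) -
          (Fintype.card F : ℚ) ^ (n * n) *
          (((Fintype.card F : ℚ) ^ (n + 1) - 1) * (Fintype.card F : ℚ) ^ n) := by
        rw [← h4, ← h2]; ring
      rw [h5]
      ring
    have h6 : nu F (n + 1) = Fintype.card F ^ ((n + 1) * n) := by
      exact_mod_cast h3
    simpa using h6

end count

section final
variable {R : Type*} [Ring R] (p : ℕ) [Fact p.Prime] [CharP R p]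

lemma orderOf_iff (u : Rˣ) : (∃ k : ℕ, orderOf u = p ^ k) ↔ IsNilpotent ((u : R) - 1) := by
  have hp : 1 < p := (Fact.out : p.Prime).one_lt
  constructor
  · rintro ⟨k, hk⟩
    refine ⟨p ^ k, ?_⟩
    rw [sub_pow_char_pow_of_commute p _ (Commute.one_right _), one_pow, ← Units.val_pow_eq_pow_val,
      ← hk, pow_orderOf_eq_one]
    simp
  · rintro ⟨m, hm⟩
    have hlt : m < p ^ m := Nat.lt_pow_self hp
    have h0 : ((u : R) - 1) ^ (p ^ m) = 0 := by
      rw [← Nat.sub_add_cancel hlt.le, pow_add, hm, mul_zero]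
    rw [sub_pow_char_pow_of_commute p _ (Commute.one_right _), one_pow, sub_eq_zero,
      ← Units.val_pow_eq_pow_val] at h0
    have h1 : u ^ (p ^ m) = 1 := Units.ext h0
    obtain ⟨k, -, hk⟩ := (Nat.dvd_prime_pow (Fact.out : p.Prime)).1 (orderOf_dvd_of_pow_eq_one h1)
    exact ⟨k, hk⟩

omit [Fact p.Prime] [CharP R p] in
lemma card_unip : Nat.card {u : Rˣ // IsNilpotent ((u : R) - 1)} =
    Nat.card {N : R // IsNilpotent N} := by
  refine Nat.card_congr ⟨fun u => ⟨(u.1 : R) - 1, u.2⟩, fun N => ⟨(N.2.isUnit_one_add).unit, by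
    simpa using N.2⟩, ?_, ?_⟩
  · intro u
    apply Subtype.ext
    apply Units.ext
    simp
  · intro N
    apply Subtype.ext
    simp

end final

/-- The theorem. -/
theorem result {F : Type*} [Field F] [Fintype F] (p : ℕ) [Fact p.Prime] [CharP F p] (n : ℕ) :
    Nat.card {g : Matrix.GeneralLinearGroup (Fin n) F // ∃ k : ℕ, orderOf g = p ^ k} =
      Fintype.card F ^ (n * (n - 1)) := by
  rw [← nu_formula]
  unfold nu
  cases isEmpty_or_nonempty (Fin n) with
  | inl h =>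
    haveI : Subsingleton (Matrix.GeneralLinearGroup (Fin n) F) := by
      refine ⟨fun a b => Units.ext (Subsingleton.elim _ _)⟩
    haveI : Subsingleton (Module.End F (Fin n → F)) :=
      ⟨fun a b => LinearMap.ext fun x => Subsingleton.elim _ _⟩
    have h1 : Nat.card {g : Matrix.GeneralLinearGroup (Fin n) F // ∃ k : ℕ, orderOf g = p ^ k} = 1 := by
      haveI : Unique {g : Matrix.GeneralLinearGroup (Fin n) F // ∃ k : ℕ, orderOf g = p ^ k} :=
        ⟨⟨⟨1, 0, by simp⟩⟩, fun a => Subtype.ext (Subsingleton.elim _ _)⟩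
      exact Nat.card_unique
    have h2 : Nat.card {A : Module.End F (Fin n → F) // IsNilpotent A} = 1 := by
      haveI : Unique {A : Module.End F (Fin n → F) // IsNilpotent A} :=
        ⟨⟨⟨0, IsNilpotent.zero⟩⟩, fun a => Subtype.ext (Subsingleton.elim _ _)⟩
      exact Nat.card_unique
    rw [h1, h2]
  | inr h =>
    have h1 : Nat.card {g : Matrix.GeneralLinearGroup (Fin n) F // ∃ k : ℕ, orderOf g = p ^ k} =
        Nat.card {N : Matrix (Fin n) (Fin n) F // IsNilpotent N} := by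
      rw [← card_unip]
      exact Nat.card_congr (Equiv.subtypeEquivRight fun u => orderOf_iff p u)
    rw [h1]
    refine Nat.card_congr (Equiv.subtypeEquiv (Matrix.toLinAlgEquiv' (R := F) (n := Fin n)).toEquiv ?_)
    intro N
    exact (IsNilpotent.map_iff (Matrix.toLinAlgEquiv' (R := F) (n := Fin n)).injective).symm

end Cfsg.Agent.S2315
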