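import Cfsg.Statements.S2316
import Cfsg.Agent.Lib.Classical.Symp.UnipMain

set_option autoImplicit false
open Cfsg

namespace Cfsg.Agent.S2316

open Cfsg.Agent.Lib.Classical.Symp.UnipMain Cfsg.Agent.Lib.Classical.Symp.UnipFix
  Cfsg.Agent.Lib.Classical.Symp.Basic Cfsg.Agent.Lib.Classical.Symp.AltForm

/-- Steinberg's count of unipotent elements for the symplectic group: over a finite field with q elements of characteristic p, the number of elements of Sp_{2m} of p-power order is q^(2m²). -/
theorem result {F : Type*} [Field F] [Fintype F] (p : ℕ) [Fact p.Prime] [CharP F p] (m : ℕ) :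
    Nat.card {g : ↥(Matrix.symplecticGroup (Fin m) F) // ∃ k : ℕ, orderOf g = p ^ k} = Fintype.card F ^ (2 * m ^ 2) := by
  have hp : p.Prime := Fact.out
  have h := card_isPE_isom F p m (Fin m ⊕ Fin m → F) (sympBilin m F) sympBilin_isAlt sympBilin_nondegenerate (by
    simp [Module.finrank_fintype_fun_eq_card]
    ring)
  rw [← Nat.card_eq_fintype_card, ← h]
  apply Nat.card_congr
  refine (spEquivIsom (m := m) (F := F)).toEquiv.subtypeEquiv ?_
  intro g
  constructor
  · rintro ⟨k, hk⟩
    refine ⟨k, ?_⟩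
    change spEquivIsom g ^ (p ^ k) = 1
    rw [← map_pow, ← hk, pow_orderOf_eq_one, map_one]
  · rintro ⟨t, ht⟩
    have ht' : spEquivIsom g ^ (p ^ t) = 1 := ht
    rw [← map_pow, map_eq_one_iff _ (spEquivIsom (m := m) (F := F)).injective] at ht'
    obtain ⟨j, -, hj⟩ := (Nat.dvd_prime_pow hp).1 (orderOf_dvd_of_pow_eq_one ht')
    exact ⟨j, hj⟩

end Cfsg.Agent.S2316
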