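import Cfsg.Statements.S2319
import Mathlib
import Cfsg.Agent.Lib.Hecke.Link
import Cfsg.Agent.Lib.Chevalley.All
import Cfsg.Agent.Lib.ChevBN.FastData
-- import your own Cfsg.Agent.* helpers here

set_option autoImplicit false
open Cfsg

namespace Cfsg.Agent.S2319

open Cfsg.Agent.Lib.ChevBN.FastData Cfsg.Agent.Lib.Hecke.Link in
theorem chk_G2 : chkM tabG2 Cfsg.Lie.chevG2 CoxeterMatrix.G₂ = true := by decide +kernel
open Cfsg.Agent.Lib.ChevBN.FastData Cfsg.Agent.Lib.Hecke.Link in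
theorem chk_B2 : chkM tabB2 Cfsg.Lie.chevB2 (CoxeterMatrix.B 2) = true := by decide +kernel
open Cfsg.Agent.Lib.ChevBN.FastData Cfsg.Agent.Lib.Hecke.Link in
theorem chk_D4 : chkM tabD4 Cfsg.Lie.chevD4 Cfsg.Lie.coxeterD4 = true := by decide +kernel
open Cfsg.Agent.Lib.ChevBN.FastData Cfsg.Agent.Lib.Hecke.Link in
theorem chk_F4 : chkM tabF4 Cfsg.Lie.chevF4 CoxeterMatrix.F₄ = true := by decide +kernel
open Cfsg.Agent.Lib.ChevBN.FastData Cfsg.Agent.Lib.Hecke.Link in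
theorem chk_E6 : chkM tabE6 Cfsg.Lie.chevE6 CoxeterMatrix.E₆ = true := by decide +kernel
open Cfsg.Agent.Lib.ChevBN.FastData Cfsg.Agent.Lib.Hecke.Link in
theorem chk_E7 : chkM tabE7 Cfsg.Lie.chevE7 CoxeterMatrix.E₇ = true := by decide +kernel
open Cfsg.Agent.Lib.ChevBN.FastData Cfsg.Agent.Lib.Hecke.Link in
theorem chk_E8 : chkM tabE8 Cfsg.Lie.chevE8 CoxeterMatrix.E₈ = true := by decide +kernel


/-- In a Chevalley group of type G₂, B₂, D₄, F₄, E₆, E₇ or E₈ over a finite field, the number of distinct irreducible constituents of the permutation character on the cosets of B = UH equals the number of conjugacy classes (equivalently, of irreducible characters) of the Weyl group, the Coxeter group of the type with nodes numbered as the fundamental roots. -/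
theorem result {F : Type*} [Field F] [Fintype F]
    (dw : Cfsg.Lie.ChevalleyDatum × (Σ n : ℕ, CoxeterMatrix (Fin n)))
    (hdw : dw ∈ [(Cfsg.Lie.chevG2, ⟨2, CoxeterMatrix.G₂⟩), (Cfsg.Lie.chevB2, ⟨2, CoxeterMatrix.B 2⟩), (Cfsg.Lie.chevD4, ⟨4, Cfsg.Lie.coxeterD4⟩), (Cfsg.Lie.chevF4, ⟨4, CoxeterMatrix.F₄⟩),
      (Cfsg.Lie.chevE6, ⟨6, CoxeterMatrix.E₆⟩), (Cfsg.Lie.chevE7, ⟨7, CoxeterMatrix.E₇⟩), (Cfsg.Lie.chevE8, ⟨8, CoxeterMatrix.E₈⟩)]) :
    Nat.card {χ : Cfsg.IrrCharacter ↥(dw.1.group F) //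
      ∃ φ : ↥(dw.1.group F) → ℂ, Cfsg.IsCharacter ↥(dw.1.group F) φ ∧
        Cfsg.fixedPointCharacter ((dw.1.borelSubgroup F).subgroupOf (dw.1.group F)) = (χ : ↥(dw.1.group F) → ℂ) + φ} =
      Nat.card (ConjClasses dw.2.2.Group) := by
  have hD : dw.1 ∈ [Cfsg.Lie.chevG2, Cfsg.Lie.chevB2, Cfsg.Lie.chevD4, Cfsg.Lie.chevF4, Cfsg.Lie.chevE6, Cfsg.Lie.chevE7, Cfsg.Lie.chevE8] := by
    simp only [List.mem_cons, List.not_mem_nil, or_false] at hdw ⊢
    rcases hdw with rfl | rfl | rfl | rfl | rfl | rfl | rfl <;> simp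
  obtain ⟨η, hR0⟩ := Cfsg.Agent.Lib.Chevalley.All.exists_sys dw.1 hD
  have hR := hR0 F
  have hT := Cfsg.Agent.Lib.ChevBN.FastData.tbl_of_mem hD
  have : Finite F := inferInstance
  simp only [List.mem_cons, List.not_mem_nil, or_false] at hdw
  rcases hdw with rfl | rfl | rfl | rfl | rfl | rfl | rfl
  · exact Cfsg.Agent.Lib.Hecke.Link.card_constituents_chev hR hT rfl CoxeterMatrix.G₂ Cfsg.Agent.Lib.ChevBN.FastData.hW_G2 chk_G2
  · exact Cfsg.Agent.Lib.Hecke.Link.card_constituents_chev hR hT rfl (CoxeterMatrix.B 2) Cfsg.Agent.Lib.ChevBN.FastData.hW_B2 chk_B2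
  · exact Cfsg.Agent.Lib.Hecke.Link.card_constituents_chev hR hT rfl Cfsg.Lie.coxeterD4 Cfsg.Agent.Lib.ChevBN.FastData.hW_D4 chk_D4
  · exact Cfsg.Agent.Lib.Hecke.Link.card_constituents_chev hR hT rfl CoxeterMatrix.F₄ Cfsg.Agent.Lib.ChevBN.FastData.hW_F4 chk_F4
  · exact Cfsg.Agent.Lib.Hecke.Link.card_constituents_chev hR hT rfl CoxeterMatrix.E₆ Cfsg.Agent.Lib.ChevBN.FastData.hW_E6 chk_E6
  · exact Cfsg.Agent.Lib.Hecke.Link.card_constituents_chev hR hT rfl CoxeterMatrix.E₇ Cfsg.Agent.Lib.ChevBN.FastData.hW_E7 chk_E7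
  · exact Cfsg.Agent.Lib.Hecke.Link.card_constituents_chev hR hT rfl CoxeterMatrix.E₈ Cfsg.Agent.Lib.ChevBN.FastData.hW_E8 chk_E8

end Cfsg.Agent.S2319
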