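import Cfsg.Statements.S2320
import Mathlib
import Cfsg.Agent.Lib.Char.GL2Count
-- import your own Cfsg.Agent.* helpers here

set_option autoImplicit false
open Cfsg

namespace Cfsg.Agent.S2320

open Cfsg.Agent.Lib.Char.GL2Principal Cfsg.Agent.Lib.Char.GL2Values Cfsg.Agent.Lib.Char.GL2Irr
open Cfsg.Agent.Lib.Char.GL2Count

/-- Over a finite field F with q elements, every irreducible complex character of GL₂ of degree q takes a value of absolute value 1 at every diagonal matrix with two different diagonal entries and at every element with no eigenvector in F². -/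
theorem result {F : Type*} [Field F] [Fintype F] (χ : Matrix.GeneralLinearGroup (Fin 2) F → ℂ) (hχ : Cfsg.IsIrrCharacter (Matrix.GeneralLinearGroup (Fin 2) F) χ) (hdeg : χ 1 = (Fintype.card F : ℂ)) (g : Matrix.GeneralLinearGroup (Fin 2) F) :
    ((g : Matrix (Fin 2) (Fin 2) F) 0 1 = 0 → (g : Matrix (Fin 2) (Fin 2) F) 1 0 = 0 → (g : Matrix (Fin 2) (Fin 2) F) 0 0 ≠ (g : Matrix (Fin 2) (Fin 2) F) 1 1 → ‖χ g‖ = 1) ∧
    ((∀ (c : F) (v : Fin 2 → F), v ≠ 0 → (g : Matrix (Fin 2) (Fin 2) F).mulVec v ≠ c • v) → ‖χ g‖ = 1) := by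
  classical
  have hq0 := q_ne_zero (F := F)
  have hdet := det_entries_ne g
  -- the character is a Steinberg twist
  obtain ⟨α, hα⟩ : ∃ α : MulChar F ℂ, χ = St α := by
    rcases irr_cases hχ with ⟨α, β, hab, rfl⟩ | ⟨α, rfl⟩ | ⟨α, hα⟩ | hc
    · rw [ind_one] at hdeg
      have : (1 : ℂ) = 0 := by linear_combination hdeg
      norm_num at this
    · rw [Lin_one] at hdeg
      have hq := one_lt_q (F := F)
      have h3 : Fintype.card F = 1 := by exact_mod_cast hdeg.symm
      omega
    · refine ⟨α, ?_⟩
      unfold St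
      rw [hα]
      abel
    · have h2 := cusp_degree hχ hc
      rw [hdeg] at h2
      have : (1 : ℂ) = 0 := by linear_combination h2
      norm_num at this
  subst hα
  have hL : ‖Lin α g‖ = 1 := norm_mulChar α (by
    rw [← det_entries]
    exact hdet)
  refine ⟨?_, ?_⟩
  · intro h01 h10 hne
    have h : St α g = Lin α g := by
      unfold St
      rw [Pi.sub_apply, ind_diag α α g h01 h10 hne]
      have : Lin α g = α (ent g 0 0) * α (ent g 1 1) := by
        simp only [Lin]
        rw [← det_entries]
        simp only [ent]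
        rw [h01, h10, mul_zero, sub_zero, map_mul]
      rw [this]
      ring
    rw [h, hL]
  · intro hg
    have h : St α g = - Lin α g := by
      unfold St
      rw [Pi.sub_apply, ind_elliptic α α g hg]
      ring
    rw [h, norm_neg, hL]

end Cfsg.Agent.S2320
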