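import Cfsg.Statements.S2321
import Mathlib
import Cfsg.Agent.Lib.Char.SL2Irr
-- import your own Cfsg.Agent.* helpers here

set_option autoImplicit false
open Cfsg

namespace Cfsg.Agent.S2321

open Cfsg.Agent.Lib.Char.GL2Principal Cfsg.Agent.Lib.Char.SL2Irr

/-- Over a finite field F with q elements, an irreducible complex character of SL₂ of degree q (the Steinberg character) takes the value 1 at every diagonal matrix whose diagonal entry a has a² ≠ 1, the value −1 at every element with no eigenvector in F², and the value 0 at every upper triangular matrix with equal diagonal entries and non-zero upper right entry. -/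
theorem result {F : Type*} [Field F] [Fintype F] (χ : Matrix.SpecialLinearGroup (Fin 2) F → ℂ) (hχ : Cfsg.IsIrrCharacter (Matrix.SpecialLinearGroup (Fin 2) F) χ) (hdeg : χ 1 = (Fintype.card F : ℂ)) (g : Matrix.SpecialLinearGroup (Fin 2) F) :
    ((g : Matrix (Fin 2) (Fin 2) F) 0 1 = 0 → (g : Matrix (Fin 2) (Fin 2) F) 1 0 = 0 → (g : Matrix (Fin 2) (Fin 2) F) 0 0 ^ 2 ≠ 1 → χ g = 1) ∧
    ((∀ (c : F) (v : Fin 2 → F), v ≠ 0 → (g : Matrix (Fin 2) (Fin 2) F).mulVec v ≠ c • v) → χ g = -1) ∧
    ((g : Matrix (Fin 2) (Fin 2) F) 1 0 = 0 → (g : Matrix (Fin 2) (Fin 2) F) 0 0 = (g : Matrix (Fin 2) (Fin 2) F) 1 1 → (g : Matrix (Fin 2) (Fin 2) F) 0 1 ≠ 0 → χ g = 0) := by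
  classical
  have hq := one_lt_q (F := F)
  have hχS : χ = StS := by
    rcases irrS_cases_nat hχ hdeg with h | h | h | h | h | h
    · omega
    · exact h.2
    · omega
    · omega
    · omega
    · omega
  subst hχS
  have h1 : ∀ a : F, a ≠ 0 → (1 : MulChar F ℂ) a = 1 := fun a ha =>
    MulChar.one_apply (isUnit_iff_ne_zero.2 ha)
  have hd := Cfsg.Agent.Lib.PSL2.Basic.det_entries g
  refine ⟨?_, ?_, ?_⟩
  · intro h01 h10 hsq
    unfold StS
    rw [Pi.sub_apply, indS_diag 1 g h01 h10 hsq]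
    rw [h01, zero_mul, sub_zero] at hd
    rw [h1 _ (left_ne_zero_of_mul_eq_one hd), h1 _ (right_ne_zero_of_mul_eq_one hd)]
    simp
  · intro hg
    unfold StS
    rw [Pi.sub_apply, indS_elliptic 1 g hg]
    simp
  · intro h10 heq h01
    unfold StS
    rw [Pi.sub_apply, indS_unip 1 g h10 heq h01]
    rw [h10, mul_zero, sub_zero] at hd
    rw [h1 _ (left_ne_zero_of_mul_eq_one hd)]
    simp

end Cfsg.Agent.S2321
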