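import Cfsg.Statements.S2322
import Mathlib
import Cfsg.Agent.Lib.Char.SL2Half

set_option autoImplicit false
open Cfsg
open Cfsg.Agent.Lib.Char.SL2Half Cfsg.Agent.Lib.Char.SL2Irr Cfsg.Agent.Lib.Char.Basic Cfsg.Agent.Lib.Char.GL2Irr Cfsg.Agent.Lib.Char.GL2Count
open Matrix.SpecialLinearGroup (toGL)

namespace Cfsg.Agent.S2322

/-- Over a finite field F with q elements, q odd: every irreducible complex character of SL₂ of degree q − 1 or (q − 1)/2 vanishes at every diagonal matrix whose diagonal entry a has a² ≠ 1, and every irreducible complex character of degree q + 1 or (q + 1)/2 vanishes at every element with no eigenvector in F². -/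
theorem result {F : Type*} [Field F] [Fintype F] (hodd : Odd (Fintype.card F)) (χ : Matrix.SpecialLinearGroup (Fin 2) F → ℂ) (hχ : Cfsg.IsIrrCharacter (Matrix.SpecialLinearGroup (Fin 2) F) χ) (g : Matrix.SpecialLinearGroup (Fin 2) F) :
    ((χ 1 = (Fintype.card F : ℂ) - 1 ∨ χ 1 = (((Fintype.card F - 1) / 2 : ℕ) : ℂ)) →
      (g : Matrix (Fin 2) (Fin 2) F) 0 1 = 0 → (g : Matrix (Fin 2) (Fin 2) F) 1 0 = 0 → (g : Matrix (Fin 2) (Fin 2) F) 0 0 ^ 2 ≠ 1 → χ g = 0) ∧
    ((χ 1 = (Fintype.card F : ℂ) + 1 ∨ χ 1 = (((Fintype.card F + 1) / 2 : ℕ) : ℂ)) →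
      (∀ (c : F) (v : Fin 2 → F), v ≠ 0 → (g : Matrix (Fin 2) (Fin 2) F).mulVec v ≠ c • v) → χ g = 0) := by
  classical
  have h2 := ringChar_ne_two hodd
  have h20 : (2 : F) ≠ 0 := Ring.two_ne_zero h2
  have hq2 : 1 < Fintype.card F := Fintype.one_lt_card
  have hodd' := Nat.odd_iff.1 hodd
  have htwo : ((2 : ℂ)) ≠ 0 := two_ne_zero
  constructor
  · intro hd h01 h10 hsq
    have hq3 : Fintype.card F ≠ 3 := by
      intro h3
      apply hsq
      have hd' := Cfsg.Agent.Lib.PSL2.Basic.det_entries g
      rw [h01, zero_mul, sub_zero] at hd'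
      have h00 : (g : Matrix (Fin 2) (Fin 2) F) 0 0 ≠ 0 := left_ne_zero_of_mul_eq_one hd'
      have := FiniteField.pow_card_sub_one_eq_one _ h00
      rw [h3] at this
      exact this
    have htr : Cfsg.Agent.Lib.PSL2.Basic.tr g ^ 2 ≠ 4 := tr_sq_ne_of_diag h01 hsq
    rcases hd with hd | hd
    · have hd' : χ 1 = ((Fintype.card F - 1 : ℕ) : ℂ) := by
        rw [hd, Nat.cast_sub hq2.le]
        simp
      rcases irrS_cases_nat hχ hd' with h | h | h | h | h | h
      · omega
      · omega
      · omega
      · omega
      · obtain ⟨-, θ, hθ, hc, rfl⟩ := h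
        exact cusp_diag_S (isClassFunction_of_isCharacter (isCharacter_of_isIrrCharacter hθ)) hc h01 h10 hsq
      · omega
    · rcases irrS_cases_nat hχ hd with h | h | h | h | h | h
      · omega
      · omega
      · omega
      · omega
      · omega
      · obtain ⟨-, θ, hθ, hc, χ', hχ', hne, hsum, y, hy⟩ := h
        have h3 := congrFun hsum g
        simp only [Pi.add_apply] at h3
        rw [cusp_diag_S (isClassFunction_of_isCharacter (isCharacter_of_isIrrCharacter hθ)) hc h01 h10 hsq,
          eq_of_tr_pair hχ' hy htr] at h3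
        have h4 : 2 * χ g = 0 := by linear_combination -h3
        exact (mul_eq_zero.1 h4).resolve_left htwo
  · intro hd hg
    have htr : Cfsg.Agent.Lib.PSL2.Basic.tr g ^ 2 ≠ 4 := tr_sq_ne_of_elliptic h20 hg
    rcases hd with hd | hd
    · have hd' : χ 1 = ((Fintype.card F + 1 : ℕ) : ℂ) := by
        rw [hd]
        simp
      rcases irrS_cases_nat hχ hd' with h | h | h | h | h | h
      · omega
      · omega
      · obtain ⟨-, γ, -, rfl⟩ := h
        exact indS_elliptic γ g hg
      · omega
      · omega
      · omega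
    · rcases irrS_cases_nat hχ hd with h | h | h | h | h | h
      · omega
      · omega
      · omega
      · obtain ⟨-, γ, -, -, χ', hχ', hne, hsum, y, hy⟩ := h
        have h3 := congrFun hsum g
        simp only [Pi.add_apply] at h3
        rw [indS_elliptic γ g hg, eq_of_tr_pair hχ' hy htr] at h3
        have h4 : 2 * χ g = 0 := by linear_combination -h3
        exact (mul_eq_zero.1 h4).resolve_left htwo
      · obtain ⟨h5, θ, hθ, hc, rfl⟩ := h
        have hq3 : Fintype.card F = 3 := by omega
        have htr0 : Cfsg.Agent.Lib.PSL2.Basic.tr g = 0 := by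
          -- in the field with three elements the trace is `0`, `2` or `-2`
          by_contra h0
          apply htr
          have h6 := FiniteField.pow_card_sub_one_eq_one _ h0
          rw [hq3] at h6
          have h3F : (3 : F) = 0 := by
            have := FiniteField.cast_card_eq_zero F
            rw [hq3] at this
            exact_mod_cast this
          have h6' : Cfsg.Agent.Lib.PSL2.Basic.tr g ^ 2 = 1 := h6
          rw [h6']
          linear_combination -h3F
        exact q3_vanish hq3 hθ hc hχ htr0
      · omega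

end Cfsg.Agent.S2322
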