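import Cfsg.Statements.S2323
import Mathlib
import Cfsg.Agent.Lib.Char.SL2Irr
-- import your own Cfsg.Agent.* helpers here

set_option autoImplicit false
open Cfsg

namespace Cfsg.Agent.S2323

open Cfsg.Agent.Lib.Char.GL2Principal Cfsg.Agent.Lib.Char.SL2Irr

/-- Over a finite field F with q ≥ 4 elements, let u be the upper unitriangular matrix of SL₂ with off-diagonal entry 1. An irreducible complex character of SL₂ takes at u the value 1 if its degree is q + 1 and the value −1 if its degree is q − 1. -/
theorem result {F : Type*} [Field F] [Fintype F] (hq : 4 ≤ Fintype.card F) (χ : Matrix.SpecialLinearGroup (Fin 2) F → ℂ) (hχ : Cfsg.IsIrrCharacter (Matrix.SpecialLinearGroup (Fin 2) F) χ)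
    (u : Matrix.SpecialLinearGroup (Fin 2) F) (hu : (u : Matrix (Fin 2) (Fin 2) F) = !![1, 1; 0, 1]) :
    (χ 1 = (Fintype.card F : ℂ) + 1 → χ u = 1) ∧ (χ 1 = (Fintype.card F : ℂ) - 1 → χ u = -1) := by
  classical
  have hq1 := one_lt_q (F := F)
  refine ⟨?_, ?_⟩
  · intro h1
    have h1' : χ 1 = ((Fintype.card F + 1 : ℕ) : ℂ) := by rw [h1]; push_cast; rfl
    rcases irrS_cases_nat hχ h1' with h | h | h | h | h | h
    · omega
    · omega
    · obtain ⟨-, γ, -, rfl⟩ := h
      exact indS_u γ u hu
    · omega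
    · omega
    · omega
  · intro h1
    have h1' : χ 1 = ((Fintype.card F - 1 : ℕ) : ℂ) := by
      rw [h1, Nat.cast_sub hq1.le]
      simp
    rcases irrS_cases_nat hχ h1' with h | h | h | h | h | h
    · omega
    · omega
    · omega
    · omega
    · obtain ⟨-, θ, hθ, hc, rfl⟩ := h
      simp only [toGL_u u hu]
      exact cusp_u hθ hc
    · omega

end Cfsg.Agent.S2323
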