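import Cfsg.Statements.S2324
import Mathlib
import Cfsg.Agent.Lib.Char.SL2Half

set_option autoImplicit false
open Cfsg
open Cfsg.Agent.Lib.Char.SL2Half Cfsg.Agent.Lib.Char.SL2Irr Cfsg.Agent.Lib.Char.SL2Count Cfsg.Agent.Lib.Char.GL2Irr
open Matrix.SpecialLinearGroup (toGL)
open scoped MatrixGroups

namespace Cfsg.Agent.S2324

/-- Over a finite field F with q elements, q odd and q ≥ 5, let u be the upper unitriangular matrix of SL₂ with off-diagonal entry 1 and let δ = (−1)^((q−1)/2). Every irreducible complex character χ of SL₂ of degree (q + 1)/2 satisfies (2χ(u) − 1)² = δq, and every irreducible complex character χ of degree (q − 1)/2 satisfies (2χ(u) + 1)² = δq; that is, χ(u) = (1 ± √(δq))/2 in the first case and χ(u) = (−1 ± √(δq))/2 in the second. Moreover two different irreducible characters of degree (q + 1)/2 take the two different values (their values at u add up to 1), and likewise for degree (q − 1)/2 (values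 adding up to −1). -/
theorem result {F : Type*} [Field F] [Fintype F] (hodd : Odd (Fintype.card F)) (hq : 5 ≤ Fintype.card F)
    (u : Matrix.SpecialLinearGroup (Fin 2) F) (hu : (u : Matrix (Fin 2) (Fin 2) F) = !![1, 1; 0, 1]) :
    (∀ χ : Matrix.SpecialLinearGroup (Fin 2) F → ℂ, Cfsg.IsIrrCharacter (Matrix.SpecialLinearGroup (Fin 2) F) χ → χ 1 = (((Fintype.card F + 1) / 2 : ℕ) : ℂ) → (2 * χ u - 1) ^ 2 = (-1 : ℂ) ^ ((Fintype.card F - 1) / 2) * (Fintype.card F : ℂ)) ∧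
    (∀ χ : Matrix.SpecialLinearGroup (Fin 2) F → ℂ, Cfsg.IsIrrCharacter (Matrix.SpecialLinearGroup (Fin 2) F) χ → χ 1 = (((Fintype.card F - 1) / 2 : ℕ) : ℂ) → (2 * χ u + 1) ^ 2 = (-1 : ℂ) ^ ((Fintype.card F - 1) / 2) * (Fintype.card F : ℂ)) ∧
    (∀ χ₁ χ₂ : Matrix.SpecialLinearGroup (Fin 2) F → ℂ, Cfsg.IsIrrCharacter (Matrix.SpecialLinearGroup (Fin 2) F) χ₁ → Cfsg.IsIrrCharacter (Matrix.SpecialLinearGroup (Fin 2) F) χ₂ → χ₁ ≠ χ₂ →
      χ₁ 1 = (((Fintype.card F + 1) / 2 : ℕ) : ℂ) → χ₂ 1 = (((Fintype.card F + 1) / 2 : ℕ) : ℂ) → χ₁ u + χ₂ u = 1) ∧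
    (∀ χ₁ χ₂ : Matrix.SpecialLinearGroup (Fin 2) F → ℂ, Cfsg.IsIrrCharacter (Matrix.SpecialLinearGroup (Fin 2) F) χ₁ → Cfsg.IsIrrCharacter (Matrix.SpecialLinearGroup (Fin 2) F) χ₂ → χ₁ ≠ χ₂ →
      χ₁ 1 = (((Fintype.card F - 1) / 2 : ℕ) : ℂ) → χ₂ 1 = (((Fintype.card F - 1) / 2 : ℕ) : ℂ) → χ₁ u + χ₂ u = -1) := by
  classical
  have h2 := ringChar_ne_two hodd
  have hux := eq_x_one u hu
  have hGL := toGL_u u hu
  refine ⟨?_, ?_, ?_, ?_⟩
  · intro χ hχ hd
    obtain ⟨γ, -, -, χ', hχ', hne, hsum, y, hy⟩ := half_plus_case hodd hq hχ hd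
    have h3 := pair_sq h2 hχ hχ' hne hy
    have h4 := congrFun hsum u
    rw [indS_u γ u hu, Pi.add_apply] at h4
    rw [hux] at h4 ⊢
    rw [← h3]
    congr 1
    linear_combination -h4
  · intro χ hχ hd
    obtain ⟨θ, hθ, hc, χ', hχ', hne, hsum, y, hy⟩ := half_minus_case hodd hq hχ hd
    have h3 := pair_sq h2 hχ hχ' hne hy
    have h4 := congrFun hsum u
    simp only [Pi.add_apply] at h4
    rw [hGL, cusp_u hθ hc] at h4
    rw [hux] at h4 ⊢
    rw [← h3]
    congr 1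
    linear_combination -h4
  · intro χ₁ χ₂ h₁ h₂ hne hd₁ hd₂
    obtain ⟨a, b, ha, hb, hab, hsum, -, -, -, hall⟩ := half_plus_chars h2 hq
    have h4 := congrFun hsum u
    rw [indS_u (eta F) u hu, Pi.add_apply] at h4
    rcases hall χ₁ h₁ hd₁ with rfl | rfl <;> rcases hall χ₂ h₂ hd₂ with rfl | rfl
    · exact absurd rfl hne
    · exact h4.symm
    · rw [add_comm]
      exact h4.symm
    · exact absurd rfl hne
  · intro χ₁ χ₂ h₁ h₂ hne hd₁ hd₂
    obtain ⟨θ, hθ, hc, χ', hχ', hne', hsum, y, hy⟩ := half_minus_case hodd hq h₁ hd₁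
    have hd' : χ' 1 = (((Fintype.card F - 1) / 2 : ℕ) : ℂ) := by
      rw [deg_of_conj hy, hd₁]
    have h3 := (odd_counts h2 hq).2.2
    rw [Nat.card_eq_two_iff] at h3
    obtain ⟨a, b, hab, huniv⟩ := h3
    have hmem : ∀ (ψ : SL(2, F) → ℂ) (hψ : IsIrrCharacter _ ψ)
        (hdψ : ψ 1 = (((Fintype.card F - 1) / 2 : ℕ) : ℂ)), ψ = a.1.1 ∨ ψ = b.1.1 := by
      intro ψ hψ hdψ
      have h5 : (⟨⟨ψ, hψ⟩, hdψ⟩ : {χ : IrrCharacter (SL(2, F)) //
          χ.1 1 = (((Fintype.card F - 1) / 2 : ℕ) : ℂ)}) ∈ ({a, b} : Set _) := by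
        rw [huniv]
        trivial
      rcases h5 with h5 | h5
      · left
        exact congrArg (fun z => z.1.1) h5
      · right
        exact congrArg (fun z => z.1.1) (Set.mem_singleton_iff.1 h5)
    have h5 : χ₂ = χ' := by
      rcases hmem χ₁ h₁ hd₁ with e1 | e1 <;> rcases hmem χ₂ h₂ hd₂ with e2 | e2 <;>
        rcases hmem χ' hχ' hd' with e3 | e3
      all_goals first
        | exact absurd (e1.trans e2.symm) hne
        | exact absurd (e1.trans e3.symm) hne'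
        | exact e2.trans e3.symm
    have h4 := congrFun hsum u
    simp only [Pi.add_apply] at h4
    rw [hGL, cusp_u hθ hc, ← h5] at h4
    exact h4.symm

end Cfsg.Agent.S2324
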