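import Cfsg.Statements.S2329
import Mathlib
import Cfsg.Agent.Lib.Linalg.GL2Conj
import Cfsg.Agent.Lib.Linalg.Unipotent
-- import your own Cfsg.Agent.* helpers here

set_option autoImplicit false
open Cfsg

namespace Cfsg.Agent.S2329

/-- Over a finite field of characteristic p, any two elements of order p of GL₂ are conjugate: there is a single conjugacy class of non-identity unipotent elements. -/
theorem result {F : Type*} [Field F] [Fintype F] (p : ℕ) [Fact p.Prime] [CharP F p] (g h : Matrix.GeneralLinearGroup (Fin 2) F)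
    (hg : orderOf g = p) (hh : orderOf h = p) : IsConj g h := by
  have hp : p.Prime := Fact.out
  have key : ∀ x : Matrix.GeneralLinearGroup (Fin 2) F, orderOf x = p →
      ¬ Cfsg.Agent.Lib.Linalg.GL2Conj.IsScalar2 (x : Matrix (Fin 2) (Fin 2) F) ∧
      (x : Matrix (Fin 2) (Fin 2) F).trace = 2 ∧ (x : Matrix (Fin 2) (Fin 2) F).det = 1 := by
    intro x hx
    have hne : x ≠ 1 := by
      rintro rfl
      rw [orderOf_one] at hx
      exact hp.one_lt.ne hx
    have hnil := Cfsg.Agent.Lib.Linalg.Unipotent.isNilpotent_of_orderOf_eq_pow p x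
      (k := 1) (by simpa using hx)
    have h2 := Cfsg.Agent.Lib.Linalg.Unipotent.pow_card_eq_zero_of_isNilpotent hnil
    rw [Fintype.card_fin] at h2
    exact Cfsg.Agent.Lib.Linalg.GL2Conj.trace_det_of_sq_sub_one_eq_zero hne h2
  obtain ⟨h1, h2, h3⟩ := key g hg
  obtain ⟨h1', h2', h3'⟩ := key h hh
  exact Cfsg.Agent.Lib.Linalg.GL2Conj.isConj_of_trace_det_eq h1 h1' (by rw [h2, h2']) (by rw [h3, h3'])

end Cfsg.Agent.S2329
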