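import Cfsg.Statements.S2331
import Mathlib
-- import your own Cfsg.Agent.* helpers here

set_option autoImplicit false
open Cfsg

namespace Cfsg.Agent.S2331

open Matrix in
/-- The companion element with trace `t` (determinant `-1 = 1` in characteristic two). -/
noncomputable def companion {F : Type*} [Field F] [CharP F 2] (t : F) :
    SpecialLinearGroup (Fin 2) F :=
  ⟨!![0, 1; 1, t], by
    rw [Matrix.det_fin_two_of]
    have two0 : (2 : F) = 0 := CharTwo.two_eq_zero
    linear_combination -two0⟩

open Matrix in
lemma isConj_companion {F : Type*} [Field F] [Fintype F] [CharP F 2]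
    (g : SpecialLinearGroup (Fin 2) F) (hg : g ≠ 1) :
    IsConj (companion (g.1 0 0 + g.1 1 1)) g := by
  have two0 : (2 : F) = 0 := CharTwo.two_eq_zero
  have hdet : g.1 0 0 * g.1 1 1 - g.1 0 1 * g.1 1 0 = 1 := by
    have := g.2
    rwa [Matrix.det_fin_two] at this
  obtain ⟨x, y, hD⟩ : ∃ x y : F,
      g.1 1 0 * x ^ 2 + (g.1 1 1 - g.1 0 0) * x * y - g.1 0 1 * y ^ 2 ≠ 0 := by
    by_cases hc : g.1 1 0 = 0
    · by_cases hb : g.1 0 1 = 0
      · refine ⟨1, 1, ?_⟩
        rw [hc, hb]
        intro h
        have had : g.1 1 1 = g.1 0 0 := by
          linear_combination h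
        rw [hb, had] at hdet
        have ha : g.1 0 0 = 1 := by
          have h1 : (g.1 0 0 - 1) * (g.1 0 0 - 1) = 0 := by
            linear_combination hdet + (1 - g.1 0 0) * two0
          have h2 := mul_self_eq_zero.mp h1
          exact sub_eq_zero.mp h2
        apply hg
        apply Subtype.ext
        ext i j
        fin_cases i <;> fin_cases j
        · simpa using ha
        · simpa using hb
        · simpa using hc
        · simpa [ha] using had
      · exact ⟨0, 1, by simpa using hb⟩
    · exact ⟨1, 0, by simpa using hc⟩
  obtain ⟨s, hs⟩ := FiniteField.isSquare_of_char_two (ringChar.eq F 2)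
    (g.1 1 0 * x ^ 2 + (g.1 1 1 - g.1 0 0) * x * y - g.1 0 1 * y ^ 2)⁻¹
  let P : SpecialLinearGroup (Fin 2) F :=
    ⟨!![s * x, s * (g.1 0 0 * x + g.1 0 1 * y); s * y, s * (g.1 1 0 * x + g.1 1 1 * y)], by
      rw [Matrix.det_fin_two_of]
      have h1 : s * s * (g.1 1 0 * x ^ 2 + (g.1 1 1 - g.1 0 0) * x * y - g.1 0 1 * y ^ 2) = 1 := by
        rw [← hs]
        exact inv_mul_cancel₀ hD
      linear_combination h1⟩
  rw [isConj_iff]
  refine ⟨P, ?_⟩
  have key : P * companion (g.1 0 0 + g.1 1 1) = g * P := by
    apply Subtype.ext
    change P.1 * (companion (g.1 0 0 + g.1 1 1)).1 = g.1 * P.1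
    ext i j
    fin_cases i <;> fin_cases j <;>
      simp [P, companion, Matrix.mul_apply, Fin.sum_univ_two]
    · ring
    · linear_combination (s * x) * hdet + s * x * two0
    · ring
    · linear_combination (s * y) * hdet + s * y * two0
  rw [key]
  group

/-- The trace is a class function on `SL₂`. -/
lemma trace_conj {F : Type*} [Field F] (c g : Matrix.SpecialLinearGroup (Fin 2) F) :
    (c * g * c⁻¹).1 0 0 + (c * g * c⁻¹).1 1 1 = g.1 0 0 + g.1 1 1 := by
  have h : Matrix.trace (c * g * c⁻¹).1 = Matrix.trace g.1 := by
    have h1 : (c * g * c⁻¹).1 = c.1 * g.1 * (c⁻¹).1 := by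
      simp
    have h2 : (c⁻¹).1 * c.1 = 1 := by
      exact congrArg Subtype.val (inv_mul_cancel c)
    rw [h1, Matrix.trace_mul_comm, ← mul_assoc, h2, one_mul]
  simpa [Matrix.trace_fin_two] using h


/-- Over a finite field with q elements, q even, the special linear group SL₂ has exactly q + 1 conjugacy classes. -/
theorem result {F : Type*} [Field F] [Fintype F] [CharP F 2] :
    Nat.card (ConjClasses (Matrix.SpecialLinearGroup (Fin 2) F)) = Fintype.card F + 1 := by
  classical
  let inv : Matrix.SpecialLinearGroup (Fin 2) F → Option F :=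
    fun g => if g = 1 then none else some (g.1 0 0 + g.1 1 1)
  have hinv : ∀ g h : Matrix.SpecialLinearGroup (Fin 2) F, IsConj g h → inv g = inv h := by
    intro g h hgh
    obtain ⟨c, rfl⟩ := isConj_iff.mp hgh
    have h1 : c * g * c⁻¹ = 1 ↔ g = 1 := by
      constructor
      · intro h
        have : g = c⁻¹ * (c * g * c⁻¹) * c := by group
        rw [this, h]
        group
      · rintro rfl
        group
    simp only [inv, h1, trace_conj]
  let f : ConjClasses (Matrix.SpecialLinearGroup (Fin 2) F) → Option F :=
    Quotient.lift inv (fun a b hab => hinv a b hab)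
  have hf : Function.Bijective f := by
    constructor
    · intro A B
      induction A using Quotient.inductionOn with
      | h g =>
      induction B using Quotient.inductionOn with
      | h h =>
      intro hfg
      change inv g = inv h at hfg
      apply Quotient.sound
      change IsConj g h
      by_cases hg : g = 1
      · by_cases hh : h = 1
        · rw [hg, hh]
        · simp [inv, hg, hh] at hfg
      · by_cases hh : h = 1
        · simp [inv, hg, hh] at hfg
        · simp only [inv, hg, hh, if_false, Option.some.injEq] at hfg
          have h1 := isConj_companion g hg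
          have h2 := isConj_companion h hh
          rw [hfg] at h1
          exact h1.symm.trans h2
    · intro o
      match o with
      | none => exact ⟨ConjClasses.mk 1, by simp [f, ConjClasses.mk, inv]⟩
      | some t =>
        refine ⟨ConjClasses.mk (companion t), ?_⟩
        have hne : companion t ≠ 1 := by
          intro h
          have h2 := congrFun (congrFun (congrArg Subtype.val h) 0) 1
          simp [companion] at h2
        simp only [f, ConjClasses.mk, Quotient.lift_mk, inv, hne, if_false]
        simp [companion]
  rw [Nat.card_congr (Equiv.ofBijective f hf)]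
  simp

end Cfsg.Agent.S2331
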