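import Cfsg.Statements.S2362
import Mathlib
import Cfsg.Agent.Lib.Classical.Spectra.Main
import Cfsg.Agent.Lib.Classical.Symp.OrdClass
import Cfsg.Agent.Lib.Classical.Orth.Center
import Cfsg.Agent.Lib.Classical.Orth.Models
import Cfsg.Agent.Lib.Classical.Orth.Spinor

set_option autoImplicit false
open Cfsg

namespace Cfsg.Agent.S2362

open Cfsg Matrix QuadraticMap Module
open Cfsg.Agent.Lib.Classical.Symp.OrdModels Cfsg.Agent.Lib.Classical.Symp.OrdClass
open Cfsg.Agent.Lib.Classical.Orth.Basic Cfsg.Agent.Lib.Classical.Orth.Spinor Cfsg.Agent.Lib.Classical.Orth.Models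
open Cfsg.Agent.Lib.Classical.Orth.SphereSign

section Lower

variable {F : Type*} [Field F] [Fintype F]

/-- In `PSp` there is an element of order `p * (q ^ d + 1)`. -/
theorem exists_order (p : ℕ) [hp : Fact p.Prime] [CharP F p] (h2 : (2 : F) ≠ 0) {d : ℕ} (hd : 1 ≤ d) :
    ∃ z : PSp (1 + d) F, orderOf z = p * (Fintype.card F ^ d + 1) := by
  classical
  haveI : NeZero (2 * d) := ⟨by omega⟩
  let K := FiniteField.Extension F p (2 * d)
  haveI : Fintype K := Fintype.ofFinite K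
  have hcard : Fintype.card K = Fintype.card F ^ (2 * d) := by
    have := FiniteField.natCard_extension F p (2 * d)
    rwa [Nat.card_eq_fintype_card, Nat.card_eq_fintype_card] at this
  have hq : 1 ≤ Fintype.card F ^ d := Nat.one_le_pow _ _ Fintype.card_pos
  have hdvd : Fintype.card F ^ d + 1 ∣ Fintype.card K - 1 := by
    rw [hcard, mul_comm 2 d, pow_mul]
    obtain ⟨u, hu⟩ : ∃ u, Fintype.card F ^ d = u + 1 := ⟨Fintype.card F ^ d - 1, by omega⟩
    have : (Fintype.card F ^ d) ^ 2 - 1 = (Fintype.card F ^ d + 1) * (Fintype.card F ^ d - 1) := by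
      rw [hu]
      simp only [Nat.add_sub_cancel]
      have : (u + 1) ^ 2 = (u + 1 + 1) * u + 1 := by ring
      omega
    rw [this]
    exact dvd_mul_right _ _
  obtain ⟨θ, hθ0, hθ⟩ := exists_root (E := K) hdvd
  have hθd : θ ^ (Fintype.card F ^ d + 1) = 1 := (hθ _).2 dvd_rfl
  obtain ⟨A₂, hA₂⟩ := exists_sp_minus (F := F) (K := K) (FiniteField.finrank_extension F p (2 * d)) hd h2 θ hθd
  have hp2 : 2 ≤ p := hp.out.two_le
  have hA₁ : IsOrd F 1 (p ^ (0 + 1)) := exists_sp_unip (p := p) (a := 0) h2 le_rfl (by simp) (by simpa using hp2)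
  obtain ⟨A₁, hA₁⟩ := hA₁
  rw [zero_add, pow_one] at hA₁
  obtain ⟨A, hA⟩ := exists_block A₁ A₂ (1 : F) (by simp)
  have hoddp : Odd p := by
    refine (hp.out.eq_two_or_odd').resolve_left ?_
    rintro rfl
    apply h2
    exact_mod_cast CharP.cast_eq_zero F 2
  refine ⟨QuotientGroup.mk A, order_eq_of_iff _ _ fun t => ?_⟩
  rw [psp_pow_eq_one_iff (by omega)]
  have hone : A.1 ^ t = 1 ↔ p ∣ t ∧ Fintype.card F ^ d + 1 ∣ t := by
    have h1 := hA t 1
    simp only [one_smul, one_pow] at h1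
    have h5 : p ∣ t ↔ A₁.1 ^ t = 1 := by
      rw [← sp_pow_eq_one_iff, ← orderOf_dvd_iff_pow_eq_one, hA₁]
    rw [h1, ← hθ t, h5]
    refine and_congr Iff.rfl ?_
    have h3 := hA₂ t 1
    simp only [one_smul, map_one] at h3
    exact h3
  have hneg : A.1 ^ t ≠ -1 := by
    intro h
    have h1 := (hA t (-1)).1 (by rw [h]; simp)
    have h3 : A₁.1 ^ t = -1 := by simpa using h1.1
    exact pow_ne_neg_one (by omega) h2 A₁ (by rw [hA₁]; exact hoddp) t h3
  have hcop : Nat.Coprime p (Fintype.card F ^ d + 1) := by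
    rw [Nat.Prime.coprime_iff_not_dvd hp.out]
    intro h
    have hpq : p ∣ Fintype.card F := (CharP.cast_eq_zero_iff F p _).1 (FiniteField.cast_card_eq_zero F)
    have h1 : p ∣ Fintype.card F ^ d := hpq.trans (dvd_pow_self _ (by omega))
    have h3 : p ∣ 1 := (Nat.dvd_add_right h1).1 h
    exact hp.out.one_lt.ne' (Nat.dvd_one.1 h3)
  constructor
  · rintro (h | h)
    · obtain ⟨h3, h4⟩ := hone.1 h
      exact hcop.mul_dvd_of_dvd_of_dvd h3 h4
    · exact absurd h hneg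
  · intro h
    left
    exact hone.2 ⟨(dvd_mul_right _ _).trans h, (dvd_mul_left _ _).trans h⟩

end Lower

section Upper

variable {F : Type*} [Field F] [Fintype F]

/-- In `PΩ` there is no element of order `p * (q ^ d + 1)`. -/
theorem no_order {ι : Type} [Fintype ι] [DecidableEq ι] (p : ℕ) [hp : Fact p.Prime] [CharP F p]
    (hodd : Odd (Fintype.card F)) (h2 : (2 : F) ≠ 0) {d : ℕ}
    (hd : 2 ≤ d) (hcardι : Fintype.card ι = 2 * d + 3) (Q : QuadraticForm F (ι → F))
    (hQ : (polarBilin Q).Nondegenerate) (x : Cfsg.POmega F (⇑Q)) :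
    orderOf x ≠ p * (Fintype.card F ^ d + 1) := by
  classical
  intro hx
  set N := Fintype.card F ^ d + 1 with hN
  have hN0 : 0 < N := by omega
  have hcenter : Subgroup.center ↥(Cfsg.Omega F (⇑Q)) = ⊥ := by
    refine Cfsg.Agent.Lib.Classical.Orth.Center.center_eq_bot hQ (by omega) ?_
    intro g hg hgm
    exact absurd ⟨g, hg, hgm⟩ (Cfsg.Agent.Lib.Classical.Orth.Center.neg_one_not_mem_of_odd h2
      (by rw [hcardι]; exact ⟨d + 1, by omega⟩))
  obtain ⟨g, rfl⟩ := QuotientGroup.mk_surjective x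
  have hgt : ∀ t : ℕ, g ^ t = 1 ↔ p * N ∣ t := by
    intro t
    rw [← hx, orderOf_dvd_iff_pow_eq_one, ← QuotientGroup.mk_pow, QuotientGroup.eq_one_iff, hcenter, Subgroup.mem_bot]
  -- the two elements
  let g₀ : ↥(Cfsg.isometryGroup F (⇑Q)) := g.1
  have hg₀t : ∀ t : ℕ, g₀ ^ t = 1 ↔ p * N ∣ t := by
    intro t
    rw [← hgt t]
    constructor
    · intro h
      apply Subtype.ext
      exact h
    · intro h
      exact congrArg Subtype.val h
  let Mat : ↥(Cfsg.isometryGroup F (⇑Q)) →* Module.End F (ι → F) :=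
    ((Matrix.toLinAlgEquiv' : Matrix ι ι F ≃ₐ[F] _).toAlgHom.toRingHom.toMonoidHom).comp
      ((Units.coeHom _).comp (Cfsg.isometryGroup F (⇑Q)).subtype)
  have hMatapp : ∀ (h : ↥(Cfsg.isometryGroup F (⇑Q))) (v : ι → F), Mat h v = act h v := by
    intro h v
    rfl
  have hMatinj : Function.Injective Mat := by
    intro a b hab
    apply ext_act
    intro v
    rw [← hMatapp, ← hMatapp, hab]
  have hyord : ∀ j, (Mat (g₀ ^ p)) ^ j = 1 ↔ N ∣ j := by
    intro j
    rw [← map_pow, ← pow_mul]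
    have h1 : Mat (g₀ ^ (p * j)) = 1 ↔ g₀ ^ (p * j) = 1 := by
      rw [← map_one Mat]
      exact hMatinj.eq_iff
    rw [h1, hg₀t]
    exact Nat.mul_dvd_mul_iff_left hp.out.pos
  have hup : (Mat (g₀ ^ N)) ^ p = 1 := by
    rw [← map_pow, ← pow_mul, mul_comm, (hg₀t _).2 dvd_rfl, map_one]
  have hu1 : Mat (g₀ ^ N) ≠ 1 := by
    intro h
    rw [← map_one Mat] at h
    have h1 := (hg₀t N).1 (hMatinj h)
    have h3 := Nat.le_of_dvd hN0 h1
    have h4 : 2 * N ≤ p * N := Nat.mul_le_mul_right _ hp.out.two_le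
    omega
  have hyQ : ∀ v, Q (Mat (g₀ ^ p) v) = Q v := fun v => by
    rw [hMatapp]
    exact Q_act _ v
  have huQ : ∀ v, Q (Mat (g₀ ^ N) v) = Q v := fun v => by
    rw [hMatapp]
    exact Q_act _ v
  have hcomm : Mat (g₀ ^ p) * Mat (g₀ ^ N) = Mat (g₀ ^ N) * Mat (g₀ ^ p) := by
    have h1 : g₀ ^ p * g₀ ^ N = g₀ ^ N * g₀ ^ p := by
      rw [← pow_add, ← pow_add, add_comm]
    rw [← map_mul, ← map_mul, h1]
  have hyΩ : g₀ ^ p ∈ Cfsg.Omega F (⇑Q) := Subgroup.pow_mem _ g.2 _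
  have hdet : LinearMap.det (Mat (g₀ ^ p)) = 1 := by
    let f : ↥(Cfsg.isometryGroup F (⇑Q)) →* Fˣ :=
      (Matrix.GeneralLinearGroup.det).comp (Cfsg.isometryGroup F (⇑Q)).subtype
    have h1 : f (g₀ ^ p) = 1 := omega_le_ker Q f hyΩ
    have h3 : ((f (g₀ ^ p) : Fˣ) : F) = (((g₀ ^ p : ↥(Cfsg.isometryGroup F (⇑Q))) : GL ι F) : Matrix ι ι F).det := rfl
    rw [h1, Units.val_one] at h3
    show LinearMap.det (Matrix.toLin' (((g₀ ^ p : ↥(Cfsg.isometryGroup F (⇑Q))) : GL ι F) : Matrix ι ι F)) = 1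
    rw [LinearMap.det_toLin']
    exact h3.symm
  have hdim : finrank F (ι → F) = 2 * d + 3 := by
    rw [Module.finrank_fintype_fun_eq_card, hcardι]
  have hsign := Cfsg.Agent.Lib.Classical.Spectra.Main.sign_main (p := p) (d := d) hodd h2 hd hdim Q hQ _ _ hyQ huQ
    hcomm hyord hup hu1 hdet (spherePerm Q 1 (g₀ ^ p)) (fun v => rfl)
  have h1 : plusSign Q (g₀ ^ p) = 1 := omega_le_ker Q (plusSign Q) hyΩ
  have h3 : plusSign Q (g₀ ^ p) = -1 := hsign
  rw [h1] at h3
  exact absurd h3 (by decide)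

end Upper

/-- Let F be a finite field of odd order and n ≥ 3. The simple orthogonal group PΩ(2n+1, F) (type B_n) and the projective symplectic group PSp(2n, F) (type C_n), which have the same order, do not have the same set of element orders. -/
theorem result {F : Type*} [Field F] [Fintype F] (hodd : Odd (Fintype.card F)) (n : ℕ) (hn : 3 ≤ n) :
    Set.range (orderOf : Cfsg.POmega F (Cfsg.quadFormOdd n F) → ℕ) ≠ Set.range (orderOf : Cfsg.PSp n F → ℕ) := by
  obtain ⟨d, rfl⟩ : ∃ d, n = 1 + d := ⟨n - 1, by omega⟩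
  obtain ⟨p, hp⟩ := CharP.exists F
  haveI : Fact p.Prime := ⟨CharP.char_is_prime F p⟩
  have h2 : (2 : F) ≠ 0 := by
    intro h
    have h1 : p ∣ 2 := (CharP.cast_eq_zero_iff F p 2).1 (by exact_mod_cast h)
    have h3 : p = 2 := (Nat.prime_dvd_prime_iff_eq ‹Fact p.Prime›.out Nat.prime_two).1 h1
    have hpq : p ∣ Fintype.card F := (CharP.cast_eq_zero_iff F p _).1 (FiniteField.cast_card_eq_zero F)
    rw [h3] at hpq
    exact (Nat.not_even_iff_odd.2 hodd) (even_iff_two_dvd.2 hpq)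
  intro h
  obtain ⟨z, hz⟩ := exists_order (F := F) p h2 (d := d) (by omega)
  have hmem : p * (Fintype.card F ^ d + 1) ∈ Set.range (orderOf : Cfsg.PSp (1 + d) F → ℕ) := ⟨z, hz⟩
  rw [← h, ← coe_oddForm] at hmem
  obtain ⟨x, hx⟩ := hmem
  have hcard : Fintype.card (Unit ⊕ (Fin (1 + d) ⊕ Fin (1 + d))) = 2 * d + 3 := by
    simp
    omega
  exact no_order p hodd h2 (by omega) hcard (oddForm (1 + d) F) (oddForm_nondegenerate h2 (1 + d)) x hx

end Cfsg.Agent.S2362
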