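import Cfsg.Statements.S2363
import Mathlib
import Cfsg.Agent.Lib.LieBound.Fam
import Cfsg.Agent.S0243
import Cfsg.Agent.S0280
import Cfsg.Agent.S0292
import Cfsg.Agent.S0293
import Cfsg.Agent.S0294
import Cfsg.Agent.S1059
import Cfsg.Agent.S1062
import Cfsg.Agent.S1063
import Cfsg.Agent.S1064
import Cfsg.Agent.S1065
import Cfsg.Agent.S1066
import Cfsg.Agent.S1067
import Cfsg.Agent.S1068
import Cfsg.Agent.S1069
import Cfsg.Agent.S0324
import Cfsg.Agent.Lib.Suzuki.Iso
import Cfsg.Agent.Lib.Classical.Symp.Count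
import Cfsg.Agent.Lib.Classical.Symp.SimpleMatrix
-- import your own Cfsg.Agent.* helpers here

set_option autoImplicit false
open Cfsg

namespace Cfsg.Agent.S2363

open Cfsg.Agent.Lib.LieBound.Num Cfsg.Agent.Lib.LieBound.Fam

section Cases

variable {G : Type*} [Group G] [Finite G] {p : ℕ}

theorem nd_one {q f : ℕ} (hp : p.Prime) (hf : 1 ≤ f) (hq : q = p ^ f) : ¬ p ∣ q - 1 := by
  have := nd_sub hp hf hq (e := 1) le_rfl
  rwa [pow_one] at this

theorem case_psp (hp : p.Prime) (F : Type) [Field F] [Fintype F] [CharP F p] {m : ℕ} (hm : 2 ≤ m)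
    (e : G ≃* PSp m F) : Good p G := by
  obtain ⟨-, f, hf, hq⟩ := card_pow (F := F) (p := p)
  haveI : Finite (PSp m F) := Finite.of_equiv G e.toEquiv
  refine good_of_equiv e ?_
  have h1 := Cfsg.Agent.Lib.Classical.Symp.Count.card_symplecticGroup (F := F)
    (q := Fintype.card F) (Nat.card_eq_fintype_card) m
  have h2 := Cfsg.Agent.Lib.Classical.Symp.SimpleMatrix.card_center_symplecticGroup (F := F) rfl m
    (by omega)
  have h3 := Subgroup.card_eq_card_quotient_mul_card_subgroup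
    (Subgroup.center (Matrix.symplecticGroup (Fin m) F))
  rw [h2] at h3
  refine good_sp (d := Nat.gcd 2 (Fintype.card F - 1)) hp hf hq hm
    (Nat.gcd_pos_of_pos_left _ (by norm_num))
    (fun h => nd_one hp hf hq (h.trans (Nat.gcd_dvd_right _ _))) ?_
  rw [mul_comm, ← h3, h1]

theorem case_psu (hp : p.Prime) (F : Type) [Field F] [Fintype F] [CharP F p] {n q : ℕ}
    (hF : Fintype.card F = q ^ 2) (hn : 3 ≤ n) (e : G ≃* PSU n F q) : Good p G := by
  obtain ⟨-, f, hf, hq⟩ := card_pow (F := F) (p := p)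
  obtain ⟨f', hf', hq'⟩ := q_of_sq hp hf (n := 2) (by norm_num) (hq.symm.trans hF)
  haveI : Finite (PSU n F q) := Finite.of_equiv G e.toEquiv
  refine good_of_equiv e ?_
  have h1 := Cfsg.Agent.S0280.result hF n (by omega)
  have hq2 := two_le hp hf' hq'
  refine good_psu hp hf' hq' hn (Nat.gcd_pos_of_pos_right _ (by omega)) ?_ h1
  have := nd_add hp hf' hq' (e := 1) le_rfl
  rw [pow_one] at this
  exact fun h => this (h.trans (Nat.gcd_dvd_right _ _))

theorem case_odd (hp : p.Prime) (F : Type) [Field F] [Fintype F] [CharP F p] {m : ℕ} (hm : 3 ≤ m)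
    (hodd : Odd (Fintype.card F)) (e : G ≃* POmega F (quadFormOdd m F)) : Good p G := by
  obtain ⟨-, f, hf, hq⟩ := card_pow (F := F) (p := p)
  haveI : Finite (POmega F (quadFormOdd m F)) := Finite.of_equiv G e.toEquiv
  refine good_of_equiv e ?_
  have h1 := Cfsg.Agent.S0292.result (F := F) rfl hodd m hm
  refine good_sp hp hf hq (by omega) (by norm_num) ?_ h1
  intro h2
  have h3 : p = 2 := (Nat.prime_dvd_prime_iff_eq hp Nat.prime_two).1 h2
  rw [hq, h3] at hodd
  exact (Nat.not_even_iff_odd.2 hodd) ((Nat.even_pow.2 ⟨even_two, by omega⟩))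

theorem case_plus (hp : p.Prime) (F : Type) [Field F] [Fintype F] [CharP F p] {m : ℕ} (hm : 4 ≤ m)
    (e : G ≃* POmega F (quadFormPlus m F)) : Good p G := by
  obtain ⟨-, f, hf, hq⟩ := card_pow (F := F) (p := p)
  haveI : Finite (POmega F (quadFormPlus m F)) := Finite.of_equiv G e.toEquiv
  refine good_of_equiv e ?_
  have h1 := Cfsg.Agent.S0293.result (F := F) rfl m hm
  exact good_plus hp hf hq hm (Nat.gcd_pos_of_pos_left _ (by norm_num))
    (nd_gcd_sub hp hf hq _ _ (by omega)) h1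

theorem case_minus (hp : p.Prime) (F : Type) [Field F] [Fintype F] [CharP F p] {m : ℕ} (hm : 4 ≤ m)
    (a b : F) (hab : ∀ z₁ z₂ : F, z₁ ^ 2 + a * z₁ * z₂ + b * z₂ ^ 2 = 0 → z₁ = 0 ∧ z₂ = 0)
    (e : G ≃* POmega F (quadFormMinus (m - 1) F a b)) : Good p G := by
  obtain ⟨-, f, hf, hq⟩ := card_pow (F := F) (p := p)
  haveI : Finite (POmega F (quadFormMinus (m - 1) F a b)) := Finite.of_equiv G e.toEquiv
  refine good_of_equiv e ?_
  have h1 := Cfsg.Agent.S0294.result (F := F) rfl m hm a b hab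
  exact good_minus hp hf hq hm (Nat.gcd_pos_of_pos_left _ (by norm_num))
    (nd_gcd_add hp hf hq _ _ (by omega)) h1

theorem case_g2 (hp : p.Prime) (F : Type) [Field F] [Fintype F] [CharP F p]
    (e : G ≃* Lie.chevG2.group F) : Good p G := by
  obtain ⟨-, f, hf, hq⟩ := card_pow (F := F) (p := p)
  haveI : Finite (Lie.chevG2.group F) := Finite.of_equiv G e.toEquiv
  refine good_of_equiv e ?_
  have h1 := Cfsg.Agent.S1059.result (F := F) rfl
  have hq2 := two_le hp hf hq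
  rw [← one_mul (Nat.card _), mul_assoc (Fintype.card F ^ 6)] at h1
  exact both (N := 6) (B := 2 + 6) hp hf hq (by norm_num) h1 (by simpa using hp.one_lt.ne')
    (nd_mul hp (nd_sub hp hf hq (by norm_num)) (nd_sub hp hf hq (by norm_num)))
    (mul_lt (sub_one_lt hq2 _) (sub_one_lt hq2 _)) (by norm_num) (by norm_num)

theorem case_f4 (hp : p.Prime) (F : Type) [Field F] [Fintype F] [CharP F p]
    (e : G ≃* Lie.chevF4.group F) : Good p G := by
  obtain ⟨-, f, hf, hq⟩ := card_pow (F := F) (p := p)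
  haveI : Finite (Lie.chevF4.group F) := Finite.of_equiv G e.toEquiv
  refine good_of_equiv e ?_
  have h1 := Cfsg.Agent.S1062.result (F := F) rfl
  have hq2 := two_le hp hf hq
  have h2 : 1 * Nat.card (Lie.chevF4.group F) = Fintype.card F ^ 24 * ((Fintype.card F ^ 2 - 1) *
      (Fintype.card F ^ 6 - 1) * (Fintype.card F ^ 8 - 1) * (Fintype.card F ^ 12 - 1)) := by
    rw [one_mul, h1]
    ring
  exact both (N := 24) (B := 2 + 6 + 8 + 12) hp hf hq (by norm_num) h2
    (by simpa using hp.one_lt.ne')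
    (nd_mul hp (nd_mul hp (nd_mul hp (nd_sub hp hf hq (by norm_num)) (nd_sub hp hf hq (by norm_num)))
      (nd_sub hp hf hq (by norm_num))) (nd_sub hp hf hq (by norm_num)))
    (mul_lt (mul_lt (mul_lt (sub_one_lt hq2 _) (sub_one_lt hq2 _)) (sub_one_lt hq2 _))
      (sub_one_lt hq2 _)) (by norm_num) (by norm_num)

theorem case_e6 (hp : p.Prime) (F : Type) [Field F] [Fintype F] [CharP F p]
    (e : G ≃* Lie.chevE6.group F) : Good p G := by
  obtain ⟨-, f, hf, hq⟩ := card_pow (F := F) (p := p)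
  haveI : Finite (Lie.chevE6.group F) := Finite.of_equiv G e.toEquiv
  refine good_of_equiv e ?_
  have h1 := Cfsg.Agent.S1063.result (F := F) rfl
  have hq2 := two_le hp hf hq
  have h2 : Nat.gcd 3 (Fintype.card F - 1) * Nat.card (Lie.chevE6.group F) =
      Fintype.card F ^ 36 * ((Fintype.card F ^ 2 - 1) * (Fintype.card F ^ 5 - 1) *
      (Fintype.card F ^ 6 - 1) * (Fintype.card F ^ 8 - 1) * (Fintype.card F ^ 9 - 1) *
      (Fintype.card F ^ 12 - 1)) := by
    rw [h1]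
    ring
  exact both (N := 36) (B := 2 + 5 + 6 + 8 + 9 + 12) hp hf hq
    (Nat.gcd_pos_of_pos_left _ (by norm_num)) h2
    (fun h => nd_one hp hf hq (h.trans (Nat.gcd_dvd_right _ _)))
    (nd_mul hp (nd_mul hp (nd_mul hp (nd_mul hp (nd_mul hp (nd_sub hp hf hq (by norm_num))
      (nd_sub hp hf hq (by norm_num))) (nd_sub hp hf hq (by norm_num)))
      (nd_sub hp hf hq (by norm_num))) (nd_sub hp hf hq (by norm_num)))
      (nd_sub hp hf hq (by norm_num)))
    (mul_lt (mul_lt (mul_lt (mul_lt (mul_lt (sub_one_lt hq2 _) (sub_one_lt hq2 _))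
      (sub_one_lt hq2 _)) (sub_one_lt hq2 _)) (sub_one_lt hq2 _)) (sub_one_lt hq2 _))
    (by norm_num) (by norm_num)

theorem case_e7 (hp : p.Prime) (F : Type) [Field F] [Fintype F] [CharP F p]
    (e : G ≃* Lie.chevE7.group F) : Good p G := by
  obtain ⟨-, f, hf, hq⟩ := card_pow (F := F) (p := p)
  haveI : Finite (Lie.chevE7.group F) := Finite.of_equiv G e.toEquiv
  refine good_of_equiv e ?_
  have h1 := Cfsg.Agent.S1064.result (F := F) rfl
  have hq2 := two_le hp hf hq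
  have h2 : Nat.gcd 2 (Fintype.card F - 1) * Nat.card (Lie.chevE7.group F) =
      Fintype.card F ^ 63 * ((Fintype.card F ^ 2 - 1) * (Fintype.card F ^ 6 - 1) *
      (Fintype.card F ^ 8 - 1) * (Fintype.card F ^ 10 - 1) * (Fintype.card F ^ 12 - 1) *
      (Fintype.card F ^ 14 - 1) * (Fintype.card F ^ 18 - 1)) := by
    rw [h1]
    ring
  exact both (N := 63) (B := 2 + 6 + 8 + 10 + 12 + 14 + 18) hp hf hq
    (Nat.gcd_pos_of_pos_left _ (by norm_num)) h2
    (fun h => nd_one hp hf hq (h.trans (Nat.gcd_dvd_right _ _)))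
    (nd_mul hp (nd_mul hp (nd_mul hp (nd_mul hp (nd_mul hp (nd_mul hp (nd_sub hp hf hq (by norm_num))
      (nd_sub hp hf hq (by norm_num))) (nd_sub hp hf hq (by norm_num)))
      (nd_sub hp hf hq (by norm_num))) (nd_sub hp hf hq (by norm_num)))
      (nd_sub hp hf hq (by norm_num))) (nd_sub hp hf hq (by norm_num)))
    (mul_lt (mul_lt (mul_lt (mul_lt (mul_lt (mul_lt (sub_one_lt hq2 _) (sub_one_lt hq2 _))
      (sub_one_lt hq2 _)) (sub_one_lt hq2 _)) (sub_one_lt hq2 _)) (sub_one_lt hq2 _))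
      (sub_one_lt hq2 _))
    (by norm_num) (by norm_num)

theorem case_e8 (hp : p.Prime) (F : Type) [Field F] [Fintype F] [CharP F p]
    (e : G ≃* Lie.chevE8.group F) : Good p G := by
  obtain ⟨-, f, hf, hq⟩ := card_pow (F := F) (p := p)
  haveI : Finite (Lie.chevE8.group F) := Finite.of_equiv G e.toEquiv
  refine good_of_equiv e ?_
  have h1 := Cfsg.Agent.S1065.result (F := F) rfl
  have hq2 := two_le hp hf hq
  have h2 : 1 * Nat.card (Lie.chevE8.group F) =
      Fintype.card F ^ 120 * ((Fintype.card F ^ 2 - 1) * (Fintype.card F ^ 8 - 1) *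
      (Fintype.card F ^ 12 - 1) * (Fintype.card F ^ 14 - 1) * (Fintype.card F ^ 18 - 1) *
      (Fintype.card F ^ 20 - 1) * (Fintype.card F ^ 24 - 1) * (Fintype.card F ^ 30 - 1)) := by
    rw [one_mul, h1]
    ring
  exact both (N := 120) (B := 2 + 8 + 12 + 14 + 18 + 20 + 24 + 30) hp hf hq
    (by norm_num) h2 (by simpa using hp.one_lt.ne')
    (nd_mul hp (nd_mul hp (nd_mul hp (nd_mul hp (nd_mul hp (nd_mul hp (nd_mul hp
      (nd_sub hp hf hq (by norm_num))
      (nd_sub hp hf hq (by norm_num))) (nd_sub hp hf hq (by norm_num)))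
      (nd_sub hp hf hq (by norm_num))) (nd_sub hp hf hq (by norm_num)))
      (nd_sub hp hf hq (by norm_num))) (nd_sub hp hf hq (by norm_num)))
      (nd_sub hp hf hq (by norm_num)))
    (mul_lt (mul_lt (mul_lt (mul_lt (mul_lt (mul_lt (mul_lt (sub_one_lt hq2 _) (sub_one_lt hq2 _))
      (sub_one_lt hq2 _)) (sub_one_lt hq2 _)) (sub_one_lt hq2 _)) (sub_one_lt hq2 _))
      (sub_one_lt hq2 _)) (sub_one_lt hq2 _))
    (by norm_num) (by norm_num)

theorem case_2e6 (hp : p.Prime) (K : Type) [Field K] [Fintype K] [CharP K p] {q : ℕ}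
    (hq0 : IsPrimePow q) (hK : Fintype.card K = q ^ 2) (e : G ≃* Lie.twistedE6 K q) : Good p G := by
  obtain ⟨-, f', hf', hq'⟩ := card_pow (F := K) (p := p)
  obtain ⟨f, hf, hq⟩ := q_of_sq hp hf' (n := 2) (by norm_num) (hq'.symm.trans hK)
  haveI : Finite (Lie.twistedE6 K q) := Finite.of_equiv G e.toEquiv
  refine good_of_equiv e ?_
  have h1 := Cfsg.Agent.S1066.result hq0 hK
  have hq2 := two_le hp hf hq
  have h2 : Nat.gcd 3 (q + 1) * Nat.card (Lie.twistedE6 K q) =
      q ^ 36 * ((q ^ 2 - 1) * (q ^ 5 + 1) * (q ^ 6 - 1) * (q ^ 8 - 1) * (q ^ 9 + 1) * (q ^ 12 - 1)) := by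
    rw [h1]
    ring
  have hpd : ¬ p ∣ Nat.gcd 3 (q + 1) := by
    have := nd_add hp hf hq (e := 1) le_rfl
    rw [pow_one] at this
    exact fun h => this (h.trans (Nat.gcd_dvd_right _ _))
  exact both (N := 36) (B := 2 + 6 + 6 + 8 + 10 + 12) hp hf hq
    (Nat.gcd_pos_of_pos_left _ (by norm_num)) h2 hpd
    (nd_mul hp (nd_mul hp (nd_mul hp (nd_mul hp (nd_mul hp (nd_sub hp hf hq (by norm_num))
      (nd_add hp hf hq (by norm_num))) (nd_sub hp hf hq (by norm_num)))
      (nd_sub hp hf hq (by norm_num))) (nd_add hp hf hq (by norm_num)))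
      (nd_sub hp hf hq (by norm_num)))
    (mul_lt (mul_lt (mul_lt (mul_lt (mul_lt (sub_one_lt hq2 _) (add_one_lt hq2 (by norm_num)))
      (sub_one_lt hq2 _)) (sub_one_lt hq2 _)) (add_one_lt hq2 (by norm_num))) (sub_one_lt hq2 _))
    (by norm_num) (by norm_num)

theorem case_3d4 (hp : p.Prime) (K : Type) [Field K] [Fintype K] [CharP K p] {q : ℕ}
    (hq0 : IsPrimePow q) (hK : Fintype.card K = q ^ 3) (e : G ≃* Lie.twistedD4 K q) : Good p G := by
  obtain ⟨-, f', hf', hq'⟩ := card_pow (F := K) (p := p)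
  obtain ⟨f, hf, hq⟩ := q_of_sq hp hf' (n := 3) (by norm_num) (hq'.symm.trans hK)
  haveI : Finite (Lie.twistedD4 K q) := Finite.of_equiv G e.toEquiv
  refine good_of_equiv e ?_
  have h1 := Cfsg.Agent.S1067.result hq0 hK
  have hq2 := two_le hp hf hq
  have h2 : 1 * Nat.card (Lie.twistedD4 K q) =
      q ^ 12 * ((q ^ 2 - 1) * (q ^ 6 - 1) * (q ^ 8 + q ^ 4 + 1)) := by
    rw [one_mul, h1]
    ring
  have hnd : ¬ p ∣ q ^ 8 + q ^ 4 + 1 := by
    intro h
    have h3 : p ∣ q := by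
      rw [hq]
      exact dvd_pow_self p (by omega)
    have h4 : p ∣ q ^ 8 + q ^ 4 := Dvd.dvd.add (dvd_pow h3 (by norm_num)) (dvd_pow h3 (by norm_num))
    have h5 := (Nat.dvd_add_right h4).1 h
    exact hp.one_lt.ne' (Nat.dvd_one.mp h5)
  have hlt : q ^ 8 + q ^ 4 + 1 < q ^ 9 := by
    have h3 : 2 ≤ q ^ 4 := le_trans hq2 (Nat.le_self_pow (by norm_num) q)
    have h4 : q ^ 8 = q ^ 4 * q ^ 4 := by ring
    have h5 : q ^ 9 = q ^ 8 * q := by ring
    rw [h5, h4]
    nlinarith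
  exact both (N := 12) (B := 2 + 6 + 9) hp hf hq
    (by norm_num) h2 (by simpa using hp.one_lt.ne')
    (nd_mul hp (nd_mul hp (nd_sub hp hf hq (by norm_num)) (nd_sub hp hf hq (by norm_num))) hnd)
    (mul_lt (mul_lt (sub_one_lt hq2 _) (sub_one_lt hq2 _)) hlt)
    (by norm_num) (by norm_num)

theorem case_ree (K : Type) [Field K] [Fintype K] {m : ℕ}
    (hK : Fintype.card K = 3 ^ (2 * m + 1)) (e : G ≃* Lie.twistedG2 K (3 ^ m)) : Good 3 G := by
  have hp : Nat.Prime 3 := by norm_num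
  haveI : Finite (Lie.twistedG2 K (3 ^ m)) := Finite.of_equiv G e.toEquiv
  refine good_of_equiv e ?_
  have h1 := Cfsg.Agent.S1069.result hK
  obtain ⟨q, hq⟩ : ∃ q, q = 3 ^ (2 * m + 1) := ⟨_, rfl⟩
  rw [← hq] at h1
  have hq2 := two_le hp (by omega) hq
  have h2 : 1 * Nat.card (Lie.twistedG2 K (3 ^ m)) = q ^ 3 * ((q ^ 1 - 1) * (q ^ 3 + 1)) := by
    rw [one_mul, h1, pow_one]
    ring
  exact both (N := 3) (B := 1 + 4) hp (by omega) hq (by norm_num) h2 (by norm_num)
    (nd_mul hp (nd_sub hp (by omega) hq (by norm_num)) (nd_add hp (by omega) hq (by norm_num)))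
    (mul_lt (sub_one_lt hq2 _) (add_one_lt hq2 (by norm_num))) (by norm_num) (by norm_num)

theorem case_suzuki (F : Type) [Field F] [Fintype F] {m : ℕ} (hm : 1 ≤ m)
    (hF : Fintype.card F = 2 ^ (2 * m + 1)) (e : G ≃* Lie.Sz F (2 ^ (m + 1))) : Good 2 G := by
  have hp : Nat.Prime 2 := by norm_num
  have H : Cfsg.Agent.Lib.Suzuki.Basic.Hyp F m := ⟨hm, hF⟩
  let e2 := e.trans (Cfsg.Agent.Lib.Suzuki.Iso.suzEquiv H).symm
  haveI : Finite (Cfsg.Sz F m) := Finite.of_equiv G e2.toEquiv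
  refine good_of_equiv e2 ?_
  have h1 := Cfsg.Agent.S0324.result hm hF
  obtain ⟨q, hq⟩ : ∃ q, q = 2 ^ (2 * m + 1) := ⟨_, rfl⟩
  rw [← hq] at h1
  have hq2 := two_le hp (by omega) hq
  have h2 : 1 * Nat.card (Cfsg.Sz F m) = q ^ 2 * ((q ^ 2 + 1) * (q ^ 1 - 1)) := by
    rw [one_mul, h1, pow_one]
    ring
  have hlt : (q ^ 2 + 1) * (q ^ 1 - 1) < q ^ 3 := by
    obtain ⟨y, rfl⟩ : ∃ y, q = y + 1 := ⟨q - 1, by omega⟩
    rw [pow_one, Nat.add_sub_cancel]
    nlinarith
  exact both (N := 2) (B := 3) hp (by omega) hq (by norm_num) h2 (by norm_num)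
    (nd_mul hp (nd_add hp (by omega) hq (by norm_num)) (nd_sub hp (by omega) hq (by norm_num)))
    hlt (by norm_num) (by norm_num)

/-- The large Ree groups, from the order formula. -/
theorem case_2f4 (K : Type) [Field K] [Fintype K] {m : ℕ}
    (h1 : Nat.card ↥(Cfsg.Lie.twistedF4 K (2 ^ m)) =
      (2 ^ (2 * m + 1)) ^ 12 * (2 ^ (2 * m + 1) - 1) * ((2 ^ (2 * m + 1)) ^ 3 + 1) * ((2 ^ (2 * m + 1)) ^ 4 - 1) * ((2 ^ (2 * m + 1)) ^ 6 + 1))
    (e : G ≃* Lie.twistedF4 K (2 ^ m)) : Good 2 G := by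
  have hp : Nat.Prime 2 := by norm_num
  haveI : Finite (Lie.twistedF4 K (2 ^ m)) := Finite.of_equiv G e.toEquiv
  refine good_of_equiv e ?_
  obtain ⟨q, hq⟩ : ∃ q, q = 2 ^ (2 * m + 1) := ⟨_, rfl⟩
  rw [← hq] at h1
  have hq2 := two_le hp (by omega) hq
  have h2 : 1 * Nat.card (Lie.twistedF4 K (2 ^ m)) =
      q ^ 12 * ((q ^ 1 - 1) * (q ^ 3 + 1) * (q ^ 4 - 1) * (q ^ 6 + 1)) := by
    rw [one_mul, h1, pow_one]
    ring
  exact both (N := 12) (B := 1 + 4 + 4 + 7) hp (by omega) hq (by norm_num) h2 (by norm_num)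
    (nd_mul hp (nd_mul hp (nd_mul hp (nd_sub hp (by omega) hq (by norm_num))
      (nd_add hp (by omega) hq (by norm_num))) (nd_sub hp (by omega) hq (by norm_num)))
      (nd_add hp (by omega) hq (by norm_num)))
    (mul_lt (mul_lt (mul_lt (sub_one_lt hq2 _) (add_one_lt hq2 (by norm_num))) (sub_one_lt hq2 _))
      (add_one_lt hq2 (by norm_num))) (by norm_num) (by norm_num)

theorem case_psl (hp : p.Prime) (F : Type) [Field F] [Fintype F] [CharP F p] {n : ℕ} (hn : 2 ≤ n)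
    (e : G ≃* Matrix.ProjectiveSpecialLinearGroup (Fin n) F) :
    Nat.card G < p ^ (3 * (Nat.card G).factorization p) ∧
      ((¬ ∃ (F : Type) (_ : Field F) (_ : Fintype F), Fintype.card F = p ^ (Nat.card G).factorization p ∧
          Nonempty (G ≃* Matrix.ProjectiveSpecialLinearGroup (Fin 2) F)) →
        Nat.card G ^ 3 < p ^ (8 * (Nat.card G).factorization p)) := by
  obtain ⟨-, f, hf, hq⟩ := card_pow (F := F) (p := p)
  haveI : Finite (Matrix.ProjectiveSpecialLinearGroup (Fin n) F) := Finite.of_equiv G e.toEquiv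
  have h1 := Cfsg.Agent.S0243.result (F := F) rfl n hn
  have hcard : Nat.card G = Nat.card (Matrix.ProjectiveSpecialLinearGroup (Fin n) F) :=
    Nat.card_congr e.toEquiv
  have hq2 := two_le hp hf hq
  obtain ⟨h2, h3, h4⟩ := good_psl (d := Nat.gcd n (Fintype.card F - 1)) hp hf hq hn
    (Nat.gcd_pos_of_pos_right _ (by omega))
    (fun h => nd_one hp hf hq (h.trans (Nat.gcd_dvd_right _ _))) h1
  rw [← hcard] at h2 h3 h4
  refine ⟨h3, fun hne => ?_⟩
  rcases Nat.lt_or_ge n 3 with hn3 | hn3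
  · exfalso
    obtain rfl : n = 2 := by omega
    apply hne
    refine ⟨F, inferInstance, inferInstance, ?_, ⟨e⟩⟩
    rw [h2, hq]
    norm_num
  · exact h4 hn3

end Cases

/-- Let G be a finite simple group of Lie type in characteristic p and let p^k be the exact power of p dividing the order of G. Then the order of G is less than p^(3k); and unless G is isomorphic to PSL(2, F) for the field F with p^k elements, the cube of the order of G is less than p^(8k) (that is, the order is below p^(8k/3)). -/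
theorem result {G : Type*} [Group G] [Finite G] (p : ℕ) (hp : p.Prime) (hG : Cfsg.IsLieTypeChar p G) :
    Nat.card G < p ^ (3 * (Nat.card G).factorization p) ∧
      ((¬ ∃ (F : Type) (_ : Field F) (_ : Fintype F), Fintype.card F = p ^ (Nat.card G).factorization p ∧
          Nonempty (G ≃* Matrix.ProjectiveSpecialLinearGroup (Fin 2) F)) →
        Nat.card G ^ 3 < p ^ (8 * (Nat.card G).factorization p)) := by
  have conv : Good p G → Nat.card G < p ^ (3 * (Nat.card G).factorization p) ∧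
      ((¬ ∃ (F : Type) (_ : Field F) (_ : Fintype F), Fintype.card F = p ^ (Nat.card G).factorization p ∧
          Nonempty (G ≃* Matrix.ProjectiveSpecialLinearGroup (Fin 2) F)) →
        Nat.card G ^ 3 < p ^ (8 * (Nat.card G).factorization p)) := fun h => ⟨h.1, fun _ => h.2⟩
  rcases hG with h | h | h | h | h | h | h | h | h | h | h
  · obtain ⟨F, _, _, _, n, hn, -, ⟨e⟩⟩ := h
    exact case_psl hp F hn e
  · obtain ⟨F, _, _, _, m, hm, -, ⟨e⟩⟩ := h
    exact conv (case_psp hp F hm e)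
  · obtain ⟨F, _, _, _, n, q, hF, hn, -, ⟨e⟩⟩ := h
    exact conv (case_psu hp F hF hn e)
  · obtain ⟨F, _, _, _, m, hm, hodd, ⟨e⟩⟩ := h
    exact conv (case_odd hp F hm hodd e)
  · obtain ⟨F, _, _, _, m, hm, ⟨e⟩⟩ := h
    exact conv (case_plus hp F hm e)
  · obtain ⟨F, _, _, _, m, a, b, hm, hab, ⟨e⟩⟩ := h
    exact conv (case_minus hp F hm a b hab e)
  · obtain ⟨F, _, _, _, h⟩ := h
    rcases h with ⟨-, ⟨e⟩⟩ | h | h | h | h
    · exact conv (case_g2 hp F e)
    · obtain ⟨e⟩ := h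
      exact conv (case_f4 hp F e)
    · obtain ⟨e⟩ := h
      exact conv (case_e6 hp F e)
    · obtain ⟨e⟩ := h
      exact conv (case_e7 hp F e)
    · obtain ⟨e⟩ := h
      exact conv (case_e8 hp F e)
  · obtain ⟨K, _, _, _, q, hq0, h⟩ := h
    rcases h with ⟨hK, ⟨e⟩⟩ | ⟨hK, ⟨e⟩⟩
    · exact conv (case_2e6 hp K hq0 hK e)
    · exact conv (case_3d4 hp K hq0 hK e)
  · obtain ⟨rfl, F, _, _, m, hm, hF, ⟨e⟩⟩ := h
    exact conv (case_suzuki F hm hF e)
  · obtain ⟨rfl, K, _, _, m, hm, hK, ⟨e⟩⟩ := h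
    exact conv (case_2f4 K (Cfsg.Agent.S1068.result hK) e)
  · obtain ⟨rfl, K, _, _, m, hm, hK, ⟨e⟩⟩ := h
    exact conv (case_ree K hK e)

end Cfsg.Agent.S2363
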