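import Cfsg.Statements.S2364
import Mathlib
import Cfsg.Agent.S0242

set_option autoImplicit false
open Cfsg

namespace Cfsg.Agent.S2364

section linear

variable {F : Type*} [Field F] [Fintype F] {V : Type*} [AddCommGroup V] [Module F V]
  [FiniteDimensional F V]

open Module

lemma count_mod (T : V →ₗ[F] V) (r : ℕ) [hr : Fact r.Prime] (hT : T ^ r = 1) (X : Submodule F V)
    (hX : ∀ x ∈ X, T x ∈ X) :
    Nat.card X ≡ Nat.card (X ⊓ LinearMap.ker (T - 1) : Submodule F V) [MOD r] := by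
  classical
  have hfin : Finite V := Module.finite_of_finite F
  haveI := Fintype.ofFinite X
  let f : Function.End X := fun x => ⟨T x, hX x x.2⟩
  have hf : ∀ (k : ℕ) (x : X), (((f ^ k) x : X) : V) = (T ^ k) x := by
    intro k
    induction k with
    | zero => intro x; rfl
    | succ k ih =>
      intro x
      rw [pow_succ, pow_succ]
      change (((f ^ k) (f x) : X) : V) = (T ^ k) (T x)
      rw [ih]
  have hfr : f ^ r ^ 1 = 1 := by
    funext x
    apply Subtype.ext
    rw [pow_one, hf, hT]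
    rfl
  have key := Equiv.Perm.card_fixedPoints_modEq hfr
  have e : Function.fixedPoints f ≃ (X ⊓ LinearMap.ker (T - 1) : Submodule F V) :=
    { toFun := fun x => ⟨x.1.1, x.1.2, by
        have : T x.1.1 = x.1.1 := congrArg Subtype.val x.2
        simp [this]⟩
      invFun := fun x => ⟨⟨x.1, x.2.1⟩, by
        have h2 : (T - 1) x.1 = 0 := x.2.2
        have : T x.1 = x.1 := by simpa [sub_eq_zero] using h2
        exact Subtype.ext this⟩
      left_inv := fun x => rfl
      right_inv := fun x => rfl }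
  rw [Nat.card_eq_fintype_card, ← Nat.card_congr e, Nat.card_eq_fintype_card]
  exact key

/-- The counting dichotomy. -/
lemma fixed_dichotomy (T : V →ₗ[F] V) (r : ℕ) [hr : Fact r.Prime] (hT : T ^ r = 1)
    (hrq : ¬ r ∣ Nat.card F) (d : ℕ) (hd : ∀ i, 1 ≤ i → i ≤ d → ¬ r ∣ Nat.card F ^ i - 1)
    (X : Submodule F V) (hX : ∀ x ∈ X, T x ∈ X) :
    X ≤ LinearMap.ker (T - 1) ∨
      finrank F (X ⊓ LinearMap.ker (T - 1) : Submodule F V) + (d + 1) ≤ finrank F X := by
  by_contra hcon
  push Not at hcon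
  obtain ⟨h1, h2⟩ := hcon
  set Y : Submodule F V := X ⊓ LinearMap.ker (T - 1) with hY
  have hle : finrank F Y ≤ finrank F X := Submodule.finrank_mono inf_le_left
  have hne : finrank F Y ≠ finrank F X := by
    intro heq
    have : Y = X := Submodule.eq_of_le_of_finrank_eq inf_le_left heq
    exact h1 (this ▸ inf_le_right)
  have hcount := count_mod T r hT X hX
  rw [← hY, Module.natCard_eq_pow_finrank (K := F) (V := X),
    Module.natCard_eq_pow_finrank (K := F) (V := Y)] at hcount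
  set q := Nat.card F with hq
  obtain ⟨j, hj⟩ : ∃ j, finrank F X = finrank F Y + j := ⟨_, (Nat.add_sub_of_le hle).symm⟩
  have hj1 : 1 ≤ j := by omega
  have hjd : j ≤ d := by omega
  have hq1 : 1 ≤ q ^ j := Nat.one_le_pow _ _ Nat.card_pos
  have : r ∣ q ^ finrank F Y * (q ^ j - 1) := by
    have := (Nat.modEq_iff_dvd' (by
      rw [hj, pow_add]; exact Nat.le_mul_of_pos_right _ (by omega))).1 hcount.symm
    rw [hj, pow_add] at this
    rw [Nat.mul_sub, mul_one]
    exact this
  rcases (Nat.Prime.dvd_mul hr.out).1 this with h | h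
  · exact hrq (hr.out.dvd_of_dvd_pow h)
  · exact hd j hj1 hjd h

omit [Fintype F] [FiniteDimensional F V] in
lemma inf_ne_bot_of_nilpotent (S : V →ₗ[F] V) (hS : IsNilpotent S) (hS0 : S ≠ 0) :
    LinearMap.ker S ⊓ LinearMap.range S ≠ ⊥ := by
  classical
  obtain ⟨k, hk⟩ := hS
  have hkmin := Nat.find_spec (⟨k, hk⟩ : ∃ k, S ^ k = 0)
  set m := Nat.find (⟨k, hk⟩ : ∃ k, S ^ k = 0) with hm
  have hm0 : m ≠ 0 := by
    intro h
    rw [h, pow_zero] at hkmin
    exact hS0 (by simpa using congrArg (· * S) hkmin)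
  have hm1 : m ≠ 1 := by
    intro h
    rw [h, pow_one] at hkmin
    exact hS0 hkmin
  obtain ⟨l, hl⟩ : ∃ l, m = l + 2 := ⟨m - 2, by omega⟩
  have hne : S ^ (l + 1) ≠ 0 := Nat.find_min (⟨k, hk⟩ : ∃ k, S ^ k = 0) (by omega)
  obtain ⟨v, hv⟩ : ∃ v, (S ^ (l + 1)) v ≠ 0 := by
    by_contra h
    push Not at h
    exact hne (LinearMap.ext h)
  intro hbot
  apply hv
  have hmem : (S ^ (l + 1)) v ∈ LinearMap.ker S ⊓ LinearMap.range S := by
    refine Submodule.mem_inf.2 ⟨?_, ?_⟩
    · rw [LinearMap.mem_ker]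
      have : S * S ^ (l + 1) = 0 := by
        rw [← pow_succ']
        have h3 := hkmin
        rw [hl] at h3
        exact h3
      exact congrArg (fun g => g v) this
    · refine ⟨(S ^ l) v, ?_⟩
      rw [pow_succ']
      rfl
  rw [hbot] at hmem
  simpa using hmem

lemma core_aux (T : V →ₗ[F] V) (r : ℕ) [hr : Fact r.Prime] (hT : T ^ r = 1)
    (hrq : ¬ r ∣ Nat.card F) (n : ℕ) (hn : 4 ≤ n) (hV : finrank F V = n)
    (hd : ∀ i, 1 ≤ i → i ≤ n - 2 → ¬ r ∣ Nat.card F ^ i - 1)
    (hC : finrank F (LinearMap.ker (T - 1)) ≤ 1)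
    (X X' : Submodule F V) (hX : ∀ x ∈ X, T x ∈ X) (hX' : ∀ x ∈ X', T x ∈ X')
    (hne : X ⊓ X' ≠ ⊥) (hsum : finrank F X + finrank F X' = n) (hle : finrank F X ≤ n - 2) :
    False := by
  have hdich := fixed_dichotomy T r hT hrq (n - 2) hd
  have hXC : X ≤ LinearMap.ker (T - 1) := by
    rcases hdich X hX with h | h
    · exact h
    · omega
  have hXpos : 0 < finrank F X := by
    rw [Module.finrank_pos_iff_exists_ne_zero]
    obtain ⟨x, hx, hx0⟩ := Submodule.exists_mem_ne_zero_of_ne_bot hne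
    exact ⟨⟨x, hx.1⟩, fun h => hx0 (congrArg Subtype.val h)⟩
  have hXC1 : finrank F X ≤ finrank F (LinearMap.ker (T - 1)) := Submodule.finrank_mono hXC
  have hXone : finrank F X = 1 := by omega
  have hX'rank : finrank F X' = n - 1 := by omega
  have hposY : 0 < finrank F (X' ⊓ LinearMap.ker (T - 1) : Submodule F V) := by
    rw [Module.finrank_pos_iff_exists_ne_zero]
    obtain ⟨x, hx, hx0⟩ := Submodule.exists_mem_ne_zero_of_ne_bot hne
    exact ⟨⟨x, hx.2, hXC hx.1⟩, fun h => hx0 (congrArg Subtype.val h)⟩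
  rcases hdich X' hX' with h | h
  · have := Submodule.finrank_mono h
    omega
  · omega

/-- Core linear algebra fact. -/
lemma core (T S : V →ₗ[F] V) (r : ℕ) [hr : Fact r.Prime] (hT : T ^ r = 1) (hT1 : T ≠ 1)
    (hS : IsNilpotent S) (hS0 : S ≠ 0) (hTS : Commute T S)
    (hrq : ¬ r ∣ Nat.card F) (n : ℕ) (hn : 4 ≤ n) (hV : finrank F V = n)
    (hd : ∀ i, 1 ≤ i → i ≤ n - 2 → ¬ r ∣ Nat.card F ^ i - 1) : False := by
  have hdich := fixed_dichotomy T r hT hrq (n - 2) hd
  have hC : finrank F (LinearMap.ker (T - 1)) ≤ 1 := by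
    rcases hdich ⊤ (fun _ _ => trivial) with h | h
    · exfalso
      apply hT1
      have hk : LinearMap.ker (T - 1) = ⊤ := top_le_iff.1 h
      have : T - 1 = 0 := LinearMap.ker_eq_top.1 hk
      exact sub_eq_zero.1 this
    · rw [top_inf_eq, finrank_top, hV] at h
      omega
  have hker : ∀ x ∈ LinearMap.ker S, T x ∈ LinearMap.ker S := by
    intro x hx
    rw [LinearMap.mem_ker] at hx ⊢
    have : S (T x) = T (S x) := (congrArg (fun g => g x) hTS.eq).symm
    rw [this, hx, map_zero]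
  have hran : ∀ x ∈ LinearMap.range S, T x ∈ LinearMap.range S := by
    rintro _ ⟨y, rfl⟩
    refine ⟨T y, ?_⟩
    exact (congrArg (fun g => g y) hTS.eq).symm
  have hne := inf_ne_bot_of_nilpotent S hS hS0
  have hsum : finrank F (LinearMap.ker S) + finrank F (LinearMap.range S) = n := by
    rw [add_comm, LinearMap.finrank_range_add_finrank_ker, hV]
  by_cases h : finrank F (LinearMap.ker S) ≤ n - 2
  · exact core_aux T r hT hrq n hn hV hd hC _ _ hker hran hne hsum h
  · refine core_aux T r hT hrq n hn hV hd hC (LinearMap.range S) (LinearMap.ker S) hran hker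
      (by rwa [inf_comm]) (by omega) (by omega)

end linear

section numbers

variable {F : Type*} [Field F] [Fintype F]

lemma card_SL_formula (k : ℕ) :
    Nat.card (Matrix.SpecialLinearGroup (Fin (k + 1)) F) =
      (∏ i : Fin k, (Fintype.card F ^ (k + 1) - Fintype.card F ^ (i : ℕ))) * Fintype.card F ^ k := by
  have h := Cfsg.Agent.S0242.result (F := F) (q := Fintype.card F) rfl (k + 1) (by omega)
  rw [Fin.prod_univ_castSucc] at h
  simp only [Fin.val_castSucc, Fin.val_last] at h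
  have hq : 1 < Fintype.card F := Fintype.one_lt_card
  have h2 : Fintype.card F ^ (k + 1) - Fintype.card F ^ k = Fintype.card F ^ k * (Fintype.card F - 1) := by
    rw [Nat.mul_sub, mul_one, pow_succ]
  rw [h2] at h
  have hpos : 0 < Fintype.card F - 1 := by omega
  apply Nat.eq_of_mul_eq_mul_left hpos
  rw [h]
  ring

lemma dvd_card_SL (m : ℕ) (hm : 2 ≤ m) :
    Fintype.card F ∣ Nat.card (Matrix.SpecialLinearGroup (Fin m) F) ∧
    ∀ i, 2 ≤ i → i ≤ m → Fintype.card F ^ i - 1 ∣ Nat.card (Matrix.SpecialLinearGroup (Fin m) F) := by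
  obtain ⟨k, rfl⟩ : ∃ k, m = k + 1 := ⟨m - 1, by omega⟩
  rw [card_SL_formula]
  constructor
  · apply Dvd.dvd.mul_left
    exact dvd_pow_self _ (by omega)
  · intro i hi hik
    apply Dvd.dvd.mul_right
    have hlt : k + 1 - i < k := by omega
    refine Dvd.dvd.trans ?_ (Finset.dvd_prod_of_mem _ (Finset.mem_univ (⟨k + 1 - i, hlt⟩ : Fin k)))
    simp only
    have : k + 1 = (k + 1 - i) + i := by omega
    refine ⟨Fintype.card F ^ (k + 1 - i), ?_⟩
    conv_lhs => rw [this, pow_add]
    simp only [Nat.add_sub_cancel]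
    rw [Nat.sub_mul, one_mul, mul_comm]

end numbers

section matrix_step

variable {F : Type*} [Field F] [Fintype F]

lemma matrix_step {n p : ℕ} [Fact p.Prime] [CharP F p] [NeZero n] (M N : Matrix (Fin n) (Fin n) F)
    (μ l : F) (hμ : M ^ p = μ • 1) (hμ0 : μ ≠ 0) (hN0 : N ≠ 0) (hMN : M * N = l • (N * M))
    (hM : ∀ ν : F, M ≠ ν • 1) :
    ∃ U : Matrix (Fin n) (Fin n) F, IsNilpotent (U - 1) ∧ U ≠ 1 ∧ Commute U N := by
  obtain ⟨ν, hν⟩ : ∃ ν : F, frobenius F p ν = μ :=
    Finite.surjective_of_injective (frobenius_inj F p) μ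
  rw [frobenius_def] at hν
  have hν0 : ν ≠ 0 := by
    rintro rfl
    rw [zero_pow (Fact.out : p.Prime).ne_zero] at hν
    exact hμ0 hν.symm
  have hUp : (ν⁻¹ • M) ^ p = 1 := by
    rw [smul_pow, hμ, smul_smul, inv_pow, hν, inv_mul_cancel₀ hμ0, one_smul]
  refine ⟨ν⁻¹ • M, ?_, ?_, ?_⟩
  · refine ⟨p, ?_⟩
    rw [sub_pow_char_of_commute p (Commute.one_right _), hUp, one_pow, sub_self]
  · intro h
    apply hM ν
    rw [← h, smul_smul, mul_inv_cancel₀ hν0, one_smul]
  · set U := ν⁻¹ • M with hU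
    have h1 : U * N = l • (N * U) := by
      rw [hU, smul_mul_assoc, hMN, mul_smul_comm, smul_comm]
    have h2 : ∀ k : ℕ, U ^ k * N = l ^ k • (N * U ^ k) := by
      intro k
      induction k with
      | zero => simp
      | succ k ih =>
        rw [pow_succ, mul_assoc, h1, mul_smul_comm, ← mul_assoc, ih, smul_mul_assoc, smul_smul,
          mul_assoc, pow_succ, mul_comm l]
    have h3 := h2 p
    rw [hUp, one_mul, mul_one] at h3
    have hlp : l ^ p = 1 := by
      by_contra hne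
      have : (l ^ p - 1) • N = 0 := by rw [sub_smul, ← h3, one_smul, sub_self]
      rcases smul_eq_zero.1 this with h | h
      · exact hne (sub_eq_zero.1 h)
      · exact hN0 h
    have hl1 : l = 1 := by
      have : (l - 1) ^ p = 0 := by rw [sub_pow_char, hlp, one_pow, sub_self]
      exact sub_eq_zero.1 (pow_eq_zero_iff (Fact.out : p.Prime).ne_zero |>.1 this)
    rw [hl1, one_smul] at h1
    exact h1

end matrix_step

theorem result {F : Type*} [Field F] [Fintype F] (p : ℕ) [Fact p.Prime] [CharP F p] (n : ℕ) (hn : 4 ≤ n)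
    (a b : Matrix.ProjectiveSpecialLinearGroup (Fin n) F) (ha : orderOf a = p) (hab : Commute a b) :
    (orderOf b).primeFactors ⊆ (Nat.card (Matrix.SpecialLinearGroup (Fin (n - 2)) F)).primeFactors := by
  classical
  intro r hr
  have hrp : r.Prime := Nat.prime_of_mem_primeFactors hr
  have hrb : r ∣ orderOf b := Nat.dvd_of_mem_primeFactors hr
  haveI : Fact r.Prime := ⟨hrp⟩
  have hcardne : Nat.card (Matrix.SpecialLinearGroup (Fin (n - 2)) F) ≠ 0 := Nat.card_pos.ne'
  rw [Nat.mem_primeFactors]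
  refine ⟨hrp, ?_, hcardne⟩
  by_contra hr_ndvd
  obtain ⟨hqdvd, hidvd⟩ := dvd_card_SL (F := F) (n - 2) (by omega)
  have hqq : Nat.card F = Fintype.card F := Nat.card_eq_fintype_card
  have hnq : ¬ r ∣ Nat.card F := by
    rw [hqq]
    exact fun h => hr_ndvd (h.trans hqdvd)
  have hd : ∀ i, 1 ≤ i → i ≤ n - 2 → ¬ r ∣ Nat.card F ^ i - 1 := by
    intro i hi1 hi2 hdvd
    rw [hqq] at hdvd
    by_cases h2 : 2 ≤ i
    · exact hr_ndvd (hdvd.trans (hidvd i h2 hi2))
    · obtain rfl : i = 1 := by omega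
      apply hr_ndvd
      refine Dvd.dvd.trans ?_ (hidvd 2 le_rfl (by omega))
      refine hdvd.trans ?_
      have := Nat.sub_dvd_pow_sub_pow (Fintype.card F) 1 2
      simpa using this
  obtain ⟨A, rfl⟩ := QuotientGroup.mk_surjective a
  obtain ⟨B, rfl⟩ := QuotientGroup.mk_surjective b
  haveI : NeZero n := ⟨by omega⟩
  have hp : p.Prime := Fact.out
  have hN0 : ∀ X : Matrix.SpecialLinearGroup (Fin n) F, (X : Matrix (Fin n) (Fin n) F) ≠ 0 := by
    intro X hX
    have := X.2
    rw [hX, Matrix.det_zero] at this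
    exact zero_ne_one this
  have hZ : ∀ X : Matrix.SpecialLinearGroup (Fin n) F,
      (X : Matrix.ProjectiveSpecialLinearGroup (Fin n) F) = 1 →
        ∃ l : F, l ≠ 0 ∧ (X : Matrix (Fin n) (Fin n) F) = l • 1 := by
    intro X hX
    have hmem := (QuotientGroup.eq_one_iff X).1 hX
    obtain ⟨l, hl, hlX⟩ := Matrix.SpecialLinearGroup.mem_center_iff.1 hmem
    refine ⟨l, ?_, ?_⟩
    · rintro rfl
      rw [zero_pow (by simp; omega)] at hl
      exact zero_ne_one hl
    · rw [← hlX, Matrix.scalar_apply, Matrix.smul_one_eq_diagonal]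
  have hAp : ((A ^ p : Matrix.SpecialLinearGroup (Fin n) F) :
      Matrix.ProjectiveSpecialLinearGroup (Fin n) F) = 1 := by
    rw [QuotientGroup.mk_pow, ← ha]
    exact pow_orderOf_eq_one _
  obtain ⟨μ, hμ0, hμ⟩ := hZ _ hAp
  rw [Matrix.SpecialLinearGroup.coe_pow] at hμ
  have hcomm : ((A * B * A⁻¹ * B⁻¹ : Matrix.SpecialLinearGroup (Fin n) F) :
      Matrix.ProjectiveSpecialLinearGroup (Fin n) F) = 1 := by
    simp only [QuotientGroup.mk_mul, QuotientGroup.mk_inv]
    rw [hab.eq]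
    group
  obtain ⟨l, hl0, hl⟩ := hZ _ hcomm
  have hMN : (A : Matrix (Fin n) (Fin n) F) * B = l • ((B : Matrix (Fin n) (Fin n) F) * A) := by
    have h1 : A * B = (A * B * A⁻¹ * B⁻¹) * (B * A) := by group
    have h2 := congrArg (fun X : Matrix.SpecialLinearGroup (Fin n) F =>
      (X : Matrix (Fin n) (Fin n) F)) h1
    simp only [Matrix.SpecialLinearGroup.coe_mul (A := (A * B * A⁻¹ * B⁻¹)) (B := B * A)] at h2
    rw [hl, Matrix.SpecialLinearGroup.coe_mul, Matrix.SpecialLinearGroup.coe_mul, smul_mul_assoc, one_mul] at h2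
    exact h2
  have hM : ∀ ν : F, (A : Matrix (Fin n) (Fin n) F) ≠ ν • 1 := by
    intro ν hν
    have hmem : A ∈ Subgroup.center (Matrix.SpecialLinearGroup (Fin n) F) := by
      rw [Matrix.SpecialLinearGroup.mem_center_iff]
      refine ⟨ν, ?_, ?_⟩
      · have := A.2
        rw [hν, Matrix.det_smul, Matrix.det_one, mul_one] at this
        exact this
      · rw [hν, Matrix.scalar_apply, Matrix.smul_one_eq_diagonal]
    have h1 := (QuotientGroup.eq_one_iff A).2 hmem
    rw [h1, orderOf_one] at ha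
    exact hp.one_lt.ne ha
  obtain ⟨U, hUn, hU1, hUB⟩ := matrix_step _ _ μ l hμ hμ0 (hN0 B) hMN hM
  set b' : Matrix.ProjectiveSpecialLinearGroup (Fin n) F := (B : Matrix.ProjectiveSpecialLinearGroup (Fin n) F) with hb'
  have hord0 : orderOf b' ≠ 0 := (Nat.mem_primeFactors.1 hr).2.2
  have hord : orderOf (b' ^ (orderOf b' / r)) = r := orderOf_pow_orderOf_div hord0 hrb
  set e := orderOf b' / r with he
  have hpi : ∀ k : ℕ, ((B ^ k : Matrix.SpecialLinearGroup (Fin n) F) :
      Matrix.ProjectiveSpecialLinearGroup (Fin n) F) = b' ^ k := by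
    intro k
    rw [QuotientGroup.mk_pow]
  have hDr : (((B ^ e) ^ r : Matrix.SpecialLinearGroup (Fin n) F) :
      Matrix.ProjectiveSpecialLinearGroup (Fin n) F) = 1 := by
    rw [← pow_mul, hpi, pow_mul, ← hord]
    exact pow_orderOf_eq_one _
  obtain ⟨ζ, hζ0, hζ⟩ := hZ _ hDr
  set D : Matrix.SpecialLinearGroup (Fin n) F := (B ^ e) ^ (Fintype.card F - 1) with hD
  have hDm : (D : Matrix (Fin n) (Fin n) F) = (B : Matrix (Fin n) (Fin n) F) ^ (e * (Fintype.card F - 1)) := by
    rw [hD, ← pow_mul, Matrix.SpecialLinearGroup.coe_pow]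
  have hLr : (D : Matrix (Fin n) (Fin n) F) ^ r = 1 := by
    rw [hDm, ← pow_mul, mul_right_comm, pow_mul, ← Matrix.SpecialLinearGroup.coe_pow B (e * r), pow_mul,
      hζ, smul_pow, one_pow, FiniteField.pow_card_sub_one_eq_one ζ hζ0, one_smul]
  have hL1 : (D : Matrix (Fin n) (Fin n) F) ≠ 1 := by
    intro h
    have h1 : D = 1 := Subtype.ext h
    have h2 : (b' ^ e) ^ (Fintype.card F - 1) = 1 := by
      rw [← pow_mul, ← hpi, pow_mul, ← hD, h1]
      rfl
    have h3 : r ∣ Fintype.card F - 1 := hord ▸ orderOf_dvd_of_pow_eq_one h2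
    apply hd 1 le_rfl (by omega)
    rwa [pow_one, hqq]
  have hcommL : Commute (D : Matrix (Fin n) (Fin n) F) (U - 1) := by
    rw [hDm]
    exact ((hUB.symm.sub_right (Commute.one_right _)).pow_left _)
  let φ := Matrix.toLinAlgEquiv' (R := F) (n := Fin n)
  refine core (F := F) (V := Fin n → F) (φ (D : Matrix (Fin n) (Fin n) F)) (φ (U - 1)) r ?_ ?_ ?_ ?_ ?_
    hnq n hn (Module.finrank_fin_fun F) hd
  · rw [← map_pow, hLr, map_one]
  · intro h
    apply hL1
    apply φ.injective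
    rw [h, map_one]
  · exact hUn.map φ
  · intro h
    apply hU1
    have : U - 1 = 0 := φ.injective (by rw [h, map_zero])
    exact sub_eq_zero.1 this
  · exact hcommL.map φ

end Cfsg.Agent.S2364
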