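import Cfsg.Statements.S2365
import Mathlib
import Cfsg.Agent.Lib.Classical.Herm.PGUnitary

set_option autoImplicit false
open Cfsg
open Cfsg.Agent.Lib.Classical.Herm.PGUnitary Cfsg.Agent.Lib.Classical.Herm.PGRoots
open Cfsg.Agent.Lib.Classical.Herm.SU Cfsg.Agent.Lib.Classical.Herm.Basic

namespace Cfsg.Agent.S2365

/-- Let q be a power of the prime p, F the field with q² elements, m ≥ 4, and let a, b be commuting elements of PSU(m, q) with a of order p. Then every prime divisor of the order of b divides the order of SU(m − 2, q). -/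
theorem result {F : Type*} [Field F] [Fintype F] (p : ℕ) [Fact p.Prime] [CharP F p] (m q : ℕ) (hm : 4 ≤ m) (hF : Fintype.card F = q ^ 2)
    (a b : Cfsg.PSU m F q) (ha : orderOf a = p) (hab : Commute a b) :
    (orderOf b).primeFactors ⊆ (Nat.card ↥(Cfsg.SU (m - 2) F q)).primeFactors := by
  classical
  intro l hl
  rw [Nat.mem_primeFactors] at hl ⊢
  obtain ⟨hlp, hlb, hb0⟩ := hl
  haveI hl' : Fact l.Prime := ⟨hlp⟩
  have hp := (Fact.out : p.Prime)
  have hm2 : 2 ≤ m - 2 := by omega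
  refine ⟨hlp, ?_, Nat.card_pos.ne'⟩
  obtain ⟨k, hk⟩ := exists_pow_eq p hF
  have hq2 := two_le_q hF
  have hk0 : k ≠ 0 := by
    rintro rfl
    simp at hk
    omega
  have hpq : p ∣ q := by
    rw [hk]
    exact dvd_pow_self _ hk0
  by_cases hlq : l ∣ q
  · exact hlq.trans (q_dvd_card_SU hF hm2)
  by_cases hlq1 : l ∣ q + 1
  · have h1 := dvd_card_SU hF hm2 (j := 1) le_rfl (by omega)
    rw [if_neg (by decide)] at h1
    refine Dvd.dvd.trans ?_ h1
    refine hlq1.trans ⟨q - 1, ?_⟩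
    obtain ⟨r, rfl⟩ : ∃ r, q = r + 1 := ⟨q - 1, by omega⟩
    simp only [Nat.add_sub_cancel, Nat.reduceAdd]
    have : (r + 1) ^ 2 = (r + 1 + 1) * r + 1 := by ring
    omega
  have hpl : p ≠ l := by
    rintro rfl
    exact hlq hpq
  have hpq1 : ¬ p ∣ q + 1 := by
    intro h
    have h1 : p ∣ 1 := (Nat.dvd_add_right hpq).1 h
    exact hp.one_lt.ne' (Nat.dvd_one.1 h1)
  have hm1 : 1 ≤ m := by omega
  -- lifts
  have hZ := fun z hz => center_pow (q := q) (F := F) (n := m) hF hm1 z hz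
  obtain ⟨t, hta, htp⟩ := exists_lift_of_pow (Subgroup.center (SU m F q)) hZ a
    (by rw [← ha]; exact pow_orderOf_eq_one a) ((Nat.Prime.coprime_iff_not_dvd hp).2 hpq1)
  set b' := b ^ (orderOf b / l) with hb'
  have hb'o : orderOf b' = l := orderOf_pow_orderOf_div hb0 hlb
  obtain ⟨y, hyb, hyl⟩ := exists_lift_of_pow (Subgroup.center (SU m F q)) hZ b'
    (by rw [← hb'o]; exact pow_orderOf_eq_one b') ((Nat.Prime.coprime_iff_not_dvd hlp).2 hlq1)
  have hab' : Commute a b' := hab.pow_right _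
  -- the commutator is trivial
  set w : SU m F q := (y⁻¹ * t * y) * t⁻¹ with hw
  have hwz : w ∈ Subgroup.center (SU m F q) := by
    rw [← QuotientGroup.eq_one_iff]
    have h1 : ((w : SU m F q) : Cfsg.PSU m F q) = b'⁻¹ * a * b' * a⁻¹ := by
      rw [hw, ← hta, ← hyb]
      rfl
    rw [h1, mul_assoc b'⁻¹, hab'.eq]
    group
  have hwc : Commute w t := ((Subgroup.mem_center_iff.1 hwz t).symm)
  have hconj : y⁻¹ * t * y = w * t := by
    rw [hw]
    group
  have hwp : w ^ p = 1 := by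
    have h1 : (w * t) ^ p = w ^ p * t ^ p := hwc.mul_pow p
    rw [← hconj, htp, mul_one] at h1
    have h2 : (y⁻¹ * t * y) ^ p = y⁻¹ * t ^ p * y := by
      have h3 := conj_pow (a := y⁻¹) (b := t) (i := p)
      simpa using h3
    rw [h2, htp] at h1
    rw [← h1]
    group
  have hw1 : w = 1 := by
    have h1 := Nat.dvd_gcd (orderOf_dvd_of_pow_eq_one hwp) (orderOf_dvd_of_pow_eq_one (hZ w hwz))
    rw [((Nat.Prime.coprime_iff_not_dvd hp).2 hpq1).gcd_eq_one] at h1
    exact orderOf_eq_one_iff.1 (Nat.dvd_one.1 h1)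
  have hcomm : t * y = y * t := by
    rw [hw1, one_mul] at hconj
    calc t * y = y * (y⁻¹ * t * y) := by group
      _ = y * t := by rw [hconj]
  set A : Matrix (Fin m) (Fin m) F := ((y : Matrix.SpecialLinearGroup (Fin m) F) : Matrix (Fin m) (Fin m) F) with hA
  set U : Matrix (Fin m) (Fin m) F := ((t : Matrix.SpecialLinearGroup (Fin m) F) : Matrix (Fin m) (Fin m) F) with hU
  have hAU : U * A = A * U := congrArg (fun B : Cfsg.SU m F q => ((B : Matrix.SpecialLinearGroup (Fin m) F) : Matrix (Fin m) (Fin m) F)) hcomm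
  have hUp : U ^ p = 1 := congrArg (fun B : Cfsg.SU m F q => ((B : Matrix.SpecialLinearGroup (Fin m) F) : Matrix (Fin m) (Fin m) F)) htp
  have hAl : A ^ l = 1 := congrArg (fun B : Cfsg.SU m F q => ((B : Matrix.SpecialLinearGroup (Fin m) F) : Matrix (Fin m) (Fin m) F)) hyl
  have hU1 : U ≠ 1 := by
    intro h
    have h1 : t = 1 := Subtype.ext (Subtype.ext h)
    rw [h1] at hta
    have h2 : orderOf a = 1 := by rw [← hta]; exact orderOf_one
    rw [ha] at h2
    exact hp.one_lt.ne' h2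
  have hA1 : A ≠ 1 := by
    intro h
    have h1 : y = 1 := Subtype.ext (Subtype.ext h)
    rw [h1] at hyb
    have h2 : orderOf b' = 1 := by rw [← hyb]; exact orderOf_one
    rw [hb'o] at h2
    exact hlp.one_lt.ne' h2
  have hN := Cfsg.Agent.Lib.Classical.Herm.PGChar.isNilpotent_sub_one p hUp
  have hN0 : U - 1 ≠ 0 := sub_ne_zero.2 hU1
  have hc : A * (U - 1) = (U - 1) * A := by
    rw [mul_sub, sub_mul, mul_one, one_mul, hAU]
  obtain ⟨lam, hlam⟩ := exists_multiple_root hc hN hN0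
  have hlF : (l : F) ≠ 0 := by
    intro h
    exact hpl ((Nat.prime_dvd_prime_iff_eq hp hlp).1 ((CharP.cast_eq_zero_iff F p l).1 h))
  have hbound := order_bound hF (preserves_su y) hAl hA1 hlF hlq hlam
  have hepos := orderOf_neg_q_pos (ℓ := l) hlq
  have hkey : (-(q : ZMod l)) ^ orderOf (-(q : ZMod l)) = 1 := pow_orderOf_eq_one _
  set e := orderOf (-(q : ZMod l)) with he
  have he1 : e ≠ 1 := by
    intro h
    rw [h, pow_one] at hkey
    apply hlq1
    rw [← ZMod.natCast_eq_zero_iff]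
    push_cast
    rw [← neg_eq_iff_eq_neg.2 hkey.symm]
    ring
  obtain ⟨j, hj⟩ : ∃ j, e = j + 1 := ⟨e - 1, by omega⟩
  have h1 := dvd_card_SU hF hm2 (j := j) (by omega) (by omega)
  refine Dvd.dvd.trans ?_ h1
  rw [hj] at hkey
  rw [← ZMod.natCast_eq_zero_iff]
  by_cases hje : Even j
  · rw [if_pos hje]
    rw [Odd.neg_pow (by simpa using hje.add_one)] at hkey
    push_cast
    rw [← neg_eq_iff_eq_neg.2 hkey.symm]
    ring
  · rw [if_neg hje]
    rw [Even.neg_pow (by simpa [Nat.even_add_one] using hje)] at hkey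
    rw [Nat.cast_sub (Nat.one_le_pow _ _ (by omega))]
    push_cast
    rw [hkey]
    ring

end Cfsg.Agent.S2365
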