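import Cfsg.Statements.S2367
import Mathlib
-- import your own Cfsg.Agent.* helpers here

set_option autoImplicit false
open Cfsg

namespace Cfsg.Agent.S2367

/-- The 26 sporadic orders with the exact power of 2 in each. -/
def sporList : List (ℕ × ℕ) := [(7920, 4), (95040, 6), (443520, 7), (10200960, 7), (244823040, 10), (175560, 3), (604800, 7), (50232960, 7), (86775571046077562880, 21), (4157776806543360000, 21), (42305421312000, 18), (495766656000, 10), (64561751654400, 17), (4089470473293004800, 18), (1255205709190661721292800, 21), (44352000, 9), (898128000, 7), (4030387200, 10), (145926144000, 14), (448345497600, 13), (460815505920, 9), (273030912000000, 14), (51765179004000000, 8), (90745943887872000, 15), (4154781481226426191177580544000000, 41), (808017424794512875886459904961710757005754368000000000, 46)]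

/-- The odd primes dividing sporadic orders. -/
def primeList : List ℕ := [3, 5, 7, 11, 13, 17, 19, 23, 29, 31, 37, 41, 43, 47, 59, 67, 71]

theorem spor_check : ∀ x ∈ sporList, 2 ^ x.2 ∣ x.1 ∧ x.1 ∣ (2 * primeList.prod) ^ 64 ∧
    ∀ p ∈ primeList, p ^ 3 ∣ x.1 → ¬ p ^ 4 ∣ x.1 → p ^ 3 < 2 ^ x.2 := by
  decide +kernel

theorem primes_all : ∀ q ∈ primeList, q.Prime := by
  intro q hq
  simp only [primeList, List.mem_cons, List.not_mem_nil, or_false] at hq
  rcases hq with rfl | rfl | rfl | rfl | rfl | rfl | rfl | rfl | rfl | rfl | rfl | rfl | rfl | rfl | rfl | rfl | rfl <;> norm_num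

theorem spor_case {N a p : ℕ} (hx : (N, a) ∈ sporList) (hN : N ≠ 0) (hp : p.Prime) (hodd : p ≠ 2)
    (h3 : N.factorization p = 3) : p ^ 3 < 2 ^ N.factorization 2 := by
  obtain ⟨h1, h2, h4⟩ := spor_check _ hx
  simp only at h1 h2 h4
  have hd3 : p ^ 3 ∣ N := h3 ▸ Nat.ordProj_dvd N p
  have hd4 : ¬ p ^ 4 ∣ N := by
    have := Nat.pow_succ_factorization_not_dvd hN hp
    rwa [h3] at this
  have hpdvd : p ∣ (2 * primeList.prod) ^ 64 :=
    (Dvd.dvd.trans (dvd_pow_self p (by norm_num)) hd3).trans h2
  have hpdvd2 : p ∣ 2 * primeList.prod := hp.dvd_of_dvd_pow hpdvd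
  have hmem : p ∈ primeList := by
    rcases (Nat.Prime.dvd_mul hp).mp hpdvd2 with h | h
    · exact absurd ((Nat.prime_dvd_prime_iff_eq hp Nat.prime_two).mp h) hodd
    · obtain ⟨q, hq, hpq⟩ := (Prime.dvd_prod_iff hp.prime).mp h
      rwa [(Nat.prime_dvd_prime_iff_eq hp (primes_all q hq)).mp hpq]
  have hlt := h4 p hmem hd3 hd4
  have hle : a ≤ N.factorization 2 := (Nat.Prime.pow_dvd_iff_le_factorization Nat.prime_two hN).mp h1
  exact lt_of_lt_of_le hlt (Nat.pow_le_pow_right (by norm_num) hle)

theorem cube_lt (k : ℕ) : (k + 3) ^ 3 < 2 ^ (2 * k + 5) := by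
  induction k with
  | zero => norm_num
  | succ k ih =>
    have e : 2 ^ (2 * (k + 1) + 5) = 4 * 2 ^ (2 * k + 5) := by ring
    rw [e]
    have : (k + 1 + 3) ^ 3 ≤ 4 * (k + 3) ^ 3 := by
      nlinarith [Nat.zero_le (k ^ 3), Nat.zero_le (k ^ 2), Nat.zero_le k]
    omega

theorem legendre_two (n : ℕ) (hn : 4 ≤ n) : n / 2 + n / 4 ≤ padicValNat 2 n.factorial := by
  rw [padicValNat_factorial (b := Nat.log 2 n + 1) (Nat.lt_succ_self _)]
  have hlog : 2 ≤ Nat.log 2 n := by
    exact Nat.le_log_of_pow_le (by norm_num) (by omega)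
  have hsub : ({1, 2} : Finset ℕ) ⊆ Finset.Ico 1 (Nat.log 2 n + 1) := by
    intro i hi
    simp only [Finset.mem_insert, Finset.mem_singleton] at hi
    rw [Finset.mem_Ico]
    omega
  have := Finset.sum_le_sum_of_subset (f := fun i => n / 2 ^ i) hsub
  simpa using this

theorem legendre_p (p n : ℕ) [Fact p.Prime] (h3 : 3 ≤ p) (hn : n < 3 * p) :
    padicValNat p n.factorial ≤ 2 := by
  have hlog : Nat.log p n < 2 := by
    apply Nat.log_lt_of_lt_pow'
    · norm_num
    · calc n < 3 * p := hn
        _ ≤ p * p := Nat.mul_le_mul_right p h3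
        _ = p ^ 2 := by ring
  rw [padicValNat_factorial hlog]
  have : Finset.Ico 1 2 = {1} := rfl
  rw [this, Finset.sum_singleton, pow_one]
  have hp0 : 0 < p := by omega
  have : n / p < 3 := Nat.div_lt_of_lt_mul (by rwa [mul_comm] at hn)
  omega

theorem alt_case {G : Type*} [Group G] [Finite G] (n : ℕ) (hn : 5 ≤ n)
    (e : G ≃* alternatingGroup (Fin n)) (p : ℕ) (hp : p.Prime) (hodd : p ≠ 2)
    (h3 : (Nat.card G).factorization p = 3) :
    p ^ 3 < 2 ^ (Nat.card G).factorization 2 := by
  have : Fact p.Prime := ⟨hp⟩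
  have hc0 : Nat.card G ≠ 0 := Nat.card_pos.ne'
  have hcard : 2 * Nat.card G = n.factorial := by
    have h1 : Nat.card G = Nat.card (alternatingGroup (Fin n)) := Nat.card_congr e.toEquiv
    have : Nontrivial (Fin n) := Fin.nontrivial_iff_two_le.mpr (by omega)
    rw [h1, two_mul_nat_card_alternatingGroup, Nat.card_perm, Nat.card_fin]
  have hfac : ∀ q, q.Prime → (n.factorial).factorization q = (2 : ℕ).factorization q + (Nat.card G).factorization q := by
    intro q _
    rw [← hcard, Nat.factorization_mul (by norm_num) hc0]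
    rfl
  have hpn : padicValNat p n.factorial = 3 := by
    rw [← Nat.factorization_def _ hp, hfac p hp, h3]
    have : (2 : ℕ).factorization p = 0 :=
      Nat.factorization_eq_zero_of_not_dvd (fun h => hodd ((Nat.prime_dvd_prime_iff_eq hp Nat.prime_two).mp h))
    omega
  have hp3 : 3 ≤ p := by
    have := hp.two_le
    omega
  have hn3 : 3 * p ≤ n := by
    by_contra hlt
    have := legendre_p p n hp3 (not_le.mp hlt)
    omega
  have h2 : n / 2 + n / 4 ≤ padicValNat 2 n.factorial := legendre_two n (by omega)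
  have hv2 : padicValNat 2 n.factorial = 1 + (Nat.card G).factorization 2 := by
    rw [← Nat.factorization_def _ Nat.prime_two, hfac 2 Nat.prime_two, Nat.Prime.factorization_self Nat.prime_two]
  obtain ⟨k, rfl⟩ : ∃ k, p = k + 3 := ⟨p - 3, by omega⟩
  have hle : 2 * k + 5 ≤ (Nat.card G).factorization 2 := by omega
  exact lt_of_lt_of_le (cube_lt k) (Nat.pow_le_pow_right (by norm_num) hle)

/-- Let G be an alternating group of degree at least 5 or a simple group with the order of one of the 26 sporadic groups, and let p be an odd prime such that p³ is the exact power of p dividing the order of G. Then p³ is less than the 2-part of the order of G. -/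
theorem result {G : Type*} [Group G] [Finite G] (hG : Cfsg.IsAlternating G ∨ Cfsg.IsSporadic G)
    (p : ℕ) (hp : p.Prime) (hodd : p ≠ 2) (h3 : (Nat.card G).factorization p = 3) :
    p ^ 3 < 2 ^ (Nat.card G).factorization 2 := by
  rcases hG with ⟨n, hn, ⟨e⟩⟩ | hS
  · exact alt_case n hn e p hp hodd h3
  · have hmem : Nat.card G ∈ sporList.map Prod.fst := by
      unfold Cfsg.IsSporadic at hS
      rcases hS with h | h | h | h | h | h | h | h | h | h | h | h | h | h | h | h | h | h | h | h | h | h | h | h | h | h <;>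
        (rw [h.2]; decide +kernel)
    obtain ⟨⟨N, a⟩, hx, hN⟩ := List.mem_map.mp hmem
    simp only at hN
    rw [← hN] at h3 ⊢
    exact spor_case hx (by rw [hN]; exact Nat.card_pos.ne') hp hodd h3

end Cfsg.Agent.S2367
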