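import Cfsg.Statements.S2368
import Mathlib
import Cfsg.Agent.Lib.Linalg.Unipotent
-- import your own Cfsg.Agent.* helpers here

set_option autoImplicit false
open Cfsg

namespace Cfsg.Agent.S2368

/-- Let F be a finite field of characteristic p and m ≥ 1. Every element of GL(m, F) of p-power order has order less than p·m, and GL(m, F) has an element of p-power order at least m; so the largest order of a p-element of GL(m, F) is the least power of p that is at least m. -/
theorem result {F : Type*} [Field F] [Fintype F] (p : ℕ) [Fact p.Prime] [CharP F p] (m : ℕ) (hm : 1 ≤ m) :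
    (∀ g : Matrix.GeneralLinearGroup (Fin m) F, (∃ j : ℕ, orderOf g = p ^ j) → orderOf g < p * m) ∧
      ∃ g : Matrix.GeneralLinearGroup (Fin m) F, (∃ j : ℕ, orderOf g = p ^ j) ∧ m ≤ orderOf g := by
  classical
  have hp : p.Prime := Fact.out
  open Cfsg.Agent.Lib.Linalg.Unipotent in
  refine ⟨?_, ?_⟩
  · rintro g ⟨j, hj⟩
    have h1 := orderOf_le_of_isNilpotent p g (isNilpotent_of_orderOf_eq_pow p g hj)
    rw [Fintype.card_fin] at h1
    refine lt_of_le_of_lt h1 ?_
    rcases Nat.lt_or_ge 1 m with hm1 | hm1
    · have h2 := Nat.pow_pred_clog_lt_self hp.one_lt hm1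
      have h3 : 0 < Nat.clog p m := Nat.clog_pos hp.one_lt hm1
      calc p ^ Nat.clog p m = p * p ^ (Nat.clog p m).pred := by
            rw [← pow_succ']
            congr 1
            simp only [Nat.pred_eq_sub_one]
            omega
        _ < p * m := Nat.mul_lt_mul_of_pos_left h2 hp.pos
    · have hm2 : m = 1 := by omega
      subst hm2
      simp [hp.one_lt]
  · have hnil := Cfsg.Agent.Lib.Linalg.Unipotent.jordanNil_isNilpotent F m
    have hne := Cfsg.Agent.Lib.Linalg.Unipotent.jordanNil_pow_pred_ne_zero F m hm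
    have hs := Cfsg.Agent.Lib.Linalg.Unipotent.jordanBlock_sub_one F m
    have h2 := Cfsg.Agent.Lib.Linalg.Unipotent.orderOf_eq_of_isNilpotent_of_pow_ne_zero p
      (Cfsg.Agent.Lib.Linalg.Unipotent.jordanBlock F m) (by rw [hs]; exact hnil)
      (by rw [hs, Fintype.card_fin]; exact hne)
    rw [Fintype.card_fin] at h2
    refine ⟨_, ⟨_, h2⟩, ?_⟩
    rw [h2]
    exact Nat.le_pow_clog hp.one_lt m

end Cfsg.Agent.S2368
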