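import Cfsg.Statements.S2369
import Mathlib
import Cfsg.Agent.Lib.TF4.I2Par

set_option autoImplicit false
open Cfsg

namespace Cfsg.Agent.S2369

/-- Let q = 2^(2m+1) with m ≥ 1 and let a, b be commuting elements of the large Ree group ²F₄(q) with a an involution. Then every prime divisor of the order of b divides q(q⁴ − 1). -/
theorem result {K : Type*} [Field K] [Fintype K] (m : ℕ) (hm : 1 ≤ m) (hK : Fintype.card K = 2 ^ (2 * m + 1))
    (a b : ↥(Cfsg.Lie.twistedF4 K (2 ^ m))) (ha : orderOf a = 2) (hab : Commute a b) :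
    (orderOf b).primeFactors ⊆ (2 ^ (2 * m + 1) * ((2 ^ (2 * m + 1)) ^ 4 - 1)).primeFactors := by
  obtain ⟨hc, φ, hφ, hφ2, T, hρ, hτ⟩ := Cfsg.Agent.Lib.TF4.main_data (K := K) (m := m) hK
  have := hc
  obtain ⟨P, hB, hN, hS⟩ := Cfsg.Agent.Lib.TF4.exists_pair hφ2 hρ hτ hφ
  have hq : Nat.card K = 2 ^ (2 * m + 1) := by rw [Nat.card_eq_fintype_card, hK]
  have hq2 : 2 ≤ 2 ^ (2 * m + 1) := by
    calc 2 = 2 ^ 1 := rfl
      _ ≤ 2 ^ (2 * m + 1) := Nat.pow_le_pow_right (by norm_num) (by omega)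
  intro p hp
  obtain ⟨j, hj⟩ := Cfsg.Agent.Lib.TF4.I2.prime_dvd hφ2 hρ hτ hφ hB hN hS
    (by rw [hq]; exact (even_two).pow_of_ne_zero (by omega)) ha hab
  rw [hq] at hj
  have hpr := Nat.mem_primeFactors.1 hp
  exact Cfsg.Agent.Lib.TF4.I2.arith hpr.1 hpr.2.1 hq2 hj

end Cfsg.Agent.S2369
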