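import Cfsg.Statements.S2370
import Cfsg.Agent.Lib.ChevOrder.SylowU
import Cfsg.Agent.Lib.ChevBN.FastData
import Cfsg.Agent.Lib.Chevalley.Tbl.F4Sys

set_option autoImplicit false
open Cfsg

namespace Cfsg.Agent.S2370

open Cfsg.Lie Cfsg.Agent.Lib.ChevTri.Level Cfsg.Agent.Lib.ChevTri.Datum Cfsg.Agent.Lib.ChevBN.Elem

/-- The level of a root: its height on the fundamental roots, shifted by `11`. -/
def htF4 : Array ℕ := #[0, 1, 2, 3, 4, 5, 6, 4, 5, 6, 7, 7, 8, 9, 10, 6, 7, 8, 8, 9, 10, 9, 10, 10, 12, 12, 13, 12, 13, 14, 14, 15, 16, 12, 13, 14, 15, 15, 16, 17, 18, 16, 17, 18, 19, 20, 21, 22]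

/-- The level of a coordinate: the fundamental coroots sit between the negative and the positive roots. -/
def lvl : chevF4.Idx → ℕ
  | Sum.inl _ => 11
  | Sum.inr s => htF4.getD s.val 0

/-- The table facts on the level. -/
def check : Bool := (List.range 48).all fun r =>
  decide (htF4.getD r 0 < 32) &&
  (!decide (chevF4.IsPosRoot r) ||
    (decide (12 ≤ htF4.getD r 0) && decide (htF4.getD (chevF4.negIdx.getD r 0) 0 ≤ 10) &&
      (chevF4.chain.getD r #[]).toList.all fun e => e.2.toList.all fun q =>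
        decide (htF4.getD e.1 0 < htF4.getD q.1 0)))

theorem check_true : check = true := by decide +kernel

theorem check_spec {r : ℕ} (hr : r < 48) : htF4.getD r 0 < 32 ∧ (chevF4.IsPosRoot r →
    12 ≤ htF4.getD r 0 ∧ htF4.getD (chevF4.negIdx.getD r 0) 0 ≤ 10 ∧
      ∀ e ∈ (chevF4.chain.getD r #[]).toList, ∀ q ∈ e.2.toList,
        htF4.getD e.1 0 < htF4.getD q.1 0) := by
  have h := check_true
  simp only [check, List.all_eq_true, List.mem_range, Bool.and_eq_true, decide_eq_true_eq,
    Bool.or_eq_true, Bool.not_eq_true', decide_eq_false_iff_not] at h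
  obtain ⟨h1, h2⟩ := h r hr
  refine ⟨h1, fun hp => ?_⟩
  rcases h2 with h2 | h2
  · exact absurd hp h2
  · exact ⟨h2.1.1, h2.1.2, fun e he q hq => h2.2 e he q hq⟩

theorem lvl_lt (i : chevF4.Idx) : lvl i < 32 := by
  rcases i with i | s
  · simp only [lvl]; omega
  · exact (check_spec s.isLt).1

/-- For a positive root, `x_r(t) - 1` raises the level. -/
theorem xMat_sub_one_lvl {F : Type*} [Field F] {r : Fin chevF4.nroots}
    (hr : chevF4.IsPosRoot r.val) (t : F) : HasLevel lvl 1 (chevF4.xMat F r t - 1) := by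
  obtain ⟨h1, h2, h3⟩ := (check_spec r.isLt).2 hr
  intro row col hne
  rcases col with i | s
  · rcases row with i' | u
    · exfalso
      apply hne
      simp [ChevalleyDatum.xMat, Matrix.one_apply]
    · by_cases hu : u = r
      · subst hu
        simp only [lvl]
        omega
      · exfalso
        apply hne
        simp [ChevalleyDatum.xMat, hu]
  · by_cases hs : s = r
    · subst hs
      exfalso
      apply hne
      rcases row with i' | u
      · simp [ChevalleyDatum.xMat]
      · simp [ChevalleyDatum.xMat, Matrix.one_apply]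
    · by_cases hs2 : s.val = chevF4.negIdx.getD r.val 0
      · rcases row with i' | u
        · simp only [lvl]
          rw [hs2]
          omega
        · by_cases hu : u = s
          · subst hu
            exfalso
            apply hne
            have hs3 := hs2
            rw [Array.getD_eq_getD_getElem?] at hs3
            simp [ChevalleyDatum.xMat, hs, hs3]
          · by_cases hu2 : u = r
            · subst hu2
              simp only [lvl]
              rw [hs2]
              omega
            · exfalso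
              apply hne
              have hs3 := hs2
              rw [Array.getD_eq_getD_getElem?] at hs3
              simp [ChevalleyDatum.xMat, hs, hs3, hu, hu2]
      · rcases row with i' | u
        · exfalso
          apply hne
          have hs3 := hs2
          rw [Array.getD_eq_getD_getElem?] at hs3
          simp [ChevalleyDatum.xMat, hs, hs3]
        · have hne' : ((chevF4.chainCoeff r.val s.val u.val).map fun km =>
              ((km.2 : ℤ) : F) * t ^ km.1).sum ≠ 0 := by
            intro h0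
            apply hne
            simp only [ChevalleyDatum.xMat, Matrix.sub_apply, Matrix.of_apply, hs, hs2, if_false, h0,
              add_zero]
            by_cases hus : u = s
            · subst hus; simp
            · simp [hus]
          have hnil : chevF4.chainCoeff r.val s.val u.val ≠ [] := by
            intro hnil
            rw [hnil] at hne'
            simp at hne'
          obtain ⟨e, he, he1, q, hq, hq1⟩ := mem_chain_of_chainCoeff_ne_nil hnil
          have h4 := h3 e he q hq
          rw [he1, hq1] at h4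
          simp only [lvl]
          omega

/-- `U` lies in the unitriangular group of the level function. -/
theorem posUnipotent_le_lvl {F : Type*} [Field F] :
    chevF4.posUnipotent F ≤ utLevel (R := F) lvl 1 le_rfl := by
  rw [ChevalleyDatum.posUnipotent, Subgroup.closure_le]
  rintro g ⟨r, t, hr, hg⟩
  change HasLevel lvl 1 ((g : Matrix chevF4.Idx chevF4.Idx F) - 1)
  rw [hg, ChevalleyDatum.x, dif_pos hr.1]
  exact xMat_sub_one_lvl hr t

/-- An element of `U` in characteristic two has order dividing `32`. -/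
theorem pow_eq_one_of_mem_U {F : Type*} [Field F] [CharP F 2] {u : GL chevF4.Idx F}
    (hu : u ∈ chevF4.posUnipotent F) : u ^ 32 = 1 := by
  have h1 : HasLevel lvl 1 ((u : Matrix chevF4.Idx chevF4.Idx F) - 1) := posUnipotent_le_lvl hu
  have h2 := h1.pow_eq_zero le_rfl lvl_lt
  haveI : Fact (Nat.Prime 2) := ⟨Nat.prime_two⟩
  haveI : Nonempty chevF4.Idx := ⟨Sum.inr ⟨0, by decide⟩⟩
  haveI : CharP (Matrix chevF4.Idx chevF4.Idx F) 2 := inferInstance
  have h3 : ((u : Matrix chevF4.Idx chevF4.Idx F) - 1) ^ (2 ^ 5) =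
      (u : Matrix chevF4.Idx chevF4.Idx F) ^ (2 ^ 5) - 1 ^ (2 ^ 5) :=
    sub_pow_char_pow_of_commute (p := 2) (n := 5) (Commute.one_right _)
  norm_num at h2 h3
  rw [h2] at h3
  apply Units.ext
  rw [Units.val_pow_eq_pow_val, Units.val_one]
  exact (sub_eq_zero.1 h3.symm)

/-- If all elements of a Sylow `2`-subgroup have `u ^ n = 1`, so do all `2`-elements. -/
theorem sylow_pow {G : Type*} [Group G] [Finite G] [Fact (Nat.Prime 2)] (P : Sylow 2 G) (n : ℕ)
    (h : ∀ u ∈ (P : Subgroup G), u ^ n = 1) (y : G) (hy : ∃ j : ℕ, orderOf y = 2 ^ j) :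
    y ^ n = 1 := by
  obtain ⟨j, hj⟩ := hy
  have hpg : IsPGroup 2 (Subgroup.zpowers y) := by
    rw [IsPGroup.iff_card]
    exact ⟨j, by rw [Nat.card_zpowers, hj]⟩
  obtain ⟨Q, hQ⟩ := hpg.exists_le_sylow
  obtain ⟨g, rfl⟩ := MulAction.exists_smul_eq G P Q
  have hyQ : y ∈ ((g • P : Sylow 2 G) : Subgroup G) := hQ (Subgroup.mem_zpowers y)
  rw [Sylow.coe_subgroup_smul, Subgroup.mem_pointwise_smul_iff_inv_smul_mem] at hyQ
  have h1 := h _ hyQ
  have h2 : (MulAut.conj g)⁻¹ (y ^ n) = 1 := by
    rw [map_pow]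
    exact h1
  exact (map_eq_one_iff ((MulAut.conj g)⁻¹) (MulEquiv.injective _)).1 h2

theorem f4Words_lt {K : Type*} [Field K] (e : ℕ) {w : List (ℕ × K)} (hw : w ∈ f4Words K e) :
    ∀ p ∈ w, p.1 < chevF4.nroots := by
  have hn : chevF4.nroots = 48 := rfl
  rcases hw with ⟨t, rfl | rfl⟩ | ⟨t, u, rfl | rfl⟩
  all_goals
    intro p hp
    simp only [f4PairWord, b2ClassWord, List.mem_cons, List.not_mem_nil, or_false] at hp
    rw [hn]
    rcases hp with rfl | rfl | rfl | rfl <;> simp [f4p1, f4p4, f4m1, f4m4, f4a, f4b, f4ab, f4aab, f4ma, f4mb, f4mab, f4maab]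

/-- `²F₄` lies in `F₄`. -/
theorem twistedF4_le {K : Type*} [Field K] (e : ℕ) : twistedF4 K e ≤ chevF4.group K := by
  have hA := (Cfsg.Agent.Lib.Chevalley.Tbl.F4.sys (F := K)).toAddRel
  rw [twistedF4, ChevalleyDatum.genSubgroup, Subgroup.closure_le]
  rintro g ⟨w, hw, hg⟩
  have h1 : g = W hA w := Units.ext (by rw [hg, coe_W])
  rw [SetLike.mem_coe, h1, group_eq hA]
  exact W_mem_gen hA (f4Words_lt e hw)


/-- Let q = 2^(2m+1) with m ≥ 1. Every element of 2-power order of the large Ree group ²F₄(q) has order at most 32. -/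
theorem result {K : Type*} [Field K] [Fintype K] (m : ℕ) (hm : 1 ≤ m) (hK : Fintype.card K = 2 ^ (2 * m + 1))
    (x : ↥(Cfsg.Lie.twistedF4 K (2 ^ m))) (hx : ∃ j : ℕ, orderOf x = 2 ^ j) : orderOf x ≤ 32 := by
  classical
  have hp2 : Nat.Prime 2 := Nat.prime_two
  haveI : Fact (Nat.Prime 2) := ⟨hp2⟩
  haveI hchar : CharP K 2 := by
    obtain ⟨p, hp⟩ := CharP.exists K
    obtain ⟨n, hpp, hn⟩ := FiniteField.card K p
    have hd : p ∣ 2 ^ (2 * m + 1) := by
      rw [← hK, hn]
      exact dvd_pow_self _ n.ne_zero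
    have : p = 2 := (Nat.prime_dvd_prime_iff_eq hpp hp2).1 (hpp.dvd_of_dvd_pow hd)
    subst this
    exact hp
  have hR := Cfsg.Agent.Lib.Chevalley.Tbl.F4.sys (F := K)
  obtain ⟨P, hP⟩ := Cfsg.Agent.Lib.ChevOrder.SylowU.exists_sylow hR
    Cfsg.Agent.Lib.ChevBN.FastData.tbl_chevF4 2
  obtain ⟨j, hj⟩ := hx
  let y : ↥(chevF4.group K) := ⟨x.1, twistedF4_le _ x.2⟩
  have hy : orderOf y = orderOf x := by
    have h1 : orderOf y = orderOf (y : GL chevF4.Idx K) := (Subgroup.orderOf_coe y).symm
    have h2 : orderOf x = orderOf (x : GL chevF4.Idx K) := (Subgroup.orderOf_coe x).symm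
    rw [h1, h2]
  have hy32 : y ^ 32 = 1 := by
    refine sylow_pow P 32 ?_ y ⟨j, by rw [hy, hj]⟩
    intro u hu
    rw [hP, Subgroup.mem_subgroupOf] at hu
    apply Subtype.ext
    rw [Subgroup.coe_pow, pow_eq_one_of_mem_U hu]
    rfl
  have hd : orderOf x ∣ 32 := by
    rw [← hy]
    exact orderOf_dvd_of_pow_eq_one hy32
  exact Nat.le_of_dvd (by norm_num) hd

end Cfsg.Agent.S2370
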