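import Cfsg.Statements.S2371
import Cfsg.Agent.Lib.Classical.Lin.G2Field

set_option autoImplicit false
open Cfsg

namespace Cfsg.Agent.S2371

open Cfsg.Lie Matrix
open Cfsg.Agent.Lib.Classical.Lin.G2Sep Cfsg.Agent.Lib.Classical.Lin.G2Cov
open Cfsg.Agent.Lib.Classical.Lin.G2Grp Cfsg.Agent.Lib.Classical.Lin.G2Field

theorem cov_left {F : Type*} [Field F] {x : M14 F} {A A' B B' : M3 F} (h : Cov x A B)
    (h' : Cov x A' B') : A = A' := by
  apply Matrix.ext_iff_mulVec.2
  intro v
  have e1 := h.v_eq (nu 0 v 0)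
  have e2 := h'.v_eq (nu 0 v 0)
  rw [vof_nu] at e1 e2
  rw [← e1, ← e2]

/-- The group G₂(q), q ≥ 3, contains a cyclic subgroup of order q² + q + 1 which is its own centralizer. -/
theorem result {F : Type*} [Field F] [Fintype F] (q : ℕ) (hF : Fintype.card F = q) (hq : 3 ≤ q) :
    ∃ H : Subgroup ↥(Cfsg.Lie.chevG2.group F), IsCyclic ↥H ∧ Nat.card ↥H = q ^ 2 + q + 1 ∧
      Subgroup.centralizer (H : Set ↥(Cfsg.Lie.chevG2.group F)) = H := by
  subst hF
  obtain ⟨s, s', f, f', hS, hdet, hord, hcl⟩ := exists_data (F := F) hq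
  let M : SpecialLinearGroup (Fin 3) F := ⟨s, hdet⟩
  obtain ⟨x, hxG, hx⟩ := exists_sl M
  have hinv : ((M⁻¹ : SpecialLinearGroup (Fin 3) F) : Matrix (Fin 3) (Fin 3) F) = s' := by
    have h1 : ((M⁻¹ : SpecialLinearGroup (Fin 3) F) : Matrix (Fin 3) (Fin 3) F) * s = 1 := by
      have e := inv_mul_cancel M
      have := congrArg (fun N : SpecialLinearGroup (Fin 3) F => (N : Matrix (Fin 3) (Fin 3) F)) e
      exact this
    exact left_inv_eq_right_inv h1 hS.mul
  rw [hinv] at hx
  have hx' : Cov (x : M14 F) s s' := hx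
  let y : ↥(chevG2.group F) := ⟨x, hxG⟩
  have hyc : ∀ k : ℕ, ((y ^ k : ↥(chevG2.group F)) : GL chevG2.Idx F).1 = (x : M14 F) ^ k := by
    intro k
    simp [y]
  have hordy : orderOf y = Fintype.card F ^ 2 + Fintype.card F + 1 := by
    apply Nat.dvd_antisymm
    · apply orderOf_dvd_of_pow_eq_one
      apply Subtype.ext
      apply Units.ext
      rw [hyc]
      have h1 := hx'.pow (Fintype.card F ^ 2 + Fintype.card F + 1)
      rw [← hord, pow_orderOf_eq_one] at h1
      have h2 : s' ^ orderOf s = 1 := by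
        have : s ^ orderOf s * s' ^ orderOf s = 1 := by
          rw [← (show Commute s s' from hS.mul.trans hS.mul'.symm).mul_pow, hS.mul, one_pow]
        rwa [pow_orderOf_eq_one, one_mul] at this
      rw [← hord]
      rw [h2] at h1
      exact h1.eq Cov.one
    · rw [← hord]
      apply orderOf_dvd_of_pow_eq_one
      have h1 := hx'.pow (orderOf y)
      have h2 := hyc (orderOf y)
      rw [pow_orderOf_eq_one] at h2
      rw [← h2] at h1
      exact cov_left h1 Cov.one
  refine ⟨Subgroup.zpowers y, inferInstance, ?_, ?_⟩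
  · rw [Nat.card_zpowers, hordy]
  · ext g
    constructor
    · intro hg
      have hc : y * g = g * y := (Subgroup.mem_centralizer_iff.1 hg) y (Subgroup.mem_zpowers y)
      have hc' : ((g : GL chevG2.Idx F) : M14 F) * (x : M14 F) = (x : M14 F) * ((g : GL chevG2.Idx F) : M14 F) := by
        have := congrArg (fun z : ↥(chevG2.group F) => ((z : GL chevG2.Idx F) : M14 F)) hc
        exact this.symm
      obtain ⟨a, a', h1, h2, h3, h4, h5⟩ := comm_form hS hx' hc' g.2
      obtain ⟨k, rfl⟩ := hcl a h3 h4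
      have ha' : a' = s' ^ k := by
        have e : s' ^ k * s ^ k = 1 := by
          rw [← (show Commute s' s from hS.mul'.trans hS.mul.symm).mul_pow, hS.mul', one_pow]
        exact (left_inv_eq_right_inv e h1).symm
      subst ha'
      have e := h5.eq (hx'.pow k)
      have : g = y ^ k := by
        apply Subtype.ext
        apply Units.ext
        rw [hyc, e]
      rw [this]
      exact Subgroup.npow_mem_zpowers y k
    · intro hg
      rw [Subgroup.mem_centralizer_iff]
      intro h hh
      obtain ⟨i, rfl⟩ := Subgroup.mem_zpowers_iff.1 hg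
      obtain ⟨j, rfl⟩ := Subgroup.mem_zpowers_iff.1 hh
      exact (Commute.zpow_zpow_self y j i)

end Cfsg.Agent.S2371
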