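import Cfsg.Statements.S2372
import Cfsg.Agent.Lib.ChevTori.Final
import Cfsg.Agent.Lib.ChevOrder.Cert.F4
import Cfsg.Agent.Lib.Chevalley.Tbl.F4Sys
import Cfsg.Agent.Lib.ChevBN.FastData
-- import your own Cfsg.Agent.* helpers here

set_option autoImplicit false
open Cfsg

namespace Cfsg.Agent.S2372

open Polynomial Cfsg.Agent.Lib.ChevTori.Final Cfsg.Agent.Lib.Classical.Spectra.Ppd

theorem phi_eight (q : ℕ) : phi 8 q = q ^ 4 + 1 := by
  have h1 : cyclotomic 8 ℤ = expand ℤ 2 (cyclotomic 4 ℤ) :=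
    (cyclotomic_expand_eq_cyclotomic (n := 4) Nat.prime_two (by norm_num) ℤ).symm
  have h2 : cyclotomic 4 ℤ = expand ℤ 2 (cyclotomic 2 ℤ) :=
    (cyclotomic_expand_eq_cyclotomic (n := 2) Nat.prime_two (by norm_num) ℤ).symm
  rw [phi, h1, h2, expand_eval, expand_eval, cyclotomic_two]
  have : ((q : ℤ) ^ 2) ^ 2 = ((q ^ 4 : ℕ) : ℤ) := by
    push_cast
    ring
  simp only [eval_add, eval_X, eval_one, this]
  exact Int.natAbs_natCast (q ^ 4 + 1)

theorem prim_two : IsPrimitiveRoot ((2 : ℕ) : ZMod 17) 8 := by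
  apply IsPrimitiveRoot.mk_of_lt _ (by norm_num)
  · decide +kernel
  · intro l hl hl8
    interval_cases l <;> decide +kernel

theorem degs_check : ∀ ℓ ≤ 12, ℓ.Prime → 8 ∣ ℓ - 1 → ∀ e ∈ [2, 6, 8, 12], ¬ ℓ ∣ e := by
  decide +kernel

theorem hord (L : Type*) [Field L] [Finite L] {Q : ℕ} (hQ : Nat.card L = Q) :
    Nat.card (Cfsg.Lie.chevF4.group L) =
      Q ^ 24 * (([2, 6, 8, 12] : List ℕ).map fun e => Q ^ e - 1).prod := by
  have h := Cfsg.Agent.Lib.ChevOrder.Cert.F4.order (F := L)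
    Cfsg.Agent.Lib.ChevBN.FastData.tbl_chevF4 Cfsg.Agent.Lib.Chevalley.Tbl.F4.sys hQ
  rw [one_mul] at h
  rw [h]
  simp [mul_assoc]

/-- The group F₄(q) contains a cyclic subgroup of order q⁴ + 1 which is its own centralizer. -/
theorem result {F : Type*} [Field F] [Fintype F] (q : ℕ) (hF : Fintype.card F = q) :
    ∃ H : Subgroup ↥(Cfsg.Lie.chevF4.group F), IsCyclic ↥H ∧ Nat.card ↥H = q ^ 4 + 1 ∧
      Subgroup.centralizer (H : Set ↥(Cfsg.Lie.chevF4.group F)) = H := by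
  have hF' : Nat.card F = q := by rw [Nat.card_eq_fintype_card, hF]
  have hq : 2 ≤ q := by
    rw [← hF']
    exact Finite.one_lt_card
  obtain ⟨ℓ, hℓ, hprim⟩ := exists_ell (d := 8) (q := q) (by norm_num) hq
    ⟨17, by norm_num, prim_two⟩
  haveI : Fact ℓ.Prime := ⟨hℓ⟩
  have hdv : 8 ∣ ℓ - 1 := dvd_sub_one hprim (by norm_num)
  have := final (D := Cfsg.Lie.chevF4) (F := F) (q := q) (d := 8) (m := 24) (m' := 24)
    Cfsg.Agent.Lib.Chevalley.Tbl.F4.sys (fun L _ => Cfsg.Agent.Lib.Chevalley.Tbl.F4.sys)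
    Cfsg.Agent.Lib.ChevBN.FastData.tbl_chevF4 Cfsg.Agent.Lib.ChevFix.unimod_F4
    [2, 6, 8, 12] (by decide +kernel) hF' (by norm_num) (by decide +kernel) hℓ hprim
    (hord F hF') (fun L _ _ hL => hord L hL) ⟨8, by simp, dvd_rfl⟩ (by
      intro e he hle
      have h1 : e ≤ 12 := by
        simp only [List.mem_cons, List.not_mem_nil, or_false] at he
        omega
      have h2 : 0 < e := by
        simp only [List.mem_cons, List.not_mem_nil, or_false] at he
        omega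
      exact degs_check ℓ ((Nat.le_of_dvd h2 hle).trans h1) hℓ hdv e he hle)
  rwa [phi_eight] at this

end Cfsg.Agent.S2372
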