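import Cfsg.Statements.S2373
import Cfsg.Agent.Lib.ChevTori.E6W
-- import your own Cfsg.Agent.* helpers here

set_option autoImplicit false
open Cfsg

namespace Cfsg.Agent.S2373


open Polynomial Matrix
open Cfsg Cfsg.Lie Cfsg.Agent.Lib.ChevBN.Elem Cfsg.Agent.Lib.ChevBN.Entries Cfsg.Agent.Lib.ChevBN.Table
open Cfsg.Agent.Lib.ChevBN.Collect Cfsg.Agent.Lib.ChevBN.Rel Cfsg.Agent.Lib.ChevBN.Torus
open Cfsg.Agent.Lib.ChevBN.Monomial Cfsg.Agent.Lib.ChevBN.Core Cfsg.Agent.Lib.ChevBN.Pair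
open Cfsg.Agent.Lib.ChevBN.Stmts Cfsg.Agent.Lib.ChevBN.BruhatForm Cfsg.Agent.Lib.ChevBN.Opp
open Cfsg.Agent.Lib.ChevTri.Level Cfsg.Agent.Lib.ChevTri.Datum
open Cfsg.Agent.Lib.BNPair.Basic Cfsg.Agent.Lib.BNPair.Parabolic
open Cfsg.Agent.Lib.ChevOrder.BNCount Cfsg.Agent.Lib.ChevOrder.Chev
open Cfsg.Agent.Lib.ChevOrder.TorusCard Cfsg.Agent.Lib.ChevBN.Levi
open Cfsg.Agent.Lib.BNPair.CoxeterExchange Cfsg.Agent.Lib.StChar.Top
open Cfsg.Agent.Lib.ChevTori.Act Cfsg.Agent.Lib.ChevTori.LinAlg Cfsg.Agent.Lib.ChevTori.Lat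
open Cfsg.Agent.Lib.ChevFix Cfsg.Agent.Lib.ChevTori.Core Cfsg.Agent.Lib.ChevTori.Gram
open Cfsg.Agent.Lib.Steinberg.Gen Cfsg.Agent.Lib.ChevTori.StLift
open Cfsg.Agent.Lib.ChevTori.Main Cfsg.Agent.Lib.ChevTori.TorA Cfsg.Agent.Lib.ChevTori.E6
open Cfsg.Agent.Lib.ChevTori.Final Cfsg.Agent.Lib.ChevTori.Flow
open Cfsg.Agent.Lib.Classical.Spectra.Ppd

theorem prim_two : IsPrimitiveRoot ((2 : ℕ) : ZMod 13) 12 := by
  apply IsPrimitiveRoot.mk_of_lt _ (by norm_num)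
  · decide +kernel
  · intro l hl hl8
    interval_cases l <;> decide +kernel

theorem poly_dvd : P3 * P12 ∣ Polynomial.X ^ 12 - 1 :=
  ⟨(Polynomial.X - 1) * (Polynomial.X ^ 3 + 1) * (Polynomial.X ^ 2 + 1), by
    rw [P3, P12]
    ring⟩

theorem eval_N {q : ℕ} (hq : 1 ≤ q) :
    ((P3 * P12).eval (q : ℤ)).natAbs = (q ^ 4 - q ^ 2 + 1) * (q ^ 2 + q + 1) := by
  have h2 : q ^ 2 ≤ q ^ 4 := Nat.pow_le_pow_right hq (by norm_num)
  have h3 : (P3 * P12).eval (q : ℤ) = (((q ^ 4 - q ^ 2 + 1) * (q ^ 2 + q + 1) : ℕ) : ℤ) := by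
    simp only [P3, P12, eval_mul, eval_add, eval_sub, eval_pow, eval_X, eval_one]
    push_cast [Nat.cast_sub h2]
    ring
  rw [h3, Int.natAbs_natCast]

theorem mod9 : ∀ x : ZMod 9, (x ^ 4 - x ^ 2 + 1) * (x ^ 2 + x + 1) ≠ 0 := by decide

theorem mod4 : ∀ x : ZMod 4, (x ^ 4 - x ^ 2 + 1) * (x ^ 2 + x + 1) ≠ 0 := by decide

theorem cast_N (R : Type*) [CommRing R] {q : ℕ} (hq : 1 ≤ q) :
    (((q ^ 4 - q ^ 2 + 1) * (q ^ 2 + q + 1) : ℕ) : R) =
      ((q : R) ^ 4 - (q : R) ^ 2 + 1) * ((q : R) ^ 2 + (q : R) + 1) := by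
  have h2 : q ^ 2 ≤ q ^ 4 := Nat.pow_le_pow_right hq (by norm_num)
  push_cast [Nat.cast_sub h2]
  ring

theorem sq_free {q : ℕ} (hq : 1 ≤ q) (s : ℕ) (hs : s.Prime) (h12 : s ∣ 12) :
    ¬ s ^ 2 ∣ (q ^ 4 - q ^ 2 + 1) * (q ^ 2 + q + 1) := by
  have h : s = 2 ∨ s = 3 := by
    have h1 : s ∣ 2 ^ 2 * 3 := h12
    rcases (Nat.Prime.dvd_mul hs).1 h1 with h2 | h2
    · left
      exact (Nat.prime_dvd_prime_iff_eq hs Nat.prime_two).1 (hs.dvd_of_dvd_pow h2)
    · right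
      exact (Nat.prime_dvd_prime_iff_eq hs Nat.prime_three).1 h2
  intro hd
  rcases h with rfl | rfl
  · have h1 := (ZMod.natCast_eq_zero_iff _ 4).2 hd
    rw [cast_N _ hq] at h1
    exact mod4 _ h1
  · have h1 := (ZMod.natCast_eq_zero_iff _ 9).2 hd
    rw [cast_N _ hq] at h1
    exact mod9 _ h1

/-- The main theorem with the extension field given. -/
theorem core {F K : Type*} [Field F] [Field K] [Finite F] [Finite K] [Algebra F K]
    (dF : Dat chevE6 F eta6) (dK : Dat chevE6 K eta6) {q : ℕ} (hF : Nat.card F = q)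
    (hK : Nat.card K = q ^ 12) {ℓ : ℕ} (hℓ : ℓ.Prime) (hprim : IsPrimitiveRoot (q : ZMod ℓ) 12) :
    ∃ H : Subgroup ↥(chevE6.group F), IsCyclic ↥H ∧
      Nat.card ↥H = (q ^ 4 - q ^ 2 + 1) * (q ^ 2 + q + 1) / Nat.gcd 3 (q - 1) ∧
      Subgroup.centralizer (H : Set ↥(chevE6.group F)) = H := by
  classical
  haveI hℓf : Fact ℓ.Prime := ⟨hℓ⟩
  haveI : Fintype F := Fintype.ofFinite F
  have hq : 2 ≤ q := by
    rw [← hF]
    exact Finite.one_lt_card
  have hdv : 12 ∣ ℓ - 1 := dvd_sub_one hprim (by norm_num)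
  have hℓ13 : 13 ≤ ℓ := by
    have h1 := hℓ.two_le
    have h2 := Nat.le_of_dvd (by omega) hdv
    omega
  have hdegs : ∀ e ∈ [2, 5, 6, 8, 9, 12], ¬ ℓ ∣ e := by
    intro e he hle
    simp only [List.mem_cons, List.not_mem_nil, or_false] at he
    have h1 : 0 < e := by omega
    have h2 := Nat.le_of_dvd h1 hle
    omega
  have hℓ3 : ¬ ℓ ∣ Nat.gcd 3 (q - 1) := by
    intro h
    have h1 := Nat.le_of_dvd (Nat.gcd_pos_of_pos_left _ (by norm_num)) h
    have h2 : Nat.gcd 3 (q - 1) ≤ 3 := Nat.gcd_le_left _ (by norm_num)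
    omega
  have hℓQ : ℓ ∣ q ^ 12 - 1 := by
    have h1 : (q : ZMod ℓ) ^ 12 = 1 := hprim.pow_eq_one
    rw [← ZMod.natCast_eq_zero_iff, Nat.cast_sub (Nat.one_le_pow _ _ (by omega))]
    push_cast
    rw [h1, sub_self]
  have hord := Cfsg.Agent.Lib.ChevOrder.Cert.E6.order dF.hT dF.hR hF
  have hℓG : ℓ ∣ Nat.card (chevE6.group F) := by
    have h1 : ℓ ∣ Nat.gcd 3 (q - 1) * Nat.card (chevE6.group F) := by
      rw [hord]
      exact Dvd.dvd.mul_left hℓQ _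
    exact ((Nat.Prime.dvd_mul hℓ).1 h1).resolve_left hℓ3
  obtain ⟨x, hx⟩ := exists_prime_orderOf_dvd_card' ℓ hℓG
  have hcardF : Fintype.card F = q := by
    rw [← Nat.card_eq_fintype_card, hF]
  let σ : K →+* K := ((FiniteField.frobeniusAlgHom F K : K →ₐ[F] K) : K →+* K)
  have hσ : ∀ a : K, σ a = a ^ q := by
    intro a
    show (FiniteField.frobeniusAlgHom F K) a = a ^ q
    rw [FiniteField.coe_frobeniusAlgHom, hcardF]
  have hfix : ∀ a : F, σ (algebraMap F K a) = algebraMap F K a := fun a =>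
    (FiniteField.frobeniusAlgHom F K).commutes a
  have hrange : ∀ t, σ t = t → ∃ s, algebraMap F K s = t := fun t ht =>
    range_of_fix hF (by rw [← hσ]; exact ht)
  have hprim' : IsPrimitiveRoot (((q : ℕ) : ℤ) : ZMod ℓ) 12 := by
    simpa using hprim
  have hℓK : ℓ ∣ Nat.card Kˣ := by
    rw [Nat.card_units, hK]
    exact hℓQ
  have hind := Cfsg.Agent.Lib.ChevTori.E6.not_dvd_index dK.hR dK.hT hK hℓQ hdegs
  have hℓW : ¬ ℓ ∣ Nat.card (WW (pair dK.hR dK.hT)) := fun h =>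
    hind (h.trans (card_W_dvd dK.hR dK.hT))
  have hco : Nat.Coprime 3 ℓ := by
    rw [Nat.coprime_comm, Nat.Prime.coprime_iff_not_dvd hℓ]
    intro h
    have := Nat.le_of_dvd (by norm_num) h
    omega
  obtain ⟨M, ⟨hchar, hMz⟩, f, hsurj, hker⟩ := exists_centralizer' dF dK (algebraMap F K) σ hσ hfix
    hrange (hp_inj dK) (d₀ := 3) hco (fun c hc => hexp3 dK.hR dK.hT c hc) hℓK hind
    (fun M => M.charpoly = P3 * P12 ∧ red 3 (M *ᵥ zV) = red 3 zV)
    (fun w₀ b hb hMb => by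
      obtain ⟨h1, h2⟩ := weyl dK.hR dK.hT hℓW hprim' w₀ b hb hMb
      exact ⟨⟨h1, red_zV_fix _ _ w₀⟩, h2⟩) x hx
  have hN := eval_N (q := q) (by omega)
  have hA : Nat.card (actM (μ := Kˣ) (M - (q : ℤ) • 1)).ker =
      (q ^ 4 - q ^ 2 + 1) * (q ^ 2 + q + 1) := by
    rw [← hN]
    exact card_A (n := 12) (by norm_num) hq hK hchar poly_dvd
  have hAcyc : IsCyclic (actM (μ := Kˣ) (M - (q : ℤ) • 1)).ker :=
    cyclic_A (n := 12) (by norm_num) hq hK hchar poly_dvd (by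
      intro s hs h12
      rw [hN]
      exact sq_free (by omega) s hs h12)
  have hcyc : IsCyclic ↥(Subgroup.centralizer ({x} : Set ↥(chevE6.group F))) :=
    isCyclic_of_surjective f hsurj
  have hZ := card_Z dK.hR dK.hT hMz hq hK f.ker (fun a => by
    rw [MonoidHom.mem_ker]
    exact hker a)
  refine ⟨Subgroup.centralizer ({x} : Set ↥(chevE6.group F)), hcyc, ?_, ?_⟩
  · have h1 := Subgroup.card_mul_index f.ker
    rw [hZ, Subgroup.index_ker, MonoidHom.range_eq_top.mpr hsurj, Subgroup.card_top, hA] at h1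
    exact Nat.eq_div_of_mul_eq_right (Nat.gcd_ne_zero_left (by norm_num)) h1
  · have hxmem : x ∈ Subgroup.centralizer ({x} : Set ↥(chevE6.group F)) := by
      rw [Subgroup.mem_centralizer_iff]
      intro h hh
      rw [Set.mem_singleton_iff] at hh
      rw [hh]
    apply le_antisymm
    · intro z hz
      rw [Subgroup.mem_centralizer_iff] at hz ⊢
      intro h hh
      rw [Set.mem_singleton_iff] at hh
      rw [hh]
      exact hz x hxmem
    · intro z hz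
      rw [Subgroup.mem_centralizer_iff]
      intro h hh
      letI := @IsCyclic.commGroup _ _ hcyc
      have h1 := mul_comm (⟨h, hh⟩ : ↥(Subgroup.centralizer ({x} : Set ↥(chevE6.group F)))) ⟨z, hz⟩
      exact congrArg Subtype.val h1

/-- The group E₆(q) (the simple Chevalley group of type E₆) contains a cyclic subgroup of order (q⁴ − q² + 1)(q² + q + 1)/gcd(3, q − 1) which is its own centralizer. -/
theorem result {F : Type*} [Field F] [Fintype F] (q : ℕ) (hF : Fintype.card F = q) :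
    ∃ H : Subgroup ↥(Cfsg.Lie.chevE6.group F), IsCyclic ↥H ∧ Nat.card ↥H = (q ^ 4 - q ^ 2 + 1) * (q ^ 2 + q + 1) / Nat.gcd 3 (q - 1) ∧
      Subgroup.centralizer (H : Set ↥(Cfsg.Lie.chevE6.group F)) = H := by
  have hF' : Nat.card F = q := by rw [Nat.card_eq_fintype_card, hF]
  have hq : 2 ≤ q := by
    rw [← hF']
    exact Finite.one_lt_card
  obtain ⟨ℓ, hℓ, hprim⟩ := exists_ell (d := 12) (q := q) (by norm_num) hq
    ⟨13, by norm_num, prim_two⟩
  obtain ⟨p, hp⟩ := CharP.exists F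
  haveI : Fact p.Prime := ⟨CharP.char_is_prime F p⟩
  have hK : Nat.card (FiniteField.Extension F p 12) = q ^ 12 := by
    rw [FiniteField.natCard_extension, hF']
  exact core (datE6 F) (datE6 _) hF' hK hℓ hprim

end Cfsg.Agent.S2373
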