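import Cfsg.Statements.S2374
import Cfsg.Agent.Lib.ChevTori.E7C
-- import your own Cfsg.Agent.* helpers here

set_option autoImplicit false
open Cfsg

namespace Cfsg.Agent.S2374

open Polynomial Matrix
open Cfsg Cfsg.Lie Cfsg.Agent.Lib.ChevBN.Elem Cfsg.Agent.Lib.ChevBN.Entries Cfsg.Agent.Lib.ChevBN.Table
open Cfsg.Agent.Lib.ChevBN.Collect Cfsg.Agent.Lib.ChevBN.Rel Cfsg.Agent.Lib.ChevBN.Torus
open Cfsg.Agent.Lib.ChevBN.Monomial Cfsg.Agent.Lib.ChevBN.Core Cfsg.Agent.Lib.ChevBN.Pair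
open Cfsg.Agent.Lib.ChevBN.Stmts Cfsg.Agent.Lib.ChevBN.BruhatForm Cfsg.Agent.Lib.ChevBN.Opp
open Cfsg.Agent.Lib.ChevTri.Level Cfsg.Agent.Lib.ChevTri.Datum
open Cfsg.Agent.Lib.BNPair.Basic Cfsg.Agent.Lib.BNPair.Parabolic
open Cfsg.Agent.Lib.ChevOrder.BNCount Cfsg.Agent.Lib.ChevOrder.Chev
open Cfsg.Agent.Lib.ChevOrder.TorusCard Cfsg.Agent.Lib.ChevBN.Levi
open Cfsg.Agent.Lib.BNPair.CoxeterExchange Cfsg.Agent.Lib.StChar.Top
open Cfsg.Agent.Lib.ChevTori.Act Cfsg.Agent.Lib.ChevTori.LinAlg Cfsg.Agent.Lib.ChevTori.Lat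
open Cfsg.Agent.Lib.ChevFix Cfsg.Agent.Lib.ChevTori.Core Cfsg.Agent.Lib.ChevTori.Gram
open Cfsg.Agent.Lib.Steinberg.Gen Cfsg.Agent.Lib.ChevTori.StLift
open Cfsg.Agent.Lib.ChevTori.Main Cfsg.Agent.Lib.ChevTori.TorA Cfsg.Agent.Lib.ChevTori.E7
open Cfsg.Agent.Lib.ChevTori.Final Cfsg.Agent.Lib.ChevTori.FlowReg
open Cfsg.Agent.Lib.ChevTori.E7L Cfsg.Agent.Lib.ChevTori.E7A Cfsg.Agent.Lib.ChevTori.E7P
open Cfsg.Agent.Lib.ChevTori.E7C
open Cfsg.Agent.Lib.Classical.Spectra.Ppd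

theorem prim_two : IsPrimitiveRoot ((2 : ℕ) : ZMod 13) 12 := by
  apply IsPrimitiveRoot.mk_of_lt _ (by norm_num)
  · decide +kernel
  · intro l hl hl8
    interval_cases l <;> decide +kernel

theorem eval_N {q : ℕ} (hq : 1 ≤ q) :
    (((Polynomial.X ^ 3 + 1) * P12 : ℤ[X]).eval (q : ℤ)).natAbs = (q ^ 4 - q ^ 2 + 1) * (q ^ 3 + 1) := by
  have h2 : q ^ 2 ≤ q ^ 4 := Nat.pow_le_pow_right hq (by norm_num)
  have h3 : ((Polynomial.X ^ 3 + 1) * P12 : ℤ[X]).eval (q : ℤ) = (((q ^ 4 - q ^ 2 + 1) * (q ^ 3 + 1) : ℕ) : ℤ) := by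
    simp only [P12, eval_mul, eval_add, eval_sub, eval_pow, eval_X, eval_one]
    push_cast [Nat.cast_sub h2]
    ring
  rw [h3, Int.natAbs_natCast]

set_option maxRecDepth 100000 in
/-- The main theorem with the extension field given. -/
theorem core {F K : Type*} [Field F] [Field K] [Finite F] [Finite K] [Algebra F K]
    (dF : Dat chevE7 F eta7) (dK : Dat chevE7 K eta7) {q : ℕ} (hF : Nat.card F = q)
    (hK : Nat.card K = q ^ 12) {ℓ : ℕ} (hℓ : ℓ.Prime) (hprim : IsPrimitiveRoot (q : ZMod ℓ) 12)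
    {ℓ₂ : ℕ} (hℓ₂ : ℓ₂.Prime) (hℓ₂2 : ℓ₂ ≠ 2) (hℓ₂q : ((q : ℤ) : ZMod ℓ₂) ^ 2 - ((q : ℤ) : ZMod ℓ₂) + 1 = 0) :
    ∃ H : Subgroup ↥(chevE7.group F), IsCyclic ↥H ∧
      Nat.card ↥H = (q ^ 4 - q ^ 2 + 1) * (q ^ 3 + 1) / Nat.gcd 2 (q - 1) ∧
      Subgroup.centralizer (H : Set ↥(chevE7.group F)) = H := by
  classical
  haveI hℓf : Fact ℓ.Prime := ⟨hℓ⟩
  haveI hℓ₂f : Fact ℓ₂.Prime := ⟨hℓ₂⟩
  haveI : Fintype F := Fintype.ofFinite F
  set ι : F →+* K := algebraMap F K with hι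
  have hq : 2 ≤ q := by
    rw [← hF]
    exact Finite.one_lt_card
  have hdv : 12 ∣ ℓ - 1 := dvd_sub_one hprim (by norm_num)
  have hℓ13 : 13 ≤ ℓ := by
    have h1 := hℓ.two_le
    have h2 := Nat.le_of_dvd (by omega) hdv
    omega
  have hdegs : ∀ e ∈ [2, 6, 8, 10, 12, 14, 18], ¬ ℓ ∣ e := by
    intro e he hle
    simp only [List.mem_cons, List.not_mem_nil, or_false] at he
    have h1 : 0 < e := by omega
    have h2 := Nat.le_of_dvd h1 hle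
    have h3 : e ≤ 18 := by omega
    have h4 : ℓ = 13 := by
      obtain ⟨k, hk⟩ := hdv
      omega
    rw [h4] at hle
    rcases he with rfl | rfl | rfl | rfl | rfl | rfl | rfl <;> omega
  have hℓ3 : ¬ ℓ ∣ Nat.gcd 2 (q - 1) := by
    intro h
    have h1 := Nat.le_of_dvd (Nat.gcd_pos_of_pos_left _ (by norm_num)) h
    have h2 : Nat.gcd 2 (q - 1) ≤ 2 := Nat.gcd_le_left _ (by norm_num)
    omega
  have hℓQ : ℓ ∣ q ^ 12 - 1 := by
    have h1 : (q : ZMod ℓ) ^ 12 = 1 := hprim.pow_eq_one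
    rw [← ZMod.natCast_eq_zero_iff, Nat.cast_sub (Nat.one_le_pow _ _ (by omega))]
    push_cast
    rw [h1, sub_self]
  have hord := Cfsg.Agent.Lib.ChevOrder.Cert.E7.order dF.hT dF.hR hF
  have hℓG : ℓ ∣ Nat.card (chevE7.group F) := by
    have h1 : ℓ ∣ Nat.gcd 2 (q - 1) * Nat.card (chevE7.group F) := by
      rw [hord]
      exact ((hℓQ.mul_left _).mul_right _).mul_right _
    exact ((Nat.Prime.dvd_mul hℓ).1 h1).resolve_left hℓ3
  obtain ⟨x₁, hx₁⟩ := exists_prime_orderOf_dvd_card' ℓ hℓG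
  have hcardF : Fintype.card F = q := by
    rw [← Nat.card_eq_fintype_card, hF]
  let σ : K →+* K := ((FiniteField.frobeniusAlgHom F K : K →ₐ[F] K) : K →+* K)
  have hσ : ∀ a : K, σ a = a ^ q := by
    intro a
    show (FiniteField.frobeniusAlgHom F K) a = a ^ q
    rw [FiniteField.coe_frobeniusAlgHom, hcardF]
  have hfix : ∀ a : F, σ (ι a) = ι a := fun a =>
    (FiniteField.frobeniusAlgHom F K).commutes a
  have hrange : ∀ t, σ t = t → ∃ s, ι s = t := fun t ht =>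
    range_of_fix hF (by rw [← hσ]; exact ht)
  have hprim' : IsPrimitiveRoot (((q : ℕ) : ℤ) : ZMod ℓ) 12 := by
    simpa using hprim
  have hℓK : ℓ ∣ Nat.card Kˣ := by
    rw [Nat.card_units, hK]
    exact hℓQ
  have hind := Cfsg.Agent.Lib.ChevTori.E7.not_dvd_index dK.hR dK.hT hK hℓQ hdegs
  have hℓW : ¬ ℓ ∣ Nat.card (WW (pair dK.hR dK.hT)) := fun h =>
    hind (h.trans (card_W_dvd dK.hR dK.hT))
  have hℓ2 : ℓ ≠ 2 := by omega
  have hco : Nat.Coprime 2 ℓ := by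
    rw [Nat.coprime_comm, Nat.Prime.coprime_iff_not_dvd hℓ]
    intro h
    have := Nat.le_of_dvd (by norm_num) h
    omega
  -- the element of order `ℓ`
  set hR := dK.hR with hhR
  set hT := dK.hT with hhT
  haveI : Finite (GL chevE7.Idx K) := inferInstance
  set x₀ : GL chevE7.Idx K := mp ι (x₁ : GL chevE7.Idx F) with hx₀
  have hx₀G : x₀ ∈ chevE7.group K := mp_group ι x₁.2
  have hxpow : (⟨x₀, hx₀G⟩ : ↥(chevE7.group K)) ^ ℓ = 1 := by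
    apply Subtype.ext
    show x₀ ^ ℓ = 1
    rw [hx₀, ← map_pow, ← Subgroup.coe_pow, ← hx₁, pow_orderOf_eq_one]
    simp
  have hx₀pow : x₀ ^ ℓ = 1 := congrArg Subtype.val hxpow
  obtain ⟨⟨g, hg⟩, hgH⟩ := exists_conj_mem ((chevE7.diagonalSubgroup K).subgroupOf (chevE7.group K)) hind hxpow
  have hgH' : g⁻¹ * x₀ * g ∈ chevE7.diagonalSubgroup K := Subgroup.mem_subgroupOf.mp hgH
  obtain ⟨c₀, hc₀⟩ := tmap_surj' hR hT hgH'
  set t : GL chevE7.Idx K := g⁻¹ * x₀ * g with ht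
  have htℓ : t ^ ℓ = 1 := by
    have e : t = (MulAut.conj g⁻¹).toMonoidHom x₀ := by
      simp [MulAut.conj_apply, ht]
    rw [e, ← map_pow, hx₀pow, map_one]
  obtain ⟨k, -, hk⟩ := Nat.exists_mul_mod_eq_one_of_coprime hco hℓ.one_lt
  set c := c₀ ^ (2 * k) with hc
  have hcℓ : c ^ ℓ = 1 := by
    have h1 : tmap hT hR (c₀ ^ ℓ) = 1 := by
      apply Subtype.ext
      rw [map_pow]
      show (tmap hT hR c₀ : GL chevE7.Idx K) ^ ℓ = 1
      rw [hc₀, htℓ]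
    have h2 := hexp2 hR hT _ h1
    rw [hc, ← pow_mul, show 2 * k * ℓ = ℓ * 2 * k by ring, pow_mul, pow_mul, h2, one_pow]
  have htc : (tmap hT hR c : GL chevE7.Idx K) = t := by
    rw [hc, map_pow]
    show (tmap hT hR c₀ : GL chevE7.Idx K) ^ (2 * k) = t
    rw [hc₀]
    have h1 : 2 * k = ℓ * ((2 * k) / ℓ) + 1 := by
      have := Nat.div_add_mod (2 * k) ℓ
      rw [hk] at this
      exact this.symm
    rw [h1, pow_succ, pow_mul, htℓ, one_pow, one_mul]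
  have hxt : x₀ = g * t * g⁻¹ := by
    rw [ht]
    group
  have hc1 : c ≠ 1 := by
    intro h1
    have h2 : t = 1 := by
      rw [← htc, h1, map_one]
      rfl
    have h3 : x₀ = 1 := by
      rw [hxt, h2]
      group
    have h4 : (x₁ : GL chevE7.Idx F) = 1 := by
      apply mp_injective ι
      rw [← hx₀, h3, map_one]
    have h5 : x₁ = 1 := Subtype.ext h4
    rw [h5, orderOf_one] at hx₁
    exact hℓ.one_lt.ne hx₁
  -- discrete logarithm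
  obtain ⟨ξ₁, hξ₁⟩ := exists_prime_orderOf_dvd_card' ℓ hℓK
  have hlog : ∀ a : Kˣ, a ^ ℓ = 1 → ∃ k : ℤ, ξ₁ ^ k = a := by
    intro a ha
    have hprimξ : IsPrimitiveRoot ξ₁ ℓ := by
      rw [← hξ₁]
      exact IsPrimitiveRoot.orderOf ξ₁
    haveI : NeZero ℓ := ⟨hℓ.ne_zero⟩
    have h1 : a ∈ Subgroup.zpowers ξ₁ := by
      rw [hprimξ.zpowers_eq, mem_rootsOfUnity]
      exact ha
    exact Subgroup.mem_zpowers_iff.mp h1
  choose b₁ hb₁ using fun j => hlog (c j) (by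
    have := congrFun hcℓ j
    simpa using this)
  have hcb : c = fun j => ξ₁ ^ b₁ j := by
    funext j
    exact (hb₁ j).symm
  have hb0 : ∀ {ξ : Kˣ} {m : ℕ} (hξ : orderOf ξ = m) (b : Fin chevE7.rank → ℤ),
      (fun j => ξ ^ b j) ≠ 1 → red m b ≠ 0 := by
    intro ξ m hξ b hne h0
    apply hne
    have h1 : (fun j => ξ ^ b j) = (fun j => ξ ^ (0 : Fin chevE7.rank → ℤ) j) := by
      rw [fun_zpow_eq_iff hξ, h0]
      funext i
      simp [red]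
    rw [h1]
    funext j
    simp
  have hb₁0 : red ℓ b₁ ≠ 0 := hb0 hξ₁ b₁ (by rw [← hcb]; exact hc1)
  -- the second element
  have hq3 : ((q : ℤ) : ZMod ℓ₂) ^ 3 = -1 := by
    linear_combination (((q : ℤ) : ZMod ℓ₂) + 1) * hℓ₂q
  have hcast3 : ((q ^ 3 + 1 : ℕ) : ZMod ℓ₂) = 0 := by
    have e : ((q : ℤ) : ZMod ℓ₂) = (q : ZMod ℓ₂) := by simp
    rw [e] at hq3
    push_cast
    rw [hq3]
    ring
  have hℓ₂K : ℓ₂ ∣ Nat.card Kˣ := by
    rw [Nat.card_units, hK]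
    have h1 : ℓ₂ ∣ q ^ 3 + 1 := (ZMod.natCast_eq_zero_iff _ _).mp hcast3
    have h2 : q ^ 3 + 1 ∣ q ^ 12 - 1 := by
      have h3 : q ^ 12 - 1 = (q ^ 3 + 1) * ((q ^ 3 - 1) * (q ^ 6 + 1)) := by
        have h4 : 1 ≤ q ^ 12 := Nat.one_le_pow _ _ (by omega)
        have h5 : 1 ≤ q ^ 3 := Nat.one_le_pow _ _ (by omega)
        zify [h4, h5]
        ring
      rw [h3]
      exact Dvd.intro _ rfl
    exact h1.trans h2
  obtain ⟨ξ, hξo⟩ := exists_prime_orderOf_dvd_card' ℓ₂ hℓ₂K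
  have hξ : ξ ^ (q ^ 3 + 1) = 1 := by
    rw [← orderOf_dvd_iff_pow_eq_one, hξo]
    exact (ZMod.natCast_eq_zero_iff _ _).mp hcast3
  have hξ2 : ξ ^ 2 ≠ 1 := by
    intro h
    have h1 := orderOf_dvd_of_pow_eq_one h
    rw [hξo] at h1
    exact hℓ₂2 ((Nat.prime_dvd_prime_iff_eq hℓ₂ Nat.prime_two).mp h1)
  have hσx : mp σ x₀ = x₀ := mp_comp_fix ι σ hfix _
  have hfixt : mp σ (g * (tmap hT hR (fun j => ξ₁ ^ b₁ j) : GL chevE7.Idx K) * g⁻¹) =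
      g * (tmap hT hR (fun j => ξ₁ ^ b₁ j) : GL chevE7.Idx K) * g⁻¹ := by
    rw [← hcb, htc, ← hxt, hσx]
  obtain ⟨z, hzG, b₂, hzt, hc₂1, hfz⟩ := exists_z dK σ hσ hq hK hℓ2 hℓW hprim' hξ₁ hb₁0 hg hfixt ξ hξ hξ2
  rw [← hcb, htc] at hzt
  set c₂ : Fin chevE7.rank → Kˣ := fun j => ξ ^ b₂ j with hc₂
  have hc₂ℓ : c₂ ^ ℓ₂ = 1 := by
    funext j
    simp only [Pi.pow_apply, Pi.one_apply, hc₂]
    rw [← zpow_natCast, ← _root_.zpow_mul, mul_comm, _root_.zpow_mul, zpow_natCast, ← hξo,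
      pow_orderOf_eq_one, _root_.one_zpow]
  set d : GL chevE7.Idx K := (tmap hT hR c₂ : GL chevE7.Idx K) with hd
  have hdℓ : d ^ ℓ₂ = 1 := by
    have h1 : d ^ ℓ₂ = (tmap hT hR (c₂ ^ ℓ₂) : GL chevE7.Idx K) := by
      rw [map_pow]
      rfl
    rw [h1, hc₂ℓ, map_one]
    rfl
  set x₂₀ : GL chevE7.Idx K := g * (z * d * z⁻¹) * g⁻¹ with hx₂₀
  have hdG : d ∈ chevE7.group K := H_le_G hR hT (tmap hT hR c₂).2
  have hx₂₀G : x₂₀ ∈ chevE7.group K :=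
    Subgroup.mul_mem _ (Subgroup.mul_mem _ hg (Subgroup.mul_mem _ (Subgroup.mul_mem _ hzG hdG)
      (Subgroup.inv_mem _ hzG))) (Subgroup.inv_mem _ hg)
  obtain ⟨k₂, hk₂⟩ : ∃ k₂, ℓ₂ = 2 * k₂ + 1 := by
    rcases hℓ₂.eq_two_or_odd' with h | h
    · exact absurd h hℓ₂2
    · obtain ⟨k₂, hk₂⟩ := h
      exact ⟨k₂, hk₂⟩
  have hx₂₀pow : x₂₀ ^ (2 * k₂ + 1) = 1 := by
    have e : x₂₀ = (MulAut.conj (g * z)).toMonoidHom d := by
      simp [MulAut.conj_apply, hx₂₀, mul_assoc]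
    rw [← hk₂, e, ← map_pow, hdℓ, map_one]
  have hmem := fix_mem dF dK ι σ hσ hfix hrange (hp_inj dK) hx₂₀G hfz hx₂₀pow
  obtain ⟨x₂, hx₂, hx₂e⟩ := hmem
  set x : ↥(chevE7.group F) := x₁ * ⟨x₂, hx₂⟩ with hx
  have hgz : g * z ∈ chevE7.group K := Subgroup.mul_mem _ hg hzG
  have hxg : mp ι (x : GL chevE7.Idx F) = (g * z) * (tmap hT hR (c * c₂) : GL chevE7.Idx K) * (g * z)⁻¹ := by
    have e1 : (tmap hT hR (c * c₂) : GL chevE7.Idx K) = t * d := by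
      rw [map_mul, ← htc]
      rfl
    have e2 : mp ι (x : GL chevE7.Idx F) = x₀ * x₂₀ := by
      rw [hx, Subgroup.coe_mul, map_mul]
      congr 1
    rw [e1, e2, hxt, hx₂₀]
    have e3 : g * t * g⁻¹ * (g * (z * d * z⁻¹) * g⁻¹) = g * (t * z) * d * z⁻¹ * g⁻¹ := by group
    rw [e3, hzt]
    group
  have hco₁₂ : Nat.Coprime ℓ ℓ₂ := by
    rw [Nat.coprime_primes hℓ hℓ₂]
    intro h
    subst h
    have e : ((q : ℤ) : ZMod ℓ) = (q : ZMod ℓ) := by simp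
    rw [e] at hq3
    have h1 : (q : ZMod ℓ) ^ 6 = 1 := by
      calc (q : ZMod ℓ) ^ 6 = ((q : ZMod ℓ) ^ 3) ^ 2 := by ring
        _ = 1 := by rw [hq3]; ring
    exact hprim.pow_ne_one_of_pos_of_lt (by norm_num) (by norm_num) h1
  have hcm : (c * c₂) ^ (ℓ * ℓ₂) = 1 := by
    rw [mul_pow, pow_mul, hcℓ, one_pow, one_mul, mul_comm, pow_mul, hc₂ℓ, one_pow]
  have hco' : Nat.Coprime 2 (ℓ * ℓ₂) := by
    apply Nat.Coprime.mul_right hco
    rw [Nat.coprime_comm, Nat.Prime.coprime_iff_not_dvd hℓ₂]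
    intro h
    exact hℓ₂2 ((Nat.prime_dvd_prime_iff_eq hℓ₂ Nat.prime_two).mp h)
  have hb₂0 : red ℓ₂ b₂ ≠ 0 := hb0 hξo b₂ hc₂1
  obtain ⟨M, ⟨hchar, hMz, hiso, r, hdat⟩, f, hsurj, hker⟩ := exists_centralizer₂ dF dK ι σ hσ hfix hrange (hp_inj dK)
    hco' (fun a ha => hexp2 dK.hR dK.hT a ha)
    (fun M => M.charpoly = (Polynomial.X ^ 3 + 1) * P12 ∧ red 2 (M *ᵥ zV) = red 2 zV ∧
      IsIso (Cfsg.Agent.Lib.ChevTori.Gram.gram chevE7) M ∧ ∃ r, Dat7 M r) x hgz (c * c₂) hcm hxg (by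
    intro w₀ hw
    have a1 := split_eq hco₁₂ hℓ.one_lt hcℓ hc₂ℓ (actM (matW hR hT w₀)) q hw
    have a2 := split_eq hco₁₂.symm hℓ₂.one_lt hc₂ℓ hcℓ (actM (matW hR hT w₀)) q (by
      rw [mul_comm c₂ c]
      exact hw)
    have hM₁ : red ℓ (matW hR hT w₀ *ᵥ b₁) = ((q : ℤ) : ZMod ℓ) • red ℓ b₁ := by
      rw [hcb, actM_zpow, pow_fun_zpow, fun_zpow_eq_iff hξ₁] at a1
      rw [a1, red_smul_eq]
    have hM₂ : red ℓ₂ (matW hR hT w₀ *ᵥ b₂) = ((q : ℤ) : ZMod ℓ₂) • red ℓ₂ b₂ := by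
      rw [hc₂, actM_zpow, pow_fun_zpow, fun_zpow_eq_iff hξo] at a2
      rw [a2, red_smul_eq]
    obtain ⟨⟨r, hd', hm3⟩, hχ, hstab⟩ := weyl7 hR hT hℓ2 hℓ₂2 hℓW hprim' hq3 w₀ hb₁0 hb₂0 hM₁ hM₂
    refine ⟨⟨hχ, red_zV_fix hR hT w₀, isIso hR hT hSL w₀, r, hd'⟩, fun u hu => hstab u ?_ ?_⟩
    · have a3 := split_eq hco₁₂ hℓ.one_lt hcℓ hc₂ℓ (actM (matW hR hT u)) 1 (by rw [pow_one]; exact hu)
      rw [pow_one, hcb, actM_zpow, fun_zpow_eq_iff hξ₁] at a3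
      exact a3
    · have a3 := split_eq hco₁₂.symm hℓ₂.one_lt hc₂ℓ hcℓ (actM (matW hR hT u)) 1 (by
        rw [pow_one, mul_comm c₂ c]
        exact hu)
      rw [pow_one, hc₂, actM_zpow, fun_zpow_eq_iff hξo] at a3
      exact a3)
  have hN := eval_N (q := q) (by omega)
  have hA : Nat.card (actM (μ := Kˣ) (M - (q : ℤ) • 1)).ker =
      (q ^ 4 - q ^ 2 + 1) * (q ^ 3 + 1) := by
    rw [← hN]
    exact card_A (n := 12) (by norm_num) hq hK hchar poly_dvd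
  have hAcyc : IsCyclic (actM (μ := Kˣ) (M - (q : ℤ) • 1)).ker :=
    cyclic_A' (n := 12) (by norm_num) hq hK hchar poly_dvd
      (fun s _ => eigen_bound hiso hchar hdat.star (fun _ => (q : ℤ)) s)
  have hcyc : IsCyclic ↥(Subgroup.centralizer ({x} : Set ↥(chevE7.group F))) :=
    isCyclic_of_surjective f hsurj
  have hZ := card_Z hR hT hMz hq hK f.ker (fun a => by
    rw [MonoidHom.mem_ker]
    exact hker a)
  refine ⟨Subgroup.centralizer ({x} : Set ↥(chevE7.group F)), hcyc, ?_, ?_⟩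
  · have h1 := Subgroup.card_mul_index f.ker
    rw [hZ, Subgroup.index_ker, MonoidHom.range_eq_top.mpr hsurj, Subgroup.card_top, hA] at h1
    exact Nat.eq_div_of_mul_eq_right (Nat.gcd_ne_zero_left (by norm_num)) h1
  · have hxmem : x ∈ Subgroup.centralizer ({x} : Set ↥(chevE7.group F)) := by
      rw [Subgroup.mem_centralizer_iff]
      intro h hh
      rw [Set.mem_singleton_iff] at hh
      rw [hh]
    apply le_antisymm
    · intro z hz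
      rw [Subgroup.mem_centralizer_iff] at hz ⊢
      intro h hh
      rw [Set.mem_singleton_iff] at hh
      rw [hh]
      exact hz x hxmem
    · intro z hz
      rw [Subgroup.mem_centralizer_iff]
      intro h hh
      letI := @IsCyclic.commGroup _ _ hcyc
      have h1 := mul_comm (⟨h, hh⟩ : ↥(Subgroup.centralizer ({x} : Set ↥(chevE7.group F)))) ⟨z, hz⟩
      exact congrArg Subtype.val h1

/-- The group E₇(q) (the simple Chevalley group of type E₇) contains a cyclic subgroup of order (q⁴ − q² + 1)(q³ + 1)/gcd(2, q − 1) which is its own centralizer. -/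
theorem result {F : Type*} [Field F] [Fintype F] (q : ℕ) (hF : Fintype.card F = q) :
    ∃ H : Subgroup ↥(Cfsg.Lie.chevE7.group F), IsCyclic ↥H ∧ Nat.card ↥H = (q ^ 4 - q ^ 2 + 1) * (q ^ 3 + 1) / Nat.gcd 2 (q - 1) ∧
      Subgroup.centralizer (H : Set ↥(Cfsg.Lie.chevE7.group F)) = H := by
  have hF' : Nat.card F = q := by rw [Nat.card_eq_fintype_card, hF]
  have hq : 2 ≤ q := by
    rw [← hF']
    exact Finite.one_lt_card
  obtain ⟨ℓ, hℓ, hprim⟩ := exists_ell (d := 12) (q := q) (by norm_num) hq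
    ⟨13, by norm_num, prim_two⟩
  obtain ⟨p, hp⟩ := CharP.exists F
  haveI : Fact p.Prime := ⟨CharP.char_is_prime F p⟩
  have hK : Nat.card (FiniteField.Extension F p 12) = q ^ 12 := by
    rw [FiniteField.natCard_extension, hF']
  -- an odd prime dividing `q² - q + 1`
  obtain ⟨ℓ₂, hℓ₂, hℓ₂2, hℓ₂q⟩ : ∃ ℓ₂ : ℕ, ℓ₂.Prime ∧ ℓ₂ ≠ 2 ∧
      ((q : ℤ) : ZMod ℓ₂) ^ 2 - ((q : ℤ) : ZMod ℓ₂) + 1 = 0 := by
    have hq1 : q ≤ q ^ 2 := Nat.le_self_pow (by norm_num) q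
    set N := q ^ 2 - q + 1 with hN
    have hN1 : N ≠ 1 := by
      have : q < q ^ 2 := by nlinarith
      omega
    have hodd : ¬ 2 ∣ N := by
      have h1 : 2 ∣ q ^ 2 - q := by
        rw [show q ^ 2 - q = q * (q - 1) by
          rw [Nat.mul_sub, mul_one, sq]]
        exact (Nat.even_mul_pred_self q).two_dvd
      omega
    refine ⟨N.minFac, Nat.minFac_prime hN1, ?_, ?_⟩
    · intro h
      exact hodd (h ▸ Nat.minFac_dvd N)
    · have h1 := (ZMod.natCast_eq_zero_iff N N.minFac).mpr (Nat.minFac_dvd N)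
      rw [hN] at h1
      push_cast [Nat.cast_sub hq1] at h1 ⊢
      exact h1
  exact core (datE7 F) (datE7 _) hF' hK hℓ hprim hℓ₂ hℓ₂2 hℓ₂q

end Cfsg.Agent.S2374
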