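import Cfsg.Statements.S2375
import Cfsg.Agent.Lib.ChevTori.Final
import Cfsg.Agent.Lib.ChevOrder.Cert.E8
import Cfsg.Agent.Lib.Chevalley.Tbl.E8Sys
import Cfsg.Agent.Lib.ChevBN.FastData
-- import your own Cfsg.Agent.* helpers here

set_option autoImplicit false
open Cfsg

namespace Cfsg.Agent.S2375

open Polynomial Cfsg.Agent.Lib.ChevTori.Final Cfsg.Agent.Lib.Classical.Spectra.Ppd

theorem cyc_five : cyclotomic 5 ℤ = X ^ 4 + X ^ 3 + X ^ 2 + X + 1 := by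
  haveI : Fact (Nat.Prime 5) := ⟨by norm_num⟩
  rw [cyclotomic_prime]
  simp [Finset.sum_range_succ]
  ring

theorem cyc_fifteen :
    cyclotomic 15 ℤ = X ^ 8 - X ^ 7 + X ^ 5 - X ^ 4 + X ^ 3 - X + 1 := by
  have h := cyclotomic_expand_eq_cyclotomic_mul (n := 5) (p := 3) Nat.prime_three (by norm_num) ℤ
  have h5 : (cyclotomic 5 ℤ) ≠ 0 := cyclotomic_ne_zero 5 ℤ
  apply mul_right_cancel₀ h5
  have h2 : cyclotomic 15 ℤ = cyclotomic (5 * 3) ℤ := rfl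
  rw [h2, ← h, cyc_five]
  simp only [map_add, map_pow, map_one, expand_X]
  ring

theorem cyc_thirty :
    cyclotomic 30 ℤ = X ^ 8 + X ^ 7 - X ^ 5 - X ^ 4 - X ^ 3 + X + 1 := by
  have h := cyclotomic_expand_eq_cyclotomic_mul (n := 15) (p := 2) Nat.prime_two (by norm_num) ℤ
  have h5 : (cyclotomic 15 ℤ) ≠ 0 := cyclotomic_ne_zero 15 ℤ
  apply mul_right_cancel₀ h5
  have h2 : cyclotomic 30 ℤ = cyclotomic (15 * 2) ℤ := rfl
  rw [h2, ← h, cyc_fifteen]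
  simp only [map_add, map_sub, map_pow, map_one, expand_X]
  ring

theorem phi_thirty (q : ℕ) (hq : 2 ≤ q) :
    phi 30 q = q ^ 8 + q ^ 7 - q ^ 5 - q ^ 4 - q ^ 3 + q + 1 := by
  have h1 : q ^ 5 ≤ q ^ 7 := Nat.pow_le_pow_right (by omega) (by norm_num)
  have h2 : q ^ 3 ≤ q ^ 4 := Nat.pow_le_pow_right (by omega) (by norm_num)
  have h3 : 2 * q ^ 4 ≤ q ^ 8 := by
    have h4 : q ^ 8 = q ^ 4 * q ^ 4 := by ring
    have h5 : 2 ≤ q ^ 4 := by
      calc 2 ≤ q := hq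
        _ = q ^ 1 := (pow_one q).symm
        _ ≤ q ^ 4 := Nat.pow_le_pow_right (by omega) (by norm_num)
    rw [h4]
    nlinarith
  have h6 : (((phi 30 q : ℕ)) : ℤ) = (q : ℤ) ^ 8 + (q : ℤ) ^ 7 - (q : ℤ) ^ 5 - (q : ℤ) ^ 4 -
      (q : ℤ) ^ 3 + (q : ℤ) + 1 := by
    rw [phi_cast (by norm_num), cyc_thirty]
    simp
  have h7 : (((phi 30 q : ℕ)) : ℤ) = ((q ^ 8 : ℕ) : ℤ) + ((q ^ 7 : ℕ) : ℤ) - ((q ^ 5 : ℕ) : ℤ) -
      ((q ^ 4 : ℕ) : ℤ) - ((q ^ 3 : ℕ) : ℤ) + (q : ℤ) + 1 := by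
    rw [h6]
    push_cast
    ring
  omega

theorem prim_two : IsPrimitiveRoot ((2 : ℕ) : ZMod 331) 30 := by
  haveI : Fact (Nat.Prime 331) := ⟨by norm_num⟩
  apply IsPrimitiveRoot.mk_of_lt _ (by norm_num)
  · decide +kernel
  · intro l hl hl8
    interval_cases l <;> decide +kernel

theorem degs_check : ∀ ℓ ≤ 30, ℓ.Prime → 30 ∣ ℓ - 1 → ∀ e ∈ [2, 8, 12, 14, 18, 20, 24, 30], ¬ ℓ ∣ e := by
  decide +kernel

theorem hord (L : Type*) [Field L] [Finite L] {Q : ℕ} (hQ : Nat.card L = Q) :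
    Nat.card (Cfsg.Lie.chevE8.group L) =
      Q ^ 120 * (([2, 8, 12, 14, 18, 20, 24, 30] : List ℕ).map fun e => Q ^ e - 1).prod := by
  have h := Cfsg.Agent.Lib.ChevOrder.Cert.E8.order (F := L)
    Cfsg.Agent.Lib.ChevBN.FastData.tbl_chevE8 Cfsg.Agent.Lib.Chevalley.Tbl.E8.sys hQ
  rw [one_mul] at h
  rw [h]
  simp [mul_assoc]

/-- The group E₈(q) contains a cyclic subgroup of order q⁸ + q⁷ − q⁵ − q⁴ − q³ + q + 1 which is its own centralizer. -/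
theorem result {F : Type*} [Field F] [Fintype F] (q : ℕ) (hF : Fintype.card F = q) :
    ∃ H : Subgroup ↥(Cfsg.Lie.chevE8.group F), IsCyclic ↥H ∧ Nat.card ↥H = q ^ 8 + q ^ 7 - q ^ 5 - q ^ 4 - q ^ 3 + q + 1 ∧
      Subgroup.centralizer (H : Set ↥(Cfsg.Lie.chevE8.group F)) = H := by
  have hF' : Nat.card F = q := by rw [Nat.card_eq_fintype_card, hF]
  have hq : 2 ≤ q := by
    rw [← hF']
    exact Finite.one_lt_card
  obtain ⟨ℓ, hℓ, hprim⟩ := exists_ell (d := 30) (q := q) (by norm_num) hq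
    ⟨331, by norm_num, prim_two⟩
  haveI : Fact ℓ.Prime := ⟨hℓ⟩
  have hdv : 30 ∣ ℓ - 1 := dvd_sub_one hprim (by norm_num)
  have := final (D := Cfsg.Lie.chevE8) (F := F) (q := q) (d := 30) (m := 120) (m' := 120)
    Cfsg.Agent.Lib.Chevalley.Tbl.E8.sys (fun L _ => Cfsg.Agent.Lib.Chevalley.Tbl.E8.sys)
    Cfsg.Agent.Lib.ChevBN.FastData.tbl_chevE8 Cfsg.Agent.Lib.ChevFix.unimod_E8
    [2, 8, 12, 14, 18, 20, 24, 30] (by decide +kernel) hF' (by norm_num) (by decide +kernel) hℓ hprim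
    (hord F hF') (fun L _ _ hL => hord L hL) ⟨30, by simp, dvd_rfl⟩ (by
      intro e he hle
      have h1 : e ≤ 30 := by
        simp only [List.mem_cons, List.not_mem_nil, or_false] at he
        omega
      have h2 : 0 < e := by
        simp only [List.mem_cons, List.not_mem_nil, or_false] at he
        omega
      exact degs_check ℓ ((Nat.le_of_dvd h2 hle).trans h1) hℓ hdv e he hle)
  rwa [phi_thirty q hq] at this

end Cfsg.Agent.S2375
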