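import Cfsg.Statements.S2376
import Cfsg.Agent.Lib.Classical.Lin.D4Tor5

set_option autoImplicit false
set_option linter.unusedSectionVars false
set_option linter.unusedVariables false
open Cfsg

namespace Cfsg.Agent.S2376

open Cfsg.Lie Matrix Polynomial
open Cfsg.Agent.Lib.ChevBN.Rel Cfsg.Agent.Lib.ChevBN.Elem
open Cfsg.Agent.Lib.Chevalley.Tbl.D4 (sys)
open Cfsg.Agent.Lib.Twisted
open Cfsg.Agent.Lib.Twisted.D4 (ρ0 ε0)
open Cfsg.Agent.Lib.Classical.Lin.D4Tor1 Cfsg.Agent.Lib.Classical.Lin.D4Tor2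
open Cfsg.Agent.Lib.Classical.Lin.D4Tor3 Cfsg.Agent.Lib.Classical.Lin.D4Tor4
open Cfsg.Agent.Lib.Classical.Lin.D4Tor5

theorem nat_id {q : ℕ} (hq : 2 ≤ q) : q ^ 6 - 1 = (q ^ 3 - 1) * (q + 1) * (q ^ 2 - q + 1) := by
  obtain ⟨s, rfl⟩ : ∃ s, q = s + 2 := ⟨q - 2, by omega⟩
  have e1 : (s + 2) ^ 3 - 1 = s ^ 3 + 6 * s ^ 2 + 12 * s + 7 := by
    apply Nat.sub_eq_of_eq_add
    ring
  have e2 : (s + 2) ^ 2 - (s + 2) + 1 = s ^ 2 + 3 * s + 3 := by
    have : (s + 2) ^ 2 - (s + 2) = s ^ 2 + 3 * s + 2 := by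
      apply Nat.sub_eq_of_eq_add
      ring
    rw [this]
  rw [e1, e2]
  apply Nat.sub_eq_of_eq_add
  ring

/-- Elements of the big field fixed by the `q³`-power map come from the small field. -/
theorem descend {K E : Type*} [Field K] [Field E] [Fintype K] (ι : K →+* E) {q : ℕ} (hq : 2 ≤ q)
    (hK : Fintype.card K = q ^ 3) {z : E} (hz : z ^ (q ^ 3) = z) : ∃ t : K, ι t = z := by
  classical
  set P : Polynomial E := Polynomial.X ^ (q ^ 3) - Polynomial.X with hP
  have hq3 : 1 < q ^ 3 := Nat.one_lt_pow (by norm_num) (by omega)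
  have hP0 : P ≠ 0 := FiniteField.X_pow_card_sub_X_ne_zero E hq3
  have hdeg : P.natDegree = q ^ 3 := FiniteField.X_pow_card_sub_X_natDegree_eq E hq3
  have hsub : Finset.univ.image ι ⊆ P.roots.toFinset := by
    intro w hw
    obtain ⟨t, -, rfl⟩ := Finset.mem_image.1 hw
    rw [Multiset.mem_toFinset, Polynomial.mem_roots hP0, Polynomial.IsRoot.def, hP]
    simp only [Polynomial.eval_sub, Polynomial.eval_pow, Polynomial.eval_X]
    rw [← map_pow, ← hK, FiniteField.pow_card, sub_self]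
  have hcard : (Finset.univ.image ι).card = q ^ 3 := by
    rw [Finset.card_image_of_injective _ ι.injective, Finset.card_univ, hK]
  have hle : P.roots.toFinset.card ≤ (Finset.univ.image ι).card := by
    rw [hcard, ← hdeg]
    exact (Multiset.toFinset_card_le _).trans (Polynomial.card_roots' P)
  have heq := Finset.eq_of_subset_of_card_le hsub hle
  have hzr : z ∈ P.roots.toFinset := by
    rw [Multiset.mem_toFinset, Polynomial.mem_roots hP0, Polynomial.IsRoot.def, hP]
    simp only [Polynomial.eval_sub, Polynomial.eval_pow, Polynomial.eval_X]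
    rw [hz, sub_self]
  rw [← heq] at hzr
  obtain ⟨t, -, ht⟩ := Finset.mem_image.1 hzr
  exact ⟨t, ht⟩

theorem simple_of {E : Type*} [Field E] {ξ : Eˣ} {Q : ℤ} (hd : ∀ d : ℤ, ξ ^ d = 1 → NN Q ∣ d) {r : Fin 24}
    (h : (∀ s : Fin 24, s ≠ r → ¬ NN Q ∣ EE Q r - EE Q s) ∧ ¬ NN Q ∣ EE Q r) :
    Simple (fun s : Fin 24 => ((ξ ^ EE Q s : Eˣ) : E)) r := by
  intro a ha
  rcases a with i | s
  · intro e
    apply h.2
    apply hd
    apply Units.ext
    exact e.symm
  · intro e
    have hs : s ≠ r := fun e' => ha (by rw [e'])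
    apply h.1 s hs
    apply hd
    have e' : ξ ^ EE Q s = ξ ^ EE Q r := Units.ext e
    rw [_root_.zpow_sub, e', mul_inv_cancel]

theorem sp' {Q : ℤ} (hQ : 2 ≤ Q) {r : Fin 24}
    (hr : (r : ℕ) ∈ ([18, 19, 13, 16, 12, 15, 5, 4, 10, 7, 11, 8] : List ℕ))
    (h3 : 3 ≤ Q → (∀ s : Fin 24, s ≠ r → ¬ NN Q ∣ EE Q r - EE Q s) ∧ ¬ NN Q ∣ EE Q r) :
    (∀ s : Fin 24, s ≠ r → ¬ NN Q ∣ EE Q r - EE Q s) ∧ ¬ NN Q ∣ EE Q r := by
  rcases eq_or_lt_of_le hQ with rfl | h
  · have h21 : NN 2 = 21 := by norm_num [NN]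
    rw [h21]
    have := sp_two r hr
    exact ⟨fun s hs => this.1 s (fun e => hs (Fin.ext e)), this.2⟩
  · exact h3 (by omega)

theorem cj_mul {K E : Type*} [Field K] [Field E] (ι : K →+* E) (C : GL chevD4.Idx E)
    (g h : GL chevD4.Idx K) : cj ι C (g * h) = cj ι C g * cj ι C h := by
  simp only [cj, map_mul]
  group

theorem cj_one {K E : Type*} [Field K] [Field E] (ι : K →+* E) (C : GL chevD4.Idx E) :
    cj ι C (1 : GL chevD4.Idx K) = 1 := by
  simp only [cj, map_one, mul_one, mul_inv_cancel]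

theorem cj_pow {K E : Type*} [Field K] [Field E] (ι : K →+* E) (C : GL chevD4.Idx E)
    (g : GL chevD4.Idx K) (n : ℕ) : cj ι C (g ^ n) = cj ι C g ^ n := by
  induction n with
  | zero => simp only [pow_zero, cj_one]
  | succ n ih => rw [pow_succ, pow_succ, cj_mul, ih]

theorem cj_eq_one {K E : Type*} [Field K] [Field E] (ι : K →+* E) (C : GL chevD4.Idx E)
    {g : GL chevD4.Idx K} (h : cj ι C g = 1) : g = 1 := by
  apply mp_inj ι
  rw [map_one]
  have h1 : C * mp ι g = C := by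
    have := congrArg (· * C) h
    simpa [cj] using this
  exact mul_left_cancel (h1.trans (mul_one C).symm)

theorem ln_one {F : Type*} [Field F] (a : chevD4.Idx) : Ln (1 : M28 F) a 1 := by
  rw [Ln, Matrix.one_mulVec, one_smul]

theorem ln_mul {F : Type*} [Field F] {g h : M28 F} {a : chevD4.Idx} {k k' : F} (hg : Ln g a k)
    (hh : Ln h a k') : Ln (g * h) a (k' * k) := by
  rw [Ln, ← Matrix.mulVec_mulVec, hh, Matrix.mulVec_smul, hg, smul_smul]

theorem ln_pow {F : Type*} [Field F] {g : M28 F} {a : chevD4.Idx} {k : F} (hg : Ln g a k) (n : ℕ) :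
    Ln (g ^ n) a (k ^ n) := by
  induction n with
  | zero => simpa using ln_one a
  | succ n ih =>
    have := ln_mul ih hg
    rwa [← pow_succ, ← pow_succ'] at this

theorem dg_pow {F : Type*} [Field F] (μ : Fin 24 → F) (n : ℕ) :
    (dgMat chevD4 μ) ^ n = dgMat chevD4 (fun s : Fin 24 => μ s ^ n) := by
  have e : dgMat chevD4 (fun s : Fin 24 => μ s ^ n) =
      Matrix.diagonal (Cfsg.Agent.Lib.Classical.Lin.D4Tor2.mt (fun s : Fin 24 => μ s ^ n)) := rfl
  rw [e, dgMat_eq, Matrix.diagonal_pow]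
  congr 1
  funext a
  rcases a with i | s
  · exact one_pow n
  · rfl

theorem dg_one {F : Type*} [Field F] {μ : Fin 24 → F} (h : ∀ s, μ s = 1) :
    dgMat chevD4 μ = 1 := by
  rw [dgMat_eq, ← Matrix.diagonal_one]
  congr 1
  funext a
  rcases a with i | s
  · rfl
  · exact h s

/-- The group ³D₄(q) contains a cyclic subgroup of order (q³ − 1)(q + 1) which is its own centralizer. -/
theorem result {K : Type*} [Field K] [Fintype K] (q : ℕ) (hq : IsPrimePow q) (hK : Fintype.card K = q ^ 3) :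
    ∃ H : Subgroup ↥(Cfsg.Lie.twistedD4 K q), IsCyclic ↥H ∧ Nat.card ↥H = (q ^ 3 - 1) * (q + 1) ∧
      Subgroup.centralizer (H : Set ↥(Cfsg.Lie.twistedD4 K q)) = H := by
  classical
  have hq2 : 2 ≤ q := hq.two_le
  obtain ⟨p, hp⟩ := CharP.exists K
  haveI : Fact p.Prime := ⟨CharP.char_is_prime K p⟩
  let E := FiniteField.Extension K p 2
  letI : Fintype E := Fintype.ofFinite E
  let ι : K →+* E := algebraMap K E
  have hE : Fintype.card E = q ^ 6 := by
    rw [Fintype.card_eq_nat_card, FiniteField.natCard_extension, Nat.card_eq_fintype_card, hK]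
    ring
  obtain ⟨φ, hφ⟩ := exists_frob hq hK
  obtain ⟨ψ, hψ⟩ := exists_frob hq hE
  have hι : ∀ t, ι (φ t) = ψ (ι t) := fun t => by rw [hφ, hψ, map_pow]
  have hφ3 : ∀ t, φ (φ (φ t)) = t := by
    intro t
    rw [hφ, hφ, hφ, ← pow_mul, ← pow_mul]
    have e : q * (q * q) = Fintype.card K := by rw [hK]; ring
    rw [e]
    exact FiniteField.pow_card t
  obtain ⟨T, u, hρ, hτ, hs⟩ := exists_T_u φ
  have hfix : ∀ g ∈ twistedD4 K q, g ∈ chevD4.group K ∧ u * mp φ g * u⁻¹ = g := by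
    intro g hg
    have h1 := Cfsg.Agent.Lib.Twisted.D4.le_Fx hρ hτ hφ3 hφ hg
    exact ⟨h1.1, (hs g).symm.trans h1.2⟩
  have hdesc : ∀ z : E, ψ (ψ (ψ z)) = z → ∃ t : K, ι t = z := by
    intro z hz
    apply descend ι hq2 hK
    rw [hψ, hψ, hψ, ← pow_mul, ← pow_mul] at hz
    rw [show q ^ 3 = q * (q * q) by ring]
    exact hz
  -- the generator
  obtain ⟨ζ, hζ⟩ := IsCyclic.exists_generator (α := Eˣ)
  have hordζ : orderOf ζ = q ^ 6 - 1 := by
    rw [orderOf_eq_card_of_forall_mem_zpowers hζ, Nat.card_units, Nat.card_eq_fintype_card, hE]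
  set N : ℕ := (q ^ 3 - 1) * (q + 1) with hNdef
  set L : ℕ := q ^ 2 - q + 1 with hL
  have hLpos : 0 < L := by omega
  have h61 : q ^ 6 - 1 = N * L := nat_id hq2
  have hq31 : 1 ≤ q ^ 3 := Nat.one_le_pow _ _ (by omega)
  have hq38 : 8 ≤ q ^ 3 := by
    calc 8 = 2 ^ 3 := by norm_num
      _ ≤ q ^ 3 := Nat.pow_le_pow_left hq2 3
  have hNpos : 0 < N := Nat.mul_pos (by omega) (by omega)
  set ξ : Eˣ := ζ ^ L with hξ
  have hordξ : orderOf ξ = N := by
    rw [hξ, orderOf_pow_of_dvd hLpos.ne' (by rw [hordζ, h61]; exact Dvd.intro_left _ rfl), hordζ, h61,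
      Nat.mul_div_cancel _ hLpos]
  set Q : ℤ := (q : ℤ) with hQ
  have hQ2 : 2 ≤ Q := by rw [hQ]; exact_mod_cast hq2
  have hNQ : (N : ℤ) = NN Q := by
    rw [hNdef, NN, hQ]
    push_cast [Nat.cast_sub hq31]
    ring
  have hd : ∀ d : ℤ, ξ ^ d = 1 → NN Q ∣ d := by
    intro d hd
    rw [← hNQ, ← hordξ]
    exact orderOf_dvd_iff_zpow_eq_one.2 hd
  have hN' : ξ ^ NN Q = 1 := by
    rw [← hNQ, zpow_natCast, ← hordξ, pow_orderOf_eq_one]
  have hN : ξ ^ (((q : ℤ) ^ 3 - 1) * ((q : ℤ) + 1)) = 1 := hN'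
  have hne : ξ ^ ((q : ℤ) ^ 3 - 1) ≠ 1 := by
    intro h
    have h1 := hd _ h
    have hpos : (0 : ℤ) < Q ^ 3 - 1 := by nlinarith [pow_pos (show (0 : ℤ) < Q by linarith) 2]
    have h2 := Int.le_of_dvd hpos h1
    rw [NN] at h2
    nlinarith
  obtain ⟨x, C, hxG, hCG, hcj⟩ := exists_x ι hφ hψ hι hφ3 hρ hτ ξ hN hne hdesc
  set μ : Fin 24 → E := fun s => ((ξ ^ EE Q s : Eˣ) : E) with hμ
  have hp := fun k : ℤ => psi_zpow (ξ := ξ) (ψ := ψ) (q := q) hψ k
  have hcy : ∀ {r r' : Fin 24} {c : ℤ}, Q * EE Q r - EE Q r' = (Q ^ 3 - 1) * (Q + 1) * c → ψ (μ r) = μ r' := by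
    intro r r' c h
    simp only [hμ]
    rw [hp]
    exact congrArg _ (zeq (ξ := ξ) (q := q) hN h)
  have hkey : ∀ {g : GL chevD4.Idx K}, g ∈ twistedD4 K q → g * x = x * g →
      ∃ k : E, Ln (cj ι C g : M28 E) (rc 18) k ∧ k * ψ k = ψ (ψ (ψ k)) * ψ (ψ (ψ (ψ k))) ∧
        (k = 1 → g = 1) := by
    intro g hg hcomm
    exact key (ι := ι) (φ := φ) (ψ := ψ) (u := u) (C := C) (μ := μ) hι (hfix x hxG).2 (hfix g hg).2 (hfix g hg).1 hCG hcomm hcj
      (simple_of hd (sp' hQ2 (r := 18) (by decide) sp18))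
      (simple_of hd (sp' hQ2 (r := 19) (by decide) sp19))
      (simple_of hd (sp' hQ2 (r := 13) (by decide) sp13))
      (simple_of hd (sp' hQ2 (r := 16) (by decide) sp16))
      (simple_of hd (sp' hQ2 (r := 12) (by decide) sp12))
      (simple_of hd (sp' hQ2 (r := 15) (by decide) sp15))
      (simple_of hd (sp' hQ2 (r := 5) (by decide) sp5))
      (simple_of hd (sp' hQ2 (r := 4) (by decide) sp4))
      (simple_of hd (sp' hQ2 (r := 10) (by decide) sp10))
      (simple_of hd (sp' hQ2 (r := 7) (by decide) sp7))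
      (simple_of hd (sp' hQ2 (r := 11) (by decide) sp11))
      (simple_of hd (sp' hQ2 (r := 8) (by decide) sp8))
      (hcy (cy18 Q)) (hcy (cy16 Q)) (hcy (cy12 Q)) (hcy (cy19 Q)) (hcy (cy13 Q))
      (hcy (cy5 Q)) (hcy (cy7 Q)) (hcy (cy11 Q)) (hcy (cy4 Q)) (hcy (cy10 Q))
  let y : ↥(twistedD4 K q) := ⟨x, hxG⟩
  have hyc : ∀ n : ℕ, ((y ^ n : ↥(twistedD4 K q)) : GL chevD4.Idx K) = x ^ n := by
    intro n
    simp [y]
  have hcjx : ∀ n : ℕ, ((cj ι C (x ^ n) : GL chevD4.Idx E) : M28 E) = dgMat chevD4 (fun s : Fin 24 => μ s ^ n) := by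
    intro n
    rw [cj_pow, Units.val_pow_eq_pow_val, hcj, dg_pow]
  have hμ18 : μ 18 = (ξ : E) := by
    change ((ξ ^ EE Q 18 : Eˣ) : E) = _
    rw [E18, zpow_one]
  have hln : ∀ n : ℕ, Ln (cj ι C (x ^ n) : M28 E) (rc 18) ((ξ : E) ^ n) := by
    intro n
    rw [cj_pow, Units.val_pow_eq_pow_val, hcj]
    have := ln_pow (dg_line μ 18) n
    rwa [hμ18] at this
  have hordy : orderOf y = N := by
    apply Nat.dvd_antisymm
    · apply orderOf_dvd_of_pow_eq_one
      apply Subtype.ext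
      rw [hyc]
      apply cj_eq_one ι C
      apply Units.ext
      rw [hcjx, Units.val_one]
      apply dg_one
      intro s
      simp only [hμ]
      rw [← Units.val_pow_eq_pow_val, ← zpow_natCast, ← _root_.zpow_mul, mul_comm, _root_.zpow_mul, hNQ,
        hN', _root_.one_zpow, Units.val_one]
    · rw [← hordξ]
      apply orderOf_dvd_of_pow_eq_one
      have h1 := hyc (orderOf y)
      rw [pow_orderOf_eq_one] at h1
      have h2 := hln (orderOf y)
      rw [← h1] at h2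
      have h3 := Ln.unique h2 (by rw [show ((1 : ↥(twistedD4 K q)) : GL chevD4.Idx K) = 1 from rfl, cj_one]; exact ln_one _)
      apply Units.ext
      rw [Units.val_pow_eq_pow_val, h3, Units.val_one]
  refine ⟨Subgroup.zpowers y, inferInstance, ?_, ?_⟩
  · rw [Nat.card_zpowers, hordy]
  · ext g
    constructor
    · intro hg
      have hc : y * g = g * y := (Subgroup.mem_centralizer_iff.1 hg) y (Subgroup.mem_zpowers y)
      have hc' : (g : GL chevD4.Idx K) * x = x * (g : GL chevD4.Idx K) := by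
        have := congrArg (fun z : ↥(twistedD4 K q) => (z : GL chevD4.Idx K)) hc
        exact this.symm
      obtain ⟨k, hk1, hk2, -⟩ := hkey g.2 hc'
      have hk0 : k ≠ 0 := Ln.ne_zero hk1
      -- the eigenvalue has order dividing N
      have hkN : k ^ N = 1 := by
        have e : k ^ (q + 1) * k ^ N = k ^ (q + 1) * 1 := by
          rw [mul_one, ← pow_add]
          have e1 : q + 1 + N = q ^ 3 + q ^ 4 := by
            rw [hNdef]
            have : (q ^ 3 - 1) * (q + 1) + 1 * (q + 1) = q ^ 3 * (q + 1) := by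
              rw [← Nat.add_mul, Nat.sub_add_cancel hq31]
            nlinarith
          rw [e1]
          have e2 : k * k ^ q = k ^ (q ^ 3) * k ^ (q ^ 4) := by
            have h := hk2
            rw [hψ k, hψ (k ^ q), hψ ((k ^ q) ^ q), hψ (((k ^ q) ^ q) ^ q)] at h
            calc k * k ^ q = _ := h
              _ = _ := by ring
          rw [pow_add, ← e2, pow_succ]
          ring
        exact mul_left_cancel₀ (pow_ne_zero _ hk0) e
      obtain ⟨t, ht⟩ := mem_powers_iff_mem_zpowers.2 (hζ (Units.mk0 k hk0))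
      have ht' : ζ ^ t = Units.mk0 k hk0 := ht
      have hLt : L ∣ t := by
        have e : ζ ^ (t * N) = 1 := by
          rw [pow_mul, ht']
          apply Units.ext
          simpa using hkN
        have e1 := orderOf_dvd_of_pow_eq_one e
        rw [hordζ, h61, mul_comm N L, mul_comm t N] at e1
        exact Nat.dvd_of_mul_dvd_mul_right hNpos (by rwa [mul_comm t N])
      obtain ⟨j, rfl⟩ := hLt
      have hkj : k = (ξ : E) ^ j := by
        have e : ξ ^ j = Units.mk0 k hk0 := by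
          rw [hξ, ← pow_mul]
          exact ht'
        have := congrArg (fun z : Eˣ => (z : E)) e
        simp only [Units.val_pow_eq_pow_val, Units.val_mk0] at this
        exact this.symm
      -- divide out
      have hh'G : (g : GL chevD4.Idx K) * (x ^ j)⁻¹ ∈ twistedD4 K q :=
        Subgroup.mul_mem _ g.2 (Subgroup.inv_mem _ (Subgroup.pow_mem _ hxG _))
      have hcx : Commute (g : GL chevD4.Idx K) x := hc'
      have hh'c : (g : GL chevD4.Idx K) * (x ^ j)⁻¹ * x = x * ((g : GL chevD4.Idx K) * (x ^ j)⁻¹) := by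
        have h1 : Commute ((g : GL chevD4.Idx K) * (x ^ j)⁻¹) x :=
          hcx.mul_left ((Commute.refl x).pow_left j).inv_left
        exact h1
      obtain ⟨k', hk'1, -, hk'3⟩ := hkey hh'G hh'c
      have hm : Ln (cj ι C (g : GL chevD4.Idx K) : M28 E) (rc 18) (k' * (ξ : E) ^ j) := by
        have e : (g : GL chevD4.Idx K) = ((g : GL chevD4.Idx K) * (x ^ j)⁻¹) * x ^ j := by group
        rw [e, cj_mul, Units.val_mul, mul_comm k']
        exact ln_mul hk'1 (hln j)
      have hk'eq : k' = 1 := by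
        have e := Ln.unique hk1 hm
        rw [← hkj] at e
        exact mul_right_cancel₀ hk0 (by rw [one_mul]; exact e.symm)
      have hh1 := hk'3 hk'eq
      have hgx : (g : GL chevD4.Idx K) = x ^ j := by
        have := congrArg (· * x ^ j) hh1
        simpa using this
      have : g = y ^ j := by
        apply Subtype.ext
        rw [hyc, hgx]
      rw [this]
      exact Subgroup.npow_mem_zpowers y j
    · intro hg
      rw [Subgroup.mem_centralizer_iff]
      intro h hh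
      obtain ⟨i, rfl⟩ := Subgroup.mem_zpowers_iff.1 hg
      obtain ⟨j, rfl⟩ := Subgroup.mem_zpowers_iff.1 hh
      exact (Commute.zpow_zpow_self y j i)

end Cfsg.Agent.S2376
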