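import Cfsg.Statements.S2378
import Cfsg.Agent.Lib.Classical.Lin.Syl5
import Cfsg.Agent.Lib.ChevOrder.Cert.G2
import Cfsg.Agent.Lib.ChevOrder.Cert.B2
import Cfsg.Agent.Lib.ChevOrder.Cert.D4
import Cfsg.Agent.Lib.ChevOrder.Cert.F4
import Cfsg.Agent.Lib.ChevOrder.Cert.E6
import Cfsg.Agent.Lib.ChevOrder.Cert.E7
import Cfsg.Agent.Lib.ChevOrder.Cert.E8
import Cfsg.Agent.Lib.Chevalley.Tbl.G2Sys
import Cfsg.Agent.Lib.Chevalley.Tbl.B2Sys
import Cfsg.Agent.Lib.Chevalley.Tbl.D4Sys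
import Cfsg.Agent.Lib.Chevalley.Tbl.F4Sys
import Cfsg.Agent.Lib.Chevalley.Tbl.E6Sys
import Cfsg.Agent.Lib.Chevalley.Tbl.E7Sys
import Cfsg.Agent.Lib.Chevalley.Tbl.E8Sys
import Cfsg.Agent.Lib.ChevBN.FastData
-- import your own Cfsg.Agent.* helpers here

set_option autoImplicit false
open Cfsg

namespace Cfsg.Agent.S2378

open Polynomial Cfsg.Lie
open Cfsg.Agent.Lib.Classical.Lin.Syl3 Cfsg.Agent.Lib.Classical.Lin.Syl4
open Cfsg.Agent.Lib.Classical.Lin.Syl5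
open Cfsg.Agent.Lib.ChevBN.Rel Cfsg.Agent.Lib.ChevBN.Table
open Cfsg.Agent.Lib.ChevTori.Act Cfsg.Agent.Lib.ChevBN.Pair
open Cfsg.Agent.Lib.BNPair.Parabolic Cfsg.Agent.Lib.BNPair.Basic Cfsg.Agent.Lib.ChevOrder.BNCount

/-- The general pattern. -/
theorem one_type {D : ChevalleyDatum} {η : ℕ → ℕ → ℤ} {F : Type*} [Field F] [Fintype F] {q : ℕ}
    (hq : Fintype.card F = q) (hRF : Sys D F η) (hsys : ∀ (L : Type) [Field L], Sys D L η)
    (hT : Tbl D) {m m' dF dK : ℕ} (degs : List ℕ) (hlen : degs.length = D.rank) (h2 : 2 ∈ degs)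
    (r : ℕ) [hr : Fact r.Prime] (hrq : ¬ r ∣ q) (hrW : ¬ r ∣ degs.prod)
    (hrG : r ∣ Nat.card ↥(D.group F))
    (hordF : dF * Nat.card (D.group F) = q ^ m * (degs.map fun e => q ^ e - 1).prod)
    (hordK : ∀ (L : Type) [Field L] [Finite L], Nat.card L = q ^ orderOf (q : ZMod r) →
      dK * Nat.card (D.group L) = (q ^ orderOf (q : ZMod r)) ^ m' *
        (degs.map fun e => (q ^ orderOf (q : ZMod r)) ^ e - 1).prod)
    (hcardH : ∀ (L : Type) [Field L] [Finite L], Nat.card L = q ^ orderOf (q : ZMod r) →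
      dK * Nat.card (D.diagonalSubgroup L) = (q ^ orderOf (q : ZMod r) - 1) ^ D.rank)
    (hrdF : ¬ r ∣ dF) (hrdK : ¬ r ∣ dK)
    (hmult : ∀ d : ℕ, (∃ e ∈ degs, d ∣ e) → ∀ (L : Type) [Field L] [Finite L] (hL : Sys D L η)
      (w : WW (pair hL hT)),
      ¬ cyclotomic d ℤ ^ ((degs.filter (fun e => d ∣ e)).length + 1) ∣ (matW hL hT w).charpoly)
    (P : Sylow r ↥(D.group F)) :
    Nonempty (↥(P : Subgroup ↥(D.group F)) ≃*
      (Fin (degs.filter (fun e => orderOf (q : ZMod r) ∣ e)).length →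
        Multiplicative (ZMod (r ^ padicValNat r
          ((cyclotomic (orderOf (q : ZMod r)) ℤ).eval (q : ℤ)).natAbs)))) := by
  have hF : Nat.card F = q := by rw [Nat.card_eq_fintype_card, hq]
  have hq2 : 2 ≤ q := by
    rw [← hF]
    exact Finite.one_lt_card
  have hdegs : ∀ e ∈ degs, ¬ r ∣ e := fun e he h1 => hrW (h1.trans (List.dvd_prod he))
  have hodd : r ≠ 2 := by
    rintro rfl
    exact hdegs 2 h2 dvd_rfl
  have hd : ∃ e ∈ degs, orderOf (q : ZMod r) ∣ e := by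
    have h1 : r ∣ q ^ m * (degs.map fun e => q ^ e - 1).prod := by
      rw [← hordF]
      exact hrG.mul_left _
    rcases (Nat.Prime.dvd_mul hr.out).1 h1 with h3 | h3
    · exact absurd (hr.out.dvd_of_dvd_pow h3) hrq
    · obtain ⟨a, ha, h4⟩ := (Prime.dvd_prod_iff hr.out.prime).1 h3
      obtain ⟨e, he, rfl⟩ := List.mem_map.mp ha
      exact ⟨e, he, (Cfsg.Agent.S2380.dvd_iff (by omega) e).1 h4⟩
  exact main_core hRF hsys hT degs hlen hF r hrq hodd hordF hordK hcardH hrdF hrdK hdegs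
    (fun L _ _ hL w => hmult _ hd L hL w) P

/-! The tables of degrees. -/

theorem tbl_G2 : ∀ e ∈ [2, 6], ∀ d ≤ e, d ∣ e →
    2 < (([2, 6].filter (fun x => d ∣ x)).length + 1) * d.totient := by
  decide +kernel

theorem tbl_B2 : ∀ e ∈ [2, 4], ∀ d ≤ e, d ∣ e →
    2 < (([2, 4].filter (fun x => d ∣ x)).length + 1) * d.totient := by
  decide +kernel

theorem tbl_D4 : ∀ e ∈ [2, 4, 4, 6], ∀ d ≤ e, d ∣ e →
    4 < (([2, 4, 4, 6].filter (fun x => d ∣ x)).length + 1) * d.totient ∨ d = 3 ∨ d = 6 := by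
  decide +kernel

theorem tbl_F4 : ∀ e ∈ [2, 6, 8, 12], ∀ d ≤ e, d ∣ e →
    4 < (([2, 6, 8, 12].filter (fun x => d ∣ x)).length + 1) * d.totient := by
  decide +kernel

theorem tbl_E6 : ∀ e ∈ [2, 5, 6, 8, 9, 12], ∀ d ≤ e, d ∣ e →
    6 < (([2, 5, 6, 8, 9, 12].filter (fun x => d ∣ x)).length + 1) * d.totient ∨
      d = 2 ∨ d = 4 ∨ d = 6 := by
  decide +kernel

theorem tbl_E7 : ∀ e ∈ [2, 6, 8, 10, 12, 14, 18], ∀ d ≤ e, d ∣ e →
    7 < (([2, 6, 8, 10, 12, 14, 18].filter (fun x => d ∣ x)).length + 1) * d.totient ∨ d = 4 := by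
  decide +kernel

theorem tbl_E8 : ∀ e ∈ [2, 8, 12, 14, 18, 20, 24, 30], ∀ d ≤ e, d ∣ e →
    8 < (([2, 8, 12, 14, 18, 20, 24, 30].filter (fun x => d ∣ x)).length + 1) * d.totient := by
  decide +kernel

/-! The orders. -/

section Ord

variable (L : Type*) [Field L] [Finite L] {Q : ℕ} (hQ : Nat.card L = Q)
include hQ

theorem ord_G2 : 1 * Nat.card (chevG2.group L) =
    Q ^ 6 * (([2, 6] : List ℕ).map fun e => Q ^ e - 1).prod := by
  rw [Cfsg.Agent.Lib.ChevOrder.Cert.G2.order (F := L) Cfsg.Agent.Lib.ChevBN.FastData.tbl_chevG2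
    Cfsg.Agent.Lib.Chevalley.Tbl.G2.sys hQ]
  simp [mul_assoc]

theorem ord_B2 : Nat.gcd 2 (Q - 1) * Nat.card (chevB2.group L) =
    Q ^ 4 * (([2, 4] : List ℕ).map fun e => Q ^ e - 1).prod := by
  rw [Cfsg.Agent.Lib.ChevOrder.Cert.B2.order (F := L) Cfsg.Agent.Lib.ChevBN.FastData.tbl_chevB2
    Cfsg.Agent.Lib.Chevalley.Tbl.B2.sys hQ]
  simp [mul_assoc]

theorem ord_D4 : Nat.gcd 2 (Q - 1) ^ 2 * Nat.card (chevD4.group L) =
    Q ^ 12 * (([2, 4, 4, 6] : List ℕ).map fun e => Q ^ e - 1).prod := by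
  rw [Cfsg.Agent.Lib.ChevOrder.Cert.D4.order (F := L) Cfsg.Agent.Lib.ChevBN.FastData.tbl_chevD4
    Cfsg.Agent.Lib.Chevalley.Tbl.D4.sys hQ]
  simp [mul_assoc]

theorem ord_F4 : 1 * Nat.card (chevF4.group L) =
    Q ^ 24 * (([2, 6, 8, 12] : List ℕ).map fun e => Q ^ e - 1).prod := by
  rw [Cfsg.Agent.Lib.ChevOrder.Cert.F4.order (F := L) Cfsg.Agent.Lib.ChevBN.FastData.tbl_chevF4
    Cfsg.Agent.Lib.Chevalley.Tbl.F4.sys hQ]
  simp [mul_assoc]

theorem ord_E6 : Nat.gcd 3 (Q - 1) * Nat.card (chevE6.group L) =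
    Q ^ 36 * (([2, 5, 6, 8, 9, 12] : List ℕ).map fun e => Q ^ e - 1).prod := by
  rw [Cfsg.Agent.Lib.ChevOrder.Cert.E6.order (F := L) Cfsg.Agent.Lib.ChevBN.FastData.tbl_chevE6
    Cfsg.Agent.Lib.Chevalley.Tbl.E6.sys hQ]
  simp [mul_assoc]

theorem ord_E7 : Nat.gcd 2 (Q - 1) * Nat.card (chevE7.group L) =
    Q ^ 63 * (([2, 6, 8, 10, 12, 14, 18] : List ℕ).map fun e => Q ^ e - 1).prod := by
  rw [Cfsg.Agent.Lib.ChevOrder.Cert.E7.order (F := L) Cfsg.Agent.Lib.ChevBN.FastData.tbl_chevE7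
    Cfsg.Agent.Lib.Chevalley.Tbl.E7.sys hQ]
  simp [mul_assoc]

theorem ord_E8 : 1 * Nat.card (chevE8.group L) =
    Q ^ 120 * (([2, 8, 12, 14, 18, 20, 24, 30] : List ℕ).map fun e => Q ^ e - 1).prod := by
  rw [Cfsg.Agent.Lib.ChevOrder.Cert.E8.order (F := L) Cfsg.Agent.Lib.ChevBN.FastData.tbl_chevE8
    Cfsg.Agent.Lib.Chevalley.Tbl.E8.sys hQ]
  simp [mul_assoc]

theorem crd_G2 : 1 * Nat.card (chevG2.diagonalSubgroup L) = (Q - 1) ^ chevG2.rank := by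
  rw [← hQ]
  exact Cfsg.Agent.Lib.ChevOrder.Cert.G2.cardH Cfsg.Agent.Lib.ChevBN.FastData.tbl_chevG2
    Cfsg.Agent.Lib.Chevalley.Tbl.G2.sys

theorem crd_B2 : Nat.gcd 2 (Q - 1) * Nat.card (chevB2.diagonalSubgroup L) =
    (Q - 1) ^ chevB2.rank := by
  rw [← hQ]
  exact Cfsg.Agent.Lib.ChevOrder.Cert.B2.cardH Cfsg.Agent.Lib.ChevBN.FastData.tbl_chevB2
    Cfsg.Agent.Lib.Chevalley.Tbl.B2.sys

theorem crd_D4 : Nat.gcd 2 (Q - 1) ^ 2 * Nat.card (chevD4.diagonalSubgroup L) =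
    (Q - 1) ^ chevD4.rank := by
  rw [← hQ]
  exact Cfsg.Agent.Lib.ChevOrder.Cert.D4.cardH Cfsg.Agent.Lib.ChevBN.FastData.tbl_chevD4
    Cfsg.Agent.Lib.Chevalley.Tbl.D4.sys

theorem crd_F4 : 1 * Nat.card (chevF4.diagonalSubgroup L) = (Q - 1) ^ chevF4.rank := by
  rw [← hQ]
  exact Cfsg.Agent.Lib.ChevOrder.Cert.F4.cardH Cfsg.Agent.Lib.ChevBN.FastData.tbl_chevF4
    Cfsg.Agent.Lib.Chevalley.Tbl.F4.sys

theorem crd_E6 : Nat.gcd 3 (Q - 1) * Nat.card (chevE6.diagonalSubgroup L) =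
    (Q - 1) ^ chevE6.rank := by
  rw [← hQ]
  exact Cfsg.Agent.Lib.ChevOrder.Cert.E6.cardH Cfsg.Agent.Lib.ChevBN.FastData.tbl_chevE6
    Cfsg.Agent.Lib.Chevalley.Tbl.E6.sys

theorem crd_E7 : Nat.gcd 2 (Q - 1) * Nat.card (chevE7.diagonalSubgroup L) =
    (Q - 1) ^ chevE7.rank := by
  rw [← hQ]
  exact Cfsg.Agent.Lib.ChevOrder.Cert.E7.cardH Cfsg.Agent.Lib.ChevBN.FastData.tbl_chevE7
    Cfsg.Agent.Lib.Chevalley.Tbl.E7.sys

theorem crd_E8 : 1 * Nat.card (chevE8.diagonalSubgroup L) = (Q - 1) ^ chevE8.rank := by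
  rw [← hQ]
  exact Cfsg.Agent.Lib.ChevOrder.Cert.E8.cardH Cfsg.Agent.Lib.ChevBN.FastData.tbl_chevE8
    Cfsg.Agent.Lib.Chevalley.Tbl.E8.sys

end Ord

/-! Each type. -/

section Cases

theorem not_dvd_one' (r : ℕ) [hr : Fact r.Prime] : ¬ r ∣ 1 :=
  fun h => hr.out.one_lt.ne' (Nat.dvd_one.1 h)

variable {F : Type*} [Field F] [Fintype F] {q : ℕ} (hq : Fintype.card F = q)
variable (r : ℕ) [hr : Fact r.Prime] (hrq : ¬ r ∣ q)
include hq hrq


theorem case_G2 (hrW : ¬ r ∣ ([2, 6] : List ℕ).prod) (hrG : r ∣ Nat.card ↥(chevG2.group F))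
    (P : Sylow r ↥(chevG2.group F)) :
    Nonempty (↥(P : Subgroup ↥(chevG2.group F)) ≃*
      (Fin (([2, 6] : List ℕ).filter (fun e => orderOf (q : ZMod r) ∣ e)).length →
        Multiplicative (ZMod (r ^ padicValNat r
          ((cyclotomic (orderOf (q : ZMod r)) ℤ).eval (q : ℤ)).natAbs)))) := by
  have hF : Nat.card F = q := by rw [Nat.card_eq_fintype_card, hq]
  refine one_type hq Cfsg.Agent.Lib.Chevalley.Tbl.G2.sys
    (fun L _ => Cfsg.Agent.Lib.Chevalley.Tbl.G2.sys) Cfsg.Agent.Lib.ChevBN.FastData.tbl_chevG2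
    (m := 6) (m' := 6) (dF := 1) (dK := 1) [2, 6] (by decide) (by simp) r hrq hrW hrG
    (ord_G2 F hF) (fun L _ _ hL => ord_G2 L hL) (fun L _ _ hL => crd_G2 L hL)
    (not_dvd_one' r) (not_dvd_one' r) ?_ P
  rintro d ⟨e, he, hde⟩ L _ _ hL w
  have hle := Nat.le_of_dvd (by simp at he; omega) hde
  exact not_dvd_of_deg (tbl_G2 e he d hle hde)

theorem case_F4 (hrW : ¬ r ∣ ([2, 6, 8, 12] : List ℕ).prod) (hrG : r ∣ Nat.card ↥(chevF4.group F))
    (P : Sylow r ↥(chevF4.group F)) :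
    Nonempty (↥(P : Subgroup ↥(chevF4.group F)) ≃*
      (Fin (([2, 6, 8, 12] : List ℕ).filter (fun e => orderOf (q : ZMod r) ∣ e)).length →
        Multiplicative (ZMod (r ^ padicValNat r
          ((cyclotomic (orderOf (q : ZMod r)) ℤ).eval (q : ℤ)).natAbs)))) := by
  have hF : Nat.card F = q := by rw [Nat.card_eq_fintype_card, hq]
  refine one_type hq Cfsg.Agent.Lib.Chevalley.Tbl.F4.sys
    (fun L _ => Cfsg.Agent.Lib.Chevalley.Tbl.F4.sys) Cfsg.Agent.Lib.ChevBN.FastData.tbl_chevF4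
    (m := 24) (m' := 24) (dF := 1) (dK := 1) [2, 6, 8, 12] (by decide) (by simp) r hrq hrW hrG
    (ord_F4 F hF) (fun L _ _ hL => ord_F4 L hL) (fun L _ _ hL => crd_F4 L hL)
    (not_dvd_one' r) (not_dvd_one' r) ?_ P
  rintro d ⟨e, he, hde⟩ L _ _ hL w
  have hle := Nat.le_of_dvd (by simp at he; omega) hde
  exact not_dvd_of_deg (tbl_F4 e he d hle hde)

theorem case_E8 (hrW : ¬ r ∣ ([2, 8, 12, 14, 18, 20, 24, 30] : List ℕ).prod)
    (hrG : r ∣ Nat.card ↥(chevE8.group F)) (P : Sylow r ↥(chevE8.group F)) :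
    Nonempty (↥(P : Subgroup ↥(chevE8.group F)) ≃*
      (Fin (([2, 8, 12, 14, 18, 20, 24, 30] : List ℕ).filter
          (fun e => orderOf (q : ZMod r) ∣ e)).length →
        Multiplicative (ZMod (r ^ padicValNat r
          ((cyclotomic (orderOf (q : ZMod r)) ℤ).eval (q : ℤ)).natAbs)))) := by
  have hF : Nat.card F = q := by rw [Nat.card_eq_fintype_card, hq]
  refine one_type hq Cfsg.Agent.Lib.Chevalley.Tbl.E8.sys
    (fun L _ => Cfsg.Agent.Lib.Chevalley.Tbl.E8.sys) Cfsg.Agent.Lib.ChevBN.FastData.tbl_chevE8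
    (m := 120) (m' := 120) (dF := 1) (dK := 1) [2, 8, 12, 14, 18, 20, 24, 30] (by decide) (by simp)
    r hrq hrW hrG
    (ord_E8 F hF) (fun L _ _ hL => ord_E8 L hL) (fun L _ _ hL => crd_E8 L hL)
    (not_dvd_one' r) (not_dvd_one' r) ?_ P
  rintro d ⟨e, he, hde⟩ L _ _ hL w
  have hle := Nat.le_of_dvd (by simp at he; omega) hde
  exact not_dvd_of_deg (tbl_E8 e he d hle hde)

theorem case_B2 (hrW : ¬ r ∣ ([2, 4] : List ℕ).prod) (hrG : r ∣ Nat.card ↥(chevB2.group F))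
    (P : Sylow r ↥(chevB2.group F)) :
    Nonempty (↥(P : Subgroup ↥(chevB2.group F)) ≃*
      (Fin (([2, 4] : List ℕ).filter (fun e => orderOf (q : ZMod r) ∣ e)).length →
        Multiplicative (ZMod (r ^ padicValNat r
          ((cyclotomic (orderOf (q : ZMod r)) ℤ).eval (q : ℤ)).natAbs)))) := by
  have hF : Nat.card F = q := by rw [Nat.card_eq_fintype_card, hq]
  have hnd : ∀ x : ℕ, ¬ r ∣ Nat.gcd 2 x := fun x h1 =>
    hrW (h1.trans ((Nat.gcd_dvd_left _ _).trans (by decide)))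
  refine one_type hq Cfsg.Agent.Lib.Chevalley.Tbl.B2.sys
    (fun L _ => Cfsg.Agent.Lib.Chevalley.Tbl.B2.sys) Cfsg.Agent.Lib.ChevBN.FastData.tbl_chevB2
    (m := 4) (m' := 4) (dF := Nat.gcd 2 (q - 1))
    (dK := Nat.gcd 2 (q ^ orderOf (q : ZMod r) - 1)) [2, 4] (by decide) (by simp) r hrq hrW hrG
    (ord_B2 F hF) (fun L _ _ hL => ord_B2 L hL) (fun L _ _ hL => crd_B2 L hL)
    (hnd _) (hnd _) ?_ P
  rintro d ⟨e, he, hde⟩ L _ _ hL w
  have hle := Nat.le_of_dvd (by simp at he; omega) hde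
  exact not_dvd_of_deg (tbl_B2 e he d hle hde)

theorem case_D4 (hrW : ¬ r ∣ ([2, 4, 4, 6] : List ℕ).prod) (hrG : r ∣ Nat.card ↥(chevD4.group F))
    (P : Sylow r ↥(chevD4.group F)) :
    Nonempty (↥(P : Subgroup ↥(chevD4.group F)) ≃*
      (Fin (([2, 4, 4, 6] : List ℕ).filter (fun e => orderOf (q : ZMod r) ∣ e)).length →
        Multiplicative (ZMod (r ^ padicValNat r
          ((cyclotomic (orderOf (q : ZMod r)) ℤ).eval (q : ℤ)).natAbs)))) := by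
  have hF : Nat.card F = q := by rw [Nat.card_eq_fintype_card, hq]
  have hnd : ∀ x : ℕ, ¬ r ∣ Nat.gcd 2 x ^ 2 := fun x h1 =>
    hrW (h1.trans ((pow_dvd_pow_of_dvd (Nat.gcd_dvd_left 2 x) 2).trans (by decide)))
  refine one_type hq Cfsg.Agent.Lib.Chevalley.Tbl.D4.sys
    (fun L _ => Cfsg.Agent.Lib.Chevalley.Tbl.D4.sys) Cfsg.Agent.Lib.ChevBN.FastData.tbl_chevD4
    (m := 12) (m' := 12) (dF := Nat.gcd 2 (q - 1) ^ 2)
    (dK := Nat.gcd 2 (q ^ orderOf (q : ZMod r) - 1) ^ 2) [2, 4, 4, 6] (by decide) (by simp) r hrq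
    hrW hrG
    (ord_D4 F hF) (fun L _ _ hL => ord_D4 L hL) (fun L _ _ hL => crd_D4 L hL)
    (hnd _) (hnd _) ?_ P
  rintro d ⟨e, he, hde⟩ L _ _ hL w
  have hle := Nat.le_of_dvd (by simp at he; omega) hde
  rcases tbl_D4 e he d hle hde with h | rfl | rfl
  · exact not_dvd_of_deg h
  · exact d4_not_dvd hL Cfsg.Agent.Lib.ChevBN.FastData.tbl_chevD4 w (Or.inl rfl)
  · exact d4_not_dvd hL Cfsg.Agent.Lib.ChevBN.FastData.tbl_chevD4 w (Or.inr rfl)

theorem case_E6 (hrW : ¬ r ∣ ([2, 5, 6, 8, 9, 12] : List ℕ).prod)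
    (hrG : r ∣ Nat.card ↥(chevE6.group F)) (P : Sylow r ↥(chevE6.group F)) :
    Nonempty (↥(P : Subgroup ↥(chevE6.group F)) ≃*
      (Fin (([2, 5, 6, 8, 9, 12] : List ℕ).filter (fun e => orderOf (q : ZMod r) ∣ e)).length →
        Multiplicative (ZMod (r ^ padicValNat r
          ((cyclotomic (orderOf (q : ZMod r)) ℤ).eval (q : ℤ)).natAbs)))) := by
  have hF : Nat.card F = q := by rw [Nat.card_eq_fintype_card, hq]
  have hnd : ∀ x : ℕ, ¬ r ∣ Nat.gcd 3 x := fun x h1 =>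
    hrW (h1.trans ((Nat.gcd_dvd_left _ _).trans (by decide)))
  refine one_type hq Cfsg.Agent.Lib.Chevalley.Tbl.E6.sys
    (fun L _ => Cfsg.Agent.Lib.Chevalley.Tbl.E6.sys) Cfsg.Agent.Lib.ChevBN.FastData.tbl_chevE6
    (m := 36) (m' := 36) (dF := Nat.gcd 3 (q - 1))
    (dK := Nat.gcd 3 (q ^ orderOf (q : ZMod r) - 1)) [2, 5, 6, 8, 9, 12] (by decide) (by simp) r hrq
    hrW hrG
    (ord_E6 F hF) (fun L _ _ hL => ord_E6 L hL) (fun L _ _ hL => crd_E6 L hL)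
    (hnd _) (hnd _) ?_ P
  rintro d ⟨e, he, hde⟩ L _ _ hL w
  have hle := Nat.le_of_dvd (by simp at he; omega) hde
  rcases tbl_E6 e he d hle hde with h | rfl | rfl | rfl
  · exact not_dvd_of_deg h
  · exact e6_not_dvd_two hL Cfsg.Agent.Lib.ChevBN.FastData.tbl_chevE6 w
  · exact e6_not_dvd hL Cfsg.Agent.Lib.ChevBN.FastData.tbl_chevE6 w (Or.inl ⟨rfl, by decide⟩)
  · exact e6_not_dvd hL Cfsg.Agent.Lib.ChevBN.FastData.tbl_chevE6 w (Or.inr ⟨rfl, by decide⟩)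

theorem case_E7 (hrW : ¬ r ∣ ([2, 6, 8, 10, 12, 14, 18] : List ℕ).prod)
    (hrG : r ∣ Nat.card ↥(chevE7.group F)) (P : Sylow r ↥(chevE7.group F)) :
    Nonempty (↥(P : Subgroup ↥(chevE7.group F)) ≃*
      (Fin (([2, 6, 8, 10, 12, 14, 18] : List ℕ).filter
          (fun e => orderOf (q : ZMod r) ∣ e)).length →
        Multiplicative (ZMod (r ^ padicValNat r
          ((cyclotomic (orderOf (q : ZMod r)) ℤ).eval (q : ℤ)).natAbs)))) := by
  have hF : Nat.card F = q := by rw [Nat.card_eq_fintype_card, hq]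
  have hnd : ∀ x : ℕ, ¬ r ∣ Nat.gcd 2 x := fun x h1 =>
    hrW (h1.trans ((Nat.gcd_dvd_left _ _).trans (by decide)))
  refine one_type hq Cfsg.Agent.Lib.Chevalley.Tbl.E7.sys
    (fun L _ => Cfsg.Agent.Lib.Chevalley.Tbl.E7.sys) Cfsg.Agent.Lib.ChevBN.FastData.tbl_chevE7
    (m := 63) (m' := 63) (dF := Nat.gcd 2 (q - 1))
    (dK := Nat.gcd 2 (q ^ orderOf (q : ZMod r) - 1)) [2, 6, 8, 10, 12, 14, 18] (by decide) (by simp)
    r hrq hrW hrG
    (ord_E7 F hF) (fun L _ _ hL => ord_E7 L hL) (fun L _ _ hL => crd_E7 L hL)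
    (hnd _) (hnd _) ?_ P
  rintro d ⟨e, he, hde⟩ L _ _ hL w
  have hle := Nat.le_of_dvd (by simp at he; omega) hde
  rcases tbl_E7 e he d hle hde with h | rfl
  · exact not_dvd_of_deg h
  · exact e7_not_dvd hL Cfsg.Agent.Lib.ChevBN.FastData.tbl_chevE7 w

end Cases

/-- Sylow subgroups for primes away from the characteristic and the Weyl group. Let `G` be the Chevalley group of type G₂, B₂, D₄, F₄, E₆, E₇ or E₈ over a field with `q` elements, with the degrees of its Weyl group listed beside the type (their product is the order of the Weyl group), and let `r` be a prime dividing the order of `G`, not dividing `q` and not dividing the order of the Weyl group. Let `d` be the multiplicative order of `q` modulo `r`, `a` the number of degrees divisible by `d`, and `m` the `r`-part of the value at `q` of the `d`-th cyclotomic polynomial. Then every Sylow `r`-subgroup of `G` is homocyclic: a direct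 product of `a` cyclic groups of order `m` (in particular abelian). -/
theorem result {F : Type*} [Field F] [Fintype F] {q : ℕ} (hq : Fintype.card F = q)
    (c : Cfsg.Lie.ChevalleyDatum × List ℕ)
    (hc : c ∈ [(Cfsg.Lie.chevG2, [2, 6]), (Cfsg.Lie.chevB2, [2, 4]), (Cfsg.Lie.chevD4, [2, 4, 4, 6]), (Cfsg.Lie.chevF4, [2, 6, 8, 12]),
      (Cfsg.Lie.chevE6, [2, 5, 6, 8, 9, 12]), (Cfsg.Lie.chevE7, [2, 6, 8, 10, 12, 14, 18]), (Cfsg.Lie.chevE8, [2, 8, 12, 14, 18, 20, 24, 30])])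
    (r : ℕ) [Fact r.Prime] (hrq : ¬ r ∣ q) (hrW : ¬ r ∣ c.2.prod) (hrG : r ∣ Nat.card ↥(c.1.group F)) (P : Sylow r ↥(c.1.group F)) :
    Nonempty (↥(P : Subgroup ↥(c.1.group F)) ≃*
      (Fin (c.2.filter (fun e => orderOf (q : ZMod r) ∣ e)).length →
        Multiplicative (ZMod (r ^ padicValNat r ((Polynomial.cyclotomic (orderOf (q : ZMod r)) ℤ).eval (q : ℤ)).natAbs)))) := by
  simp only [List.mem_cons, List.not_mem_nil, or_false] at hc
  rcases hc with rfl | rfl | rfl | rfl | rfl | rfl | rfl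
  · exact case_G2 hq r hrq hrW hrG P
  · exact case_B2 hq r hrq hrW hrG P
  · exact case_D4 hq r hrq hrW hrG P
  · exact case_F4 hq r hrq hrW hrG P
  · exact case_E6 hq r hrq hrW hrG P
  · exact case_E7 hq r hrq hrW hrG P
  · exact case_E8 hq r hrq hrW hrG P

end Cfsg.Agent.S2378
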