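import Cfsg.Statements.S2379
import Mathlib
import Cfsg.Agent.S2380
import Cfsg.Agent.Lib.Linalg.Basic

set_option autoImplicit false
open scoped MatrixGroups
open Cfsg

namespace Cfsg.Agent.S2379

open Cfsg.Agent.S2380

variable {F : Type*} [Field F] [Fintype F]

theorem factorization_SL {r : ℕ} [hr : Fact r.Prime] (n : ℕ) (hn : 0 < n) (hrn : n < r)
    (hrq : ¬ r ∣ Fintype.card F) :
    (Nat.card (Matrix.SpecialLinearGroup (Fin n) F)).factorization r + padicValNat r (Fintype.card F - 1) =
      (n / orderOf ((Fintype.card F : ℕ) : ZMod r)) *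
        padicValNat r (Fintype.card F ^ orderOf ((Fintype.card F : ℕ) : ZMod r) - 1) := by
  rw [← factorization_GL n hrn hrq]
  haveI : Nonempty (Fin n) := ⟨⟨0, hn⟩⟩
  have h := Cfsg.Agent.Lib.Linalg.Basic.card_GL_eq_mul_card_SL (F := F) (ι := Fin n)
  have hq2 : 1 < Fintype.card F := Fintype.one_lt_card
  have h1 : Fintype.card F - 1 ≠ 0 := by omega
  rw [h, Nat.card_eq_fintype_card (α := F), Nat.factorization_mul h1 Nat.card_pos.ne',
    Finsupp.add_apply, add_comm, Nat.factorization_def _ hr.out, Nat.factorization_def _ hr.out]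

/-- The diagonal embedding for the case `r ∣ q - 1`. -/
noncomputable def diagEntry {k : ℕ} (C : Subgroup Fˣ) (x : Fin k → C) : Fin (k + 1) → Fˣ :=
  Fin.snoc (α := fun _ => Fˣ) (fun i => (x i : Fˣ)) (∏ i, (x i : Fˣ))⁻¹

theorem diagEntry_mul {k : ℕ} (C : Subgroup Fˣ) (x y : Fin k → C) (j : Fin (k + 1)) :
    diagEntry C (x * y) j = diagEntry C x j * diagEntry C y j := by
  refine Fin.lastCases ?_ (fun i => ?_) j
  · simp [diagEntry, Finset.prod_mul_distrib, mul_comm]
  · simp [diagEntry]

theorem diagEntry_one {k : ℕ} (C : Subgroup Fˣ) (j : Fin (k + 1)) :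
    diagEntry C (1 : Fin k → C) j = 1 := by
  refine Fin.lastCases ?_ (fun i => ?_) j
  · simp [diagEntry]
  · simp [diagEntry]

theorem prod_diagEntry {k : ℕ} (C : Subgroup Fˣ) (x : Fin k → C) :
    ∏ j, diagEntry C x j = 1 := by
  rw [Fin.prod_univ_castSucc]
  simp [diagEntry]

/-- The diagonal homomorphism to `SL_{k+1}`. -/
noncomputable def diagHom {k : ℕ} (C : Subgroup Fˣ) :
    (Fin k → C) →* Matrix.SpecialLinearGroup (Fin (k + 1)) F where
  toFun x := ⟨Matrix.diagonal fun j => ((diagEntry C x j : Fˣ) : F), by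
    rw [Matrix.det_diagonal]
    have := congrArg (Units.val) (prod_diagEntry C x)
    simpa using this⟩
  map_one' := by
    apply Subtype.ext
    simp only [Matrix.SpecialLinearGroup.coe_one]
    rw [← Matrix.diagonal_one]
    congr 1
    funext j
    rw [diagEntry_one]
    rfl
  map_mul' x y := by
    apply Subtype.ext
    change Matrix.diagonal _ = Matrix.diagonal _ * Matrix.diagonal _
    rw [Matrix.diagonal_mul_diagonal]
    congr 1
    funext j
    rw [diagEntry_mul]
    rfl

theorem diagHom_apply {k : ℕ} (C : Subgroup Fˣ) (x : Fin k → C) :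
    ((diagHom C x : Matrix.SpecialLinearGroup (Fin (k + 1)) F) : Matrix (Fin (k + 1)) (Fin (k + 1)) F) =
      Matrix.diagonal fun j => ((diagEntry C x j : Fˣ) : F) := rfl

theorem diagHom_injective {k : ℕ} (C : Subgroup Fˣ) :
    Function.Injective (diagHom (k := k) C) := by
  intro x y hxy
  funext i
  have h1 := congrArg (fun A : Matrix.SpecialLinearGroup (Fin (k + 1)) F =>
    (A : Matrix (Fin (k + 1)) (Fin (k + 1)) F) i.castSucc i.castSucc) hxy
  simp only [diagHom_apply, Matrix.diagonal_apply_eq, diagEntry, Fin.snoc_castSucc] at h1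
  exact Subtype.ext (Units.ext h1)

/-- Assembly: a group `(Fin a → C)` embedded with Sylow image. -/
theorem assemble' {G : Type*} [Group G] [Finite G] {r : ℕ} [hr : Fact r.Prime]
    {C : Type*} [Group C] [Finite C] [IsCyclic C] {a m : ℕ} [NeZero m] (hC : Nat.card C = m)
    (φ : (Fin a → C) →* G) (hφ : Function.Injective φ)
    (hS : Nat.card φ.range = r ^ (Nat.card G).factorization r) (P : Sylow r G) :
    Nonempty (↥(P : Subgroup G) ≃* (Fin a → Multiplicative (ZMod m))) := by
  let S : Sylow r G := Sylow.ofCard φ.range hS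
  have hS' : (S : Subgroup G) = φ.range := Sylow.coe_ofCard _ _
  have hcyc : Nat.card C = Nat.card (Multiplicative (ZMod m)) := by
    rw [hC]
    simp
  let e₀ : C ≃* Multiplicative (ZMod m) := mulEquivOfCyclicCardEq hcyc
  let e₁ : ↥(P : Subgroup G) ≃* ↥(S : Subgroup G) := P.equiv S
  let e₂ : ↥(S : Subgroup G) ≃* φ.range := MulEquiv.subgroupCongr hS'
  let e₃ : (Fin a → C) ≃* φ.range := MonoidHom.ofInjective hφ
  let e₄ : (Fin a → C) ≃* (Fin a → Multiplicative (ZMod m)) :=
    MulEquiv.piCongrRight fun _ => e₀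
  exact ⟨e₁.trans (e₂.trans (e₃.symm.trans e₄))⟩

/-- Sylow subgroups of `SL_n(q)` for large primes. Let `F` be a field with `q` elements and `r` a prime with `r > n` and `r ∤ q` (so `r` does not divide the order `n!` of the Weyl group). Let `d` be the multiplicative order of `q` modulo `r`, `a` the number of integers `i` with `2 ≤ i ≤ n` divisible by `d` (the degrees of the Weyl group are `2, …, n`), and `m` the `r`-part of the value at `q` of the `d`-th cyclotomic polynomial. Then every Sylow `r`-subgroup of `SL_n(q)` is a direct product of `a` cyclic groups of order `m`. -/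
theorem result {F : Type*} [Field F] [Fintype F] {q : ℕ} (hq : Fintype.card F = q) (n : ℕ)
    (r : ℕ) [Fact r.Prime] (hrn : n < r) (hrq : ¬ r ∣ q) (P : Sylow r (Matrix.SpecialLinearGroup (Fin n) F)) :
    Nonempty (↥(P : Subgroup (Matrix.SpecialLinearGroup (Fin n) F)) ≃*
      (Fin ((Finset.Icc 2 n).filter (fun i => orderOf (q : ZMod r) ∣ i)).card →
        Multiplicative (ZMod (r ^ padicValNat r ((Polynomial.cyclotomic (orderOf (q : ZMod r)) ℤ).eval (q : ℤ)).natAbs)))) := by
  classical
  subst hq
  have hr := (inferInstance : Fact r.Prime)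
  have hq2 : 2 ≤ Fintype.card F := Fintype.one_lt_card
  rw [val_cyclotomic hq2 hrq]
  rcases Nat.eq_zero_or_pos n with hn | hn
  · subst hn
    have h0 : (Finset.filter (fun i => orderOf ((Fintype.card F : ℕ) : ZMod r) ∣ i) (Finset.Icc 2 0)).card = 0 := by
      simp
    rw [h0]
    haveI : Subsingleton (Matrix.SpecialLinearGroup (Fin 0) F) :=
      ⟨fun a b => Subtype.ext (Matrix.ext fun i => i.elim0)⟩
    haveI : Inhabited ↥(P : Subgroup (Matrix.SpecialLinearGroup (Fin 0) F)) := ⟨1⟩
    haveI : Unique ↥(P : Subgroup (Matrix.SpecialLinearGroup (Fin 0) F)) := Unique.mk' _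
    exact ⟨MulEquiv.ofUnique⟩
  set d := orderOf ((Fintype.card F : ℕ) : ZMod r) with hd
  have hdpos : 0 < d := d_pos hrq
  set w := padicValNat r (Fintype.card F ^ d - 1) with hw
  haveI hne : NeZero (r ^ w) := ⟨by have := hr.out.pos; positivity⟩
  have hfac := factorization_SL (F := F) (r := r) n hn hrn hrq
  rw [← hd, ← hw] at hfac
  by_cases hd1 : d = 1
  · -- diagonal case
    have hcount : (Finset.filter (fun i => d ∣ i) (Finset.Icc 2 n)).card = n - 1 := by
      rw [hd1]
      simp
    rw [hcount]
    have hw1 : w = padicValNat r (Fintype.card F - 1) := by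
      rw [hw, hd1, pow_one]
    obtain ⟨k, rfl⟩ : ∃ k, n = k + 1 := ⟨n - 1, by omega⟩
    rw [Nat.add_sub_cancel]
    have hdvd : r ^ w ∣ Nat.card Fˣ := by
      rw [Nat.card_units, Nat.card_eq_fintype_card, hw1]
      exact pow_padicValNat_dvd
    obtain ⟨C, hC⟩ := Sylow.exists_subgroup_card_pow_prime (G := Fˣ) r hdvd
    have hcard : Nat.card (diagHom (k := k) C).range =
        r ^ (Nat.card (Matrix.SpecialLinearGroup (Fin (k + 1)) F)).factorization r := by
      rw [Nat.card_congr (MonoidHom.ofInjective (diagHom_injective C)).toEquiv.symm, Nat.card_fun, hC,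
        Nat.card_fin, ← pow_mul]
      congr 1
      rw [hd1, Nat.div_one, ← hw1] at hfac
      have : (k + 1) * w = k * w + w := by ring
      rw [this] at hfac
      have h2 : (Nat.card (Matrix.SpecialLinearGroup (Fin (k + 1)) F)).factorization r = k * w := by
        omega
      rw [h2, mul_comm]
    exact assemble' hC (diagHom C) (diagHom_injective C) hcard P
  · have hcount : (Finset.filter (fun i => d ∣ i) (Finset.Icc 2 n)).card = n / d := by
      rw [← Nat.Ioc_filter_dvd_card_eq_div n d]
      congr 1
      ext x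
      simp only [Finset.mem_filter, Finset.mem_Icc, Finset.mem_Ioc]
      constructor
      · rintro ⟨⟨h1, h2⟩, h3⟩
        exact ⟨⟨by omega, h2⟩, h3⟩
      · rintro ⟨⟨h1, h2⟩, h3⟩
        have := Nat.le_of_dvd h1 h3
        exact ⟨⟨by omega, h2⟩, h3⟩
    rw [hcount]
    have hr1 : ¬ r ∣ Fintype.card F - 1 := by
      intro h
      have h1 : r ∣ Fintype.card F ^ 1 - 1 := by rwa [pow_one]
      have h2 := (dvd_iff (by omega) 1).mp h1
      exact hd1 (Nat.dvd_one.mp h2)
    rw [padicValNat.eq_zero_of_not_dvd hr1, add_zero] at hfac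
    obtain ⟨C, _, _, _, hC, φ, hφ⟩ := exists_hom (F := F) (r := r) n hrq
    rw [← hd, ← hw] at hC
    have hx : ∀ x : Fin (n / d) → C, x ^ (r ^ w) = 1 := by
      intro x
      funext i
      have := pow_card_eq_one' (x := x i)
      rw [hC] at this
      simpa using this
    have hdet : ∀ x : Fin (n / d) → C,
        (((φ x : GL (Fin n) F) : Matrix (Fin n) (Fin n) F)).det = 1 := by
      intro x
      have h1 : (Matrix.GeneralLinearGroup.det (φ x)) ^ (r ^ w) = 1 := by
        rw [← map_pow, ← map_pow, hx, map_one, map_one]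
      have h2 : (Matrix.GeneralLinearGroup.det (φ x)) ^ (Fintype.card F - 1) = 1 := by
        have := pow_card_eq_one' (x := Matrix.GeneralLinearGroup.det (φ x))
        rwa [Nat.card_units, Nat.card_eq_fintype_card] at this
      have hcop : Nat.gcd (Fintype.card F - 1) (r ^ w) = 1 :=
        Nat.Coprime.pow_right w ((Nat.Prime.coprime_iff_not_dvd hr.out).mpr hr1).symm
      have h3 := pow_gcd_eq_one.mpr ⟨h2, h1⟩
      rw [hcop, pow_one] at h3
      have h4 := congrArg Units.val h3
      simpa [Matrix.GeneralLinearGroup.val_det_apply] using h4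
    let φ' : (Fin (n / d) → C) →* Matrix.SpecialLinearGroup (Fin n) F :=
      { toFun := fun x => ⟨(φ x : GL (Fin n) F).val, hdet x⟩
        map_one' := by
          apply Subtype.ext
          change ((φ 1 : GL (Fin n) F) : Matrix (Fin n) (Fin n) F) = 1
          rw [map_one]
          rfl
        map_mul' := by
          intro x y
          apply Subtype.ext
          change ((φ (x * y) : GL (Fin n) F) : Matrix (Fin n) (Fin n) F) = _ * _
          rw [map_mul]
          rfl }
    have hφ' : Function.Injective φ' := by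
      intro x y hxy
      apply hφ
      apply Units.ext
      exact congrArg Subtype.val hxy
    have hcard : Nat.card φ'.range =
        r ^ (Nat.card (Matrix.SpecialLinearGroup (Fin n) F)).factorization r := by
      rw [Nat.card_congr (MonoidHom.ofInjective hφ').toEquiv.symm, Nat.card_fun, hC,
        Nat.card_fin, ← pow_mul, hfac, mul_comm]
    exact assemble' hC φ' hφ' hcard P

end Cfsg.Agent.S2379
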