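import Cfsg.Statements.S2381
import Mathlib
import Cfsg.Agent.S2380
import Cfsg.Agent.Lib.Linalg.SympRep
import Cfsg.Agent.Lib.Classical.Symp.Count

set_option autoImplicit false
open Cfsg

namespace Cfsg.Agent.S2381

open Cfsg.Agent.S2380 Cfsg.Agent.Lib.Linalg.SympRep Module
open Cfsg.Agent.Lib.Classical.Symp.Basic (sympBilin sympBilin_isAlt sympBilin_nondegenerate)

section assembleSp

variable {F : Type*} [Field F]

/-- Orthogonal sum of `a` copies of `(V₀, B₀)` and a standard symplectic space. -/
noncomputable def sumForm {V₀ : Type*} [AddCommGroup V₀] [Module F V₀] (B₀ : LinearMap.BilinForm F V₀)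
    (a c : ℕ) : LinearMap.BilinForm F ((Fin a → V₀) × (Fin c ⊕ Fin c → F)) :=
  LinearMap.mk₂ F
    (fun u v => ∑ i, B₀ (u.1 i) (v.1 i) + sympBilin c F u.2 v.2)
    (fun x y z => by
      simp only [Prod.fst_add, Prod.snd_add, Pi.add_apply, map_add, LinearMap.add_apply,
        Finset.sum_add_distrib]
      ring)
    (fun r x y => by
      simp only [Prod.smul_fst, Prod.smul_snd, Pi.smul_apply, map_smul, LinearMap.smul_apply,
        smul_eq_mul, Finset.mul_sum, mul_add])
    (fun x y z => by
      simp only [Prod.fst_add, Prod.snd_add, Pi.add_apply, map_add, Finset.sum_add_distrib]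
      ring)
    (fun r x y => by
      simp only [Prod.smul_fst, Prod.smul_snd, Pi.smul_apply, map_smul,
        smul_eq_mul, Finset.mul_sum, mul_add])

variable {V₀ : Type*} [AddCommGroup V₀] [Module F V₀] {B₀ : LinearMap.BilinForm F V₀} {a c : ℕ}

theorem sumForm_apply (u v : (Fin a → V₀) × (Fin c ⊕ Fin c → F)) :
    sumForm B₀ a c u v = ∑ i, B₀ (u.1 i) (v.1 i) + sympBilin c F u.2 v.2 := rfl

theorem sumForm_isAlt (hA : B₀.IsAlt) : (sumForm B₀ a c).IsAlt := fun u => by
  rw [sumForm_apply, sympBilin_isAlt u.2, add_zero]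
  exact Finset.sum_eq_zero fun i _ => hA _

theorem sumForm_rad (hN : ∀ x, (∀ y, B₀ x y = 0) → x = 0)
    (u : (Fin a → V₀) × (Fin c ⊕ Fin c → F)) (h : ∀ v, sumForm B₀ a c u v = 0) : u = 0 := by
  classical
  apply Prod.ext
  · funext i
    apply hN
    intro y
    have h1 := h (Function.update 0 i y, 0)
    rw [sumForm_apply, map_zero, add_zero, Finset.sum_eq_single i] at h1
    · simpa using h1
    · intro j _ hj
      simp [Function.update_of_ne hj]
    · simp
  · apply sympBilin_nondegenerate.1
    intro y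
    have h1 := h (0, y)
    rw [sumForm_apply] at h1
    simpa using h1

variable {C : Type*} [Group C]

/-- The action on the orthogonal sum. -/
noncomputable def sumAct (ρ₀ : C →* Module.End F V₀) (a c : ℕ) :
    (Fin a → C) →* Module.End F ((Fin a → V₀) × (Fin c ⊕ Fin c → F)) where
  toFun h := LinearMap.prodMap (LinearMap.pi fun i => (ρ₀ (h i)).comp (LinearMap.proj i)) LinearMap.id
  map_one' := by
    ext x <;> simp
  map_mul' h h' := by
    ext x <;> simp

theorem sumAct_apply (ρ₀ : C →* Module.End F V₀) (h : Fin a → C)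
    (x : (Fin a → V₀) × (Fin c ⊕ Fin c → F)) :
    sumAct ρ₀ a c h x = (fun i => ρ₀ (h i) (x.1 i), x.2) := rfl

theorem exists_sp_hom [FiniteDimensional F V₀] (hA : B₀.IsAlt) (hN : ∀ x, (∀ y, B₀ x y = 0) → x = 0)
    {δ : ℕ} (hdim : finrank F V₀ = 2 * δ) (ρ₀ : C →* Module.End F V₀)
    (hρ : ∀ c x y, B₀ (ρ₀ c x) (ρ₀ c y) = B₀ x y) (hfaith : ∀ c, (∀ x, ρ₀ c x = x) → c = 1)
    {a n : ℕ} (han : a * δ ≤ n) :
    ∃ f : (Fin a → C) →* Matrix.symplecticGroup (Fin n) F, Function.Injective f := by
  classical
  set c := n - a * δ with hc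
  have hAlt : (sumForm B₀ a c).IsAlt := sumForm_isAlt hA
  obtain ⟨m, k, b, hb⟩ := exists_isSymplecticBasis (sumForm B₀ a c) hAlt
  have hk : k = 0 := by
    by_contra hk
    have hj : 0 < k := Nat.pos_of_ne_zero hk
    have h1 := sumForm_rad hN (b (.inr ⟨0, hj⟩)) (hb.rad ⟨0, hj⟩)
    exact b.ne_zero _ h1
  have hdimV : finrank F ((Fin a → V₀) × (Fin c ⊕ Fin c → F)) = 2 * m + k := by
    rw [finrank_eq_card_basis b]
    simp
    ring
  have hdimV' : finrank F ((Fin a → V₀) × (Fin c ⊕ Fin c → F)) = 2 * n := by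
    rw [Module.finrank_prod, Module.finrank_pi_fintype]
    simp [hdim, Module.finrank_fintype_fun_eq_card]
    have h1 : a * (2 * δ) = 2 * (a * δ) := by ring
    rw [h1]
    omega
  have hm : m = n := by omega
  subst hm
  have hρ' : ∀ h x y, sumForm B₀ a c (sumAct ρ₀ a c h x) (sumAct ρ₀ a c h y) = sumForm B₀ a c x y := by
    intro h x y
    simp only [sumForm_apply, sumAct_apply, hρ]
  obtain ⟨f, hf⟩ := exists_hom_symplecticGroup hAlt hb (sumAct ρ₀ a c) hρ'
  refine ⟨f, (injective_iff_map_eq_one f).mpr ?_⟩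
  intro h hh
  have h1 := hf h hh
  have h2 : ∀ x, sumAct ρ₀ a c h x = x := by
    intro x
    have h3 : sumAct ρ₀ a c h x - x = 0 := by
      apply sumForm_rad hN
      intro v
      rw [map_sub, LinearMap.sub_apply, h1, sub_self]
    exact sub_eq_zero.mp h3
  funext i
  apply hfaith
  intro y
  have h3 := h2 (Function.update 0 i y, 0)
  have h4 := congrFun (congrArg Prod.fst h3) i
  simpa [sumAct_apply] using h4

end assembleSp

section numbers

variable {q r : ℕ} [hr : Fact r.Prime]

theorem val_two (hq : 2 ≤ q) (hrq : ¬ r ∣ q) (hr2 : r ≠ 2) {n i : ℕ} (hrn : n < r) (hi : 1 ≤ i)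
    (hin : i ≤ n) :
    padicValNat r (q ^ (2 * i) - 1) = if orderOf (q : ZMod r) ∣ 2 * i then
      padicValNat r (q ^ orderOf (q : ZMod r) - 1) else 0 := by
  set d := orderOf (q : ZMod r) with hd
  have hdpos : 0 < d := d_pos hrq
  split_ifs with h
  · obtain ⟨j, hj⟩ := h
    have hj0 : j ≠ 0 := by
      rintro rfl
      omega
    have hodd : Odd r := hr.out.odd_of_ne_two hr2
    have h1 : 1 < q ^ d := Nat.one_lt_pow hdpos.ne' (by omega)
    have h2 : r ∣ q ^ d - 1 := (dvd_iff (by omega) d).mpr dvd_rfl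
    have h3 : ¬ r ∣ q ^ d := fun h => hrq (hr.out.dvd_of_dvd_pow h)
    have h4 := padicValNat.pow_sub_pow (x := q ^ d) (y := 1) (p := r) hodd h1 h2 h3 hj0
    rw [one_pow, ← pow_mul, ← hj] at h4
    rw [h4, padicValNat.eq_zero_of_not_dvd (n := j), add_zero]
    intro hrj
    have h5 : r ∣ 2 * i := hj ▸ dvd_mul_of_dvd_right hrj d
    have h6 : r ∣ i := (Nat.Coprime.dvd_of_dvd_mul_left
      ((Nat.coprime_primes hr.out Nat.prime_two).mpr hr2) h5)
    have := Nat.le_of_dvd (by omega) h6
    omega
  · exact padicValNat.eq_zero_of_not_dvd (fun h1 => h ((dvd_iff (by omega) _).mp h1))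

theorem factorization_Sp {F : Type*} [Field F] [Fintype F] (n : ℕ) (hr2 : r ≠ 2) (hrn : n < r)
    (hrq : ¬ r ∣ Fintype.card F) :
    (Nat.card (Matrix.symplecticGroup (Fin n) F)).factorization r =
      ((Finset.Icc 1 n).filter (fun i => orderOf ((Fintype.card F : ℕ) : ZMod r) ∣ 2 * i)).card *
        padicValNat r (Fintype.card F ^ orderOf ((Fintype.card F : ℕ) : ZMod r) - 1) := by
  have hq2 : 2 ≤ Fintype.card F := Fintype.one_lt_card
  rw [Cfsg.Agent.Lib.Classical.Symp.Count.card_symplecticGroup (Nat.card_eq_fintype_card) n]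
  set q := Fintype.card F with hq
  set d := orderOf (q : ZMod r) with hd
  have hne : ∀ i ∈ Finset.range n, q ^ (2 * (i + 1)) - 1 ≠ 0 := by
    intro i _
    have : 1 < q ^ (2 * (i + 1)) := Nat.one_lt_pow (by omega) (by omega)
    omega
  have hprod : ∏ i ∈ Finset.range n, (q ^ (2 * (i + 1)) - 1) ≠ 0 := Finset.prod_ne_zero_iff.mpr hne
  have hq0 : q ^ (n ^ 2) ≠ 0 := by positivity
  rw [Nat.factorization_mul hq0 hprod, Finsupp.add_apply,
    Nat.factorization_eq_zero_of_not_dvd (fun h => hrq (hr.out.dvd_of_dvd_pow h)), zero_add,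
    Nat.factorization_prod hne, Finset.sum_apply']
  have h1 : ∀ i ∈ Finset.range n, (q ^ (2 * (i + 1)) - 1).factorization r =
      if d ∣ 2 * (i + 1) then padicValNat r (q ^ d - 1) else 0 := by
    intro i hi
    rw [Nat.factorization_def _ hr.out]
    exact val_two hq2 hrq hr2 hrn (by omega) (by have := Finset.mem_range.mp hi; omega)
  rw [Finset.sum_congr rfl h1, Finset.card_filter, Finset.sum_mul]
  have h2 : ∑ i ∈ Finset.Icc 1 n, (if d ∣ 2 * i then 1 else 0) * padicValNat r (q ^ d - 1) =
      ∑ i ∈ Finset.range n, (if d ∣ 2 * (i + 1) then 1 else 0) * padicValNat r (q ^ d - 1) := by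
    rw [Finset.range_eq_Ico, Finset.sum_Ico_add' (fun i => (if d ∣ 2 * i then 1 else 0) * padicValNat r (q ^ d - 1)) 0 n 1]
    rfl
  rw [h2]
  apply Finset.sum_congr rfl
  intro i _
  split_ifs <;> simp

end numbers

section fields

variable {F : Type*} [Field F] {K : Type*} [Field K] [Algebra F K] [FiniteDimensional F K]

/-- The hyperbolic model `K × K`. -/
theorem exists_odd (C : Subgroup Kˣ) {d : ℕ} (hd : finrank F K = d) {a n : ℕ} (han : a * d ≤ n) :
    ∃ f : (Fin a → C) →* Matrix.symplecticGroup (Fin n) F, Function.Injective f := by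
  classical
  obtain ⟨l, hl⟩ : ∃ l : Module.Dual F K, l 1 ≠ 0 := by
    by_contra h
    push Not at h
    exact one_ne_zero ((Module.forall_dual_apply_eq_zero_iff F (1 : K)).mp h)
  let B₀ : LinearMap.BilinForm F (K × K) := LinearMap.mk₂ F
    (fun u v => l (u.1 * v.2 - u.2 * v.1))
    (fun x y z => by
      simp only [Prod.fst_add, Prod.snd_add]
      rw [← map_add]
      congr 1
      ring)
    (fun r x y => by
      simp only [Prod.smul_fst, Prod.smul_snd]
      rw [smul_eq_mul, ← smul_eq_mul (a := r), ← map_smul]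
      congr 1
      simp only [smul_mul_assoc, smul_sub])
    (fun x y z => by
      simp only [Prod.fst_add, Prod.snd_add]
      rw [← map_add]
      congr 1
      ring)
    (fun r x y => by
      simp only [Prod.smul_fst, Prod.smul_snd]
      rw [smul_eq_mul, ← smul_eq_mul (a := r), ← map_smul]
      congr 1
      simp only [mul_smul_comm, smul_sub])
  have hB₀ : ∀ u v, B₀ u v = l (u.1 * v.2 - u.2 * v.1) := fun _ _ => rfl
  have hA : B₀.IsAlt := fun u => by
    rw [hB₀, mul_comm, sub_self, map_zero]
  have hN : ∀ x, (∀ y, B₀ x y = 0) → x = 0 := by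
    intro x hx
    apply Prod.ext
    · by_contra h
      have h1 := hx (0, (x.1)⁻¹)
      rw [hB₀] at h1
      have h0 : x.1 ≠ 0 := h
      simp [h0] at h1
      exact hl h1
    · by_contra h
      have h1 := hx ((x.2)⁻¹, 0)
      rw [hB₀] at h1
      have h0 : x.2 ≠ 0 := h
      simp [h0] at h1
      exact hl h1
  let ρ₀ : C →* Module.End F (K × K) :=
    { toFun := fun c => LinearMap.prodMap (LinearMap.mulLeft F (((c : Kˣ)) : K))
        (LinearMap.mulLeft F ((((c : Kˣ)⁻¹ : Kˣ)) : K))
      map_one' := by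
        ext x <;> simp
      map_mul' := by
        intro c c'
        ext x <;> simp [mul_comm] }
  have hρ₀ : ∀ c x, ρ₀ c x = (((c : Kˣ) : K) * x.1, (((c : Kˣ)⁻¹ : Kˣ) : K) * x.2) := fun _ _ => rfl
  have hρ : ∀ c x y, B₀ (ρ₀ c x) (ρ₀ c y) = B₀ x y := by
    intro c x y
    rw [hB₀, hB₀, hρ₀, hρ₀]
    congr 1
    have h1 : ((c : Kˣ) : K) * (((c : Kˣ)⁻¹ : Kˣ) : K) = 1 := Units.mul_inv _
    simp only
    linear_combination (x.1 * y.2 - x.2 * y.1) * h1
  have hfaith : ∀ c, (∀ x, ρ₀ c x = x) → c = 1 := by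
    intro c hc
    have h1 := hc (1, 1)
    rw [hρ₀] at h1
    have h2 := congrArg Prod.fst h1
    simp only [mul_one] at h2
    exact Subtype.ext (Units.ext h2)
  have hdim : finrank F (K × K) = 2 * d := by
    rw [Module.finrank_prod, hd]
    ring
  exact exists_sp_hom hA hN hdim ρ₀ hρ hfaith han

/-- The unitary model on `K`. -/
theorem exists_even (C : Subgroup Kˣ) {e : ℕ} (hd : finrank F K = 2 * e) (τ : K ≃ₐ[F] K)
    (hτ : ∀ x, τ (τ x) = x) (b : K) (hb : τ b ≠ b) (hC : ∀ u ∈ C, (u : K) * τ u = 1)
    {a n : ℕ} (han : a * e ≤ n) :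
    ∃ f : (Fin a → C) →* Matrix.symplecticGroup (Fin n) F, Function.Injective f := by
  classical
  have hz : b - τ b ≠ 0 := fun h => hb (sub_eq_zero.mp h).symm
  obtain ⟨l, hl⟩ : ∃ l : Module.Dual F K, l (b - τ b) ≠ 0 := by
    by_contra h
    push Not at h
    exact hz ((Module.forall_dual_apply_eq_zero_iff F (b - τ b)).mp h)
  let B₀ : LinearMap.BilinForm F K := LinearMap.mk₂ F
    (fun u v => l (u * τ v - v * τ u))
    (fun x y z => by
      rw [← map_add]
      congr 1
      simp only [map_add]
      ring)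
    (fun r x y => by
      rw [smul_eq_mul, ← smul_eq_mul (a := r), ← map_smul]
      congr 1
      simp only [map_smul, smul_mul_assoc, mul_smul_comm, smul_sub])
    (fun x y z => by
      rw [← map_add]
      congr 1
      simp only [map_add]
      ring)
    (fun r x y => by
      rw [smul_eq_mul, ← smul_eq_mul (a := r), ← map_smul]
      congr 1
      simp only [map_smul, smul_mul_assoc, mul_smul_comm, smul_sub])
  have hB₀ : ∀ u v, B₀ u v = l (u * τ v - v * τ u) := fun _ _ => rfl
  have hA : B₀.IsAlt := fun u => by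
    rw [hB₀, sub_self, map_zero]
  have hN : ∀ x, (∀ y, B₀ x y = 0) → x = 0 := by
    intro x hx
    by_contra h0
    have h1 := hx (-b / τ x)
    rw [hB₀] at h1
    have hτx : τ x ≠ 0 := fun h => h0 (by simpa using h)
    have h2 : x * τ (-b / τ x) - (-b / τ x) * τ x = b - τ b := by
      rw [map_div₀, map_neg, hτ]
      field_simp
      ring
    rw [h2] at h1
    exact hl h1
  let ρ₀ : C →* Module.End F K :=
    { toFun := fun c => LinearMap.mulLeft F (((c : Kˣ)) : K)
      map_one' := by
        ext x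
        simp
      map_mul' := by
        intro c c'
        ext x
        simp }
  have hρ₀ : ∀ c x, ρ₀ c x = ((c : Kˣ) : K) * x := fun _ _ => rfl
  have hρ : ∀ c x y, B₀ (ρ₀ c x) (ρ₀ c y) = B₀ x y := by
    intro c x y
    rw [hB₀, hB₀, hρ₀, hρ₀]
    congr 1
    have h1 := hC _ c.2
    rw [map_mul, map_mul]
    linear_combination (x * τ y - y * τ x) * h1
  have hfaith : ∀ c, (∀ x, ρ₀ c x = x) → c = 1 := by
    intro c hc
    have h1 := hc 1
    rw [hρ₀, mul_one] at h1
    exact Subtype.ext (Units.ext h1)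
  exact exists_sp_hom hA hN hd ρ₀ hρ hfaith han

end fields

/-- Sylow subgroups of `Sp_{2n}(q)` for large primes. Let `F` be a field with `q` elements and `r` an odd prime with `r > n` and `r ∤ q` (so `r` does not divide the order `2^n n!` of the Weyl group). Let `d` be the multiplicative order of `q` modulo `r`, `a` the number of `i` with `1 ≤ i ≤ n` and `d ∣ 2i` (the degrees being `2, 4, …, 2n`), and `m` the `r`-part of the value at `q` of the `d`-th cyclotomic polynomial. Then every Sylow `r`-subgroup of the symplectic group `Sp_{2n}(q)` is a direct product of `a` cyclic groups of order `m`. -/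
theorem result {F : Type*} [Field F] [Fintype F] {q : ℕ} (hq : Fintype.card F = q) (n : ℕ)
    (r : ℕ) [Fact r.Prime] (hr2 : r ≠ 2) (hrn : n < r) (hrq : ¬ r ∣ q) (P : Sylow r ↥(Matrix.symplecticGroup (Fin n) F)) :
    Nonempty (↥(P : Subgroup ↥(Matrix.symplecticGroup (Fin n) F)) ≃*
      (Fin ((Finset.Icc 1 n).filter (fun i => orderOf (q : ZMod r) ∣ 2 * i)).card →
        Multiplicative (ZMod (r ^ padicValNat r ((Polynomial.cyclotomic (orderOf (q : ZMod r)) ℤ).eval (q : ℤ)).natAbs)))) := by
  classical
  subst hq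
  have hr : Fact r.Prime := inferInstance
  have hq2 : 2 ≤ Fintype.card F := Fintype.one_lt_card
  rw [val_cyclotomic hq2 hrq]
  have hfac := factorization_Sp (F := F) (r := r) n hr2 hrn hrq
  set q := Fintype.card F with hq
  set d := orderOf ((q : ℕ) : ZMod r) with hd
  have hdpos : 0 < d := d_pos hrq
  haveI : NeZero d := ⟨hdpos.ne'⟩
  set w := padicValNat r (q ^ d - 1) with hw
  haveI hne : NeZero (r ^ w) := ⟨by have := hr.out.pos; positivity⟩
  obtain ⟨p, hp⟩ := CharP.exists F
  haveI : Fact p.Prime := ⟨CharP.char_is_prime F p⟩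
  let K : Type := FiniteField.Extension F p d
  have hfin : Module.finrank F K = d := FiniteField.finrank_extension F p d
  have hcardK : Nat.card K = q ^ d := by
    have h0 : Nat.card K = Nat.card F ^ d := FiniteField.natCard_extension F p d
    rw [h0, Nat.card_eq_fintype_card]
  have hcardU : Nat.card Kˣ = q ^ d - 1 := by rw [Nat.card_units, hcardK]
  have hdvd : r ^ w ∣ Nat.card Kˣ := by
    rw [hcardU]
    exact pow_padicValNat_dvd
  obtain ⟨C, hC⟩ := Sylow.exists_subgroup_card_pow_prime (G := Kˣ) r hdvd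
  -- the subgroup has the right size provided the count is right
  have hfinish : ∀ {δ : ℕ}, ((Finset.Icc 1 n).filter (fun i => d ∣ 2 * i)).card = n / δ →
      (∃ f : (Fin (n / δ) → C) →* Matrix.symplecticGroup (Fin n) F, Function.Injective f) →
      Nonempty (↥(P : Subgroup ↥(Matrix.symplecticGroup (Fin n) F)) ≃*
        (Fin ((Finset.Icc 1 n).filter (fun i => d ∣ 2 * i)).card →
          Multiplicative (ZMod (r ^ w)))) := by
    intro δ hcount ⟨f, hf⟩
    rw [hcount]
    have hcard : Nat.card f.range =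
        r ^ (Nat.card (Matrix.symplecticGroup (Fin n) F)).factorization r := by
      rw [Nat.card_congr (MonoidHom.ofInjective hf).toEquiv.symm, Nat.card_fun, hC, Nat.card_fin,
        ← pow_mul, hfac, hcount, mul_comm]
    exact assemble hC f hf hcard P
  have hIcc : Finset.Icc 1 n = Finset.Ioc 0 n := by
    ext x
    simp only [Finset.mem_Icc, Finset.mem_Ioc]
    omega
  rcases Nat.even_or_odd d with hev | hodd
  · -- the unitary case
    obtain ⟨e, he⟩ := hev
    have hd2 : d = 2 * e := by omega
    have hepos : 0 < e := by omega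
    refine hfinish (δ := e) ?_ ?_
    · rw [← Nat.Ioc_filter_dvd_card_eq_div n e, hIcc]
      congr 1
      ext x
      simp only [Finset.mem_filter, and_congr_right_iff]
      intro _
      rw [hd2]
      exact Nat.mul_dvd_mul_iff_left (by norm_num)
    · let fr : K ≃ₐ[F] K := FiniteField.Extension.frob F p d
      have hfr : ∀ (k : ℕ) (x : K), (fr ^ k) x = x ^ (q ^ k) := by
        intro k x
        induction k with
        | zero => simp
        | succ k ih =>
          rw [pow_succ', AlgEquiv.mul_apply, ih]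
          have h1 : ∀ y : K, fr y = y ^ Nat.card F := fun y => FiniteField.Extension.frob_apply F p d
          rw [h1, Nat.card_eq_fintype_card, ← pow_mul, pow_succ']
          congr 1
          ring
      let τ : K ≃ₐ[F] K := fr ^ e
      have hτa : ∀ x, τ x = x ^ (q ^ e) := hfr e
      have hτ : ∀ x, τ (τ x) = x := by
        intro x
        rw [hτa, hτa, ← pow_mul, ← pow_add, ← two_mul, ← hd2]
        haveI := Fintype.ofFinite K
        have h := FiniteField.pow_card x
        rw [Fintype.card_eq_nat_card, hcardK] at h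
        exact h
      obtain ⟨g, hg⟩ := IsCyclic.exists_generator (α := Kˣ)
      have hgo : orderOf g = q ^ d - 1 := by
        rw [orderOf_eq_card_of_forall_mem_zpowers hg, hcardU]
      have hqe1 : 1 < q ^ e := Nat.one_lt_pow hepos.ne' (by omega)
      have hqd : q ^ d = q ^ e * q ^ e := by rw [hd2, two_mul, pow_add]
      have hb : τ (g : K) ≠ (g : K) := by
        intro h
        rw [hτa] at h
        have h1 : g ^ (q ^ e) = g := Units.ext (by simpa using h)
        have h2 : g ^ (q ^ e - 1) = 1 := by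
          have h3 : g ^ (q ^ e - 1) * g = g := by
            rw [← pow_succ, Nat.sub_add_cancel (by omega), h1]
          exact mul_eq_right.mp h3
        have h4 := orderOf_dvd_of_pow_eq_one h2
        rw [hgo] at h4
        have h5 := Nat.le_of_dvd (by omega) h4
        rw [hqd] at h5
        have h6 : q ^ e * 2 ≤ q ^ e * q ^ e := Nat.mul_le_mul_left _ hqe1
        omega
      have hfac2 : q ^ d - 1 = (q ^ e + 1) * (q ^ e - 1) := by
        rw [hqd]
        obtain ⟨x, hx⟩ : ∃ x, q ^ e = x + 1 := ⟨q ^ e - 1, by omega⟩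
        rw [hx]
        simp only [Nat.add_sub_cancel]
        have : (x + 1) * (x + 1) - 1 = x * x + 2 * x := by
          have h1 : (x + 1) * (x + 1) = x * x + 2 * x + 1 := by ring
          omega
        rw [this]
        ring
      have hdvd2 : r ^ w ∣ q ^ e + 1 := by
        have h1 : r ^ w ∣ (q ^ e + 1) * (q ^ e - 1) := by
          rw [← hfac2, hw]
          exact pow_padicValNat_dvd
        have h2 : ¬ r ∣ q ^ e - 1 := by
          intro h
          have h3 := (dvd_iff (by omega) e).mp h
          have h4 := Nat.le_of_dvd hepos h3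
          omega
        have h5 : Nat.Coprime (r ^ w) (q ^ e - 1) :=
          Nat.Coprime.pow_left w ((Nat.Prime.coprime_iff_not_dvd hr.out).mpr h2)
        exact h5.dvd_of_dvd_mul_right h1
      have hCu : ∀ u ∈ C, (u : K) * τ u = 1 := by
        intro u hu
        rw [hτa, ← pow_succ']
        have h1 : u ^ (r ^ w) = 1 := by
          have h2 := pow_card_eq_one' (x := (⟨u, hu⟩ : C))
          rw [hC] at h2
          exact congrArg Subtype.val h2
        obtain ⟨t, ht⟩ := hdvd2
        rw [ht, pow_mul]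
        have h3 : (u : K) ^ (r ^ w) = 1 := by
          have := congrArg Units.val h1
          simpa using this
        rw [h3, one_pow]
      have hfin' : Module.finrank F K = 2 * e := by rw [hfin, hd2]
      exact exists_even C hfin' τ hτ (g : K) hb hCu (Nat.div_mul_le_self n e)
  · refine hfinish (δ := d) ?_ ?_
    · rw [← Nat.Ioc_filter_dvd_card_eq_div n d, hIcc]
      congr 1
      ext x
      simp only [Finset.mem_filter, and_congr_right_iff]
      intro _
      exact Nat.Coprime.dvd_mul_left hodd.coprime_two_right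
    · exact exists_odd C hfin (Nat.div_mul_le_self n d)

end Cfsg.Agent.S2381
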