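import Cfsg.Statements.S2383
import Mathlib
import Cfsg.Agent.Lib.ModHecke.Braid
import Cfsg.Agent.Lib.Chevalley.Tbl.B2Sys
import Cfsg.Agent.Lib.Chevalley.Tbl.B2NF
import Cfsg.Agent.Lib.Chevalley.Tbl.D4Sys
import Cfsg.Agent.Lib.Chevalley.Tbl.D4NF
import Cfsg.Agent.Lib.Chevalley.Tbl.E7Sys
import Cfsg.Agent.Lib.Chevalley.Tbl.E7NF
import Cfsg.Agent.Lib.ChevBN.FastData
-- import your own Cfsg.Agent.* helpers here

set_option autoImplicit false
open Cfsg

namespace Cfsg.Agent.S2383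

open Cfsg.Agent.Lib.ModHecke.Braid Cfsg.Agent.Lib.Chevalley.SysOf in
theorem braid_B2 : chkBrAll Cfsg.Agent.Lib.ChevBN.FastData.tabB2 Cfsg.Lie.chevB2 (etaOf Cfsg.Agent.Lib.Chevalley.Tbl.B2.wT) = true := by
  decide +kernel

open Cfsg.Agent.Lib.ModHecke.Braid Cfsg.Agent.Lib.Chevalley.SysOf in
theorem braid_D4 : chkBrAll Cfsg.Agent.Lib.ChevBN.FastData.tabD4 Cfsg.Lie.chevD4 (etaOf Cfsg.Agent.Lib.Chevalley.Tbl.D4.wT) = true := by
  decide +kernel

open Cfsg.Agent.Lib.ModHecke.Braid Cfsg.Agent.Lib.Chevalley.SysOf in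
theorem braid_E7 : chkBrAll Cfsg.Agent.Lib.ChevBN.FastData.tabE7 Cfsg.Lie.chevE7 (etaOf Cfsg.Agent.Lib.Chevalley.Tbl.E7.wT) = true := by
  decide +kernel

open Cfsg.Agent.Lib.ModHecke.Braid in
theorem inv_B2 : InvUpTo Cfsg.Lie.chevB2 2 := ⟨tblI [[2, 1], [2, 2]], by decide +kernel⟩

open Cfsg.Agent.Lib.ModHecke.Braid in
theorem inv_D4 : InvUpTo Cfsg.Lie.chevD4 2 :=
  ⟨tblI [[2, 2, 1, 1], [2, 4, 2, 2], [1, 2, 2, 1], [1, 2, 1, 2]], by decide +kernel⟩

open Cfsg.Agent.Lib.ModHecke.Braid in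
theorem inv_E7 : InvUpTo Cfsg.Lie.chevE7 2 :=
  ⟨tblI [[4, 4, 6, 8, 6, 4, 2], [4, 7, 8, 12, 9, 6, 3], [6, 8, 12, 16, 12, 8, 4], [8, 12, 16, 24, 18, 12, 6],
    [6, 9, 12, 18, 15, 10, 5], [4, 6, 8, 12, 10, 8, 4], [2, 3, 4, 6, 5, 4, 3]], by decide +kernel⟩

/-- Steinberg's count of semisimple classes in characteristic 2 for the types B₂, D₄, E₇, where the finite simply connected group has trivial centre and so coincides with the Chevalley group: for the Chevalley group of type B₂, D₄ or E₇ over a field with `q` elements of characteristic 2, the conjugacy classes of elements of odd order number exactly `q^l`, `l` the rank. -/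
theorem result {F : Type*} [Field F] [Fintype F] {q : ℕ} (hq : Fintype.card F = q) [CharP F 2]
    (D : Cfsg.Lie.ChevalleyDatum) (hD : D ∈ [Cfsg.Lie.chevB2, Cfsg.Lie.chevD4, Cfsg.Lie.chevE7]) :
    Nat.card {c : ConjClasses ↥(D.group F) // ∃ g : ↥(D.group F), ConjClasses.mk g = c ∧ Odd (orderOf g)} = q ^ D.rank := by
  subst hq
  have : Fact (Nat.Prime 2) := ⟨Nat.prime_two⟩
  have hcop : Nat.Coprime 2 (Fintype.card F - 1) := by
    have h1 : 2 ∣ Fintype.card F := (CharP.cast_eq_zero_iff F 2 _).1 (FiniteField.cast_card_eq_zero F)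
    have h2 := Fintype.one_lt_card (α := F)
    rw [Nat.Prime.coprime_iff_not_dvd Nat.prime_two]
    omega
  have hconv : ∀ (D : Cfsg.Lie.ChevalleyDatum),
      Nat.card {c : ConjClasses ↥(D.group F) // ∃ g : ↥(D.group F), ConjClasses.mk g = c ∧ Odd (orderOf g)} =
      Nat.card (Cfsg.Agent.Lib.ModHecke.Brauer.RegCl ↥(D.group F) 2) := by
    intro D
    apply Nat.card_congr
    apply Equiv.subtypeEquivRight
    intro c
    constructor
    · rintro ⟨g, hg, ho⟩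
      exact ⟨g, hg, Nat.coprime_two_right.2 ho⟩
    · rintro ⟨g, hg, ho⟩
      exact ⟨g, hg, Nat.coprime_two_right.1 ho⟩
  rw [hconv]
  simp only [List.mem_cons, List.not_mem_nil, or_false] at hD
  rcases hD with rfl | rfl | rfl
  · exact Cfsg.Agent.Lib.ModHecke.Braid.card_of_checks 2 Cfsg.Agent.Lib.Chevalley.Tbl.B2.sys
      Cfsg.Agent.Lib.ChevBN.FastData.tbl_chevB2 (by decide +kernel)
      (fun i hi => Cfsg.Agent.Lib.Chevalley.NForm.eta_simple_of_check _ Cfsg.Agent.Lib.Chevalley.Tbl.B2.nform_check hi)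
      Cfsg.Agent.Lib.ChevBN.FastData.hW_B2 braid_B2 inv_B2 hcop
  · exact Cfsg.Agent.Lib.ModHecke.Braid.card_of_checks 2 Cfsg.Agent.Lib.Chevalley.Tbl.D4.sys
      Cfsg.Agent.Lib.ChevBN.FastData.tbl_chevD4 (by decide +kernel)
      (fun i hi => Cfsg.Agent.Lib.Chevalley.NForm.eta_simple_of_check _ Cfsg.Agent.Lib.Chevalley.Tbl.D4.nform_check hi)
      Cfsg.Agent.Lib.ChevBN.FastData.hW_D4 braid_D4 inv_D4 hcop
  · exact Cfsg.Agent.Lib.ModHecke.Braid.card_of_checks 2 Cfsg.Agent.Lib.Chevalley.Tbl.E7.sys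
      Cfsg.Agent.Lib.ChevBN.FastData.tbl_chevE7 (by decide +kernel)
      (fun i hi => Cfsg.Agent.Lib.Chevalley.NForm.eta_simple_of_check _ Cfsg.Agent.Lib.Chevalley.Tbl.E7.nform_check hi)
      Cfsg.Agent.Lib.ChevBN.FastData.hW_E7 braid_E7 inv_E7 hcop

end Cfsg.Agent.S2383
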