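import Cfsg.Statements.S2391
import Mathlib
-- import your own Cfsg.Agent.* helpers here

set_option autoImplicit false
open Cfsg

namespace Cfsg.Agent.S2391

open Matrix

variable {F : Type*} [Field F] [Fintype F] {n : ℕ}

/-- The vectors fixed by `U` modulo `W`. -/
def C (U : Subgroup (SpecialLinearGroup (Fin n) F)) (W : Submodule F (Fin n → F)) :
    Submodule F (Fin n → F) where
  carrier := {v | ∀ u ∈ U, (u : Matrix (Fin n) (Fin n) F).mulVec v - v ∈ W}
  add_mem' {a b} ha hb u hu := by
    have := W.add_mem (ha u hu) (hb u hu)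
    rw [mulVec_add]
    convert this using 1
    abel
  zero_mem' u hu := by simp
  smul_mem' c v hv u hu := by
    rw [mulVec_smul, ← smul_sub]
    exact W.smul_mem c (hv u hu)

theorem mulVec_coe (a b : SpecialLinearGroup (Fin n) F) (v : Fin n → F) :
    (a : Matrix (Fin n) (Fin n) F).mulVec ((b : Matrix (Fin n) (Fin n) F).mulVec v) =
      ((a * b : SpecialLinearGroup (Fin n) F) : Matrix (Fin n) (Fin n) F).mulVec v := by
  rw [mulVec_mulVec]
  rfl

theorem mem_C {U : Subgroup (SpecialLinearGroup (Fin n) F)} {W : Submodule F (Fin n → F)} {v : Fin n → F} :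
    v ∈ C U W ↔ ∀ u ∈ U, (u : Matrix (Fin n) (Fin n) F).mulVec v - v ∈ W := Iff.rfl

theorem C_mono (U : Subgroup (SpecialLinearGroup (Fin n) F)) {W W' : Submodule F (Fin n → F)} (h : W ≤ W') :
    C U W ≤ C U W' := fun _ hv u hu => h (hv u hu)

/-- The upper central series of the action. -/
def WW (U : Subgroup (SpecialLinearGroup (Fin n) F)) : ℕ → Submodule F (Fin n → F)
  | 0 => ⊥
  | i + 1 => C U (WW U i)

theorem WW_le_succ (U : Subgroup (SpecialLinearGroup (Fin n) F)) (i : ℕ) : WW U i ≤ WW U (i + 1) := by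
  induction i with
  | zero => exact bot_le
  | succ i ih => exact C_mono U ih

theorem WW_inv (U : Subgroup (SpecialLinearGroup (Fin n) F)) (i : ℕ) {u : SpecialLinearGroup (Fin n) F}
    (hu : u ∈ U) {v : Fin n → F} (hv : v ∈ WW U i) : (u : Matrix (Fin n) (Fin n) F).mulVec v ∈ WW U i := by
  have h := WW_le_succ U i hv u hu
  have := (WW U i).add_mem h hv
  simpa using this

/-- Conjugation invariance of the series. -/
theorem WW_norm (U : Subgroup (SpecialLinearGroup (Fin n) F)) (i : ℕ) :
    ∀ g ∈ Subgroup.normalizer (U : Set (SpecialLinearGroup (Fin n) F)), ∀ v ∈ WW U i,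
      (g : Matrix (Fin n) (Fin n) F).mulVec v ∈ WW U i := by
  induction i with
  | zero =>
    intro g _ v hv
    have : v = 0 := hv
    subst this
    simp [WW]
  | succ i ih =>
    intro g hg v hv u hu
    have h1 : g⁻¹ * u * g ∈ U := by
      have := (Subgroup.mem_normalizer_iff.mp (Subgroup.inv_mem _ hg) u).mp hu
      simpa using this
    have h2 := ih g hg _ (hv _ h1)
    have h3 : (g : Matrix (Fin n) (Fin n) F).mulVec (((g⁻¹ * u * g : SpecialLinearGroup (Fin n) F) : Matrix (Fin n) (Fin n) F).mulVec v - v) =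
        (u : Matrix (Fin n) (Fin n) F).mulVec ((g : Matrix (Fin n) (Fin n) F).mulVec v) - (g : Matrix (Fin n) (Fin n) F).mulVec v := by
      have e : g * (g⁻¹ * u * g) = u * g := by group
      rw [mulVec_sub, mulVec_coe, e, ← mulVec_coe]
    rw [h3] at h2
    exact h2

/-- The fixed point theorem on quotients. -/
theorem exists_new (p : ℕ) [Fact p.Prime] [CharP F p] {U : Subgroup (SpecialLinearGroup (Fin n) F)} (hU : IsPGroup p U)
    (W : Submodule F (Fin n → F))
    (hinv : ∀ u ∈ U, ∀ v ∈ W, (u : Matrix (Fin n) (Fin n) F).mulVec v ∈ W) (hne : W ≠ ⊤) :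
    ∃ v, v ∉ W ∧ ∀ u ∈ U, (u : Matrix (Fin n) (Fin n) F).mulVec v - v ∈ W := by
  classical
  letI : MulAction U ((Fin n → F) ⧸ W) :=
    { smul := fun u x => W.mapQ W (mulVecLin (u.1 : Matrix (Fin n) (Fin n) F)) (fun v hv => hinv u.1 u.2 v hv) x
      one_smul := fun x => by
        obtain ⟨v, rfl⟩ := Submodule.Quotient.mk_surjective _ x
        change Submodule.Quotient.mk (mulVecLin (((1 : U) : SpecialLinearGroup (Fin n) F) : Matrix (Fin n) (Fin n) F) v) = _
        simp
      mul_smul := fun a b x => by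
        obtain ⟨v, rfl⟩ := Submodule.Quotient.mk_surjective _ x
        change Submodule.Quotient.mk (mulVecLin (((a * b : U) : SpecialLinearGroup (Fin n) F) : Matrix (Fin n) (Fin n) F) v) =
          Submodule.Quotient.mk (mulVecLin ((a : SpecialLinearGroup (Fin n) F) : Matrix (Fin n) (Fin n) F)
            (mulVecLin ((b : SpecialLinearGroup (Fin n) F) : Matrix (Fin n) (Fin n) F) v))
        simp [mulVec_mulVec] }
  have hsmul : ∀ (u : U) (v : Fin n → F), u • (Submodule.Quotient.mk v : (Fin n → F) ⧸ W) =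
      Submodule.Quotient.mk ((u.1 : Matrix (Fin n) (Fin n) F).mulVec v) := fun _ _ => rfl
  obtain ⟨x0, hx0⟩ : ∃ x : (Fin n → F) ⧸ W, x ≠ 0 := by
    obtain ⟨v, hv⟩ : ∃ v, v ∉ W := by
      by_contra h
      push Not at h
      exact hne (eq_top_iff.mpr fun v _ => h v)
    exact ⟨Submodule.Quotient.mk v, by rwa [Ne, Submodule.Quotient.mk_eq_zero]⟩
  have hcard : p ∣ Nat.card ((Fin n → F) ⧸ W) := by
    have h1 : p • x0 = 0 := by
      rw [← Nat.cast_smul_eq_nsmul F, CharP.cast_eq_zero, zero_smul]
    have h2 : addOrderOf x0 = p := addOrderOf_eq_prime h1 hx0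
    rw [← h2]
    exact addOrderOf_dvd_natCard x0
  have hfix : (0 : (Fin n → F) ⧸ W) ∈ MulAction.fixedPoints U ((Fin n → F) ⧸ W) := by
    intro u
    change u • (Submodule.Quotient.mk 0 : (Fin n → F) ⧸ W) = Submodule.Quotient.mk 0
    rw [hsmul, mulVec_zero]
  obtain ⟨b, hb, hb0⟩ := hU.exists_fixed_point_of_prime_dvd_card_of_fixed_point _ hcard hfix
  obtain ⟨v, rfl⟩ := Submodule.Quotient.mk_surjective _ b
  refine ⟨v, fun hv => hb0 ((Submodule.Quotient.mk_eq_zero _).2 hv).symm, fun u hu => ?_⟩
  have := hb ⟨u, hu⟩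
  rw [hsmul, Submodule.Quotient.eq] at this
  exact this


/-- The Borel–Tits property of `SL_n(q)` in flag form: for a field `F` of characteristic `p` with finitely many elements and a non-trivial `p`-subgroup `U` of `SL_n(F)`, there is a flag `0 = V₀ < V₁ < ⋯ < V_{k+1} = F^n` with at least one proper non-zero member such that every element of the normaliser of `U` maps each `V_i` onto itself and every element of `U` acts trivially on each quotient `V_{i+1}/V_i` (so the normaliser lies in the parabolic subgroup of the flag and `U` in its unipotent radical). -/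
theorem result {F : Type*} [Field F] [Fintype F] (p : ℕ) [Fact p.Prime] [CharP F p] (n : ℕ)
    (U : Subgroup (Matrix.SpecialLinearGroup (Fin n) F)) (hU : IsPGroup p ↥U) (hne : U ≠ ⊥) :
    ∃ (k : ℕ) (V : Fin (k + 2) → Submodule F (Fin n → F)), 1 ≤ k ∧ StrictMono V ∧ V 0 = ⊥ ∧ V (Fin.last (k + 1)) = ⊤ ∧
      (∀ g ∈ Subgroup.normalizer (U : Set (Matrix.SpecialLinearGroup (Fin n) F)), ∀ i, (V i).map (Matrix.mulVecLin (g : Matrix (Fin n) (Fin n) F)) = V i) ∧
      (∀ u ∈ U, ∀ i : Fin (k + 1), ∀ v ∈ V i.succ, (u : Matrix (Fin n) (Fin n) F).mulVec v - v ∈ V (Fin.castSucc i)) := by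
  classical
  have hstep : ∀ i, WW U i ≠ ⊤ → WW U i < WW U (i + 1) := by
    intro i hi
    refine lt_of_le_of_ne (WW_le_succ U i) fun h => ?_
    obtain ⟨v, hv, hv2⟩ := exists_new p hU (WW U i) (fun u hu v hv => WW_inv U i hu hv) hi
    exact hv (h ▸ (show v ∈ WW U (i + 1) from hv2))
  have hex : ∃ i, WW U i = ⊤ := by
    by_contra hall
    push Not at hall
    have hgrow : ∀ i, i ≤ Module.finrank F (WW U i) := by
      intro i
      induction i with
      | zero => exact Nat.zero_le _
      | succ i ih =>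
        have := Submodule.finrank_lt_finrank_of_lt (hstep i (hall i))
        omega
    have h1 := hgrow (Module.finrank F (Fin n → F) + 1)
    have h2 := Submodule.finrank_le (WW U (Module.finrank F (Fin n → F) + 1))
    omega
  have hone : ∀ {u : SpecialLinearGroup (Fin n) F}, (∀ v, (u : Matrix (Fin n) (Fin n) F).mulVec v = v) → u = 1 := by
    intro u hu
    apply Subtype.ext
    apply Matrix.toLin'.injective
    ext v i
    simp [hu]
  have h0 : WW U 0 ≠ ⊤ := by
    intro h
    apply hne
    rw [eq_bot_iff]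
    intro u _
    rw [Subgroup.mem_bot]
    apply hone
    intro v
    have h1 : ∀ w : Fin n → F, w = 0 := fun w => by
      have : w ∈ WW U 0 := h ▸ Submodule.mem_top
      exact this
    rw [h1 v, mulVec_zero]
  have h1 : WW U 1 ≠ ⊤ := by
    intro h
    apply hne
    rw [eq_bot_iff]
    intro u hu
    rw [Subgroup.mem_bot]
    apply hone
    intro v
    have : v ∈ WW U 1 := h ▸ Submodule.mem_top
    have h2 : (u : Matrix (Fin n) (Fin n) F).mulVec v - v = 0 := this u hu
    exact sub_eq_zero.mp h2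
  set t := Nat.find hex with ht
  have htop : WW U t = ⊤ := Nat.find_spec hex
  have hmin : ∀ i, i < t → WW U i ≠ ⊤ := fun i hi => Nat.find_min hex hi
  have ht2 : 2 ≤ t := by
    by_contra hlt
    have : t = 0 ∨ t = 1 := by omega
    rcases this with h | h
    · rw [h] at htop; exact h0 htop
    · rw [h] at htop; exact h1 htop
  obtain ⟨k, hk⟩ : ∃ k, t = k + 1 := ⟨t - 1, by omega⟩
  refine ⟨k, fun i => WW U i.val, by omega, ?_, rfl, ?_, ?_, ?_⟩
  · rw [Fin.strictMono_iff_lt_succ]
    intro i
    exact hstep i.val (hmin _ (by have := i.2; omega))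
  · change WW U (k + 1) = ⊤
    rw [← hk]
    exact htop
  · intro g hg i
    apply le_antisymm
    · rintro _ ⟨v, hv, rfl⟩
      exact WW_norm U _ g hg v hv
    · intro v hv
      refine ⟨(g⁻¹ : SpecialLinearGroup (Fin n) F).1.mulVec v, WW_norm U _ _ (Subgroup.inv_mem _ hg) v hv, ?_⟩
      change (g : Matrix (Fin n) (Fin n) F).mulVec (((g⁻¹ : SpecialLinearGroup (Fin n) F) : Matrix (Fin n) (Fin n) F).mulVec v) = v
      rw [mulVec_coe, mul_inv_cancel]
      exact one_mulVec v
  · intro u hu i v hv
    exact hv u hu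

end Cfsg.Agent.S2391
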