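import Cfsg.Statements.S2392
import Mathlib
import Cfsg.Agent.Lib.Linalg.Bridge
-- import your own Cfsg.Agent.* helpers here

set_option autoImplicit false
open scoped MatrixGroups
open Cfsg

namespace Cfsg.Agent.S2392

open Matrix

section blocks

variable {F : Type*} [Field F] {m : ℕ}

/-- A column. -/
def colM (v : Fin m → F) : Matrix (Fin m) (Fin 1) F := Matrix.of fun i _ => v i

/-- The unipotent radical. -/
def uu (v : Fin m → F) : SpecialLinearGroup (Fin m ⊕ Fin 1) F :=
  ⟨fromBlocks 1 (colM v) 0 1, by simp [det_fromBlocks_zero₂₁]⟩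

/-- The Levi factor. -/
def DD (k : SpecialLinearGroup (Fin m) F) : SpecialLinearGroup (Fin m ⊕ Fin 1) F :=
  ⟨fromBlocks k.1 0 0 1, by simp [det_fromBlocks_zero₂₁, k.2]⟩

lemma uu_zero : uu (0 : Fin m → F) = 1 := by
  apply Subtype.ext
  change fromBlocks 1 (colM 0) 0 1 = 1
  have : colM (0 : Fin m → F) = 0 := by
    ext i j
    rfl
  rw [this, fromBlocks_one]

lemma uu_add (v w : Fin m → F) : uu (v + w) = uu v * uu w := by
  apply Subtype.ext
  change fromBlocks 1 (colM (v + w)) 0 1 = fromBlocks 1 (colM v) 0 1 * fromBlocks 1 (colM w) 0 1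
  rw [fromBlocks_multiply]
  have : colM (v + w) = colM v + colM w := by
    ext i j
    rfl
  simp [this, add_comm]

lemma DD_mul_uu (k : SpecialLinearGroup (Fin m) F) (v : Fin m → F) :
    DD k * uu v = uu (k.1 *ᵥ v) * DD k := by
  apply Subtype.ext
  change fromBlocks k.1 0 0 1 * fromBlocks 1 (colM v) 0 1 =
    fromBlocks 1 (colM (k.1 *ᵥ v)) 0 1 * fromBlocks k.1 0 0 1
  rw [fromBlocks_multiply, fromBlocks_multiply]
  have : k.1 * colM v = colM (k.1 *ᵥ v) := by
    ext i j
    simp [colM, Matrix.mul_apply, mulVec, dotProduct]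
  simp [this]

lemma uu_central_imp [Fintype F] {v : Fin m → F}
    (h : uu v ∈ Subgroup.center (SpecialLinearGroup (Fin m ⊕ Fin 1) F)) : v = 0 := by
  obtain ⟨r, -, hr⟩ := Matrix.SpecialLinearGroup.mem_center_iff.mp h
  funext i
  have h1 := congrFun (congrFun hr (Sum.inl i)) (Sum.inr 0)
  simpa [uu, colM, Matrix.scalar_apply] using h1.symm

end blocks

section main

variable {F E : Type*} [Field F] [Fintype F] [Field E] {m : ℕ}

/-- Additive characters of the coordinate space. -/
noncomputable def chi (ψ : AddChar F E) (c : Fin m → F) : AddChar (Fin m → F) E where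
  toFun v := ψ (c ⬝ᵥ v)
  map_zero_eq_one' := by simp
  map_add_eq_mul' v w := by rw [dotProduct_add, AddChar.map_add_eq_mul]

lemma chi_apply (ψ : AddChar F E) (c v : Fin m → F) : chi ψ c v = ψ (c ⬝ᵥ v) := rfl

lemma chi_ne_one {ψ : AddChar F E} (hψ : ψ ≠ 1) {c : Fin m → F} (hc : c ≠ 0) : chi ψ c ≠ 1 := by
  classical
  obtain ⟨x, hx⟩ := AddChar.ne_one_iff.mp hψ
  obtain ⟨i, hi⟩ := Function.ne_iff.mp hc
  rw [AddChar.ne_one_iff]
  refine ⟨Pi.single i (x / c i), ?_⟩
  rw [chi_apply, dotProduct_single, mul_div_cancel₀ _ hi]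
  exact hx

lemma chi_injective {ψ : AddChar F E} (hψ : ψ ≠ 1) :
    Function.Injective (chi (m := m) ψ) := by
  classical
  intro c c' h
  by_contra hne
  apply chi_ne_one hψ (sub_ne_zero.mpr hne)
  ext v
  have h1 : chi ψ c v = chi ψ c' v := by rw [h]
  rw [chi_apply] at h1 ⊢
  rw [chi_apply] at h1
  have h2 : (c - c') ⬝ᵥ v = c ⬝ᵥ v - c' ⬝ᵥ v := sub_dotProduct _ _ _
  rw [h2, sub_eq_add_neg, AddChar.map_add_eq_mul, AddChar.map_neg_eq_inv, ← h1]
  rw [AddChar.one_apply]
  apply mul_inv_cancel₀
  exact (AddChar.val_isUnit ψ _).ne_zero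

/-- The core linear algebra: the characters of the abelian group `uu` are permuted by the Levi. -/
theorem main_bound (ψ : AddChar F E) (hψ : ψ ≠ 1) (hcard : ((Fintype.card F : ℕ) : E) ≠ 0)
    (hm : 2 ≤ m) {d : ℕ}
    (L : SpecialLinearGroup (Fin m ⊕ Fin 1) F →* Module.End E (Fin d → E))
    {w₀ : Fin m → F} (hw₀ : L (uu w₀) ≠ 1) :
    (Fintype.card F) ^ m - 1 ≤ d := by
  classical
  set R : (Fin m → F) → Module.End E (Fin d → E) := fun v => L (uu v) with hR
  have hR0 : R 0 = 1 := by simp [hR, uu_zero]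
  have hRadd : ∀ v w, R (v + w) = R v * R w := fun v w => by simp [hR, uu_add]
  set P : (Fin m → F) → Module.End E (Fin d → E) :=
    fun c => ∑ v, ψ (-(c ⬝ᵥ v)) • R v with hP
  have hRP : ∀ w c, R w * P c = ψ (c ⬝ᵥ w) • P c := by
    intro w c
    simp only [hP, Finset.mul_sum, Finset.smul_sum, mul_smul_comm, ← hRadd]
    rw [← Equiv.sum_comp (Equiv.addLeft w) (fun v => ψ (c ⬝ᵥ w) • ψ (-(c ⬝ᵥ v)) • R v)]
    refine Finset.sum_congr rfl fun v _ => ?_
    simp only [Equiv.coe_addLeft, smul_smul, ← AddChar.map_add_eq_mul]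
    congr 2
    rw [dotProduct_add]
    ring
  have hcardA : ((Fintype.card (Fin m → F) : ℕ) : E) ≠ 0 := by
    rw [Fintype.card_fun, Fintype.card_fin, Nat.cast_pow]
    exact pow_ne_zero _ hcard
  have hsumP : ∑ c, P c = ((Fintype.card (Fin m → F) : ℕ) : E) • 1 := by
    simp only [hP]
    rw [Finset.sum_comm]
    simp only [← Finset.sum_smul]
    rw [Finset.sum_eq_single (0 : Fin m → F)]
    · simp [hR0]
    · intro v _ hv
      have h0 : ∑ c : Fin m → F, ψ (-(c ⬝ᵥ v)) = 0 := by
        rw [← Equiv.sum_comp (Equiv.neg (Fin m → F))]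
        have := AddChar.sum_eq_zero_of_ne_one (chi_ne_one hψ hv)
        rw [← this]
        refine Finset.sum_congr rfl fun c _ => ?_
        rw [chi_apply, Equiv.neg_apply, neg_dotProduct, neg_neg, dotProduct_comm]
      rw [h0, zero_smul]
    · simp
  have hexc : ∃ c₀, c₀ ≠ 0 ∧ P c₀ ≠ 0 := by
    by_contra hcon
    push Not at hcon
    have h1 : P 0 = ((Fintype.card (Fin m → F) : ℕ) : E) • 1 := by
      rw [← hsumP, Finset.sum_eq_single (0 : Fin m → F)]
      · intro c _ hc
        exact hcon c hc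
      · simp
    have h2 := hRP w₀ 0
    rw [zero_dotProduct, AddChar.map_zero_eq_one, one_smul, h1, mul_smul_comm, mul_one] at h2
    exact hw₀ (smul_right_injective _ hcardA h2)
  obtain ⟨c₀, hc₀, hPc₀⟩ := hexc
  obtain ⟨x, hx⟩ : ∃ x, P c₀ x ≠ 0 := by
    by_contra hcon
    push Not at hcon
    exact hPc₀ (LinearMap.ext hcon)
  set y₀ := P c₀ x with hy₀
  have hy₀R : ∀ w, R w y₀ = ψ (c₀ ⬝ᵥ w) • y₀ := by
    intro w
    have := congrArg (fun f : Module.End E (Fin d → E) => f x) (hRP w c₀)
    simpa using this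
  have hcardm : 2 ≤ Fintype.card (Fin m) := by simpa using hm
  have hex : ∀ c : {c : Fin m → F // c ≠ 0}, ∃ y : Fin d → E, y ≠ 0 ∧
      ∀ w, R w y = ψ (c.1 ⬝ᵥ w) • y := by
    rintro ⟨c, hc⟩
    obtain ⟨g, hg⟩ := Cfsg.Agent.Lib.Linalg.Bridge.exists_SL_mulVec_eq hcardm hc₀ hc
    let k : SpecialLinearGroup (Fin m) F := ⟨(g : Matrix (Fin m) (Fin m) F)ᵀ, by
      rw [det_transpose]; exact g.2⟩
    refine ⟨L (DD k)⁻¹ y₀, ?_, ?_⟩
    · intro h0
      apply hx
      have h1 : L (DD k) (L (DD k)⁻¹ y₀) = y₀ := by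
        have : L (DD k) * L (DD k)⁻¹ = 1 := by rw [← map_mul, mul_inv_cancel, map_one]
        exact congrArg (fun f : Module.End E (Fin d → E) => f y₀) this
      rw [h0, map_zero] at h1
      exact h1.symm
    · intro w
      have hkey : uu w * (DD k)⁻¹ = (DD k)⁻¹ * uu (k.1 *ᵥ w) := by
        rw [eq_inv_mul_iff_mul_eq, ← mul_assoc, DD_mul_uu, mul_assoc, mul_inv_cancel, mul_one]
      have h1 : R w * L (DD k)⁻¹ = L (DD k)⁻¹ * R (k.1 *ᵥ w) := by
        simp only [hR]
        rw [← map_mul, hkey, map_mul]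
      have h2 := congrArg (fun f : Module.End E (Fin d → E) => f y₀) h1
      simp only [Module.End.mul_apply] at h2
      rw [h2, hy₀R, map_smul]
      congr 2
      have h3 : k.1 = (g : Matrix (Fin m) (Fin m) F)ᵀ := rfl
      rw [h3, dotProduct_mulVec, vecMul_transpose, hg]
  choose y hy0 hyR using hex
  let χ : {c : Fin m → F // c ≠ 0} → (Multiplicative (Fin m → F) →* E) :=
    fun i => (chi ψ i.1).toMonoidHom
  have hχinj : Function.Injective χ := by
    intro i j hij
    apply Subtype.ext
    apply chi_injective hψ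
    ext v
    exact congrArg (fun f : Multiplicative (Fin m → F) →* E => f (Multiplicative.ofAdd v)) hij
  have hχli : LinearIndependent E (fun i => (χ i : Multiplicative (Fin m → F) → E)) :=
    (linearIndependent_monoidHom (Multiplicative (Fin m → F)) E).comp χ hχinj
  have hyli : LinearIndependent E y := by
    rw [Fintype.linearIndependent_iff]
    intro g hg i₀
    obtain ⟨k, hk⟩ := Function.ne_iff.mp (hy0 i₀)
    have h1 : ∑ i, (g i * y i k) • (χ i : Multiplicative (Fin m → F) → E) = 0 := by
      funext w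
      have h2 := congrArg (fun z => (R (Multiplicative.toAdd w) z) k) hg
      simp only [map_sum, map_smul, hyR, map_zero, Finset.sum_apply, Pi.smul_apply, smul_eq_mul,
        Pi.zero_apply] at h2 ⊢
      rw [← h2]
      refine Finset.sum_congr rfl fun i _ => ?_
      have : χ i w = ψ (i.1 ⬝ᵥ Multiplicative.toAdd w) := rfl
      rw [this]
      ring
    have h3 := Fintype.linearIndependent_iff.mp hχli _ h1 i₀
    exact (mul_eq_zero.mp h3).resolve_right hk
  have hle := hyli.fintype_card_le_finrank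
  rw [Module.finrank_fintype_fun_eq_card, Fintype.card_fin] at hle
  have hcardι : Fintype.card {c : Fin m → F // c ≠ 0} = (Fintype.card F) ^ m - 1 := by
    rw [Fintype.card_subtype_compl]
    simp
  omega

end main

/-- A lower bound for representations in cross characteristic: for `n ≥ 3` and a field `F` with `q` elements, every homomorphism from `SL_n(F)` to `GL_d(K)`, `K` a field of characteristic different from that of `F`, whose kernel is central has `d ≥ q^(n-1) - 1`. -/
theorem result {F : Type*} [Field F] [Fintype F] {q : ℕ} (hq : Fintype.card F = q) (n : ℕ) (hn : 3 ≤ n)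
    {K : Type*} [Field K] (hK : ringChar K ≠ ringChar F) {d : ℕ}
    (ρ : Matrix.SpecialLinearGroup (Fin n) F →* GL (Fin d) K) (hker : ρ.ker ≤ Subgroup.center (Matrix.SpecialLinearGroup (Fin n) F)) :
    q ^ (n - 1) - 1 ≤ d := by
  classical
  subst hq
  obtain ⟨m, rfl⟩ : ∃ m, n = m + 1 := ⟨n - 1, by omega⟩
  have hm : 2 ≤ m := by omega
  simp only [Nat.add_sub_cancel]
  -- the additive character
  let χ := AddChar.FiniteField.primitiveChar F K hK
  let E := CyclotomicField χ.n K
  have hψ : χ.char ≠ 1 := by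
    have := χ.prim (a := 1) one_ne_zero
    intro h
    apply this
    ext x
    simp [AddChar.mulShift_apply, h]
  -- the characteristic of `F` is invertible in `E`
  have hcard : ((Fintype.card F : ℕ) : E) ≠ 0 := by
    have hp : (ringChar F).Prime := CharP.char_is_prime F _
    haveI : Fact (ringChar F).Prime := ⟨hp⟩
    obtain ⟨f, hf, hf'⟩ := FiniteField.card F (ringChar F)
    rw [hf', Nat.cast_pow]
    apply pow_ne_zero
    have hK' : ((ringChar F : ℕ) : K) ≠ 0 := by
      intro h0
      rw [CharP.cast_eq_zero_iff K (ringChar K)] at h0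
      rcases CharP.char_is_prime_or_zero K (ringChar K) with hq | hq
      · exact hK ((Nat.prime_dvd_prime_iff_eq hq hp).mp h0)
      · rw [hq, zero_dvd_iff] at h0
        exact hp.ne_zero h0
    have : ((ringChar F : ℕ) : E) = algebraMap K E ((ringChar F : ℕ) : K) := by simp
    rw [this]
    exact (map_ne_zero _).mpr hK'
  -- reindexing
  let e : Fin m ⊕ Fin 1 ≃ Fin (m + 1) := finSumFinEquiv
  let φ : Matrix.SpecialLinearGroup (Fin m ⊕ Fin 1) F →* Matrix.SpecialLinearGroup (Fin (m + 1)) F :=
    { toFun := fun g => ⟨Matrix.reindex e e g.1, by rw [Matrix.det_reindex_self]; exact g.2⟩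
      map_one' := by
        apply Subtype.ext
        simp
      map_mul' := fun g h => by
        apply Subtype.ext
        change Matrix.reindex e e (g.1 * h.1) = Matrix.reindex e e g.1 * Matrix.reindex e e h.1
        simp [Matrix.reindex_apply, Matrix.submatrix_mul_equiv] }
  have hφ : Function.Surjective φ := by
    intro g
    refine ⟨⟨Matrix.reindex e.symm e.symm g.1, by rw [Matrix.det_reindex_self]; exact g.2⟩, ?_⟩
    apply Subtype.ext
    change Matrix.reindex e e (Matrix.reindex e.symm e.symm g.1) = g.1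
    simp [Matrix.reindex_apply]
  have hφinj : Function.Injective φ := by
    intro g h hgh
    apply Subtype.ext
    have h1 : Matrix.reindex e e g.1 = Matrix.reindex e e h.1 := congrArg Subtype.val hgh
    exact (Matrix.reindex e e).injective h1
  let L : Matrix.SpecialLinearGroup (Fin m ⊕ Fin 1) F →* Module.End E (Fin d → E) :=
    { toFun := fun g => Matrix.toLin' (((ρ (φ g)).1).map (algebraMap K E))
      map_one' := by
        simp
        rfl
      map_mul' := fun g h => by
        simp only [map_mul, Units.val_mul, Matrix.map_mul, Matrix.toLin'_mul]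
        rfl }
  obtain ⟨i₀⟩ : Nonempty (Fin m) := ⟨⟨0, by omega⟩⟩
  have hw₀ : L (uu (Pi.single i₀ 1)) ≠ 1 := by
    intro h
    have h1 : ((ρ (φ (uu (Pi.single i₀ 1)))).1).map (algebraMap K E) = 1 := by
      apply Matrix.toLin'.injective
      rw [Matrix.toLin'_one]
      exact h
    have h2 : ρ (φ (uu (Pi.single i₀ (1 : F)))) = 1 := by
      apply Units.ext
      ext i j
      have := congrFun (congrFun h1 i) j
      simp only [Matrix.map_apply] at this
      apply (algebraMap K E).injective
      rw [this]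
      simp [Matrix.one_apply]
    have h3 := hker (MonoidHom.mem_ker.mpr h2)
    have h4 : uu (Pi.single i₀ (1 : F)) ∈ Subgroup.center (Matrix.SpecialLinearGroup (Fin m ⊕ Fin 1) F) := by
      rw [Subgroup.mem_center_iff] at h3 ⊢
      intro g
      apply hφinj
      rw [map_mul, map_mul]
      exact h3 (φ g)
    have h5 := uu_central_imp h4
    have h6 := congrFun h5 i₀
    simp at h6
  exact main_bound χ.char hψ hcard hm L hw₀

end Cfsg.Agent.S2392
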