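import Cfsg.Statements.S2393
import Cfsg.Agent.Lib.Classical.Lin.CrossSp2

set_option autoImplicit false
open scoped MatrixGroups
open Cfsg

namespace Cfsg.Agent.S2393

open Cfsg.Agent.Lib.Classical.Lin.CrossSp in
/-- A lower bound for representations in cross characteristic: for `n ≥ 2` and a field `F` with `q` elements, `q` odd, every homomorphism from the symplectic group `Sp_{2n}(F)` to `GL_d(K)`, `K` a field of characteristic different from that of `F`, whose kernel is central has `d ≥ q^(n-1)(q-1)/2`. -/
theorem result {F : Type*} [Field F] [Fintype F] {q : ℕ} (hq : Fintype.card F = q) (hodd : Odd q) (n : ℕ) (hn : 2 ≤ n)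
    {K : Type*} [Field K] (hK : ringChar K ≠ ringChar F) {d : ℕ}
    (ρ : ↥(Matrix.symplecticGroup (Fin n) F) →* GL (Fin d) K) (hker : ρ.ker ≤ Subgroup.center ↥(Matrix.symplecticGroup (Fin n) F)) :
    q ^ (n - 1) * (q - 1) / 2 ≤ d := by
  subst hq
  obtain ⟨m, rfl⟩ : ∃ m, n = m + 1 := ⟨n - 1, by omega⟩
  have h2 : (2 : F) ≠ 0 := by
    apply Ring.two_ne_zero
    intro h
    have := FiniteField.even_card_iff_char_two.mp h
    rcases hodd with ⟨k, hk⟩
    omega
  have hpK : ((ringChar F : ℕ) : K) ≠ 0 := by
    intro h0
    have hdvd : ringChar K ∣ ringChar F := (ringChar.dvd h0)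
    have : CharP F (ringChar F) := ringChar.charP F
    have hprime : (ringChar F).Prime := CharP.char_is_prime F (ringChar F)
    rcases (Nat.dvd_prime hprime).mp hdvd with h | h
    · exact CharP.ringChar_ne_one h
    · exact hK h
  let L := AlgebraicClosure K
  have hp : ((ringChar F : ℕ) : L) ≠ 0 := by
    intro h0
    apply hpK
    have : algebraMap K L ((ringChar F : ℕ) : K) = 0 := by
      rw [map_natCast]; exact h0
    exact (map_eq_zero_iff _ (algebraMap K L).injective).mp this
  let π : ↥(Matrix.symplecticGroup (Fin (m + 1)) F) →* Module.End L (Fin d → L) :=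
    { toFun := fun g => Matrix.toLin' ((ρ g : Matrix (Fin d) (Fin d) K).map (algebraMap K L))
      map_one' := by
        simp [Module.End.one_eq_id]
      map_mul' := by
        intro g g'
        rw [map_mul, Units.val_mul, Matrix.map_mul, Matrix.toLin'_mul, Module.End.mul_eq_comp] }
  have hπ : ∀ g, π g = 1 → g ∈ Subgroup.center ↥(Matrix.symplecticGroup (Fin (m + 1)) F) := by
    intro g hg
    apply hker
    rw [MonoidHom.mem_ker]
    apply Units.ext
    have h1 : (ρ g : Matrix (Fin d) (Fin d) K).map (algebraMap K L) = 1 := by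
      have h3 : Matrix.toLin' ((ρ g : Matrix (Fin d) (Fin d) K).map (algebraMap K L)) = 1 := hg
      apply Matrix.toLin'.injective
      rw [h3, Matrix.toLin'_one, Module.End.one_eq_id]
    ext i j
    have h3 := congrFun (congrFun h1 i) j
    simp only [Matrix.map_apply] at h3
    apply (algebraMap K L).injective
    rw [h3]
    simp [Matrix.one_apply, apply_ite (algebraMap K L)]
  simpa using card_le_of_rep (m := m) h2 hp π hπ

end Cfsg.Agent.S2393
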