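import Cfsg.Statements.S2402
import Mathlib
import Cfsg.Agent.Lib.Classical.Lin.Transvections
-- import your own Cfsg.Agent.* helpers here

set_option autoImplicit false
open Cfsg

namespace Cfsg.Agent.S2402

open Matrix SpecialLinearGroup
open Cfsg.Agent.Lib.Classical.Lin
open scoped Fin.NatCast Fin.CommRing commutatorElement

section general

variable {ι : Type*} [Fintype ι] [DecidableEq ι] {K : Type*} [Field K]

abbrev TT {i j : ι} (hij : i ≠ j) (c : K) : SpecialLinearGroup ι K := SpecialLinearGroup.transvection hij c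

theorem TT_val {i j : ι} (hij : i ≠ j) (c : K) :
    ((TT hij c : SpecialLinearGroup ι K) : Matrix ι ι K) = Matrix.transvection i j c := rfl

theorem val_mul' (a b : SpecialLinearGroup ι K) : (a * b).1 = a.1 * b.1 := rfl

theorem val_one' : (1 : SpecialLinearGroup ι K).1 = 1 := rfl

theorem TT_mul {i j : ι} (hij : i ≠ j) (a b : K) : TT hij a * TT hij b = TT hij (a + b) :=
  Subtype.ext (Matrix.transvection_mul_transvection_same i j hij a b)

theorem TT_zero {i j : ι} (hij : i ≠ j) : TT hij (0 : K) = 1 :=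
  Subtype.ext (Matrix.transvection_zero i j)

theorem TT_inv {i j : ι} (hij : i ≠ j) (a : K) : (TT hij a)⁻¹ = TT hij (-a) :=
  SpecialLinearGroup.transvection_inv hij a

theorem transvection_entry (i j k l : ι) (c : K) :
    (Matrix.transvection i j c) k l = (if k = l then 1 else 0) + (if k = i ∧ l = j then c else 0) := by
  simp only [Matrix.transvection, Matrix.add_apply, one_apply, single_apply, eq_comm]

/-- A diagonal element conjugates a transvection to a transvection. -/
theorem diag_conj {i j : ι} (hij : i ≠ j) {D : SpecialLinearGroup ι K} {a : ι → K}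
    (hD : (D : Matrix ι ι K) = diagonal a) (ha : a j ≠ 0) (c : K) :
    D * TT hij c * D⁻¹ = TT hij (a i * c / a j) := by
  rw [mul_inv_eq_iff_eq_mul]
  apply Subtype.ext
  change (D : Matrix ι ι K) * Matrix.transvection i j c = Matrix.transvection i j (a i * c / a j) * (D : Matrix ι ι K)
  rw [hD]
  ext k l
  rw [diagonal_mul, mul_diagonal, transvection_entry, transvection_entry]
  by_cases hkl : k = l
  · subst hkl
    by_cases h1 : k = i
    · subst h1
      simp [hij]
    · simp [h1]
  · by_cases h2 : k = i ∧ l = j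
    · obtain ⟨rfl, rfl⟩ := h2
      simp [hkl]
      field_simp
    · simp [hkl, h2]

end general

section cyc

variable {K : Type*} [Field K] {m : ℕ}

/-- The cyclic successor on `Fin (m + 2)`. -/
abbrev sg : Fin (m + 2) → Fin (m + 2) := fun i => i + 1

/-- Monomial entries of `w`. -/
def cc (m : ℕ) (K : Type*) [Field K] (i : Fin (m + 2)) : K := if i.val = m + 1 then (-1) ^ (m + 1) else 1

theorem cc_ne (i : Fin (m + 2)) : cc m K i ≠ 0 := by
  unfold cc
  split_ifs
  · exact pow_ne_zero _ (neg_ne_zero.mpr one_ne_zero)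
  · exact one_ne_zero

theorem sg_val_of_lt {i : Fin (m + 2)} (hi : i.val ≠ m + 1) : (sg i).val = i.val + 1 := by
  have h1 : i.val + 1 < m + 2 := by omega
  simp only [sg, Fin.val_add, Fin.val_one]
  exact Nat.mod_eq_of_lt h1

theorem sg_val_last {i : Fin (m + 2)} (hi : i.val = m + 1) : (sg i).val = 0 := by
  simp only [sg, Fin.val_add, Fin.val_one, hi]
  simp

/-- The matrix `w` is monomial. -/
theorem w_entry {w : Matrix (Fin (m + 2)) (Fin (m + 2)) K}
    (hw : w = Matrix.of (fun i j : Fin (m + 2) => if j.val = i.val + 1 then 1 else if i.val = m + 1 ∧ j.val = 0 then (-1) ^ (m + 1) else 0))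
    (i j : Fin (m + 2)) : w i j = if j = sg i then cc m K i else 0 := by
  rw [hw, Matrix.of_apply]
  by_cases hi : i.val = m + 1
  · have h1 : j.val ≠ i.val + 1 := by have := j.2; omega
    rw [if_neg h1, cc, if_pos hi]
    by_cases hj : j = sg i
    · rw [if_pos hj, if_pos ⟨hi, by rw [hj]; exact sg_val_last hi⟩]
    · rw [if_neg hj, if_neg]
      rintro ⟨-, h0⟩
      apply hj
      apply Fin.ext
      rw [sg_val_last hi, h0]
  · rw [cc, if_neg hi]
    by_cases hj : j = sg i
    · rw [if_pos hj, if_pos]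
      rw [hj]; exact sg_val_of_lt hi
    · rw [if_neg hj, if_neg, if_neg]
      · rintro ⟨h, -⟩; exact hi h
      · intro h
        apply hj
        apply Fin.ext
        rw [sg_val_of_lt hi, h]

theorem w_mul_apply {w : Matrix (Fin (m + 2)) (Fin (m + 2)) K}
    (hw : ∀ i j, w i j = if j = sg i then cc m K i else 0) (N : Matrix (Fin (m + 2)) (Fin (m + 2)) K)
    (i j : Fin (m + 2)) : (w * N) i j = cc m K i * N (sg i) j := by
  rw [Matrix.mul_apply, Finset.sum_eq_single (sg i)]
  · rw [hw, if_pos rfl]
  · intro b _ hb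
    rw [hw, if_neg hb, zero_mul]
  · simp

/-- Conjugating a transvection by the monomial `w`. -/
theorem w_conj {w : SpecialLinearGroup (Fin (m + 2)) K}
    (hw : ∀ i j, (w : Matrix _ _ K) i j = if j = sg i then cc m K i else 0) {i j : Fin (m + 2)}
    (hij : i ≠ j) (hij' : i + 1 ≠ j + 1) (t : K) :
    w * TT hij' t * w⁻¹ = TT hij (cc m K i * t / cc m K j) := by
  rw [mul_inv_eq_iff_eq_mul]
  apply Subtype.ext
  change (w : Matrix _ _ K) * Matrix.transvection (i + 1) (j + 1) t =
    Matrix.transvection i j (cc m K i * t / cc m K j) * (w : Matrix _ _ K)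
  ext r s
  rw [w_mul_apply hw, transvection_entry]
  have hT := Matrix.transvection_mul_apply_same (n := Fin (m + 2)) (i := i) (j := j) s (cc m K i * t / cc m K j) (w : Matrix _ _ K)
  by_cases hr : r = i
  · subst hr
    rw [hT, hw, hw]
    have hne := cc_ne (K := K) j
    simp only [sg, true_and]
    by_cases h1 : s = r + 1
    · have h3 : s ≠ j + 1 := by
        rw [h1]
        exact hij'
      rw [if_pos h1.symm, if_pos h1, if_neg h3, if_neg h3]
      ring
    · have h1' : ¬ (r + 1 = s) := fun h => h1 h.symm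
      by_cases h2 : s = j + 1
      · rw [if_neg h1', if_neg h1, if_pos h2, if_pos h2]
        field_simp
        ring
      · rw [if_neg h1', if_neg h1, if_neg h2, if_neg h2]
        ring
  · rw [Matrix.transvection_mul_apply_of_ne _ _ _ _ hr _ _, hw]
    have h5 : ¬ (r + 1 = i + 1 ∧ s = j + 1) := by
      rintro ⟨h6, -⟩
      exact hr (add_right_cancel h6)
    simp only [sg] at h5 ⊢
    rw [if_neg h5, add_zero]
    by_cases h7 : r + 1 = s
    · rw [if_pos h7, if_pos h7.symm, mul_one]
    · rw [if_neg h7, if_neg (fun h => h7 h.symm), mul_zero]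

end cyc


/-- Explicit two-element generation of `PSL_{n+1}(K)` for a finite field `K` with more than three elements: let `k` generate the multiplicative group of `K`, `h = diag(k, k⁻¹, 1, …, 1)`, `x = 1 + E₁₂` (the elementary transvection) and `w` the monomial matrix with entries `1` in positions `(i, i+1)` and `(−1)^n` in position `(n+1, 1)`. Then `h` and `x·w` generate `SL_{n+1}(K)` modulo its centre: the subgroup they generate together with the centre is everything. -/
theorem result {K : Type*} [Field K] [Fintype K] (hK : 3 < Fintype.card K) (n : ℕ) (hn : 1 ≤ n)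
    (k : Kˣ) (hk : ∀ u : Kˣ, u ∈ Subgroup.zpowers k)
    (h x w : Matrix.SpecialLinearGroup (Fin (n + 1)) K)
    (hh : (h : Matrix (Fin (n + 1)) (Fin (n + 1)) K) =
      Matrix.diagonal (fun i => if i.val = 0 then (k : K) else if i.val = 1 then ((k⁻¹ : Kˣ) : K) else 1))
    (hx : (x : Matrix (Fin (n + 1)) (Fin (n + 1)) K) = Matrix.transvection (0 : Fin (n + 1)) (1 : Fin (n + 1)) 1)
    (hw : (w : Matrix (Fin (n + 1)) (Fin (n + 1)) K) =
      Matrix.of (fun i j => if j.val = i.val + 1 then 1 else if i.val = n ∧ j.val = 0 then (-1) ^ n else 0)) :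
    Subgroup.closure ({h, x * w} : Set (Matrix.SpecialLinearGroup (Fin (n + 1)) K)) ⊔
      Subgroup.center (Matrix.SpecialLinearGroup (Fin (n + 1)) K) = ⊤ := by
  classical
  obtain ⟨m, rfl⟩ : ∃ m, n = m + 1 := ⟨n - 1, by omega⟩
  rw [eq_top_iff]
  -- it suffices to work in the closure
  refine le_trans ?_ (le_sup_left : Subgroup.closure ({h, x * w} : Set (Matrix.SpecialLinearGroup (Fin (m + 1 + 1)) K)) ≤ _)
  set H := Subgroup.closure ({h, x * w} : Set (Matrix.SpecialLinearGroup (Fin (m + 1 + 1)) K)) with hHdef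
  have hmemh : h ∈ H := Subgroup.subset_closure (by simp)
  have hmemy : x * w ∈ H := Subgroup.subset_closure (by simp)
  -- the unit `k`
  have hcardU : 3 ≤ orderOf k := by
    rw [orderOf_eq_card_of_forall_mem_zpowers hk, Nat.card_eq_fintype_card, Fintype.card_units]
    omega
  have hk1 : (k : K) ≠ 1 := by
    intro h1
    have : k = 1 := Units.ext h1
    rw [this, orderOf_one] at hcardU
    omega
  have hk2 : (k : K) ^ 2 ≠ 1 := by
    intro h1
    have : k ^ 2 = 1 := Units.ext (by simpa using h1)
    have := orderOf_dvd_of_pow_eq_one this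
    have := Nat.le_of_dvd (by norm_num) this
    omega
  have hk0 : (k : K) ≠ 0 := k.ne_zero
  have h01 : (0 : Fin (m + 1 + 1)) ≠ 1 := by
    intro h1
    have := congrArg Fin.val h1
    simp at this
  -- the diagonal matrices
  let a0 : Fin (m + 1 + 1) → K := fun i => if i.val = 0 then (k : K) else if i.val = 1 then ((k⁻¹ : Kˣ) : K) else 1
  let ai : Fin (m + 1 + 1) → K := fun i => if i.val = 0 then ((k⁻¹ : Kˣ) : K) else if i.val = 1 then (k : K) else 1
  have ha0 : h.1 = diagonal a0 := hh
  have ha0i : ∀ i, a0 i * ai i = 1 := by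
    intro i
    simp only [a0, ai]
    split_ifs <;> simp
  have haine : ∀ i, ai i ≠ 0 := by
    intro i
    simp only [ai]
    split_ifs <;> simp
  have ha0ne : ∀ i, a0 i ≠ 0 := by
    intro i
    simp only [a0]
    split_ifs <;> simp
  have hinv : (h⁻¹).1 = diagonal ai := by
    have h1 : h.1 * diagonal ai = 1 := by
      rw [ha0, diagonal_mul_diagonal, ← diagonal_one]
      congr 1
      funext i
      exact ha0i i
    have h2 : (h⁻¹).1 * h.1 = 1 := by
      rw [← val_mul', inv_mul_cancel, val_one']
    calc (h⁻¹).1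
        = (h⁻¹).1 * (h.1 * diagonal ai) := by
          rw [h1, mul_one]
      _ = diagonal ai := by rw [← mul_assoc, h2, one_mul]
  have hwe : ∀ i j, w.1 i j = if j = sg i then cc (m) K i else 0 := by
    intro i j
    refine w_entry (w := w.1) ?_ i j
    rw [hw]
  -- conjugation of `h⁻¹` by `w`
  let b : Fin (m + 1 + 1) → K := fun i => ai (i + 1)
  set Db : Matrix.SpecialLinearGroup (Fin (m + 1 + 1)) K := w * h⁻¹ * w⁻¹ with hDb
  have hDbval : Db.1 = diagonal b := by
    have h1 : w.1 * diagonal ai = diagonal b * w.1 := by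
      ext r s
      rw [mul_diagonal, diagonal_mul, hwe]
      by_cases hs : s = sg r
      · rw [if_pos hs, hs]
        simp only [b, sg]
        ring
      · rw [if_neg hs]
        simp
    have h2 : Db.1 * w.1 = w.1 * diagonal ai := by
      have e0 : w * h⁻¹ * w⁻¹ * w = w * h⁻¹ := by group
      rw [← hinv, ← val_mul' w h⁻¹, ← e0, hDb, val_mul' _ w]
    have h3 : w.1 * (w⁻¹).1 = 1 := by
      rw [← val_mul', mul_inv_cancel, val_one']
    calc Db.1 = Db.1 * (w.1 * (w⁻¹).1) := by
          rw [h3, mul_one]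
      _ = diagonal b * (w.1 * (w⁻¹).1) := by
          rw [← mul_assoc, h2, h1, mul_assoc]
      _ = diagonal b := by rw [h3, mul_one]
  -- the element `E`
  let e : Fin (m + 1 + 1) → K := fun i => a0 i * b i
  set E : Matrix.SpecialLinearGroup (Fin (m + 1 + 1)) K := h * Db with hE
  have hEval : E.1 = diagonal e := by
    rw [hE, val_mul', ha0, hDbval, diagonal_mul_diagonal]
  have hEh : E * h = h * E := by
    apply Subtype.ext
    rw [val_mul' E h, val_mul' h E, hEval, ha0, diagonal_mul_diagonal,
      diagonal_mul_diagonal]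
    congr 1
    funext i
    exact mul_comm _ _
  have he1 : e 1 ≠ 0 := by
    simp only [e, b]
    exact mul_ne_zero (ha0ne _) (haine _)
  set r : K := e 0 / e 1 with hr
  -- conjugation formulas
  have hconjh : ∀ t : K, h * TT h01 t * h⁻¹ = TT h01 ((k : K) ^ 2 * t) := by
    intro t
    rw [diag_conj h01 ha0 (ha0ne 1) t]
    congr 1
    simp only [a0]
    simp
    field_simp
  have hconjE : ∀ t : K, E * TT h01 t * E⁻¹ = TT h01 (r * t) := by
    intro t
    rw [diag_conj h01 hEval he1 t, hr]
    congr 1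
    ring
  have hx1 : x = TT h01 1 := Subtype.ext hx
  -- the first commutator
  have hu : h * (x * w) * h⁻¹ * (x * w)⁻¹ = TT h01 ((k : K) ^ 2) * E * TT h01 (-1) := by
    have h1 := hconjh 1
    rw [mul_one] at h1
    rw [← h1, hE, hDb, hx1, ← TT_inv]
    group
  have huinv : (TT h01 ((k : K) ^ 2) * E * TT h01 (-1))⁻¹ = TT h01 1 * E⁻¹ * TT h01 (-(k : K) ^ 2) := by
    rw [_root_.mul_inv_rev, _root_.mul_inv_rev, TT_inv, TT_inv, neg_neg, mul_assoc]
  -- the second commutator
  have hv : h * (TT h01 ((k : K) ^ 2) * E * TT h01 (-1)) * h⁻¹ * (TT h01 ((k : K) ^ 2) * E * TT h01 (-1))⁻¹ =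
      TT h01 ((k : K) ^ 4 + r * (1 - (k : K) ^ 2) - (k : K) ^ 2) := by
    rw [huinv]
    have e1 : h * (TT h01 ((k : K) ^ 2) * E * TT h01 (-1)) * h⁻¹ =
        (h * TT h01 ((k : K) ^ 2) * h⁻¹) * E * (h * TT h01 (-1) * h⁻¹) := by
      have : h * E * h⁻¹ = E := by rw [← hEh]; group
      calc h * (TT h01 ((k : K) ^ 2) * E * TT h01 (-1)) * h⁻¹
          = (h * TT h01 ((k : K) ^ 2) * h⁻¹) * (h * E * h⁻¹) * (h * TT h01 (-1) * h⁻¹) := by group
        _ = _ := by rw [this]
    rw [e1, hconjh, hconjh]
    have e2 : TT h01 ((k : K) ^ 2 * (k : K) ^ 2) * E * TT h01 ((k : K) ^ 2 * -1) * (TT h01 1 * E⁻¹ * TT h01 (-(k : K) ^ 2)) =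
        TT h01 ((k : K) ^ 2 * (k : K) ^ 2) * (E * (TT h01 ((k : K) ^ 2 * -1) * TT h01 1) * E⁻¹) * TT h01 (-(k : K) ^ 2) := by
      group
    rw [e2, TT_mul, hconjE, TT_mul, TT_mul]
    congr 1
    ring
  -- nonvanishing
  have hr0 : e 0 = (k : K) ^ 2 := by
    simp only [e, b, a0, ai]
    have h1 : ((0 : Fin (m + 1 + 1)) + 1).val = 1 := by simp
    simp [h1]
    ring
  have ht0 : (k : K) ^ 4 + r * (1 - (k : K) ^ 2) - (k : K) ^ 2 ≠ 0 := by
    have hfact : (k : K) ^ 4 + r * (1 - (k : K) ^ 2) - (k : K) ^ 2 = ((k : K) ^ 2 - 1) * ((k : K) ^ 2 - r) := by ring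
    rw [hfact]
    refine mul_ne_zero (sub_ne_zero.mpr hk2) ?_
    intro hzero
    have hre : r = (k : K) ^ 2 := (sub_eq_zero.mp hzero).symm
    rw [hr, hr0, div_eq_iff he1] at hre
    have he1k : e 1 = 1 := by
      have h3 : (k : K) ^ 2 * 1 = (k : K) ^ 2 * e 1 := by rw [mul_one]; exact hre
      exact (mul_left_cancel₀ (pow_ne_zero 2 hk0) h3).symm
    -- compute `e 1`
    simp only [e, b, a0, ai] at he1k
    have h1v : (1 : Fin (m + 1 + 1)).val = 1 := rfl
    by_cases hm : ((1 : Fin (m + 1 + 1)) + 1).val = 0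
    · simp [h1v, hm] at he1k
      apply hk2
      field_simp at he1k
      linear_combination -he1k
    · by_cases hm1 : ((1 : Fin (m + 1 + 1)) + 1).val = 1
      · have : (1 : Fin (m + 1 + 1)) + 1 = 1 := Fin.ext hm1
        simp at this
      · simp [h1v, hm, hm1] at he1k
        exact hk1 (by simpa using congrArg Units.val he1k)
  set t0 := (k : K) ^ 4 + r * (1 - (k : K) ^ 2) - (k : K) ^ 2 with ht0def
  have hT0 : TT h01 t0 ∈ H := by
    rw [← hv, ← hu]
    have huH : h * (x * w) * h⁻¹ * (x * w)⁻¹ ∈ H :=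
      H.mul_mem (H.mul_mem (H.mul_mem hmemh hmemy) (H.inv_mem hmemh)) (H.inv_mem hmemy)
    exact H.mul_mem (H.mul_mem (H.mul_mem hmemh huH) (H.inv_mem hmemh)) (H.inv_mem huH)
  -- stability under multiplication by squares
  have hstab : ∀ s : K, TT h01 s ∈ H → TT h01 ((k : K) ^ 2 * s) ∈ H := by
    intro s hs
    rw [← hconjh]
    exact H.mul_mem (H.mul_mem hmemh hs) (H.inv_mem hmemh)
  have hstabpow : ∀ (j : ℕ) (s : K), TT h01 s ∈ H → TT h01 (((k : K) ^ j) ^ 2 * s) ∈ H := by
    intro j
    induction j with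
    | zero => intro s hs; simpa using hs
    | succ j ih =>
      intro s hs
      have := hstab _ (ih s hs)
      convert this using 2
      ring
  -- all squares
  have hsq : ∀ (c s : K), TT h01 s ∈ H → TT h01 (c ^ 2 * s) ∈ H := by
    intro c s hs
    by_cases hc : c = 0
    · subst hc
      simp [TT_zero h01, H.one_mem]
    · have hmem : Units.mk0 c hc ∈ Subgroup.zpowers k := hk _
      obtain ⟨j, hj⟩ := (mem_powers_iff_mem_zpowers).mpr hmem
      have hj' : (k : K) ^ j = c := by
        have := congrArg Units.val hj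
        simpa using this
      have := hstabpow j s hs
      rwa [hj'] at this
  have hall : ∀ t : K, TT h01 t ∈ H := by
    intro t
    set a := t / t0 with ha
    have ht : t = a * t0 := by rw [ha]; field_simp
    rw [ht]
    by_cases h2 : (2 : K) = 0
    · have hchar : ringChar K = 2 := by
        haveI : CharP K 2 := CharTwo.of_one_ne_zero_of_two_eq_zero one_ne_zero h2
        exact ringChar.eq K 2
      obtain ⟨c, hc⟩ := FiniteField.isSquare_of_char_two hchar a
      rw [hc, ← sq]
      exact hsq c t0 hT0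
    · have e1 : a * t0 = ((a + 1) / 2) ^ 2 * t0 + -(((a - 1) / 2) ^ 2 * t0) := by
        field_simp
        ring
      rw [e1, ← TT_mul, ← TT_inv]
      exact H.mul_mem (hsq _ t0 hT0) (H.inv_mem (hsq _ t0 hT0))
  -- now `w ∈ H`
  have hwH : w ∈ H := by
    have : w = (TT h01 1)⁻¹ * (x * w) := by rw [hx1]; group
    rw [this]
    exact H.mul_mem (H.inv_mem (hall 1)) hmemy
  -- cycling
  have hcyc : ∀ (a b : Fin (m + 1 + 1)) (hab : a ≠ b) (hab' : a + 1 ≠ b + 1), (∀ t : K, TT hab' t ∈ H) → ∀ t : K, TT hab t ∈ H := by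
    intro a b hab hab' hT t
    have := w_conj hwe hab hab' (t * cc m K b / cc m K a)
    have hc1 := cc_ne (K := K) (m := m) a
    have hc2 := cc_ne (K := K) (m := m) b
    have e1 : cc m K a * (t * cc m K b / cc m K a) / cc m K b = t := by
      field_simp
    rw [e1] at this
    rw [← this]
    exact H.mul_mem (H.mul_mem hwH (hT _)) (H.inv_mem hwH)
  have hne1 : ∀ a : Fin (m + 1 + 1), a ≠ a + 1 := fun a h1 => h01 (by
    have := left_eq_add.mp h1
    exact this.symm)
  have hsucc : ∀ (j : ℕ) (a : Fin (m + 1 + 1)), a + (j : Fin (m + 1 + 1)) = 0 → ∀ t : K, TT (hne1 a) t ∈ H := by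
    intro j
    induction j with
    | zero =>
      intro a ha t
      have ha0 : a = 0 := by simpa using ha
      subst ha0
      have e : (hne1 0) = (by simpa using h01) := rfl
      convert hall t using 3 <;> simp
    | succ j ih =>
      intro a ha t
      have h2 : (a + 1) + (j : Fin (m + 1 + 1)) = 0 := by
        rw [← ha]
        push_cast
        ring
      refine hcyc a (a + 1) (hne1 a) ?_ (ih (a + 1) h2) t
      intro h3
      exact hne1 a (add_right_cancel h3)
  have hstep : ∀ (a : Fin (m + 1 + 1)) (t : K), TT (hne1 a) t ∈ H := by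
    intro a t
    refine hsucc (-a).val a ?_ t
    rw [Fin.cast_val_eq_self]
    simp
  have hdist : ∀ d : ℕ, d ≤ m → ∀ (a j : Fin (m + 1 + 1)), j = a + ((d + 1 : ℕ) : Fin (m + 1 + 1)) → ∀ (hne : a ≠ j) (t : K), TT hne t ∈ H := by
    intro d
    induction d with
    | zero =>
      intro _ a j hj hne t
      have e : j = a + 1 := by rw [hj]; simp
      subst e
      exact hstep a t
    | succ d ih =>
      intro hd a j hj hne t
      set c := a + ((d + 1 : ℕ) : Fin (m + 1 + 1)) with hc
      have hac : a ≠ c := by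
        intro h3
        have h4 : ((d + 1 : ℕ) : Fin (m + 1 + 1)) = 0 := left_eq_add.mp h3
        have h5 := congrArg Fin.val h4
        rw [Fin.val_natCast, Nat.mod_eq_of_lt (by omega)] at h5
        simp at h5
      have hjc : j = c + 1 := by
        rw [hj, hc]
        push_cast
        ring
      have hcj : c ≠ j := by rw [hjc]; exact hne1 c
      have e := Transvections.transvection_eq_commutator hne hac hcj t
      change TT hne t ∈ H
      rw [show TT hne t = _ from e, commutatorElement_def]
      have h1 : SpecialLinearGroup.transvection hac t ∈ H := ih (by omega) a c hc hac t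
      have h2 : SpecialLinearGroup.transvection hcj (1 : K) ∈ H := by
        have hx : TT hcj (1 : K) ∈ H := by
          subst hjc
          exact hstep c 1
        exact hx
      exact H.mul_mem (H.mul_mem (H.mul_mem h1 h2) (H.inv_mem h1)) (H.inv_mem h2)
  rw [← Transvections.closure_transvections, Subgroup.closure_le]
  rintro _ ⟨i, j, hij, c, rfl⟩
  have hval : 1 ≤ (j - i).val := by
    rw [Nat.one_le_iff_ne_zero]
    intro h0
    have : j - i = 0 := Fin.ext h0
    exact hij (sub_eq_zero.mp this).symm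
  have hlt := (j - i).isLt
  refine hdist ((j - i).val - 1) (by omega) i j ?_ hij c
  rw [Nat.sub_add_cancel hval, Fin.cast_val_eq_self]
  ring

end Cfsg.Agent.S2402
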