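import Cfsg.Statements.S2403
import Mathlib
import Cfsg.Agent.Lib.Linalg.Transvection
-- import your own Cfsg.Agent.* helpers here

set_option autoImplicit false
open Cfsg

namespace Cfsg.Agent.S2403

open Matrix
open Cfsg.Agent.Lib.Linalg.Transvection
open scoped commutatorElement

variable {K : Type*} [Field K] {n : ℕ}

/-- The monomial matrix. -/
def W (K : Type*) [Field K] (n : ℕ) : Matrix (Fin (n + 1)) (Fin (n + 1)) K :=
  Matrix.of (fun i j => if j.val = i.val + 1 then 1 else if i.val = n ∧ j.val = 0 then (-1) ^ n else 0)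

lemma W_apply (a b : Fin (n + 1)) :
    W K n a b = if b.val = a.val + 1 then 1 else if a.val = n ∧ b.val = 0 then (-1) ^ n else 0 := rfl

lemma shift_rel (i j i' j' : Fin (n + 1)) (hi : i'.val = i.val + 1) (hj : j'.val = j.val + 1) (c : K) :
    transvection i j c * W K n = W K n * transvection i' j' c := by
  rw [transvection, transvection, Matrix.add_mul, Matrix.mul_add, Matrix.one_mul, Matrix.mul_one]
  congr 1
  ext a b
  have hjlt : j.val ≠ n := by have := j'.2; omega
  by_cases ha : a = i
  · subst ha
    rw [Matrix.single_mul_apply_same, W_apply]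
    by_cases hb : b = j'
    · subst hb
      rw [Matrix.mul_single_apply_same, W_apply]
      simp [hi, hj]
    · rw [Matrix.mul_single_apply_of_ne _ _ _ _ _ hb]
      have h1 : b.val ≠ j.val + 1 := fun h => hb (Fin.ext (by omega))
      simp [h1, hjlt]
  · rw [Matrix.single_mul_apply_of_ne _ _ _ _ _ ha]
    by_cases hb : b = j'
    · subst hb
      rw [Matrix.mul_single_apply_same, W_apply]
      have h1 : i'.val ≠ a.val + 1 := fun h => ha (Fin.ext (by omega))
      have h2 : i'.val ≠ 0 := by omega
      simp [h1, h2]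
    · rw [Matrix.mul_single_apply_of_ne _ _ _ _ _ hb]

lemma wrap_rel (hn : 1 ≤ n) (i j z : Fin (n + 1)) (hi : i.val + 1 = n) (hj : j.val = n) (hz : z.val = 0)
    (c : K) : transvection i j c * W K n = W K n * transvection j z ((-1) ^ n * c) := by
  rw [transvection, transvection, Matrix.add_mul, Matrix.mul_add, Matrix.one_mul, Matrix.mul_one]
  congr 1
  ext a b
  by_cases ha : a = i
  · subst ha
    rw [Matrix.single_mul_apply_same, W_apply]
    by_cases hb : b = z
    · subst hb
      rw [Matrix.mul_single_apply_same, W_apply]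
      simp [hi, hj, hz]
      exact mul_comm _ _
    · rw [Matrix.mul_single_apply_of_ne _ _ _ _ _ hb]
      have h1 : b.val ≠ 0 := fun h => hb (Fin.ext (by omega))
      have h2 : b.val ≠ j.val + 1 := by have := b.2; omega
      simp [h1, h2]
  · rw [Matrix.single_mul_apply_of_ne _ _ _ _ _ ha]
    by_cases hb : b = z
    · subst hb
      rw [Matrix.mul_single_apply_same, W_apply]
      have h1 : j.val ≠ a.val + 1 := fun h => ha (Fin.ext (by omega))
      have h2 : j.val ≠ 0 := by omega
      simp [h1, h2]
    · rw [Matrix.mul_single_apply_of_ne _ _ _ _ _ hb]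

lemma elements_of_small [Fintype K] (hK : Fintype.card K ≤ 3) (a : K) : a = 0 ∨ a = 1 ∨ a = -1 := by
  classical
  by_cases h0 : a = 0
  · exact Or.inl h0
  by_cases h1 : a = 1
  · exact Or.inr (Or.inl h1)
  right; right
  have hcard : ({0, 1, a} : Finset K).card = 3 := by
    rw [Finset.card_eq_three]
    exact ⟨0, 1, a, zero_ne_one, Ne.symm h0, Ne.symm h1, rfl⟩
  have huniv : ({0, 1, a} : Finset K) = Finset.univ :=
    Finset.eq_univ_of_card _ (le_antisymm (Finset.card_le_univ _) (by omega))
  have hmem : a + 1 ∈ ({0, 1, a} : Finset K) := by rw [huniv]; exact Finset.mem_univ _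
  simp only [Finset.mem_insert, Finset.mem_singleton] at hmem
  rcases hmem with h | h | h
  · exact eq_neg_of_add_eq_zero_left h
  · exact absurd (by simpa using h) h0
  · exact absurd (by simpa using h) (one_ne_zero : (1 : K) ≠ 0)

/-- Explicit two-element generation of `PSL_{n+1}(K)` over the fields with two or three elements: with `x = 1 + E₁₂` and `w` the monomial matrix with entries `1` in positions `(i, i+1)` and `(−1)^n` in position `(n+1, 1)`, the elements `x` and `w` generate `SL_{n+1}(K)` modulo its centre. -/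
theorem result {K : Type*} [Field K] [Fintype K] (hK : Fintype.card K ≤ 3) (n : ℕ) (hn : 1 ≤ n)
    (x w : Matrix.SpecialLinearGroup (Fin (n + 1)) K)
    (hx : (x : Matrix (Fin (n + 1)) (Fin (n + 1)) K) = Matrix.transvection (0 : Fin (n + 1)) (1 : Fin (n + 1)) 1)
    (hw : (w : Matrix (Fin (n + 1)) (Fin (n + 1)) K) =
      Matrix.of (fun i j => if j.val = i.val + 1 then 1 else if i.val = n ∧ j.val = 0 then (-1) ^ n else 0)) :
    Subgroup.closure ({x, w} : Set (Matrix.SpecialLinearGroup (Fin (n + 1)) K)) ⊔
      Subgroup.center (Matrix.SpecialLinearGroup (Fin (n + 1)) K) = ⊤ := by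
  have hwW : (w : Matrix (Fin (n + 1)) (Fin (n + 1)) K) = W K n := hw
  set G := Subgroup.closure ({x, w} : Set (Matrix.SpecialLinearGroup (Fin (n + 1)) K)) with hG
  have hxG : x ∈ G := Subgroup.subset_closure (by simp)
  have hwG : w ∈ G := Subgroup.subset_closure (by simp)
  -- notation for transvections
  let τ : ∀ {i j : Fin (n + 1)}, i ≠ j → K → Matrix.SpecialLinearGroup (Fin (n + 1)) K :=
    fun h c => Matrix.SpecialLinearGroup.transvection h c
  have hcoe : ∀ {i j : Fin (n + 1)} (h : i ≠ j) (c : K),
      (τ h c : Matrix (Fin (n + 1)) (Fin (n + 1)) K) = transvection i j c := fun _ _ => rfl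
  -- moving along `w`
  have step : ∀ (i j i' j' : Fin (n + 1)) (hij : i ≠ j) (hij' : i' ≠ j') (c : K),
      i'.val = i.val + 1 → j'.val = j.val + 1 → τ hij c ∈ G → τ hij' c ∈ G := by
    intro i j i' j' hij hij' c hi hj hmem
    have h1 : τ hij c * w = w * τ hij' c := by
      apply Subtype.ext
      rw [Matrix.SpecialLinearGroup.coe_mul, Matrix.SpecialLinearGroup.coe_mul, hwW, hcoe, hcoe]
      exact shift_rel i j i' j' hi hj c
    have h2 : τ hij' c = w⁻¹ * τ hij c * w := by
      rw [mul_assoc, h1, inv_mul_cancel_left]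
    rw [h2]
    exact G.mul_mem (G.mul_mem (G.inv_mem hwG) hmem) hwG
  have comm_mem : ∀ {i j k : Fin (n + 1)} (hij : i ≠ j) (hik : i ≠ k) (hkj : k ≠ j),
      τ hik 1 ∈ G → τ hkj 1 ∈ G → τ hij 1 ∈ G := by
    intro i j k hij hik hkj h1 h2
    have := commutator_transvection hij hik hkj (1 : K) 1
    rw [mul_one] at this
    have h3 : τ hij 1 = ⁅τ hik 1, τ hkj 1⁆ := this.symm
    rw [h3, commutatorElement_def]
    exact G.mul_mem (G.mul_mem (G.mul_mem h1 h2) (G.inv_mem h1)) (G.inv_mem h2)
  have h01 : (⟨0, by omega⟩ : Fin (n + 1)) ≠ ⟨1, by omega⟩ := by simp [Fin.ext_iff]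
  -- the superdiagonal
  have stepA : ∀ (i : ℕ) (hi : i + 1 < n + 1) (h : (⟨i, by omega⟩ : Fin (n + 1)) ≠ ⟨i + 1, hi⟩),
      τ h 1 ∈ G := by
    intro i
    induction i with
    | zero =>
      intro hi h
      have hzero : τ h 1 = x := by
        apply Subtype.ext
        rw [hcoe, hx]
        congr 1
        apply Fin.ext
        simp [Nat.mod_eq_of_lt hi]
      rw [hzero]
      exact hxG
    | succ i ih =>
      intro hi h
      have h' : (⟨i, by omega⟩ : Fin (n + 1)) ≠ ⟨i + 1, by omega⟩ := by simp [Fin.ext_iff]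
      exact step _ _ _ _ h' h 1 rfl rfl (ih (by omega) h')
  -- everything above the diagonal
  have stepB : ∀ (d i : ℕ) (hj : i + 1 + d < n + 1) (h : (⟨i, by omega⟩ : Fin (n + 1)) ≠ ⟨i + 1 + d, hj⟩),
      τ h 1 ∈ G := by
    intro d
    induction d with
    | zero =>
      intro i hj h
      exact stepA i hj h
    | succ d ih =>
      intro i hj h
      have h1 : (⟨i, by omega⟩ : Fin (n + 1)) ≠ ⟨i + 1 + d, by omega⟩ := by
        simp [Fin.ext_iff]; omega
      have h2 : (⟨i + 1 + d, by omega⟩ : Fin (n + 1)) ≠ ⟨i + 1 + d + 1, by omega⟩ := by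
        simp [Fin.ext_iff]
      exact comm_mem h h1 h2 (ih i (by omega) h1) (stepA _ (by omega) h2)
  have upper : ∀ (i j : Fin (n + 1)) (h : i ≠ j), i.val < j.val → τ h 1 ∈ G := by
    rintro ⟨i, hi⟩ ⟨j, hj⟩ h hlt
    obtain ⟨d, rfl⟩ : ∃ d, j = i + 1 + d := ⟨j - i - 1, by simp only at hlt; omega⟩
    exact stepB d i hj h
  -- the wrap-around
  let last : Fin (n + 1) := ⟨n, by omega⟩
  let zero : Fin (n + 1) := ⟨0, by omega⟩
  have hlz : last ≠ zero := by simp [last, zero, Fin.ext_iff]; omega
  have hL : τ hlz 1 ∈ G := by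
    let prev : Fin (n + 1) := ⟨n - 1, by omega⟩
    have hpl : prev ≠ last := by simp [prev, last, Fin.ext_iff]; omega
    have h1 : τ hpl 1 * w = w * τ hlz ((-1) ^ n * 1) := by
      apply Subtype.ext
      rw [Matrix.SpecialLinearGroup.coe_mul, Matrix.SpecialLinearGroup.coe_mul, hwW, hcoe, hcoe]
      exact wrap_rel hn prev last zero (by simp [prev]; omega) rfl rfl 1
    have h2 : τ hlz ((-1) ^ n * 1) = w⁻¹ * τ hpl 1 * w := by
      rw [mul_assoc, h1, inv_mul_cancel_left]
    have h3 : τ hlz ((-1) ^ n * 1) ∈ G := by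
      rw [h2]
      exact G.mul_mem (G.mul_mem (G.inv_mem hwG) (upper prev last hpl (by simp [prev, last]; omega))) hwG
    rw [mul_one] at h3
    rcases neg_one_pow_eq_or K n with h4 | h4
    · rwa [h4] at h3
    · rw [h4] at h3
      have h5 := G.inv_mem h3
      have h6 : (τ hlz (-1))⁻¹ = τ hlz 1 := by
        rw [show τ hlz (-1) = Matrix.SpecialLinearGroup.transvection hlz (-1) from rfl,
          Matrix.SpecialLinearGroup.transvection_inv, neg_neg]
      rwa [h6] at h5
  -- below the diagonal
  have lowerD1 : ∀ (j : Fin (n + 1)) (h : last ≠ j), j ≠ zero → τ h 1 ∈ G := by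
    intro j h hj
    have hj0 : 0 < j.val := by
      have : j.val ≠ 0 := fun h0 => hj (Fin.ext h0)
      omega
    have hzj : zero ≠ j := Ne.symm hj
    exact comm_mem h hlz hzj hL (upper zero j hzj hj0)
  have lowerD2 : ∀ (i : Fin (n + 1)) (h : i ≠ zero), i ≠ last → τ h 1 ∈ G := by
    intro i h hi
    have hlt : i.val < n := by
      have := i.2
      have : i.val ≠ n := fun h0 => hi (Fin.ext h0)
      omega
    exact comm_mem h hi hlz (upper i last hi hlt) hL
  have lower : ∀ (i j : Fin (n + 1)) (h : i ≠ j), j.val < i.val → τ h 1 ∈ G := by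
    intro i j h hlt
    by_cases hi : i = last
    · subst hi
      by_cases hj : j = zero
      · subst hj
        exact hL
      · exact lowerD1 j h hj
    · by_cases hj : j = zero
      · subst hj
        exact lowerD2 i h hi
      · have hi0 : i ≠ zero := by
          intro h0
          subst h0
          simp [zero] at hlt
        have hj0 : 0 < j.val := by
          have : j.val ≠ 0 := fun h0 => hj (Fin.ext h0)
          omega
        have hzj : zero ≠ j := Ne.symm hj
        exact comm_mem h hi0 hzj (lowerD2 i hi0 hi) (upper zero j hzj hj0)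
  have allOne : ∀ (i j : Fin (n + 1)) (h : i ≠ j), τ h 1 ∈ G := by
    intro i j h
    rcases lt_or_gt_of_ne (fun h' => h (Fin.ext h') : i.val ≠ j.val) with h1 | h1
    · exact upper i j h h1
    · exact lower i j h h1
  have allA : ∀ (i j : Fin (n + 1)) (h : i ≠ j) (a : K),
      Matrix.SpecialLinearGroup.transvection h a ∈ G := by
    intro i j h a
    rcases elements_of_small hK a with rfl | rfl | rfl
    · have : Matrix.SpecialLinearGroup.transvection h (0 : K) = 1 := by
        apply Subtype.ext
        simp [Matrix.SpecialLinearGroup.transvection]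
      rw [this]
      exact G.one_mem
    · exact allOne i j h
    · have h5 := G.inv_mem (allOne i j h)
      rwa [show τ h 1 = Matrix.SpecialLinearGroup.transvection h 1 from rfl,
        Matrix.SpecialLinearGroup.transvection_inv] at h5
  have htop : G = ⊤ := by
    rw [eq_top_iff, ← closure_transvections (ι := Fin (n + 1)) (F := K), Subgroup.closure_le]
    rintro _ ⟨i, j, h, a, rfl⟩
    exact allA i j h a
  rw [htop, top_sup_eq]

end Cfsg.Agent.S2403
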