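import Cfsg.Statements.S2405
import Mathlib
import Cfsg.Agent.S1025
import Cfsg.Agent.Lib.ChevAut.TwoGenData
import Cfsg.Agent.Lib.Chevalley.AllEta
import Cfsg.Agent.Lib.ChevBN.FastData
-- import your own Cfsg.Agent.* helpers here

set_option autoImplicit false
open Cfsg

namespace Cfsg.Agent.S2405

open Cfsg.Agent.Lib.ChevAut.TwoGen Cfsg.Agent.Lib.ChevAut.TwoGenData

/-- Each Chevalley group of type G₂, B₂, D₄, F₄, E₆, E₇ or E₈ over a finite field is generated by two of its elements (types B₂ and G₂ over the field with two elements, where the group is not simple, excepted). -/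
theorem result {F : Type*} [Field F] [Finite F] (D : Cfsg.Lie.ChevalleyDatum) (hD : D ∈ [Cfsg.Lie.chevG2, Cfsg.Lie.chevB2, Cfsg.Lie.chevD4, Cfsg.Lie.chevF4, Cfsg.Lie.chevE6, Cfsg.Lie.chevE7, Cfsg.Lie.chevE8])
    (hF : D ∈ [Cfsg.Lie.chevB2, Cfsg.Lie.chevG2] → ∃ x : F, x ≠ 0 ∧ x ≠ 1) :
    ∃ a b : ↥(D.group F), Subgroup.closure ({a, b} : Set ↥(D.group F)) = ⊤ := by
  classical
  obtain ⟨η, hS, hη⟩ := Cfsg.Agent.Lib.Chevalley.AllEta.exists_sys_eta D hD
  have hc := Cfsg.Agent.Lib.Chevalley.AllEta.cartan_self D hD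
  have hT := Cfsg.Agent.Lib.ChevBN.FastData.tbl_of_mem hD
  have hC : ∀ r s : ℕ, r < D.nroots → s < D.nroots → s ≠ r → s ≠ D.neg r → ∀ t u : F,
      D.x F s u * D.x F r t = D.x F r t * D.x F s u * D.wordMat F (D.commWord F r s t u) :=
    fun r s hr hs h1 h2 t u => Cfsg.Agent.S1025.result D hD r s hr hs h1 h2 t u
  have hR := hS F
  have := Fintype.ofFinite F
  obtain ⟨ζ, hζ⟩ := IsCyclic.exists_generator (α := Fˣ)
  have hζ1 : (∃ x : F, x ≠ 0 ∧ x ≠ 1) → ζ ≠ 1 := by
    rintro ⟨x, hx0, hx1⟩ rfl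
    obtain ⟨n, hn⟩ := hζ (Units.mk0 x hx0)
    apply hx1
    have h2 : (Units.mk0 x hx0 : Fˣ) = 1 := by
      rw [← hn]
      simp
    simpa using congrArg Units.val h2
  have hD' := hD
  simp only [List.mem_cons, List.not_mem_nil, or_false] at hD'
  rcases hD' with rfl | rfl | rfl | rfl | rfl | rfl | rfl
  · by_cases h3 : (3 : F) = 0
    · exact of_C hR hT hC (hζ1 (hF (by simp))) (fun c hc => u1_ne hc) (sq_mem_of_three h3 hζ) check_G2c
    · exact of_A hR hT hC hζ (fun c hc => u3_ne h3 hc) check_G2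
  · by_cases h2 : (2 : F) = 0
    · exact of_C hR hT hC (hζ1 (hF (by simp))) (fun c hc => u1_ne hc) (sq_mem_of_dvd hζ (by decide)) check_B2c
    · exact of_A hR hT hC hζ (fun c hc => u2_ne h2 hc) check_B2
  · exact of_B hR hT hC hζ (fun c hc => u1_ne hc) hc hη check_D4
  · by_cases h2 : (2 : F) = 0
    · exact of_B hR hT hC hζ (fun c hc => u1_ne hc) hc hη check_F4y
    · exact of_A hR hT hC hζ (fun c hc => u2_ne h2 hc) check_F4
  · exact of_A hR hT hC hζ (fun c hc => u1_ne hc) check_E6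
  · exact of_A hR hT hC hζ (fun c hc => u1_ne hc) check_E7
  · exact of_A hR hT hC hζ (fun c hc => u1_ne hc) check_E8

end Cfsg.Agent.S2405
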