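import Cfsg.Statements.S2407
import Cfsg.Agent.Lib.Tw3D4Max.TwoGen

set_option autoImplicit false
open Cfsg

namespace Cfsg.Agent.S2407

/-- The twisted group ³D₄(q) (realised inside D₄ over the field with `q³` elements) is generated by two of its elements. -/
theorem result {K : Type*} [Field K] [Fintype K] {q : ℕ} (hq : IsPrimePow q) (hK : Fintype.card K = q ^ 3) :
    ∃ a b : ↥(Cfsg.Lie.twistedD4 K q), Subgroup.closure ({a, b} : Set ↥(Cfsg.Lie.twistedD4 K q)) = ⊤ := by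
  obtain ⟨φ, T, hφ, hφ3, hρ, hτ, I⟩ := Cfsg.Agent.Lib.Twisted.D4.main hq hK
  exact Cfsg.Agent.Lib.Tw3D4Max.two_gen_main hφ hφ3 hρ hτ I hq hK

end Cfsg.Agent.S2407
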