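import Cfsg.Statements.S2408
import Mathlib
import Cfsg.Agent.Lib.TF4.I2Gen

set_option autoImplicit false
open Cfsg

namespace Cfsg.Agent.S2408

/-- The large Ree group ²F₄(2^(2m+1)) with `m ≥ 1` is generated by two of its elements. -/
theorem result {K : Type*} [Field K] [Fintype K] {m : ℕ} (hm : 1 ≤ m) (hK : Fintype.card K = 2 ^ (2 * m + 1)) :
    ∃ a b : ↥(Cfsg.Lie.twistedF4 K (2 ^ m)), Subgroup.closure ({a, b} : Set ↥(Cfsg.Lie.twistedF4 K (2 ^ m))) = ⊤ := by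
  obtain ⟨hc, φ, hφ, hφ2, T, hρ, hτ⟩ := Cfsg.Agent.Lib.TF4.main_data (K := K) (m := m) hK
  have := hc
  exact Cfsg.Agent.Lib.TF4.I2.two_gen hφ2 hρ hτ hφ (by
    rw [Nat.card_eq_fintype_card, hK]
    exact (even_two).pow_of_ne_zero (by omega))

end Cfsg.Agent.S2408
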