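import Cfsg.Statements.S2410
import Mathlib
import Cfsg.Agent.Lib.Suzuki.Gen

set_option autoImplicit false
open Cfsg

namespace Cfsg.Agent.S2410

open Cfsg.Agent.Lib.Suzuki.Basic Cfsg.Agent.Lib.Suzuki.Struct Cfsg.Agent.Lib.Suzuki.Zass
  Cfsg.Agent.Lib.Suzuki.Sub Cfsg.Agent.Lib.Suzuki.Gen

variable {F : Type*} [Field F] [Fintype F] {m : ℕ}

/-- `D` as a homomorphism. -/
noncomputable def dHom (h : Hyp F m) : Fˣ →* G F m where
  toFun := Dg h
  map_one' := Dg_one h
  map_mul' := fun k l => (Dg_mul h k l).symm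

theorem two_gen (h : Hyp F m) : ∃ a b : G F m, Subgroup.closure ({a, b} : Set (G F m)) = ⊤ := by
  obtain ⟨k, hk⟩ := IsCyclic.exists_generator (α := Fˣ)
  refine ⟨Dg h k, Lg h 1 0 * Tg h, ?_⟩
  set H := Subgroup.closure ({Dg h k, Lg h 1 0 * Tg h} : Set (G F m)) with hH
  have hDk : Dg h k ∈ H := Subgroup.subset_closure (by simp)
  have hy : Lg h 1 0 * Tg h ∈ H := Subgroup.subset_closure (by simp)
  have hD : ∀ c : Fˣ, Dg h c ∈ H := by
    intro c
    have h1 : Subgroup.zpowers k ≤ H.comap (dHom h) := by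
      rw [Subgroup.zpowers_le]
      exact hDk
    exact h1 (hk c)
  -- an element of `U` with non-trivial first coordinate
  obtain ⟨c, hc⟩ := exists_unit_ne_one h
  have hW : ∃ a e : F, a ≠ 0 ∧ Lg h a e ∈ H := by
    have e1 : Dg h c * (Lg h 1 0 * Tg h) * (Dg h c)⁻¹ =
        Lg h (c : F) 0 * Dg h (c * c) * Tg h := by
      have e2 : Tg h * (Dg h c)⁻¹ = Dg h c * Tg h := by
        rw [Dg_inv h, Tg_mul_Dg h, inv_inv]
      have e3 := Dg_conj_Lg h c 1 0
      rw [mul_one, mul_zero] at e3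
      calc Dg h c * (Lg h 1 0 * Tg h) * (Dg h c)⁻¹
          = (Dg h c * Lg h 1 0 * (Dg h c)⁻¹) * (Dg h c * (Tg h * (Dg h c)⁻¹)) := by group
        _ = Lg h (c : F) 0 * (Dg h c * (Dg h c * Tg h)) := by rw [e3, e2]
        _ = Lg h (c : F) 0 * Dg h (c * c) * Tg h := by
            rw [← Dg_mul h]
            group
    have e4 : Lg h (c : F) 0 * (Dg h (c * c) * (Lg h 1 0)⁻¹ * (Dg h (c * c))⁻¹) =
        (Dg h c * (Lg h 1 0 * Tg h) * (Dg h c)⁻¹) * (Lg h 1 0 * Tg h)⁻¹ * (Dg h (c * c))⁻¹ := by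
      rw [e1]
      group
    have h5 : Lg h (c : F) 0 * (Dg h (c * c) * (Lg h 1 0)⁻¹ * (Dg h (c * c))⁻¹) ∈ H := by
      rw [e4]
      exact H.mul_mem (H.mul_mem (H.mul_mem (H.mul_mem (hD c) hy) (H.inv_mem (hD c))) (H.inv_mem hy))
        (H.inv_mem (hD _))
    rw [Lg_inv h, Dg_conj_Lg h, Lg_mul h] at h5
    refine ⟨_, _, ?_, h5⟩
    have hc1 : (c : F) + 1 ≠ 0 := by
      intro hc2
      apply hc
      apply Units.ext
      simpa using h.eq_of_add_eq_zero hc2
    have e6 : (c : F) + ((c * c : Fˣ) : F) * 1 = (c : F) * ((c : F) + 1) := by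
      push_cast
      ring
    rw [e6]
    exact mul_ne_zero c.ne_zero hc1
  obtain ⟨a, e, ha, hae⟩ := hW
  have hall : ∀ a' : F, a' ≠ 0 → ∃ e' : F, Lg h a' e' ∈ H := by
    intro a' ha'
    let u : Fˣ := Units.mk0 (a' / a) (div_ne_zero ha' ha)
    refine ⟨(u : F) ^ (2 ^ (m + 1)) * (u : F) * e, ?_⟩
    have h1 := H.mul_mem (H.mul_mem (hD u) hae) (H.inv_mem (hD u))
    rw [Dg_conj_Lg h] at h1
    have e7 : (u : F) * a = a' := by
      simp only [u, Units.val_mk0]
      field_simp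
    rwa [e7] at h1
  have hZ : ∀ b : F, Lg h 0 b ∈ H := by
    intro b
    by_cases hb : b = 0
    · subst hb
      rw [Lg_zero h]
      exact H.one_mem
    · obtain ⟨a', ha'⟩ := (pow_sg_mul_self_bij h).2 b
      simp only at ha'
      have ha0 : a' ≠ 0 := by
        rintro rfl
        apply hb
        rw [← ha']
        simp
      obtain ⟨e', he'⟩ := hall a' ha0
      have := H.mul_mem he' he'
      rwa [Lg_sq h, ha'] at this
  have hU : Usub h ≤ H := by
    rintro _ ⟨a', b', rfl⟩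
    by_cases ha' : a' = 0
    · subst ha'
      exact hZ b'
    · obtain ⟨e', he'⟩ := hall a' ha'
      have e8 : Lg h a' b' = Lg h a' e' * Lg h 0 (b' + e') := by
        rw [Lg_mul h, add_zero, mul_zero, add_zero]
        congr 1
        have h2 := h.two_eq_zero
        linear_combination (-e') * h2
      rw [e8]
      exact H.mul_mem he' (hZ _)
  have hT : Tg h ∈ H := by
    have e9 : Tg h = (Lg h 1 0)⁻¹ * (Lg h 1 0 * Tg h) := by group
    rw [e9]
    exact H.mul_mem (H.inv_mem (hU ⟨1, 0, rfl⟩)) hy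
  exact eq_top_of_mem h H hU hT hD

/-- The Suzuki group over the field with `2^(2m+1)` elements, `m ≥ 1` (realised as the stabiliser in `SL₄` of the Suzuki–Tits ovoid), is generated by two of its elements. -/
theorem result {F : Type*} [Field F] [Fintype F] {m : ℕ} (hm : 1 ≤ m) (hF : Fintype.card F = 2 ^ (2 * m + 1)) :
    ∃ a b : ↥(Cfsg.Sz F m), Subgroup.closure ({a, b} : Set ↥(Cfsg.Sz F m)) = ⊤ :=
  two_gen ⟨hm, hF⟩

end Cfsg.Agent.S2410
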