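import Cfsg.Statements.S2425
import Mathlib
import Cfsg.Agent.Lib.GLSt.Cp
import Cfsg.Agent.Lib.GLSt.PermC
import Cfsg.Agent.Lib.GLSt.Flag

set_option autoImplicit false
open scoped MatrixGroups
open Cfsg

namespace Cfsg.Agent.S2425

open Cfsg.Agent.Lib.GLSt Cfsg.Agent.Lib.GLSt.Flag Polynomial
open Cfsg.Agent.Lib.GLSt.PermC (Good Jof cmp)

variable {F : Type*} [Field F]

theorem ph_pow {n : ℕ} (x : GL (Fin n) F) (k : ℕ) :
    (ph x) ^ k = Matrix.mulVecLin (((x ^ k : GL (Fin n) F)) : Matrix (Fin n) (Fin n) F) := by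
  induction k with
  | zero =>
    simp only [pow_zero, Units.val_one, Matrix.mulVecLin_one]
    rfl
  | succ k ih =>
    rw [pow_succ, ih, pow_succ, Units.val_mul, Matrix.mulVecLin_mul]
    rfl

theorem isSemisimple_ph {n p : ℕ} (hp : p.Prime) [CharP F p] (x : GL (Fin n) F)
    (hx : (orderOf x).Coprime p) : (ph x).IsSemisimple := by
  have hm : ((orderOf x : ℕ) : F) ≠ 0 := by
    rw [Ne, CharP.cast_eq_zero_iff F p]
    intro hdvd
    have h1 : p ∣ 1 := by
      have := Nat.dvd_gcd hdvd (dvd_refl p)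
      rwa [hx.gcd_eq_one] at this
    exact hp.one_lt.ne' (Nat.dvd_one.mp h1)
  have hsq := (separable_X_pow_sub_C (1 : F) hm one_ne_zero).squarefree
  apply Module.End.isSemisimple_of_squarefree_aeval_eq_zero hsq
  rw [map_sub, map_pow, aeval_X, aeval_C, ph_pow, pow_orderOf_eq_one]
  simp only [Units.val_one, Matrix.mulVecLin_one, map_one]
  exact sub_self _

theorem cp_eq {n : ℕ} (x : GL (Fin n) F) :
    Cp.cp F (Module.AEval' (ph x)) = (x : Matrix (Fin n) (Fin n) F).charpoly := by
  have h := LinearEquiv.charpoly_conj (Module.AEval'.of (ph x)) (ph x)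
  rw [Matrix.charpoly_mulVecLin] at h
  rw [← h, Cp.cp]
  congr 1
  refine LinearMap.ext fun m => ?_
  obtain ⟨v, rfl⟩ := (Module.AEval'.of (ph x)).surjective m
  rw [Cp.mx_apply, Module.AEval'.X_smul_of]
  simp [LinearEquiv.conj_apply]

variable [Finite F]

open Classical in
/-- The value in terms of chains of invariant subspaces. -/
theorem value_eq {n : ℕ} (x : GL (Fin (n + 1)) F) [Fintype (LL x)] :
    unipotentCharacterGL (n + 1) F (fun _ => 1) x =
      (((-1 : ℤ) ^ (n + 1) * Mob.mob (⊤ : LL x) : ℤ) : ℂ) := by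
  set dm : LL x → ℕ := fun W => Module.finrank F (toF x W) with hdm
  let h : Finset ℕ → ℂ := fun J => (((Mob.Ch (⊤ : LL x)).filter fun C => C.image dm = J).card : ℂ)
  have hterm : ∀ κ : Equiv.Perm (Fin (n + 1)),
      (if ∀ i : Fin (n + 1), (κ i).val ≤ 1 + i.val then
        ((Equiv.Perm.sign κ : ℤ) : ℂ) * fixedPointCharacter (parabolicGL (n + 1) F fun i => 1 + i.val - (κ i).val) x
        else 0) = if Good κ then ((Equiv.Perm.sign κ : ℤ)) • h (Jof κ) else 0 := by
    intro κ
    by_cases hκ : Good κ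
    · have h1 : ∀ i : Fin (n + 1), (κ i).val ≤ 1 + i.val := hκ
      rw [if_pos h1, if_pos hκ, zsmul_eq_mul]
      congr 1
      have hJ : Jof κ ⊆ Finset.Ico 1 (n + 1) := Finset.filter_subset _ _
      have hc := card_fixed x hJ (parabolicGL (n + 1) F (cmp κ)) (PermC.mem_parabolic_iff hκ)
      show ((Nat.card (MulAction.fixedBy (GL (Fin (n + 1)) F ⧸ parabolicGL (n + 1) F (cmp κ)) x) : ℕ) : ℂ) = _
      rw [hc]
    · have h1 : ¬ ∀ i : Fin (n + 1), (κ i).val ≤ 1 + i.val := hκ
      rw [if_neg h1, if_neg hκ]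
  have hsum : unipotentCharacterGL (n + 1) F (fun _ => 1) x =
      ∑ κ : Equiv.Perm (Fin (n + 1)), (if Good κ then ((Equiv.Perm.sign κ : ℤ)) • h (Jof κ) else 0) := by
    rw [← Finset.sum_congr rfl fun κ _ => hterm κ]
    rfl
  rw [hsum, PermC.sum_good]
  -- each chain has dimensions in the interval
  have hmaps : ∀ C ∈ Mob.Ch (⊤ : LL x), C.image dm ∈ (Finset.Ico 1 (n + 1)).powerset := by
    intro C hC
    rw [Mob.mem_Ch] at hC
    rw [Finset.mem_powerset]
    intro j hj
    obtain ⟨W, hW, rfl⟩ := Finset.mem_image.mp hj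
    obtain ⟨h1, h2⟩ := hC.1 W hW
    rw [Finset.mem_Ico]
    constructor
    · rw [Nat.one_le_iff_ne_zero, hdm]
      intro h0
      simp only at h0
      rw [Submodule.finrank_eq_zero] at h0
      have : W = ⊥ := (toF_injective x) (by rw [h0, toF_bot])
      exact h1.ne' this
    · have h3 : toF x W < ⊤ := by
        rw [lt_iff_le_and_ne]
        refine ⟨le_top, fun h0 => h2.ne ((toF_injective x) (by rw [h0, toF_top]))⟩
      have h4 := Submodule.finrank_lt h3.ne
      rw [Module.finrank_fin_fun] at h4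
      exact h4
  -- dimensions separate the members of a chain
  have hcardC : ∀ C ∈ Mob.Ch (⊤ : LL x), (C.image dm).card = C.card := by
    intro C hC
    rw [Mob.mem_Ch] at hC
    apply Finset.card_image_of_injOn
    intro W hW W' hW' he
    by_contra hne
    have hW1 : W ∈ C := by exact_mod_cast hW
    have hW2 : W' ∈ C := by exact_mod_cast hW'
    rcases hC.2 hW hW' hne with h1 | h1
    · exact hne ((toF_injective x) (Submodule.eq_of_le_of_finrank_eq ((toF_le_iff x).mpr h1) he))
    · exact hne ((toF_injective x) (Submodule.eq_of_le_of_finrank_eq ((toF_le_iff x).mpr h1) he.symm).symm)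
  have hfib : ∑ J ∈ (Finset.Ico 1 (n + 1)).powerset, ((-1 : ℤ) ^ J.card) • h J =
      ((Mob.cm (⊤ : LL x) : ℤ) : ℂ) := by
    rw [Mob.cm, ← Finset.sum_fiberwise_of_maps_to hmaps, Int.cast_sum]
    apply Finset.sum_congr rfl
    intro J _
    rw [zsmul_eq_mul, Int.cast_sum]
    have : ∀ C ∈ (Mob.Ch (⊤ : LL x)).filter (fun C => C.image dm = J),
        (((-1 : ℤ) ^ C.card : ℤ) : ℂ) = (((-1 : ℤ) ^ J.card : ℤ) : ℂ) := by
      intro C hC
      obtain ⟨h1, h2⟩ := Finset.mem_filter.mp hC
      rw [← h2, hcardC C h1]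
    rw [Finset.sum_congr rfl this, Finset.sum_const, nsmul_eq_mul, mul_comm]
  rw [hfib]
  have hnt : (⊤ : LL x) ≠ ⊥ := by
    intro h0
    have h1 : toF x (⊤ : LL x) = toF x (⊥ : LL x) := by rw [h0]
    rw [toF_top, toF_bot] at h1
    have h2 : Module.finrank F (⊤ : Submodule F (Fin (n + 1) → F)) = Module.finrank F (⊥ : Submodule F (Fin (n + 1) → F)) := by
      rw [h1]
    rw [finrank_top, finrank_bot, Module.finrank_fin_fun] at h2
    omega
  rw [Mob.mob_of_ne hnt, zsmul_eq_mul]
  push_cast
  rw [pow_succ]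
  ring

/-- Values of the Steinberg character of `GL_n(q)` (the partition-indexed character for `ν = (1,…,1)`, of degree `q^(n(n−1)/2)`) at elements of order prime to the characteristic: if the characteristic polynomial of such an element is `∏ f^(m_f)` over distinct monic irreducible `f`, the value is `∏_f (−1)^((deg f − 1) m_f) q^(deg f · m_f (m_f − 1)/2)`. (At elements of order divisible by the characteristic the value is 0; that is not part of this statement.) -/
theorem result {F : Type*} [Field F] [Fintype F] [DecidableEq F] {q : ℕ} (hq : Fintype.card F = q) (p : ℕ) [Fact p.Prime] [CharP F p]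
    {n : ℕ} (x : GL (Fin n) F) (hx : (orderOf x).Coprime p) :
    Cfsg.unipotentCharacterGL n F (fun _ => 1) x =
      ∏ f ∈ (UniqueFactorizationMonoid.normalizedFactors (x : Matrix (Fin n) (Fin n) F).charpoly).toFinset,
        (-1 : ℂ) ^ ((f.natDegree - 1) * (UniqueFactorizationMonoid.normalizedFactors (x : Matrix (Fin n) (Fin n) F).charpoly).count f) *
          (q : ℂ) ^ (f.natDegree * (UniqueFactorizationMonoid.normalizedFactors (x : Matrix (Fin n) (Fin n) F).charpoly).count f *
            ((UniqueFactorizationMonoid.normalizedFactors (x : Matrix (Fin n) (Fin n) F).charpoly).count f - 1) / 2) := by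
  have hq' : Nat.card F = q := by rw [Nat.card_eq_fintype_card, hq]
  have hss := isSemisimple_ph (Fact.out : p.Prime) x hx
  rcases n with _ | n
  · -- the degree zero case
    have h1 : (x : Matrix (Fin 0) (Fin 0) F).charpoly = 1 := by
      rw [Matrix.charpoly, Matrix.det_isEmpty]
    rw [h1, UniqueFactorizationMonoid.normalizedFactors_one]
    simp only [Multiset.toFinset_zero, Finset.prod_empty]
    rw [unipotentCharacterGL, Fintype.sum_unique, if_pos (fun i => i.elim0)]
    have h2 : ((Equiv.Perm.sign (default : Equiv.Perm (Fin 0)) : ℤ) : ℂ) = 1 := by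
      have : (default : Equiv.Perm (Fin 0)) = 1 := Subsingleton.elim _ _
      rw [this]
      simp
    rw [h2, one_mul, fixedPointCharacter]
    have : Subsingleton (GL (Fin 0) F) := inferInstance
    have h3 : Nat.card (MulAction.fixedBy (GL (Fin 0) F ⧸ parabolicGL 0 F fun i : Fin 0 =>
        1 + i.val - ((default : Equiv.Perm (Fin 0)) i).val) x) = 1 := by
      rw [Nat.card_eq_one_iff_unique]
      refine ⟨⟨fun a b => Subtype.ext (Subsingleton.elim _ _)⟩, ⟨⟨QuotientGroup.mk 1, ?_⟩⟩⟩
      exact Subsingleton.elim _ _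
    rw [h3, Nat.cast_one]
  · have hfin : Finite (Module.AEval' (ph x)) :=
      Finite.of_equiv (Fin (n + 1) → F) (Module.AEval'.of (ph x)).toEquiv
    have hsm : IsSemisimpleModule F[X] (Module.AEval' (ph x)) := hss
    have hfinL : Finite (LL x) := Finite.of_injective (fun W : LL x => (W : Set (Module.AEval' (ph x))))
      SetLike.coe_injective
    let _ : Fintype (LL x) := Fintype.ofFinite _
    have hmain := Cp.main_formula F hq' (Nat.card (Module.AEval' (ph x))) (Module.AEval' (ph x)) le_rfl
    have hfr : Module.finrank F (Module.AEval' (ph x)) = n + 1 := by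
      rw [← (Module.AEval'.of (ph x)).finrank_eq, Module.finrank_fin_fun]
    rw [hfr, cp_eq] at hmain
    rw [value_eq x, hmain, Cp.Psi]
    push_cast
    rfl

end Cfsg.Agent.S2425
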