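import Cfsg.Statements.S2426
import Mathlib
import Cfsg.Agent.Lib.PSL2.Basic
import Cfsg.Agent.Lib.PSL2.TraceZero

set_option autoImplicit false
open Cfsg

namespace Cfsg.Agent.S2426

section Aux

variable {K : Type*} [Field K] {G : Type*} [Group G]

/-- The relations, for the abstract maps `x y`. -/
structure Rel (x y : K → G) : Prop where
  x_add : ∀ t u, x t * x u = x (t + u)
  y_add : ∀ t u, y t * y u = y (t + u)
  wx : ∀ t u, t ≠ 0 → (x t * y (-t⁻¹) * x t) * x u * (x t * y (-t⁻¹) * x t)⁻¹ = y (-(t⁻¹ ^ 2 * u))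
  wy : ∀ t u, t ≠ 0 → (y t * x (-t⁻¹) * y t) * y u * (y t * x (-t⁻¹) * y t)⁻¹ = x (-(t⁻¹ ^ 2 * u))

/-- The Weyl elements. -/
def wE (x y : K → G) (t : K) : G := x t * y (-t⁻¹) * x t

/-- The torus elements. -/
def hE (x y : K → G) (t : K) : G := wE x y t * wE x y (-1)

namespace Rel

variable {x y : K → G} (R : Rel x y)
include R

lemma x_zero : x 0 = 1 := by
  have := R.x_add 0 0
  rw [add_zero] at this
  exact mul_eq_left.mp this

lemma y_zero : y 0 = 1 := by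
  have := R.y_add 0 0
  rw [add_zero] at this
  exact mul_eq_left.mp this

lemma x_neg (t : K) : x (-t) = (x t)⁻¹ := by
  have := R.x_add t (-t)
  rw [add_neg_cancel, R.x_zero] at this
  exact eq_inv_of_mul_eq_one_right this

lemma y_neg (t : K) : y (-t) = (y t)⁻¹ := by
  have := R.y_add t (-t)
  rw [add_neg_cancel, R.y_zero] at this
  exact eq_inv_of_mul_eq_one_right this

lemma w_neg (t : K) : wE x y (-t) = (wE x y t)⁻¹ := by
  unfold wE
  rw [R.x_neg, inv_neg, neg_neg, ← inv_inv (y t⁻¹), ← R.y_neg]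
  simp only [mul_inv_rev, mul_assoc]

lemma w_x (t u : K) (ht : t ≠ 0) : wE x y t * x u = y (-(t⁻¹ ^ 2 * u)) * wE x y t := by
  have := R.wx t u ht
  exact mul_inv_eq_iff_eq_mul.mp this

lemma braid (t : K) (ht : t ≠ 0) : wE x y t = y (-t⁻¹) * x t * y (-t⁻¹) := by
  have h := R.w_x t t ht
  have e : -(t⁻¹ ^ 2 * t) = -t⁻¹ := by field_simp
  rw [e] at h
  unfold wE at h ⊢
  have h2 : x t * y (-t⁻¹) * x t * x t = y (-t⁻¹) * x t * y (-t⁻¹) * x t := by
    rw [h]; simp only [mul_assoc]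
  exact mul_right_cancel h2

lemma w_y (t u : K) (ht : t ≠ 0) : wE x y t * y u = x (-(t ^ 2 * u)) * wE x y t := by
  have hs : -t⁻¹ ≠ 0 := neg_ne_zero.mpr (inv_ne_zero ht)
  have := R.wy (-t⁻¹) u hs
  have e1 : -(-t⁻¹)⁻¹ = t := by simp
  have e2 : ((-t⁻¹)⁻¹) ^ 2 = t ^ 2 := by simp
  rw [e1, e2, ← R.braid t ht] at this
  exact mul_inv_eq_iff_eq_mul.mp this

lemma y_eq (s : K) (hs : s ≠ 0) : y s = x s⁻¹ * wE x y (-s⁻¹) * x s⁻¹ := by
  unfold wE
  rw [inv_neg, neg_neg, inv_inv, R.x_neg]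
  simp only [mul_assoc, mul_inv_cancel_left, inv_mul_cancel, mul_one]

lemma h_x (t u : K) (ht : t ≠ 0) : hE x y t * x u = x (t ^ 2 * u) * hE x y t := by
  unfold hE
  rw [mul_assoc, R.w_x (-1) u (by simp), ← mul_assoc, R.w_y t _ ht]
  have : -(t ^ 2 * -((-1 : K)⁻¹ ^ 2 * u)) = t ^ 2 * u := by simp
  rw [this]; simp only [mul_assoc]

lemma h_y (t u : K) (ht : t ≠ 0) : hE x y t * y u = y ((t⁻¹) ^ 2 * u) * hE x y t := by
  unfold hE
  rw [mul_assoc, R.w_y (-1) u (by simp), ← mul_assoc, R.w_x t _ ht]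
  simp only [mul_assoc, even_two, Even.neg_pow, one_pow, one_mul, mul_neg, neg_neg]

lemma w_w (r t : K) (hr : r ≠ 0) (ht : t ≠ 0) :
    wE x y r * wE x y t = wE x y (r ^ 2 * t⁻¹) * wE x y r := by
  have h0 : r ^ 2 * t⁻¹ ≠ 0 := mul_ne_zero (pow_ne_zero _ hr) (inv_ne_zero ht)
  rw [R.braid (r ^ 2 * t⁻¹) h0]
  have e : -(r ^ 2 * t⁻¹)⁻¹ = -(r⁻¹ ^ 2 * t) := by field_simp
  rw [e]
  conv_lhs => rw [show wE x y t = x t * y (-t⁻¹) * x t from rfl]
  calc wE x y r * (x t * y (-t⁻¹) * x t)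
      = (wE x y r * x t) * y (-t⁻¹) * x t := by simp only [mul_assoc]
    _ = y (-(r⁻¹ ^ 2 * t)) * (wE x y r * y (-t⁻¹)) * x t := by
        rw [R.w_x r t hr]; simp only [mul_assoc]
    _ = y (-(r⁻¹ ^ 2 * t)) * x (-(r ^ 2 * -t⁻¹)) * (wE x y r * x t) := by
        rw [R.w_y r _ hr]; simp only [mul_assoc]
    _ = _ := by
        rw [R.w_x r t hr]
        have : -(r ^ 2 * -t⁻¹) = r ^ 2 * t⁻¹ := by ring
        rw [this]; simp only [mul_assoc]

lemma h_w (r t : K) (hr : r ≠ 0) (ht : t ≠ 0) :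
    hE x y r * wE x y t = wE x y (r ^ 2 * t) * hE x y r := by
  have h0 : r ^ 2 * t ≠ 0 := mul_ne_zero (pow_ne_zero _ hr) ht
  conv_rhs => rw [show wE x y (r ^ 2 * t) = x (r ^ 2 * t) * y (-(r ^ 2 * t)⁻¹) * x (r ^ 2 * t) from rfl]
  conv_lhs => rw [show wE x y t = x t * y (-t⁻¹) * x t from rfl]
  calc hE x y r * (x t * y (-t⁻¹) * x t)
      = (hE x y r * x t) * y (-t⁻¹) * x t := by simp only [mul_assoc]
    _ = x (r ^ 2 * t) * (hE x y r * y (-t⁻¹)) * x t := by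
        rw [R.h_x r t hr]; simp only [mul_assoc]
    _ = x (r ^ 2 * t) * y (r⁻¹ ^ 2 * -t⁻¹) * (hE x y r * x t) := by
        rw [R.h_y r _ hr]; simp only [mul_assoc]
    _ = _ := by
        rw [R.h_x r t hr]
        have : r⁻¹ ^ 2 * -t⁻¹ = -(r ^ 2 * t)⁻¹ := by field_simp
        rw [this]; simp only [mul_assoc]

lemma h_one : hE x y 1 = 1 := by
  unfold hE
  rw [R.w_neg]; simp

lemma h_mul_w_one (t : K) : hE x y t * wE x y 1 = wE x y t := by
  unfold hE
  rw [R.w_neg]; simp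

/-- The key identity coming from additivity of `y`. -/
lemma key (a b : K) (ha : a ≠ 0) (hb : b ≠ 0) (hab : a + b ≠ 0) :
    wE x y (a ^ 2 / (a + b)) * wE x y (-a) * wE x y (-b) = wE x y (-(a * b / (a + b))) := by
  have hna : -a ≠ 0 := neg_ne_zero.mpr ha
  have hnb : -b ≠ 0 := neg_ne_zero.mpr hb
  have ec0 : a⁻¹ + b⁻¹ = (a + b) / (a * b) := by field_simp; ring
  have hsum : a⁻¹ + b⁻¹ ≠ 0 := by
    rw [ec0]; exact div_ne_zero hab (mul_ne_zero ha hb)
  have e1 := R.y_add a⁻¹ b⁻¹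
  rw [R.y_eq a⁻¹ (inv_ne_zero ha), R.y_eq b⁻¹ (inv_ne_zero hb), R.y_eq _ hsum] at e1
  have ec : (a⁻¹ + b⁻¹)⁻¹ = a * b / (a + b) := by rw [ec0, inv_div]
  rw [ec, inv_inv, inv_inv] at e1
  set c := a * b / (a + b) with hc
  set f := -(a ^ 2 / (a + b)) with hf
  have hf0 : f ≠ 0 := by
    rw [hf]; exact neg_ne_zero.mpr (div_ne_zero (pow_ne_zero _ ha) hab)
  have hd : -((-a)⁻¹ ^ 2 * (a + b)) ≠ 0 := by
    apply neg_ne_zero.mpr
    exact mul_ne_zero (pow_ne_zero _ (inv_ne_zero hna)) hab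
  have ed : (-((-a)⁻¹ ^ 2 * (a + b)))⁻¹ = f := by
    rw [hf]; field_simp
  have h1 : wE x y (-a) * x (a + b) = x f * wE x y (-f) * x f * wE x y (-a) := by
    rw [R.w_x (-a) (a + b) hna, R.y_eq _ hd, ed]
  have h2 : x f * wE x y (-a) = wE x y (-a) * y (-((a⁻¹) ^ 2 * f)) := by
    rw [R.w_y (-a) _ hna]
    have : -((-a) ^ 2 * -(a⁻¹ ^ 2 * f)) = f := by field_simp
    rw [this]
  have h3 : y (-((a⁻¹) ^ 2 * f)) * wE x y (-b) = wE x y (-b) * x (b ^ 2 * ((a⁻¹) ^ 2 * f)) := by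
    rw [R.w_x (-b) _ hnb]
    have : -((-b)⁻¹ ^ 2 * (b ^ 2 * (a⁻¹ ^ 2 * f))) = -(a⁻¹ ^ 2 * f) := by field_simp
    rw [this]
  have h4 : a + f = c := by rw [hf, hc]; field_simp; ring
  have h5 : b ^ 2 * ((a⁻¹) ^ 2 * f) + b = c := by rw [hf, hc]; field_simp; ring
  have e2 : x c * wE x y (-c) * x c = x c * (wE x y (-f) * wE x y (-a) * wE x y (-b)) * x c := by
    rw [← e1]
    calc x a * wE x y (-a) * x a * (x b * wE x y (-b) * x b)
        = x a * (wE x y (-a) * (x a * x b)) * wE x y (-b) * x b := by simp only [mul_assoc]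
      _ = x a * (wE x y (-a) * x (a + b)) * wE x y (-b) * x b := by rw [R.x_add]
      _ = (x a * x f) * wE x y (-f) * (x f * wE x y (-a)) * wE x y (-b) * x b := by
          rw [h1]; simp only [mul_assoc]
      _ = x (a + f) * wE x y (-f) * wE x y (-a) * (y (-((a⁻¹) ^ 2 * f)) * wE x y (-b)) * x b := by
          rw [h2, R.x_add]; simp only [mul_assoc]
      _ = x c * wE x y (-f) * wE x y (-a) * wE x y (-b) * (x (b ^ 2 * ((a⁻¹) ^ 2 * f)) * x b) := by
          rw [h3, h4]; simp only [mul_assoc]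
      _ = _ := by rw [R.x_add, h5]; simp only [mul_assoc]
  have e3 : wE x y (-c) = wE x y (-f) * wE x y (-a) * wE x y (-b) :=
    mul_left_cancel (mul_right_cancel e2)
  rw [e3, hf, neg_neg]

/-- Elements commuting with the generators. -/
def IsC (x y : K → G) (g : G) : Prop := (∀ v, Commute g (x v)) ∧ ∀ v, Commute g (y v)

omit R in
lemma isC_one : IsC x y (1 : G) := ⟨fun _ => Commute.one_left _, fun _ => Commute.one_left _⟩

omit R in
lemma IsC.mul {g g' : G} (h : IsC x y g) (h' : IsC x y g') : IsC x y (g * g') :=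
  ⟨fun v => (h.1 v).mul_left (h'.1 v), fun v => (h.2 v).mul_left (h'.2 v)⟩

omit R in
lemma IsC.inv {g : G} (h : IsC x y g) : IsC x y g⁻¹ :=
  ⟨fun v => (h.1 v).inv_left, fun v => (h.2 v).inv_left⟩

omit R in
lemma IsC.comm_w {g : G} (h : IsC x y g) (t : K) : Commute g (wE x y t) := by
  unfold wE
  exact ((h.1 t).mul_right (h.2 _)).mul_right (h.1 t)

omit R in
lemma IsC.comm_h {g : G} (h : IsC x y g) (t : K) : Commute g (hE x y t) :=
  (h.comm_w t).mul_right (h.comm_w (-1))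

lemma isC_c (t u : K) (ht : t ≠ 0) (hu : u ≠ 0) :
    IsC x y (hE x y t * hE x y u * (hE x y (t * u))⁻¹) := by
  have htu : t * u ≠ 0 := mul_ne_zero ht hu
  constructor
  · intro v
    have h1 : (hE x y (t * u))⁻¹ * x v = x (((t * u)⁻¹) ^ 2 * v) * (hE x y (t * u))⁻¹ := by
      rw [inv_mul_eq_iff_eq_mul, ← mul_assoc, R.h_x _ _ htu]
      have : (t * u) ^ 2 * ((t * u)⁻¹ ^ 2 * v) = v := by field_simp
      rw [this]; simp
    have h2 : hE x y t * hE x y u * x (((t * u)⁻¹) ^ 2 * v) = x v * (hE x y t * hE x y u) := by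
      rw [mul_assoc, R.h_x u _ hu, ← mul_assoc, R.h_x t _ ht]
      have : t ^ 2 * (u ^ 2 * ((t * u)⁻¹ ^ 2 * v)) = v := by field_simp
      rw [this]; simp only [mul_assoc]
    show _ * _ = _ * _
    rw [mul_assoc, h1, ← mul_assoc, h2]; simp only [mul_assoc]
  · intro v
    have h1 : (hE x y (t * u))⁻¹ * y v = y (((t * u)) ^ 2 * v) * (hE x y (t * u))⁻¹ := by
      rw [inv_mul_eq_iff_eq_mul, ← mul_assoc, R.h_y _ _ htu]
      have : (t * u)⁻¹ ^ 2 * ((t * u) ^ 2 * v) = v := by field_simp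
      rw [this]; simp
    have h2 : hE x y t * hE x y u * y (((t * u)) ^ 2 * v) = y v * (hE x y t * hE x y u) := by
      rw [mul_assoc, R.h_y u _ hu, ← mul_assoc, R.h_y t _ ht]
      have : t⁻¹ ^ 2 * (u⁻¹ ^ 2 * ((t * u) ^ 2 * v)) = v := by field_simp
      rw [this]; simp only [mul_assoc]
    show _ * _ = _ * _
    rw [mul_assoc, h1, ← mul_assoc, h2]; simp only [mul_assoc]

lemma h_comm [Finite K] (a b : K) (ha : a ≠ 0) (hb : b ≠ 0) :
    Commute (hE x y a) (hE x y b) := by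
  obtain ⟨γ, hγ⟩ := IsCyclic.exists_generator (α := Kˣ)
  have hγ0 : (γ : K) ≠ 0 := γ.ne_zero
  have key : ∀ n : ℕ, ∃ c, IsC x y c ∧ hE x y ((γ : K) ^ n) = hE x y γ ^ n * c := by
    intro n
    induction n with
    | zero => exact ⟨1, isC_one, by simp [R.h_one]⟩
    | succ n ih =>
      obtain ⟨c, hc, e⟩ := ih
      have hC := R.isC_c ((γ : K) ^ n) γ (pow_ne_zero _ hγ0) hγ0
      set C := hE x y ((γ : K) ^ n) * hE x y γ * (hE x y ((γ : K) ^ n * γ))⁻¹ with hCdef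
      refine ⟨C⁻¹ * c, hC.inv.mul hc, ?_⟩
      have e1 : hE x y ((γ : K) ^ n * γ) = C⁻¹ * (hE x y ((γ : K) ^ n) * hE x y γ) := by
        rw [hCdef]; group
      have hc' : c * hE x y γ = hE x y γ * c := (hc.comm_h _).eq
      have hC1 : C⁻¹ * hE x y γ ^ n = hE x y γ ^ n * C⁻¹ := ((hC.inv.comm_h _).pow_right n).eq
      have hC2 : C⁻¹ * hE x y γ = hE x y γ * C⁻¹ := (hC.inv.comm_h _).eq
      rw [pow_succ, e1, e, pow_succ]
      calc C⁻¹ * (hE x y γ ^ n * c * hE x y γ)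
          = (C⁻¹ * hE x y γ ^ n) * (c * hE x y γ) := by simp only [mul_assoc]
        _ = hE x y γ ^ n * (C⁻¹ * hE x y γ) * c := by rw [hC1, hc']; simp only [mul_assoc]
        _ = _ := by rw [hC2]; simp only [mul_assoc]
  have mem : ∀ t : K, t ≠ 0 → ∃ n : ℕ, (γ : K) ^ n = t := by
    intro t ht
    have h1 : Units.mk0 t ht ∈ Subgroup.zpowers γ := hγ _
    rw [← mem_powers_iff_mem_zpowers, Submonoid.mem_powers_iff] at h1
    obtain ⟨n, hn⟩ := h1
    refine ⟨n, ?_⟩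
    have := congrArg Units.val hn
    simpa using this
  obtain ⟨n, rfl⟩ := mem a ha
  obtain ⟨m, rfl⟩ := mem b hb
  obtain ⟨c, hc, e⟩ := key n
  obtain ⟨c', hc', e'⟩ := key m
  have h1 : Commute (hE x y ((γ : K) ^ n)) (hE x y γ) := by
    rw [e]
    exact ((Commute.refl _).pow_left n).mul_left (hc.comm_h _)
  rw [e']
  exact (h1.pow_right m).mul_right (hc'.comm_h _).symm

lemma h_mul_sq [Finite K] (a r : K) (ha : a ≠ 0) (hr : r ≠ 0) :
    hE x y a * hE x y (r ^ 2) = hE x y (a * r ^ 2) := by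
  have hr2 : r ^ 2 ≠ 0 := pow_ne_zero _ hr
  have h1 : hE x y r * hE x y a = wE x y (r ^ 2 * a) * (wE x y (r ^ 2 * (-1)) * hE x y r) := by
    rw [show hE x y a = wE x y a * wE x y (-1) from rfl, ← mul_assoc, R.h_w r a hr ha, mul_assoc,
      R.h_w r (-1) hr (by simp)]
  rw [(R.h_comm r a hr ha).eq, ← mul_assoc] at h1
  have h2 := mul_right_cancel h1
  rw [mul_neg_one, R.w_neg] at h2
  have h3 : hE x y a * wE x y (r ^ 2) = wE x y (r ^ 2 * a) := by
    rw [h2]; simp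
  show hE x y a * (wE x y (r ^ 2) * wE x y (-1)) = wE x y (a * r ^ 2) * wE x y (-1)
  rw [← mul_assoc, h3, mul_comm a]

lemma h_special (v : K) (h0 : v ≠ 0) (h1 : v ≠ 1) :
    hE x y (v / (v - 1)) * hE x y v = hE x y (v ^ 2 / (v - 1)) := by
  have hv : v - 1 ≠ 0 := sub_ne_zero.mpr h1
  have hk := R.key v (-1) h0 (by simp) (by rw [← sub_eq_add_neg]; exact hv)
  rw [← sub_eq_add_neg, neg_neg] at hk
  have e : -(v * -1 / (v - 1)) = v / (v - 1) := by ring
  rw [e] at hk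
  have e1 : wE x y (v / (v - 1)) * wE x y (-1) = wE x y (v ^ 2 / (v - 1)) * wE x y (-v) := by
    rw [← hk, R.w_neg 1]; simp
  show wE x y (v / (v - 1)) * wE x y (-1) * (wE x y v * wE x y (-1)) =
    wE x y (v ^ 2 / (v - 1)) * wE x y (-1)
  rw [e1, R.w_neg v]; simp

lemma h_mul [Finite K] (a b : K) (ha : a ≠ 0) (hb : b ≠ 0) :
    hE x y a * hE x y b = hE x y (a * b) := by
  classical
  cases nonempty_fintype K
  by_cases hbs : IsSquare b
  · obtain ⟨r, rfl⟩ := hbs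
    have hr : r ≠ 0 := by rintro rfl; simp at hb
    have := R.h_mul_sq a r ha hr
    rwa [pow_two] at this
  by_cases has : IsSquare a
  · obtain ⟨r, rfl⟩ := has
    have hr : r ≠ 0 := by rintro rfl; simp at ha
    have := R.h_mul_sq b r hb hr
    rw [pow_two, mul_comm b] at this
    rw [(R.h_comm _ _ ha hb).eq, this]
  have h2 : (2 : K) ≠ 0 := by
    intro h
    have hch : ringChar K = 2 :=
      CharP.ringChar_of_prime_eq_zero Nat.prime_two (by exact_mod_cast h)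
    exact has (FiniteField.isSquare_of_char_two hch a)
  obtain ⟨s, r, hsr⟩ := Cfsg.Agent.Lib.PSL2.TraceZero.exists_sq_add_sq h2 a
  have hr : r ≠ 0 := by
    rintro rfl
    apply has
    rw [← hsr]
    exact ⟨s, by ring⟩
  have hs : s ≠ 0 := by
    rintro rfl
    apply has
    rw [← hsr]
    exact ⟨r, by ring⟩
  obtain ⟨ψ, hψ⟩ : IsSquare (a * b) := by
    have h3 := (quadraticChar_neg_one_iff_not_isSquare (F := K)).mpr has
    have h4 := (quadraticChar_neg_one_iff_not_isSquare (F := K)).mpr hbs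
    rw [← quadraticChar_one_iff_isSquare (mul_ne_zero ha hb), map_mul, h3, h4]
    norm_num
  have hψ0 : ψ ≠ 0 := by
    rintro rfl
    simp at hψ
    tauto
  set v := a / r ^ 2 with hv
  set τ := (s / r) ^ 2 with hτ
  have hτ0 : τ ≠ 0 := pow_ne_zero _ (div_ne_zero hs hr)
  have hvτ : v - 1 = τ := by
    rw [hv, hτ, ← hsr]; field_simp; ring
  have hv0 : v ≠ 0 := div_ne_zero ha (pow_ne_zero _ hr)
  have hv1 : v ≠ 1 := by
    intro h
    rw [h, sub_self] at hvτ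
    exact hτ0 hvτ.symm
  have hsp := R.h_special v hv0 hv1
  rw [hvτ] at hsp
  set ρ := ψ * s / a with hρ
  have hρ0 : ρ ≠ 0 := div_ne_zero (mul_ne_zero hψ0 hs) ha
  have eb : b = v / τ * ρ ^ 2 := by
    rw [hv, hτ, hρ]
    have : b = ψ * ψ / a := by rw [← hψ]; field_simp
    rw [this]; field_simp
  have ea : a = v * r ^ 2 := by rw [hv]; field_simp
  have hq0 : v / τ ≠ 0 := div_ne_zero hv0 hτ0
  have hp0 : v ^ 2 / τ ≠ 0 := div_ne_zero (pow_ne_zero _ hv0) hτ0
  have e1 : hE x y a = hE x y v * hE x y (r ^ 2) := by rw [R.h_mul_sq v r hv0 hr, ← ea]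
  have e2 : hE x y b = hE x y (v / τ) * hE x y (ρ ^ 2) := by rw [R.h_mul_sq _ ρ hq0 hρ0, ← eb]
  have e3 : a * b = v ^ 2 / τ * r ^ 2 * ρ ^ 2 := by
    rw [ea, eb]; field_simp
  rw [e1, e2, e3, ← R.h_mul_sq _ ρ (mul_ne_zero hp0 (pow_ne_zero _ hr)) hρ0,
    ← R.h_mul_sq _ r hp0 hr, ← hsp]
  have c1 : hE x y (r ^ 2) * hE x y (v / τ) = hE x y (v / τ) * hE x y (r ^ 2) :=
    (R.h_comm _ _ (pow_ne_zero _ hr) hq0).eq
  have c2 : hE x y v * hE x y (v / τ) = hE x y (v / τ) * hE x y v :=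
    (R.h_comm _ _ hv0 hq0).eq
  calc hE x y v * hE x y (r ^ 2) * (hE x y (v / τ) * hE x y (ρ ^ 2))
      = hE x y v * (hE x y (r ^ 2) * hE x y (v / τ)) * hE x y (ρ ^ 2) := by simp only [mul_assoc]
    _ = (hE x y v * hE x y (v / τ)) * hE x y (r ^ 2) * hE x y (ρ ^ 2) := by
        rw [c1]; simp only [mul_assoc]
    _ = _ := by rw [c2]

lemma w_one_mul_h [Finite K] (u : K) (hu : u ≠ 0) : wE x y 1 * hE x y u = wE x y u⁻¹ := by
  show wE x y 1 * (wE x y u * wE x y (-1)) = _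
  rw [← mul_assoc, R.w_w 1 u one_ne_zero hu, mul_assoc, R.w_neg 1]
  simp

lemma h_mul_w' [Finite K] (t u : K) (ht : t ≠ 0) (hu : u ≠ 0) :
    hE x y t * wE x y u = wE x y (t * u) := by
  conv_lhs => rw [← R.h_mul_w_one u, ← mul_assoc, R.h_mul t u ht hu, R.h_mul_w_one]

lemma w_mul_h [Finite K] (t u : K) (ht : t ≠ 0) (hu : u ≠ 0) :
    wE x y t * hE x y u = wE x y (t / u) := by
  conv_lhs => rw [← R.h_mul_w_one t, mul_assoc, R.w_one_mul_h u hu,
    R.h_mul_w' t u⁻¹ ht (inv_ne_zero hu)]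
  rw [div_eq_mul_inv]

lemma h_neg_one_sq [Finite K] : hE x y (-1) * hE x y (-1) = 1 := by
  rw [R.h_mul _ _ (by simp) (by simp)]
  simp [R.h_one]

lemma w_one_sq [Finite K] : wE x y 1 * wE x y 1 = hE x y (-1) := by
  have h := R.h_neg_one_sq
  have h2 : hE x y (-1) = (wE x y 1 * wE x y 1)⁻¹ := by
    show wE x y (-1) * wE x y (-1) = _
    rw [R.w_neg 1]; group
  calc wE x y 1 * wE x y 1 = (hE x y (-1))⁻¹ := by rw [h2, inv_inv]
    _ = hE x y (-1) := (eq_inv_of_mul_eq_one_left h).symm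

lemma w_mul_w [Finite K] (t u : K) (ht : t ≠ 0) (hu : u ≠ 0) :
    wE x y t * wE x y u = hE x y (-(t / u)) := by
  conv_lhs => rw [← R.h_mul_w_one u, ← mul_assoc, R.w_mul_h t u ht hu, ← R.h_mul_w_one (t / u),
    mul_assoc, R.w_one_sq, R.h_mul _ _ (div_ne_zero ht hu) (by simp)]
  simp


/-- First Bruhat cell. -/
def T1 (x y : K → G) (g : G) : Prop := ∃ a u, u ≠ 0 ∧ g = x a * hE x y u

/-- Second Bruhat cell. -/
def T2 (x y : K → G) (g : G) : Prop := ∃ a u b, u ≠ 0 ∧ g = x a * wE x y u * x b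

lemma T1_x_mul {g : G} (h : T1 x y g) (v : K) : T1 x y (x v * g) := by
  obtain ⟨a, u, hu, rfl⟩ := h
  exact ⟨v + a, u, hu, by rw [← R.x_add]; simp only [mul_assoc]⟩

lemma T2_x_mul {g : G} (h : T2 x y g) (v : K) : T2 x y (x v * g) := by
  obtain ⟨a, u, b, hu, rfl⟩ := h
  exact ⟨v + a, u, b, hu, by rw [← R.x_add]; simp only [mul_assoc]⟩

lemma T2_mul_x {g : G} (h : T2 x y g) (v : K) : T2 x y (g * x v) := by
  obtain ⟨a, u, b, hu, rfl⟩ := h
  exact ⟨a, u, b + v, hu, by rw [← R.x_add]; simp only [mul_assoc]⟩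

lemma x_mul_h (b u : K) (hu : u ≠ 0) : x b * hE x y u = hE x y u * x ((u⁻¹) ^ 2 * b) := by
  rw [R.h_x u _ hu]
  have : u ^ 2 * (u⁻¹ ^ 2 * b) = b := by field_simp
  rw [this]

lemma T2_mul_h [Finite K] {g : G} (h : T2 x y g) (u : K) (hu : u ≠ 0) : T2 x y (g * hE x y u) := by
  obtain ⟨a, t, b, ht, rfl⟩ := h
  refine ⟨a, t / u, (u⁻¹) ^ 2 * b, div_ne_zero ht hu, ?_⟩
  rw [← R.w_mul_h t u ht hu, mul_assoc, R.x_mul_h b u hu]
  simp only [mul_assoc]

lemma y_T2 (s : K) (hs : s ≠ 0) : T2 x y (y s) := ⟨s⁻¹, -s⁻¹, s⁻¹, neg_ne_zero.mpr (inv_ne_zero hs), R.y_eq s hs⟩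

lemma w_x_T2 [Finite K] (t a : K) (ht : t ≠ 0) : T2 x y (wE x y t * x a) := by
  by_cases ha : a = 0
  · subst ha
    exact ⟨0, t, 0, ht, by simp [R.x_zero]⟩
  set s := -(t⁻¹ ^ 2 * a) with hs
  have hs0 : s ≠ 0 := neg_ne_zero.mpr (mul_ne_zero (pow_ne_zero _ (inv_ne_zero ht)) ha)
  set f := s⁻¹ with hf
  have hf0 : f ≠ 0 := inv_ne_zero hs0
  set u := -(t⁻¹ ^ 2 * f) with hu
  have hu0 : u ≠ 0 := neg_ne_zero.mpr (mul_ne_zero (pow_ne_zero _ (inv_ne_zero ht)) hf0)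
  have e1 : x f * wE x y t = wE x y t * y u := by
    rw [R.w_y t u ht]
    have : -(t ^ 2 * u) = f := by rw [hu]; field_simp
    rw [this]
  set g := -(-f / t) with hg
  have hg0 : g ≠ 0 := neg_ne_zero.mpr (div_ne_zero (neg_ne_zero.mpr hf0) ht)
  have e2 : wE x y t * x a = x f * (hE x y g * y u) := by
    rw [R.w_x t a ht, ← hs, R.y_eq s hs0, ← hf, ← R.w_mul_w (-f) t (neg_ne_zero.mpr hf0) ht]
    simp only [mul_assoc]
    rw [e1]
  rw [e2, R.h_y g u hg0, ← mul_assoc]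
  apply R.T2_mul_h _ g hg0
  apply R.T2_x_mul
  exact R.y_T2 _ (mul_ne_zero (pow_ne_zero _ (inv_ne_zero hg0)) hu0)

lemma S_w [Finite K] {g : G} (h : T1 x y g ∨ T2 x y g) (t : K) (ht : t ≠ 0) :
    T1 x y (wE x y t * g) ∨ T2 x y (wE x y t * g) := by
  rcases h with ⟨a, u, hu, rfl⟩ | ⟨a, u, b, hu, rfl⟩
  · right
    rw [← mul_assoc]
    exact R.T2_mul_h (R.w_x_T2 t a ht) u hu
  · by_cases ha : a = 0
    · subst ha
      left
      refine ⟨(-(t / u)) ^ 2 * b, -(t / u), neg_ne_zero.mpr (div_ne_zero ht hu), ?_⟩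
      rw [← R.h_x _ _ (neg_ne_zero.mpr (div_ne_zero ht hu)), ← R.w_mul_w t u ht hu, R.x_zero, one_mul]
      simp only [mul_assoc]
    · right
      have e : wE x y t * (x a * wE x y u * x b) = y (-(t⁻¹ ^ 2 * a)) * hE x y (-(t / u)) * x b := by
        calc wE x y t * (x a * wE x y u * x b) = (wE x y t * x a) * wE x y u * x b := by
              simp only [mul_assoc]
          _ = y (-(t⁻¹ ^ 2 * a)) * (wE x y t * wE x y u) * x b := by
              rw [R.w_x t a ht]; simp only [mul_assoc]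
          _ = _ := by rw [R.w_mul_w t u ht hu]
      rw [e]
      apply R.T2_mul_x
      apply R.T2_mul_h _ _ (neg_ne_zero.mpr (div_ne_zero ht hu))
      exact R.y_T2 _ (neg_ne_zero.mpr (mul_ne_zero (pow_ne_zero _ (inv_ne_zero ht)) ha))

lemma S_x {g : G} (h : T1 x y g ∨ T2 x y g) (v : K) : T1 x y (x v * g) ∨ T2 x y (x v * g) :=
  h.imp (fun h => R.T1_x_mul h v) (fun h => R.T2_x_mul h v)

lemma S_y [Finite K] {g : G} (h : T1 x y g ∨ T2 x y g) (s : K) :
    T1 x y (y s * g) ∨ T2 x y (y s * g) := by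
  by_cases hs : s = 0
  · subst hs
    rwa [R.y_zero, one_mul]
  · rw [R.y_eq s hs, mul_assoc, mul_assoc]
    apply R.S_x
    apply R.S_w _ _ (neg_ne_zero.mpr (inv_ne_zero hs))
    exact R.S_x h _



lemma S_all [Finite K] (hgen : Subgroup.closure (Set.range x ∪ Set.range y) = ⊤) (g : G) :
    T1 x y g ∨ T2 x y g := by
  have hg : g ∈ Subgroup.closure (Set.range x ∪ Set.range y) := by rw [hgen]; trivial
  induction hg using Subgroup.closure_induction_left with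
  | one => exact Or.inl ⟨0, 1, one_ne_zero, by simp [R.x_zero, R.h_one]⟩
  | mul_left g hg g' _ ih =>
    rcases hg with ⟨v, rfl⟩ | ⟨v, rfl⟩
    · exact R.S_x ih v
    · exact R.S_y ih v
  | inv_mul_cancel g hg g' _ ih =>
    rcases hg with ⟨v, rfl⟩ | ⟨v, rfl⟩
    · rw [← R.x_neg]; exact R.S_x ih _
    · rw [← R.y_neg]; exact R.S_y ih _

/-- The normal form map. -/
def nf (x y : K → G) : (K × Kˣ) ⊕ (K × Kˣ × K) → G
  | Sum.inl p => x p.1 * hE x y p.2
  | Sum.inr p => x p.1 * wE x y p.2.1 * x p.2.2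

lemma nf_surjective [Finite K] (hgen : Subgroup.closure (Set.range x ∪ Set.range y) = ⊤) :
    Function.Surjective (nf x y) := by
  intro g
  rcases R.S_all hgen g with ⟨a, u, hu, rfl⟩ | ⟨a, u, b, hu, rfl⟩
  · exact ⟨Sum.inl (a, Units.mk0 u hu), rfl⟩
  · exact ⟨Sum.inr (a, Units.mk0 u hu, b), rfl⟩

end Rel


open Cfsg.Agent.Lib.PSL2.Basic in
/-- The generators in `SL₂`. -/
def genF (K : Type*) [Field K] (p : Bool × K) : Matrix.SpecialLinearGroup (Fin 2) K :=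
  cond p.1 (x p.2) (y p.2)

open Cfsg.Agent.Lib.PSL2.Basic in
lemma rel_x {K : Type*} [Field K] (t u : K) (ht : t ≠ 0) :
    (x t * y (-t⁻¹) * x t) * x u * (x t * y (-t⁻¹) * x t)⁻¹ * (y (-(t⁻¹ ^ 2 * u)))⁻¹ = 1 := by
  apply ext2 <;> simp <;> field_simp <;> ring

open Cfsg.Agent.Lib.PSL2.Basic in
lemma rel_y {K : Type*} [Field K] (t u : K) (ht : t ≠ 0) :
    (y t * x (-t⁻¹) * y t) * y u * (y t * x (-t⁻¹) * y t)⁻¹ * (x (-(t⁻¹ ^ 2 * u)))⁻¹ = 1 := by
  apply ext2 <;> simp <;> field_simp <;> ring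

end Aux

/-- The rank-one Steinberg presentation of `SL₂` over a finite field `K`: generators `x(t)`, `y(t)` (`t ∈ K`; the two opposite root subgroups) subject to additivity `x(t)x(u) = x(t+u)`, `y(t)y(u) = y(t+u)` and, with `w(t) = x(t) y(−t⁻¹) x(t)` and `w'(t) = y(t) x(−t⁻¹) y(t)` for `t ≠ 0`, the relations `w(t) x(u) w(t)⁻¹ = y(−t⁻² u)` and `w'(t) y(u) w'(t)⁻¹ = x(−t⁻² u)`, present `SL₂(K)`, with `x(t) ↦ (1 t; 0 1)` and `y(t) ↦ (1 0; t 1)`. -/
theorem result {K : Type*} [Field K] [Finite K] :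
    ∃ e : PresentedGroup
        ({g : FreeGroup (Bool × K) | ∃ (b : Bool) (t u : K), g = FreeGroup.of (b, t) * FreeGroup.of (b, u) * (FreeGroup.of (b, t + u))⁻¹} ∪
          {g | ∃ (b : Bool) (t u : K), t ≠ 0 ∧
            g = (FreeGroup.of (b, t) * FreeGroup.of (!b, -t⁻¹) * FreeGroup.of (b, t)) * FreeGroup.of (b, u) *
                  (FreeGroup.of (b, t) * FreeGroup.of (!b, -t⁻¹) * FreeGroup.of (b, t))⁻¹ * (FreeGroup.of (!b, -(t⁻¹ ^ 2 * u)))⁻¹})
        ≃* Matrix.SpecialLinearGroup (Fin 2) K,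
      (∀ t : K, ((e (PresentedGroup.of (true, t)) : Matrix (Fin 2) (Fin 2) K)) = !![1, t; 0, 1]) ∧
      (∀ t : K, ((e (PresentedGroup.of (false, t)) : Matrix (Fin 2) (Fin 2) K)) = !![1, 0; t, 1]) := by
  classical
  cases nonempty_fintype K
  set rels : Set (FreeGroup (Bool × K)) := ({g : FreeGroup (Bool × K) | ∃ (b : Bool) (t u : K), g = FreeGroup.of (b, t) * FreeGroup.of (b, u) * (FreeGroup.of (b, t + u))⁻¹} ∪
          {g | ∃ (b : Bool) (t u : K), t ≠ 0 ∧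
            g = (FreeGroup.of (b, t) * FreeGroup.of (!b, -t⁻¹) * FreeGroup.of (b, t)) * FreeGroup.of (b, u) *
                  (FreeGroup.of (b, t) * FreeGroup.of (!b, -t⁻¹) * FreeGroup.of (b, t))⁻¹ * (FreeGroup.of (!b, -(t⁻¹ ^ 2 * u)))⁻¹}) with hrels
  have hπ : ∀ r ∈ rels, FreeGroup.lift (genF K) r = 1 := by
    rintro r (⟨b, t, u, rfl⟩ | ⟨b, t, u, ht, rfl⟩)
    · cases b
      · simp [genF, Lib.PSL2.Basic.y_add]
      · simp [genF, Lib.PSL2.Basic.x_add]
    · cases b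
      · simpa [genF, mul_assoc] using rel_y t u ht
      · simpa [genF, mul_assoc] using rel_x t u ht
  let π := PresentedGroup.toGroup hπ
  have hπx : ∀ t : K, π (PresentedGroup.of (true, t)) = Lib.PSL2.Basic.x t := fun t => by
    simp [π, genF]
  have hπy : ∀ t : K, π (PresentedGroup.of (false, t)) = Lib.PSL2.Basic.y t := fun t => by
    simp [π, genF]
  have hsurj : Function.Surjective π := by
    have hc : ∀ M : Matrix.SpecialLinearGroup (Fin 2) K, M.1 1 0 ≠ 0 → M ∈ π.range := by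
      intro M hc
      refine ⟨PresentedGroup.of (true, (M.1 0 0 - 1) / M.1 1 0) * PresentedGroup.of (false, M.1 1 0) *
        PresentedGroup.of (true, (M.1 1 1 - 1) / M.1 1 0), ?_⟩
      have hd := Lib.PSL2.Basic.det_entries M
      rw [map_mul, map_mul, hπx, hπx, hπy]
      apply Lib.PSL2.Basic.ext2 <;> simp <;> field_simp <;> (try ring) <;> linear_combination hd
    intro M
    by_cases h : M.1 1 0 = 0
    · have hd := Lib.PSL2.Basic.det_entries M
      rw [h, mul_zero, sub_zero] at hd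
      have hM : M * Lib.PSL2.Basic.y 1 ∈ π.range := by
        apply hc
        simp [h]
        rintro h0
        rw [h0, mul_zero] at hd
        exact zero_ne_one hd
      have hy : Lib.PSL2.Basic.y (1 : K) ∈ π.range := ⟨_, hπy 1⟩
      have := mul_mem hM (inv_mem hy)
      rw [mul_inv_cancel_right] at this
      exact this
    · exact hc M h
  set x' : K → PresentedGroup rels := fun t => PresentedGroup.of (true, t) with hx'
  set y' : K → PresentedGroup rels := fun t => PresentedGroup.of (false, t) with hy'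
  have R : Rel x' y' := by
    refine ⟨?_, ?_, ?_, ?_⟩
    · intro t u
      have : (FreeGroup.of (true, t) * FreeGroup.of (true, u) * (FreeGroup.of (true, t + u))⁻¹ : FreeGroup (Bool × K)) ∈ rels :=
        Or.inl ⟨true, t, u, rfl⟩
      have h := PresentedGroup.one_of_mem this
      rw [map_mul, map_mul, map_inv, mul_inv_eq_one] at h
      exact h
    · intro t u
      have : (FreeGroup.of (false, t) * FreeGroup.of (false, u) * (FreeGroup.of (false, t + u))⁻¹ : FreeGroup (Bool × K)) ∈ rels :=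
        Or.inl ⟨false, t, u, rfl⟩
      have h := PresentedGroup.one_of_mem this
      rw [map_mul, map_mul, map_inv, mul_inv_eq_one] at h
      exact h
    · intro t u ht
      have : _ ∈ rels := Or.inr ⟨true, t, u, ht, rfl⟩
      have h := PresentedGroup.one_of_mem this
      simp only [map_mul, map_inv, mul_inv_eq_one] at h
      exact h
    · intro t u ht
      have : _ ∈ rels := Or.inr ⟨false, t, u, ht, rfl⟩
      have h := PresentedGroup.one_of_mem this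
      simp only [map_mul, map_inv, mul_inv_eq_one] at h
      exact h
  have hgen : Subgroup.closure (Set.range x' ∪ Set.range y') = ⊤ := by
    rw [eq_top_iff, ← PresentedGroup.closure_range_of rels, Subgroup.closure_le]
    rintro _ ⟨⟨b, t⟩, rfl⟩
    apply Subgroup.subset_closure
    cases b
    · exact Or.inr ⟨t, rfl⟩
    · exact Or.inl ⟨t, rfl⟩
  have hnf := R.nf_surjective hgen
  have : Finite (PresentedGroup rels) := Finite.of_surjective _ hnf
  have hcard : Nat.card (PresentedGroup rels) ≤ Nat.card (Matrix.SpecialLinearGroup (Fin 2) K) := by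
    rw [Lib.PSL2.Basic.card_SL2]
    refine (Nat.card_le_card_of_surjective _ hnf).trans (le_of_eq ?_)
    rw [Nat.card_eq_fintype_card, Fintype.card_sum, Fintype.card_prod, Fintype.card_prod,
      Fintype.card_prod, Fintype.card_units]
    have hq : 1 ≤ Fintype.card K := Fintype.card_pos
    obtain ⟨n, hn⟩ : ∃ n, Fintype.card K = n + 1 := ⟨Fintype.card K - 1, by omega⟩
    rw [hn, Nat.add_sub_cancel]
    have : (n + 1) ^ 2 - 1 = n * (n + 2) := by
      have : (n + 1) ^ 2 = n * (n + 2) + 1 := by ring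
      omega
    rw [this]
    ring
  have hbij := hsurj.bijective_of_nat_card_le hcard
  refine ⟨MulEquiv.ofBijective π hbij, ?_, ?_⟩
  · intro t
    show ((π (PresentedGroup.of (true, t))) : Matrix (Fin 2) (Fin 2) K) = _
    rw [hπx]; rfl
  · intro t
    show ((π (PresentedGroup.of (false, t))) : Matrix (Fin 2) (Fin 2) K) = _
    rw [hπy]; rfl

end Cfsg.Agent.S2426
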