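import Cfsg.Statements.S2428
import Cfsg.Agent.Lib.PSL2.TorusCore

set_option autoImplicit false
open Cfsg

namespace Cfsg.Agent.S2428

open Cfsg.Agent.Lib.PSL2.Basic Cfsg.Agent.Lib.PSL2.TorusCore

/-- Let F be a finite field with q elements, q odd, and let d be a diagonal element of SL₂ over F whose diagonal entry a has a² ≠ 1 (such d exist exactly when q > 3). Then the centraliser of d is precisely the diagonal subgroup T; the normaliser of T has order 2(q − 1) and exactly (q + 5)/2 conjugacy classes; and every element of that normaliser outside T has square equal to −1. -/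
theorem result {F : Type*} [Field F] [Fintype F] (hodd : Odd (Fintype.card F))
    (d : Matrix.SpecialLinearGroup (Fin 2) F) (hd01 : (d : Matrix (Fin 2) (Fin 2) F) 0 1 = 0) (hd10 : (d : Matrix (Fin 2) (Fin 2) F) 1 0 = 0) (hda : (d : Matrix (Fin 2) (Fin 2) F) 0 0 ^ 2 ≠ 1) :
    (∀ g : Matrix.SpecialLinearGroup (Fin 2) F, g ∈ Subgroup.centralizer ({d} : Set (Matrix.SpecialLinearGroup (Fin 2) F)) ↔ ((g : Matrix (Fin 2) (Fin 2) F) 0 1 = 0 ∧ (g : Matrix (Fin 2) (Fin 2) F) 1 0 = 0)) ∧
    Nat.card (Subgroup.normalizer ((Subgroup.centralizer ({d} : Set (Matrix.SpecialLinearGroup (Fin 2) F))) : Set (Matrix.SpecialLinearGroup (Fin 2) F))) = 2 * (Fintype.card F - 1) ∧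
    Nat.card (ConjClasses (Subgroup.normalizer ((Subgroup.centralizer ({d} : Set (Matrix.SpecialLinearGroup (Fin 2) F))) : Set (Matrix.SpecialLinearGroup (Fin 2) F)))) = (Fintype.card F + 5) / 2 ∧
    ∀ g : Matrix.SpecialLinearGroup (Fin 2) F, g ∈ Subgroup.normalizer ((Subgroup.centralizer ({d} : Set (Matrix.SpecialLinearGroup (Fin 2) F))) : Set (Matrix.SpecialLinearGroup (Fin 2) F)) →
      g ∉ Subgroup.centralizer ({d} : Set (Matrix.SpecialLinearGroup (Fin 2) F)) → ((g * g) : Matrix (Fin 2) (Fin 2) F) = -1 := by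
  have h2 := two_ne_zero_of_odd_card hodd
  have hd0 : d.1 0 0 ≠ 0 := by
    intro h0
    have := det_entries d
    rw [h0, hd01] at this
    simp at this
  have hd' : d = Cfsg.Agent.Lib.PSL2.Basic.d (d.1 0 0) hd0 := by
    obtain ⟨a, ha, e⟩ := eq_d_of_mem_splitT (F := F) (g := d) ⟨hd01, hd10⟩
    subst e
    rfl
  have hda' : d.1 0 0 * d.1 0 0 ≠ 1 := by
    rw [← pow_two]; exact hda
  have hT := isTorus_splitT hd0 hda'
  have hC : Subgroup.centralizer ({d} : Set (Matrix.SpecialLinearGroup (Fin 2) F)) = splitT F := by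
    rw [hd']
    exact hT.centralizer_singleton (d_mem_splitT _ hd0) (d_ne_one hd0 hda') (d_ne_neg_one hd0 hda')
  rw [hC]
  refine ⟨fun g => Iff.rfl, ?_, ?_, ?_⟩
  · rw [hT.card_normalizer h2, card_splitT]
  · have := hT.two_mul_card_conjClasses_normalizer h2
    rw [card_splitT] at this
    have hq : 1 ≤ Fintype.card F := Fintype.card_pos
    omega
  · intro g hg hgT
    have := hT.mul_self_of_mem_normalizer hg hgT
    have e := congrArg (fun M : Matrix.SpecialLinearGroup (Fin 2) F => (M : Matrix (Fin 2) (Fin 2) F)) this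
    simpa using e

end Cfsg.Agent.S2428
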