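import Cfsg.Statements.S2429
import Cfsg.Agent.Lib.PSL2.Nonsplit

set_option autoImplicit false
open Cfsg

namespace Cfsg.Agent.S2429

open Cfsg.Agent.Lib.PSL2.Basic Cfsg.Agent.Lib.PSL2.Conj Cfsg.Agent.Lib.PSL2.TorusCore Cfsg.Agent.Lib.PSL2.Nonsplit

/-- Let F be a finite field with q elements, q odd. Then SL₂ over F contains a cyclic subgroup T′ of order q + 1 (a non-split torus) with the following properties: T′ is its own centraliser, and indeed the centraliser of each element of T′ other than 1 and −1 is exactly T′; every element of SL₂ having no eigenvector in F² is conjugate to an element of T′; the normaliser of T′ has order 2(q + 1) and exactly (q + 7)/2 conjugacy classes; and every element of that normaliser outside T′ has square −1. -/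
theorem result {F : Type*} [Field F] [Fintype F] (hodd : Odd (Fintype.card F)) :
    ∃ T' : Subgroup (Matrix.SpecialLinearGroup (Fin 2) F), IsCyclic T' ∧ Nat.card T' = Fintype.card F + 1 ∧
      Subgroup.centralizer ((T' : Set (Matrix.SpecialLinearGroup (Fin 2) F))) = T' ∧
      (∀ g : Matrix.SpecialLinearGroup (Fin 2) F, g ∈ T' → (g : Matrix (Fin 2) (Fin 2) F) ≠ 1 → (g : Matrix (Fin 2) (Fin 2) F) ≠ -1 → Subgroup.centralizer ({g} : Set (Matrix.SpecialLinearGroup (Fin 2) F)) = T') ∧
      (∀ g : Matrix.SpecialLinearGroup (Fin 2) F, (∀ (c : F) (v : Fin 2 → F), v ≠ 0 → (g : Matrix (Fin 2) (Fin 2) F).mulVec v ≠ c • v) → ∃ h : Matrix.SpecialLinearGroup (Fin 2) F, h * g * h⁻¹ ∈ T') ∧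
      Nat.card (Subgroup.normalizer (T' : Set (Matrix.SpecialLinearGroup (Fin 2) F))) = 2 * (Fintype.card F + 1) ∧
      Nat.card (ConjClasses (Subgroup.normalizer (T' : Set (Matrix.SpecialLinearGroup (Fin 2) F)))) = (Fintype.card F + 7) / 2 ∧
      ∀ g : Matrix.SpecialLinearGroup (Fin 2) F, g ∈ Subgroup.normalizer (T' : Set (Matrix.SpecialLinearGroup (Fin 2) F)) → g ∉ T' → ((g * g) : Matrix (Fin 2) (Fin 2) F) = -1 := by
  have h2 := two_ne_zero_of_odd_card hodd
  obtain ⟨T, hT, hcyc, hcard, hno, hconj⟩ := exists_nonsplit F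
  obtain ⟨g₀, hg₀, h1₀, hm₀, _⟩ := hT.exists_inv
  refine ⟨T, hcyc, hcard, ?_, ?_, ?_, ?_, ?_, ?_⟩
  · apply le_antisymm
    · intro h hh
      apply hT.cent g₀ hg₀ h1₀ hm₀
      have := Subgroup.mem_centralizer_iff.1 hh g₀ hg₀
      exact this.symm
    · intro t ht
      rw [Subgroup.mem_centralizer_iff]
      intro s hs
      exact hT.comm s hs t ht
  · intro g hg h1 hm
    apply hT.centralizer_singleton hg
    · rintro rfl
      exact h1 (by simp)
    · rintro rfl
      exact hm (by simp)
  · intro g hg
    apply hconj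
    intro a ha
    obtain ⟨v0, v1, hv, hv1, hv2⟩ := exists_eigvec ha
    apply hg a ![v0, v1]
    · intro h0
      have h00 := congrFun h0 0
      have h01 := congrFun h0 1
      simp at h00 h01
      rcases hv with h | h
      · exact h h00
      · exact h h01
    · ext i
      fin_cases i
      · simpa [Matrix.mulVec, dotProduct, Fin.sum_univ_two] using hv1
      · simpa [Matrix.mulVec, dotProduct, Fin.sum_univ_two] using hv2
  · rw [hT.card_normalizer h2, hcard]
  · have := hT.two_mul_card_conjClasses_normalizer h2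
    rw [hcard] at this
    omega
  · intro g hg hgT
    have := hT.mul_self_of_mem_normalizer hg hgT
    have e := congrArg (fun M : Matrix.SpecialLinearGroup (Fin 2) F => (M : Matrix (Fin 2) (Fin 2) F)) this
    simpa using e

end Cfsg.Agent.S2429
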