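import Cfsg.Statements.S2430
import Cfsg.Agent.Lib.PSL2.TorusSylow

set_option autoImplicit false
open Cfsg

namespace Cfsg.Agent.S2430

open scoped MatrixGroups
open Cfsg.Agent.Lib.PSL2.Basic Cfsg.Agent.Lib.PSL2.TorusCore Cfsg.Agent.Lib.PSL2.Nonsplit Cfsg.Agent.Lib.PSL2.TorusSylow

/-- Let F be a finite field with q elements, q odd, ℓ an odd prime, and P a Sylow ℓ-subgroup of SL₂ over F. If ℓ divides q − 1, the centraliser of P is cyclic of order q − 1 (a split torus) and the normaliser of P has order 2(q − 1); if ℓ divides q + 1, the centraliser of P is cyclic of order q + 1 (a non-split torus) and the normaliser of P has order 2(q + 1). -/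
theorem result {F : Type*} [Field F] [Fintype F] (hodd : Odd (Fintype.card F)) (ℓ : ℕ) [Fact ℓ.Prime] (hℓ : ℓ ≠ 2)
    (P : Sylow ℓ (Matrix.SpecialLinearGroup (Fin 2) F)) :
    (ℓ ∣ Fintype.card F - 1 →
      Nat.card (Subgroup.centralizer ((P : Subgroup (Matrix.SpecialLinearGroup (Fin 2) F)) : Set (Matrix.SpecialLinearGroup (Fin 2) F))) = Fintype.card F - 1 ∧
      IsCyclic (Subgroup.centralizer ((P : Subgroup (Matrix.SpecialLinearGroup (Fin 2) F)) : Set (Matrix.SpecialLinearGroup (Fin 2) F))) ∧
      Nat.card (Subgroup.normalizer ((P : Subgroup (Matrix.SpecialLinearGroup (Fin 2) F)) : Set (Matrix.SpecialLinearGroup (Fin 2) F))) = 2 * (Fintype.card F - 1)) ∧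
    (ℓ ∣ Fintype.card F + 1 →
      Nat.card (Subgroup.centralizer ((P : Subgroup (Matrix.SpecialLinearGroup (Fin 2) F)) : Set (Matrix.SpecialLinearGroup (Fin 2) F))) = Fintype.card F + 1 ∧
      IsCyclic (Subgroup.centralizer ((P : Subgroup (Matrix.SpecialLinearGroup (Fin 2) F)) : Set (Matrix.SpecialLinearGroup (Fin 2) F))) ∧
      Nat.card (Subgroup.normalizer ((P : Subgroup (Matrix.SpecialLinearGroup (Fin 2) F)) : Set (Matrix.SpecialLinearGroup (Fin 2) F))) = 2 * (Fintype.card F + 1)) := by
  have h2 := two_ne_zero_of_odd_card hodd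
  set q := Fintype.card F with hq
  have hq2 : 2 ≤ q := Fintype.one_lt_card
  have hℓp : ℓ.Prime := Fact.out
  have hℓ3 : 3 ≤ ℓ := by
    have := hℓp.two_le
    omega
  have hSL : Nat.card SL(2, F) = q * ((q - 1) * (q + 1)) := by
    rw [card_SL2, ← hq]
    congr 1
    generalize q = r at hq2
    obtain ⟨k, rfl⟩ : ∃ k, r = k + 1 := ⟨r - 1, by omega⟩
    simp only [Nat.add_sub_cancel]
    have : (k + 1) ^ 2 = k * (k + 1 + 1) + 1 := by ring
    omega
  constructor
  · intro hdvd
    have h3 : 3 ≤ q - 1 := by
      have := Nat.le_of_dvd (by omega) hdvd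
      omega
    obtain ⟨a, ha, haa⟩ := exists_mul_self_ne_one h3
    have hT := isTorus_splitT ha haa
    have hidx : (splitT F).index = q * (q + 1) := by
      have h := (splitT F).index_mul_card
      rw [card_splitT, hSL, ← hq] at h
      have hpos : 0 < q - 1 := by omega
      apply Nat.eq_of_mul_eq_mul_right hpos
      rw [h]; ring
    have hnd : ¬ ℓ ∣ (splitT F).index := by
      rw [hidx]
      intro h
      rcases (Nat.Prime.dvd_mul hℓp).1 h with h' | h'
      · have : ℓ ∣ 1 := by
          have := Nat.dvd_sub h' hdvd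
          have e : q - (q - 1) = 1 := by omega
          rwa [e] at this
        exact hℓp.one_lt.ne' (Nat.dvd_one.1 this)
      · have : ℓ ∣ 2 := by
          have := Nat.dvd_sub h' hdvd
          have e : q + 1 - (q - 1) = 2 := by omega
          rwa [e] at this
        have := Nat.le_of_dvd (by norm_num) this
        omega
    have := IsTorus.sylow hT isCyclic_splitT h2 hℓ (by rw [card_splitT]; exact hdvd) hnd P
    rw [card_splitT] at this
    exact this
  · intro hdvd
    obtain ⟨T, hT, hcyc, hcard, -, -⟩ := exists_nonsplit F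
    have hidx : T.index = q * (q - 1) := by
      have h := T.index_mul_card
      rw [hcard, hSL, ← hq] at h
      have hpos : 0 < q + 1 := by omega
      apply Nat.eq_of_mul_eq_mul_right hpos
      rw [h]; ring
    have hnd : ¬ ℓ ∣ T.index := by
      rw [hidx]
      intro h
      rcases (Nat.Prime.dvd_mul hℓp).1 h with h' | h'
      · have : ℓ ∣ 1 := by
          have := Nat.dvd_sub hdvd h'
          have e : q + 1 - q = 1 := by omega
          rwa [e] at this
        exact hℓp.one_lt.ne' (Nat.dvd_one.1 this)
      · have : ℓ ∣ 2 := by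
          have := Nat.dvd_sub hdvd h'
          have e : q + 1 - (q - 1) = 2 := by omega
          rwa [e] at this
        have := Nat.le_of_dvd (by norm_num) this
        omega
    have := IsTorus.sylow hT hcyc h2 hℓ (by rw [hcard]; exact hdvd) hnd P
    rw [hcard] at this
    exact this

end Cfsg.Agent.S2430
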