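import Cfsg.Statements.S2431
import Cfsg.Agent.Lib.PSL2.SylowGens

set_option autoImplicit false
open Cfsg

namespace Cfsg.Agent.S2431

open Matrix Matrix.SpecialLinearGroup
open scoped MatrixGroups
open Cfsg.Agent.Lib.PSL2.Basic Cfsg.Agent.Lib.PSL2.Torus Cfsg.Agent.Lib.PSL2.TorusCore
open Cfsg.Agent.Lib.PSL2.FourGroup Cfsg.Agent.Lib.PSL2.KleinAut Cfsg.Agent.Lib.PSL2.SylowGens

lemma mod16_aux (u : ℕ) : ((u + 1) * (u * (u + 1 + 1))) % 16 =
    ((u % 16 + 1) * ((u % 16) * ((u % 16) + 1 + 1))) % 16 := by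
  simp [Nat.mul_mod, Nat.add_mod]

lemma mod16_one {q : ℕ} (h : q % 8 = 1 ∨ q % 8 = 7) : (q * ((q - 1) * (q + 1))) % 16 = 0 := by
  obtain ⟨u, rfl⟩ : ∃ u, q = u + 1 := ⟨q - 1, by omega⟩
  simp only [Nat.add_sub_cancel]
  rw [mod16_aux]
  have h1 : u % 16 = 0 ∨ u % 16 = 6 ∨ u % 16 = 8 ∨ u % 16 = 14 := by omega
  rcases h1 with h1 | h1 | h1 | h1 <;> rw [h1]

lemma mod16_three {q : ℕ} (h : q % 8 = 3 ∨ q % 8 = 5) : (q * ((q - 1) * (q + 1))) % 16 = 8 := by
  obtain ⟨u, rfl⟩ : ∃ u, q = u + 1 := ⟨q - 1, by omega⟩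
  simp only [Nat.add_sub_cancel]
  rw [mod16_aux]
  have h1 : u % 16 = 2 ∨ u % 16 = 4 ∨ u % 16 = 10 ∨ u % 16 = 12 := by omega
  rcases h1 with h1 | h1 | h1 | h1 <;> rw [h1]

/-- Let F be a finite field with q elements, q odd, and S a Sylow 2-subgroup of SL₂ over F. The centraliser of S is the centre of SL₂ (of order 2); S is its own normaliser when q ≡ ±1 mod 8, and has index 3 in its normaliser when q ≡ ±3 mod 8. -/
theorem result {F : Type*} [Field F] [Fintype F] (hodd : Odd (Fintype.card F)) (S : Sylow 2 (Matrix.SpecialLinearGroup (Fin 2) F)) :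
    Subgroup.centralizer ((S : Subgroup (Matrix.SpecialLinearGroup (Fin 2) F)) : Set (Matrix.SpecialLinearGroup (Fin 2) F)) = Subgroup.center (Matrix.SpecialLinearGroup (Fin 2) F) ∧
    ((Fintype.card F % 8 = 1 ∨ Fintype.card F % 8 = 7) →
      Subgroup.normalizer ((S : Subgroup (Matrix.SpecialLinearGroup (Fin 2) F)) : Set (Matrix.SpecialLinearGroup (Fin 2) F)) = (S : Subgroup (Matrix.SpecialLinearGroup (Fin 2) F))) ∧
    ((Fintype.card F % 8 = 3 ∨ Fintype.card F % 8 = 5) →
      Nat.card (Subgroup.normalizer ((S : Subgroup (Matrix.SpecialLinearGroup (Fin 2) F)) : Set (Matrix.SpecialLinearGroup (Fin 2) F))) = 3 * Nat.card S) := by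
  classical
  have h2 : (2 : F) ≠ 0 := two_ne_zero_of_odd_card hodd
  obtain ⟨k, A, B, h⟩ := exists_gens hodd S
  have hcardG := Cfsg.Agent.Lib.PSL2.ClassSizes.card_SL2_mul (F := F)
  set q := Fintype.card F with hq
  have hq2 : 2 ≤ q := Fintype.one_lt_card
  refine ⟨?_, ?_, ?_⟩
  · apply le_antisymm
    · intro g hg
      have hq' := h.isQ
      have hc : ∀ Y ∈ (S : Subgroup SL(2, F)), cj g.toGL Y = Y := by
        intro Y hY
        apply Subtype.ext
        rw [cj_val]
        show g.1 * Y.1 * (g⁻¹).1 = Y.1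
        have h3 : g * Y * g⁻¹ = Y := by
          rw [(Subgroup.mem_centralizer_iff.1 hg Y hY).symm]
          group
        exact congrArg Subtype.val h3
      have hcen := mem_center_of_fix h2 hq'
        (hc _ ((S : Subgroup SL(2, F)).pow_mem h.memA _)) (hc _ h.memB)
      rw [Subgroup.mem_center_iff]
      intro t
      have h5 := Subgroup.mem_center_iff.1 hcen (toGL t)
      rw [← map_mul, ← map_mul] at h5
      exact toGL_injective h5
    · exact Subgroup.center_le_centralizer _
  · intro h8
    apply normalizer_eq_self hodd S h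
    by_contra hk
    have hk1 : k = 1 := by
      have := h.one_le
      omega
    subst hk1
    -- the order of the group is divisible by 16
    have h16 : 16 ∣ Nat.card SL(2, F) := by
      rw [hcardG]
      exact Nat.dvd_of_mod_eq_zero (mod16_one h8)
    have h9 : 16 ∣ Nat.card S := by
      have h10 := S.card_eq_multiplicity
      rw [h10]
      have h11 : 2 ^ 4 ∣ Nat.card SL(2, F) := h16
      exact pow_dvd_pow _ ((Nat.Prime.pow_dvd_iff_le_factorization Nat.prime_two Nat.card_pos.ne').1 h11)
    rw [h.card] at h9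
    norm_num at h9
  · intro h8
    have hk1 : k = 1 := by
      by_contra hk
      have hk2 : 2 ≤ k := by
        have := h.one_le
        omega
      have h16 : 16 ∣ Nat.card S := by
        rw [h.card]
        obtain ⟨r, rfl⟩ : ∃ r, k = r + 2 := ⟨k - 2, by omega⟩
        exact ⟨2 ^ r, by rw [pow_add]; ring⟩
      have h17 : 16 ∣ Nat.card SL(2, F) := h16.trans (Subgroup.card_subgroup_dvd_card _)
      rw [hcardG] at h17
      have := Nat.mod_eq_zero_of_dvd h17
      rw [mod16_three h8] at this
      omega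
    subst hk1
    have hle := h.card_normalizer_le h2
    have hcS : Nat.card S = 8 := by rw [h.card]; norm_num
    rw [hcS]
    set N := Subgroup.normalizer ((S : Subgroup SL(2, F)) : Set SL(2, F)) with hN
    have h8N : 8 ∣ Nat.card N := by
      rw [← hcS]
      exact Subgroup.card_dvd_of_le Subgroup.le_normalizer
    -- the element of order three
    have hqq := h.isQ_one
    set z := gQ h2 hqq with hz
    have hzA : z * A = B * z := gQ_mul_a h2 hqq
    have hzB : z * B = (A * B) * z := gQ_mul_b h2 hqq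
    have hz3 : z * z * z = -1 := gQ_cube h2 hqq
    have hzN : z ∈ N := by
      apply mem_normalizer_of_conj_mem
      intro x hx
      have hA' : z * A * z⁻¹ = B := by rw [hzA]; group
      have hB' : z * B * z⁻¹ = A * B := by rw [hzB]; group
      rcases h.cases x hx with ⟨i, rfl⟩ | ⟨i, rfl⟩
      · rw [← conj_pow, hA']
        exact (S : Subgroup SL(2, F)).pow_mem h.memB _
      · have h5 : z * (B * A ^ i) * z⁻¹ = (z * B * z⁻¹) * (z * A * z⁻¹) ^ i := by
          rw [conj_pow]
          group
        rw [h5, hA', hB']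
        exact (S : Subgroup SL(2, F)).mul_mem
          ((S : Subgroup SL(2, F)).mul_mem h.memA h.memB) ((S : Subgroup SL(2, F)).pow_mem h.memB _)
    have hw3 : (z * z) ^ 3 = 1 := by
      have h5 : (z * z) ^ 3 = (z * z * z) * (z * z * z) := by
        simp only [pow_succ, pow_zero, one_mul, mul_assoc]
      rw [h5, hz3]
      apply ext2 <;> simp
    have hw1 : z * z ≠ 1 := by
      intro e
      have h5 : z = -1 := by
        rw [← hz3, e, one_mul]
      rw [h5] at hzA
      have h6 : A = B := by
        have h7 : -A = -B := by simpa using hzA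
        exact neg_injective h7
      have h8' := hqq.anti
      rw [← h6] at h8'
      exact neg_ne_self h2 _ h8'
    have : Fact (Nat.Prime 3) := ⟨Nat.prime_three⟩
    have h3N : 3 ∣ Nat.card N := by
      have h5 : orderOf (⟨z * z, N.mul_mem hzN hzN⟩ : N) = 3 := by
        rw [Subgroup.orderOf_mk]
        exact orderOf_eq_prime hw3 hw1
      rw [← h5]
      exact orderOf_dvd_natCard _
    have hnot16 : ¬ 16 ∣ Nat.card N := by
      intro h16
      have h17 : 16 ∣ Nat.card SL(2, F) := h16.trans (Subgroup.card_subgroup_dvd_card _)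
      rw [hcardG] at h17
      have := Nat.mod_eq_zero_of_dvd h17
      rw [mod16_three h8] at this
      omega
    have hpos : 0 < Nat.card N := Nat.card_pos
    obtain ⟨c, hc⟩ : 24 ∣ Nat.card N :=
      Nat.Coprime.mul_dvd_of_dvd_of_dvd (by norm_num : Nat.Coprime 8 3) h8N h3N
    have hc12 : c = 1 ∨ c = 2 := by omega
    rcases hc12 with rfl | rfl
    · omega
    · exfalso
      apply hnot16
      rw [hc]
      norm_num

end Cfsg.Agent.S2431
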