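import Cfsg.Statements.S2437
import Mathlib
set_option autoImplicit false
open Cfsg

namespace Cfsg.Agent.S2437

section Aux

variable {F : Type*} [Field F]

abbrev Bor (F : Type*) [Field F] : Subgroup (Matrix.SpecialLinearGroup (Fin 2) F) :=
  (Cfsg.upperTriangularGL 2 F).comap Matrix.SpecialLinearGroup.toGL

theorem mem_Bor (g : Matrix.SpecialLinearGroup (Fin 2) F) :
    g ∈ Bor F ↔ (g : Matrix (Fin 2) (Fin 2) F) 1 0 = 0 := by
  constructor
  · intro h
    have h' : ((Matrix.SpecialLinearGroup.toGL g : GL (Fin 2) F) : Matrix (Fin 2) (Fin 2) F).BlockTriangular id := h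
    exact h' (by simp)
  · intro h
    show ((Matrix.SpecialLinearGroup.toGL g : GL (Fin 2) F) : Matrix (Fin 2) (Fin 2) F).BlockTriangular id
    intro i j hij
    fin_cases i <;> fin_cases j <;> simp_all

theorem det_eq (g : Matrix.SpecialLinearGroup (Fin 2) F) :
    (g : Matrix (Fin 2) (Fin 2) F) 0 0 * (g : Matrix (Fin 2) (Fin 2) F) 1 1 
     - (g : Matrix (Fin 2) (Fin 2) F) 0 1 * (g : Matrix (Fin 2) (Fin 2) F) 1 0 = 1 := by
  have := g.2
  rwa [Matrix.det_fin_two] at this

/-- the coordinates -/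
noncomputable def mkB (a : Fˣ) (b : F) : Bor F :=
  ⟨⟨!![(a : F), b; 0, ((a⁻¹ : Fˣ) : F)], by simp [Matrix.det_fin_two]⟩, (mem_Bor _).2 (by simp)⟩

theorem mkB_coe (a : Fˣ) (b : F) : (((mkB a b : Bor F) : Matrix.SpecialLinearGroup (Fin 2) F) : Matrix (Fin 2) (Fin 2) F) = !![(a : F), b; 0, ((a⁻¹ : Fˣ) : F)] := rfl

noncomputable def coordA (g : Bor F) : Fˣ :=
  Units.mk0 (((g : Matrix.SpecialLinearGroup (Fin 2) F) : Matrix (Fin 2) (Fin 2) F) 0 0) (by
    intro h0
    have h1 := det_eq (g : Matrix.SpecialLinearGroup (Fin 2) F)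
    have h2 := (mem_Bor _).1 g.2
    rw [h0, h2] at h1
    simp at h1)

theorem coordA_val (g : Bor F) : ((coordA g : Fˣ) : F) = ((g : Matrix.SpecialLinearGroup (Fin 2) F) : Matrix (Fin 2) (Fin 2) F) 0 0 := rfl

noncomputable def eB : Bor F ≃ Fˣ × F where
  toFun g := (coordA g, ((g : Matrix.SpecialLinearGroup (Fin 2) F) : Matrix (Fin 2) (Fin 2) F) 0 1)
  invFun x := mkB x.1 x.2
  left_inv g := by
    apply Subtype.ext
    apply Matrix.SpecialLinearGroup.ext
    have h1 := det_eq (g : Matrix.SpecialLinearGroup (Fin 2) F)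
    have h2 := (mem_Bor _).1 g.2
    intro i j
    rw [mkB_coe]
    fin_cases i <;> fin_cases j
    · simp [coordA_val]
    · simp 
    · simp [h2]
    · simp only [h2, mul_zero, sub_zero] at h1
      simp [coordA_val]
      exact (eq_inv_of_mul_eq_one_right h1).symm
  right_inv x := by
    ext
    · simp [coordA_val, mkB_coe]
    · simp [mkB_coe]

theorem commute_mkB (a c : Fˣ) (b d : F) :
    Commute (mkB a b) (mkB c d) ↔ ((a : F) - ((a⁻¹ : Fˣ) : F)) * d = ((c : F) - ((c⁻¹ : Fˣ) : F)) * b := by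
  have key : ∀ (x y : Bor F), x = y ↔ (((x : Matrix.SpecialLinearGroup (Fin 2) F) : Matrix (Fin 2) (Fin 2) F) = ((y : Matrix.SpecialLinearGroup (Fin 2) F) : Matrix (Fin 2) (Fin 2) F)) := by
    intro x y
    rw [Subtype.ext_iff]
    constructor
    · intro h; rw [h]
    · intro h; exact Matrix.SpecialLinearGroup.ext _ _ (fun i j => by rw [h])
  rw [Commute, SemiconjBy, key]
  simp only [Subgroup.coe_mul, Matrix.SpecialLinearGroup.coe_mul, mkB_coe]
  rw [Matrix.mul_fin_two, Matrix.mul_fin_two]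
  simp only [mul_zero, zero_mul, add_zero, zero_add, Units.val_inv_eq_inv_val]
  rw [← Matrix.ext_iff]
  constructor
  · intro h
    have h0 := h 0 1
    simp only [Matrix.of_apply, Matrix.cons_val', Matrix.cons_val_zero, Matrix.cons_val_one, Matrix.cons_val_fin_one] at h0
    linear_combination h0
  · intro h i j
    have h2 : (a : F) * d + b * ((c : F))⁻¹ = c * b + d * (a : F)⁻¹ := by
      linear_combination h
    fin_cases i <;> fin_cases j <;> simp [mul_comm]
    linear_combination h2

/-- count of solutions of `α d = β b`. -/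
theorem card_sol [Fintype F] [DecidableEq F] (α β : F) : 
    Nat.card {x : F × F // α * x.2 = β * x.1} = if α = 0 ∧ β = 0 then Fintype.card F ^ 2 else Fintype.card F := by
  split_ifs with h
  · obtain ⟨rfl, rfl⟩ := h
    simp [sq]
  · by_cases hα : α = 0
    · have hβ : β ≠ 0 := fun hb => h ⟨hα, hb⟩
      subst hα
      rw [Nat.card_eq_fintype_card, ← Fintype.card_congr (α := F) ⟨fun d => ⟨(0, d), by simp⟩, fun x => x.1.2, fun d => rfl, ?_⟩]
      rintro ⟨⟨b, d⟩, hx⟩
      simp only [zero_mul] at hx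
      have : b = 0 := by
        rcases mul_eq_zero.mp hx.symm with h1 | h1
        · exact absurd h1 hβ
        · exact h1
      subst this
      rfl
    · rw [Nat.card_eq_fintype_card, ← Fintype.card_congr (α := F) ⟨fun b => ⟨(b, β * b / α), by field_simp⟩, fun x => x.1.1, fun d => rfl, ?_⟩]
      rintro ⟨⟨b, d⟩, hx⟩
      simp only at hx ⊢
      apply Subtype.ext
      simp only [Prod.mk.injEq, true_and]
      field_simp
      linear_combination -hx


theorem two_ne_zero_of_odd [Fintype F] (hodd : Odd (Fintype.card F)) : (2 : F) ≠ 0 := by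
  apply Ring.two_ne_zero
  intro h
  have := FiniteField.even_card_iff_char_two.mp h
  rw [Nat.odd_iff] at hodd
  omega

theorem alpha_zero_iff (a : Fˣ) : ((a : F) - ((a⁻¹ : Fˣ) : F)) = 0 ↔ a = 1 ∨ a = -1 := by
  have ha : (a : F) ≠ 0 := a.ne_zero
  constructor
  · intro h
    have h2 : (a : F) * a = 1 := by
      have h3 : (a : F) = (a : F)⁻¹ := by
        simpa [sub_eq_zero] using h
      calc (a : F) * a = a * (a : F)⁻¹ := by rw [← h3]
        _ = 1 := mul_inv_cancel₀ ha
    have h4 : ((a : F) - 1) * ((a : F) + 1) = 0 := by linear_combination h2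
    rcases mul_eq_zero.mp h4 with h5 | h5
    · left
      ext
      simpa using sub_eq_zero.mp h5
    · right
      ext
      simpa using eq_neg_of_add_eq_zero_left h5
  · rintro (rfl | rfl) <;> simp

theorem result_aux [Fintype F] [DecidableEq F] (hodd : Odd (Fintype.card F)) :
    Nat.card (ConjClasses (Bor F)) = Fintype.card F + 3 := by
  have h20 := two_ne_zero_of_odd hodd
  have hB : Nat.card (Bor F) = (Fintype.card F - 1) * Fintype.card F := by
    rw [Nat.card_congr eB, Nat.card_prod, Nat.card_eq_fintype_card, Nat.card_eq_fintype_card, Fintype.card_units]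
  let al : Fˣ → F := fun a => (a : F) - ((a⁻¹ : Fˣ) : F)
  let S : Finset Fˣ := {1, -1}
  have hS : S.card = 2 := by
    apply Finset.card_pair
    intro h
    apply h20
    have h1 : (1 : F) = -1 := by simpa using congrArg Units.val h
    linear_combination h1
  have hSmem : ∀ a : Fˣ, al a = 0 ↔ a ∈ S := by
    intro a
    simp only [S, Finset.mem_insert, Finset.mem_singleton]
    exact alpha_zero_iff a
  have hpairs : Nat.card {p : Bor F × Bor F // Commute p.1 p.2} = 4 * Fintype.card F ^ 2 + ((Fintype.card F - 1) ^ 2 - 4) * Fintype.card F := by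
    have e1 : {x : (Fˣ × F) × (Fˣ × F) // Commute (mkB x.1.1 x.1.2) (mkB x.2.1 x.2.2)} ≃ {p : Bor F × Bor F // Commute p.1 p.2} :=
      (eB.symm.prodCongr eB.symm).subtypeEquiv (by intro x; rfl)
    have e2 : {x : (Fˣ × F) × (Fˣ × F) // Commute (mkB x.1.1 x.1.2) (mkB x.2.1 x.2.2)} ≃ Σ ac : Fˣ × Fˣ, {x : F × F // al ac.1 * x.2 = al ac.2 * x.1} :=
      { toFun := fun x => ⟨(x.1.1.1, x.1.2.1), ⟨(x.1.1.2, x.1.2.2), (commute_mkB _ _ _ _).1 x.2⟩⟩
        invFun := fun y => ⟨((y.1.1, y.2.1.1), (y.1.2, y.2.1.2)), (commute_mkB _ _ _ _).2 y.2.2⟩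
        left_inv := fun x => rfl
        right_inv := fun x => rfl }
    rw [← Nat.card_congr e1, Nat.card_congr e2, Nat.card_sigma]
    simp only [card_sol]
    rw [Finset.sum_ite]
    have hf1 : (Finset.univ.filter fun ac : Fˣ × Fˣ => al ac.1 = 0 ∧ al ac.2 = 0) = S ×ˢ S := by
      ext ⟨a, c⟩
      simp [hSmem]
    have hcardS : ((S ×ˢ S : Finset (Fˣ × Fˣ))).card = 4 := by
      rw [Finset.card_product, hS]
    have hf2 : (Finset.univ.filter fun ac : Fˣ × Fˣ => ¬ (al ac.1 = 0 ∧ al ac.2 = 0)).card = (Fintype.card F - 1) ^ 2 - 4 := by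
      rw [Finset.filter_not, hf1, Finset.card_sdiff_of_subset (Finset.subset_univ _), hcardS, Finset.card_univ, Fintype.card_prod, Fintype.card_units, sq]
    rw [hf1, Finset.sum_const, Finset.sum_const, hcardS, hf2]
    simp
  have h := card_comm_eq_card_conjClasses_mul_card (Bor F)
  rw [hpairs, hB] at h
  have h3 : 3 ≤ Fintype.card F := by
    have h2 := Fintype.one_lt_card (α := F)
    rw [Nat.odd_iff] at hodd
    omega
  obtain ⟨m, hm⟩ : ∃ m, Fintype.card F = m + 3 := ⟨Fintype.card F - 3, by omega⟩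
  rw [hm] at h ⊢
  have h4 : (m + 3 - 1) ^ 2 - 4 = m ^ 2 + 4 * m := by
    have : m + 3 - 1 = m + 2 := rfl
    rw [this]
    have : (m + 2) ^ 2 = m ^ 2 + 4 * m + 4 := by ring
    omega
  rw [h4] at h
  have h5 : m + 3 - 1 = m + 2 := rfl
  rw [h5] at h
  have hpos : 0 < (m + 2) * (m + 3) := by positivity
  apply Nat.eq_of_mul_eq_mul_right hpos
  rw [← h]
  ring

end Aux

/-- Over a finite field F with q elements, q odd, the upper triangular subgroup of SL₂ (a Borel subgroup, of order q(q − 1)) has exactly q + 3 conjugacy classes. -/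
theorem result {F : Type*} [Field F] [Fintype F] (hodd : Odd (Fintype.card F)) :
    Nat.card (ConjClasses ((Cfsg.upperTriangularGL 2 F).comap Matrix.SpecialLinearGroup.toGL)) = Fintype.card F + 3 := by
  classical
  exact result_aux hodd

end Cfsg.Agent.S2437
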