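import Cfsg.Statements.S2433
import Cfsg.Agent.S2437
import Cfsg.Agent.Lib.PSL2.Basic
import Mathlib

set_option autoImplicit false
open Cfsg

namespace Cfsg.Agent.S2433

open Cfsg.Agent.Lib.PSL2.Basic
open scoped MatrixGroups
open Cfsg.Agent.S2437 (Bor mem_Bor eB)

section Aux

variable {F : Type*} [Field F]

/-- The induced function, in coordinates: extension by zero. -/
theorem extend_eq [DecidableEq F] (α : MulChar F ℂ) (y : SL(2, F)) :
    Cfsg.extendByZero (Bor F) (fun b => α (((b : SL(2, F)) : Matrix (Fin 2) (Fin 2) F) 0 0)) y =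
      if y.1 1 0 = 0 then α (y.1 0 0) else 0 := by
  unfold Cfsg.extendByZero
  split_ifs with h
  · have hy : y ∈ Bor F := (mem_Bor y).2 h
    exact (Subtype.val_injective).extend_apply _ _ (⟨y, hy⟩ : Bor F)
  · rw [Function.extend_apply']
    · rfl
    · rintro ⟨b, rfl⟩
      exact h ((mem_Bor _).1 b.2)

theorem conj_10 (x g : SL(2, F)) :
    (x⁻¹ * g * x).1 1 0 = g.1 1 0 * x.1 0 0 ^ 2 + (g.1 1 1 - g.1 0 0) * x.1 0 0 * x.1 1 0
      - g.1 0 1 * x.1 1 0 ^ 2 := by
  simp only [mul_10, mul_00, mul_11, mul_01, inv_10, inv_11, inv_00, inv_01]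
  ring

theorem conj_00 (x g : SL(2, F)) :
    (x⁻¹ * g * x).1 0 0 = x.1 1 1 * (g.1 0 0 * x.1 0 0 + g.1 0 1 * x.1 1 0)
      - x.1 0 1 * (g.1 1 0 * x.1 0 0 + g.1 1 1 * x.1 1 0) := by
  simp only [mul_00, mul_01, inv_00, inv_01]
  ring

/-- The coset formula for the induced function. -/
theorem ind_eq [Fintype F] [DecidableEq F] (α : MulChar F ℂ) (g : SL(2, F)) :
    Cfsg.indFun (Bor F) (fun b => α (((b : SL(2, F)) : Matrix (Fin 2) (Fin 2) F) 0 0)) g =
      (Nat.card (Bor F) : ℂ)⁻¹ * ∑ x : SL(2, F), 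
        if (x⁻¹ * g * x).1 1 0 = 0 then α ((x⁻¹ * g * x).1 0 0) else 0 := by
  unfold Cfsg.indFun
  congr 1
  apply Finset.sum_congr rfl
  intro x _
  exact extend_eq α _

theorem card_Bor [Fintype F] : Nat.card (Bor F) = (Fintype.card F - 1) * Fintype.card F := by
  classical
  rw [Nat.card_congr eB, Nat.card_prod, Nat.card_eq_fintype_card, Nat.card_eq_fintype_card,
    Fintype.card_units]

theorem card_Bor_ne_zero [Fintype F] : (Nat.card (Bor F) : ℂ) ≠ 0 := by
  rw [Nat.cast_ne_zero]
  exact Nat.card_pos.ne'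

theorem sum_r0 [Fintype F] [DecidableEq F] (c : ℂ) :
    ∑ x : SL(2, F), (if x.1 1 0 = 0 then c else 0) = (Nat.card (Bor F) : ℂ) * c := by
  rw [Finset.sum_ite, Finset.sum_const_zero, add_zero, Finset.sum_const, nsmul_eq_mul]
  congr 2
  rw [← Fintype.card_subtype, ← Nat.card_eq_fintype_card]
  exact Nat.card_congr (Equiv.subtypeEquivRight (fun x => (mem_Bor x).symm))

theorem sum_p0 [Fintype F] [DecidableEq F] (c : ℂ) :
    ∑ x : SL(2, F), (if x.1 0 0 = 0 then c else 0) = (Nat.card (Bor F) : ℂ) * c := by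
  rw [← sum_r0 c, ← Equiv.sum_comp (Equiv.mulLeft (w : SL(2, F)))]
  apply Finset.sum_congr rfl
  intro x _
  simp [neg_eq_zero]

end Aux

/-- Let F be a finite field with q elements, q odd, α a multiplicative character of F, and R(α) the function on SL₂ induced from the linear character b ↦ α(b₁₁) of the upper triangular subgroup. Then R(α) takes the value α(a) + α(a⁻¹) at a diagonal element with entries a, a⁻¹, a² ≠ 1; the value 0 at every element with no eigenvector in F²; the value α(ε) at an upper triangular element with both diagonal entries ε and non-zero upper right entry; and the value (q + 1)α(ε) at the scalar element ε (ε = ±1). -/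
theorem result {F : Type*} [Field F] [Fintype F] [DecidableEq F] (hodd : Odd (Fintype.card F)) (α : MulChar F ℂ) (g : Matrix.SpecialLinearGroup (Fin 2) F) :
    ((g : Matrix (Fin 2) (Fin 2) F) 0 1 = 0 → (g : Matrix (Fin 2) (Fin 2) F) 1 0 = 0 → (g : Matrix (Fin 2) (Fin 2) F) 0 0 ^ 2 ≠ 1 →
      (Cfsg.indFun ((Cfsg.upperTriangularGL 2 F).comap Matrix.SpecialLinearGroup.toGL) (fun b => α (((b : Matrix.SpecialLinearGroup (Fin 2) F) : Matrix (Fin 2) (Fin 2) F) 0 0))) g = α ((g : Matrix (Fin 2) (Fin 2) F) 0 0) + α ((g : Matrix (Fin 2) (Fin 2) F) 1 1)) ∧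
    ((∀ (c : F) (v : Fin 2 → F), v ≠ 0 → (g : Matrix (Fin 2) (Fin 2) F).mulVec v ≠ c • v) → (Cfsg.indFun ((Cfsg.upperTriangularGL 2 F).comap Matrix.SpecialLinearGroup.toGL) (fun b => α (((b : Matrix.SpecialLinearGroup (Fin 2) F) : Matrix (Fin 2) (Fin 2) F) 0 0))) g = 0) ∧
    ((g : Matrix (Fin 2) (Fin 2) F) 1 0 = 0 → (g : Matrix (Fin 2) (Fin 2) F) 0 0 = (g : Matrix (Fin 2) (Fin 2) F) 1 1 → (g : Matrix (Fin 2) (Fin 2) F) 0 1 ≠ 0 →
      (Cfsg.indFun ((Cfsg.upperTriangularGL 2 F).comap Matrix.SpecialLinearGroup.toGL) (fun b => α (((b : Matrix.SpecialLinearGroup (Fin 2) F) : Matrix (Fin 2) (Fin 2) F) 0 0))) g = α ((g : Matrix (Fin 2) (Fin 2) F) 0 0)) ∧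
    ((g : Matrix (Fin 2) (Fin 2) F) 0 1 = 0 → (g : Matrix (Fin 2) (Fin 2) F) 1 0 = 0 → (g : Matrix (Fin 2) (Fin 2) F) 0 0 = (g : Matrix (Fin 2) (Fin 2) F) 1 1 →
      (Cfsg.indFun ((Cfsg.upperTriangularGL 2 F).comap Matrix.SpecialLinearGroup.toGL) (fun b => α (((b : Matrix.SpecialLinearGroup (Fin 2) F) : Matrix (Fin 2) (Fin 2) F) 0 0))) g = ((Fintype.card F : ℂ) + 1) * α ((g : Matrix (Fin 2) (Fin 2) F) 0 0)) := by
  have hB := card_Bor_ne_zero (F := F)
  have hdet := det_entries g
  have hx := fun x : SL(2, F) => det_entries x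
  refine ⟨?_, ?_, ?_, ?_⟩
  · intro h01 h10 ha
    have hfirst := ind_eq α g
    refine hfirst.trans ?_
    have had : g.1 0 0 * g.1 1 1 = 1 := by
      rw [h01, zero_mul, sub_zero] at hdet
      exact hdet
    have hne : g.1 1 1 - g.1 0 0 ≠ 0 := by
      intro h
      apply ha
      have : g.1 1 1 = g.1 0 0 := sub_eq_zero.1 h
      rw [this] at had
      rw [sq]
      exact had
    have hterm : ∀ x : SL(2, F), (if (x⁻¹ * g * x).1 1 0 = 0 then α ((x⁻¹ * g * x).1 0 0) else 0) =
        (if x.1 1 0 = 0 then α (g.1 0 0) else 0) + (if x.1 0 0 = 0 then α (g.1 1 1) else 0) := by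
      intro x
      have hxd := hx x
      rw [conj_10, conj_00, h01, h10]
      simp only [zero_mul, sub_zero, zero_add, add_zero, mul_zero, sub_zero]
      by_cases hr : x.1 1 0 = 0
      · have hp : x.1 0 0 ≠ 0 := by
          intro hp
          rw [hp, hr] at hxd
          simp at hxd
        simp only [hr, if_true, mul_zero, if_neg hp, add_zero, zero_mul, sub_zero]
        congr 1
        rw [hr, mul_zero, sub_zero] at hxd
        linear_combination (g.1 0 0) * hxd
      · by_cases hp : x.1 0 0 = 0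
        · simp only [hp, if_true, hr, if_false, mul_zero, zero_mul, zero_add, sub_zero]
          congr 1
          rw [hp, zero_mul, zero_sub] at hxd
          linear_combination (g.1 1 1) * hxd
        · have h3 : (g.1 1 1 - g.1 0 0) * x.1 0 0 * x.1 1 0 ≠ 0 := mul_ne_zero (mul_ne_zero hne hp) hr
          simp [h3, hr, hp]
    simp only [hterm, Finset.sum_add_distrib, sum_r0, sum_p0]
    field_simp
  · intro hnoeig
    have hfirst := ind_eq α g
    refine hfirst.trans ?_
    have hterm : ∀ x : SL(2, F), (if (x⁻¹ * g * x).1 1 0 = 0 then α ((x⁻¹ * g * x).1 0 0) else 0) = 0 := by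
      intro x
      rw [if_neg]
      intro h0
      have hxd := hx x
      have hy : x * (x⁻¹ * g * x) = g * x := by group
      have h00 := congrArg (fun M : SL(2, F) => M.1 0 0) hy
      have h1 := congrArg (fun M : SL(2, F) => M.1 1 0) hy
      simp only [mul_00 x, mul_10 x, h0, mul_zero, add_zero] at h00 h1
      simp only [mul_00 g, mul_10 g] at h00 h1
      generalize (x⁻¹ * g * x).1 0 0 = c at h00 h1
      apply hnoeig c ![x.1 0 0, x.1 1 0]
      · intro hv
        have hp := congrFun hv 0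
        have hr := congrFun hv 1
        simp only [Matrix.cons_val_zero, Matrix.cons_val_one, Pi.zero_apply] at hp hr
        rw [hp, hr] at hxd
        simp at hxd
      · ext i
        fin_cases i
        · simp [Matrix.mulVec, dotProduct, Fin.sum_univ_two]
          linear_combination -h00
        · simp [Matrix.mulVec, dotProduct, Fin.sum_univ_two]
          linear_combination -h1
    simp only [hterm, Finset.sum_const_zero, mul_zero]
  · intro h10 heq h01
    have hfirst := ind_eq α g
    refine hfirst.trans ?_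
    have hterm : ∀ x : SL(2, F), (if (x⁻¹ * g * x).1 1 0 = 0 then α ((x⁻¹ * g * x).1 0 0) else 0) =
        (if x.1 1 0 = 0 then α (g.1 0 0) else 0) := by
      intro x
      have hxd := hx x
      rw [conj_10, conj_00, h10, ← heq]
      simp only [zero_mul, zero_add, sub_self, mul_zero, sub_zero, neg_eq_zero]
      by_cases hr : x.1 1 0 = 0
      · simp only [hr, ne_eq, OfNat.ofNat_ne_zero, not_false_eq_true, zero_pow, mul_zero, sub_self, if_true, add_zero]
        congr 1
        rw [hr, mul_zero, sub_zero] at hxd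
        linear_combination (g.1 0 0) * hxd
      · have h3 : g.1 0 1 * x.1 1 0 ^ 2 ≠ 0 := mul_ne_zero h01 (pow_ne_zero 2 hr)
        have h4 : 0 - g.1 0 1 * x.1 1 0 ^ 2 ≠ 0 := by
          rw [zero_sub]
          exact neg_ne_zero.2 h3
        simp [hr, h3]
    simp only [hterm, sum_r0]
    field_simp
  · intro h01 h10 heq
    have hfirst := ind_eq α g
    refine hfirst.trans ?_
    have hterm : ∀ x : SL(2, F), (if (x⁻¹ * g * x).1 1 0 = 0 then α ((x⁻¹ * g * x).1 0 0) else 0) = α (g.1 0 0) := by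
      intro x
      have hxd := hx x
      rw [conj_10, conj_00, h10, h01, ← heq]
      simp only [zero_mul, zero_add, sub_self, mul_zero, sub_zero, if_true]
      congr 1
      linear_combination (g.1 0 0) * hxd
    simp only [hterm, Finset.sum_const, Finset.card_univ, nsmul_eq_mul]
    have hcard : (Fintype.card SL(2, F) : ℂ) = ((Fintype.card F : ℂ) + 1) * (Nat.card (Bor F) : ℂ) := by
      rw [← Nat.card_eq_fintype_card, card_SL2, card_Bor]
      obtain ⟨n, hn⟩ : ∃ n, Fintype.card F = n + 1 := ⟨Fintype.card F - 1, by have := Fintype.card_pos (α := F); omega⟩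
      rw [hn]
      have h1 : (n + 1) ^ 2 - 1 = (n + 2) * n := by
        have : (n + 1) ^ 2 = (n + 2) * n + 1 := by ring
        omega
      rw [h1]
      have h2 : n + 1 - 1 = n := rfl
      rw [h2]
      push_cast
      ring
    rw [hcard]
    field_simp

end Cfsg.Agent.S2433
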