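import Cfsg.Statements.S2432
import Cfsg.Agent.S2433
import Mathlib

set_option autoImplicit false
open Cfsg

namespace Cfsg.Agent.S2432

open Cfsg.Agent.Lib.PSL2.Basic
open scoped MatrixGroups
open Cfsg.Agent.S2437 (Bor mem_Bor eB mkB mkB_coe)
open Cfsg.Agent.S2433 (extend_eq card_Bor card_Bor_ne_zero)

section General

variable {G : Type*} [Group G] [Fintype G]

theorem indFun_conj (H : Subgroup G) (θ : H → ℂ) (h g : G) :
    Cfsg.indFun H θ (h * g * h⁻¹) = Cfsg.indFun H θ g := by
  unfold Cfsg.indFun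
  congr 1
  rw [← Equiv.sum_comp (Equiv.mulLeft h)]
  apply Finset.sum_congr rfl
  intro x _
  congr 1
  simp only [Equiv.coe_mulLeft]
  group

/-- Frobenius reciprocity for the induced function against a class function. -/
theorem classInner_indFun (H : Subgroup G) (θ : H → ℂ) (ψ : G → ℂ)
    (hψ : ∀ h g : G, ψ (h * g * h⁻¹) = ψ g) :
    Cfsg.classInner (Cfsg.indFun H θ) ψ =
      (Nat.card H : ℂ)⁻¹ * ∑ y : G, Cfsg.extendByZero H θ y * (starRingEnd ℂ) (ψ y) := by
  unfold Cfsg.classInner Cfsg.indFun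
  have hG : (Nat.card G : ℂ) ≠ 0 := by
    rw [Nat.cast_ne_zero]
    exact Nat.card_pos.ne'
  have h1 : ∀ x : G, ∑ g : G, Cfsg.extendByZero H θ (x⁻¹ * g * x) * (starRingEnd ℂ) (ψ g) =
      ∑ y : G, Cfsg.extendByZero H θ y * (starRingEnd ℂ) (ψ y) := by
    intro x
    rw [← Equiv.sum_comp (MulAut.conj x).toEquiv]
    apply Finset.sum_congr rfl
    intro y _
    simp only [MulEquiv.toEquiv_eq_coe, MulEquiv.coe_toEquiv, MulAut.conj_apply]
    rw [hψ]
    congr 2
    group
  calc (Nat.card G : ℂ)⁻¹ * ∑ g : G, ((Nat.card H : ℂ)⁻¹ * ∑ x : G, Cfsg.extendByZero H θ (x⁻¹ * g * x)) * (starRingEnd ℂ) (ψ g)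
      = (Nat.card G : ℂ)⁻¹ * (Nat.card H : ℂ)⁻¹ * ∑ x : G, ∑ g : G, Cfsg.extendByZero H θ (x⁻¹ * g * x) * (starRingEnd ℂ) (ψ g) := by
        rw [mul_assoc]
        congr 1
        simp_rw [mul_assoc, Finset.sum_mul]
        rw [← Finset.mul_sum, Finset.sum_comm]
    _ = _ := by
        simp only [h1, Finset.sum_const, Finset.card_univ, nsmul_eq_mul]
        rw [Nat.card_eq_fintype_card] at hG ⊢
        field_simp

end General

section Main

variable {F : Type*} [Field F] [Fintype F] [DecidableEq F]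

/-- Reindexing a sum over the upper triangular elements. -/
theorem sum_upper (f : SL(2, F) → ℂ) :
    ∑ y : SL(2, F), (if y.1 1 0 = 0 then f y else 0) =
      ∑ z : Fˣ × F, f (mkB z.1 z.2 : Bor F) := by
  rw [← Finset.sum_filter]
  symm
  apply Finset.sum_bij (fun z _ => ((mkB z.1 z.2 : Bor F) : SL(2, F)))
  · intro z _
    simp only [Finset.mem_filter, Finset.mem_univ, true_and]
    exact (mem_Bor _).1 (mkB z.1 z.2).2
  · intro z _ z' _ h
    have h' : (mkB z.1 z.2 : Bor F) = mkB z'.1 z'.2 := Subtype.ext h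
    have := congrArg eB h'
    rw [show eB (mkB z.1 z.2) = z from eB.right_inv z, show eB (mkB z'.1 z'.2) = z' from eB.right_inv z'] at this
    exact this
  · intro y hy
    simp only [Finset.mem_filter, Finset.mem_univ, true_and] at hy
    have hyB : y ∈ Bor F := (mem_Bor y).2 hy
    refine ⟨eB ⟨y, hyB⟩, Finset.mem_univ _, ?_⟩
    have := eB.left_inv (⟨y, hyB⟩ : Bor F)
    exact congrArg Subtype.val this
  · intro z _
    rfl

theorem sum_units (f : F → ℂ) (h0 : f 0 = 0) : ∑ a : Fˣ, f a = ∑ a : F, f a := by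
  rw [← Finset.sum_erase (a := 0) _ h0]
  apply Finset.sum_bij (fun (a : Fˣ) _ => (a : F))
  · intro a _
    simp
  · intro a _ b _ h
    exact Units.ext h
  · intro b hb
    have hb0 : b ≠ 0 := (Finset.mem_erase.mp hb).1
    exact ⟨Units.mk0 b hb0, Finset.mem_univ _, rfl⟩
  · intro a _
    rfl

theorem sum_char (χ : MulChar F ℂ) [Decidable (χ = 1)] :
    ∑ a : Fˣ, χ a = if χ = 1 then ((Fintype.card F : ℂ) - 1) else 0 := by
  rw [sum_units (fun a => χ a) (MulChar.map_zero χ)]
  split_ifs with h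
  · rw [h, MulChar.sum_one_eq_card_units, Fintype.card_units]
    have : 1 ≤ Fintype.card F := Fintype.card_pos
    push_cast [Nat.cast_sub this]
    rfl
  · exact MulChar.sum_eq_zero_of_ne_one h

theorem conj_apply_inv (β : MulChar F ℂ) (a : F) : (starRingEnd ℂ) (β a) = β⁻¹ a :=
  MulChar.star_apply' β a

/-- The principal series function. -/
noncomputable abbrev R (β : MulChar F ℂ) : SL(2, F) → ℂ :=
  Cfsg.indFun (Bor F) (fun b => β (((b : SL(2, F)) : Matrix (Fin 2) (Fin 2) F) 0 0))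

theorem mkB_00 (a : Fˣ) (c : F) : (mkB a c : Bor F).1.1 0 0 = a := by
  rw [mkB_coe]; simp
theorem mkB_01 (a : Fˣ) (c : F) : (mkB a c : Bor F).1.1 0 1 = c := by
  rw [mkB_coe]; simp
theorem mkB_10 (a : Fˣ) (c : F) : (mkB a c : Bor F).1.1 1 0 = 0 := by
  rw [mkB_coe]; simp
theorem mkB_11 (a : Fˣ) (c : F) : (mkB a c : Bor F).1.1 1 1 = ((a⁻¹ : Fˣ) : F) := by
  rw [mkB_coe]; simp

theorem R_reg (hodd : Odd (Fintype.card F)) (β : MulChar F ℂ) (a : Fˣ) (c : F) (ha : (a : F) ^ 2 ≠ 1) :
    R β (mkB a c : Bor F) = β a + β ((a⁻¹ : Fˣ) : F) := by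
  have h0 : R β (mkB a 0 : Bor F) = β a + β ((a⁻¹ : Fˣ) : F) := by
    have := (Cfsg.Agent.S2433.result hodd β (mkB a 0 : Bor F)).1 (mkB_01 a 0) (mkB_10 a 0)
      (by rw [mkB_00]; exact ha)
    rw [mkB_00, mkB_11] at this
    exact this
  rw [← h0]
  have hne : (a : F) - ((a⁻¹ : Fˣ) : F) ≠ 0 := by
    intro h
    apply ha
    have h2 : (a : F) = ((a⁻¹ : Fˣ) : F) := sub_eq_zero.1 h
    rw [sq]
    nth_rewrite 2 [h2]
    simp
  have hconj : (x (c / ((a : F) - ((a⁻¹ : Fˣ) : F))) : SL(2, F)) * (mkB a c : Bor F) * (x (c / ((a : F) - ((a⁻¹ : Fˣ) : F))))⁻¹ = (mkB a 0 : Bor F) := by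
    apply ext2
    · simp [mkB_00, mkB_10, mkB_11]
    · simp only [mul_01, mul_00, x_00, x_01, x_10, x_11, x_inv, mkB_00, mkB_01, mkB_10, mkB_11, mul_10, mul_11]
      field_simp
      ring
    · simp [mkB_00, mkB_10, mkB_11]
    · simp [mkB_00, mkB_10, mkB_11]
  rw [← hconj]
  exact (indFun_conj _ _ _ _).symm

theorem R_c (hodd : Odd (Fintype.card F)) (β : MulChar F ℂ) (a : Fˣ) (c : F) (ha : (a : F) ^ 2 = 1)
    (hc : c ≠ 0) : R β (mkB a c : Bor F) = β a := by
  have := (Cfsg.Agent.S2433.result hodd β (mkB a c : Bor F)).2.2.1 (mkB_10 a c)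
    (by rw [mkB_00, mkB_11]; exact eq_inv_of_mul_eq_one_left (by simpa [sq] using ha) |>.trans (by simp))
    (by rw [mkB_01]; exact hc)
  rw [mkB_00] at this
  exact this

theorem R_0 (hodd : Odd (Fintype.card F)) (β : MulChar F ℂ) (a : Fˣ) (ha : (a : F) ^ 2 = 1) :
    R β (mkB a 0 : Bor F) = ((Fintype.card F : ℂ) + 1) * β a := by
  have := (Cfsg.Agent.S2433.result hodd β (mkB a 0 : Bor F)).2.2.2 (mkB_01 a 0) (mkB_10 a 0)
    (by rw [mkB_00, mkB_11]; exact eq_inv_of_mul_eq_one_left (by simpa [sq] using ha) |>.trans (by simp))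
  rw [mkB_00] at this
  exact this

theorem sum_c (hodd : Odd (Fintype.card F)) (β : MulChar F ℂ) (a : Fˣ) :
    ∑ c : F, (starRingEnd ℂ) (R β (mkB a c : Bor F)) = (Fintype.card F : ℂ) * (β⁻¹ a + β a) := by
  have hi : β⁻¹ ((a⁻¹ : Fˣ) : F) = β a := by
    rw [MulChar.inv_apply']
    simp
  by_cases ha : (a : F) ^ 2 = 1
  · have hinv : ((a⁻¹ : Fˣ) : F) = a := by
      have : (a : F) * a = 1 := by simpa [sq] using ha
      simpa using (eq_inv_of_mul_eq_one_left this).symm
    rw [hinv] at hi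
    have hterm : ∀ c : F, (starRingEnd ℂ) (R β (mkB a c : Bor F)) =
        β a + (if c = 0 then (Fintype.card F : ℂ) * β a else 0) := by
      intro c
      have hconj : (starRingEnd ℂ) (β a) = β a := by
        rw [conj_apply_inv, hi]
      by_cases hc : c = 0
      · subst hc
        rw [R_0 hodd β a ha, map_mul, map_add, map_one, map_natCast, hconj]
        simp
        ring
      · rw [R_c hodd β a c ha hc, hconj]
        simp [hc]
    simp only [hterm, Finset.sum_add_distrib, Finset.sum_const, Finset.card_univ, nsmul_eq_mul,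
      Finset.sum_ite_eq', Finset.mem_univ, if_true, hi]
    ring
  · have hterm : ∀ c : F, (starRingEnd ℂ) (R β (mkB a c : Bor F)) = β⁻¹ a + β a := by
      intro c
      rw [R_reg hodd β a c ha, map_add, conj_apply_inv, conj_apply_inv, hi]
    simp only [hterm, Finset.sum_const, Finset.card_univ, nsmul_eq_mul]

end Main

/-- Let F be a finite field with q elements, q odd, and for a multiplicative character α of F let R(α) be the function on SL₂ induced from the linear character b ↦ α(b₁₁) of the upper triangular subgroup. For multiplicative characters α, β the inner product of R(α) and R(β) equals the number of true statements among 'α = β' and 'α = β⁻¹' (the Mackey formula for the upper triangular subgroup, whose intersection with a conjugate by the Weyl element is the diagonal subgroup). -/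
theorem result {F : Type*} [Field F] [Fintype F] [DecidableEq F] (hodd : Odd (Fintype.card F))
    (α β : MulChar F ℂ) [Decidable (α = β)] [Decidable (α = β⁻¹)] :
    Cfsg.classInner (Cfsg.indFun ((Cfsg.upperTriangularGL 2 F).comap Matrix.SpecialLinearGroup.toGL) (fun b => α (((b : Matrix.SpecialLinearGroup (Fin 2) F) : Matrix (Fin 2) (Fin 2) F) 0 0))) (Cfsg.indFun ((Cfsg.upperTriangularGL 2 F).comap Matrix.SpecialLinearGroup.toGL) (fun b => β (((b : Matrix.SpecialLinearGroup (Fin 2) F) : Matrix (Fin 2) (Fin 2) F) 0 0))) =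
      (if α = β then 1 else 0) + (if α = β⁻¹ then 1 else 0) := by
  classical
  rw [classInner_indFun _ _ _ (indFun_conj _ _)]
  have h1 : ∀ y : SL(2, F), Cfsg.extendByZero (Bor F) (fun b => α (((b : SL(2, F)) : Matrix (Fin 2) (Fin 2) F) 0 0)) y * (starRingEnd ℂ) (R β y) =
      if y.1 1 0 = 0 then α (y.1 0 0) * (starRingEnd ℂ) (R β y) else 0 := by
    intro y
    rw [extend_eq]
    split_ifs <;> simp
  have h2 : (∑ y : SL(2, F), Cfsg.extendByZero (Bor F) (fun b => α (((b : SL(2, F)) : Matrix (Fin 2) (Fin 2) F) 0 0)) y * (starRingEnd ℂ) (R β y)) =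
      (Fintype.card F : ℂ) * (∑ a : Fˣ, (α * β⁻¹) a + ∑ a : Fˣ, (α * β) a) := by
    simp only [h1]
    rw [sum_upper (fun y => α (y.1 0 0) * (starRingEnd ℂ) (R β y)), Fintype.sum_prod_type]
    rw [← Finset.sum_add_distrib, Finset.mul_sum]
    apply Finset.sum_congr rfl
    intro a _
    simp only [mkB_00]
    rw [← Finset.mul_sum, sum_c hodd β a, MulChar.mul_apply, MulChar.mul_apply]
    ring
  have hB : Nat.card (Bor F) = (Fintype.card F - 1) * Fintype.card F := card_Bor
  have hq : 1 < Fintype.card F := Fintype.one_lt_card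
  have hq0 : (Fintype.card F : ℂ) ≠ 0 := by
    rw [Nat.cast_ne_zero]
    omega
  have hq1 : (Fintype.card F : ℂ) - 1 ≠ 0 := by
    rw [sub_ne_zero]
    intro h
    have : Fintype.card F = 1 := by exact_mod_cast h
    omega
  have hBc : (Nat.card (Bor F) : ℂ) = ((Fintype.card F : ℂ) - 1) * (Fintype.card F : ℂ) := by
    rw [hB]
    push_cast [Nat.cast_sub hq.le]
    rfl
  show (Nat.card (Bor F) : ℂ)⁻¹ * ∑ y : SL(2, F), Cfsg.extendByZero (Bor F) (fun b => α (((b : SL(2, F)) : Matrix (Fin 2) (Fin 2) F) 0 0)) y * (starRingEnd ℂ) (R β y) = _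
  rw [h2, hBc, sum_char, sum_char]
  rw [if_congr (mul_inv_eq_one (a := α) (b := β)) rfl rfl,
    if_congr (mul_eq_one_iff_eq_inv (a := α) (b := β)) rfl rfl]
  split_ifs <;> field_simp <;> ring

end Cfsg.Agent.S2432
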