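import Cfsg.Statements.S2434
import Mathlib
import Cfsg.Agent.Lib.Char.SL2Cusp
import Cfsg.Agent.S2322

set_option autoImplicit false
open Cfsg
open Cfsg.Agent.Lib.Char.SL2Cusp Cfsg.Agent.Lib.Char.SL2Half Cfsg.Agent.Lib.PSL2.Basic Cfsg.Agent.Lib.PSL2.Conj
open scoped MatrixGroups

namespace Cfsg.Agent.S2434

/-- The case `q = 3`. -/
theorem case_three {F : Type*} [Field F] [Fintype F] [DecidableEq F] (hq3 : Fintype.card F = 3)
    {C : Subgroup SL(2, F)} (hT : NS C) (hC : IsCyclic C)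
    {χ : SL(2, F) → ℂ} (hχ : IsIrrCharacter _ χ) (hd : χ 1 = (Fintype.card F : ℂ) - 1) :
    ∃ θ : C →* ℂˣ, (∃ c : C, θ c ^ 2 ≠ 1) ∧ ∀ c : C, (c : SL(2, F)) ∉ Subgroup.center SL(2, F) →
      χ c = -((θ c).val + (θ c)⁻¹.val) := by
  classical
  have hodd : Odd (Fintype.card F) := by rw [hq3]; decide
  have h2 : ringChar F ≠ 2 := ringChar_ne_two hodd
  have h20 : (2 : F) ≠ 0 := Ring.two_ne_zero h2
  have hfin : Finite (C →* ℂˣ) := Nat.finite_of_card_ne_zero (by rw [card_hom hT]; omega)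
  letI : Fintype (C →* ℂˣ) := Fintype.ofFinite _
  have hD := card_D_ge hT (T := C)
  rw [hq3] at hD
  obtain ⟨θ, hθ⟩ : (Finset.univ.filter fun θ : C →* ℂˣ => θ ≠ θ⁻¹).Nonempty := by
    rw [← Finset.card_pos]
    omega
  have hθ' := (ne_inv_iff θ).1 (Finset.mem_filter.1 hθ).2
  refine ⟨θ, hθ', fun c hc => ?_⟩
  have hc' : (c : SL(2, F)) ≠ 1 ∧ (c : SL(2, F)) ≠ -1 := by
    constructor
    · intro h
      exact hc (mem_center_iff₂.2 (Or.inl h))
    · intro h
      exact hc (mem_center_iff₂.2 (Or.inr h))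
  have hne := hT.ell c c.2 hc'.1 hc'.2
  have h0 : χ c = 0 := by
    refine (Cfsg.Agent.S2322.result hodd χ hχ c).2 (Or.inr ?_) (fun a v hv hgv => hne a (Cfsg.Agent.Lib.Char.SL2Cusp.isEig_of_eigvec hv hgv))
    rw [hd, hq3]
    norm_num
  rw [h0]
  -- the trace of a non-central element vanishes
  have htr : ∀ c : C, (c : SL(2, F)) ≠ 1 → (c : SL(2, F)) ≠ -1 → c * c = zt hT := by
    intro c h1 hm
    apply Subtype.ext
    show (c : SL(2, F)) * (c : SL(2, F)) = -1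
    rw [Cfsg.Agent.Lib.PSL2.Torus.mul_self_eq_neg_one_iff]
    by_contra h0
    apply tr_sq_ne_of_mem hT h20 c.2 h1 hm
    have h6 := FiniteField.pow_card_sub_one_eq_one _ h0
    rw [hq3] at h6
    have h3F : (3 : F) = 0 := by
      have := FiniteField.cast_card_eq_zero F
      rw [hq3] at this
      exact_mod_cast this
    have h6' : tr (c : SL(2, F)) ^ 2 = 1 := h6
    rw [h6']
    linear_combination -h3F
  obtain ⟨c₀, hc₀⟩ := hθ'
  have hc₀' : (c₀ : SL(2, F)) ≠ 1 ∧ (c₀ : SL(2, F)) ≠ -1 := by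
    constructor
    · intro h
      apply hc₀
      have e : c₀ = 1 := Subtype.ext h
      rw [e]
      simp
    · intro h
      apply hc₀
      have e : c₀ = zt hT := Subtype.ext h
      rw [e]
      apply Units.ext
      rw [sq, Units.val_mul, unit_zt_sq]
      rfl
  have h5 : θ (zt hT) ^ 1 ≠ 1 := by
    rw [← htr c₀ hc₀'.1 hc₀'.2, map_mul, ← sq, pow_one]
    exact hc₀
  have h6 := unit_zt_sq hT θ
  have h7 : ((θ (zt hT) : ℂˣ) : ℂ) - 1 ≠ 0 := by
    intro h
    apply h5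
    apply Units.ext
    simp only [pow_one, Units.val_one]
    linear_combination h
  have h8 : ((θ (zt hT) : ℂˣ) : ℂ) + 1 = 0 := by
    have : (((θ (zt hT) : ℂˣ) : ℂ) - 1) * (((θ (zt hT) : ℂˣ) : ℂ) + 1) = 0 := by linear_combination h6
    exact (mul_eq_zero.1 this).resolve_left h7
  have h9 : ((θ c : ℂˣ) : ℂ) * ((θ c : ℂˣ) : ℂ) = ((θ (zt hT) : ℂˣ) : ℂ) := by
    rw [← htr c hc'.1 hc'.2, map_mul, Units.val_mul]
  have h10 : ((θ c)⁻¹).val = ((θ c : ℂˣ) : ℂ)⁻¹ := Units.val_inv_eq_inv_val _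
  rw [h10]
  have h11 : ((θ c : ℂˣ) : ℂ) ≠ 0 := (θ c).ne_zero
  have h12 : ((θ c : ℂˣ) : ℂ) * ((θ c : ℂˣ) : ℂ) + 1 = 0 := by
    rw [h9]
    exact h8
  have h13 : ((θ c : ℂˣ) : ℂ) + ((θ c : ℂˣ) : ℂ)⁻¹ = 0 := by
    field_simp
    linear_combination h12
  rw [h13]
  simp

/-- Let F be a finite field with q elements, q odd, and C a cyclic subgroup of order q + 1 of SL₂ over F (a non-split torus; it contains the centre). For every homomorphism θ from C to the non-zero complex numbers with θ² ≠ 1 there is an irreducible complex character χ of degree q − 1 such that χ(c) = −θ(c) − θ(c)⁻¹ for every non-central c in C, χ(zg) = θ(z)χ(g) for central z in C, χ vanishes at diagonal elements with entry a, a² ≠ 1, and χ takes the value −1 at every upper unitriangular element other than 1. Conversely every irreducible character of degree q − 1 has, for some such θ, the values −θ(c) − θ(c)⁻¹ at the non-central elements c of C (for q ≥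 5 these are exactly the cuspidal characters of degree q − 1). -/
theorem result {F : Type*} [Field F] [Fintype F] (hodd : Odd (Fintype.card F))
    (C : Subgroup (Matrix.SpecialLinearGroup (Fin 2) F)) (hC : IsCyclic C) (hcard : Nat.card C = Fintype.card F + 1) :
    (∀ θ : C →* ℂˣ, (∃ c : C, θ c ^ 2 ≠ 1) →
      ∃ χ : Matrix.SpecialLinearGroup (Fin 2) F → ℂ, Cfsg.IsIrrCharacter (Matrix.SpecialLinearGroup (Fin 2) F) χ ∧ χ 1 = (Fintype.card F : ℂ) - 1 ∧
        (∀ c : C, (c : Matrix.SpecialLinearGroup (Fin 2) F) ∉ Subgroup.center (Matrix.SpecialLinearGroup (Fin 2) F) → χ c = -((θ c).val + (θ c)⁻¹.val)) ∧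
        (∀ c : C, (c : Matrix.SpecialLinearGroup (Fin 2) F) ∈ Subgroup.center (Matrix.SpecialLinearGroup (Fin 2) F) → ∀ g : Matrix.SpecialLinearGroup (Fin 2) F, χ ((c : Matrix.SpecialLinearGroup (Fin 2) F) * g) = (θ c).val * χ g) ∧
        (∀ g : Matrix.SpecialLinearGroup (Fin 2) F, (g : Matrix (Fin 2) (Fin 2) F) 0 1 = 0 → (g : Matrix (Fin 2) (Fin 2) F) 1 0 = 0 → (g : Matrix (Fin 2) (Fin 2) F) 0 0 ^ 2 ≠ 1 → χ g = 0) ∧
        (∀ g : Matrix.SpecialLinearGroup (Fin 2) F, (g : Matrix (Fin 2) (Fin 2) F) 1 0 = 0 → (g : Matrix (Fin 2) (Fin 2) F) 0 0 = 1 → (g : Matrix (Fin 2) (Fin 2) F) 1 1 = 1 → (g : Matrix (Fin 2) (Fin 2) F) 0 1 ≠ 0 → χ g = -1)) ∧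
    (∀ χ : Matrix.SpecialLinearGroup (Fin 2) F → ℂ, Cfsg.IsIrrCharacter (Matrix.SpecialLinearGroup (Fin 2) F) χ → χ 1 = (Fintype.card F : ℂ) - 1 →
      ∃ θ : C →* ℂˣ, (∃ c : C, θ c ^ 2 ≠ 1) ∧
        ∀ c : C, (c : Matrix.SpecialLinearGroup (Fin 2) F) ∉ Subgroup.center (Matrix.SpecialLinearGroup (Fin 2) F) → χ c = -((θ c).val + (θ c)⁻¹.val)) := by
  classical
  have hT := NS_of_cyclic C hC hcard
  have h2 : ringChar F ≠ 2 := ringChar_ne_two hodd
  have h20 : (2 : F) ≠ 0 := Ring.two_ne_zero h2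
  have hodd' := Nat.odd_iff.1 hodd
  have hq2 : 1 < Fintype.card F := Fintype.one_lt_card
  have hcentral : ∀ c : C, (c : SL(2, F)) ∉ Subgroup.center SL(2, F) →
      (c : SL(2, F)) ≠ 1 ∧ (c : SL(2, F)) ≠ -1 := by
    intro c hc
    constructor
    · intro h
      exact hc (mem_center_iff₂.2 (Or.inl h))
    · intro h
      exact hc (mem_center_iff₂.2 (Or.inr h))
  constructor
  · intro θ hθ
    have hθ' := (ne_inv_iff θ).2 hθ
    obtain ⟨γ, hγ⟩ := exists_gam hT h20 θ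
    have hirr := isIrr_RR hT h2 θ hθ' γ hγ
    refine ⟨RR C θ γ, hirr, RR_one hT θ γ, ?_, ?_, ?_, ?_⟩
    · intro c hc
      have hc' := hcentral c hc
      exact RR_reg hT h20 θ γ c.2 hc'.1 hc'.2
    · intro c hc g
      exact RR_mul_central hT θ γ hγ hirr c (mem_center_iff₂.1 hc) g
    · intro g h01 _ hsq
      exact RR_diag hT θ γ h01 hsq
    · intro g h10 h00 h11 h01
      exact RR_unip hT θ γ h10 h00 h11 h01
  · intro χ hχ hd
    by_cases hq3 : Fintype.card F = 3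
    · exact case_three hq3 hT hC hχ hd
    · have hq5 : 5 ≤ Fintype.card F := by omega
      obtain ⟨θ, γ, hθ, hγ, rfl⟩ := exists_RR_of_deg hT h2 hq5 hχ hd
      refine ⟨θ, (ne_inv_iff θ).1 hθ, fun c hc => ?_⟩
      have hc' := hcentral c hc
      exact RR_reg hT h20 θ γ c.2 hc'.1 hc'.2

end Cfsg.Agent.S2434
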