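import Cfsg.Statements.S2435
import Mathlib
import Cfsg.Agent.Lib.Char.SL2Cusp2

set_option autoImplicit false
open Cfsg
open Cfsg.Agent.Lib.Char.SL2Cusp Cfsg.Agent.Lib.Char.SL2Cusp2 Cfsg.Agent.Lib.Char.SL2Half Cfsg.Agent.Lib.Char.SL2Irr
open Cfsg.Agent.Lib.Char.SL2Count Cfsg.Agent.Lib.PSL2.Basic Cfsg.Agent.Lib.PSL2.Conj Cfsg.Agent.Lib.Char.Basic
open scoped MatrixGroups

namespace Cfsg.Agent.S2435

/-- Let F be a finite field with q elements, q odd and q ≥ 5, and χ an irreducible complex character of SL₂ over F. If χ has degree (q + 1)/2, then at a diagonal element with entry a, a² ≠ 1, χ takes the value 1 when a is a square in F and −1 otherwise. If χ has degree (q − 1)/2, then at an element g with no eigenvector in F² (so g has order dividing q + 1), χ takes the value −1 when g raised to the power (q + 1)/2 is the identity and the value 1 otherwise. -/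
theorem result {F : Type*} [Field F] [Fintype F] (hodd : Odd (Fintype.card F)) (hq : 5 ≤ Fintype.card F)
    (χ : Matrix.SpecialLinearGroup (Fin 2) F → ℂ) (hχ : Cfsg.IsIrrCharacter (Matrix.SpecialLinearGroup (Fin 2) F) χ) (g : Matrix.SpecialLinearGroup (Fin 2) F) :
    (χ 1 = (((Fintype.card F + 1) / 2 : ℕ) : ℂ) → (g : Matrix (Fin 2) (Fin 2) F) 0 1 = 0 → (g : Matrix (Fin 2) (Fin 2) F) 1 0 = 0 → (g : Matrix (Fin 2) (Fin 2) F) 0 0 ^ 2 ≠ 1 →
      (IsSquare ((g : Matrix (Fin 2) (Fin 2) F) 0 0) → χ g = 1) ∧ (¬ IsSquare ((g : Matrix (Fin 2) (Fin 2) F) 0 0) → χ g = -1)) ∧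
    (χ 1 = (((Fintype.card F - 1) / 2 : ℕ) : ℂ) → (∀ (c : F) (v : Fin 2 → F), v ≠ 0 → (g : Matrix (Fin 2) (Fin 2) F).mulVec v ≠ c • v) →
      (((g ^ ((Fintype.card F + 1) / 2)) : Matrix (Fin 2) (Fin 2) F) = 1 → χ g = -1) ∧ (((g ^ ((Fintype.card F + 1) / 2)) : Matrix (Fin 2) (Fin 2) F) ≠ 1 → χ g = 1)) := by
  classical
  have h2 : ringChar F ≠ 2 := ringChar_ne_two hodd
  have h20 : (2 : F) ≠ 0 := Ring.two_ne_zero h2
  have hodd' := Nat.odd_iff.1 hodd
  have htwo : (2 : ℂ) ≠ 0 := two_ne_zero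
  refine ⟨?_, ?_⟩
  · intro hd h01 h10 hsq
    obtain ⟨γ, hγ2, hγ1, χ', hχ', hne, hsum, y, hy⟩ := half_plus_case hodd hq hχ hd
    have hγe : γ = eta F := (sq_one_cases h2 hγ2).resolve_left hγ1
    have htr := tr_sq_ne_of_diag h01 hsq
    have h3 := congrFun hsum g
    simp only [Pi.add_apply] at h3
    rw [indS_diag γ g h01 h10 hsq, eq_of_tr_pair hχ' hy htr, hγe] at h3
    have hdd := det_entries g
    rw [h01, zero_mul, sub_zero] at hdd
    have h00 : g.1 0 0 ≠ 0 := left_ne_zero_of_mul_eq_one hdd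
    have h11 : g.1 1 1 ≠ 0 := right_ne_zero_of_mul_eq_one hdd
    have h4 : eta F (g.1 0 0) * eta F (g.1 1 1) = 1 := by
      rw [← map_mul, hdd, map_one]
    have h5 : eta F (g.1 0 0) * eta F (g.1 0 0) = 1 := by
      rw [eta_apply]
      have := quadraticChar_sq_one h00
      have h6 : ((quadraticChar F (g.1 0 0) : ℤ) : ℂ) ^ 2 = 1 := by exact_mod_cast this
      rw [← sq, h6]
    have h6 : eta F (g.1 1 1) = eta F (g.1 0 0) := by
      have h7 : eta F (g.1 0 0) * (eta F (g.1 1 1) - eta F (g.1 0 0)) = 0 := by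
        linear_combination h4 - h5
      have h8 : eta F (g.1 0 0) ≠ 0 := by
        intro h
        rw [h] at h5
        simp at h5
      exact sub_eq_zero.1 ((mul_eq_zero.1 h7).resolve_left h8)
    rw [h6] at h3
    have h9 : χ g = eta F (g.1 0 0) := by
      have h10 : 2 * (χ g - eta F (g.1 0 0)) = 0 := by linear_combination -h3
      exact sub_eq_zero.1 ((mul_eq_zero.1 h10).resolve_left htwo)
    rw [h9, eta_apply]
    constructor
    · intro hs
      rw [(quadraticChar_one_iff_isSquare h00).2 hs]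
      simp
    · intro hs
      rw [quadraticChar_neg_one_iff_not_isSquare.2 hs]
      simp
  · intro hd hg
    have hno : ∀ a, ¬ IsEig g a := by
      intro a ha
      obtain ⟨v0, v1, hv, h1, h3⟩ := exists_eigvec ha
      apply hg a ![v0, v1]
      · intro h
        have h5 := congrFun h 0
        have h6 := congrFun h 1
        simp at h5 h6
        rcases hv with hv | hv
        · exact hv h5
        · exact hv h6
      · ext i
        fin_cases i
        · simpa [Matrix.mulVec, dotProduct, Fin.sum_univ_two] using h1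
        · simpa [Matrix.mulVec, dotProduct, Fin.sum_univ_two] using h3
    obtain ⟨T₀, hT₀, hcyc, hc₀, hell, hconj⟩ := Cfsg.Agent.Lib.PSL2.Nonsplit.exists_nonsplit F
    have hT : NS T₀ := ⟨hT₀, hc₀, hell⟩
    haveI := hcyc
    obtain ⟨k, hk⟩ := hconj g hno
    have h1 : k * g * k⁻¹ ≠ 1 := by
      intro h
      have e : g = 1 := by
        have : k⁻¹ * (k * g * k⁻¹) * k = k⁻¹ * 1 * k := by rw [h]
        simpa [mul_assoc] using this
      rw [e] at hno
      exact hno 1 Cfsg.Agent.Lib.PSL2.Nonsplit.isEig_one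
    have hm : k * g * k⁻¹ ≠ -1 := by
      intro h
      have e : g = -1 := by
        have : k⁻¹ * (k * g * k⁻¹) * k = k⁻¹ * (-1) * k := by rw [h]
        simpa [mul_assoc] using this
      rw [e] at hno
      exact hno (-1) Cfsg.Agent.Lib.PSL2.Nonsplit.isEig_neg_one
    obtain ⟨θ, hθ, hc, χ', hχ', hne, hsum, y, hy⟩ := half_minus_case hodd hq hχ hd
    have hd' : χ' 1 = (((Fintype.card F - 1) / 2 : ℕ) : ℂ) := by
      rw [deg_of_conj hy, hd]
    obtain ⟨γ, hγ⟩ := exists_gam hT h20 (quadT hT h2)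
    have hR := RR_quad_eq hT h2 hq hχ hχ' hne hd hd' γ hγ
    have h3 := congrFun hR (k * g * k⁻¹)
    simp only [Pi.add_apply] at h3
    rw [RR_reg hT h20 (quadT hT h2) γ hk h1 hm, eq_of_tr_pair hχ' hy (tr_sq_ne_of_mem hT h20 hk h1 hm),
      isClassFunction_of_isCharacter (isCharacter_of_isIrrCharacter hχ) g k, quadT_apply] at h3
    unfold quadFun at h3
    have hpow : (k * g * k⁻¹) ^ ((Fintype.card F + 1) / 2) = k * g ^ ((Fintype.card F + 1) / 2) * k⁻¹ :=
      conj_pow
    have hcoe : ((g ^ ((Fintype.card F + 1) / 2) : SL(2, F)) : Matrix (Fin 2) (Fin 2) F)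
        = (g : Matrix (Fin 2) (Fin 2) F) ^ ((Fintype.card F + 1) / 2) :=
      Matrix.SpecialLinearGroup.coe_pow _ _
    constructor
    · intro hgm
      have hgm' : g ^ ((Fintype.card F + 1) / 2) = 1 := by
        apply Subtype.ext
        rw [hcoe, hgm]
        rfl
      simp only [hpow, hgm'] at h3
      simp at h3
      have h10 : 2 * (χ g + 1) = 0 := by linear_combination -h3
      have h11 := (mul_eq_zero.1 h10).resolve_left htwo
      linear_combination h11
    · intro hgm
      have hgm' : g ^ ((Fintype.card F + 1) / 2) ≠ 1 := by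
        intro h
        apply hgm
        rw [← hcoe, h]
        rfl
      have hgm'' : k * g ^ ((Fintype.card F + 1) / 2) * k⁻¹ ≠ 1 := by
        intro h
        apply hgm'
        have : k⁻¹ * (k * g ^ ((Fintype.card F + 1) / 2) * k⁻¹) * k = k⁻¹ * 1 * k := by rw [h]
        simpa [mul_assoc] using this
      simp only [hpow, if_neg hgm''] at h3
      simp at h3
      have h10 : 2 * (χ g - 1) = 0 := by linear_combination -h3
      have h11 := (mul_eq_zero.1 h10).resolve_left htwo
      linear_combination h11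

end Cfsg.Agent.S2435
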