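import Cfsg.Statements.S2436
import Mathlib
import Cfsg.Agent.Lib.Char.SL2Degrees
import Cfsg.Agent.Lib.Char.LinearChars
import Cfsg.Agent.Lib.Char.AbelianQuot
import Cfsg.Agent.Lib.Char.CliffordCorr
import Cfsg.Agent.Lib.Char.DegreeDvd
import Cfsg.Agent.Lib.Char.CompleteCor
import Cfsg.Agent.Lib.PSL2.SylowU
import Cfsg.Agent.Lib.PSL2.TorusSylow
import Cfsg.Agent.Lib.PSL2.MemberCyc
import Cfsg.Agent.S2431
import Cfsg.Agent.S2437

set_option autoImplicit false
open Cfsg

namespace Cfsg.Agent.S2436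

open Cfsg.Agent.Lib.Char.Basic Cfsg.Agent.Lib.Char.SL2Degrees Cfsg.Agent.Lib.Char.SL2Count
open Cfsg.Agent.Lib.Char.LinearChars
open Matrix Matrix.SpecialLinearGroup
open scoped MatrixGroups

/-- The number of irreducible characters of degree prime to `ℓ`. -/
noncomputable abbrev mc (ℓ : ℕ) (X : Type*) [Group X] : ℕ :=
  Nat.card {χ : IrrCharacter X // ¬ ℓ ∣ charDegree (χ : X → ℂ)}

theorem mc_congr {X Y : Type*} [Group X] [Group Y] (e : X ≃* Y) (ℓ : ℕ) : mc ℓ X = mc ℓ Y := by
  have h1 : ∀ χ : IrrCharacter X, charDegree (fun y => (χ : X → ℂ) (e.symm y)) = charDegree (χ : X → ℂ) := by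
    intro χ
    unfold charDegree
    simp
  have h2 : ∀ χ : IrrCharacter Y, charDegree (fun x => (χ : Y → ℂ) (e x)) = charDegree (χ : Y → ℂ) := by
    intro χ
    unfold charDegree
    simp
  refine Nat.card_congr
    { toFun := fun χ => ⟨⟨fun y => χ.1.1 (e.symm y),
        isIrrCharacter_comp_surjective χ.1.2 e.symm.toMonoidHom e.symm.surjective⟩, by
          have := h1 χ.1
          show ¬ ℓ ∣ charDegree (fun y => (χ.1 : X → ℂ) (e.symm y))
          rw [this]
          exact χ.2⟩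
      invFun := fun χ => ⟨⟨fun x => χ.1.1 (e x),
        isIrrCharacter_comp_surjective χ.1.2 e.toMonoidHom e.surjective⟩, by
          have := h2 χ.1
          show ¬ ℓ ∣ charDegree (fun x => (χ.1 : Y → ℂ) (e x))
          rw [this]
          exact χ.2⟩
      left_inv := ?_
      right_inv := ?_ }
  · intro χ
    apply Subtype.ext
    apply Subtype.ext
    funext x
    simp
  · intro χ
    apply Subtype.ext
    apply Subtype.ext
    funext x
    simp

theorem mc_of_all {X : Type*} [Group X] [Finite X] (ℓ : ℕ)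
    (h : ∀ χ : IrrCharacter X, ¬ ℓ ∣ charDegree (χ : X → ℂ)) :
    mc ℓ X = Nat.card (ConjClasses X) := by
  rw [mc, Nat.card_congr (Equiv.subtypeUnivEquiv h),
    Cfsg.Agent.Lib.Char.CompleteCor.card_irr_eq_card_conjClasses]

/-- Itô's theorem. -/
theorem deg_dvd_index {X : Type*} [Group X] [Finite X] (A : Subgroup X) [A.Normal]
    (hab : ∀ a ∈ A, ∀ b ∈ A, a * b = b * a) (χ : IrrCharacter X) :
    charDegree (χ : X → ℂ) ∣ A.index := by
  classical
  cases nonempty_fintype X
  letI : Fintype A := Fintype.ofFinite _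
  have hres := isCharacter_restrict (isCharacter_of_isIrrCharacter χ.2) A
  have h1 : (fun n : A => (χ : X → ℂ) n) 1 ≠ 0 := by
    simpa using Cfsg.Agent.Lib.Char.Ortho.irr_apply_one_ne_zero χ.2
  obtain ⟨φ, hφ, hc⟩ := Cfsg.Agent.Lib.Char.CliffordCorr.exists_irr_constituent hres h1
  obtain ⟨e, he, hdvd⟩ := Cfsg.Agent.Lib.Char.DegreeDvd.exists_degree_ratio A χ.2 hφ hc
  have hφ1 : φ 1 = 1 := by
    obtain ⟨m, ρ, hρ, rfl⟩ := hφ
    haveI := hρ
    have hm := Cfsg.Agent.Lib.Char.AbelianQuot.finrank_eq_one_of_commuting ρ (fun x y => by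
      have h2 : x * y = y * x := Subtype.ext (hab x x.2 y y.2)
      rw [← Module.End.mul_eq_comp, ← Module.End.mul_eq_comp, ← map_mul, ← map_mul, h2])
    rw [Representation.char_one, hm]
    simp
  have hdeg : charDegree (χ : X → ℂ) = e := by
    apply charDegree_of_val
    rw [he, hφ1, mul_one]
  rw [hdeg]
  exact hdvd

theorem mc_eq_sum {X : Type*} [Group X] [Finite X] (ℓ : ℕ) (D : Finset ℕ)
    (hD : ∀ χ : IrrCharacter X, charDegree (χ : X → ℂ) ∈ D) :
    mc ℓ X = ∑ d ∈ D, if ℓ ∣ d then 0 else Nat.card {χ : IrrCharacter X // χ.1 1 = (d : ℂ)} := by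
  classical
  letI : Fintype (IrrCharacter X) := Fintype.ofFinite _
  have h1 : mc ℓ X = (Finset.univ.filter fun χ : IrrCharacter X => ¬ ℓ ∣ charDegree (χ : X → ℂ)).card := by
    rw [mc, Nat.card_eq_fintype_card, Fintype.card_subtype]
  rw [h1, Finset.card_eq_sum_card_fiberwise (f := fun χ : IrrCharacter X => charDegree (χ : X → ℂ)) (t := D)
    (fun χ _ => hD χ)]
  refine Finset.sum_congr rfl fun d _ => ?_
  split_ifs with hdv
  · rw [Finset.card_eq_zero]
    ext χ
    simp only [Finset.mem_filter, Finset.mem_univ, true_and, Finset.notMem_empty, iff_false, not_and]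
    intro h3 h4
    apply h3
    rw [h4]
    exact hdv
  · rw [Nat.card_eq_fintype_card, Fintype.card_subtype]
    congr 1
    ext χ
    simp only [Finset.mem_filter, Finset.mem_univ, true_and]
    constructor
    · rintro ⟨-, h4⟩
      rw [← h4]
      exact degree_eq χ.2
    · intro h4
      have h5 : charDegree (χ : X → ℂ) = d := charDegree_of_val h4
      exact ⟨by rw [h5]; exact hdv, h5⟩

/-- If every degree divides a number prime to `ℓ`. -/
theorem not_dvd_of_dvd {X : Type*} [Group X] [Finite X] (A : Subgroup X) [A.Normal]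
    (hab : ∀ a ∈ A, ∀ b ∈ A, a * b = b * a) {ℓ : ℕ} (hℓ : ¬ ℓ ∣ A.index) (χ : IrrCharacter X) :
    ¬ ℓ ∣ charDegree (χ : X → ℂ) :=
  fun h => hℓ (h.trans (deg_dvd_index A hab χ))


section Two

open scoped commutatorElement

/-- The index of the commutator subgroup of a generalized quaternion group. -/
theorem comm_index_four {X : Type*} [Group X] [Finite X] (k : ℕ) (A B : X)
    (hcard : Nat.card X = 4 * 2 ^ k) (hord : orderOf A = 2 * 2 ^ k) (hinv : B * A * B⁻¹ = A⁻¹)
    (hcases : ∀ x : X, (∃ i : ℕ, x = A ^ i) ∨ (∃ i : ℕ, x = B * A ^ i)) :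
    (commutator X).index = 4 := by
  classical
  have hA2 : ∀ x : X, x * A ^ 2 * x⁻¹ ∈ Subgroup.zpowers (A ^ 2) := by
    intro x
    rcases hcases x with ⟨i, rfl⟩ | ⟨i, rfl⟩
    · have : A ^ i * A ^ 2 * (A ^ i)⁻¹ = A ^ 2 := by
        rw [(Commute.pow_pow_self A i 2).eq]
        group
      rw [this]
      exact Subgroup.mem_zpowers _
    · have h1 : B * A ^ i * A ^ 2 * (B * A ^ i)⁻¹ = B * A ^ 2 * B⁻¹ := by
        have : A ^ i * A ^ 2 * (A ^ i)⁻¹ = A ^ 2 := by
          rw [(Commute.pow_pow_self A i 2).eq]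
          group
        calc B * A ^ i * A ^ 2 * (B * A ^ i)⁻¹ = B * (A ^ i * A ^ 2 * (A ^ i)⁻¹) * B⁻¹ := by group
          _ = _ := by rw [this]
      have h2 : B * A ^ 2 * B⁻¹ = (A ^ 2)⁻¹ := by
        have : B * A ^ 2 * B⁻¹ = (B * A * B⁻¹) ^ 2 := by
          rw [conj_pow]
        rw [this, hinv]
        group
      rw [h1, h2]
      exact Subgroup.inv_mem _ (Subgroup.mem_zpowers _)
  let Z : Subgroup X := Subgroup.zpowers (A ^ 2)
  haveI hZn : Z.Normal := by
    constructor
    intro n hn g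
    obtain ⟨m, rfl⟩ := Subgroup.mem_zpowers_iff.1 hn
    have : g * (A ^ 2) ^ m * g⁻¹ = (g * A ^ 2 * g⁻¹) ^ m := by
      rw [conj_zpow]
    rw [this]
    exact Subgroup.zpow_mem _ (hA2 g) m
  have hZcard : Nat.card Z = 2 ^ k := by
    rw [Nat.card_zpowers, orderOf_pow_of_dvd (by norm_num) (by rw [hord]; exact Dvd.intro _ rfl), hord]
    simp
  have hZidx : Z.index = 4 := by
    have h1 := Z.card_mul_index
    rw [hZcard, hcard] at h1
    have h2 : 0 < 2 ^ k := by positivity
    have h3 : 2 ^ k * Z.index = 2 ^ k * 4 := by rw [h1]; ring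
    exact Nat.eq_of_mul_eq_mul_left h2 h3
  have hle1 : Z ≤ commutator X := by
    rw [Subgroup.zpowers_le]
    have h1 : ⁅B, A⁆ = (A ^ 2)⁻¹ := by
      rw [commutatorElement_def, hinv]
      group
    have h2 : ⁅B, A⁆ ∈ commutator X := by
      rw [commutator_def]
      exact Subgroup.commutator_mem_commutator (Subgroup.mem_top _) (Subgroup.mem_top _)
    rw [h1] at h2
    simpa using Subgroup.inv_mem _ h2
  have hle2 : commutator X ≤ Z := by
    have hcardQ : Nat.card (X ⧸ Z) = 2 ^ 2 := by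
      rw [← Subgroup.index_eq_card, hZidx]
      norm_num
    have hcomm := IsPGroup.commutative_of_card_eq_prime_sq (p := 2) (G := X ⧸ Z) hcardQ
    rw [commutator_def, Subgroup.commutator_le]
    intro a _ b _
    rw [← QuotientGroup.eq_one_iff, commutatorElement_def]
    simp only [QuotientGroup.mk_mul, QuotientGroup.mk_inv]
    rw [hcomm (a : X ⧸ Z) (b : X ⧸ Z)]
    group
  rw [le_antisymm hle2 hle1, hZidx]

theorem deg_dvd_card {X : Type*} [Group X] [Finite X] (χ : IrrCharacter X) :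
    charDegree (χ : X → ℂ) ∣ Nat.card X := by
  have := deg_dvd_index (⊥ : Subgroup X) (by
    intro a ha b hb
    rw [Subgroup.mem_bot] at ha hb
    rw [ha, hb]) χ
  simpa [Subgroup.index_bot] using this

/-- In a `2`-group the characters of odd degree are the linear ones. -/
theorem mc_two_pgroup {X : Type*} [Group X] [Finite X] (hX : IsPGroup 2 X) :
    mc 2 X = (commutator X).index := by
  rw [← card_linear_chars]
  refine Nat.card_congr (Equiv.subtypeEquivRight fun χ => ?_)
  obtain ⟨n, hn⟩ := IsPGroup.iff_card.1 hX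
  constructor
  · intro h
    have h1 := deg_dvd_card χ
    rw [hn] at h1
    obtain ⟨j, -, hj⟩ := (Nat.dvd_prime_pow Nat.prime_two).1 h1
    have hj0 : j = 0 := by
      by_contra h0
      apply h
      rw [hj]
      exact dvd_pow_self 2 h0
    subst hj0
    have h2 := degree_eq χ.2
    rw [hj] at h2
    simpa using h2
  · intro h h2
    have h3 : charDegree (χ : X → ℂ) = 1 := charDegree_of_val (by simpa using h)
    rw [h3] at h2
    omega

/-- A group of order `24` with commutator quotient of order `3` has four characters of odd degree. -/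
theorem mc_card24 {X : Type*} [Group X] [Finite X] (hX : Nat.card X = 24)
    (hc : (commutator X).index = 3) : mc 2 X = 4 := by
  classical
  cases nonempty_fintype X
  have hdeg : ∀ χ : IrrCharacter X, charDegree (χ : X → ℂ) ∈
      ({1, 2, 3, 4, 6, 8, 12, 24} : Finset ℕ) := by
    intro χ
    have h1 := deg_dvd_card χ
    rw [hX] at h1
    have h2 : charDegree (χ : X → ℂ) ∈ Nat.divisors 24 := by
      rw [Nat.mem_divisors]
      exact ⟨h1, by norm_num⟩
    have h3 : Nat.divisors 24 = {1, 2, 3, 4, 6, 8, 12, 24} := by decide +kernel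
    rwa [h3] at h2
  have hs : ∀ f : ℕ → ℕ, ∑ d ∈ ({1, 2, 3, 4, 6, 8, 12, 24} : Finset ℕ), f d =
      f 1 + f 2 + f 3 + f 4 + f 6 + f 8 + f 12 + f 24 := by
    intro f
    simp [Finset.sum_insert]
    ring
  have h1 := mc_eq_sum 2 _ hdeg
  rw [hs] at h1
  have hD : ∀ χ : IrrCharacter X, Cfsg.Agent.Lib.Char.GL2Count.dN χ ∈
      ({1, 2, 3, 4, 6, 8, 12, 24} : Finset ℕ) := by
    intro χ
    rw [Cfsg.Agent.Lib.Char.GL2Count.dN_eq χ (degree_eq χ.2)]
    exact hdeg χ
  have h2 := sum_card_deg_sq _ hD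
  rw [hs, hX] at h2
  have hl : Nat.card {χ : IrrCharacter X // χ.1 1 = ((1 : ℕ) : ℂ)} = 3 := by
    rw [← hc, ← card_linear_chars]
    refine Nat.card_congr (Equiv.subtypeEquivRight fun χ => ?_)
    simp
  rw [hl] at h2
  rw [h1, if_neg (by norm_num), if_pos (by norm_num), if_neg (by norm_num), if_pos (by norm_num),
    if_pos (by norm_num), if_pos (by norm_num), if_pos (by norm_num), if_pos (by norm_num), hl]
  simp only [Nat.reduceAdd, add_zero, zero_add] at h2 ⊢
  omega

end Two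

section Conj

theorem mc_normalizer_conj {G : Type*} [Group G] (ℓ : ℕ) (H : Subgroup G) (g : G) :
    mc ℓ (Subgroup.normalizer (H : Set G)) =
      mc ℓ (Subgroup.normalizer ((H.map (MulAut.conj g).toMonoidHom : Subgroup G) : Set G)) := by
  have h1 : (Subgroup.normalizer (H : Set G)).map (MulAut.conj g).toMonoidHom =
      Subgroup.normalizer ((H.map (MulAut.conj g).toMonoidHom : Subgroup G) : Set G) :=
    Subgroup.map_equiv_normalizer_eq H (MulAut.conj g)
  rw [← h1]
  exact mc_congr ((Subgroup.normalizer (H : Set G)).equivMapOfInjective _ (MulAut.conj g).injective) ℓ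

theorem mc_sylow_eq {G : Type*} [Group G] [Finite G] (ℓ : ℕ) [Fact ℓ.Prime] (P Q : Sylow ℓ G) :
    mc ℓ (Subgroup.normalizer ((P : Subgroup G) : Set G)) =
      mc ℓ (Subgroup.normalizer ((Q : Subgroup G) : Set G)) := by
  obtain ⟨g, hg⟩ := MulAction.exists_smul_eq G P Q
  rw [← hg]
  exact mc_normalizer_conj ℓ (P : Subgroup G) g

theorem mc_top {G : Type*} [Group G] {K : Subgroup G} (h : K = ⊤) (ℓ : ℕ) : mc ℓ K = mc ℓ G := by
  subst h
  exact mc_congr Subgroup.topEquiv ℓ

end Conj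

section SL2

open Cfsg.Agent.Lib.PSL2.Basic Cfsg.Agent.Lib.PSL2.Torus Cfsg.Agent.Lib.PSL2.TorusCore
open Cfsg.Agent.Lib.PSL2.Nonsplit Cfsg.Agent.Lib.PSL2.TorusSylow Cfsg.Agent.Lib.PSL2.SylowU
open Cfsg.Agent.Lib.PSL2.FourGroup Cfsg.Agent.Lib.PSL2.KleinAut Cfsg.Agent.Lib.PSL2.SylowGens

variable {F : Type*} [Field F] [Fintype F]

theorem ringChar_ne_two (hodd : Odd (Fintype.card F)) : ringChar F ≠ 2 := by
  intro h
  have h2 := two_ne_zero_of_odd_card hodd
  apply h2
  haveI : CharP F 2 := by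
    rw [← h]
    exact ringChar.charP F
  exact CharTwo.two_eq_zero

theorem mc_sl2 (hodd : Odd (Fintype.card F)) (hq : 5 ≤ Fintype.card F) (ℓ : ℕ) :
    mc ℓ SL(2, F) =
      (if ℓ ∣ 1 then 0 else 1) + ((if ℓ ∣ Fintype.card F then 0 else 1) +
      ((if ℓ ∣ Fintype.card F + 1 then 0 else (Fintype.card F - 3) / 2) +
      ((if ℓ ∣ (Fintype.card F + 1) / 2 then 0 else 2) +
      ((if ℓ ∣ Fintype.card F - 1 then 0 else (Fintype.card F - 1) / 2) +
      (if ℓ ∣ (Fintype.card F - 1) / 2 then 0 else 2))))) := by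
  classical
  have h2 := ringChar_ne_two hodd
  obtain ⟨h3, h4, h6⟩ := odd_counts h2 hq
  have h5 := card_half_plus h2 hq
  have h1 := card_deg_one (F := F) (by omega)
  have hq' := card_deg_q (F := F)
  have hodd' := Nat.odd_iff.1 hodd
  have hD : ∀ χ : IrrCharacter (SL(2, F)), charDegree (χ : SL(2, F) → ℂ) ∈
      ({1, Fintype.card F, Fintype.card F + 1, (Fintype.card F + 1) / 2, Fintype.card F - 1,
        (Fintype.card F - 1) / 2} : Finset ℕ) := by
    intro χ
    have := deg_cases χ.2 (degree_eq χ.2)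
    simp only [Finset.mem_insert, Finset.mem_singleton]
    omega
  rw [mc_eq_sum ℓ _ hD]
  rw [Finset.sum_insert (by simp; omega), Finset.sum_insert (by simp; omega),
    Finset.sum_insert (by simp; omega), Finset.sum_insert (by simp; omega),
    Finset.sum_insert (by simp; omega), Finset.sum_singleton, h1, hq', h3, h5, h4, h6]

/-- The left side in the defining characteristic. -/
theorem lhs_char (hodd : Odd (Fintype.card F)) {ℓ : ℕ} (hℓ : ℓ.Prime) (hdvd : ℓ ∣ Fintype.card F) :
    mc ℓ SL(2, F) = Fintype.card F + 3 := by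
  classical
  letI : Fintype (IrrCharacter (SL(2, F))) := Fintype.ofFinite _
  have hk : Nat.card (IrrCharacter (SL(2, F))) = Fintype.card F + 4 := by
    rw [Cfsg.Agent.Lib.Char.CompleteCor.card_irr_eq_card_conjClasses]
    exact Cfsg.Agent.S2325.result hodd
  have hodd' := Nat.odd_iff.1 hodd
  have hq3 : 3 ≤ Fintype.card F := by
    have : 1 < Fintype.card F := Fintype.one_lt_card
    omega
  have hsub : Nat.card {χ : IrrCharacter (SL(2, F)) // ℓ ∣ charDegree (χ : SL(2, F) → ℂ)} = 1 := by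
    rw [← card_deg_q (F := F)]
    refine Nat.card_congr (Equiv.subtypeEquivRight fun χ => ?_)
    constructor
    · intro h
      have hcases := deg_cases χ.2 (degree_eq χ.2)
      have hnot1 : ¬ ℓ ∣ 1 := fun h1 => hℓ.one_lt.ne' (Nat.dvd_one.1 h1)
      have hsub1 : ∀ {a b : ℕ}, ℓ ∣ a → ℓ ∣ b → a = b + 1 → False := by
        intro a b ha hb hab
        apply hnot1
        have := Nat.dvd_sub ha hb
        have e : a - b = 1 := by omega
        rwa [e] at this
      have hdq : charDegree (χ : SL(2, F) → ℂ) = Fintype.card F := by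
        rcases hcases with h1 | h1 | h1 | h1 | h1 | h1
        · rw [h1] at h
          exact absurd h hnot1
        · exact h1
        · rw [h1] at h
          exact (hsub1 h hdvd rfl).elim
        · exact (hsub1 (h.trans (Dvd.intro_left 2 h1)) hdvd rfl).elim
        · exact (hsub1 hdvd h h1.symm).elim
        · exact (hsub1 hdvd (h.trans (Dvd.intro_left 2 rfl)) h1.symm).elim
      rw [degree_eq χ.2, hdq]
    · intro h
      have h1 : charDegree (χ : SL(2, F) → ℂ) = Fintype.card F := charDegree_of_val h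
      rw [h1]
      exact hdvd
  have hsum : Nat.card {χ : IrrCharacter (SL(2, F)) // ¬ ℓ ∣ charDegree (χ : SL(2, F) → ℂ)} +
      Nat.card {χ : IrrCharacter (SL(2, F)) // ℓ ∣ charDegree (χ : SL(2, F) → ℂ)} =
      Nat.card (IrrCharacter (SL(2, F))) := by
    rw [Nat.card_eq_fintype_card, Nat.card_eq_fintype_card, Nat.card_eq_fintype_card,
      Fintype.card_subtype, Fintype.card_subtype, ← Finset.card_univ,
      add_comm, Finset.card_filter_add_card_filter_not]
  rw [hsub, hk] at hsum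
  show Nat.card {χ : IrrCharacter (SL(2, F)) // ¬ ℓ ∣ charDegree (χ : SL(2, F) → ℂ)} = _
  omega

/-- The torus case on the right. -/
theorem mc_torus {T : Subgroup SL(2, F)} (hT : IsTorus T) (hcyc : IsCyclic T)
    (h2 : (2 : F) ≠ 0) {ℓ : ℕ} [Fact ℓ.Prime] (hℓ2 : ℓ ≠ 2) (hdvd : ℓ ∣ Nat.card T)
    (hidx : ¬ ℓ ∣ T.index) (P : Sylow ℓ SL(2, F)) :
    2 * mc ℓ (Subgroup.normalizer ((P : Subgroup SL(2, F)) : Set SL(2, F))) = Nat.card T + 6 := by
  obtain ⟨Q⟩ : Nonempty (Sylow ℓ T) := inferInstance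
  have hQ : IsPGroup ℓ ((Q : Subgroup T).map T.subtype) := Q.2.map _
  have hQidx : ¬ ℓ ∣ ((Q : Subgroup T).map T.subtype).index := by
    rw [Subgroup.index_map_subtype]
    intro h
    rcases (Nat.Prime.dvd_mul Fact.out).1 h with h | h
    · exact Q.not_dvd_index h
    · exact hidx h
  let Q' : Sylow ℓ SL(2, F) := hQ.toSylow hQidx
  have hQ'T : (Q' : Subgroup SL(2, F)) ≤ T := by
    show (Q : Subgroup T).map T.subtype ≤ T
    exact Subgroup.map_subtype_le _
  have hne : (Q' : Subgroup SL(2, F)) ≠ ⊥ := by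
    apply Sylow.ne_bot_of_dvd_card
    rw [← T.index_mul_card]
    exact dvd_mul_of_dvd_right hdvd _
  obtain ⟨x, hx, h1⟩ := (Subgroup.bot_or_exists_ne_one (Q' : Subgroup SL(2, F))).resolve_left hne
  have hm : x ≠ -1 := by
    rintro rfl
    exact ne_neg_one_of_isPGroup h2 hℓ2 Q'.2 hx
  obtain ⟨-, hN⟩ := IsTorus.centralizer_normalizer_of_le hT (Q' : Subgroup SL(2, F)) hQ'T hx h1 hm
  rw [mc_sylow_eq ℓ P Q', hN, ← hT.two_mul_card_conjClasses_normalizer h2]
  congr 1
  haveI hnormal : (T.subgroupOf (Subgroup.normalizer (T : Set SL(2, F)))).Normal :=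
    Subgroup.normal_in_normalizer
  apply mc_of_all
  apply not_dvd_of_dvd (T.subgroupOf (Subgroup.normalizer (T : Set SL(2, F))))
  · intro a ha b hb
    apply Subtype.ext
    exact hT.comm _ (Subgroup.mem_subgroupOf.1 ha) _ (Subgroup.mem_subgroupOf.1 hb)
  · rw [hT.index_subgroupOf_normalizer h2]
    intro h
    have := (Nat.prime_dvd_prime_iff_eq Fact.out Nat.prime_two).1 h
    exact hℓ2 this

end SL2

section Main

open scoped commutatorElement
open Cfsg.Agent.Lib.PSL2.Basic Cfsg.Agent.Lib.PSL2.Torus Cfsg.Agent.Lib.PSL2.TorusCore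
open Cfsg.Agent.Lib.PSL2.Nonsplit Cfsg.Agent.Lib.PSL2.TorusSylow Cfsg.Agent.Lib.PSL2.SylowU
open Cfsg.Agent.Lib.PSL2.FourGroup Cfsg.Agent.Lib.PSL2.KleinAut Cfsg.Agent.Lib.PSL2.SylowGens

variable {F : Type*} [Field F] [Fintype F]

theorem normalizer_U : Subgroup.normalizer ((U F : Subgroup SL(2, F)) : Set SL(2, F)) =
    (Cfsg.upperTriangularGL 2 F).comap Matrix.SpecialLinearGroup.toGL := by
  ext g
  rw [show g ∈ (Cfsg.upperTriangularGL 2 F).comap Matrix.SpecialLinearGroup.toGL ↔
    (g : Matrix (Fin 2) (Fin 2) F) 1 0 = 0 from Cfsg.Agent.S2437.mem_Bor g]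
  constructor
  · intro h
    have h1 : g * x (1 : F) * g⁻¹ ∈ U F :=
      (Subgroup.mem_normalizer_iff.1 h _).1 ⟨1, rfl⟩
    obtain ⟨t, ht⟩ := h1
    have h3 : x t * g = g * x (1 : F) := by
      rw [← ht]
      group
    have h4 := congrArg (fun M : SL(2, F) => M.1 1 1) h3
    have h5 : (x t * g).1 1 1 = g.1 1 1 := by
      simp [Matrix.mul_apply, Fin.sum_univ_two]
    have h6 : (g * x (1 : F)).1 1 1 = g.1 1 0 + g.1 1 1 := by
      simp [Matrix.mul_apply, Fin.sum_univ_two]
    have h7 : g.1 1 1 = g.1 1 0 + g.1 1 1 := h5.symm.trans (h4.trans h6)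
    have h8 : g.1 1 0 = 0 := by
      linear_combination -h7
    exact h8
  · intro h
    rw [Subgroup.mem_normalizer_iff]
    have key : ∀ (W : SL(2, F)), W.1 1 0 = 0 → ∀ u ∈ U F, W * u * W⁻¹ ∈ U F := by
      intro W hW u hu
      exact Cfsg.Agent.Lib.PSL2.MemberCyc.upper_conj_mem_U hW hu
    intro u
    constructor
    · exact key g h u
    · intro hu
      have h1 : g⁻¹.1 1 0 = 0 := by
        simp [h]
      have h2 := key g⁻¹ h1 _ hu
      simpa [mul_assoc] using h2

theorem rhs_char (hodd : Odd (Fintype.card F)) {ℓ : ℕ} [hℓ : Fact ℓ.Prime] (hdvd : ℓ ∣ Fintype.card F)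
    (S : Sylow ℓ SL(2, F)) :
    mc ℓ (Subgroup.normalizer ((S : Subgroup SL(2, F)) : Set SL(2, F))) = Fintype.card F + 3 := by
  classical
  haveI hchar : CharP F ℓ := by
    obtain ⟨p, hp⟩ := CharP.exists F
    haveI hpp : Fact p.Prime := ⟨(CharP.char_is_prime_or_zero F p).resolve_right
      (fun h => by subst h; exact CharP.ringChar_ne_zero_of_finite F (ringChar.eq F 0))⟩
    obtain ⟨n, -, hn⟩ := FiniteField.card F p
    rw [hn] at hdvd
    have h1 := hℓ.out.dvd_of_dvd_pow hdvd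
    have h2 := (Nat.prime_dvd_prime_iff_eq hℓ.out hpp.out).1 h1
    rw [h2]
    exact hp
  rw [mc_sylow_eq ℓ S (sylowU F ℓ)]
  let N0 := Subgroup.normalizer (((sylowU F ℓ : Sylow ℓ SL(2, F)) : Subgroup SL(2, F)) : Set SL(2, F))
  have hall : ∀ χ : IrrCharacter N0, ¬ ℓ ∣ charDegree (χ : N0 → ℂ) := by
    haveI hnormal : (((sylowU F ℓ : Sylow ℓ SL(2, F)) : Subgroup SL(2, F)).subgroupOf N0).Normal :=
      Subgroup.normal_in_normalizer
    apply not_dvd_of_dvd (((sylowU F ℓ : Sylow ℓ SL(2, F)) : Subgroup SL(2, F)).subgroupOf N0)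
    · intro a ha b hb
      apply Subtype.ext
      exact U_comm (Subgroup.mem_subgroupOf.1 ha) (Subgroup.mem_subgroupOf.1 hb)
    · intro h
      have h1 := Subgroup.relIndex_mul_index
        (Subgroup.le_normalizer : ((sylowU F ℓ : Sylow ℓ SL(2, F)) : Subgroup SL(2, F)) ≤ N0)
      have h2 : ℓ ∣ ((sylowU F ℓ : Sylow ℓ SL(2, F)) : Subgroup SL(2, F)).index := by
        rw [← h1]
        exact Dvd.dvd.mul_right h _
      exact (sylowU F ℓ).not_dvd_index h2
  rw [mc_of_all ℓ hall]
  have hN : N0 = (Cfsg.upperTriangularGL 2 F).comap Matrix.SpecialLinearGroup.toGL := normalizer_U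
  rw [hN]
  exact Cfsg.Agent.S2437.result hodd

theorem rhs_two_one (hodd : Odd (Fintype.card F)) (h8 : Fintype.card F % 8 = 1 ∨ Fintype.card F % 8 = 7)
    (S : Sylow 2 SL(2, F)) :
    mc 2 (Subgroup.normalizer ((S : Subgroup SL(2, F)) : Set SL(2, F))) = 4 := by
  have hN := (Cfsg.Agent.S2431.result hodd S).2.1 h8
  obtain ⟨k, A, B, h⟩ := exists_gens hodd S
  rw [mc_congr (MulEquiv.subgroupCongr hN) 2, mc_two_pgroup S.2]
  refine comm_index_four k ⟨A, h.memA⟩ ⟨B, h.memB⟩ h.card ?_ ?_ ?_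
  · rw [Subgroup.orderOf_mk]
    exact h.ord
  · apply Subtype.ext
    exact h.inv
  · rintro ⟨x, hx⟩
    rcases h.cases x hx with ⟨i, rfl⟩ | ⟨i, rfl⟩
    · left
      exact ⟨i, Subtype.ext (by simp)⟩
    · right
      exact ⟨i, Subtype.ext (by simp)⟩

theorem rhs_two_three (hodd : Odd (Fintype.card F)) (h8 : Fintype.card F % 8 = 3 ∨ Fintype.card F % 8 = 5)
    (S : Sylow 2 SL(2, F)) :
    Nat.card (Subgroup.normalizer ((S : Subgroup SL(2, F)) : Set SL(2, F))) = 24 ∧
    mc 2 (Subgroup.normalizer ((S : Subgroup SL(2, F)) : Set SL(2, F))) = 4 := by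
  classical
  have h2 : (2 : F) ≠ 0 := two_ne_zero_of_odd_card hodd
  obtain ⟨k, A, B, h⟩ := exists_gens hodd S
  have hcardG := Cfsg.Agent.Lib.PSL2.ClassSizes.card_SL2_mul (F := F)
  have hk1 : k = 1 := by
    by_contra hk
    have hk2 : 2 ≤ k := by
      have := h.one_le
      omega
    have h16 : 16 ∣ Nat.card S := by
      rw [h.card]
      obtain ⟨r, rfl⟩ : ∃ r, k = r + 2 := ⟨k - 2, by omega⟩
      exact ⟨2 ^ r, by rw [pow_add]; ring⟩
    have h17 : 16 ∣ Nat.card SL(2, F) := h16.trans (Subgroup.card_subgroup_dvd_card _)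
    rw [hcardG] at h17
    have := Nat.mod_eq_zero_of_dvd h17
    rw [Cfsg.Agent.S2431.mod16_three h8] at this
    omega
  subst hk1
  have hcS : Nat.card S = 8 := by rw [h.card]; norm_num
  have hcN : Nat.card (Subgroup.normalizer ((S : Subgroup SL(2, F)) : Set SL(2, F))) = 24 := by
    rw [(Cfsg.Agent.S2431.result hodd S).2.2 h8, hcS]
  refine ⟨hcN, ?_⟩
  set N := Subgroup.normalizer ((S : Subgroup SL(2, F)) : Set SL(2, F)) with hN
  have hqq := h.isQ_one
  set z := gQ h2 hqq with hz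
  have hzA : z * A = B * z := gQ_mul_a h2 hqq
  have hzB : z * B = (A * B) * z := gQ_mul_b h2 hqq
  have hA' : z * A * z⁻¹ = B := by rw [hzA]; group
  have hB' : z * B * z⁻¹ = A * B := by rw [hzB]; group
  have hzN : z ∈ N := by
    apply mem_normalizer_of_conj_mem
    intro x hx
    rcases h.cases x hx with ⟨i, rfl⟩ | ⟨i, rfl⟩
    · rw [← conj_pow, hA']
      exact (S : Subgroup SL(2, F)).pow_mem h.memB _
    · have h5 : z * (B * A ^ i) * z⁻¹ = (z * B * z⁻¹) * (z * A * z⁻¹) ^ i := by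
        rw [conj_pow]
        group
      rw [h5, hA', hB']
      exact (S : Subgroup SL(2, F)).mul_mem
        ((S : Subgroup SL(2, F)).mul_mem h.memA h.memB) ((S : Subgroup SL(2, F)).pow_mem h.memB _)
  apply mc_card24 hcN
  let S₁ : Subgroup N := (S : Subgroup SL(2, F)).subgroupOf N
  haveI hS₁ : S₁.Normal := Subgroup.normal_in_normalizer
  have hcS₁ : Nat.card S₁ = 8 := by
    rw [← hcS]
    exact Nat.card_congr (Subgroup.subgroupOfEquivOfLe Subgroup.le_normalizer).toEquiv
  have hi : S₁.index = 3 := by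
    have h1 := S₁.card_mul_index
    rw [hcS₁, hcN] at h1
    omega
  have hle1 : commutator N ≤ S₁ := by
    have hcQ : Nat.card (N ⧸ S₁) = 3 := by rw [← Subgroup.index_eq_card, hi]
    haveI : Fact (Nat.Prime 3) := ⟨Nat.prime_three⟩
    haveI hcyc : IsCyclic (N ⧸ S₁) := isCyclic_of_prime_card hcQ
    letI := IsCyclic.commGroup (α := N ⧸ S₁)
    rw [commutator_def, Subgroup.commutator_le]
    intro a _ b _
    rw [← QuotientGroup.eq_one_iff, commutatorElement_def]
    simp only [QuotientGroup.mk_mul, QuotientGroup.mk_inv]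
    rw [mul_comm (a : N ⧸ S₁) (b : N ⧸ S₁)]
    group
  have hle2 : S₁ ≤ commutator N := by
    let z' : N := ⟨z, hzN⟩
    let A' : N := ⟨A, Subgroup.le_normalizer h.memA⟩
    let B' : N := ⟨B, Subgroup.le_normalizer h.memB⟩
    have hcom : ⁅z', B'⁆ = A' := by
      apply Subtype.ext
      show z * B * z⁻¹ * B⁻¹ = A
      rw [hB']
      group
    have hA1 : A' ∈ commutator N := by
      rw [← hcom, commutator_def]
      exact Subgroup.commutator_mem_commutator (Subgroup.mem_top _) (Subgroup.mem_top _)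
    have hB1 : B' ∈ commutator N := by
      have h3 : (commutator N).Normal := inferInstance
      have h4 := h3.conj_mem A' hA1 z'
      have h5 : z' * A' * z'⁻¹ = B' := Subtype.ext hA'
      rwa [h5] at h4
    rintro ⟨x, hx⟩ hxS
    have hxS' : x ∈ (S : Subgroup SL(2, F)) := Subgroup.mem_subgroupOf.1 hxS
    rcases h.cases x hxS' with ⟨i, rfl⟩ | ⟨i, rfl⟩
    · have : (⟨A ^ i, hx⟩ : N) = A' ^ i := Subtype.ext (by simp [A'])
      rw [this]
      exact Subgroup.pow_mem _ hA1 _
    · have : (⟨B * A ^ i, hx⟩ : N) = B' * A' ^ i := Subtype.ext (by simp [A', B'])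
      rw [this]
      exact Subgroup.mul_mem _ hB1 (Subgroup.pow_mem _ hA1 _)
  rw [le_antisymm hle1 hle2, hi]

theorem rhs_split (hodd : Odd (Fintype.card F)) {ℓ : ℕ} [hℓ : Fact ℓ.Prime] (hℓ2 : ℓ ≠ 2)
    (hdvd : ℓ ∣ Fintype.card F - 1) (h3 : 3 ≤ Fintype.card F - 1) (P : Sylow ℓ SL(2, F)) :
    2 * mc ℓ (Subgroup.normalizer ((P : Subgroup SL(2, F)) : Set SL(2, F))) = Fintype.card F - 1 + 6 := by
  have h2 := two_ne_zero_of_odd_card hodd
  set q := Fintype.card F with hq
  have hq2 : 2 ≤ q := Fintype.one_lt_card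
  have hℓp : ℓ.Prime := Fact.out
  have hSL := Cfsg.Agent.Lib.PSL2.ClassSizes.card_SL2_mul (F := F)
  rw [← hq] at hSL
  obtain ⟨a, ha, haa⟩ := exists_mul_self_ne_one h3
  have hT := isTorus_splitT ha haa
  have hidx : (splitT F).index = q * (q + 1) := by
    have h := (splitT F).index_mul_card
    rw [card_splitT, hSL, ← hq] at h
    have hpos : 0 < q - 1 := by omega
    apply Nat.eq_of_mul_eq_mul_right hpos
    rw [h]; ring
  have hnd : ¬ ℓ ∣ (splitT F).index := by
    rw [hidx]
    intro h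
    rcases (Nat.Prime.dvd_mul hℓp).1 h with h' | h'
    · have : ℓ ∣ 1 := by
        have := Nat.dvd_sub h' hdvd
        have e : q - (q - 1) = 1 := by omega
        rwa [e] at this
      exact hℓp.one_lt.ne' (Nat.dvd_one.1 this)
    · have : ℓ ∣ 2 := by
        have := Nat.dvd_sub h' hdvd
        have e : q + 1 - (q - 1) = 2 := by omega
        rwa [e] at this
      have := (Nat.prime_dvd_prime_iff_eq hℓp Nat.prime_two).1 this
      exact hℓ2 this
  have := mc_torus hT isCyclic_splitT h2 hℓ2 (by rw [card_splitT]; exact hdvd) hnd P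
  rw [card_splitT] at this
  exact this

theorem rhs_nonsplit (hodd : Odd (Fintype.card F)) {ℓ : ℕ} [hℓ : Fact ℓ.Prime] (hℓ2 : ℓ ≠ 2)
    (hdvd : ℓ ∣ Fintype.card F + 1) (P : Sylow ℓ SL(2, F)) :
    2 * mc ℓ (Subgroup.normalizer ((P : Subgroup SL(2, F)) : Set SL(2, F))) = Fintype.card F + 1 + 6 := by
  have h2 := two_ne_zero_of_odd_card hodd
  set q := Fintype.card F with hq
  have hq2 : 2 ≤ q := Fintype.one_lt_card
  have hℓp : ℓ.Prime := Fact.out
  have hSL := Cfsg.Agent.Lib.PSL2.ClassSizes.card_SL2_mul (F := F)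
  rw [← hq] at hSL
  obtain ⟨T, hT, hcyc, hcard, -, -⟩ := exists_nonsplit F
  have hidx : T.index = q * (q - 1) := by
    have h := T.index_mul_card
    rw [hcard, hSL, ← hq] at h
    have hpos : 0 < q + 1 := by omega
    apply Nat.eq_of_mul_eq_mul_right hpos
    rw [h]; ring
  have hnd : ¬ ℓ ∣ T.index := by
    rw [hidx]
    intro h
    rcases (Nat.Prime.dvd_mul hℓp).1 h with h' | h'
    · have : ℓ ∣ 1 := by
        have := Nat.dvd_sub hdvd h'
        have e : q + 1 - q = 1 := by omega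
        rwa [e] at this
      exact hℓp.one_lt.ne' (Nat.dvd_one.1 this)
    · have : ℓ ∣ 2 := by
        have := Nat.dvd_sub hdvd h'
        have e : q + 1 - (q - 1) = 2 := by omega
        rwa [e] at this
      have := (Nat.prime_dvd_prime_iff_eq hℓp Nat.prime_two).1 this
      exact hℓ2 this
  have := mc_torus hT hcyc h2 hℓ2 (by rw [hcard]; exact hdvd) hnd P
  rw [hcard] at this
  exact this

end Main

/-- Let F be a finite field with q elements, q odd, ℓ any prime and S a Sylow ℓ-subgroup of SL₂ over F with normaliser N. Then SL₂ and N have the same number of irreducible complex characters of degree not divisible by ℓ (the McKay equality holds for SL₂ over F at every prime). -/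
theorem result {F : Type*} [Field F] [Fintype F] (hodd : Odd (Fintype.card F)) (ℓ : ℕ) [Fact ℓ.Prime] (S : Sylow ℓ (Matrix.SpecialLinearGroup (Fin 2) F)) :
    Nat.card {χ : Cfsg.IrrCharacter (Matrix.SpecialLinearGroup (Fin 2) F) // ¬ ℓ ∣ Cfsg.charDegree (χ : Matrix.SpecialLinearGroup (Fin 2) F → ℂ)} =
      Nat.card {ψ : Cfsg.IrrCharacter (Subgroup.normalizer ((S : Subgroup (Matrix.SpecialLinearGroup (Fin 2) F)) : Set (Matrix.SpecialLinearGroup (Fin 2) F))) //
        ¬ ℓ ∣ Cfsg.charDegree (ψ : Subgroup.normalizer ((S : Subgroup (Matrix.SpecialLinearGroup (Fin 2) F)) : Set (Matrix.SpecialLinearGroup (Fin 2) F)) → ℂ)} := by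
  classical
  show mc ℓ (Matrix.SpecialLinearGroup (Fin 2) F) =
    mc ℓ (Subgroup.normalizer ((S : Subgroup (Matrix.SpecialLinearGroup (Fin 2) F)) : Set (Matrix.SpecialLinearGroup (Fin 2) F)))
  have hℓp : ℓ.Prime := Fact.out
  have hq2 : 1 < Fintype.card F := Fintype.one_lt_card
  have hodd' := Nat.odd_iff.1 hodd
  have hnot1 : ¬ ℓ ∣ 1 := fun h1 => hℓp.one_lt.ne' (Nat.dvd_one.1 h1)
  by_cases h1 : ℓ ∣ Fintype.card F
  · rw [lhs_char hodd hℓp h1, rhs_char hodd h1 S]
  by_cases h2 : ℓ = 2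
  · subst h2
    have h8 : (Fintype.card F % 8 = 1 ∨ Fintype.card F % 8 = 7) ∨
        (Fintype.card F % 8 = 3 ∨ Fintype.card F % 8 = 5) := by omega
    rcases h8 with h8 | h8
    · rw [rhs_two_one hodd h8 S, mc_sl2 hodd (by omega) 2]
      split_ifs <;> omega
    · obtain ⟨h24, h4⟩ := rhs_two_three hodd h8 S
      by_cases hq3 : Fintype.card F = 3
      · have hcard : Nat.card (Matrix.SpecialLinearGroup (Fin 2) F) = 24 := by
          rw [Cfsg.Agent.Lib.PSL2.ClassSizes.card_SL2_mul (F := F), hq3]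
        have htop : Subgroup.normalizer ((S : Subgroup (Matrix.SpecialLinearGroup (Fin 2) F)) : Set (Matrix.SpecialLinearGroup (Fin 2) F)) = ⊤ :=
          Subgroup.eq_top_of_card_eq _ (by rw [h24, hcard])
        exact (mc_top htop 2).symm
      · rw [h4, mc_sl2 hodd (by omega) 2]
        split_ifs <;> omega
  have hne2 : ∀ {a b : ℕ}, ℓ ∣ a → ℓ ∣ b → a = b + 2 → False := by
    intro a b ha hb hab
    have : ℓ ∣ 2 := by
      have := Nat.dvd_sub ha hb
      have e : a - b = 2 := by omega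
      rwa [e] at this
    exact h2 ((Nat.prime_dvd_prime_iff_eq hℓp Nat.prime_two).1 this)
  have hhalf : ∀ {a : ℕ}, a % 2 = 0 → (ℓ ∣ a ↔ ℓ ∣ a / 2) := by
    intro a ha
    have hae : a = 2 * (a / 2) := by omega
    constructor
    · intro h
      rw [hae] at h
      rcases (Nat.Prime.dvd_mul hℓp).1 h with h' | h'
      · exact absurd ((Nat.prime_dvd_prime_iff_eq hℓp Nat.prime_two).1 h') h2
      · exact h'
    · intro h
      rw [hae]
      exact Dvd.dvd.mul_left h 2
  by_cases h3 : ℓ ∣ Fintype.card F - 1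
  · have h5 : 5 ≤ Fintype.card F := by
      by_contra hlt
      have hq3 : Fintype.card F = 3 := by omega
      rw [hq3] at h3
      have : ℓ ∣ 2 := h3
      exact h2 ((Nat.prime_dvd_prime_iff_eq hℓp Nat.prime_two).1 this)
    have h6 := rhs_split hodd h2 h3 (by omega) S
    have f3 : ¬ ℓ ∣ Fintype.card F + 1 := fun h => hne2 h h3 (by omega)
    have f4 : ¬ ℓ ∣ (Fintype.card F + 1) / 2 := fun h => f3 ((hhalf (by omega)).2 h)
    have f6 : ℓ ∣ (Fintype.card F - 1) / 2 := (hhalf (by omega)).1 h3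
    rw [mc_sl2 hodd h5 ℓ, if_neg hnot1, if_neg h1, if_neg f3, if_neg f4, if_pos h3, if_pos f6]
    omega
  by_cases h4 : ℓ ∣ Fintype.card F + 1
  · have h5 : 5 ≤ Fintype.card F := by
      by_contra hlt
      have hq3 : Fintype.card F = 3 := by omega
      rw [hq3] at h4
      have h7 : ℓ ∣ 2 ^ 2 := h4
      exact h2 ((Nat.prime_dvd_prime_iff_eq hℓp Nat.prime_two).1 (hℓp.dvd_of_dvd_pow h7))
    have h6 := rhs_nonsplit hodd h2 h4 S
    have f4 : ℓ ∣ (Fintype.card F + 1) / 2 := (hhalf (by omega)).1 h4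
    have f6 : ¬ ℓ ∣ (Fintype.card F - 1) / 2 := fun h => h3 ((hhalf (by omega)).2 h)
    rw [mc_sl2 hodd h5 ℓ, if_neg hnot1, if_neg h1, if_pos h4, if_pos f4, if_neg h3, if_neg f6]
    omega
  · have hG : ¬ ℓ ∣ Nat.card (Matrix.SpecialLinearGroup (Fin 2) F) := by
      rw [Cfsg.Agent.Lib.PSL2.ClassSizes.card_SL2_mul (F := F)]
      intro h
      rcases (Nat.Prime.dvd_mul hℓp).1 h with h' | h'
      · exact h1 h'
      · rcases (Nat.Prime.dvd_mul hℓp).1 h' with h'' | h''
        · exact h3 h''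
        · exact h4 h''
    have hS : Nat.card S = 1 := by
      rw [S.card_eq_multiplicity, Nat.factorization_eq_zero_of_not_dvd hG, pow_zero]
    have hbot : (S : Subgroup (Matrix.SpecialLinearGroup (Fin 2) F)) = ⊥ :=
      Subgroup.eq_bot_of_card_eq _ hS
    have htop : Subgroup.normalizer ((S : Subgroup (Matrix.SpecialLinearGroup (Fin 2) F)) : Set (Matrix.SpecialLinearGroup (Fin 2) F)) = ⊤ := by
      rw [hbot]
      exact Subgroup.normalizer_eq_top_iff.2 inferInstance
    exact (mc_top htop ℓ).symm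

end Cfsg.Agent.S2436
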