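import Cfsg.Statements.S2438
import Mathlib
import Cfsg.Agent.Lib.Char.SL2Half

set_option autoImplicit false
open Cfsg
open Cfsg.Agent.Lib.Char.SL2Half Cfsg.Agent.Lib.Char.SL2Irr Cfsg.Agent.Lib.Char.GL2Irr
open Matrix.SpecialLinearGroup (toGL)

namespace Cfsg.Agent.S2438

/-- Let F be a finite field with q elements, q odd, q ≥ 5, U the upper unitriangular subgroup of SL₂ over F, and χ an irreducible complex character. The sum of the values of χ over U equals 2q, q, 0, q, 0 according as the degree of χ is q + 1, q, q − 1, (q + 1)/2, (q − 1)/2; so among these five degrees the sum vanishes exactly for the degrees q − 1 and (q − 1)/2, i.e. the irreducible characters of those two degrees are the ones whose restriction to U does not contain the trivial character (the cuspidal characters), while those of degree q + 1, q and (q + 1)/2 are not cuspidal. -/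
theorem result {F : Type*} [Field F] [Fintype F] [DecidableEq F] (hodd : Odd (Fintype.card F)) (hq : 5 ≤ Fintype.card F)
    (χ : Matrix.SpecialLinearGroup (Fin 2) F → ℂ) (hχ : Cfsg.IsIrrCharacter (Matrix.SpecialLinearGroup (Fin 2) F) χ) :
    (χ 1 = (Fintype.card F : ℂ) + 1 →
      (∑ g : Matrix.SpecialLinearGroup (Fin 2) F, if (g : Matrix (Fin 2) (Fin 2) F) 1 0 = 0 ∧ (g : Matrix (Fin 2) (Fin 2) F) 0 0 = 1 ∧ (g : Matrix (Fin 2) (Fin 2) F) 1 1 = 1 then χ g else 0) = 2 * (Fintype.card F : ℂ)) ∧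
    (χ 1 = (Fintype.card F : ℂ) →
      (∑ g : Matrix.SpecialLinearGroup (Fin 2) F, if (g : Matrix (Fin 2) (Fin 2) F) 1 0 = 0 ∧ (g : Matrix (Fin 2) (Fin 2) F) 0 0 = 1 ∧ (g : Matrix (Fin 2) (Fin 2) F) 1 1 = 1 then χ g else 0) = (Fintype.card F : ℂ)) ∧
    (χ 1 = (Fintype.card F : ℂ) - 1 →
      (∑ g : Matrix.SpecialLinearGroup (Fin 2) F, if (g : Matrix (Fin 2) (Fin 2) F) 1 0 = 0 ∧ (g : Matrix (Fin 2) (Fin 2) F) 0 0 = 1 ∧ (g : Matrix (Fin 2) (Fin 2) F) 1 1 = 1 then χ g else 0) = 0) ∧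
    (χ 1 = (((Fintype.card F + 1) / 2 : ℕ) : ℂ) →
      (∑ g : Matrix.SpecialLinearGroup (Fin 2) F, if (g : Matrix (Fin 2) (Fin 2) F) 1 0 = 0 ∧ (g : Matrix (Fin 2) (Fin 2) F) 0 0 = 1 ∧ (g : Matrix (Fin 2) (Fin 2) F) 1 1 = 1 then χ g else 0) = (Fintype.card F : ℂ)) ∧
    (χ 1 = (((Fintype.card F - 1) / 2 : ℕ) : ℂ) →
      (∑ g : Matrix.SpecialLinearGroup (Fin 2) F, if (g : Matrix (Fin 2) (Fin 2) F) 1 0 = 0 ∧ (g : Matrix (Fin 2) (Fin 2) F) 0 0 = 1 ∧ (g : Matrix (Fin 2) (Fin 2) F) 1 1 = 1 then χ g else 0) = 0) := by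
  have h2 := ringChar_ne_two hodd
  have hodd' := Nat.odd_iff.1 hodd
  have hzero : ∀ z : ℂ, z + z = 2 * (Fintype.card F : ℂ) → z = (Fintype.card F : ℂ) := by
    intro z hz
    have h3 : 2 * (z - (Fintype.card F : ℂ)) = 0 := by linear_combination hz
    have h4 := (mul_eq_zero.1 h3).resolve_left two_ne_zero
    linear_combination h4
  simp only [sum_unitri]
  refine ⟨?_, ?_, ?_, ?_, ?_⟩
  · intro hd
    have hd' : χ 1 = ((Fintype.card F + 1 : ℕ) : ℂ) := by
      rw [hd]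
      simp
    rcases Cfsg.Agent.Lib.Char.SL2Irr.irrS_cases_nat hχ hd' with h | h | h | h | h | h
    · omega
    · omega
    · obtain ⟨-, γ, -, rfl⟩ := h
      exact sum_x_ind γ
    · omega
    · omega
    · omega
  · intro hd
    rcases Cfsg.Agent.Lib.Char.SL2Irr.irrS_cases_nat hχ hd with h | h | h | h | h | h
    · omega
    · obtain ⟨-, rfl⟩ := h
      exact sum_x_St
    · omega
    · omega
    · omega
    · omega
  · intro hd
    have hd' : χ 1 = ((Fintype.card F - 1 : ℕ) : ℂ) := by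
      rw [hd, Nat.cast_sub (by omega)]
      simp
    rcases Cfsg.Agent.Lib.Char.SL2Irr.irrS_cases_nat hχ hd' with h | h | h | h | h | h
    · omega
    · omega
    · omega
    · omega
    · obtain ⟨-, θ, hθ, hc, rfl⟩ := h
      exact sum_x_cusp hθ hc
    · omega
  · intro hd
    obtain ⟨γ, -, -, χ', hχ', hne, hsum, y, hy⟩ := half_plus_case hodd hq hχ hd
    apply hzero
    have h3 := sum_x_ind γ
    rw [hsum] at h3
    simp only [Pi.add_apply, Finset.sum_add_distrib] at h3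
    rw [sum_x_pair hχ' hy] at h3
    exact h3
  · intro hd
    obtain ⟨θ, hθ, hc, χ', hχ', hne, hsum, y, hy⟩ := half_minus_case hodd hq hχ hd
    have h3 := sum_x_cusp hθ hc
    have h4 : ∀ c : F, θ (toGL (Cfsg.Agent.Lib.PSL2.Basic.x c)) = χ (Cfsg.Agent.Lib.PSL2.Basic.x c) + χ' (Cfsg.Agent.Lib.PSL2.Basic.x c) := fun c => congrFun hsum _
    simp only [h4, Finset.sum_add_distrib] at h3
    rw [sum_x_pair hχ' hy] at h3
    have h5 : 2 * ∑ c : F, χ (Cfsg.Agent.Lib.PSL2.Basic.x c) = 0 := by linear_combination h3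
    exact (mul_eq_zero.1 h5).resolve_left two_ne_zero

end Cfsg.Agent.S2438
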