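import Cfsg.Statements.S2441
import Cfsg.Agent.Lib.BorelTits.BlockCount
import Cfsg.Agent.Lib.BorelTits.Data
import Cfsg.Agent.Lib.ChevBN.FastData2
import Cfsg.Agent.Lib.Chevalley.All

set_option autoImplicit false
open Cfsg

namespace Cfsg.Agent.S2441

theorem aux (p : ℕ) [Fact p.Prime] (M : Ideal Cfsg.AlgInt) (hM : Cfsg.IsPModular p M)
    (D : Cfsg.Lie.ChevalleyDatum)
    (hD : D ∈ [Cfsg.Lie.chevG2, Cfsg.Lie.chevB2, Cfsg.Lie.chevD4, Cfsg.Lie.chevF4, Cfsg.Lie.chevE6,
      Cfsg.Lie.chevE7, Cfsg.Lie.chevE8]) (hpos : 0 < D.nroots / 2) :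
    Nat.card {B : Set (Cfsg.IrrCharacter (D.group (ZMod p))) // Cfsg.IsPBlock M B} = 2 := by
  obtain ⟨η, hη⟩ := Cfsg.Agent.Lib.Chevalley.All.exists_sys.{0} D hD
  exact Cfsg.Agent.Lib.BorelTits.BlockCount.card_blocks (hη (ZMod p))
    (Cfsg.Agent.Lib.ChevBN.FastData.tbl_of_mem hD) (Cfsg.Agent.Lib.ChevBN.FastData.tbl2_of_mem hD)
    (Cfsg.Agent.Lib.BorelTits.Data.tbl3_of_mem hD) p hM hpos

/-- For a prime p, the Chevalley groups of types G₂, F₄ and E₈ over the field with p elements (types for which the simply connected and adjoint groups coincide, so the group has trivial centre) each have exactly two p-blocks relative to any maximal ideal of the algebraic integers containing p (only the count is asserted; it arises as the defect-zero block of the Steinberg character plus a single block of maximal defect). -/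
theorem result (p : ℕ) [Fact p.Prime] (M : Ideal Cfsg.AlgInt) (hM : Cfsg.IsPModular p M) :
    Nat.card {B : Set (Cfsg.IrrCharacter (Cfsg.Lie.chevG2.group (ZMod p))) // Cfsg.IsPBlock M B} = 2 ∧
    Nat.card {B : Set (Cfsg.IrrCharacter (Cfsg.Lie.chevF4.group (ZMod p))) // Cfsg.IsPBlock M B} = 2 ∧
    Nat.card {B : Set (Cfsg.IrrCharacter (Cfsg.Lie.chevE8.group (ZMod p))) // Cfsg.IsPBlock M B} = 2 := by
  refine ⟨aux p M hM _ (by simp) (by decide +kernel), aux p M hM _ (by simp) (by decide +kernel),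
    aux p M hM _ (by simp) (by decide +kernel)⟩

end Cfsg.Agent.S2441
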