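import Cfsg.Statements.S2531
import Mathlib

set_option autoImplicit false
open Cfsg
namespace Cfsg.Agent.S2531

open Module

section pts
variable {F : Type*} [Field F] [Finite F] {V : Type*} [AddCommGroup V] [Module F V] [Finite V]

/-- Points of a subspace. -/
def pts (U : Submodule F V) : Set (Projectivization F V) := {p | p.rep ∈ U}

omit [Finite F] [Finite V] in
lemma mk_mem_pts (U : Submodule F V) (v : V) (hv : v ≠ 0) :
    Projectivization.mk F v hv ∈ pts U ↔ v ∈ U := by
  obtain ⟨a, ha⟩ := Projectivization.exists_smul_eq_mk_rep F v hv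
  show (Projectivization.mk F v hv).rep ∈ U ↔ v ∈ U
  rw [← ha]
  exact U.smul_mem_iff' a

/-- The sum `θ q d`. -/
def theta (q d : ℕ) : ℕ := ∑ i ∈ Finset.range d, q ^ i

lemma theta_succ (q d : ℕ) : theta q (d + 1) = theta q d + q ^ d := by
  simp [theta, Finset.sum_range_succ]

lemma theta_succ' (q d : ℕ) : theta q (d + 1) = q * theta q d + 1 := by
  simp only [theta]
  rw [Finset.sum_range_succ', Finset.mul_sum]
  simp [pow_succ']

lemma theta_mul (q d : ℕ) (hq : 1 ≤ q) : theta q d * (q - 1) + 1 = q ^ d := by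
  induction d with
  | zero => simp [theta]
  | succ d ih =>
    rw [theta_succ, add_mul, add_right_comm, ih]
    obtain ⟨r, rfl⟩ : ∃ r, q = r + 1 := ⟨q - 1, by omega⟩
    simp only [Nat.add_sub_cancel]
    ring

lemma card_pts (U : Submodule F V) :
    Nat.card (pts U) = theta (Nat.card F) (finrank F U) := by
  have e : Projectivization F U ≃ pts U := Equiv.ofBijective
    (fun x => ⟨Projectivization.map U.subtype U.injective_subtype x, by
      induction x using Projectivization.ind with
      | h v hv =>
        have hv' : ((v : V)) ≠ 0 := by simpa using hv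
        rw [Projectivization.map_mk]
        exact (mk_mem_pts U _ _).2 v.2⟩)
    ⟨fun x y h => Projectivization.map_injective U.subtype U.injective_subtype
        (congrArg Subtype.val h), by
      rintro ⟨p, hp⟩
      have hv : (⟨p.rep, hp⟩ : U) ≠ 0 := by
        intro h0
        exact p.rep_nonzero (congrArg Subtype.val h0)
      refine ⟨Projectivization.mk F ⟨p.rep, hp⟩ hv, Subtype.ext ?_⟩
      simp only [Projectivization.map_mk]
      exact p.mk_rep⟩
  have hq : 1 < Nat.card F := Finite.one_lt_card
  have h1 := Projectivization.card' F U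
  have h2 : Nat.card U = Nat.card F ^ finrank F U := Module.natCard_eq_pow_finrank
  rw [Nat.card_congr e, h2, ← theta_mul _ _ hq.le] at h1
  have h3 : 0 < Nat.card F - 1 := by omega
  have := Nat.add_right_cancel h1
  exact (Nat.eq_of_mul_eq_mul_right h3 this).symm

lemma card_fib {X Y : Type*} [DecidableEq Y] (T : Finset X) (B : Finset Y) (g : X → Y)
    (hmap : ∀ s ∈ T, g s ∈ B) (hfib : ∀ c ∈ B, ∃! s, s ∈ T ∧ g s = c) : T.card = B.card := by
  refine Finset.card_bij (fun s _ => g s) hmap ?_ ?_
  · intro s hs t ht e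
    exact (hfib _ (hmap s hs)).unique ⟨hs, rfl⟩ ⟨ht, e.symm⟩
  · intro c hc
    obtain ⟨s, ⟨hs, rfl⟩, -⟩ := hfib c hc
    exact ⟨s, hs, rfl⟩

end pts

theorem result {F : Type*} [Field F] [Finite F]
    (n : ℕ) (hn : 3 ≤ n) (S : Set (Equiv.Perm (Projectivization F (Fin n → F))))
    (hS : ∀ s ∈ S, ∃ (σ : F ≃+* F) (f : (Fin n → F) →ₛₗ[(σ : F →+* F)] (Fin n → F)) (hf : Function.Injective f),
      ∀ x, s x = Projectivization.map f hf x) :
    ¬ (∀ a b c d : Projectivization F (Fin n → F), a ≠ b → c ≠ d →
        ∃! s, s ∈ S ∧ s a = c ∧ s b = d) := by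
  classical
  intro hst
  obtain ⟨k, rfl⟩ : ∃ k, n = k + 3 := ⟨n - 3, by omega⟩
  set q := Nat.card F with hq
  have hq1 : 1 < q := Finite.one_lt_card
  haveI : Fintype (Projectivization F (Fin (k + 3) → F)) := Fintype.ofFinite _
  let i₀ : Fin (k + 3) := 0
  let i₁ : Fin (k + 3) := 1
  have hi : i₀ ≠ i₁ := by simp [i₀, i₁]
  let W : Submodule F (Fin (k + 3) → F) := LinearMap.ker (LinearMap.proj i₀ : (Fin (k + 3) → F) →ₗ[F] F)
  have hWr : finrank F W = k + 2 := by
    have h1 := LinearMap.finrank_range_add_finrank_ker (LinearMap.proj i₀ : (Fin (k + 3) → F) →ₗ[F] F)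
    have h2 : LinearMap.range (LinearMap.proj i₀ : (Fin (k + 3) → F) →ₗ[F] F) = ⊤ :=
      LinearMap.range_eq_top.2 (fun x => ⟨Pi.single i₀ x, by simp⟩)
    rw [h2, finrank_top, finrank_self, finrank_fin_fun] at h1
    show finrank F (LinearMap.ker (LinearMap.proj i₀ : (Fin (k + 3) → F) →ₗ[F] F)) = k + 2
    omega
  have he₀ : (Pi.single i₀ 1 : Fin (k + 3) → F) ≠ 0 := by
    intro h
    have := congrFun h i₀
    simp at this
  have he₁ : (Pi.single i₁ 1 : Fin (k + 3) → F) ≠ 0 := by
    intro h
    have := congrFun h i₁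
    simp at this
  let a := Projectivization.mk F _ he₀
  let b₀ := Projectivization.mk F _ he₁
  have haW : a ∉ pts W := by
    rw [mk_mem_pts]
    simp [W]
  have hb₀W : b₀ ∈ pts W := by
    rw [mk_mem_pts]
    simp [W, hi]
  have hb₀a : b₀ ≠ a := fun h => haW (h ▸ hb₀W)
  let T : Finset (Equiv.Perm (Projectivization F (Fin (k + 3) → F))) :=
    Finset.univ.filter (fun s => s ∈ S ∧ s a = a)
  have uniq : ∀ b c, b ≠ a → c ≠ a → ∃! s, s ∈ T ∧ s b = c := by
    intro b c hb hc
    obtain ⟨s, ⟨hs, hsa, hsb⟩, hu⟩ := hst a b a c hb.symm hc.symm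
    refine ⟨s, ⟨by simp [T, hs, hsa], hsb⟩, ?_⟩
    rintro t ⟨ht, htb⟩
    simp only [T, Finset.mem_filter, Finset.mem_univ, true_and] at ht
    exact hu t ⟨ht.1, ht.2, htb⟩
  -- the set `A`
  let A : Finset (Projectivization F (Fin (k + 3) → F)) := Finset.univ.filter (· ∈ pts W)
  have cardset : ∀ X : Set (Projectivization F (Fin (k + 3) → F)),
      (Finset.univ.filter (· ∈ X)).card = Nat.card X := by
    intro X
    rw [Nat.card_eq_fintype_card, Fintype.card_subtype]
  set h := theta q (k + 2) with hh
  set h₂ := theta q (k + 1) with hh₂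
  have hA : A.card = h := by
    rw [cardset, card_pts, hWr]
  have hN : Nat.card (Projectivization F (Fin (k + 3) → F)) = q * h + 1 := by
    have h1 := card_pts (F := F) (⊤ : Submodule F (Fin (k + 3) → F))
    rw [finrank_top, finrank_fin_fun] at h1
    rw [hh, ← theta_succ', ← h1]
    refine Nat.card_congr ?_
    exact (Equiv.subtypeUnivEquiv (fun p => by simp [pts])).symm
  have hT : T.card = q * h := by
    have h1 : T.card = (Finset.univ.erase a).card := by
      refine card_fib T _ (fun s => s b₀) ?_ ?_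
      · intro s hs
        simp only [T, Finset.mem_filter, Finset.mem_univ, true_and] at hs
        simp only [Finset.mem_erase, Finset.mem_univ, and_true]
        intro h2
        have : s b₀ = s a := h2.trans hs.2.symm
        exact hb₀a (s.injective this)
      · intro c hc
        simp only [Finset.mem_erase, Finset.mem_univ, and_true] at hc
        exact uniq b₀ c hb₀a hc
    rw [h1, Finset.card_erase_of_mem (Finset.mem_univ _), Finset.card_univ, ← Nat.card_eq_fintype_card,
      hN]
    simp
  -- the double count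
  let c : Equiv.Perm (Projectivization F (Fin (k + 3) → F)) → ℕ := fun s =>
    (A.filter (fun b => s b ∈ A)).card
  have hsum : ∑ s ∈ T, c s = h * h := by
    have h1 := Finset.sum_card_bipartiteAbove_eq_sum_card_bipartiteBelow (s := T) (t := A)
      (fun s b => s b ∈ A)
    simp only [Finset.bipartiteAbove, Finset.bipartiteBelow] at h1
    rw [h1]
    have h2 : ∀ b ∈ A, (T.filter (fun s => s b ∈ A)).card = h := by
      intro b hb
      rw [← hA]
      have hba : b ≠ a := by
        rintro rfl
        exact haW (by simpa [A] using hb)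
      refine card_fib _ _ (fun s => s b) ?_ ?_
      · intro s hs
        exact (Finset.mem_filter.1 hs).2
      · intro d hd
        have hda : d ≠ a := by
          rintro rfl
          exact haW (by simpa [A] using hd)
        obtain ⟨s, ⟨hs, hsb⟩, hu⟩ := uniq b d hba hda
        refine ⟨s, ⟨Finset.mem_filter.2 ⟨hs, hsb ▸ hd⟩, hsb⟩, ?_⟩
        rintro t ⟨ht, htb⟩
        exact hu t ⟨(Finset.mem_filter.1 ht).1, htb⟩
    rw [Finset.sum_congr rfl h2, Finset.sum_const, hA, smul_eq_mul]
  -- two values
  have hval : ∀ s ∈ T, c s = h ∨ c s = h₂ := by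
    intro s hs
    simp only [T, Finset.mem_filter, Finset.mem_univ, true_and] at hs
    obtain ⟨σ, f, hf, hsf⟩ := hS s hs.1
    let W' : Submodule F (Fin (k + 3) → F) := Submodule.comap f W
    have hfb : Function.Bijective f := ⟨hf, Finite.injective_iff_surjective.1 hf⟩
    have hcard : Nat.card W' = Nat.card W := by
      refine Nat.card_congr (Equiv.ofBijective (fun x => ⟨f x.1, x.2⟩) ⟨?_, ?_⟩)
      · intro x y e
        exact Subtype.ext (hf (congrArg Subtype.val e))
      · rintro ⟨y, hy⟩
        obtain ⟨x, rfl⟩ := hfb.2 y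
        exact ⟨⟨x, hy⟩, rfl⟩
    have hW'r : finrank F W' = k + 2 := by
      have e1 : Nat.card W' = q ^ finrank F W' := Module.natCard_eq_pow_finrank
      have e2 : Nat.card W = q ^ finrank F W := Module.natCard_eq_pow_finrank
      rw [e1, e2, hWr] at hcard
      exact Nat.pow_right_injective hq1 hcard
    have hmem : ∀ p, s p ∈ pts W ↔ p ∈ pts W' := by
      intro p
      induction p using Projectivization.ind with
      | h v hv =>
        rw [hsf, Projectivization.map_mk, mk_mem_pts, mk_mem_pts]
        rfl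
    have hc : c s = Nat.card (pts (W ⊓ W')) := by
      simp only [c]
      rw [← cardset]
      congr 1
      ext p
      simp only [A, Finset.mem_filter, Finset.mem_univ, true_and]
      rw [hmem]
      rfl
    rw [hc, card_pts]
    by_cases hWW : W' = W
    · left
      rw [hWW, inf_idem, hWr]
    · right
      have hlt : W < W ⊔ W' := by
        refine lt_of_le_of_ne le_sup_left ?_
        intro e
        have hle : W' ≤ W := by
          rw [e]; exact le_sup_right
        exact hWW (Submodule.eq_of_le_of_finrank_eq hle (by rw [hW'r, hWr]))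
      have h1 := Submodule.finrank_lt_finrank_of_lt hlt
      have h2 : finrank F ↥(W ⊔ W') ≤ k + 3 := by
        have := Submodule.finrank_le (W ⊔ W')
        simpa using this
      have h3 := Submodule.finrank_sup_add_finrank_inf_eq W W'
      have h4 : finrank F ↥(W ⊓ W') = k + 1 := by omega
      rw [h4]
  -- arithmetic
  have hrel1 : h = q * h₂ + 1 := theta_succ' q (k + 1)
  have hrel2 : h = h₂ + q ^ (k + 1) := theta_succ q (k + 1)
  have hdvd : ((q : ℤ) ^ (k + 1)) ∣ ∑ s ∈ T, ((c s : ℤ) - h₂) := by
    refine Finset.dvd_sum ?_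
    intro s hs
    rcases hval s hs with e | e
    · rw [e, hrel2]
      push_cast
      simp
    · rw [e]
      simp
  have hval2 : ∑ s ∈ T, ((c s : ℤ) - h₂) = h := by
    rw [Finset.sum_sub_distrib, Finset.sum_const, hT, ← Nat.cast_sum, hsum]
    simp only [nsmul_eq_mul]
    push_cast
    have h1 : (h : ℤ) = q * h₂ + 1 := by exact_mod_cast hrel1
    rw [h1]
    ring
  rw [hval2] at hdvd
  have hd2 : (q : ℤ) ∣ h := (dvd_pow_self (q : ℤ) (by omega)).trans hdvd
  have hd3 : q ∣ h := by exact_mod_cast hd2
  rw [hrel1] at hd3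
  have hd4 : q ∣ 1 := (Nat.dvd_add_right (dvd_mul_right q h₂)).1 hd3
  have := Nat.le_of_dvd one_pos hd4
  omega

end Cfsg.Agent.S2531
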