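import Cfsg.Statements.S2532
import Mathlib
-- import your own Cfsg.Agent.* helpers here

set_option autoImplicit false
open Cfsg

namespace Cfsg.Agent.S2532

open MulAction Equiv Equiv.Perm

section Core

variable {H Ω : Type*} [Group H] [MulAction H Ω]

/-- Permuting isomorphic orbits commutes with the action. -/
theorem core (S : Subgroup H) {r : ℕ} (x : Fin r → Ω) (hS : ∀ i, stabilizer H (x i) = S)
    (hd : ∀ i j, (∃ h : H, h • x i = x j) → i = j) :
    ∃ Φ : Perm (Fin r) →* Perm Ω, Function.Injective Φ ∧ ∀ σ (h : H) (y : Ω), h • Φ σ y = Φ σ (h • y) := by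
  classical
  let W := Fin r × (H ⧸ S)
  let ι : W → Ω := fun w => (Quotient.out w.2 : H) • x w.1
  have hout : ∀ (g : H) (c : H ⧸ S) (i : Fin r), c = (g : H ⧸ S) → (Quotient.out c : H) • x i = g • x i := by
    intro g c i hc
    have h1 : ((Quotient.out c : H) : H ⧸ S) = (g : H ⧸ S) := by
      rw [← hc]; exact QuotientGroup.out_eq' c
    have h2 : g⁻¹ * (Quotient.out c : H) ∈ S := (QuotientGroup.eq.mp h1.symm)
    have h3 : g⁻¹ * (Quotient.out c : H) ∈ stabilizer H (x i) := by rw [hS i]; exact h2
    rw [mem_stabilizer_iff, mul_smul, inv_smul_eq_iff] at h3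
    exact h3
  have hsmulι : ∀ (h : H) (i : Fin r) (c : H ⧸ S), h • ι (i, c) = ι (i, h • c) := by
    intro h i c
    change h • (Quotient.out c : H) • x i = (Quotient.out (h • c) : H) • x i
    rw [← mul_smul]
    refine (hout (h * (Quotient.out c : H)) (h • c) i ?_).symm
    have h5 : h • c = h • (((Quotient.out c : H)) : H ⧸ S) := by rw [QuotientGroup.out_eq']
    rw [h5, MulAction.Quotient.smul_coe, smul_eq_mul]
  have hι : Function.Injective ι := by
    rintro ⟨i, c⟩ ⟨j, d⟩ h
    have h0 : (Quotient.out c : H) • x i = (Quotient.out d : H) • x j := h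
    have hij : i = j := by
      apply hd
      refine ⟨(Quotient.out d : H)⁻¹ * (Quotient.out c : H), ?_⟩
      rw [mul_smul, h0, inv_smul_smul]
    subst hij
    have h1 : (Quotient.out d : H)⁻¹ * (Quotient.out c : H) ∈ S := by
      have h3 : (Quotient.out d : H)⁻¹ * (Quotient.out c : H) ∈ stabilizer H (x i) := by
        rw [mem_stabilizer_iff, mul_smul, h0, inv_smul_smul]
      rwa [hS i] at h3
    have h2 : ((Quotient.out d : H) : H ⧸ S) = ((Quotient.out c : H) : H ⧸ S) := QuotientGroup.eq.mpr h1
    rw [QuotientGroup.out_eq', QuotientGroup.out_eq'] at h2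
    rw [h2]
  let e : W ≃ Subtype (· ∈ Set.range ι) := Equiv.ofInjective ι hι
  have hecoe : ∀ w, ((e w : Subtype (· ∈ Set.range ι)) : Ω) = ι w := fun w => rfl
  let π : Perm (Fin r) →* Perm W :=
    { toFun := fun σ => Equiv.prodCongr σ (Equiv.refl _)
      map_one' := by ext w <;> rfl
      map_mul' := fun σ τ => by ext w <;> rfl }
  have hπ : ∀ σ i c, π σ (i, c) = (σ i, c) := fun σ i c => rfl
  have hΦι : ∀ σ i c, ((extendDomainHom e).comp π) σ (ι (i, c)) = ι (σ i, c) := by
    intro σ i c
    have := Perm.extendDomain_apply_image (π σ) e (i, c)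
    rw [hecoe, hecoe, hπ] at this
    exact this
  refine ⟨(extendDomainHom e).comp π, ?_, ?_⟩
  · intro σ τ h
    ext i
    have h1 := DFunLike.congr_fun h (ι (i, ((1 : H) : H ⧸ S)))
    rw [hΦι, hΦι] at h1
    have h2 := congrArg Prod.fst (hι h1)
    exact congrArg _ h2
  · intro σ h y
    by_cases hy : y ∈ Set.range ι
    · obtain ⟨⟨i, c⟩, rfl⟩ := hy
      rw [hΦι, hsmulι, hsmulι, hΦι]
    · have hy' : h • y ∉ Set.range ι := by
        rintro ⟨⟨i, c⟩, hw⟩
        apply hy
        refine ⟨(i, h⁻¹ • c), ?_⟩
        rw [← hsmulι, hw, inv_smul_smul]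
      have h1 : ∀ z, z ∉ Set.range ι → ((extendDomainHom e).comp π) σ z = z := by
        intro z hz
        exact Perm.extendDomain_apply_not_subtype (π σ) e hz
      rw [h1 y hy, h1 _ hy']

end Core

/-- There is a function `f` of two natural-number arguments such that, whenever `m ≥ f(n, r)`, every subgroup of order `n` of the alternating group of degree `m` centralizes some subgroup of that alternating group isomorphic to the alternating group of degree `r`. -/
theorem result :
    ∃ f : ℕ → ℕ → ℕ, ∀ (m r : ℕ) (H : Subgroup ↥(alternatingGroup (Fin m))), f (Nat.card H) r ≤ m →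
      ∃ K : Subgroup ↥(alternatingGroup (Fin m)), Nonempty (↥K ≃* ↥(alternatingGroup (Fin r))) ∧
        K ≤ Subgroup.centralizer (H : Set ↥(alternatingGroup (Fin m))) := by
  classical
  refine ⟨fun n r => n * 2 ^ n * r, fun m r H hm => ?_⟩
  change Nat.card H * 2 ^ Nat.card H * r ≤ m at hm
  set n := Nat.card H with hnn
  have hn : 0 < n := Nat.card_pos
  -- the number of orbits
  haveI : Fintype (orbitRel.Quotient H (Fin m)) := Fintype.ofFinite _
  have hQ : m ≤ Fintype.card (orbitRel.Quotient H (Fin m)) * n := by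
    have h1 : Nat.card (Fin m) = Nat.card (Σ ω : orbitRel.Quotient H (Fin m), orbit H (Quotient.out ω)) :=
      Nat.card_congr (selfEquivSigmaOrbits H (Fin m))
    rw [Nat.card_sigma, Nat.card_eq_fintype_card, Fintype.card_fin] at h1
    have h2 : ∑ a : orbitRel.Quotient H (Fin m), Nat.card (orbit H (Quotient.out a)) ≤
        Fintype.card (orbitRel.Quotient H (Fin m)) * n := by
      rw [← smul_eq_mul, ← Finset.card_univ]
      apply Finset.sum_le_card_nsmul
      intro q _
      rw [Nat.card_coe_set_eq, ← index_stabilizer]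
      exact Nat.le_of_dvd hn (Subgroup.index_dvd_card _)
    exact h1.le.trans h2
  have hQ' : 2 ^ n * r ≤ Fintype.card (orbitRel.Quotient H (Fin m)) := by
    have : n * (2 ^ n * r) ≤ n * Fintype.card (orbitRel.Quotient H (Fin m)) := by
      calc n * (2 ^ n * r) = n * 2 ^ n * r := by ring
        _ ≤ m := hm
        _ ≤ _ := by rw [mul_comm n]; exact hQ
    exact Nat.le_of_mul_le_mul_left this hn
  -- pigeonhole on stabilizers
  haveI : Fintype (Subgroup H) := Fintype.ofFinite _
  have hsub : Fintype.card (Subgroup H) ≤ 2 ^ n := by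
    haveI : Fintype H := Fintype.ofFinite _
    have h1 : Fintype.card (Subgroup H) ≤ Fintype.card (Set H) :=
      Fintype.card_le_of_injective _ (SetLike.coe_injective (A := Subgroup H))
    rw [Fintype.card_set] at h1
    rw [hnn, Nat.card_eq_fintype_card]
    exact h1
  let st : orbitRel.Quotient H (Fin m) → Subgroup H := fun q => stabilizer H (Quotient.out q)
  obtain ⟨S, hS⟩ := Fintype.exists_le_card_fiber_of_mul_le_card st (n := r)
    (le_trans (Nat.mul_le_mul_right r hsub) hQ')
  -- an embedding of `Fin r` in the fiber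
  obtain ⟨T⟩ : Nonempty (Fin r ↪ {q // q ∈ Finset.univ.filter (fun q => st q = S)}) := by
    apply Function.Embedding.nonempty_of_card_le
    rw [Fintype.card_fin, Fintype.card_coe]
    exact hS
  let x : Fin r → Fin m := fun i => Quotient.out (T i : orbitRel.Quotient H (Fin m))
  have hxS : ∀ i, stabilizer H (x i) = S := fun i => (Finset.mem_filter.mp (T i).2).2
  have hxd : ∀ i j, (∃ h : H, h • x i = x j) → i = j := by
    rintro i j ⟨h, hh⟩
    apply T.injective
    apply Subtype.ext
    have h1 : (T i : orbitRel.Quotient H (Fin m)) = Quotient.mk _ (x i) := (Quotient.out_eq _).symm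
    have h2 : (T j : orbitRel.Quotient H (Fin m)) = Quotient.mk _ (x j) := (Quotient.out_eq _).symm
    rw [h1, h2]
    apply Quotient.sound
    exact (orbitRel_apply.mpr ⟨h⁻¹, by rw [← hh]; exact inv_smul_smul h (x i)⟩)
  obtain ⟨Φ, hΦ, hcomm⟩ := core S x hxS hxd
  -- signs
  have hsign : ∀ σ ∈ alternatingGroup (Fin r), Φ σ ∈ alternatingGroup (Fin m) := by
    intro σ hσ
    rw [← closure_three_cycles_eq_alternating] at hσ
    have hle : Subgroup.closure {σ : Perm (Fin r) | IsThreeCycle σ} ≤
        (alternatingGroup (Fin m)).comap Φ := by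
      rw [Subgroup.closure_le]
      intro τ hτ
      have hτ3 : τ ^ 3 = 1 := by
        have := pow_orderOf_eq_one τ
        rwa [IsThreeCycle.orderOf hτ] at this
      change Φ τ ∈ alternatingGroup (Fin m)
      rw [mem_alternatingGroup]
      have h1 : sign (Φ τ) ^ 3 = 1 := by
        rw [← map_pow, ← map_pow, hτ3, map_one, map_one]
      rcases Int.units_eq_one_or (sign (Φ τ)) with h | h
      · exact h
      · rw [h] at h1
        exact absurd h1 (by decide)
    exact hle hσ
  let Ψ : alternatingGroup (Fin r) →* alternatingGroup (Fin m) :=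
    (Φ.comp (alternatingGroup (Fin r)).subtype).codRestrict _ (fun σ => hsign σ σ.2)
  have hΨ : Function.Injective Ψ := by
    intro σ τ h
    apply Subtype.ext
    apply hΦ
    exact congrArg Subtype.val h
  refine ⟨Ψ.range, ⟨(MonoidHom.ofInjective hΨ).symm⟩, ?_⟩
  rintro _ ⟨σ, rfl⟩
  rw [Subgroup.mem_centralizer_iff]
  intro h hh
  apply Subtype.ext
  ext y
  have := hcomm (σ : Perm (Fin r)) ⟨h, hh⟩ y
  exact congrArg _ this

end Cfsg.Agent.S2532
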