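import Cfsg.Statements.S2537
import Cfsg.Agent.Lib.PSL2.Position
import Cfsg.Agent.Lib.PSL2.Icosian

set_option autoImplicit false
set_option linter.style.haveILetI false
set_option linter.unusedVariables false
open Cfsg

namespace Cfsg.Agent.S2537


open Matrix Matrix.SpecialLinearGroup Subgroup
open scoped MatrixGroups
open Cfsg.Agent.Lib.PSL2.Basic Cfsg.Agent.Lib.PSL2.Conj Cfsg.Agent.Lib.PSL2.Members
open Cfsg.Agent.Lib.PSL2.DicksonCor Cfsg.Agent.Lib.PSL2.DihedralMax
open Cfsg.Agent.Lib.PSL2.Overgroups Cfsg.Agent.Lib.PSL2.Position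
open Cfsg.Agent.Lib.PSL2 Cfsg.Agent.Lib.PSL2.Reduction

/-- A subgroup of a dihedral group of the order of its Hall subgroups. -/
lemma exists_dihedral_sub {n m : ℕ} [NeZero n] (hm : m ∣ n) (hco : Nat.Coprime (n / m) (2 * m)) :
    ∃ H : Subgroup (DihedralGroup n), Nat.card H = 2 * m := by
  have hn : 0 < n := Nat.pos_of_ne_zero (NeZero.ne n)
  have hm0 : 0 < m := Nat.pos_of_dvd_of_pos hm hn
  let N : Subgroup (DihedralGroup n) := zpowers (DihedralGroup.r (m : ZMod n))
  have hNn : N.Normal := by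
    constructor
    intro a ha g
    obtain ⟨k, rfl⟩ := mem_zpowers_iff.1 ha
    have h1 : g * (DihedralGroup.r (m : ZMod n)) ^ k * g⁻¹ =
        (g * DihedralGroup.r (m : ZMod n) * g⁻¹) ^ k := by
      rw [conj_zpow]
    rw [h1]
    apply zpow_mem
    rcases g with i | i
    · have : DihedralGroup.r i * DihedralGroup.r (m : ZMod n) * (DihedralGroup.r i)⁻¹ =
          DihedralGroup.r (m : ZMod n) := by
        simp [DihedralGroup.inv_r]
      rw [this]
      exact mem_zpowers _
    · have : DihedralGroup.sr i * DihedralGroup.r (m : ZMod n) * (DihedralGroup.sr i)⁻¹ =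
          (DihedralGroup.r (m : ZMod n))⁻¹ := by
        simp [DihedralGroup.inv_r, DihedralGroup.inv_sr]
      rw [this]
      exact inv_mem (mem_zpowers _)
  have hNc : Nat.card N = n / m := by
    rw [Nat.card_zpowers, DihedralGroup.orderOf_r, ZMod.val_natCast]
    congr 1
    rw [Nat.gcd_comm, ← Nat.gcd_rec, Nat.gcd_eq_right hm]
  have hpos : 0 < n / m := Nat.div_pos (Nat.le_of_dvd hn hm) hm0
  have hidx : N.index = 2 * m := by
    have h1 := Subgroup.index_mul_card N
    rw [hNc, DihedralGroup.nat_card] at h1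
    have h2 : 2 * m * (n / m) = 2 * n := by
      rw [mul_assoc, Nat.mul_div_cancel' hm]
    exact Nat.eq_of_mul_eq_mul_right hpos (h1.trans h2.symm)
  haveI := hNn
  obtain ⟨H, hH⟩ := Subgroup.exists_left_complement'_of_coprime (N := N) (by rw [hNc, hidx]; exact hco)
  exact ⟨H, by rw [← hH.index_eq_card, hidx]⟩

lemma decomp (N : ℕ) (hN : N ≠ 0) :
    ∃ u, N = 2 ^ N.factorization 2 * 3 ^ N.factorization 3 * u ∧ ¬ 2 ∣ u ∧ ¬ 3 ∣ u := by
  set v := N / 2 ^ N.factorization 2 with hv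
  have h1 : 2 ^ N.factorization 2 * v = N := Nat.ordProj_mul_ordCompl_eq_self N 2
  have hv0 : v ≠ 0 := by
    rintro h
    rw [h, mul_zero] at h1
    exact hN h1.symm
  have h2 : v.factorization 3 = N.factorization 3 := by
    rw [hv, Nat.factorization_ordCompl]
    simp
  have h3 : 3 ^ v.factorization 3 * (v / 3 ^ v.factorization 3) = v :=
    Nat.ordProj_mul_ordCompl_eq_self v 3
  refine ⟨v / 3 ^ v.factorization 3, ?_, ?_, Nat.not_dvd_ordCompl Nat.prime_three hv0⟩
  · rw [← h2, mul_assoc, h3, h1]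
  · intro h
    have h4 : 2 ∣ v := h.trans (Nat.ordCompl_dvd v 3)
    exact Nat.not_dvd_ordCompl Nat.prime_two hN h4

lemma mod8 (q : ℕ) (hq1 : 1 ≤ q) (h : 2 ^ 4 ∣ q ^ 2 - 1) : q % 8 = 1 ∨ q % 8 = 7 := by
  have h1 : (q ^ 2) % 16 = 1 := by
    have h2 : 1 ≤ q ^ 2 := Nat.one_le_pow _ _ (by omega)
    omega
  have h2 : q ^ 2 % 16 = (q % 16) ^ 2 % 16 := by rw [Nat.pow_mod]
  rw [h2] at h1
  have h3 : q % 16 < 16 := Nat.mod_lt _ (by norm_num)
  have h4 : q % 8 = (q % 16) % 8 := by omega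
  rw [h4]
  generalize q % 16 = z at h1 h3
  clear h2 h4 h
  interval_cases z <;> simp at h1 ⊢

lemma prime_of_dvd {r x y : ℕ} (hr : r.Prime) (h : r ∣ 2 ^ x * 3 ^ y) : r = 2 ∨ r = 3 := by
  rcases (Nat.Prime.dvd_mul hr).1 h with h | h
  · left
    exact (Nat.prime_dvd_prime_iff_eq hr Nat.prime_two).1 (hr.dvd_of_dvd_pow h)
  · right
    exact (Nat.prime_dvd_prime_iff_eq hr Nat.prime_three).1 (hr.dvd_of_dvd_pow h)

lemma hall_of {G : Type*} [Group G] [Finite G] (H : Subgroup G) (x y w : ℕ)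
    (hG : Nat.card G = 2 ^ x * 3 ^ y * w) (hH : Nat.card H = 2 ^ x * 3 ^ y)
    (h2 : ¬ 2 ∣ w) (h3 : ¬ 3 ∣ w) : Cfsg.IsPiHall ({2, 3} : Set ℕ) H := by
  have h1 := Subgroup.index_mul_card H
  rw [hH, hG, mul_comm] at h1
  have hpos : 0 < 2 ^ x * 3 ^ y := by positivity
  have hi : H.index = w := Nat.eq_of_mul_eq_mul_left hpos h1
  refine ⟨fun r hr hd => ?_, fun r hr hm => ?_⟩
  · rw [hH] at hd
    rcases prime_of_dvd hr hd with h | h <;> simp [h]
  · rw [hi]
    rcases hm with h | h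
    · rw [h]; exact h2
    · have h : r = 3 := h
      rw [h]; exact h3

lemma card_of_hall {G : Type*} [Group G] [Finite G] (H : Subgroup G) (x y w : ℕ)
    (hG : Nat.card G = 2 ^ x * 3 ^ y * w) (h2 : ¬ 2 ∣ w) (h3 : ¬ 3 ∣ w)
    (hH : Cfsg.IsPiHall ({2, 3} : Set ℕ) H) : Nat.card H = 2 ^ x * 3 ^ y := by
  have h1 := Subgroup.index_mul_card H
  rw [hG] at h1
  have hc1 : Nat.Coprime (Nat.card H) w := by
    apply Nat.coprime_of_dvd
    intro r hr hd hw
    rcases hH.1 r hr hd with h | h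
    · rw [h] at hw; exact h2 hw
    · have h : r = 3 := h
      rw [h] at hw; exact h3 hw
  have hc2 : Nat.Coprime (2 ^ x * 3 ^ y) H.index := by
    apply Nat.coprime_of_dvd
    intro r hr hd hw
    rcases prime_of_dvd hr hd with h | h
    · exact hH.2 r hr (by simp [h]) hw
    · exact hH.2 r hr (by simp [h]) hw
  apply Nat.dvd_antisymm
  · apply hc1.dvd_of_dvd_mul_right
    rw [← h1]
    exact Dvd.intro_left _ rfl
  · apply hc2.dvd_of_dvd_mul_left
    rw [h1]
    exact Dvd.intro _ rfl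

lemma hall_dihedral {G : Type*} [Group G] [Finite G] (M : Subgroup G) (n : ℕ) [NeZero n]
    (e : M ≃* DihedralGroup n) (w : ℕ) (hG : Nat.card G = 2 * n * w) (h2 : ¬ 2 ∣ w) (h3 : ¬ 3 ∣ w) :
    ∃ H : Subgroup G, Cfsg.IsPiHall ({2, 3} : Set ℕ) H := by
  have hn0 : n ≠ 0 := NeZero.ne n
  obtain ⟨u, hu, hu2, hu3⟩ := decomp n hn0
  set x := n.factorization 2
  set y := n.factorization 3
  have hm : 2 ^ x * 3 ^ y ∣ n := by
    rw [hu]
    exact Dvd.intro _ rfl
  have hdiv : n / (2 ^ x * 3 ^ y) = u := by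
    conv_lhs => rw [hu]
    exact Nat.mul_div_cancel_left _ (by positivity)
  have hco : Nat.Coprime (n / (2 ^ x * 3 ^ y)) (2 * (2 ^ x * 3 ^ y)) := by
    rw [hdiv]
    apply Nat.Coprime.symm
    apply Nat.coprime_of_dvd
    intro r hr hd hw
    rw [← mul_assoc, ← pow_succ'] at hd
    rcases prime_of_dvd hr hd with h | h
    · rw [h] at hw; exact hu2 hw
    · rw [h] at hw; exact hu3 hw
  obtain ⟨H₀, hH₀⟩ := exists_dihedral_sub hm hco
  let H : Subgroup G := (H₀.map e.symm.toMonoidHom).map M.subtype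
  have hcard : Nat.card H = 2 ^ (x + 1) * 3 ^ y := by
    have h1 : Nat.card H = Nat.card (H₀.map e.symm.toMonoidHom) :=
      Nat.card_congr (Subgroup.equivMapOfInjective _ _ M.subtype_injective).symm.toEquiv
    have h2 : Nat.card (H₀.map e.symm.toMonoidHom) = Nat.card H₀ :=
      Nat.card_congr (e.symm.subgroupMap H₀).symm.toEquiv
    rw [h1, h2, hH₀]
    ring
  refine ⟨H, hall_of H (x + 1) y (u * w) ?_ hcard ?_ ?_⟩
  · rw [hG]
    conv_lhs => rw [hu]
    ring
  · intro h
    rcases (Nat.Prime.dvd_mul Nat.prime_two).1 h with h | h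
    · exact hu2 h
    · exact h2 h
  · intro h
    rcases (Nat.Prime.dvd_mul Nat.prime_three).1 h with h | h
    · exact hu3 h
    · exact h3 h

/-- Let `F` be a finite field with `q` elements of characteristic `p ≥ 5`, and `ε = 1` if `q ≡ 1 (mod 4)`, `ε = -1` otherwise. Then `PSL(2, F)` has a Hall `{2, 3}`-subgroup if and only if `3` divides `q − ε`, or the `{2,3}`-part of `q² − 1` is 24, or the `{2,3}`-part of `q² − 1` is 48 (the `{2,3}`-part of `m` being the largest divisor of `m` with no prime factor other than 2 and 3). -/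
theorem result {F : Type*} [Field F] [Fintype F] {p : ℕ} [Fact p.Prime] [CharP F p]
    (hp : 5 ≤ p) (q : ℕ) (hq : Fintype.card F = q) :
    (∃ H : Subgroup (Matrix.ProjectiveSpecialLinearGroup (Fin 2) F), Cfsg.IsPiHall ({2, 3} : Set ℕ) H) ↔
      (3 ∣ q - 1 ∧ q % 4 = 1) ∨ (3 ∣ q + 1 ∧ q % 4 = 3) ∨
        2 ^ (q ^ 2 - 1).factorization 2 * 3 ^ (q ^ 2 - 1).factorization 3 = 24 ∨
        2 ^ (q ^ 2 - 1).factorization 2 * 3 ^ (q ^ 2 - 1).factorization 3 = 48 := by
  classical
  subst hq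
  set q := Fintype.card F with hq
  have hq2 := card_ge_two F
  obtain ⟨n, hpp, hqn₀⟩ := FiniteField.card F p
  have hqn : q = p ^ (n : ℕ) := hqn₀
  have hn0 : (n : ℕ) ≠ 0 := n.ne_zero
  have hpdq : p ∣ q := by
    rw [hqn]
    exact dvd_pow_self p hn0
  have hq2' : ¬ 2 ∣ q := by
    intro h
    rw [hqn] at h
    have := (Nat.prime_dvd_prime_iff_eq Nat.prime_two hpp).1 (Nat.prime_two.dvd_of_dvd_pow h)
    omega
  have hq3' : ¬ 3 ∣ q := by
    intro h
    rw [hqn] at h
    have := (Nat.prime_dvd_prime_iff_eq Nat.prime_three hpp).1 (Nat.prime_three.dvd_of_dvd_pow h)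
    omega
  have hodd : q % 2 = 1 := by omega
  have h2F : (2 : F) ≠ 0 := by
    intro h
    have h1 : ((2 : ℕ) : F) = 0 := by exact_mod_cast h
    have h3 := (CharP.cast_eq_zero_iff F p 2).1 h1
    have := Nat.le_of_dvd (by norm_num) h3
    omega
  have hdd : dd F = 2 := gcd_two_odd hodd
  have hc : Nat.card PSL(2, F) * 2 = q * (q ^ 2 - 1) := by
    have h := card_PSL2_mul_dd F
    rwa [hdd] at h
  have hsub := sq_sub_one q (by omega)
  -- the decomposition
  have hN0 : q ^ 2 - 1 ≠ 0 := by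
    have : 2 ^ 2 ≤ q ^ 2 := Nat.pow_le_pow_left hq2 2
    omega
  obtain ⟨u, hu, hu2, hu3⟩ := decomp (q ^ 2 - 1) hN0
  set a := (q ^ 2 - 1).factorization 2 with ha
  set b := (q ^ 2 - 1).factorization 3 with hb
  have h8 : 2 ^ 3 ∣ q ^ 2 - 1 := by
    obtain ⟨t, ht⟩ : ∃ t, q = 2 * t + 1 := ⟨q / 2, by omega⟩
    have h1 : q ^ 2 - 1 = 4 * (t * (t + 1)) := by
      rw [ht]
      have : (2 * t + 1) ^ 2 = 4 * (t * (t + 1)) + 1 := by ring
      omega
    obtain ⟨v, hv⟩ : 2 ∣ t * (t + 1) := (Nat.even_mul_succ_self t).two_dvd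
    rw [h1, hv]
    exact ⟨v, by ring⟩
  have ha3 : 3 ≤ a := (Nat.Prime.pow_dvd_iff_le_factorization Nat.prime_two hN0).1 h8
  have h3N : 3 ∣ q ^ 2 - 1 := by
    rw [hsub]
    have : q % 3 = 1 ∨ q % 3 = 2 := by omega
    rcases this with h | h
    · exact Dvd.dvd.mul_right (by omega) _
    · exact Dvd.dvd.mul_left (by omega) _
  have hb1 : 1 ≤ b := by
    apply (Nat.Prime.pow_dvd_iff_le_factorization Nat.prime_three hN0).1
    simpa using h3N
  obtain ⟨a', ha'⟩ : ∃ a', a = a' + 1 := ⟨a - 1, by omega⟩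
  have hcard : Nat.card PSL(2, F) = 2 ^ a' * 3 ^ b * (q * u) := by
    have h1 : Nat.card PSL(2, F) * 2 = (2 ^ a' * 3 ^ b * (q * u)) * 2 := by
      rw [hc, hu, ha']
      ring
    exact Nat.eq_of_mul_eq_mul_right (by norm_num) h1
  have hw2 : ¬ 2 ∣ q * u := by
    intro h
    rcases (Nat.Prime.dvd_mul Nat.prime_two).1 h with h | h
    · exact hq2' h
    · exact hu2 h
  have hw3 : ¬ 3 ∣ q * u := by
    intro h
    rcases (Nat.Prime.dvd_mul Nat.prime_three).1 h with h | h
    · exact hq3' h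
    · exact hu3 h
  have hnot : ∀ s, (2 ∣ s) → ∀ t, 2 ∣ t → q ^ 2 - 1 = s * t → ¬ 2 ^ a ∣ s := by
    intro s hs t ht hst h
    have h1 : 2 ^ (a + 1) ∣ q ^ 2 - 1 := by
      rw [hst, pow_succ]
      exact mul_dvd_mul h ht
    exact Nat.pow_succ_factorization_not_dvd hN0 Nat.prime_two h1
  have hnot1 : ¬ 2 ^ a ∣ q - 1 := hnot (q - 1) (by omega) (q + 1) (by omega) hsub
  have hnot2 : ¬ 2 ^ a ∣ q + 1 := hnot (q + 1) (by omega) (q - 1) (by omega) (by rw [hsub, mul_comm])
  have hdvd2 : ∀ t, 2 ∣ t → 2 ^ a' ∣ t / 2 → 2 ^ a ∣ t := by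
    rintro t ⟨v, rfl⟩ h
    rw [Nat.mul_div_cancel_left _ (by norm_num)] at h
    rw [ha', pow_succ, mul_comm]
    exact mul_dvd_mul_left 2 h
  constructor
  · rintro ⟨H, hH⟩
    have hHc := card_of_hall H a' b (q * u) hcard hw2 hw3 hH
    have hpow : 2 ^ a' ∣ Nat.card H := by
      rw [hHc]
      exact Dvd.intro _ rfl
    obtain ⟨a'', ha''⟩ : ∃ a'', a' = a'' + 1 := ⟨a' - 1, by omega⟩
    have hgcd : Nat.gcd 2 (q - 1) = 2 := gcd_two_odd hodd
    rcases dickson_frame_pos p H with h1 | ⟨A, hA, hd, hle⟩ | ⟨A, hA, hd, hAH, hidx⟩ | ⟨g, hg⟩ |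
      ⟨⟨e⟩⟩ | ⟨⟨e⟩⟩ | ⟨⟨e⟩⟩ | hpos
    · rw [h1] at hpow
      rw [ha'', pow_succ] at hpow
      have : 2 ∣ 1 := (Dvd.intro_left _ rfl).trans hpow
      omega
    · exfalso
      have h1 : 2 ^ a' ∣ Nat.card (cbar A) := hpow.trans (Subgroup.card_dvd_of_le hle)
      rcases (MemberCyc.cbar_cyclic hA hd).2 with h2 | h2 <;> rw [h2, ← hq, hgcd] at h1
      · exact hnot2 (hdvd2 _ (by omega) h1)
      · exact hnot1 (hdvd2 _ (by omega) h1)
    · have h1 := Subgroup.index_mul_card (member H A)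
      rw [hidx, hHc, ha'', pow_succ] at h1
      have h2 : Nat.card (member H A) = 2 ^ a'' * 3 ^ b := by
        have : 2 * Nat.card (member H A) = 2 * (2 ^ a'' * 3 ^ b) := by
          rw [h1]; ring
        exact Nat.eq_of_mul_eq_mul_left (by norm_num) this
      obtain ⟨a3, ha3'⟩ : ∃ a3, a'' = a3 + 1 := ⟨a'' - 1, by omega⟩
      have hthree : 3 ∣ 3 ^ b := dvd_pow_self 3 (by omega)
      have hth : 3 ∣ Nat.card (member H A) := by
        rw [h2]
        exact hthree.trans (Dvd.intro_left _ rfl)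
      have htw : 2 ∣ Nat.card (member H A) := by
        rw [h2, ha3', pow_succ]
        exact (Dvd.intro_left _ rfl : 2 ∣ 2 ^ a3 * 2).trans (Dvd.intro _ rfl)
      rcases (MemberCyc.member_cyclic H hA hd).2 with h3 | h3 <;> rw [← hq, hgcd] at h3
      · right; left
        have h4 := hth.trans h3
        have h5 := htw.trans h3
        constructor <;> omega
      · left
        have h4 := hth.trans h3
        have h5 := htw.trans h3
        constructor <;> omega
    · exfalso
      have h1 := card_mul_dd_dvd_of_frame hg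
      rw [hHc, hdd, ← hq] at h1
      have h2 : 2 ^ a ∣ (q - 1) * q := by
        refine Dvd.dvd.trans ?_ h1
        rw [ha', pow_succ]
        exact mul_dvd_mul_right (Dvd.intro _ rfl) 2
      have h3 : Nat.Coprime (2 ^ a) q := Nat.Coprime.pow_left _ ((Nat.Prime.coprime_iff_not_dvd Nat.prime_two).2 hq2')
      exact hnot1 (h3.dvd_of_dvd_mul_right h2)
    · right; right; left
      have h1 : Nat.card H = 12 := by rw [Nat.card_congr e.toEquiv, card_alt4]
      rw [hHc] at h1
      rw [ha', pow_succ]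
      calc 2 ^ a' * 2 * 3 ^ b = 2 * (2 ^ a' * 3 ^ b) := by ring
        _ = 24 := by rw [h1]
    · right; right; right
      have h1 : Nat.card H = 24 := by rw [Nat.card_congr e.toEquiv, card_perm4]
      rw [hHc] at h1
      rw [ha', pow_succ]
      calc 2 ^ a' * 2 * 3 ^ b = 2 * (2 ^ a' * 3 ^ b) := by ring
        _ = 48 := by rw [h1]
    · exfalso
      have h1 : Nat.card H = 60 := by rw [Nat.card_congr e.toEquiv, card_alt5]
      have h2 := hH.1 5 (by norm_num) (by rw [h1]; norm_num)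
      simp at h2
    · exfalso
      obtain ⟨g₁, c₁, hc₁, K, _, _, ι, m, hm, hle, -⟩ := hpos
      haveI : CharP K p := (RingHom.charP_iff ι ι.injective p).2 inferInstance
      obtain ⟨n', -, hqn'⟩ := FiniteField.card K p
      have hp1 : p ∣ Fintype.card K := by
        rw [hqn']
        exact dvd_pow_self p n'.ne_zero
      have hp2 : p ∣ Nat.card PSL(2, K) := by
        have h3 := card_PSL2_mul_dd K
        have h4 : p ∣ Nat.card PSL(2, K) * dd K := by
          rw [h3]
          exact Dvd.dvd.mul_right hp1 _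
        rcases (Nat.Prime.dvd_mul hpp).1 h4 with h5 | h5
        · exact h5
        · exfalso
          have := Nat.le_of_dvd (dd_pos K) h5
          have := dd_le_two K
          omega
      have hp3 : p ∣ Nat.card H := by
        have h3 : Nat.card H = Nat.card (H.map (frameP g₁ c₁ hc₁).toMonoidHom) :=
          Nat.card_congr ((frameP g₁ c₁ hc₁).subgroupMap H).toEquiv
        rw [h3]
        refine hp2.trans ?_
        rw [← card_stdPsl ι]
        exact Subgroup.card_dvd_of_le hle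
      rcases hH.1 p hpp hp3 with h | h
      · omega
      · have h : p = 3 := h
        omega
  · rintro (⟨h3, h4⟩ | ⟨h3, h4⟩ | h24 | h48)
    · -- the split case
      have hq' : q ∉ ({2, 3, 5, 7, 9, 11} : Finset ℕ) := by
        simp only [Finset.mem_insert, Finset.mem_singleton, not_or]
        omega
      obtain ⟨M, -, ⟨e⟩⟩ := exists_coatom_sub (F := F) rfl hq'
      rw [← hq, gcd_two_odd hodd] at e
      obtain ⟨s, hs⟩ : ∃ s, q = 2 * s + 1 := ⟨q / 2, by omega⟩
      have hs1 : (q - 1) / 2 = s := by omega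
      rw [hs1] at e
      haveI : NeZero s := ⟨by omega⟩
      refine hall_dihedral M s e (q * (s + 1)) ?_ ?_ ?_
      · have h1 : Nat.card PSL(2, F) * 2 = (2 * s * (q * (s + 1))) * 2 := by
          rw [hc, hsub, hs]
          have h5 : 2 * s + 1 - 1 = 2 * s := by omega
          rw [h5]
          ring
        exact Nat.eq_of_mul_eq_mul_right (by norm_num) h1
      · intro h
        rcases (Nat.Prime.dvd_mul Nat.prime_two).1 h with h | h
        · exact hq2' h
        · omega
      · intro h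
        rcases (Nat.Prime.dvd_mul Nat.prime_three).1 h with h | h
        · exact hq3' h
        · omega
    · -- the nonsplit case
      have hq' : q ∉ ({2, 7, 9} : Finset ℕ) := by
        simp only [Finset.mem_insert, Finset.mem_singleton, not_or]
        omega
      obtain ⟨M, -, ⟨e⟩⟩ := exists_coatom_add (F := F) rfl hq'
      rw [← hq, gcd_two_odd hodd] at e
      obtain ⟨s, hs⟩ : ∃ s, q = 2 * s + 1 := ⟨q / 2, by omega⟩
      have hs1 : (q + 1) / 2 = s + 1 := by omega
      rw [hs1] at e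
      refine hall_dihedral M (s + 1) e (q * s) ?_ ?_ ?_
      · have h1 : Nat.card PSL(2, F) * 2 = (2 * (s + 1) * (q * s)) * 2 := by
          rw [hc, hsub, hs]
          have h5 : 2 * s + 1 - 1 = 2 * s := by omega
          rw [h5]
          ring
        exact Nat.eq_of_mul_eq_mul_right (by norm_num) h1
      · intro h
        rcases (Nat.Prime.dvd_mul Nat.prime_two).1 h with h | h
        · exact hq2' h
        · omega
      · intro h
        rcases (Nat.Prime.dvd_mul Nat.prime_three).1 h with h | h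
        · exact hq3' h
        · omega
    · obtain ⟨H, ⟨e⟩⟩ := Icosian.exists_A4_odd h2F
      refine ⟨H, hall_of H 2 1 (q * u) ?_ ?_ hw2 hw3⟩
      · rw [hcard]
        have : 2 ^ a' * 3 ^ b = 12 := by
          have h1 : 2 * (2 ^ a' * 3 ^ b) = 2 * 12 := by
            rw [ha', pow_succ] at h24
            calc 2 * (2 ^ a' * 3 ^ b) = 2 ^ a' * 2 * 3 ^ b := by ring
              _ = 2 * 12 := by rw [h24]
          exact Nat.eq_of_mul_eq_mul_left (by norm_num) h1
        rw [this]
        norm_num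
      · rw [Nat.card_congr e.toEquiv, card_alt4]
        norm_num
    · have h16 : 2 ^ 4 ∣ q ^ 2 - 1 := by
        have h1 : 2 ^ 4 ∣ 2 ^ a * 3 ^ b := by rw [h48]; norm_num
        have h2 : Nat.Coprime (2 ^ 4) (3 ^ b) := Nat.Coprime.pow _ _ (by norm_num)
        have h3 := h2.dvd_of_dvd_mul_right h1
        refine h3.trans ?_
        rw [hu, mul_assoc]
        exact Dvd.intro _ rfl
      have h8' : q % 8 = 1 ∨ q % 8 = 7 := mod8 q (by omega) h16
      have hsq : IsSquare (2 : F) := by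
        rw [FiniteField.isSquare_two_iff, ← hq]
        omega
      obtain ⟨s, hs⟩ := hsq
      have hs0 : s ≠ 0 := by
        rintro rfl
        exact h2F (by simpa using hs)
      have hr : 2 * (s⁻¹ * s⁻¹) = 1 := by
        rw [hs]
        field_simp
      obtain ⟨H, ⟨e⟩⟩ := Icosian.exists_S4_odd h2F hr
      refine ⟨H, hall_of H 3 1 (q * u) ?_ ?_ hw2 hw3⟩
      · rw [hcard]
        have : 2 ^ a' * 3 ^ b = 24 := by
          have h1 : 2 * (2 ^ a' * 3 ^ b) = 2 * 24 := by
            rw [ha', pow_succ] at h48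
            calc 2 * (2 ^ a' * 3 ^ b) = 2 ^ a' * 2 * 3 ^ b := by ring
              _ = 2 * 24 := by rw [h48]
          exact Nat.eq_of_mul_eq_mul_left (by norm_num) h1
        rw [this]
        norm_num
      · rw [Nat.card_congr e.toEquiv, card_perm4]
        norm_num

end Cfsg.Agent.S2537
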