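import Cfsg.Statements.S2540
import Mathlib
import Cfsg.Agent.Lib.Linalg.Transvection
import Cfsg.Agent.Lib.Classical.Lin.Transvections

set_option autoImplicit false
open Cfsg Matrix
open scoped commutatorElement

namespace Cfsg.Agent.S2540

variable {F : Type*} [Field F]

theorem exists_sq_ne_one' [Fintype F] (h : 4 ≤ Fintype.card F) : ∃ x : F, x ≠ 0 ∧ x ^ 2 ≠ 1 := by
  classical
  by_contra hcon
  push Not at hcon
  have hsub : (Finset.univ : Finset F) ⊆ {0, 1, -1} := by
    intro x _
    by_cases hx : x = 0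
    · simp [hx]
    · have := hcon x hx
      rw [sq] at this
      rcases mul_self_eq_one_iff.1 this with h | h <;> simp [h]
  have h1 := Finset.card_le_card hsub
  have h2 : ({0, 1, -1} : Finset F).card ≤ 3 := Finset.card_le_three
  rw [Finset.card_univ] at h1
  omega

theorem perfect_sl2' [Fintype F] (h : 4 ≤ Fintype.card F) : commutator (SpecialLinearGroup (Fin 2) F) = ⊤ := by
  obtain ⟨x, hx0, hx2⟩ := exists_sq_ne_one' h
  rw [eq_top_iff]
  intro M _
  refine Cfsg.Agent.Lib.Linalg.Transvection.sl_transvection_induction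
    (fun M => M ∈ commutator (SpecialLinearGroup (Fin 2) F)) (one_mem _)
    (fun i j hij a => ?_) (fun A B hA hB => mul_mem hA hB) M
  rw [commutator_eq_closure]
  exact Subgroup.subset_closure
    (Cfsg.Agent.Lib.Linalg.Transvection.transvection_mem_commutatorSet_of_sq hij hx0 hx2 a)

/-- central elements do not affect commutators. -/
theorem comm_central {G : Type*} [Group G] (h k z w : G) (hz : z ∈ Subgroup.center G)
    (hw : w ∈ Subgroup.center G) : ⁅h * z, k * w⁆ = ⁅h, k⁆ := by
  have hz1 : ∀ y, z * y = y * z := fun y => (Subgroup.mem_center_iff.mp hz y).symm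
  have hw1 : ∀ y, w * y = y * w := fun y => (Subgroup.mem_center_iff.mp hw y).symm
  have e1 : (h * z) * (k * w) = (h * k) * (z * w) := by
    rw [mul_assoc, mul_assoc, ← mul_assoc z k w, hz1 k, mul_assoc]
  have e2 : (k * w) * (h * z) = (k * h) * (z * w) := by
    rw [mul_assoc, mul_assoc, ← mul_assoc w h z, hw1 h, mul_assoc, hw1 z]
  have e3 : (h * z)⁻¹ * (k * w)⁻¹ = ((k * w) * (h * z))⁻¹ := by group
  rw [commutatorElement_def, commutatorElement_def, mul_assoc, e3, e1, e2]
  group

/-- A matrix commuting with `SL_n` is scalar. -/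
theorem scalar_of_commute {n : ℕ} (g : Matrix (Fin n) (Fin n) F)
    (h : ∀ s : SpecialLinearGroup (Fin n) F, g * (s : Matrix (Fin n) (Fin n) F) = (s : Matrix (Fin n) (Fin n) F) * g) :
    ∃ c : F, g = c • (1 : Matrix (Fin n) (Fin n) F) := by
  have h1 : g ∈ Set.range (Matrix.scalar (Fin n) (α := F)) := by
    apply Matrix.mem_range_scalar_of_commute_single
    intro i j hij
    have hd : (Matrix.transvection i j (1 : F)).det = 1 := Matrix.det_transvection_of_ne i j hij 1
    have := h ⟨_, hd⟩
    simp only [Matrix.transvection] at this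
    rw [mul_add, add_mul, mul_one, one_mul] at this
    have h2 := add_left_cancel this
    exact h2.symm
  obtain ⟨c, rfl⟩ := h1
  refine ⟨c, ?_⟩
  ext i j
  simp [Matrix.scalar_apply, Matrix.smul_apply, Matrix.one_apply, Matrix.diagonal_apply]

/-- Let F be a finite field and n ≥ 1, excluding the case n = 2 with #F ≤ 3. A subgroup of GL_n(F) that is normalized by every element of SL_n(F) either consists of scalar matrices or contains SL_n(F). -/
theorem result {F : Type*} [Field F] [Fintype F] (n : ℕ) (hn : 1 ≤ n) (hex : ¬ (n = 2 ∧ Fintype.card F ≤ 3)) (G : Subgroup (Matrix.GeneralLinearGroup (Fin n) F)) (hG : ∀ s : Matrix.SpecialLinearGroup (Fin n) F, ∀ g ∈ G, (Matrix.SpecialLinearGroup.toGL s) * g * (Matrix.SpecialLinearGroup.toGL s)⁻¹ ∈ G) : (∀ g ∈ G, ∃ c : F, (g : Matrix (Fin n) (Fin n) F) = c • (1 : Matrix (Fin n) (Fin n) F)) ∨ (Matrix.SpecialLinearGroup.toGL : Matrix.SpecialLinearGroup (Fin n) F →* _).range ≤ G := by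
  classical
  by_cases hn1 : n = 1
  · subst hn1
    left
    intro g _
    refine ⟨(g : Matrix (Fin 1) (Fin 1) F) 0 0, ?_⟩
    ext i j
    simp [Subsingleton.elim i 0, Subsingleton.elim j 0]
  have hn2 : 2 ≤ n := by omega
  have hperf : commutator (SpecialLinearGroup (Fin n) F) = ⊤ := by
    by_cases h2 : n = 2
    · subst h2
      exact perfect_sl2' (by
        by_contra hc
        exact hex ⟨rfl, by omega⟩)
    · exact Cfsg.Agent.Lib.Classical.Lin.Transvections.commutator_eq_top (by simp; omega)
  have hsimple : IsSimpleGroup (Matrix.ProjectiveSpecialLinearGroup (Fin n) F) := by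
    by_cases h2 : n = 2
    · subst h2
      refine Matrix.ProjectiveSpecialLinearGroup.rank_two_simple ?_
      rw [Nat.card_eq_fintype_card]
      by_contra hc
      exact hex ⟨rfl, by omega⟩
    · exact Cfsg.Agent.Lib.Classical.Lin.Transvections.psl_isSimpleGroup (by simp; omega)
  let τ : SpecialLinearGroup (Fin n) F →* GL (Fin n) F := Matrix.SpecialLinearGroup.toGL
  let H : Subgroup (SpecialLinearGroup (Fin n) F) := G.comap τ
  have hHn : H.Normal := by
    constructor
    intro h hh s
    change τ (s * h * s⁻¹) ∈ G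
    rw [map_mul, map_mul, map_inv]
    exact hG s _ hh
  let π : SpecialLinearGroup (Fin n) F →* Matrix.ProjectiveSpecialLinearGroup (Fin n) F :=
    QuotientGroup.mk' (Subgroup.center _)
  have hπ : Function.Surjective π := QuotientGroup.mk'_surjective _
  have hker : ∀ x, π x = 1 ↔ x ∈ Subgroup.center (SpecialLinearGroup (Fin n) F) := by
    intro x
    exact QuotientGroup.eq_one_iff x
  have hmapn : (H.map π).Normal := hHn.map π hπ
  rcases hsimple.eq_bot_or_eq_top_of_normal _ hmapn with hbot | htop
  · left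
    intro g hg
    -- every `g a g⁻¹ a⁻¹` is central
    have hz : ∀ a : SpecialLinearGroup (Fin n) F, ∃ z ∈ Subgroup.center (SpecialLinearGroup (Fin n) F),
        g * τ a * g⁻¹ = τ (z * a) := by
      intro a
      have hmem : g * (τ a * g⁻¹ * (τ a)⁻¹) ∈ G := G.mul_mem hg (hG a _ (G.inv_mem hg))
      have hdet : ((g * (τ a * g⁻¹ * (τ a)⁻¹) : GL (Fin n) F) : Matrix (Fin n) (Fin n) F).det = 1 := by
        have h1 : ((g : GL (Fin n) F) : Matrix (Fin n) (Fin n) F).det * ((g⁻¹ : GL (Fin n) F) : Matrix (Fin n) (Fin n) F).det = 1 := by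
          rw [← Matrix.det_mul, ← Units.val_mul, mul_inv_cancel]; simp
        have h2 : ((τ a : GL (Fin n) F) : Matrix (Fin n) (Fin n) F).det * (((τ a)⁻¹ : GL (Fin n) F) : Matrix (Fin n) (Fin n) F).det = 1 := by
          rw [← Matrix.det_mul, ← Units.val_mul, mul_inv_cancel]; simp
        simp only [Units.val_mul, Matrix.det_mul]
        linear_combination (((τ a : GL (Fin n) F) : Matrix (Fin n) (Fin n) F).det * ((τ a)⁻¹ : GL (Fin n) F).val.det) * h1 + h2
      let t : SpecialLinearGroup (Fin n) F := ⟨_, hdet⟩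
      have ht : τ t = g * (τ a * g⁻¹ * (τ a)⁻¹) := by
        apply Units.ext
        rfl
      have htH : t ∈ H := by
        change τ t ∈ G
        rw [ht]; exact hmem
      have : π t ∈ H.map π := ⟨t, htH, rfl⟩
      rw [hbot, Subgroup.mem_bot] at this
      refine ⟨t, (hker t).mp this, ?_⟩
      rw [map_mul, ht]
      group
    have hcomm : ∀ a b : SpecialLinearGroup (Fin n) F, g * τ ⁅a, b⁆ * g⁻¹ = τ ⁅a, b⁆ := by
      intro a b
      obtain ⟨z, hz', hza⟩ := hz a
      obtain ⟨w, hw', hwb⟩ := hz b
      have h1 : g * τ ⁅a, b⁆ * g⁻¹ = ⁅g * τ a * g⁻¹, g * τ b * g⁻¹⁆ := by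
        rw [map_commutatorElement]
        simp only [commutatorElement_def]
        group
      rw [h1, hza, hwb, ← map_commutatorElement]
      congr 1
      have h3 := comm_central a b z w hz' hw'
      have hza' : z * a = a * z := (Subgroup.mem_center_iff.mp hz' a).symm
      have hwb' : w * b = b * w := (Subgroup.mem_center_iff.mp hw' b).symm
      rw [hza', hwb', h3]
    have hall : ∀ s : SpecialLinearGroup (Fin n) F, g * τ s * g⁻¹ = τ s := by
      let A : Subgroup (SpecialLinearGroup (Fin n) F) :=
        (Subgroup.centralizer {g}).comap τ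
      have hA : commutator (SpecialLinearGroup (Fin n) F) ≤ A := by
        rw [commutator_eq_closure, Subgroup.closure_le]
        rintro _ ⟨a, b, rfl⟩
        change τ ⁅a, b⁆ ∈ Subgroup.centralizer {g}
        rw [Subgroup.mem_centralizer_singleton_iff]
        have := hcomm a b
        rw [mul_inv_eq_iff_eq_mul] at this
        exact this.symm
      rw [hperf] at hA
      intro s
      have hs : τ s ∈ Subgroup.centralizer {g} := hA (Subgroup.mem_top s)
      rw [Subgroup.mem_centralizer_singleton_iff] at hs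
      rw [mul_inv_eq_iff_eq_mul]
      exact hs.symm
    apply scalar_of_commute
    intro s
    have := hall s
    rw [mul_inv_eq_iff_eq_mul] at this
    exact congrArg (fun u : GL (Fin n) F => (u : Matrix (Fin n) (Fin n) F)) this
  · right
    have hsup : ∀ x : SpecialLinearGroup (Fin n) F, ∃ h ∈ H, ∃ z ∈ Subgroup.center (SpecialLinearGroup (Fin n) F), x = h * z := by
      intro x
      have : π x ∈ H.map π := by rw [htop]; trivial
      obtain ⟨h, hh, he⟩ := this
      refine ⟨h, hh, h⁻¹ * x, ?_, by group⟩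
      rw [← hker, map_mul, map_inv, he]
      simp
    have hle : commutator (SpecialLinearGroup (Fin n) F) ≤ H := by
      rw [commutator_eq_closure, Subgroup.closure_le]
      rintro _ ⟨a, b, rfl⟩
      obtain ⟨h, hh, z, hz, rfl⟩ := hsup a
      obtain ⟨k, hk, w, hw, rfl⟩ := hsup b
      have he := comm_central h k z w hz hw
      rw [he, commutatorElement_def]
      exact H.mul_mem (H.mul_mem (H.mul_mem hh hk) (H.inv_mem hh)) (H.inv_mem hk)
    rw [hperf] at hle
    rintro _ ⟨s, rfl⟩
    exact hle (Subgroup.mem_top s)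

end Cfsg.Agent.S2540
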