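import Cfsg.Statements.S2541
import Mathlib
-- import your own Cfsg.Agent.* helpers here

set_option autoImplicit false
open Cfsg

namespace Cfsg.Agent.S2541

lemma perm_six_no_order_eight (σ : Equiv.Perm (Fin 6)) (h8 : σ ^ 8 = 1) : σ ^ 4 = 1 := by
  by_contra h4
  have hex : ∃ x, (σ ^ 4) x ≠ x := by
    by_contra hcon
    push Not at hcon
    exact h4 (Equiv.ext hcon)
  obtain ⟨x, hx⟩ := hex
  have hper : ∀ n : ℕ, (σ ^ n) x = x ↔ Function.IsPeriodicPt (⇑σ) n x := by
    intro n
    rw [Function.IsPeriodicPt, Function.IsFixedPt, Equiv.Perm.iterate_eq_pow]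
  have hP8 : Function.IsPeriodicPt (⇑σ) 8 x := (hper 8).1 (by rw [h8]; rfl)
  have key : ∀ i j : ℕ, i < j → j < 8 → (σ ^ i) x ≠ (σ ^ j) x := by
    intro i j hij hj heq
    have hd : (σ ^ (j - i)) x = x := by
      have e : σ ^ j = σ ^ i * σ ^ (j - i) := by
        rw [← pow_add]; congr 1; omega
      rw [e, Equiv.Perm.mul_apply] at heq
      exact ((σ ^ i).injective heq).symm
    have hPd := (hper _).1 hd
    have hg := hP8.gcd hPd
    have hdvd : Nat.gcd 8 (j - i) ∣ 4 := by
      have h1 : 0 < j - i := by omega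
      have h2 : j - i < 8 := by omega
      generalize j - i = d at h1 h2
      interval_cases d <;> decide
    exact hx ((hper 4).2 (hg.trans_dvd hdvd))
  have hinj : Function.Injective (fun k : Fin 8 => (σ ^ (k : ℕ)) x) := by
    intro a b hab
    rcases lt_trichotomy (a : ℕ) b with h | h | h
    · exact absurd hab (key _ _ h b.2)
    · exact Fin.ext h
    · exact absurd hab.symm (key _ _ h a.2)
  have := Fintype.card_le_of_injective _ hinj
  simp at this

/-- the diagonal element `diag(u, 1)` of `GL₂` -/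
def diagUnit {F : Type*} [Field F] (u : Fˣ) : GL (Fin 2) F :=
  ⟨!![(u : F), 0; 0, 1], !![((u⁻¹ : Fˣ) : F), 0; 0, 1],
    by
      ext i j
      fin_cases i <;> fin_cases j <;> simp [Matrix.mul_apply, Fin.sum_univ_two],
    by
      ext i j
      fin_cases i <;> fin_cases j <;> simp [Matrix.mul_apply, Fin.sum_univ_two]⟩

lemma diagUnit_mul {F : Type*} [Field F] (u v : Fˣ) :
    diagUnit (u * v) = diagUnit u * diagUnit v := by
  apply Units.ext
  ext i j
  fin_cases i <;> fin_cases j <;> simp [diagUnit, Matrix.mul_apply, Fin.sum_univ_two]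

lemma diagUnit_one {F : Type*} [Field F] : diagUnit (1 : Fˣ) = 1 := by
  apply Units.ext
  ext i j
  fin_cases i <;> fin_cases j <;> simp [diagUnit]

lemma diagUnit_pow {F : Type*} [Field F] (u : Fˣ) (n : ℕ) : diagUnit (u ^ n) = diagUnit u ^ n := by
  induction n with
  | zero => simp [diagUnit_one]
  | succ n ih => rw [pow_succ, diagUnit_mul, ih, pow_succ]

lemma diagUnit_not_central {F : Type*} [Field F] (u : Fˣ) (hu : u ≠ 1) :
    diagUnit u ∉ Subgroup.center (GL (Fin 2) F) := by
  intro hc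
  let h : GL (Fin 2) F := ⟨!![1, 1; 0, 1], !![1, -1; 0, 1],
    by
      ext i j
      fin_cases i <;> fin_cases j <;> simp [Matrix.mul_apply, Fin.sum_univ_two],
    by
      ext i j
      fin_cases i <;> fin_cases j <;> simp [Matrix.mul_apply, Fin.sum_univ_two]⟩
  have h1 := Subgroup.mem_center_iff.1 hc h
  have h2 := congrArg (fun m : GL (Fin 2) F => (m : Matrix (Fin 2) (Fin 2) F) 0 1) h1
  simp [diagUnit, h, Matrix.mul_apply, Fin.sum_univ_two] at h2
  apply hu
  apply Units.ext
  simpa using h2.symm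


/-- Let F be a field with 9 elements. The symmetric group S_6 is not isomorphic to PGL_2(F) (although both have index-2 subgroups isomorphic to A_6). -/
theorem result {F : Type*} [Field F] [Fintype F] (hF : Fintype.card F = 9) : ¬ Nonempty (Equiv.Perm (Fin 6) ≃* Matrix.ProjGenLinGroup (Fin 2) F) := by
  classical
  rintro ⟨ψ⟩
  obtain ⟨a, ha⟩ := IsCyclic.exists_generator (α := Fˣ)
  have hord : orderOf a = 8 := by
    rw [orderOf_eq_card_of_forall_mem_zpowers ha, Nat.card_eq_fintype_card, Fintype.card_units, hF]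
  have ha8 : a ^ 8 = 1 := by rw [← hord]; exact pow_orderOf_eq_one a
  have ha4 : a ^ 4 ≠ 1 := by
    intro h
    have := orderOf_dvd_of_pow_eq_one h
    rw [hord] at this
    omega
  let x : Matrix.ProjGenLinGroup (Fin 2) F := Matrix.ProjGenLinGroup.mk (diagUnit a)
  have hx8 : x ^ 8 = 1 := by
    show (Matrix.ProjGenLinGroup.mk (diagUnit a)) ^ 8 = 1
    rw [← map_pow, ← diagUnit_pow, ha8, diagUnit_one, map_one]
  have hx4 : x ^ 4 ≠ 1 := by
    intro h
    have h2 : Matrix.ProjGenLinGroup.mk (diagUnit (a ^ 4)) = 1 := by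
      rw [diagUnit_pow, map_pow]
      exact h
    rw [Matrix.ProjGenLinGroup.mk_eq_one] at h2
    exact diagUnit_not_central _ ha4 h2
  have h1 : (ψ.symm x) ^ 8 = 1 := by
    rw [← map_pow, hx8, map_one]
  have h2 := perm_six_no_order_eight _ h1
  apply hx4
  have h3 : ψ ((ψ.symm x) ^ 4) = 1 := by rw [h2, map_one]
  rwa [map_pow, MulEquiv.apply_symm_apply] at h3

end Cfsg.Agent.S2541
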