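import Cfsg.Statements.S2542
import Cfsg.Agent.Lib.Compute.PSL211

set_option autoImplicit false
open Cfsg

namespace Cfsg.Agent.S2542

open Cfsg.Agent.Lib.Compute.GFModel Cfsg.Agent.Lib.Compute.SmallField
open Cfsg.Agent.Lib.Compute.PSL211 Cfsg.Agent.Lib.Compute.ConjCount

/-- Let F be a field with 11 elements. PSL_2(F) has a subgroup H of index 11 isomorphic to the alternating group A_5, and the action of PSL_2(F) on the cosets of H is 2-transitive (of degree 11). -/
theorem result {F : Type*} [Field F] [Fintype F] (hF : Fintype.card F = 11) : ∃ H : Subgroup (Matrix.ProjectiveSpecialLinearGroup (Fin 2) F), H.index = 11 ∧ Nonempty (H ≃* alternatingGroup (Fin 5)) ∧ MulAction.IsMultiplyPretransitive (Matrix.ProjectiveSpecialLinearGroup (Fin 2) F) ((Matrix.ProjectiveSpecialLinearGroup (Fin 2) F) ⧸ H) 2 := by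
  let e : P ≃* Matrix.ProjectiveSpecialLinearGroup (Fin 2) F :=
    pslCongr (equivOfCard (F := ZMod 11) (K := F) (by rw [ZMod.card, hF]))
  refine ⟨DH.H.map e.toMonoidHom, ?_, ?_, ?_⟩
  · rw [Subgroup.index_map_of_bijective (f := e.toMonoidHom) e.bijective]
    exact DH.index_H
  · obtain ⟨f⟩ := DH.equiv_a5
    exact ⟨(e.subgroupMap DH.H).symm.trans f⟩
  · refine two_trans_of_double_coset _ (e (pi G0)) ?_
    intro x hx
    obtain ⟨x, rfl⟩ := e.surjective x
    have hx' : x ∉ DH.H := fun h => hx ⟨x, h, rfl⟩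
    obtain ⟨a, ha, b, hb, hab⟩ := double_coset x hx'
    refine ⟨e a, ⟨a, ha, rfl⟩, e b, ⟨b, hb, rfl⟩, ?_⟩
    rw [hab, map_mul, map_mul]

end Cfsg.Agent.S2542
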