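import Cfsg.Statements.S2545
import Mathlib
import Cfsg.Agent.Lib.StGen.SpPair

set_option autoImplicit false

open Cfsg

namespace Cfsg.Agent.S2545

theorem result {F : Type*} [Field F] [Fintype F] (p : ℕ) [Fact p.Prime] [CharP F p] (m : ℕ) (hm : 1 ≤ m) : ∃ χ : Cfsg.PSp m F → ℂ, Cfsg.IsIrrCharacter (Cfsg.PSp m F) χ ∧ ∀ P : Sylow p (Cfsg.PSp m F), χ 1 = Nat.card P ∧ ∀ x : Cfsg.PSp m F, x ∈ P → x ≠ 1 → χ x = 0 := by
  obtain ⟨n, rfl⟩ : ∃ n, m = n + 1 := ⟨m - 1, by omega⟩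
  exact Cfsg.Agent.Lib.StGen.SpPair.main n F p

end Cfsg.Agent.S2545
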