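import Cfsg.Statements.S2546
import Mathlib
import Cfsg.Agent.Lib.SuBN.Gen

set_option autoImplicit false
open Cfsg

namespace Cfsg.Agent.S2546

/-- Let F be a finite field of characteristic p and consider the projective special unitary group PSU_n(q), n ≥ 2, realised over the field F with q² elements. This group has an irreducible complex character χ whose degree equals the order of a Sylow p-subgroup (namely q^(n(n−1)/2)) and whose restriction to any Sylow p-subgroup P is the regular character of P: χ vanishes on the non-identity elements of P. (This is the Steinberg character.) -/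
theorem result {F : Type*} [Field F] [Fintype F] (p : ℕ) [Fact p.Prime] [CharP F p] (n q : ℕ) (hn : 2 ≤ n) (hF : Fintype.card F = q ^ 2) : ∃ χ : Cfsg.PSU n F q → ℂ, Cfsg.IsIrrCharacter (Cfsg.PSU n F q) χ ∧ ∀ P : Sylow p (Cfsg.PSU n F q), χ 1 = Nat.card P ∧ ∀ x : Cfsg.PSU n F q, x ∈ P → x ≠ 1 → χ x = 0 := by
  classical
  obtain ⟨W⟩ := Cfsg.Agent.Lib.Fusion.PSU.Basis.exists_wb hF n
  obtain ⟨w, hw0, hw⟩ := Cfsg.Agent.Lib.Classical.Herm.Subfield.exists_trace_zero hF
  obtain ⟨m, ε, hε, rfl⟩ : ∃ m ε, ε ≤ 1 ∧ n = 2 * m + 2 + ε :=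
    ⟨(n - 2) / 2, (n - 2) % 2, by omega, by omega⟩
  open Cfsg.Agent.Lib.SuBN.Last Cfsg.Agent.Lib.SuBN.Gen in
  interval_cases ε
  · exact steinberg hF (⟨eB hF W hw0 hw, isMo_eB hF W hw0 hw, fun u hu => dec_B hF W hu,
      fun x hx => sl2_B hF W hw0 hw hx, ne_B hF W hw0 hw⟩ : LastData W) p (by omega)
  · exact steinberg hF (⟨eC hF W, isMo_eC hF W, fun u hu => dec_C hF W hu,
      fun x hx => sl2_C hF W hx, ne_C hF W hw0 hw⟩ : LastData W) p (by omega)

end Cfsg.Agent.S2546
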