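import Cfsg.Statements.S2547
import Mathlib
import Cfsg.Agent.Lib.StOm.Odd
import Cfsg.Agent.Lib.Classical.Geo.OPts

set_option autoImplicit false
open Cfsg

namespace Cfsg.Agent.S2547

/-- Let F be a finite field of characteristic p and consider the group PΩ_{2m+1}(F) of the quadratic form x₀² + Σ x_i y_i, where m ≥ 1 and #F is odd. This group has an irreducible complex character χ whose degree equals the order of a Sylow p-subgroup (namely q^(m²) when #F = q) and whose restriction to any Sylow p-subgroup P is the regular character of P: χ vanishes on the non-identity elements of P. (This is the Steinberg character.) -/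
theorem result {F : Type*} [Field F] [Fintype F] (p : ℕ) [Fact p.Prime] [CharP F p] (hodd : Odd (Fintype.card F)) (m : ℕ) (hm : 1 ≤ m) : ∃ χ : Cfsg.POmega F (Cfsg.quadFormOdd m F) → ℂ, Cfsg.IsIrrCharacter (Cfsg.POmega F (Cfsg.quadFormOdd m F)) χ ∧ ∀ P : Sylow p (Cfsg.POmega F (Cfsg.quadFormOdd m F)), χ 1 = Nat.card P ∧ ∀ x : Cfsg.POmega F (Cfsg.quadFormOdd m F), x ∈ P → x ≠ 1 → χ x = 0 := by
  obtain ⟨n, rfl⟩ : ∃ n, m = n + 1 := ⟨m - 1, by omega⟩
  have h2 : (2 : F) ≠ 0 := Cfsg.Agent.Lib.Classical.Geo.OPts.two_ne_zero_of_odd hodd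
  have h := Cfsg.Agent.Lib.StOm.Odd.main (n := n) (F := F) h2 p
  have he : ⇑(Cfsg.Agent.Lib.StOm.Odd.frO n F).Q = Cfsg.quadFormOdd (n + 1) F :=
    Cfsg.Agent.Lib.Classical.Orth.Models.coe_oddForm (n + 1) F
  rw [he] at h
  exact h

end Cfsg.Agent.S2547
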