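import Cfsg.Statements.S2550
import Mathlib
import Cfsg.Agent.S0256
import Cfsg.Agent.S0819
import Cfsg.Agent.Lib.Compute.PSL34
import Cfsg.Agent.Lib.Compute.GFModel
import Cfsg.Agent.Lib.Compute.SmallField

set_option autoImplicit false
open Cfsg

namespace Cfsg.Agent.S2550

open Cfsg.Agent.Lib.Compute.GFModel Cfsg.Agent.Lib.Compute.SmallField

/-- The permutation `(0 1 2)(3 4 5 6 7)` of `Fin 8`. -/
private def sigma : Equiv.Perm (Fin 8) where
  toFun := ![1, 2, 0, 4, 5, 6, 7, 3]
  invFun := ![2, 0, 1, 7, 3, 4, 5, 6]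
  left_inv := by decide +kernel
  right_inv := by decide +kernel

private theorem sigma_pow15 : sigma ^ 15 = 1 := by decide +kernel
private theorem sigma_pow5 : sigma ^ 5 ≠ 1 := by decide +kernel
private theorem sigma_pow3 : sigma ^ 3 ≠ 1 := by decide +kernel

private theorem sigma_mem : sigma ∈ alternatingGroup (Fin 8) := by
  rw [Equiv.Perm.mem_alternatingGroup]
  have h : sigma = sigma ^ 8 * sigma ^ 8 := by
    rw [← pow_add, show 8 + 8 = 15 + 1 by norm_num, pow_add, sigma_pow15, one_mul, pow_one]
  rw [h, map_mul, Int.units_mul_self]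

private theorem order_sigma : orderOf sigma = 15 := by
  refine orderOf_eq_of_pow_and_pow_div_prime (by norm_num) sigma_pow15 ?_
  intro p hp hd
  have h15 : (15 : ℕ) = 3 * 5 := by norm_num
  rw [h15] at hd
  rcases (Nat.Prime.dvd_mul hp).mp hd with h | h
  · have := (Nat.prime_dvd_prime_iff_eq hp (by norm_num)).mp h
    subst this
    exact sigma_pow5
  · have := (Nat.prime_dvd_prime_iff_eq hp (by norm_num)).mp h
    subst this
    exact sigma_pow3

/-- Let F be a field with 2 elements and K a field with 4 elements. PSL_4(F) and PSL_3(K) have the same order (20160) but are not isomorphic. -/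
theorem result {F K : Type*} [Field F] [Fintype F] [Field K] [Fintype K] (hF : Fintype.card F = 2) (hK : Fintype.card K = 4) : Nat.card (Matrix.ProjectiveSpecialLinearGroup (Fin 4) F) = Nat.card (Matrix.ProjectiveSpecialLinearGroup (Fin 3) K) ∧ ¬ Nonempty (Matrix.ProjectiveSpecialLinearGroup (Fin 4) F ≃* Matrix.ProjectiveSpecialLinearGroup (Fin 3) K) := by
  obtain ⟨e8⟩ := Cfsg.Agent.S0256.result hF
  let e3 := pslCongr (ι := Fin 3) (equivOfCard (F := GF4) (K := K) (by rw [card_GF4, hK]))
  constructor
  · rw [Nat.card_congr e8.toEquiv, ← Nat.card_congr e3.toEquiv,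
      Cfsg.Agent.Lib.Compute.PSL34.card_P3]
    have h2 := two_mul_card_alternatingGroup (α := Fin 8)
    have h3 : Fintype.card (Equiv.Perm (Fin 8)) = 40320 := by
      rw [Fintype.card_perm, Fintype.card_fin]
      decide
    rw [Nat.card_eq_fintype_card]
    omega
  · rintro ⟨e⟩
    let s : alternatingGroup (Fin 8) := ⟨sigma, sigma_mem⟩
    have hs : orderOf s = 15 := by
      rw [Subgroup.orderOf_mk, order_sigma]
    have h1 : orderOf (e (e8.symm s)) = 15 := by
      rw [MulEquiv.orderOf_eq, MulEquiv.orderOf_eq, hs]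
    exact Cfsg.Agent.S0819.result hK _ h1

end Cfsg.Agent.S2550
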