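import Cfsg.Statements.S2551
import Mathlib
import Cfsg.Agent.S0256
import Cfsg.Agent.Lib.Compute.GL42A7
import Cfsg.Agent.Lib.Compute.OrthTransport
import Cfsg.Agent.Lib.Compute.SLHom

set_option autoImplicit false
open Cfsg

namespace Cfsg.Agent.S2551

open Matrix
open Cfsg.Agent.Lib.Compute.GL42A7 Cfsg.Agent.Lib.Compute.OrthTransport
open Cfsg.Agent.Lib.Compute.SLHom

private abbrev S4 := Matrix.SpecialLinearGroup (Fin 4) (ZMod 2)

private theorem hcenter : Subgroup.center S4 = ⊥ := by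
  refine le_antisymm ?_ bot_le
  intro A hA
  rw [Matrix.SpecialLinearGroup.mem_center_iff] at hA
  obtain ⟨r, hr, hA⟩ := hA
  have key : ∀ r : ZMod 2, r ^ 4 = 1 → r = 1 := by decide
  have hr1 : r = 1 := key r (by simpa using hr)
  rw [Subgroup.mem_bot]
  apply Subtype.ext
  rw [← hA, hr1]
  ext i j
  simp [Matrix.one_apply]

private theorem toGL_bij : Function.Bijective (Matrix.SpecialLinearGroup.toGL : S4 →* G) := by
  constructor
  · intro a b h
    apply Subtype.ext
    exact congrArg Units.val h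
  · intro g
    have key : ∀ r : ZMod 2, r ≠ 0 → r = 1 := by decide
    have hd : (g.1).det = 1 := key _ (by
      have h := Matrix.GeneralLinearGroup.det g
      have h2 : (Matrix.GeneralLinearGroup.det g : (ZMod 2)ˣ).1 = g.1.det := by simp
      rw [← h2]
      exact Units.ne_zero _)
    refine ⟨⟨g.1, hd⟩, ?_⟩
    apply Units.ext
    exact Matrix.SpecialLinearGroup.coe_GL_coe_matrix _

/-- `A₇` embeds in `A₈`. -/
private noncomputable def incl : alternatingGroup (Fin 7) →* alternatingGroup (Fin 8) :=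
  ((Equiv.Perm.extendDomainHom (finSuccAboveEquiv (Fin.last 7))).comp
    (alternatingGroup (Fin 7)).subtype).codRestrict (alternatingGroup (Fin 8)) (by
      intro a
      change Equiv.Perm.extendDomain a.1 _ ∈ alternatingGroup (Fin 8)
      rw [Equiv.Perm.mem_alternatingGroup, Equiv.Perm.sign_extendDomain]
      exact a.2)

private theorem incl_inj : Function.Injective incl := by
  intro a b h
  apply Subtype.ext
  have h1 : Equiv.Perm.extendDomainHom (finSuccAboveEquiv (Fin.last 7)) a.1 =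
      Equiv.Perm.extendDomainHom (finSuccAboveEquiv (Fin.last 7)) b.1 :=
    congrArg Subtype.val h
  exact Equiv.Perm.extendDomainHom_injective _ h1

private theorem exists_a7 : ∃ H : Subgroup G, Nonempty (H ≃* alternatingGroup (Fin 7)) := by
  obtain ⟨e⟩ := Cfsg.Agent.S0256.result (F := ZMod 2) (ZMod.card 2)
  let e1 : G ≃* S4 := (MulEquiv.ofBijective _ toGL_bij).symm
  let e2 : S4 ≃* Matrix.ProjectiveSpecialLinearGroup (Fin 4) (ZMod 2) := (pslEquivOfCenterBot hcenter).symm
  let e3 : G ≃* alternatingGroup (Fin 8) := e1.trans (e2.trans e)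
  let ψ : alternatingGroup (Fin 7) →* G := e3.symm.toMonoidHom.comp incl
  have hψ : Function.Injective ψ := e3.symm.injective.comp incl_inj
  exact ⟨ψ.range, ⟨(MonoidHom.ofInjective hψ).symm⟩⟩

/-- Let F be the field with 2 elements. GL_4(F) (≅ A_8) has a subgroup isomorphic to the alternating group A_7, and every such subgroup acts 2-transitively on the 15 non-zero vectors of F⁴: any ordered pair of distinct non-zero vectors is carried to any other by some element of the subgroup. -/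
theorem result {F : Type*} [Field F] [Fintype F] (hF : Fintype.card F = 2) : (∃ H : Subgroup (Matrix.GeneralLinearGroup (Fin 4) F), Nonempty (H ≃* alternatingGroup (Fin 7))) ∧ ∀ H : Subgroup (Matrix.GeneralLinearGroup (Fin 4) F), Nonempty (H ≃* alternatingGroup (Fin 7)) → ∀ v w v' w' : Fin 4 → F, v ≠ 0 → w ≠ 0 → v ≠ w → v' ≠ 0 → w' ≠ 0 → v' ≠ w' → ∃ g ∈ H, (g : Matrix (Fin 4) (Fin 4) F).mulVec v = v' ∧ (g : Matrix (Fin 4) (Fin 4) F).mulVec w = w' := by
  let σ : ZMod 2 ≃+* F := ZMod.ringEquivOfPrime F Nat.prime_two hF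
  let E : G ≃* Matrix.GeneralLinearGroup (Fin 4) F := glCongr σ
  constructor
  · obtain ⟨H, ⟨f⟩⟩ := exists_a7
    exact ⟨H.map E.toMonoidHom, ⟨(E.subgroupMap H).symm.trans f⟩⟩
  · rintro H ⟨f⟩ v w v' w' hv hw hvw hv' hw' hvw'
    have hpull : ∀ u : Fin 4 → F, ∃ u' : Fin 4 → ZMod 2, σ ∘ u' = u := fun u =>
      ⟨σ.symm ∘ u, by funext i; simp⟩
    obtain ⟨x, rfl⟩ := hpull v
    obtain ⟨y, rfl⟩ := hpull w
    obtain ⟨x', rfl⟩ := hpull v'
    obtain ⟨y', rfl⟩ := hpull w'
    have hz : ∀ u : Fin 4 → ZMod 2, σ ∘ u ≠ 0 → u ≠ 0 := by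
      rintro u h rfl
      apply h
      funext i
      simp
    have hd : ∀ u u' : Fin 4 → ZMod 2, σ ∘ u ≠ σ ∘ u' → u ≠ u' := by
      rintro u u' h rfl
      exact h rfl
    obtain ⟨g, hg, h1, h2⟩ := two_trans (H.map E.symm.toMonoidHom)
      ⟨(E.symm.subgroupMap H).symm.trans f⟩ x y x' y' (hz _ hv) (hz _ hw) (hd _ _ hvw)
      (hz _ hv') (hz _ hw') (hd _ _ hvw')
    refine ⟨E g, ?_, ?_, ?_⟩
    · obtain ⟨g', hg', rfl⟩ := hg
      simpa using hg'
    · rw [glCongr_mulVec σ g x]
      exact congrArg (σ ∘ ·) h1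
    · rw [glCongr_mulVec σ g y]
      exact congrArg (σ ∘ ·) h2

end Cfsg.Agent.S2551
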