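import Cfsg.Statements.S2561
import Mathlib
import Cfsg.Agent.Lib.Linalg.F2Forms

set_option autoImplicit false
open Cfsg

namespace Cfsg.Agent.S2561

open Module Cfsg.Agent.Lib.Linalg.F2Forms

variable (m : ℕ)

/-- The quadratic form attached to a vector `w`. -/
def qOf (w : Fin m ⊕ Fin m → ZMod 2) : (Fin m ⊕ Fin m → ZMod 2) → ZMod 2 :=
  fun v => quadFormPlus m (ZMod 2) v + polarPlus m v w

variable {m}

theorem polar_eq (u v : Fin m ⊕ Fin m → ZMod 2) :
    quadFormPlus m (ZMod 2) (u + v) - quadFormPlus m (ZMod 2) u - quadFormPlus m (ZMod 2) v =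
      polarPlus m u v := by
  rw [quadFormPlus_add]; ring

/-- The polarization predicate. -/
def IsPol (q : (Fin m ⊕ Fin m → ZMod 2) → ZMod 2) : Prop :=
  ∀ u v : (Fin m ⊕ Fin m → ZMod 2), q (u + v) = q u + q v +
    (quadFormPlus m (ZMod 2) (u + v) - quadFormPlus m (ZMod 2) u - quadFormPlus m (ZMod 2) v)

theorem isPol_iff (q : (Fin m ⊕ Fin m → ZMod 2) → ZMod 2) :
    IsPol q ↔ ∀ u v, q (u + v) = q u + q v + polarPlus m u v := by
  simp only [IsPol, polar_eq]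

theorem isPol_qOf (w : Fin m ⊕ Fin m → ZMod 2) : IsPol (qOf m w) := by
  rw [isPol_iff]
  intro u v
  simp only [qOf, quadFormPlus_add, map_add, LinearMap.add_apply]
  ring

theorem polar_symm (u v : Fin m ⊕ Fin m → ZMod 2) : polarPlus m u v = polarPlus m v u :=
  f_symm (isNondegQuad_plus m).polar u v

theorem qOf_injective : Function.Injective (qOf m) := by
  intro w w' h
  have h1 : ∀ v, polarPlus m v w = polarPlus m v w' := by
    intro v
    have := congrFun h v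
    simpa [qOf] using this
  have h2 : w + w' = 0 := by
    apply (isNondegQuad_plus m).nondeg
    intro y
    rw [polar_symm, map_add, h1, ← two_mul]
    have : (2 : ZMod 2) = 0 := by decide
    rw [this, zero_mul]
  have h3 : w = w + (w' + w') := by rw [add_self_v, add_zero]
  rw [h3, ← add_assoc, h2, zero_add]

theorem qOf_surjective {q : (Fin m ⊕ Fin m → ZMod 2) → ZMod 2} (hq : IsPol q) :
    ∃ w, q = qOf m w := by
  rw [isPol_iff] at hq
  let l : (Fin m ⊕ Fin m → ZMod 2) →+ ZMod 2 :=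
    { toFun := fun v => q v - quadFormPlus m (ZMod 2) v
      map_zero' := by
        simp [q_zero_of_polar hq, q_zero_of_polar (quadFormPlus_add m)]
      map_add' := by
        intro u v
        simp only [hq, quadFormPlus_add]
        ring }
  let L : Dual (ZMod 2) (Fin m ⊕ Fin m → ZMod 2) := l.toZModLinearMap 2
  let w := (LinearMap.BilinForm.toDual (polarPlus m) (isNondegQuad_plus m).nondegenerate).symm L
  refine ⟨w, ?_⟩
  funext v
  have h1 : polarPlus m w v = L v :=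
    LinearMap.BilinForm.apply_toDual_symm_apply (B := polarPlus m) (hB := (isNondegQuad_plus m).nondegenerate) L v
  have h2 : L v = q v - quadFormPlus m (ZMod 2) v := rfl
  simp only [qOf]
  rw [polar_symm, h1, h2]
  ring

theorem qOf_eq (w v : Fin m ⊕ Fin m → ZMod 2) :
    qOf m w v = quadFormPlus m (ZMod 2) (v + w) + quadFormPlus m (ZMod 2) w := by
  simp only [qOf, quadFormPlus_add]
  have h : ∀ a b c : ZMod 2, a + c = a + b + c + b := by decide
  exact h _ _ _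

theorem charSum_qOf (w : Fin m ⊕ Fin m → ZMod 2) :
    charSum (qOf m w) = sgn (quadFormPlus m (ZMod 2) w) * 2 ^ m := by
  rw [← charSum_plus m]
  have := charSum_translate (q := quadFormPlus m (ZMod 2)) w
  rw [← this]
  unfold charSum
  rw [Finset.mul_sum]
  refine Finset.sum_congr rfl fun v _ => ?_
  rw [qOf_eq, sgn_add, mul_comm]

/-- Plus type. -/
def TP (q : (Fin m ⊕ Fin m → ZMod 2) → ZMod 2) : Prop :=
  ∃ g : (Fin m ⊕ Fin m → ZMod 2) ≃ₗ[ZMod 2] (Fin m ⊕ Fin m → ZMod 2), ∀ v, q v = quadFormPlus m (ZMod 2) (g v)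

/-- Minus type. -/
def TM (q : (Fin m ⊕ Fin m → ZMod 2) → ZMod 2) : Prop :=
  ∃ g : (Fin m ⊕ Fin m → ZMod 2) ≃ₗ[ZMod 2] ((Fin (m - 1) ⊕ Fin (m - 1)) ⊕ Fin 2 → ZMod 2),
    ∀ v, q v = quadFormMinus (m - 1) (ZMod 2) 1 1 (g v)

theorem classify' (hm : 1 ≤ m) {q : (Fin m ⊕ Fin m → ZMod 2) → ZMod 2} (hq : IsPol q) : TP q ∨ TM q := by
  have H : IsNondegQuad q (polarPlus m) := ⟨(isPol_iff q).1 hq, (isNondegQuad_plus m).nondeg⟩
  rcases classify q (polarPlus m) H with ⟨m', g, hg⟩ | ⟨m', g, hg⟩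
  · left
    have h1 := LinearEquiv.finrank_eq g
    rw [finrank_plus, finrank_plus] at h1
    obtain rfl : m' = m := by omega
    exact ⟨g, hg⟩
  · right
    have h1 := LinearEquiv.finrank_eq g
    rw [finrank_plus, finrank_minus] at h1
    obtain rfl : m' = m - 1 := by omega
    exact ⟨g, hg⟩

theorem sgn_eq_one {a : ZMod 2} (h : sgn a = 1) : a = 0 := by
  revert a; decide

theorem sgn_eq_neg_one {a : ZMod 2} (h : sgn a = -1) : a = 1 := by
  revert a; decide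

theorem TP_imp (w : Fin m ⊕ Fin m → ZMod 2) (h : TP (qOf m w)) : quadFormPlus m (ZMod 2) w = 0 := by
  obtain ⟨g, hg⟩ := h
  have h1 := charSum_congr g.toEquiv hg
  rw [charSum_qOf, charSum_plus] at h1
  have h2 : (2 : ℤ) ^ m ≠ 0 := by positivity
  exact sgn_eq_one (mul_right_cancel₀ h2 (by rw [h1, one_mul]))

theorem TM_imp (hm : 1 ≤ m) (w : Fin m ⊕ Fin m → ZMod 2) (h : TM (qOf m w)) :
    quadFormPlus m (ZMod 2) w = 1 := by
  obtain ⟨g, hg⟩ := h
  have h1 := charSum_congr g.toEquiv hg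
  rw [charSum_qOf, charSum_minus, Nat.sub_add_cancel hm] at h1
  have h2 : (2 : ℤ) ^ m ≠ 0 := by positivity
  exact sgn_eq_neg_one (mul_right_cancel₀ h2 (by rw [h1]; ring))

theorem TP_iff (hm : 1 ≤ m) (w : Fin m ⊕ Fin m → ZMod 2) :
    TP (qOf m w) ↔ quadFormPlus m (ZMod 2) w = 0 := by
  refine ⟨TP_imp w, fun h => ?_⟩
  rcases classify' hm (isPol_qOf w) with h1 | h1
  · exact h1
  · have := TM_imp hm w h1
    rw [h] at this
    exact absurd this (by decide)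

theorem TM_iff (hm : 1 ≤ m) (w : Fin m ⊕ Fin m → ZMod 2) :
    TM (qOf m w) ↔ quadFormPlus m (ZMod 2) w = 1 := by
  refine ⟨TM_imp hm w, fun h => ?_⟩
  rcases classify' hm (isPol_qOf w) with h1 | h1
  · have := TP_imp w h1
    rw [h] at this
    exact absurd this (by decide)
  · exact h1

theorem card_W : Fintype.card (Fin m ⊕ Fin m → ZMod 2) = 2 ^ (2 * m) := by
  simp [two_mul, ZMod.card]

/-- Fix the non-singular alternating form on the 2m-dimensional space over the field of two elements obtained by polarizing the plus-type form Σ xᵢyᵢ (m ≥ 1). The functions q on the space with q(u + v) = q(u) + q(v) + f(u, v) (the quadratic forms polarizing to f) number 2^(2m); each is equivalent under an invertible linear map either to the plus-type form or to the minus-type form Σ xᵢyᵢ + (z₁² + z₁z₂ + z₂²); and those of plus type number 2^(2m−1) + 2^(m−1), those of minus type 2^(2m−1) − 2^(m−1). -/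
theorem result (m : ℕ) (hm : 1 ≤ m) :
    Nat.card {q : (Fin m ⊕ Fin m → ZMod 2) → ZMod 2 // (∀ u v : (Fin m ⊕ Fin m → ZMod 2), q (u + v) = q u + q v + (Cfsg.quadFormPlus m (ZMod 2) (u + v) - Cfsg.quadFormPlus m (ZMod 2) u - Cfsg.quadFormPlus m (ZMod 2) v))} = 2 ^ (2 * m) ∧
    (∀ q : (Fin m ⊕ Fin m → ZMod 2) → ZMod 2, (∀ u v : (Fin m ⊕ Fin m → ZMod 2), q (u + v) = q u + q v + (Cfsg.quadFormPlus m (ZMod 2) (u + v) - Cfsg.quadFormPlus m (ZMod 2) u - Cfsg.quadFormPlus m (ZMod 2) v)) →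
      (∃ g : (Fin m ⊕ Fin m → ZMod 2) ≃ₗ[ZMod 2] (Fin m ⊕ Fin m → ZMod 2), ∀ v, q v = Cfsg.quadFormPlus m (ZMod 2) (g v)) ∨
      (∃ g : (Fin m ⊕ Fin m → ZMod 2) ≃ₗ[ZMod 2] ((Fin (m - 1) ⊕ Fin (m - 1)) ⊕ Fin 2 → ZMod 2), ∀ v, q v = Cfsg.quadFormMinus (m - 1) (ZMod 2) 1 1 (g v))) ∧
    Nat.card {q : (Fin m ⊕ Fin m → ZMod 2) → ZMod 2 // (∀ u v : (Fin m ⊕ Fin m → ZMod 2), q (u + v) = q u + q v + (Cfsg.quadFormPlus m (ZMod 2) (u + v) - Cfsg.quadFormPlus m (ZMod 2) u - Cfsg.quadFormPlus m (ZMod 2) v)) ∧ ∃ g : (Fin m ⊕ Fin m → ZMod 2) ≃ₗ[ZMod 2] (Fin m ⊕ Fin m → ZMod 2), ∀ v, q v = Cfsg.quadFormPlus m (ZMod 2) (g v)} = 2 ^ (2 * m - 1) + 2 ^ (m - 1) ∧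
    Nat.card {q : (Fin m ⊕ Fin m → ZMod 2) → ZMod 2 // (∀ u v : (Fin m ⊕ Fin m → ZMod 2), q (u + v) = q u + q v + (Cfsg.quadFormPlus m (ZMod 2) (u + v) - Cfsg.quadFormPlus m (ZMod 2) u - Cfsg.quadFormPlus m (ZMod 2) v)) ∧ ∃ g : (Fin m ⊕ Fin m → ZMod 2) ≃ₗ[ZMod 2] ((Fin (m - 1) ⊕ Fin (m - 1)) ⊕ Fin 2 → ZMod 2), ∀ v, q v = Cfsg.quadFormMinus (m - 1) (ZMod 2) 1 1 (g v)} = 2 ^ (2 * m - 1) - 2 ^ (m - 1) := by
  refine ⟨?_, fun q hq => classify' hm hq, ?_, ?_⟩
  · have e : (Fin m ⊕ Fin m → ZMod 2) ≃ {q : (Fin m ⊕ Fin m → ZMod 2) → ZMod 2 // IsPol q} :=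
      Equiv.ofBijective (fun w => ⟨qOf m w, isPol_qOf w⟩)
        ⟨fun w w' h => qOf_injective (congrArg Subtype.val h), fun ⟨q, hq⟩ => by
          obtain ⟨w, hw⟩ := qOf_surjective hq
          exact ⟨w, Subtype.ext hw.symm⟩⟩
    change Nat.card {q : (Fin m ⊕ Fin m → ZMod 2) → ZMod 2 // IsPol q} = _
    rw [← Nat.card_congr e, Nat.card_eq_fintype_card, card_W]
  · have e : {w : Fin m ⊕ Fin m → ZMod 2 // quadFormPlus m (ZMod 2) w = 0} ≃
        {q : (Fin m ⊕ Fin m → ZMod 2) → ZMod 2 // IsPol q ∧ TP q} :=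
      Equiv.ofBijective (fun w => ⟨qOf m w.1, isPol_qOf w.1, (TP_iff hm w.1).2 w.2⟩)
        ⟨fun w w' h => Subtype.ext (qOf_injective (congrArg Subtype.val h)), fun ⟨q, hq, htp⟩ => by
          obtain ⟨w, rfl⟩ := qOf_surjective hq
          exact ⟨⟨w, (TP_iff hm w).1 htp⟩, rfl⟩⟩
    change Nat.card {q : (Fin m ⊕ Fin m → ZMod 2) → ZMod 2 // IsPol q ∧ TP q} = _
    rw [← Nat.card_congr e]
    have h := two_mul_card_zero (quadFormPlus m (ZMod 2))
    rw [charSum_plus, card_W] at h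
    obtain ⟨n, rfl⟩ : ∃ n, m = n + 1 := ⟨m - 1, by omega⟩
    have e1 : 2 * (n + 1) - 1 = 2 * n + 1 := by omega
    have e2 : n + 1 - 1 = n := by omega
    rw [e1, e2]
    have e3 : 2 * (n + 1) = (2 * n + 1) + 1 := by omega
    rw [e3, pow_succ (2 : ℕ) (2 * n + 1)] at h
    rw [pow_succ (2 : ℤ) n] at h
    push_cast at h
    have h' : (Nat.card {w : Fin (n + 1) ⊕ Fin (n + 1) → ZMod 2 // quadFormPlus (n + 1) (ZMod 2) w = 0} : ℤ) =
        2 ^ (2 * n + 1) + 2 ^ n := by linarith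
    exact_mod_cast h'
  · have e : {w : Fin m ⊕ Fin m → ZMod 2 // quadFormPlus m (ZMod 2) w = 1} ≃
        {q : (Fin m ⊕ Fin m → ZMod 2) → ZMod 2 // IsPol q ∧ TM q} :=
      Equiv.ofBijective (fun w => ⟨qOf m w.1, isPol_qOf w.1, (TM_iff hm w.1).2 w.2⟩)
        ⟨fun w w' h => Subtype.ext (qOf_injective (congrArg Subtype.val h)), fun ⟨q, hq, htp⟩ => by
          obtain ⟨w, rfl⟩ := qOf_surjective hq
          exact ⟨⟨w, (TM_iff hm w).1 htp⟩, rfl⟩⟩
    change Nat.card {q : (Fin m ⊕ Fin m → ZMod 2) → ZMod 2 // IsPol q ∧ TM q} = _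
    rw [← Nat.card_congr e]
    have h := two_mul_card_one (quadFormPlus m (ZMod 2))
    rw [charSum_plus, card_W] at h
    obtain ⟨n, rfl⟩ : ∃ n, m = n + 1 := ⟨m - 1, by omega⟩
    have e1 : 2 * (n + 1) - 1 = 2 * n + 1 := by omega
    have e2 : n + 1 - 1 = n := by omega
    rw [e1, e2]
    have e3 : 2 * (n + 1) = (2 * n + 1) + 1 := by omega
    rw [e3, pow_succ (2 : ℕ) (2 * n + 1)] at h
    rw [pow_succ (2 : ℤ) n] at h
    push_cast at h
    have h' : Nat.card {w : Fin (n + 1) ⊕ Fin (n + 1) → ZMod 2 // quadFormPlus (n + 1) (ZMod 2) w = 1} + 2 ^ n =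
        2 ^ (2 * n + 1) := by
      zify
      linarith
    exact Nat.eq_sub_of_add_eq h'

end Cfsg.Agent.S2561
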