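import Cfsg.Statements.S2562
import Mathlib
import Cfsg.Agent.Lib.Linalg.F2Forms

set_option autoImplicit false
open Cfsg

namespace Cfsg.Agent.S2562

open Module Cfsg.Agent.Lib.Linalg.F2Forms

/-- Embedding of the left coordinates into the minus space. -/
def leftInjM (m : ℕ) : (Fin m → ZMod 2) →ₗ[ZMod 2] ((Fin m ⊕ Fin m) ⊕ Fin 2 → ZMod 2) where
  toFun x := Sum.elim (Sum.elim x 0) 0
  map_add' x y := by
    funext s
    rcases s with (i | i) | z <;> simp
  map_smul' c x := by
    funext s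
    rcases s with (i | i) | z <;> simp

theorem leftInjM_injective (m : ℕ) : Function.Injective (leftInjM m) := by
  intro x y h
  funext i
  exact congrFun h (.inl (.inl i))

theorem quadFormMinus_leftInjM (m : ℕ) (x : Fin m → ZMod 2) :
    quadFormMinus m (ZMod 2) 1 1 (leftInjM m x) = 0 := by
  simp [quadFormMinus, leftInjM]

/-- Witt indices over the field of two elements, m ≥ 1: for the plus-type form Σ xᵢyᵢ in dimension 2m some m-dimensional subspace is totally singular and no totally singular subspace has larger dimension; for the minus-type form Σ xᵢyᵢ + (z₁² + z₁z₂ + z₂²) in dimension 2m the maximal dimension of a totally singular subspace is m − 1. -/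
theorem result (m : ℕ) (hm : 1 ≤ m) :
    (∃ U : Submodule (ZMod 2) (Fin m ⊕ Fin m → ZMod 2), (∀ u ∈ U, Cfsg.quadFormPlus m (ZMod 2) u = 0) ∧ Module.finrank (ZMod 2) ↥U = m) ∧
    (∀ U : Submodule (ZMod 2) (Fin m ⊕ Fin m → ZMod 2), (∀ u ∈ U, Cfsg.quadFormPlus m (ZMod 2) u = 0) → Module.finrank (ZMod 2) ↥U ≤ m) ∧
    (∃ U : Submodule (ZMod 2) ((Fin (m - 1) ⊕ Fin (m - 1)) ⊕ Fin 2 → ZMod 2), (∀ u ∈ U, Cfsg.quadFormMinus (m - 1) (ZMod 2) 1 1 u = 0) ∧ Module.finrank (ZMod 2) ↥U = m - 1) ∧
    (∀ U : Submodule (ZMod 2) ((Fin (m - 1) ⊕ Fin (m - 1)) ⊕ Fin 2 → ZMod 2), (∀ u ∈ U, Cfsg.quadFormMinus (m - 1) (ZMod 2) 1 1 u = 0) → Module.finrank (ZMod 2) ↥U ≤ m - 1) := by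
  refine ⟨⟨LinearMap.range (leftInj m), ?_, finrank_range_leftInj m⟩, ?_, ?_, ?_⟩
  · rintro _ ⟨x, rfl⟩
    exact quadFormPlus_leftInj m x
  · intro U hU
    have := two_finrank_le (isNondegQuad_plus m) hU
    rw [finrank_plus] at this
    omega
  · refine ⟨LinearMap.range (leftInjM (m - 1)), ?_, ?_⟩
    · rintro _ ⟨x, rfl⟩
      exact quadFormMinus_leftInjM _ x
    · rw [LinearMap.finrank_range_of_inj (leftInjM_injective _)]
      simp
  · intro U hU
    have h1 := two_finrank_le (isNondegQuad_minus (m - 1)) hU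
    rw [finrank_minus] at h1
    by_contra hlt
    have hdim : finrank (ZMod 2) U = m := by omega
    have h2 := charSum_of_lagrangian (isNondegQuad_minus (m - 1)) U hU
      (by rw [finrank_minus, hdim]; omega)
    rw [charSum_minus, hdim] at h2
    have h3 : (0 : ℤ) < 2 ^ m := by positivity
    have h4 : (0 : ℤ) < 2 ^ (m - 1 + 1) := by positivity
    omega

end Cfsg.Agent.S2562
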