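import Cfsg.Statements.S2564
import Mathlib
import Cfsg.Agent.Lib.Linalg.F2Forms

set_option autoImplicit false
open Cfsg

namespace Cfsg.Agent.S2564

open Module Cfsg.Agent.Lib.Linalg.F2Forms

theorem polar_eq {m : ℕ} (u v : Fin m ⊕ Fin m → ZMod 2) :
    quadFormPlus m (ZMod 2) (u + v) - quadFormPlus m (ZMod 2) u - quadFormPlus m (ZMod 2) v =
      polarPlus m u v := by
  rw [quadFormPlus_add]; ring

theorem sgn_eq_one {a : ZMod 2} (h : sgn a = 1) : a = 0 := by
  revert a; decide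

/-- On the 2m-dimensional space over the field of two elements (m ≥ 1) let f be the alternating form obtained by polarizing the plus-type form Σ xᵢyᵢ, and let q be any quadratic form polarizing to f. For a vector w, the function q + f(·, w) again polarizes to f, and it is equivalent to q under an invertible linear map (that is, has the same type) if and only if q(w) = 0. -/
theorem result (m : ℕ) (hm : 1 ≤ m) (q : (Fin m ⊕ Fin m → ZMod 2) → ZMod 2) (hq : (∀ u v : (Fin m ⊕ Fin m → ZMod 2), q (u + v) = q u + q v + (Cfsg.quadFormPlus m (ZMod 2) (u + v) - Cfsg.quadFormPlus m (ZMod 2) u - Cfsg.quadFormPlus m (ZMod 2) v))) (w : (Fin m ⊕ Fin m → ZMod 2)) :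
    (∀ u v : (Fin m ⊕ Fin m → ZMod 2), (q (u + v) + (Cfsg.quadFormPlus m (ZMod 2) (u + v + w) - Cfsg.quadFormPlus m (ZMod 2) (u + v) - Cfsg.quadFormPlus m (ZMod 2) w)) =
        (q u + (Cfsg.quadFormPlus m (ZMod 2) (u + w) - Cfsg.quadFormPlus m (ZMod 2) u - Cfsg.quadFormPlus m (ZMod 2) w)) + (q v + (Cfsg.quadFormPlus m (ZMod 2) (v + w) - Cfsg.quadFormPlus m (ZMod 2) v - Cfsg.quadFormPlus m (ZMod 2) w)) +
        (Cfsg.quadFormPlus m (ZMod 2) (u + v) - Cfsg.quadFormPlus m (ZMod 2) u - Cfsg.quadFormPlus m (ZMod 2) v)) ∧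
    ((∃ g : (Fin m ⊕ Fin m → ZMod 2) ≃ₗ[ZMod 2] (Fin m ⊕ Fin m → ZMod 2), ∀ v, q v + (Cfsg.quadFormPlus m (ZMod 2) (v + w) - Cfsg.quadFormPlus m (ZMod 2) v - Cfsg.quadFormPlus m (ZMod 2) w) = q (g v)) ↔ q w = 0) := by
  simp only [polar_eq] at hq ⊢
  constructor
  · intro u v
    rw [hq, map_add, LinearMap.add_apply]
    ring
  have H : IsNondegQuad q (polarPlus m) := ⟨hq, (isNondegQuad_plus m).nondeg⟩
  -- the translated form
  let q' : (Fin m ⊕ Fin m → ZMod 2) → ZMod 2 := fun v => q v + polarPlus m v w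
  have hq' : ∀ u v, q' (u + v) = q' u + q' v + polarPlus m u v := by
    intro u v
    simp only [q']
    rw [hq, map_add, LinearMap.add_apply]
    ring
  have H' : IsNondegQuad q' (polarPlus m) := ⟨hq', (isNondegQuad_plus m).nondeg⟩
  have hq'eq : ∀ v, q' v = q (v + w) + q w := by
    intro v
    simp only [q']
    rw [hq]
    have h : ∀ a b c : ZMod 2, a + c = a + b + c + b := by decide
    exact h _ _ _
  have hsum : charSum q' = sgn (q w) * charSum q := by
    rw [← charSum_translate (q := q) w]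
    unfold charSum
    rw [Finset.mul_sum]
    refine Finset.sum_congr rfl fun v _ => ?_
    rw [hq'eq, sgn_add, mul_comm]
  -- the sum never vanishes; the classification gives the sign
  have hdich : ∀ (p : (Fin m ⊕ Fin m → ZMod 2) → ZMod 2), IsNondegQuad p (polarPlus m) →
      ((∃ g : (Fin m ⊕ Fin m → ZMod 2) ≃ₗ[ZMod 2] (Fin m ⊕ Fin m → ZMod 2), ∀ v, p v = quadFormPlus m (ZMod 2) (g v)) ∧ charSum p = 2 ^ m) ∨
      ((∃ g : (Fin m ⊕ Fin m → ZMod 2) ≃ₗ[ZMod 2] ((Fin (m - 1) ⊕ Fin (m - 1)) ⊕ Fin 2 → ZMod 2), ∀ v, p v = quadFormMinus (m - 1) (ZMod 2) 1 1 (g v)) ∧ charSum p = - 2 ^ m) := by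
    intro p Hp
    rcases classify p (polarPlus m) Hp with ⟨m', g, hg⟩ | ⟨m', g, hg⟩
    · left
      have h1 := LinearEquiv.finrank_eq g
      rw [finrank_plus, finrank_plus] at h1
      obtain rfl : m' = m := by omega
      refine ⟨⟨g, hg⟩, ?_⟩
      rw [charSum_congr g.toEquiv hg, charSum_plus]
    · right
      have h1 := LinearEquiv.finrank_eq g
      rw [finrank_plus, finrank_minus] at h1
      obtain rfl : m' = m - 1 := by omega
      refine ⟨⟨g, hg⟩, ?_⟩
      rw [charSum_congr g.toEquiv hg, charSum_minus, Nat.sub_add_cancel hm]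
  have hpos : (0 : ℤ) < 2 ^ m := by positivity
  constructor
  · rintro ⟨g, hg⟩
    have h1 : charSum q' = charSum q := charSum_congr g.toEquiv (fun v => by
      simp only [q']
      exact hg v)
    rw [hsum] at h1
    have h2 : charSum q ≠ 0 := by
      rcases hdich q H with ⟨_, h3⟩ | ⟨_, h3⟩ <;> rw [h3] <;> omega
    exact sgn_eq_one (mul_right_cancel₀ h2 (by rw [h1, one_mul]))
  · intro hw
    rw [hw, sgn_zero, one_mul] at hsum
    rcases hdich q H with ⟨⟨g1, hg1⟩, h1⟩ | ⟨⟨g1, hg1⟩, h1⟩ <;>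
      rcases hdich q' H' with ⟨⟨g2, hg2⟩, h2⟩ | ⟨⟨g2, hg2⟩, h2⟩
    · refine ⟨g2.trans g1.symm, fun v => ?_⟩
      change q' v = _
      rw [hg2, hg1]
      simp
    · rw [hsum, h1] at h2
      omega
    · rw [hsum, h1] at h2
      omega
    · refine ⟨g2.trans g1.symm, fun v => ?_⟩
      change q' v = _
      rw [hg2, hg1]
      simp

end Cfsg.Agent.S2564
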