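import Cfsg.Statements.S2565
import Mathlib
import Cfsg.Agent.S2563
import Cfsg.Agent.S0287
-- import your own Cfsg.Agent.* helpers here

set_option autoImplicit false
open Cfsg

namespace Cfsg.Agent.S2565

/-- The commutator subgroup of the full orthogonal group of the plus-type form Σ xᵢyᵢ in dimension 6 over the field of two elements (the group Ω⁺₆(2), of index 2) is isomorphic to the alternating group of degree 8. -/
theorem result :
    (Cfsg.Omega (ZMod 2) (Cfsg.quadFormPlus 3 (ZMod 2))).index = 2 ∧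
    Nonempty (↥(Cfsg.Omega (ZMod 2) (Cfsg.quadFormPlus 3 (ZMod 2))) ≃* alternatingGroup (Fin 8)) := by
  classical
  obtain ⟨φ, hφ⟩ := (Cfsg.Agent.S2563.result 1 le_rfl).1 (by decide)
  obtain ⟨φ', hφ'⟩ : ∃ φ' : Equiv.Perm (Fin 8) →* ↥(Cfsg.isometryGroup (ZMod 2) (Cfsg.quadFormPlus 3 (ZMod 2))),
    Function.Injective φ' := ⟨φ, hφ⟩
  have hcard : Nat.card (Cfsg.isometryGroup (ZMod 2) (Cfsg.quadFormPlus 3 (ZMod 2))) = 40320 := by
    rw [Cfsg.Agent.S0287.result (q := 2) (by simp [ZMod.card]) 3 (by norm_num)]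
    norm_num [Finset.prod_range_succ]
  have hcS : Nat.card (Equiv.Perm (Fin 8)) = 40320 := by
    rw [Nat.card_eq_fintype_card, Fintype.card_perm, Fintype.card_fin]
    rfl
  haveI : Finite (Cfsg.isometryGroup (ZMod 2) (Cfsg.quadFormPlus 3 (ZMod 2))) :=
    Nat.finite_of_card_ne_zero (by rw [hcard]; norm_num)
  have hb : Function.Bijective φ' :=
    hφ'.bijective_of_nat_card_le (by rw [hcard, hcS])
  let E := MulEquiv.ofBijective φ' hb
  have hmap : (commutator (Equiv.Perm (Fin 8))).map E.toMonoidHom =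
      commutator (Cfsg.isometryGroup (ZMod 2) (Cfsg.quadFormPlus 3 (ZMod 2))) := by
    rw [commutator_def, commutator_def, Subgroup.map_commutator]
    congr 1 <;> exact Subgroup.map_top_of_surjective _ E.surjective
  have hA : commutator (Equiv.Perm (Fin 8)) = alternatingGroup (Fin 8) :=
    alternatingGroup.commutator_perm_eq (by simp)
  have e1 : ↥(Cfsg.Omega (ZMod 2) (Cfsg.quadFormPlus 3 (ZMod 2))) ≃* alternatingGroup (Fin 8) :=
    (MulEquiv.subgroupCongr (hmap.symm.trans (by rw [hA]; rfl))).trans (E.subgroupMap _).symm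
  refine ⟨?_, ⟨e1⟩⟩
  have hc1 : Nat.card (Cfsg.Omega (ZMod 2) (Cfsg.quadFormPlus 3 (ZMod 2))) = 20160 := by
    rw [Nat.card_congr e1.toEquiv]
    have h2 := two_mul_nat_card_alternatingGroup (α := Fin 8)
    rw [hcS] at h2
    omega
  have := Subgroup.card_mul_index (Cfsg.Omega (ZMod 2) (Cfsg.quadFormPlus 3 (ZMod 2)))
  rw [hc1, hcard] at this
  omega

end Cfsg.Agent.S2565
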