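import Cfsg.Statements.S2566
import Mathlib
import Cfsg.Agent.S0287
import Cfsg.Agent.Lib.Linalg.BinaryAniso
-- import your own Cfsg.Agent.* helpers here

set_option autoImplicit false
open Cfsg

namespace Cfsg.Agent.S2566

open Matrix

/-- Dihedral recognition for order 6. -/
theorem nonempty_equiv_dihedral_three {P : Type*} [Group P] (hP : Nat.card P = 6) {r s : P}
    (hr3 : r ^ 3 = 1) (hr : r ≠ 1) (hs2 : s * s = 1) (hs : s ≠ 1) (hrs : s * r * s⁻¹ = r⁻¹) :
    Nonempty (P ≃* DihedralGroup 3) := by
  haveI : Finite P := Nat.finite_of_card_ne_zero (by omega)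
  haveI : Fact (Nat.Prime 3) := ⟨by norm_num⟩
  have hord : orderOf r = 3 := orderOf_eq_prime hr3 hr
  have hsn : s ∉ Subgroup.zpowers r := by
    intro hmem
    have h1 : orderOf s ∣ orderOf r := orderOf_dvd_of_mem_zpowers hmem
    haveI : Fact (Nat.Prime 2) := ⟨by norm_num⟩
    have h2 : orderOf s = 2 := orderOf_eq_prime (by rw [sq]; exact hs2) hs
    rw [h2, hord] at h1
    omega
  exact Cfsg.Agent.Lib.PGroup.PowZ.nonempty_mulEquiv_dihedralGroup hord hs2 hrs hsn hP

theorem perm_three_equiv : Nonempty (Equiv.Perm (Fin 3) ≃* DihedralGroup 3) := by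
  refine nonempty_equiv_dihedral_three (r := finRotate 3) (s := Equiv.swap 0 1) ?_ (by decide) (by decide)
    (by decide) (by decide) (by decide)
  rw [Nat.card_eq_fintype_card, Fintype.card_perm, Fintype.card_fin]
  rfl

abbrev SL2 := Matrix.SpecialLinearGroup (Fin 2) (ZMod 2)

theorem card_SL2 : Nat.card SL2 = 6 := by
  rw [Nat.card_eq_fintype_card]
  decide +kernel

theorem SL2_equiv : Nonempty (SL2 ≃* Equiv.Perm (Fin 3)) := by
  obtain ⟨e⟩ := perm_three_equiv
  let r : SL2 := ⟨!![0, 1; 1, 1], by decide +kernel⟩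
  let s : SL2 := ⟨!![0, 1; 1, 0], by decide +kernel⟩
  have ext2 : ∀ a b : SL2, a.1 = b.1 → a = b := fun a b h => Subtype.ext h
  have hr3 : r ^ 3 = 1 := by
    rw [pow_succ, pow_two]
    refine ext2 _ _ ?_
    change ((r.1 * r.1) * r.1 : Matrix (Fin 2) (Fin 2) (ZMod 2)) = 1
    decide +kernel
  have hr : r ≠ 1 := fun h => by
    have := congrArg (fun g : SL2 => g.1 0 0) h
    revert this
    decide +kernel
  have hs2 : s * s = 1 := ext2 _ _ (by
    change (s.1 * s.1 : Matrix (Fin 2) (Fin 2) (ZMod 2)) = 1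
    decide +kernel)
  have hs : s ≠ 1 := fun h => by
    have := congrArg (fun g : SL2 => g.1 0 0) h
    revert this
    decide +kernel
  have hrs : s * r * s⁻¹ = r⁻¹ := by
    have hsinv : s⁻¹ = s := inv_eq_of_mul_eq_one_left hs2
    rw [hsinv, eq_inv_iff_mul_eq_one]
    refine ext2 _ _ ?_
    change (((s.1 * r.1) * s.1) * r.1 : Matrix (Fin 2) (Fin 2) (ZMod 2)) = 1
    decide +kernel
  obtain ⟨e2⟩ := nonempty_equiv_dihedral_three (r := r) (s := s) card_SL2 hr3 hr hs2 hs hrs
  exact ⟨e2.trans e.symm⟩

/-- The abstract wreath-product statement. -/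
theorem wreath_conclusion {H P : Type*} [Group H] [Group P] (e : P ≃* Equiv.Perm (Fin 3))
    (hH : Nat.card H = 72) (ℓ ρ : P →* H) (hℓ : Function.Injective ℓ) (hρ : Function.Injective ρ)
    (hc : ∀ x y, ℓ x * ρ y = ρ y * ℓ x) (hi : ∀ x y, ℓ x = ρ y → ℓ x = 1) (t : H)
    (ht : ∀ x, t * ℓ x * t⁻¹ = ρ x) :
    ∃ (A B : Subgroup H),
      Nonempty (↥A ≃* Equiv.Perm (Fin 3)) ∧ Nonempty (↥B ≃* Equiv.Perm (Fin 3)) ∧ A ⊓ B = ⊥ ∧
      (∀ a ∈ A, ∀ b ∈ B, a * b = b * a) ∧
      (A ⊔ B).index = 2 ∧ ∃ g : H, A.map (MulAut.conj g).toMonoidHom = B := by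
  classical
  have hP : Nat.card P = 6 := by
    rw [Nat.card_congr e.toEquiv, Nat.card_eq_fintype_card, Fintype.card_perm, Fintype.card_fin]
    rfl
  let f : P × P →* H := ℓ.noncommCoprod ρ (fun x y => hc x y)
  have hf : ∀ x y, f (x, y) = ℓ x * ρ y := fun x y => rfl
  have hfinj : Function.Injective f := by
    rw [injective_iff_map_eq_one]
    rintro ⟨x, y⟩ h
    rw [hf] at h
    have h1 : ℓ x = ρ y⁻¹ := by rw [map_inv]; exact eq_inv_of_mul_eq_one_left h
    have h2 := hi x y⁻¹ h1
    have hx : x = 1 := hℓ (h2.trans (map_one ℓ).symm)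
    subst hx
    have hy : y = 1 := by
      apply hρ
      rw [map_one]
      simpa using h
    subst hy
    rfl
  have hrange : ℓ.range ⊔ ρ.range = f.range := (MonoidHom.noncommCoprod_range ℓ ρ _).symm
  refine ⟨ℓ.range, ρ.range, ⟨(MonoidHom.ofInjective hℓ).symm.trans e⟩, ⟨(MonoidHom.ofInjective hρ).symm.trans e⟩, ?_, ?_, ?_, t, ?_⟩
  · rw [eq_bot_iff]
    rintro _ ⟨⟨x, rfl⟩, ⟨y, hy⟩⟩
    exact hi x y hy.symm
  · rintro _ ⟨x, rfl⟩ _ ⟨y, rfl⟩
    exact hc x y
  · have h1 : Nat.card f.range = 36 := by
      rw [Nat.card_congr (MonoidHom.ofInjective hfinj).symm.toEquiv, Nat.card_prod, hP]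
    have h2 := Subgroup.card_mul_index (ℓ.range ⊔ ρ.range)
    rw [hrange, h1, hH] at h2
    rw [hrange]
    omega
  · ext x
    constructor
    · rintro ⟨_, ⟨y, rfl⟩, rfl⟩
      exact ⟨y, (ht y).symm⟩
    · rintro ⟨y, rfl⟩
      exact ⟨ℓ y, ⟨y, rfl⟩, ht y⟩

/-- `2 × 2` matrices. -/
abbrev W := Matrix (Fin 2) (Fin 2) (ZMod 2)

/-- The group of determinant isometries. -/
def detGroup : Subgroup (W ≃ₗ[ZMod 2] W) where
  carrier := {g | ∀ M, (g M).det = M.det}
  mul_mem' {x y} hx hy z := by rw [LinearEquiv.mul_apply, hx, hy]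
  one_mem' z := rfl
  inv_mem' {x} hx z := by
    have h := hx (x⁻¹ z)
    rw [← LinearEquiv.mul_apply, mul_inv_cancel] at h
    exact h.symm

/-- Left multiplication. -/
def leftE : SL2 →* detGroup where
  toFun h := ⟨{ toFun := fun M => (h : W) * M
                invFun := fun M => ((h⁻¹ : SL2) : W) * M
                map_add' := mul_add _
                map_smul' := fun c M => by simp
                left_inv := fun M => by
                  change ((h⁻¹ : SL2) : W) * ((h : W) * M) = M
                  rw [← mul_assoc, ← Matrix.SpecialLinearGroup.coe_mul, inv_mul_cancel,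
                    Matrix.SpecialLinearGroup.coe_one, one_mul]
                right_inv := fun M => by
                  change (h : W) * (((h⁻¹ : SL2) : W) * M) = M
                  rw [← mul_assoc, ← Matrix.SpecialLinearGroup.coe_mul, mul_inv_cancel,
                    Matrix.SpecialLinearGroup.coe_one, one_mul] }, fun M => by
      change ((h : W) * M).det = _
      rw [det_mul, h.2, one_mul]⟩
  map_one' := Subtype.ext (LinearEquiv.ext fun M => by
    change ((1 : SL2) : W) * M = M
    rw [Matrix.SpecialLinearGroup.coe_one, one_mul])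
  map_mul' x y := Subtype.ext (LinearEquiv.ext fun M => by
    change ((x * y : SL2) : W) * M = (x : W) * ((y : W) * M)
    rw [Matrix.SpecialLinearGroup.coe_mul, mul_assoc])

@[simp] theorem leftE_apply (h : SL2) (M : W) : (leftE h).1 M = (h : W) * M := rfl

/-- Right multiplication by the transpose. -/
def rightE : SL2 →* detGroup where
  toFun h := ⟨{ toFun := fun M => M * (h : W)ᵀ
                invFun := fun M => M * ((h⁻¹ : SL2) : W)ᵀ
                map_add' := fun x y => add_mul _ _ _
                map_smul' := fun c M => by simp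
                left_inv := fun M => by
                  change (M * (h : W)ᵀ) * ((h⁻¹ : SL2) : W)ᵀ = M
                  rw [mul_assoc, ← transpose_mul, ← Matrix.SpecialLinearGroup.coe_mul, inv_mul_cancel,
                    Matrix.SpecialLinearGroup.coe_one, transpose_one, mul_one]
                right_inv := fun M => by
                  change (M * ((h⁻¹ : SL2) : W)ᵀ) * (h : W)ᵀ = M
                  rw [mul_assoc, ← transpose_mul, ← Matrix.SpecialLinearGroup.coe_mul, mul_inv_cancel,
                    Matrix.SpecialLinearGroup.coe_one, transpose_one, mul_one] }, fun M => by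
      change (M * (h : W)ᵀ).det = _
      rw [det_mul, det_transpose, h.2, mul_one]⟩
  map_one' := Subtype.ext (LinearEquiv.ext fun M => by
    change M * ((1 : SL2) : W)ᵀ = M
    rw [Matrix.SpecialLinearGroup.coe_one, transpose_one, mul_one])
  map_mul' x y := Subtype.ext (LinearEquiv.ext fun M => by
    change M * ((x * y : SL2) : W)ᵀ = (M * (y : W)ᵀ) * (x : W)ᵀ
    rw [Matrix.SpecialLinearGroup.coe_mul, transpose_mul, mul_assoc])

@[simp] theorem rightE_apply (h : SL2) (M : W) : (rightE h).1 M = M * (h : W)ᵀ := rfl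

/-- Transposition. -/
def transE : detGroup :=
  ⟨{ toFun := fun M => Mᵀ
     invFun := fun M => Mᵀ
     map_add' := fun x y => transpose_add x y
     map_smul' := fun c M => transpose_smul c M
     left_inv := fun M => transpose_transpose M
     right_inv := fun M => transpose_transpose M }, fun M => det_transpose M⟩

@[simp] theorem transE_apply (M : W) : transE.1 M = Mᵀ := rfl

theorem transE_inv_apply (M : W) : (transE⁻¹).1 M = Mᵀ := rfl

/-- Coordinates. -/
def coordW : (Fin 2 ⊕ Fin 2 → ZMod 2) ≃ₗ[ZMod 2] W where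
  toFun v := !![v (.inl 0), v (.inl 1); v (.inr 1), v (.inr 0)]
  invFun M := Sum.elim ![M 0 0, M 0 1] ![M 1 1, M 1 0]
  map_add' x y := by
    ext i j; fin_cases i <;> fin_cases j <;> simp
  map_smul' c x := by
    ext i j; fin_cases i <;> fin_cases j <;> simp
  left_inv v := by
    funext x
    match x with
    | .inl i => fin_cases i <;> rfl
    | .inr i => fin_cases i <;> rfl
  right_inv M := by
    ext i j; fin_cases i <;> fin_cases j <;> rfl

theorem central_one : ∀ x : W, x.det = 1 → (∀ M : W, x * M = M * x) → x = 1 := by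
  decide +kernel


/-- The full orthogonal group of the plus-type form x₁y₁ + x₂y₂ in dimension 4 over the field of two elements has order 72 and is isomorphic to the wreath product of the symmetric group of degree 3 by a group of order 2: it has a normal subgroup isomorphic to the direct product of two symmetric groups of degree 3, of index 2, whose two direct factors are interchanged by conjugation by some element. -/
theorem result :
    Nat.card ↥(Cfsg.isometryGroup (ZMod 2) (Cfsg.quadFormPlus 2 (ZMod 2))) = 72 ∧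
    ∃ (A B : Subgroup ↥(Cfsg.isometryGroup (ZMod 2) (Cfsg.quadFormPlus 2 (ZMod 2)))),
      Nonempty (↥A ≃* Equiv.Perm (Fin 3)) ∧ Nonempty (↥B ≃* Equiv.Perm (Fin 3)) ∧ A ⊓ B = ⊥ ∧ (∀ a ∈ A, ∀ b ∈ B, a * b = b * a) ∧
      (A ⊔ B).index = 2 ∧ ∃ g : ↥(Cfsg.isometryGroup (ZMod 2) (Cfsg.quadFormPlus 2 (ZMod 2))), A.map (MulAut.conj g).toMonoidHom = B := by
  have hcard : Nat.card ↥(Cfsg.isometryGroup (ZMod 2) (Cfsg.quadFormPlus 2 (ZMod 2))) = 72 := by
    rw [Cfsg.Agent.S0287.result (q := 2) (by simp [ZMod.card]) 2 (by norm_num)]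
    norm_num [Finset.prod_range_succ]
  refine ⟨hcard, ?_⟩
  obtain ⟨e⟩ := Cfsg.Agent.Lib.Linalg.BinaryAniso.isometry_equiv_of_coord (Cfsg.quadFormPlus 2 (ZMod 2)) coordW
    (fun M => M.det) (fun v => by
      have h : ∀ a b : ZMod 2, a - b = a + b := by decide
      simp [coordW, Cfsg.quadFormPlus, det_fin_two, h]) detGroup (fun _ => Iff.rfl)
  obtain ⟨e0⟩ := SL2_equiv
  refine wreath_conclusion e0 hcard (e.symm.toMonoidHom.comp leftE) (e.symm.toMonoidHom.comp rightE)
    ?_ ?_ ?_ ?_ (e.symm transE) ?_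
  · intro x y h
    have h1 : leftE x = leftE y := e.symm.injective h
    have h2 := congrArg (fun g : detGroup => g.1 1) h1
    simp only [leftE_apply, mul_one] at h2
    exact Subtype.ext h2
  · intro x y h
    have h1 : rightE x = rightE y := e.symm.injective h
    have h2 := congrArg (fun g : detGroup => g.1 1) h1
    simp only [rightE_apply, one_mul] at h2
    exact Subtype.ext (transpose_injective h2)
  · intro x y
    have : leftE x * rightE y = rightE y * leftE x := Subtype.ext <| LinearEquiv.ext fun M => by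
      change (x : W) * (M * (y : W)ᵀ) = ((x : W) * M) * (y : W)ᵀ
      rw [mul_assoc]
    simp only [MonoidHom.comp_apply]
    exact (map_mul e.symm.toMonoidHom _ _).symm.trans ((congrArg _ this).trans (map_mul e.symm.toMonoidHom _ _))
  · intro x y h
    have h1 : leftE x = rightE y := e.symm.injective h
    have h2 : ∀ M : W, (x : W) * M = M * (y : W)ᵀ := fun M => congrArg (fun g : detGroup => g.1 M) h1
    have h3 : (x : W) = (y : W)ᵀ := by simpa using h2 1
    have hx : (x : W) = 1 := central_one _ x.2 (fun M => by rw [h2 M, ← h3])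
    have hx1 : x = 1 := Subtype.ext hx
    rw [hx1, map_one]
  · intro x
    have : transE * leftE x * transE⁻¹ = rightE x := Subtype.ext <| LinearEquiv.ext fun M => by
      change ((x : W) * Mᵀ)ᵀ = M * (x : W)ᵀ
      rw [transpose_mul, transpose_transpose]
    simp only [MonoidHom.comp_apply]
    rw [← this]
    simp [map_mul, map_inv]

end Cfsg.Agent.S2566
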