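import Cfsg.Statements.S2567
import Mathlib
-- import your own Cfsg.Agent.* helpers here

set_option autoImplicit false
open Cfsg

namespace Cfsg.Agent.S2567

/-- Abstract lifting lemma: if `Z` is a central subgroup of order prime to the prime `r`, an element
of order `r` of `G/Z` has exactly one preimage of order `r`. -/
theorem exists_unique_lift {G : Type*} [Group G] (Z : Subgroup G) [Z.Normal]
    (hZ : Z ≤ Subgroup.center G) {r : ℕ} (hr : r.Prime) (hcop : (Nat.card Z).Coprime r)
    (x : G ⧸ Z) (hx : orderOf x = r) :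
    ∃! g : G, (QuotientGroup.mk g : G ⧸ Z) = x ∧ orderOf g = r := by
  haveI := Fact.mk hr
  obtain ⟨g0, rfl⟩ := QuotientGroup.mk_surjective x
  have hz : ∀ z ∈ Z, ∀ a : G, Commute a z := fun z hz a =>
    (Subgroup.mem_center_iff.1 (hZ hz) a)
  have h0 : g0 ^ r ∈ Z := by
    rw [← QuotientGroup.eq_one_iff]
    have : ((QuotientGroup.mk g0 : G ⧸ Z)) ^ r = 1 := by rw [← hx]; exact pow_orderOf_eq_one _
    simpa using this
  let c : Z := (powCoprime hcop).symm ⟨(g0 ^ r)⁻¹, Z.inv_mem h0⟩
  have hc : c ^ r = ⟨(g0 ^ r)⁻¹, Z.inv_mem h0⟩ := by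
    rw [← powCoprime_apply hcop, Equiv.apply_symm_apply]
  have hc' : ((c : G)) ^ r = (g0 ^ r)⁻¹ := by
    have := congrArg Subtype.val hc
    simpa using this
  have hinj : ∀ d : Z, (d : G) ^ r = 1 → (d : G) = 1 := by
    intro d hd
    have h1 : powCoprime hcop d = powCoprime hcop 1 := by
      rw [powCoprime_one, powCoprime_apply]
      apply Subtype.ext
      simpa using hd
    have := (powCoprime hcop).injective h1
    rw [this]; rfl
  have hpow : (g0 * c) ^ r = 1 := by
    rw [(hz c c.2 g0).mul_pow, hc', mul_inv_cancel]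
  have hmk : (QuotientGroup.mk (g0 * c) : G ⧸ Z) = QuotientGroup.mk g0 := by
    rw [QuotientGroup.mk_mul_of_mem _ c.2]
  have hne : g0 * c ≠ 1 := by
    intro h1
    rw [h1] at hmk
    rw [← hmk] at hx
    simp only [QuotientGroup.mk_one, orderOf_one] at hx
    exact hr.one_lt.ne hx
  refine ⟨g0 * c, ⟨hmk, orderOf_eq_prime hpow hne⟩, ?_⟩
  rintro g' ⟨hg', hg'o⟩
  have hdiff : (g0 * c)⁻¹ * g' ∈ Z := by
    rw [← QuotientGroup.eq, hmk, hg']
  have hg'r : g' ^ r = 1 := by rw [← hg'o]; exact pow_orderOf_eq_one _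
  have hg'eq : g' = (g0 * c) * ((g0 * c)⁻¹ * g') := by group
  have h2 : (((g0 * c)⁻¹ * g' : G)) ^ r = 1 := by
    have h3 := hg'r
    rw [hg'eq, (hz _ hdiff (g0 * c)).mul_pow, hpow, one_mul] at h3
    exact h3
  have h4 := hinj ⟨_, hdiff⟩ h2
  have h5 : (g0 * c)⁻¹ * g' = 1 := h4
  rw [hg'eq, h5, mul_one]

/-- Lifting elements of prime order from PGL to GL: let F be a finite field with q elements, r a prime not dividing q − 1, and x an element of order r in GL_n(F) modulo its centre (the scalar matrices). Then x has exactly one preimage in GL_n(F) of order r. -/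
theorem result {F : Type*} [Field F] [Fintype F] {q n r : ℕ} (hF : Fintype.card F = q) (hr : r.Prime) (hdiv : ¬ r ∣ q - 1) (x : GL (Fin n) F ⧸ Subgroup.center (GL (Fin n) F)) (hx : orderOf x = r) : ∃! g : GL (Fin n) F, (QuotientGroup.mk g : GL (Fin n) F ⧸ Subgroup.center (GL (Fin n) F)) = x ∧ orderOf g = r := by
  classical
  have hcard : Nat.card (Subgroup.center (GL (Fin n) F)) ∣ q - 1 := by
    rw [Matrix.GeneralLinearGroup.center_eq_range_scalar]
    have h1 := Subgroup.card_range_dvd (Matrix.GeneralLinearGroup.scalar (Fin n) (R := F))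
    refine h1.trans ?_
    rw [Nat.card_eq_fintype_card, Fintype.card_units, hF]
  have hcop : (Nat.card (Subgroup.center (GL (Fin n) F))).Coprime r := by
    apply Nat.Coprime.symm
    rw [hr.coprime_iff_not_dvd]
    intro h
    exact hdiv (h.trans hcard)
  exact exists_unique_lift _ le_rfl hr hcop x hx

end Cfsg.Agent.S2567
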