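import Cfsg.Statements.S2568
import Mathlib
import Cfsg.Agent.Lib.Linalg.PrimeOrderClasses

set_option autoImplicit false
open Cfsg

namespace Cfsg.Agent.S2568

/-- Number of conjugacy classes of elements of a given prime order r, coprime to the characteristic, in GL_n(q): if i is the multiplicative order of q modulo r and t = (r − 1)/i, the classes correspond to the non-zero t-tuples of natural numbers (a_1, …, a_t) with i(a_1 + ⋯ + a_t) ≤ n (a_j is the multiplicity of the j-th Frobenius orbit of nontrivial r-th roots of unity among the eigenvalues), so there are exactly C(⌊n/i⌋ + t, t) − 1 of them. -/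
theorem result {F : Type*} [Field F] [Fintype F] {p q : ℕ} [Fact p.Prime] [CharP F p] (hF : Fintype.card F = q) (n r i t : ℕ) (hr : r.Prime) (hrp : r ≠ p) (hi : i = orderOf (q : ZMod r)) (ht : t * i = r - 1) : Nat.card {C : ConjClasses (GL (Fin n) F) // ∃ g : GL (Fin n) F, ConjClasses.mk g = C ∧ orderOf g = r} = Nat.choose (n / i + t) t - 1 := by
  have hcongr : Nat.card {C : ConjClasses (GL (Fin n) F) // ∃ g : GL (Fin n) F, ConjClasses.mk g = C ∧ orderOf g = r} =
      Nat.card {C : ConjClasses (GL (Fin n) F) // ∃ g : GL (Fin n) F, orderOf g = r ∧ ConjClasses.mk g = C} :=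
    Nat.card_congr (Equiv.subtypeEquivRight fun C => exists_congr fun g => and_comm)
  rw [hcongr]
  exact Cfsg.Agent.Lib.Linalg.PrimeOrderClasses.card_prime_order_classes (p := p) hF n r i t hr hrp hi ht

end Cfsg.Agent.S2568
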