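import Cfsg.Statements.S2569
import Mathlib
import Cfsg.Agent.Lib.Linalg.SemisimpleCentralizer

set_option autoImplicit false
open Cfsg

namespace Cfsg.Agent.S2569

/-- In GL_n over a finite field of characteristic p, the conjugacy class of a semisimple element (an element of order prime to p) under the special linear group is its whole GL-conjugacy class: for every such x and every invertible g there is h of determinant one with h x h⁻¹ = g x g⁻¹. -/
theorem result {F : Type*} [Field F] [Fintype F] {p : ℕ} [Fact p.Prime] [CharP F p] {n : ℕ} (x g : GL (Fin n) F) (hx : (orderOf x).Coprime p) : ∃ h : GL (Fin n) F, (h : Matrix (Fin n) (Fin n) F).det = 1 ∧ h * x * h⁻¹ = g * x * g⁻¹ := by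
  classical
  rcases Nat.eq_zero_or_pos n with rfl | hn
  · exact ⟨g, Matrix.det_isEmpty, rfl⟩
  have hne : Nonempty (Fin n) := ⟨⟨0, hn⟩⟩
  have hp : p.Prime := Fact.out
  -- semisimplicity
  set L : Module.End F (Fin n → F) := Matrix.toLin' (x : Matrix (Fin n) (Fin n) F) with hL
  set m := orderOf x with hm
  have hmpos : 0 < m := orderOf_pos x
  have hm0 : (m : F) ≠ 0 := by
    intro h
    have h1 : p ∣ m := (CharP.cast_eq_zero_iff F p m).1 h
    have h2 : p ∣ Nat.gcd m p := Nat.dvd_gcd h1 dvd_rfl
    rw [hx] at h2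
    exact hp.one_lt.ne' (Nat.dvd_one.1 h2)
  have hxm : x ^ m = 1 := pow_orderOf_eq_one x
  have hLm : L ^ m = 1 := by
    have h1 : ((x ^ m : Matrix.GeneralLinearGroup (Fin n) F) : Matrix (Fin n) (Fin n) F) = 1 := by
      rw [hxm]; rfl
    rw [Units.val_pow_eq_pow_val] at h1
    rw [hL, ← Matrix.toLin'_pow, h1, Matrix.toLin'_one]
    rfl
  have hsq : Squarefree ((Polynomial.X : Polynomial F) ^ m - Polynomial.C 1) :=
    (Polynomial.separable_X_pow_sub_C 1 hm0 one_ne_zero).squarefree
  have hss : L.IsSemisimple := by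
    apply Module.End.isSemisimple_of_squarefree_aeval_eq_zero hsq
    simp [hLm]
  -- a commuting element with the right determinant
  obtain ⟨T, hT, hdet⟩ := Cfsg.Agent.Lib.Linalg.SemisimpleCentralizer.exists_commute_det L hss
    ((g : Matrix (Fin n) (Fin n) F).det)⁻¹
  have hgdet : (g : Matrix (Fin n) (Fin n) F).det ≠ 0 := by
    have := (Matrix.isUnit_iff_isUnit_det _).1 g.isUnit
    exact this.ne_zero
  set C : Matrix (Fin n) (Fin n) F := LinearMap.toMatrix' T with hC
  have hCdet : C.det = ((g : Matrix (Fin n) (Fin n) F).det)⁻¹ := by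
    rw [hC, LinearMap.det_toMatrix', hdet]
  let c : Matrix.GeneralLinearGroup (Fin n) F := Matrix.GeneralLinearGroup.mkOfDetNeZero C (by
    rw [hCdet]; exact inv_ne_zero hgdet)
  have hcval : (c : Matrix (Fin n) (Fin n) F) = C := rfl
  have hcx : c * x = x * c := by
    apply Units.ext
    rw [Units.val_mul, Units.val_mul, hcval]
    have h1 := congrArg LinearMap.toMatrix' hT
    rw [Module.End.mul_eq_comp, Module.End.mul_eq_comp, LinearMap.toMatrix'_comp,
      LinearMap.toMatrix'_comp, hL, LinearMap.toMatrix'_toLin'] at h1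
    exact h1
  refine ⟨g * c, ?_, ?_⟩
  · rw [Units.val_mul, Matrix.det_mul, hcval, hCdet, mul_inv_cancel₀ hgdet]
  · calc g * c * x * (g * c)⁻¹ = g * (c * x) * c⁻¹ * g⁻¹ := by group
      _ = g * (x * c) * c⁻¹ * g⁻¹ := by rw [hcx]
      _ = g * x * g⁻¹ := by group

end Cfsg.Agent.S2569
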