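import Cfsg.Statements.S2570
import Mathlib
import Cfsg.Agent.Lib.Linalg.UnipotentClasses

set_option autoImplicit false
open Cfsg

open Cfsg.Agent.Lib.Linalg.RCFType

namespace Cfsg.Agent.S2570

/-- Number of conjugacy classes of elements of order p in GL_n over a finite field of characteristic p: they correspond to the Jordan types, that is, to the partitions of n with all parts at most p other than the partition into ones, so there are (number of partitions of n with parts ≤ p) − 1 of them. -/
theorem result {F : Type*} [Field F] [Fintype F] {p : ℕ} [Fact p.Prime] [CharP F p] (n : ℕ) : Nat.card {C : ConjClasses (GL (Fin n) F) // ∃ g : GL (Fin n) F, ConjClasses.mk g = C ∧ orderOf g = p} = (Finset.univ.filter (fun μ : Nat.Partition n => ∀ a ∈ μ.parts, a ≤ p)).card - 1 := by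
  classical
  have hp1 : 1 ≤ p := (Fact.out : p.Prime).one_le
  -- translate the order condition
  have hP : ∀ g : GL (Fin n) F, orderOf g = p ↔
      (∀ a ∈ matType (g : Matrix (Fin n) (Fin n) F), a.1 = Polynomial.X - 1) ∧
        ((∀ a ∈ (matType (g : Matrix (Fin n) (Fin n) F)).map Prod.snd, a ≤ p) ∧
          ¬ ∀ a ∈ (matType (g : Matrix (Fin n) (Fin n) F)).map Prod.snd, a = 1) := by
    intro g
    have hpow : g ^ p = 1 ↔ ∀ a ∈ matType (g : Matrix (Fin n) (Fin n) F),
        a.1 = Polynomial.X - 1 ∧ a.2 ≤ p := by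
      have h1 := Cfsg.Agent.Lib.Linalg.Unipotent.pow_char_pow_eq_one_iff p g 1
      rw [pow_one] at h1
      rw [h1, ← Cfsg.Agent.Lib.Linalg.UnipotentClasses.aeval_X_sub_one_pow,
        aeval_matrix_eq_zero_iff]
      refine forall₂_congr fun a ha => ?_
      have hadm := matType_adm _ a ha
      exact Cfsg.Agent.Lib.Linalg.UnipotentClasses.dvd_X_sub_one_pow_iff hadm.1 hadm.2.1 hadm.2.2 _
    have hone : g = 1 ↔ ∀ a ∈ matType (g : Matrix (Fin n) (Fin n) F),
        a.1 = Polynomial.X - 1 ∧ a.2 ≤ 1 := by
      have h1 : g = 1 ↔ (g : Matrix (Fin n) (Fin n) F) - 1 = 0 := by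
        rw [sub_eq_zero, Units.ext_iff]
        simp
      rw [h1, ← pow_one ((g : Matrix (Fin n) (Fin n) F) - 1),
        ← Cfsg.Agent.Lib.Linalg.UnipotentClasses.aeval_X_sub_one_pow, aeval_matrix_eq_zero_iff]
      refine forall₂_congr fun a ha => ?_
      have hadm := matType_adm _ a ha
      exact Cfsg.Agent.Lib.Linalg.UnipotentClasses.dvd_X_sub_one_pow_iff hadm.1 hadm.2.1 hadm.2.2 _
    rw [orderOf_eq_prime_iff, hpow, ne_eq, hone]
    simp only [Multiset.mem_map, forall_exists_index, and_imp, forall_apply_eq_imp_iff₂]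
    constructor
    · rintro ⟨h1, h2⟩
      refine ⟨fun a ha => (h1 a ha).1, fun a ha => (h1 a ha).2, fun h => h2 fun a ha => ?_⟩
      exact ⟨(h1 a ha).1, (h a ha).le⟩
    · rintro ⟨h1, h2, h3⟩
      refine ⟨fun a ha => ⟨h1 a ha, h2 a ha⟩, fun h => h3 fun a ha => ?_⟩
      have := (matType_adm _ a ha).2.2
      have := (h a ha).2
      omega
  have hcard := Cfsg.Agent.Lib.Linalg.UnipotentClasses.card_unipotent_classes n
    (fun g : GL (Fin n) F => orderOf g = p)
    (fun s => (∀ a ∈ s, a ≤ p) ∧ ¬ ∀ a ∈ s, a = 1) hP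
  have hcongr : Nat.card {C : ConjClasses (GL (Fin n) F) // ∃ g : GL (Fin n) F, ConjClasses.mk g = C ∧ orderOf g = p} =
      Nat.card {C : ConjClasses (GL (Fin n) F) // ∃ g : GL (Fin n) F, orderOf g = p ∧ ConjClasses.mk g = C} :=
    Nat.card_congr (Equiv.subtypeEquivRight fun C => exists_congr fun g => and_comm)
  rw [hcongr, hcard, Nat.card_eq_fintype_card, Fintype.card_subtype]
  -- the unique partition into ones
  let ones : Nat.Partition n := ⟨Multiset.replicate n 1, by
    intro i hi
    rw [Multiset.eq_of_mem_replicate hi]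
    exact one_pos, by simp⟩
  have hones : ∀ μ : Nat.Partition n, (∀ a ∈ μ.parts, a = 1) ↔ μ = ones := by
    intro μ
    constructor
    · intro h
      apply Nat.Partition.ext
      change μ.parts = Multiset.replicate n 1
      rw [Multiset.eq_replicate]
      refine ⟨?_, h⟩
      have hs := μ.parts_sum
      have hr := Multiset.eq_replicate_card.mpr h
      rw [hr, Multiset.sum_replicate] at hs
      simpa using hs
    · rintro rfl a ha
      exact Multiset.eq_of_mem_replicate ha
  have hfilter : (Finset.univ.filter fun μ : Nat.Partition n => (∀ a ∈ μ.parts, a ≤ p) ∧ ¬ ∀ a ∈ μ.parts, a = 1) =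
      (Finset.univ.filter fun μ : Nat.Partition n => ∀ a ∈ μ.parts, a ≤ p).erase ones := by
    ext μ
    simp only [Finset.mem_filter, Finset.mem_univ, true_and, Finset.mem_erase, hones]
    tauto
  rw [hfilter, Finset.card_erase_of_mem]
  simp only [Finset.mem_filter, Finset.mem_univ, true_and]
  intro a ha
  rw [(hones ones).mpr rfl a ha]
  exact hp1

end Cfsg.Agent.S2570
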