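import Cfsg.Statements.S2574
import Mathlib
import Cfsg.Agent.Lib.Linalg.RegularNilpotent

set_option autoImplicit false
open Cfsg

namespace Cfsg.Agent.S2574

/-- A regular unipotent element of the symplectic group has totally isotropic small invariant subspaces: over a finite field, if u ∈ Sp_2m(F) satisfies (u − 1)^(2m) = 0 and rank(u − 1) = 2m − 1, and W is a u-invariant subspace with 2 dim W ≤ 2m, then the alternating form vanishes identically on W. -/
theorem result {F : Type*} [Field F] [Finite F] {m : ℕ} (u : Matrix.symplecticGroup (Fin m) F) (hnil : ((u : Matrix (Fin m ⊕ Fin m) (Fin m ⊕ Fin m) F) - 1) ^ (2 * m) = 0) (hreg : ((u : Matrix (Fin m ⊕ Fin m) (Fin m ⊕ Fin m) F) - 1).rank = 2 * m - 1) (W : Submodule F (Fin m ⊕ Fin m → F)) (hW : ∀ v ∈ W, (u : Matrix (Fin m ⊕ Fin m) (Fin m ⊕ Fin m) F).mulVec v ∈ W) (hdim : 2 * Module.finrank F W ≤ 2 * m) : ∀ v ∈ W, ∀ w ∈ W, Cfsg.sympForm m F v w = 0 := by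
  classical
  set M : Matrix (Fin m ⊕ Fin m) (Fin m ⊕ Fin m) F := (u : Matrix (Fin m ⊕ Fin m) (Fin m ⊕ Fin m) F) with hM
  have hcard : Fintype.card (Fin m ⊕ Fin m) = 2 * m := by
    simp only [Fintype.card_sum, Fintype.card_fin]; omega
  have hMem : M.transpose * Matrix.J (Fin m) F * M = Matrix.J (Fin m) F :=
    SymplecticGroup.mem_iff'.1 u.2
  have hMem2 : M * Matrix.J (Fin m) F * M.transpose = Matrix.J (Fin m) F :=
    SymplecticGroup.mem_iff.1 u.2
  -- `M` preserves the form
  have hpres : ∀ v w, Cfsg.sympForm m F (M.mulVec v) (M.mulVec w) = Cfsg.sympForm m F v w := by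
    intro v w
    unfold Cfsg.sympForm
    rw [← Matrix.vecMul_transpose, ← Matrix.dotProduct_mulVec, Matrix.mulVec_mulVec,
      Matrix.mulVec_mulVec, hMem]
  -- the bilinear form
  let B : LinearMap.BilinForm F (Fin m ⊕ Fin m → F) := Matrix.toBilin' (Matrix.J (Fin m) F)
  have hB : ∀ v w, B v w = Cfsg.sympForm m F v w := fun v w => Matrix.toBilin'_apply' _ v w
  have hnd : B.Nondegenerate :=
    LinearMap.BilinForm.nondegenerate_toBilin'_of_det_ne_zero' _
      (Matrix.isUnit_det_J (Fin m) F).ne_zero
  -- `M` is injective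
  have hinj : Function.Injective M.mulVec := by
    have hdet : IsUnit M.det := SymplecticGroup.symplectic_det u.2
    intro a b hab
    have h1 := congrArg ((M⁻¹).mulVec) hab
    simpa [Matrix.mulVec_mulVec, Matrix.nonsing_inv_mul _ hdet] using h1
  -- `M` maps `W` onto itself
  have hsurj : ∀ w ∈ W, ∃ w' ∈ W, M.mulVec w' = w := by
    let L : W →ₗ[F] W := (Matrix.mulVecLin M).restrict (p := W) (q := W) hW
    have hLinj : Function.Injective L := by
      intro a b hab
      apply Subtype.ext
      apply hinj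
      exact congrArg Subtype.val hab
    have hLsurj := LinearMap.injective_iff_surjective.1 hLinj
    intro w hw
    obtain ⟨w', hw'⟩ := hLsurj ⟨w, hw⟩
    exact ⟨w', w'.2, congrArg Subtype.val hw'⟩
  -- the orthogonal complement is invariant
  have hWperp : ∀ v ∈ B.orthogonal W, M.mulVec v ∈ B.orthogonal W := by
    intro v hv
    rw [LinearMap.BilinForm.mem_orthogonal_iff] at hv ⊢
    intro w hw
    obtain ⟨w', hw', rfl⟩ := hsurj w hw
    have := hv w' hw'
    change B _ _ = 0
    change B _ _ = 0 at this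
    rw [hB] at this ⊢
    rw [hpres]
    exact this
  have hfin : Module.finrank F (B.orthogonal W) = 2 * m - Module.finrank F W := by
    rw [LinearMap.BilinForm.finrank_orthogonal hnd, Module.finrank_fintype_fun_eq_card, hcard]
  have hle : W ≤ B.orthogonal W := by
    apply Cfsg.Agent.Lib.Linalg.RegularNilpotent.matrix_le_of_finrank_le M
      (by rw [hcard]; exact hnil) (by rw [hcard]; exact hreg) W _ hW hWperp
    rw [hfin]
    omega
  intro v hv w hw
  have := (LinearMap.BilinForm.mem_orthogonal_iff.1 (hle hw)) v hv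
  change B v w = 0 at this
  rwa [hB] at this

end Cfsg.Agent.S2574
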