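import Cfsg.Statements.S2575
import Mathlib

set_option linter.style.haveILetI false
-- import your own Cfsg.Agent.* helpers here

set_option autoImplicit false
open Cfsg

namespace Cfsg.Agent.S2575

/-- `-1` is an `n`-th power in a finite field of odd order `q` iff `v₂(n) < v₂(q - 1)`. -/
theorem exists_pow_eq_neg_one_iff {F : Type*} [Field F] [Fintype F] {q : ℕ}
    (hF : Fintype.card F = q) (hq : Odd q) {n : ℕ} (hn : 1 ≤ n) :
    (∃ c : F, c ≠ 0 ∧ c ^ n = -1) ↔ padicValNat 2 n < padicValNat 2 (q - 1) := by
  classical
  have hq3 : 3 ≤ q := by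
    obtain ⟨k, hk⟩ := hq
    have h1 : 1 < Fintype.card F := Fintype.one_lt_card
    omega
  have hN0 : q - 1 ≠ 0 := by omega
  have hn0 : n ≠ 0 := by omega
  have hneg : (-1 : F) ≠ 1 := by
    intro h
    have hchar : ringChar F = 2 := by
      have h2 : (2 : F) = 0 := by
        have : (1 : F) + 1 = 0 := by
          nth_rw 1 [← h]
          ring
        simpa [one_add_one_eq_two] using this
      have h3 := CharP.cast_eq_zero_iff F (ringChar F) 2
      have h4 : ringChar F ∣ 2 := h3.mp (by exact_mod_cast h2)
      rcases (Nat.dvd_prime Nat.prime_two).mp h4 with h5 | h5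
      · have := CharP.ringChar_ne_one (R := F)
        exact absurd h5 this
      · exact h5
    have h6 := (FiniteField.even_card_iff_char_two (F := F)).mp hchar
    rw [hF] at h6
    exact (Nat.not_even_iff_odd.mpr hq) (Nat.even_iff.mpr h6)
  have hcard : Fintype.card Fˣ = q - 1 := by rw [Fintype.card_units, hF]
  constructor
  · rintro ⟨c, hc0, hc⟩
    by_contra hlt
    push Not at hlt
    -- write `q - 1 = 2^b * N'`
    obtain ⟨b, N', hN', hNe⟩ := Nat.exists_eq_pow_mul_and_not_dvd hN0 2 (by norm_num)
    have hbval : padicValNat 2 (q - 1) = b := by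
      haveI : Fact (Nat.Prime 2) := ⟨Nat.prime_two⟩
      rw [hNe, padicValNat.mul (by positivity) (by rintro rfl; simp at hN'),
        padicValNat.prime_pow, padicValNat.eq_zero_of_not_dvd hN', add_zero]
    have h2b : 2 ^ b ∣ n := by
      haveI : Fact (Nat.Prime 2) := ⟨Nat.prime_two⟩
      rw [padicValNat_dvd_iff_le hn0]
      omega
    obtain ⟨n', hn'⟩ := h2b
    have hcN : c ^ (q - 1) = 1 := by
      have := FiniteField.pow_card_sub_one_eq_one c hc0
      rwa [hF] at this
    have h1 : c ^ (n * N') = 1 := by
      have : n * N' = (q - 1) * n' := by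
        rw [hn', hNe]; ring
      rw [this, pow_mul, hcN, one_pow]
    rw [pow_mul, hc] at h1
    have hN'odd : Odd N' := by
      rwa [← Nat.not_even_iff_odd, even_iff_two_dvd]
    rw [hN'odd.neg_one_pow] at h1
    exact hneg h1
  · intro hlt
    -- the image of the `n`-th power map has even order
    set d := (Nat.card Fˣ).gcd n with hd
    have hcardN : Nat.card Fˣ = q - 1 := by rw [Nat.card_eq_fintype_card, hcard]
    have hrange : Nat.card (powMonoidHom n : Fˣ →* Fˣ).range = Nat.card Fˣ / d :=
      IsCyclic.card_powMonoidHom_range Fˣ n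
    have hdN : d ∣ q - 1 := by rw [← hcardN]; exact Nat.gcd_dvd_left _ _
    have hdn : d ∣ n := Nat.gcd_dvd_right _ _
    obtain ⟨k, hk⟩ := hdN
    have heven : 2 ∣ k := by
      by_contra hk2
      haveI : Fact (Nat.Prime 2) := ⟨Nat.prime_two⟩
      have hd0 : d ≠ 0 := by
        rintro h0
        rw [h0, zero_mul] at hk
        exact hN0 hk
      have hk0 : k ≠ 0 := by
        rintro rfl
        exact hk2 (dvd_zero _)
      have h3 : padicValNat 2 (q - 1) = padicValNat 2 d := by
        rw [hk, padicValNat.mul hd0 hk0, padicValNat.eq_zero_of_not_dvd hk2, add_zero]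
      have h4 : padicValNat 2 d ≤ padicValNat 2 n := by
        rw [← padicValNat_dvd_iff_le hn0]
        exact (pow_padicValNat_dvd).trans hdn
      omega
    have hH2 : 2 ∣ Nat.card (powMonoidHom n : Fˣ →* Fˣ).range := by
      rw [hrange, hcardN, hk]
      rw [Nat.mul_div_cancel_left _ (by
        rcases Nat.eq_zero_or_pos d with h0 | h0
        · rw [h0, zero_mul] at hk
          exact absurd hk hN0
        · exact h0)]
      exact heven
    haveI : Fact (Nat.Prime 2) := ⟨Nat.prime_two⟩
    obtain ⟨x, hx⟩ := exists_prime_orderOf_dvd_card' 2 hH2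
    obtain ⟨c, hc⟩ := x.2
    have hxF : ((x : Fˣ) : F) = -1 := by
      have h1 : orderOf (x : Fˣ) = 2 := by
        rw [Subgroup.orderOf_coe]
        exact hx
      have h2 : ((x : Fˣ) : F) ^ 2 = 1 := by
        have := pow_orderOf_eq_one (x : Fˣ)
        rw [h1] at this
        rw [← Units.val_pow_eq_pow_val, this]
        rfl
      have h3 : ((x : Fˣ) : F) ≠ 1 := by
        intro h4
        have h5 : (x : Fˣ) = 1 := Units.ext h4
        rw [h5, orderOf_one] at h1
        omega
      rw [pow_two] at h2
      rcases mul_self_eq_one_iff.mp h2 with h4 | h4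
      · exact absurd h4 h3
      · exact h4
    refine ⟨(c : F), c.ne_zero, ?_⟩
    rw [← hxF, ← hc]
    simp

/-- Which diagonal involutions of PGL_n(q) lie in PSL_n(q), q odd: for the diagonal matrix t with i entries −1 and n − i entries 1, some non-zero scalar multiple of t has determinant one if and only if i is even or the 2-part of q − 1 exceeds the 2-part of n (that is, −1 is an n-th power in the field exactly in the latter case). -/
theorem result {F : Type*} [Field F] [Fintype F] {q : ℕ} (hF : Fintype.card F = q) (hq : Odd q) {n : ℕ} (hn : 1 ≤ n) (i : ℕ) (hi : i ≤ n) : (∃ c : F, c ≠ 0 ∧ (c • Matrix.diagonal (fun j : Fin n => if (j : ℕ) < i then (-1 : F) else 1)).det = 1) ↔ (Even i ∨ padicValNat 2 n < padicValNat 2 (q - 1)) := by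
  classical
  have hdet : ∀ c : F, (c • Matrix.diagonal (fun j : Fin n => if (j : ℕ) < i then (-1 : F) else 1)).det
      = c ^ n * (-1) ^ i := by
    intro c
    rw [Matrix.det_smul, Fintype.card_fin, Matrix.det_diagonal]
    congr 1
    rw [Fin.prod_univ_eq_prod_range (fun j => if j < i then (-1 : F) else 1) n, Finset.prod_ite,
      Finset.prod_const, Finset.prod_const_one, mul_one]
    congr 1
    have : Finset.filter (fun j => j < i) (Finset.range n) = Finset.range i := by
      ext j
      simp only [Finset.mem_filter, Finset.mem_range]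
      omega
    rw [this, Finset.card_range]
  simp only [hdet]
  rw [← exists_pow_eq_neg_one_iff hF hq hn]
  by_cases hev : Even i
  · exact ⟨fun _ => Or.inl hev, fun _ => ⟨1, one_ne_zero, by simp [hev.neg_one_pow]⟩⟩
  · have hodd : Odd i := Nat.not_even_iff_odd.mp hev
    simp only [hodd.neg_one_pow, hev, false_or]
    constructor
    · rintro ⟨c, hc0, hc⟩
      refine ⟨c, hc0, ?_⟩
      linear_combination -hc
    · rintro ⟨c, hc0, hc⟩
      refine ⟨c, hc0, ?_⟩
      rw [hc]; ring

end Cfsg.Agent.S2575
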