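import Cfsg.Statements.S2576
import Mathlib

set_option linter.style.haveILetI false
-- import your own Cfsg.Agent.* helpers here

set_option autoImplicit false
open Cfsg

namespace Cfsg.Agent.S2576

/-- Which involutions of PGL_2m(q) coming from a scalar of the quadratic extension field lie in PSL_2m(q), q odd: let μ generate the Sylow 2-subgroup of the multiplicative group of the field with q elements (μ has order the 2-part of q − 1) and let t be the block-diagonal matrix with m diagonal blocks [[0, 1], [μ, 0]] (so t² is the scalar μ and t is an involution modulo scalars). Then some non-zero scalar multiple of t has determinant one if and only if q ≡ 3 (mod 4) or the 2-part of q − 1 is less than the 2-part of 2m. -/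
theorem result {F : Type*} [Field F] [Fintype F] {q : ℕ} (hF : Fintype.card F = q) (hq : Odd q) {m : ℕ} (hm : 1 ≤ m) (μ : F) (hμ : orderOf μ = 2 ^ padicValNat 2 (q - 1)) : (∃ c : F, c ≠ 0 ∧ (c • Matrix.blockDiagonal (fun _ : Fin m => !![(0 : F), 1; μ, 0])).det = 1) ↔ (q % 4 = 3 ∨ padicValNat 2 (q - 1) < padicValNat 2 (2 * m)) := by
  classical
  haveI : Fact (Nat.Prime 2) := ⟨Nat.prime_two⟩
  have hq3 : 3 ≤ q := by
    obtain ⟨k, hk⟩ := hq
    have h1 : 1 < Fintype.card F := Fintype.one_lt_card
    omega
  have hN0 : q - 1 ≠ 0 := by omega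
  have hm0 : m ≠ 0 := by omega
  have hneg : (-1 : F) ≠ 1 := by
    intro h
    have hchar : ringChar F = 2 := by
      have h2 : (2 : F) = 0 := by
        have : (1 : F) + 1 = 0 := by
          nth_rw 1 [← h]
          ring
        simpa [one_add_one_eq_two] using this
      have h3 := CharP.cast_eq_zero_iff F (ringChar F) 2
      have h4 : ringChar F ∣ 2 := h3.mp (by exact_mod_cast h2)
      rcases (Nat.dvd_prime Nat.prime_two).mp h4 with h5 | h5
      · have := CharP.ringChar_ne_one (R := F)
        exact absurd h5 this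
      · exact h5
    have h6 := (FiniteField.even_card_iff_char_two (F := F)).mp hchar
    rw [hF] at h6
    exact (Nat.not_even_iff_odd.mpr hq) (Nat.even_iff.mpr h6)
  have hdet : ∀ c : F, (c • Matrix.blockDiagonal (fun _ : Fin m => !![(0 : F), 1; μ, 0])).det
      = c ^ (2 * m) * (-μ) ^ m := by
    intro c
    rw [Matrix.det_smul, Matrix.det_blockDiagonal, Fintype.card_prod, Fintype.card_fin,
      Fintype.card_fin]
    congr 1
    rw [Finset.prod_const, Finset.card_univ, Fintype.card_fin, Matrix.det_fin_two_of]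
    congr 1
    ring
  simp only [hdet]
  set b := padicValNat 2 (q - 1) with hb
  have hb1 : 2 ^ 1 ∣ q - 1 := by
    obtain ⟨k, hk⟩ := hq
    exact ⟨k, by omega⟩
  have hb1' : 1 ≤ b := by
    rw [hb, ← padicValNat_dvd_iff_le hN0]
    exact hb1
  have hμ0 : μ ≠ 0 := by
    rintro rfl
    rw [orderOf_zero] at hμ
    have : 0 < 2 ^ b := by positivity
    omega
  have hμpow : μ ^ 2 ^ b = 1 := by
    rw [← hμ]
    exact pow_orderOf_eq_one μ
  have hyp : (-μ) ^ 2 ^ b = 1 := by
    obtain ⟨s, hs⟩ : ∃ s, b = s + 1 := ⟨b - 1, by omega⟩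
    rw [neg_pow, hμpow, mul_one]
    exact Even.neg_one_pow ⟨2 ^ s, by rw [hs]; ring⟩
  constructor
  · rintro ⟨c, hc0, hc⟩
    by_contra hcon
    push Not at hcon
    obtain ⟨h34, hle⟩ := hcon
    have hq1 : q % 4 = 1 := by
      obtain ⟨k, hk⟩ := hq
      omega
    have hb2 : 2 ≤ b := by
      rw [hb, ← padicValNat_dvd_iff_le hN0]
      exact ⟨(q - 1) / 4, by omega⟩
    have h2m : padicValNat 2 (2 * m) = padicValNat 2 m + 1 := by
      rw [padicValNat.mul (by norm_num) hm0, padicValNat_self, add_comm]
    obtain ⟨a, m', hm', hme⟩ := Nat.exists_eq_pow_mul_and_not_dvd hm0 2 (by norm_num)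
    have ham : padicValNat 2 m = a := by
      rw [hme, padicValNat.mul (by positivity) (by rintro rfl; simp at hm'),
        padicValNat.prime_pow, padicValNat.eq_zero_of_not_dvd hm', add_zero]
    obtain ⟨b', N', hN', hNe⟩ := Nat.exists_eq_pow_mul_and_not_dvd hN0 2 (by norm_num)
    have hbN : b = b' := by
      rw [hb, hNe, padicValNat.mul (by positivity) (by rintro rfl; simp at hN'),
        padicValNat.prime_pow, padicValNat.eq_zero_of_not_dvd hN', add_zero]
    subst hbN
    rw [h2m, ham] at hle
    obtain ⟨s, hs⟩ : ∃ s, b = a + 1 + s := ⟨b - (a + 1), by omega⟩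
    obtain ⟨s', hs'⟩ : ∃ s', b = s' + 2 := ⟨b - 2, by omega⟩
    have hcN : c ^ (q - 1) = 1 := by
      have := FiniteField.pow_card_sub_one_eq_one c hc0
      rwa [hF] at this
    -- `(-μ)^(2^(b-1)) = -1`
    have hμhalf : μ ^ 2 ^ (s' + 1) = -1 := by
      have h1 : μ ^ 2 ^ (s' + 1) * μ ^ 2 ^ (s' + 1) = 1 := by
        rw [← pow_add, ← two_mul, ← pow_succ']
        rw [show s' + 1 + 1 = b by omega]
        exact hμpow
      rcases mul_self_eq_one_iff.mp h1 with h2 | h2
      · exfalso
        have h3 : orderOf μ ∣ 2 ^ (s' + 1) := orderOf_dvd_of_pow_eq_one h2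
        rw [hμ] at h3
        have h4 := (Nat.pow_dvd_pow_iff_le_right (by norm_num : 1 < 2)).mp h3
        omega
      · exact h2
    have hyhalf : (-μ) ^ 2 ^ (s' + 1) = -1 := by
      rw [neg_pow, hμhalf, Even.neg_one_pow ⟨2 ^ s', by ring⟩, one_mul]
    have hpow := congrArg (fun x => x ^ (2 ^ s * N')) hc
    simp only [one_pow, mul_pow] at hpow
    have he1 : 2 * m * (2 ^ s * N') = (q - 1) * m' := by
      rw [hme, hNe, hs]
      ring
    have he2 : m * (2 ^ s * N') = 2 ^ (s' + 1) * (m' * N') := by
      have : a + s = s' + 1 := by omega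
      rw [hme, ← this, pow_add]
      ring
    rw [← pow_mul, ← pow_mul, he1, he2, pow_mul, hcN, one_pow, one_mul, pow_mul, hyhalf] at hpow
    have hodd : Odd (m' * N') := by
      apply Odd.mul
      · rwa [← Nat.not_even_iff_odd, even_iff_two_dvd]
      · rwa [← Nat.not_even_iff_odd, even_iff_two_dvd]
    rw [hodd.neg_one_pow] at hpow
    exact hneg hpow
  · intro h
    refine ⟨1, one_ne_zero, ?_⟩
    rw [one_pow, one_mul]
    rcases h with h34 | hlt
    · -- `μ = -1`
      have hb1 : b = 1 := by
        obtain ⟨k, hk⟩ : ∃ k, q - 1 = 2 * k := ⟨(q - 1) / 2, by omega⟩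
        have hk2 : ¬ 2 ∣ k := by omega
        rw [hb, hk, padicValNat.mul (by norm_num) (by rintro rfl; simp at hk2), padicValNat_self,
          padicValNat.eq_zero_of_not_dvd hk2]
      have hμ2 : μ * μ = 1 := by
        have := hμpow
        rw [hb1, pow_one, pow_two] at this
        exact this
      have hμ1 : μ ≠ 1 := by
        rintro rfl
        rw [orderOf_one, hb1] at hμ
        omega
      rcases mul_self_eq_one_iff.mp hμ2 with h2 | h2
      · exact absurd h2 hμ1
      · rw [h2, neg_neg, one_pow]
    · have h2m : padicValNat 2 (2 * m) = padicValNat 2 m + 1 := by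
        rw [padicValNat.mul (by norm_num) hm0, padicValNat_self, add_comm]
      rw [h2m] at hlt
      have hdvd : 2 ^ b ∣ m := by
        rw [padicValNat_dvd_iff_le hm0]
        omega
      obtain ⟨k, hk⟩ := hdvd
      rw [hk, pow_mul, hyp, one_pow]

end Cfsg.Agent.S2576
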