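import Cfsg.Statements.S2577
import Mathlib
import Cfsg.Agent.Lib.Linalg.RCF
-- import your own Cfsg.Agent.* helpers here

set_option autoImplicit false
open Cfsg

namespace Cfsg.Agent.S2577


open Matrix Module Polynomial

section linear

variable {F : Type*} [Field F] {V : Type*} [AddCommGroup V] [Module F V] [FiniteDimensional F V]

omit [FiniteDimensional F V] in
lemma compl_of_inv (h2 : (2 : F) ≠ 0) (T : V →ₗ[F] V) (hT : T * T = 1) :
    IsCompl (LinearMap.ker (T - 1)) (LinearMap.ker (T + 1)) := by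
  have hTT : ∀ v, T (T v) = v := fun v => congrArg (fun g => g v) hT
  constructor
  · rw [Submodule.disjoint_def]
    intro v hv1 hv2
    have h1 : T v = v := by
      have : (T - 1) v = 0 := hv1
      simpa [sub_eq_zero] using this
    have h3 : T v + v = 0 := hv2
    rw [h1] at h3
    have h4 : (2 : F) • v = 0 := by rw [two_smul]; exact h3
    exact (smul_eq_zero.1 h4).resolve_left h2
  · rw [codisjoint_iff, eq_top_iff]
    intro v _
    have h3 : v = (2 : F)⁻¹ • (v + T v) + (2 : F)⁻¹ • (v - T v) := by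
      rw [← smul_add]
      have : v + T v + (v - T v) = (2 : F) • v := by rw [two_smul]; abel
      rw [this, smul_smul, inv_mul_cancel₀ h2, one_smul]
    rw [h3]
    refine Submodule.add_mem_sup ?_ ?_
    · rw [LinearMap.mem_ker]
      have : (T - 1) ((2 : F)⁻¹ • (v + T v)) = (2 : F)⁻¹ • (T v + T (T v) - (v + T v)) := by
        simp [smul_sub]
      rw [this, hTT]
      simp [add_comm]
    · rw [LinearMap.mem_ker]
      have : (T + 1) ((2 : F)⁻¹ • (v - T v)) = (2 : F)⁻¹ • (T v - T (T v) + (v - T v)) := by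
        simp [smul_sub]
      rw [this, hTT]
      simp

lemma finrank_add_of_inv (h2 : (2 : F) ≠ 0) (T : V →ₗ[F] V) (hT : T * T = 1) :
    finrank F (LinearMap.ker (T - 1)) + finrank F (LinearMap.ker (T + 1)) = finrank F V :=
  Submodule.finrank_add_eq_of_isCompl (compl_of_inv h2 T hT)

lemma glue (h2 : (2 : F) ≠ 0) (T S : V →ₗ[F] V) (hT : T * T = 1) (hS : S * S = 1)
    (h : finrank F (LinearMap.ker (T + 1)) = finrank F (LinearMap.ker (S + 1))) :
    ∃ e : V ≃ₗ[F] V, ∀ v, e (T v) = S (e v) := by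
  have hc := compl_of_inv h2 T hT
  have hc' := compl_of_inv h2 S hS
  have h1 : finrank F (LinearMap.ker (T - 1)) = finrank F (LinearMap.ker (S - 1)) := by
    have a := finrank_add_of_inv h2 T hT
    have b := finrank_add_of_inv h2 S hS
    omega
  let e₁ := LinearEquiv.ofFinrankEq _ _ h1
  let e₂ := LinearEquiv.ofFinrankEq _ _ h
  let φ := Submodule.prodEquivOfIsCompl _ _ hc
  let φ' := Submodule.prodEquivOfIsCompl _ _ hc'
  refine ⟨φ.symm ≪≫ₗ (e₁.prodCongr e₂) ≪≫ₗ φ', fun v => ?_⟩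
  obtain ⟨x, rfl⟩ := φ.surjective v
  have hTx : T (φ x) = φ (x.1, -x.2) := by
    change T (x.1.1 + x.2.1) = x.1.1 + (-x.2).1
    have h3 : T x.1.1 = x.1.1 := by
      have h0 : T x.1.1 - x.1.1 = 0 := x.1.2
      exact sub_eq_zero.1 h0
    have h4 : T x.2.1 = -x.2.1 := by
      have : T x.2.1 + x.2.1 = 0 := x.2.2
      exact eq_neg_of_add_eq_zero_left this
    rw [map_add, h3, h4]
    rfl
  rw [hTx]
  simp only [LinearEquiv.trans_apply, LinearEquiv.symm_apply_apply, LinearEquiv.prodCongr_apply, map_neg]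
  change (e₁ x.1).1 + (-(e₂ x.2)).1 = S ((e₁ x.1).1 + (e₂ x.2).1)
  have h3 : S (e₁ x.1).1 = (e₁ x.1).1 := by
    have h0 : S (e₁ x.1).1 - (e₁ x.1).1 = 0 := (e₁ x.1).2
    exact sub_eq_zero.1 h0
  have h4 : S (e₂ x.2).1 = -(e₂ x.2).1 := by
    have : S (e₂ x.2).1 + (e₂ x.2).1 = 0 := (e₂ x.2).2
    exact eq_neg_of_add_eq_zero_left this
  rw [map_add, h3, h4]
  rfl

lemma range_top_of_coprime (T : V →ₗ[F] V) {f p : F[X]} (hf : aeval T f = 0) (hc : IsCoprime p f) (k : ℕ) :
    LinearMap.range (aeval T (p ^ k)) = ⊤ := by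
  obtain ⟨a, b, hab⟩ := hc
  have h1 : aeval T a * aeval T p = 1 := by
    have := congrArg (aeval T) hab
    simpa [map_mul, hf] using this
  have h2 : aeval T p * aeval T a = 1 := by
    rw [← map_mul, mul_comm, map_mul, h1]
  have hu : IsUnit (aeval T p) := IsUnit.of_mul_eq_one _ h2
  have hu2 : IsUnit (aeval T (p ^ k)) := by
    rw [map_pow]
    exact hu.pow k
  rw [LinearMap.range_eq_top]
  exact ((Module.End.isUnit_iff _).1 hu2).2

lemma conj_of_sq_eq (μ : F) (hirr : Irreducible (X ^ 2 - C μ : F[X])) (T S : V →ₗ[F] V)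
    (hT : T * T = μ • 1) (hS : S * S = μ • 1) : ∃ e : V ≃ₗ[F] V, ∀ v, e (T v) = S (e v) := by
  have hzero : ∀ U : V →ₗ[F] V, U * U = μ • 1 → aeval U (X ^ 2 - C μ : F[X]) = 0 := by
    intro U hU
    rw [map_sub, map_pow, aeval_X, aeval_C, pow_two, hU, Module.algebraMap_end_eq_smul_id, sub_eq_zero]
    rfl
  apply Cfsg.Agent.Lib.Linalg.RCF.exists_conj_of_rank_eq T S
  intro p hpm hpi k
  by_cases hp : p = X ^ 2 - C μ
  · cases k with
    | zero => rw [pow_zero, map_one, map_one]
    | succ k =>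
      subst hp
      rw [map_pow, map_pow, hzero T hT, hzero S hS]
  · have hc : IsCoprime p (X ^ 2 - C μ : F[X]) := by
      rw [hpi.coprime_iff_not_dvd]
      intro hd
      have hm : (X ^ 2 - C μ : F[X]).Monic := monic_X_pow_sub_C μ (by norm_num)
      exact hp (eq_of_monic_of_associated hpm hm ((hpi.associated_of_dvd hirr hd)))
    rw [range_top_of_coprime T (hzero T hT) hc, range_top_of_coprime S (hzero S hS) hc]

end linear

section matrixlayer

open scoped MatrixGroups

variable {F : Type*} [Field F] {n : ℕ}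

/-- Square matrices. -/
abbrev Mn (F : Type*) (n : ℕ) := Matrix (Fin n) (Fin n) F

lemma conj_of_equiv (A B : Mn F n) (e : (Fin n → F) ≃ₗ[F] (Fin n → F))
    (h : ∀ v, e (A.mulVec v) = B.mulVec (e v)) :
    ∃ C : GL (Fin n) F, (C : Mn F n) * A = B * C := by
  let C : GL (Fin n) F :=
    ⟨LinearMap.toMatrix' e.toLinearMap, LinearMap.toMatrix' e.symm.toLinearMap,
      by rw [← LinearMap.toMatrix'_comp]; simp, by rw [← LinearMap.toMatrix'_comp]; simp⟩
  refine ⟨C, ?_⟩
  apply Matrix.ext_iff_mulVec.2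
  intro v
  rw [← Matrix.mulVec_mulVec, ← Matrix.mulVec_mulVec]
  have hC : ∀ w, (C : Mn F n).mulVec w = e w := fun w => by
    change (LinearMap.toMatrix' e.toLinearMap).mulVec w = e w
    rw [LinearMap.toMatrix'_mulVec]
    rfl
  rw [hC, hC, h]

lemma finrank_ker_toLin (M : Mn F n) :
    finrank F (LinearMap.ker (Matrix.toLinAlgEquiv' M)) + M.rank = n := by
  have h := LinearMap.finrank_range_add_finrank_ker (Matrix.toLinAlgEquiv' M)
  rw [Module.finrank_fin_fun] at h
  have h2 : M.rank = finrank F (LinearMap.range (Matrix.toLinAlgEquiv' M)) := rfl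
  omega

lemma rank_add_rank_of_inv (h2 : (2 : F) ≠ 0) (A : Mn F n) (hA : A * A = 1) :
    (A + 1).rank + (A - 1).rank = n := by
  have hT : Matrix.toLinAlgEquiv' A * Matrix.toLinAlgEquiv' A = 1 := by
    rw [← map_mul, hA, map_one]
  have h1 := finrank_add_of_inv h2 _ hT
  rw [Module.finrank_fin_fun] at h1
  have h3 := finrank_ker_toLin (A + 1)
  have h4 := finrank_ker_toLin (A - 1)
  rw [map_add, map_one] at h3
  rw [map_sub, map_one] at h4
  omega

lemma neg_rank_of_inv (A : Mn F n) : (-A + 1).rank = (A - 1).rank := by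
  have : -A + 1 = -(A - 1) := by abel
  rw [this]
  have h1 : (-(A - 1)).rank = finrank F (LinearMap.range (Matrix.toLinAlgEquiv' (-(A - 1)))) := rfl
  have h3 : (A - 1).rank = finrank F (LinearMap.range (Matrix.toLinAlgEquiv' (A - 1))) := rfl
  rw [h1, h3, map_neg, LinearMap.range_neg]

lemma conj_of_inv (h2 : (2 : F) ≠ 0) (A B : Mn F n) (hA : A * A = 1) (hB : B * B = 1)
    (hr : (A + 1).rank = (B + 1).rank) : ∃ C : GL (Fin n) F, (C : Mn F n) * A = B * C := by
  have hT : Matrix.toLinAlgEquiv' A * Matrix.toLinAlgEquiv' A = 1 := by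
    rw [← map_mul, hA, map_one]
  have hS : Matrix.toLinAlgEquiv' B * Matrix.toLinAlgEquiv' B = 1 := by
    rw [← map_mul, hB, map_one]
  have h3 := finrank_ker_toLin (A + 1)
  have h4 := finrank_ker_toLin (B + 1)
  rw [map_add, map_one] at h3 h4
  obtain ⟨e, he⟩ := glue h2 _ _ hT hS (by omega)
  exact conj_of_equiv A B e he

lemma conj_of_sq (μ : F) (hirr : Irreducible (X ^ 2 - C μ : F[X])) (A B : Mn F n)
    (hA : A * A = μ • 1) (hB : B * B = μ • 1) : ∃ C : GL (Fin n) F, (C : Mn F n) * A = B * C := by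
  have hT : Matrix.toLinAlgEquiv' A * Matrix.toLinAlgEquiv' A = μ • 1 := by
    rw [← map_mul, hA, map_smul, map_one]
  have hS : Matrix.toLinAlgEquiv' B * Matrix.toLinAlgEquiv' B = μ • 1 := by
    rw [← map_mul, hB, map_smul, map_one]
  obtain ⟨e, he⟩ := conj_of_sq_eq μ hirr _ _ hT hS
  exact conj_of_equiv A B e he

/-- The diagonal involution with `i` entries `-1`. -/
def Dm (n i : ℕ) (F : Type*) [Field F] : Mn F n :=
  Matrix.diagonal (fun j : Fin n => if (j : ℕ) < i then -1 else 1)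

lemma Dm_sq (i : ℕ) : Dm n i F * Dm n i F = 1 := by
  rw [Dm, Matrix.diagonal_mul_diagonal, ← Matrix.diagonal_one]
  congr 1
  funext j
  split_ifs <;> simp

lemma Dm_rank (h2 : (2 : F) ≠ 0) (i : ℕ) (hi : i ≤ n) : (Dm n i F + 1).rank = n - i := by
  classical
  have h1 : Dm n i F + 1 = Matrix.diagonal (fun j : Fin n => if (j : ℕ) < i then (0 : F) else 2) := by
    rw [Dm, ← Matrix.diagonal_one, Matrix.diagonal_add]
    congr 1
    funext j
    split_ifs <;> norm_num
  rw [h1, Matrix.rank_diagonal]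
  have h3 : ∀ j : Fin n, (if (j : ℕ) < i then (0 : F) else 2) ≠ 0 ↔ i ≤ (j : ℕ) := by
    intro j
    split_ifs with h
    · simp; omega
    · simp [h2]; omega
  rw [Fintype.card_congr (Equiv.subtypeEquivRight h3)]
  rw [Fintype.card_subtype]
  have h4 : (Finset.univ.filter fun j : Fin n => i ≤ (j : ℕ)).card = n - i := by
    have : (Finset.univ.filter fun j : Fin n => i ≤ (j : ℕ)) = (Finset.univ.filter fun j : Fin n => (j : ℕ) < i)ᶜ := by
      ext j
      simp
    rw [this, Finset.card_compl, Fintype.card_fin, Fin.card_filter_val_lt]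
    simp [hi]
  exact h4

lemma exists_sq (hn : Even n) (μ : F) : ∃ B : Mn F n, B * B = μ • 1 := by
  obtain ⟨m, rfl⟩ := hn
  let e : Fin m ⊕ Fin m ≃ Fin (m + m) := finSumFinEquiv
  refine ⟨Matrix.reindexAlgEquiv F F e
    (Matrix.fromBlocks 0 1 (μ • 1) 0 : Matrix (Fin m ⊕ Fin m) (Fin m ⊕ Fin m) F), ?_⟩
  rw [← map_mul, Matrix.fromBlocks_multiply]
  simp only [mul_zero, add_zero, zero_add, mul_one, one_mul, zero_mul]
  have : Matrix.fromBlocks (μ • (1 : Matrix (Fin m) (Fin m) F)) 0 0 (μ • 1) =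
      μ • (1 : Matrix (Fin m ⊕ Fin m) (Fin m ⊕ Fin m) F) := by
    rw [← Matrix.fromBlocks_one, Matrix.fromBlocks_smul, smul_zero]
  rw [this, map_smul, map_one]

/-- The elements of `GL` from matrices squaring to a nonzero scalar. -/
def glOfSq (M : Mn F n) (μ : F) (hμ : μ ≠ 0) (h : M * M = μ • 1) : GL (Fin n) F :=
  ⟨M, μ⁻¹ • M, by rw [mul_smul_comm, h, smul_smul, inv_mul_cancel₀ hμ, one_smul],
    by rw [smul_mul_assoc, h, smul_smul, inv_mul_cancel₀ hμ, one_smul]⟩

lemma mem_center_iff' (hn : 0 < n) (A : GL (Fin n) F) :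
    A ∈ Subgroup.center (GL (Fin n) F) ↔ ∃ l : F, (A : Mn F n) = l • 1 := by
  haveI : Nonempty (Fin n) := ⟨⟨0, hn⟩⟩
  rw [Matrix.GeneralLinearGroup.center_eq_range_scalar]
  constructor
  · rintro ⟨u, rfl⟩
    refine ⟨u, ?_⟩
    ext i j
    simp [Matrix.GeneralLinearGroup.scalar, Matrix.one_apply, Matrix.diagonal_apply]
  · rintro ⟨l, hl⟩
    have hl0 : l ≠ 0 := by
      rintro rfl
      have h1 : (A : Mn F n) * ((A⁻¹ : GL (Fin n) F) : Mn F n) = 1 := by
        rw [← Units.val_mul, mul_inv_cancel, Units.val_one]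
      rw [hl, zero_smul, zero_mul] at h1
      exact zero_ne_one h1
    refine ⟨Units.mk0 l hl0, ?_⟩
    apply Units.ext
    rw [hl]
    ext i j
    simp [Matrix.GeneralLinearGroup.scalar, Matrix.one_apply, Matrix.diagonal_apply]

lemma isConj_mk_iff (hn : 0 < n) (A B : GL (Fin n) F) :
    IsConj (A : GL (Fin n) F ⧸ Subgroup.center (GL (Fin n) F)) (B : GL (Fin n) F ⧸ Subgroup.center (GL (Fin n) F)) ↔
      ∃ (C : GL (Fin n) F) (l : F), (C : Mn F n) * A = l • ((B : Mn F n) * C) := by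
  rw [isConj_iff]
  constructor
  · rintro ⟨c, hc⟩
    obtain ⟨C, rfl⟩ := QuotientGroup.mk_surjective c
    have h1 : ((C * A * C⁻¹ * B⁻¹ : GL (Fin n) F) : GL (Fin n) F ⧸ Subgroup.center (GL (Fin n) F)) = 1 := by
      simp only [QuotientGroup.mk_mul, QuotientGroup.mk_inv]
      rw [hc]
      exact mul_inv_cancel _
    have h2 := (QuotientGroup.eq_one_iff _).1 h1
    obtain ⟨l, hl⟩ := (mem_center_iff' hn _).1 h2
    refine ⟨C, l, ?_⟩
    have h3 : C * A = (C * A * C⁻¹ * B⁻¹) * (B * C) := by group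
    have h4 := congrArg Units.val h3
    rw [Units.val_mul, Units.val_mul (C * A * C⁻¹ * B⁻¹), hl, Units.val_mul B C, smul_mul_assoc, one_mul] at h4
    exact h4
  · rintro ⟨C, l, h⟩
    refine ⟨C, ?_⟩
    have h1 : C * A * C⁻¹ * B⁻¹ ∈ Subgroup.center (GL (Fin n) F) := by
      rw [mem_center_iff']
      · refine ⟨l, ?_⟩
        have h2 : C * A = (C * A * C⁻¹ * B⁻¹) * (B * C) := by group
        have h3 : ((C * A * C⁻¹ * B⁻¹ : GL (Fin n) F) : Mn F n) * ((B * C : GL (Fin n) F) : Mn F n) =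
            (l • (1 : Mn F n)) * ((B * C : GL (Fin n) F) : Mn F n) := by
          rw [← Units.val_mul, ← h2, Units.val_mul, h, Units.val_mul, smul_mul_assoc, one_mul]
        exact ((B * C).isUnit.mul_left_inj).1 h3
      · exact hn
    have h5 := (QuotientGroup.eq_one_iff _).2 h1
    simp only [QuotientGroup.mk_mul, QuotientGroup.mk_inv] at h5
    exact (mul_inv_eq_one.1 h5)

end matrixlayer
section mainpart

open scoped MatrixGroups

variable {F : Type*} [Field F] {n : ℕ}

lemma eq_zero_of_rank (M : Mn F n) (h : M.rank = 0) : M = 0 := by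
  have h1 : LinearMap.range M.mulVecLin = ⊥ := Submodule.finrank_eq_zero.1 h
  have h2 : M.mulVecLin = 0 := LinearMap.range_eq_bot.1 h1
  apply Matrix.toLin'.injective
  rw [map_zero]
  exact h2

lemma sq_rel (hn : 0 < n) (C : GL (Fin n) F) (A B : Mn F n) (a b l : F) (hA : A * A = a • 1)
    (hB : B * B = b • 1) (h : (C : Mn F n) * A = l • (B * C)) : a = l * l * b := by
  haveI : Nonempty (Fin n) := ⟨⟨0, hn⟩⟩
  have h1 : (C : Mn F n) * (A * A) = (l * l * b) • (C : Mn F n) := by
    rw [← mul_assoc, h, smul_mul_assoc, mul_assoc, h, mul_smul_comm, ← mul_assoc, hB, smul_smul,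
      smul_mul_assoc, one_mul, smul_smul]
  rw [hA, mul_smul_comm, mul_one] at h1
  have h2 : (a - l * l * b) • (C : Mn F n) = 0 := by
    rw [sub_smul, h1, sub_self]
  have hC : (C : Mn F n) ≠ 0 := by
    intro h0
    have h3 : (C : Mn F n) * ((C⁻¹ : GL (Fin n) F) : Mn F n) = 1 := by
      rw [← Units.val_mul, mul_inv_cancel, Units.val_one]
    rw [h0, zero_mul] at h3
    exact zero_ne_one h3
  exact sub_eq_zero.1 ((smul_eq_zero.1 h2).resolve_right hC)

lemma rank_conj (C : GL (Fin n) F) (A B : Mn F n) (h : (C : Mn F n) * A = B * C) :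
    (A + 1).rank = (B + 1).rank := by
  have hd : IsUnit (C : Mn F n).det := (Matrix.isUnit_iff_isUnit_det _).1 C.isUnit
  have h1 : (C : Mn F n) * (A + 1) = (B + 1) * C := by
    rw [mul_add, add_mul, h, mul_one, one_mul]
  rw [← Matrix.rank_mul_eq_right_of_isUnit_det (C : Mn F n) (A + 1) hd, h1,
    Matrix.rank_mul_eq_left_of_isUnit_det _ _ hd]

/-- The diagonal element of `GL`. -/
def Dg (n i : ℕ) (F : Type*) [Field F] : GL (Fin n) F :=
  glOfSq (Dm n i F) 1 one_ne_zero (by rw [one_smul]; exact Dm_sq i)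

lemma Dg_coe (i : ℕ) : ((Dg n i F : GL (Fin n) F) : Mn F n) = Dm n i F := rfl

lemma order_of_sq (hn : 0 < n) (A : GL (Fin n) F) (a : F) (hA : (A : Mn F n) * A = a • 1)
    (hne : ∀ l : F, (A : Mn F n) ≠ l • 1) :
    orderOf (A : GL (Fin n) F ⧸ Subgroup.center (GL (Fin n) F)) = 2 := by
  haveI : Fact (Nat.Prime 2) := ⟨Nat.prime_two⟩
  apply orderOf_eq_prime
  · rw [pow_two, ← QuotientGroup.mk_mul, QuotientGroup.eq_one_iff, mem_center_iff' hn]
    exact ⟨a, hA⟩
  · intro h
    rw [QuotientGroup.eq_one_iff, mem_center_iff' hn] at h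
    obtain ⟨l, hl⟩ := h
    exact hne l hl

lemma order_D (h2 : (2 : F) ≠ 0) (hn : 2 ≤ n) (i : ℕ) (hi1 : 1 ≤ i) (hi2 : i ≤ n / 2) :
    orderOf ((Dg n i F : GL (Fin n) F) : GL (Fin n) F ⧸ Subgroup.center (GL (Fin n) F)) = 2 := by
  apply order_of_sq (by omega) _ 1 (by rw [one_smul]; exact Dm_sq i)
  intro l hl
  rw [Dg_coe] at hl
  have h0 := congrFun (congrFun hl ⟨0, by omega⟩) ⟨0, by omega⟩
  have h1 := congrFun (congrFun hl ⟨n - 1, by omega⟩) ⟨n - 1, by omega⟩
  have e0 : (0 : ℕ) < i := by omega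
  have e1 : ¬ (n - 1 < i) := by omega
  simp [Dm, e0, e1] at h0 h1
  apply h2
  have : (2 : F) = 1 + 1 := by norm_num
  rw [this]
  rw [← h1] at h0
  linear_combination -h0

/-- The element of `GL` squaring to the scalar `μ`. -/
noncomputable def Jg (he : Even n) (μ : F) (hμ : μ ≠ 0) : GL (Fin n) F :=
  glOfSq (exists_sq he μ).choose μ hμ (exists_sq he μ).choose_spec

lemma Jg_sq (he : Even n) (μ : F) (hμ : μ ≠ 0) :
    ((Jg he μ hμ : GL (Fin n) F) : Mn F n) * (Jg he μ hμ : GL (Fin n) F) = μ • 1 :=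
  (exists_sq he μ).choose_spec

lemma order_J (hn : 2 ≤ n) (he : Even n) (μ : F) (hμ : μ ≠ 0) (hns : ¬ IsSquare μ) :
    orderOf ((Jg he μ hμ : GL (Fin n) F) : GL (Fin n) F ⧸ Subgroup.center (GL (Fin n) F)) = 2 := by
  apply order_of_sq (by omega) _ μ (Jg_sq he μ hμ)
  intro l hl
  have h1 := Jg_sq he μ hμ
  rw [hl, smul_mul_assoc, mul_smul_comm, mul_one, smul_smul] at h1
  have h3 := congrFun (congrFun h1 ⟨0, by omega⟩) ⟨0, by omega⟩
  simp at h3
  exact hns ⟨l, h3.symm⟩

lemma distinct_D (h2 : (2 : F) ≠ 0) (hn : 2 ≤ n) (i j : ℕ) (hi2 : i ≤ n / 2) (hj2 : j ≤ n / 2)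
    (h : IsConj ((Dg n i F : GL (Fin n) F) : GL (Fin n) F ⧸ Subgroup.center (GL (Fin n) F))
      ((Dg n j F : GL (Fin n) F) : GL (Fin n) F ⧸ Subgroup.center (GL (Fin n) F))) : i = j := by
  rw [isConj_mk_iff (by omega)] at h
  obtain ⟨C, l, hC⟩ := h
  rw [Dg_coe, Dg_coe] at hC
  have h3 := sq_rel (by omega) C (Dm n i F) (Dm n j F) 1 1 l
    (by rw [one_smul]; exact Dm_sq i) (by rw [one_smul]; exact Dm_sq j) hC
  have hl : l = 1 ∨ l = -1 := by
    have : (l - 1) * (l + 1) = 0 := by linear_combination -h3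
    rcases mul_eq_zero.1 this with h | h
    · left; exact sub_eq_zero.1 h
    · right; exact eq_neg_of_add_eq_zero_left h
  have hri := Dm_rank h2 (n := n) i (by omega)
  have hrj := Dm_rank h2 (n := n) j (by omega)
  rcases hl with rfl | rfl
  · rw [one_smul] at hC
    have := rank_conj C _ _ hC
    rw [hri, hrj] at this
    omega
  · have hC' : (C : Mn F n) * Dm n i F = (-Dm n j F) * C := by
      rw [hC, neg_smul, one_smul, neg_mul]
    have h4 := rank_conj C _ _ hC'
    rw [neg_rank_of_inv] at h4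
    have h5 := rank_add_rank_of_inv h2 (Dm n j F) (Dm_sq j)
    rw [hri] at h4
    omega

lemma distinct_DJ (hn : 2 ≤ n) (he : Even n) (μ : F) (hμ : μ ≠ 0) (hns : ¬ IsSquare μ) (i : ℕ)
    (h : IsConj ((Dg n i F : GL (Fin n) F) : GL (Fin n) F ⧸ Subgroup.center (GL (Fin n) F))
      ((Jg he μ hμ : GL (Fin n) F) : GL (Fin n) F ⧸ Subgroup.center (GL (Fin n) F))) : False := by
  rw [isConj_mk_iff (by omega)] at h
  obtain ⟨C, l, hC⟩ := h
  rw [Dg_coe] at hC
  have h3 := sq_rel (by omega) C (Dm n i F) _ 1 μ l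
    (by rw [one_smul]; exact Dm_sq i) (Jg_sq he μ hμ) hC
  have hl : l ≠ 0 := by
    rintro rfl
    simp at h3
  apply hns
  refine ⟨l⁻¹, ?_⟩
  field_simp
  linear_combination -h3

lemma classify (h2 : (2 : F) ≠ 0) (hn : 2 ≤ n) [Fintype F] (μ₀ : F) (hμ₀ : μ₀ ≠ 0)
    (hns : ¬ IsSquare μ₀) (A : GL (Fin n) F)
    (hord : orderOf (A : GL (Fin n) F ⧸ Subgroup.center (GL (Fin n) F)) = 2) :
    (∃ i, 1 ≤ i ∧ i ≤ n / 2 ∧ IsConj ((Dg n i F : GL (Fin n) F) : GL (Fin n) F ⧸ Subgroup.center (GL (Fin n) F))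
      (A : GL (Fin n) F ⧸ Subgroup.center (GL (Fin n) F))) ∨
    (∃ he : Even n, IsConj ((Jg he μ₀ hμ₀ : GL (Fin n) F) : GL (Fin n) F ⧸ Subgroup.center (GL (Fin n) F))
      (A : GL (Fin n) F ⧸ Subgroup.center (GL (Fin n) F))) := by
  have hn0 : 0 < n := by omega
  haveI : Nonempty (Fin n) := ⟨⟨0, hn0⟩⟩
  have hsq : (A : GL (Fin n) F ⧸ Subgroup.center (GL (Fin n) F)) ^ 2 = 1 := by
    rw [← hord]
    exact pow_orderOf_eq_one _
  have hne : (A : GL (Fin n) F ⧸ Subgroup.center (GL (Fin n) F)) ≠ 1 := by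
    intro h
    rw [h, orderOf_one] at hord
    omega
  rw [pow_two, ← QuotientGroup.mk_mul, QuotientGroup.eq_one_iff, mem_center_iff' hn0] at hsq
  rw [Ne, QuotientGroup.eq_one_iff, mem_center_iff' hn0] at hne
  push Not at hne
  obtain ⟨μ, hμ⟩ := hsq
  rw [Units.val_mul] at hμ
  have hμ0 : μ ≠ 0 := by
    rintro rfl
    rw [zero_smul] at hμ
    have h1 : (A : Mn F n) * ((A⁻¹ : GL (Fin n) F) : Mn F n) = 1 := by
      rw [← Units.val_mul, mul_inv_cancel, Units.val_one]
    have h3 : (A : Mn F n) = 0 := by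
      have h4 : ((A : Mn F n) * A) * ((A⁻¹ : GL (Fin n) F) : Mn F n) = A := by
        rw [mul_assoc, h1, mul_one]
      rw [hμ, zero_mul] at h4
      exact h4.symm
    rw [h3, zero_mul] at h1
    exact zero_ne_one h1
  by_cases hS : IsSquare μ
  · left
    obtain ⟨c, rfl⟩ := hS
    have hc : c ≠ 0 := by
      rintro rfl
      simp at hμ0
    set A' : Mn F n := c⁻¹ • (A : Mn F n) with hA'
    have hA'sq : A' * A' = 1 := by
      rw [hA', smul_mul_assoc, mul_smul_comm, hμ, smul_smul, smul_smul]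
      have : c⁻¹ * c⁻¹ * (c * c) = 1 := by field_simp
      rw [this, one_smul]
    have hsum := rank_add_rank_of_inv h2 A' hA'sq
    have hr0 : (A' + 1).rank ≠ 0 := by
      intro h0
      replace h0 := eq_zero_of_rank _ h0
      apply hne (-c)
      have : A' = -1 := eq_neg_of_add_eq_zero_left h0
      have h3 : (A : Mn F n) = c • A' := by
        rw [hA', smul_smul, mul_inv_cancel₀ hc, one_smul]
      rw [h3, this, neg_smul, smul_neg]
    have hrn : (A' - 1).rank ≠ 0 := by
      intro h0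
      replace h0 := eq_zero_of_rank _ h0
      apply hne c
      have : A' = 1 := sub_eq_zero.1 h0
      have h3 : (A : Mn F n) = c • A' := by
        rw [hA', smul_smul, mul_inv_cancel₀ hc, one_smul]
      rw [h3, this]
    by_cases hcase : (A' - 1).rank ≤ n / 2
    · -- `i = rank (A' - 1)`
      refine ⟨(A' - 1).rank, by omega, hcase, ?_⟩
      have hr := Dm_rank h2 (n := n) (A' - 1).rank (by omega)
      obtain ⟨C, hC⟩ := conj_of_inv h2 (Dm n (A' - 1).rank F) A' (Dm_sq _) hA'sq (by omega)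
      rw [isConj_mk_iff hn0]
      exact ⟨C, c⁻¹, by rw [Dg_coe, hC, hA', smul_mul_assoc]⟩
    · refine ⟨(A' + 1).rank, by omega, by omega, ?_⟩
      have hr := Dm_rank h2 (n := n) (A' + 1).rank (by omega)
      have hneg : (-A') * (-A') = 1 := by rw [neg_mul_neg, hA'sq]
      have hrn' := neg_rank_of_inv A'
      obtain ⟨C, hC⟩ := conj_of_inv h2 (Dm n (A' + 1).rank F) (-A') (Dm_sq _) hneg (by omega)
      rw [isConj_mk_iff hn0]
      exact ⟨C, -c⁻¹, by rw [Dg_coe, hC, hA', neg_mul, smul_mul_assoc, neg_smul]⟩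
  · right
    have he : Even n := by
      by_contra hodd
      obtain ⟨m, hm⟩ := Nat.not_even_iff_odd.1 hodd
      apply hS
      have hdet : (A : Mn F n).det * (A : Mn F n).det = μ ^ n := by
        rw [← Matrix.det_mul, hμ, Matrix.det_smul, Matrix.det_one, mul_one, Fintype.card_fin]
      refine ⟨(A : Mn F n).det * (μ ^ m)⁻¹, ?_⟩
      have hm0 : μ ^ m ≠ 0 := pow_ne_zero _ hμ0
      field_simp
      rw [← pow_two] at hdet
      rw [hdet, hm]
      ring
    refine ⟨he, ?_⟩
    -- `μ = c² μ₀`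
    classical
    have hprod : IsSquare (μ * μ₀) := by
      have h1 := (quadraticChar_neg_one_iff_not_isSquare (F := F)).2 hS
      have h3 := (quadraticChar_neg_one_iff_not_isSquare (F := F)).2 hns
      rw [← quadraticChar_one_iff_isSquare (mul_ne_zero hμ0 hμ₀), map_mul, h1, h3]
      norm_num
    obtain ⟨s, hs⟩ := hprod
    have hs0 : s ≠ 0 := by
      rintro rfl
      simp at hs
      exact hs.elim hμ0 hμ₀
    set c : F := s / μ₀ with hc
    have hc0 : c ≠ 0 := div_ne_zero hs0 hμ₀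
    have hcc : μ = c * c * μ₀ := by
      rw [hc]
      field_simp
      linear_combination hs
    set A' : Mn F n := c⁻¹ • (A : Mn F n) with hA'
    have hA'sq : A' * A' = μ₀ • 1 := by
      rw [hA', smul_mul_assoc, mul_smul_comm, hμ, smul_smul, smul_smul]
      congr 1
      rw [hcc]
      field_simp
    have hirr : Irreducible (X ^ 2 - C μ₀ : F[X]) := by
      apply X_pow_sub_C_irreducible_of_prime Nat.prime_two
      intro b hb
      exact hns ⟨b, by rw [← hb, pow_two]⟩
    obtain ⟨C', hC'⟩ := conj_of_sq μ₀ hirr _ A' (Jg_sq he μ₀ hμ₀) hA'sq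
    rw [isConj_mk_iff hn0]
    exact ⟨C', c⁻¹, by rw [hC', hA', smul_mul_assoc]⟩

end mainpart

/-- Number of conjugacy classes of involutions in PGL_n(q) for q odd and n ≥ 2: there are ⌊n/2⌋ classes represented by diagonal matrices with i entries −1 (1 ≤ i ≤ n/2) and, when n is even, one more class represented by a block-diagonal matrix of 2 × 2 blocks [[0, 1], [μ, 0]] with μ a non-square (a matrix squaring to a scalar but having no eigenvalue in the field); in all ⌊n/2⌋ + 1 classes if n is even and ⌊n/2⌋ if n is odd. -/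
theorem result {F : Type*} [Field F] [Fintype F] {q : ℕ} (hF : Fintype.card F = q) (hq : Odd q) {n : ℕ} (hn : 2 ≤ n) : Nat.card {C : ConjClasses (GL (Fin n) F ⧸ Subgroup.center (GL (Fin n) F)) // ∃ g : GL (Fin n) F ⧸ Subgroup.center (GL (Fin n) F), ConjClasses.mk g = C ∧ orderOf g = 2} = n / 2 + (if Even n then 1 else 0) := by
  classical
  have hring : ringChar F ≠ 2 := by
    intro h
    have := FiniteField.even_card_iff_char_two.1 h
    rw [hF] at this
    exact (Nat.not_even_iff_odd.2 hq) (Nat.even_iff.2 this)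
  have h2 : (2 : F) ≠ 0 := Ring.two_ne_zero hring
  obtain ⟨μ₀, hns⟩ := FiniteField.exists_nonsquare hring
  have hμ₀ : μ₀ ≠ 0 := by
    rintro rfl
    exact hns ⟨0, by simp⟩
  have hn0 : 0 < n := by omega
  -- the index type
  have hevenOf : ∀ j : Fin (n / 2 + (if Even n then 1 else 0)), ¬ (j : ℕ) < n / 2 → Even n := by
    intro j hj
    by_contra he
    have h5 := j.2
    have key : (if Even n then 1 else 0) = 0 := if_neg he
    omega
  let rep : Fin (n / 2 + (if Even n then 1 else 0)) → GL (Fin n) F := fun j =>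
    if h : (j : ℕ) < n / 2 then Dg n (j + 1) F else Jg (hevenOf j h) μ₀ hμ₀
  have hrepord : ∀ j, orderOf ((rep j : GL (Fin n) F) : GL (Fin n) F ⧸ Subgroup.center (GL (Fin n) F)) = 2 := by
    intro j
    by_cases h : (j : ℕ) < n / 2
    · simp only [rep, dif_pos h]
      exact order_D h2 hn _ (by omega) (by omega)
    · simp only [rep, dif_neg h]
      exact order_J hn _ μ₀ hμ₀ hns
  let f : Fin (n / 2 + (if Even n then 1 else 0)) →
      {C : ConjClasses (GL (Fin n) F ⧸ Subgroup.center (GL (Fin n) F)) //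
        ∃ g : GL (Fin n) F ⧸ Subgroup.center (GL (Fin n) F), ConjClasses.mk g = C ∧ orderOf g = 2} :=
    fun j => ⟨ConjClasses.mk ((rep j : GL (Fin n) F) : GL (Fin n) F ⧸ Subgroup.center (GL (Fin n) F)),
      _, rfl, hrepord j⟩
  have hf : Function.Bijective f := by
    constructor
    · intro a b hab
      have h1 := congrArg Subtype.val hab
      have h3 := ConjClasses.mk_eq_mk_iff_isConj.1 h1
      by_cases ha : (a : ℕ) < n / 2
      · by_cases hb : (b : ℕ) < n / 2
        · simp only [rep, dif_pos ha, dif_pos hb] at h3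
          have := distinct_D h2 hn _ _ (by omega) (by omega) h3
          exact Fin.ext (by omega)
        · simp only [rep, dif_pos ha, dif_neg hb] at h3
          exact (distinct_DJ hn _ μ₀ hμ₀ hns _ h3).elim
      · by_cases hb : (b : ℕ) < n / 2
        · simp only [rep, dif_neg ha, dif_pos hb] at h3
          exact (distinct_DJ hn _ μ₀ hμ₀ hns _ h3.symm).elim
        · have he := hevenOf a ha
          have ha' := a.2
          have hb' := b.2
          have key : (if Even n then 1 else 0) = 1 := if_pos he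
          exact Fin.ext (by omega)
    · rintro ⟨C, g, rfl, hg⟩
      obtain ⟨A, rfl⟩ := QuotientGroup.mk_surjective g
      rcases classify h2 hn μ₀ hμ₀ hns A hg with ⟨i, hi1, hi2, hc⟩ | ⟨he, hc⟩
      · refine ⟨⟨i - 1, by
          have : 0 ≤ (if Even n then 1 else 0) := Nat.zero_le _
          omega⟩, Subtype.ext ?_⟩
        apply ConjClasses.mk_eq_mk_iff_isConj.2
        have hlt : i - 1 < n / 2 := by omega
        simp only [rep, dif_pos hlt]
        rw [Nat.sub_add_cancel hi1]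
        exact hc
      · refine ⟨⟨n / 2, by
          have key : (if Even n then 1 else 0) = 1 := if_pos he
          omega⟩, Subtype.ext ?_⟩
        apply ConjClasses.mk_eq_mk_iff_isConj.2
        have hlt : ¬ (n / 2 < n / 2) := lt_irrefl _
        simp only [rep, dif_neg hlt]
        exact hc
  rw [← Nat.card_congr (Equiv.ofBijective f hf), Nat.card_fin]
end Cfsg.Agent.S2577
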