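import Cfsg.Statements.S2580
import Mathlib

set_option autoImplicit false
open Cfsg

open Polynomial
open scoped DirectSum

namespace Cfsg.Agent.S2580

variable {F : Type*} [Field F]

/-- The functional `r ↦ (r %ₘ g).coeff (deg g - 1)`. -/
noncomputable def lamP (g : F[X]) : F[X] →ₗ[F] F where
  toFun r := (r %ₘ g).coeff (g.natDegree - 1)
  map_add' a b := by simp [Polynomial.add_modByMonic]
  map_smul' c a := by simp [Polynomial.smul_modByMonic]

theorem lamP_eq_of_dvd {g : F[X]} (hg : g.Monic) {a b : F[X]} (h : g ∣ a - b) :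
    lamP g a = lamP g b := by
  show (a %ₘ g).coeff _ = (b %ₘ g).coeff _
  rw [Polynomial.modByMonic_eq_of_dvd_sub hg h]

theorem lamP_nondeg {g : F[X]} (hg : g.Monic) {a : F[X]} (h : ¬ g ∣ a) :
    ∃ b, lamP g (a * b) ≠ 0 := by
  set r := a %ₘ g with hr
  have hr0 : r ≠ 0 := by
    intro h0
    exact h ((Polynomial.modByMonic_eq_zero_iff_dvd hg).1 h0)
  have hg1 : g ≠ 1 := by
    rintro rfl
    exact h (one_dvd _)
  have hdeg : r.natDegree < g.natDegree := Polynomial.natDegree_modByMonic_lt a hg hg1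
  refine ⟨X ^ (g.natDegree - 1 - r.natDegree), ?_⟩
  have hd : g ∣ a * X ^ (g.natDegree - 1 - r.natDegree) - r * X ^ (g.natDegree - 1 - r.natDegree) := by
    rw [← sub_mul]
    apply Dvd.dvd.mul_right
    have := Polynomial.modByMonic_add_div a g
    refine ⟨a /ₘ g, ?_⟩
    rw [sub_eq_iff_eq_add, hr]
    rw [add_comm] at this
    exact this.symm
  rw [lamP_eq_of_dvd hg hd]
  show ((r * X ^ (g.natDegree - 1 - r.natDegree)) %ₘ g).coeff _ ≠ 0
  have hdeg2 : (r * X ^ (g.natDegree - 1 - r.natDegree)).natDegree < g.natDegree := by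
    have : (r * X ^ (g.natDegree - 1 - r.natDegree)).natDegree ≤ r.natDegree + (g.natDegree - 1 - r.natDegree) :=
      (Polynomial.natDegree_mul_le).trans (by simp)
    omega
  have hdegd : (r * X ^ (g.natDegree - 1 - r.natDegree)).degree < g.degree :=
    Polynomial.degree_lt_degree hdeg2
  rw [(Polynomial.modByMonic_eq_self_iff hg).2 hdegd]
  have : g.natDegree - 1 = r.natDegree + (g.natDegree - 1 - r.natDegree) := by omega
  rw [this, Nat.add_sub_cancel_left, Polynomial.coeff_mul_X_pow]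
  exact Polynomial.leadingCoeff_ne_zero.2 hr0

/-- Pairing on the cyclic module `F[X] ⧸ (g)`. -/
noncomputable def pq (g : F[X]) (x y : F[X] ⧸ (F[X] ∙ g)) : F :=
  lamP (g * C g.leadingCoeff⁻¹)
    ((Submodule.Quotient.mk_surjective _ x).choose * (Submodule.Quotient.mk_surjective _ y).choose)

theorem norm_dvd {g a : F[X]} (hg : g ≠ 0) (h : g ∣ a) : (g * C g.leadingCoeff⁻¹) ∣ a := by
  obtain ⟨c, rfl⟩ := h
  refine ⟨C g.leadingCoeff * c, ?_⟩
  have : (C g.leadingCoeff⁻¹ * C g.leadingCoeff : F[X]) = 1 := by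
    rw [← C_mul, inv_mul_cancel₀ (leadingCoeff_ne_zero.2 hg), C_1]
  calc g * c = g * (C g.leadingCoeff⁻¹ * C g.leadingCoeff) * c := by rw [this, mul_one]
    _ = _ := by ring

theorem of_norm_dvd {g a : F[X]} (h : (g * C g.leadingCoeff⁻¹) ∣ a) : g ∣ a :=
  (Dvd.intro _ rfl).trans h

theorem norm_monic {g : F[X]} (hg : g ≠ 0) : (g * C g.leadingCoeff⁻¹).Monic :=
  Polynomial.monic_mul_leadingCoeff_inv hg

theorem pq_mk {g : F[X]} (hg : g ≠ 0) (a b : F[X]) :
    pq g (Submodule.Quotient.mk a) (Submodule.Quotient.mk b) =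
      lamP (g * C g.leadingCoeff⁻¹) (a * b) := by
  unfold pq
  apply lamP_eq_of_dvd (norm_monic hg)
  apply norm_dvd hg
  set a' := (Submodule.Quotient.mk_surjective _ (Submodule.Quotient.mk a : F[X] ⧸ (F[X] ∙ g))).choose
    with ha'
  set b' := (Submodule.Quotient.mk_surjective _ (Submodule.Quotient.mk b : F[X] ⧸ (F[X] ∙ g))).choose
    with hb'
  have h1 : (Submodule.Quotient.mk a' : F[X] ⧸ (F[X] ∙ g)) = Submodule.Quotient.mk a :=
    (Submodule.Quotient.mk_surjective _ _).choose_spec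
  have h2 : (Submodule.Quotient.mk b' : F[X] ⧸ (F[X] ∙ g)) = Submodule.Quotient.mk b :=
    (Submodule.Quotient.mk_surjective _ _).choose_spec
  rw [Submodule.Quotient.eq, Submodule.mem_span_singleton] at h1 h2
  obtain ⟨c, hc⟩ := h1
  obtain ⟨d, hd⟩ := h2
  refine ⟨c * b' + a * d, ?_⟩
  have h3 : a' * b' - a * b = (a' - a) * b' + a * (b' - b) := by ring
  rw [h3, ← hc, ← hd]
  simp only [smul_eq_mul]
  ring

theorem pq_add_left {g : F[X]} (hg : g ≠ 0) (x x' y : F[X] ⧸ (F[X] ∙ g)) :
    pq g (x + x') y = pq g x y + pq g x' y := by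
  obtain ⟨a, rfl⟩ := Submodule.Quotient.mk_surjective _ x
  obtain ⟨a', rfl⟩ := Submodule.Quotient.mk_surjective _ x'
  obtain ⟨b, rfl⟩ := Submodule.Quotient.mk_surjective _ y
  rw [← Submodule.Quotient.mk_add, pq_mk hg, pq_mk hg, pq_mk hg, add_mul, map_add]

theorem pq_add_right {g : F[X]} (hg : g ≠ 0) (x y y' : F[X] ⧸ (F[X] ∙ g)) :
    pq g x (y + y') = pq g x y + pq g x y' := by
  obtain ⟨a, rfl⟩ := Submodule.Quotient.mk_surjective _ x
  obtain ⟨b, rfl⟩ := Submodule.Quotient.mk_surjective _ y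
  obtain ⟨b', rfl⟩ := Submodule.Quotient.mk_surjective _ y'
  rw [← Submodule.Quotient.mk_add, pq_mk hg, pq_mk hg, pq_mk hg, mul_add, map_add]

theorem pq_smul_left {g : F[X]} (hg : g ≠ 0) (c : F) (x y : F[X] ⧸ (F[X] ∙ g)) :
    pq g ((C c : F[X]) • x) y = c * pq g x y := by
  obtain ⟨a, rfl⟩ := Submodule.Quotient.mk_surjective _ x
  obtain ⟨b, rfl⟩ := Submodule.Quotient.mk_surjective _ y
  rw [← Submodule.Quotient.mk_smul, pq_mk hg, pq_mk hg, smul_eq_mul, mul_assoc, ← smul_eq_C_mul, map_smul,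
    smul_eq_mul]

theorem pq_smul_right {g : F[X]} (hg : g ≠ 0) (c : F) (x y : F[X] ⧸ (F[X] ∙ g)) :
    pq g x ((C c : F[X]) • y) = c * pq g x y := by
  obtain ⟨a, rfl⟩ := Submodule.Quotient.mk_surjective _ x
  obtain ⟨b, rfl⟩ := Submodule.Quotient.mk_surjective _ y
  rw [← Submodule.Quotient.mk_smul, pq_mk hg, pq_mk hg, smul_eq_mul, mul_left_comm, ← smul_eq_C_mul, map_smul,
    smul_eq_mul]

theorem pq_comm {g : F[X]} (hg : g ≠ 0) (r : F[X]) (x y : F[X] ⧸ (F[X] ∙ g)) :
    pq g (r • x) y = pq g x (r • y) := by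
  obtain ⟨a, rfl⟩ := Submodule.Quotient.mk_surjective _ x
  obtain ⟨b, rfl⟩ := Submodule.Quotient.mk_surjective _ y
  rw [← Submodule.Quotient.mk_smul, ← Submodule.Quotient.mk_smul, pq_mk hg, pq_mk hg, smul_eq_mul, smul_eq_mul,
    mul_left_comm, mul_assoc]

theorem pq_nondeg {g : F[X]} (hg : g ≠ 0) {x : F[X] ⧸ (F[X] ∙ g)} (hx : x ≠ 0) :
    ∃ y, pq g x y ≠ 0 := by
  obtain ⟨a, rfl⟩ := Submodule.Quotient.mk_surjective _ x
  have h : ¬ (g * C g.leadingCoeff⁻¹) ∣ a := by
    intro h
    apply hx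
    rw [Submodule.Quotient.mk_eq_zero, Submodule.mem_span_singleton]
    obtain ⟨c, hc⟩ := of_norm_dvd h
    exact ⟨c, by rw [hc, smul_eq_mul, mul_comm]⟩
  obtain ⟨b, hb⟩ := lamP_nondeg (norm_monic hg) h
  exact ⟨Submodule.Quotient.mk b, by rw [pq_mk hg]; exact hb⟩

theorem pq_zero_right {g : F[X]} (hg : g ≠ 0) (x : F[X] ⧸ (F[X] ∙ g)) : pq g x 0 = 0 := by
  have := pq_add_right hg x 0 0
  rw [add_zero] at this
  simpa using this

/-- Every endomorphism is self-adjoint for some nondegenerate bilinear form. -/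
theorem exists_form {V : Type*} [AddCommGroup V] [Module F V] [FiniteDimensional F V]
    (f : V →ₗ[F] V) :
    ∃ B : V →ₗ[F] V →ₗ[F] F, (∀ x, (∀ y, B x y = 0) → x = 0) ∧ ∀ x y, B (f x) y = B x (f y) := by
  classical
  have htors : Module.IsTorsion F[X] (Module.AEval' f) :=
    Module.AEval.isTorsion_of_finiteDimensional F V f
  obtain ⟨ι, _, p, hp, e, ⟨E⟩⟩ := Module.equiv_directSum_of_isTorsion htors
  have hg : ∀ i, p i ^ e i ≠ 0 := fun i => pow_ne_zero _ (hp i).ne_zero
  let φ : V → ⨁ i : ι, F[X] ⧸ (F[X] ∙ p i ^ e i) := fun x => E (Module.AEval'.of f x)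
  have φ_add : ∀ x y, φ (x + y) = φ x + φ y := fun x y => by simp [φ, map_add]
  have φ_smul : ∀ (c : F) x, φ (c • x) = (C c : F[X]) • φ x := fun c x => by
    simp only [φ, ← map_smul, Module.AEval.C_smul]
  have φ_f : ∀ x, φ (f x) = (X : F[X]) • φ x := fun x => by
    simp only [φ]
    rw [← map_smul, Module.AEval'.X_smul_of]
  let β : V → V → F := fun x y => ∑ i, pq (p i ^ e i) (φ x i) (φ y i)
  let B : V →ₗ[F] V →ₗ[F] F := LinearMap.mk₂ F β
    (fun x x' y => by
      simp only [β, φ_add, DirectSum.add_apply, pq_add_left (hg _), Finset.sum_add_distrib])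
    (fun c x y => by
      simp only [β, φ_smul, DirectSum.smul_apply, pq_smul_left (hg _), Finset.mul_sum, smul_eq_mul])
    (fun x y y' => by
      simp only [β, φ_add, DirectSum.add_apply, pq_add_right (hg _), Finset.sum_add_distrib])
    (fun c x y => by
      simp only [β, φ_smul, DirectSum.smul_apply, pq_smul_right (hg _), Finset.mul_sum, smul_eq_mul])
  refine ⟨B, ?_, ?_⟩
  · intro x hx
    by_contra hne
    have hφ : φ x ≠ 0 := by
      intro h0
      apply hne
      have : Module.AEval'.of f x = 0 := E.map_eq_zero_iff.1 h0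
      exact (Module.AEval'.of f).map_eq_zero_iff.1 this
    obtain ⟨i, hi⟩ : ∃ i, φ x i ≠ 0 := by
      by_contra hall
      push Not at hall
      apply hφ
      apply DFinsupp.ext
      intro i
      simpa using hall i
    obtain ⟨y, hy⟩ := pq_nondeg (hg i) hi
    let z : V := (Module.AEval'.of f).symm (E.symm (DirectSum.of (fun i => F[X] ⧸ (F[X] ∙ p i ^ e i)) i y))
    have hz : φ z = DirectSum.of (fun i => F[X] ⧸ (F[X] ∙ p i ^ e i)) i y := by
      simp [φ, z]
    have := hx z
    simp only [B, LinearMap.mk₂_apply, β, hz] at this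
    rw [Finset.sum_eq_single i] at this
    · rw [DirectSum.of_eq_same] at this
      exact hy this
    · intro j _ hj
      rw [DirectSum.of_eq_of_ne _ _ _ (by exact hj)]
      exact pq_zero_right (hg j) _
    · intro h
      exact absurd (Finset.mem_univ i) h
  · intro x y
    simp only [B, LinearMap.mk₂_apply, β, φ_f, DirectSum.smul_apply]
    exact Finset.sum_congr rfl fun i _ => pq_comm (hg i) _ _ _

/-- Over any field, a square matrix (any finite index type) is similar to its transpose. -/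
theorem isConj_transpose {F : Type*} [Field F] {ι : Type*} [Fintype ι] [DecidableEq ι]
    (A : Matrix ι ι F) : IsConj A A.transpose := by
  obtain ⟨B, hB, hf⟩ := exists_form (Matrix.toLin' A)
  set P := LinearMap.toMatrix₂' F B with hP
  have hc : B.compl₁₂ (Matrix.toLin' A) LinearMap.id = B.compl₁₂ LinearMap.id (Matrix.toLin' A) := by
    refine LinearMap.ext₂ fun x y => ?_
    simp only [LinearMap.compl₁₂_apply, LinearMap.id_apply]
    exact hf _ _
  have hm := congrArg (LinearMap.toMatrix₂' F) hc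
  rw [LinearMap.toMatrix₂'_compl₁₂, LinearMap.toMatrix₂'_compl₁₂] at hm
  simp only [LinearMap.toMatrix'_toLin', LinearMap.toMatrix'_id, Matrix.transpose_one, mul_one,
    one_mul] at hm
  have hdet : P.det ≠ 0 := by
    intro h0
    obtain ⟨v, hv, hv0⟩ := Matrix.exists_vecMul_eq_zero_iff.2 h0
    apply hv
    apply hB
    intro y
    have : B = Matrix.toLinearMap₂' F P := by
      rw [hP, Matrix.toLinearMap₂'_toMatrix']
    rw [this, Matrix.toLinearMap₂'_apply', Matrix.dotProduct_mulVec, hv0, zero_dotProduct]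
  have hu : IsUnit P := (Matrix.isUnit_iff_isUnit_det _).2 (isUnit_iff_ne_zero.2 hdet)
  obtain ⟨u, hu⟩ := hu
  refine ⟨u, ?_⟩
  show (u : Matrix ι ι F) * A = A.transpose * u
  rw [hu]
  exact hm.symm

/-- Over a finite field, a square matrix is similar to its transpose: for every n × n matrix A there is an invertible matrix P with P A P⁻¹ = Aᵀ (stated as conjugacy in the monoid of matrices, whose units are the invertible matrices). -/
theorem result {F : Type*} [Field F] [Finite F] {n : ℕ} (A : Matrix (Fin n) (Fin n) F) : IsConj A A.transpose :=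
  isConj_transpose A

end Cfsg.Agent.S2580
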