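import Cfsg.Statements.S2585
import Mathlib
-- import your own Cfsg.Agent.* helpers here

set_option autoImplicit false
open Cfsg

namespace Cfsg.Agent.S2585

open Matrix

variable {F : Type*} [Field F]

lemma J_mulVec_inl (m : ℕ) (v : Fin m ⊕ Fin m → F) (i : Fin m) :
    (J (Fin m) F *ᵥ v) (Sum.inl i) = - v (Sum.inr i) := by
  simp [J, mulVec, dotProduct, Fintype.sum_sum_type, Matrix.one_apply]

lemma J_mulVec_inr (m : ℕ) (v : Fin m ⊕ Fin m → F) (i : Fin m) :
    (J (Fin m) F *ᵥ v) (Sum.inr i) = v (Sum.inl i) := by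
  simp [J, mulVec, dotProduct, Fintype.sum_sum_type, Matrix.one_apply]

lemma sympForm_apply (m : ℕ) (u v : Fin m ⊕ Fin m → F) :
    Cfsg.sympForm m F u v = ∑ i, (u (Sum.inr i) * v (Sum.inl i) - u (Sum.inl i) * v (Sum.inr i)) := by
  unfold Cfsg.sympForm
  rw [dotProduct, Fintype.sum_sum_type]
  simp only [J_mulVec_inl, J_mulVec_inr]
  rw [← Finset.sum_add_distrib]
  apply Finset.sum_congr rfl
  intro i _
  ring

lemma sympForm_add_left (m : ℕ) (u u' v : Fin m ⊕ Fin m → F) :
    Cfsg.sympForm m F (u + u') v = Cfsg.sympForm m F u v + Cfsg.sympForm m F u' v := by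
  unfold Cfsg.sympForm
  rw [add_dotProduct]

lemma sympForm_smul_left (m : ℕ) (c : F) (u v : Fin m ⊕ Fin m → F) :
    Cfsg.sympForm m F (c • u) v = c * Cfsg.sympForm m F u v := by
  unfold Cfsg.sympForm
  rw [smul_dotProduct, smul_eq_mul]

lemma sympForm_add_right (m : ℕ) (u v v' : Fin m ⊕ Fin m → F) :
    Cfsg.sympForm m F u (v + v') = Cfsg.sympForm m F u v + Cfsg.sympForm m F u v' := by
  unfold Cfsg.sympForm
  rw [mulVec_add, dotProduct_add]

lemma sympForm_smul_right (m : ℕ) (c : F) (u v : Fin m ⊕ Fin m → F) :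
    Cfsg.sympForm m F u (c • v) = c * Cfsg.sympForm m F u v := by
  unfold Cfsg.sympForm
  rw [mulVec_smul, dotProduct_smul, smul_eq_mul]

/-- Symplectic matrices preserve the form. -/
lemma sympForm_mulVec {m : ℕ} {A : Matrix (Fin m ⊕ Fin m) (Fin m ⊕ Fin m) F}
    (hA : A ∈ Matrix.symplecticGroup (Fin m) F) (u v : Fin m ⊕ Fin m → F) :
    Cfsg.sympForm m F (A *ᵥ u) (A *ᵥ v) = Cfsg.sympForm m F u v := by
  unfold Cfsg.sympForm
  have h := SymplecticGroup.mem_iff'.mp hA
  rw [← vecMul_transpose, ← dotProduct_mulVec, mulVec_mulVec, mulVec_mulVec, h]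

/-- The base quadratic function. -/
def q0 (m : ℕ) (v : Fin m ⊕ Fin m → F) : F := ∑ i, v (Sum.inl i) * v (Sum.inr i)

lemma q0_add [CharP F 2] (m : ℕ) (u v : Fin m ⊕ Fin m → F) :
    q0 m (u + v) = q0 m u + q0 m v + Cfsg.sympForm m F u v := by
  have two0 : (2 : F) = 0 := CharTwo.two_eq_zero
  rw [sympForm_apply]
  simp only [q0, Pi.add_apply]
  rw [← Finset.sum_add_distrib, ← Finset.sum_add_distrib]
  apply Finset.sum_congr rfl
  intro i _
  linear_combination (u (Sum.inl i) * v (Sum.inr i)) * two0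

lemma q0_smul (m : ℕ) (c : F) (v : Fin m ⊕ Fin m → F) :
    q0 m (c • v) = c ^ 2 * q0 m v := by
  simp only [q0, Pi.smul_apply, smul_eq_mul, Finset.mul_sum]
  apply Finset.sum_congr rfl
  intro i _
  ring

/-- The defect of `q0` under `A`. -/
def defect (m : ℕ) (A : Matrix (Fin m ⊕ Fin m) (Fin m ⊕ Fin m) F) (v : Fin m ⊕ Fin m → F) : F :=
  q0 m (A *ᵥ v) + q0 m v

lemma defect_add [CharP F 2] {m : ℕ} {A : Matrix (Fin m ⊕ Fin m) (Fin m ⊕ Fin m) F}
    (hA : A ∈ Matrix.symplecticGroup (Fin m) F) (u v : Fin m ⊕ Fin m → F) :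
    defect m A (u + v) = defect m A u + defect m A v := by
  have two0 : (2 : F) = 0 := CharTwo.two_eq_zero
  simp only [defect]
  rw [mulVec_add, q0_add, q0_add, sympForm_mulVec hA]
  linear_combination (Cfsg.sympForm m F u v) * two0

lemma defect_smul {m : ℕ} (A : Matrix (Fin m ⊕ Fin m) (Fin m ⊕ Fin m) F)
    (c : F) (v : Fin m ⊕ Fin m → F) :
    defect m A (c • v) = c ^ 2 * defect m A v := by
  simp only [defect]
  rw [mulVec_smul, q0_smul, q0_smul]
  ring

lemma defect_zero {m : ℕ} (A : Matrix (Fin m ⊕ Fin m) (Fin m ⊕ Fin m) F) :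
    defect m A 0 = 0 := by
  simp [defect, q0]

/-- `defect` is the square of a linear form. -/
lemma exists_defect_eq [Fintype F] [CharP F 2] {m : ℕ} {A : Matrix (Fin m ⊕ Fin m) (Fin m ⊕ Fin m) F}
    (hA : A ∈ Matrix.symplecticGroup (Fin m) F) :
    ∃ s : Fin m ⊕ Fin m → F, ∀ v, defect m A v = (v ⬝ᵥ s) ^ 2 := by
  classical
  have hsq : ∀ i : Fin m ⊕ Fin m, ∃ a : F, defect m A (Pi.single i 1) = a ^ 2 := by
    intro i
    obtain ⟨a, ha⟩ := FiniteField.isSquare_of_char_two (ringChar.eq F 2)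
      (defect m A (Pi.single i 1))
    exact ⟨a, by rw [ha, sq]⟩
  choose s hs using hsq
  refine ⟨s, fun v => ?_⟩
  have hsum : ∀ S : Finset (Fin m ⊕ Fin m),
      defect m A (∑ i ∈ S, v i • Pi.single i (1 : F)) = ∑ i ∈ S, (v i * s i) ^ 2 := by
    intro S
    induction S using Finset.induction_on with
    | empty => simpa using defect_zero A
    | insert a S ha ih =>
      rw [Finset.sum_insert ha, Finset.sum_insert ha, defect_add hA, ih, defect_smul, hs, mul_pow]
  have hv : v = ∑ i, v i • Pi.single i (1 : F) := by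
    ext j
    simp [Finset.sum_apply, Pi.single_apply]
  have h2 : (v ⬝ᵥ s) ^ 2 = ∑ i, (v i * s i) ^ 2 := by
    rw [dotProduct, sum_pow_char]
  rw [h2, ← hsum, ← hv]

/-- Every linear form is a `sympForm`. -/
lemma exists_sympForm_eq {m : ℕ} (c : Fin m ⊕ Fin m → F) :
    ∃ x : Fin m ⊕ Fin m → F, ∀ y, Cfsg.sympForm m F x y = c ⬝ᵥ y := by
  refine ⟨c ᵥ* (-J (Fin m) F), fun y => ?_⟩
  unfold Cfsg.sympForm
  rw [dotProduct_mulVec, vecMul_vecMul, Matrix.neg_mul, J_squared, neg_neg, vecMul_one]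

/-- `sympForm` is nondegenerate on the left. -/
lemma sympForm_left_nondeg {m : ℕ} {x : Fin m ⊕ Fin m → F}
    (h : ∀ y, Cfsg.sympForm m F x y = 0) : x = 0 := by
  classical
  ext i
  have h1 : ∀ j, (x ᵥ* J (Fin m) F) j = 0 := by
    intro j
    have := h (Pi.single j 1)
    unfold Cfsg.sympForm at this
    rw [dotProduct_mulVec, dotProduct_single, mul_one] at this
    exact this
  have h2 : x ᵥ* J (Fin m) F = 0 := funext h1
  have h3 := congrArg (fun z => z ᵥ* J (Fin m) F) h2
  simp only [vecMul_vecMul, J_squared, vecMul_neg, vecMul_one, zero_vecMul] at h3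
  have := congrFun h3 i
  simpa using this

/-- The key step: the vector `A w` lies in the image of `A + 1`. -/
lemma exists_u [Fintype F] [CharP F 2] {m : ℕ} {A : Matrix (Fin m ⊕ Fin m) (Fin m ⊕ Fin m) F}
    (hA : A ∈ Matrix.symplecticGroup (Fin m) F) (w : Fin m ⊕ Fin m → F)
    (hw : ∀ v, defect m A v = (Cfsg.sympForm m F v w) ^ 2) :
    ∃ u, (A + 1) *ᵥ u = A *ᵥ w := by
  classical
  have two0 : (2 : F) = 0 := CharTwo.two_eq_zero
  by_contra hne
  have hnot : A *ᵥ w ∉ LinearMap.range (A + 1).mulVecLin := by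
    rintro ⟨u, hu⟩
    exact hne ⟨u, hu⟩
  obtain ⟨φ, hφ, hφ'⟩ := Submodule.exists_le_ker_of_notMem hnot
  let c : Fin m ⊕ Fin m → F := fun i => φ (fun j => if i = j then 1 else 0)
  have hc : ∀ y, φ y = c ⬝ᵥ y := by
    intro y
    rw [LinearMap.pi_apply_eq_sum_univ φ y, dotProduct]
    apply Finset.sum_congr rfl
    intro i _
    rw [smul_eq_mul, mul_comm]
  obtain ⟨x, hx⟩ := exists_sympForm_eq c
  have h0 : ∀ u, Cfsg.sympForm m F x ((A + 1) *ᵥ u) = 0 := by
    intro u
    rw [hx, ← hc]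
    exact hφ' ⟨u, rfl⟩
  have hdet := SymplecticGroup.symplectic_det hA
  have hAx : A *ᵥ x + x = 0 := by
    apply sympForm_left_nondeg
    intro y
    have hy : A *ᵥ (A⁻¹ *ᵥ y) = y := by
      rw [mulVec_mulVec, Matrix.mul_nonsing_inv A hdet, one_mulVec]
    have h1 := h0 (A⁻¹ *ᵥ y)
    rw [Matrix.add_mulVec, one_mulVec, sympForm_add_right, hy] at h1
    rw [sympForm_add_left]
    nth_rw 1 [← hy]
    rw [sympForm_mulVec hA, add_comm]
    exact h1
  have hAx' : A *ᵥ x = x := by
    funext i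
    have h1 := congrFun hAx i
    rw [Pi.add_apply, Pi.zero_apply] at h1
    exact CharTwo.add_eq_zero.mp h1
  have hd : defect m A x = 0 := by
    unfold defect
    rw [hAx']
    exact CharTwo.add_self_eq_zero _
  have hxw : Cfsg.sympForm m F x w = 0 := by
    have h1 := hw x
    rw [hd] at h1
    exact pow_eq_zero_iff (two_ne_zero) |>.mp h1.symm
  apply hφ
  rw [hc, ← hx, ← hxw]
  nth_rw 1 [← hAx']
  rw [sympForm_mulVec hA]


/-- Over a finite field of characteristic two every element of the symplectic group is orthogonal for a suitable quadratic form: for each A in Sp_2m(F) there is a quadratic form Q on F^(2m) whose polar form is the alternating form defining Sp_2m(F) (so Q is non-degenerate) and which A preserves. Equivalently, for m ≥ 1, Sp_2m(F) is the union of the conjugates of its two orthogonal subgroups O⁺_2m(F) and O⁻_2m(F). -/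
theorem result {F : Type*} [Field F] [Fintype F] [CharP F 2] {m : ℕ} (A : Matrix.symplecticGroup (Fin m) F) : ∃ Q : QuadraticForm F (Fin m ⊕ Fin m → F), (∀ u v : Fin m ⊕ Fin m → F, QuadraticMap.polar ⇑Q u v = Cfsg.sympForm m F u v) ∧ ∀ v : Fin m ⊕ Fin m → F, Q ((A : Matrix (Fin m ⊕ Fin m) (Fin m ⊕ Fin m) F).mulVec v) = Q v := by
  classical
  obtain ⟨A, hA⟩ := A
  have two0 : (2 : F) = 0 := CharTwo.two_eq_zero
  obtain ⟨s, hs⟩ := exists_defect_eq hA
  obtain ⟨w, hw⟩ : ∃ w, ∀ v, Cfsg.sympForm m F v w = dotProduct v s := by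
    refine ⟨Matrix.mulVec (-Matrix.J (Fin m) F) s, fun v => ?_⟩
    unfold Cfsg.sympForm
    rw [Matrix.mulVec_mulVec, Matrix.mul_neg, Matrix.J_squared, neg_neg, Matrix.one_mulVec]
  obtain ⟨u, hu⟩ := exists_u hA w (fun v => by rw [hs, hw])
  let B : LinearMap.BilinMap F (Fin m ⊕ Fin m → F) F :=
    LinearMap.mk₂ F
      (fun x y => (∑ i, x (Sum.inl i) * y (Sum.inr i)) +
        Cfsg.sympForm m F x u * Cfsg.sympForm m F y u)
      (fun x x' y => by
        simp only [sympForm_add_left, Pi.add_apply, add_mul, Finset.sum_add_distrib]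
        ring)
      (fun c x y => by
        simp only [sympForm_smul_left, Pi.smul_apply, smul_eq_mul, Finset.mul_sum, mul_add]
        congr 1
        · exact Finset.sum_congr rfl (fun i _ => by ring)
        · ring)
      (fun x y y' => by
        simp only [sympForm_add_left, Pi.add_apply, mul_add, Finset.sum_add_distrib]
        ring)
      (fun c x y => by
        simp only [sympForm_smul_left, Pi.smul_apply, smul_eq_mul, Finset.mul_sum, mul_add]
        congr 1
        · exact Finset.sum_congr rfl (fun i _ => by ring)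
        · ring)
  have hQ : ∀ v, (LinearMap.BilinMap.toQuadraticMap B) v = q0 m v + (Cfsg.sympForm m F v u) ^ 2 := by
    intro v
    rw [LinearMap.BilinMap.toQuadraticMap_apply]
    simp only [B, LinearMap.mk₂_apply, q0]
    ring
  refine ⟨LinearMap.BilinMap.toQuadraticMap B, ?_, ?_⟩
  · intro x y
    rw [QuadraticMap.polar, hQ, hQ, hQ, q0_add, sympForm_add_left]
    linear_combination (Cfsg.sympForm m F x u * Cfsg.sympForm m F y u) * two0
  · intro v
    change (LinearMap.BilinMap.toQuadraticMap B) (Matrix.mulVec A v) = (LinearMap.BilinMap.toQuadraticMap B) v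
    rw [hQ, hQ]
    have h1 := hs v
    rw [← hw] at h1
    have h2 : Cfsg.sympForm m F v w = Cfsg.sympForm m F v u + Cfsg.sympForm m F (Matrix.mulVec A v) u := by
      rw [← sympForm_mulVec hA v w, ← hu, Matrix.add_mulVec, Matrix.one_mulVec, sympForm_add_right,
        sympForm_mulVec hA]
    unfold defect at h1
    linear_combination h1 + (Cfsg.sympForm m F v w + Cfsg.sympForm m F v u + Cfsg.sympForm m F (Matrix.mulVec A v) u) * h2
      + (Cfsg.sympForm m F v u * Cfsg.sympForm m F (Matrix.mulVec A v) u + Cfsg.sympForm m F (Matrix.mulVec A v) u ^ 2 - q0 m v) * two0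

end Cfsg.Agent.S2585
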