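import Cfsg.Statements.S2586
import Cfsg.Agent.S2580
import Mathlib

set_option autoImplicit false
open Cfsg

namespace Cfsg.Agent.S2586

/-- Over a finite field, every element of the symplectic group Sp_2m(F) is conjugate by an invertible matrix to its inverse. -/
theorem result {F : Type*} [Field F] [Finite F] {m : ℕ} (A : Matrix.symplecticGroup (Fin m) F) : IsConj (A : Matrix (Fin m ⊕ Fin m) (Fin m ⊕ Fin m) F) ((A⁻¹ : Matrix.symplecticGroup (Fin m) F) : Matrix (Fin m ⊕ Fin m) (Fin m ⊕ Fin m) F) := by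
  refine (Cfsg.Agent.S2580.isConj_transpose (A : Matrix (Fin m ⊕ Fin m) (Fin m ⊕ Fin m) F)).trans ?_
  have hJ2 : Matrix.J (Fin m) F * Matrix.J (Fin m) F = -1 := Matrix.J_squared (Fin m) F
  let c : (Matrix (Fin m ⊕ Fin m) (Fin m ⊕ Fin m) F)ˣ :=
    ⟨-Matrix.J (Fin m) F, Matrix.J (Fin m) F, by rw [neg_mul, hJ2, neg_neg],
      by rw [mul_neg, hJ2, neg_neg]⟩
  refine ⟨c, ?_⟩
  show (-Matrix.J (Fin m) F) * (A : Matrix (Fin m ⊕ Fin m) (Fin m ⊕ Fin m) F).transpose =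
    ((A⁻¹ : Matrix.symplecticGroup (Fin m) F) : Matrix (Fin m ⊕ Fin m) (Fin m ⊕ Fin m) F) * (-Matrix.J (Fin m) F)
  rw [SymplecticGroup.coe_inv, Matrix.mul_assoc _ (Matrix.J (Fin m) F), mul_neg, hJ2, neg_neg, Matrix.mul_one]

end Cfsg.Agent.S2586
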