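import Cfsg.Statements.S2588
import Mathlib
import Cfsg.Agent.Lib.Classical.Herm.Wall

set_option autoImplicit false
open Cfsg

open Cfsg.Agent.Lib.Classical.Herm.Wall Cfsg.Agent.Lib.Classical.Herm.NormMat Cfsg.Agent.Lib.Linalg.RCFType

namespace Cfsg.Agent.S2588

/-- An invertible matrix A over the field with q² elements is conjugate in GL_n(q²) to an element of the general unitary group GU_n(q) (isometries of the Hermitian form Σ u_i v_i^q) if and only if A is similar to the inverse transpose of its entrywise q-th power (A ~ A^(−qT), the image of A under the map sending a matrix to the inverse transpose of its entrywise q-th power — inverse transpose composed with the field automorphism — whose fixed points form GU_n(q)). -/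
theorem result {K : Type*} [Field K] [Fintype K] {q n : ℕ} (hK : Fintype.card K = q ^ 2) (A : GL (Fin n) K) : (∃ B : ↥(Cfsg.GU n K q), IsConj A (B : GL (Fin n) K)) ↔ IsConj (A : Matrix (Fin n) (Fin n) K) (((A : Matrix (Fin n) (Fin n) K).map (fun x : K => x ^ q)).transpose)⁻¹ := by
  classical
  have hGLtype := Cfsg.Agent.Lib.Linalg.RCFType.isGLType_matType A
  set M : Matrix (Fin n) (Fin n) K := (A : Matrix (Fin n) (Fin n) K) with hM
  set M' : Matrix (Fin n) (Fin n) K := ((A⁻¹ : GL (Fin n) K) : Matrix (Fin n) (Fin n) K) with hM'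
  have h1 : M * M' = 1 := Units.mul_inv A
  have h2 : M' * M = 1 := Units.inv_mul A
  have hs1 : cs q M * cs q M' = 1 := by rw [← cs_mul hK, h2, cs_one hK]
  have hs2 : cs q M' * cs q M = 1 := by rw [← cs_mul hK, h1, cs_one hK]
  have hstar : ((M.map (fun x : K => x ^ q)).transpose)⁻¹ = cs q M' :=
    Matrix.inv_eq_left_inv hs2
  rw [hstar]
  let gs : GL (Fin n) K := ⟨cs q M', cs q M, hs2, hs1⟩
  have hgs : matType (gs : Matrix (Fin n) (Fin n) K) = dualT hK (matType M) := matType_star hK A
  have hiff : IsConj M (cs q M') ↔ IsConj A gs := by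
    constructor
    · rintro ⟨c, hc⟩
      apply isConj_iff.2
      refine ⟨c, ?_⟩
      rw [mul_inv_eq_iff_eq_mul]
      exact Units.ext hc.eq
    · intro h
      obtain ⟨c, hc⟩ := isConj_iff.1 h
      refine ⟨c, ?_⟩
      have h3 : c * A = gs * c := by rw [← hc]; group
      exact congrArg (fun u : GL (Fin n) K => (u : Matrix (Fin n) (Fin n) K)) h3
  rw [hiff]
  constructor
  · rintro ⟨B, hB⟩
    have t1 := isConj_iff_matType_eq.1 hB
    have t2 := dualT_matType_of_mem hK (B : GL (Fin n) K) B.2
    apply isConj_iff_matType_eq.2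
    rw [hgs]
    show matType M = dualT hK (matType M)
    have t3 : matType M = matType ((B : GL (Fin n) K) : Matrix (Fin n) (Fin n) K) := t1
    rw [t3, t2]
  · intro h
    have t1 : matType M = dualT hK (matType M) := by
      rw [← hgs]
      exact isConj_iff_matType_eq.1 h
    obtain ⟨g, hg⟩ := exists_GU_of_type hK hGLtype t1.symm
    exact ⟨g, isConj_iff_matType_eq.2 hg.symm⟩

end Cfsg.Agent.S2588
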