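import Cfsg.Statements.S2590
import Mathlib
import Cfsg.Agent.Lib.Classical.Herm.OrthSemis

set_option autoImplicit false
open Cfsg

namespace Cfsg.Agent.S2590

open Cfsg.Agent.Lib.Linalg.Bridge Matrix

theorem equivOfGL_pow {F : Type*} [Field F] {n : ℕ} (A : GL (Fin n) F) (k : ℕ) (v : Fin n → F) :
    (((equivOfGL A : (Fin n → F) ≃ₗ[F] (Fin n → F)) : Module.End F (Fin n → F)) ^ k) v
      = ((A ^ k : GL (Fin n) F) : Matrix (Fin n) (Fin n) F) *ᵥ v := by
  induction k generalizing v with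
  | zero => simp
  | succ k ih =>
    rw [pow_succ, Module.End.mul_apply, ih, pow_succ]
    simp [mulVec_mulVec]

/-- Two semisimple elements of odd order of a finite orthogonal group (isometry group of a quadratic form on F^n with non-degenerate polar form, F finite of characteristic p; the elements have odd order prime to p) are conjugate in the orthogonal group if and only if they are conjugate in GL_n(F). -/
theorem result {F : Type*} [Field F] [Fintype F] {p : ℕ} [Fact p.Prime] [CharP F p] {n : ℕ} (Q : QuadraticForm F (Fin n → F)) (hQ : (QuadraticMap.polarBilin Q).Nondegenerate) (A B : ↥(Cfsg.isometryGroup F ⇑Q)) (hodd : Odd (orderOf A)) (hA : (orderOf A).Coprime p) : IsConj A B ↔ IsConj ((A : Matrix.GeneralLinearGroup (Fin n) F) : Matrix (Fin n) (Fin n) F) ((B : Matrix.GeneralLinearGroup (Fin n) F) : Matrix (Fin n) (Fin n) F) := by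
  refine ⟨fun h => ((Units.coeHom _).comp (Cfsg.isometryGroup F ⇑Q).subtype).map_isConj h, fun h => ?_⟩
  have hp : p.Prime := Fact.out
  obtain ⟨x, hx⟩ := h
  have hxe : (x : Matrix (Fin n) (Fin n) F) * ((A : GL (Fin n) F) : Matrix (Fin n) (Fin n) F)
      = ((B : GL (Fin n) F) : Matrix (Fin n) (Fin n) F) * x := hx
  have hk0 : ((orderOf A : ℕ) : F) ≠ 0 := by
    rw [Ne, CharP.cast_eq_zero_iff F p]
    intro hd
    have := Nat.eq_one_of_dvd_coprimes hA hd (dvd_refl p)
    exact hp.one_lt.ne' this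
  have hAk : ((A : GL (Fin n) F)) ^ orderOf A = 1 := by
    have := pow_orderOf_eq_one A
    have h2 := congrArg (fun z : ↥(Cfsg.isometryGroup F ⇑Q) => (z : GL (Fin n) F)) this
    exact h2
  have hQA : ∀ (C : ↥(Cfsg.isometryGroup F ⇑Q)) (v : Fin n → F),
      Q ((equivOfGL (C : GL (Fin n) F)) v) = Q v := by
    intro C v
    exact C.2 v v
  obtain ⟨y, hy, hyc⟩ := Cfsg.Agent.Lib.Classical.Herm.OrthSemis.exists_isom_conj_orth Q hQ
    (equivOfGL (A : GL (Fin n) F)) (equivOfGL (B : GL (Fin n) F)) (equivOfGL x) (hQA A) (hQA B)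
    (by
      intro v
      simp only [equivOfGL_apply]
      rw [mulVec_mulVec, mulVec_mulVec, hxe])
    (m := orderOf A)
    (by
      apply LinearMap.ext
      intro v
      rw [equivOfGL_pow, hAk]
      simp)
    hk0 hodd
  have hY : glOfEquiv y ∈ Cfsg.isometryGroup F ⇑Q := by
    intro u v
    change Q (((glOfEquiv y : GL (Fin n) F) : Matrix (Fin n) (Fin n) F) *ᵥ u) = Q u
    rw [glOfEquiv_mulVec]
    exact hy u
  rw [isConj_iff]
  refine ⟨⟨glOfEquiv y, hY⟩, ?_⟩
  have hfin : (⟨glOfEquiv y, hY⟩ : ↥(Cfsg.isometryGroup F ⇑Q)) * A = B * ⟨glOfEquiv y, hY⟩ := by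
    apply Subtype.ext
    apply Units.ext
    apply matrix_eq_of_mulVec_eq
    intro v
    change (((glOfEquiv y : GL (Fin n) F) : Matrix (Fin n) (Fin n) F) * ((A : GL (Fin n) F) : Matrix (Fin n) (Fin n) F)) *ᵥ v
      = (((B : GL (Fin n) F) : Matrix (Fin n) (Fin n) F) * ((glOfEquiv y : GL (Fin n) F) : Matrix (Fin n) (Fin n) F)) *ᵥ v
    rw [← mulVec_mulVec, ← mulVec_mulVec, glOfEquiv_mulVec, glOfEquiv_mulVec]
    exact hyc v
  rw [hfin]
  simp

end Cfsg.Agent.S2590
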