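import Cfsg.Statements.S2593
import Mathlib
import Cfsg.Agent.Lib.Classical.Symp.InvolChar2Real

set_option autoImplicit false
open Cfsg

namespace Cfsg.Agent.S2593

/-- Number of conjugacy classes of involutions in the symplectic group Sp_2m(F) over a finite field of characteristic two (m ≥ 1): for each s with 1 ≤ s ≤ m there is one class with rank(t − 1) = s if s is odd and two if s is even (according as v ↦ f(v, tv), f the symplectic form, vanishes identically or not), so m + ⌊m/2⌋ classes in all. -/
theorem result {F : Type*} [Field F] [Fintype F] [CharP F 2] {m : ℕ} (hm : 1 ≤ m) : Nat.card {C : ConjClasses ↥(Matrix.symplecticGroup (Fin m) F) // ∃ g : Matrix.symplecticGroup (Fin m) F, ConjClasses.mk g = C ∧ orderOf g = 2} = m + m / 2 := by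
  classical
  let M := Matrix (Fin m ⊕ Fin m) (Fin m ⊕ Fin m) F
  let S := ↥(Matrix.symplecticGroup (Fin m) F)
  let ty : S → ℕ × Bool := fun g => (((g : M) - 1).rank, decide (∀ x, Cfsg.sympForm m F x ((g : M).mulVec x) = 0))
  have hsq : ∀ c : S, orderOf c = 2 → (c : M) * c = 1 := by
    intro c hc
    have h1 : c ^ orderOf c = 1 := pow_orderOf_eq_one c
    rw [hc, pow_two] at h1
    exact congrArg Subtype.val h1
  -- conjugate iff same type
  have hconj : ∀ a b : S, orderOf a = 2 → orderOf b = 2 → (IsConj a b ↔ ty a = ty b) := by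
    intro a b ha hb
    constructor
    · intro h
      have h1 := Cfsg.Agent.Lib.Classical.Symp.InvolChar2Mat.rank_eq_of_isConj h
      have h2 := Cfsg.Agent.Lib.Classical.Symp.InvolChar2Mat.type_iff_of_isConj h
      simp only [ty, Prod.mk.injEq, decide_eq_decide]
      exact ⟨h1, h2⟩
    · intro h
      simp only [ty, Prod.mk.injEq, decide_eq_decide] at h
      exact Cfsg.Agent.Lib.Classical.Symp.InvolChar2Mat.isConj_of_type a b (hsq a ha) (hsq b hb) h.1 h.2
  let T := {p : ℕ × Bool // 1 ≤ p.1 ∧ p.1 ≤ m ∧ (p.2 = true → Even p.1)}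
  have hmemT : ∀ g : S, orderOf g = 2 → 1 ≤ (ty g).1 ∧ (ty g).1 ≤ m ∧ ((ty g).2 = true → Even (ty g).1) := by
    intro g hg
    have h₁ := Cfsg.Agent.Lib.Classical.Symp.InvolChar2Mat.isSqZeroAdj_nMap g.2 (hsq g hg)
    refine ⟨?_, ?_, ?_⟩
    · change 1 ≤ ((g : M) - 1).rank
      by_contra h0
      have h00 : ((g : M) - 1).rank = 0 := by omega
      rw [Cfsg.Agent.Lib.Classical.Symp.InvolChar2Mat.rank_eq] at h00
      have h3 : LinearMap.range (Cfsg.Agent.Lib.Classical.Symp.InvolChar2Mat.nMap (g : M)) = ⊥ :=
        Submodule.finrank_eq_zero.1 h00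
      have h4 : ∀ x, (g : M).mulVec x = x := by
        intro x
        have h5 : Cfsg.Agent.Lib.Classical.Symp.InvolChar2Mat.nMap (g : M) x = 0 := by
          have := LinearMap.mem_range_self (Cfsg.Agent.Lib.Classical.Symp.InvolChar2Mat.nMap (g : M)) x
          rw [h3] at this
          exact this
        rw [Cfsg.Agent.Lib.Classical.Symp.InvolChar2Mat.nMap_apply] at h5
        exact sub_eq_zero.1 h5
      have h6 : (g : M) = 1 := by
        apply Matrix.toLin'.injective
        ext1 x
        apply LinearMap.ext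
        intro y
        simp [h4]
      have h7 : g = 1 := Subtype.ext h6
      rw [h7, orderOf_one] at hg
      omega
    · change ((g : M) - 1).rank ≤ m
      rw [Cfsg.Agent.Lib.Classical.Symp.InvolChar2Mat.rank_eq]
      have := Cfsg.Agent.Lib.Classical.Symp.InvolChar2.two_mul_finrank_range_le Cfsg.Agent.Lib.Classical.Symp.Basic.sympBilin_nondegenerate h₁
      simp at this
      omega
    · intro h
      have h8 : ∀ x, Cfsg.sympForm m F x ((g : M).mulVec x) = 0 := by
        simpa [ty] using h
      change Even ((g : M) - 1).rank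
      rw [Cfsg.Agent.Lib.Classical.Symp.InvolChar2Mat.rank_eq]
      apply Cfsg.Agent.Lib.Classical.Symp.InvolChar2.even_of_alt_type Cfsg.Agent.Lib.Classical.Symp.Basic.sympBilin_nondegenerate Cfsg.Agent.Lib.Classical.Symp.Basic.sympBilin_isAlt h₁
      intro x
      rw [Cfsg.Agent.Lib.Classical.Symp.InvolChar2Mat.sympForm_nMap]
      exact h8 x
  -- realisation
  have hreal : ∀ p : T, ∃ g : S, orderOf g = 2 ∧ ty g = p.1 := by
    rintro ⟨⟨s, b⟩, h1, h2, h3⟩
    simp only at h1 h2 h3
    have hfin : ∀ a : S, (a : M) * a = 1 → ((a : M) - 1).rank = s → orderOf a = 2 := by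
      intro a ha hr
      have : Fact (Nat.Prime 2) := ⟨Nat.prime_two⟩
      apply orderOf_eq_prime
      · rw [pow_two]
        exact Subtype.ext ha
      · intro h
        rw [h] at hr
        have h0 : ((1 : S) : M) - 1 = 0 := sub_eq_zero.2 rfl
        rw [h0, Matrix.rank_zero] at hr
        omega
    cases b with
    | false =>
      obtain ⟨a, ha, hr, hn⟩ := Cfsg.Agent.Lib.Classical.Symp.InvolChar2Real.exists_invol_nonalt (F := F) h1 h2
      refine ⟨a, hfin a ha hr, ?_⟩
      simp only [ty, Prod.mk.injEq, decide_eq_false_iff_not]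
      exact ⟨hr, hn⟩
    | true =>
      obtain ⟨k, hk⟩ := h3 rfl
      obtain ⟨a, ha, hr, hn⟩ := Cfsg.Agent.Lib.Classical.Symp.InvolChar2Real.exists_invol_alt (F := F) (m := m) (k := k) (by omega)
      have hr' : ((a : M) - 1).rank = s := by omega
      refine ⟨a, hfin a ha hr', ?_⟩
      simp only [ty, Prod.mk.injEq, decide_eq_true_eq]
      exact ⟨hr', hn⟩
  -- the bijection with `T`
  let f : {C : ConjClasses S // ∃ g : S, ConjClasses.mk g = C ∧ orderOf g = 2} → T :=
    fun C => ⟨ty C.2.choose, hmemT _ C.2.choose_spec.2⟩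
  have hf : Function.Bijective f := by
    constructor
    · rintro ⟨C, hC⟩ ⟨C', hC'⟩ h
      have h1 : ty hC.choose = ty hC'.choose := congrArg Subtype.val h
      have h2 := (hconj _ _ hC.choose_spec.2 hC'.choose_spec.2).2 h1
      apply Subtype.ext
      change C = C'
      rw [← hC.choose_spec.1, ← hC'.choose_spec.1]
      exact ConjClasses.mk_eq_mk_iff_isConj.2 h2
    · intro p
      obtain ⟨g, hg, hp⟩ := hreal p
      let C : {C : ConjClasses S // ∃ g : S, ConjClasses.mk g = C ∧ orderOf g = 2} := ⟨ConjClasses.mk g, g, rfl, hg⟩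
      refine ⟨C, ?_⟩
      apply Subtype.ext
      change ty C.2.choose = p.1
      rw [← hp]
      have h3 : IsConj C.2.choose g := ConjClasses.mk_eq_mk_iff_isConj.1 C.2.choose_spec.1
      exact (hconj _ _ C.2.choose_spec.2 hg).1 h3
  rw [Nat.card_congr (Equiv.ofBijective f hf)]
  -- count `T`
  let e : Fin m ⊕ Fin (m / 2) → T := Sum.elim
    (fun i => ⟨((i : ℕ) + 1, false), by simp⟩)
    (fun j => ⟨(2 * ((j : ℕ) + 1), true), by
      have := j.2
      refine ⟨?_, ?_, fun _ => by simp⟩
      · simp only
        omega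
      · simp only
        omega⟩)
  have he : Function.Bijective e := by
    constructor
    · rintro (i | i) (j | j) h
      · have := congrArg (fun t : T => t.1.1) h
        simp only [e, Sum.elim_inl] at this
        congr 1
        exact Fin.ext (by omega)
      · have := congrArg (fun t : T => t.1.2) h
        simp [e] at this
      · have := congrArg (fun t : T => t.1.2) h
        simp [e] at this
      · have := congrArg (fun t : T => t.1.1) h
        simp only [e, Sum.elim_inr] at this
        congr 1
        exact Fin.ext (by omega)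
    · rintro ⟨⟨s, b⟩, h1, h2, h3⟩
      simp only at h1 h2 h3
      cases b with
      | false =>
        refine ⟨Sum.inl ⟨s - 1, by omega⟩, ?_⟩
        apply Subtype.ext
        simp only [e, Sum.elim_inl]
        congr 1
        omega
      | true =>
        obtain ⟨k, hk⟩ := h3 rfl
        refine ⟨Sum.inr ⟨k - 1, by omega⟩, ?_⟩
        apply Subtype.ext
        simp only [e, Sum.elim_inr]
        congr 1
        omega
  rw [← Nat.card_congr (Equiv.ofBijective e he)]
  simp

end Cfsg.Agent.S2593
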