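import Cfsg.Statements.S2594
import Mathlib
import Cfsg.Agent.Lib.Classical.Symp.RankOne
-- import your own Cfsg.Agent.* helpers here

set_option autoImplicit false
open Cfsg

namespace Cfsg.Agent.S2594

open Matrix Cfsg.Agent.Lib.Classical.Symp.Basic Cfsg.Agent.Lib.Classical.Symp.RankOne
  Cfsg.Agent.Lib.Classical.Symp.Count

theorem card_nonzero {F : Type*} [Field F] [Finite F] {q : ℕ} (hq : Nat.card F = q) (m : ℕ) :
    Nat.card {w : Fin m ⊕ Fin m → F // w ≠ 0} = q ^ (2 * m) - 1 := by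
  classical
  haveI := Fintype.ofFinite F
  have h1 : Fintype.card (Fin m ⊕ Fin m → F) = q ^ (2 * m) := by
    rw [Fintype.card_fun, Fintype.card_sum, Fintype.card_fin, ← Nat.card_eq_fintype_card, hq, two_mul]
  rw [Nat.card_eq_fintype_card, Fintype.card_subtype_compl, h1]
  simp

theorem centralizer_eq {F : Type*} [Field F] [Fintype F] [CharP F 2] {m : ℕ}
    {w : Fin m ⊕ Fin m → F} (hw : w ≠ 0) :
    Subgroup.centralizer ({tt w (1 : F)} : Set (Matrix.symplecticGroup (Fin m) F)) = stabVec w := by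
  classical
  have h2 : (2 : F) = 0 := by
    exact_mod_cast CharP.cast_eq_zero F 2
  ext g
  rw [Subgroup.mem_centralizer_singleton_iff, mem_stabVec]
  constructor
  · intro h
    have h3 : g * tt w 1 * g⁻¹ = tt w 1 := by rw [h]; group
    rw [tt_conj] at h3
    obtain ⟨a, ha⟩ := exists_smul_of_tt_eq hw h3
    rw [ha, tt_smul, mul_one] at h3
    have h4 := tt_inj_param hw h3
    have h5 : (a - 1) ^ 2 = 0 := by
      have : (a - 1) ^ 2 = a ^ 2 - 2 * a + 1 := by ring
      rw [this, h4, h2]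
      have h6 : (1 : F) + 1 = 0 := by rw [← h2]; norm_num
      linear_combination h6
    have h6 : a = 1 := by
      have := pow_eq_zero_iff (two_ne_zero) |>.mp h5
      linear_combination this
    rw [ha, h6, one_smul]
  · intro h
    have h3 : g * tt w 1 * g⁻¹ = tt w 1 := by rw [tt_conj, h]
    exact mul_inv_eq_iff_eq_mul.mp h3

/-- Over a finite field with q elements, q even, an element t of Sp_2m(F) with rank(t − 1) = 1 (a symplectic transvection) has centraliser in Sp_2m(F) of order q^(2m−1) · |Sp_(2m−2)(q)| = q^(2m−1) · q^((m−1)²) · Π_(i=1)^(m−1) (q^(2i) − 1). -/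
theorem result {F : Type*} [Field F] [Fintype F] [CharP F 2] {q : ℕ} (hF : Fintype.card F = q) {m : ℕ} (hm : 1 ≤ m) (t : Matrix.symplecticGroup (Fin m) F) (ht : ((t : Matrix (Fin m ⊕ Fin m) (Fin m ⊕ Fin m) F) - 1).rank = 1) : Nat.card ↥(Subgroup.centralizer ({t} : Set ↥(Matrix.symplecticGroup (Fin m) F))) = q ^ (2 * m - 1) * (q ^ ((m - 1) ^ 2) * ∏ i : Fin (m - 1), (q ^ (2 * ((i : ℕ) + 1)) - 1)) := by
  classical
  -- normal form `t = tt w 1`
  obtain ⟨w₀, c, hw₀, hc, e⟩ := exists_eq_sympTransvection t.2 ht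
  have hrc : ringChar F = 2 := ringChar.eq F 2
  obtain ⟨s, hs⟩ : IsSquare c := FiniteField.isSquare_of_char_two hrc c
  have hs0 : s ≠ 0 := by
    rintro rfl
    apply hc
    rw [hs, mul_zero]
  have hsw : s • w₀ ≠ 0 := smul_ne_zero hs0 hw₀
  have ht' : t = tt (s • w₀) 1 := by
    rw [tt_smul, mul_one]
    apply Subtype.ext
    rw [e, tt_coe, hs, sq]
  rw [ht', centralizer_eq hsw]
  have hq : Nat.card F = q := by rw [Nat.card_eq_fintype_card, hF]
  have h1 := card_stabVec_mul hsw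
  rw [card_nonzero hq, card_symplecticGroup hq] at h1
  obtain ⟨k, rfl⟩ : ∃ k, m = k + 1 := ⟨m - 1, by omega⟩
  have hq2 : 2 ≤ q := by
    rw [← hF]
    exact Fintype.one_lt_card
  have hpos : 0 < q ^ (2 * (k + 1)) - 1 := by
    have : 2 ^ (2 * (k + 1)) ≤ q ^ (2 * (k + 1)) := Nat.pow_le_pow_left hq2 _
    have h3 : 2 ≤ 2 ^ (2 * (k + 1)) := by
      calc 2 = 2 ^ 1 := by norm_num
        _ ≤ 2 ^ (2 * (k + 1)) := Nat.pow_le_pow_right (by norm_num) (by omega)
    omega
  rw [Finset.prod_range_succ] at h1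
  change Nat.card ↥(stabVec (s • w₀)) = q ^ (2 * (k + 1) - 1) * (q ^ k ^ 2 * ∏ i : Fin k, (q ^ (2 * ((i : ℕ) + 1)) - 1))
  rw [Fin.prod_univ_eq_prod_range (fun i => q ^ (2 * (i + 1)) - 1) k]
  apply Nat.eq_of_mul_eq_mul_right hpos
  rw [h1]
  have h4 : (k + 1) ^ 2 = (2 * (k + 1) - 1) + k ^ 2 := by
    have : 2 * (k + 1) - 1 = 2 * k + 1 := by omega
    rw [this]
    ring
  rw [h4, pow_add]
  ring

end Cfsg.Agent.S2594
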