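import Cfsg.Statements.S2595
import Mathlib
import Cfsg.Agent.Lib.Classical.Witt.InvolModels


set_option autoImplicit false
open Cfsg

namespace Cfsg.Agent.S2595

/-- Number of conjugacy classes of involutions in the full orthogonal group O⁺_2m(F) of the hyperbolic quadratic form Σ x_i y_i over a finite field of characteristic two (m ≥ 1): one class for each odd s ≤ m and two for each even s with 2 ≤ s ≤ m, where s = rank(t − 1); in all m + ⌊m/2⌋. -/
theorem result {F : Type*} [Field F] [Fintype F] [CharP F 2] {m : ℕ} (hm : 1 ≤ m) : Nat.card {C : ConjClasses ↥(Cfsg.isometryGroup F (Cfsg.quadFormPlus m F)) // ∃ g : ↥(Cfsg.isometryGroup F (Cfsg.quadFormPlus m F)), ConjClasses.mk g = C ∧ orderOf g = 2} = m + m / 2 := by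
  rw [← Cfsg.Agent.Lib.Classical.Orth.Models.coe_plusForm m F]
  have hQ := Cfsg.Agent.Lib.Classical.Orth.Models.plusForm_nondegenerate (F := F) m
  have hcard : Fintype.card (Fin m ⊕ Fin m) = 2 * m := by
    rw [Fintype.card_sum, Fintype.card_fin]; omega
  rw [Cfsg.Agent.Lib.Classical.Witt.InvolCount.card_classes_O hQ
    (Cfsg.Agent.Lib.Classical.Witt.InvolModels.mkS (Cfsg.Agent.Lib.Classical.Witt.InvolModels.allS m)
      (Cfsg.Agent.Lib.Classical.Witt.InvolModels.evS m)) ?_ ?_,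
    Cfsg.Agent.Lib.Classical.Witt.InvolModels.card_mkS, Cfsg.Agent.Lib.Classical.Witt.InvolModels.card_allS,
    Cfsg.Agent.Lib.Classical.Witt.InvolModels.card_evS]
  · intro t htt ht1
    have h1 := Cfsg.Agent.Lib.Classical.Witt.InvolCount.rk_pos ht1
    have h2 := Cfsg.Agent.Lib.Classical.Witt.InvolCount.two_mul_rk_le hQ htt
    rw [hcard] at h2
    rw [Cfsg.Agent.Lib.Classical.Witt.InvolModels.mem_mkS]
    by_cases ha : Cfsg.Agent.Lib.Classical.Witt.InvolCount.IsAltT t
    · right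
      refine ⟨Cfsg.Agent.Lib.Classical.Witt.InvolCount.altB_eq_true.2 ha, ?_⟩
      rw [Cfsg.Agent.Lib.Classical.Witt.InvolModels.mem_evS]
      exact ⟨⟨h1, by simp only; omega⟩, (Cfsg.Agent.Lib.Classical.Witt.InvolCount.even_rk_of_alt hQ htt ha).two_dvd⟩
    · left
      refine ⟨?_, ?_⟩
      · simp only
        rw [Bool.eq_false_iff]
        exact fun h => ha (Cfsg.Agent.Lib.Classical.Witt.InvolCount.altB_eq_true.1 h)
      · simp only [Finset.mem_Ioc]
        omega
  · rintro ⟨s, b⟩ hp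
    rw [Cfsg.Agent.Lib.Classical.Witt.InvolModels.mem_mkS] at hp
    rcases hp with ⟨rfl, hs⟩ | ⟨rfl, hs⟩
    · simp only [Finset.mem_Ioc] at hs
      obtain ⟨t, h1, h2, h3, h4⟩ := Cfsg.Agent.Lib.Classical.Witt.InvolModels.plus_nonalt (F := F) m s hs.1 hs.2
      exact ⟨t, h1, h2, h3, by simpa using h4⟩
    · rw [Cfsg.Agent.Lib.Classical.Witt.InvolModels.mem_evS] at hs
      obtain ⟨⟨h0, hsm⟩, k, rfl⟩ := hs
      obtain ⟨t, h1, h2, h3, h4⟩ := Cfsg.Agent.Lib.Classical.Witt.InvolModels.plus_alt (F := F) m k (by omega) hsm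
      exact ⟨t, h1, h2, h3, by simpa using h4⟩

end Cfsg.Agent.S2595
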