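import Cfsg.Statements.S2596
import Mathlib
import Cfsg.Agent.Lib.Classical.Witt.InvolModels
import Cfsg.Agent.Lib.Classical.Witt.Index


set_option autoImplicit false
open Cfsg

namespace Cfsg.Agent.S2596

/-- Number of conjugacy classes of involutions in the full orthogonal group O⁻_2m(F) of an elliptic quadratic form (Σ_(i<m−1) x_i y_i plus an anisotropic binary form) over a finite field of characteristic two (m ≥ 1): one class for each odd s ≤ m, two for each even s with 2 ≤ s < m and one for s = m when m is even, where s = rank(t − 1); in all m + ⌊(m − 1)/2⌋. -/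
theorem result {F : Type*} [Field F] [Fintype F] [CharP F 2] {m : ℕ} (hm : 1 ≤ m) (a b : F) (hab : ∀ z₁ z₂ : F, z₁ ^ 2 + a * z₁ * z₂ + b * z₂ ^ 2 = 0 → z₁ = 0 ∧ z₂ = 0) : Nat.card {C : ConjClasses ↥(Cfsg.isometryGroup F (Cfsg.quadFormMinus (m - 1) F a b)) // ∃ g : ↥(Cfsg.isometryGroup F (Cfsg.quadFormMinus (m - 1) F a b)), ConjClasses.mk g = C ∧ orderOf g = 2} = m + (m - 1) / 2 := by
  rw [← Cfsg.Agent.Lib.Classical.Orth.Models.coe_minusForm (m - 1) F a b]
  have hQ := Cfsg.Agent.Lib.Classical.Orth.Models.minusForm_nondegenerate (m - 1) a b hab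
  have hcard : Fintype.card ((Fin (m - 1) ⊕ Fin (m - 1)) ⊕ Fin 2) = 2 * m := by
    simp only [Fintype.card_sum, Fintype.card_fin]; omega
  rw [Cfsg.Agent.Lib.Classical.Witt.InvolCount.card_classes_O hQ
    (Cfsg.Agent.Lib.Classical.Witt.InvolModels.mkS (Cfsg.Agent.Lib.Classical.Witt.InvolModels.allS m)
      (Cfsg.Agent.Lib.Classical.Witt.InvolModels.evS (m - 1))) ?_ ?_,
    Cfsg.Agent.Lib.Classical.Witt.InvolModels.card_mkS, Cfsg.Agent.Lib.Classical.Witt.InvolModels.card_allS,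
    Cfsg.Agent.Lib.Classical.Witt.InvolModels.card_evS]
  · intro t htt ht1
    have h1 := Cfsg.Agent.Lib.Classical.Witt.InvolCount.rk_pos ht1
    have h2 := Cfsg.Agent.Lib.Classical.Witt.InvolCount.two_mul_rk_le hQ htt
    rw [hcard] at h2
    rw [Cfsg.Agent.Lib.Classical.Witt.InvolModels.mem_mkS]
    by_cases ha : Cfsg.Agent.Lib.Classical.Witt.InvolCount.IsAltT t
    · right
      refine ⟨Cfsg.Agent.Lib.Classical.Witt.InvolCount.altB_eq_true.2 ha, ?_⟩
      rw [Cfsg.Agent.Lib.Classical.Witt.InvolModels.mem_evS]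
      refine ⟨⟨h1, ?_⟩, (Cfsg.Agent.Lib.Classical.Witt.InvolCount.even_rk_of_alt hQ htt ha).two_dvd⟩
      simp only
      exact Cfsg.Agent.Lib.Classical.Witt.InvolModels.rk_le_of_alt_minus hab htt ha
    · left
      refine ⟨?_, ?_⟩
      · simp only
        rw [Bool.eq_false_iff]
        exact fun h => ha (Cfsg.Agent.Lib.Classical.Witt.InvolCount.altB_eq_true.1 h)
      · simp only [Finset.mem_Ioc]
        omega
  · rintro ⟨s, b⟩ hp
    rw [Cfsg.Agent.Lib.Classical.Witt.InvolModels.mem_mkS] at hp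
    rcases hp with ⟨rfl, hs⟩ | ⟨rfl, hs⟩
    · simp only [Finset.mem_Ioc] at hs
      obtain ⟨t, h1, h2, h3, h4⟩ := Cfsg.Agent.Lib.Classical.Witt.InvolModels.minus_nonalt (m := m - 1) hab s hs.1 (by omega)
      exact ⟨t, h1, h2, h3, by simpa using h4⟩
    · rw [Cfsg.Agent.Lib.Classical.Witt.InvolModels.mem_evS] at hs
      obtain ⟨⟨h0, hsm⟩, k, rfl⟩ := hs
      obtain ⟨t, h1, h2, h3, h4⟩ := Cfsg.Agent.Lib.Classical.Witt.InvolModels.minus_alt (m := m - 1) hab k (by omega) hsm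
      exact ⟨t, h1, h2, h3, by simpa using h4⟩

end Cfsg.Agent.S2596
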