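import Cfsg.Statements.S2597
import Mathlib
import Cfsg.Agent.Lib.Classical.Witt.InvolModels


set_option autoImplicit false
open Cfsg

namespace Cfsg.Agent.S2597

open Module QuadraticMap Matrix
open Cfsg.Agent.Lib.Classical.Orth.Basic Cfsg.Agent.Lib.Classical.Orth.Models
open Cfsg.Agent.Lib.Classical.Orth.Dickson Cfsg.Agent.Lib.Classical.Orth.DicksonRank
open Cfsg.Agent.Lib.Classical.Witt.InvolCount Cfsg.Agent.Lib.Classical.Witt.InvolModels
open Cfsg.Agent.Lib.Classical.Witt.InvolChar2 Cfsg.Agent.Lib.Classical.Witt.InvolChar2Omega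


/-- Number of conjugacy classes of involutions in Ω⁺_2m(F) (the commutator subgroup of the orthogonal group of Σ x_i y_i) over a finite field F of characteristic two, m ≥ 1, excluding the case m = 2 over the field of two elements: the involutions of Ω are those with s = rank(t − 1) even, giving two O-classes for each even s with 2 ≤ s ≤ m, each of which is a single Ω-class except that for m even the class with s = m and v ↦ f(v, tv) identically zero splits in two; in all 2⌊m/2⌋ + 1 classes if m is even and 2⌊m/2⌋ if m is odd. -/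
theorem result {F : Type*} [Field F] [Fintype F] [CharP F 2] {m : ℕ} (hm : 1 ≤ m) (h : Fintype.card F ≠ 2 ∨ m ≠ 2) : Nat.card {C : ConjClasses ↥(Cfsg.Omega F (Cfsg.quadFormPlus m F)) // ∃ g : ↥(Cfsg.Omega F (Cfsg.quadFormPlus m F)), ConjClasses.mk g = C ∧ orderOf g = 2} = 2 * (m / 2) + (if Even m then 1 else 0) := by
  rw [← coe_plusForm m F]
  have hQ := plusForm_nondegenerate (F := F) m
  have hcard : Fintype.card (Fin m ⊕ Fin m) = 2 * m := by
    simp only [Fintype.card_sum, Fintype.card_fin]; omega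
  have hF : (∃ c : F, c ≠ 0 ∧ c ≠ 1) ∨ Fintype.card (Fin m ⊕ Fin m) ≠ 4 := by
    rcases h with h | h
    · exact Or.inl (Cfsg.Agent.Lib.Classical.Orth.CartanDieudonne.exists_ne_zero_one_of_card h)
    · exact Or.inr (by rw [hcard]; omega)
  have hΩ : ∀ g : ↥(Cfsg.isometryGroup F (⇑(plusForm m F))),
      g ∈ Cfsg.Omega F (⇑(plusForm m F)) ↔ Even (rk g) := mem_omega_iff_rank_even hQ hF
  have hmem : ∀ t : ↥(Cfsg.isometryGroup F (⇑(plusForm m F))), t ∈ Cfsg.Omega F (⇑(plusForm m F)) → t * t = 1 → t ≠ 1 →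
      (rk t, altB t) ∈ mkS (evS m) (evS m) := by
    intro t htO htt ht1
    have h1 := rk_pos ht1
    have h2 := two_mul_rk_le hQ htt
    rw [hcard] at h2
    have h3 := (hΩ t).1 htO
    rw [mem_mkS]
    by_cases ha : IsAltT t
    · right
      refine ⟨altB_eq_true.2 ha, ?_⟩
      rw [mem_evS]
      exact ⟨⟨h1, by simp only; omega⟩, h3.two_dvd⟩
    · left
      refine ⟨?_, ?_⟩
      · simp only
        rw [Bool.eq_false_iff]
        exact fun h => ha (altB_eq_true.1 h)
      · rw [mem_evS]
        exact ⟨⟨h1, by simp only; omega⟩, h3.two_dvd⟩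
  have hex : ∀ p ∈ mkS (evS m) (evS m), ∃ t : ↥(Cfsg.isometryGroup F (⇑(plusForm m F))), t ∈ Cfsg.Omega F (⇑(plusForm m F)) ∧
      t * t = 1 ∧ t ≠ 1 ∧ rk t = p.1 ∧ (IsAltT t ↔ p.2 = true) := by
    rintro ⟨s, b⟩ hp
    rw [mem_mkS] at hp
    rcases hp with ⟨rfl, hs⟩ | ⟨rfl, hs⟩
    · rw [mem_evS] at hs
      simp only at hs
      obtain ⟨⟨h0, hsm⟩, k, rfl⟩ := hs
      obtain ⟨t, h1, h2, h3, h4⟩ := plus_nonalt (F := F) m (2 * k) h0 hsm
      exact ⟨t, (hΩ t).2 (by rw [h3]; exact even_two_mul k), h1, h2, h3, by simpa using h4⟩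
    · rw [mem_evS] at hs
      simp only at hs
      obtain ⟨⟨h0, hsm⟩, k, rfl⟩ := hs
      obtain ⟨t, h1, h2, h3, h4⟩ := plus_alt (F := F) m k (by omega) hsm
      exact ⟨t, (hΩ t).2 (by rw [h3]; exact even_two_mul k), h1, h2, h3, by simpa using h4⟩
  have hspecial : ∀ t : ↥(Cfsg.isometryGroup F (⇑(plusForm m F))), t * t = 1 →
      (∀ v, plusForm m F (v + act t v) = 0) → IsAltT t := by
    intro t htt h0 x
    have h1 := h0 x
    rw [Q_add, Q_act] at h1
    have h2 := Cfsg.Agent.Lib.Classical.Symp.InvolChar2.two_eq_zero' F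
    linear_combination h1 - plusForm m F x * h2
  by_cases hev : Even m
  · -- `m` even: one class splits
    rw [if_pos hev]
    obtain ⟨k, rfl⟩ := hev
    have hk : 0 < k := by omega
    obtain ⟨t₀, h01, h02, h03, h04⟩ := plus_alt (F := F) (k + k) k hk (by omega)
    have ht₀O : t₀ ∈ Cfsg.Omega F (⇑(plusForm (k + k) F)) := (hΩ t₀).2 (by rw [h03]; exact even_two_mul k)
    obtain ⟨v, hv⟩ : ∃ v, plusForm (k + k) F v ≠ 0 := by
      by_contra hc
      push Not at hc
      have h1 := plus_nonalt (F := F) (k + k) 1 (by omega) (by omega)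
      obtain ⟨t, h11, h12, h13, h14⟩ := h1
      apply h14
      intro x
      have h2 := hc (x + act t x)
      rw [Q_add, Q_act, hc x, add_zero, zero_add] at h2
      exact h2
    set r := reflectionIso (plusForm (k + k) F) v hv with hr
    have hrO : r ∉ Cfsg.Omega F (⇑(plusForm (k + k) F)) := by
      rw [mem_omega_iff_char_two hQ hF, hr, dicksonHom_reflection]
      decide
    set t₁ := r * t₀ * r⁻¹ with ht₁
    have h01c : IsConj t₀ t₁ := isConj_iff.2 ⟨r, rfl⟩
    have h11 : t₁ * t₁ = 1 := by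
      rw [ht₁]
      calc r * t₀ * r⁻¹ * (r * t₀ * r⁻¹) = r * (t₀ * t₀) * r⁻¹ := by group
        _ = 1 := by rw [h01]; group
    have h12 : t₁ ≠ 1 := by
      intro h
      apply h02
      rw [ht₁] at h
      have h3 : r⁻¹ * (r * t₀ * r⁻¹) * r = r⁻¹ * 1 * r := by rw [h]
      simpa [mul_assoc] using h3
    have hinv := (isConj_iff_inv hQ _ _ h01 h11).1 h01c
    have ht₁O : t₁ ∈ Cfsg.Omega F (⇑(plusForm (k + k) F)) := by
      rw [hΩ, ← hinv.1, h03]
      exact even_two_mul k
    rw [card_classes_Omega_split hQ (mkS (evS (k + k)) (evS (k + k))) hmem hex t₀ t₁ ht₀O ht₁O h01 h11 h02 h12 h01c ?_ ?_ ?_,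
      card_mkS, card_evS]
    · simp only [add_left_inj]
      omega
    · -- `t₀`, `t₁` are not conjugate in `Ω`
      rintro ⟨g, hg, hgc⟩
      apply hrO
      set h' := r⁻¹ * g with hh'
      have hc0 : h' * t₀ * h'⁻¹ = t₀ := by
        rw [hh']
        have : r⁻¹ * g * t₀ * (r⁻¹ * g)⁻¹ = r⁻¹ * (g * t₀ * g⁻¹) * r := by group
        rw [this, hgc, ht₁]
        group
      have hTS : Cfsg.Agent.Lib.Classical.Witt.TS.IsTS (plusForm (k + k) F) (LinearMap.range (nM t₀)) := by
        rintro _ ⟨x, rfl⟩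
        exact Q_nM_of_alt h01 h04 x
      have hrank : finrank F (LinearMap.range (nM t₀)) = k + k :=
        (rank_eq_finrank t₀).symm.trans (h03.trans (two_mul k))
      have h5 := Cfsg.Agent.Lib.Classical.Orth.Classes.class_iff_omega hQ hF hcard hTS hrank h'
      rw [← range_conj hc0, inf_idem, hrank, Nat.sub_self] at h5
      have h6 : h' ∈ Cfsg.Omega F (⇑(plusForm (k + k) F)) := h5.1 (by decide)
      have h7 : r = g * h'⁻¹ := by
        rw [hh']
        group
      rw [h7]
      exact mul_mem hg (inv_mem h6)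
    · -- the other classes do not split
      intro t s htO hsO htt hss ht1 hs1 hconj hnot
      obtain ⟨v', hv', hfix⟩ := exists_fixed_plus t htt (fun hno => by
        apply hnot
        refine (isConj_iff_inv hQ _ _ h01 htt).2 ⟨?_, ?_⟩
        · exact h03.trans ((two_mul k).trans hno.1.symm)
        · exact ⟨fun _ => hspecial t htt hno.2, fun _ => h04⟩)
      obtain ⟨g, hg⟩ := isConj_iff.1 hconj
      exact omega_conj_of_refl hQ hF hg hv' hfix
    · -- the class of `t₀` meets exactly the `Ω`-classes of `t₀` and `t₁`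
      intro s hsO hss hconj
      obtain ⟨g, hg⟩ := isConj_iff.1 hconj
      by_cases hgO : g ∈ Cfsg.Omega F (⇑(plusForm (k + k) F))
      · exact Or.inl ⟨g, hgO, hg⟩
      · right
        refine ⟨g * r⁻¹, ?_, ?_⟩
        · rw [mem_omega_iff_char_two hQ hF] at hgO ⊢
          rw [map_mul, map_inv, hr, dicksonHom_reflection]
          rcases Int.units_eq_one_or (dicksonHom hQ hF g) with h5 | h5
          · exact absurd h5 hgO
          · rw [h5]
            rfl
        · rw [← hg, ht₁]
          group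
  · -- `m` odd: no class splits
    rw [if_neg hev]
    rw [card_classes_Omega hQ (mkS (evS m) (evS m)) hmem hex ?_, card_mkS, card_evS]
    · omega
    · intro t s htO hsO htt hss ht1 hs1 hconj
      obtain ⟨v', hv', hfix⟩ := exists_fixed_plus t htt (fun hno => by
        apply hev
        have h3 := (hΩ t).1 htO
        rw [rk, hno.1] at h3
        exact h3)
      obtain ⟨g, hg⟩ := isConj_iff.1 hconj
      exact omega_conj_of_refl hQ hF hg hv' hfix

end Cfsg.Agent.S2597
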