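import Cfsg.Statements.S2598
import Mathlib
import Cfsg.Agent.Lib.Classical.Witt.InvolModels
import Cfsg.Agent.Lib.Classical.Witt.DicksonY


set_option autoImplicit false
open Cfsg

namespace Cfsg.Agent.S2598

open Module QuadraticMap Matrix
open Cfsg.Agent.Lib.Classical.Orth.Basic Cfsg.Agent.Lib.Classical.Orth.Models
open Cfsg.Agent.Lib.Classical.Orth.Dickson Cfsg.Agent.Lib.Classical.Orth.DicksonRank
open Cfsg.Agent.Lib.Classical.Witt.InvolCount Cfsg.Agent.Lib.Classical.Witt.InvolModels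

/-- Moving a conjugator into `Ω` when `Ω` is the set of elements of even rank. -/
theorem omega_conj_of_refl' {ι : Type} [Fintype ι] [DecidableEq ι] {F : Type*} [Field F] {Q : QuadraticForm F (ι → F)}
    (hQ : (polarBilin Q).Nondegenerate)
    (hΩ : ∀ g : ↥(Cfsg.isometryGroup F (⇑Q)), g ∈ Cfsg.Omega F (⇑Q) ↔ Even (rk g))
    {t s g : ↥(Cfsg.isometryGroup F (⇑Q))}
    (hg : g * t * g⁻¹ = s) {v : ι → F} (hv : Q v ≠ 0) (htv : act t v = v) :
    ∃ g' ∈ Cfsg.Omega F (⇑Q), g' * t * g'⁻¹ = s := by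
  by_cases hgO : g ∈ Cfsg.Omega F (⇑Q)
  · exact ⟨g, hgO, hg⟩
  · refine ⟨g * reflectionIso Q v hv, ?_, ?_⟩
    · rw [hΩ] at hgO ⊢
      have h1 := dicksonSign_reflection_mul hQ v hv g
      have h2 : dicksonSign g = -1 := by
        rcases Int.units_eq_one_or (dicksonSign g) with h5 | h5
        · exact absurd ((dicksonSign_eq_one_iff g).1 h5) hgO
        · exact h5
      rw [h2, neg_neg] at h1
      have h3 := (dicksonSign_eq_one_iff _).1 h1
      have h4 : rk (g * reflectionIso Q v hv) = rk (reflectionIso Q v hv * g) := by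
        apply (Cfsg.Agent.Lib.Classical.Witt.InvolChar2.rank_eq_of_conj (g := (g⁻¹ : GL ι F)) (t := ((g * reflectionIso Q v hv : ↥(Cfsg.isometryGroup F (⇑Q))) : GL ι F)) (s := ((reflectionIso Q v hv * g : ↥(Cfsg.isometryGroup F (⇑Q))) : GL ι F)) ?_)
        simp only [Subgroup.coe_mul]
        group
      rw [h4]
      exact h3
    · have hcomm : reflectionIso Q v hv * t = t * reflectionIso Q v hv := by
        have h1 := conj_reflectionIso t v hv
        have h2 : reflectionIso Q (act t v) (by rwa [Q_act]) = reflectionIso Q v hv := by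
          apply ext_act
          intro x
          rw [reflectionIso_act, reflectionIso_act, htv]
        rw [h2] at h1
        exact (mul_inv_eq_iff_eq_mul.1 h1).symm
      rw [← hg, _root_.mul_inv_rev]
      calc g * reflectionIso Q v hv * t * ((reflectionIso Q v hv)⁻¹ * g⁻¹)
          = g * (reflectionIso Q v hv * t) * (reflectionIso Q v hv)⁻¹ * g⁻¹ := by group
        _ = g * t * g⁻¹ := by rw [hcomm]; group


/-- Number of conjugacy classes of involutions in Ω⁻_2m(F) (the commutator subgroup of the orthogonal group of an elliptic quadratic form, Σ_(i<m−1) x_i y_i plus an anisotropic binary form) over a finite field F of characteristic two, m ≥ 1: the involutions of Ω are those with s = rank(t − 1) even, one O-class for each even s with 2 ≤ s ≤ m on which v ↦ f(v, tv) is not identically zero and one for each even s with 2 ≤ s < m on which it is zero (f the polar form; in characteristic 2, f(v, tv) = Q(v + tv)), none of which splits in Ω; in all ⌊m/2⌋ + ⌊(m − 1)/2⌋.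 -/
theorem result {F : Type*} [Field F] [Fintype F] [CharP F 2] {m : ℕ} (hm : 1 ≤ m) (a b : F) (hab : ∀ z₁ z₂ : F, z₁ ^ 2 + a * z₁ * z₂ + b * z₂ ^ 2 = 0 → z₁ = 0 ∧ z₂ = 0) : Nat.card {C : ConjClasses ↥(Cfsg.Omega F (Cfsg.quadFormMinus (m - 1) F a b)) // ∃ g : ↥(Cfsg.Omega F (Cfsg.quadFormMinus (m - 1) F a b)), ConjClasses.mk g = C ∧ orderOf g = 2} = m / 2 + (m - 1) / 2 := by
  rw [← coe_minusForm (m - 1) F a b]
  have hQ := minusForm_nondegenerate (m - 1) a b hab
  have hcard : Fintype.card ((Fin (m - 1) ⊕ Fin (m - 1)) ⊕ Fin 2) = 2 * m := by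
    simp only [Fintype.card_sum, Fintype.card_fin]; omega
  have hΩ : ∀ g : ↥(Cfsg.isometryGroup F (⇑(minusForm (m - 1) F a b))),
      g ∈ Cfsg.Omega F (⇑(minusForm (m - 1) F a b)) ↔ Even (rk g) := by
    by_cases hm2 : m = 2
    · subst hm2
      exact Cfsg.Agent.Lib.Classical.Witt.DicksonY.mem_omega_iff_rank_evenY hQ
        (Cfsg.Agent.Lib.Classical.Witt.DicksonY.hasY_minusOne hab)
    · exact mem_omega_iff_rank_even hQ (Or.inr (by rw [hcard]; omega))
  rw [card_classes_Omega hQ (mkS (evS m) (evS (m - 1))) ?_ ?_ ?_, card_mkS, card_evS, card_evS]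
  · intro t htO htt ht1
    have h1 := rk_pos ht1
    have h2 := two_mul_rk_le hQ htt
    rw [hcard] at h2
    have h3 := (hΩ t).1 htO
    rw [mem_mkS]
    by_cases ha : IsAltT t
    · right
      refine ⟨altB_eq_true.2 ha, ?_⟩
      rw [mem_evS]
      exact ⟨⟨h1, rk_le_of_alt_minus hab htt ha⟩, h3.two_dvd⟩
    · left
      refine ⟨?_, ?_⟩
      · simp only
        rw [Bool.eq_false_iff]
        exact fun h => ha (altB_eq_true.1 h)
      · rw [mem_evS]
        exact ⟨⟨h1, by simp only; omega⟩, h3.two_dvd⟩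
  · rintro ⟨s, b⟩ hp
    rw [mem_mkS] at hp
    rcases hp with ⟨rfl, hs⟩ | ⟨rfl, hs⟩
    · rw [mem_evS] at hs
      simp only at hs
      obtain ⟨⟨h0, hsm⟩, k, rfl⟩ := hs
      obtain ⟨t, h1, h2, h3, h4⟩ := minus_nonalt (m := m - 1) hab (2 * k) h0 (by omega)
      exact ⟨t, (hΩ t).2 (by rw [h3]; exact even_two_mul k), h1, h2, h3, by simpa using h4⟩
    · rw [mem_evS] at hs
      simp only at hs
      obtain ⟨⟨h0, hsm⟩, k, rfl⟩ := hs
      obtain ⟨t, h1, h2, h3, h4⟩ := minus_alt (m := m - 1) hab k (by omega) hsm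
      exact ⟨t, (hΩ t).2 (by rw [h3]; exact even_two_mul k), h1, h2, h3, by simpa using h4⟩
  · intro t s htO hsO htt hss ht1 hs1 hconj
    obtain ⟨v, hv, hfix⟩ := Cfsg.Agent.Lib.Classical.Witt.InvolChar2Omega.exists_fixed_minus hm hab t htt
    obtain ⟨g, hg⟩ := isConj_iff.1 hconj
    exact omega_conj_of_refl' hQ hΩ hg hv hfix

end Cfsg.Agent.S2598
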