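import Cfsg.Statements.S2599
import Mathlib
-- import your own Cfsg.Agent.* helpers here

set_option autoImplicit false
open Cfsg

namespace Cfsg.Agent.S2599

/-- An irreducible invariant subspace of a semisimple isometry is non-degenerate or totally singular: let Q be a quadratic form on F^n (F finite of characteristic p) with non-degenerate polar form f, x an isometry of Q of order prime to p, and U a non-zero x-invariant subspace containing no x-invariant subspace other than 0 and U. Then U meets its f-orthogonal trivially, or Q vanishes on U, or p = 2, U is a line spanned by a non-singular vector and x fixes U pointwise. -/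
theorem result {F : Type*} [Field F] [Fintype F] {p : ℕ} [Fact p.Prime] [CharP F p] {n : ℕ} (Q : QuadraticForm F (Fin n → F)) (hQ : (QuadraticMap.polarBilin Q).Nondegenerate) (x : ↥(Cfsg.isometryGroup F ⇑Q)) (hx : (orderOf x).Coprime p) (U : Submodule F (Fin n → F)) (hU0 : U ≠ ⊥) (hUx : ∀ u ∈ U, ((x : Matrix.GeneralLinearGroup (Fin n) F) : Matrix (Fin n) (Fin n) F).mulVec u ∈ U) (hirr : ∀ W : Submodule F (Fin n → F), W ≤ U → (∀ w ∈ W, ((x : Matrix.GeneralLinearGroup (Fin n) F) : Matrix (Fin n) (Fin n) F).mulVec w ∈ W) → W = ⊥ ∨ W = U) : U ⊓ LinearMap.BilinForm.orthogonal (QuadraticMap.polarBilin Q) U = ⊥ ∨ (∀ u ∈ U, Q u = 0) ∨ (p = 2 ∧ Module.finrank F U = 1 ∧ (∃ u ∈ U, Q u ≠ 0) ∧ ∀ u ∈ U, ((x : Matrix.GeneralLinearGroup (Fin n) F) : Matrix (Fin n) (Fin n) F).mulVec u = u) := by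
  classical
  set X : Matrix (Fin n) (Fin n) F := ((x : Matrix.GeneralLinearGroup (Fin n) F) : Matrix (Fin n) (Fin n) F) with hX
  set B : LinearMap.BilinForm F (Fin n → F) := QuadraticMap.polarBilin Q with hB
  have hQX : ∀ u, Q (X.mulVec u) = Q u := fun u => x.2 u 0
  have hBX : ∀ u v, B (X.mulVec u) (X.mulVec v) = B u v := by
    intro u v
    simp only [hB, QuadraticMap.polarBilin_apply_apply, QuadraticMap.polar]
    rw [← Matrix.mulVec_add, hQX, hQX, hQX]
  have hXinj : Function.Injective X.mulVec :=
    Matrix.mulVec_injective_iff_isUnit.2 (x : Matrix.GeneralLinearGroup (Fin n) F).isUnit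
  -- `X` maps `U` onto `U`
  have hsurj : ∀ u ∈ U, ∃ u' ∈ U, X.mulVec u' = u := by
    intro u hu
    let T : U →ₗ[F] U := (X.mulVecLin).restrict hUx
    have hTinj : Function.Injective T := by
      intro a b hab
      apply Subtype.ext
      apply hXinj
      exact congrArg Subtype.val hab
    have hTsurj : Function.Surjective T := LinearMap.surjective_of_injective hTinj
    obtain ⟨a, ha⟩ := hTsurj ⟨u, hu⟩
    exact ⟨a, a.2, congrArg Subtype.val ha⟩
  -- the radical of `U` is invariant
  have hrad := hirr (U ⊓ B.orthogonal U) inf_le_left (by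
    rintro w ⟨hw1, hw2⟩
    refine ⟨hUx w hw1, ?_⟩
    intro u hu
    obtain ⟨u', hu', rfl⟩ := hsurj u hu
    show B (X.mulVec u') (X.mulVec w) = 0
    rw [hBX]
    exact hw2 u' hu')
  rcases hrad with hrad | hrad
  · exact Or.inl hrad
  right
  -- the polar form vanishes on `U`
  have hB0 : ∀ u ∈ U, ∀ v ∈ U, B u v = 0 := by
    intro u hu v hv
    have : v ∈ U ⊓ B.orthogonal U := by rw [hrad]; exact hv
    exact this.2 u hu
  have hadd : ∀ u ∈ U, ∀ v ∈ U, Q (u + v) = Q u + Q v := by
    intro u hu v hv
    have := hB0 u hu v hv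
    simp only [hB, QuadraticMap.polarBilin_apply_apply, QuadraticMap.polar] at this
    linear_combination this
  by_cases hp : p = 2
  · subst hp
    have h20 : (2 : F) = 0 := by exact_mod_cast CharP.cast_eq_zero F 2
    -- the singular vectors of `U`
    let K : Submodule F (Fin n → F) :=
      { carrier := {u | u ∈ U ∧ Q u = 0}
        add_mem' := by
          rintro a b ⟨ha, ha'⟩ ⟨hb, hb'⟩
          exact ⟨U.add_mem ha hb, by rw [hadd a ha b hb, ha', hb', add_zero]⟩
        zero_mem' := ⟨U.zero_mem, by simp⟩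
        smul_mem' := by
          rintro c a ⟨ha, ha'⟩
          exact ⟨U.smul_mem c ha, by rw [QuadraticMap.map_smul, ha']; simp⟩ }
    have hK := hirr K (fun u hu => hu.1) (by
      rintro w ⟨hw1, hw2⟩
      exact ⟨hUx w hw1, by rw [hQX, hw2]⟩)
    rcases hK with hK | hK
    · right
      have hne : ∀ u ∈ U, u ≠ 0 → Q u ≠ 0 := by
        intro u hu hu0 hQu
        have : u ∈ K := ⟨hu, hQu⟩
        rw [hK] at this
        exact hu0 (by simpa using this)
      obtain ⟨u₀, hu₀, hu₀0⟩ := Submodule.exists_mem_ne_zero_of_ne_bot hU0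
      have hQu₀ := hne u₀ hu₀ hu₀0
      have hspan : ∀ v ∈ U, ∃ c : F, c • u₀ = v := by
        intro v hv
        have hchar : ringChar F = 2 := ringChar.eq F 2
        obtain ⟨c, hc⟩ := FiniteField.isSquare_of_char_two hchar (Q v / Q u₀)
        have h3 : Q (v + c • u₀) = 0 := by
          rw [hadd v hv _ (U.smul_mem c hu₀), QuadraticMap.map_smul, smul_eq_mul, ← hc,
            div_mul_cancel₀ _ hQu₀]
          linear_combination (Q v) * h20
        have h4 : v + c • u₀ = 0 := by
          by_contra h5
          exact hne _ (U.add_mem hv (U.smul_mem c hu₀)) h5 h3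
        refine ⟨-c, ?_⟩
        rw [neg_smul]
        exact neg_eq_of_add_eq_zero_left h4 |>.symm ▸ rfl
      have hfix₀ : X.mulVec u₀ = u₀ := by
        obtain ⟨c, hc⟩ := hspan _ (hUx u₀ hu₀)
        have h5 := hQX u₀
        rw [← hc, QuadraticMap.map_smul, smul_eq_mul] at h5
        have h6 : c * c = 1 := by
          have : (c * c - 1) * Q u₀ = 0 := by linear_combination h5
          have h7 := (mul_eq_zero.1 this).resolve_right hQu₀
          exact sub_eq_zero.1 h7
        have h8 : (c - 1) * (c - 1) = 0 := by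
          linear_combination h6 + (1 - c) * h20
        have h9 : c = 1 := sub_eq_zero.1 (mul_self_eq_zero.1 h8)
        rw [← hc, h9, one_smul]
      refine ⟨rfl, ?_, ⟨u₀, hu₀, hQu₀⟩, ?_⟩
      · refine finrank_eq_one (⟨u₀, hu₀⟩ : U) (fun h0 => hu₀0 (congrArg Subtype.val h0)) ?_
        rintro ⟨v, hv⟩
        obtain ⟨c, hc⟩ := hspan v hv
        exact ⟨c, Subtype.ext hc⟩
      · intro u hu
        obtain ⟨c, rfl⟩ := hspan u hu
        rw [Matrix.mulVec_smul, hfix₀]
    · left
      intro u hu
      have : u ∈ K := by rw [hK]; exact hu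
      exact this.2
  · left
    intro u hu
    have h2 : (2 : F) ≠ 0 := by
      intro h20
      have h3 : ((2 : ℕ) : F) = 0 := by exact_mod_cast h20
      rw [CharP.cast_eq_zero_iff F p] at h3
      exact hp ((Nat.prime_dvd_prime_iff_eq Fact.out Nat.prime_two).1 h3)
    have h4 := hB0 u hu u hu
    have h5 : B u u = 2 * Q u := by
      simp only [hB, QuadraticMap.polarBilin_apply_apply, QuadraticMap.polar_self]
      simp [two_smul, two_mul]
    rw [h5] at h4
    exact (mul_eq_zero.1 h4).resolve_left h2

end Cfsg.Agent.S2599
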