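import Cfsg.Statements.S2607
import Mathlib
import Cfsg.Agent.Lib.Classical.OrthAut.Oct9

set_option autoImplicit false
open Cfsg

namespace Cfsg.Agent.S2607

/-- Outer automorphism group of PΩ⁺_2m(q), q = 2^f: for m ≥ 5 it is the direct product of a group of order 2 (graph automorphism, an orthogonal transvection) and a cyclic group of order f (field automorphisms); for m = 4 triality enlarges it to S_3 × C_f. -/
theorem result {F : Type*} [Field F] [Fintype F] {f m : ℕ} (hf : 1 ≤ f) (hF : Fintype.card F = 2 ^ f) (hm : 4 ≤ m) : if m = 4 then Nonempty (Cfsg.Out (Cfsg.POmega F (Cfsg.quadFormPlus m F)) ≃* Equiv.Perm (Fin 3) × Multiplicative (ZMod f)) else Nonempty (Cfsg.Out (Cfsg.POmega F (Cfsg.quadFormPlus m F)) ≃* Multiplicative (ZMod 2 × ZMod f)) := by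
  rw [← Cfsg.Agent.Lib.Classical.Orth.Models.coe_plusForm m F]
  split_ifs with h4
  · exact Cfsg.Agent.Lib.Classical.OrthAut.Oct.out_four_two hf hF h4
  · exact Cfsg.Agent.Lib.Classical.OrthAut.Oct.out_large_two hf hF (by omega)

end Cfsg.Agent.S2607
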