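import Cfsg.Statements.S2619
import Mathlib


set_option autoImplicit false
open Cfsg

namespace Cfsg.Agent.S2619

/-- Over a finite field of characteristic two, given an alternating bilinear form B on a finite-dimensional space, a basis (v_i) and scalars (λ_i), there is exactly one quadratic form whose polar form is B and whose value at each v_i is λ_i. -/
theorem result {F V ι : Type*} [Field F] [Finite F] [CharP F 2] [AddCommGroup V] [Module F V] [Fintype ι] (b : Module.Basis ι F V) (B : LinearMap.BilinForm F V) (hB : B.IsAlt) (c : ι → F) : ∃! Q : QuadraticForm F V, QuadraticMap.polarBilin Q = B ∧ ∀ i, Q (b i) = c i := by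
  classical
  let _ : LinearOrder ι := LinearOrder.lift' (Fintype.equivFin ι) (Fintype.equivFin ι).injective
  have h2 : (2 : F) = 0 := by
    have := CharP.cast_eq_zero F 2
    exact_mod_cast this
  have hsymm : ∀ x y, B x y = B y x := by
    intro x y
    have h := hB.neg_eq x y
    have h3 : B x y + B x y = 0 := by
      rw [← two_mul, h2, zero_mul]
    rw [← h]
    linear_combination h3
  let M : Matrix ι ι F := fun i j => if i < j then B (b i) (b j) else if i = j then c i else 0
  let A : LinearMap.BilinForm F V := Matrix.toBilin b M
  have hA : ∀ i j, A (b i) (b j) = M i j := by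
    intro i j
    simp [A, Matrix.toBilin_apply, Module.Basis.repr_self, Finsupp.single_apply]
  have hpolar : QuadraticMap.polarBilin (A.toQuadraticMap) = B := by
    refine b.ext fun i => b.ext fun j => ?_
    simp only [QuadraticMap.polarBilin_apply_apply, QuadraticMap.polar, LinearMap.BilinMap.toQuadraticMap_apply]
    simp only [map_add, LinearMap.add_apply, hA]
    have e : ∀ x y z w : F, x + y + (z + w) - x - w = y + z := by intros; ring
    rw [e]
    rcases lt_trichotomy i j with h | h | h
    · simp [M, h, not_lt.2 h.le, h.ne']
    · subst h
      simp only [M, lt_irrefl, if_false, if_true]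
      rw [hB.self_eq_zero, ← two_mul, h2, zero_mul]
    · simp [M, h, not_lt.2 h.le, h.ne']
      rw [hsymm]
  refine ⟨A.toQuadraticMap, ⟨hpolar, fun i => ?_⟩, ?_⟩
  · simp [hA, M]
  · rintro Q' ⟨hQ', hc'⟩
    -- the difference is additive and semilinear, zero on the basis
    have hP : ∀ x y, Q' (x + y) = Q' x + Q' y + B x y := by
      intro x y
      have := LinearMap.congr_fun (LinearMap.congr_fun hQ' x) y
      simp only [QuadraticMap.polarBilin_apply_apply, QuadraticMap.polar] at this
      rw [← this]
      ring
    have hP2 : ∀ x y, A.toQuadraticMap (x + y) = A.toQuadraticMap x + A.toQuadraticMap y + B x y := by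
      intro x y
      have := LinearMap.congr_fun (LinearMap.congr_fun hpolar x) y
      simp only [QuadraticMap.polarBilin_apply_apply, QuadraticMap.polar] at this
      rw [← this]
      ring
    have key : ∀ s : Finset ι, ∀ x : ι → F, Q' (∑ i ∈ s, x i • b i) = A.toQuadraticMap (∑ i ∈ s, x i • b i) := by
      intro s x
      induction s using Finset.induction_on with
      | empty => simp
      | insert i s hi ih =>
        rw [Finset.sum_insert hi, hP, hP2, ih, QuadraticMap.map_smul, QuadraticMap.map_smul, hc' i]
        simp [hA, M]
    ext v
    have := key Finset.univ (fun i => b.repr v i)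
    rwa [b.sum_repr] at this

end Cfsg.Agent.S2619
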