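import Cfsg.Statements.S2621
import Mathlib
import Cfsg.Agent.Lib.Classical.Witt.Disc

set_option autoImplicit false
open Cfsg

namespace Cfsg.Agent.S2621

/-- Discriminant of an elliptic quadratic form Σ_(i<m−1) x_i y_i + z₁² + a z₁z₂ + c z₂² (binary part anisotropic) in dimension 2m over a field with q elements, q odd, m ≥ 1: the determinant of the Gram matrix of its polar form in any basis is a square if and only if m(q − 1)/2 is odd (equivalently q^m ≡ 3 (mod 4)). -/
theorem result {F : Type*} [Field F] [Fintype F] {q : ℕ} (hF : Fintype.card F = q) (hq : Odd q) {m : ℕ} (hm : 1 ≤ m) (a c : F) (hac : ∀ z₁ z₂ : F, z₁ ^ 2 + a * z₁ * z₂ + c * z₂ ^ 2 = 0 → z₁ = 0 ∧ z₂ = 0) {ι : Type*} [Fintype ι] [DecidableEq ι] (b : Module.Basis ι F ((Fin (m - 1) ⊕ Fin (m - 1)) ⊕ Fin 2 → F)) : IsSquare (Matrix.of (fun i j : ι => QuadraticMap.polar (Cfsg.quadFormMinus (m - 1) F a c) (b i) (b j))).det ↔ ¬ Even (m * (q - 1) / 2) := by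
  classical
  have h2 : (2 : F) ≠ 0 := by
    intro h
    have hc : ringChar F = 2 := by
      have := CharP.cast_eq_zero_iff F (ringChar F) 2
      have hd : ringChar F ∣ 2 := this.1 (by exact_mod_cast h)
      rcases (Nat.dvd_prime Nat.prime_two).1 hd with h1 | h1
      · exact absurd h1 (CharP.ringChar_ne_one)
      · exact h1
    have := FiniteField.even_card_of_char_two hc
    rw [hF] at this
    exact (Nat.not_even_iff_odd.2 hq) (Nat.even_iff.2 this)
  have hc2 : ringChar F ≠ 2 := by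
    intro hc
    apply h2
    have := ringChar.Nat.cast_ringChar (R := F)
    rw [hc] at this
    exact_mod_cast this
  have hdisc := Cfsg.Agent.Lib.Classical.Witt.Disc.not_isSquare_disc h2 hac
  rw [Cfsg.Agent.Lib.Classical.Witt.Disc.isSquare_det_minus_iff (m - 1) a c b]
  rw [← Cfsg.Agent.Lib.Classical.Witt.Disc.isSquare_neg_one_pow_iff hF hq m]
  obtain ⟨k, rfl⟩ : ∃ k, m = k + 1 := ⟨m - 1, by omega⟩
  rw [show k + 1 - 1 = k by omega]
  have : (-1 : F) ^ k * (4 * c - a ^ 2) = (-1 : F) ^ (k + 1) * (a ^ 2 - 4 * c) := by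
    rw [pow_succ]
    ring
  rw [this]
  exact Cfsg.Agent.Lib.Classical.Witt.Disc.isSquare_mul_nonsquare_iff hc2 (pow_ne_zero _ (by simp)) hdisc

end Cfsg.Agent.S2621
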