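import Cfsg.Statements.S2624
import Mathlib
import Cfsg.Agent.Lib.Classical.Witt.Index
import Cfsg.Agent.Lib.Classical.Witt.Hyp

set_option autoImplicit false
open Cfsg

namespace Cfsg.Agent.S2624

open Cfsg.Agent.Lib.Linalg.OrthModels

universe u

variable {F : Type u} [Field F]

theorem exists_plus_map (m : ℕ) (c : F) :
    ∃ f : (Fin m ⊕ Fin m → F) →ₗ[F] (Fin m ⊕ Fin m → F), ∀ v, plusQ m F (f v) = c * plusQ m F v := by
  refine ⟨LinearMap.pi (fun s => Sum.elim (fun i => c • LinearMap.proj (Sum.inl i)) (fun i => LinearMap.proj (Sum.inr i)) s), fun v => ?_⟩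
  simp only [plusQ_apply, quadFormPlus, Finset.mul_sum]
  refine Finset.sum_congr rfl fun i _ => ?_
  simp [LinearMap.pi_apply]
  ring

/-- `s^2 + s t + ζ t^2 = c` is solvable: a three-variable quadratic form has a nontrivial zero. -/
theorem exists_norm_eq [Finite F] {ζ : F} (hζ : ∀ t : F, t ^ 2 + t + ζ ≠ 0) {c : F} (hc : c ≠ 0) :
    ∃ s t : F, s ^ 2 + s * t + ζ * t ^ 2 = c := by
  classical
  have hac := Cfsg.Agent.Lib.Classical.Witt.Index.anisotropic_of_no_root hζ
  have hval : ∀ v : (Fin 0 ⊕ Fin 0) ⊕ Fin 2 → F, minusQ 0 F 1 ζ v =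
      v (Sum.inr 0) ^ 2 + 1 * v (Sum.inr 0) * v (Sum.inr 1) + ζ * v (Sum.inr 1) ^ 2 := by
    intro v
    simp [minusQ_apply, quadFormMinus]
  obtain ⟨x, hx⟩ := Cfsg.Agent.Lib.Classical.Witt.Hyp.exists_unit_of_anisotropic (c⁻¹ • minusQ 0 F 1 ζ)
    (by simp) (by
      intro v hv hv0
      apply hv
      have h1 : minusQ 0 F 1 ζ v = 0 := by
        have := hv0
        simp only [QuadraticMap.smul_apply, smul_eq_mul] at this
        exact (mul_eq_zero.1 this).resolve_left (inv_ne_zero hc)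
      rw [hval] at h1
      obtain ⟨h0, h3⟩ := hac _ _ h1
      funext r
      rcases r with (i | i) | k
      · exact i.elim0
      · exact i.elim0
      · fin_cases k
        · exact h0
        · exact h3)
  refine ⟨x (Sum.inr 0), x (Sum.inr 1), ?_⟩
  simp only [QuadraticMap.smul_apply, smul_eq_mul] at hx
  rw [hval] at hx
  field_simp at hx
  linear_combination hx

theorem exists_minus_map [Finite F] (m : ℕ) {ζ : F} (hζ : ∀ t : F, t ^ 2 + t + ζ ≠ 0) {c : F} (hc : c ≠ 0) :
    ∃ f : ((Fin m ⊕ Fin m) ⊕ Fin 2 → F) →ₗ[F] ((Fin m ⊕ Fin m) ⊕ Fin 2 → F),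
      ∀ v, minusQ m F 1 ζ (f v) = c * minusQ m F 1 ζ v := by
  obtain ⟨s, t, hst⟩ := exists_norm_eq hζ hc
  let row : (Fin m ⊕ Fin m) ⊕ Fin 2 → (((Fin m ⊕ Fin m) ⊕ Fin 2 → F) →ₗ[F] F) := fun r =>
    match r with
    | Sum.inl (Sum.inl i) => c • LinearMap.proj (Sum.inl (Sum.inl i))
    | Sum.inl (Sum.inr i) => LinearMap.proj (Sum.inl (Sum.inr i))
    | Sum.inr k => if k = 0 then
        s • LinearMap.proj (Sum.inr 0) - (ζ * t) • LinearMap.proj (Sum.inr 1)
      else t • LinearMap.proj (Sum.inr 0) + (s + t) • LinearMap.proj (Sum.inr 1)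
  refine ⟨LinearMap.pi row, fun v => ?_⟩
  simp only [minusQ_apply, quadFormMinus, mul_add, Finset.mul_sum]
  congr 1
  · refine Finset.sum_congr rfl fun i _ => ?_
    simp [LinearMap.pi_apply, row]
    ring
  · simp [LinearMap.pi_apply, row]
    rw [← hst]
    ring


/-- For a quadratic form Q on F^n with non-degenerate polar form, F finite and n ≥ 2 even, every non-zero scalar c is the multiplier of some similarity: there is an invertible linear map g with Q(g v) = c·Q(v) for all v. -/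
theorem result {F : Type*} [Field F] [Fintype F] {n : ℕ} (hn : 2 ≤ n) (he : Even n) (Q : QuadraticForm F (Fin n → F)) (hQ : (QuadraticMap.polarBilin Q).Nondegenerate) (c : F) (hc : c ≠ 0) : ∃ g : (Fin n → F) ≃ₗ[F] (Fin n → F), ∀ v, Q (g v) = c * Q v := by
  classical
  obtain ⟨m, hm⟩ := he
  have hm1 : 1 ≤ m := by omega
  have hfr : Module.finrank F (Fin n → F) = 2 * m := by
    simp [hm]
    ring
  have hpn := Cfsg.Agent.Lib.Classical.Witt.Hyp.polarNondeg_of_nondeg Q hQ
  -- enough: a linear map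
  suffices h : ∃ f : (Fin n → F) →ₗ[F] (Fin n → F), ∀ v, Q (f v) = c * Q v by
    obtain ⟨f, hf⟩ := h
    have hinj : Function.Injective f := by
      rw [← LinearMap.ker_eq_bot, LinearMap.ker_eq_bot']
      intro v hv
      apply hpn v
      intro w
      have h1 : c * QuadraticMap.polar Q v w = QuadraticMap.polar Q (f v) (f w) := by
        simp only [QuadraticMap.polar, ← map_add, hf]
        ring
      rw [hv] at h1
      have h4 : QuadraticMap.polar Q 0 (f w) = 0 := by
        simp [QuadraticMap.polar]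
      rw [h4] at h1
      exact (mul_eq_zero.1 h1).resolve_left hc
    exact ⟨LinearEquiv.ofInjectiveEndo f hinj, fun v => hf v⟩
  rcases Cfsg.Agent.Lib.Classical.Witt.Index.exists_isometry_plus_or_minus hm1 hfr Q hQ with
    ⟨g, hg⟩ | ⟨ζ, hζ, g, hg⟩
  · obtain ⟨f0, hf0⟩ := exists_plus_map (F := F) m c
    refine ⟨g.symm.toLinearMap ∘ₗ f0 ∘ₗ g.toLinearMap, fun v => ?_⟩
    rw [← hg, ← hg]
    simp only [LinearMap.comp_apply, LinearEquiv.coe_coe, LinearEquiv.apply_symm_apply]
    exact hf0 _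
  · obtain ⟨f0, hf0⟩ := exists_minus_map (F := F) (m - 1) hζ hc
    refine ⟨g.symm.toLinearMap ∘ₗ f0 ∘ₗ g.toLinearMap, fun v => ?_⟩
    rw [← hg, ← hg]
    simp only [LinearMap.comp_apply, LinearEquiv.coe_coe, LinearEquiv.apply_symm_apply]
    exact hf0 _

end Cfsg.Agent.S2624
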