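import Cfsg.Statements.S2625
import Mathlib
-- import your own Cfsg.Agent.* helpers here

set_option autoImplicit false
open Cfsg

namespace Cfsg.Agent.S2625

/-- For a quadratic form Q on F^n with non-degenerate polar form, F finite and n odd (so |F| is odd), the multiplier of any similarity is a square: if g is an invertible linear map with Q(g v) = c·Q(v) for all v then c is a square. -/
theorem result {F : Type*} [Field F] [Fintype F] {n : ℕ} (hn : Odd n) (Q : QuadraticForm F (Fin n → F)) (hQ : (QuadraticMap.polarBilin Q).Nondegenerate) (g : (Fin n → F) ≃ₗ[F] (Fin n → F)) (c : F) (hg : ∀ v, Q (g v) = c * Q v) : IsSquare c := by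
  classical
  set B := QuadraticMap.polarBilin Q with hB
  have hcompl : B.compl₁₂ (g : (Fin n → F) →ₗ[F] (Fin n → F)) (g : (Fin n → F) →ₗ[F] (Fin n → F)) = c • B := by
    refine LinearMap.ext fun u => LinearMap.ext fun v => ?_
    simp only [LinearMap.compl₁₂_apply, LinearMap.smul_apply, hB, QuadraticMap.polarBilin_apply_apply,
      QuadraticMap.polar, LinearEquiv.coe_coe, smul_eq_mul]
    have h1 := hg (u + v)
    rw [map_add] at h1
    rw [h1, hg u, hg v]
    ring
  set G := LinearMap.toMatrix₂' F B with hG
  set M := LinearMap.toMatrix' (g : (Fin n → F) →ₗ[F] (Fin n → F)) with hM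
  have hdet : G.det ≠ 0 := by
    have := (LinearMap.Nondegenerate.toMatrix₂' hQ)
    exact Matrix.nondegenerate_iff_det_ne_zero.mp this
  have hmat : M.transpose * G * M = c • G := by
    have := LinearMap.toMatrix₂'_compl₁₂ (R := F) B (g : (Fin n → F) →ₗ[F] (Fin n → F)) (g : (Fin n → F) →ₗ[F] (Fin n → F))
    rw [hcompl] at this
    rw [hG, hM, ← this]
    ext i j
    simp [LinearMap.toMatrix₂'_apply]
  have hdet2 : M.det * M.det = c ^ n := by
    have := congrArg Matrix.det hmat
    rw [Matrix.det_mul, Matrix.det_mul, Matrix.det_transpose, Matrix.det_smul, Fintype.card_fin] at this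
    have h3 : (M.det * M.det - c ^ n) * G.det = 0 := by
      linear_combination this
    rcases mul_eq_zero.mp h3 with h | h
    · exact sub_eq_zero.mp h
    · exact absurd h hdet
  obtain ⟨k, rfl⟩ := hn
  by_cases hc : c = 0
  · exact hc ▸ ⟨0, by simp⟩
  · refine ⟨M.det / c ^ k, ?_⟩
    have hck : c ^ k ≠ 0 := pow_ne_zero _ hc
    field_simp
    linear_combination -hdet2

end Cfsg.Agent.S2625
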