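import Cfsg.Statements.S2626
import Mathlib
-- import your own Cfsg.Agent.* helpers here

set_option autoImplicit false
open Cfsg

namespace Cfsg.Agent.S2626

open Matrix

/-- Block-diagonal element of GL from two elements of GL. -/
noncomputable def blockUnit {F : Type*} [Field F] {k l : ℕ}
    (a : Matrix.GeneralLinearGroup (Fin k) F) (b : Matrix.GeneralLinearGroup (Fin l) F) :
    Matrix.GeneralLinearGroup (Fin k ⊕ Fin l) F where
  val := Matrix.fromBlocks a.val 0 0 b.val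
  inv := Matrix.fromBlocks a⁻¹.val 0 0 b⁻¹.val
  val_inv := by
    rw [Matrix.fromBlocks_multiply]
    simp [Matrix.fromBlocks_one]
  inv_val := by
    rw [Matrix.fromBlocks_multiply]
    simp [Matrix.fromBlocks_one]

theorem blockUnit_val {F : Type*} [Field F] {k l : ℕ}
    (a : Matrix.GeneralLinearGroup (Fin k) F) (b : Matrix.GeneralLinearGroup (Fin l) F) :
    (blockUnit a b).val = Matrix.fromBlocks a.val 0 0 b.val := rfl

theorem blockUnit_mul {F : Type*} [Field F] {k l : ℕ}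
    (a a' : Matrix.GeneralLinearGroup (Fin k) F) (b b' : Matrix.GeneralLinearGroup (Fin l) F) :
    blockUnit (a * a') (b * b') = blockUnit a b * blockUnit a' b' := by
  apply Units.ext
  simp [blockUnit_val, Matrix.fromBlocks_multiply]

theorem blockUnit_one {F : Type*} [Field F] {k l : ℕ} :
    blockUnit (1 : Matrix.GeneralLinearGroup (Fin k) F) (1 : Matrix.GeneralLinearGroup (Fin l) F) = 1 := by
  apply Units.ext
  simp [blockUnit_val, Matrix.fromBlocks_one]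

/-- The block-diagonal homomorphism between isometry groups. -/
noncomputable def blockHom {F : Type*} [Field F] {k l : ℕ}
    (Q₁ : (Fin k → F) → F) (Q₂ : (Fin l → F) → F) :
    ↥(Cfsg.isometryGroup F Q₁) × ↥(Cfsg.isometryGroup F Q₂) →*
      ↥(Cfsg.isometryGroup F (fun v : Fin k ⊕ Fin l → F => Q₁ (v ∘ Sum.inl) + Q₂ (v ∘ Sum.inr))) where
  toFun p := ⟨blockUnit (p.1 : Matrix.GeneralLinearGroup (Fin k) F) (p.2 : Matrix.GeneralLinearGroup (Fin l) F), by
    intro u v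
    have h1 := p.1.2 (u ∘ Sum.inl) 0
    have h2 := p.2.2 (u ∘ Sum.inr) 0
    simp only [Units.coeHom_apply] at h1 h2 ⊢
    rw [blockUnit_val, Matrix.fromBlocks_mulVec]
    simp only [Matrix.zero_mulVec, add_zero, zero_add]
    change Q₁ _ + Q₂ _ = Q₁ _ + Q₂ _
    simpa [Function.comp_def] using congrArg₂ (· + ·) h1 h2⟩
  map_one' := by
    apply Subtype.ext
    exact blockUnit_one
  map_mul' x y := by
    apply Subtype.ext
    exact blockUnit_mul _ _ _ _

theorem map_mem_comm {A B : Type*} [Group A] [Group B] (f : A →* B) {x : A}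
    (h : x ∈ commutator A) : f x ∈ commutator B := by
  have : (commutator A).map f ≤ commutator B := by
    unfold commutator
    rw [Subgroup.map_commutator]
    exact Subgroup.commutator_mono le_top le_top
  exact this ⟨x, h, rfl⟩

theorem blockHom_omega {F : Type*} [Field F] {k l : ℕ}
    (Q₁ : (Fin k → F) → F) (Q₂ : (Fin l → F) → F)
    (g₁ : ↥(Cfsg.isometryGroup F Q₁)) (g₂ : ↥(Cfsg.isometryGroup F Q₂))
    (hg₁ : g₁ ∈ Cfsg.Omega F Q₁) (hg₂ : g₂ ∈ Cfsg.Omega F Q₂) :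
    blockHom Q₁ Q₂ (g₁, g₂) ∈
      Cfsg.Omega F (fun v : Fin k ⊕ Fin l → F => Q₁ (v ∘ Sum.inl) + Q₂ (v ∘ Sum.inr)) := by
  have key : (g₁, g₂) = ((g₁, 1) * (1, g₂) : ↥(Cfsg.isometryGroup F Q₁) × ↥(Cfsg.isometryGroup F Q₂)) := by
    simp
  rw [key, map_mul]
  refine Subgroup.mul_mem _ ?_ ?_
  · exact map_mem_comm ((blockHom Q₁ Q₂).comp (MonoidHom.inl _ _)) hg₁
  · exact map_mem_comm ((blockHom Q₁ Q₂).comp (MonoidHom.inr _ _)) hg₂

/-- Ω of an orthogonal direct sum contains the product of the Ω's: for quadratic forms Q₁ on F^k and Q₂ on F^l with non-degenerate polar forms (F finite) and Q = Q₁ ⊕ Q₂ on F^(k+l), if g₁ lies in Ω(Q₁) and g₂ in Ω(Q₂) (commutator subgroups of the orthogonal groups) then the block-diagonal isometry diag(g₁, g₂) lies in Ω(Q). -/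
theorem result {F : Type*} [Field F] [Fintype F] {k l : ℕ} (Q₁ : QuadraticForm F (Fin k → F)) (Q₂ : QuadraticForm F (Fin l → F)) (h₁ : (QuadraticMap.polarBilin Q₁).Nondegenerate) (h₂ : (QuadraticMap.polarBilin Q₂).Nondegenerate) (g₁ : ↥(Cfsg.isometryGroup F ⇑Q₁)) (g₂ : ↥(Cfsg.isometryGroup F ⇑Q₂)) (hg₁ : g₁ ∈ Cfsg.Omega F ⇑Q₁) (hg₂ : g₂ ∈ Cfsg.Omega F ⇑Q₂) : ∃ g : ↥(Cfsg.isometryGroup F (fun v : Fin k ⊕ Fin l → F => Q₁ (v ∘ Sum.inl) + Q₂ (v ∘ Sum.inr))), g ∈ Cfsg.Omega F (fun v : Fin k ⊕ Fin l → F => Q₁ (v ∘ Sum.inl) + Q₂ (v ∘ Sum.inr)) ∧ ((g : Matrix.GeneralLinearGroup (Fin k ⊕ Fin l) F) : Matrix (Fin k ⊕ Fin l) (Fin k ⊕ Fin l) F) = Matrix.fromBlocks ((g₁ : Matrix.GeneralLinearGroup (Fin k) F) : Matrix (Fin k) (Fin k) F) 0 0 ((g₂ : Matrix.GeneralLinearGroup (Fin l) F) : Matrix (Fin l) (Fin l) F) := by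
  exact ⟨blockHom (⇑Q₁) (⇑Q₂) (g₁, g₂), blockHom_omega _ _ g₁ g₂ hg₁ hg₂, rfl⟩

end Cfsg.Agent.S2626
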