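import Cfsg.Statements.S2636
import Mathlib
-- import your own Cfsg.Agent.* helpers here

set_option autoImplicit false
open Cfsg

namespace Cfsg.Agent.S2636

open Matrix

variable {F : Type*} [Field F]

/-- The multiplication map from scalars and matrices over a subfield. -/
noncomputable def Phi (K : Subfield F) (n : ℕ) :
    Fˣ × GeneralLinearGroup (Fin n) K →* GeneralLinearGroup (Fin n) F :=
  MonoidHom.noncommCoprod (GeneralLinearGroup.scalar (Fin n))
    (GeneralLinearGroup.map (K.subtype))
    (fun a h => GeneralLinearGroup.scalar_commute a _)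

lemma Phi_apply (K : Subfield F) (n : ℕ) (a : Fˣ) (h : GeneralLinearGroup (Fin n) K) (i j : Fin n) :
    ((Phi K n (a, h) : GeneralLinearGroup (Fin n) F) : Matrix (Fin n) (Fin n) F) i j =
      (a : F) * (((h : Matrix (Fin n) (Fin n) K) i j : K) : F) := by
  change ((GeneralLinearGroup.scalar (Fin n) a * GeneralLinearGroup.map K.subtype h :
    GeneralLinearGroup (Fin n) F) : Matrix (Fin n) (Fin n) F) i j = _
  rw [Units.val_mul, GeneralLinearGroup.coe_scalar, Matrix.scalar_apply, Matrix.diagonal_mul]
  rfl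

lemma mem_range_iff [Fintype F] (σ : F ≃+* F) (K : Subfield F) (hK : ∀ x, x ∈ K ↔ σ x = x) {n : ℕ} (hn : 1 ≤ n)
    (g : GeneralLinearGroup (Fin n) F) :
    (∃ c : F, c ≠ 0 ∧ (g : Matrix (Fin n) (Fin n) F).map σ = c • (g : Matrix (Fin n) (Fin n) F)) ↔
      g ∈ (Phi K n).range := by
  classical
  constructor
  · rintro ⟨c, hc, hg⟩
    have : Nonempty (Fin n) := ⟨⟨0, hn⟩⟩
    obtain ⟨i, j, hij⟩ : ∃ i j, (g : Matrix (Fin n) (Fin n) F) i j ≠ 0 := by
      by_contra hall
      push Not at hall
      have h0 : (g : Matrix (Fin n) (Fin n) F) = 0 := by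
        ext i j
        exact hall i j
      exact g.ne_zero h0
    set x := (g : Matrix (Fin n) (Fin n) F) i j with hx
    have hσx : σ x = c * x := by
      have := congrFun (congrFun hg i) j
      simpa using this
    have hfix : ∀ k l, (x⁻¹ * (g : Matrix (Fin n) (Fin n) F) k l) ∈ K := by
      intro k l
      rw [hK, map_mul, map_inv₀, hσx]
      have := congrFun (congrFun hg k) l
      simp only [Matrix.map_apply, Matrix.smul_apply, smul_eq_mul] at this
      rw [this]
      field_simp
    let H₀ : Matrix (Fin n) (Fin n) K := fun k l => ⟨x⁻¹ * (g : Matrix (Fin n) (Fin n) F) k l, hfix k l⟩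
    have hH₀ : H₀.map K.subtype = x⁻¹ • (g : Matrix (Fin n) (Fin n) F) := by
      ext k l
      simp only [Matrix.map_apply, Matrix.smul_apply, smul_eq_mul]
      rfl
    have hdet : H₀.det ≠ 0 := by
      intro h0
      have h1 : (H₀.map K.subtype).det = K.subtype H₀.det := (RingHom.map_det K.subtype H₀).symm
      rw [h0, map_zero, hH₀, Matrix.det_smul] at h1
      have hgd : IsUnit (g : Matrix (Fin n) (Fin n) F).det := (Matrix.isUnit_iff_isUnit_det _).mp g.isUnit
      have hx0 : x⁻¹ ≠ 0 := inv_ne_zero hij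
      exact (mul_ne_zero (pow_ne_zero _ hx0) hgd.ne_zero) h1
    refine ⟨(Units.mk0 x hij, GeneralLinearGroup.mkOfDetNeZero H₀ hdet), ?_⟩
    apply Units.ext
    ext k l
    rw [Phi_apply]
    have h2 : (((GeneralLinearGroup.mkOfDetNeZero H₀ hdet : GeneralLinearGroup (Fin n) K) :
        Matrix (Fin n) (Fin n) K) k l : F) = x⁻¹ * (g : Matrix (Fin n) (Fin n) F) k l := rfl
    rw [h2, Units.val_mk0]
    field_simp
  · rintro ⟨⟨a, h⟩, rfl⟩
    refine ⟨σ a * (a : F)⁻¹, mul_ne_zero (by simp) (inv_ne_zero a.ne_zero), ?_⟩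
    ext i j
    simp only [Matrix.map_apply, Matrix.smul_apply, smul_eq_mul]
    rw [Phi_apply, map_mul]
    have h1 := (hK _).mp ((h : Matrix (Fin n) (Fin n) K) i j).2
    rw [h1]
    field_simp



/-- The kernel of `Phi` is a copy of `Kˣ`. -/
lemma card_ker_Phi [Finite F] (K : Subfield F) {n : ℕ} (hn : 1 ≤ n) :
    Nat.card (Phi K n).ker = Nat.card Kˣ := by
  classical
  have : Nonempty (Fin n) := ⟨⟨0, hn⟩⟩
  let e : Kˣ → (Phi K n).ker := fun t =>
    ⟨((Units.map (K.subtype : K →* F) t)⁻¹, GeneralLinearGroup.scalar (Fin n) t), by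
      rw [MonoidHom.mem_ker]
      apply Units.ext
      ext i j
      rw [Phi_apply]
      by_cases hij : i = j
      · subst hij
        simp [Matrix.scalar_apply]
      · simp [Matrix.scalar_apply, Matrix.one_apply, hij]⟩
  have he : Function.Bijective e := by
    constructor
    · intro s t h
      have h1 := congrArg (fun z : (Phi K n).ker => ((z : Fˣ × GeneralLinearGroup (Fin n) K).1)) h
      simp only [e, _root_.inv_inj] at h1
      apply Units.ext
      have h2 := congrArg Units.val h1
      simpa using h2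
    · rintro ⟨⟨a, h⟩, hmem⟩
      rw [MonoidHom.mem_ker] at hmem
      have hent : ∀ i j, (a : F) * (((h : Matrix (Fin n) (Fin n) K) i j : K) : F) =
          (1 : Matrix (Fin n) (Fin n) F) i j := by
        intro i j
        rw [← Phi_apply, hmem]
        rfl
      obtain ⟨i₀⟩ := ‹Nonempty (Fin n)›
      have h00 := hent i₀ i₀
      rw [Matrix.one_apply_eq] at h00
      have ht0 : (h : Matrix (Fin n) (Fin n) K) i₀ i₀ ≠ 0 := by
        intro h0
        rw [h0] at h00
        simp at h00
      have hainv : (a : F) = (((h : Matrix (Fin n) (Fin n) K) i₀ i₀ : K) : F)⁻¹ :=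
        eq_inv_of_mul_eq_one_left h00
      refine ⟨Units.mk0 _ ht0, ?_⟩
      apply Subtype.ext
      refine Prod.ext ?_ ?_
      · apply Units.ext
        simp [e, hainv]
      · apply Units.ext
        ext i j
        have h1 := hent i j
        change (((Matrix.scalar (Fin n) ((h : Matrix (Fin n) (Fin n) K) i₀ i₀)) i j : K) : F) =
          (((h : Matrix (Fin n) (Fin n) K) i j : K) : F)
        by_cases hij : i = j
        · subst hij
          simp only [Matrix.one_apply_eq] at h1
          rw [Matrix.scalar_apply, Matrix.diagonal_apply_eq]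
          rw [hainv] at h1
          have h3 : (((h : Matrix (Fin n) (Fin n) K) i₀ i₀ : K) : F) ≠ 0 := by
            exact_mod_cast ht0
          field_simp at h1
          exact h1.symm
        · rw [Matrix.one_apply_ne hij] at h1
          rw [Matrix.scalar_apply, Matrix.diagonal_apply_ne _ hij]
          have ha0 := a.ne_zero
          have h3 := (mul_eq_zero.mp h1).resolve_left ha0
          simp [h3]
  rw [Nat.card_congr (Equiv.ofBijective e he)]

/-- The key counting identity. -/
lemma card_eq [Fintype F] (σ : F ≃+* F) (K : Subfield F) (hK : ∀ x, x ∈ K ↔ σ x = x) {n : ℕ} (hn : 1 ≤ n) :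
    Nat.card {g : GeneralLinearGroup (Fin n) F //
      ∃ c : F, c ≠ 0 ∧ (g : Matrix (Fin n) (Fin n) F).map σ = c • (g : Matrix (Fin n) (Fin n) F)} *
      Nat.card Kˣ = Nat.card Fˣ * Nat.card (GeneralLinearGroup (Fin n) K) := by
  classical
  have h1 : Nat.card {g : GeneralLinearGroup (Fin n) F //
      ∃ c : F, c ≠ 0 ∧ (g : Matrix (Fin n) (Fin n) F).map σ = c • (g : Matrix (Fin n) (Fin n) F)} =
      Nat.card (Phi K n).range :=
    Nat.card_congr (Equiv.subtypeEquivRight (mem_range_iff σ K hK hn))
  rw [h1, ← card_ker_Phi K hn, ← Subgroup.index_ker, mul_comm, Subgroup.card_mul_index,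
    Nat.card_prod]

/-- The fixed field has the expected size. -/
lemma exists_subfield [Fintype F] {q₀ r : ℕ} (hr : r.Prime) (hF : Fintype.card F = q₀ ^ r) (σ : F ≃+* F)
    (hσ : orderOf σ = r) :
    ∃ K : Subfield F, (∀ x, x ∈ K ↔ σ x = x) ∧ Nat.card K = q₀ := by
  classical
  let G := Subgroup.zpowers σ
  have : Finite (F ≃+* F) := Finite.of_injective (fun f : F ≃+* F => (f : F → F)) DFunLike.coe_injective
  let _ : Fintype G := Fintype.ofFinite G
  refine ⟨FixedPoints.subfield G F, ?_, ?_⟩
  · intro x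
    constructor
    · intro hx
      exact hx ⟨σ, Subgroup.mem_zpowers σ⟩
    · intro hx
      rintro ⟨g, hg⟩
      have hle : Subgroup.zpowers σ ≤ MulAction.stabilizer (F ≃+* F) x := by
        rw [Subgroup.zpowers_le]
        exact hx
      exact hle hg
  · have h1 := FixedPoints.finrank_eq_card G F
    have h2 : Fintype.card G = r := by
      rw [← Nat.card_eq_fintype_card, Nat.card_zpowers, hσ]
    rw [h2] at h1
    have h3 := Module.card_eq_pow_finrank (K := FixedPoints.subfield G F) (V := F)
    rw [h1, hF] at h3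
    have h4 := Nat.pow_left_injective (n := r) (by have := hr.two_le; omega)
    rw [Nat.card_eq_fintype_card]
    exact (h4 h3).symm

/-- Centraliser of a field automorphism in PGL_n: let F be the field with q = q₀^r elements, σ a field automorphism of F of prime order r (so its fixed field has q₀ elements) and n ≥ 1. The invertible matrices g whose entrywise image under σ is a scalar multiple of g — those whose coset modulo scalars is fixed by σ — number (q − 1)/(q₀ − 1) · |GL_n(q₀)|; equivalently the centraliser in PGL_n(q) of the induced automorphism has the order of PGL_n(q₀). -/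
theorem result {F : Type*} [Field F] [Fintype F] {q₀ r n : ℕ} (hr : r.Prime) (hn : 1 ≤ n) (hF : Fintype.card F = q₀ ^ r) (σ : F ≃+* F) (hσ : orderOf σ = r) : Nat.card {g : GL (Fin n) F // ∃ c : F, c ≠ 0 ∧ (g : Matrix (Fin n) (Fin n) F).map σ = c • (g : Matrix (Fin n) (Fin n) F)} = (q₀ ^ r - 1) / (q₀ - 1) * ∏ i : Fin n, (q₀ ^ n - q₀ ^ (i : ℕ)) := by
  classical
  obtain ⟨K, hK, hKcard⟩ := exists_subfield hr hF σ hσ
  have h := card_eq σ K hK hn
  let _ : Fintype K := Fintype.ofFinite K
  have hq : 2 ≤ q₀ := by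
    rw [← hKcard]
    exact Finite.one_lt_card
  have hKu : Nat.card Kˣ = q₀ - 1 := by
    rw [Nat.card_eq_fintype_card, Fintype.card_units, ← Nat.card_eq_fintype_card, hKcard]
  have hFu : Nat.card Fˣ = q₀ ^ r - 1 := by
    rw [Nat.card_eq_fintype_card, Fintype.card_units, hF]
  have hGL : Nat.card (GL (Fin n) K) = ∏ i : Fin n, (q₀ ^ n - q₀ ^ (i : ℕ)) := by
    rw [Matrix.card_GL_field, ← Nat.card_eq_fintype_card, hKcard]
  rw [hKu, hFu, hGL] at h
  have hdvd : q₀ - 1 ∣ q₀ ^ r - 1 := by
    have := Nat.sub_dvd_pow_sub_pow q₀ 1 r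
    simpa using this
  obtain ⟨m, hm⟩ := hdvd
  have hq1 : 0 < q₀ - 1 := by omega
  rw [hm] at h ⊢
  rw [Nat.mul_div_cancel_left _ hq1]
  apply Nat.eq_of_mul_eq_mul_right hq1
  rw [h]
  ring

end Cfsg.Agent.S2636
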