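import Cfsg.Statements.S2637
import Mathlib
import Cfsg.Agent.Lib.Classical.Symp.CentOrderThree


set_option autoImplicit false
open Cfsg

namespace Cfsg.Agent.S2637

open Cfsg.Agent.Lib.Classical.Symp.CentOrderThree Cfsg.Agent.Lib.Classical.Herm.GU

/-- Centraliser of a fixed-point-free element of order three in Sp_2m(q) when q ≡ 2 (mod 3): if x ∈ Sp_2m(F) (|F| = q, m ≥ 1) satisfies x³ = 1 and x − 1 is invertible, then its centraliser in Sp_2m(F) has the order of the unitary group GU_m(q), namely q^(m(m−1)/2) Π_(i=1)^m (q^i − (−1)^i) (x lies in the centre of a subgroup GU_m(q) of Sp_2m(q)). -/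
theorem result {F : Type*} [Field F] [Fintype F] {q : ℕ} (hF : Fintype.card F = q) (hq : q % 3 = 2) {m : ℕ} (hm : 1 ≤ m) (x : Matrix.symplecticGroup (Fin m) F) (hx3 : x ^ 3 = 1) (hfpf : IsUnit ((x : Matrix (Fin m ⊕ Fin m) (Fin m ⊕ Fin m) F) - 1)) : (Nat.card ↥(Subgroup.centralizer ({x} : Set ↥(Matrix.symplecticGroup (Fin m) F))) : ℤ) = (q : ℤ) ^ (m * (m - 1) / 2) * ∏ i : Fin m, ((q : ℤ) ^ ((i : ℕ) + 1) - (-1) ^ ((i : ℕ) + 1)) := by
  classical
  subst hF
  set q := Fintype.card F with hqdef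
  have hirr := f3_irreducible (F := F) hq
  have : Fact (Irreducible (f3 F)) := ⟨hirr⟩
  have hne : f3 F ≠ 0 := hirr.ne_zero
  let K := AdjoinRoot (f3 F)
  let pb := AdjoinRoot.powerBasis hne
  have hdim : pb.dim = 2 := by
    rw [AdjoinRoot.powerBasis_dim, f3_natDegree]
  have : Module.Finite F K := pb.finite
  have : Finite K := Module.finite_of_finite F
  let _ : Fintype K := Fintype.ofFinite K
  have hK : Fintype.card K = q ^ 2 := by
    rw [Module.card_eq_pow_finrank (K := F) (V := K), PowerBasis.finrank, hdim]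
  let ζ : K := AdjoinRoot.root (f3 F)
  have hrel : ζ ^ 2 + ζ + 1 = 0 := by
    have h := AdjoinRoot.eval₂_root (f3 F)
    simpa [f3, Polynomial.eval₂_add, Polynomial.eval₂_pow] using h
  have h3 : ζ ^ 3 = 1 := by linear_combination (ζ - 1) * hrel
  have hE : Ext F K q ζ := by
    refine ⟨hrel, ?_, ?_, ?_, ?_⟩
    · intro c
      obtain ⟨p, hp, rfl⟩ := pb.exists_eq_aeval c
      rw [hdim] at hp
      have hp' := Polynomial.eq_X_add_C_of_natDegree_le_one (p := p) (by omega)
      refine ⟨p.coeff 0, p.coeff 1, ?_⟩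
      rw [hp']
      simp only [map_add, map_mul, Polynomial.aeval_C, Polynomial.aeval_X, Polynomial.coeff_add, Polynomial.coeff_C_mul,
        Polynomial.coeff_X_zero, Polynomial.coeff_C_zero, mul_zero, zero_add, Polynomial.coeff_X_one, mul_one,
        Polynomial.coeff_C_succ, add_zero]
      rw [add_comm]
      rfl
    · intro a b hab
      have hmin : minpoly F (AdjoinRoot.root (f3 F)) = f3 F := by
        rw [AdjoinRoot.minpoly_root hne]
        simp [f3_monic (F := F)]
      have hdvd : f3 F ∣ Polynomial.C a + Polynomial.C b * Polynomial.X := by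
        rw [← hmin]
        apply minpoly.dvd
        simp only [map_add, map_mul, Polynomial.aeval_C, Polynomial.aeval_X]
        exact hab
      have hzero : Polynomial.C a + Polynomial.C b * Polynomial.X = 0 := by
        by_contra hne0
        have := Polynomial.natDegree_le_of_dvd hdvd hne0
        rw [f3_natDegree] at this
        have h2 : (Polynomial.C a + Polynomial.C b * Polynomial.X).natDegree ≤ 1 := by
          compute_degree
        omega
      have hco0 := congrArg (fun p => Polynomial.coeff p 0) hzero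
      have hco1 := congrArg (fun p => Polynomial.coeff p 1) hzero
      simp at hco0 hco1
      exact ⟨hco0, hco1⟩
    · obtain ⟨t, ht⟩ : ∃ t, q = 3 * t + 2 := ⟨q / 3, by omega⟩
      rw [ht, pow_add, pow_mul, h3, one_pow, one_mul]
    · intro a
      rw [← map_pow, FiniteField.pow_card]
  have hX3 : (x : Matrix (Fin m ⊕ Fin m) (Fin m ⊕ Fin m) F) ^ 2 + (x : Matrix (Fin m ⊕ Fin m) (Fin m ⊕ Fin m) F) + 1 = 0 := by
    set X : Matrix (Fin m ⊕ Fin m) (Fin m ⊕ Fin m) F := x.1 with hX
    have h3' : X ^ 3 = 1 := by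
      have := congrArg (fun g : Matrix.symplecticGroup (Fin m) F => (g : Matrix (Fin m ⊕ Fin m) (Fin m ⊕ Fin m) F)) hx3
      simpa using this
    have h4 : (X - 1) * (X ^ 2 + X + 1) = 0 := by
      have : (X - 1) * (X ^ 2 + X + 1) = X ^ 3 - 1 := by noncomm_ring
      rw [this, h3', sub_self]
    exact (hfpf.mul_right_eq_zero).1 h4
  have hmin2 : minpoly F pb.gen = f3 F := by
    rw [AdjoinRoot.powerBasis_gen, AdjoinRoot.minpoly_root hne]
    simp [f3_monic (F := F)]
  have hy : Polynomial.aeval (x : Matrix (Fin m ⊕ Fin m) (Fin m ⊕ Fin m) F) (minpoly F pb.gen) = 0 := by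
    rw [hmin2]
    simpa [f3] using hX3
  let ρ : K →ₐ[F] Matrix (Fin m ⊕ Fin m) (Fin m ⊕ Fin m) F := pb.lift _ hy
  have hρ : ρ ζ = x.1 := pb.lift_gen _ hy
  have hc := card_centralizer hE hK ρ hρ rfl hX3 x rfl
  rw [hc, card_GU hK m]
  have hq1 : 1 ≤ q := Fintype.card_pos
  push_cast
  congr 1
  rw [← Fin.prod_univ_eq_prod_range (fun i => if Even i then ((q : ℤ) ^ (i + 1) + 1) else ((q ^ (i + 1) - 1 : ℕ) : ℤ)) m]
  refine Finset.prod_congr rfl fun i _ => ?_
  have hq2 : 1 ≤ q ^ ((i : ℕ) + 1) := Nat.one_le_pow _ _ hq1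
  split_ifs with h
  · rw [(h.add_one).neg_one_pow]
    ring
  · rw [Nat.cast_sub hq2]
    push_cast
    have : Even ((i : ℕ) + 1) := by
      rcases Nat.even_or_odd (i : ℕ) with h' | h'
      · exact absurd h' h
      · exact h'.add_one
    rw [this.neg_one_pow]

end Cfsg.Agent.S2637
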