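import Cfsg.Statements.S2638
import Mathlib
import Cfsg.Agent.Lib.Linalg.FreeAbelian
import Cfsg.Agent.Lib.Linalg.Unipotent
-- import your own Cfsg.Agent.* helpers here

set_option autoImplicit false
set_option linter.style.haveILetI false
open Cfsg

namespace Cfsg.Agent.S2638

open Polynomial in
/-- A monic polynomial that is not a power of `t - 1` has an irreducible factor not divisible by `t - 1`. -/
theorem exists_irred_factor {F : Type*} [Field F] (m : F[X]) (hm : m.Monic)
    (hnp : ∀ k : ℕ, m ≠ (X - C 1) ^ k) :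
    ∃ g : F[X], Irreducible g ∧ g ∣ m ∧ ¬ (X - C (1 : F)) ∣ g := by
  obtain ⟨h, hmh, hnd⟩ := exists_eq_pow_rootMultiplicity_mul_and_not_dvd m hm.ne_zero 1
  set k := rootMultiplicity 1 m with hk
  have hhmonic : h.Monic := by
    have h1 : ((X - C (1 : F)) ^ k).Monic := (monic_X_sub_C 1).pow k
    rw [hmh] at hm
    exact h1.of_mul_monic_left hm
  by_cases hd : h.natDegree = 0
  · exfalso
    have h1 : h = 1 := hhmonic.natDegree_eq_zero.mp hd
    rw [h1, mul_one] at hmh
    exact hnp k hmh
  · obtain ⟨g, hg, hgh⟩ := exists_irreducible_of_natDegree_ne_zero hd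
    refine ⟨g, hg, hgh.trans (Dvd.intro_left _ hmh.symm), ?_⟩
    intro h1
    exact hnd (h1.trans hgh)

open Polynomial in
/-- An irreducible factor of `t^r - 1` other than `t - 1` has degree divisible by the order of `q`
modulo `r`. -/
theorem order_dvd_natDegree {F : Type*} [Field F] [Fintype F] {r : ℕ} (hr : r.Prime)
    (g : F[X]) (hg : Irreducible g) (hgd : g ∣ (X ^ r - 1 : F[X]))
    (hg1 : ¬ (X - C (1 : F)) ∣ g) :
    orderOf ((Fintype.card F : ℕ) : ZMod r) ∣ g.natDegree := by
  classical
  haveI : Fact (Irreducible g) := ⟨hg⟩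
  haveI : Fact r.Prime := ⟨hr⟩
  set ζ : AdjoinRoot g := AdjoinRoot.root g with hζ
  have hζr : ζ ^ r = 1 := by
    have h1 : AdjoinRoot.mk g (X ^ r - 1) = 0 := AdjoinRoot.mk_eq_zero.mpr hgd
    rw [map_sub, map_pow, AdjoinRoot.mk_X, map_one] at h1
    exact sub_eq_zero.mp h1
  have hζ1 : ζ ≠ 1 := by
    intro h
    apply hg1
    have h2 : AdjoinRoot.mk g (X - C 1) = 0 := by
      rw [map_sub, AdjoinRoot.mk_X, AdjoinRoot.mk_C, map_one, ← hζ, h, sub_self]
    have h3 : g ∣ X - C 1 := AdjoinRoot.mk_eq_zero.mp h2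
    have h4 := (hg.dvd_irreducible_iff_associated (irreducible_X_sub_C (1 : F))).mp h3
    exact h4.symm.dvd
  have hord : orderOf ζ = r := orderOf_eq_prime hζr hζ1
  let pb := AdjoinRoot.powerBasis hg.ne_zero
  haveI hfin : Module.Finite F (AdjoinRoot g) := pb.finite
  haveI hfinK : Finite (AdjoinRoot g) := Module.finite_of_finite F
  haveI := Fintype.ofFinite (AdjoinRoot g)
  have hcard : Fintype.card (AdjoinRoot g) = Fintype.card F ^ g.natDegree := by
    rw [Module.card_eq_pow_finrank (K := F), pb.finrank]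
    rfl
  have hζ0 : ζ ≠ 0 := by
    intro h
    rw [h, zero_pow hr.ne_zero] at hζr
    exact zero_ne_one hζr
  have hpow := FiniteField.pow_card_sub_one_eq_one ζ hζ0
  have hdvd : r ∣ Fintype.card (AdjoinRoot g) - 1 := by
    rw [← hord]
    exact orderOf_dvd_of_pow_eq_one hpow
  apply orderOf_dvd_of_pow_eq_one
  have h1 : 1 ≤ Fintype.card (AdjoinRoot g) := Fintype.card_pos
  have h2 := (ZMod.natCast_eq_zero_iff _ _).mpr hdvd
  rw [Nat.cast_sub h1, hcard] at h2
  push_cast at h2
  exact sub_eq_zero.mp h2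

variable {F : Type*} [Field F] {n : ℕ}

open Polynomial in
theorem commute_aeval (X₀ y : Matrix (Fin n) (Fin n) F) (h : y * X₀ = X₀ * y) (f : F[X]) :
    y * aeval X₀ f = aeval X₀ f * y := by
  induction f using Polynomial.induction_on' with
  | add p q hp hq =>
    rw [map_add, mul_add, add_mul, hp, hq]
  | monomial k a =>
    rw [aeval_monomial]
    have h1 : Commute y X₀ := h
    have h2 : Commute y (X₀ ^ k) := h1.pow_right k
    have h3 : Commute y (algebraMap F (Matrix (Fin n) (Fin n) F) a) :=
      (Algebra.commutes a y).symm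
    exact (h3.mul_right h2).eq

open Polynomial in
/-- With irreducible minimal polynomial of degree `n`, every non-zero vector is cyclic. -/
theorem cyclic_vector (X₀ : Matrix (Fin n) (Fin n) F)
    (hirr : Irreducible (minpoly F X₀)) (hdeg : (minpoly F X₀).natDegree = n)
    {v : Fin n → F} (hv : v ≠ 0) (w : Fin n → F) :
    ∃ f : F[X], (aeval X₀ f).mulVec v = w := by
  classical
  have hint : IsIntegral F X₀ := Algebra.IsIntegral.isIntegral X₀
  have hmon : (minpoly F X₀).Monic := minpoly.monic hint
  let L0 : F[X] →ₗ[F] (Fin n → F) :=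
    { toFun := fun f => (aeval X₀ f).mulVec v
      map_add' := by
        intro a b
        rw [map_add, Matrix.add_mulVec]
      map_smul' := by
        intro c a
        rw [map_smul, Matrix.smul_mulVec, RingHom.id_apply] }
  let L : degreeLT F n →ₗ[F] (Fin n → F) := L0.comp (degreeLT F n).subtype
  have hinj : Function.Injective L := by
    rw [← LinearMap.ker_eq_bot, LinearMap.ker_eq_bot']
    rintro ⟨f, hf⟩ hLf
    apply Subtype.ext
    change f = 0
    by_contra hf0
    have hfdeg : f.degree < (minpoly F X₀).degree := by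
      rw [degree_eq_natDegree hmon.ne_zero, hdeg]
      exact mem_degreeLT.mp hf
    have hnd : ¬ minpoly F X₀ ∣ f := hmon.not_dvd_of_degree_lt hf0 hfdeg
    obtain ⟨a, b, hab⟩ := (hirr.coprime_iff_not_dvd).mpr hnd
    have h1 := congrArg (aeval X₀) hab
    rw [map_add, map_mul, map_mul, minpoly.aeval, mul_zero, zero_add, map_one] at h1
    apply hv
    have h2 : (aeval X₀ f).mulVec v = 0 := hLf
    calc v = (1 : Matrix (Fin n) (Fin n) F).mulVec v := (Matrix.one_mulVec v).symm
      _ = (aeval X₀ b * aeval X₀ f).mulVec v := by rw [h1]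
      _ = (aeval X₀ b).mulVec ((aeval X₀ f).mulVec v) := (Matrix.mulVec_mulVec _ _ _).symm
      _ = 0 := by rw [h2, Matrix.mulVec_zero]
  have hfr : Module.finrank F (degreeLT F n) = Module.finrank F (Fin n → F) := by
    rw [(degreeLTEquiv F n).finrank_eq]
  have hsurj := (LinearMap.injective_iff_surjective_of_finrank_eq_finrank hfr).mp hinj
  obtain ⟨f, hf⟩ := hsurj w
  exact ⟨f, hf⟩

theorem eq_zero_of_comm_of_mulVec (X₀ : Matrix (Fin n) (Fin n) F)
    (hcyc : ∀ {v : Fin n → F}, v ≠ 0 → ∀ w : Fin n → F,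
      ∃ f : Polynomial F, (Polynomial.aeval X₀ f).mulVec v = w)
    (y : Matrix (Fin n) (Fin n) F) (hy : y * X₀ = X₀ * y) {v : Fin n → F} (hv : v ≠ 0)
    (hyv : y.mulVec v = 0) : y = 0 := by
  rw [Matrix.ext_iff_mulVec]
  intro w
  obtain ⟨f, rfl⟩ := hcyc hv w
  rw [Matrix.mulVec_mulVec, commute_aeval X₀ y hy f, ← Matrix.mulVec_mulVec, hyv, Matrix.mulVec_zero,
    Matrix.zero_mulVec]

/-- If an element x of GL_n(q), n ≥ 1, has prime order r and the multiplicative order of q modulo r is n (r is a primitive prime divisor of q^n − 1, so x acts irreducibly), then the centraliser of x in GL_n(q) is cyclic of order q^n − 1 (the multiplicative group of the field with q^n elements, a Singer cycle). -/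
theorem result {F : Type*} [Field F] [Fintype F] {p q : ℕ} [Fact p.Prime] [CharP F p] (hF : Fintype.card F = q) {n r : ℕ} (hn : 1 ≤ n) (hr : r.Prime) (hrp : r ≠ p) (hi : orderOf (q : ZMod r) = n) (x : GL (Fin n) F) (hx : orderOf x = r) : IsCyclic ↥(Subgroup.centralizer ({x} : Set (GL (Fin n) F))) ∧ Nat.card ↥(Subgroup.centralizer ({x} : Set (GL (Fin n) F))) = q ^ n - 1 := by
  classical
  subst hF
  haveI : Fact r.Prime := ⟨hr⟩
  have hpp : p.Prime := Fact.out
  set X₀ : Matrix (Fin n) (Fin n) F := (x : Matrix (Fin n) (Fin n) F) with hX₀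
  set m := minpoly F X₀ with hm
  have hint : IsIntegral F X₀ := Algebra.IsIntegral.isIntegral X₀
  have hmon : m.Monic := minpoly.monic hint
  have hXr : X₀ ^ r = 1 := by
    have h1 : x ^ r = 1 := by
      rw [← hx]
      exact pow_orderOf_eq_one x
    rw [hX₀, ← Units.val_pow_eq_pow_val, h1]
    rfl
  have hmdvd : m ∣ (Polynomial.X ^ r - 1 : Polynomial F) :=
    minpoly.dvd F X₀ (by simp [hXr])
  have hnotnil : ¬ IsNilpotent (X₀ - 1) := by
    intro h
    obtain ⟨k, hk⟩ := (Cfsg.Agent.Lib.Linalg.Unipotent.exists_orderOf_eq_pow_iff p x).mpr h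
    rw [hx] at hk
    have h1 : r ∣ p := hr.dvd_of_dvd_pow (⟨1, by rw [mul_one]; exact hk.symm⟩ : r ∣ p ^ k)
    exact hrp ((Nat.prime_dvd_prime_iff_eq hr hpp).mp h1)
  have hnp : ∀ k : ℕ, m ≠ (Polynomial.X - Polynomial.C 1) ^ k := by
    intro k hk
    have h1 : Polynomial.aeval X₀ m = 0 := minpoly.aeval F X₀
    rw [hk] at h1
    simp at h1
    exact hnotnil ⟨k, h1⟩
  obtain ⟨g, hgirr, hgm, hg1⟩ := exists_irred_factor m hmon hnp
  have hnd := order_dvd_natDegree hr g hgirr (hgm.trans hmdvd) hg1
  rw [hi] at hnd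
  have hgdeg : 0 < g.natDegree := hgirr.natDegree_pos
  have h1 : n ≤ g.natDegree := Nat.le_of_dvd hgdeg hnd
  have h2 : g.natDegree ≤ m.natDegree := Polynomial.natDegree_le_of_dvd hgm hmon.ne_zero
  have h3 : m.natDegree ≤ n := by
    have h4 := Polynomial.natDegree_le_of_dvd (Matrix.minpoly_dvd_charpoly X₀)
      (Matrix.charpoly_monic X₀).ne_zero
    rwa [Matrix.charpoly_natDegree_eq_dim, Fintype.card_fin] at h4
  have hmdeg : m.natDegree = n := by omega
  have hmirr : Irreducible m := by
    have hassoc : Associated g m := Polynomial.associated_of_dvd_of_degree_eq hgm (by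
      rw [Polynomial.degree_eq_natDegree hgirr.ne_zero, Polynomial.degree_eq_natDegree hmon.ne_zero]
      congr 1
      omega)
    exact hassoc.irreducible hgirr
  have hcyc : ∀ {v : Fin n → F}, v ≠ 0 → ∀ w : Fin n → F,
      ∃ f : Polynomial F, (Polynomial.aeval X₀ f).mulVec v = w :=
    fun {v} hv w => cyclic_vector X₀ hmirr hmdeg hv w
  have hkey := eq_zero_of_comm_of_mulVec X₀ hcyc
  -- the centraliser
  have hcent : ∀ a : ↥(Subgroup.centralizer ({x} : Set (GL (Fin n) F))),
      ((a : GL (Fin n) F) : Matrix (Fin n) (Fin n) F) * X₀ =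
        X₀ * ((a : GL (Fin n) F) : Matrix (Fin n) (Fin n) F) := by
    intro a
    have h4 : (a : GL (Fin n) F) * x = x * (a : GL (Fin n) F) :=
      Subgroup.mem_centralizer_singleton_iff.mp a.2
    exact congrArg Units.val h4
  have hn0 : 0 < n := hn
  -- a non-zero vector
  let v0 : Fin n → F := fun _ => 1
  have hv0 : v0 ≠ 0 := by
    intro h
    have := congrFun h ⟨0, hn0⟩
    exact one_ne_zero this
  have hsubcomm : ∀ a b : Matrix (Fin n) (Fin n) F, a * X₀ = X₀ * a → b * X₀ = X₀ * b →
      (a - b) * X₀ = X₀ * (a - b) := by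
    intro a b ha hb
    rw [sub_mul, mul_sub, ha, hb]
  have hcomm : ∀ a b : ↥(Subgroup.centralizer ({x} : Set (GL (Fin n) F))), a * b = b * a := by
    intro a b
    set A : Matrix (Fin n) (Fin n) F := ((a : GL (Fin n) F) : Matrix (Fin n) (Fin n) F) with hA
    set B : Matrix (Fin n) (Fin n) F := ((b : GL (Fin n) F) : Matrix (Fin n) (Fin n) F) with hB
    have hAX : A * X₀ = X₀ * A := hcent a
    have hBX : B * X₀ = X₀ * B := hcent b
    obtain ⟨f1, hf1⟩ := hcyc hv0 (A.mulVec v0)
    obtain ⟨f2, hf2⟩ := hcyc hv0 (B.mulVec v0)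
    have h5 : (A * B).mulVec v0 = (Polynomial.aeval X₀ f2 * Polynomial.aeval X₀ f1).mulVec v0 := by
      rw [← Matrix.mulVec_mulVec, ← hf2, Matrix.mulVec_mulVec, commute_aeval X₀ A hAX f2,
        ← Matrix.mulVec_mulVec, ← hf1, Matrix.mulVec_mulVec]
    have h6 : (B * A).mulVec v0 = (Polynomial.aeval X₀ f1 * Polynomial.aeval X₀ f2).mulVec v0 := by
      rw [← Matrix.mulVec_mulVec, ← hf1, Matrix.mulVec_mulVec, commute_aeval X₀ B hBX f1,
        ← Matrix.mulVec_mulVec, ← hf2, Matrix.mulVec_mulVec]
    have h7 : Polynomial.aeval X₀ f1 * Polynomial.aeval X₀ f2 =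
        Polynomial.aeval X₀ f2 * Polynomial.aeval X₀ f1 := by
      rw [← map_mul, ← map_mul, mul_comm]
    have h8 : A * B - B * A = 0 := by
      apply hkey (A * B - B * A) _ hv0
      · rw [Matrix.sub_mulVec, h5, h6, h7, sub_self]
      · apply hsubcomm
        · rw [mul_assoc, hBX, ← mul_assoc, hAX, mul_assoc]
        · rw [mul_assoc, hAX, ← mul_assoc, hBX, mul_assoc]
    apply Subtype.ext
    apply Units.ext
    exact sub_eq_zero.mp h8
  have hinjA : ∀ (a b : ↥(Subgroup.centralizer ({x} : Set (GL (Fin n) F)))) {v : Fin n → F},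
      v ≠ 0 → ((a : GL (Fin n) F) : Matrix (Fin n) (Fin n) F).mulVec v =
        ((b : GL (Fin n) F) : Matrix (Fin n) (Fin n) F).mulVec v → a = b := by
    intro a b v hv hab
    have h5 := hkey (((a : GL (Fin n) F) : Matrix (Fin n) (Fin n) F) -
      ((b : GL (Fin n) F) : Matrix (Fin n) (Fin n) F)) (hsubcomm _ _ (hcent a) (hcent b)) hv
      (by rw [Matrix.sub_mulVec, hab, sub_self])
    apply Subtype.ext
    apply Units.ext
    exact sub_eq_zero.mp h5
  constructor
  · -- cyclic
    let ρ : ↥(Subgroup.centralizer ({x} : Set (GL (Fin n) F))) →* Module.End F (Fin n → F) :=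
      { toFun := fun a => ((a : GL (Fin n) F) : Matrix (Fin n) (Fin n) F).mulVecLin
        map_one' := by
          apply LinearMap.ext
          intro v
          simp
        map_mul' := by
          intro a b
          apply LinearMap.ext
          intro v
          simp [Matrix.mulVec_mulVec] }
    have hρ : ∀ a v, ρ a v = ((a : GL (Fin n) F) : Matrix (Fin n) (Fin n) F).mulVec v :=
      fun a v => rfl
    haveI : Nontrivial (Fin n → F) := ⟨⟨v0, 0, hv0⟩⟩
    refine Cfsg.Agent.Lib.Linalg.FreeAbelian.isCyclic_of_free_irreducible hcomm ρ ?_ ?_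
    · intro a v hv hav
      apply hinjA a 1 hv
      rw [← hρ, hav]
      simp
    · intro U hU
      by_cases hU0 : U = ⊥
      · exact Or.inl hU0
      right
      obtain ⟨v, hvU, hv⟩ := (Submodule.ne_bot_iff U).mp hU0
      have hxmem : x ∈ Subgroup.centralizer ({x} : Set (GL (Fin n) F)) :=
        Subgroup.mem_centralizer_singleton_iff.mpr rfl
      have hXU : ∀ u ∈ U, X₀.mulVec u ∈ U := fun u hu => hU ⟨x, hxmem⟩ u hu
      have hpowU : ∀ (k : ℕ), ∀ u ∈ U, (X₀ ^ k).mulVec u ∈ U := by
        intro k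
        induction k with
        | zero =>
          intro u hu
          simpa using hu
        | succ k ih =>
          intro u hu
          rw [pow_succ, ← Matrix.mulVec_mulVec]
          exact ih _ (hXU u hu)
      have hpolyU : ∀ f : Polynomial F, (Polynomial.aeval X₀ f).mulVec v ∈ U := by
        intro f
        induction f using Polynomial.induction_on' with
        | add p q hp hq =>
          rw [map_add, Matrix.add_mulVec]
          exact U.add_mem hp hq
        | monomial k a =>
          rw [Polynomial.aeval_monomial, Algebra.algebraMap_eq_smul_one, smul_mul_assoc, one_mul,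
            Matrix.smul_mulVec]
          exact U.smul_mem a (hpowU k v hvU)
      rw [eq_top_iff]
      intro w _
      obtain ⟨f, rfl⟩ := hcyc hv w
      exact hpolyU f
  · -- the order
    have hbij : Function.Bijective
        (fun a : ↥(Subgroup.centralizer ({x} : Set (GL (Fin n) F))) =>
          (⟨((a : GL (Fin n) F) : Matrix (Fin n) (Fin n) F).mulVec v0, by
            intro h
            have h5 : IsUnit ((a : GL (Fin n) F) : Matrix (Fin n) (Fin n) F) :=
              (a : GL (Fin n) F).isUnit
            have h6 := Matrix.mulVec_injective_iff_isUnit.mpr h5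
            apply hv0
            apply h6
            rw [h, Matrix.mulVec_zero]⟩ : {w : Fin n → F // w ≠ 0})) := by
      constructor
      · intro a b hab
        exact hinjA a b hv0 (congrArg Subtype.val hab)
      · rintro ⟨w, hw⟩
        obtain ⟨f, hf⟩ := hcyc hv0 w
        set y := Polynomial.aeval X₀ f with hy
        have hyX : y * X₀ = X₀ * y := (commute_aeval X₀ X₀ rfl f).symm
        have hyinj : Function.Injective y.mulVec := by
          intro u u' huu
          by_contra hne
          have hu : u - u' ≠ 0 := sub_ne_zero.mpr hne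
          have h0 := hkey y hyX hu (by rw [Matrix.mulVec_sub, huu, sub_self])
          rw [h0, Matrix.zero_mulVec] at hf
          exact hw hf.symm
        have hyunit : IsUnit y := Matrix.mulVec_injective_iff_isUnit.mp hyinj
        obtain ⟨u, hu⟩ := hyunit
        refine ⟨⟨u, Subgroup.mem_centralizer_singleton_iff.mpr (Units.ext ?_)⟩, Subtype.ext ?_⟩
        · change (u : Matrix (Fin n) (Fin n) F) * X₀ = X₀ * (u : Matrix (Fin n) (Fin n) F)
          rw [hu]
          exact hyX
        · change (u : Matrix (Fin n) (Fin n) F).mulVec v0 = w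
          rw [hu]
          exact hf
    rw [Nat.card_congr (Equiv.ofBijective _ hbij), Cfsg.Agent.Lib.Linalg.FreeAbelian.card_ne_zero]
    congr 1
    rw [Nat.card_eq_fintype_card, Fintype.card_fun, Fintype.card_fin]

end Cfsg.Agent.S2638
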