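import Cfsg.Statements.S2639
import Mathlib
import Cfsg.Agent.Lib.Classical.Herm.Realify
import Cfsg.Agent.Lib.Classical.Symp.Basic
-- import your own Cfsg.Agent.* helpers here

set_option autoImplicit false
open Cfsg

open Cfsg.Agent.Lib.Classical.Herm.Basic
open Cfsg.Agent.Lib.Classical.Herm.GU
open Cfsg.Agent.Lib.Classical.Herm.Realify
open scoped Matrix

namespace Cfsg.Agent.S2639

/-- The unitary group embeds in the symplectic group of twice the dimension over the subfield: for a field K with q² elements and a field F with q elements (isomorphic to the subfield of K of order q), there is an injective homomorphism GU_m(q) → Sp_2m(F). -/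
theorem result {K F : Type*} [Field K] [Fintype K] [Field F] [Fintype F] {q : ℕ} (hK : Fintype.card K = q ^ 2) (hF : Fintype.card F = q) (m : ℕ) : ∃ φ : ↥(Cfsg.GU m K q) →* ↥(Matrix.symplecticGroup (Fin m) F), Function.Injective φ := by
  classical
  obtain ⟨E⟩ := exists_emb hK hF
  have hq := two_le_q hK
  obtain ⟨θ, hθ⟩ : ∃ θ : K, θ ^ q ≠ θ := by
    by_contra hcon
    push Not at hcon
    exact sigma_ne_id hK (RingHom.ext hcon)
  let ε : K := θ - θ ^ q
  have hε : ε ≠ 0 := sub_ne_zero.mpr (Ne.symm hθ)
  have hεq : ε ^ q = -ε := by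
    simp only [ε]
    rw [pow_q_sub hK, pow_q_pow_q hK]
    ring
  let T : (Fin m ⊕ Fin m → F) → (Fin m → K) := fun w i => E.j (w (Sum.inl i)) + θ * E.j (w (Sum.inr i))
  have hadd : ∀ u v, T (u + v) = T u + T v := by
    intro u v
    funext i
    simp only [T, Pi.add_apply, map_add]
    ring
  have hsmul : ∀ (c : F) u, T (c • u) = E.j c • T u := by
    intro c u
    funext i
    simp only [T, Pi.smul_apply, smul_eq_mul, map_mul]
    ring
  have hinj : Function.Injective T := by
    intro u v huv
    have h0 : ∀ i, T (u - v) i = 0 := by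
      intro i
      have h1 := congrFun huv i
      simp only [T, Pi.sub_apply, map_sub] at h1 ⊢
      linear_combination h1
    have hzero : ∀ a b : F, E.j a + θ * E.j b = 0 → a = 0 ∧ b = 0 := by
      intro a b hab
      have h1 : (E.j a + θ * E.j b) ^ q = 0 := by rw [hab, zero_pow_q hK]
      rw [pow_q_add hK, mul_pow, E.fix, E.fix] at h1
      have h2 : ε * E.j b = 0 := by
        simp only [ε]
        linear_combination hab - h1
      have hb : E.j b = 0 := (mul_eq_zero.mp h2).resolve_left hε
      have hb' : b = 0 := (map_eq_zero E.j).mp hb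
      rw [hb, mul_zero, add_zero] at hab
      exact ⟨(map_eq_zero E.j).mp hab, hb'⟩
    have huv' : u - v = 0 := by
      funext x
      rcases x with i | i
      · exact (hzero _ _ (h0 i)).1
      · exact (hzero _ _ (h0 i)).2
    exact sub_eq_zero.mp huv'
  have hbij : Function.Bijective T := by
    rw [Fintype.bijective_iff_injective_and_card]
    exact ⟨hinj, card_coord_eq hK hF m (by simp; ring)⟩
  obtain ⟨ρ, hρinj, hρ⟩ := exists_gu_hom (q := q) E.j m T hadd hsmul hbij
  have key : ∀ w w', ε * hermForm m K q (T w) (T w') + (ε * hermForm m K q (T w) (T w')) ^ q =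
      ε ^ 2 * E.j (Cfsg.sympForm m F w w') := by
    intro w w'
    rw [mul_pow, hεq, hermForm_pow_q hK, Cfsg.Agent.Lib.Classical.Symp.Basic.sympForm_apply, map_sum]
    simp only [hermForm, Finset.mul_sum, neg_mul]
    rw [← Finset.sum_add_distrib]
    refine Finset.sum_congr rfl fun i _ => ?_
    simp only [T, pow_q_add hK, mul_pow, E.fix, map_sub, map_mul, ε]
    ring
  have hmem : ∀ g : GU m K q, ((ρ g : Matrix.GeneralLinearGroup (Fin m ⊕ Fin m) F) : Matrix (Fin m ⊕ Fin m) (Fin m ⊕ Fin m) F) ∈
      Matrix.symplecticGroup (Fin m) F := by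
    intro g
    rw [Cfsg.Agent.Lib.Classical.Symp.Basic.mem_symplecticGroup_iff_forall]
    intro u v
    have h1 := key ((ρ g : Matrix.GeneralLinearGroup (Fin m ⊕ Fin m) F) *ᵥ u) ((ρ g : Matrix.GeneralLinearGroup (Fin m ⊕ Fin m) F) *ᵥ v)
    have hg : Preserves q (g.1 : Matrix (Fin m) (Fin m) K) := g.2
    rw [hρ, hρ, hg (T u) (T v), key u v] at h1
    have h2 := mul_left_cancel₀ (pow_ne_zero 2 hε) h1
    exact (E.j.injective h2).symm
  refine ⟨((Units.coeHom _).comp ρ).codRestrict _ hmem, ?_⟩
  intro g h hgh
  apply hρinj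
  apply Units.ext
  exact congrArg Subtype.val hgh

end Cfsg.Agent.S2639
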