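import Cfsg.Statements.S2640
import Mathlib
import Cfsg.Agent.Lib.Classical.Herm.Realify2
-- import your own Cfsg.Agent.* helpers here

set_option autoImplicit false
open Cfsg

open Cfsg.Agent.Lib.Classical.Herm.Basic
open Cfsg.Agent.Lib.Classical.Herm.GU
open Cfsg.Agent.Lib.Classical.Herm.Realify
open Cfsg.Agent.Lib.Classical.Herm.Realify2
open scoped Matrix

namespace Cfsg.Agent.S2640

/-- For m even, the unitary group GU_m(q) (over the field with q² elements) embeds in the orthogonal group O⁺_2m(q) of the hyperbolic form Σ x_i y_i over the field with q elements (there is an injective homomorphism). -/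
theorem result {K F : Type*} [Field K] [Fintype K] [Field F] [Fintype F] {q : ℕ} (hK : Fintype.card K = q ^ 2) (hF : Fintype.card F = q) (m : ℕ) (hm : Even m) : ∃ φ : ↥(Cfsg.GU m K q) →* ↥(Cfsg.isometryGroup F (Cfsg.quadFormPlus m F)), Function.Injective φ := by
  classical
  obtain ⟨E⟩ := exists_emb hK hF
  obtain ⟨θ, hθ⟩ : ∃ θ : K, θ ^ q ≠ θ := by
    by_contra hcon
    push Not at hcon
    exact sigma_ne_id hK (RingHom.ext hcon)
  obtain ⟨k, rfl⟩ := hm
  obtain ⟨P, rfl, rfl⟩ := exists_params E hK θ hθ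
  have hinj : Function.Injective (P.evenT k) := by
    intro u v huv
    have h1 : P.evenT k (u + (-1 : F) • v) = 0 := by
      rw [P.evenT_add, P.evenT_smul, huv, map_neg, map_one, neg_one_smul, add_neg_cancel]
    have h2 := P.evenT_zero_imp hK k _ h1
    have h3 : u - v = 0 := by simpa [sub_eq_add_neg] using h2
    exact sub_eq_zero.mp h3
  have hbij : Function.Bijective (P.evenT k) := by
    rw [Fintype.bijective_iff_injective_and_card]
    exact ⟨hinj, card_coord_eq hK hF (k + k) (by simp; ring)⟩
  obtain ⟨ρ, hρinj, hρ⟩ := exists_gu_hom (q := q) P.E.j (k + k) (P.evenT k) (P.evenT_add k) (P.evenT_smul k) hbij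
  have hmem : ∀ g : GU (k + k) K q, ρ g ∈ Cfsg.isometryGroup F (Cfsg.quadFormPlus (k + k) F) := by
    intro g u _
    apply P.E.j.injective
    have hg : Preserves q (g.1 : Matrix (Fin (k + k)) (Fin (k + k)) K) := g.2
    change P.E.j (Cfsg.quadFormPlus (k + k) F ((ρ g : Matrix.GeneralLinearGroup _ F) *ᵥ u)) = _
    rw [← P.evenT_norm hK, hρ, hg, P.evenT_norm hK]
  refine ⟨ρ.codRestrict _ hmem, ?_⟩
  intro g h hgh
  apply hρinj
  exact congrArg Subtype.val hgh

end Cfsg.Agent.S2640
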