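import Cfsg.Statements.S2641
import Mathlib
import Cfsg.Agent.Lib.Classical.Herm.Realify2
-- import your own Cfsg.Agent.* helpers here

set_option autoImplicit false
open Cfsg

open Cfsg.Agent.Lib.Classical.Herm.Basic
open Cfsg.Agent.Lib.Classical.Herm.GU
open Cfsg.Agent.Lib.Classical.Herm.Realify
open Cfsg.Agent.Lib.Classical.Herm.Realify2
open scoped Matrix

namespace Cfsg.Agent.S2641

theorem aux {K F : Type*} [Field K] [Fintype K] [Field F] [Fintype F] {q : ℕ} (hK : Fintype.card K = q ^ 2) (hF : Fintype.card F = q) (k : ℕ) (a b : F) (hab : ∀ z₁ z₂ : F, z₁ ^ 2 + a * z₁ * z₂ + b * z₂ ^ 2 = 0 → z₁ = 0 ∧ z₂ = 0) :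
    ∃ φ : ↥(Cfsg.GU (k + k + 1) K q) →* ↥(Cfsg.isometryGroup F (Cfsg.quadFormMinus (k + k) F a b)), Function.Injective φ := by
  classical
  obtain ⟨E⟩ := exists_emb hK hF
  obtain ⟨θ, hθ, hsum, hprod⟩ := exists_theta E hK hF a b hab
  obtain ⟨P, rfl, rfl⟩ := exists_params E hK θ hθ
  have hq := two_le_q hK
  let T : ((Fin (k + k) ⊕ Fin (k + k)) ⊕ Fin 2 → F) → Fin (k + k + 1) → K := fun w =>
    Fin.snoc (α := fun _ => K) (P.evenT k (fun x => w (Sum.inl x)))
      (P.E.j (w (Sum.inr 0)) + P.θ * P.E.j (w (Sum.inr 1)))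
  have hadd : ∀ u v, T (u + v) = T u + T v := by
    intro u v
    funext i
    refine Fin.lastCases ?_ (fun c => ?_) i
    · simp only [T, Fin.snoc_last, Pi.add_apply, map_add]
      ring
    · simp only [T, Fin.snoc_castSucc, Pi.add_apply]
      exact congrFun (P.evenT_add k _ _) c
  have hsmul : ∀ (c : F) u, T (c • u) = P.E.j c • T u := by
    intro c u
    funext i
    refine Fin.lastCases ?_ (fun l => ?_) i
    · simp only [T, Fin.snoc_last, Pi.smul_apply, smul_eq_mul, map_mul]
      ring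
    · simp only [T, Fin.snoc_castSucc, Pi.smul_apply]
      exact congrFun (P.evenT_smul k c _) l
  have hzero : ∀ w, T w = 0 → w = 0 := by
    intro w hw
    have h1 : P.evenT k (fun x => w (Sum.inl x)) = 0 := by
      funext i
      have := congrFun hw (Fin.castSucc i)
      simpa only [T, Fin.snoc_castSucc, Pi.zero_apply] using this
    have h2 := P.evenT_zero_imp hK k _ h1
    have h3 : P.E.j (w (Sum.inr 0)) + P.θ * P.E.j (w (Sum.inr 1)) = 0 := by
      have := congrFun hw (Fin.last _)
      simpa only [T, Fin.snoc_last, Pi.zero_apply] using this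
    have hindep : ∀ a b : F, P.E.j a + P.θ * P.E.j b = 0 → a = 0 ∧ b = 0 := by
      intro a b hab
      have h1 : (P.E.j a + P.θ * P.E.j b) ^ q = 0 := by rw [hab, zero_pow_q hK]
      rw [pow_q_add hK, mul_pow, P.E.fix, P.E.fix] at h1
      have h2 : (P.θ - P.θ ^ q) * P.E.j b = 0 := by
        linear_combination hab - h1
      have hb : P.E.j b = 0 := (mul_eq_zero.mp h2).resolve_left (sub_ne_zero.mpr (Ne.symm hθ))
      rw [hb, mul_zero, add_zero] at hab
      exact ⟨(map_eq_zero P.E.j).mp hab, (map_eq_zero P.E.j).mp hb⟩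
    obtain ⟨h4, h5⟩ := hindep _ _ h3
    funext x
    rcases x with x | x
    · exact congrFun h2 x
    · fin_cases x
      · exact h4
      · exact h5
  have hinj : Function.Injective T := by
    intro u v huv
    have h1 : T (u + (-1 : F) • v) = 0 := by
      rw [hadd, hsmul, huv, map_neg, map_one, neg_one_smul, add_neg_cancel]
    have h2 := hzero _ h1
    have h3 : u - v = 0 := by simpa [sub_eq_add_neg] using h2
    exact sub_eq_zero.mp h3
  have hbij : Function.Bijective T := by
    rw [Fintype.bijective_iff_injective_and_card]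
    exact ⟨hinj, card_coord_eq hK hF (k + k + 1) (by simp; ring)⟩
  have hnorm : ∀ w, hermForm (k + k + 1) K q (T w) (T w) = P.E.j (Cfsg.quadFormMinus (k + k) F a b w) := by
    intro w
    have h1 : hermForm (k + k + 1) K q (T w) (T w) =
        hermForm (k + k) K q (P.evenT k (fun x => w (Sum.inl x))) (P.evenT k (fun x => w (Sum.inl x))) +
        (P.E.j (w (Sum.inr 0)) + P.θ * P.E.j (w (Sum.inr 1))) *
          (P.E.j (w (Sum.inr 0)) + P.θ * P.E.j (w (Sum.inr 1))) ^ q := by
      simp only [hermForm, Fin.sum_univ_castSucc, T, Fin.snoc_castSucc, Fin.snoc_last]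
    rw [h1, P.evenT_norm hK, pow_q_add hK, mul_pow, P.E.fix, P.E.fix]
    simp only [Cfsg.quadFormMinus, Cfsg.quadFormPlus, map_add, map_mul, map_pow, map_sum]
    congr 1
    rw [← hsum, ← hprod]
    ring
  obtain ⟨ρ, hρinj, hρ⟩ := exists_gu_hom (q := q) P.E.j (k + k + 1) T hadd hsmul hbij
  have hmem : ∀ g : GU (k + k + 1) K q, ρ g ∈ Cfsg.isometryGroup F (Cfsg.quadFormMinus (k + k) F a b) := by
    intro g u _
    apply P.E.j.injective
    have hg : Preserves q (g.1 : Matrix (Fin (k + k + 1)) (Fin (k + k + 1)) K) := g.2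
    change P.E.j (Cfsg.quadFormMinus (k + k) F a b ((ρ g : Matrix.GeneralLinearGroup _ F) *ᵥ u)) = _
    rw [← hnorm, hρ, hg, hnorm]
  refine ⟨ρ.codRestrict _ hmem, ?_⟩
  intro g h hgh
  apply hρinj
  exact congrArg Subtype.val hgh

/-- For m odd, the unitary group GU_m(q) (over the field with q² elements) embeds in the orthogonal group O⁻_2m(q) of an elliptic form (Σ_(i<m−1) x_i y_i plus an anisotropic binary form) over the field with q elements (there is an injective homomorphism). -/
theorem result {K F : Type*} [Field K] [Fintype K] [Field F] [Fintype F] {q : ℕ} (hK : Fintype.card K = q ^ 2) (hF : Fintype.card F = q) (m : ℕ) (hm : Odd m) (a b : F) (hab : ∀ z₁ z₂ : F, z₁ ^ 2 + a * z₁ * z₂ + b * z₂ ^ 2 = 0 → z₁ = 0 ∧ z₂ = 0) : ∃ φ : ↥(Cfsg.GU m K q) →* ↥(Cfsg.isometryGroup F (Cfsg.quadFormMinus (m - 1) F a b)), Function.Injective φ := by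
  obtain ⟨k, hk⟩ := hm
  have hm' : m = k + k + 1 := by omega
  subst hm'
  exact aux hK hF k a b hab

end Cfsg.Agent.S2641
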