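import Cfsg.Statements.S2642
import Mathlib
import Cfsg.Agent.Lib.Classical.Herm.Wall
import Cfsg.Agent.S2570

set_option autoImplicit false
open Cfsg

open Cfsg.Agent.Lib.Classical.Herm.Wall Cfsg.Agent.Lib.Linalg.RCFType

namespace Cfsg.Agent.S2642

/-- Number of conjugacy classes of elements of order p in the general unitary group GU_n(q), q a power of p: every unipotent Jordan type occurs and the classes correspond to the partitions of n with all parts at most p other than the all-ones partition, exactly as in GL_n; so there are (number of partitions of n with parts ≤ p) − 1 classes. -/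
theorem result {K : Type*} [Field K] [Fintype K] {p q n : ℕ} [Fact p.Prime] [CharP K p] (hK : Fintype.card K = q ^ 2) : Nat.card {C : ConjClasses ↥(Cfsg.GU n K q) // ∃ g : ↥(Cfsg.GU n K q), ConjClasses.mk g = C ∧ orderOf g = p} = (Finset.univ.filter (fun μ : Nat.Partition n => ∀ a ∈ μ.parts, a ≤ p)).card - 1 := by
  classical
  rw [← Cfsg.Agent.S2570.result (F := K) (p := p) n]
  let ι : Cfsg.GU n K q →* GL (Fin n) K := (Cfsg.GU n K q).subtype
  have hι : Function.Injective ι := Subtype.val_injective
  let φ : {C : ConjClasses ↥(Cfsg.GU n K q) // ∃ g : ↥(Cfsg.GU n K q), ConjClasses.mk g = C ∧ orderOf g = p} →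
      {C : ConjClasses (GL (Fin n) K) // ∃ g : GL (Fin n) K, ConjClasses.mk g = C ∧ orderOf g = p} := fun C =>
    ⟨ConjClasses.mk (ι C.2.choose), ι C.2.choose, rfl, by
      rw [orderOf_injective ι hι]
      exact C.2.choose_spec.2⟩
  apply Nat.card_congr (Equiv.ofBijective φ ⟨?_, ?_⟩)
  · rintro ⟨C, hC⟩ ⟨D, hD⟩ h
    apply Subtype.ext
    show C = D
    have h1 : ConjClasses.mk (ι hC.choose) = ConjClasses.mk (ι hD.choose) := congrArg Subtype.val h
    rw [ConjClasses.mk_eq_mk_iff_isConj] at h1
    have h2 := Cfsg.Agent.Lib.Classical.Herm.NormMat.isConj_of_GL hK _ _ h1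
    rw [← hC.choose_spec.1, ← hD.choose_spec.1]
    exact ConjClasses.mk_eq_mk_iff_isConj.2 h2
  · rintro ⟨C, g, rfl, hg⟩
    have hpow : g ^ p = 1 := by rw [← hg]; exact pow_orderOf_eq_one g
    have hnil : IsNilpotent ((g : Matrix (Fin n) (Fin n) K) - 1) := by
      have h1 := Cfsg.Agent.Lib.Linalg.Unipotent.pow_char_pow_eq_one_iff p g 1
      rw [pow_one] at h1
      exact ⟨p, h1.1 hpow⟩
    have hτ := (Cfsg.Agent.Lib.Linalg.UnipotentClasses.isNilpotent_sub_one_iff _).1 hnil
    have hd : dualT hK (matType (g : Matrix (Fin n) (Fin n) K)) = matType (g : Matrix (Fin n) (Fin n) K) := by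
      rw [dualT]
      conv_rhs => rw [← Multiset.map_id (matType (g : Matrix (Fin n) (Fin n) K))]
      refine Multiset.map_congr rfl fun a ha => ?_
      rw [hτ a ha, dualP_X_sub_one hK]
      exact Prod.ext (hτ a ha).symm rfl
    obtain ⟨g', hg'⟩ := exists_GU_of_type hK (isGLType_matType g) hd
    have hconj : IsConj (g' : GL (Fin n) K) g := isConj_iff_matType_eq.2 hg'
    have hord : orderOf g' = p := by
      rw [← orderOf_injective ι hι]
      obtain ⟨c, hc⟩ := isConj_iff.1 hconj
      have h1 : orderOf (ι g') = orderOf g := by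
        rw [← hc]
        exact (orderOf_injective (MulAut.conj c).toMonoidHom (MulEquiv.injective _) _).symm
      rw [h1, hg]
    refine ⟨⟨ConjClasses.mk g', g', rfl, hord⟩, ?_⟩
    apply Subtype.ext
    show ConjClasses.mk (ι _) = ConjClasses.mk g
    have hex : ∃ g'' : ↥(Cfsg.GU n K q), ConjClasses.mk g'' = ConjClasses.mk g' ∧ orderOf g'' = p := ⟨g', rfl, hord⟩
    rw [ConjClasses.mk_eq_mk_iff_isConj]
    have h2 : IsConj hex.choose g' := ConjClasses.mk_eq_mk_iff_isConj.1 hex.choose_spec.1
    exact (ι.map_isConj h2).trans hconj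

end Cfsg.Agent.S2642
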