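import Cfsg.Statements.S2644
import Mathlib
import Cfsg.Agent.Lib.Classical.Herm.Comm
open Cfsg.Agent.Lib.Classical.Herm.Basic Cfsg.Agent.Lib.Classical.Herm.Tv Cfsg.Agent.Lib.Classical.Herm.Comm
-- import your own Cfsg.Agent.* helpers here

set_option autoImplicit false
open Cfsg

namespace Cfsg.Agent.S2644

/-- In the special unitary group SU_n(q) with n ≥ 3 (isometries of Σ u_i v_i^q of determinant one over the field with q² elements), any two transvections (elements t with t − 1 of rank one and square zero) are conjugate. -/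
theorem result {K : Type*} [Field K] [Fintype K] {q n : ℕ} (hK : Fintype.card K = q ^ 2) (hn : 3 ≤ n) (s t : ↥(Cfsg.SU n K q)) (hs : Cfsg.IsTransvection (((s : GL (Fin n) K) : Matrix (Fin n) (Fin n) K))) (ht : Cfsg.IsTransvection (((t : GL (Fin n) K) : Matrix (Fin n) (Fin n) K))) : IsConj s t := by
  obtain ⟨v, c, hv0, hc0, hv, hc, hsm⟩ := exists_normal_form hK s hs
  obtain ⟨v', c', hv'0, hc'0, hv', hc', htm⟩ := exists_normal_form hK t ht
  have hcq : c ^ q = -c := by linear_combination hc
  have hcq' : c' ^ q = -c' := by linear_combination hc'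
  have hr : (c' / c) ^ q = c' / c := by
    rw [div_pow, hcq, hcq', neg_div_neg_eq]
  obtain ⟨l, hl⟩ := exists_norm_eq hK (c' / c) (div_ne_zero hc'0 hc0) hr
  have hl0 : l ≠ 0 := by
    rintro rfl
    have hq := two_le_q hK
    rw [zero_pow (by omega)] at hl
    exact (div_ne_zero hc'0 hc0) hl.symm
  have hu : hermForm n K q (l • v') (l • v') = 0 := by
    rw [hermForm_smul_left, hermForm_smul_right, hv']
    ring
  obtain ⟨g, -, hg⟩ := reach_iso hK hn hv hu hv0 (smul_ne_zero hl0 hv'0)
  rw [isConj_iff]
  refine ⟨g, ?_⟩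
  rw [eq_tv hK hv hc hsm, eq_tv hK hv' hc' htm]
  apply ext_act
  intro x
  rw [act_conj, act_tv, hg, hermForm_smul_right, smul_smul]
  congr 2
  have h1 : c * (l ^ q * hermForm n K q x v') * l = c * l ^ (q + 1) * hermForm n K q x v' := by
    rw [pow_succ]
    ring
  rw [h1, hl]
  field_simp

end Cfsg.Agent.S2644
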