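import Cfsg.Statements.S2645
import Mathlib
import Cfsg.Agent.Lib.Classical.Herm.CycTuples
import Cfsg.Agent.Lib.Classical.Herm.SpReal
import Cfsg.Agent.S2389

set_option autoImplicit false
open Cfsg

namespace Cfsg.Agent.S2645

/-- Number of conjugacy classes of elements of odd prime order r, r different from the characteristic, in the symplectic group Sp_2m(q): let i be the multiplicative order of q modulo r and t = (r − 1)/i. If i is odd the eigenvalue orbits pair off (Λ ≠ Λ⁻¹) and the classes correspond to the non-zero (t/2)-tuples (a_j) with 2i Σ a_j ≤ 2m, giving C(⌊m/i⌋ + t/2, t/2) − 1 classes; if i is even (Λ = Λ⁻¹) they correspond to the non-zero t-tuples with i Σ a_j ≤ 2m, giving C(⌊2m/i⌋ + t, t) − 1 classes. -/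
theorem result {F : Type*} [Field F] [Fintype F] {p q : ℕ} [Fact p.Prime] [CharP F p] (hF : Fintype.card F = q) (m r i t : ℕ) (hr : r.Prime) (hr2 : r ≠ 2) (hrp : r ≠ p) (hi : i = orderOf (q : ZMod r)) (ht : t * i = r - 1) : Nat.card {C : ConjClasses ↥(Matrix.symplecticGroup (Fin m) F) // ∃ g : Matrix.symplecticGroup (Fin m) F, ConjClasses.mk g = C ∧ orderOf g = r} = if Odd i then Nat.choose (m / i + t / 2) (t / 2) - 1 else Nat.choose (2 * m / i + t) t - 1 := by
  classical
  haveI : Fact r.Prime := ⟨hr⟩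
  have hrpos : 0 < r := hr.pos
  obtain ⟨D, hD', hDr, hcard, hipos, hQr⟩ := Cfsg.Agent.Lib.Classical.Herm.CycTuples.exists_cyc_data hF hr hrp
  rw [← hi] at hD' hcard hipos
  have hDt : D.card = t := by
    have h1 : D.card * i = t * i := by rw [hcard, ht]
    exact Nat.eq_of_mul_eq_mul_right hipos h1
  have hD := hD'
  have hdvd : ∀ d ∈ D, d ∣ (Polynomial.X ^ r - 1 : Polynomial F) := by
    intro d hd
    have := (hDr d (hD d hd).1 (hD d hd).2.1 1 one_pos).2 ⟨rfl, Or.inr hd⟩
    simpa using this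
  have hd0 : ∀ d ∈ D, d.coeff 0 ≠ 0 := fun d hd =>
    Cfsg.Agent.Lib.Classical.Herm.CycTuples.coeff_zero_ne_of_dvd hrpos (hdvd d hd)
  open Cfsg.Agent.Lib.Classical.Herm.CycTuples Cfsg.Agent.Lib.Classical.Herm.Palin Cfsg.Agent.Lib.Classical.Herm.SpReal in
  have hstarD : ∀ d ∈ D, star d ∈ D := by
    intro d hd
    obtain ⟨h1, h2, h3, h4⟩ := hD d hd
    have h5 := (hDr (star d) (star_monic (hd0 d hd)) (irreducible_star h1 (hd0 d hd) h2) 1 one_pos).1
      (by rw [pow_one]; exact star_dvd hrpos (hdvd d hd))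
    rcases h5.2 with h6 | h6
    · exfalso
      apply h4
      rw [← star_star h1 (hd0 d hd), h6, star_X_sub_one]
    · exact h6
  open Cfsg.Agent.Lib.Classical.Herm.CycTuples Cfsg.Agent.Lib.Classical.Herm.Palin Cfsg.Agent.Lib.Classical.Herm.SpReal in
  let ι : D → D := fun d => ⟨star d.1, hstarD d.1 d.2⟩
  open Cfsg.Agent.Lib.Classical.Herm.CycTuples Cfsg.Agent.Lib.Classical.Herm.Palin Cfsg.Agent.Lib.Classical.Herm.SpReal in
  have hι : ∀ a, ι (ι a) = a := fun a => Subtype.ext (star_star (hD a.1 a.2).1 (hd0 a.1 a.2))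
  open Cfsg.Agent.Lib.Classical.Herm.CycTuples Cfsg.Agent.Lib.Classical.Herm.Palin Cfsg.Agent.Lib.Classical.Herm.SpReal in
  have hstar_iff : ∀ d ∈ D, (star d = d ↔ Even i) := by
    intro d hd
    obtain ⟨h1, h2, h3, h4⟩ := hD d hd
    rw [hi]
    exact star_eq_self_iff hr2 hF hQr h1 h2 (by rw [h3, hi]) (hdvd d hd) h4 (hd0 d hd)
  open Cfsg.Agent.Lib.Classical.Herm.CycTuples Cfsg.Agent.Lib.Classical.Herm.Palin Cfsg.Agent.Lib.Classical.Herm.SpReal in
  have hmap : ∀ k : D → ℕ, ∀ n : ℕ, star (polyOf D i n k) = polyOf D i n (k ∘ ι) := fun k n =>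
    map_polyOf starHom star_X_sub_one ι hι (fun d => rfl) k
  let ρ : Matrix.symplecticGroup (Fin m) F →* Matrix.GeneralLinearGroup (Fin m ⊕ Fin m) F :=
    (Matrix.symplecticGroup (Fin m) F).subtype.toHomUnits
  have hρ : Function.Injective ρ := fun a b hab => by
    apply Subtype.ext
    exact congrArg Units.val hab
  open Cfsg.Agent.Lib.Classical.Herm.CycTuples Cfsg.Agent.Lib.Classical.Herm.Palin Cfsg.Agent.Lib.Classical.Herm.SpReal in
  have hreal : ∀ k : D → ℕ, i * ∑ d, k d ≤ 2 * m → k ≠ 0 → (∀ d, k (ι d) = k d) →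
      ∃ h : Matrix.symplecticGroup (Fin m) F, (orderOf h).Coprime p ∧
        ((ρ h : Matrix.GeneralLinearGroup (Fin m ⊕ Fin m) F) : Matrix (Fin m ⊕ Fin m) (Fin m ⊕ Fin m) F).charpoly = polyOf D i (2 * m) k := by
    intro k hk _ hinv
    apply exists_sp_of_isPal
    have hkι : k ∘ ι = k := funext hinv
    have hstarf : ∀ n, star (polyOf D i n k) = polyOf D i n k := fun n => by
      rw [hmap, hkι]
    refine ⟨polyOf_monic hD k, polyOf_natDegree hD k hk, ?_⟩
    -- the product over `D`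
    obtain ⟨g, hg⟩ : ∃ g, g = polyOf D i (i * ∑ d, k d) k := ⟨_, rfl⟩
    have hg' : g = ∏ d : D, (d : Polynomial F) ^ k d := by
      rw [hg, polyOf, Nat.sub_self, pow_zero, one_mul]
    have hgm : g.Monic := by rw [hg]; exact polyOf_monic hD k
    have hg0 : g.coeff 0 ≠ 0 := by
      rw [hg', Polynomial.coeff_zero_eq_eval_zero, Polynomial.eval_prod, Finset.prod_ne_zero_iff]
      intro d _
      rw [Polynomial.eval_pow, ← Polynomial.coeff_zero_eq_eval_zero]
      exact pow_ne_zero _ (hd0 d.1 d.2)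
    have hg1 : g.eval 1 ≠ 0 := by
      rw [hg', Polynomial.eval_prod, Finset.prod_ne_zero_iff]
      intro d _
      rw [Polynomial.eval_pow]
      exact pow_ne_zero _ (eval_one_ne (hD d.1 d.2).1 (hD d.1 d.2).2.1 (hD d.1 d.2).2.2.2)
    have hgs : star g = g := by rw [hg]; exact hstarf _
    have hgc : g.coeff 0 = 1 := coeff_zero_eq_one_of_star hgm hgs hg1 hg0
    -- parity
    have heven : Even (i * ∑ d, k d) := by
      by_cases hip : Even i
      · exact hip.mul_right _
      · have hfp : ∀ a, ι a ≠ a := fun a ha => hip ((hstar_iff a.1 a.2).1 (congrArg Subtype.val ha))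
        obtain ⟨T, hT⟩ := exists_transversal ι hι hfp
        rw [sum_eq_two_mul ι hι hT k hinv]
        exact (even_two_mul _).mul_left _
    obtain ⟨a, ha⟩ : ∃ a, 2 * m - i * ∑ d, k d = a + a := by
      have h1 : Even (2 * m - i * ∑ d, k d) := by
        rw [Nat.even_sub hk]
        exact iff_of_true (even_two_mul m) heven
      exact h1
    have hf : polyOf D i (2 * m) k = (Polynomial.X - 1) ^ (a + a) * g := by
      rw [polyOf, ha, hg']
    have hf0 : (polyOf D i (2 * m) k).coeff 0 = 1 := by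
      rw [hf, Polynomial.mul_coeff_zero, hgc, mul_one, Polynomial.coeff_zero_eq_eval_zero, Polynomial.eval_pow]
      simp only [Polynomial.eval_sub, Polynomial.eval_X, Polynomial.eval_one, zero_sub]
      rw [pow_add, ← mul_pow]
      simp
    have h1 : Polynomial.C ((polyOf D i (2 * m) k).coeff 0) * star (polyOf D i (2 * m) k) = (polyOf D i (2 * m) k).reverse := by
      rw [Cfsg.Agent.Lib.Classical.Herm.CycTuples.star, ← mul_assoc, ← Polynomial.C_mul, mul_inv_cancel₀ (by rw [hf0]; exact one_ne_zero), Polynomial.C_1, one_mul]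
    rw [← h1, hstarf, hf0, Polynomial.C_1, one_mul]
  open Cfsg.Agent.Lib.Classical.Herm.CycTuples Cfsg.Agent.Lib.Classical.Herm.Palin Cfsg.Agent.Lib.Classical.Herm.SpReal in
  have hchar : ∀ (h : Matrix.symplecticGroup (Fin m) F) (k : D → ℕ), i * ∑ d, k d ≤ 2 * m → k ≠ 0 →
      ((ρ h : Matrix.GeneralLinearGroup (Fin m ⊕ Fin m) F) : Matrix (Fin m ⊕ Fin m) (Fin m ⊕ Fin m) F).charpoly = polyOf D i (2 * m) k →
      ∀ d, k (ι d) = k d := by
    intro h k _ _ hc d
    have hpal := isPal_charpoly h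
    have hc' : (h : Matrix (Fin m ⊕ Fin m) (Fin m ⊕ Fin m) F).charpoly = polyOf D i (2 * m) k := hc
    rw [hc'] at hpal
    obtain ⟨h1, h2, h3⟩ := hpal
    have h4 : (polyOf D i (2 * m) k).coeff 0 = 1 := by
      conv_lhs => rw [← h3]
      rw [Polynomial.coeff_zero_reverse, h1.leadingCoeff]
    have h5 : star (polyOf D i (2 * m) k) = polyOf D i (2 * m) k := by
      rw [Cfsg.Agent.Lib.Classical.Herm.CycTuples.star, h3, h4]
      simp
    rw [hmap] at h5
    have h6 := polyOf_injective hD h5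
    exact congrFun h6 d
  have hmain := Cfsg.Agent.Lib.Classical.Herm.CycTuples.card_classes_generic (p := p) (n := 2 * m) (by simp [Fintype.card_sum]; ring) hr hrp hipos hD hDr
    ρ hρ (fun k => ∀ d, k (ι d) = k d) (fun h h' h1 h2 hc => Cfsg.Agent.S2389.result p m h h' h1 h2 hc) hreal hchar
  rw [hmain]
  split_ifs with hodd
  · have hfp : ∀ a, ι a ≠ a := fun a ha => by
      have := (hstar_iff a.1 a.2).1 (congrArg Subtype.val ha)
      exact (Nat.not_even_iff_odd.2 hodd) this
    have h1 := Cfsg.Agent.Lib.Classical.Herm.CycTuples.card_invariant_tuples ι hι hfp (2 * m / i)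
    rw [Fintype.card_coe, hDt] at h1
    have h2 : 2 * m / i / 2 = m / i := by
      rw [Nat.div_div_eq_div_mul, mul_comm i 2, Nat.mul_div_mul_left _ _ (by norm_num)]
    rw [h2] at h1
    rw [← h1]
    refine Nat.card_congr (Equiv.subtypeEquivRight fun k => ?_)
    rw [Nat.le_div_iff_mul_le hipos, mul_comm i]
    tauto
  · have hev : Even i := Nat.not_odd_iff_even.1 hodd
    have h1 := Cfsg.Agent.Lib.Linalg.PrimeOrderClasses.card_tuples_ne_zero D (2 * m / i)
    rw [Fintype.card_coe, hDt] at h1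
    rw [← h1]
    refine Nat.card_congr (Equiv.subtypeEquivRight fun k => ?_)
    rw [Nat.le_div_iff_mul_le hipos, mul_comm i]
    have hι1 : ∀ d, ι d = d := fun d => Subtype.ext ((hstar_iff d.1 d.2).2 hev)
    simp [hι1]

end Cfsg.Agent.S2645
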