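import Cfsg.Statements.S2665
import Mathlib
-- import your own Cfsg.Agent.* helpers here

set_option autoImplicit false
open scoped MatrixGroups
open Cfsg

namespace Cfsg.Agent.S2665

universe u v

open Polynomial Module

section poly

variable {K : Type*} [Field K]

/-- The auxiliary `q`-polynomials: the coefficient of a fixed vector as a function of its
top coefficient `t`. -/
noncomputable def polyA (q : ℕ) (b : ℕ → K) : ℕ → K[X]
  | 0 => C (b 0) * X ^ q
  | i + 1 => polyA q b i ^ q + C (b (i + 1)) * X ^ q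

lemma natDegree_polyA {q : ℕ} (hq : 2 ≤ q) {b : ℕ → K} (hb : b 0 ≠ 0) (i : ℕ) :
    (polyA q b i).natDegree = q ^ (i + 1) := by
  induction i with
  | zero => simp [polyA, natDegree_C_mul_X_pow _ _ hb]
  | succ i ih =>
    rw [polyA]
    have h1 : (polyA q b i ^ q).natDegree = q ^ (i + 2) := by
      rw [natDegree_pow, ih]; ring
    have h2 : (C (b (i + 1)) * X ^ q : K[X]).natDegree ≤ q := natDegree_C_mul_X_pow_le _ _
    have h3 : q < q ^ (i + 2) := by
      calc q = q ^ 1 := (pow_one q).symm
        _ < q ^ (i + 2) := Nat.pow_lt_pow_right (by omega) (by omega)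
    rw [natDegree_add_eq_left_of_natDegree_lt (by omega), h1]

lemma X_sq_dvd_polyA {q : ℕ} (hq : 2 ≤ q) (b : ℕ → K) (i : ℕ) :
    (X ^ 2 : K[X]) ∣ polyA q b i := by
  have h0 : (X ^ 2 : K[X]) ∣ X ^ q := pow_dvd_pow _ hq
  induction i with
  | zero => exact h0.trans (dvd_mul_left _ _)
  | succ i ih =>
    rw [polyA]
    exact dvd_add (ih.trans (dvd_pow_self _ (by omega))) (h0.trans (dvd_mul_left _ _))

lemma exists_root_polyA [IsAlgClosed K] {q : ℕ} (hq : 2 ≤ q) {b : ℕ → K} (hb : b 0 ≠ 0) (m : ℕ) :
    ∃ t : K, t ≠ 0 ∧ eval t (polyA q b m) = t := by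
  obtain ⟨B, hB⟩ := X_sq_dvd_polyA (K := K) hq b m
  set R : K[X] := X * B - 1 with hR
  have hdeg : R.degree ≠ 0 := by
    intro h
    have h0 : R.natDegree = 0 := natDegree_eq_of_degree_eq_some h
    have h1 : polyA q b m = X * (R + 1) := by rw [hB, hR]; ring
    have h2 : (R + 1).natDegree = 0 := by
      have := natDegree_add_le R (1 : K[X])
      simp only [natDegree_one, h0] at this
      omega
    have h3 : (polyA q b m).natDegree ≤ 1 := by
      rw [h1]
      calc (X * (R + 1)).natDegree ≤ (X : K[X]).natDegree + (R + 1).natDegree := natDegree_mul_le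
        _ ≤ 1 := by rw [h2]; simp
    rw [natDegree_polyA hq hb] at h3
    have h4 : q ^ 1 ≤ q ^ (m + 1) := Nat.pow_le_pow_right (by omega) (by omega)
    rw [pow_one] at h4
    omega
  obtain ⟨t, ht⟩ := IsAlgClosed.exists_root R hdeg
  have ht' : t * eval t B - 1 = 0 := by
    have := ht
    simpa [IsRoot, hR] using this
  have ht1 : t * eval t B = 1 := sub_eq_zero.1 ht'
  refine ⟨t, ?_, ?_⟩
  · rintro rfl
    simp at ht1
  · rw [hB]
    simp only [eval_mul, eval_pow, eval_X]
    calc t ^ 2 * eval t B = t * (t * eval t B) := by ring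
      _ = t := by rw [ht1, mul_one]

end poly

section semilinear

variable {K : Type u} [Field K] [IsAlgClosed K] {q : ℕ} {σ : K →+* K}

omit [IsAlgClosed K] in
lemma mem_span_image_range {V : Type v} [AddCommGroup V] [Module K V] (w : ℕ → V) (d : ℕ) (x : V) :
    x ∈ Submodule.span K (w '' (Finset.range d : Set ℕ)) ↔
      ∃ c : ℕ → K, ∑ i ∈ Finset.range d, c i • w i = x := by
  classical
  constructor
  · intro h
    obtain ⟨c, hc⟩ := (Submodule.mem_span_image_finset_iff_exists_fun K).1 h
    refine ⟨fun i => if h : i ∈ Finset.range d then c ⟨i, h⟩ else 0, ?_⟩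
    rw [← hc, ← Finset.sum_coe_sort (Finset.range d)]
    refine Finset.sum_congr rfl fun i _ => ?_
    simp
  · rintro ⟨c, rfl⟩
    refine Submodule.sum_mem _ fun i hi => Submodule.smul_mem _ _ (Submodule.subset_span ?_)
    exact ⟨i, by simpa using hi, rfl⟩

lemma exists_fixed {V : Type v} [AddCommGroup V] [Module K V] [FiniteDimensional K V]
    [Nontrivial V] (hq : 2 ≤ q) (hσ : ∀ a, σ a = a ^ q) (Φ : V →ₛₗ[σ] V)
    (hΦ : Function.Injective Φ) : ∃ u : V, u ≠ 0 ∧ Φ u = u := by
  classical
  obtain ⟨v, hv⟩ := exists_ne (0 : V)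
  set w : ℕ → V := fun i => Φ^[i] v with hw
  have hwsucc : ∀ i, w (i + 1) = Φ (w i) := fun i => Function.iterate_succ_apply' _ _ _
  let S : ℕ →o Submodule K V :=
    ⟨fun d => Submodule.span K (w '' (Finset.range d : Set ℕ)), fun a b hab =>
      Submodule.span_mono (Set.image_mono (by
        intro i hi
        simp only [Finset.coe_range, Set.mem_Iio] at hi ⊢
        omega))⟩
  obtain ⟨n, hn⟩ := monotone_stabilizes_iff_noetherian.2 (inferInstance : IsNoetherian K V) S
  have hex : ∃ d, w d ∈ S d := ⟨n, by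
    rw [hn (n + 1) (by omega)]
    exact Submodule.subset_span ⟨n, by simp, rfl⟩⟩
  have hd : w (Nat.find hex) ∈ S (Nat.find hex) := Nat.find_spec hex
  have hmin : ∀ e < Nat.find hex, w e ∉ S e := fun e he => Nat.find_min hex he
  generalize Nat.find hex = d at hd hmin
  have hd0 : d ≠ 0 := by
    rintro rfl
    have : w 0 ∈ Submodule.span K (w '' (Finset.range 0 : Set ℕ)) := hd
    simp only [Finset.range_zero, Finset.coe_empty, Set.image_empty, Submodule.span_empty,
      Submodule.mem_bot] at this
    exact hv this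
  obtain ⟨m, rfl⟩ := Nat.exists_eq_succ_of_ne_zero hd0
  obtain ⟨b, hb⟩ := (mem_span_image_range w (m + 1) (w (m + 1))).1 hd
  have hm : w m ∉ Submodule.span K (w '' (Finset.range m : Set ℕ)) := hmin m (by omega)
  have hb0 : b 0 ≠ 0 := by
    intro h0
    apply hm
    have hsurj : ∀ a, ∃ z, σ z = a := fun a => by
      obtain ⟨z, hz⟩ := IsAlgClosed.exists_pow_nat_eq a (show 0 < q by omega)
      exact ⟨z, by rw [hσ, hz]⟩
    choose τ hτ using hsurj
    have : w m = ∑ i ∈ Finset.range m, τ (b (i + 1)) • w i := by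
      apply hΦ
      rw [← hwsucc, map_sum, ← hb, Finset.sum_range_succ', h0, zero_smul, add_zero]
      refine Finset.sum_congr rfl fun i _ => ?_
      rw [LinearMap.map_smulₛₗ, hτ, hwsucc]
    rw [this]
    exact (mem_span_image_range w m _).2 ⟨_, rfl⟩
  obtain ⟨t, ht0, ht⟩ := exists_root_polyA hq hb0 m
  set a : ℕ → K := fun i => eval t (polyA q b i) with ha
  have ha0 : a 0 = b 0 * t ^ q := by simp [ha, polyA]
  have hasucc : ∀ i, a (i + 1) = a i ^ q + b (i + 1) * t ^ q := fun i => by simp [ha, polyA]
  have ham : a m = t := ht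
  refine ⟨∑ i ∈ Finset.range (m + 1), a i • w i, ?_, ?_⟩
  · intro h0
    apply hm
    rw [Finset.sum_range_succ, ham] at h0
    have h2 : t • w m = - ∑ i ∈ Finset.range m, a i • w i := eq_neg_of_add_eq_zero_right h0
    have h3 : w m = ∑ i ∈ Finset.range m, (-(t⁻¹ * a i)) • w i := by
      calc w m = t⁻¹ • (t • w m) := (inv_smul_smul₀ ht0 _).symm
        _ = _ := by
          rw [h2, smul_neg, Finset.smul_sum, ← Finset.sum_neg_distrib]
          refine Finset.sum_congr rfl fun i _ => ?_
          rw [smul_smul, neg_smul]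
    rw [h3]
    exact (mem_span_image_range w m _).2 ⟨_, rfl⟩
  · calc Φ (∑ i ∈ Finset.range (m + 1), a i • w i)
        = ∑ i ∈ Finset.range (m + 1), (a i) ^ q • w (i + 1) := by
          simp only [map_sum, LinearMap.map_smulₛₗ, hσ, hwsucc]
      _ = ∑ i ∈ Finset.range m, (a i) ^ q • w (i + 1) + t ^ q • w (m + 1) := by
          rw [Finset.sum_range_succ, ham]
      _ = ∑ i ∈ Finset.range m, (a i) ^ q • w (i + 1) +
            t ^ q • (∑ i ∈ Finset.range m, b (i + 1) • w (i + 1) + b 0 • w 0) := by
          rw [← hb, Finset.sum_range_succ']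
      _ = ∑ i ∈ Finset.range m, (a (i + 1)) • w (i + 1) + a 0 • w 0 := by
          rw [smul_add, Finset.smul_sum, ← add_assoc, ← Finset.sum_add_distrib, smul_smul, ha0,
            mul_comm (t ^ q)]
          congr 1
          refine Finset.sum_congr rfl fun i _ => ?_
          rw [smul_smul, ← add_smul, hasucc, mul_comm (t ^ q)]
      _ = ∑ i ∈ Finset.range (m + 1), a i • w i := by rw [Finset.sum_range_succ']

lemma exists_artin_schreier (hq : 2 ≤ q) (c : K) : ∃ a : K, a ^ q = a - c := by
  have hdeg : ((X : K[X]) ^ q - X + C c).degree = (q : WithBot ℕ) := by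
    have h1 : ((X : K[X]) - C c).degree < (q : WithBot ℕ) := by
      rw [degree_X_sub_C]
      exact_mod_cast (by omega : 1 < q)
    have := degree_sub_eq_left_of_degree_lt (p := (X : K[X]) ^ q) (q := X - C c)
      (by rw [degree_X_pow]; exact h1)
    rw [degree_X_pow] at this
    rw [← this]
    congr 1
    ring
  have hne : ((X : K[X]) ^ q - X + C c).degree ≠ 0 := by
    rw [hdeg]
    exact_mod_cast (by omega : q ≠ 0)
  obtain ⟨a, ha⟩ := IsAlgClosed.exists_root _ hne
  refine ⟨a, ?_⟩
  simp only [IsRoot, eval_add, eval_sub, eval_pow, eval_X, eval_C] at ha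
  linear_combination ha

theorem span_fixed (hq : 2 ≤ q) (hσ : ∀ a, σ a = a ^ q) (n : ℕ) :
    ∀ (V : Type v) [AddCommGroup V] [Module K V] [FiniteDimensional K V],
      finrank K V = n → ∀ Φ : V →ₛₗ[σ] V, Function.Injective Φ →
        Submodule.span K {v | Φ v = v} = ⊤ := by
  induction n using Nat.strong_induction_on with
  | _ n ih =>
    intro V _ _ _ hn Φ hΦ
    have hsurj : ∀ a, ∃ z, σ z = a := fun a => by
      obtain ⟨z, hz⟩ := IsAlgClosed.exists_pow_nat_eq a (show 0 < q by omega)
      exact ⟨z, by rw [hσ, hz]⟩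
    by_cases hV : Subsingleton V
    · refine (Submodule.eq_top_iff'.2 fun x => ?_)
      rw [Subsingleton.elim x 0]
      exact Submodule.zero_mem _
    have hnt : Nontrivial V := not_subsingleton_iff_nontrivial.1 hV
    obtain ⟨u, hu0, hu⟩ := exists_fixed hq hσ Φ hΦ
    set W : Submodule K V := K ∙ u with hWdef
    have hmemW : ∀ y, y ∈ W ↔ ∃ c : K, c • u = y := fun y => Submodule.mem_span_singleton
    have hW : W ≤ W.comap Φ := by
      intro y hy
      obtain ⟨c, rfl⟩ := (hmemW y).1 hy
      rw [Submodule.mem_comap, LinearMap.map_smulₛₗ, hu]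
      exact (hmemW _).2 ⟨_, rfl⟩
    set Φ' : (V ⧸ W) →ₛₗ[σ] (V ⧸ W) := W.mapQ W Φ hW with hΦ'def
    have hΦ' : Function.Injective Φ' := by
      rw [injective_iff_map_eq_zero]
      intro x hx
      obtain ⟨y, rfl⟩ := Submodule.Quotient.mk_surjective W x
      rw [hΦ'def, Submodule.mapQ_apply, Submodule.Quotient.mk_eq_zero] at hx
      obtain ⟨c, hc⟩ := (hmemW _).1 hx
      obtain ⟨z, rfl⟩ := hsurj c
      have : y = z • u := hΦ (by rw [LinearMap.map_smulₛₗ, hu, hc])
      rw [Submodule.Quotient.mk_eq_zero, this]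
      exact (hmemW _).2 ⟨_, rfl⟩
    have hfr : finrank K (V ⧸ W) < n := by
      have h1 := Submodule.finrank_quotient_add_finrank W
      rw [hWdef, finrank_span_singleton hu0] at h1
      rw [hWdef]
      omega
    have hQ := ih _ hfr (V ⧸ W) rfl Φ' hΦ'
    set F : Submodule K V := Submodule.span K {v | Φ v = v} with hF
    have hWF : W ≤ F := by
      rw [hWdef, Submodule.span_singleton_le_iff_mem]
      exact Submodule.subset_span hu
    have hle : Submodule.span K {v | Φ' v = v} ≤ F.map W.mkQ := by
      rw [Submodule.span_le]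
      intro x hx
      obtain ⟨y, rfl⟩ := Submodule.Quotient.mk_surjective W x
      have hx' : Φ' (Submodule.Quotient.mk y) = Submodule.Quotient.mk y := hx
      rw [hΦ'def, Submodule.mapQ_apply, Submodule.Quotient.eq] at hx'
      obtain ⟨c, hc⟩ := (hmemW _).1 hx'
      obtain ⟨a, ha⟩ := exists_artin_schreier (K := K) hq c
      have hfix : Φ (y + a • u) = y + a • u := by
        rw [map_add, LinearMap.map_smulₛₗ, hu, hσ, ha, sub_smul, hc]
        abel
      refine ⟨y + a • u, Submodule.subset_span hfix, ?_⟩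
      show Submodule.Quotient.mk _ = Submodule.Quotient.mk _
      rw [Submodule.Quotient.eq, add_sub_cancel_left]
      exact (hmemW _).2 ⟨_, rfl⟩
    refine Submodule.eq_top_iff'.2 fun x => ?_
    have hmk : (Submodule.Quotient.mk x : V ⧸ W) ∈ F.map W.mkQ := hle (by rw [hQ]; trivial)
    obtain ⟨y, hy, hyx⟩ := hmk
    have : y - x ∈ W := (Submodule.Quotient.eq W).1 hyx
    have h2 : x = y - (y - x) := by abel
    rw [h2]
    exact F.sub_mem hy (hWF this)

end semilinear

/-- The Lang–Steinberg Theorem for the general linear group. Let `K` be an algebraically closed field of prime characteristic `p`, let `q = p^f` with `f ≥ 1`, and let `σ` be the endomorphism of GL_n(K) raising every matrix entry to the `q`-th power. Then every element `g` of GL_n(K) can be written `g = x · σ(x)⁻¹` for some `x` in GL_n(K): the map `x ↦ x σ(x)⁻¹` is surjective. -/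
theorem result {K : Type*} [Field K] [IsAlgClosed K] (p : ℕ) [Fact p.Prime] [CharP K p]
    (f : ℕ) (hf : 1 ≤ f) (n : ℕ) (g : GL (Fin n) K) :
    ∃ x : GL (Fin n) K, g = x * (Matrix.GeneralLinearGroup.map (iterateFrobenius K p f) x)⁻¹ := by
  classical
  have hp2 : 2 ≤ p := (Fact.out : p.Prime).two_le
  have hq : 2 ≤ p ^ f := by
    calc 2 ≤ p := hp2
      _ = p ^ 1 := (pow_one p).symm
      _ ≤ p ^ f := Nat.pow_le_pow_right (by omega) hf
  have hσ : ∀ a : K, iterateFrobenius K p f a = a ^ (p ^ f) := fun a => iterateFrobenius_def p f a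
  let Φ : (Fin n → K) →ₛₗ[iterateFrobenius K p f] (Fin n → K) :=
    { toFun := fun v => (g : Matrix (Fin n) (Fin n) K).mulVec (fun i => iterateFrobenius K p f (v i))
      map_add' := fun v w => by
        have : (fun i => iterateFrobenius K p f ((v + w) i)) =
            (fun i => iterateFrobenius K p f (v i)) + (fun i => iterateFrobenius K p f (w i)) := by
          funext i; simp
        rw [this, Matrix.mulVec_add]
      map_smul' := fun c v => by
        have : (fun i => iterateFrobenius K p f ((c • v) i)) =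
            (iterateFrobenius K p f c) • (fun i => iterateFrobenius K p f (v i)) := by
          funext i; simp
        rw [this, Matrix.mulVec_smul] }
  have hΦapply : ∀ v, Φ v = (g : Matrix (Fin n) (Fin n) K).mulVec
      (fun i => iterateFrobenius K p f (v i)) := fun v => rfl
  have hΦ : Function.Injective Φ := by
    intro v w hvw
    rw [hΦapply, hΦapply] at hvw
    have h1 := congrArg ((g⁻¹ : GL (Fin n) K) : Matrix (Fin n) (Fin n) K).mulVec hvw
    simp only [Matrix.mulVec_mulVec] at h1
    rw [← Units.val_mul, inv_mul_cancel, Units.val_one, Matrix.one_mulVec, Matrix.one_mulVec] at h1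
    funext i
    exact (iterateFrobenius K p f).injective (congrFun h1 i)
  have hspan := span_fixed hq hσ n (Fin n → K) (by simp) Φ hΦ
  obtain ⟨B, hBs, hBspan, hBli⟩ := exists_linearIndependent K {v | Φ v = v}
  let bas := Module.Basis.mk hBli (by rw [Subtype.range_coe, hBspan, hspan])
  have hfin : Finite B := Module.Finite.finite_basis bas
  let _ : Fintype B := Fintype.ofFinite B
  have hcard : Fintype.card B = n := by
    have := Module.finrank_eq_card_basis bas
    simpa using this.symm
  let e : Fin n ≃ B := (Fintype.equivFinOfCardEq hcard).symm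
  let x : Matrix (Fin n) (Fin n) K := Matrix.of fun i j => (e j : Fin n → K) i
  have hx : IsUnit x := by
    apply Matrix.linearIndependent_cols_iff_isUnit.1
    have := hBli.comp (fun j => e j) e.injective
    have hcol : x.col = Subtype.val ∘ fun j => e j := by
      funext j i
      rfl
    rw [hcol]
    exact this
  obtain ⟨X, hX⟩ := hx
  refine ⟨X, ?_⟩
  rw [eq_mul_inv_iff_mul_eq]
  apply Units.ext
  ext i j
  have hfix : Φ (e j : Fin n → K) = (e j : Fin n → K) := hBs (e j).2
  have h2 := congrFun hfix i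
  rw [hΦapply] at h2
  rw [Units.val_mul, Matrix.mul_apply, hX]
  simp only [Matrix.GeneralLinearGroup.map_apply, hX]
  exact h2

end Cfsg.Agent.S2665
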