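import Cfsg.Statements.S2666
import Mathlib
-- import your own Cfsg.Agent.* helpers here

set_option autoImplicit false
open Cfsg

namespace Cfsg.Agent.S2666

theorem pow_comm_apply {X : Type*} [Group X] (σ : MulAut X) (e : ℕ) (a : X) :
    (σ ^ e) (σ a) = σ ((σ ^ e) a) := by
  have h : σ ^ e * σ = σ * σ ^ e := (Commute.refl σ).pow_left e
  have := congrArg (fun f : MulAut X => f a) h
  simpa [MulAut.mul_apply] using this

theorem pow_fix {X : Type*} [Group X] (σ : MulAut X) (e : ℕ) (h : X) (hh : σ h = h) :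
    (σ ^ e) h = h := by
  induction e with
  | zero => simp
  | succ n ih =>
    rw [pow_succ, MulAut.mul_apply, hh, ih]

theorem norm_telescope {X : Type*} [Group X] (σ : MulAut X) (a : X) (e : ℕ) :
    ((List.range e).map (fun i => (σ ^ i) (a * (σ a)⁻¹))).prod = a * ((σ ^ e) a)⁻¹ := by
  induction e with
  | zero => simp
  | succ n ih =>
    rw [List.range_succ, List.map_append, List.prod_append, ih]
    simp only [List.map_cons, List.map_nil, List.prod_cons, List.prod_nil, mul_one, map_mul,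
      map_inv, pow_comm_apply]
    have h2 : (σ ^ (n + 1)) a = σ ((σ ^ n) a) := by
      rw [pow_succ, MulAut.mul_apply, pow_comm_apply]
    rw [h2]
    group

theorem fixed_of_fixed {X : Type*} [Group X] (σ : MulAut X) (e : ℕ) (a : X)
    (hg : (σ ^ e) (a * (σ a)⁻¹) = a * (σ a)⁻¹) : σ (((σ ^ e) a)⁻¹ * a) = ((σ ^ e) a)⁻¹ * a := by
  rw [map_mul, map_inv, pow_comm_apply] at hg
  rw [map_mul, map_inv]
  set s := (σ ^ e) a with hs
  have h2 : a⁻¹ * s = (σ a)⁻¹ * σ s := by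
    have h3 : s = a * (σ a)⁻¹ * σ s := by
      rw [← hg]; group
    calc a⁻¹ * s = a⁻¹ * (a * (σ a)⁻¹ * σ s) := by rw [← h3]
      _ = _ := by group
  have h4 : s⁻¹ * a = (a⁻¹ * s)⁻¹ := by group
  have h5 : (σ s)⁻¹ * σ a = ((σ a)⁻¹ * σ s)⁻¹ := by group
  rw [h4, h5, h2]

theorem fixed_of_fixed' {X : Type*} [Group X] (σ : MulAut X) (e : ℕ) (a : X)
    (hx : σ (((σ ^ e) a)⁻¹ * a) = ((σ ^ e) a)⁻¹ * a) : (σ ^ e) (a * (σ a)⁻¹) = a * (σ a)⁻¹ := by
  rw [map_mul, map_inv] at hx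
  rw [map_mul, map_inv, pow_comm_apply]
  set s := (σ ^ e) a with hs
  have h3 : σ a = σ s * (s⁻¹ * a) := by
    rw [← hx]; group
  calc s * (σ s)⁻¹ = s * (σ s)⁻¹ * (σ a * (σ a)⁻¹) := by group
    _ = s * (σ s)⁻¹ * ((σ s * (s⁻¹ * a)) * (σ a)⁻¹) := by rw [← h3]
    _ = a * (σ a)⁻¹ := by group


/-- Shintani descent, in an abstract form. Let `σ` be an automorphism of a group `X` such that the maps `a ↦ a·σ(a)⁻¹` and `a ↦ a·σᵉ(a)⁻¹` are surjective on `X` (the Lang–Steinberg property, which holds when `X` is a connected algebraic group and `σ` a Steinberg endomorphism), where `e ≥ 1`. Write `G` for the subgroup of fixed points of `σᵉ` and `H` for the subgroup of fixed points of `σ`. The `G`-conjugacy classes in the coset `G σ` of the semidirect product of `G` by `σ` correspond to the orbits of `G` on itself under twisted conjugation `g ↦ k g σ(k)⁻¹`, and the `e`-th power of `g σ` has `G`-part the norm `g σ(g) ⋯ σ^(e-1)(g)`. For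 `g` in `G` and any `a` with `g = a σ(a)⁻¹`, put `x = σᵉ(a)⁻¹ a`. Then: (1) `x` lies in `H`, and `a⁻¹ · (g σ(g) ⋯ σ^(e-1)(g)) · a = x`; (2) for `g, g'` in `G` with such elements `a, b` and `x, x'`, the elements `g, g'` are twisted-conjugate under `G` if and only if `x, x'` are conjugate in `H`; (3) every element of `H` arises as such an `x`. So `g ↦ x` induces a well-defined bijection from the twisted `G`-classes of `G` onto the conjugacy classes of `H` (the Shintani map). -/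
theorem result {X : Type*} [Group X] (σ : MulAut X) (e : ℕ) (he : 1 ≤ e)
    (hL : ∀ g : X, ∃ a : X, g = a * (σ a)⁻¹) (hLe : ∀ g : X, ∃ a : X, g = a * ((σ ^ e) a)⁻¹) :
    (∀ g ∈ (MulEquiv.toMonoidHom (σ ^ e)).eqLocus (MonoidHom.id X), ∀ a : X, g = a * (σ a)⁻¹ →
        ((σ ^ e) a)⁻¹ * a ∈ (MulEquiv.toMonoidHom σ).eqLocus (MonoidHom.id X) ∧
          a⁻¹ * ((List.range e).map (fun i => (σ ^ i) g)).prod * a = ((σ ^ e) a)⁻¹ * a) ∧
    (∀ g ∈ (MulEquiv.toMonoidHom (σ ^ e)).eqLocus (MonoidHom.id X), ∀ g' ∈ (MulEquiv.toMonoidHom (σ ^ e)).eqLocus (MonoidHom.id X), ∀ a b : X,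
        g = a * (σ a)⁻¹ → g' = b * (σ b)⁻¹ →
          ((∃ k ∈ (MulEquiv.toMonoidHom (σ ^ e)).eqLocus (MonoidHom.id X), g' = k * g * (σ k)⁻¹) ↔
            (∃ h ∈ (MulEquiv.toMonoidHom σ).eqLocus (MonoidHom.id X), ((σ ^ e) b)⁻¹ * b = h * (((σ ^ e) a)⁻¹ * a) * h⁻¹))) ∧
    (∀ x ∈ (MulEquiv.toMonoidHom σ).eqLocus (MonoidHom.id X), ∃ g ∈ (MulEquiv.toMonoidHom (σ ^ e)).eqLocus (MonoidHom.id X), ∃ a : X,
        g = a * (σ a)⁻¹ ∧ ((σ ^ e) a)⁻¹ * a = x) := by
  have hmem : ∀ g : X, g ∈ (MulEquiv.toMonoidHom (σ ^ e)).eqLocus (MonoidHom.id X) ↔ (σ ^ e) g = g := by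
    intro g; rfl
  have hmem1 : ∀ g : X, g ∈ (MulEquiv.toMonoidHom σ).eqLocus (MonoidHom.id X) ↔ σ g = g := by
    intro g; rfl
  refine ⟨?_, ?_, ?_⟩
  · intro g hg a ha
    rw [hmem] at hg
    subst ha
    refine ⟨(hmem1 _).mpr (fixed_of_fixed σ e a hg), ?_⟩
    rw [norm_telescope]
    group
  · intro g hg g' hg' a b ha hb
    rw [hmem] at hg hg'
    subst ha hb
    constructor
    · rintro ⟨k, hk, hk'⟩
      rw [hmem] at hk
      have h1 : b * (σ b)⁻¹ = (k * a) * (σ (k * a))⁻¹ := by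
        rw [hk']; simp only [map_mul, mul_inv_rev]; group
      have h3 : (σ b)⁻¹ = b⁻¹ * ((k * a) * (σ (k * a))⁻¹) := by
        rw [← h1]; group
      have h4 : σ (k * a) = (σ b) * (b⁻¹ * (k * a)) := by
        have : (σ b)⁻¹ * σ (k * a) = b⁻¹ * (k * a) := by
          rw [h3]; group
        rw [← this]; group
      have hh : σ (b⁻¹ * (k * a)) = b⁻¹ * (k * a) := by
        rw [map_mul, map_inv, h4]; group
      have hh' := pow_fix σ e _ hh
      refine ⟨b⁻¹ * (k * a), (hmem1 _).mpr hh, ?_⟩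
      have hb' : b = k * a * (b⁻¹ * (k * a))⁻¹ := by group
      have hσb : (σ ^ e) b = k * (σ ^ e) a * (b⁻¹ * (k * a))⁻¹ := by
        conv_lhs => rw [hb']
        rw [map_mul, map_mul, map_inv, hk, hh']
      rw [hσb]
      group
    · rintro ⟨h, hh, hx⟩
      rw [hmem1] at hh
      have hh' := pow_fix σ e _ hh
      refine ⟨b * h * a⁻¹, (hmem _).mpr ?_, ?_⟩
      · rw [map_mul, map_mul, map_inv, hh']
        have h6 : (σ ^ e) b = b * (h * (((σ ^ e) a)⁻¹ * a) * h⁻¹)⁻¹ := by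
          rw [← hx]; group
        rw [h6]; group
      · simp only [map_mul, map_inv, hh]
        group
  · intro x hx
    rw [hmem1] at hx
    obtain ⟨a', ha'⟩ := hLe x⁻¹
    have hxa : ((σ ^ e) a'⁻¹)⁻¹ * a'⁻¹ = x := by
      rw [map_inv, inv_inv]
      have : x = (a' * ((σ ^ e) a')⁻¹)⁻¹ := by rw [← ha']; group
      rw [this]; group
    refine ⟨a'⁻¹ * (σ a'⁻¹)⁻¹, (hmem _).mpr (fixed_of_fixed' σ e a'⁻¹ (by rw [hxa]; exact hx)), a'⁻¹, rfl, hxa⟩


end Cfsg.Agent.S2666
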