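import Cfsg.Statements.S2667
import Mathlib
-- import your own Cfsg.Agent.* helpers here

set_option autoImplicit false
open Cfsg

namespace Cfsg.Agent.S2667

/-- Shintani descent, in an abstract form. Let `σ` be an automorphism of a group `X` and `e ≥ 1` (no surjectivity of the Lang maps is needed for this part; in the classical setting `X` is a connected algebraic group and `σ` a Steinberg endomorphism). Write `G` for the subgroup of fixed points of `σᵉ` and `H` for the subgroup of fixed points of `σ`. The `G`-conjugacy classes in the coset `G σ` of the semidirect product of `G` by `σ` correspond to the orbits of `G` on itself under twisted conjugation `g ↦ k g σ(k)⁻¹`, and the `e`-th power of `g σ` has `G`-part the norm `g σ(g) ⋯ σ^(e-1)(g)`. For `g` in `G` and any `a` with `g = a σ(a)⁻¹`, put `x = σᵉ(a)⁻¹ a`. Then conjugation by `a⁻¹` carries the twisted centralizer `{k ∈ G : k g σ(k)⁻¹ = g}` (the centralizer of `g σ` in `G`) exactly onto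 the centralizer of `x` in `H`: an element `k` of `X` lies in `G` and satisfies `k g σ(k)⁻¹ = g` if and only if `a⁻¹ k a` lies in `H` and commutes with `x`. In particular the two centralizers are conjugate in `X` and have the same order. -/
theorem result {X : Type*} [Group X] (σ : MulAut X) (e : ℕ) (he : 1 ≤ e)
    (g : X) (hg : g ∈ (MulEquiv.toMonoidHom (σ ^ e)).eqLocus (MonoidHom.id X)) (a : X) (ha : g = a * (σ a)⁻¹) (k : X) :
    (k ∈ (MulEquiv.toMonoidHom (σ ^ e)).eqLocus (MonoidHom.id X) ∧ k * g * (σ k)⁻¹ = g) ↔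
      (a⁻¹ * k * a ∈ (MulEquiv.toMonoidHom σ).eqLocus (MonoidHom.id X) ∧
        (a⁻¹ * k * a) * (((σ ^ e) a)⁻¹ * a) = (((σ ^ e) a)⁻¹ * a) * (a⁻¹ * k * a)) := by
  have hτ : ∀ (n : ℕ) (l : X), σ l = l → (σ ^ n) l = l := by
    intro n l hl
    induction n with
    | zero => simp
    | succ m ih => rw [pow_succ, MulAut.mul_apply, hl, ih]
  have hk2 : k * g * (σ k)⁻¹ = g ↔ σ (a⁻¹ * k * a) = a⁻¹ * k * a := by
    rw [ha]
    simp only [map_mul, map_inv]
    constructor
    · intro h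
      have h1 : k * a = a * (σ a)⁻¹ * σ k * σ a := by
        have := congrArg (fun s => s * σ k * σ a) h
        simpa [mul_assoc] using this
      calc (σ a)⁻¹ * σ k * σ a = a⁻¹ * (a * (σ a)⁻¹ * σ k * σ a) := by group
        _ = a⁻¹ * (k * a) := by rw [h1]
        _ = a⁻¹ * k * a := by group
    · intro h
      have h1 : a * (σ a)⁻¹ * σ k * σ a = k * a := by
        calc a * (σ a)⁻¹ * σ k * σ a = a * ((σ a)⁻¹ * σ k * σ a) := by group
          _ = a * (a⁻¹ * k * a) := by rw [h]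
          _ = k * a := by group
      calc k * (a * (σ a)⁻¹) * (σ k)⁻¹ = (k * a) * (σ a)⁻¹ * (σ k)⁻¹ := by group
        _ = (a * (σ a)⁻¹ * σ k * σ a) * (σ a)⁻¹ * (σ k)⁻¹ := by rw [h1]
        _ = a * (σ a)⁻¹ := by group
  constructor
  · rintro ⟨h1, h2⟩
    have h1' : (σ ^ e) k = k := h1
    refine ⟨(hk2.mp h2 : _), ?_⟩
    have hl := hτ e _ (hk2.mp h2)
    simp only [map_mul, map_inv, h1'] at hl
    -- `τ(a)⁻¹ k τ(a) = a⁻¹ k a`
    calc a⁻¹ * k * a * (((σ ^ e) a)⁻¹ * a)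
        = ((σ ^ e) a)⁻¹ * k * (σ ^ e) a * (((σ ^ e) a)⁻¹ * a) := by rw [hl]
      _ = ((σ ^ e) a)⁻¹ * a * (a⁻¹ * k * a) := by group
  · rintro ⟨h1, h2⟩
    have h1' : σ (a⁻¹ * k * a) = a⁻¹ * k * a := h1
    refine ⟨?_, hk2.mpr h1'⟩
    show (σ ^ e) k = k
    have hl := hτ e _ h1'
    simp only [map_mul, map_inv] at hl
    -- `a⁻¹ k a τ(a)⁻¹ = τ(a)⁻¹ k`
    have h3 : a⁻¹ * k * a * ((σ ^ e) a)⁻¹ = ((σ ^ e) a)⁻¹ * k := by
      have := congrArg (fun s => s * a⁻¹) h2
      calc a⁻¹ * k * a * ((σ ^ e) a)⁻¹ = a⁻¹ * k * a * (((σ ^ e) a)⁻¹ * a) * a⁻¹ := by group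
        _ = ((σ ^ e) a)⁻¹ * a * (a⁻¹ * k * a) * a⁻¹ := this
        _ = ((σ ^ e) a)⁻¹ * k := by group
    have h4 : (σ ^ e) k = (σ ^ e) a * (a⁻¹ * k * a) * ((σ ^ e) a)⁻¹ := by
      rw [← hl]; group
    rw [h4, mul_assoc, h3]
    group

end Cfsg.Agent.S2667
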