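import Cfsg.Statements.S2668
-- import your own Cfsg.Agent.* helpers here

set_option autoImplicit false
open Cfsg

namespace Cfsg.Agent.S2668

/-- Shintani descent and powers (abstract form). Let `σ` be an automorphism of a group `X`, `e ≥ 1` and `d ≥ 1`, let `g` be fixed by `σᵉ` and let `a` satisfy `g = a σ(a)⁻¹`, so that the Shintani map of `(X, σ, e)` sends the class of `g σ` to the class of `x = σᵉ(a)⁻¹ a`. Put `h = g σ(g) ⋯ σ^(d-1)(g)`, the part in `X` of the `d`-th power `(g σ)^d = h σ^d`. Then `h = a σ^d(a)⁻¹` (so `a` also serves for `h` with respect to `σ^d`), `h` is fixed by `(σ^d)ᵉ`, and `(σ^d)ᵉ(a)⁻¹ a = x^d`: the Shintani map of `(X, σ^d, e)` sends the class of `(g σ)^d` to the class of `x^d`. (When `d` divides `e`, the Shintani map of `(X, σ^d, e/d)` sends it to the class of `x` itself, since `(σ^d)^(e/d) = σᵉ`.) -/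
theorem result {X : Type*} [Group X] (σ : MulAut X) (e d : ℕ) (he : 1 ≤ e) (hd : 1 ≤ d)
    (g : X) (hg : g ∈ (MulEquiv.toMonoidHom (σ ^ e)).eqLocus (MonoidHom.id X)) (a : X) (ha : g = a * (σ a)⁻¹) :
    ((List.range d).map (fun i => (σ ^ i) g)).prod = a * ((σ ^ d) a)⁻¹ ∧
      ((List.range d).map (fun i => (σ ^ i) g)).prod ∈ (MulEquiv.toMonoidHom ((σ ^ d) ^ e)).eqLocus (MonoidHom.id X) ∧
      (((σ ^ d) ^ e) a)⁻¹ * a = (((σ ^ e) a)⁻¹ * a) ^ d := by
  have hfix : (σ ^ e) g = g := hg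
  have hcomm : ∀ (k : ℕ) (y : X), σ ((σ ^ k) y) = (σ ^ k) (σ y) := by
    intro k y
    rw [← MulAut.mul_apply, ← MulAut.mul_apply, ← pow_succ', pow_succ]
  have hprod : ∀ n : ℕ, ((List.range n).map (fun i => (σ ^ i) g)).prod = a * ((σ ^ n) a)⁻¹ := by
    intro n
    induction n with
    | zero => simp
    | succ n ih =>
      rw [List.range_succ, List.map_append, List.prod_append, ih]
      simp only [List.map_cons, List.map_nil, List.prod_cons, List.prod_nil, mul_one]
      rw [ha, map_mul, map_inv, pow_succ, MulAut.mul_apply]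
      group
  have hpow : (σ ^ d) ^ e = (σ ^ e) ^ d := by
    rw [← pow_mul, ← pow_mul, mul_comm]
  have hτ : ∀ n : ℕ, ((σ ^ e) ^ n) g = g := by
    intro n
    induction n with
    | zero => simp
    | succ n ih => rw [pow_succ, MulAut.mul_apply, hfix, ih]
  have hg1 : (σ ^ e) a * ((σ ^ e) (σ a))⁻¹ = a * (σ a)⁻¹ := by
    have h1 := hfix
    rw [ha, map_mul, map_inv] at h1
    exact h1
  have hσx : σ (((σ ^ e) a)⁻¹ * a) = ((σ ^ e) a)⁻¹ * a := by
    rw [map_mul, map_inv, hcomm]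
    have h2 : ((σ ^ e) (σ a))⁻¹ = ((σ ^ e) a)⁻¹ * (a * (σ a)⁻¹) := by
      rw [← hg1]; group
    rw [h2]; group
  set x := ((σ ^ e) a)⁻¹ * a with hx
  have hτx : ∀ k : ℕ, (σ ^ k) x = x := by
    intro k
    induction k with
    | zero => simp
    | succ k ih => rw [pow_succ', MulAut.mul_apply, ih, hσx]
  have hτ1 : (σ ^ e) a = a * x⁻¹ := by rw [hx]; group
  have hτn : ∀ n : ℕ, ((σ ^ e) ^ n) a = a * (x ^ n)⁻¹ := by
    intro n
    induction n with
    | zero => simp
    | succ n ih =>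
      rw [pow_succ, MulAut.mul_apply, hτ1, map_mul, ih, map_inv]
      have h3 : ((σ ^ e) ^ n) x = x := by
        rw [← pow_mul]; exact hτx _
      rw [h3, pow_succ]; group
  have hperm : ∀ (i : ℕ) (n : ℕ), ((σ ^ e) ^ n) ((σ ^ i) g) = (σ ^ i) g := by
    intro i n
    rw [← MulAut.mul_apply, ← pow_mul, ← pow_add, add_comm, pow_add, pow_mul, MulAut.mul_apply, hτ]
  refine ⟨hprod d, ?_, ?_⟩
  · change ((σ ^ d) ^ e) _ = _
    rw [hpow, map_list_prod]
    simp only [List.map_map]
    congr 1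
    apply List.map_congr_left
    intro i _
    exact hperm i d
  · rw [hpow, hτn d]
    group

end Cfsg.Agent.S2668
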