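import Cfsg.Statements.S2669
import Mathlib
-- import your own Cfsg.Agent.* helpers here

set_option autoImplicit false
open Cfsg

namespace Cfsg.Agent.S2669

theorem dc {A B : Type*} [Finite A] [Finite B] (P : A → B → Prop) (c d : ℕ)
    (hc : ∀ a, (∃ b, P a b) → Nat.card {b // P a b} = c)
    (hd : ∀ b, (∃ a, P a b) → Nat.card {a // P a b} = d) :
    Nat.card {a // ∃ b, P a b} * c = Nat.card {b // ∃ a, P a b} * d := by
  classical
  have := Fintype.ofFinite A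
  have := Fintype.ofFinite B
  have key := Finset.sum_card_bipartiteAbove_eq_sum_card_bipartiteBelow
    (s := (Finset.univ : Finset A)) (t := (Finset.univ : Finset B)) P
  have hL : ∑ a, (Finset.bipartiteAbove P (Finset.univ : Finset B) a).card =
      Nat.card {a // ∃ b, P a b} * c := by
    rw [Nat.card_eq_fintype_card, Fintype.card_subtype, ← smul_eq_mul, ← Finset.sum_const]
    rw [← Finset.sum_subset (Finset.subset_univ (Finset.univ.filter (fun a => ∃ b, P a b)))]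
    · refine Finset.sum_congr rfl fun a ha => ?_
      rw [← hc a (Finset.mem_filter.mp ha).2, Nat.card_eq_fintype_card, Fintype.card_subtype]
      rfl
    · intro a _ ha
      rw [Finset.card_eq_zero]
      ext b
      simp only [Finset.mem_filter, not_exists, Finset.mem_univ, true_and] at ha
      simp [Finset.bipartiteAbove, ha b]
  have hR : ∑ b, (Finset.bipartiteBelow P (Finset.univ : Finset A) b).card =
      Nat.card {b // ∃ a, P a b} * d := by
    rw [Nat.card_eq_fintype_card, Fintype.card_subtype, ← smul_eq_mul, ← Finset.sum_const]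
    rw [← Finset.sum_subset (Finset.subset_univ (Finset.univ.filter (fun b => ∃ a, P a b)))]
    · refine Finset.sum_congr rfl fun b hb => ?_
      rw [← hd b (Finset.mem_filter.mp hb).2, Nat.card_eq_fintype_card, Fintype.card_subtype]
      rfl
    · intro b _ hb
      rw [Finset.card_eq_zero]
      ext a
      simp only [Finset.mem_filter, not_exists, Finset.mem_univ, true_and] at hb
      simp [Finset.bipartiteBelow, hb a]
  rw [← hL, ← hR]
  exact key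


/-- Shintani descent preserves numbers of fixed points on coset spaces (abstract form). Let `σ` be an automorphism of a group `X` and `e ≥ 1`; write `G` for the fixed points of `σᵉ` and `H` for the fixed points of `σ`, and assume `G` is finite. Let `Y` be a `σ`-stable subgroup of `X` on which the maps `a ↦ a σ(a)⁻¹` and `a ↦ a σᵉ(a)⁻¹` are surjective (as for a closed connected `σ`-stable subgroup of an algebraic group). Let `g ∈ G`, let `a ∈ X` satisfy `g = a σ(a)⁻¹` and put `x = σᵉ(a)⁻¹ a` (the Shintani image, an element of `H`). The element `g σ` of the semidirect product acts on the cosets of `Y ∩ G` in `G` by `k (Y ∩ G) ↦ g σ(k) (Y ∩ G)`, fixing that coset exactly when `k⁻¹ g σ(k) ∈ Y`; and `x` fixes the coset `h (Y ∩ H)` of `H` exactly when `h⁻¹ x h ∈ Y`. Then the two numbers of fixed cosets agree; in cross-multiplied form, `#{k ∈ G : k⁻¹ g σ(k) ∈ Y} · |Y ∩ H| = #{h ∈ H : h⁻¹ x h ∈ Y} · |Y ∩ G|`.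 -/
theorem result {X : Type*} [Group X] (σ : MulAut X) (e : ℕ) (he : 1 ≤ e)
    [Finite ↥((MulEquiv.toMonoidHom (σ ^ e)).eqLocus (MonoidHom.id X))]
    (Y : Subgroup X) (hY : ∀ y : X, y ∈ Y ↔ σ y ∈ Y)
    (hYL : ∀ y ∈ Y, ∃ a ∈ Y, y = a * (σ a)⁻¹) (hYLe : ∀ y ∈ Y, ∃ a ∈ Y, y = a * ((σ ^ e) a)⁻¹)
    (g : X) (hg : g ∈ (MulEquiv.toMonoidHom (σ ^ e)).eqLocus (MonoidHom.id X)) (a : X) (ha : g = a * (σ a)⁻¹) :
    Nat.card {k : ↥((MulEquiv.toMonoidHom (σ ^ e)).eqLocus (MonoidHom.id X)) // (k : X)⁻¹ * g * σ k ∈ Y} *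
        Nat.card ↥(Y ⊓ (MulEquiv.toMonoidHom σ).eqLocus (MonoidHom.id X)) =
      Nat.card {h : ↥((MulEquiv.toMonoidHom σ).eqLocus (MonoidHom.id X)) // (h : X)⁻¹ * (((σ ^ e) a)⁻¹ * a) * h ∈ Y} *
        Nat.card ↥(Y ⊓ (MulEquiv.toMonoidHom (σ ^ e)).eqLocus (MonoidHom.id X)) := by
  classical
  set Ge := (MulEquiv.toMonoidHom (σ ^ e)).eqLocus (MonoidHom.id X) with hGe
  set He := (MulEquiv.toMonoidHom σ).eqLocus (MonoidHom.id X) with hHe
  have memG : ∀ x : X, x ∈ Ge ↔ (σ ^ e) x = x := fun x => Iff.rfl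
  have memH : ∀ x : X, x ∈ He ↔ σ x = x := fun x => Iff.rfl
  have hpowfix : ∀ (n : ℕ) (x : X), σ x = x → (σ ^ n) x = x := by
    intro n x hx
    induction n with
    | zero => rfl
    | succ n ih =>
      rw [pow_succ, MulAut.mul_apply, hx, ih]
  have hpowY : ∀ (n : ℕ) (y : X), y ∈ Y → (σ ^ n) y ∈ Y := by
    intro n y hy
    induction n with
    | zero => exact hy
    | succ n ih =>
      rw [pow_succ', MulAut.mul_apply]
      exact (hY _).mp ih
  have hHG : He ≤ Ge := fun x hx => hpowfix e x hx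
  haveI : Finite ↥He := Finite.of_injective (Subgroup.inclusion hHG) (Subgroup.inclusion_injective hHG)
  let P : ↥Ge → ↥He → Prop := fun k h => (k : X)⁻¹ * a * (h : X)⁻¹ ∈ Y
  have hc : ∀ k : ↥Ge, (∃ h : ↥He, P k h) → Nat.card {h : ↥He // P k h} = Nat.card ↥(Y ⊓ He) := by
    rintro k ⟨h0, hh0⟩
    refine Nat.card_congr ?_
    refine ⟨fun h => ⟨(h0 : X) * ((h.1 : ↥He) : X)⁻¹, ?_, ?_⟩, fun y => ⟨⟨(y : X)⁻¹ * h0, ?_⟩, ?_⟩, ?_, ?_⟩
    · have h1 : (h0 : X) * ((h.1 : ↥He) : X)⁻¹ =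
          ((k : X)⁻¹ * a * (h0 : X)⁻¹)⁻¹ * ((k : X)⁻¹ * a * ((h.1 : ↥He) : X)⁻¹) := by group
      rw [h1]
      exact Y.mul_mem (Y.inv_mem hh0) h.2
    · exact He.mul_mem h0.2 (He.inv_mem h.1.2)
    · exact He.mul_mem (He.inv_mem y.2.2) h0.2
    · show (k : X)⁻¹ * a * ((y : X)⁻¹ * h0)⁻¹ ∈ Y
      have h1 : (k : X)⁻¹ * a * ((y : X)⁻¹ * h0)⁻¹ = ((k : X)⁻¹ * a * (h0 : X)⁻¹) * y := by group
      rw [h1]
      exact Y.mul_mem hh0 y.2.1
    · rintro ⟨h, hh⟩
      apply Subtype.ext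
      apply Subtype.ext
      show ((h0 : X) * (h : X)⁻¹)⁻¹ * h0 = h
      group
    · rintro ⟨y, hy⟩
      apply Subtype.ext
      show (h0 : X) * ((y : X)⁻¹ * h0)⁻¹ = y
      group
  have hd : ∀ h : ↥He, (∃ k : ↥Ge, P k h) → Nat.card {k : ↥Ge // P k h} = Nat.card ↥(Y ⊓ Ge) := by
    rintro h ⟨k0, hk0⟩
    refine Nat.card_congr ?_
    refine ⟨fun k => ⟨((k.1 : ↥Ge) : X)⁻¹ * k0, ?_, ?_⟩, fun y => ⟨⟨(k0 : X) * (y : X)⁻¹, ?_⟩, ?_⟩, ?_, ?_⟩
    · have h1 : ((k.1 : ↥Ge) : X)⁻¹ * k0 =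
          (((k.1 : ↥Ge) : X)⁻¹ * a * (h : X)⁻¹) * ((k0 : X)⁻¹ * a * (h : X)⁻¹)⁻¹ := by group
      rw [h1]
      exact Y.mul_mem k.2 (Y.inv_mem hk0)
    · exact Ge.mul_mem (Ge.inv_mem k.1.2) k0.2
    · exact Ge.mul_mem k0.2 (Ge.inv_mem y.2.2)
    · show ((k0 : X) * (y : X)⁻¹)⁻¹ * a * (h : X)⁻¹ ∈ Y
      have h1 : ((k0 : X) * (y : X)⁻¹)⁻¹ * a * (h : X)⁻¹ = (y : X) * ((k0 : X)⁻¹ * a * (h : X)⁻¹) := by group
      rw [h1]
      exact Y.mul_mem y.2.1 hk0
    · rintro ⟨k, hk⟩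
      apply Subtype.ext
      apply Subtype.ext
      show (k0 : X) * ((k : X)⁻¹ * k0)⁻¹ = k
      group
    · rintro ⟨y, hy⟩
      apply Subtype.ext
      show ((k0 : X) * (y : X)⁻¹)⁻¹ * k0 = y
      group
  have hdc := dc P _ _ hc hd
  have hk : Nat.card {k : ↥Ge // ∃ h : ↥He, P k h} = Nat.card {k : ↥Ge // (k : X)⁻¹ * g * σ k ∈ Y} := by
    refine Nat.card_congr (Equiv.subtypeEquivRight fun k => ?_)
    rw [ha]
    have hform : (k : X)⁻¹ * (a * (σ a)⁻¹) * σ k = ((k : X)⁻¹ * a) * (σ ((k : X)⁻¹ * a))⁻¹ := by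
      simp only [map_mul, map_inv]
      group
    rw [hform]
    constructor
    · rintro ⟨h, hh⟩
      set b : X := (k : X)⁻¹ * a * (h : X)⁻¹ with hb
      have hc1 : (k : X)⁻¹ * a = b * h := by rw [hb]; group
      have hσh : σ (h : X) = h := h.2
      rw [hc1, map_mul, hσh]
      have h1 : b * (h : X) * (σ b * (h : X))⁻¹ = b * (σ b)⁻¹ := by group
      rw [h1]
      exact Y.mul_mem hh (Y.inv_mem ((hY b).mp hh))
    · intro hmem
      obtain ⟨b, hbY, hb⟩ := hYL _ hmem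
      set c : X := (k : X)⁻¹ * a with hc'
      have hfix : σ (b⁻¹ * c) = b⁻¹ * c := by
        rw [map_mul, map_inv]
        have h1 : c = b * (σ b)⁻¹ * σ c := by
          have := congrArg (fun z => z * σ c) hb
          simpa using this
        calc (σ b)⁻¹ * σ c = b⁻¹ * (b * (σ b)⁻¹ * σ c) := by group
          _ = b⁻¹ * c := by rw [← h1]
      refine ⟨⟨b⁻¹ * c, hfix⟩, ?_⟩
      show (k : X)⁻¹ * a * (b⁻¹ * c)⁻¹ ∈ Y
      have h1 : (k : X)⁻¹ * a * (b⁻¹ * c)⁻¹ = b := by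
        rw [← hc']
        group
      rw [h1]
      exact hbY
  have hh' : ∀ h' : ↥He, (∃ k : ↥Ge, (k : X)⁻¹ * a * (h' : X) ∈ Y) ↔
      (h' : X)⁻¹ * (((σ ^ e) a)⁻¹ * a) * h' ∈ Y := by
    intro h'
    have hσh : (σ ^ e) (h' : X) = h' := hpowfix e _ h'.2
    have hform : (h' : X)⁻¹ * (((σ ^ e) a)⁻¹ * a) * h' = ((σ ^ e) (a * h'))⁻¹ * (a * h') := by
      rw [map_mul, hσh]
      group
    rw [hform]
    constructor
    · rintro ⟨k, hk⟩
      set b : X := (k : X)⁻¹ * a * (h' : X) with hb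
      have hc1 : a * (h' : X) = k * b := by rw [hb]; group
      have hσk : (σ ^ e) (k : X) = k := k.2
      rw [hc1, map_mul, hσk]
      have h1 : ((k : X) * (σ ^ e) b)⁻¹ * ((k : X) * b) = ((σ ^ e) b)⁻¹ * b := by group
      rw [h1]
      exact Y.mul_mem (Y.inv_mem (hpowY e b hk)) hk
    · intro hmem
      obtain ⟨a', ha'Y, ha'⟩ := hYLe _ (Y.inv_mem hmem)
      set c : X := a * h' with hc'
      set b : X := a'⁻¹ with hb
      have hbY : b ∈ Y := Y.inv_mem ha'Y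
      have hy : ((σ ^ e) c)⁻¹ * c = ((σ ^ e) b)⁻¹ * b := by
        have h1 := congrArg (fun z => z⁻¹) ha'
        simp only [inv_inv] at h1
        rw [h1, hb, map_inv]
        group
      have hfix : (σ ^ e) (c * b⁻¹) = c * b⁻¹ := by
        rw [map_mul, map_inv]
        have h1 : c = (σ ^ e) c * (((σ ^ e) b)⁻¹ * b) := by
          rw [← hy]; group
        calc (σ ^ e) c * ((σ ^ e) b)⁻¹ = ((σ ^ e) c * (((σ ^ e) b)⁻¹ * b)) * b⁻¹ := by group
          _ = c * b⁻¹ := by rw [← h1]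
      refine ⟨⟨c * b⁻¹, hfix⟩, ?_⟩
      show (c * b⁻¹)⁻¹ * a * (h' : X) ∈ Y
      have h1 : (c * b⁻¹)⁻¹ * a * (h' : X) = b := by
        rw [mul_assoc, ← hc']
        group
      rw [h1]
      exact hbY
  have hh : Nat.card {h : ↥He // ∃ k : ↥Ge, P k h} =
      Nat.card {h : ↥He // (h : X)⁻¹ * (((σ ^ e) a)⁻¹ * a) * h ∈ Y} := by
    refine Nat.card_congr ?_
    refine ⟨fun h => ⟨h.1⁻¹, ?_⟩, fun h => ⟨h.1⁻¹, ?_⟩, ?_, ?_⟩
    · rw [← hh' (h.1⁻¹)]
      obtain ⟨k, hk⟩ := h.2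
      exact ⟨k, hk⟩
    · have h1 := (hh' h.1).mpr h.2
      obtain ⟨k, hk⟩ := h1
      refine ⟨k, ?_⟩
      show (k : X)⁻¹ * a * ((h.1⁻¹ : ↥He) : X)⁻¹ ∈ Y
      simpa using hk
    · rintro ⟨h, hh⟩
      simp
    · rintro ⟨h, hh⟩
      simp
  rw [← hk, ← hh]
  exact hdc

end Cfsg.Agent.S2669
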