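import Cfsg.Statements.S2671
import Mathlib
import Cfsg.Agent.Lib.Classical.Herm.CycGU
import Cfsg.Agent.Lib.Classical.Herm.NormMat

set_option autoImplicit false
open Cfsg

namespace Cfsg.Agent.S2671

/-- Number of conjugacy classes of elements of odd prime order r in the general unitary group GU_n(q), for r not dividing q(q + 1): let i be the multiplicative order of q modulo r, b = i if i is odd and b = i/2 if i is even, and s = (r − 1)/b. If i ≢ 2 (mod 4) the eigenvalue orbits pair off into dual pairs of totally isotropic blocks and there are C(⌊n/(2b)⌋ + s/2, s/2) − 1 classes; if i ≡ 2 (mod 4) each orbit gives a non-degenerate block of dimension i/2 and there are C(⌊2n/i⌋ + s, s) − 1 classes. -/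
theorem result {K : Type*} [Field K] [Fintype K] {p q n r i b s : ℕ} [Fact p.Prime] [CharP K p] (hK : Fintype.card K = q ^ 2) (hr : r.Prime) (hr2 : r ≠ 2) (hrp : r ≠ p) (hi : i = orderOf (q : ZMod r)) (hi2 : i ≠ 2) (hb : b = if Odd i then i else i / 2) (hs : s * b = r - 1) : Nat.card {C : ConjClasses ↥(Cfsg.GU n K q) // ∃ g : ↥(Cfsg.GU n K q), ConjClasses.mk g = C ∧ orderOf g = r} = if i % 4 = 2 then Nat.choose (2 * n / i + s) s - 1 else Nat.choose (n / (2 * b) + s / 2) (s / 2) - 1 := by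
  classical
  haveI : Fact r.Prime := ⟨hr⟩
  have hrpos : 0 < r := hr.pos
  obtain ⟨p', k', hp', hc', hqp⟩ := Cfsg.Agent.Lib.Classical.Herm.Basic.exists_char_pow hK
  have hpp : p' = p := by
    exact CharP.eq K hc' (by assumption)
  subst hpp
  have hq0 : (q : ZMod r) ≠ 0 := by
    rw [hqp, Nat.cast_pow]
    apply pow_ne_zero
    intro h
    rw [ZMod.natCast_eq_zero_iff] at h
    exact hrp ((Nat.prime_dvd_prime_iff_eq hr hp').1 h)
  have hqU : IsUnit (q : ZMod r) := isUnit_iff_ne_zero.2 hq0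
  obtain ⟨D, hD', hDr, hcard, hipos, hQr⟩ := Cfsg.Agent.Lib.Classical.Herm.CycTuples.exists_cyc_data hK hr hrp
  have hbord : orderOf (((q ^ 2 : ℕ)) : ZMod r) = b := by
    have h1 : (((q ^ 2 : ℕ)) : ZMod r) = (q : ZMod r) ^ 2 := by push_cast; rfl
    rw [h1, orderOf_pow' _ (by norm_num), ← hi, hb]
    by_cases hodd : Odd i
    · rw [if_pos hodd, Nat.Coprime.gcd_eq_one ((Nat.coprime_two_right).2 hodd), Nat.div_one]
    · rw [if_neg hodd]
      have hev : Even i := Nat.not_odd_iff_even.1 hodd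
      rw [Nat.gcd_eq_right hev.two_dvd]
  rw [hbord] at hD' hcard hipos
  have hDt : D.card = s := by
    have h1 : D.card * b = s * b := by rw [hcard, hs]
    exact Nat.eq_of_mul_eq_mul_right hipos h1
  have hD := hD'
  have hdvd : ∀ d ∈ D, d ∣ (Polynomial.X ^ r - 1 : Polynomial K) := by
    intro d hd
    have := (hDr d (hD d hd).1 (hD d hd).2.1 1 one_pos).2 ⟨rfl, Or.inr hd⟩
    simpa using this
  have hd0 : ∀ d ∈ D, d.coeff 0 ≠ 0 := fun d hd =>
    Cfsg.Agent.Lib.Classical.Herm.CycTuples.coeff_zero_ne_of_dvd hrpos (hdvd d hd)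
  open Cfsg.Agent.Lib.Classical.Herm.CycTuples Cfsg.Agent.Lib.Classical.Herm.CycGU Cfsg.Agent.Lib.Classical.Herm.Wall in
  have hstarD : ∀ d ∈ D, dualP hK d ∈ D := by
    intro d hd
    obtain ⟨h1, h2, h3, h4⟩ := hD d hd
    have h5 := (hDr (dualP hK d) (dualP_monic hK h1 (hd0 d hd)) (irreducible_dualP hK h1 (hd0 d hd) h2) 1 one_pos).1
      (by rw [pow_one]; exact dualP_dvd hK hrpos (hdvd d hd))
    rcases h5.2 with h6 | h6
    · exfalso
      apply h4
      rw [← dualP_dualP hK h1 (hd0 d hd), h6, dualP_X_sub_one]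
    · exact h6
  open Cfsg.Agent.Lib.Classical.Herm.CycTuples Cfsg.Agent.Lib.Classical.Herm.CycGU Cfsg.Agent.Lib.Classical.Herm.Wall in
  let ι : D → D := fun d => ⟨dualP hK d.1, hstarD d.1 d.2⟩
  open Cfsg.Agent.Lib.Classical.Herm.CycTuples Cfsg.Agent.Lib.Classical.Herm.CycGU Cfsg.Agent.Lib.Classical.Herm.Wall in
  have hι : ∀ a, ι (ι a) = a := fun a => Subtype.ext (dualP_dualP hK (hD a.1 a.2).1 (hd0 a.1 a.2))
  open Cfsg.Agent.Lib.Classical.Herm.CycTuples Cfsg.Agent.Lib.Classical.Herm.CycGU Cfsg.Agent.Lib.Classical.Herm.Wall in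
  have hstar_iff : ∀ d ∈ D, (dualP hK d = d ↔ i % 4 = 2) := by
    intro d hd
    obtain ⟨h1, h2, h3, h4⟩ := hD d hd
    rw [hi]
    exact dualP_eq_self_iff hK hr2 hqU h1 h2 (by rw [h3, hbord]) (hdvd d hd) h4 (hd0 d hd)
  open Cfsg.Agent.Lib.Classical.Herm.CycTuples Cfsg.Agent.Lib.Classical.Herm.CycGU Cfsg.Agent.Lib.Classical.Herm.Wall in
  have hmap : ∀ (k : D → ℕ) (n : ℕ), dualP hK (polyOf D b n k) = polyOf D b n (k ∘ ι) := fun k n =>
    map_polyOf (dualHom hK) (dualP_X_sub_one hK) ι hι (fun d => rfl) k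
  open Cfsg.Agent.Lib.Classical.Herm.CycTuples Cfsg.Agent.Lib.Classical.Herm.CycGU Cfsg.Agent.Lib.Classical.Herm.Wall in
  have hreal : ∀ k : D → ℕ, b * ∑ d, k d ≤ n → k ≠ 0 → (∀ d, k (ι d) = k d) →
      ∃ h : Cfsg.GU n K q, (orderOf h).Coprime p' ∧
        (((Cfsg.GU n K q).subtype h : Matrix.GeneralLinearGroup (Fin n) K) : Matrix (Fin n) (Fin n) K).charpoly = polyOf D b n k := by
    intro k hk _ hinv
    have hkι : k ∘ ι = k := funext hinv
    have h0 : (polyOf D b n k).coeff 0 ≠ 0 := by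
      rw [polyOf, Polynomial.coeff_zero_eq_eval_zero, Polynomial.eval_mul, Polynomial.eval_pow]
      refine mul_ne_zero (pow_ne_zero _ (by simp)) ?_
      rw [Polynomial.eval_prod, Finset.prod_ne_zero_iff]
      intro d _
      rw [Polynomial.eval_pow, ← Polynomial.coeff_zero_eq_eval_zero]
      exact pow_ne_zero _ (hd0 d.1 d.2)
    haveI : Fact p'.Prime := ⟨hp'⟩
    exact exists_GU_of_dualP hK (polyOf_monic hD k) (polyOf_natDegree hD k hk) h0 (by rw [hmap, hkι])
  open Cfsg.Agent.Lib.Classical.Herm.CycTuples Cfsg.Agent.Lib.Classical.Herm.CycGU Cfsg.Agent.Lib.Classical.Herm.Wall in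
  have hchar : ∀ (h : Cfsg.GU n K q) (k : D → ℕ), b * ∑ d, k d ≤ n → k ≠ 0 →
      (((Cfsg.GU n K q).subtype h : Matrix.GeneralLinearGroup (Fin n) K) : Matrix (Fin n) (Fin n) K).charpoly = polyOf D b n k →
      ∀ d, k (ι d) = k d := by
    intro h k _ _ hc d
    have h5 := Cfsg.Agent.Lib.Classical.Herm.SSCount.dualP_charpoly hK (h : Matrix.GeneralLinearGroup (Fin n) K) h.2
    have hc' : ((h : Matrix.GeneralLinearGroup (Fin n) K) : Matrix (Fin n) (Fin n) K).charpoly = polyOf D b n k := hc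
    rw [hc', hmap] at h5
    have h6 := polyOf_injective hD h5
    exact congrFun h6 d
  haveI : Fact p'.Prime := ⟨hp'⟩
  have hord : ∀ s : Cfsg.GU n K q, orderOf (s : Matrix.GeneralLinearGroup (Fin n) K) = orderOf s := fun s =>
    orderOf_injective (Cfsg.GU n K q).subtype Subtype.val_injective s
  have hmain := Cfsg.Agent.Lib.Classical.Herm.CycTuples.card_classes_generic (p := p') (n := n) (by simp) hr hrp hipos hD hDr
    (Cfsg.GU n K q).subtype Subtype.val_injective (fun k => ∀ d, k (ι d) = k d)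
    (fun h h' h1 h2 hc => Cfsg.Agent.Lib.Classical.Herm.NormMat.isConj_of_GL hK h h'
      (Cfsg.Agent.Lib.Linalg.SemisimpleClasses.isConj_GL_of_charpoly_eq p' (by rw [hord]; exact h1) (by rw [hord]; exact h2) hc)) hreal hchar
  rw [hmain]
  split_ifs with hmod
  · have h1 := Cfsg.Agent.Lib.Linalg.PrimeOrderClasses.card_tuples_ne_zero D (n / b)
    rw [Fintype.card_coe, hDt] at h1
    have hb2 : 2 * n / i = n / b := by
      have hev : ¬ Odd i := by
        intro h
        obtain ⟨l, hl⟩ := h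
        omega
      rw [hb, if_neg hev]
      obtain ⟨l, hl⟩ : ∃ l, i = 2 * l := ⟨i / 2, by omega⟩
      rw [hl, Nat.mul_div_mul_left _ _ (by norm_num), Nat.mul_div_cancel_left _ (by norm_num)]
    rw [hb2, ← h1]
    refine Nat.card_congr (Equiv.subtypeEquivRight fun k => ?_)
    rw [Nat.le_div_iff_mul_le hipos, mul_comm b]
    have hι1 : ∀ d, ι d = d := fun d => Subtype.ext ((hstar_iff d.1 d.2).2 hmod)
    simp [hι1]
  · have hfp : ∀ a, ι a ≠ a := fun a ha => hmod ((hstar_iff a.1 a.2).1 (congrArg Subtype.val ha))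
    have h1 := Cfsg.Agent.Lib.Classical.Herm.CycTuples.card_invariant_tuples ι hι hfp (n / b)
    rw [Fintype.card_coe, hDt] at h1
    have h2 : n / b / 2 = n / (2 * b) := by
      rw [Nat.div_div_eq_div_mul, mul_comm]
    rw [h2] at h1
    rw [← h1]
    refine Nat.card_congr (Equiv.subtypeEquivRight fun k => ?_)
    rw [Nat.le_div_iff_mul_le hipos, mul_comm b]
    tauto

end Cfsg.Agent.S2671
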