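import Cfsg.Statements.S2673
import Mathlib
import Cfsg.Agent.Lib.Classical.Herm.OrthFinal

set_option autoImplicit false
open Cfsg

namespace Cfsg.Agent.S2673

/-- Number of conjugacy classes of elements of odd prime order r ≠ p in the orthogonal group O_(2m+1)(q) of x_0² + Σ x_j y_j, q odd: with i the multiplicative order of q mod r and t = (r − 1)/i, there are C(⌊m/i⌋ + t/2, t/2) − 1 classes if i is odd (dual pairs of totally singular i-blocks) and C(⌊(2m+1)/i⌋ + t, t) − 1 if i is even (elliptic i-blocks). -/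
theorem result {F : Type*} [Field F] [Fintype F] {p q : ℕ} [Fact p.Prime] [CharP F p] (hF : Fintype.card F = q) (hq : Odd q) (m r i t : ℕ) (hr : r.Prime) (hr2 : r ≠ 2) (hrp : r ≠ p) (hi : i = orderOf (q : ZMod r)) (ht : t * i = r - 1) : Nat.card {C : ConjClasses ↥(Cfsg.isometryGroup F (Cfsg.quadFormOdd m F)) // ∃ g : ↥(Cfsg.isometryGroup F (Cfsg.quadFormOdd m F)), ConjClasses.mk g = C ∧ orderOf g = r} = if Odd i then Nat.choose (m / i + t / 2) (t / 2) - 1 else Nat.choose ((2 * m + 1) / i + t) t - 1 := by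
  classical
  haveI : Fact r.Prime := ⟨hr⟩
  obtain ⟨D, H⟩ := Cfsg.Agent.Lib.Classical.Herm.OrthFinal.exists_data hF hr hr2 hrp hi ht
  rw [Cfsg.Agent.Lib.Classical.Herm.OrthFinal.card_odd H hF hq m hr hr2 hrp]
  split_ifs with hodd
  · rw [Cfsg.Agent.Lib.Classical.Herm.OrthFinal.count_odd H (Nat.not_even_iff_odd.2 hodd),
      Cfsg.Agent.Lib.Classical.Herm.OrthFinal.two_mul_add_one_div_div_two H.hipos]
  · exact Cfsg.Agent.Lib.Classical.Herm.OrthFinal.count_even H (Nat.not_odd_iff_even.1 hodd) _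

end Cfsg.Agent.S2673
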