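import Cfsg.Statements.S2675
import Mathlib
import Cfsg.Agent.Lib.Classical.Herm.OrthFinal

set_option autoImplicit false
open Cfsg

namespace Cfsg.Agent.S2675

/-- Number of conjugacy classes of elements of odd prime order r ≠ p in the orthogonal group O⁻_2m(q) of an elliptic form Σ_(j<m−1) x_j y_j + z₁² + a z₁z₂ + c z₂² (binary part anisotropic, m ≥ 1): with i the multiplicative order of q mod r and t = (r − 1)/i — if i is odd, C(⌊m/i⌋ + t/2, t/2) − 1 minus, when i divides m, the C(m/i + t/2 − 1, t/2 − 1) tuples filling the whole space (dual pairs of totally singular blocks fill a hyperbolic space); if i is even, C(⌊2m/i⌋ + t, t) − 1 minus, when i divides 2m with even quotient, the C(2m/i + t − 1, t − 1) tuples filling the whole space with an even number of elliptic blocks. -/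
theorem result {F : Type*} [Field F] [Fintype F] {p q : ℕ} [Fact p.Prime] [CharP F p] (hF : Fintype.card F = q) (m r i t : ℕ) (hm : 1 ≤ m) (a c : F) (hac : ∀ z₁ z₂ : F, z₁ ^ 2 + a * z₁ * z₂ + c * z₂ ^ 2 = 0 → z₁ = 0 ∧ z₂ = 0) (hr : r.Prime) (hr2 : r ≠ 2) (hrp : r ≠ p) (hi : i = orderOf (q : ZMod r)) (ht : t * i = r - 1) : Nat.card {C : ConjClasses ↥(Cfsg.isometryGroup F (Cfsg.quadFormMinus (m - 1) F a c)) // ∃ g : ↥(Cfsg.isometryGroup F (Cfsg.quadFormMinus (m - 1) F a c)), ConjClasses.mk g = C ∧ orderOf g = r} = if Odd i then Nat.choose (m / i + t / 2) (t / 2) - 1 - (if i ∣ m then Nat.choose (m / i + t / 2 - 1) (t / 2 - 1) else 0) else Nat.choose (2 * m / i + t) t - 1 - (if i ∣ 2 * m ∧ Even (2 * m / i) then Nat.choose (2 * m / i + t - 1) (t - 1) else 0) := by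
  classical
  haveI : Fact r.Prime := ⟨hr⟩
  obtain ⟨D, H⟩ := Cfsg.Agent.Lib.Classical.Herm.OrthFinal.exists_data hF hr hr2 hrp hi ht
  obtain ⟨M, rfl⟩ : ∃ M, m = M + 1 := ⟨m - 1, by omega⟩
  have h0 := Cfsg.Agent.Lib.Classical.Herm.OrthFinal.card_minus H hF M hac hr hr2 hrp
  refine Eq.trans h0 ?_
  have htpos : 0 < t := by
    have h3 := hr.two_le
    rcases Nat.eq_zero_or_pos t with h | h
    · subst h
      have : r ≠ 1 := hr.ne_one
      omega
    · exact h
  by_cases hodd : Odd i
  · rw [if_pos hodd]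
    have hnev := Nat.not_even_iff_odd.2 hodd
    refine Eq.trans ?_ (Cfsg.Agent.Lib.Classical.Herm.OrthFinal.count_odd_full H hnev htpos (by omega : 1 ≤ M + 1))
    refine Nat.card_congr (Equiv.subtypeEquivRight fun k => ?_)
    tauto
  · rw [if_neg hodd]
    have hev := Nat.not_odd_iff_even.1 hodd
    refine Eq.trans ?_ (Cfsg.Agent.Lib.Classical.Herm.OrthFinal.count_even_full H hev htpos (by omega : 1 ≤ M + 1) Even)
    refine Nat.card_congr (Equiv.subtypeEquivRight fun k => ?_)
    simp only [Nat.not_even_iff_odd]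
    tauto

end Cfsg.Agent.S2675
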