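import Cfsg.Statements.S2677
import Mathlib
import Cfsg.Agent.Lib.Classical.Herm.FieldCent

open Cfsg.Agent.Lib.Classical.Herm.Descent Cfsg.Agent.Lib.Classical.Herm.FieldCent

set_option autoImplicit false
open Cfsg

namespace Cfsg.Agent.S2677

/-- Centraliser of a field automorphism of odd prime order in PGU_n(q): let q = q₀^r with r an odd prime, K the field with q² elements and σ a field automorphism of K of order r (fixed field of order q₀²). The elements g of GU_n(q) whose entrywise image under σ is a scalar multiple of g — those whose coset modulo the q + 1 unitary scalars is fixed by σ — number (q + 1)/(q₀ + 1) · |GU_n(q₀)|; equivalently the centraliser in PGU_n(q) of the induced automorphism has the order of PGU_n(q₀). -/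
theorem result {K : Type*} [Field K] [Fintype K] {q₀ q r n : ℕ} (hr : r.Prime) (hr2 : r ≠ 2) (hn : 1 ≤ n) (hq : q = q₀ ^ r) (hK : Fintype.card K = q ^ 2) (σ : K ≃+* K) (hσ : orderOf σ = r) : (Nat.card {g : ↥(Cfsg.GU n K q) // ∃ c : K, c ≠ 0 ∧ ((g : GL (Fin n) K) : Matrix (Fin n) (Fin n) K).map σ = c • ((g : GL (Fin n) K) : Matrix (Fin n) (Fin n) K)} : ℤ) = ((q + 1) / (q₀ + 1) : ℕ) * ((q₀ : ℤ) ^ (n * (n - 1) / 2) * ∏ i : Fin n, ((q₀ : ℤ) ^ ((i : ℕ) + 1) - (-1) ^ ((i : ℕ) + 1))) := by
  classical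
  have hodd : Odd r := hr.odd_of_ne_two hr2
  have hr0 : r ≠ 0 := hr.ne_zero
  letI : Fintype (fixF σ) := Fintype.ofFinite _
  have hFix : Nat.card (fixF σ) = q₀ ^ 2 := by
    have h1 := card_eq_pow_fix σ
    rw [Nat.card_eq_fintype_card, hK, hq, hσ, ← pow_mul, mul_comm r 2, pow_mul] at h1
    exact (Nat.pow_left_injective hr0 h1).symm
  have hFix' : Fintype.card (fixF σ) = q₀ ^ 2 := by
    rw [← Nat.card_eq_fintype_card, hFix]
  have hq0 : 1 ≤ q₀ := by
    rcases Nat.eq_zero_or_pos q₀ with h | h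
    · subst h
      rw [zero_pow hr0] at hq
      subst hq
      have h1 : Fintype.card K ≠ 0 := Fintype.card_ne_zero
      simp [hK] at h1
    · exact h
  rw [card_fixed_cosets hodd hn hq hK σ hσ, Cfsg.Agent.Lib.Classical.Herm.GU.card_GU hFix' n, Nat.cast_mul, Nat.cast_mul,
    Nat.cast_pow, Nat.cast_prod, Finset.prod_range]
  congr 2
  refine Finset.prod_congr rfl fun i _ => ?_
  split_ifs with hi
  · have h1 : ((-1 : ℤ)) ^ ((i : ℕ) + 1) = -1 := Odd.neg_one_pow hi.add_one
    rw [h1]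
    push_cast
    ring
  · have h1 : ((-1 : ℤ)) ^ ((i : ℕ) + 1) = 1 := Even.neg_one_pow ((Nat.not_even_iff_odd.mp hi).add_one)
    rw [h1, Nat.cast_sub (Nat.one_le_pow _ _ hq0)]
    push_cast
    ring

end Cfsg.Agent.S2677
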