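import Cfsg.Statements.S2678
import Mathlib
-- import your own Cfsg.Agent.* helpers here

set_option autoImplicit false
open Cfsg

namespace Cfsg.Agent.S2678

lemma exists_ringHom {F K : Type*} [Field F] [Fintype F] [Field K] [Fintype K] {q : ℕ}
    (hK : Fintype.card K = q ^ 2) (hF : Fintype.card F = q) : Nonempty (F →+* K) := by
  obtain ⟨p, hp, f, hpp, hcF⟩ := FiniteField.card' F
  obtain ⟨p', hp', g, hpp', hcK⟩ := FiniteField.card' K
  have hpe : p' = p := by
    have h1 : p' ^ (g : ℕ) = p ^ (2 * (f : ℕ)) := by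
      rw [← hcK, hK, ← hF, hcF, ← pow_mul, mul_comm]
    have hd : p' ∣ p ^ (2 * (f : ℕ)) := by
      rw [← h1]
      exact dvd_pow_self _ g.ne_zero
    exact (Nat.prime_dvd_prime_iff_eq hpp' hpp).mp (hpp'.dvd_of_dvd_pow hd)
  subst hpe
  have : Fact p'.Prime := ⟨hpp⟩
  letI := ZMod.algebra F p'
  letI := ZMod.algebra K p'
  have h1 : Fintype.card F = p' ^ Module.finrank (ZMod p') F := by
    rw [Module.card_eq_pow_finrank (K := ZMod p'), ZMod.card]
  have h2 : Fintype.card K = p' ^ Module.finrank (ZMod p') K := by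
    rw [Module.card_eq_pow_finrank (K := ZMod p'), ZMod.card]
  have h3 : Module.finrank (ZMod p') K = 2 * Module.finrank (ZMod p') F := by
    apply Nat.pow_right_injective hpp.two_le
    dsimp only
    rw [← h2, hK, ← hF, h1, ← pow_mul, mul_comm]
  obtain ⟨φ⟩ := FiniteField.nonempty_algHom_of_finrank_dvd (F := ZMod p') (K := F) (L := K)
    ⟨2, by rw [h3, mul_comm]⟩
  exact ⟨φ.toRingHom⟩

section main

open Matrix

variable {F K : Type*} [Field F] [Field K] [Algebra F K] [FiniteDimensional F K]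
variable {l l' : Type*} [Fintype l] [DecidableEq l] [Fintype l'] [DecidableEq l']

/-- The trace of the standard symplectic form. -/
noncomputable def Om (F : Type*) {K : Type*} [Field F] [Field K] [Algebra F K] (l : Type*)
    [Fintype l] [DecidableEq l] : (l ⊕ l → K) →ₗ[F] (l ⊕ l → K) →ₗ[F] F :=
  LinearMap.mk₂ F (fun x y => Algebra.trace F K (x ⬝ᵥ (J l K *ᵥ y)))
    (fun x y z => by rw [add_dotProduct, map_add])
    (fun c x y => by rw [smul_dotProduct, map_smul])
    (fun x y z => by rw [mulVec_add, dotProduct_add, map_add])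
    (fun c x y => by rw [mulVec_smul, dotProduct_smul, map_smul])

lemma Om_apply (x y : l ⊕ l → K) :
    Om F l x y = Algebra.trace F K (x ⬝ᵥ (J l K *ᵥ y)) := rfl

lemma Om_invariant {A : Matrix (l ⊕ l) (l ⊕ l) K} (hA : Aᵀ * J l K * A = J l K)
    (x y : l ⊕ l → K) : Om F l (A *ᵥ x) (A *ᵥ y) = Om F l x y := by
  rw [Om_apply, Om_apply]
  congr 1
  rw [← vecMul_transpose, ← dotProduct_mulVec, mulVec_mulVec, mulVec_mulVec, hA]

/-- The reindexing of the coordinates. -/
def reidx (ε : Fin 2 × l ≃ l') : (Σ _ : l ⊕ l, Fin 2) ≃ l' ⊕ l' where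
  toFun s := match s with
    | ⟨Sum.inl k, i⟩ => Sum.inl (ε (i, k))
    | ⟨Sum.inr k, i⟩ => Sum.inr (ε (i, k))
  invFun s := match s with
    | Sum.inl u => ⟨Sum.inl (ε.symm u).2, (ε.symm u).1⟩
    | Sum.inr u => ⟨Sum.inr (ε.symm u).2, (ε.symm u).1⟩
  left_inv := by
    rintro ⟨k | k, i⟩ <;> simp
  right_inv := by
    rintro (u | u) <;> simp

/-- The `F`-basis of `K^(l ⊕ l)`. -/
noncomputable def bV (e f : Module.Basis (Fin 2) F K) (ε : Fin 2 × l ≃ l') :
    Module.Basis (l' ⊕ l') F (l ⊕ l → K) :=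
  (Pi.basis (fun j : l ⊕ l => Sum.elim (fun _ => e) (fun _ => f) j)).reindex (reidx ε)

lemma bV_inl (e f : Module.Basis (Fin 2) F K) (ε : Fin 2 × l ≃ l') (i : Fin 2) (k : l) :
    bV e f ε (Sum.inl (ε (i, k))) = Pi.single (Sum.inl k) (e i) := by
  have : (reidx ε).symm (Sum.inl (ε (i, k))) = ⟨Sum.inl k, i⟩ := by
    rw [Equiv.symm_apply_eq]
    rfl
  rw [bV, Module.Basis.reindex_apply, this, Pi.basis_apply]
  ext x
  simp

lemma bV_inr (e f : Module.Basis (Fin 2) F K) (ε : Fin 2 × l ≃ l') (i : Fin 2) (k : l) :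
    bV e f ε (Sum.inr (ε (i, k))) = Pi.single (Sum.inr k) (f i) := by
  have : (reidx ε).symm (Sum.inr (ε (i, k))) = ⟨Sum.inr k, i⟩ := by
    rw [Equiv.symm_apply_eq]
    rfl
  rw [bV, Module.Basis.reindex_apply, this, Pi.basis_apply]
  ext x
  simp

lemma Om_single (p r : l ⊕ l) (c d : K) :
    Om F l (Pi.single p c) (Pi.single r d) = Algebra.trace F K (c * (J l K p r * d)) := by
  rw [Om_apply, single_dotProduct]
  congr 2
  simp [mulVec, dotProduct, Pi.single_apply]

lemma gram (e f : Module.Basis (Fin 2) F K) (ε : Fin 2 × l ≃ l')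
    (hd : ∀ i j, Algebra.trace F K (f i * e j) = if j = i then 1 else 0) (s t : l' ⊕ l') :
    Om F l (bV e f ε s) (bV e f ε t) = J l' F s t := by
  have hd' : ∀ i j, Algebra.trace F K (e i * f j) = if i = j then 1 else 0 := fun i j => by
    rw [mul_comm, hd]
  have key : ∀ (i j : Fin 2) (k m : l), (if k = m then (if i = j then (1 : F) else 0) else 0) =
      (1 : Matrix l' l' F) (ε (i, k)) (ε (j, m)) := by
    intro i j k m
    rw [Matrix.one_apply]
    by_cases h1 : k = m <;> by_cases h2 : i = j <;> simp [h1, h2]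
  rcases s with u | u <;> rcases t with v | v <;>
    obtain ⟨⟨i, k⟩, rfl⟩ := ε.surjective u <;> obtain ⟨⟨j, m⟩, rfl⟩ := ε.surjective v
  · rw [bV_inl, bV_inl, Om_single]
    simp [J]
  · rw [bV_inl, bV_inr, Om_single]
    simp only [J, fromBlocks_apply₁₂, Matrix.neg_apply, ← key]
    rw [Matrix.one_apply]
    by_cases h1 : k = m
    · simp only [h1, if_true, neg_mul, mul_neg, one_mul, map_neg, hd']
    · simp [h1]
  · rw [bV_inr, bV_inl, Om_single]
    simp only [J, fromBlocks_apply₂₁, ← key]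
    rw [Matrix.one_apply]
    by_cases h1 : k = m
    · simp only [h1, if_true, one_mul, hd]
      by_cases h2 : i = j
      · simp [h2]
      · simp [h2, Ne.symm h2]
    · simp [h1]
  · rw [bV_inr, bV_inr, Om_single]
    simp [J]

/-- The `F`-matrix of a `K`-matrix. -/
noncomputable def Phi (b : Module.Basis (l' ⊕ l') F (l ⊕ l → K)) (A : Matrix (l ⊕ l) (l ⊕ l) K) :
    Matrix (l' ⊕ l') (l' ⊕ l') F :=
  LinearMap.toMatrix b b ((mulVecLin A).restrictScalars F)

lemma Phi_mul (b : Module.Basis (l' ⊕ l') F (l ⊕ l → K)) (A B : Matrix (l ⊕ l) (l ⊕ l) K) :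
    Phi b (A * B) = Phi b A * Phi b B := by
  rw [Phi, Phi, Phi, ← LinearMap.toMatrix_comp b b b, mulVecLin_mul]
  rfl

lemma Phi_one (b : Module.Basis (l' ⊕ l') F (l ⊕ l → K)) :
    Phi b (1 : Matrix (l ⊕ l) (l ⊕ l) K) = 1 := by
  rw [Phi, mulVecLin_one]
  exact LinearMap.toMatrix_id b

lemma Phi_injective (b : Module.Basis (l' ⊕ l') F (l ⊕ l → K)) :
    Function.Injective (Phi (l := l) (K := K) b) := by
  intro A B h
  have h1 := (LinearMap.toMatrix b b).injective h
  apply Matrix.mulVec_injective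
  funext x
  exact congrArg (fun g : (l ⊕ l → K) →ₗ[F] (l ⊕ l → K) => g x) h1

lemma Phi_mem (b : Module.Basis (l' ⊕ l') F (l ⊕ l → K))
    (hg : ∀ s t, Om F l (b s) (b t) = J l' F s t)
    {A : Matrix (l ⊕ l) (l ⊕ l) K} (hA : A ∈ symplecticGroup l K) :
    Phi b A ∈ symplecticGroup l' F := by
  rw [SymplecticGroup.mem_iff'] 
  have hA' := SymplecticGroup.mem_iff'.mp hA
  have h0 : LinearMap.toMatrix₂ b b (Om F l) = J l' F := by
    ext s t
    rw [LinearMap.toMatrix₂_apply, hg]
  have h1 : (Om F l).compl₁₂ ((mulVecLin A).restrictScalars F) ((mulVecLin A).restrictScalars F)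
      = Om F l := by
    ext x y
    exact Om_invariant hA' _ _
  have h2 := LinearMap.toMatrix₂_compl₁₂ b b b b (Om F l)
    ((mulVecLin A).restrictScalars F) ((mulVecLin A).restrictScalars F)
  rw [h1, h0] at h2
  exact h2.symm

end main

/-- Field-extension embedding of symplectic groups: for a field K with q² elements and a field F with q elements there is an injective homomorphism Sp_2a(K) → Sp_4a(F). -/
theorem result {K F : Type*} [Field K] [Fintype K] [Field F] [Fintype F] {q : ℕ} (hK : Fintype.card K = q ^ 2) (hF : Fintype.card F = q) (a : ℕ) : ∃ φ : ↥(Matrix.symplecticGroup (Fin a) K) →* ↥(Matrix.symplecticGroup (Fin (2 * a)) F), Function.Injective φ := by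
  classical
  obtain ⟨φ⟩ := exists_ringHom hK hF
  letI : Algebra F K := φ.toAlgebra
  have : FiniteDimensional F K := Module.Finite.of_finite
  have hfr : Module.finrank F K = 2 := by
    have h1 : Fintype.card K = q ^ Module.finrank F K := by
      rw [Module.card_eq_pow_finrank (K := F), hF]
    have hq2 : 2 ≤ q := by
      rw [← hF]
      exact Fintype.one_lt_card
    apply Nat.pow_right_injective hq2
    dsimp only
    rw [← h1, hK]
  let e : Module.Basis (Fin 2) F K := Module.finBasisOfFinrankEq F K hfr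
  let f : Module.Basis (Fin 2) F K :=
    (Algebra.traceForm F K).dualBasis (traceForm_nondegenerate F K) e
  have hd : ∀ i j, Algebra.trace F K (f i * e j) = if j = i then 1 else 0 := fun i j => by
    have := LinearMap.BilinForm.apply_dualBasis_left (B := Algebra.traceForm F K)
      (traceForm_nondegenerate F K) e i j
    rwa [Algebra.traceForm_apply] at this
  let ε : Fin 2 × Fin a ≃ Fin (2 * a) := finProdFinEquiv
  let b := bV e f ε
  have hg := gram e f ε hd
  refine ⟨{ toFun := fun A => ⟨Phi b A.1, Phi_mem b hg A.2⟩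
            map_one' := Subtype.ext (Phi_one b)
            map_mul' := fun A B => Subtype.ext (Phi_mul b A.1 B.1) }, ?_⟩
  intro A B h
  apply Subtype.ext
  exact Phi_injective b (congrArg Subtype.val h)

end Cfsg.Agent.S2678
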