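import Cfsg.Statements.S2679
import Mathlib
-- import your own Cfsg.Agent.* helpers here

set_option autoImplicit false
open Cfsg

namespace Cfsg.Agent.S2679

open Polynomial in
/-- The anisotropic binary form splits over the field with `q²` elements. -/
theorem exists_embedding {F K : Type*} [Field F] [Fintype F] [Field K] [Fintype K] {q : ℕ}
    (hF : Fintype.card F = q) (hK : Fintype.card K = q ^ 2) (a c : F)
    (hac : ∀ z₁ z₂ : F, z₁ ^ 2 + a * z₁ * z₂ + c * z₂ ^ 2 = 0 → z₁ = 0 ∧ z₂ = 0) :
    ∃ (i : F →+* K) (r s : K), r ≠ s ∧ r + s = - i a ∧ r * s = i c := by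
  classical
  have hnoroot : ∀ t : F, t ^ 2 + a * t + c ≠ 0 := by
    intro t ht
    have := hac t 1 (by linear_combination ht)
    exact one_ne_zero this.2
  let P : F[X] := X ^ 2 + C a * X + C c
  have hPeval : ∀ t : F, P.eval t = t ^ 2 + a * t + c := by
    intro t; simp [P]
  have hPdeg : P.natDegree = 2 := by
    simp only [P]; compute_degree!
  have hPmonic : P.Monic := by
    simp only [P]; monicity!
  have hPirr : Irreducible P := by
    rw [hPmonic.irreducible_iff_roots_eq_zero_of_degree_le_three (by omega) (by omega)]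
    apply Multiset.eq_zero_of_forall_notMem
    intro t ht
    have := (Polynomial.mem_roots'.1 ht).2
    rw [Polynomial.IsRoot.def, hPeval] at this
    exact hnoroot t this
  have : Fact (Irreducible P) := ⟨hPirr⟩
  let L := AdjoinRoot P
  have hfinr : Module.finrank F L = 2 := by
    rw [(AdjoinRoot.powerBasis hPirr.ne_zero).finrank, AdjoinRoot.powerBasis_dim, hPdeg]
  have : Module.Finite F L := (AdjoinRoot.powerBasis hPirr.ne_zero).finite
  have : Finite L := Module.finite_of_finite F
  let _ : Fintype L := Fintype.ofFinite L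
  have hcardL : Fintype.card L = Fintype.card K := by
    rw [Module.card_eq_pow_finrank (K := F) (V := L), hfinr, hF, hK]
  let ψ : L ≃+* K := FiniteField.ringEquivOfCardEq hcardL
  let i : F →+* K := (ψ : L →+* K).comp (AdjoinRoot.of P)
  let r : K := ψ (AdjoinRoot.root P)
  have hr : r ^ 2 + i a * r + i c = 0 := by
    have h1 : (AdjoinRoot.root P) ^ 2 + (AdjoinRoot.of P a) * (AdjoinRoot.root P) +
        AdjoinRoot.of P c = 0 := by
      have h2 := AdjoinRoot.eval₂_root P
      simpa [P] using h2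
    have h3 := congrArg ψ h1
    simpa [i, r] using h3
  have hiinj : Function.Injective i := i.injective
  refine ⟨i, r, - i a - r, ?_, by ring, by linear_combination -hr⟩
  intro hrs
  have h2r : 2 * r = - i a := by linear_combination hrs
  by_cases hchar : ringChar F = 2
  · have h2 : (2 : F) = 0 := by
      have := ringChar.Nat.cast_ringChar (R := F)
      rw [hchar] at this
      exact_mod_cast this
    have hi2 : i 2 = 2 := map_ofNat i 2
    have h2K : (2 : K) = 0 := by rw [← hi2, h2, map_zero]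
    have ha : a = 0 := by
      apply hiinj
      rw [map_zero]
      have : i a = - (2 * r) := by linear_combination h2r
      rw [this, h2K]; simp
    obtain ⟨d, hd⟩ := FiniteField.isSquare_of_char_two hchar (-c)
    apply hnoroot d
    rw [ha]
    linear_combination -hd
  · have h2 : (2 : F) ≠ 0 := Ring.two_ne_zero hchar
    apply hnoroot (- a / 2)
    apply hiinj
    have hi2 : i 2 = 2 := map_ofNat i 2
    have hit : i (- a / 2) = r := by
      rw [map_div₀, map_neg, hi2]
      have h2K : (2 : K) ≠ 0 := by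
        rw [← hi2]
        exact (map_ne_zero i).2 h2
      field_simp
      linear_combination -h2r
    rw [map_add, map_add, map_mul, map_pow, hit, map_zero]
    exact hr

/-- An alternating double sum vanishes. -/
theorem alt_sum_zero {ι K : Type*} [Fintype ι] [CommRing K] (A : ι → ι → K) (h1 : ∀ s, A s s = 0)
    (h2 : ∀ s t, A s t + A t s = 0) (w : ι → K) : ∑ s, ∑ t, w s * A s t * w t = 0 := by
  classical
  rw [← Finset.sum_product']
  apply Finset.sum_involution (fun p _ => (p.2, p.1))
  · rintro ⟨s, t⟩ _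
    have := h2 s t
    linear_combination (w s * w t) * this
  · rintro ⟨s, t⟩ _ hne heq
    simp only [Prod.mk.injEq] at heq
    obtain ⟨rfl, -⟩ := heq
    apply hne
    rw [h1]
    ring
  · rintro ⟨s, t⟩ _
    simp
  · rintro ⟨s, t⟩ _
    simp

open Matrix in
/-- Isometries of a quadratic form given by a matrix stay isometries after a base change. -/
theorem isometry_baseChange {F K ι : Type*} [Field F] [Field K] [Fintype ι] [DecidableEq ι]
    (i : F →+* K) (C g : Matrix ι ι F)
    (h : ∀ v : ι → F, (g *ᵥ v) ⬝ᵥ (C *ᵥ (g *ᵥ v)) = v ⬝ᵥ (C *ᵥ v)) (w : ι → K) :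
    ((g.map i) *ᵥ w) ⬝ᵥ ((C.map i) *ᵥ ((g.map i) *ᵥ w)) = w ⬝ᵥ ((C.map i) *ᵥ w) := by
  set D : Matrix ι ι F := g.transpose * C * g - C with hD
  have hform : ∀ v : ι → F, v ⬝ᵥ (D *ᵥ v) = 0 := by
    intro v
    have h1 : (g *ᵥ v) ⬝ᵥ (C *ᵥ (g *ᵥ v)) = v ⬝ᵥ ((g.transpose * C * g) *ᵥ v) := by
      rw [← Matrix.mulVec_mulVec, ← Matrix.mulVec_mulVec, Matrix.dotProduct_mulVec v,
        Matrix.vecMul_transpose]
    rw [hD, Matrix.sub_mulVec, dotProduct_sub, ← h1, h v, sub_self]
  have hdiag : ∀ s, D s s = 0 := by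
    intro s
    have := hform (Pi.single s 1)
    simpa [Matrix.mulVec, dotProduct, Pi.single_apply] using this
  have hoff : ∀ s t, D s t + D t s = 0 := by
    intro s t
    by_cases hst : s = t
    · subst hst; rw [hdiag]; simp
    · have := hform (Pi.single s 1 + Pi.single t 1)
      have h2 : (Pi.single s 1 + Pi.single t 1 : ι → F) ⬝ᵥ (D *ᵥ (Pi.single s 1 + Pi.single t 1)) =
          D s s + D s t + D t s + D t t := by
        rw [Matrix.mulVec_add, dotProduct_add, add_dotProduct, add_dotProduct]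
        simp only [single_one_dotProduct, Matrix.mulVec_single_one, Matrix.col_apply]
        ring
      rw [h2, hdiag, hdiag] at this
      linear_combination this
  have hsum := alt_sum_zero (fun s t => i (D s t)) (fun s => by simp [hdiag]) (fun s t => by
    rw [← map_add, hoff, map_zero]) w
  have hDmap : D.map i = (g.map i).transpose * C.map i * g.map i - C.map i := by
    rw [hD, Matrix.map_sub _ (map_sub i), Matrix.map_mul, Matrix.map_mul, Matrix.transpose_map]
  have h3 : w ⬝ᵥ ((D.map i) *ᵥ w) = 0 := by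
    rw [← hsum]
    simp only [dotProduct, Matrix.mulVec, Matrix.map_apply, Finset.mul_sum, mul_assoc]
  have h4 : ((g.map i) *ᵥ w) ⬝ᵥ ((C.map i) *ᵥ ((g.map i) *ᵥ w)) =
      w ⬝ᵥ (((g.map i).transpose * C.map i * g.map i) *ᵥ w) := by
    rw [← Matrix.mulVec_mulVec, ← Matrix.mulVec_mulVec, Matrix.dotProduct_mulVec w,
      Matrix.vecMul_transpose]
  rw [h4]
  rw [hDmap, Matrix.sub_mulVec, dotProduct_sub] at h3
  exact sub_eq_zero.1 h3

/-- The index set of the minus-type form. -/
abbrev Idx (k : ℕ) := (Fin k ⊕ Fin k) ⊕ Fin 2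

/-- The coefficient matrix of the minus-type form. -/
def cMat (k : ℕ) {R : Type*} [CommRing R] (a c : R) : Matrix (Idx k) (Idx k) R :=
  Matrix.fromBlocks (Matrix.fromBlocks 0 1 0 0) 0 0 !![1, a; 0, c]

open Matrix in
theorem quad_eq (k : ℕ) {R : Type*} [Field R] (a c : R) (v : Idx k → R) :
    Cfsg.quadFormMinus k R a c v = v ⬝ᵥ (cMat k a c *ᵥ v) := by
  unfold Cfsg.quadFormMinus cMat
  rw [Matrix.fromBlocks_mulVec, Matrix.fromBlocks_mulVec]
  simp only [dotProduct, Fintype.sum_sum_type, Fin.sum_univ_two, Sum.elim_inl, Sum.elim_inr,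
    Matrix.zero_mulVec, Matrix.one_mulVec, add_zero, zero_add, Function.comp, Pi.add_apply,
    Pi.zero_apply, mul_zero, Finset.sum_const_zero]
  simp [Matrix.mulVec, dotProduct, Fin.sum_univ_two, Matrix.vec2_dotProduct]
  ring

theorem cMat_map (k : ℕ) {R S : Type*} [CommRing R] [CommRing S] (i : R →+* S) (a c : R) :
    (cMat k a c).map i = cMat k (i a) (i c) := by
  ext s t
  rcases s with (s | s) | s <;> rcases t with (t | t) | t
  all_goals simp [cMat, Matrix.one_apply, apply_ite i]
  all_goals fin_cases s <;> fin_cases t <;> simp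

/-- The reindexing of the two types. -/
def idxEquiv (k : ℕ) : Idx k ≃ Fin (k + 1) ⊕ Fin (k + 1) where
  toFun := Sum.elim (Sum.elim (fun j => Sum.inl j.castSucc) (fun j => Sum.inr j.castSucc))
    (fun b => if b = 0 then Sum.inl (Fin.last k) else Sum.inr (Fin.last k))
  invFun := Sum.elim (Fin.lastCases (Sum.inr 0) (fun j => Sum.inl (Sum.inl j)))
    (Fin.lastCases (Sum.inr 1) (fun j => Sum.inl (Sum.inr j)))
  left_inv := by
    rintro ((j | j) | b)
    · simp
    · simp
    · fin_cases b <;> simp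
  right_inv := by
    rintro (j | j)
    · refine Fin.lastCases ?_ (fun j => ?_) j <;> simp
    · refine Fin.lastCases ?_ (fun j => ?_) j <;> simp

section transfer

variable {K : Type*} [Field K] {k : ℕ} (r s : K)

/-- The change of coordinates splitting the binary form. -/
def bMat (r s : K) : Matrix (Fin 2) (Fin 2) K := !![1, -r; 1, -s]

/-- The inverse of `bMat`. -/
def bMat' (r s : K) : Matrix (Fin 2) (Fin 2) K := (r - s)⁻¹ • !![-s, r; -1, 1]

theorem bMat_mul (hrs : r ≠ s) : bMat r s * bMat' r s = 1 := by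
  have h : r - s ≠ 0 := sub_ne_zero.2 hrs
  ext i j
  fin_cases i <;> fin_cases j <;> simp [bMat, bMat', Matrix.mul_apply, Fin.sum_univ_two] <;>
    field_simp <;> ring

theorem bMat'_mul (hrs : r ≠ s) : bMat' r s * bMat r s = 1 := by
  have h : r - s ≠ 0 := sub_ne_zero.2 hrs
  ext i j
  fin_cases i <;> fin_cases j <;> simp [bMat, bMat', Matrix.mul_apply, Fin.sum_univ_two] <;>
    field_simp <;> ring

/-- The block matrix. -/
def dMat (k : ℕ) (r s : K) : Matrix (Idx k) (Idx k) K := Matrix.fromBlocks 1 0 0 (bMat r s)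

/-- The block inverse. -/
def dMat' (k : ℕ) (r s : K) : Matrix (Idx k) (Idx k) K := Matrix.fromBlocks 1 0 0 (bMat' r s)

theorem dMat_mul (hrs : r ≠ s) : dMat k r s * dMat' k r s = 1 := by
  rw [dMat, dMat', Matrix.fromBlocks_multiply]
  simp [bMat_mul r s hrs]

theorem dMat'_mul (hrs : r ≠ s) : dMat' k r s * dMat k r s = 1 := by
  rw [dMat, dMat', Matrix.fromBlocks_multiply]
  simp [bMat'_mul r s hrs]

/-- The change of coordinates to the hyperbolic form. -/
def pMat (k : ℕ) (r s : K) : Matrix (Fin (k + 1) ⊕ Fin (k + 1)) (Idx k) K :=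
  (dMat k r s).submatrix (idxEquiv k).symm (Equiv.refl _)

/-- The inverse change of coordinates. -/
def pMat' (k : ℕ) (r s : K) : Matrix (Idx k) (Fin (k + 1) ⊕ Fin (k + 1)) K :=
  (dMat' k r s).submatrix (Equiv.refl _) (idxEquiv k).symm

theorem pMat_mul (hrs : r ≠ s) : pMat k r s * pMat' k r s = 1 := by
  rw [pMat, pMat', Matrix.submatrix_mul_equiv, dMat_mul r s hrs, Matrix.submatrix_one_equiv]

theorem pMat'_mul (hrs : r ≠ s) : pMat' k r s * pMat k r s = 1 := by
  rw [pMat, pMat', Matrix.submatrix_mul_equiv, dMat'_mul r s hrs, Matrix.submatrix_one_equiv]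

open Matrix in
theorem quadPlus_pMat (a c : K) (h1 : r + s = - a) (h2 : r * s = c) (w : Idx k → K) :
    Cfsg.quadFormPlus (k + 1) K (pMat k r s *ᵥ w) = Cfsg.quadFormMinus k K a c w := by
  have hP : ∀ x, (pMat k r s *ᵥ w) x = (dMat k r s *ᵥ w) ((idxEquiv k).symm x) := fun x => rfl
  have hD1 : ∀ u, (dMat k r s *ᵥ w) (Sum.inl u) = w (Sum.inl u) := by
    intro u
    rw [dMat, Matrix.fromBlocks_mulVec]
    simp
  have hD2 : ∀ b, (dMat k r s *ᵥ w) (Sum.inr b) = (bMat r s *ᵥ (fun b => w (Sum.inr b))) b := by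
    intro b
    rw [dMat, Matrix.fromBlocks_mulVec]
    simp [Function.comp_def]
  unfold Cfsg.quadFormPlus Cfsg.quadFormMinus
  rw [Fin.sum_univ_castSucc]
  simp only [hP]
  have e1 : ∀ j : Fin k, (idxEquiv k).symm (Sum.inl j.castSucc) = Sum.inl (Sum.inl j) := by
    intro j; simp [idxEquiv]
  have e2 : ∀ j : Fin k, (idxEquiv k).symm (Sum.inr j.castSucc) = Sum.inl (Sum.inr j) := by
    intro j; simp [idxEquiv]
  have e3 : (idxEquiv k).symm (Sum.inl (Fin.last k)) = Sum.inr 0 := by simp [idxEquiv]
  have e4 : (idxEquiv k).symm (Sum.inr (Fin.last k)) = Sum.inr 1 := by simp [idxEquiv]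
  simp only [e1, e2, e3, e4, hD1, hD2]
  congr 1
  simp [bMat, Matrix.mulVec, dotProduct, Fin.sum_univ_two]
  rw [← h2, show a = -(r + s) by rw [h1, neg_neg]]
  ring

end transfer

/-- An elliptic orthogonal group embeds in the hyperbolic orthogonal group of the same dimension over the quadratic extension: for a field F with q elements and a field K with q² elements there is an injective homomorphism from O⁻_2m(F) (isometries of Σ_(j<m−1) x_j y_j + z₁² + a z₁z₂ + c z₂², binary part anisotropic) to O⁺_2m(K) (isometries of Σ_(j<m) x_j y_j over K). -/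
theorem result {F K : Type*} [Field F] [Fintype F] [Field K] [Fintype K] {q : ℕ} (hF : Fintype.card F = q) (hK : Fintype.card K = q ^ 2) {m : ℕ} (hm : 1 ≤ m) (a c : F) (hac : ∀ z₁ z₂ : F, z₁ ^ 2 + a * z₁ * z₂ + c * z₂ ^ 2 = 0 → z₁ = 0 ∧ z₂ = 0) : ∃ φ : ↥(Cfsg.isometryGroup F (Cfsg.quadFormMinus (m - 1) F a c)) →* ↥(Cfsg.isometryGroup K (Cfsg.quadFormPlus m K)), Function.Injective φ := by
  classical
  obtain ⟨k, rfl⟩ : ∃ k, m = k + 1 := ⟨m - 1, by omega⟩
  change ∃ φ : ↥(Cfsg.isometryGroup F (Cfsg.quadFormMinus k F a c)) →*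
    ↥(Cfsg.isometryGroup K (Cfsg.quadFormPlus (k + 1) K)), Function.Injective φ
  obtain ⟨i, r, s, hrs, h1, h2⟩ := exists_embedding hF hK a c hac
  have hPP' := pMat_mul (k := k) r s hrs
  have hP'P := pMat'_mul (k := k) r s hrs
  -- conjugation by the change of coordinates
  let Θ : Matrix (Idx k) (Idx k) K →* Matrix (Fin (k + 1) ⊕ Fin (k + 1)) (Fin (k + 1) ⊕ Fin (k + 1)) K :=
    { toFun := fun M => pMat k r s * M * pMat' k r s
      map_one' := by rw [Matrix.mul_one, hPP']
      map_mul' := fun M N => by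
        calc pMat k r s * (M * N) * pMat' k r s
            = pMat k r s * M * (1 : Matrix (Idx k) (Idx k) K) * N * pMat' k r s := by
              rw [Matrix.mul_one]; simp only [Matrix.mul_assoc]
          _ = pMat k r s * M * (pMat' k r s * pMat k r s) * N * pMat' k r s := by rw [hP'P]
          _ = pMat k r s * M * pMat' k r s * (pMat k r s * N * pMat' k r s) := by
              simp only [Matrix.mul_assoc] }
  have hΘ : Function.Injective Θ := by
    intro M N h
    have h3 : pMat k r s * M * pMat' k r s = pMat k r s * N * pMat' k r s := h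
    have h4 := congrArg (fun X => pMat' k r s * X * pMat k r s) h3
    simp only [Matrix.mul_assoc] at h4
    simp only [← Matrix.mul_assoc, hP'P, Matrix.one_mul] at h4
    simp only [Matrix.mul_assoc, hP'P, Matrix.mul_one] at h4
    exact h4
  let ψ : Matrix.GeneralLinearGroup (Idx k) F →* Matrix.GeneralLinearGroup (Fin (k + 1) ⊕ Fin (k + 1)) K :=
    (Units.map Θ).comp (Matrix.GeneralLinearGroup.map i)
  have hψval : ∀ g : Matrix.GeneralLinearGroup (Idx k) F,
      ((ψ g : Matrix.GeneralLinearGroup (Fin (k + 1) ⊕ Fin (k + 1)) K) :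
        Matrix (Fin (k + 1) ⊕ Fin (k + 1)) (Fin (k + 1) ⊕ Fin (k + 1)) K) =
      pMat k r s * ((g : Matrix (Idx k) (Idx k) F).map i) * pMat' k r s := fun g => rfl
  have hψinj : Function.Injective ψ := by
    intro g g' h
    have h3 := congrArg Units.val h
    rw [hψval, hψval] at h3
    have h4 := hΘ h3
    apply Units.ext
    ext x y
    have h5 := congrFun (congrFun h4 x) y
    simp only [Matrix.map_apply] at h5
    exact i.injective h5
  refine ⟨MonoidHom.codRestrict (ψ.comp (Cfsg.isometryGroup F (Cfsg.quadFormMinus k F a c)).subtype)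
    (Cfsg.isometryGroup K (Cfsg.quadFormPlus (k + 1) K)) ?_, ?_⟩
  · rintro ⟨g, hg⟩
    intro u _
    change Cfsg.quadFormPlus (k + 1) K (((ψ g : Matrix.GeneralLinearGroup (Fin (k + 1) ⊕ Fin (k + 1)) K) :
        Matrix (Fin (k + 1) ⊕ Fin (k + 1)) (Fin (k + 1) ⊕ Fin (k + 1)) K).mulVec u) =
      Cfsg.quadFormPlus (k + 1) K u
    have hbase := isometry_baseChange i (cMat k a c) (g : Matrix (Idx k) (Idx k) F) (by
      intro v
      have := hg v v
      change Cfsg.quadFormMinus k F a c ((g : Matrix (Idx k) (Idx k) F).mulVec v) =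
        Cfsg.quadFormMinus k F a c v at this
      rwa [quad_eq, quad_eq] at this)
    rw [cMat_map] at hbase
    rw [hψval, ← Matrix.mulVec_mulVec, ← Matrix.mulVec_mulVec, quadPlus_pMat r s (i a) (i c) h1 h2,
      quad_eq, hbase, ← quad_eq, ← quadPlus_pMat r s (i a) (i c) h1 h2, Matrix.mulVec_mulVec, hPP',
      Matrix.one_mulVec]
  · intro g g' h
    apply Subtype.ext
    apply hψinj
    exact congrArg Subtype.val h

end Cfsg.Agent.S2679
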