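import Cfsg.Statements.S2680
import Mathlib
import Cfsg.Agent.Lib.Classical.InvCent.Sp

set_option autoImplicit false
open Cfsg

namespace Cfsg.Agent.S2680

open Cfsg.Agent.Lib.Classical.Symp.AltForm Cfsg.Agent.Lib.Classical.Symp.InvolChar2
open Cfsg.Agent.Lib.Classical.Symp.Count Cfsg.Agent.Lib.Classical.Symp.Basic
open Cfsg.Agent.Lib.Classical.Symp.InvolChar2Mat
open Cfsg.Agent.Lib.Classical.InvCent.Sp

/-- Centraliser order of an involution t of Sp_2m(q), q even, with s = rank(t − 1) odd (type b_s): |C(t)| = q^(2ms − (3s² − s)/2) · |Sp_(s−1)(q)| · |Sp_(2m−2s)(q)|, where |Sp_2k(q)| = q^(k²) Π_(i=1)^k (q^(2i) − 1). -/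
theorem result {F : Type*} [Field F] [Fintype F] [CharP F 2] {q : ℕ} (hF : Fintype.card F = q) {m s : ℕ} (t : Matrix.symplecticGroup (Fin m) F) (ht : t ^ 2 = 1) (hs : ((t : Matrix (Fin m ⊕ Fin m) (Fin m ⊕ Fin m) F) - 1).rank = s) (hodd : Odd s) : Nat.card ↥(Subgroup.centralizer ({t} : Set ↥(Matrix.symplecticGroup (Fin m) F))) = q ^ (2 * m * s - (3 * s ^ 2 - s) / 2) * ((q : ℕ) ^ (((s - 1) / 2) ^ 2) * ∏ i : Fin ((s - 1) / 2), (q ^ (2 * ((i : ℕ) + 1)) - 1)) * ((q : ℕ) ^ ((m - s) ^ 2) * ∏ i : Fin (m - s), (q ^ (2 * ((i : ℕ) + 1)) - 1)) := by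
  classical
  have hq : Nat.card F = q := by rw [Nat.card_eq_fintype_card, hF]
  have hsq : (t : Mt m F) * t = 1 := by
    have := congrArg Subtype.val ht
    simpa [pow_two] using this
  have hN := isSqZeroAdj_nMap t.2 hsq
  obtain ⟨G, hG⟩ := exists_form hN
  obtain ⟨hsm, hc⟩ := card_centralizer hF t hN hs hG
  have hsym := symm_of_alt (B := sympBilin m F) sympBilin_isAlt
  have hs₁ := form_symm hsym hN hG
  have hsep := form_sep (fun x hx => (sympBilin_nondegenerate (m := m) (F := F)).1 x hx) hN hG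
  have hnd : G.Nondegenerate := ⟨hsep, fun y hy => hsep y fun x => (hs₁ y x).trans (hy x)⟩
  have hsU : Module.finrank F (LinearMap.range (nMap (t : Mt m F))) = s := by rw [← hs, rank_eq]
  have hna : ∃ x, G x x ≠ 0 := by
    by_contra hc'
    push Not at hc'
    have halt := (form_isAlt_iff hG).1 hc'
    have := even_of_alt_type sympBilin_nondegenerate sympBilin_isAlt hN halt
    rw [hsU] at this
    exact (Nat.not_even_iff_odd.2 hodd) this
  obtain ⟨k, hk⟩ := hodd
  have hk1 : (s - 1) / 2 = k := by omega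
  have hI := card_isom_odd ⟨hs₁⟩ hnd hna (by rw [hsU, hk]) hq
  rw [hc, hI, exp_eq hsm, hk1]
  simp only [Finset.prod_range]
  ring

end Cfsg.Agent.S2680
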