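import Cfsg.Statements.S2682
import Mathlib
import Cfsg.Agent.Lib.Classical.InvCent.Sp

set_option autoImplicit false
open Cfsg

namespace Cfsg.Agent.S2682

open Cfsg.Agent.Lib.Classical.Symp.AltForm Cfsg.Agent.Lib.Classical.Symp.InvolChar2
open Cfsg.Agent.Lib.Classical.Symp.Count Cfsg.Agent.Lib.Classical.Symp.Basic
open Cfsg.Agent.Lib.Classical.Symp.InvolChar2Mat
open Cfsg.Agent.Lib.Classical.InvCent.Sp

/-- Centraliser order of an involution t of Sp_2m(q), q even, with s = rank(t − 1) even and f(v, tv) ≠ 0 for some v, f the symplectic form (type c_s): |C(t)| = q^(2ms − (3s² − 3s)/2 − 1) · |Sp_(s−2)(q)| · |Sp_(2m−2s)(q)|. -/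
theorem mulVec_eq_nMap_helper {F : Type*} [Field F] [CharP F 2] {m : ℕ} {t : Matrix.symplecticGroup (Fin m) F} {v : Fin m ⊕ Fin m → F} :
    Cfsg.Agent.Lib.Classical.Symp.Basic.sympBilin m F v (nMap (t : Mt m F) v) = Cfsg.sympForm m F v ((t : Matrix (Fin m ⊕ Fin m) (Fin m ⊕ Fin m) F).mulVec v) :=
  sympForm_nMap _ v

theorem result {F : Type*} [Field F] [Fintype F] [CharP F 2] {q : ℕ} (hF : Fintype.card F = q) {m s : ℕ} (t : Matrix.symplecticGroup (Fin m) F) (ht : t ^ 2 = 1) (hs : ((t : Matrix (Fin m ⊕ Fin m) (Fin m ⊕ Fin m) F) - 1).rank = s) (heven : Even s) (hna : ∃ v : Fin m ⊕ Fin m → F, Cfsg.sympForm m F v ((t : Matrix (Fin m ⊕ Fin m) (Fin m ⊕ Fin m) F).mulVec v) ≠ 0) : Nat.card ↥(Subgroup.centralizer ({t} : Set ↥(Matrix.symplecticGroup (Fin m) F))) = q ^ (2 * m * s - (3 * s ^ 2 - 3 * s) / 2 - 1) * ((q : ℕ) ^ (((s - 2) / 2) ^ 2) * ∏ i : Fin ((s - 2) / 2), (q ^ (2 * ((i : ℕ) + 1)) - 1)) * ((q : ℕ) ^ ((m - s) ^ 2) * ∏ i : Fin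 (m - s), (q ^ (2 * ((i : ℕ) + 1)) - 1)) := by
  classical
  have hq : Nat.card F = q := by rw [Nat.card_eq_fintype_card, hF]
  have hsq : (t : Mt m F) * t = 1 := by
    have := congrArg Subtype.val ht
    simpa [pow_two] using this
  have hN := isSqZeroAdj_nMap t.2 hsq
  obtain ⟨G, hG⟩ := exists_form hN
  obtain ⟨hsm, hc⟩ := card_centralizer hF t hN hs hG
  have hsym := symm_of_alt (B := sympBilin m F) sympBilin_isAlt
  have hs₁ := form_symm hsym hN hG
  have hsep := form_sep (fun x hx => (sympBilin_nondegenerate (m := m) (F := F)).1 x hx) hN hG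
  have hnd : G.Nondegenerate := ⟨hsep, fun y hy => hsep y fun x => (hs₁ y x).trans (hy x)⟩
  have hsU : Module.finrank F (LinearMap.range (nMap (t : Mt m F))) = s := by rw [← hs, rank_eq]
  have hna' : ∃ x, G x x ≠ 0 := by
    by_contra hc'
    push Not at hc'
    have halt := (form_isAlt_iff hG).1 hc'
    obtain ⟨v, hv⟩ := hna
    apply hv
    rw [← mulVec_eq_nMap_helper]
    exact halt v
  have hs1 : 1 ≤ s := by
    by_contra h0
    have hs0 : s = 0 := by omega
    obtain ⟨x, hx⟩ := hna'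
    have h1 : Subsingleton (LinearMap.range (nMap (t : Mt m F))) := by
      rw [← Module.finrank_zero_iff (R := F), hsU, hs0]
    exact hx (by
      rw [Subsingleton.elim x 0]
      simp)
  obtain ⟨k, hk⟩ : ∃ k, s = 2 * k + 2 := by
    obtain ⟨j, hj⟩ := heven
    exact ⟨j - 1, by omega⟩
  have hk1 : (s - 2) / 2 = k := by omega
  have hI := card_isom_even ⟨hs₁⟩ hnd hna' (by rw [hsU, hk]) hq
  rw [hc, hI, exp_eq' hsm hs1, hk1]
  have hk2 : s - 1 = 2 * k + 1 := by omega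
  rw [hk2, pow_add]
  simp only [Finset.prod_range]
  ring

end Cfsg.Agent.S2682
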