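import Cfsg.Statements.S2684
import Cfsg.Agent.Lib.Classical.InvCent.OPlus
import Cfsg.Agent.S2681

set_option autoImplicit false
open Cfsg

namespace Cfsg.Agent.S2684

open Cfsg.Agent.Lib.Classical.InvCent.OPlus Cfsg.Agent.Lib.Classical.Witt.InvolChar2
open Cfsg.Agent.Lib.Classical.Orth.Models Cfsg.Agent.Lib.Classical.Orth.Classes
open Module QuadraticMap

/-- For the hyperbolic form Q = Σ x_j y_j on F^(2m) over a finite field with q elements, q even (excluding m = 2 over the field of two elements), and an involution x ≠ 1 of the orthogonal group with s = rank(x − 1) even and Q vanishing on the image of x − 1 (equivalently f(v, xv) = 0 for all v, where f(u, w) = Q(u + w) − Q(u) − Q(w) is the bilinear form of Q; type a_s, which lies in Ω): its centraliser in Ω (the commutator subgroup of the orthogonal group) has order q^(2ms − (3s² + s)/2) · |Sp_s(q)| · |Ω⁺_(2m−2s)(q)|, where |Ω⁺_2k(q)| = q^(k(k−1)) (q^k − 1) Π_(i=1)^(k−1) (q^(2i) − 1) for k ≥ 1 and the last factor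 is 1 when s = m. -/
theorem result {F : Type*} [Field F] [Fintype F] [CharP F 2] {q : ℕ} (hF : Fintype.card F = q) {m s : ℕ} (h : Fintype.card F ≠ 2 ∨ m ≠ 2) (x : ↥(Cfsg.isometryGroup F (Cfsg.quadFormPlus m F))) (hx : x ^ 2 = 1) (hx1 : x ≠ 1) (hs : (((x : Matrix.GeneralLinearGroup (Fin m ⊕ Fin m) F) : Matrix (Fin m ⊕ Fin m) (Fin m ⊕ Fin m) F) - 1).rank = s) (heven : Even s) (halt : ∀ v : Fin m ⊕ Fin m → F, Cfsg.quadFormPlus m F ((((x : Matrix.GeneralLinearGroup (Fin m ⊕ Fin m) F) : Matrix (Fin m ⊕ Fin m) (Fin m ⊕ Fin m) F) - 1).mulVec v) = 0) : Nat.card {g : ↥(Cfsg.Omega F (Cfsg.quadFormPlus m F)) // (g : ↥(Cfsg.isometryGroup F (Cfsg.quadFormPlus m F))) * x = x * (g : ↥(Cfsg.isometryGroup F (Cfsg.quadFormPlus m F)))} = q ^ (2 * m * s - (3 * s ^ 2 + s) / 2) * ((q : ℕ) ^ ((s / 2) ^ 2) * ∏ i : Fin (s / 2), (q ^ (2 * ((i : ℕ) + 1)) - 1)) * (if s = m then 1 else q ^ ((m - s) * (m - s - 1)) * (q ^ (m - s) - 1) * ∏ i : Fin (m - s - 1), (q ^ (2 * ((i : ℕ) + 1)) - 1)) :=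 by
  classical
  revert x
  rw [← coe_plusForm m F]
  intro x hx hx1 hs halt
  have hq : Nat.card F = q := by rw [Nat.card_eq_fintype_card, hF]
  have hq0 : 0 < q := by
    rw [← hF]
    exact Fintype.card_pos
  have hxx : x * x = 1 := by rw [← pow_two]; exact hx
  obtain ⟨t, ht⟩ := exists_sp x
  have hsU : finrank F (LinearMap.range (nM x)) = s := hs
  have hsm : s ≤ m := hsU ▸ s_le_m hxx
  have halt' : ∀ y, plusForm m F (nM x y) = 0 := halt
  have ht1 : t ≠ 1 := by
    intro h1
    apply hx1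
    apply Subtype.ext
    apply Units.ext
    rw [← ht, h1]
    rfl
  have hr := Cfsg.Agent.S2681.result hF t (sq_of_sp hxx ht) ht1 (by rw [ht]; exact hs) heven (fun v => by
    rw [← Q_nM_eq hxx ht]
    exact halt' v)
  rw [card_centralizer_eq x t ht] at hr
  rw [exp_a hsm] at hr
  rcases Nat.lt_or_ge s m with hlt | hge
  · rw [main_alt_lt (plusForm_nondegenerate m) (exists_hF h) (card_plus m)
      (isTS_U₀ m) (finrank_U₀ m) x hxx halt' hq hsU hlt] at hr
    rw [if_neg (by omega)]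
    obtain ⟨k, hk⟩ : ∃ k, m - s = k + 1 := ⟨m - s - 1, by omega⟩
    have hm : m = s + (k + 1) := by omega
    have h2m : 2 * m - s = m + (k + 1) := by omega
    rw [h2m] at hr
    rw [hk] at hr ⊢
    rw [Fin.prod_univ_castSucc] at hr
    simp only [Fin.val_castSucc, Fin.val_last] at hr
    rw [show k + 1 - 1 = k by omega]
    set K := q ^ (k + 1) with hK
    have hK0 : 0 < K := pow_pos hq0 _
    have hlast : q ^ (2 * (k + 1)) - 1 = (K - 1) * (K + 1) := by
      have : q ^ (2 * (k + 1)) = K ^ 2 := by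
        rw [hK, ← pow_mul, mul_comm]
      rw [this]
      have h5 := Nat.sq_sub_sq K 1
      rw [one_pow] at h5
      rw [h5]
      ring
    rw [hlast] at hr
    have hp : 0 < q ^ m * (K + 1) := by positivity
    apply Nat.eq_of_mul_eq_mul_right hp
    have e1 : q ^ (m + (k + 1)) + q ^ m = q ^ m * (K + 1) := by
      rw [pow_add, ← hK]
      ring
    rw [e1] at hr
    rw [hr]
    have e2 : q ^ m = q ^ s * K := by
      rw [hm, pow_add]
    have e3 : q ^ ((k + 1) ^ 2) = q ^ ((k + 1) * k) * K := by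
      rw [hK, ← pow_add]
      congr 1
      ring
    rw [e2, e3, pow_add q _ s]
    ring
  · have hsm' : s = m := le_antisymm hsm hge
    subst hsm'
    rw [main_alt_eq (plusForm_nondegenerate s) (exists_hF h) (card_plus s)
      (isTS_U₀ s) (finrank_U₀ s) x hxx halt' hq hsU] at hr
    rw [if_pos rfl]
    have hp : 0 < q ^ s := pow_pos hq0 _
    apply Nat.eq_of_mul_eq_mul_right hp
    rw [hr, Nat.sub_self]
    simp only [Finset.univ_eq_empty, Finset.prod_empty, pow_add]
    ring

end Cfsg.Agent.S2684
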