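import Cfsg.Statements.S2685
import Cfsg.Agent.Lib.Classical.InvCent.OPlus
import Cfsg.Agent.S2682

set_option autoImplicit false
open Cfsg

namespace Cfsg.Agent.S2685

open Cfsg.Agent.Lib.Classical.InvCent.OPlus Cfsg.Agent.Lib.Classical.Witt.InvolChar2
open Cfsg.Agent.Lib.Classical.Orth.Models Cfsg.Agent.Lib.Classical.Orth.Classes
open Module QuadraticMap

/-- For the hyperbolic form Q = Σ x_j y_j on F^(2m) over a finite field with q elements, q even (excluding m = 2 over the field of two elements), and an involution x of the orthogonal group with s = rank(x − 1) even and Q not vanishing on the image of x − 1 (f(v, xv) ≠ 0 for some v, where f(u, w) = Q(u + w) − Q(u) − Q(w) is the bilinear form of Q; type c_s, which lies in Ω): its centraliser in Ω (the commutator subgroup of the orthogonal group) has order q^(2m(s−1) − (3s² − 5s)/2 − 1) · |Sp_(s−2)(q)| · |Sp_(2m−2s)(q)|. -/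
theorem result {F : Type*} [Field F] [Fintype F] [CharP F 2] {q : ℕ} (hF : Fintype.card F = q) {m s : ℕ} (h : Fintype.card F ≠ 2 ∨ m ≠ 2) (x : ↥(Cfsg.isometryGroup F (Cfsg.quadFormPlus m F))) (hx : x ^ 2 = 1) (hs : (((x : Matrix.GeneralLinearGroup (Fin m ⊕ Fin m) F) : Matrix (Fin m ⊕ Fin m) (Fin m ⊕ Fin m) F) - 1).rank = s) (heven : Even s) (hna : ∃ v : Fin m ⊕ Fin m → F, Cfsg.quadFormPlus m F ((((x : Matrix.GeneralLinearGroup (Fin m ⊕ Fin m) F) : Matrix (Fin m ⊕ Fin m) (Fin m ⊕ Fin m) F) - 1).mulVec v) ≠ 0) : Nat.card {g : ↥(Cfsg.Omega F (Cfsg.quadFormPlus m F)) // (g : ↥(Cfsg.isometryGroup F (Cfsg.quadFormPlus m F))) * x = x * (g : ↥(Cfsg.isometryGroup F (Cfsg.quadFormPlus m F)))} = q ^ (2 * m * (s - 1) - (3 * s ^ 2 - 5 * s) / 2 - 1) * ((q : ℕ) ^ (((s - 2) / 2) ^ 2) * ∏ i : Fin ((s - 2) / 2), (q ^ (2 * ((i : ℕ) + 1)) - 1)) * ((q : ℕ) ^ ((m - s) ^ 2) * ∏ i : Fin (m - s), (q ^ (2 * ((i : ℕ) + 1)) - 1)) := by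
  classical
  revert x
  rw [← coe_plusForm m F]
  intro x hx hs hna
  have hq : Nat.card F = q := by rw [Nat.card_eq_fintype_card, hF]
  have hq0 : 0 < q := by
    rw [← hF]
    exact Fintype.card_pos
  have hxx : x * x = 1 := by rw [← pow_two]; exact hx
  obtain ⟨t, ht⟩ := exists_sp x
  have hsU : finrank F (LinearMap.range (nM x)) = s := hs
  have hsm : s ≤ m := hsU ▸ s_le_m hxx
  have hna' : ∃ y, plusForm m F (nM x y) ≠ 0 := hna
  have hs2 : 2 ≤ s := by
    obtain ⟨y, hy⟩ := hna'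
    have hne : s ≠ 0 := by
      intro h0
      rw [h0, Submodule.finrank_eq_zero] at hsU
      have h1 : nM x y ∈ LinearMap.range (nM x) := ⟨y, rfl⟩
      rw [hsU, Submodule.mem_bot] at h1
      apply hy
      rw [h1, map_zero]
    obtain ⟨k, hk⟩ := heven
    omega
  have hr := Cfsg.Agent.S2682.result hF t (sq_of_sp hxx ht) (by rw [ht]; exact hs) heven (by
    obtain ⟨y, hy⟩ := hna'
    exact ⟨y, by rwa [← Q_nM_eq hxx ht]⟩)
  rw [card_centralizer_eq x t ht, main_nonalt (plusForm_nondegenerate m) (exists_hF h) (card_plus m)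
    (isTS_U₀ m) (finrank_U₀ m) x hxx hna' hq hsU] at hr
  have hp : 0 < q ^ (2 * m - s) := pow_pos hq0 _
  apply Nat.eq_of_mul_eq_mul_right hp
  rw [hr, ← exp_c hsm hs2, pow_add]
  ring

end Cfsg.Agent.S2685
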