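import Cfsg.Statements.S2689
import Mathlib
import Cfsg.Agent.Lib.Linalg.AutPSLCount
-- import your own Cfsg.Agent.* helpers here

set_option autoImplicit false
open Cfsg

namespace Cfsg.Agent.S2689

/-- The automorphism group of a simple projective special linear group PSL_n(F) over a finite field (n ≥ 2; |F| ≥ 4 when n = 2) is generated by the automorphisms induced by invertible semilinear maps of F^n (the image of the projective semilinear group) together with the inverse-transpose automorphism. -/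
theorem result {F : Type*} [Field F] [Fintype F] {p f : ℕ} [Fact p.Prime] (hF : Fintype.card F = p ^ f) (hf : 1 ≤ f) {n : ℕ} (hn : 2 ≤ n) (hs : n = 2 → 4 ≤ Fintype.card F) :
    Cfsg.gammaPSL n F ⊔ Cfsg.autSubgroupOf (fun β : Matrix.ProjectiveSpecialLinearGroup (Fin n) F ≃* Matrix.ProjectiveSpecialLinearGroup (Fin n) F => Cfsg.IsInverseTransposeAutPSL β) = ⊤ := by
  rw [← Nat.card_eq_fintype_card] at hF
  rw [eq_top_iff]
  intro β _
  have hc : ∀ G : GL (Fin n) F, Cfsg.Agent.Lib.Linalg.AutPSLBasic.conjP G ∈ Cfsg.gammaPSL n F := by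
    intro G
    refine Subgroup.subset_closure ⟨G, RingEquiv.refl F, ?_⟩
    intro s s' h
    have h1 : s' = Cfsg.Agent.Lib.Linalg.AutPSLBasic.conjSL G s := by
      apply Subtype.ext
      rw [h, Cfsg.Agent.Lib.Linalg.AutPSLBasic.conjSL_coe]
      congr 2
    rw [h1]
    rfl
  have hd : ∀ σ : F ≃+* F, Cfsg.Agent.Lib.Linalg.AutPSLBasic.fieldP (n := n) σ ∈ Cfsg.gammaPSL n F := by
    intro σ
    refine Subgroup.subset_closure ⟨1, σ, ?_⟩
    intro s s' h
    have h1 : s' = Cfsg.Agent.Lib.Linalg.AutPSLBasic.fieldSL σ s := by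
      apply Subtype.ext
      rw [h, Cfsg.Agent.Lib.Linalg.AutPSLBasic.fieldSL_coe]
      simp
    rw [h1]
    rfl
  have hi : Cfsg.Agent.Lib.Linalg.AutPSLBasic.itP ∈ Cfsg.autSubgroupOf (fun β : Matrix.ProjectiveSpecialLinearGroup (Fin n) F ≃* Matrix.ProjectiveSpecialLinearGroup (Fin n) F => Cfsg.IsInverseTransposeAutPSL β) :=
    Subgroup.subset_closure Cfsg.Agent.Lib.Linalg.AutPSLBasic.isInverseTranspose_itP
  obtain ⟨G, σ, h | h⟩ := Cfsg.Agent.Lib.Linalg.AutPSLCount.exists_std_all hn hf hF β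
  · rw [h]
    exact Subgroup.mem_sup_left (Subgroup.mul_mem _ (hc G) (hd σ))
  · rw [h]
    exact Subgroup.mul_mem _ (Subgroup.mem_sup_left (Subgroup.mul_mem _ (hc G) (hd σ))) (Subgroup.mem_sup_right hi)

end Cfsg.Agent.S2689
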