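import Cfsg.Statements.S2707
import Mathlib
import Cfsg.Agent.Lib.Classical.Herm.GraphU

set_option autoImplicit false
open Cfsg

namespace Cfsg.Agent.S2707

/-- Let T = PSU_n(q) with n = 2m ≥ 4 even and q odd, realised over the field F with q² elements, and G = Inndiag(T) the image of PGU_n(q). The involutory graph automorphisms of T fall into exactly three G-classes, with representatives whose centralizers in G are isomorphic respectively to the projective conformal symplectic group PGSp_n(F₀), the projective conformal orthogonal group of the plus-type form Σ xᵢ yᵢ, and that of a minus-type form Σ xᵢ yᵢ + z₁² + a z₁ z₂ + b z₂² (anisotropic binary part) in dimension n, all over a field F₀ with q elements. -/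
theorem result {F : Type*} [Field F] [Fintype F] {q : ℕ} (hodd : Odd q) (hF : Fintype.card F = q ^ 2) {n m : ℕ} (hm : 2 ≤ m) (hnm : n = 2 * m) (F₀ : Type*) [Field F₀] [Fintype F₀] (hF₀ : Fintype.card F₀ = q) :
    ∃ (γ₁ γ₂ γ₃ : MulAut (Cfsg.PSU n F q)) (a b : F₀), (∀ z₁ z₂ : F₀, z₁ ^ 2 + a * z₁ * z₂ + b * z₂ ^ 2 = 0 → z₁ = 0 ∧ z₂ = 0) ∧ Cfsg.IsGraphAutClassPSU γ₁ ∧ orderOf γ₁ = 2 ∧ Cfsg.IsGraphAutClassPSU γ₂ ∧ orderOf γ₂ = 2 ∧ Cfsg.IsGraphAutClassPSU γ₃ ∧ orderOf γ₃ = 2 ∧ ¬ Cfsg.IsConjUnder (Cfsg.inndiagPSU n F q) γ₁ γ₂ ∧ ¬ Cfsg.IsConjUnder (Cfsg.inndiagPSU n F q) γ₁ γ₃ ∧ ¬ Cfsg.IsConjUnder (Cfsg.inndiagPSU n F q) γ₂ γ₃ ∧ (∀ γ : MulAut (Cfsg.PSU n F q), Cfsg.IsGraphAutClassPSU γ → orderOf γ = 2 → Cfsg.IsConjUnder (Cfsg.inndiagPSU n F q) γ₁ γ ∨ Cfsg.IsConjUnder (Cfsg.inndiagPSU n F q) γ₂ γ ∨ Cfsg.IsConjUnder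 (Cfsg.inndiagPSU n F q) γ₃ γ) ∧ Nonempty (↥(Cfsg.inndiagPSU n F q ⊓ Subgroup.centralizer {γ₁}) ≃* Cfsg.PGSp m F₀) ∧ Nonempty (↥(Cfsg.inndiagPSU n F q ⊓ Subgroup.centralizer {γ₂}) ≃* Cfsg.PGO F₀ (Cfsg.quadFormPlus m F₀)) ∧ Nonempty (↥(Cfsg.inndiagPSU n F q ⊓ Subgroup.centralizer {γ₃}) ≃* Cfsg.PGO F₀ (Cfsg.quadFormMinus (m - 1) F₀ a b)) := by
  classical
  open Cfsg.Agent.Lib.Classical.Herm.GraphU Cfsg.Agent.Lib.Classical.Herm.Basic in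
  have hq2 := two_le_q hF
  obtain ⟨p, k, hp, hc, hqk⟩ := exists_char_pow hF
  haveI : Fact p.Prime := ⟨hp⟩
  haveI := hc
  have hk : k ≠ 0 := by
    rintro rfl
    rw [pow_zero] at hqk
    omega
  have hpq : p ∣ q := by rw [hqk]; exact dvd_pow_self p hk
  obtain ⟨j, hE⟩ := exists_isFix (F₀ := F₀) hF hF₀
  have hn : 3 ≤ n := by omega
  have h32 : ¬ (n = 3 ∧ q = 2) := by omega
  have hodd' : Odd (Fintype.card F₀) := by rw [hF₀]; exact hodd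
  obtain ⟨γ₁, γ₂, γ₃, a, b, hab, hg₁, ho₁, hg₂, ho₂, hg₃, ho₃, h12, h13, h23, hall, hc₁, hc₂, hc₃⟩ :=
    Cfsg.Agent.Lib.Classical.GraphAut.Disc.classes_main (n := n) hodd' hm hnm
  obtain ⟨Γ₁, T₁, Hg₁, Ho₁⟩ := exists_tw_left hpq hE hn h32 hg₁ ho₁
  obtain ⟨Γ₂, T₂, Hg₂, Ho₂⟩ := exists_tw_left hpq hE hn h32 hg₂ ho₂
  obtain ⟨Γ₃, T₃, Hg₃, Ho₃⟩ := exists_tw_left hpq hE hn h32 hg₃ ho₃
  obtain ⟨e₁⟩ := Tw.cent hE hn h32 T₁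
  obtain ⟨e₂⟩ := Tw.cent hE hn h32 T₂
  obtain ⟨e₃⟩ := Tw.cent hE hn h32 T₃
  obtain ⟨f₁⟩ := hc₁
  obtain ⟨f₂⟩ := hc₂
  obtain ⟨f₃⟩ := hc₃
  refine ⟨Γ₁, Γ₂, Γ₃, a, b, hab, Hg₁, Ho₁, Hg₂, Ho₂, Hg₃, Ho₃, ?_, ?_, ?_, ?_, ⟨e₁.symm.trans f₁⟩, ⟨e₂.symm.trans f₂⟩,
    ⟨e₃.symm.trans f₃⟩⟩
  · rwa [← Tw.conj_iff hE hn h32 T₁ T₂]
  · rwa [← Tw.conj_iff hE hn h32 T₁ T₃]
  · rwa [← Tw.conj_iff hE hn h32 T₂ T₃]
  · intro γ hγ hγ2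
    obtain ⟨γ₀, T, hg, ho⟩ := exists_tw_right hpq hqk hE hn h32 hγ hγ2
    rcases hall γ₀ hg ho with h | h | h
    · exact Or.inl ((Tw.conj_iff hE hn h32 T₁ T).mp h)
    · exact Or.inr (Or.inl ((Tw.conj_iff hE hn h32 T₂ T).mp h))
    · exact Or.inr (Or.inr ((Tw.conj_iff hE hn h32 T₃ T).mp h))

end Cfsg.Agent.S2707
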