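import Cfsg.Statements.S2710
import Mathlib
import Cfsg.Agent.Lib.Classical.Herm.GraphU

set_option autoImplicit false
open Cfsg

namespace Cfsg.Agent.S2710

/-- Let T = PSU_n(q) with n ≥ 4 divisible by 4 (n = 2m) and q odd, realised over the field F with q² elements, G = Inndiag(T) the image of PGU_n(q), and φ the standard field automorphism of T attached to the q-th power map of F (it induces inverse-transpose on the unitary matrices and is a graph automorphism). Its centralizer in G is isomorphic to the projective conformal orthogonal group of the plus-type form Σ xᵢ yᵢ in dimension n over a field F₀ with q elements. (Dimensions n ≡ 2 (mod 4) are not covered.) -/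
theorem result {F : Type*} [Field F] [Fintype F] {q : ℕ} (hodd : Odd q) (hF : Fintype.card F = q ^ 2) {n m : ℕ} (hm : 2 ≤ m) (hnm : n = 2 * m) (h4 : 4 ∣ n) (F₀ : Type*) [Field F₀] [Fintype F₀] (hF₀ : Fintype.card F₀ = q) (σ : F ≃+* F) (hσ : ∀ a : F, σ a = a ^ q) (φ : MulAut (Cfsg.PSU n F q)) (hφ : Cfsg.IsFieldAutPSUOf σ φ) :
    Nonempty (↥(Cfsg.inndiagPSU n F q ⊓ Subgroup.centralizer {φ}) ≃* Cfsg.PGO F₀ (Cfsg.quadFormPlus m F₀)) := by
  classical
  open Cfsg.Agent.Lib.Classical.Herm.GraphU Cfsg.Agent.Lib.Classical.Herm.Basic Cfsg.Agent.Lib.Classical.Herm.Descent Cfsg.Agent.Lib.Classical.Herm.PSLGraphField Cfsg.Agent.Lib.Linalg.AutPSLStd in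
  have hσE : σ = sigE hF := by
    ext a
    rw [sigE_apply, hσ]
  subst hσE
  have hφ' := isFieldAut_iff _ φ hφ
  subst hφ'
  obtain ⟨j, hE⟩ := exists_isFix (F₀ := F₀) hF hF₀
  have hn : 3 ≤ n := by omega
  have h32 : ¬ (n = 3 ∧ q = 2) := by omega
  obtain ⟨e⟩ := Tw.cent hE hn h32 (tw_one (n := n) hE)
  have hodd' : Odd (Fintype.card F₀) := by rw [hF₀]; exact hodd
  obtain ⟨h1, -⟩ := Cfsg.Agent.Lib.Classical.GraphAut.Disc.it_main hodd' hm hnm _ Cfsg.Agent.Lib.Linalg.AutPSLBasic.isInverseTranspose_itP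
  obtain ⟨t, ht⟩ := h4
  have h2 : Even (n * (Fintype.card F₀ - 1) / 4) := by
    rw [ht, hF₀, mul_assoc, Nat.mul_div_cancel_left _ (by norm_num)]
    obtain ⟨r, hr⟩ := hodd
    exact Even.mul_left ⟨r, by omega⟩ _
  obtain ⟨e'⟩ := h1 h2
  exact ⟨e.symm.trans e'⟩

end Cfsg.Agent.S2710
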