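import Cfsg.Statements.S2713
import Cfsg.Agent.Lib.Classical.Symp.Aut.FieldClass

set_option autoImplicit false
open Cfsg

namespace Cfsg.Agent.S2713

/-- Let T = PSp_{2m}(F) be simple over a finite field (m ≥ 2, (2m, |F|) ≠ (4, 2)) and let x be a field automorphism of T of prime order r. Then an element y of the coset Inndiag(T)·x (y = δ x with δ in the image of the projective conformal symplectic group) has order r if and only if y is conjugate to x by an element of Inndiag(T). -/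
theorem result {F : Type*} [Field F] [Fintype F] {m : ℕ} (hm : 2 ≤ m) (hs : m = 2 → 3 ≤ Fintype.card F) (x δ : MulAut (Cfsg.PSp m F)) (hx : Cfsg.IsFieldAutClassPSp x) {r : ℕ} (hr : r.Prime) (hxr : orderOf x = r) (hδ : δ ∈ Cfsg.inndiagPSp m F) :
    orderOf (δ * x) = r ↔ Cfsg.IsConjUnder (Cfsg.inndiagPSp m F) x (δ * x) := by
  classical
  haveI : CharP F (ringChar F) := ringChar.charP F
  haveI : Fact (ringChar F).Prime := ⟨CharP.char_is_prime F _⟩
  obtain ⟨σ, c, g, hσ, hord, hxg, hc⟩ :=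
    Cfsg.Agent.Lib.Classical.Symp.Aut.FieldClass.field_class_main (ringChar F) hm hx hr hxr
  rw [Cfsg.Agent.Lib.Classical.Symp.Aut.Ind.inndiagPSp_eq] at hδ ⊢
  obtain ⟨d, rfl⟩ := hδ
  constructor
  · intro h
    have h1 : (Cfsg.Agent.Lib.Classical.Symp.Aut.Ind.dT (d * g) * Cfsg.Agent.Lib.Classical.Symp.Aut.Ind.fT σ : MulAut (Cfsg.PSp m F)) ^ orderOf σ = 1 := by
      rw [hord, ← h, map_mul, mul_assoc]
      change _ ^ orderOf (_ * _) = 1
      rw [hxg]
      exact pow_orderOf_eq_one _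
    obtain ⟨c', hc'⟩ := Cfsg.Agent.Lib.Classical.Symp.Aut.Frame.exists_conj hm σ (d * g) h1
    refine ⟨Cfsg.Agent.Lib.Classical.Symp.Aut.Ind.dT (c'⁻¹ * c), ⟨_, rfl⟩, ?_⟩
    have h2 : (Cfsg.Agent.Lib.Classical.Symp.Aut.Ind.dT : _ →* MulAut (Cfsg.PSp m F)) d * x =
        Cfsg.Agent.Lib.Classical.Symp.Aut.Ind.dT (d * g) * Cfsg.Agent.Lib.Classical.Symp.Aut.Ind.fT σ := by
      rw [hxg, map_mul, mul_assoc]
    change Cfsg.Agent.Lib.Classical.Symp.Aut.Ind.dT d * x = _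
    have h4 : (Cfsg.Agent.Lib.Classical.Symp.Aut.Ind.dT (c'⁻¹ * c) : MulAut (Cfsg.PSp m F)) =
        (Cfsg.Agent.Lib.Classical.Symp.Aut.Ind.dT c')⁻¹ * Cfsg.Agent.Lib.Classical.Symp.Aut.Ind.dT c := by
      rw [map_mul, map_inv]
    rw [h2, h4]
    replace hc' := hc'.trans hc.symm
    generalize (Cfsg.Agent.Lib.Classical.Symp.Aut.Ind.dT (d * g) * Cfsg.Agent.Lib.Classical.Symp.Aut.Ind.fT σ : MulAut (Cfsg.PSp m F)) = y at hc' ⊢
    generalize (Cfsg.Agent.Lib.Classical.Symp.Aut.Ind.dT c' : MulAut (Cfsg.PSp m F)) = a at hc' ⊢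
    generalize (Cfsg.Agent.Lib.Classical.Symp.Aut.Ind.dT c : MulAut (Cfsg.PSp m F)) = b at hc' ⊢
    calc y = a⁻¹ * (a * y * a⁻¹) * a := by group
      _ = a⁻¹ * (b * x * b⁻¹) * a := by rw [hc']
      _ = _ := by group
  · rintro ⟨_, ⟨k, rfl⟩, h⟩
    rw [h]
    change orderOf (MulAut.conj _ x) = r
    rw [(MulAut.conj _).orderOf_eq, hxr]

end Cfsg.Agent.S2713
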