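import Cfsg.Statements.S2716
import Mathlib
import Cfsg.Agent.Lib.Classical.OrthAut.MinusG
-- import your own Cfsg.Agent.* helpers here

set_option autoImplicit false
open Cfsg

namespace Cfsg.Agent.S2716

/-- Let T = PΩ⁻_{2m+2}(F) (m ≥ 3, |F| = p^f; the form Σ xᵢ yᵢ + z₁² + a z₁ z₂ + b z₂² with anisotropic binary part), G = Inndiag(T), and x a field automorphism of T of prime order r. Then r is odd and divides f; C_G(x) is isomorphic to Inndiag(PΩ⁻_{2m+2}(F₀)) for a field F₀ with p^(f/r) elements and some anisotropic binary part over F₀; and the G-class of x is a single T-class. -/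
theorem result {F : Type*} [Field F] [Fintype F] {p f : ℕ} [Fact p.Prime] (hF : Fintype.card F = p ^ f) (hf : 1 ≤ f) {m : ℕ} (hm : 3 ≤ m) (a b : F) (hab : (∀ z₁ z₂ : F, z₁ ^ 2 + a * z₁ * z₂ + b * z₂ ^ 2 = 0 → z₁ = 0 ∧ z₂ = 0)) (x : MulAut (Cfsg.POmega F (Cfsg.quadFormMinus m F a b))) (hx : Cfsg.IsFieldAutClassPOmegaMinus m x) {r : ℕ} (hr : r.Prime) (hxr : orderOf x = r) (F₀ : Type*) [Field F₀] [Fintype F₀] (hF₀ : Fintype.card F₀ = p ^ (f / r)) :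
    Odd r ∧ r ∣ f ∧ (∃ a₀ b₀ : F₀, (∀ z₁ z₂ : F₀, z₁ ^ 2 + a₀ * z₁ * z₂ + b₀ * z₂ ^ 2 = 0 → z₁ = 0 ∧ z₂ = 0) ∧ Nonempty (↥(Cfsg.inndiagPOmegaMinus m F a b ⊓ Subgroup.centralizer {x}) ≃* ↥(Cfsg.inndiagPOmegaMinus m F₀ a₀ b₀))) ∧ Cfsg.splitClassCount (Cfsg.inndiagPOmegaMinus m F a b) (Cfsg.Inn (Cfsg.POmega F (Cfsg.quadFormMinus m F a b))) x = 1 := by
  classical
  obtain ⟨a', b', ψ, σ, hab', hσ1, hσa, hσb, hφ⟩ := hx
  have hord : orderOf σ = r := by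
    have key : ∀ (x : MulAut (Cfsg.POmega F (⇑(Cfsg.Agent.Lib.Classical.Orth.Models.minusForm m F a b))))
        (ψ : Cfsg.POmega F (⇑(Cfsg.Agent.Lib.Classical.Orth.Models.minusForm m F a b)) ≃* Cfsg.POmega F (⇑(Cfsg.Agent.Lib.Classical.Orth.Models.minusForm m F a' b'))),
        Cfsg.IsFieldAutPOmegaOf (⇑(Cfsg.Agent.Lib.Classical.Orth.Models.minusForm m F a' b')) σ ((ψ.symm.trans x).trans ψ) → orderOf x = r → orderOf σ = r :=
      fun x ψ hφ hxr => Cfsg.Agent.Lib.Classical.OrthAut.MinusG.order_minus hm hab hab' hσ1 hσa hσb x ψ hφ hr hxr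
    rw [Cfsg.Agent.Lib.Classical.Orth.Models.coe_minusForm m F a b, Cfsg.Agent.Lib.Classical.Orth.Models.coe_minusForm m F a' b'] at key
    exact key x ψ hφ hxr
  obtain ⟨hrf, hN, hq⟩ := Cfsg.Agent.Lib.Classical.Herm.GLDescent.fix_card hF hf σ
  rw [hord] at hrf hN hq
  letI : Fintype (Cfsg.Agent.Lib.Classical.Herm.Descent.fixF σ) := Fintype.ofFinite _
  have hcardK : Fintype.card F₀ = Fintype.card (Cfsg.Agent.Lib.Classical.Herm.Descent.fixF σ) := by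
    rw [hF₀, ← hN, Nat.card_eq_fintype_card]
  let j₀ : F₀ ≃+* Cfsg.Agent.Lib.Classical.Herm.Descent.fixF σ := FiniteField.ringEquivOfCardEq hcardK
  let j : F₀ →+* F := (Cfsg.Agent.Lib.Classical.Herm.Descent.fixF σ).subtype.comp (j₀ : F₀ →+* Cfsg.Agent.Lib.Classical.Herm.Descent.fixF σ)
  have hfix : ∀ y, σ (j y) = j y := fun y => (j₀ y).2
  have hsurj : ∀ y, σ y = y → ∃ z, j z = y := by
    intro y hy
    refine ⟨j₀.symm ⟨y, hy⟩, ?_⟩
    change ((j₀ (j₀.symm ⟨y, hy⟩) : Cfsg.Agent.Lib.Classical.Herm.Descent.fixF σ) : F) = y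
    rw [RingEquiv.apply_symm_apply]
  have hc : Fintype.card F = Fintype.card F₀ ^ r := by
    rw [hF, hF₀]
    exact hq
  obtain ⟨a₀, rfl⟩ := hsurj a' hσa
  obtain ⟨b₀, rfl⟩ := hsurj b' hσb
  have hab₀ : ∀ z₁ z₂ : F₀, z₁ ^ 2 + a₀ * z₁ * z₂ + b₀ * z₂ ^ 2 = 0 → z₁ = 0 ∧ z₂ = 0 := by
    intro z₁ z₂ h
    have h1 := hab' (j z₁) (j z₂) (by
      have := congrArg j h
      simpa using this)
    exact ⟨j.injective (by rw [h1.1, map_zero]), j.injective (by rw [h1.2, map_zero])⟩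
  have hodd : Odd r := by
    apply hr.odd_of_ne_two
    rintro rfl
    obtain ⟨z, hz⟩ := Cfsg.Agent.Lib.Classical.OrthAut.MinusA.exists_root_quad j hc a₀ b₀
    have := (hab' z 1 (by linear_combination hz)).2
    exact one_ne_zero this
  have key : ∀ (x : MulAut (Cfsg.POmega F (⇑(Cfsg.Agent.Lib.Classical.Orth.Models.minusForm m F a b))))
      (ψ : Cfsg.POmega F (⇑(Cfsg.Agent.Lib.Classical.Orth.Models.minusForm m F a b)) ≃* Cfsg.POmega F (⇑(Cfsg.Agent.Lib.Classical.Orth.Models.minusForm m F (j a₀) (j b₀)))),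
      Cfsg.IsFieldAutPOmegaOf (⇑(Cfsg.Agent.Lib.Classical.Orth.Models.minusForm m F (j a₀) (j b₀))) σ ((ψ.symm.trans x).trans ψ) → orderOf x = r →
      Nonempty (↥(Cfsg.Agent.Lib.Classical.OrthAut.MinusD.inndiagOf m a b (⇑(Cfsg.Agent.Lib.Classical.Orth.Models.minusForm m F a b)) ⊓ Subgroup.centralizer {x}) ≃*
        ↥(Cfsg.Agent.Lib.Classical.OrthAut.MinusD.inndiagOf m a₀ b₀ (⇑(Cfsg.Agent.Lib.Classical.Orth.Models.minusForm m F₀ a₀ b₀)))) ∧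
      Cfsg.splitClassCount (Cfsg.Agent.Lib.Classical.OrthAut.MinusD.inndiagOf m a b (⇑(Cfsg.Agent.Lib.Classical.Orth.Models.minusForm m F a b)))
        (Cfsg.Inn (Cfsg.POmega F (⇑(Cfsg.Agent.Lib.Classical.Orth.Models.minusForm m F a b)))) x = 1 :=
    fun x ψ hφ hxr => Cfsg.Agent.Lib.Classical.OrthAut.MinusG.main_rat hm hab hab₀ hab' hfix hsurj
      (Cfsg.Agent.Lib.Classical.OrthAut.MinusF.minus_inv hσa hσb) hσ1 x ψ hφ hr hodd hc hxr
  rw [Cfsg.Agent.Lib.Classical.Orth.Models.coe_minusForm m F a b, Cfsg.Agent.Lib.Classical.Orth.Models.coe_minusForm m F (j a₀) (j b₀),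
    Cfsg.Agent.Lib.Classical.Orth.Models.coe_minusForm m F₀ a₀ b₀] at key
  obtain ⟨h1, h2⟩ := key x ψ hφ hxr
  exact ⟨hodd, hrf, ⟨a₀, b₀, hab₀, h1⟩, h2⟩

end Cfsg.Agent.S2716
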