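import Cfsg.Statements.S2718
import Mathlib
import Cfsg.Agent.Lib.Classical.OrthAut.GrB
-- import your own Cfsg.Agent.* helpers here

set_option autoImplicit false
open Cfsg

namespace Cfsg.Agent.S2718

/-- Let T = PΩ⁺_{2m}(F) with m ≥ 4 and |F| = q odd, G = Inndiag(T), and γ an involutory graph automorphism of T induced by a similarity (one interchanging the two classes of maximal totally singular subspaces). Then the G-class of γ is either a single T-class or the union of exactly two T-classes, and it is the union of two unless m is odd and q ≡ 3 (mod 4). -/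
theorem result {F : Type*} [Field F] [Fintype F] (hodd : Odd (Fintype.card F)) {m : ℕ} (hm : 4 ≤ m) (γ : MulAut (Cfsg.POmega F (Cfsg.quadFormPlus m F))) (hγ : Cfsg.IsSimilarityGraphAutPOmegaPlus m γ) (hγ2 : orderOf γ = 2) :
    (Cfsg.splitClassCount (Cfsg.inndiagPOmegaPlus m F) (Cfsg.Inn (Cfsg.POmega F (Cfsg.quadFormPlus m F))) γ = 1 ∨ Cfsg.splitClassCount (Cfsg.inndiagPOmegaPlus m F) (Cfsg.Inn (Cfsg.POmega F (Cfsg.quadFormPlus m F))) γ = 2) ∧ (¬ (Odd m ∧ Fintype.card F % 4 = 3) → Cfsg.splitClassCount (Cfsg.inndiagPOmegaPlus m F) (Cfsg.Inn (Cfsg.POmega F (Cfsg.quadFormPlus m F))) γ = 2) := by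
  have key : ∀ (q : (Fin m ⊕ Fin m → F) → F) (_ : ⇑(Cfsg.Agent.Lib.Classical.Orth.Models.plusForm m F) = q) (γ : MulAut (Cfsg.POmega F q)),
      (∃ g : GL (Fin m ⊕ Fin m) F, g ∈ Cfsg.Geo.quadSimilarityGroup (F := F) q ∧
        ¬ Cfsg.PreservesSingularClasses q (g : Matrix (Fin m ⊕ Fin m) (Fin m ⊕ Fin m) F) ∧
        Cfsg.IsInducedBySemilinearPOmega q g (RingEquiv.refl F) γ) → orderOf γ = 2 →
      (Cfsg.splitClassCount (Cfsg.Agent.Lib.Classical.OrthAut.Par.inndiagOf q) (Cfsg.Inn (Cfsg.POmega F q)) γ = 1 ∨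
        Cfsg.splitClassCount (Cfsg.Agent.Lib.Classical.OrthAut.Par.inndiagOf q) (Cfsg.Inn (Cfsg.POmega F q)) γ = 2) ∧
      (¬ (Odd m ∧ Fintype.card F % 4 = 3) →
        Cfsg.splitClassCount (Cfsg.Agent.Lib.Classical.OrthAut.Par.inndiagOf q) (Cfsg.Inn (Cfsg.POmega F q)) γ = 2) := by
    rintro _ rfl γ ⟨g, hgs, hnp, hi⟩ hord
    rw [Cfsg.Agent.Lib.Classical.OrthAut.Par.inndiag_plus]
    have h1 := Cfsg.Agent.Lib.Classical.Orth.SimAut.eq_simHom_of_induced _ hgs hi
    subst h1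
    exact Cfsg.Agent.Lib.Classical.OrthAut.GrB.plus_main hodd hm _ hnp hord
  exact key _ (Cfsg.Agent.Lib.Classical.Orth.Models.coe_plusForm m F) γ hγ hγ2

end Cfsg.Agent.S2718
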