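import Cfsg.Statements.S2720
import Mathlib
import Cfsg.Agent.Lib.Classical.Herm.FusMain
import Cfsg.Agent.Lib.Classical.Orth.SimAut4

set_option autoImplicit false
open Cfsg

namespace Cfsg.Agent.S2720

/-- Let T = PΩ⁺_{2m}(F) (m ≥ 4, F finite of odd characteristic p), G = Inndiag(T), and let x be an automorphism of T induced by a similarity of the form (an element of the image G̃ of the conformal orthogonal group) of odd prime order r ≠ p. Then the T-class, the PSO-class and the G-class of x coincide (conjugacy under inner automorphisms, under the image of the special orthogonal group, and under G), and the PO-class of x coincides with its G̃-class. (In characteristic 2 the first equality fails: there the special orthogonal group is the full orthogonal group and some such classes split.) -/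
theorem result {F : Type*} [Field F] [Fintype F] {p : ℕ} [Fact p.Prime] [CharP F p] (hp : p ≠ 2) {m : ℕ} (hm : 4 ≤ m) (x : MulAut (Cfsg.POmega F (Cfsg.quadFormPlus m F))) (hx : x ∈ Cfsg.pgoAut F (Cfsg.quadFormPlus m F)) {r : ℕ} (hr : r.Prime) (hro : Odd r) (hrp : r ≠ p) (hxr : orderOf x = r) :
    (∀ y : MulAut (Cfsg.POmega F (Cfsg.quadFormPlus m F)), (Cfsg.IsConjUnder (Cfsg.Inn (Cfsg.POmega F (Cfsg.quadFormPlus m F))) x y ↔ Cfsg.IsConjUnder (Cfsg.inndiagPOmegaPlus m F) x y) ∧ (Cfsg.IsConjUnder (Cfsg.psoAut F (Cfsg.quadFormPlus m F)) x y ↔ Cfsg.IsConjUnder (Cfsg.inndiagPOmegaPlus m F) x y)) ∧ (∀ y : MulAut (Cfsg.POmega F (Cfsg.quadFormPlus m F)), Cfsg.IsConjUnder (Cfsg.poAut F (Cfsg.quadFormPlus m F)) x y ↔ Cfsg.IsConjUnder (Cfsg.pgoAut F (Cfsg.quadFormPlus m F)) x y) := by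
  have h2 : (2 : F) ≠ 0 := by
    intro h
    have h1 : ((2 : ℕ) : F) = 0 := by exact_mod_cast h
    rw [CharP.cast_eq_zero_iff F p 2] at h1
    exact hp ((Nat.prime_dvd_prime_iff_eq (Fact.out) Nat.prime_two).1 h1)
  have hr0 : (r : F) ≠ 0 := by
    intro h
    rw [CharP.cast_eq_zero_iff F p r] at h
    exact hrp ((Nat.prime_dvd_prime_iff_eq (Fact.out) hr).1 h).symm
  obtain ⟨D⟩ := Cfsg.Agent.Lib.Classical.Orth.SimAutModels.plusData_exists h2 (show 3 ≤ m by omega)
  have key : ∀ (q : (Fin m ⊕ Fin m → F) → F) (_ : ⇑(Cfsg.Agent.Lib.Classical.Orth.Models.plusForm m F) = q)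
      (x : MulAut (Cfsg.POmega F q)) (_ : x ∈ Cfsg.pgoAut F q) (_ : orderOf x = r),
      (∀ y : MulAut (Cfsg.POmega F q),
        (Cfsg.IsConjUnder (Cfsg.Inn (Cfsg.POmega F q)) x y ↔ Cfsg.IsConjUnder (Cfsg.autSubgroupOf (fun β : Cfsg.POmega F q ≃* Cfsg.POmega F q =>
          ∃ g : GL (Fin m ⊕ Fin m) F, g ∈ Cfsg.Geo.quadSimilarityGroup (F := F) q ∧
            Cfsg.PreservesSingularClasses q (g : Matrix (Fin m ⊕ Fin m) (Fin m ⊕ Fin m) F) ∧
            Cfsg.IsInducedBySemilinearPOmega q g (RingEquiv.refl F) β)) x y) ∧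
        (Cfsg.IsConjUnder (Cfsg.psoAut F q) x y ↔ Cfsg.IsConjUnder (Cfsg.autSubgroupOf (fun β : Cfsg.POmega F q ≃* Cfsg.POmega F q =>
          ∃ g : GL (Fin m ⊕ Fin m) F, g ∈ Cfsg.Geo.quadSimilarityGroup (F := F) q ∧
            Cfsg.PreservesSingularClasses q (g : Matrix (Fin m ⊕ Fin m) (Fin m ⊕ Fin m) F) ∧
            Cfsg.IsInducedBySemilinearPOmega q g (RingEquiv.refl F) β)) x y)) ∧
      (∀ y : MulAut (Cfsg.POmega F q), Cfsg.IsConjUnder (Cfsg.poAut F q) x y ↔ Cfsg.IsConjUnder (Cfsg.pgoAut F q) x y) := by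
    rintro _ rfl x hx hxr
    rw [Cfsg.Agent.Lib.Classical.Orth.SimAut4.Data.autSubgroup_eq D (fun g => Cfsg.PreservesSingularClasses (⇑(Cfsg.Agent.Lib.Classical.Orth.Models.plusForm m F)) g)
      (Cfsg.Agent.Lib.Classical.Orth.SimAut4.plus_pres_iff h2 m)]
    exact Cfsg.Agent.Lib.Classical.Herm.FusMain.fusion D hx hr hro hr0 hxr
  exact key _ (Cfsg.Agent.Lib.Classical.Orth.Models.coe_plusForm m F) x hx hxr

end Cfsg.Agent.S2720
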