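import Cfsg.Statements.S2721
import Mathlib
import Cfsg.Agent.Lib.Classical.Herm.FusMain
import Cfsg.Agent.Lib.Classical.Orth.SimAut4

set_option autoImplicit false
open Cfsg

namespace Cfsg.Agent.S2721

/-- Let T = PΩ⁻_{2m+2}(F) (m ≥ 3, F finite of odd characteristic p), G = Inndiag(T), and let x be an automorphism of T induced by a similarity of the form (an element of the image G̃ of the conformal orthogonal group) of odd prime order r ≠ p. Then the T-class, the PSO-class and the G-class of x coincide (conjugacy under inner automorphisms, under the image of the special orthogonal group, and under G), and the PO-class of x coincides with its G̃-class. (In characteristic 2 the first equality fails: there the special orthogonal group is the full orthogonal group and some such classes split.) -/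
theorem result {F : Type*} [Field F] [Fintype F] {p : ℕ} [Fact p.Prime] [CharP F p] (hp : p ≠ 2) {m : ℕ} (hm : 3 ≤ m) (a b : F) (hab : (∀ z₁ z₂ : F, z₁ ^ 2 + a * z₁ * z₂ + b * z₂ ^ 2 = 0 → z₁ = 0 ∧ z₂ = 0)) (x : MulAut (Cfsg.POmega F (Cfsg.quadFormMinus m F a b))) (hx : x ∈ Cfsg.pgoAut F (Cfsg.quadFormMinus m F a b)) {r : ℕ} (hr : r.Prime) (hro : Odd r) (hrp : r ≠ p) (hxr : orderOf x = r) :
    (∀ y : MulAut (Cfsg.POmega F (Cfsg.quadFormMinus m F a b)), (Cfsg.IsConjUnder (Cfsg.Inn (Cfsg.POmega F (Cfsg.quadFormMinus m F a b))) x y ↔ Cfsg.IsConjUnder (Cfsg.inndiagPOmegaMinus m F a b) x y) ∧ (Cfsg.IsConjUnder (Cfsg.psoAut F (Cfsg.quadFormMinus m F a b)) x y ↔ Cfsg.IsConjUnder (Cfsg.inndiagPOmegaMinus m F a b) x y)) ∧ (∀ y : MulAut (Cfsg.POmega F (Cfsg.quadFormMinus m F a b)), Cfsg.IsConjUnder (Cfsg.poAut F (Cfsg.quadFormMinus m F a b)) x y ↔ Cfsg.IsConjUnder (Cfsg.pgoAut F (Cfsg.quadFormMinus m F a b)) x y) := by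
  have h2 : (2 : F) ≠ 0 := by
    intro h
    have h1 : ((2 : ℕ) : F) = 0 := by exact_mod_cast h
    rw [CharP.cast_eq_zero_iff F p 2] at h1
    exact hp ((Nat.prime_dvd_prime_iff_eq (Fact.out) Nat.prime_two).1 h1)
  have hr0 : (r : F) ≠ 0 := by
    intro h
    rw [CharP.cast_eq_zero_iff F p r] at h
    exact hrp ((Nat.prime_dvd_prime_iff_eq (Fact.out) hr).1 h).symm
  obtain ⟨D⟩ := Cfsg.Agent.Lib.Classical.Orth.SimAutModels.minusData_exists h2 (show 2 ≤ m by omega) a b hab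
  have key : ∀ (q : ((Fin m ⊕ Fin m) ⊕ Fin 2 → F) → F) (_ : ⇑(Cfsg.Agent.Lib.Classical.Orth.Models.minusForm m F a b) = q)
      (x : MulAut (Cfsg.POmega F q)) (_ : x ∈ Cfsg.pgoAut F q) (_ : orderOf x = r),
      (∀ y : MulAut (Cfsg.POmega F q),
        (Cfsg.IsConjUnder (Cfsg.Inn (Cfsg.POmega F q)) x y ↔ Cfsg.IsConjUnder (Cfsg.autSubgroupOf (fun β : Cfsg.POmega F q ≃* Cfsg.POmega F q =>
          ∃ g : GL ((Fin m ⊕ Fin m) ⊕ Fin 2) F, g ∈ Cfsg.Geo.quadSimilarityGroup (F := F) q ∧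
            Cfsg.PreservesSingularClassesMinus m a b (g : Matrix ((Fin m ⊕ Fin m) ⊕ Fin 2) ((Fin m ⊕ Fin m) ⊕ Fin 2) F) ∧
            Cfsg.IsInducedBySemilinearPOmega q g (RingEquiv.refl F) β)) x y) ∧
        (Cfsg.IsConjUnder (Cfsg.psoAut F q) x y ↔ Cfsg.IsConjUnder (Cfsg.autSubgroupOf (fun β : Cfsg.POmega F q ≃* Cfsg.POmega F q =>
          ∃ g : GL ((Fin m ⊕ Fin m) ⊕ Fin 2) F, g ∈ Cfsg.Geo.quadSimilarityGroup (F := F) q ∧
            Cfsg.PreservesSingularClassesMinus m a b (g : Matrix ((Fin m ⊕ Fin m) ⊕ Fin 2) ((Fin m ⊕ Fin m) ⊕ Fin 2) F) ∧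
            Cfsg.IsInducedBySemilinearPOmega q g (RingEquiv.refl F) β)) x y)) ∧
      (∀ y : MulAut (Cfsg.POmega F q), Cfsg.IsConjUnder (Cfsg.poAut F q) x y ↔ Cfsg.IsConjUnder (Cfsg.pgoAut F q) x y) := by
    rintro _ rfl x hx hxr
    rw [Cfsg.Agent.Lib.Classical.Orth.SimAut4.Data.autSubgroup_eq D (fun g => Cfsg.PreservesSingularClassesMinus m a b g)
      (Cfsg.Agent.Lib.Classical.Orth.SimAut4.minus_pres_iff h2 m a b hab)]
    exact Cfsg.Agent.Lib.Classical.Herm.FusMain.fusion D hx hr hro hr0 hxr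
  exact key _ (Cfsg.Agent.Lib.Classical.Orth.Models.coe_minusForm m F a b) x hx hxr

end Cfsg.Agent.S2721
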