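import Cfsg.Statements.S2725
import Mathlib
import Cfsg.Agent.Lib.Classical.Orth.SimAut4
-- import your own Cfsg.Agent.* helpers here

set_option autoImplicit false
open Cfsg

namespace Cfsg.Agent.S2725

set_option maxHeartbeats 4000000

/-- Let T = PΩ⁺_{2m}(F) with m ≥ 4 and |F| = q odd. The inner-diagonal group G = Inndiag(T) (image of the class-preserving similarities) taken modulo the inner automorphism group T is cyclic of order 2 when m is odd and q ≡ 3 (mod 4), cyclic of order 4 when m is odd and q ≡ 1 (mod 4), and elementary abelian of order 4 when m is even. -/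
theorem result {F : Type*} [Field F] [Fintype F] (hodd : Odd (Fintype.card F)) {m : ℕ} (hm : 4 ≤ m) :
    ((Odd m ∧ Fintype.card F % 4 = 3) → (∃ φ : ↥(Cfsg.inndiagPOmegaPlus m F) →* Multiplicative (ZMod 2), Function.Surjective φ ∧ φ.ker = (Cfsg.Inn (Cfsg.POmega F (Cfsg.quadFormPlus m F))).subgroupOf (Cfsg.inndiagPOmegaPlus m F))) ∧ ((Odd m ∧ Fintype.card F % 4 = 1) → (∃ φ : ↥(Cfsg.inndiagPOmegaPlus m F) →* Multiplicative (ZMod 4), Function.Surjective φ ∧ φ.ker = (Cfsg.Inn (Cfsg.POmega F (Cfsg.quadFormPlus m F))).subgroupOf (Cfsg.inndiagPOmegaPlus m F))) ∧ (Even m → (∃ φ : ↥(Cfsg.inndiagPOmegaPlus m F) →* Multiplicative (ZMod 2 × ZMod 2), Function.Surjective φ ∧ φ.ker = (Cfsg.Inn (Cfsg.POmega F (Cfsg.quadFormPlus m F))).subgroupOf (Cfsg.inndiagPOmegaPlus m F))) := by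
  have h2 := Cfsg.Agent.Lib.Classical.Orth.NegPairs.odd_two_ne_zero (F := F) rfl hodd
  obtain ⟨D⟩ := Cfsg.Agent.Lib.Classical.Orth.SimAutModels.plusData_exists h2 (show 3 ≤ m by omega)
  have hn := Cfsg.Agent.Lib.Classical.Orth.SimAutModels.plus_negO (F := F) hodd m
  have hind : Cfsg.inndiagPOmegaPlus m F = Cfsg.autSubgroupOf (fun β : Cfsg.POmega F (Cfsg.quadFormPlus m F) ≃* Cfsg.POmega F (Cfsg.quadFormPlus m F) =>
      ∃ g : GL (Fin m ⊕ Fin m) F, g ∈ Cfsg.Geo.quadSimilarityGroup (F := F) (Cfsg.quadFormPlus m F) ∧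
        Cfsg.PreservesSingularClasses (Cfsg.quadFormPlus m F) (g : Matrix (Fin m ⊕ Fin m) (Fin m ⊕ Fin m) F) ∧
        Cfsg.IsInducedBySemilinearPOmega (Cfsg.quadFormPlus m F) g (RingEquiv.refl F) β) := rfl
  rw [hind, ← Cfsg.Agent.Lib.Classical.Orth.Models.coe_plusForm m F]
  rw [Cfsg.Agent.Lib.Classical.Orth.SimAut4.Data.autSubgroup_eq D (fun g => Cfsg.PreservesSingularClasses (⇑(Cfsg.Agent.Lib.Classical.Orth.Models.plusForm m F)) g)
    (Cfsg.Agent.Lib.Classical.Orth.SimAut4.plus_pres_iff h2 m)]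
  refine ⟨fun h => ?_, fun h => ?_, fun h => ?_⟩
  · exact D.inndiag_of_not (fun h1 => hn.1 h1 h)
  · exact D.inndiag_of_mem_odd (hn.2 (by rintro ⟨_, h3⟩; omega)) (Nat.not_even_iff_odd.2 h.1)
  · exact D.inndiag_of_mem_even (hn.2 (fun h3 => (Nat.not_even_iff_odd.2 h3.1) h)) h

end Cfsg.Agent.S2725
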