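import Cfsg.Statements.S2726
import Mathlib
import Cfsg.Agent.Lib.Classical.Orth.SimAutModels
-- import your own Cfsg.Agent.* helpers here

set_option autoImplicit false
open Cfsg

namespace Cfsg.Agent.S2726

/-- Let T = PΩ⁻_{2m+2}(F) with m ≥ 3 and |F| = q odd (form with anisotropic binary part). Inside Aut(T), the image G̃ of the conformal orthogonal group of the form modulo the image of the special orthogonal group is elementary abelian of order 4. -/
theorem result {F : Type*} [Field F] [Fintype F] (hodd : Odd (Fintype.card F)) {m : ℕ} (hm : 3 ≤ m) (a b : F) (hab : (∀ z₁ z₂ : F, z₁ ^ 2 + a * z₁ * z₂ + b * z₂ ^ 2 = 0 → z₁ = 0 ∧ z₂ = 0)) :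
    (∃ φ : ↥(Cfsg.pgoAut F (Cfsg.quadFormMinus m F a b)) →* Multiplicative (ZMod 2 × ZMod 2), Function.Surjective φ ∧ φ.ker = (Cfsg.psoAut F (Cfsg.quadFormMinus m F a b)).subgroupOf (Cfsg.pgoAut F (Cfsg.quadFormMinus m F a b))) := by
  have h2 := Cfsg.Agent.Lib.Classical.Orth.NegPairs.odd_two_ne_zero (F := F) rfl hodd
  obtain ⟨D⟩ := Cfsg.Agent.Lib.Classical.Orth.SimAutModels.minusData_exists h2 (show 2 ≤ m by omega) a b hab
  rw [← Cfsg.Agent.Lib.Classical.Orth.Models.coe_minusForm m F a b]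
  exact D.pgo_pso

end Cfsg.Agent.S2726
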