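import Cfsg.Statements.S2729
import Mathlib
import Cfsg.Agent.Lib.Classical.Orth.SimAut4
-- import your own Cfsg.Agent.* helpers here

set_option autoImplicit false
open Cfsg

namespace Cfsg.Agent.S2729

set_option maxHeartbeats 4000000

/-- Let T = PΩ⁻_{2m+2}(F) with m ≥ 3 and |F| = q odd (form with anisotropic binary part). The inner-diagonal group G = Inndiag(T) (image of the class-preserving similarities) taken modulo the inner automorphism group T is cyclic of order 4 when m is even and q ≡ 3 (mod 4), and of order 2 otherwise. -/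
theorem result {F : Type*} [Field F] [Fintype F] (hodd : Odd (Fintype.card F)) {m : ℕ} (hm : 3 ≤ m) (a b : F) (hab : (∀ z₁ z₂ : F, z₁ ^ 2 + a * z₁ * z₂ + b * z₂ ^ 2 = 0 → z₁ = 0 ∧ z₂ = 0)) :
    ((Even m ∧ Fintype.card F % 4 = 3) → (∃ φ : ↥(Cfsg.inndiagPOmegaMinus m F a b) →* Multiplicative (ZMod 4), Function.Surjective φ ∧ φ.ker = (Cfsg.Inn (Cfsg.POmega F (Cfsg.quadFormMinus m F a b))).subgroupOf (Cfsg.inndiagPOmegaMinus m F a b))) ∧ (¬ (Even m ∧ Fintype.card F % 4 = 3) → (∃ φ : ↥(Cfsg.inndiagPOmegaMinus m F a b) →* Multiplicative (ZMod 2), Function.Surjective φ ∧ φ.ker = (Cfsg.Inn (Cfsg.POmega F (Cfsg.quadFormMinus m F a b))).subgroupOf (Cfsg.inndiagPOmegaMinus m F a b))) := by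
  have h2 := Cfsg.Agent.Lib.Classical.Orth.NegPairs.odd_two_ne_zero (F := F) rfl hodd
  obtain ⟨D⟩ := Cfsg.Agent.Lib.Classical.Orth.SimAutModels.minusData_exists h2 (show 2 ≤ m by omega) a b hab
  have hn := Cfsg.Agent.Lib.Classical.Orth.SimAutModels.minus_negO (F := F) hodd m a b hab
  have hind : Cfsg.inndiagPOmegaMinus m F a b = Cfsg.autSubgroupOf (fun β : Cfsg.POmega F (Cfsg.quadFormMinus m F a b) ≃* Cfsg.POmega F (Cfsg.quadFormMinus m F a b) =>
      ∃ g : GL ((Fin m ⊕ Fin m) ⊕ Fin 2) F, g ∈ Cfsg.Geo.quadSimilarityGroup (F := F) (Cfsg.quadFormMinus m F a b) ∧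
        Cfsg.PreservesSingularClassesMinus m a b (g : Matrix ((Fin m ⊕ Fin m) ⊕ Fin 2) ((Fin m ⊕ Fin m) ⊕ Fin 2) F) ∧
        Cfsg.IsInducedBySemilinearPOmega (Cfsg.quadFormMinus m F a b) g (RingEquiv.refl F) β) := rfl
  rw [hind, ← Cfsg.Agent.Lib.Classical.Orth.Models.coe_minusForm m F a b]
  rw [Cfsg.Agent.Lib.Classical.Orth.SimAut4.Data.autSubgroup_eq D (Cfsg.PreservesSingularClassesMinus m a b)
    (Cfsg.Agent.Lib.Classical.Orth.SimAut4.minus_pres_iff h2 m a b hab)]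
  constructor
  · intro h
    exact D.inndiag_of_mem_odd (hn.2 h) (fun h3 => (Nat.even_add_one.1 h3) h.1)
  · intro h
    exact D.inndiag_of_not (fun h1 => h (hn.1 h1))

end Cfsg.Agent.S2729
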