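import Cfsg.Statements.S2734
import Cfsg.Agent.Lib.ChevBN.GraphFixD4
import Cfsg.Agent.Lib.Chevalley.Graph.Class

set_option autoImplicit false
open Cfsg Cfsg.Lie

namespace Cfsg.Agent.S2734

/-- In the Chevalley group of type D₄ over a finite field F (the matrix group generated by the root elements), a graph automorphism attached to a symmetry π of the Dynkin diagram (sending each fundamental root element x_p(t) to x_{π(p)}(t) and each x_{−p}(t) to x_{−π(p)}(t)) that has order 3 — a standard triality graph automorphism, π being a 3-cycle of the three outer nodes — has fixed-point subgroup isomorphic to the Chevalley group of type G₂ over F. -/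
theorem result {F : Type*} [Field F] [Fintype F] (τ : MulAut ↥(Cfsg.Lie.chevD4.group F)) (hτ : Cfsg.Lie.chevD4.IsGraphAut τ) (hτ3 : orderOf τ = 3) :
    Nonempty (↥(MonoidHom.eqLocus τ.toMonoidHom (MonoidHom.id ↥(Cfsg.Lie.chevD4.group F))) ≃* ↥(Cfsg.Lie.chevG2.group F)) := by
  classical
  obtain ⟨π, hπ, hφ⟩ := hτ
  have hlong : ∀ j < chevD4.rank, chevD4.isLong (chevD4.simple j) = false := by decide +kernel
  have hexp : ∀ i j : Fin chevD4.rank, chevD4.graphExp (ringChar F) i j = 1 := by
    intro i j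
    rw [Cfsg.Lie.ChevalleyDatum.graphExp, hlong j j.2]
    simp
  have hφ' : ∀ (g : ↥(chevD4.group F)) (i : Fin chevD4.rank) (t : F),
      (((g : GL chevD4.Idx F) : Matrix chevD4.Idx chevD4.Idx F) = chevD4.x F (chevD4.simple i) t →
        ((τ g : GL chevD4.Idx F) : Matrix chevD4.Idx chevD4.Idx F) = chevD4.x F (chevD4.simple (π i)) t) ∧
      (((g : GL chevD4.Idx F) : Matrix chevD4.Idx chevD4.Idx F) = chevD4.x F (chevD4.neg (chevD4.simple i)) t →
        ((τ g : GL chevD4.Idx F) : Matrix chevD4.Idx chevD4.Idx F) = chevD4.x F (chevD4.neg (chevD4.simple (π i))) t) := by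
    intro g i t
    have h := hφ g i t
    rw [hexp, pow_one] at h
    exact h
  have hsys := Cfsg.Agent.Lib.Chevalley.Tbl.D4.sys (F := F)
  have htb := Cfsg.Agent.Lib.ChevBN.FastData.tbl_chevD4
  have hC : ∀ g, g ∈ MonoidHom.eqLocus τ.toMonoidHom (MonoidHom.id ↥(Cfsg.Lie.chevD4.group F)) ↔ τ g = g :=
    fun g => Iff.rfl
  obtain ⟨l, hl, hlπ⟩ := Cfsg.Agent.Lib.Chevalley.Graph.class_D4 π hπ
  have hno2 : τ * τ ≠ 1 := by
    intro h
    have h2 : τ ^ 2 = 1 := by rw [pow_two, h]
    have := orderOf_dvd_of_pow_eq_one h2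
    rw [hτ3] at this
    omega
  have hinv : (∀ i : Fin 4, (π i).val = l.getD i.val 0) → (∀ i : Fin 4, l.getD (l.getD i.val 0) 0 = i.val) → τ * τ = 1 := by
    intro h1 h2
    refine Cfsg.Agent.Lib.ChevBN.GraphFixChk.graph_sq hsys htb τ π hφ' fun i => ?_
    apply Fin.ext
    have e1 : (π (π i)).val = l.getD (π i).val 0 := h1 (π i)
    rw [e1, h1 i]
    exact h2 i
  rcases hl with rfl | rfl | rfl | rfl | rfl | rfl
  · exfalso
    have h1 : τ = 1 := by
      refine Cfsg.Agent.Lib.ChevBN.GraphFixChk.graph_one hsys htb τ π hφ' fun i => ?_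
      apply Fin.ext
      have key : ∀ i : Fin 4, ([0, 1, 2, 3] : List ℕ).getD i.val 0 = i.val := by decide
      exact (hlπ i).trans (key i)
    rw [h1, orderOf_one] at hτ3
    omega
  · exact Cfsg.Agent.Lib.ChevBN.GraphFixD4.iso₁ τ π hlπ hφ' _ hC
  · exact Cfsg.Agent.Lib.ChevBN.GraphFixD4.iso₂ τ π hlπ hφ' _ hC
  · exact absurd (hinv hlπ (by decide)) hno2
  · exact absurd (hinv hlπ (by decide)) hno2
  · exact absurd (hinv hlπ (by decide)) hno2

end Cfsg.Agent.S2734
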