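import Cfsg.Statements.S2736
import Mathlib
import Cfsg.Agent.Lib.Classical.OrthAut.Par5

set_option autoImplicit false
open Cfsg

namespace Cfsg.Agent.S2736

/-- Let T = PΩ⁺_{2m}(F) with m ≥ 5 (dimension ≠ 8) and x a field automorphism or a graph-field automorphism of T of prime order r. Then an element y of the coset Inndiag(T)·x (y = δ x with δ induced by a class-preserving similarity) has order r if and only if y is conjugate to x by an element of Inndiag(T). -/
theorem result {F : Type*} [Field F] [Fintype F] {m : ℕ} (hm : 5 ≤ m) (x δ : MulAut (Cfsg.POmega F (Cfsg.quadFormPlus m F))) (hx : Cfsg.IsFieldAutClassPOmega (Cfsg.quadFormPlus m F) x ∨ Cfsg.IsGraphFieldAutClassPOmegaPlus m x) {r : ℕ} (hr : r.Prime) (hxr : orderOf x = r) (hδ : δ ∈ Cfsg.inndiagPOmegaPlus m F) :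
    orderOf (δ * x) = r ↔ Cfsg.IsConjUnder (Cfsg.inndiagPOmegaPlus m F) x (δ * x) := by
  have key : ∀ (q : (Fin m ⊕ Fin m → F) → F) (_ : ⇑(Cfsg.Agent.Lib.Classical.Orth.Models.plusForm m F) = q) (x δ : MulAut (Cfsg.POmega F q)),
      (Cfsg.IsFieldAutClassPOmega q x ∨ Cfsg.Agent.Lib.Classical.OrthAut.Par.GFClass q x) → orderOf x = r →
      δ ∈ Cfsg.Agent.Lib.Classical.OrthAut.Par.inndiagOf q →
      (orderOf (δ * x) = r ↔ Cfsg.IsConjUnder (Cfsg.Agent.Lib.Classical.OrthAut.Par.inndiagOf q) x (δ * x)) := by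
    rintro _ rfl x δ hx hxr hδ
    rw [Cfsg.Agent.Lib.Classical.OrthAut.Par.inndiag_plus] at hδ ⊢
    exact Cfsg.Agent.Lib.Classical.OrthAut.Par.plus_coset hm x δ hx hr hxr hδ
  exact key _ (Cfsg.Agent.Lib.Classical.Orth.Models.coe_plusForm m F) x δ hx hxr hδ

end Cfsg.Agent.S2736
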