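import Cfsg.Statements.S2737
import Mathlib
import Cfsg.Agent.Lib.Classical.OrthAut.MinusF
-- import your own Cfsg.Agent.* helpers here

set_option autoImplicit false
open Cfsg

namespace Cfsg.Agent.S2737

/-- Let T = PΩ⁻_{2m+2}(F) (m ≥ 3; form with anisotropic binary part) and x a field automorphism of T of prime order r. Then an element y of the coset Inndiag(T)·x has order r if and only if y is conjugate to x by an element of Inndiag(T). (T has no graph-field automorphisms.) -/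
theorem result {F : Type*} [Field F] [Fintype F] {m : ℕ} (hm : 3 ≤ m) (a b : F) (hab : (∀ z₁ z₂ : F, z₁ ^ 2 + a * z₁ * z₂ + b * z₂ ^ 2 = 0 → z₁ = 0 ∧ z₂ = 0)) (x δ : MulAut (Cfsg.POmega F (Cfsg.quadFormMinus m F a b))) (hx : Cfsg.IsFieldAutClassPOmegaMinus m x) {r : ℕ} (hr : r.Prime) (hxr : orderOf x = r) (hδ : δ ∈ Cfsg.inndiagPOmegaMinus m F a b) :
    orderOf (δ * x) = r ↔ Cfsg.IsConjUnder (Cfsg.inndiagPOmegaMinus m F a b) x (δ * x) := by
  obtain ⟨a', b', ψ, σ, hab', hσ1, hσa, hσb, hφ⟩ := hx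
  have key : ∀ (x δ : MulAut (Cfsg.POmega F (⇑(Cfsg.Agent.Lib.Classical.Orth.Models.minusForm m F a b))))
      (ψ : Cfsg.POmega F (⇑(Cfsg.Agent.Lib.Classical.Orth.Models.minusForm m F a b)) ≃* Cfsg.POmega F (⇑(Cfsg.Agent.Lib.Classical.Orth.Models.minusForm m F a' b'))),
      Cfsg.IsFieldAutPOmegaOf (⇑(Cfsg.Agent.Lib.Classical.Orth.Models.minusForm m F a' b')) σ ((ψ.symm.trans x).trans ψ) → orderOf x = r →
      δ ∈ Cfsg.Agent.Lib.Classical.OrthAut.MinusD.inndiagOf m a b (⇑(Cfsg.Agent.Lib.Classical.Orth.Models.minusForm m F a b)) →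
      (orderOf (δ * x) = r ↔ Cfsg.IsConjUnder (Cfsg.Agent.Lib.Classical.OrthAut.MinusD.inndiagOf m a b (⇑(Cfsg.Agent.Lib.Classical.Orth.Models.minusForm m F a b))) x (δ * x)) :=
    fun x δ ψ hφ hxr hδ => Cfsg.Agent.Lib.Classical.OrthAut.MinusF.coset_minus hm hab hab' hσ1 hσa hσb x δ ψ hφ hr hxr hδ
  rw [Cfsg.Agent.Lib.Classical.Orth.Models.coe_minusForm m F a b, Cfsg.Agent.Lib.Classical.Orth.Models.coe_minusForm m F a' b'] at key
  exact key x δ ψ hφ hxr hδ

end Cfsg.Agent.S2737
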