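import Cfsg.Statements.S2738
import Mathlib
import Cfsg.Agent.Lib.Linalg.Transvection
-- import your own Cfsg.Agent.* helpers here

set_option autoImplicit false
open Cfsg

namespace Cfsg.Agent.S2738

open scoped commutatorElement in
theorem no_compl {G : Type*} [Group G] (hperf : commutator G = ⊤) (K : Subgroup G)
    (hK : Subgroup.IsComplement' (Subgroup.center G) K) : Subgroup.center G = ⊥ := by
  have hdisj := hK.disjoint
  have hcomm : ∀ g h : G, ⁅g, h⁆ ∈ K := by
    intro g h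
    obtain ⟨⟨⟨z, hz⟩, ⟨k, hk⟩⟩, rfl⟩ := hK.2 g
    obtain ⟨⟨⟨z', hz'⟩, ⟨k', hk'⟩⟩, rfl⟩ := hK.2 h
    dsimp only
    have e : ⁅z * k, z' * k'⁆ = ⁅k, k'⁆ := by
      rw [commutatorElement_def, commutatorElement_def]
      have c1 := Subgroup.mem_center_iff.mp hz
      have c2 := Subgroup.mem_center_iff.mp hz'
      have c3 : ∀ x, x * z⁻¹ = z⁻¹ * x := fun x => by
        rw [eq_inv_mul_iff_mul_eq, ← mul_assoc, ← c1 x, mul_inv_cancel_right]
      have c4 : ∀ x, x * z'⁻¹ = z'⁻¹ * x := fun x => by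
        rw [eq_inv_mul_iff_mul_eq, ← mul_assoc, ← c2 x, mul_inv_cancel_right]
      rw [mul_inv_rev, mul_inv_rev]
      calc z * k * (z' * k') * (k⁻¹ * z⁻¹) * (k'⁻¹ * z'⁻¹)
          = z * (k * (z' * k') * k⁻¹ * z⁻¹) * (k'⁻¹ * z'⁻¹) := by group
        _ = z * (z⁻¹ * (k * (z' * k') * k⁻¹)) * (k'⁻¹ * z'⁻¹) := by rw [c3]
        _ = k * (z' * k') * k⁻¹ * (k'⁻¹ * z'⁻¹) := by rw [mul_inv_cancel_left]
        _ = k * (z' * k') * k⁻¹ * (z'⁻¹ * k'⁻¹) := by rw [c4]
        _ = k * ((z' * k') * (k⁻¹ * z'⁻¹)) * k'⁻¹ := by group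
        _ = k * ((z' * k') * (z'⁻¹ * k⁻¹)) * k'⁻¹ := by rw [c4]
        _ = k * ((k' * z') * (z'⁻¹ * k⁻¹)) * k'⁻¹ := by rw [c2 k']
        _ = k * k' * k⁻¹ * k'⁻¹ := by group
    rw [e]
    exact K.mul_mem (K.mul_mem (K.mul_mem hk hk') (K.inv_mem hk)) (K.inv_mem hk')
  have htop : K = ⊤ := by
    rw [eq_top_iff, ← hperf, commutator_def, Subgroup.commutator_le]
    intro g _ h _
    exact hcomm g h
  rw [htop] at hdisj
  simpa using hdisj

/-- The special linear group SL(3, 4) has centre of order 3 and does not split over it: no subgroup is a complement to the centre (so SL(3, 4) is a non-split central extension of PSL(3, 4) by a group of order 3). -/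
theorem result (F : Type*) [Field F] [Fintype F] (hF : Fintype.card F = 4) : Nat.card ↥(Subgroup.center (Matrix.SpecialLinearGroup (Fin 3) F)) = 3 ∧ ¬ ∃ K : Subgroup (Matrix.SpecialLinearGroup (Fin 3) F), Subgroup.IsComplement' (Subgroup.center (Matrix.SpecialLinearGroup (Fin 3) F)) K := by
  classical
  have hcard : Nat.card ↥(Subgroup.center (Matrix.SpecialLinearGroup (Fin 3) F)) = 3 := by
    rw [Nat.card_congr (Matrix.SpecialLinearGroup.center_equiv_rootsOfUnity (n := Fin 3) (R := F)).toEquiv]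
    have hmax : max (Fintype.card (Fin 3)) 1 = 3 := by simp
    have h1 : rootsOfUnity (max (Fintype.card (Fin 3)) 1) F = ⊤ := by
      rw [eq_top_iff]
      intro u _
      rw [hmax, mem_rootsOfUnity]
      have := pow_card_eq_one (x := u)
      rwa [Fintype.card_units, hF] at this
    rw [h1, Subgroup.card_top, Nat.card_eq_fintype_card, Fintype.card_units, hF]
  refine ⟨hcard, ?_⟩
  rintro ⟨K, hK⟩
  have hbot := no_compl (Cfsg.Agent.Lib.Linalg.Transvection.commutator_sl_eq_top (F := F) (ι := Fin 3) (by simp)) K hK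
  rw [hbot, Subgroup.card_bot] at hcard
  omega

end Cfsg.Agent.S2738
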