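import Cfsg.Statements.S2739
import Cfsg.Agent.Lib.Compute.PSL34Three

set_option autoImplicit false
open scoped Pointwise
open Cfsg

namespace Cfsg.Agent.S2739

open Cfsg.Agent.Lib.Compute.GFModel Cfsg.Agent.Lib.Compute.SmallField

/-- Conjugacy of subgroups of a given order transports along isomorphisms. -/
private theorem conj_transport {G H : Type*} [Group G] [Group H] (e : G ≃* H) (n : ℕ)
    (h : ∀ X Y : Subgroup G, Nat.card X = n → Nat.card Y = n → ∃ g : G, MulAut.conj g • X = Y)
    (X Y : Subgroup H) (hX : Nat.card X = n) (hY : Nat.card Y = n) :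
    ∃ g : H, MulAut.conj g • X = Y := by
  have hcard : ∀ Z : Subgroup H, Nat.card (Z.map e.symm.toMonoidHom) = Nat.card Z := fun Z =>
    Subgroup.card_map_of_injective e.symm.injective
  obtain ⟨g, hg⟩ := h (X.map e.symm.toMonoidHom) (Y.map e.symm.toMonoidHom)
    (by rw [hcard, hX]) (by rw [hcard, hY])
  refine ⟨e g, ?_⟩
  ext y
  rw [Subgroup.mem_pointwise_smul_iff_inv_smul_mem]
  have h1 : e.symm y ∈ MulAut.conj g • (X.map e.symm.toMonoidHom) ↔ y ∈ Y := by
    rw [hg]
    constructor
    · rintro ⟨z, hz, hzy⟩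
      have : z = y := e.symm.injective hzy
      exact this ▸ hz
    · intro hy
      exact ⟨y, hy, rfl⟩
  rw [← h1, Subgroup.mem_pointwise_smul_iff_inv_smul_mem]
  constructor
  · intro hx
    refine ⟨_, hx, ?_⟩
    simp [MulAut.smul_def, MulAut.conj_apply, map_mul]
  · rintro ⟨z, hz, hzy⟩
    have h3 : z = (MulAut.conj (e g))⁻¹ • y := by
      apply e.symm.injective
      refine hzy.trans ?_
      simp [MulAut.smul_def, MulAut.conj_apply, map_mul]
    exact h3 ▸ hz

/-- In the projective special linear group PSL(3, 4) all subgroups of order 3 are conjugate. -/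
theorem result (F : Type*) [Field F] [Fintype F] (hF : Fintype.card F = 4) (X Y : Subgroup (Matrix.ProjectiveSpecialLinearGroup (Fin 3) F)) (hX : Nat.card ↥X = 3) (hY : Nat.card ↥Y = 3) : ∃ g : Matrix.ProjectiveSpecialLinearGroup (Fin 3) F, MulAut.conj g • X = Y :=
  conj_transport (pslCongr (ι := Fin 3) (equivOfCard (F := GF4) (K := F) (by rw [card_GF4, hF]))) 3
    Cfsg.Agent.Lib.Compute.PSL34.subgroups_order_three_conj X Y hX hY

end Cfsg.Agent.S2739
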