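import Cfsg.Statements.S2756
import Cfsg.Agent.Lib.InvNorm.NormalTwo

set_option autoImplicit false
open Cfsg

namespace Cfsg.Agent.S2756

open Cfsg.Agent.Lib.InvNorm.NormalTwo Cfsg.Agent.Lib.InvNorm.Lift Cfsg.Agent.Lib.PGroup.ZJ

/-- For a finite group G the following are equivalent: (a) G has a normal Sylow 2-subgroup; (b) for every odd prime q dividing the order of G and every Sylow q-subgroup T, the normalizer of Z(J(T)) has a normal Sylow 2-subgroup; (c) for every odd prime q and every Sylow q-subgroup T, no nonidentity element of T is inverted by an element of the normalizer of Z(J(T)). Here J(T) is the Thompson subgroup generated by the abelian subgroups of T of largest order. Stated as the two equivalences (a) ⇔ (b) and (a) ⇔ (c). -/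
theorem result {G : Type*} [Group G] [Finite G] : ((∀ P : Sylow 2 G, (P : Subgroup G).Normal) ↔ ∀ (q : ℕ) [Fact q.Prime], q ≠ 2 → q ∣ Nat.card G → ∀ T : Sylow q G, ∀ P : Sylow 2 ↥(Subgroup.normalizer (Cfsg.centerThompsonAOf (T : Subgroup G) : Set G)), (P : Subgroup ↥(Subgroup.normalizer (Cfsg.centerThompsonAOf (T : Subgroup G) : Set G))).Normal) ∧ ((∀ P : Sylow 2 G, (P : Subgroup G).Normal) ↔ ∀ (q : ℕ) [Fact q.Prime], q ≠ 2 → ∀ T : Sylow q G, ∀ x ∈ (T : Subgroup G), x ≠ 1 → ∀ g ∈ Subgroup.normalizer (Cfsg.centerThompsonAOf (T : Subgroup G) : Set G), g * x * g⁻¹ ≠ x⁻¹) := by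
  have hqel : ∀ (q : ℕ) [Fact q.Prime] (T : Sylow q G) {x : G}, x ∈ (T : Subgroup G) →
      ∃ k : ℕ, x ^ q ^ k = 1 := by
    intro q _ T x hx
    obtain ⟨k, hk⟩ := T.isPGroup' ⟨x, hx⟩
    exact ⟨k, by simpa using congrArg Subtype.val hk⟩
  have hac : (∀ P : Sylow 2 G, (P : Subgroup G).Normal) → ∀ (q : ℕ) [Fact q.Prime], q ≠ 2 →
      ∀ T : Sylow q G, ∀ x ∈ (T : Subgroup G), x ≠ 1 →
      ∀ g ∈ Subgroup.normalizer (Cfsg.centerThompsonAOf (T : Subgroup G) : Set G),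
        g * x * g⁻¹ ≠ x⁻¹ := by
    intro ha q _ hq T x hx hx1 g _ e
    exact no_inv_of_normal_sylow ha hq hx1 (hqel q T hx) e
  have hca : (∀ (q : ℕ) [Fact q.Prime], q ≠ 2 → ∀ T : Sylow q G, ∀ x ∈ (T : Subgroup G), x ≠ 1 →
      ∀ g ∈ Subgroup.normalizer (Cfsg.centerThompsonAOf (T : Subgroup G) : Set G),
        g * x * g⁻¹ ≠ x⁻¹) → ∀ P : Sylow 2 G, (P : Subgroup G).Normal := by
    intro hc
    apply normal_sylow_of_no_inv
    intro q _ hq x hx1 hxq g e
    obtain ⟨T⟩ : Nonempty (Sylow q G) := inferInstance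
    obtain ⟨c, hc'⟩ := exists_conj_mem_sylow T hxq
    have he : (c * g * c⁻¹) * (c * x * c⁻¹) * (c * g * c⁻¹)⁻¹ = (c * x * c⁻¹)⁻¹ := by
      have h5 : (c * g * c⁻¹) * (c * x * c⁻¹) * (c * g * c⁻¹)⁻¹ = c * (g * x * g⁻¹) * c⁻¹ := by group
      rw [h5, e]
      group
    have hne : c * x * c⁻¹ ≠ 1 := by
      intro h1
      apply hx1
      have h3 : x = c⁻¹ * (c * x * c⁻¹) * c := by group
      rw [h3, h1]
      group
    obtain ⟨w, hw, hw1, n, hn, e'⟩ := Cfsg.Agent.Lib.InvNorm.Step.inv_main hq T hc' hne he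
    refine hc q hq T w hw hw1 n ?_ e'
    rw [centerThompsonAOf_eq]
    exact hn
  have hab : (∀ P : Sylow 2 G, (P : Subgroup G).Normal) → ∀ (q : ℕ) [Fact q.Prime], q ≠ 2 →
      q ∣ Nat.card G → ∀ T : Sylow q G,
      ∀ P : Sylow 2 ↥(Subgroup.normalizer (Cfsg.centerThompsonAOf (T : Subgroup G) : Set G)),
      (P : Subgroup ↥(Subgroup.normalizer (Cfsg.centerThompsonAOf (T : Subgroup G) : Set G))).Normal := by
    intro ha q _ _ _ T P
    exact normal_sub ha _ P
  have hbc : (∀ (q : ℕ) [Fact q.Prime], q ≠ 2 → q ∣ Nat.card G → ∀ T : Sylow q G,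
      ∀ P : Sylow 2 ↥(Subgroup.normalizer (Cfsg.centerThompsonAOf (T : Subgroup G) : Set G)),
      (P : Subgroup ↥(Subgroup.normalizer (Cfsg.centerThompsonAOf (T : Subgroup G) : Set G))).Normal) →
      ∀ (q : ℕ) [Fact q.Prime], q ≠ 2 → ∀ T : Sylow q G, ∀ x ∈ (T : Subgroup G), x ≠ 1 →
      ∀ g ∈ Subgroup.normalizer (Cfsg.centerThompsonAOf (T : Subgroup G) : Set G),
        g * x * g⁻¹ ≠ x⁻¹ := by
    intro hb q hq' hq T x hx hx1 g hg e
    have hxq := hqel q T hx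
    have hd : q ∣ Nat.card G := by
      obtain ⟨k, hk⟩ := hxq
      obtain ⟨j, -, hj⟩ := (Nat.dvd_prime_pow hq'.out).1 (orderOf_dvd_of_pow_eq_one hk)
      have hj0 : j ≠ 0 := by
        rintro rfl
        rw [pow_zero, orderOf_eq_one_iff] at hj
        exact hx1 hj
      have h1 : q ∣ orderOf x := by
        rw [hj]
        exact dvd_pow_self q hj0
      exact h1.trans (orderOf_dvd_natCard x)
    have hxH : x ∈ Subgroup.normalizer (Cfsg.centerThompsonAOf (T : Subgroup G) : Set G) := by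
      rw [centerThompsonAOf_eq]
      exact Cfsg.Agent.Lib.PGroup.QdControl.sylow_le_normalizer T hx
    refine no_inv_of_normal_sylow (hb q hq hd T) hq (x := ⟨x, hxH⟩) (n := ⟨g, hg⟩) ?_ ?_ ?_
    · exact fun h => hx1 (congrArg Subtype.val h)
    · obtain ⟨k, hk⟩ := hxq
      exact ⟨k, Subtype.ext (by simpa using hk)⟩
    · exact Subtype.ext e
  exact ⟨⟨hab, fun hb => hca (hbc hb)⟩, ⟨hac, hca⟩⟩

end Cfsg.Agent.S2756
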