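import Cfsg.Statements.S2758
import Mathlib
import Cfsg.Agent.Lib.PGroup.PowZ
import Cfsg.Agent.Lib.SFour.Recog

set_option autoImplicit false
open Cfsg

namespace Cfsg.Agent.S2758

open Subgroup Cfsg.Agent.Lib.PGroup.PowZ Cfsg.Agent.Lib.SFour.Recog

section
variable {G : Type*} [Group G]

/-- `C₂ ⇒ C₃`. -/
theorem c2_to_c3 [Finite G] {p : ℕ} [Fact p.Prime] {x : G} {P : Subgroup G} (hx : ∃ k : ℕ, orderOf x = 2 ^ k)
    (hP : IsPGroup p ↥P) (hn : x ∈ normalizer (P : Set G)) (hc : x ∉ centralizer (P : Set G)) :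
    ∃ x y : G, (∃ k : ℕ, orderOf x = 2 ^ k) ∧ (∃ k : ℕ, orderOf y = p ^ k) ∧ y ≠ 1 ∧ x * y * x⁻¹ = y⁻¹ := by
  classical
  obtain ⟨k, hk⟩ := hx
  have hex : ∃ j : ℕ, x ^ 2 ^ j ∈ centralizer (P : Set G) :=
    ⟨k, by rw [← hk, pow_orderOf_eq_one]; exact one_mem _⟩
  let j := Nat.find hex
  have hj : x ^ 2 ^ j ∈ centralizer (P : Set G) := Nat.find_spec hex
  have hj0 : j ≠ 0 := by
    intro h0
    rw [h0, pow_zero, pow_one] at hj
    exact hc hj
  obtain ⟨i, hi⟩ := Nat.exists_eq_succ_of_ne_zero hj0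
  have hi' : ¬ x ^ 2 ^ i ∈ centralizer (P : Set G) := Nat.find_min hex (by omega)
  set a := x ^ 2 ^ i with ha
  have ha2 : a * a ∈ centralizer (P : Set G) := by
    have : a * a = x ^ 2 ^ j := by
      rw [hi, ha, ← pow_add, Nat.succ_eq_add_one, pow_succ 2 i, mul_two]
    rw [this]; exact hj
  have han : a ∈ normalizer (P : Set G) := pow_mem hn _
  have hord : ∃ m : ℕ, orderOf a = 2 ^ m := by
    have : orderOf a ∣ 2 ^ k := by
      rw [← hk]; exact orderOf_dvd_of_pow_eq_one (by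
        rw [ha, ← pow_mul, mul_comm, pow_mul, pow_orderOf_eq_one, one_pow])
    obtain ⟨m, -, hm⟩ := (Nat.dvd_prime_pow Nat.prime_two).1 this
    exact ⟨m, hm⟩
  rw [mem_centralizer_iff] at hi'
  push Not at hi'
  obtain ⟨g, hg, hga⟩ := hi'
  have hg' : g ∈ P := hg
  have hconj : a * g * a⁻¹ ∈ P := (mem_normalizer_iff.1 han g).1 hg'
  refine ⟨a, g⁻¹ * (a * g * a⁻¹), hord, ?_, ?_, ?_⟩
  · have hy : g⁻¹ * (a * g * a⁻¹) ∈ P := mul_mem (inv_mem hg') hconj
    obtain ⟨m, hm⟩ := (IsPGroup.iff_orderOf.1 hP) ⟨_, hy⟩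
    exact ⟨m, by rw [← hm, Subgroup.orderOf_mk]⟩
  · intro h
    apply hga
    have h1 : a * g * a⁻¹ = g := by
      have := eq_of_inv_mul_eq_one h
      exact this.symm
    calc g * a = a * g * a⁻¹ * a := by rw [h1]
      _ = a * g := by group
  · have h2 : (a * a) * g = g * (a * a) := ((mem_centralizer_iff.1 ha2) g hg').symm
    have h3 : a * (a * g * a⁻¹) * a⁻¹ = g := by
      calc a * (a * g * a⁻¹) * a⁻¹ = (a * a) * g * (a⁻¹ * a⁻¹) := by group
        _ = g := by rw [h2]; group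
    calc a * (g⁻¹ * (a * g * a⁻¹)) * a⁻¹ = (a * g * a⁻¹)⁻¹ * (a * (a * g * a⁻¹) * a⁻¹) := by group
      _ = (a * g * a⁻¹)⁻¹ * g := by rw [h3]
      _ = (g⁻¹ * (a * g * a⁻¹))⁻¹ := by group

/-- `C₃ ⇒ C₁`. -/
theorem c3_to_c1 [Finite G] {p : ℕ} [Fact p.Prime] (hp : p ≠ 2) {x y : G} (hx : ∃ k : ℕ, orderOf x = 2 ^ k)
    (hy : ∃ k : ℕ, orderOf y = p ^ k) (hy1 : y ≠ 1) (hxy : x * y * x⁻¹ = y⁻¹) :
    Cfsg.Involves (DihedralGroup p) G := by
  classical
  have hpp : p.Prime := Fact.out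
  haveI : NeZero p := ⟨hpp.ne_zero⟩
  obtain ⟨a, ha⟩ := hx
  obtain ⟨k, hk⟩ := hy
  have hk0 : k ≠ 0 := by
    rintro rfl
    rw [pow_zero, orderOf_eq_one_iff] at hk
    exact hy1 hk
  obtain ⟨i, rfl⟩ := Nat.exists_eq_succ_of_ne_zero hk0
  -- an element of order `p`
  set w := y ^ p ^ i with hw
  have hwp : orderOf w = p := by
    have h := orderOf_pow_of_dvd (x := y) (n := p ^ i) (pow_ne_zero _ hpp.ne_zero)
      (by rw [hk]; exact ⟨p, by rw [Nat.succ_eq_add_one, pow_succ]⟩)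
    rw [hk] at h
    rw [hw, h, Nat.succ_eq_add_one, pow_succ]
    exact Nat.mul_div_cancel_left _ (pow_pos hpp.pos _)
  have hxw : x * w * x⁻¹ = w⁻¹ := by
    rw [hw, ← conj_pow, hxy, inv_pow]
  have hzw : (x * x) * w = w * (x * x) := by
    have h1 : x * w = w⁻¹ * x := by
      calc x * w = x * w * x⁻¹ * x := by group
        _ = w⁻¹ * x := by rw [hxw]
    have h3 : x * w⁻¹ * x⁻¹ = w := by
      have : x * w⁻¹ * x⁻¹ = (x * w * x⁻¹)⁻¹ := by group
      rw [this, hxw, inv_inv]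
    have h2 : x * w⁻¹ = w * x := by
      calc x * w⁻¹ = x * w⁻¹ * x⁻¹ * x := by group
        _ = w * x := by rw [h3]
    calc (x * x) * w = x * (x * w) := by group
      _ = x * (w⁻¹ * x) := by rw [h1]
      _ = (x * w⁻¹) * x := by group
      _ = (w * x) * x := by rw [h2]
      _ = w * (x * x) := by group
  -- the subgroup generated by `x`, `w`
  let K : Subgroup G := closure {x, w}
  have hxK : x ∈ K := subset_closure (by simp)
  have hwK : w ∈ K := subset_closure (by simp)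
  let x' : K := ⟨x, hxK⟩
  let w' : K := ⟨w, hwK⟩
  have hzc : ∀ g : K, (x' * x') * g = g * (x' * x') := by
    rintro ⟨g, hg⟩
    apply Subtype.ext
    show (x * x) * g = g * (x * x)
    have : K ≤ centralizer ({x * x} : Set G) := by
      refine (closure_le _).2 ?_
      rintro g (rfl | hg)
      · rw [SetLike.mem_coe, mem_centralizer_iff]
        rintro _ rfl
        group
      · rw [Set.mem_singleton_iff] at hg
        subst hg
        rw [SetLike.mem_coe, mem_centralizer_iff]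
        rintro _ rfl
        exact hzw
    exact ((mem_centralizer_iff.1 (this hg)) _ rfl)
  let R : Subgroup K := zpowers (x' * x')
  haveI hRn : R.Normal := by
    constructor
    rintro n ⟨m, rfl⟩ g
    have : g * (x' * x') * g⁻¹ = x' * x' := by
      rw [← hzc g]; group
    refine ⟨m, ?_⟩
    show (x' * x') ^ m = g * (x' * x') ^ m * g⁻¹
    rw [← conj_zpow, this]
  -- the elements of the quotient
  let r : K ⧸ R := QuotientGroup.mk' R w'
  let s : K ⧸ R := QuotientGroup.mk' R x'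
  have hs : s * s = 1 := by
    rw [← map_mul, QuotientGroup.mk'_apply, QuotientGroup.eq_one_iff]
    exact mem_zpowers _
  have hrs : s * r * s⁻¹ = r⁻¹ := by
    rw [← map_mul, ← map_inv, ← map_mul, ← map_inv]
    congr 1
    exact Subtype.ext hxw
  -- the element `r` has order `p`
  have hr1 : r ≠ 1 := by
    intro h
    have h : QuotientGroup.mk' R w' = 1 := h
    rw [QuotientGroup.mk'_apply, QuotientGroup.eq_one_iff] at h
    obtain ⟨m, hm⟩ := h
    have hm' : (x * x) ^ m = w := congrArg Subtype.val hm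
    -- the order of `w` divides a power of two
    have h1 : w ^ 2 ^ a = 1 := by
      rw [← hm', ← zpow_natCast, ← zpow_mul, mul_comm, zpow_mul, zpow_natCast, ← pow_two, ← pow_mul, mul_comm,
        pow_mul, ← ha, pow_orderOf_eq_one, one_pow, one_zpow]
    have h2 : p ∣ 2 ^ a := by
      rw [← hwp]; exact orderOf_dvd_of_pow_eq_one h1
    have h3 := hpp.dvd_of_dvd_pow h2
    exact hp ((Nat.prime_dvd_prime_iff_eq hpp Nat.prime_two).1 h3)
  have hrp : r ^ p = 1 := by
    rw [← map_pow]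
    have : w' ^ p = 1 := Subtype.ext (by
      show w ^ p = 1
      rw [← hwp, pow_orderOf_eq_one])
    rw [this, map_one]
  have hro : orderOf r = p := orderOf_eq_prime hrp hr1
  have hsn : s ∉ zpowers r := by
    intro hsr
    obtain ⟨m, hm⟩ := hsr
    have hcomm : s * r = r * s := by
      rw [← hm]
      show r ^ m * r = r * r ^ m
      rw [← zpow_add_one, ← zpow_one_add, add_comm]
    have h1 : s * r * s⁻¹ = r := by rw [hcomm]; group
    rw [h1] at hrs
    -- `r = r⁻¹`, so `r ^ 2 = 1`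
    have h2 : r ^ 2 = 1 := by
      rw [pow_two]
      nth_rewrite 1 [hrs]
      exact inv_mul_cancel r
    have h3 : p ∣ 2 := by
      rw [← hro]; exact orderOf_dvd_of_pow_eq_one h2
    exact hp ((Nat.prime_dvd_prime_iff_eq hpp Nat.prime_two).1 h3)
  let f : DihedralGroup p →* K ⧸ R := dihedralHom r s hrp hs hrs
  have hinj : Function.Injective f := dihedralHom_injective hro hs hrs hsn
  have hsurj : Function.Surjective f := by
    intro q
    obtain ⟨g, rfl⟩ := QuotientGroup.mk'_surjective R q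
    let L : Subgroup K := (f.range).comap (QuotientGroup.mk' R)
    have hx'L : x' ∈ L := by
      refine ⟨DihedralGroup.sr 0, ?_⟩
      show s * powZ r 0 = s
      rw [powZ_zero, mul_one]
    have hw'L : w' ∈ L := by
      refine ⟨DihedralGroup.r 1, ?_⟩
      show powZ r 1 = r
      exact powZ_one_of_one_lt hrp
    have hKL : K ≤ L.map K.subtype := by
      refine (closure_le _).2 ?_
      rintro g (rfl | hg)
      · exact ⟨x', hx'L, rfl⟩
      · rw [Set.mem_singleton_iff] at hg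
        subst hg
        exact ⟨w', hw'L, rfl⟩
    obtain ⟨g', hg', hgg⟩ := hKL g.2
    have : g' = g := Subtype.ext hgg
    rw [← this]
    exact hg'
  let e := MulEquiv.ofBijective f ⟨hinj, hsurj⟩
  let σ : K →* DihedralGroup p := e.symm.toMonoidHom.comp (QuotientGroup.mk' R)
  have hσ : Function.Surjective σ := e.symm.surjective.comp (QuotientGroup.mk'_surjective R)
  exact involves_of_inj_surj K.subtype K.subtype_injective σ hσ

/-- The sign homomorphism of a dihedral group. -/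
def sgn (n : ℕ) : DihedralGroup n →* Multiplicative (ZMod 2) :=
  MonoidHom.mk' (fun g => match g with
    | DihedralGroup.r _ => 1
    | DihedralGroup.sr _ => Multiplicative.ofAdd 1)
    (by
      rintro (a | a) (b | b)
      · rfl
      · show _ = (1 : Multiplicative (ZMod 2)) * _
        rw [one_mul]
        rfl
      · rfl
      · show (1 : Multiplicative (ZMod 2)) = Multiplicative.ofAdd 1 * Multiplicative.ofAdd 1
        decide)

/-- The abstract form of `C₁ ⇒ C₂`. -/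
theorem c1_abs {K : Type*} [Group K] [Finite K] {p : ℕ} [Fact p.Prime] (hp : p ≠ 2) (π : K →* DihedralGroup p)
    (hπ : Function.Surjective π) :
    ∃ (x : K) (P : Subgroup K), (∃ k : ℕ, orderOf x = 2 ^ k) ∧ IsPGroup p ↥P ∧ x ∈ normalizer (P : Set K) ∧
      x ∉ centralizer (P : Set K) := by
  classical
  have hpp : p.Prime := Fact.out
  haveI : NeZero p := ⟨hpp.ne_zero⟩
  haveI : Finite (DihedralGroup p) := inferInstance
  let N : Subgroup K := ((sgn p).comp π).ker
  obtain ⟨g₀, hg₀⟩ := hπ (DihedralGroup.r 1)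
  obtain ⟨e, m, hm, hem⟩ := Nat.exists_eq_pow_mul_and_not_dvd (n := orderOf g₀) (orderOf_pos g₀).ne' p hpp.ne_one
  let h : K := g₀ ^ m
  have hπh : π h = DihedralGroup.r (m : ZMod p) := by
    show π (g₀ ^ m) = _
    rw [map_pow, hg₀, DihedralGroup.r_one_pow]
  have hhN : h ∈ N := by
    show (sgn p) (π h) = 1
    rw [hπh]
    rfl
  have hhp : h ^ p ^ e = 1 := by
    show (g₀ ^ m) ^ p ^ e = 1
    rw [← pow_mul, mul_comm, ← hem, pow_orderOf_eq_one]
  have hm0 : (m : ZMod p) ≠ 0 := by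
    rw [Ne, ZMod.natCast_eq_zero_iff]
    exact hm
  let h' : N := ⟨h, hhN⟩
  have hh'p : h' ^ p ^ e = 1 := Subtype.ext hhp
  have hQ₀ : IsPGroup p (zpowers h') := by
    rw [IsPGroup.iff_card]
    have : orderOf h' ∣ p ^ e := orderOf_dvd_of_pow_eq_one hh'p
    obtain ⟨c, -, hc⟩ := (Nat.dvd_prime_pow hpp).1 this
    exact ⟨c, by rw [Nat.card_zpowers, hc]⟩
  obtain ⟨Q, hQ⟩ := hQ₀.exists_le_sylow
  let P : Subgroup K := (Q : Subgroup N).map N.subtype
  have hPp : IsPGroup p P := Q.isPGroup'.map _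
  have hhP : h ∈ P := ⟨h', hQ (mem_zpowers _), rfl⟩
  have hsup : normalizer (P : Set K) ⊔ N = ⊤ := Sylow.normalizer_sup_eq_top Q
  obtain ⟨t₀, ht₀⟩ := hπ (DihedralGroup.sr 0)
  have ht₀' : t₀ ∈ normalizer (P : Set K) ⊔ N := by rw [hsup]; exact mem_top _
  have ht₀'' : t₀ ∈ (↑(normalizer (P : Set K) ⊔ N) : Set K) := ht₀'
  rw [Subgroup.mul_normal] at ht₀''
  obtain ⟨m₀, hm₀, n, hn, hmn⟩ := Set.mem_mul.1 ht₀''
  have hsm₀ : (sgn p) (π m₀) = Multiplicative.ofAdd 1 := by
    have h1 : (sgn p) (π n) = 1 := hn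
    have h2 := congrArg (fun g => (sgn p) (π g)) hmn
    simp only [map_mul, h1, mul_one, ht₀] at h2
    exact h2
  obtain ⟨b, o, ho, hbo⟩ := Nat.exists_eq_pow_mul_and_not_dvd (n := orderOf m₀) (orderOf_pos m₀).ne' 2 (by norm_num)
  let x : K := m₀ ^ o
  have hxn : x ∈ normalizer (P : Set K) := pow_mem hm₀ _
  have hxo : ∃ k : ℕ, orderOf x = 2 ^ k := by
    have h1 : x ^ 2 ^ b = 1 := by
      show (m₀ ^ o) ^ 2 ^ b = 1
      rw [← pow_mul, mul_comm, ← hbo, pow_orderOf_eq_one]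
    obtain ⟨c, -, hc⟩ := (Nat.dvd_prime_pow Nat.prime_two).1 (orderOf_dvd_of_pow_eq_one h1)
    exact ⟨c, hc⟩
  have hsx : (sgn p) (π x) = Multiplicative.ofAdd 1 := by
    show (sgn p) (π (m₀ ^ o)) = _
    rw [map_pow, map_pow, hsm₀]
    obtain ⟨c, hc⟩ := Nat.odd_iff.2 (Nat.mod_two_ne_zero.1 (fun h => ho (Nat.dvd_of_mod_eq_zero h)))
    rw [hc, pow_succ, pow_mul]
    have : (Multiplicative.ofAdd (1 : ZMod 2)) ^ 2 = 1 := by decide
    rw [this, one_pow, one_mul]
  refine ⟨x, P, hxo, hPp, hxn, ?_⟩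
  intro hxc
  have h1 : h * x = x * h := (mem_centralizer_iff.1 hxc) h hhP
  have h2 := congrArg π h1
  rw [map_mul, map_mul, hπh] at h2
  rcases hπx : π x with i | i
  · rw [hπx] at hsx
    have : (sgn p) (DihedralGroup.r i) = 1 := rfl
    rw [this] at hsx
    exact absurd hsx (by decide)
  · rw [hπx, DihedralGroup.r_mul_sr, DihedralGroup.sr_mul_r, DihedralGroup.sr.injEq] at h2
    have h3 : (2 : ZMod p) * (m : ZMod p) = 0 := by linear_combination -h2
    rcases mul_eq_zero.1 h3 with h4 | h4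
    · have h5 : ((2 : ℕ) : ZMod p) = 0 := by exact_mod_cast h4
      rw [ZMod.natCast_eq_zero_iff] at h5
      exact hp ((Nat.prime_dvd_prime_iff_eq hpp Nat.prime_two).1 h5)
    · exact hm0 h4

/-- `C₁ ⇒ C₂`. -/
theorem c1_to_c2 [Finite G] {p : ℕ} [Fact p.Prime] (hp : p ≠ 2) (h : Cfsg.Involves (DihedralGroup p) G) :
    ∃ (x : G) (P : Subgroup G), (∃ k : ℕ, orderOf x = 2 ^ k) ∧ IsPGroup p ↥P ∧ x ∈ normalizer (P : Set G) ∧
      x ∉ centralizer (P : Set G) := by
  obtain ⟨K, R, hR, ⟨e⟩⟩ := h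
  let π : K →* DihedralGroup p := e.toMonoidHom.comp (QuotientGroup.mk' _)
  have hπ : Function.Surjective π := e.surjective.comp (QuotientGroup.mk'_surjective _)
  obtain ⟨x, P, ⟨k, hk⟩, hP, hn, hc⟩ := c1_abs hp π hπ
  refine ⟨x.1, P.map K.subtype, ⟨k, by rw [Subgroup.orderOf_coe, hk]⟩, hP.map _, ?_, ?_⟩
  · exact le_normalizer_map K.subtype ⟨x, hn, rfl⟩
  · intro hc'
    apply hc
    rw [mem_centralizer_iff] at hc' ⊢
    intro g hg
    apply Subtype.ext
    exact hc' g.1 ⟨g, hg, rfl⟩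

end

/-- For an odd prime p and a finite group G the following are equivalent: the dihedral group of order 2p is involved in G; some element of 2-power order normalizes but does not centralize some p-subgroup of G; some element of 2-power order inverts some nonidentity element of p-power order. -/
theorem result {G : Type*} [Group G] [Finite G] {p : ℕ} [Fact p.Prime] (hp : p ≠ 2) : (Cfsg.Involves (DihedralGroup p) G ↔ ∃ (x : G) (P : Subgroup G), (∃ k : ℕ, orderOf x = 2 ^ k) ∧ IsPGroup p ↥P ∧ x ∈ Subgroup.normalizer (P : Set G) ∧ x ∉ Subgroup.centralizer (P : Set G)) ∧ (Cfsg.Involves (DihedralGroup p) G ↔ ∃ x y : G, (∃ k : ℕ, orderOf x = 2 ^ k) ∧ (∃ k : ℕ, orderOf y = p ^ k) ∧ y ≠ 1 ∧ x * y * x⁻¹ = y⁻¹) := by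
  constructor
  · refine ⟨c1_to_c2 hp, ?_⟩
    rintro ⟨x, P, hx, hP, hn, hc⟩
    obtain ⟨x', y, hx', hy, hy1, hxy⟩ := c2_to_c3 hx hP hn hc
    exact c3_to_c1 hp hx' hy hy1 hxy
  · constructor
    · intro h
      obtain ⟨x, P, hx, hP, hn, hc⟩ := c1_to_c2 hp h
      exact c2_to_c3 hx hP hn hc
    · rintro ⟨x, y, hx, hy, hy1, hxy⟩
      exact c3_to_c1 hp hx hy hy1 hxy

end Cfsg.Agent.S2758
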