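import Cfsg.Statements.S2759
import Mathlib
import Cfsg.Agent.S2758
import Cfsg.Agent.Lib.SFour.Recog
import Cfsg.Agent.Lib.PGroup.WeakClosureSFour
import Cfsg.Agent.Lib.Coprime.FrattiniAct
import Cfsg.Agent.Lib.PGroup.Basic
-- import your own Cfsg.Agent.* helpers here

set_option autoImplicit false
open Cfsg

namespace Cfsg.Agent.S2759

open Subgroup Cfsg.Agent.Lib.SFour.Recog
open scoped commutatorElement

/-- The index of the pairing of `Fin 4` containing a given two-set. -/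
def ind : Fin 4 → Fin 4 → Fin 3 := ![![0, 0, 1, 2], ![0, 0, 2, 1], ![1, 2, 0, 0], ![2, 1, 0, 0]]

/-- The action of `S₄` on the three pairings. -/
def toF (g : Equiv.Perm (Fin 4)) (j : Fin 3) : Fin 3 := ind (g 0) (g j.succ)

theorem toF_mul : ∀ g h : Equiv.Perm (Fin 4), ∀ j, toF (g * h) j = toF g (toF h j) := by decide +kernel

theorem toF_one : ∀ j, toF 1 j = j := by decide +kernel

/-- The action of `S₄` on the three pairings, as a permutation. -/
def rho0 (g : Equiv.Perm (Fin 4)) : Equiv.Perm (Fin 3) where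
  toFun := toF g
  invFun := toF g⁻¹
  left_inv j := by rw [← toF_mul, inv_mul_cancel, toF_one]
  right_inv j := by rw [← toF_mul, mul_inv_cancel, toF_one]

/-- The homomorphism `S₄ → S₃`. -/
def rho : Equiv.Perm (Fin 4) →* Equiv.Perm (Fin 3) :=
  MonoidHom.mk' rho0 (fun a b => Equiv.ext (toF_mul a b))

theorem toF_surj : ∀ s : Equiv.Perm (Fin 3), ∃ g, ∀ j, toF g j = s j := by decide +kernel

theorem toF_cent : ∀ g : Equiv.Perm (Fin 4),
    (∀ v : Equiv.Perm (Fin 4), (∀ j, toF v j = j) → v * g = g * v) → ∀ j, toF g j = j := by decide +kernel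

theorem toF_sq : ∀ v : Equiv.Perm (Fin 4), (∀ j, toF v j = j) → v * v = 1 := by decide +kernel

theorem rho_eq_one_iff (g : Equiv.Perm (Fin 4)) : rho g = 1 ↔ ∀ j, toF g j = j := by
  constructor
  · intro h j
    have := congrArg (fun s : Equiv.Perm (Fin 3) => s j) h
    exact this
  · intro h
    exact Equiv.ext h

theorem rho_surjective : Function.Surjective rho := by
  intro s
  obtain ⟨g, hg⟩ := toF_surj s
  exact ⟨g, Equiv.ext hg⟩

theorem rho_ker_isPGroup : IsPGroup 2 ↥rho.ker := by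
  intro v
  refine ⟨1, ?_⟩
  apply Subtype.ext
  have := toF_sq v.1 ((rho_eq_one_iff v.1).1 v.2)
  rw [pow_one]
  show (v.1 ^ 2) = 1
  rw [pow_two, this]

section
variable {Γ : Type*} [Group Γ]

/-- A homomorphism `σ` onto `X` that kills the kernel of `ψ` shows that `X` is involved in the target of `ψ`. -/
theorem involves_of_factor {A Q X : Type*} [Group A] [Group Q] [Group X] (ψ : A →* Q) (σ : A →* X)
    (hσ : Function.Surjective σ) (hker : ψ.ker ≤ σ.ker) : Cfsg.Involves X Q := by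
  have hinj : Function.Injective (QuotientGroup.kerLift ψ) := QuotientGroup.kerLift_injective ψ
  let σ' : A ⧸ ψ.ker →* X := QuotientGroup.lift ψ.ker σ (fun a ha => hker ha)
  have hσ' : Function.Surjective σ' := by
    intro s
    obtain ⟨a, rfl⟩ := hσ s
    exact ⟨QuotientGroup.mk a, rfl⟩
  exact involves_of_inj_surj (QuotientGroup.kerLift ψ) hinj σ' hσ'

/-- A `2`-element acting on a nontrivial elementary abelian `2`-group has a nontrivial fixed point. -/
theorem exists_fixed (U : Subgroup Γ) (hUc : ∀ a ∈ U, ∀ b ∈ U, a * b = b * a) (hU2 : ∀ a ∈ U, a * a = 1)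
    {x : Γ} (hx : ∀ u ∈ U, x * u * x⁻¹ ∈ U) (k : ℕ) :
    ∀ u ∈ U, u ≠ 1 → x ^ (2 ^ k) * u * (x ^ (2 ^ k))⁻¹ = u → ∃ w ∈ U, w ≠ 1 ∧ x * w * x⁻¹ = w := by
  induction k with
  | zero =>
    intro u hu hu1 h
    refine ⟨u, hu, hu1, ?_⟩
    simpa using h
  | succ k ih =>
    intro u hu hu1 h
    set z := x ^ (2 ^ k) with hz
    have hzU : ∀ m : ℕ, ∀ u ∈ U, x ^ m * u * (x ^ m)⁻¹ ∈ U := by
      intro m
      induction m with
      | zero => intro u hu; simpa using hu
      | succ m ihm =>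
        intro u hu
        have : x ^ (m + 1) * u * (x ^ (m + 1))⁻¹ = x * (x ^ m * u * (x ^ m)⁻¹) * x⁻¹ := by
          rw [pow_succ']; group
        rw [this]
        exact hx _ (ihm u hu)
    have hz2 : z * (z * u * z⁻¹) * z⁻¹ = u := by
      have h1 : x ^ (2 ^ (k + 1)) = z * z := by
        rw [hz, pow_succ 2 k, pow_mul, pow_two]
      rw [h1] at h
      calc z * (z * u * z⁻¹) * z⁻¹ = z * z * u * (z * z)⁻¹ := by group
        _ = u := h
    have hzu : z * u * z⁻¹ ∈ U := hzU _ u hu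
    by_cases h1 : u * (z * u * z⁻¹) = 1
    · apply ih u hu hu1
      have h2 : z * u * z⁻¹ = u⁻¹ := eq_inv_of_mul_eq_one_right h1
      rw [h2]
      exact (eq_inv_of_mul_eq_one_left (hU2 u hu)).symm
    · apply ih _ (U.mul_mem hu hzu) h1
      calc z * (u * (z * u * z⁻¹)) * z⁻¹ = (z * u * z⁻¹) * (z * (z * u * z⁻¹) * z⁻¹) := by group
        _ = (z * u * z⁻¹) * u := by rw [hz2]
        _ = u * (z * u * z⁻¹) := hUc _ hzu _ hu

/-- The section `S₄` inside an elementary abelian normal section. -/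
theorem lemma_B [Finite Γ] (V : Subgroup Γ) (hVc : ∀ a ∈ V, ∀ b ∈ V, a * b = b * a) (hV2 : ∀ a ∈ V, a * a = 1)
    {x y : Γ} (hxV : ∀ v ∈ V, x * v * x⁻¹ ∈ V) (hyV : ∀ v ∈ V, y * v * y⁻¹ ∈ V) {k : ℕ}
    (hxk : ∀ v ∈ V, x ^ (2 ^ k) * v * (x ^ (2 ^ k))⁻¹ = v) (hy3 : ∀ v ∈ V, y ^ 3 * v * (y ^ 3)⁻¹ = v)
    (hyne : ∃ v ∈ V, y * v * y⁻¹ ≠ v)
    (hinv : ∀ v ∈ V, (x * y * x⁻¹) * v * (x * y * x⁻¹)⁻¹ = y⁻¹ * v * y) :
    Cfsg.Involves (Equiv.Perm (Fin 4)) Γ := by
  have hη3 : ∀ v ∈ V, y * (y * (y * v * y⁻¹) * y⁻¹) * y⁻¹ = v := by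
    intro v hv
    have h3 : y ^ 3 = y * y * y := by rw [pow_succ, pow_two]
    calc y * (y * (y * v * y⁻¹) * y⁻¹) * y⁻¹ = y ^ 3 * v * (y ^ 3)⁻¹ := by rw [h3]; group
      _ = v := hy3 v hv
  have hηinv : ∀ v ∈ V, y⁻¹ * v * y = y * (y * v * y⁻¹) * y⁻¹ := by
    intro v hv
    have h1 := hη3 v hv
    calc y⁻¹ * v * y = y⁻¹ * (y * (y * (y * v * y⁻¹) * y⁻¹) * y⁻¹) * y := by rw [h1]
      _ = y * (y * v * y⁻¹) * y⁻¹ := by group
  have F1 : ∀ v ∈ V, x * (y * v * y⁻¹) * x⁻¹ = y * (y * (x * v * x⁻¹) * y⁻¹) * y⁻¹ := by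
    intro v hv
    have h1 := hinv _ (hxV v hv)
    rw [← hηinv _ (hxV v hv), ← h1]
    group
  have F2 : ∀ v ∈ V, y * (x * v * x⁻¹) * y⁻¹ = x * (y * (y * v * y⁻¹) * y⁻¹) * x⁻¹ := by
    intro v hv
    have hv2 := hyV _ (hyV v hv)
    have h1 := F1 _ hv2
    rw [hη3 v hv] at h1
    -- `ξ v = η² (ξ η² v)`
    rw [h1]
    exact hη3 _ (hxV _ hv2)
  -- the subgroup `U`
  let U : Subgroup Γ :=
    { carrier := {u | u ∈ V ∧ u * (y * u * y⁻¹) * (y * (y * u * y⁻¹) * y⁻¹) = 1}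
      one_mem' := ⟨V.one_mem, by group⟩
      mul_mem' := by
        rintro a b ⟨ha, ha1⟩ ⟨hb, hb1⟩
        refine ⟨V.mul_mem ha hb, ?_⟩
        have e1 : y * (a * b) * y⁻¹ = (y * a * y⁻¹) * (y * b * y⁻¹) := by group
        have e2 : y * ((y * a * y⁻¹) * (y * b * y⁻¹)) * y⁻¹ =
            (y * (y * a * y⁻¹) * y⁻¹) * (y * (y * b * y⁻¹) * y⁻¹) := by group
        rw [e1, e2]
        have ha' := hyV a ha
        have ha'' := hyV _ ha'
        have hb' := hyV b hb
        have hb'' := hyV _ hb'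
        set a' := y * a * y⁻¹
        set a'' := y * a' * y⁻¹
        set b' := y * b * y⁻¹
        set b'' := y * b' * y⁻¹
        calc a * b * (a' * b') * (a'' * b'') = a * (b * a') * b' * a'' * b'' := by group
          _ = a * (a' * b) * b' * a'' * b'' := by rw [hVc b hb a' ha']
          _ = a * a' * b * (b' * a'') * b'' := by group
          _ = a * a' * b * (a'' * b') * b'' := by rw [hVc b' hb' a'' ha'']
          _ = a * a' * (b * a'') * b' * b'' := by group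
          _ = a * a' * (a'' * b) * b' * b'' := by rw [hVc b hb a'' ha'']
          _ = (a * a' * a'') * (b * b' * b'') := by group
          _ = 1 := by rw [ha1, hb1, one_mul]
      inv_mem' := by
        rintro a ⟨ha, ha1⟩
        have : a⁻¹ = a := (eq_inv_of_mul_eq_one_left (hV2 a ha)).symm
        rw [this]
        exact ⟨ha, ha1⟩ }
  have hUV : U ≤ V := fun u hu => hu.1
  have hUx : ∀ u ∈ U, x * u * x⁻¹ ∈ U := by
    rintro u ⟨hu, hu1⟩
    refine ⟨hxV u hu, ?_⟩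
    have hu' := hyV u hu
    have hu'' := hyV _ hu'
    have h3 : y * (y * (x * u * x⁻¹) * y⁻¹) * y⁻¹ = x * (y * u * y⁻¹) * x⁻¹ := (F1 u hu).symm
    rw [h3, F2 u hu]
    have hc := hVc _ hu' _ hu''
    calc x * u * x⁻¹ * (x * (y * (y * u * y⁻¹) * y⁻¹) * x⁻¹) * (x * (y * u * y⁻¹) * x⁻¹)
        = x * (u * ((y * (y * u * y⁻¹) * y⁻¹) * (y * u * y⁻¹))) * x⁻¹ := by group
      _ = x * (u * (y * u * y⁻¹) * (y * (y * u * y⁻¹) * y⁻¹)) * x⁻¹ := by
          rw [← hc, mul_assoc u]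
      _ = 1 := by rw [hu1]; group
  -- a first nontrivial element
  obtain ⟨v, hv, hvne⟩ := hyne
  have hv' := hyV v hv
  have hv'' := hyV _ hv'
  have hu₀U : v * (y * v * y⁻¹) ∈ U := by
    refine ⟨V.mul_mem hv hv', ?_⟩
    have e1 : y * (v * (y * v * y⁻¹)) * y⁻¹ = (y * v * y⁻¹) * (y * (y * v * y⁻¹) * y⁻¹) := by group
    have e2 : y * ((y * v * y⁻¹) * (y * (y * v * y⁻¹) * y⁻¹)) * y⁻¹ =
        (y * (y * v * y⁻¹) * y⁻¹) * (y * (y * (y * v * y⁻¹) * y⁻¹) * y⁻¹) := by group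
    rw [e1, e2, hη3 v hv]
    have h1 := hV2 _ hv'
    have h2 := hV2 _ hv''
    have h3 := hV2 _ hv
    set b := y * v * y⁻¹
    set c := y * b * y⁻¹
    calc v * b * (b * c) * (c * v) = v * (b * b) * (c * c) * v := by group
      _ = 1 := by rw [h1, h2, mul_one, mul_one, h3]
  have hu₀1 : v * (y * v * y⁻¹) ≠ 1 := by
    intro h
    apply hvne
    have h1 : y * v * y⁻¹ = v⁻¹ := eq_inv_of_mul_eq_one_right h
    rw [h1]
    exact (eq_inv_of_mul_eq_one_left (hV2 v hv)).symm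
  obtain ⟨e, heU, he1, hxe⟩ := exists_fixed U (fun a ha b hb => hVc a (hUV ha) b (hUV hb))
    (fun a ha => hV2 a (hUV ha)) hUx k _ hu₀U hu₀1 (hxk _ (hUV hu₀U))
  obtain ⟨heV, heP⟩ := heU
  set f := y * e * y⁻¹ with hf
  have hfV : f ∈ V := hyV e heV
  have hgV : y * f * y⁻¹ ∈ V := hyV f hfV
  have hefV : e * f ∈ V := V.mul_mem heV hfV
  have hg : y * f * y⁻¹ = e * f := by
    have h1 : y * f * y⁻¹ = (e * f)⁻¹ := eq_inv_of_mul_eq_one_right heP
    rw [h1]
    exact (eq_inv_of_mul_eq_one_left (hV2 _ hefV)).symm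
  have he2 := hV2 e heV
  have hne : e ≠ f := by
    intro h
    apply he1
    have h1 : y * f * y⁻¹ = e := by
      rw [← h]; exact h.symm
    rw [h1, ← h, he2, one_mul] at heP
    exact heP
  have hf1 : f ≠ 1 := by
    intro h
    apply he1
    have : e = y⁻¹ * f * y := by rw [hf]; group
    rw [this, h]; group
  have ha2 : x * f * x⁻¹ = e * f := by
    rw [hf, F1 e heV, hxe, ← hf, hg]
  refine Cfsg.Agent.Lib.PGroup.WeakClosureSFour.involves_of_two (e := e) (f := f) (a := x)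
    (b := y * x * y⁻¹) he2 (hV2 f hfV) (hVc e heV f hfV) he1 hf1 hne hxe ha2 ?_ ?_
  · calc y * x * y⁻¹ * f * (y * x * y⁻¹)⁻¹ = y * (x * e * x⁻¹) * y⁻¹ := by rw [hf]; group
      _ = f := by rw [hxe]
  · have h1 : y⁻¹ * e * y = y * f * y⁻¹ := hηinv e heV
    have h2 : x * (y * f * y⁻¹) * x⁻¹ = y * (y * (x * f * x⁻¹) * y⁻¹) * y⁻¹ := F1 f hfV
    calc y * x * y⁻¹ * e * (y * x * y⁻¹)⁻¹ = y * (x * (y⁻¹ * e * y) * x⁻¹) * y⁻¹ := by group
      _ = y * (y * (y * (x * f * x⁻¹) * y⁻¹) * y⁻¹) * y⁻¹ := by rw [h1, h2]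
      _ = x * f * x⁻¹ := hη3 _ (hxV f hfV)
      _ = e * f := ha2

/-- Passing to the Frattini quotient of a normal `2`-subgroup. -/
theorem lemma_C [Finite Γ] (T : Subgroup Γ) [hTn : T.Normal] (hT : IsPGroup 2 ↥T) {x y : Γ} {k : ℕ}
    (hxk : x ^ (2 ^ k) ∈ centralizer (T : Set Γ)) (hy3 : y ^ 3 ∈ centralizer (T : Set Γ))
    (hyne : y ∉ centralizer (T : Set Γ)) (hodd : (orderOf y).Coprime 2)
    (hinv : x * y * x⁻¹ * y ∈ centralizer (T : Set Γ)) : Cfsg.Involves (Equiv.Perm (Fin 4)) Γ := by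
  haveI h2p : Fact (Nat.Prime 2) := ⟨Nat.prime_two⟩
  set E : Subgroup Γ := (frattini ↥T).map T.subtype with hE
  have hNT : normalizer (T : Set Γ) = ⊤ := normalizer_eq_top_iff.2 hTn
  haveI hEn : E.Normal := by
    constructor
    intro n hn g
    have hg : g ∈ normalizer (T : Set Γ) := by rw [hNT]; exact mem_top g
    exact (mem_normalizer_iff.1 (Cfsg.Agent.Lib.Coprime.FrattiniAct.map_char_mem_normalizer
      (frattini ↥T) inferInstance hg) n).1 hn
  let π : Γ →* Γ ⧸ E := QuotientGroup.mk' E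
  have hπ : Function.Surjective π := QuotientGroup.mk'_surjective E
  have hπ1 : ∀ g, π g = 1 ↔ g ∈ E := fun g => QuotientGroup.eq_one_iff g
  let V : Subgroup (Γ ⧸ E) := T.map π
  have hVc : ∀ a ∈ V, ∀ b ∈ V, a * b = b * a := by
    rintro _ ⟨s, hs, rfl⟩ _ ⟨t, ht, rfl⟩
    have h1 : ⁅s, t⁆ ∈ E :=
      ⟨_, Cfsg.Agent.Lib.PGroup.Basic.commutatorElement_mem_frattini hT ⟨s, hs⟩ ⟨t, ht⟩, rfl⟩
    have h2 := (hπ1 _).2 h1
    rw [map_commutatorElement, commutatorElement_eq_one_iff_mul_comm] at h2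
    exact h2
  have hV2 : ∀ a ∈ V, a * a = 1 := by
    rintro _ ⟨t, ht, rfl⟩
    have h1 : t ^ 2 ∈ E :=
      ⟨_, Cfsg.Agent.Lib.PGroup.Basic.pow_mem_frattini hT ⟨t, ht⟩, rfl⟩
    have h2 := (hπ1 _).2 h1
    rw [map_pow, pow_two] at h2
    exact h2
  have hconjV : ∀ g : Γ, ∀ v ∈ V, π g * v * (π g)⁻¹ ∈ V := by
    rintro g _ ⟨t, ht, rfl⟩
    exact ⟨g * t * g⁻¹, hTn.conj_mem t ht g, by simp⟩
  have hcentV : ∀ g ∈ centralizer (T : Set Γ), ∀ v ∈ V, π g * v * (π g)⁻¹ = v := by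
    rintro g hg _ ⟨t, ht, rfl⟩
    have h1 : t * g = g * t := (mem_centralizer_iff.1 hg) t ht
    have h2 : g * t * g⁻¹ = t := by rw [← h1]; group
    rw [← map_inv, ← map_mul, ← map_mul, h2]
  refine involves_of_surjective π hπ (lemma_B V hVc hV2 (x := π x) (y := π y) (k := k)
    (hconjV x) (hconjV y) ?_ ?_ ?_ ?_)
  · rw [← map_pow]
    exact hcentV _ hxk
  · rw [← map_pow]
    exact hcentV _ hy3
  · by_contra hcon
    push Not at hcon
    apply hyne
    have hA : zpowers y ≤ normalizer (T : Set Γ) := by rw [hNT]; exact le_top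
    have hcard : (Nat.card (zpowers y)).Coprime 2 := by rwa [Nat.card_zpowers]
    have hAC := Cfsg.Agent.Lib.Coprime.FrattiniAct.le_centralizer_of_frattini (p := 2) hT hA hcard ?_
    · exact hAC (mem_zpowers y)
    · rintro t ht a ⟨m, rfl⟩
      rw [← hE, ← hπ1]
      have hm : ∀ m : ℤ, π (y ^ m) * π t * (π (y ^ m))⁻¹ = π t := by
        intro m
        have hmem : π y ∈ centralizer ({π t} : Set (Γ ⧸ E)) := by
          rw [mem_centralizer_iff]
          intro h hh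
          rw [Set.mem_singleton_iff] at hh
          subst hh
          have h3 := hcon _ ⟨t, ht, rfl⟩
          calc π t * π y = (π y * π t * (π y)⁻¹) * π y := by rw [h3]
            _ = π y * π t := by group
        have h4 : π (y ^ m) ∈ centralizer ({π t} : Set (Γ ⧸ E)) := by
          rw [map_zpow]; exact zpow_mem hmem m
        have h5 := (mem_centralizer_iff.1 h4) (π t) rfl
        rw [← h5]; group
      have h6 := hm m
      show π (t⁻¹ * (y ^ m * t * (y ^ m)⁻¹)) = 1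
      rw [map_mul, map_mul, map_mul, map_inv, map_inv (π), h6]
      group
  · intro v hv
    obtain ⟨t, ht, rfl⟩ := hv
    have h1 : (x * y * x⁻¹ * y) * (y⁻¹ * t * y) = (y⁻¹ * t * y) * (x * y * x⁻¹ * y) := by
      have h2 : y⁻¹ * t * y ∈ T := by
        have := hTn.conj_mem t ht y⁻¹
        simpa using this
      exact ((mem_centralizer_iff.1 hinv) _ h2).symm
    have h3 : (x * y * x⁻¹) * t * (x * y * x⁻¹)⁻¹ = y⁻¹ * t * y := by
      have h4 : (x * y * x⁻¹) * t = (y⁻¹ * t * y) * (x * y * x⁻¹) := by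
        have h5 : (x * y * x⁻¹ * y) * (y⁻¹ * t * y) = (x * y * x⁻¹) * t * y := by group
        have h6 : (y⁻¹ * t * y) * (x * y * x⁻¹ * y) = (y⁻¹ * t * y) * (x * y * x⁻¹) * y := by group
        rw [h5, h6] at h1
        exact mul_right_cancel h1
      rw [h4]; group
    have h7 := congrArg π h3
    simp only [map_mul, map_inv] at h7
    simpa [mul_assoc] using h7

end

/-- The forward direction. -/
theorem forward {G : Type*} [Group G] [Finite G] (h : Cfsg.Involves (Equiv.Perm (Fin 4)) G) :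
    ∃ T : Subgroup G, IsPGroup 2 ↥T ∧ Cfsg.Involves (Equiv.Perm (Fin 3)) (↥(Subgroup.normalizer (T : Set G)) ⧸ (Subgroup.centralizer (T : Set G)).subgroupOf (Subgroup.normalizer (T : Set G))) := by
  classical
  haveI h2p : Fact (Nat.Prime 2) := ⟨Nat.prime_two⟩
  obtain ⟨K, π, hπ⟩ := exists_subgroup_surj h
  let τ : K →* Equiv.Perm (Fin 3) := rho.comp π
  have hτ : Function.Surjective τ := rho_surjective.comp hπ
  let K₀ : Subgroup K := τ.ker
  obtain ⟨P⟩ : Nonempty (Sylow 2 K₀) := inferInstance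
  let T₀ : Subgroup K := (P : Subgroup K₀).map K₀.subtype
  let T : Subgroup G := T₀.map K.subtype
  have hT₀p : IsPGroup 2 T₀ := P.isPGroup'.map _
  have hTp : IsPGroup 2 T := hT₀p.map _
  have hsup : normalizer (T₀ : Set K) ⊔ K₀ = ⊤ := Sylow.normalizer_sup_eq_top P
  -- `T₀` maps onto the four-group
  have hT₀π : ∀ v : Equiv.Perm (Fin 4), rho v = 1 → ∃ t ∈ T₀, π t = v := by
    let f : K₀ →* ↥rho.ker := (π.comp K₀.subtype).codRestrict rho.ker (fun k => k.2)
    have hf : Function.Surjective f := by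
      rintro ⟨v, hv⟩
      obtain ⟨k, rfl⟩ := hπ v
      exact ⟨⟨k, hv⟩, rfl⟩
    let Q : Sylow 2 ↥rho.ker := P.mapSurjective hf
    have hQ : (Q : Subgroup ↥rho.ker) = ⊤ := by
      have h1 : IsPGroup 2 (⊤ : Subgroup ↥rho.ker) := rho_ker_isPGroup.to_subgroup _
      exact (Q.is_maximal' h1 le_top).symm
    intro v hv
    have h2 : (⟨v, hv⟩ : ↥rho.ker) ∈ (Q : Subgroup ↥rho.ker) := by rw [hQ]; exact mem_top _
    obtain ⟨k, hk, hke⟩ := h2
    exact ⟨k.1, ⟨k, hk, rfl⟩, congrArg Subtype.val hke⟩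
  let A : Subgroup K := normalizer (T₀ : Set K)
  let σ : A →* Equiv.Perm (Fin 3) := τ.comp A.subtype
  have hσ : Function.Surjective σ := by
    intro s
    obtain ⟨k, rfl⟩ := hτ s
    have hk : k ∈ (↑(A ⊔ K₀) : Set K) := by
      have : A ⊔ K₀ = ⊤ := hsup
      rw [this]; trivial
    rw [Subgroup.mul_normal] at hk
    obtain ⟨a, ha, n, hn, rfl⟩ := Set.mem_mul.1 hk
    refine ⟨⟨a, ha⟩, ?_⟩
    have hn' : τ n = 1 := hn
    show τ a = τ (a * n)
    rw [map_mul, hn', mul_one]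
  let N : Subgroup G := normalizer (T : Set G)
  have hAN : ∀ a : A, ((K.subtype.comp A.subtype) a) ∈ N := fun a =>
    le_normalizer_map K.subtype ⟨a.1, a.2, rfl⟩
  let ι : A →* N := (K.subtype.comp A.subtype).codRestrict N hAN
  let ψ : A →* (↥N ⧸ (Subgroup.centralizer (T : Set G)).subgroupOf N) := (QuotientGroup.mk' _).comp ι
  refine ⟨T, hTp, involves_of_factor ψ σ hσ ?_⟩
  intro a ha
  have h1 : ι a ∈ (Subgroup.centralizer (T : Set G)).subgroupOf N := (QuotientGroup.eq_one_iff _).1 ha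
  have h2 : (a.1.1 : G) ∈ Subgroup.centralizer (T : Set G) := h1
  show rho (π a.1) = 1
  rw [rho_eq_one_iff]
  apply toF_cent
  intro v hv
  obtain ⟨t, ht, rfl⟩ := hT₀π v ((rho_eq_one_iff v).2 hv)
  rw [← map_mul, ← map_mul]
  congr 1
  apply Subtype.ext
  exact (mem_centralizer_iff.1 h2) t.1 ⟨t, ht, rfl⟩

/-- `S₃` is dihedral. -/
theorem perm3_equiv : Nonempty (Equiv.Perm (Fin 3) ≃* DihedralGroup 3) := by
  refine Cfsg.Agent.Lib.PGroup.PowZ.nonempty_mulEquiv_dihedralGroup (r := finRotate 3) (s := Equiv.swap 0 1)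
    ?_ ?_ ?_ ?_ ?_
  · haveI : Fact (Nat.Prime 3) := ⟨Nat.prime_three⟩
    exact orderOf_eq_prime (by decide) (by decide)
  · decide
  · decide
  · intro h
    obtain ⟨m, hm⟩ := h
    have h1 : Equiv.swap (0 : Fin 3) 1 * finRotate 3 = finRotate 3 * Equiv.swap (0 : Fin 3) 1 := by
      have hm' : (finRotate 3) ^ m = Equiv.swap (0 : Fin 3) 1 := hm
      rw [← hm']
      exact ((Commute.refl (finRotate 3)).zpow_left m)
    exact absurd h1 (by decide)
  · rw [Nat.card_eq_fintype_card, Fintype.card_perm, Fintype.card_fin]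
    rfl

/-- The reverse direction. -/
theorem reverse {G : Type*} [Group G] [Finite G] {T : Subgroup G} (hT : IsPGroup 2 ↥T)
    (h : Cfsg.Involves (Equiv.Perm (Fin 3)) (↥(Subgroup.normalizer (T : Set G)) ⧸ (Subgroup.centralizer (T : Set G)).subgroupOf (Subgroup.normalizer (T : Set G)))) :
    Cfsg.Involves (Equiv.Perm (Fin 4)) G := by
  classical
  haveI h3p : Fact (Nat.Prime 3) := ⟨Nat.prime_three⟩
  set N : Subgroup G := Subgroup.normalizer (T : Set G) with hN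
  set C : Subgroup N := (Subgroup.centralizer (T : Set G)).subgroupOf N with hC
  obtain ⟨e⟩ := perm3_equiv
  have hD : Cfsg.Involves (DihedralGroup 3) (↥N ⧸ C) := by
    obtain ⟨K, R, hn, ⟨e₁⟩⟩ := h
    exact ⟨K, R, hn, ⟨e₁.trans e⟩⟩
  obtain ⟨xb, yb, ⟨a, ha⟩, ⟨b, hb⟩, hy1, hxy⟩ := (Cfsg.Agent.S2758.result (p := 3) (G := ↥N ⧸ C) (by norm_num)).2.1 hD
  have hb0 : b ≠ 0 := by
    rintro rfl
    rw [pow_zero, orderOf_eq_one_iff] at hb
    exact hy1 hb
  obtain ⟨i, rfl⟩ := Nat.exists_eq_succ_of_ne_zero hb0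
  set z := yb ^ 3 ^ i with hz
  have hz3 : orderOf z = 3 := by
    have h1 := orderOf_pow_of_dvd (x := yb) (n := 3 ^ i) (pow_ne_zero _ (by norm_num))
      (by rw [hb]; exact ⟨3, by rw [Nat.succ_eq_add_one, pow_succ]⟩)
    rw [hb] at h1
    rw [hz, h1, Nat.succ_eq_add_one, pow_succ]
    exact Nat.mul_div_cancel_left _ (pow_pos (by norm_num) _)
  let μ : N →* ↥N ⧸ C := QuotientGroup.mk' C
  have hμ : Function.Surjective μ := QuotientGroup.mk'_surjective C
  obtain ⟨x₀, hx₀⟩ := hμ xb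
  obtain ⟨y₀, hy₀⟩ := hμ z
  obtain ⟨c, o, ho, hco⟩ := Nat.exists_eq_pow_mul_and_not_dvd (n := orderOf y₀) (orderOf_pos y₀).ne' 2 (by norm_num)
  set y := y₀ ^ 2 ^ c with hy
  have hodd : (orderOf y).Coprime 2 := by
    have h1 : y ^ o = 1 := by
      rw [hy, ← pow_mul, ← hco, pow_orderOf_eq_one]
    have h2 : orderOf y ∣ o := orderOf_dvd_of_pow_eq_one h1
    have h3 : ¬ 2 ∣ orderOf y := fun h4 => ho (h4.trans h2)
    exact ((Nat.Prime.coprime_iff_not_dvd Nat.prime_two).2 h3).symm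
  set w := z ^ 2 ^ c with hw
  have hμy : μ y = w := by rw [hy, map_pow, hy₀]
  have hw1 : w ≠ 1 := by
    intro h1
    have h2 : 3 ∣ 2 ^ c := by
      rw [← hz3]; exact orderOf_dvd_of_pow_eq_one h1
    have h3 := Nat.prime_three.dvd_of_dvd_pow h2
    omega
  have hw3 : w ^ 3 = 1 := by
    rw [hw, ← pow_mul, mul_comm, pow_mul, ← hz3, pow_orderOf_eq_one, one_pow]
  have hxw : xb * w * xb⁻¹ = w⁻¹ := by
    rw [hw, hz, ← pow_mul, ← conj_pow, hxy, inv_pow]
  have hμ1 : ∀ g : N, μ g = 1 → g ∈ Subgroup.centralizer ((T.subgroupOf N : Subgroup N) : Set N) := by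
    intro g hg
    have h1 : g ∈ C := (QuotientGroup.eq_one_iff g).1 hg
    have h2 : (g : G) ∈ Subgroup.centralizer (T : Set G) := h1
    rw [Subgroup.mem_centralizer_iff]
    intro t ht
    apply Subtype.ext
    exact (Subgroup.mem_centralizer_iff.1 h2) t.1 ht
  have hμ2 : ∀ g : N, g ∈ Subgroup.centralizer ((T.subgroupOf N : Subgroup N) : Set N) → μ g = 1 := by
    intro g hg
    apply (QuotientGroup.eq_one_iff g).2
    show (g : G) ∈ Subgroup.centralizer (T : Set G)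
    rw [Subgroup.mem_centralizer_iff]
    intro t ht
    have h1 : t ∈ N := Subgroup.le_normalizer ht
    have h2 := (Subgroup.mem_centralizer_iff.1 hg) ⟨t, h1⟩ ht
    exact congrArg Subtype.val h2
  haveI hT₁ : (T.subgroupOf N).Normal := Subgroup.normal_in_normalizer
  have key : Cfsg.Involves (Equiv.Perm (Fin 4)) N := by
    refine lemma_C (T.subgroupOf N) hT.comap_subtype (x := x₀) (y := y) (k := a) ?_ ?_ ?_ hodd ?_
    · apply hμ1
      rw [map_pow, hx₀, ← ha, pow_orderOf_eq_one]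
    · apply hμ1
      rw [map_pow, hμy, hw3]
    · intro h1
      exact hw1 (by rw [← hμy]; exact hμ2 _ h1)
    · apply hμ1
      rw [map_mul, map_mul, map_mul, map_inv, hx₀, hμy, hxw, inv_mul_cancel]
  exact involves_of_injective N.subtype N.subtype_injective key

/-- For a finite group G, the symmetric group of degree 4 is involved in G if and only if there is a 2-subgroup T of G such that the symmetric group of degree 3 is involved in N(T)/C(T). -/
theorem result {G : Type*} [Group G] [Finite G] : Cfsg.Involves (Equiv.Perm (Fin 4)) G ↔ ∃ T : Subgroup G, IsPGroup 2 ↥T ∧ Cfsg.Involves (Equiv.Perm (Fin 3)) (↥(Subgroup.normalizer (T : Set G)) ⧸ (Subgroup.centralizer (T : Set G)).subgroupOf (Subgroup.normalizer (T : Set G))) := by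
  constructor
  · exact forward
  · rintro ⟨T, hT, h⟩
    exact reverse hT h

end Cfsg.Agent.S2759
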