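import Cfsg.Statements.S2761
import Mathlib
-- import your own Cfsg.Agent.* helpers here

set_option autoImplicit false
open Cfsg

namespace Cfsg.Agent.S2761

set_option maxRecDepth 100000
set_option synthInstance.maxSize 2000

abbrev SL3 := Matrix.SpecialLinearGroup (Fin 3) (ZMod 2)

def ptx : Fin 4 → ZMod 2 := ![0, 1, 0, 1]
def pty : Fin 4 → ZMod 2 := ![0, 0, 1, 1]

/-- The affine map sending the points `0, 1, 2` of the plane over the field with two elements to the
images given by a permutation of the four points. -/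
def matOf (π : Equiv.Perm (Fin 4)) : Matrix (Fin 3) (Fin 3) (ZMod 2) :=
  !![ptx (π 1) - ptx (π 0), ptx (π 2) - ptx (π 0), ptx (π 0);
     pty (π 1) - pty (π 0), pty (π 2) - pty (π 0), pty (π 0);
     0, 0, 1]

theorem det_matOf : ∀ π : Equiv.Perm (Fin 4), (matOf π).det = 1 := by decide +kernel

def fPhi (π : Equiv.Perm (Fin 4)) : SL3 := ⟨matOf π, det_matOf π⟩

theorem fPhi_mul : ∀ π ρ : Equiv.Perm (Fin 4), fPhi (π * ρ) = fPhi π * fPhi ρ := by decide +kernel

theorem fPhi_inj : ∀ π ρ : Equiv.Perm (Fin 4), fPhi π = fPhi ρ → π = ρ := by decide +kernel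

theorem fPhi_mem : ∀ π : Equiv.Perm (Fin 4), (fPhi π : Matrix (Fin 3) (Fin 3) (ZMod 2)) 2 0 = 0 ∧
    (fPhi π : Matrix (Fin 3) (Fin 3) (ZMod 2)) 2 1 = 0 ∧
    (fPhi π : Matrix (Fin 3) (Fin 3) (ZMod 2)) 2 2 = 1 := by decide +kernel

theorem fPhi_surj : ∀ M : SL3, (M : Matrix (Fin 3) (Fin 3) (ZMod 2)) 2 0 = 0 →
    (M : Matrix (Fin 3) (Fin 3) (ZMod 2)) 2 1 = 0 → (M : Matrix (Fin 3) (Fin 3) (ZMod 2)) 2 2 = 1 →
    ∃ π : Equiv.Perm (Fin 4), fPhi π = M := by decide +kernel

def phi : Equiv.Perm (Fin 4) →* SL3 := MonoidHom.mk' fPhi fPhi_mul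

theorem range_phi : phi.range = Cfsg.qd 2 := by
  apply le_antisymm
  · rintro _ ⟨π, rfl⟩
    exact Subgroup.subset_closure (fPhi_mem π)
  · refine (Subgroup.closure_le _).2 ?_
    rintro M ⟨h0, h1, h2⟩
    obtain ⟨π, rfl⟩ := fPhi_surj M h0 h1 h2
    exact ⟨π, rfl⟩

/-- The group Qd(2), the natural semidirect product of an elementary abelian group of order 4 by SL₂(2) (realised as the affine subgroup of SL₃(2)), is isomorphic to the symmetric group of degree 4. -/
theorem result : Nonempty (↥(Cfsg.qd 2) ≃* Equiv.Perm (Fin 4)) := by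
  have hinj : Function.Injective phi := fun π ρ h => fPhi_inj π ρ h
  exact ⟨((MonoidHom.ofInjective hinj).trans (MulEquiv.subgroupCongr range_phi)).symm⟩

end Cfsg.Agent.S2761
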