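import Cfsg.Statements.S2779
import Cfsg.Agent.Lib.PGroup.NatMod
-- import your own Cfsg.Agent.* helpers here

set_option autoImplicit false
open Cfsg
open Cfsg.Agent.Lib.PGroup
open Cfsg.Agent.Lib.PSL2.Basic

namespace Cfsg.Agent.S2779

/-- Let L act on the elementary abelian p-group V (inside a finite group, by conjugation, faithfully) as SL₂(F) on its natural module, F a field with p^n elements, and let S be a Sylow p-subgroup of L. Then [V, S, S] = 1; |V| = p^(2n) and |C_V(S)| = p^n; and for every nonidentity s ∈ S and every v ∈ V outside C_V(S): C_V(s) = C_V(S) = [V, S] = [V, s] = the subgroup generated by the commutators [v, t], t ∈ S. -/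
theorem result {G : Type*} [Group G] [Finite G] {p : ℕ} [Fact p.Prime] {F : Type*} [Field F] [Fintype F] (n : ℕ) (hF : Fintype.card F = p ^ n) (V L : Subgroup G) (hnat : Cfsg.IsNaturalSL2Module F V L) (hf : L ⊓ Subgroup.centralizer (V : Set G) = ⊥) (S : Sylow p ↥L) (T : Subgroup G) (hT : T = ((S : Subgroup ↥L).map L.subtype)) : ⁅⁅V, T⁆, T⁆ = ⊥ ∧ Nat.card V = p ^ (2 * n) ∧ Nat.card ↥(V ⊓ Subgroup.centralizer ((T : Subgroup G) : Set G)) = p ^ n ∧ ∀ s ∈ T, s ≠ 1 → (V ⊓ Subgroup.centralizer ({s} : Set G)) = (V ⊓ Subgroup.centralizer ((T : Subgroup G) : Set G)) ∧ ⁅V, T⁆ = (V ⊓ Subgroup.centralizer ((T : Subgroup G) : Set G)) ∧ ⁅V, Subgroup.zpowers s⁆ = (V ⊓ Subgroup.centralizer ((T : Subgroup G) : Set G)) ∧ ∀ v ∈ V, v ∉ Subgroup.centralizer (T : Set G) → Subgroup.closure {x : G | ∃ t ∈ T, x = v * t * v⁻¹ * t⁻¹} = (V ⊓ Subgroup.centralizer ((T : Subgroup G) : Set G)) := by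
  classical
  obtain ⟨fr⟩ := NatMod.exists_frame n hF V L hnat hf S T hT
  obtain ⟨l1, hl1⟩ := fr.exists_of_mat (x 1)
  have hcV := fr.card_V
  have hcK := fr.card_K
  rw [hF] at hcV hcK
  refine ⟨?_, ?_, hcK, ?_⟩
  · by_cases hex : ∃ s ∈ T, s ≠ 1
    · obtain ⟨s, hs, hs1⟩ := hex
      rw [fr.commutator_eq_K s hs hs1]
      exact fr.commutator_K_T
    · -- `T` is trivial
      have : T = ⊥ := by
        rw [eq_bot_iff]
        intro t ht
        by_contra h
        exact hex ⟨t, ht, h⟩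
      simp [this]
  · rw [hcV]; ring
  · intro s hs hs1
    refine ⟨?_, fr.commutator_eq_K s hs hs1, fr.commutator_zpowers_eq_K s hs hs1, ?_⟩
    · ext v
      constructor
      · rintro ⟨hv, h⟩
        exact fr.mem_K.2 ⟨hv, (fr.mem_cs hv hs hs1).1 h⟩
      · intro h
        obtain ⟨hv, h1⟩ := fr.mem_K.1 h
        exact ⟨hv, (fr.mem_cs hv hs hs1).2 h1⟩
    · intro v hv hvc
      apply le_antisymm
      · rw [Subgroup.closure_le]
        rintro _ ⟨t, ht, rfl⟩
        exact fr.comm_mem_K hv ht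
      · intro k hk
        obtain ⟨t, ht, rfl⟩ := fr.exists_comm_eq hk hv hvc
        exact Subgroup.subset_closure ⟨t, ht, rfl⟩

end Cfsg.Agent.S2779
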