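import Cfsg.Statements.S2780
import Cfsg.Agent.Lib.PGroup.NatMod
-- import your own Cfsg.Agent.* helpers here

set_option autoImplicit false
open Cfsg
open Cfsg.Agent.Lib.PGroup
open Cfsg.Agent.Lib.PSL2.Basic

namespace Cfsg.Agent.S2780

/-- Let L act on the elementary abelian p-group V (inside a finite group, faithfully) as SL₂(F) on its natural module, F a field with p^n elements, S a Sylow p-subgroup of L. Then: for every g ∈ L not normalizing S, V is the internal direct product of C_V(S) and C_V(gSg⁻¹); every nonidentity element of L of order prime to p acts on V without nonidentity fixed points; and C_V(S) and V/C_V(S) are irreducible for N_L(S): the only N_L(S)-invariant subgroups of C_V(S) are 1 and C_V(S), and the only N_L(S)-invariant subgroups between C_V(S) and V are those two. -/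
theorem result {G : Type*} [Group G] [Finite G] {p : ℕ} [Fact p.Prime] {F : Type*} [Field F] [Fintype F] (n : ℕ) (hF : Fintype.card F = p ^ n) (V L : Subgroup G) (hnat : Cfsg.IsNaturalSL2Module F V L) (hf : L ⊓ Subgroup.centralizer (V : Set G) = ⊥) (S : Sylow p ↥L) (T : Subgroup G) (hT : T = ((S : Subgroup ↥L).map L.subtype)) : (∀ g ∈ L, g ∉ Subgroup.normalizer (T : Set G) → Cfsg.IsInternalDirectProduct (V ⊓ Subgroup.centralizer ((T : Subgroup G) : Set G)) (V ⊓ Subgroup.centralizer ((T.map (MulAut.conj g).toMonoidHom : Subgroup G) : Set G)) V) ∧ (∀ x ∈ L, x ≠ 1 → (orderOf x).Coprime p → (V ⊓ Subgroup.centralizer ({x} : Set G)) = ⊥) ∧ (∀ U : Subgroup G, U ≤ (V ⊓ Subgroup.centralizer ((T : Subgroup G) : Set G)) → L ⊓ Subgroup.normalizer (T : Set G) ≤ Subgroup.normalizer (U : Set G) → U = ⊥ ∨ U = (V ⊓ Subgroup.centralizer ((T : Subgroup G) : Set G))) ∧ (∀ U : Subgroup G, (V ⊓ Subgroup.centralizer ((T : Subgroup G) : Set G))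 ≤ U → U ≤ V → L ⊓ Subgroup.normalizer (T : Set G) ≤ Subgroup.normalizer (U : Set G) → U = (V ⊓ Subgroup.centralizer ((T : Subgroup G) : Set G)) ∨ U = V) := by
  classical
  haveI : CharP F p := NatMod.charP_of_card' hF
  obtain ⟨fr⟩ := NatMod.exists_frame n hF V L hnat hf S T hT
  have hK := @NatMod.Frame.mem_K G _ F _ V L T fr
  refine ⟨?_, ?_, ?_, ?_⟩
  · -- direct decomposition
    intro g hg hgN
    have hc : (fr.ρ ⟨g, hg⟩).1 1 0 ≠ 0 := fun h => hgN (fr.mem_normalizer_of_upper ⟨g, hg⟩ h)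
    set A := fr.ρ ⟨g, hg⟩ with hA
    have hK' : ∀ {v : G}, v ∈ V ⊓ Subgroup.centralizer ((T.map (MulAut.conj g).toMonoidHom : Subgroup G) : Set G) ↔
        ∃ hv : v ∈ V, - A.1 1 0 * fr.ψ ⟨v, hv⟩ 0 + A.1 0 0 * fr.ψ ⟨v, hv⟩ 1 = 0 := by
      intro v
      constructor
      · rintro ⟨hv, h⟩
        exact ⟨hv, (fr.mem_c_conj ⟨g, hg⟩ hv).1 h⟩
      · rintro ⟨hv, h⟩
        exact ⟨hv, (fr.mem_c_conj ⟨g, hg⟩ hv).2 h⟩
    refine ⟨inf_le_left, inf_le_left, ?_, ?_, ?_⟩
    · intro a ha b hb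
      exact fr.comm_elt ⟨a, ha.1⟩ ⟨b, hb.1⟩
    · rw [eq_bot_iff]
      intro v hv
      obtain ⟨hv1, h1⟩ := hK.1 hv.1
      obtain ⟨hv2, h2⟩ := hK'.1 hv.2
      rw [h1, mul_zero, add_zero] at h2
      have h0 : fr.ψ ⟨v, hv1⟩ 0 = 0 := by
        have := (mul_eq_zero.1 h2).resolve_left (neg_ne_zero.2 hc)
        exact this
      have : fr.ψ ⟨v, hv1⟩ = 0 := NatMod.vec2_ext h0 h1
      have h3 := fr.ψ_eq_zero.1 this
      exact congrArg (fun z : V => (z : G)) h3
    · apply le_antisymm (sup_le inf_le_left inf_le_left)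
      intro v hv
      set a := A.1 0 0
      set c := A.1 1 0
      set u := fr.ψ ⟨v, hv⟩ with hu
      obtain ⟨k', hk'⟩ := fr.exists_of_vec ![a / c * u 1, u 1]
      obtain ⟨k, hk⟩ := fr.exists_of_vec ![u 0 - a / c * u 1, 0]
      have hk1 : (k : G) ∈ V ⊓ Subgroup.centralizer (T : Set G) := hK.2 ⟨k.2, by
        show fr.ψ k 1 = 0
        rw [hk]; rfl⟩
      have hk2 : (k' : G) ∈ V ⊓ Subgroup.centralizer ((T.map (MulAut.conj g).toMonoidHom : Subgroup G) : Set G) :=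
        hK'.2 ⟨k'.2, by
          show - c * fr.ψ k' 0 + a * fr.ψ k' 1 = 0
          rw [hk']
          simp only [Matrix.cons_val_zero, Matrix.cons_val_one]
          field_simp
          ring⟩
      have hv2 : (⟨v, hv⟩ : V) = k * k' := by
        apply fr.ψ_bij.1
        rw [fr.ψ_mul, hk, hk']
        apply NatMod.vec2_ext
        · simp [← hu]
        · simp [← hu]
      have : v = k * k' := congrArg (fun z : V => (z : G)) hv2
      rw [this]
      exact Subgroup.mul_mem_sup hk1 hk2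
  · intro x hx hx1 hc
    exact fr.fixed_eq_bot (p := p) hx hx1 hc
  · -- irreducibility on `C_V(S)`
    intro U' hU' hN
    by_cases hb : U' = ⊥
    · exact Or.inl hb
    right
    apply le_antisymm hU'
    obtain ⟨k₀, hk₀, hne⟩ := (Subgroup.ne_bot_iff_exists_ne_one.1 hb : ∃ a : U', a ≠ 1) |>.imp (fun a h => h) |> fun ⟨a, h⟩ =>
      (⟨a.1, a.2, fun h2 => h (Subtype.ext h2)⟩ : ∃ k ∈ U', k ≠ (1 : G))
    obtain ⟨hk0V, hk01⟩ := hK.1 (hU' hk₀)
    have hc0 : fr.ψ ⟨k₀, hk0V⟩ 0 ≠ 0 := by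
      intro h
      have : fr.ψ ⟨k₀, hk0V⟩ = 0 := NatMod.vec2_ext h hk01
      exact hne (congrArg (fun z : V => (z : G)) (fr.ψ_eq_zero.1 this))
    intro k hk
    obtain ⟨hkV, hk1⟩ := hK.1 hk
    by_cases he : fr.ψ ⟨k, hkV⟩ 0 = 0
    · have : fr.ψ ⟨k, hkV⟩ = 0 := NatMod.vec2_ext he hk1
      have h1 : k = 1 := congrArg (fun z : V => (z : G)) (fr.ψ_eq_zero.1 this)
      rw [h1]; exact U'.one_mem
    · set t := fr.ψ ⟨k, hkV⟩ 0 / fr.ψ ⟨k₀, hk0V⟩ 0 with ht
      have ht0 : t ≠ 0 := div_ne_zero he hc0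
      obtain ⟨l, hl⟩ := fr.exists_of_mat (d t ht0)
      have hlN : (l : G) ∈ L ⊓ Subgroup.normalizer (T : Set G) :=
        ⟨l.2, fr.mem_normalizer_of_upper l (by rw [hl]; simp)⟩
      have h1 := (Subgroup.mem_normalizer_iff.1 (hN hlN) k₀).1 hk₀
      have h2 : k = (l : G) * k₀ * (l : G)⁻¹ := by
        have h3 := fr.ψ_conj l ⟨k₀, hk0V⟩
        have h4 : (⟨k, hkV⟩ : V) = ⟨_, fr.conj_mem l ⟨k₀, hk0V⟩⟩ := by
          apply fr.ψ_bij.1
          rw [h3, hl]
          apply NatMod.vec2_ext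
          · rw [NatMod.mulVec_zero']
            simp [hk01, ht]
            field_simp
          · rw [NatMod.mulVec_one']
            simp [hk01, hk1]
        exact congrArg (fun z : V => (z : G)) h4
      rw [h2]; exact h1
  · -- irreducibility on `V / C_V(S)`
    intro U' hKU hUV hN
    by_cases hb : U' ≤ V ⊓ Subgroup.centralizer (T : Set G)
    · exact Or.inl (le_antisymm hb hKU)
    right
    apply le_antisymm hUV
    obtain ⟨u, hu, hne⟩ := SetLike.not_le_iff_exists.1 hb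
    have huV := hUV hu
    have hc0 : fr.ψ ⟨u, huV⟩ 1 ≠ 0 := fun h => hne (hK.2 ⟨huV, h⟩)
    intro v hv
    by_cases he : fr.ψ ⟨v, hv⟩ 1 = 0
    · exact hKU (hK.2 ⟨hv, he⟩)
    · set t := fr.ψ ⟨u, huV⟩ 1 / fr.ψ ⟨v, hv⟩ 1 with ht
      have ht0 : t ≠ 0 := div_ne_zero hc0 he
      obtain ⟨l, hl⟩ := fr.exists_of_mat (d t ht0)
      have hlN : (l : G) ∈ L ⊓ Subgroup.normalizer (T : Set G) :=
        ⟨l.2, fr.mem_normalizer_of_upper l (by rw [hl]; simp)⟩
      have h1 := (Subgroup.mem_normalizer_iff.1 (hN hlN) u).1 hu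
      have h3 := fr.ψ_conj l ⟨u, huV⟩
      have hkk : v * ((l : G) * u * (l : G)⁻¹)⁻¹ ∈ V ⊓ Subgroup.centralizer (T : Set G) := by
        have hmem : v * ((l : G) * u * (l : G)⁻¹)⁻¹ ∈ V := V.mul_mem hv (V.inv_mem (hUV h1))
        refine hK.2 ⟨hmem, ?_⟩
        have h4 : (⟨v * ((l : G) * u * (l : G)⁻¹)⁻¹, hmem⟩ : V) = ⟨v, hv⟩ * (⟨_, fr.conj_mem l ⟨u, huV⟩⟩ : V)⁻¹ := by
          apply Subtype.ext; simp
        rw [h4, fr.ψ_mul, fr.ψ_inv, h3, hl]
        show fr.ψ ⟨v, hv⟩ 1 + - (Matrix.mulVec (d t ht0).1 (fr.ψ ⟨u, huV⟩)) 1 = 0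
        rw [NatMod.mulVec_one']
        simp [ht]
        field_simp
        simp
      have h5 := U'.mul_mem (hKU hkk) h1
      have h6 : v = v * ((l : G) * u * (l : G)⁻¹)⁻¹ * ((l : G) * u * (l : G)⁻¹) := by group
      rw [h6]
      exact h5

end Cfsg.Agent.S2780
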