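import Cfsg.Statements.S2781
import Mathlib
import Cfsg.Agent.S0699

set_option autoImplicit false
open Cfsg

namespace Cfsg.Agent.S2781

open Subgroup
open scoped commutatorElement

/-- Let H act faithfully by conjugation on the elementary abelian p-subgroup V of a finite group, let O^p(H) be the subgroup of H generated by its elements of order prime to p, and T a Sylow p-subgroup of O^p(H). If V is generated by the H-conjugates of C_V(T) (V is the smallest H-invariant subgroup containing C_V(T)), then V = [V, O^p(H)]·C_V(O^p(H)). -/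
theorem result {G : Type*} [Group G] [Finite G] {p : ℕ} [Fact p.Prime] (V H : Subgroup G) (hV : Cfsg.IsElementaryAbelian p V) (hHV : H ≤ Subgroup.normalizer (V : Set G)) (hf : H ⊓ Subgroup.centralizer (V : Set G) = ⊥) (R : Subgroup G) (hR : R = (Cfsg.pResidual p ↥H).map H.subtype) (S : Sylow p ↥R) (T : Subgroup G) (hT : T = ((S : Subgroup ↥R).map R.subtype)) (hgen : ∀ W : Subgroup G, H ≤ Subgroup.normalizer (W : Set G) → (V ⊓ Subgroup.centralizer ((T : Subgroup G) : Set G)) ≤ W → V ≤ W) : ⁅V, R⁆ ⊔ (V ⊓ Subgroup.centralizer ((R : Subgroup G) : Set G)) = V := by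
  classical
  subst hT
  obtain ⟨hcomm', hV2⟩ := hV
  have hpp : p.Prime := Fact.out
  -- R is H-invariant
  have hRnorm : ∀ h ∈ H, ∀ r ∈ R, h * r * h⁻¹ ∈ R := by
    intro h hh r hr
    rw [hR] at hr ⊢
    obtain ⟨r', hr', rfl⟩ := hr
    have hn : ∀ x ∈ Cfsg.pResidual p ↥H, ∀ g : ↥H, g * x * g⁻¹ ∈ Cfsg.pResidual p ↥H := by
      intro x hx g
      induction hx using Subgroup.closure_induction with
      | mem y hy =>
        apply Subgroup.subset_closure
        have : orderOf (g * y * g⁻¹) = orderOf y := (MulAut.conj g).orderOf_eq y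
        show Nat.Coprime (orderOf (g * y * g⁻¹)) p
        rw [this]
        exact hy
      | one => simp [Subgroup.one_mem]
      | mul y z _ _ hy hz =>
        have e : g * (y * z) * g⁻¹ = (g * y * g⁻¹) * (g * z * g⁻¹) := by group
        rw [e]
        exact Subgroup.mul_mem _ hy hz
      | inv y _ hy =>
        have e : g * y⁻¹ * g⁻¹ = (g * y * g⁻¹)⁻¹ := by group
        rw [e]
        exact Subgroup.inv_mem _ hy
    exact ⟨_, hn r' hr' ⟨h, hh⟩, rfl⟩
  have hRH : R ≤ H := by
    rw [hR]
    rintro _ ⟨r', -, rfl⟩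
    exact r'.2
  set W := ⁅V, R⁆ ⊔ (V ⊓ Subgroup.centralizer (R : Set G)) with hW
  -- W ≤ V
  have hcV : ⁅V, R⁆ ≤ V := by
    rw [Subgroup.commutator_le]
    intro v hv r hr
    have h1 : r * v⁻¹ * r⁻¹ ∈ V := (mem_normalizer_iff.mp (hHV (hRH hr)) _).mp (V.inv_mem hv)
    have e : ⁅v, r⁆ = v * (r * v⁻¹ * r⁻¹) := by
      rw [commutatorElement_def]; group
    rw [e]
    exact V.mul_mem hv h1
  have hWV : W ≤ V := sup_le hcV inf_le_left
  -- H normalizes W
  have hHW : H ≤ Subgroup.normalizer (W : Set G) := by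
    intro h hh
    apply Cfsg.Agent.S0699.mem_normalizer_of_forall
    intro t ht
    have hle : W.map (MulAut.conj h).toMonoidHom ≤ W := by
      rw [hW, Subgroup.map_sup, Subgroup.map_commutator]
      apply sup_le_sup
      · apply Subgroup.commutator_mono
        · rintro _ ⟨v, hv, rfl⟩
          exact (mem_normalizer_iff.mp (hHV hh) v).mp hv
        · rintro _ ⟨r, hr, rfl⟩
          exact hRnorm h hh r hr
      · rintro _ ⟨v, ⟨hv, hvC⟩, rfl⟩
        refine ⟨(mem_normalizer_iff.mp (hHV hh) v).mp hv, ?_⟩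
        show h * v * h⁻¹ ∈ Subgroup.centralizer (R : Set G)
        rw [Subgroup.mem_centralizer_iff]
        intro r hr
        have hr' : h⁻¹ * r * h ∈ R := by
          have := hRnorm h⁻¹ (H.inv_mem hh) r hr
          simpa using this
        have h1 := (Subgroup.mem_centralizer_iff.mp hvC) _ hr'
        calc r * (h * v * h⁻¹) = h * ((h⁻¹ * r * h) * v) * h⁻¹ := by group
          _ = h * (v * (h⁻¹ * r * h)) * h⁻¹ := by rw [h1]
          _ = h * v * h⁻¹ * r := by group
    exact hle ⟨t, ht, rfl⟩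
  -- the key inclusion
  have hkey : V ⊓ Subgroup.centralizer (((S : Subgroup ↥R).map R.subtype : Subgroup G) : Set G) ≤ W := by
    rintro v ⟨hvV, hvT⟩
    letI cg : CommGroup V := { (inferInstance : Group V) with mul_comm := fun a b => hcomm'.is_comm.comm a b }
    haveI : Fintype (↥R ⧸ (S : Subgroup ↥R)) := Fintype.ofFinite _
    have hconjV : ∀ (r : ↥R) (u : G), u ∈ V → (r : G) * u * (r : G)⁻¹ ∈ V := fun r u hu =>
      (mem_normalizer_iff.mp (hHV (hRH r.2)) u).mp hu
    let f : (↥R ⧸ (S : Subgroup ↥R)) → V := fun c => ⟨((c.out : ↥R) : G) * v * ((c.out : ↥R) : G)⁻¹, hconjV _ _ hvV⟩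
    set Tr : V := ∏ c, f c with hTr
    -- invariance
    have hTrC : (Tr : G) ∈ V ⊓ Subgroup.centralizer (R : Set G) := by
      refine ⟨Tr.2, ?_⟩
      show (Tr : G) ∈ Subgroup.centralizer _
      rw [Subgroup.mem_centralizer_iff]
      intro r hr
      let β : V →* V :=
        { toFun := fun u => ⟨r * u * r⁻¹, hconjV ⟨r, hr⟩ _ u.2⟩
          map_one' := by
            apply Subtype.ext
            show r * 1 * r⁻¹ = 1
            group
          map_mul' := by
            intro a b
            apply Subtype.ext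
            show r * (a * b) * r⁻¹ = (r * a * r⁻¹) * (r * b * r⁻¹)
            group }
      have hβ : β Tr = Tr := by
        rw [hTr, map_prod]
        apply Fintype.prod_equiv (MulAction.toPerm (⟨r, hr⟩ : ↥R))
        intro c
        apply Subtype.ext
        show r * (((c.out : ↥R) : G) * v * ((c.out : ↥R) : G)⁻¹) * r⁻¹ = (((⟨r, hr⟩ : ↥R) • c).out : ↥R) * v * ((((⟨r, hr⟩ : ↥R) • c).out : ↥R) : G)⁻¹
        set c' := (⟨r, hr⟩ : ↥R) • c with hc'
        have hs : (c'.out)⁻¹ * ((⟨r, hr⟩ : ↥R) * c.out) ∈ (S : Subgroup ↥R) := by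
          rw [← QuotientGroup.eq]
          rw [QuotientGroup.out_eq']
          rw [hc']
          conv_lhs => rw [← QuotientGroup.out_eq' c]
          rw [MulAction.Quotient.smul_coe]
          rfl
        set s := (c'.out)⁻¹ * ((⟨r, hr⟩ : ↥R) * c.out) with hsdef
        have hsv : (s : G) * v = v * (s : G) := by
          have h1 := (Subgroup.mem_centralizer_iff.mp hvT) (s : G) ⟨s, hs, rfl⟩
          exact h1
        have e1 : r * ((c.out : ↥R) : G) = ((c'.out : ↥R) : G) * (s : G) := by
          rw [hsdef]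
          show r * ((c.out : ↥R) : G) = ((c'.out : ↥R) : G) * ((((c'.out : ↥R) : G))⁻¹ * (r * ((c.out : ↥R) : G)))
          group
        calc r * (((c.out : ↥R) : G) * v * ((c.out : ↥R) : G)⁻¹) * r⁻¹
            = (r * ((c.out : ↥R) : G)) * v * (r * ((c.out : ↥R) : G))⁻¹ := by group
          _ = ((c'.out : ↥R) : G) * ((s : G) * v) * (s : G)⁻¹ * ((c'.out : ↥R) : G)⁻¹ := by rw [e1]; group
          _ = ((c'.out : ↥R) : G) * v * ((c'.out : ↥R) : G)⁻¹ := by rw [hsv]; group
      have h2 : r * (Tr : G) * r⁻¹ = Tr := congrArg Subtype.val hβ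
      calc r * (Tr : G) = (r * (Tr : G) * r⁻¹) * r := by group
        _ = (Tr : G) * r := by rw [h2]
    -- the quotient
    have hcomK : ∀ c, ((f c : V) : G) * v⁻¹ ∈ ⁅V, R⁆ := by
      intro c
      have e : ((f c : V) : G) * v⁻¹ = (⁅v, ((c.out : ↥R) : G)⁆)⁻¹ := by
        show ((c.out : ↥R) : G) * v * ((c.out : ↥R) : G)⁻¹ * v⁻¹ = _
        rw [commutatorElement_def]; group
      rw [e]
      exact Subgroup.inv_mem _ (Subgroup.commutator_mem_commutator hvV (c.out : ↥R).2)
    let v0 : V := ⟨v, hvV⟩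
    have hprod : ((∏ c, (f c * v0⁻¹) : V) : G) ∈ ⁅V, R⁆ := by
      have : (∏ c, (f c * v0⁻¹) : V) ∈ (⁅V, R⁆).subgroupOf V := by
        apply Subgroup.prod_mem
        intro c _
        exact mem_subgroupOf.mpr (hcomK c)
      exact mem_subgroupOf.mp this
    set m := Fintype.card (↥R ⧸ (S : Subgroup ↥R)) with hm
    have hprod2 : (∏ c, (f c * v0⁻¹) : V) = Tr * (v0 ^ m)⁻¹ := by
      rw [Finset.prod_mul_distrib, Finset.prod_const, Finset.card_univ, inv_pow]
    have hvm : ((v0 ^ m : V) : G) ∈ W := by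
      rw [hprod2] at hprod
      have h3 : ((Tr : V) : G) ∈ W := (le_sup_right : _ ≤ W) hTrC
      have h4 : ((Tr * (v0 ^ m)⁻¹ : V) : G) ∈ W := (le_sup_left : _ ≤ W) hprod
      have e : ((v0 ^ m : V) : G) = (((Tr * (v0 ^ m)⁻¹ : V) : G))⁻¹ * ((Tr : V) : G) := by
        show _ = (((Tr : V) : G) * ((v0 ^ m : V) : G)⁻¹)⁻¹ * ((Tr : V) : G)
        group
      rw [e]
      exact W.mul_mem (W.inv_mem h4) h3
    -- m coprime to p
    have hmp : Nat.Coprime m p := by
      rw [Nat.coprime_comm, Nat.Prime.coprime_iff_not_dvd hpp]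
      intro h
      apply S.not_dvd_index
      have e : (S : Subgroup ↥R).index = m := by
        rw [Subgroup.index, Nat.card_eq_fintype_card]
      rw [e]
      exact h
    obtain ⟨s, -, hs⟩ := Nat.exists_mul_mod_eq_one_of_coprime hmp hpp.one_lt
    have hv1 : v0 ^ (m * s) = v0 := by
      have h1 : m * s = p * (m * s / p) + 1 := by
        have := Nat.div_add_mod (m * s) p
        rw [hs] at this
        exact this.symm
      have h2 : v0 ^ p = 1 := by
        apply Subtype.ext
        exact hV2 v hvV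
      rw [h1, pow_succ, pow_mul, h2, one_pow, one_mul]
    have hfin : v = ((v0 ^ m : V) : G) ^ s := by
      have := congrArg (Subtype.val) hv1
      rw [pow_mul] at this
      exact this.symm
    rw [hfin]
    exact W.pow_mem hvm s
  exact le_antisymm hWV (hgen W hHW hkey)

end Cfsg.Agent.S2781
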