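import Cfsg.Statements.S2787
import Cfsg.Agent.Lib.QuadPair.Act
import Cfsg.Agent.Lib.QuadPair.Ree

set_option autoImplicit false
open Cfsg

namespace Cfsg.Agent.S2787

open Cfsg.Agent.Lib.QuadPair

/-- Let p be a prime and let H act by conjugation on the elementary abelian p-subgroup V of a finite group, irreducibly (no H-invariant subgroups of V other than 1 and V) and nontrivially, and suppose H/C_H(V) is isomorphic to PSL₂(F) for a field F with p^n elements, p^n odd, or p = 3 and H/C_H(V) is isomorphic to a Ree group ²G₂(3^(2m+1)), m ≥ 1. Then no subgroup A of H acting nontrivially on V acts quadratically: [V, A, A] = 1 forces [V, A] = 1. -/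
theorem result {G : Type*} [Group G] [Finite G] {p : ℕ} [Fact p.Prime] (V H : Subgroup G) (hV : Cfsg.IsElementaryAbelian p V) (hHV : H ≤ Subgroup.normalizer (V : Set G)) (hirr : ∀ U : Subgroup G, U ≤ V → H ≤ Subgroup.normalizer (U : Set G) → U = ⊥ ∨ U = V) (hnt : ¬ H ≤ Subgroup.centralizer (V : Set G)) [hn : ((Subgroup.centralizer (V : Set G)).subgroupOf H).Normal] (hq : (∃ (F : Type) (_ : Field F) (_ : Fintype F) (n : ℕ), Fintype.card F = p ^ n ∧ Odd (Fintype.card F) ∧ Nonempty (↥H ⧸ (Subgroup.centralizer (V : Set G)).subgroupOf H ≃* Matrix.ProjectiveSpecialLinearGroup (Fin 2) F)) ∨ (p = 3 ∧ Cfsg.Lie.IsoRee (↥H ⧸ (Subgroup.centralizer (V : Set G)).subgroupOf H))) (A : Subgroup G) (hA : A ≤ H) (hquad : ⁅⁅V, A⁆, A⁆ = ⊥) : ⁅V, A⁆ = ⊥ := by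
  classical
  have hpp : p.Prime := Fact.out
  rcases hq with ⟨F, instF, instFt, n, hcard, hodd, ⟨e⟩⟩ | ⟨rfl, K, instK, instKt, m, hm, hK, ⟨e⟩⟩
  · have hn0 : n ≠ 0 := by
      rintro rfl
      have := Fintype.one_lt_card (α := F)
      rw [hcard, pow_zero] at this
      exact lt_irrefl _ this
    have hp2 : p ≠ 2 := by
      rintro rfl
      rw [hcard] at hodd
      exact (Nat.not_even_iff_odd.2 hodd) ((Nat.even_pow.2 ⟨even_two, hn0⟩))
    haveI : CharP F p := by
      obtain ⟨r, hr⟩ := CharP.exists F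
      haveI := hr
      obtain ⟨k, hrp, hk⟩ := FiniteField.card F r
      have h1 : r ∣ p ^ n := by
        rw [← hcard, hk]
        exact dvd_pow_self r k.ne_zero
      have h2 : r = p := (Nat.prime_dvd_prime_iff_eq hrp hpp).1 (hrp.dvd_of_dvd_pow h1)
      rwa [h2] at hr
    refine comm_eq_bot hpp hp2 V H hV hHV ?_ A hA hquad
    intro R _ σ hinj hpR h2 γ hγ
    have hγ' : Quad (σ.comp e.symm.toMonoidHom) (e γ) := by
      unfold Quad at *
      simpa using hγ
    have := psl_key hp2 (σ.comp e.symm.toMonoidHom)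
      (hinj.comp e.symm.injective) hpR h2 hγ'
    exact e.injective (by rw [this, map_one])
  · haveI hc := Cfsg.Agent.Lib.Ree.Main.charP_of_card hK
    refine comm_eq_bot hpp (by norm_num) V H hV hHV ?_ A hA hquad
    intro R _ σ hinj hpR h2 γ hγ
    have hγ' : Quad (σ.comp e.symm.toMonoidHom) (e γ) := by
      unfold Quad at *
      simpa using hγ
    have hfin : Finite ↥(Cfsg.Lie.twistedG2 K (3 ^ m)) := inferInstance
    have := ree_key (Cfsg.Agent.Lib.Ree.Abs.dat hK) (σ.comp e.symm.toMonoidHom)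
      (hinj.comp e.symm.injective) (by exact_mod_cast hpR) h2 hγ'
    exact e.injective (by rw [this, map_one])

end Cfsg.Agent.S2787
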