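import Cfsg.Statements.S2788
import Cfsg.Agent.Lib.PGroup.NatBound
import Cfsg.Agent.Lib.PGroup.NatRecG
-- import your own Cfsg.Agent.* helpers here

set_option autoImplicit false
open Cfsg
open Cfsg.Agent.Lib.PGroup.VRep

namespace Cfsg.Agent.S2788

/-- Let H act faithfully by conjugation on the elementary abelian p-subgroup V of a finite group with H ≅ SL₂(F), F a field with p^n elements, S a Sylow p-subgroup of H, and A ≤ S a subgroup of order at least 3 acting quadratically on V ([V, A, A] = 1). Then |V/C_V(a)| ≥ p^n for every nonidentity a ∈ A. -/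
theorem result {G : Type*} [Group G] [Finite G] {p : ℕ} [Fact p.Prime] (V H : Subgroup G) (hV : Cfsg.IsElementaryAbelian p V) (hHV : H ≤ Subgroup.normalizer (V : Set G)) (hf : H ⊓ Subgroup.centralizer (V : Set G) = ⊥) {F : Type*} [Field F] [Fintype F] (n : ℕ) (hF : Fintype.card F = p ^ n) (hiso : Nonempty (↥H ≃* Matrix.SpecialLinearGroup (Fin 2) F)) (S : Sylow p ↥H) (T : Subgroup G) (hT : T = ((S : Subgroup ↥H).map H.subtype)) (A : Subgroup G) (hA : A ≤ T) (hA3 : 3 ≤ Nat.card A) (hquad : ⁅⁅V, A⁆, A⁆ = ⊥) : ∀ a ∈ A, a ≠ 1 → p ^ n ≤ ((V ⊓ Subgroup.centralizer ({a} : Set G))).relIndex V := by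
  intro a ha ha1
  classical
  have hchar : CharP F p := Cfsg.Agent.Lib.PGroup.NatMod.charP_of_card' hF
  obtain ⟨e₀⟩ := hiso
  obtain ⟨e, he⟩ := Cfsg.Agent.Lib.PGroup.NatRecG.exists_iso_sylow S e₀
  let _ := Cfsg.Agent.Lib.PGroup.NatRecG.act hV hHV e
  have hval : ∀ (B : Matrix.SpecialLinearGroup (Fin 2) F) (w : VMod p V hV), VMod.val (B • w) =
      ((e.symm B : H) : G) * VMod.val w * ((e.symm B : H) : G)⁻¹ := fun B w => rfl
  have haT : a ∈ T := hA ha
  rw [hT] at haT
  obtain ⟨g, hg, rfl⟩ := haT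
  obtain ⟨t, ht⟩ := (he g).2 hg
  have ht0 : t ≠ 0 := by
    rintro rfl
    apply ha1
    have h1 : e g = 1 := by rw [ht, Cfsg.Agent.Lib.PSL2.Basic.x_zero]
    have h2 : g = 1 := by simpa using h1
    rw [h2]
    rfl
  have hgx : e.symm (Cfsg.Agent.Lib.PSL2.Basic.x t) = g := by
    rw [← ht, e.symm_apply_apply]
  have hW : ∀ v : VMod p V hV, p • v = 0 := by
    intro v
    apply VMod.ext'
    rw [VMod.val_nsmul, VMod.val_zero]
    exact hV.2 _ (VMod.mem v)
  have hfaith : ∀ B : Matrix.SpecialLinearGroup (Fin 2) F, (∀ v : VMod p V hV, B • v = v) → B = 1 := by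
    intro B hB
    have h1 : ((e.symm B : H) : G) ∈ H ⊓ Subgroup.centralizer (V : Set G) := by
      refine ⟨(e.symm B).2, Subgroup.mem_centralizer_iff.2 ?_⟩
      intro v hv
      have h2 := congrArg VMod.val (hB (VMod.mk hV v hv))
      rw [hval] at h2
      exact (mul_inv_eq_iff_eq_mul.1 h2).symm
    rw [hf, Subgroup.mem_bot] at h1
    have h3 : e.symm B = 1 := Subtype.ext h1
    simpa using h3
  have hb := Cfsg.Agent.Lib.PGroup.NatBound.bound (Fact.out : p.Prime) hF hW hfaith ht0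
  set D := V ⊓ Subgroup.centralizer ({(H.subtype g : G)} : Set G) with hD
  have hcard : Nat.card (Cfsg.Agent.Lib.PGroup.NatBound.fixS (VMod p V hV) (Cfsg.Agent.Lib.PSL2.Basic.x t : Matrix.SpecialLinearGroup (Fin 2) F)) = Nat.card D := by
    refine Nat.card_congr ⟨fun k => ⟨VMod.val k.1, VMod.mem k.1, ?_⟩, fun k => ⟨VMod.mk hV k.1 k.2.1, ?_⟩, fun k => ?_, fun k => ?_⟩
    · have h1 : (Cfsg.Agent.Lib.PSL2.Basic.x t : Matrix.SpecialLinearGroup (Fin 2) F) • k.1 = k.1 := k.2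
      have h2 := congrArg VMod.val h1
      rw [hval, hgx] at h2
      refine Subgroup.mem_centralizer_iff.2 ?_
      rintro _ rfl
      exact (mul_inv_eq_iff_eq_mul.1 h2)
    · show (Cfsg.Agent.Lib.PSL2.Basic.x t : Matrix.SpecialLinearGroup (Fin 2) F) • (VMod.mk hV k.1 k.2.1) = VMod.mk hV k.1 k.2.1
      apply VMod.ext'
      rw [hval, hgx]
      have h3 := Subgroup.mem_centralizer_iff.1 k.2.2 (H.subtype g : G) rfl
      simp only [VMod.val_mk]
      exact mul_inv_eq_iff_eq_mul.2 h3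
    · apply Subtype.ext; apply VMod.ext'; rfl
    · apply Subtype.ext; rfl
  have h1 := AddSubgroup.card_mul_index (Cfsg.Agent.Lib.PGroup.NatBound.fixS (VMod p V hV) (Cfsg.Agent.Lib.PSL2.Basic.x t : Matrix.SpecialLinearGroup (Fin 2) F))
  have h2 := Subgroup.relIndex_mul_relIndex (⊥ : Subgroup G) D V bot_le inf_le_left
  rw [Subgroup.relIndex_bot_left, Subgroup.relIndex_bot_left] at h2
  rw [hcard, VMod.card_eq, ← h2] at h1
  have h3 : 0 < Nat.card D := Nat.card_pos
  have h4 := Nat.eq_of_mul_eq_mul_left h3 h1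
  rw [← h4]
  exact hb

end Cfsg.Agent.S2788
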