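import Cfsg.Statements.S2791
import Mathlib
import Cfsg.Agent.Lib.PGroup.AlperinChain
import Cfsg.Agent.Lib.Basic.SylowUtil
import Cfsg.Agent.Lib.Coprime.Three
-- import your own Cfsg.Agent.* helpers here

set_option autoImplicit false
set_option linter.unusedSectionVars false
set_option linter.unusedVariables false
set_option linter.style.haveILetI false
open Cfsg

namespace Cfsg.Agent.S2791

open Cfsg.Agent.Lib.PGroup.AlperinChain

section Local

variable {Γ : Type*} [Group Γ] [Finite Γ] {p : ℕ} [hp : Fact p.Prime]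

/-- The stabilizer of the series `F ≥ D₀ ≥ 1`. -/
def stab (F D₀ : Subgroup Γ) [D₀.Normal] : Subgroup Γ where
  carrier := {s | (∀ d ∈ D₀, s * d = d * s) ∧ ∀ f ∈ F, s * f * s⁻¹ * f⁻¹ ∈ D₀}
  one_mem' := by
    refine ⟨fun d _ => by simp, fun f _ => by simp [D₀.one_mem]⟩
  mul_mem' := by
    rintro s t ⟨h1, h2⟩ ⟨h3, h4⟩
    refine ⟨fun d hd => ?_, fun f hf => ?_⟩
    · rw [mul_assoc, h3 d hd, ← mul_assoc, h1 d hd, mul_assoc]
    · have e : s * t * f * (s * t)⁻¹ * f⁻¹ = s * (t * f * t⁻¹ * f⁻¹) * s⁻¹ * (s * f * s⁻¹ * f⁻¹) := by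
        group
      rw [e]
      refine D₀.mul_mem ?_ (h2 f hf)
      have hd := h4 f hf
      rw [h1 _ hd]
      simpa using hd
  inv_mem' := by
    rintro s ⟨h1, h2⟩
    refine ⟨fun d hd => ?_, fun f hf => ?_⟩
    · rw [inv_mul_eq_iff_eq_mul, ← mul_assoc, h1 d hd, mul_assoc, mul_inv_cancel, mul_one]
    · have hd := D₀.inv_mem (h2 f hf)
      have e : s⁻¹ * f * s⁻¹⁻¹ * f⁻¹ = s⁻¹ * (s * f * s⁻¹ * f⁻¹)⁻¹ * s := by
        group
      rw [e, mul_assoc, ← h1 _ hd, ← mul_assoc, inv_mul_cancel, one_mul]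
      exact hd

theorem mem_stab {F D₀ : Subgroup Γ} [D₀.Normal] {s : Γ} :
    s ∈ stab F D₀ ↔ (∀ d ∈ D₀, s * d = d * s) ∧ ∀ f ∈ F, s * f * s⁻¹ * f⁻¹ ∈ D₀ := Iff.rfl

instance stab_normal (F D₀ : Subgroup Γ) [hF : F.Normal] [hD : D₀.Normal] : (stab F D₀).Normal where
  conj_mem := by
    rintro s ⟨h1, h2⟩ y
    refine ⟨fun d hd => ?_, fun f hf => ?_⟩
    · have hd' := hD.conj_mem d hd y⁻¹
      have := h1 _ hd'
      calc y * s * y⁻¹ * d = y * (s * (y⁻¹ * d * y⁻¹⁻¹)) * y⁻¹ := by group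
        _ = y * ((y⁻¹ * d * y⁻¹⁻¹) * s) * y⁻¹ := by rw [this]
        _ = d * (y * s * y⁻¹) := by group
    · have hf' := hF.conj_mem f hf y⁻¹
      have := h2 _ hf'
      have e : y * s * y⁻¹ * f * (y * s * y⁻¹)⁻¹ * f⁻¹ =
          y * (s * (y⁻¹ * f * y⁻¹⁻¹) * s⁻¹ * (y⁻¹ * f * y⁻¹⁻¹)⁻¹) * y⁻¹ := by group
      rw [e]
      exact hD.conj_mem _ this y

theorem stab_pow {F D₀ : Subgroup Γ} [D₀.Normal] {s : Γ} (hs : s ∈ stab F D₀) {f : Γ} (hf : f ∈ F) (m : ℕ) :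
    s ^ m * f * (s ^ m)⁻¹ = (s * f * s⁻¹ * f⁻¹) ^ m * f := by
  obtain ⟨h1, h2⟩ := hs
  have hd := h2 f hf
  induction m with
  | zero => simp
  | succ m ih =>
    have hdm : (s * f * s⁻¹ * f⁻¹) ^ m ∈ D₀ := D₀.pow_mem hd m
    have e1 : s ^ (m + 1) * f * (s ^ (m + 1))⁻¹ = s * (s ^ m * f * (s ^ m)⁻¹) * s⁻¹ := by
      rw [pow_succ']
      group
    rw [e1, ih, ← mul_assoc, h1 _ hdm, pow_succ]
    group

theorem stab_pow_card {F D₀ : Subgroup Γ} [D₀.Normal] {s : Γ} (hs : s ∈ stab F D₀) :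
    s ^ Nat.card D₀ ∈ Subgroup.centralizer (F : Set Γ) := by
  rw [Subgroup.mem_centralizer_iff]
  intro f hf
  have h1 := stab_pow hs hf (Nat.card D₀)
  have h2 : (s * f * s⁻¹ * f⁻¹) ^ Nat.card D₀ = 1 := by
    have := pow_card_eq_one' (x := (⟨_, hs.2 f hf⟩ : D₀))
    exact Subtype.ext_iff.mp this
  rw [h2, one_mul, mul_inv_eq_iff_eq_mul] at h1
  exact h1.symm

/-- The local lemma. -/
theorem local_lemma (F D₀ Z : Subgroup Γ) [F.Normal] [D₀.Normal] (hD₀F : D₀ ≤ F) (hD₀ : IsPGroup p D₀)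
    (hZ : IsPGroup p Z) (R : Sylow p Γ) (hz : Z ≤ stab F D₀) :
    ∃ c ∈ Subgroup.centralizer (F : Set Γ), ∀ z ∈ Z, c * z * c⁻¹ ∈ (R : Subgroup Γ) := by
  classical
  haveI := Fintype.ofFinite Γ
  set T := stab F D₀ with hT
  set C := Subgroup.centralizer (F : Set Γ) with hC
  obtain ⟨Q, hQ⟩ := Cfsg.Agent.Lib.Basic.SylowUtil.exists_sylow_inf_normal R T
  -- conjugating Z into Q
  have hZ' : IsPGroup p (Z.subgroupOf T) := hZ.comap_of_injective T.subtype T.subtype_injective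
  obtain ⟨Q₁, hQ₁⟩ := hZ'.exists_le_sylow
  obtain ⟨w, hw⟩ := MulAction.exists_smul_eq T Q₁ Q
  have hzQ : ∀ z (hzz : z ∈ Z), (w : Γ) * z * (w : Γ)⁻¹ ∈ ((Q : Subgroup T).map T.subtype) := by
    intro z hzz
    have h1 : (⟨z, hz hzz⟩ : T) ∈ (Q₁ : Subgroup T) := hQ₁ (by simpa [Subgroup.mem_subgroupOf] using hzz)
    have h2 : w * (⟨z, hz hzz⟩ : T) * w⁻¹ ∈ (Q : Subgroup T) := by
      rw [← hw, Sylow.coe_subgroup_smul, Subgroup.mem_pointwise_smul_iff_inv_smul_mem]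
      simpa [MulAut.smul_def, mul_assoc] using h1
    exact ⟨_, h2, rfl⟩
  -- the quotient
  have hCT : C ≤ T := by
    intro c hc
    rw [hC, Subgroup.mem_centralizer_iff] at hc
    refine ⟨fun d hd => (hc d (hD₀F hd)).symm, fun f hf => ?_⟩
    rw [← hc f hf]
    simp [D₀.one_mem]
  haveI hCn : C.Normal := by
    rw [hC]
    infer_instance
  let φ := QuotientGroup.mk' (C.subgroupOf T)
  have hφ : Function.Surjective φ := QuotientGroup.mk'_surjective _
  have hpq : IsPGroup p (T ⧸ C.subgroupOf T) := by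
    intro y
    obtain ⟨s, rfl⟩ := hφ y
    obtain ⟨n, hn⟩ := IsPGroup.iff_card.mp hD₀
    refine ⟨n, ?_⟩
    rw [← map_pow, ← hn]
    show ((s ^ Nat.card D₀ : T) : T ⧸ C.subgroupOf T) = 1
    rw [QuotientGroup.eq_one_iff, Subgroup.mem_subgroupOf]
    exact stab_pow_card s.2
  have htop : ((Q.mapSurjective hφ : Sylow p (T ⧸ C.subgroupOf T)) : Subgroup (T ⧸ C.subgroupOf T)) = ⊤ := by
    have hp2 : IsPGroup p (⊤ : Subgroup (T ⧸ C.subgroupOf T)) := hpq.to_subgroup _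
    exact ((Q.mapSurjective hφ).is_maximal' hp2 le_top).symm
  have hex : ∃ r ∈ (Q : Subgroup T), φ r = φ w := by
    have : φ w ∈ ((Q.mapSurjective hφ : Sylow p (T ⧸ C.subgroupOf T)) : Subgroup (T ⧸ C.subgroupOf T)) := by
      rw [htop]
      trivial
    rw [Sylow.coe_mapSurjective] at this
    obtain ⟨r, hr, hr2⟩ := this
    exact ⟨r, hr, hr2⟩
  obtain ⟨r, hr, hrw⟩ := hex
  have hc : ((r⁻¹ * w : T) : Γ) ∈ C := by
    have : r⁻¹ * w ∈ C.subgroupOf T := by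
      rw [← QuotientGroup.eq]
      exact hrw
    exact this
  refine ⟨((r⁻¹ * w : T) : Γ), hc, fun z hzz => ?_⟩
  have h3 := hzQ z hzz
  rw [hQ] at h3
  obtain ⟨h4, h5⟩ := Subgroup.mem_inf.mp h3
  have h6 : (r : Γ) ∈ (R : Subgroup Γ) := by
    have : (r : Γ) ∈ (Q : Subgroup T).map T.subtype := ⟨r, hr, rfl⟩
    rw [hQ] at this
    exact (Subgroup.mem_inf.mp this).1
  have e : ((r⁻¹ * w : T) : Γ) * z * ((r⁻¹ * w : T) : Γ)⁻¹ = (r : Γ)⁻¹ * ((w : Γ) * z * (w : Γ)⁻¹) * (r : Γ) := by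
    push_cast
    group
  rw [e]
  exact (R : Subgroup Γ).mul_mem ((R : Subgroup Γ).mul_mem ((R : Subgroup Γ).inv_mem h6) h4) h6

end Local

section Main

variable {G : Type*} [Group G] [Finite G] {p : ℕ} [hp : Fact p.Prime]

/-- Control of a conjugation. -/
def Ctl (A D : Subgroup G) (g : G) : Prop := ∃ m ∈ NN A, ∀ d ∈ D, g⁻¹ * d * g = m⁻¹ * d * m

theorem nn_conj {F : Subgroup G} {x f : G} (hx : x ∈ NN F) (hf : f ∈ F) : x * f * x⁻¹ ∈ F :=
  (Subgroup.mem_normalizer_iff.mp hx f).mp hf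

theorem nn_conj' {F : Subgroup G} {x f : G} (hx : x ∈ NN F) (hf : f ∈ F) : x⁻¹ * f * x ∈ F := by
  have := nn_conj ((NN F).inv_mem hx) hf
  simpa using this

theorem step_control {S : Sylow p G} {A : Subgroup G} (hA : IsMulCommutative ↥A)
    (hsc : IsStronglyClosed A (S : Subgroup G)) {F : Subgroup G} (hF : F ≤ S) {x : G} (hx : x ∈ NN F)
    (htame : ¬ p ∣ ((S : Subgroup G) ⊓ NN F).relIndex (NN F))
    (IH : ∀ D₁ : Subgroup G, F < D₁ → D₁ ≤ S → ∀ g, cjs g D₁ ⊆ (S : Subgroup G) → Ctl A D₁ g) : Ctl A F x := by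
  classical
  by_cases hAF : A ≤ F
  · refine ⟨x, ?_, fun d _ => rfl⟩
    have h1 : ∀ a ∈ A, x⁻¹ * a * x⁻¹⁻¹ ∈ A := by
      intro a ha
      apply hsc.2 a ha
      rw [inv_inv]
      exact hF (nn_conj' hx (hAF ha))
    have := Cfsg.Agent.Lib.Coprime.Three.mem_normalizer_of_conj_mem h1
    simpa using (NN A).inv_mem this
  -- the case A not in F
  have hFA : ∀ f ∈ F, ∀ a ∈ A, f * a * f⁻¹ ∈ A := by
    intro f hf a ha
    exact hsc.2 a ha f ((S : Subgroup G).mul_mem ((S : Subgroup G).mul_mem (hF hf) (hsc.1 ha)) ((S : Subgroup G).inv_mem (hF hf)))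
  have hsup : ∀ y ∈ F ⊔ A, ∃ f ∈ F, ∃ a ∈ A, y = f * a := by
    intro y hy
    rw [Subgroup.sup_eq_closure] at hy
    induction hy using Subgroup.closure_induction with
    | mem y hy =>
      rcases hy with hy | hy
      · exact ⟨y, hy, 1, A.one_mem, by simp⟩
      · exact ⟨1, F.one_mem, y, hy, by simp⟩
    | one => exact ⟨1, F.one_mem, 1, A.one_mem, by simp⟩
    | mul y z _ _ h1 h2 =>
      obtain ⟨f, hf, a, ha, rfl⟩ := h1
      obtain ⟨f', hf', a', ha', rfl⟩ := h2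
      refine ⟨f * f', F.mul_mem hf hf', f'⁻¹ * a * f' * a', A.mul_mem ?_ ha', by group⟩
      simpa using hFA _ (F.inv_mem hf') a ha
    | inv y _ h1 =>
      obtain ⟨f, hf, a, ha, rfl⟩ := h1
      refine ⟨f⁻¹, F.inv_mem hf, f * a⁻¹ * f⁻¹, hFA f hf _ (A.inv_mem ha), by group⟩
  have hSp : IsPGroup p (S : Subgroup G) := S.isPGroup'
  have hlt : F < F ⊔ A := lt_of_le_of_ne le_sup_left (fun h => hAF (h ▸ le_sup_right))
  have hlt2 := lt_inf_normalizer (hSp.to_le (sup_le hF hsc.1)) hlt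
  obtain ⟨y, hy, hyF⟩ := SetLike.exists_of_lt hlt2
  obtain ⟨hy1, hy2⟩ := Subgroup.mem_inf.mp hy
  obtain ⟨f₀, hf₀, a₀, ha₀, rfl⟩ := hsup y hy1
  have hFN : F ≤ NN F := Subgroup.le_normalizer
  have ha₀N : a₀ ∈ NN F := by
    have := (NN F).mul_mem ((NN F).inv_mem (hFN hf₀)) hy2
    simpa using this
  have ha₀F : a₀ ∉ F := fun h => hyF (F.mul_mem hf₀ h)
  -- the ambient group
  set N := NN F with hN
  haveI hF'n : (F.subgroupOf N).Normal := Subgroup.normal_in_normalizer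
  have hDnorm : ∀ n ∈ N, ∀ d ∈ F ⊓ A, n * d * n⁻¹ ∈ F ⊓ A := by
    intro n hn d hd
    obtain ⟨h1, h2⟩ := Subgroup.mem_inf.mp hd
    have h3 := nn_conj hn h1
    exact Subgroup.mem_inf.mpr ⟨h3, hsc.2 d h2 n (hF h3)⟩
  haveI hD'n : ((F ⊓ A).subgroupOf N).Normal := by
    refine ⟨fun d hd n => ?_⟩
    rw [Subgroup.mem_subgroupOf] at hd ⊢
    exact hDnorm n n.2 d hd
  have hS' : IsPGroup p ((S : Subgroup G).subgroupOf N) :=
    hSp.comap_of_injective N.subtype N.subtype_injective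
  have hidx : ¬ p ∣ ((S : Subgroup G).subgroupOf N).index := by
    intro h
    apply htame
    rw [Subgroup.inf_relIndex_right]
    exact h
  let R : Sylow p N := hS'.toSylow hidx
  have hRcoe : ∀ n : N, n ∈ (R : Subgroup N) ↔ (n : G) ∈ (S : Subgroup G) := by
    intro n
    show n ∈ (S : Subgroup G).subgroupOf N ↔ _
    rw [Subgroup.mem_subgroupOf]
  let x' : N := ⟨x, hx⟩
  let Z : Subgroup N := (A.subgroupOf N).map (MulAut.conj x'⁻¹).toMonoidHom
  have hZp : IsPGroup p Z := by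
    apply IsPGroup.map
    exact hS'.to_le (Subgroup.comap_mono hsc.1)
  have hZst : Z ≤ stab (F.subgroupOf N) ((F ⊓ A).subgroupOf N) := by
    rintro _ ⟨a, ha, rfl⟩
    have ha' : (a : G) ∈ A := ha
    refine ⟨fun d hd => ?_, fun f hf => ?_⟩
    · -- commuting with the intersection
      have hd' : (d : G) ∈ F ⊓ A := hd
      obtain ⟨h1, h2⟩ := Subgroup.mem_inf.mp hd'
      have h3 : x * (d : G) * x⁻¹ ∈ A := (Subgroup.mem_inf.mp (hDnorm x hx d hd')).2
      have h4 : (a : G) * (x * (d : G) * x⁻¹) = (x * (d : G) * x⁻¹) * (a : G) := by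
        have := hA.is_comm.comm (⟨_, ha'⟩ : A) ⟨_, h3⟩
        exact Subtype.ext_iff.mp this
      apply Subtype.ext
      show x⁻¹ * (a : G) * x⁻¹⁻¹ * (d : G) = (d : G) * (x⁻¹ * (a : G) * x⁻¹⁻¹)
      calc x⁻¹ * (a : G) * x⁻¹⁻¹ * (d : G) = x⁻¹ * ((a : G) * (x * (d : G) * x⁻¹)) * x := by group
        _ = x⁻¹ * ((x * (d : G) * x⁻¹) * (a : G)) * x := by rw [h4]
        _ = (d : G) * (x⁻¹ * (a : G) * x⁻¹⁻¹) := by group
    · have hf' : (f : G) ∈ F := hf
      have h1 : x * (f : G) * x⁻¹ ∈ F := nn_conj hx hf'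
      set f₁ := x * (f : G) * x⁻¹ with hf₁
      have h2 : (a : G) * f₁ * (a : G)⁻¹ * f₁⁻¹ ∈ F :=
        F.mul_mem (nn_conj a.2 h1) (F.inv_mem h1)
      have h3 : (a : G) * f₁ * (a : G)⁻¹ * f₁⁻¹ ∈ A := by
        have : (a : G) * f₁ * (a : G)⁻¹ * f₁⁻¹ = (a : G) * (f₁ * (a : G)⁻¹ * f₁⁻¹) := by group
        rw [this]
        exact A.mul_mem ha' (hFA f₁ h1 _ (A.inv_mem ha'))
      have h4 := hDnorm x⁻¹ ((NN F).inv_mem hx) _ (Subgroup.mem_inf.mpr ⟨h2, h3⟩)
      rw [Subgroup.mem_subgroupOf]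
      convert h4 using 1
      simp only [MulAut.conj_apply, x', hf₁, MulEquiv.coe_toMonoidHom, Subgroup.coe_mul, Subgroup.coe_inv,
        mul_inv_rev, inv_inv, MulAut.conj_apply]
      group
  obtain ⟨c, hc, hcz⟩ := local_lemma (F.subgroupOf N) ((F ⊓ A).subgroupOf N) Z
    (Subgroup.comap_mono inf_le_left)
    (by
      have : IsPGroup p ((S : Subgroup G).subgroupOf N) := hS'
      exact this.to_le (Subgroup.comap_mono (inf_le_left.trans hF)))
    hZp R hZst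
  have hc₀ : ∀ f ∈ F, (c : G) * f = f * (c : G) := by
    intro f hf
    have h1 : (⟨f, hFN hf⟩ : N) ∈ F.subgroupOf N := hf
    have := (Subgroup.mem_centralizer_iff.mp hc) _ h1
    exact (Subtype.ext_iff.mp this).symm
  set m : G := x * (c : G)⁻¹ with hm
  have hmN : m ∈ N := N.mul_mem hx (N.inv_mem c.2)
  have hmconj : ∀ a ∈ A ⊓ N, m⁻¹ * a * m ∈ A ⊓ N := by
    intro a ha
    obtain ⟨h1, h2⟩ := Subgroup.mem_inf.mp ha
    have h3 : m⁻¹ * a * m ∈ (S : Subgroup G) := by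
      have h4 := hcz _ (Subgroup.mem_map_of_mem (MulAut.conj x'⁻¹).toMonoidHom (show (⟨a, h2⟩ : N) ∈ A.subgroupOf N from h1))
      rw [hRcoe] at h4
      convert h4 using 1
      simp [hm, x', MulAut.conj_apply]
      group
    have h5 : m⁻¹ * a * m ∈ A := by
      have := hsc.2 a h1 m⁻¹ (by simpa using h3)
      simpa using this
    exact Subgroup.mem_inf.mpr ⟨h5, N.mul_mem (N.mul_mem (N.inv_mem hmN) h2) hmN⟩
  set D₁ := F ⊔ (A ⊓ N) with hD₁
  have hD₁S : D₁ ≤ S := sup_le hF (inf_le_left.trans hsc.1)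
  have hFD₁ : F < D₁ := by
    refine lt_of_le_of_ne le_sup_left (fun h => ha₀F ?_)
    rw [h, hD₁]
    exact (le_sup_right : A ⊓ N ≤ F ⊔ (A ⊓ N)) (Subgroup.mem_inf.mpr ⟨ha₀, ha₀N⟩)
  have hcj : cjs m D₁ ⊆ (S : Subgroup G) := by
    have hmap : D₁.map (MulAut.conj m⁻¹).toMonoidHom ≤ D₁ := by
      rw [hD₁, Subgroup.map_sup]
      apply sup_le_sup
      · rintro _ ⟨f, hf, rfl⟩
        simpa using nn_conj' hmN hf
      · rintro _ ⟨a, ha, rfl⟩
        simpa using hmconj a ha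
    rintro _ ⟨d, hd, rfl⟩
    apply hD₁S
    apply hmap
    exact ⟨d, hd, by simp⟩
  obtain ⟨n, hn, hnd⟩ := IH D₁ hFD₁ hD₁S m hcj
  refine ⟨n, hn, fun f hf => ?_⟩
  have h1 := hnd f (le_sup_left (a := F) hf)
  rw [← h1, hm]
  have h2 : x⁻¹ * f * x ∈ F := nn_conj' hx hf
  have h3 := hc₀ _ h2
  calc x⁻¹ * f * x = ((x⁻¹ * f * x) * (c : G)) * (c : G)⁻¹ := by group
    _ = ((c : G) * (x⁻¹ * f * x)) * (c : G)⁻¹ := by rw [h3]
    _ = (x * (c : G)⁻¹)⁻¹ * f * (x * (c : G)⁻¹) := by group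

theorem control_aux {S : Sylow p G} {A : Subgroup G} (hA : IsMulCommutative ↥A)
    (hsc : IsStronglyClosed A (S : Subgroup G)) (n : ℕ) : ∀ D : Subgroup G, D ≤ S →
      Nat.card (S : Subgroup G) - Nat.card D = n → ∀ g, cjs g D ⊆ (S : Subgroup G) → Ctl A D g := by
  classical
  induction n using Nat.strong_induction_on with
  | _ n IHn =>
    intro D hD hn g hg
    have hcardS : ∀ D₁ : Subgroup G, D₁ ≤ S → Nat.card D₁ ≤ Nat.card (S : Subgroup G) :=
      fun D₁ h => Subgroup.card_le_of_le h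
    obtain ⟨l, hl, rfl⟩ := fusion_list S (D : Set G) g hD hg
    have key : ∀ (l : List (Sylow p G × G)) (v : G), Good S (cjs v (D : Set G)) l →
        ∃ m ∈ NN A, ∀ d ∈ D, (wrd l)⁻¹ * (v⁻¹ * d * v) * wrd l = m⁻¹ * (v⁻¹ * d * v) * m := by
      intro l
      induction l with
      | nil =>
        intro v _
        exact ⟨1, (NN A).one_mem, fun d _ => by simp⟩
      | cons e l ih =>
        rintro v ⟨h1, h2, h3⟩
        set F := (S : Subgroup G) ⊓ (e.1 : Subgroup G) with hF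
        have hFS : F ≤ S := inf_le_left
        have hcard : Nat.card D ≤ Nat.card F := by
          have h4 : D.map (MulAut.conj v⁻¹).toMonoidHom ≤ F := by
            rintro _ ⟨d, hd, rfl⟩
            have := h1 ⟨d, hd, rfl⟩
            simpa using this
          have h5 := Subgroup.card_le_of_le h4
          rwa [Subgroup.card_map_of_injective (MulAut.conj v⁻¹).injective] at h5
        have hIH : ∀ D₁ : Subgroup G, F < D₁ → D₁ ≤ S → ∀ g, cjs g D₁ ⊆ (S : Subgroup G) → Ctl A D₁ g := by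
          intro D₁ h4 h5 g' hg'
          refine IHn _ ?_ D₁ h5 rfl g' hg'
          have h6 := card_lt_of_lt h4
          have h7 := hcardS D₁ h5
          omega
        obtain ⟨n₁, hn₁, hn₁F⟩ := step_control hA hsc hFS h2.hx h2.hP hIH
        rw [← cjs_mul] at h3
        obtain ⟨m, hm, hmd⟩ := ih (v * e.2) h3
        refine ⟨n₁ * m, (NN A).mul_mem hn₁ hm, fun d hd => ?_⟩
        have h4 : v⁻¹ * d * v ∈ F := h1 ⟨d, hd, rfl⟩
        have h5 := hn₁F _ h4
        have h6 := hmd d hd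
        rw [wrd_cons]
        have e1 : (v * e.2)⁻¹ * d * (v * e.2) = e.2⁻¹ * (v⁻¹ * d * v) * e.2 := by group
        rw [e1, h5] at h6
        calc (e.2 * wrd l)⁻¹ * (v⁻¹ * d * v) * (e.2 * wrd l) = (wrd l)⁻¹ * (e.2⁻¹ * (v⁻¹ * d * v) * e.2) * wrd l := by group
          _ = (wrd l)⁻¹ * (n₁⁻¹ * (v⁻¹ * d * v) * n₁) * wrd l := by rw [h5]
          _ = m⁻¹ * (n₁⁻¹ * (v⁻¹ * d * v) * n₁) * m := h6
          _ = (n₁ * m)⁻¹ * (v⁻¹ * d * v) * (n₁ * m) := by group
    have hl' : Good S (cjs 1 (D : Set G)) l := by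
      rw [cjs_one]
      exact hl
    obtain ⟨m, hm, hmd⟩ := key l 1 hl'
    refine ⟨m, hm, fun d hd => ?_⟩
    have := hmd d hd
    simpa using this

end Main

/-- Let S be a Sylow p-subgroup of the finite group G and A an abelian subgroup of S that is strongly closed in S with respect to G. Then A controls strong fusion in G: for some Sylow p-subgroup T containing A, whenever a subset of T is conjugated into T by an element of G, the same elementwise conjugation is induced by an element of N_G(A). -/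
theorem result {G : Type*} [Group G] [Finite G] {p : ℕ} [Fact p.Prime] (S : Sylow p G) (A : Subgroup G) (hA : IsMulCommutative ↥A) (hsc : Cfsg.IsStronglyClosed A (S : Subgroup G)) : Cfsg.ControlsStrongFusion p A := by
  refine ⟨S, hsc.1, fun W hW => ⟨hW, fun g hg => ?_⟩⟩
  have hD : Subgroup.closure W ≤ (S : Subgroup G) := (Subgroup.closure_le _).mpr hW
  have hmap : (Subgroup.closure W).map (MulAut.conj g).toMonoidHom ≤ (S : Subgroup G) := by
    rw [MonoidHom.map_closure, Subgroup.closure_le]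
    rintro _ ⟨a, ha, rfl⟩
    apply hg
    exact ⟨a, ha, by simp⟩
  have hcj : cjs g⁻¹ ((Subgroup.closure W : Subgroup G) : Set G) ⊆ (S : Subgroup G) := by
    rintro _ ⟨d, hd, rfl⟩
    apply hmap
    exact ⟨d, hd, by simp⟩
  obtain ⟨m, hm, hmd⟩ := control_aux hA hsc _ (Subgroup.closure W) hD rfl g⁻¹ hcj
  refine ⟨m⁻¹, (Subgroup.normalizer (A : Set G)).inv_mem hm, fun a ha => ?_⟩
  have := hmd a (Subgroup.subset_closure ha)
  simpa using this

end Cfsg.Agent.S2791
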