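import Cfsg.Statements.S2792
import Cfsg.Agent.Lib.Transfer.Monomial

set_option autoImplicit false
open Cfsg

namespace Cfsg.Agent.S2792

open scoped commutatorElement in
theorem vanish_frattini {X A : Type*} [Group X] [Finite X] [CommGroup A] {p : ℕ} [Fact p.Prime]
    (hX : IsPGroup p X) (hA : ∀ a : A, a ^ p = 1) (g : X →* A) (φ : X) (hφ : φ ∈ frattini X) :
    g φ = 1 := by
  have hle : frattini X ≤ g.ker := by
    refine (Cfsg.Agent.Lib.PGroup.Basic.frattini_le_iff hX).mpr ⟨?_, ?_⟩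
    · intro x
      rw [MonoidHom.mem_ker, map_pow, hA]
    · intro x y
      rw [MonoidHom.mem_ker, commutatorElement_def]
      simp only [map_mul, map_inv]
      rw [mul_comm (g x) (g y)]
      group
  exact hle hφ

theorem coatom_subgroupOf {G : Type*} [Group G] [Finite G] {p : ℕ} [hp : Fact p.Prime]
    {U M W : Subgroup G} (hWU : W ≤ U)
    (hidx : M.relIndex U = p) (hn : ∀ x ∈ U, ∀ m ∈ M, x * m * x⁻¹ ∈ M) {z : G} (hz : z ∈ W)
    (hzM : z ∉ M) : IsCoatom (M.subgroupOf W) := by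
  haveI hN : (M.subgroupOf U).Normal := ⟨fun m hm g => by
    rw [Subgroup.mem_subgroupOf] at hm ⊢
    exact hn g g.2 m hm⟩
  have hcard : Nat.card (U ⧸ M.subgroupOf U) = p := by
    rw [← Subgroup.index_eq_card]; exact hidx
  refine ⟨?_, ?_⟩
  · intro h
    have h1 : (⟨z, hz⟩ : W) ∈ M.subgroupOf W := by rw [h]; trivial
    exact hzM (Subgroup.mem_subgroupOf.mp h1)
  · intro X hX
    obtain ⟨x, hxX, hxM⟩ := SetLike.exists_of_lt hX
    rw [eq_top_iff]
    intro w _
    let qx : U ⧸ M.subgroupOf U := ((⟨x, hWU x.2⟩ : U) : U ⧸ M.subgroupOf U)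
    have hqx : qx ≠ 1 := by
      intro h
      have h1 := (QuotientGroup.eq_one_iff _).mp h
      exact hxM (Subgroup.mem_subgroupOf.mpr (Subgroup.mem_subgroupOf.mp h1))
    have hq := mem_zpowers_of_prime_card hcard (g := qx)
      (g' := ((⟨w, hWU w.2⟩ : U) : U ⧸ M.subgroupOf U)) hqx
    obtain ⟨i, hi⟩ := hq
    have h2 : (((⟨x, hWU x.2⟩ : U) ^ i : U) : U ⧸ M.subgroupOf U) = ((⟨w, hWU w.2⟩ : U) : U ⧸ M.subgroupOf U) := by
      rw [← hi]; rfl
    have h3 := QuotientGroup.eq.mp h2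
    have h4 : ((x ^ i)⁻¹ * w : W) ∈ M.subgroupOf W := by
      rw [Subgroup.mem_subgroupOf]
      have h5 := Subgroup.mem_subgroupOf.mp h3
      simpa using h5
    have h5 : w = x ^ i * ((x ^ i)⁻¹ * w) := by group
    rw [h5]
    exact X.mul_mem (X.zpow_mem hxX i) (hX.le h4)

/-- Let S be a Sylow p-subgroup of the finite group G and W a subgroup of S weakly closed in S with respect to G. If S ∩ G' ≠ S ∩ (N_G(W))', then there are x ∈ S, z ∈ W and a maximal subgroup W₀ of W such that the iterated commutator [x, z; p−1] (with [x, z] = x⁻¹z⁻¹xz and [x, z; i+1] = [[x, z; i], z]) lies in W₀ but not in the Frattini subgroup of W₀; in particular [x, z; p−1] ≠ 1. -/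
theorem result {G : Type*} [Group G] [Finite G] {p : ℕ} [Fact p.Prime] (S : Sylow p G) (W : Subgroup G) (hW : Cfsg.IsWeaklyClosed W (S : Subgroup G)) (h : (S : Subgroup G) ⊓ commutator G ≠ (S : Subgroup G) ⊓ ⁅Subgroup.normalizer (W : Set G), Subgroup.normalizer (W : Set G)⁆) : ∃ x ∈ (S : Subgroup G), ∃ z ∈ W, ∃ W₀ : Subgroup ↥W, IsCoatom W₀ ∧ (fun y : G => y⁻¹ * z⁻¹ * y * z)^[p - 1] x ∈ W₀.map W.subtype ∧ (fun y : G => y⁻¹ * z⁻¹ * y * z)^[p - 1] x ∉ ((frattini ↥W₀).map W₀.subtype).map W.subtype := by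
  classical
  by_contra hno
  push Not at hno
  apply h
  have hPN := Cfsg.Agent.Lib.Transfer.Monomial.le_normalizer_of_weaklyClosed (S : Subgroup G) W hW
  apply Cfsg.Agent.Lib.Transfer.Monomial.commutator_inf_of_residual S _ hPN
  apply Cfsg.Agent.Lib.Transfer.Monomial.residual_eq_of_vanish S W hW
  intro U M hUS hWU hMU hidx hn z hz hzM ν u hu
  have hzinv : ∀ m ∈ M, z⁻¹ * m * z ∈ M := by
    intro m hm
    have := hn z⁻¹ (U.inv_mem (hWU hz)) m hm
    simpa using this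
  rw [Cfsg.Agent.Lib.Transfer.Monomial.norm_eq_iter Cfsg.Agent.Lib.Transfer.Monomial.hA_zmod M ν z
    hzinv u hu]
  have hiter : ∀ k : ℕ, (fun y : G => y⁻¹ * z⁻¹ * y * z)^[k] u ∈ M := by
    intro k
    induction k with
    | zero => exact hu
    | succ k ih =>
      rw [Function.iterate_succ_apply']
      have h1 := M.mul_mem (M.inv_mem ih) (hzinv _ ih)
      have e : ∀ y : G, y⁻¹ * (z⁻¹ * y * z) = y⁻¹ * z⁻¹ * y * z := by
        intro y; group
      rw [e] at h1
      exact h1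
  have hp1 : p - 1 = (p - 2) + 1 := by
    have := (Fact.out : p.Prime).two_le
    omega
  have hcW : (fun y : G => y⁻¹ * z⁻¹ * y * z)^[p - 1] u ∈ W := by
    rw [hp1, Function.iterate_succ_apply']
    set y := (fun y : G => y⁻¹ * z⁻¹ * y * z)^[p - 2] u with hy
    have hyS : y ∈ (S : Subgroup G) := hUS (hMU (hiter _))
    have h1 := hPN ((S : Subgroup G).inv_mem hyS)
    have h2 := (Subgroup.mem_normalizer_iff.mp h1 z⁻¹).mp (W.inv_mem hz)
    have h3 := W.mul_mem h2 hz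
    rw [inv_inv] at h3
    exact h3
  have hcM := hiter (p - 1)
  have hc := hno u (hUS (hMU hu)) z hz (M.subgroupOf W)
    (coatom_subgroupOf hWU hidx hn hz hzM)
    ⟨⟨_, hcW⟩, Subgroup.mem_subgroupOf.mpr hcM, rfl⟩
  obtain ⟨_, ⟨φ, hφ, rfl⟩, hφc⟩ := hc
  let g : ↥(M.subgroupOf W) →* Multiplicative (ZMod p) :=
    { toFun := fun w => ν ⟨w.1.1, Subgroup.mem_subgroupOf.mp w.2⟩
      map_one' := by
        have : (⟨((1 : ↥(M.subgroupOf W)) : W).1, Subgroup.mem_subgroupOf.mp (1 : ↥(M.subgroupOf W)).2⟩ : M) = 1 := rfl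
        rw [this, map_one]
      map_mul' := by
        intro a b
        rw [← map_mul]
        rfl }
  have hWp : IsPGroup p W := S.isPGroup'.to_le (hWU.trans hUS)
  have hg := vanish_frattini (hWp.to_subgroup _) Cfsg.Agent.Lib.Transfer.Monomial.hA_zmod g φ hφ
  have h1 : (fun y : G => y⁻¹ * z⁻¹ * y * z)^[p - 1] u = φ.1.1 := hφc.symm
  rw [h1, Cfsg.Agent.Lib.Transfer.EngelCore.ext_of_mem ν (Subgroup.mem_subgroupOf.mp φ.2)]
  exact hg

end Cfsg.Agent.S2792
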