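import Cfsg.Statements.S2794
import Mathlib
import Cfsg.Agent.Lib.PGroup.QdZJ
-- import your own Cfsg.Agent.* helpers here

set_option autoImplicit false
open Cfsg

namespace Cfsg.Agent.S2794

/-- For an odd prime p and a finite group G, the group Qd(p) is not involved in G if and only if in every section K/R of G, for every Sylow p-subgroup S* of K/R, the centre of J(S*) (J generated by the abelian subgroups of largest order) controls strong fusion in K/R. -/
theorem result {G : Type*} [Group G] [Finite G] {p : ℕ} [Fact p.Prime] (hp : p ≠ 2) : ¬ Cfsg.Involves ↥(Cfsg.qd p) G ↔ ∀ (K R : Subgroup G) [hR : (R.subgroupOf K).Normal], ∀ T : Sylow p (K ⧸ R.subgroupOf K), Cfsg.ControlsStrongFusion p (Cfsg.centerThompsonAOf (T : Subgroup (K ⧸ R.subgroupOf K))) := by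
  constructor
  · intro hI K R hR T
    have hfree : ¬ Cfsg.Agent.Lib.PGroup.QdSplit.Sec (Cfsg.qd p) G := by
      rintro ⟨K₁, Φ, hΦ⟩
      obtain ⟨R₁, hR₁, ⟨e⟩⟩ := Cfsg.Agent.Lib.PGroup.QdSplit.quotient_form hΦ
      exact hI ⟨K₁, R₁, hR₁, ⟨e⟩⟩
    have hY : ¬ Cfsg.Agent.Lib.PGroup.QdSplit.Sec (Cfsg.qd p) (K ⧸ R.subgroupOf K) := fun h =>
      hfree (Cfsg.Agent.Lib.PGroup.QdSplit.Sec.subgroup
        (Cfsg.Agent.Lib.PGroup.QdSplit.Sec.of_surj (QuotientGroup.mk'_surjective _) h))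
    rw [Cfsg.Agent.Lib.PGroup.ZJ.centerThompsonAOf_eq]
    exact ⟨T, Cfsg.Agent.Lib.PGroup.ZJ.ZZ_le_self 0 _, fun A hA =>
      Cfsg.Agent.Lib.PGroup.QdControl.controls_of_free hp hY T A hA⟩
  · intro hctl ⟨K, R, hR, ⟨e⟩⟩
    obtain ⟨T, hT⟩ := Cfsg.Agent.Lib.PGroup.QdZJ.exists_not_control e
    exact hT (hctl K R T)

end Cfsg.Agent.S2794
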