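import Cfsg.Statements.S2807
import Cfsg.Agent.Lib.Transfer.Wreath

set_option autoImplicit false
open Cfsg

namespace Cfsg.Agent.S2807



/-- Let S be a Sylow p-subgroup of the finite group G. If S ∩ G' ≠ S ∩ (N_G(S))' (derived subgroups), then the wreath product Z_p ≀ Z_p — realised as a Sylow p-subgroup of the symmetric group of degree p² — is a homomorphic image of S. -/
theorem result {G : Type*} [Group G] [Finite G] {p : ℕ} [Fact p.Prime] (S : Sylow p G) (h : (S : Subgroup G) ⊓ commutator G ≠ (S : Subgroup G) ⊓ ⁅Subgroup.normalizer ((S : Subgroup G) : Set G), Subgroup.normalizer ((S : Subgroup G) : Set G)⁆) : ∃ (P : Sylow p (Equiv.Perm (Fin (p ^ 2)))) (f : ↥(S : Subgroup G) →* ↥(P : Subgroup (Equiv.Perm (Fin (p ^ 2))))), Function.Surjective f := by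
  classical
  by_contra hno
  push Not at hno
  apply h
  have hQ : Cfsg.IsWeaklyClosed (S : Subgroup G) (S : Subgroup G) := by
    refine ⟨le_rfl, fun g hg => ?_⟩
    refine Subgroup.eq_of_le_of_card_ge hg ?_
    rw [Subgroup.card_map_of_injective (MulEquiv.injective _)]
  have hPN := Cfsg.Agent.Lib.Transfer.Monomial.le_normalizer_of_weaklyClosed (S : Subgroup G) S hQ
  apply Cfsg.Agent.Lib.Transfer.Monomial.commutator_inf_of_residual S _ hPN
  apply Cfsg.Agent.Lib.Transfer.Monomial.residual_eq_of_vanish S S hQ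
  intro U M hUS hSU hMU hidx hn z hz hzM ν u hu
  by_contra hne
  have hUe : U = (S : Subgroup G) := le_antisymm hUS hSU
  subst hUe
  set U : Subgroup G := (S : Subgroup G) with hU
  -- transport to the group `↥U`
  let M' : Subgroup U := M.subgroupOf U
  haveI hN : M'.Normal := ⟨fun m hm g => by
    rw [Subgroup.mem_subgroupOf] at hm ⊢
    exact hn g g.2 m hm⟩
  let ν' : M' →* Multiplicative (ZMod p) :=
    { toFun := fun w => ν ⟨w.1.1, Subgroup.mem_subgroupOf.mp w.2⟩
      map_one' := by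
        have : (⟨((1 : M') : U).1, Subgroup.mem_subgroupOf.mp (1 : M').2⟩ : M) = 1 := rfl
        rw [this, map_one]
      map_mul' := by
        intro a b
        rw [← map_mul]
        rfl }
  let z' : U := ⟨z, hz⟩
  let u' : U := ⟨u, hMU hu⟩
  have hu' : u' ∈ M' := Subgroup.mem_subgroupOf.mpr hu
  have hne' : ∏ k ∈ Finset.range p, Cfsg.Agent.Lib.Transfer.EngelCore.ext ν' ((z' ^ k)⁻¹ * u' * z' ^ k) ≠ 1 := by
    intro h1
    apply hne
    rw [← h1]
    refine Finset.prod_congr rfl fun k _ => ?_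
    have hm := Cfsg.Agent.Lib.Transfer.Wreath.conj_mem (M := M') z' hu' k
    have hm2 : (z ^ k)⁻¹ * u * z ^ k ∈ M := Subgroup.mem_subgroupOf.mp hm
    rw [Cfsg.Agent.Lib.Transfer.EngelCore.ext_of_mem ν' hm,
      Cfsg.Agent.Lib.Transfer.EngelCore.ext_of_mem ν hm2]
    rfl
  obtain ⟨P, f, hf⟩ := Cfsg.Agent.Lib.Transfer.Wreath.wreath_of_norm_ne ν' z' S.isPGroup' hidx hu' hne'
  exact hno P f hf

end Cfsg.Agent.S2807
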