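import Cfsg.Statements.S2856
import Cfsg.Agent.Lib.VIter.Basic

set_option autoImplicit false
open Cfsg

namespace Cfsg.Agent.S2856

/-- Let (M₁, M₂) be an amalgam pair in X satisfying the rank-two standing hypothesis (characteristic p, the normalizers in M₁ and in M₂ of a Sylow p-subgroup of M₁ ∩ M₂ equal and contained in M₁ ∩ M₂, and strongly p-embedded residues), λ a vertex of the coset graph, L_λ the subgroup of its stabilizer generated by the p-elements, Q_λ = O_p of the stabilizer, O^p(L_λ) the subgroup of L_λ generated by its elements of order prime to p, and V_λ^{(k)} the subgroup generated by the Z_μ over the vertices μ at distance at most k from λ (Z_μ being generated by the Ω₁(Z(S)), S a Sylow p-subgroup of the stabilizer of μ). If n ≥ 1 and V_λ^{(n)} ≤ Q_λ, then O^p(L_λ) does not centralize V_λ^{(n)}/[V_λ^{(n)}, Q_λ], that is, [V_λ^{(n)}, O^p(L_λ)] is not contained in [V_λ^{(n)}, Q_λ]. -/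
theorem result {X : Type*} [Group X] {p : ℕ} [Fact p.Prime] (M₁ M₂ : Subgroup X) (h : Cfsg.IsSpeAmalgamPair p M₁ M₂) (lam : Cfsg.CosetVertex M₁ M₂) (n : ℕ) (hn : 1 ≤ n) (V : Subgroup X) (hV : V = Cfsg.vertexVIter p M₁ M₂ n lam) (hVQ : V ≤ Cfsg.vertexQ p lam) : ¬ ⁅V, ((Cfsg.pResidual p ↥(Cfsg.pElementClosure p (MulAction.stabilizer X lam))).map (Cfsg.pElementClosure p (MulAction.stabilizer X lam)).subtype)⁆ ≤ ⁅V, Cfsg.vertexQ p lam⁆ := by
  intro hcomm
  subst hV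
  obtain ⟨μ, hadj⟩ := Cfsg.Agent.Lib.VIter.exists_adj lam
  have hc := h.1
  have hd1 : (Cfsg.cosetGraph M₁ M₂).dist lam μ = 1 := SimpleGraph.dist_eq_one_iff_adj.mpr hadj
  have hW : Cfsg.vertexVIter p M₁ M₂ (n - 1) μ ≤ Cfsg.vertexVIter p M₁ M₂ n lam :=
    Cfsg.Agent.Lib.VIter.vIter_le_vIter hc (by omega)
  have hfin := Cfsg.Agent.Lib.Amalgam.Vertex.finite_stab hc lam
  have hQl : Cfsg.vertexQ p lam ≤ MulAction.stabilizer X lam := Cfsg.Agent.Lib.Amalgam.Vertex.pCoreOf_le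
  have hQμ : Cfsg.vertexQ p lam ≤ MulAction.stabilizer X μ :=
    (Cfsg.Agent.Lib.Amalgam.Vertex.vertexQ_le_neighbourKernel hc lam).trans
      (Cfsg.Agent.Lib.Amalgam.Vertex.neighbourKernel_le_stabilizer hadj)
  have hfinQ : Finite ↥(Cfsg.vertexQ p lam) :=
    Finite.of_injective (Subgroup.inclusion hQl) (Subgroup.inclusion_injective _)
  have hQp : IsPGroup p ↥(Cfsg.vertexQ p lam) :=
    (Cfsg.Agent.Lib.Basic.PCore.pCore_isPGroup (G := ↥(MulAction.stabilizer X lam)) p).map (MulAction.stabilizer X lam).subtype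
  have hWn : ∀ q ∈ Cfsg.vertexQ p lam, ∀ w ∈ Cfsg.vertexVIter p M₁ M₂ (n - 1) μ,
      q * w * q⁻¹ ∈ Cfsg.vertexVIter p M₁ M₂ (n - 1) μ := by
    intro q hq w hw
    have h1 := Cfsg.Agent.Lib.VIter.conj_mem_vIter hc q hw
    rwa [MulAction.mem_stabilizer_iff.mp (hQμ hq)] at h1
  have hY : Cfsg.vertexVIter p M₁ M₂ n lam ≤ Cfsg.vertexVIter p M₁ M₂ (n - 1) μ ⊔
      ⁅Cfsg.vertexVIter p M₁ M₂ n lam, Cfsg.vertexQ p lam⁆ := by
    refine Cfsg.Agent.Lib.VIter.vIter_le_of_conj_E h hadj hn ?_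
    intro e he w hw
    have h1 : w * e * w⁻¹ * e⁻¹ ∈ _ := Subgroup.commutator_mem_commutator (hW hw) he
    have h2 := hcomm h1
    have h3 : e * w * e⁻¹ = (w * e * w⁻¹ * e⁻¹)⁻¹ * w := by
      group
    rw [h3]
    exact mul_mem (inv_mem (Subgroup.mem_sup_right h2)) (Subgroup.mem_sup_left hw)
  have hle := Cfsg.Agent.Lib.VIter.le_of_le_sup_commutator hQp hVQ (hW.trans hVQ) hWn hY
  exact Cfsg.Agent.Lib.VIter.false_of_eq hc hadj (le_antisymm hle hW) hVQ

end Cfsg.Agent.S2856
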