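import Cfsg.Statements.S2857
import Cfsg.Agent.Lib.VIter.Basic

set_option autoImplicit false
open Cfsg

namespace Cfsg.Agent.S2857

/-- Let (M₁, M₂) be an amalgam pair in X satisfying the rank-two standing hypothesis (characteristic p, the normalizers in M₁ and in M₂ of a Sylow p-subgroup of M₁ ∩ M₂ equal and contained in M₁ ∩ M₂, and strongly p-embedded residues), λ a vertex of the coset graph, L_λ the subgroup of its stabilizer generated by the p-elements, Q_λ = O_p of the stabilizer, O^p(L_λ) the subgroup of L_λ generated by its elements of order prime to p, and V_λ^{(k)} the subgroup generated by the Z_μ over the vertices μ at distance at most k from λ (Z_μ being generated by the Ω₁(Z(S)), S a Sylow p-subgroup of the stabilizer of μ). If n ≥ 2 and V_λ^{(n)} ≤ Q_λ, then O^p(L_λ) does not centralize V_λ^{(n)}/V_λ^{(n-2)}, that is, [V_λ^{(n)}, O^p(L_λ)] is not contained in V_λ^{(n-2)}. -/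
theorem result {X : Type*} [Group X] {p : ℕ} [Fact p.Prime] (M₁ M₂ : Subgroup X) (h : Cfsg.IsSpeAmalgamPair p M₁ M₂) (lam : Cfsg.CosetVertex M₁ M₂) (n : ℕ) (hn : 2 ≤ n) (hVQ : Cfsg.vertexVIter p M₁ M₂ n lam ≤ Cfsg.vertexQ p lam) : ¬ ⁅Cfsg.vertexVIter p M₁ M₂ n lam, ((Cfsg.pResidual p ↥(Cfsg.pElementClosure p (MulAction.stabilizer X lam))).map (Cfsg.pElementClosure p (MulAction.stabilizer X lam)).subtype)⁆ ≤ Cfsg.vertexVIter p M₁ M₂ (n - 2) lam := by
  intro hcomm
  obtain ⟨μ, hadj⟩ := Cfsg.Agent.Lib.VIter.exists_adj lam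
  have hc := h.1
  have hd1 : (Cfsg.cosetGraph M₁ M₂).dist lam μ = 1 := SimpleGraph.dist_eq_one_iff_adj.mpr hadj
  have hd2 : (Cfsg.cosetGraph M₁ M₂).dist μ lam = 1 := SimpleGraph.dist_eq_one_iff_adj.mpr hadj.symm
  have hW : Cfsg.vertexVIter p M₁ M₂ (n - 1) μ ≤ Cfsg.vertexVIter p M₁ M₂ n lam :=
    Cfsg.Agent.Lib.VIter.vIter_le_vIter hc (by omega)
  have hsub : Cfsg.vertexVIter p M₁ M₂ (n - 2) lam ≤ Cfsg.vertexVIter p M₁ M₂ (n - 1) μ :=
    Cfsg.Agent.Lib.VIter.vIter_le_vIter hc (by omega)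
  have hle : Cfsg.vertexVIter p M₁ M₂ n lam ≤ Cfsg.vertexVIter p M₁ M₂ (n - 1) μ := by
    refine Cfsg.Agent.Lib.VIter.vIter_le_of_conj_E h hadj (by omega) ?_
    intro e he w hw
    have h1 : w * e * w⁻¹ * e⁻¹ ∈ _ := Subgroup.commutator_mem_commutator (hW hw) he
    have h2 := hsub (hcomm h1)
    have h3 : e * w * e⁻¹ = (w * e * w⁻¹ * e⁻¹)⁻¹ * w := by
      group
    rw [h3]
    exact mul_mem (inv_mem h2) hw
  exact Cfsg.Agent.Lib.VIter.false_of_eq hc hadj (le_antisymm hle hW) hVQ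

end Cfsg.Agent.S2857
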