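import Cfsg.Statements.S2945
import Mathlib
import Cfsg.Agent.Lib.Amalgam.JSub

set_option autoImplicit false
open Cfsg

namespace Cfsg.Agent.S2945

/-- Let G be a finite group of characteristic 2 type in which every 2-local subgroup is solvable and the centralizer of Ω₁(Z(S)) lies in N_G(S) for every Sylow 2-subgroup S, and let T be a nontrivial 2-subgroup (below, J is the Thompson subgroup generated by the elementary abelian 2-subgroups of largest order), L a subgroup in which T is a Sylow 2-subgroup with J(T) not contained in O₂(L) and C_G(O₂(L)) ≤ O₂(L), and K ≤ L a subgroup that is subnormal in ⟨K, J(T)⟩. If for some conjugate Tᵍ of T, K is a J(Tᵍ)-component with J(Tᵍ) the Thompson subgroup of every Sylow 2-subgroup of N_G(W_K) containing J(Tᵍ) (W_K = [Ω₁(Z(O₂(K))), K]), then K is a J(T)-component. -/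
theorem result {G : Type*} [Group G] [Finite G] (hL : Cfsg.IsCharacteristicTwoType G) (hN : ∀ N : Subgroup G, Cfsg.IsTwoLocal N → Group.IsSolvable ↥N)
    (hZ : ∀ S : Sylow 2 G, Subgroup.centralizer (Cfsg.omegaCenterOf (S : Subgroup G) : Set G) ≤ Subgroup.normalizer ((S : Subgroup G) : Set G)) (T : Subgroup G) (hT : IsPGroup 2 ↥T) (hT1 : T ≠ ⊥) (L : Subgroup G) (hLT : L ∈ Cfsg.jOvergroups T)
    (K : Subgroup G) (hKL : K ≤ L) (hKsn : (K.subgroupOf (K ⊔ Cfsg.thompsonSubgroupOf 2 T)).IsSubnormal)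
    (g : G) (hKg : K ∈ Cfsg.jComponentsZero (T.map (MulAut.conj g).toMonoidHom)) : Cfsg.IsJComponent T K := by
  have hsyl := hLT.1
  have hJL : Cfsg.thompsonSubgroupOf 2 T ≤ L :=
    (Cfsg.Agent.Lib.PGroup.ThompsonG.thompsonSubgroupOf_le_self T).trans hsyl.1
  have hRL : K ⊔ Cfsg.thompsonSubgroupOf 2 T ≤ L := sup_le hKL hJL
  have hsolL : Group.IsSolvable L :=
    Cfsg.Agent.Lib.Amalgam.JMain.solvable_of_core hN hT hsyl
      (Cfsg.Agent.Lib.Amalgam.JMain.core_ne_bot hT1 hLT.2.2)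
  have hsolR : Group.IsSolvable (K ⊔ Cfsg.thompsonSubgroupOf 2 T : Subgroup G) :=
    Group.isSolvable_of_isSolvable_injective (f := Subgroup.inclusion hRL) (Subgroup.inclusion_injective hRL)
  have hS : Cfsg.Agent.Lib.Amalgam.JSub.RSetup (T.map (MulAut.conj g).toMonoidHom) K
      (K ⊔ Cfsg.thompsonSubgroupOf 2 T) := ⟨hKg.1, le_sup_left, hKsn⟩
  have hJ := hS.J_le_normalizer hsyl hRL le_sup_right hsolR
  have e : (T.map (MulAut.conj g).toMonoidHom).map (MulAut.conj g⁻¹).toMonoidHom = T := by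
    have := Cfsg.Agent.Lib.PGroup.ThompsonG.map_conj_map_conj_inv g⁻¹ T
    rwa [inv_inv] at this
  have hT₂ : IsPGroup 2 (T.map (MulAut.conj g).toMonoidHom) := IsPGroup.iff_card.mpr (by
    rw [Cfsg.Agent.Lib.PGroup.ThompsonG.card_map_conj]
    exact IsPGroup.iff_card.mp hT)
  have hT₂1 : T.map (MulAut.conj g).toMonoidHom ≠ ⊥ := by
    intro h0
    apply hT1
    rw [← e, h0, Subgroup.map_bot]
  have h1 := Cfsg.Agent.Lib.Amalgam.JZero.isJComponent_of_le hL hN hZ hT₂ hT₂1 hKg g⁻¹ (by rw [e]; exact hJ)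
  rwa [e] at h1

end Cfsg.Agent.S2945
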