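import Cfsg.Statements.S2951
import Mathlib
import Cfsg.Agent.Lib.Amalgam.StradMain

set_option autoImplicit false
open Cfsg

namespace Cfsg.Agent.S2951

open Cfsg.Agent.Lib.Amalgam.Strad Cfsg.Agent.Lib.Amalgam.JUnique Cfsg.Agent.Lib.Amalgam.JMax
open Cfsg.Agent.Lib.PGroup.ThompsonG Cfsg.Agent.Lib.Amalgam.JComp Cfsg.Agent.Lib.Amalgam.JLocal


/-- Let G be a finite group of characteristic 2 type in which every 2-local subgroup is solvable and the centralizer of Ω₁(Z(S)) lies in N_G(S) for every Sylow 2-subgroup S; suppose O₂(G) = 1, fix a Sylow 2-subgroup S and a 2-local subgroup M containing N_G(J(S)) (J the Thompson subgroup generated by the elementary abelian 2-subgroups of largest order), and put Z = Ω₁(Z(S)). Let T ≤ S be maximal (for the order of a largest elementary abelian subgroup, then the order of J(T), then the order of T) among the nontrivial 2-subgroups of M lying in a 2-local subgroup not inside M, K a J(T)-component not contained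 in M with J(T) the Thompson subgroup of every Sylow 2-subgroup of N_G(W_K) containing J(T), and O₂(⟨K, T⟩) ≠ 1, L a maximal 2-local subgroup containing ⟨K, J(T)⟩ (there is only one), and Z₀ = Ω₁(Z(J(T))). Then Z₀ ∩ W_K ≠ 1, and one of: Z = Z₀ has order 2; Z = Z₀ has order 4 and T = S; Ω₁(Z(T)) = Z₀ has order 4 and C_L(Z₀) has index 2 in N_G(Z₀). -/
theorem result {G : Type*} [Group G] [Finite G] (hL : Cfsg.IsCharacteristicTwoType G) (hN : ∀ N : Subgroup G, Cfsg.IsTwoLocal N → Group.IsSolvable ↥N)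
    (hZ : ∀ S : Sylow 2 G, Subgroup.centralizer (Cfsg.omegaCenterOf (S : Subgroup G) : Set G) ≤ Subgroup.normalizer ((S : Subgroup G) : Set G)) (hO : Cfsg.pCore 2 G = ⊥) (S : Sylow 2 G) (M : Subgroup G) (hM : Cfsg.IsTwoLocal M)
    (hMJ : Subgroup.normalizer (Cfsg.thompsonSubgroupOf 2 (S : Subgroup G) : Set G) ≤ M) (T : Subgroup G) (hT : T ∈ Cfsg.maxStraddlingTwoSubgroups M)
    (hTS : T ≤ (S : Subgroup G)) (K : Subgroup G) (hK : K ∈ Cfsg.jComponentsOutside M T)
    (L : Subgroup G) (hLmax : Cfsg.IsMaximalTwoLocal L) (hKL : K ⊔ Cfsg.thompsonSubgroupOf 2 T ≤ L)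
    (Z Z₀ : Subgroup G) (hZdef : Z = Cfsg.omegaCenterOf (S : Subgroup G)) (hZ₀ : Z₀ = Cfsg.omegaCenterOf (Cfsg.thompsonSubgroupOf 2 T)) :
    Z₀ ⊓ Cfsg.wOf K ≠ ⊥ ∧
      ((Z = Z₀ ∧ Nat.card ↥Z₀ = 2) ∨ (Z = Z₀ ∧ Nat.card ↥Z₀ = 4 ∧ T = (S : Subgroup G)) ∨
        (Cfsg.omegaCenterOf T = Z₀ ∧ Nat.card ↥Z₀ = 4 ∧
          (L ⊓ Subgroup.centralizer (Z₀ : Set G)).relIndex (Subgroup.normalizer (Z₀ : Set G)) = 2)) := by
  subst hZdef hZ₀
  have h : Setup M T S := ⟨hL, hN, hZ, hMJ, hT⟩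
  have hP := T_isP hT
  refine ⟨?_, ?_⟩
  · intro hb
    have h2 := card_omegaCenter_inf_w hP hK.1.1
    rw [hb] at h2
    simp at h2
  by_cases hEq : T = S
  · subst hEq
    obtain ⟨K', p⟩ := exists_pair_eq hO h hK
    have hF := Pair.F_eq p
    rcases Pair.card_Z0 p with h2 | h4
    · exact Or.inl ⟨hF, h2⟩
    · exact Or.inr (Or.inl ⟨hF, h4, rfl⟩)
  · obtain ⟨t, ht, htN, htT, ht2⟩ := exists_t hTS hEq
    have s : Swap M T K S t := ⟨h, hTS, hK, ht, htN, htT, ht2⟩
    have p := Swap.pair s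
    have hF := Pair.F_eq p
    rcases Pair.card_Z0 p with h2 | h4
    · left
      refine ⟨?_, h2⟩
      have hle : Cfsg.omegaCenterOf (S : Subgroup G) ≤ Cfsg.omegaCenterOf (Cfsg.thompsonSubgroupOf 2 T) :=
        omega_le_omega_J.trans' (omega_S_le h hTS) |>.trans le_rfl
      refine Subgroup.eq_of_le_of_card_ge hle ?_
      rw [h2]
      have := (Subgroup.one_lt_card_iff_ne_bot _).mpr (omega_ne_bot S.isPGroup' (fun hb => T_ne_bot hT (by
        rw [eq_bot_iff, ← hb]
        exact hTS)))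
      omega
    · right; right
      refine ⟨hF, h4, ?_⟩
      have hKo := out_of_mem hK
      have h1 := le_lZero h hKo hLmax.1 (le_sup_left.trans hKL) (le_sup_right.trans hKL)
      have hLe : lZero M T K = L := hLmax.2 _ (twoLocal_lZero h hKo) h1
      obtain ⟨a, ha, ha1⟩ := exists_a hP hK.1.1 h4
      obtain ⟨haZ, haK⟩ := mem_Zc.mp ha
      have hC : Subgroup.centralizer (Cfsg.omegaCenterOf (Cfsg.thompsonSubgroupOf 2 T) : Set G) ≤ L := by
        rw [← hLe]
        intro y hy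
        refine mem_lZero_of_comm h hKo ha1 (Z0_sq haZ) haK (fun j hj => Z0_comm_J hj haZ) ?_
        exact (Subgroup.mem_centralizer_iff.mp hy a haZ).symm
      rw [inf_eq_right.mpr hC]
      exact Swap.index_two s h4 ha ha1

end Cfsg.Agent.S2951
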