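import Cfsg.Statements.S2954
import Mathlib
import Cfsg.Agent.Lib.Amalgam.StradL

set_option autoImplicit false
open Cfsg

namespace Cfsg.Agent.S2954

open Cfsg.Agent.Lib.Amalgam.Strad Cfsg.Agent.Lib.Amalgam.JUnique Cfsg.Agent.Lib.Amalgam.JMax

/-- Let G be a finite group of characteristic 2 type in which every 2-local subgroup is solvable and the centralizer of Ω₁(Z(S)) lies in N_G(S) for every Sylow 2-subgroup S; suppose O₂(G) = 1, fix a Sylow 2-subgroup S and a 2-local subgroup M containing N_G(J(S)) (J the Thompson subgroup generated by the elementary abelian 2-subgroups of largest order). If T is maximal (for the order of a largest elementary abelian subgroup, then the order of J(T), then the order of T) among the nontrivial 2-subgroups of M lying in a 2-local subgroup not inside M, then there are two distinct maximal 2-local subgroups P₁, P₂ of G, each having T as a Sylow 2-subgroup, that are both isomorphic to the symmetric group on four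 letters or both isomorphic to its direct product with a group of order 2. -/
theorem result {G : Type*} [Group G] [Finite G] (hL : Cfsg.IsCharacteristicTwoType G) (hN : ∀ N : Subgroup G, Cfsg.IsTwoLocal N → Group.IsSolvable ↥N)
    (hZ : ∀ S : Sylow 2 G, Subgroup.centralizer (Cfsg.omegaCenterOf (S : Subgroup G) : Set G) ≤ Subgroup.normalizer ((S : Subgroup G) : Set G)) (hO : Cfsg.pCore 2 G = ⊥) (S : Sylow 2 G) (M : Subgroup G) (hM : Cfsg.IsTwoLocal M)
    (hMJ : Subgroup.normalizer (Cfsg.thompsonSubgroupOf 2 (S : Subgroup G) : Set G) ≤ M) (T : Subgroup G) (hT : T ∈ Cfsg.maxStraddlingTwoSubgroups M) :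
    ∃ P₁ P₂ : Subgroup G, P₁ ≠ P₂ ∧ Cfsg.IsMaximalTwoLocal P₁ ∧ Cfsg.IsMaximalTwoLocal P₂ ∧
      Cfsg.IsSylowTwoIn T P₁ ∧ Cfsg.IsSylowTwoIn T P₂ ∧
      ((Nonempty (↥P₁ ≃* Equiv.Perm (Fin 4)) ∧ Nonempty (↥P₂ ≃* Equiv.Perm (Fin 4))) ∨
        (Nonempty (↥P₁ ≃* Equiv.Perm (Fin 4) × Multiplicative (ZMod 2)) ∧
          Nonempty (↥P₂ ≃* Equiv.Perm (Fin 4) × Multiplicative (ZMod 2)))) := by
  obtain ⟨S₁, hTS, h⟩ := exists_setup hL hN hZ hMJ hT
  obtain ⟨K, hK⟩ := Cfsg.Agent.S2949.result hL hN hZ hO S M hM hMJ T hT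
  obtain ⟨M₁, K', p⟩ := exists_pair hO h hTS hK
  have e₁ := Pair.lZero_eq p
  have e₂ := Pair.lZero_eq p.symm
  refine ⟨lZero M₁ T K, lZero M₁ T K', ?_, isMax_lZero p.h p.outK, isMax_lZero p.h p.outK',
    (lZero_mem p.h p.hK).1, (lZero_mem p.h p.hK').1, ?_⟩
  · intro e
    apply p.hne
    rw [e]
    exact K_le_lZero p.h p.outK'
  · rw [e₁, e₂]
    rcases (Pair.facts p).2.2 with ⟨-, -, f₁, f₂⟩ | ⟨-, -, ⟨f₁⟩, ⟨f₂⟩⟩
    · exact Or.inl ⟨f₁, f₂⟩
    · exact Or.inr ⟨⟨f₁.trans MulEquiv.prodComm⟩, ⟨f₂.trans MulEquiv.prodComm⟩⟩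

end Cfsg.Agent.S2954
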