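import Cfsg.Statements.S3084
import Mathlib
import Cfsg.Agent.Lib.PGroup.ExtraMk

set_option autoImplicit false
open Cfsg
open scoped commutatorElement

namespace Cfsg.Agent.S3084

open Matrix

noncomputable section

/-- The sign attached to an element of `ZMod 2`. -/
def sg (a : ZMod 2) : ℝ := if a = 0 then 1 else -1

@[simp] theorem sg_zero : sg 0 = 1 := by simp [sg]
@[simp] theorem sg_one : sg 1 = -1 := by simp [sg]

theorem zmod2_cases : ∀ a : ZMod 2, a = 0 ∨ a = 1 := by decide

theorem zmod2_add_self : ∀ a : ZMod 2, a + a = 0 := by decide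

theorem sg_add (a b : ZMod 2) : sg (a + b) = sg a * sg b := by
  rcases zmod2_cases a with rfl | rfl <;> rcases zmod2_cases b with rfl | rfl <;>
    simp [zmod2_add_self]

theorem sg_mul_self (a : ZMod 2) : sg a * sg a = 1 := by
  rcases zmod2_cases a with rfl | rfl <;> simp

theorem sg_ne_zero (a : ZMod 2) : sg a ≠ 0 := by
  rcases zmod2_cases a with rfl | rfl <;> simp

theorem sg_inj {a b : ZMod 2} (h : sg a = sg b) : a = b := by
  rcases zmod2_cases a with rfl | rfl <;> rcases zmod2_cases b with rfl | rfl <;>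
    first
    | rfl
    | (exfalso; norm_num at h)

theorem sg_eq_one_iff {a : ZMod 2} : sg a = 1 ↔ a = 0 :=
  ⟨fun h => sg_inj (by simpa using h), fun h => by simp [h]⟩

variable {U : Type*} [AddCommGroup U] [Module (ZMod 2) U]

theorem self_add (v : U) : v + v = 0 := by
  rw [← two_smul (ZMod 2) v]
  have : (2 : ZMod 2) = 0 := by decide
  rw [this, zero_smul]

theorem add_add_self_left (v w : U) : v + (v + w) = w := by
  rw [← add_assoc, self_add, zero_add]

variable {I : Type} [Fintype I] [DecidableEq I] (ι : I ≃ U)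
  (c : LinearMap.BilinForm (ZMod 2) U)

/-- The twisted shift matrices. -/
def L (v : U) : Matrix I I ℝ :=
  Matrix.of fun i j => if j = ι.symm (v + ι i) then sg (c v (ι i)) else 0

theorem L_apply (v : U) (i j : I) :
    L ι c v i j = if j = ι.symm (v + ι i) then sg (c v (ι i)) else 0 := rfl

theorem L_mul_apply (v : U) (M : Matrix I I ℝ) (i k : I) :
    (L ι c v * M) i k = sg (c v (ι i)) * M (ι.symm (v + ι i)) k := by
  rw [Matrix.mul_apply, Finset.sum_eq_single (ι.symm (v + ι i))]
  · simp [L_apply]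
  · intro j _ hj
    simp [L_apply, hj]
  · simp

theorem L_mul (v w : U) : L ι c v * L ι c w = sg (c w v) • L ι c (v + w) := by
  ext i k
  rw [L_mul_apply, Matrix.smul_apply, L_apply, L_apply, smul_eq_mul]
  simp only [Equiv.apply_symm_apply, map_add, LinearMap.add_apply]
  rw [show w + (v + ι i) = v + w + ι i by abel]
  split_ifs
  · rw [sg_add, sg_add]; ring
  · simp

theorem L_zero : L ι c (0 : U) = 1 := by
  ext i j
  simp [L_apply, Matrix.one_apply, eq_comm]

theorem L_transpose (v : U) : (L ι c v)ᵀ = sg (c v v) • L ι c v := by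
  ext i j
  rw [Matrix.transpose_apply, Matrix.smul_apply, L_apply, L_apply, smul_eq_mul]
  by_cases h : j = ι.symm (v + ι i)
  · subst h
    have h1 : i = ι.symm (v + ι (ι.symm (v + ι i))) := by
      simp [add_add_self_left]
    rw [if_pos h1, if_pos rfl]
    simp only [Equiv.apply_symm_apply, map_add, sg_add]
  · have h1 : ¬ i = ι.symm (v + ι j) := by
      intro h1
      apply h
      rw [h1]
      simp [add_add_self_left]
    rw [if_neg h1, if_neg h]
    simp

theorem L_self (v : U) : L ι c v * L ι c v = sg (c v v) • (1 : Matrix I I ℝ) := by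
  rw [L_mul, self_add, L_zero]

theorem L_transpose_mul_self (v : U) : (L ι c v)ᵀ * L ι c v = 1 := by
  rw [L_transpose, Matrix.smul_mul, L_self, smul_smul, sg_mul_self, one_smul]

theorem L_mul_transpose_self (v : U) : L ι c v * (L ι c v)ᵀ = 1 := by
  rw [L_transpose, Matrix.mul_smul, L_self, smul_smul, sg_mul_self, one_smul]

theorem L_comm (v w : U) :
    L ι c v * L ι c w = sg (c v w + c w v) • (L ι c w * L ι c v) := by
  rw [L_mul, L_mul, smul_smul, ← sg_add, add_comm w v]
  have : c v w + c w v + c v w = c w v := by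
    generalize c v w = a
    generalize c w v = b
    revert a b
    decide
  rw [this]

/-- The coefficient functional. -/
def coef (M : Matrix I I ℝ) (w : U) : ℝ := M (ι.symm 0) (ι.symm w)

theorem coef_L (v w : U) [Decidable (w = v)] : coef ι (L ι c v) w = if w = v then 1 else 0 := by
  simp only [coef, L_apply, Equiv.apply_symm_apply, add_zero, map_zero, sg_zero]
  simp only [EmbeddingLike.apply_eq_iff_eq]

theorem coef_L_self (v : U) : coef ι (L ι c v) v = 1 := by
  classical
  rw [coef_L, if_pos rfl]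

theorem coef_L_of_ne {v w : U} (h : w ≠ v) : coef ι (L ι c v) w = 0 := by
  classical
  rw [coef_L, if_neg h]

theorem coef_add (M N : Matrix I I ℝ) (w : U) : coef ι (M + N) w = coef ι M w + coef ι N w := rfl

theorem coef_smul (a : ℝ) (M : Matrix I I ℝ) (w : U) : coef ι (a • M) w = a * coef ι M w := rfl

theorem coef_zero (w : U) : coef ι (0 : Matrix I I ℝ) w = 0 := rfl

theorem L_eq_sign_imp {v w : U} {s : ℝ} (h : L ι c v = s • L ι c w) (hs : s ≠ 0) : v = w := by
  have h1 := coef_L_self ι c v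
  rw [h, coef_smul] at h1
  by_contra hne
  rw [coef_L_of_ne ι c hne, mul_zero] at h1
  exact zero_ne_one h1

/-- The algebra spanned by the `L v`. -/
def A : Submodule ℝ (Matrix I I ℝ) := Submodule.span ℝ (Set.range (L ι c))

theorem L_mem_A (v : U) : L ι c v ∈ A ι c := Submodule.subset_span ⟨v, rfl⟩

theorem A_mul {M N : Matrix I I ℝ} (hM : M ∈ A ι c) (hN : N ∈ A ι c) : M * N ∈ A ι c := by
  induction hM using Submodule.span_induction with
  | mem x hx =>
    obtain ⟨v, rfl⟩ := hx
    induction hN using Submodule.span_induction with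
    | mem y hy =>
      obtain ⟨w, rfl⟩ := hy
      rw [L_mul]
      exact Submodule.smul_mem _ _ (L_mem_A ι c _)
    | zero => simp
    | add x y _ _ hx hy =>
      rw [Matrix.mul_add]
      exact Submodule.add_mem _ hx hy
    | smul a x _ hx =>
      rw [Matrix.mul_smul]
      exact Submodule.smul_mem _ _ hx
  | zero => simp
  | add x y _ _ hx hy =>
    rw [Matrix.add_mul]
    exact Submodule.add_mem _ hx hy
  | smul a x _ hx =>
    rw [Matrix.smul_mul]
    exact Submodule.smul_mem _ _ hx

theorem A_transpose {M : Matrix I I ℝ} (hM : M ∈ A ι c) : Mᵀ ∈ A ι c := by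
  induction hM using Submodule.span_induction with
  | mem x hx =>
    obtain ⟨v, rfl⟩ := hx
    rw [L_transpose]
    exact Submodule.smul_mem _ _ (L_mem_A ι c _)
  | zero => simp
  | add x y _ _ hx hy =>
    rw [Matrix.transpose_add]
    exact Submodule.add_mem _ hx hy
  | smul a x _ hx =>
    rw [Matrix.transpose_smul]
    exact Submodule.smul_mem _ _ hx

theorem coef_L_mul {M : Matrix I I ℝ} (hM : M ∈ A ι c) (v w : U) :
    coef ι (L ι c v * M) (v + w) = sg (c w v) * coef ι M w := by
  classical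
  induction hM using Submodule.span_induction with
  | mem x hx =>
    obtain ⟨x, rfl⟩ := hx
    rw [L_mul, coef_smul, coef_L, coef_L]
    by_cases h : w = x
    · subst h
      simp
    · have : ¬ v + w = v + x := fun h' => h (add_left_cancel h')
      simp [h, this]
  | zero => simp [coef_zero]
  | add x y _ _ hx hy =>
    rw [Matrix.mul_add, coef_add, coef_add, hx, hy, mul_add]
  | smul a x _ hx =>
    rw [Matrix.mul_smul, coef_smul, coef_smul, hx]
    ring

theorem coef_mul_L {M : Matrix I I ℝ} (hM : M ∈ A ι c) (v w : U) :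
    coef ι (M * L ι c v) (v + w) = sg (c v w) * coef ι M w := by
  classical
  induction hM using Submodule.span_induction with
  | mem x hx =>
    obtain ⟨x, rfl⟩ := hx
    rw [L_mul, coef_smul, coef_L, coef_L]
    by_cases h : w = x
    · subst h
      simp [add_comm]
    · have : ¬ v + w = x + v := fun h' => h (add_left_cancel (h'.trans (add_comm x v)))
      simp [h, this]
  | zero => simp [coef_zero]
  | add x y _ _ hx hy =>
    rw [Matrix.add_mul, coef_add, coef_add, hx, hy, mul_add]
  | smul a x _ hx =>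
    rw [Matrix.smul_mul, coef_smul, coef_smul, hx]
    ring

theorem A_expansion [Fintype U] {M : Matrix I I ℝ} (hM : M ∈ A ι c) :
    M = ∑ w : U, coef ι M w • L ι c w := by
  classical
  induction hM using Submodule.span_induction with
  | mem x hx =>
    obtain ⟨x, rfl⟩ := hx
    rw [Finset.sum_eq_single x]
    · rw [coef_L_self, one_smul]
    · intro w _ hw
      rw [coef_L_of_ne ι c hw, zero_smul]
    · simp
  | zero => simp [coef_zero]
  | add x y _ _ hx hy =>
    conv_lhs => rw [hx, hy]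
    simp only [coef_add, add_smul, Finset.sum_add_distrib]
  | smul a x _ hx =>
    conv_lhs => rw [hx]
    simp only [coef_smul, Finset.smul_sum, smul_smul]

/-- Non-degeneracy of the polar form. -/
def Nd : Prop := ∀ w : U, (∀ v : U, c v w + c w v = 0) → w = 0

variable {ι c}

theorem central_eq_scalar [Fintype U] (hnd : Nd c) {M : Matrix I I ℝ} (hM : M ∈ A ι c)
    (hcomm : ∀ v, L ι c v * M = M * L ι c v) : M = coef ι M 0 • (1 : Matrix I I ℝ) := by
  classical
  have hcoef : ∀ w, w ≠ 0 → coef ι M w = 0 := by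
    intro w hw
    by_contra hne
    apply hw
    apply hnd
    intro v
    have h1 := coef_L_mul ι c hM v w
    rw [hcomm, coef_mul_L ι c hM] at h1
    have h2 := mul_right_cancel₀ hne h1
    have h3 := sg_inj h2
    rw [h3]
    exact zmod2_add_self _
  conv_lhs => rw [A_expansion ι c hM]
  rw [Finset.sum_eq_single 0]
  · rw [L_zero]
  · intro w _ hw
    rw [hcoef w hw, zero_smul]
  · simp

theorem support_le_one [Fintype U] (hnd : Nd c) {M : Matrix I I ℝ} (hM : M ∈ A ι c)
    (σ : U → ZMod 2) (hcomm : ∀ v, M * L ι c v = sg (σ v) • (L ι c v * M))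
    {w w' : U} (hw : coef ι M w ≠ 0) (hw' : coef ι M w' ≠ 0) : w = w' := by
  have key : ∀ x, coef ι M x ≠ 0 → ∀ v, σ v = c v x + c x v := by
    intro x hx v
    have h1 := coef_mul_L ι c hM v x
    rw [hcomm, coef_smul, coef_L_mul ι c hM, ← mul_assoc, ← sg_add] at h1
    have h2 := mul_right_cancel₀ hx h1
    have h3 := sg_inj h2
    rw [← h3]
    generalize σ v = a
    generalize c x v = b
    revert a b
    decide
  have : w + w' = 0 := by
    apply hnd
    intro v
    simp only [map_add, LinearMap.add_apply]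
    have h3 := (key w hw v).symm.trans (key w' hw' v)
    revert h3
    generalize c v w = a
    generalize c v w' = b
    generalize c w v = a'
    generalize c w' v = b'
    revert a b a' b'
    decide
  have h2 := add_add_self_left w w'
  rw [this, add_zero] at h2
  exact h2

theorem exists_e [Module.Finite (ZMod 2) U] (b : LinearMap.BilinForm (ZMod 2) U)
    (hb : ∀ v, b v v = 0) :
    ∃ e : U → ZMod 2, ∀ v w, e (v + w) = e v + e w + b w v := by
  classical
  let n := Module.finrank (ZMod 2) U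
  let bm : Module.Basis (Fin n) (ZMod 2) U := Module.finBasis (ZMod 2) U
  let d : LinearMap.BilinForm (ZMod 2) U :=
    bm.constr (S := ZMod 2) fun i =>
      bm.constr (S := ZMod 2) fun j => if i < j then b (bm i) (bm j) else 0
  have hd : ∀ i j, d (bm i) (bm j) = if i < j then b (bm i) (bm j) else 0 := by
    intro i j
    simp only [d]
    rw [Module.Basis.constr_basis, Module.Basis.constr_basis]
  have hsymm : ∀ v w, b v w = b w v := by
    intro v w
    have h := hb (v + w)
    simp only [map_add, LinearMap.add_apply, hb, zero_add, add_zero] at h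
    revert h
    generalize b v w = x
    generalize b w v = y
    revert x y
    decide
  have key : ∀ v w, d v w + d w v = b w v := by
    have h1 : d + LinearMap.flip d = LinearMap.flip b := by
      apply LinearMap.BilinForm.ext_basis bm
      intro i j
      simp only [LinearMap.add_apply, LinearMap.flip_apply, hd]
      rcases lt_trichotomy i j with h | h | h
      · rw [if_pos h, if_neg h.not_gt, add_zero]
        exact hsymm _ _
      · subst h
        simp [hb]
      · rw [if_neg h.not_gt, if_pos h, zero_add]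
    intro v w
    have := congrArg (fun f : LinearMap.BilinForm (ZMod 2) U => f v w) h1
    simpa only [LinearMap.add_apply, LinearMap.flip_apply] using this
  refine ⟨fun v => d v v, fun v w => ?_⟩
  simp only [map_add, LinearMap.add_apply]
  rw [← key v w]
  ring

section Averaging

variable (ι c)
variable (g : U →ₗ[ZMod 2] U) (e : U → ZMod 2)

/-- The twisted transported shifts. -/
def a (v : U) : Matrix I I ℝ := sg (e v) • L ι c (g v)

variable {g e}

theorem a_mul (he : ∀ v w, e (v + w) = e v + e w + (c (g w) (g v) + c w v)) (v w : U) :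
    a ι c g e v * a ι c g e w = sg (c w v) • a ι c g e (v + w) := by
  unfold a
  rw [Matrix.smul_mul, Matrix.mul_smul, L_mul, smul_smul, smul_smul, smul_smul, map_add, he]
  congr 1
  simp only [← sg_add]
  congr 1
  generalize e v = x1
  generalize e w = x2
  generalize c (g w) (g v) = x3
  generalize c w v = x4
  revert x1 x2 x3 x4
  decide

theorem L_add_transpose_mul (v w : U) :
    (L ι c (v + w))ᵀ * L ι c v = sg (c w v) • (L ι c w)ᵀ := by
  have h1 := L_mul ι c v w
  have h2 : (L ι c (v + w)) = sg (c w v) • (L ι c v * L ι c w) := by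
    rw [h1, smul_smul, sg_mul_self, one_smul]
  rw [h2, Matrix.transpose_smul, Matrix.transpose_mul, Matrix.smul_mul, Matrix.mul_assoc,
    L_transpose_mul_self, Matrix.mul_one]

variable [Fintype U]

variable (g e) in
/-- The averaging operator. -/
def T (x : Matrix I I ℝ) : Matrix I I ℝ := ∑ w : U, a ι c g e w * x * (L ι c w)ᵀ

theorem a_mul_T (he : ∀ v w, e (v + w) = e v + e w + (c (g w) (g v) + c w v)) (v : U)
    (x : Matrix I I ℝ) : a ι c g e v * T ι c g e x = T ι c g e x * L ι c v := by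
  unfold T
  rw [Finset.mul_sum, Finset.sum_mul,
    ← Equiv.sum_comp (Equiv.addLeft v) (fun w => a ι c g e w * x * (L ι c w)ᵀ * L ι c v)]
  apply Finset.sum_congr rfl
  intro w _
  simp only [Equiv.coe_addLeft]
  rw [Matrix.mul_assoc (a ι c g e (v + w) * x), L_add_transpose_mul, ← Matrix.mul_assoc,
    ← Matrix.mul_assoc, a_mul ι c he]
  simp only [Matrix.smul_mul, Matrix.mul_smul]

theorem char_sum (hnd : Nd c) {t : U} (ht : t ≠ 0) : ∑ r : U, sg (c t r + c r t) = 0 := by
  have h1 : ∃ r₀, c r₀ t + c t r₀ ≠ 0 := by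
    by_contra h
    push Not at h
    exact ht (hnd t h)
  obtain ⟨r₀, hr₀⟩ := h1
  have h2 : c t r₀ + c r₀ t = 1 := by
    have : c r₀ t + c t r₀ = 1 := by
      revert hr₀
      generalize c r₀ t + c t r₀ = x
      revert x
      decide
    rw [add_comm]
    exact this
  have h3 := Equiv.sum_comp (Equiv.addLeft r₀) (fun r : U => sg (c t r + c r t))
  simp only [Equiv.coe_addLeft, map_add, LinearMap.add_apply] at h3
  have h4 : ∀ r, sg (c t r₀ + c t r + (c r₀ t + c r t)) = - sg (c t r + c r t) := by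
    intro r
    have : c t r₀ + c t r + (c r₀ t + c r t) = (c t r₀ + c r₀ t) + (c t r + c r t) := by ring
    rw [this, h2, sg_add, sg_one]
    ring
  simp only [h4, Finset.sum_neg_distrib] at h3
  linarith

theorem T_sum (hnd : Nd c) (hg : Function.Injective g)
    (he : ∀ v w, e (v + w) = e v + e w + (c (g w) (g v) + c w v)) :
    ∑ r : U, (L ι c r)ᵀ * T ι c g e (L ι c r) = (Fintype.card U : ℝ) • (1 : Matrix I I ℝ) := by
  have h1 : ∀ r w, (L ι c r)ᵀ * (a ι c g e w * L ι c r * (L ι c w)ᵀ)
      = sg (c (g w) r + c r (g w)) • (a ι c g e w * (L ι c w)ᵀ) := by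
    intro r w
    have : a ι c g e w * L ι c r = sg (c (g w) r + c r (g w)) • (L ι c r * a ι c g e w) := by
      unfold a
      rw [Matrix.smul_mul, L_comm, Matrix.mul_smul, smul_comm]
    rw [this, Matrix.smul_mul, Matrix.mul_smul, ← Matrix.mul_assoc, ← Matrix.mul_assoc,
      L_transpose_mul_self, Matrix.one_mul]
  unfold T
  simp only [Finset.mul_sum, h1]
  rw [Finset.sum_comm, Finset.sum_eq_single (0 : U)]
  · have he0 : e 0 = 0 := by
      have := he 0 0
      simp only [add_zero, map_zero, LinearMap.zero_apply] at this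
      revert this
      generalize e 0 = x
      revert x
      decide
    simp only [map_zero, LinearMap.zero_apply, add_zero, sg_zero, one_smul, Finset.sum_const,
      Finset.card_univ]
    unfold a
    rw [he0, map_zero, sg_zero, one_smul, L_zero, Matrix.transpose_one, Matrix.one_mul]
    rw [Nat.cast_smul_eq_nsmul]
  · intro w _ hw
    rw [← Finset.sum_smul, char_sum c hnd (fun h => hw (hg (by rw [h, map_zero]))), zero_smul]
  · simp

theorem A_T {x : Matrix I I ℝ} (hx : x ∈ A ι c) : T ι c g e x ∈ A ι c := by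
  unfold T
  refine Submodule.sum_mem _ fun w _ => ?_
  refine A_mul ι c (A_mul ι c ?_ hx) (A_transpose ι c (L_mem_A ι c w))
  exact Submodule.smul_mem _ _ (L_mem_A ι c _)

theorem one_ne_zero_mat (i : I) : (1 : Matrix I I ℝ) ≠ 0 := by
  intro h
  have := congrFun (congrFun h i) i
  simp at this

theorem exists_intertwiner (hnd : Nd c) (hg : Function.Injective g)
    (he : ∀ v w, e (v + w) = e v + e w + (c (g w) (g v) + c w v)) :
    ∃ u₀ ∈ A ι c, u₀ ≠ 0 ∧ ∀ v, a ι c g e v * u₀ = u₀ * L ι c v := by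
  have h1 : ∃ r, T ι c g e (L ι c r) ≠ 0 := by
    by_contra h
    push Not at h
    have h2 := T_sum ι c hnd hg he
    simp only [h, Matrix.mul_zero, Finset.sum_const_zero] at h2
    have h3 : (Fintype.card U : ℝ) ≠ 0 := by
      have : 0 < Fintype.card U := Fintype.card_pos
      positivity
    exact one_ne_zero_mat (ι.symm 0) (smul_eq_zero.1 h2.symm |>.resolve_left h3)
  obtain ⟨r, hr⟩ := h1
  exact ⟨_, A_T ι c (L_mem_A ι c r), hr, fun v => a_mul_T ι c he v _⟩

theorem a_transpose_mul_self (v : U) : (a ι c g e v)ᵀ * a ι c g e v = 1 := by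
  unfold a
  rw [Matrix.transpose_smul, Matrix.smul_mul, Matrix.mul_smul, L_transpose_mul_self, smul_smul,
    sg_mul_self, one_smul]

theorem exists_orth (hnd : Nd c) (hg : Function.Injective g)
    (he : ∀ v w, e (v + w) = e v + e w + (c (g w) (g v) + c w v)) :
    ∃ u ∈ A ι c, uᵀ * u = 1 ∧ ∀ v, u * L ι c v = sg (e v) • (L ι c (g v) * u) := by
  obtain ⟨u₀, hA, hne, hu⟩ := exists_intertwiner ι c hnd hg he
  have hS : ∀ v, L ι c v * (u₀ᵀ * u₀) = (u₀ᵀ * u₀) * L ι c v := by
    intro v
    have h1 : u₀ᵀ * u₀ * L ι c v = u₀ᵀ * (a ι c g e v * u₀) := by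
      rw [hu, Matrix.mul_assoc]
    have h2 : (L ι c v)ᵀ * (u₀ᵀ * u₀ * L ι c v) = u₀ᵀ * u₀ := by
      rw [h1, ← Matrix.mul_assoc, ← Matrix.transpose_mul, ← hu, Matrix.transpose_mul,
        Matrix.mul_assoc, ← Matrix.mul_assoc _ (a ι c g e v), a_transpose_mul_self, Matrix.one_mul]
    calc L ι c v * (u₀ᵀ * u₀) = L ι c v * ((L ι c v)ᵀ * (u₀ᵀ * u₀ * L ι c v)) := by rw [h2]
      _ = (u₀ᵀ * u₀) * L ι c v := by
        rw [← Matrix.mul_assoc, L_mul_transpose_self, Matrix.one_mul]
  have hSA : u₀ᵀ * u₀ ∈ A ι c := A_mul ι c (A_transpose ι c hA) hA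
  have hscal := central_eq_scalar hnd hSA hS
  set lam := coef ι (u₀ᵀ * u₀) 0 with hlam
  have hpos : 0 < lam := by
    have h1 : ∃ i j, u₀ i j ≠ 0 := by
      by_contra h
      push Not at h
      exact hne (Matrix.ext h)
    obtain ⟨i, j, hij⟩ := h1
    have h2 : (u₀ᵀ * u₀) j j = lam := by
      rw [hscal]
      simp
    rw [Matrix.mul_apply] at h2
    rw [← h2]
    have h3 : ∀ k ∈ Finset.univ, 0 ≤ u₀ᵀ j k * u₀ k j := by
      intro k _
      rw [Matrix.transpose_apply]
      exact mul_self_nonneg _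
    refine lt_of_lt_of_le ?_ (Finset.single_le_sum h3 (Finset.mem_univ i))
    rw [Matrix.transpose_apply]
    exact mul_self_pos.2 hij
  set s := (Real.sqrt lam)⁻¹ with hs
  have hs2 : s * s * lam = 1 := by
    rw [hs, ← mul_inv, Real.mul_self_sqrt hpos.le]
    exact inv_mul_cancel₀ hpos.ne'
  refine ⟨s • u₀, Submodule.smul_mem _ _ hA, ?_, fun v => ?_⟩
  · rw [Matrix.transpose_smul, Matrix.smul_mul, Matrix.mul_smul, hscal, smul_smul, smul_smul]
    rw [show s * s * coef ι (u₀ᵀ * u₀) 0 = 1 from hs2, one_smul]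
  · rw [Matrix.smul_mul, ← hu]
    unfold a
    rw [Matrix.mul_smul, Matrix.smul_mul]
    rw [smul_comm]

end Averaging

section Grp

variable (ι c)
variable {K : Type*} [Group K] (ρ : K →* (U →ₗ[ZMod 2] U))

/-- `u` conjugates `L v` to `± L (ρ k v)`. -/
def Wit (u : Matrix I I ℝ) (k : K) : Prop :=
  ∀ v, ∃ s : ZMod 2, u * L ι c v = sg s • (L ι c (ρ k v) * u)

variable {ι c ρ}

theorem wit_one : Wit ι c ρ (1 : Matrix I I ℝ) (1 : K) := fun v => ⟨0, by simp⟩

theorem wit_mul {u₁ u₂ : Matrix I I ℝ} {k₁ k₂ : K} (h₁ : Wit ι c ρ u₁ k₁) (h₂ : Wit ι c ρ u₂ k₂) :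
    Wit ι c ρ (u₁ * u₂) (k₁ * k₂) := by
  intro v
  obtain ⟨s₂, hs₂⟩ := h₂ v
  obtain ⟨s₁, hs₁⟩ := h₁ (ρ k₂ v)
  refine ⟨s₂ + s₁, ?_⟩
  rw [Matrix.mul_assoc, hs₂, Matrix.mul_smul, ← Matrix.mul_assoc, hs₁, Matrix.smul_mul, smul_smul,
    ← sg_add, map_mul, Module.End.mul_apply, Matrix.mul_assoc]

theorem wit_inv {u : (Matrix I I ℝ)ˣ} {k : K} (h : Wit ι c ρ u.1 k) :
    Wit ι c ρ (u⁻¹).1 k⁻¹ := by
  intro v
  obtain ⟨s, hs⟩ := h (ρ k⁻¹ v)
  have hv : ρ k (ρ k⁻¹ v) = v := by
    rw [← Module.End.mul_apply, ← map_mul, mul_inv_cancel, map_one, Module.End.one_apply]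
  rw [hv] at hs
  refine ⟨s, ?_⟩
  have h1 : L ι c (ρ k⁻¹ v) = (u⁻¹).1 * (u.1 * L ι c (ρ k⁻¹ v)) := by
    rw [← Matrix.mul_assoc, Units.inv_mul, Matrix.one_mul]
  rw [h1, hs, Matrix.mul_smul, Matrix.smul_mul, smul_smul, sg_mul_self, one_smul,
    Matrix.mul_assoc, Matrix.mul_assoc, Units.mul_inv, Matrix.mul_one]

theorem wit_unique (hρ : Function.Injective ρ) {u : (Matrix I I ℝ)ˣ} {k k' : K}
    (h : Wit ι c ρ u.1 k) (h' : Wit ι c ρ u.1 k') : k = k' := by
  apply hρ
  apply LinearMap.ext
  intro v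
  obtain ⟨s, hs⟩ := h v
  obtain ⟨s', hs'⟩ := h' v
  have h1 : sg s • (L ι c (ρ k v) * u.1) = sg s' • (L ι c (ρ k' v) * u.1) := hs.symm.trans hs'
  have h2 : L ι c (ρ k v) * u.1 = (sg s * sg s') • (L ι c (ρ k' v) * u.1) := by
    rw [mul_smul, ← h1, smul_smul, sg_mul_self, one_smul]
  have h3 : L ι c (ρ k v) = (sg s * sg s') • L ι c (ρ k' v) := by
    have := congrArg (fun M => M * (u⁻¹).1) h2
    simpa only [Matrix.smul_mul, Matrix.mul_assoc, Units.mul_inv, Matrix.mul_one] using this
  exact L_eq_sign_imp ι c h3 (mul_ne_zero (sg_ne_zero _) (sg_ne_zero _))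

theorem inv_val_eq {u : (Matrix I I ℝ)ˣ} (h : (u.1)ᵀ * u.1 = 1) : (u⁻¹).1 = (u.1)ᵀ := by
  calc (u⁻¹).1 = ((u.1)ᵀ * u.1) * (u⁻¹).1 := by rw [h, Matrix.one_mul]
    _ = (u.1)ᵀ := by rw [Matrix.mul_assoc, Units.mul_inv, Matrix.mul_one]

variable (ι c ρ)

/-- The big group. -/
def RR : Subgroup (Matrix I I ℝ)ˣ where
  carrier := {u | (u.1)ᵀ * u.1 = 1 ∧ u.1 ∈ A ι c ∧ ∃ k, Wit ι c ρ u.1 k}
  one_mem' := by
    refine ⟨by simp, ?_, 1, wit_one⟩
    rw [Units.val_one, ← L_zero ι c]
    exact L_mem_A ι c 0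
  mul_mem' := by
    rintro u₁ u₂ ⟨h₁, h₁', k₁, hk₁⟩ ⟨h₂, h₂', k₂, hk₂⟩
    refine ⟨?_, ?_, k₁ * k₂, ?_⟩
    · rw [Units.val_mul, Matrix.transpose_mul, Matrix.mul_assoc, ← Matrix.mul_assoc (u₁.1)ᵀ, h₁,
        Matrix.one_mul, h₂]
    · rw [Units.val_mul]
      exact A_mul ι c h₁' h₂'
    · rw [Units.val_mul]
      exact wit_mul hk₁ hk₂
  inv_mem' := by
    rintro u ⟨h, h', k, hk⟩
    refine ⟨?_, ?_, k⁻¹, wit_inv hk⟩
    · rw [inv_val_eq h, Matrix.transpose_transpose]
      exact mul_eq_one_comm.1 h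
    · rw [inv_val_eq h]
      exact A_transpose ι c h'

variable {ι c ρ}

theorem RR_wit (r : RR ι c ρ) : ∃ k, Wit ι c ρ r.1.1 k := r.2.2.2

variable (ι c ρ) in
/-- The projection to `K`. -/
def piFun (r : RR ι c ρ) : K := Classical.choose (RR_wit r)

theorem piFun_spec (r : RR ι c ρ) : Wit ι c ρ r.1.1 (piFun ι c ρ r) :=
  Classical.choose_spec (RR_wit r)

variable (ι c) in
/-- The projection to `K`, as a homomorphism. -/
def piHom (hρ : Function.Injective ρ) : RR ι c ρ →* K :=
  MonoidHom.mk' (piFun ι c ρ) fun a b =>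
    wit_unique hρ (piFun_spec (a * b)) (wit_mul (piFun_spec a) (piFun_spec b))

theorem piHom_spec (hρ : Function.Injective ρ) (r : RR ι c ρ) :
    Wit ι c ρ r.1.1 (piHom ι c hρ r) := piFun_spec r

theorem piHom_eq (hρ : Function.Injective ρ) {r : RR ι c ρ} {k : K}
    (h : Wit ι c ρ r.1.1 k) : piHom ι c hρ r = k :=
  wit_unique hρ (piHom_spec hρ r) h

/-- A unit from an orthogonal matrix. -/
def mkUnit (u : Matrix I I ℝ) (h : uᵀ * u = 1) : (Matrix I I ℝ)ˣ :=
  ⟨u, uᵀ, mul_eq_one_comm.1 h, h⟩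

theorem piHom_surj [Fintype U] [Module.Finite (ZMod 2) U] (hρ : Function.Injective ρ)
    (hnd : Nd c) (hq : ∀ k v, c (ρ k v) (ρ k v) = c v v) :
    Function.Surjective (piHom ι c hρ) := by
  intro k
  have hg : Function.Injective (ρ k) := by
    intro x y hxy
    have h1 : ∀ z, ρ k⁻¹ (ρ k z) = z := by
      intro z
      rw [← Module.End.mul_apply, ← map_mul, inv_mul_cancel, map_one, Module.End.one_apply]
    rw [← h1 x, ← h1 y, hxy]
  obtain ⟨e, he⟩ := exists_e (c.comp (ρ k) (ρ k) + c) (by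
    intro v
    simp only [LinearMap.add_apply, LinearMap.BilinForm.comp_apply, hq]
    exact zmod2_add_self _)
  obtain ⟨u, hA, hu, huv⟩ := exists_orth (g := ρ k) (e := e) ι c hnd hg (by
    intro v w
    rw [he]
    simp only [LinearMap.add_apply, LinearMap.BilinForm.comp_apply])
  have hW : Wit ι c ρ u k := fun v => ⟨e v, huv v⟩
  refine ⟨⟨mkUnit u hu, hu, hA, k, hW⟩, piHom_eq hρ hW⟩

section Ker

theorem sign_L_orth (s : ZMod 2) (w : U) :
    (sg s • L ι c w)ᵀ * (sg s • L ι c w) = 1 := by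
  rw [Matrix.transpose_smul, Matrix.smul_mul, Matrix.mul_smul, L_transpose_mul_self, smul_smul,
    sg_mul_self, one_smul]

theorem wit_qelt (s : ZMod 2) (w : U) : Wit ι c ρ (sg s • L ι c w) (1 : K) := by
  intro v
  refine ⟨c w v + c v w, ?_⟩
  rw [map_one, Module.End.one_apply, Matrix.smul_mul, L_comm, Matrix.mul_smul, smul_comm]

variable (ι c ρ) in
/-- The elements of the big group coming from the signed shifts. -/
def qR (s : ZMod 2) (w : U) : RR ι c ρ :=
  ⟨mkUnit (sg s • L ι c w) (sign_L_orth s w), sign_L_orth s w,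
    Submodule.smul_mem _ _ (L_mem_A ι c w), 1, wit_qelt s w⟩

variable (hρ : Function.Injective ρ)

/-- The signed shifts as elements of the kernel. -/
def qelt (s : ZMod 2) (w : U) : (piHom ι c hρ).ker :=
  ⟨qR ι c ρ s w, by rw [MonoidHom.mem_ker]; exact piHom_eq hρ (wit_qelt s w)⟩

theorem qelt_val (s : ZMod 2) (w : U) :
    (qelt (ι := ι) (c := c) hρ s w).1.1.1 = sg s • L ι c w := rfl

include hρ in
theorem ker_ext {a b : (piHom ι c hρ).ker} (h : a.1.1.1 = b.1.1.1) : a = b :=
  Subtype.ext (Subtype.ext (Units.ext h))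

theorem qelt_surj [Fintype U] (hnd : Nd c) (a : (piHom ι c hρ).ker) :
    ∃ s w, a = qelt hρ s w := by
  have hk : piHom ι c hρ a.1 = 1 := a.2
  have hW := piHom_spec hρ a.1
  rw [hk] at hW
  have hMA : a.1.1.1 ∈ A ι c := a.1.2.2.1
  have hMO : (a.1.1.1)ᵀ * a.1.1.1 = 1 := a.1.2.1
  choose σ hσ using hW
  simp only [map_one, Module.End.one_apply] at hσ
  have hne : ∃ w, coef ι a.1.1.1 w ≠ 0 := by
    by_contra h
    push Not at h
    have h0 : a.1.1.1 = 0 := by
      rw [A_expansion ι c hMA]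
      simp [h]
    rw [h0] at hMO
    simp only [Matrix.mul_zero] at hMO
    exact one_ne_zero_mat (ι.symm 0) hMO.symm
  obtain ⟨w, hw⟩ := hne
  have hMw : a.1.1.1 = coef ι a.1.1.1 w • L ι c w := by
    conv_lhs => rw [A_expansion ι c hMA]
    rw [Finset.sum_eq_single w]
    · intro x _ hx
      have : coef ι a.1.1.1 x = 0 := by
        by_contra h
        exact hx (support_le_one hnd hMA σ hσ h hw)
      rw [this, zero_smul]
    · simp
  generalize coef ι a.1.1.1 w = m at hMw
  have hm : m * m = 1 := by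
    rw [hMw, Matrix.transpose_smul, Matrix.smul_mul, Matrix.mul_smul, L_transpose_mul_self,
      smul_smul] at hMO
    have := congrFun (congrFun hMO (ι.symm 0)) (ι.symm 0)
    simpa using this
  have hcases : m = sg 0 ∨ m = sg 1 := by
    rw [sg_zero, sg_one]
    exact mul_self_eq_one_iff.1 hm
  rcases hcases with h | h
  · exact ⟨0, w, ker_ext hρ (by rw [qelt_val, ← h]; exact hMw)⟩
  · exact ⟨1, w, ker_ext hρ (by rw [qelt_val, ← h]; exact hMw)⟩

theorem qelt_inj {s t : ZMod 2} {w v : U} (h : qelt (ι := ι) (c := c) hρ s w = qelt hρ t v) :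
    s = t ∧ w = v := by
  have h1 : sg s • L ι c w = sg t • L ι c v := congrArg (fun a => a.1.1.1) h
  have h2 : L ι c w = (sg s * sg t) • L ι c v := by
    rw [mul_smul, ← h1, smul_smul, sg_mul_self, one_smul]
  have h3 : w = v := L_eq_sign_imp ι c h2 (mul_ne_zero (sg_ne_zero _) (sg_ne_zero _))
  subst h3
  refine ⟨?_, rfl⟩
  have h4 := congrArg (fun M => coef ι M w) h1
  simp only [coef_smul, coef_L_self, mul_one] at h4
  exact sg_inj h4

theorem qelt_mul (s t : ZMod 2) (w v : U) :
    qelt (ι := ι) (c := c) hρ s w * qelt hρ t v = qelt hρ (s + t + c v w) (w + v) := by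
  apply ker_ext hρ
  change (sg s • L ι c w) * (sg t • L ι c v) = sg (s + t + c v w) • L ι c (w + v)
  rw [Matrix.smul_mul, Matrix.mul_smul, L_mul, smul_smul, smul_smul, sg_add, sg_add]

theorem qelt_zero : qelt (ι := ι) (c := c) hρ (0 : ZMod 2) (0 : U) = 1 := by
  apply ker_ext hρ
  change sg 0 • L ι c 0 = 1
  rw [sg_zero, one_smul, L_zero]

theorem qelt_comm_eq (s t : ZMod 2) (w v : U) :
    qelt (ι := ι) (c := c) hρ s w * qelt hρ t v
      = qelt hρ (c v w + c w v) 0 * (qelt hρ t v * qelt hρ s w) := by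
  simp only [qelt_mul, map_zero, LinearMap.zero_apply, zero_add, add_zero, map_add,
    LinearMap.add_apply]
  rw [add_comm v w]
  congr 1
  generalize c v w = x1
  generalize c w v = x2
  revert s t x1 x2
  decide

theorem qelt_commutator (s t : ZMod 2) (w v : U) :
    ⁅qelt (ι := ι) (c := c) hρ s w, qelt (ι := ι) (c := c) hρ t v⁆ = qelt hρ (c v w + c w v) 0 := by
  rw [commutatorElement_def, qelt_comm_eq]
  group

/-- The parametrisation of the kernel. -/
def qeq [Fintype U] (hnd : Nd c) : ZMod 2 × U ≃ (piHom ι c hρ).ker :=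
  Equiv.ofBijective (fun p => qelt hρ p.1 p.2)
    ⟨fun p p' h => by
        have := qelt_inj hρ h
        exact Prod.ext this.1 this.2,
      fun a => by
        obtain ⟨s, w, h⟩ := qelt_surj hρ hnd a
        exact ⟨(s, w), h.symm⟩⟩

/-- The projection of the kernel to the space. -/
def chiHom [Fintype U] (hnd : Nd c) : (piHom ι c hρ).ker →* Multiplicative U :=
  MonoidHom.mk' (fun a => Multiplicative.ofAdd ((qeq hρ hnd).symm a).2) (by
    intro a b
    obtain ⟨s, w, rfl⟩ := qelt_surj hρ hnd a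
    obtain ⟨t, v, rfl⟩ := qelt_surj hρ hnd b
    have key : ∀ s w, ((qeq (ι := ι) hρ hnd).symm (qelt hρ s w)).2 = w := by
      intro s w
      have : qelt (ι := ι) (c := c) hρ s w = qeq hρ hnd (s, w) := rfl
      rw [this, Equiv.symm_apply_apply]
    rw [qelt_mul, key, key, key, ofAdd_add])

theorem chi_qelt [Fintype U] (hnd : Nd c) (s : ZMod 2) (w : U) :
    chiHom (ι := ι) hρ hnd (qelt hρ s w) = Multiplicative.ofAdd w := by
  change Multiplicative.ofAdd ((qeq (ι := ι) hρ hnd).symm (qelt hρ s w)).2 = _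
  have : qelt (ι := ι) (c := c) hρ s w = qeq hρ hnd (s, w) := rfl
  rw [this, Equiv.symm_apply_apply]

theorem qelt_mem_center_iff [Fintype U] (hnd : Nd c) (s : ZMod 2) (w : U) :
    qelt (ι := ι) (c := c) hρ s w ∈ Subgroup.center (piHom ι c hρ).ker ↔ w = 0 := by
  constructor
  · intro h
    apply hnd
    intro v
    have h1 := (Subgroup.mem_center_iff.1 h) (qelt hρ 0 v)
    rw [qelt_comm_eq hρ 0 s v w, qelt_mul, qelt_mul] at h1
    have h2 := (qelt_inj hρ h1).1
    simp only [map_zero, LinearMap.zero_apply, zero_add, add_zero, map_add,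
      LinearMap.add_apply] at h2
    clear h1 h
    revert h2
    generalize c w v = x1
    generalize c v w = x2
    revert s x1 x2
    decide
  · rintro rfl
    rw [Subgroup.mem_center_iff]
    intro g
    obtain ⟨t, v, rfl⟩ := qelt_surj hρ hnd g
    rw [qelt_comm_eq hρ t s v 0]
    simp [qelt_zero]

theorem extraspecial_ker [Fintype U] [Nontrivial U] [Finite K] (hnd : Nd c)
    (hcard : Nat.card (piHom ι c hρ).ker = 2 ^ (Module.finrank (ZMod 2) U + 1))
    [Module.Finite (ZMod 2) U] :
    Cfsg.IsExtraspecial 2 (piHom ι c hρ).ker := by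
  have hpg : IsPGroup 2 (piHom ι c hρ).ker := by
    haveI : Fact (Nat.Prime 2) := ⟨Nat.prime_two⟩
    exact IsPGroup.of_card hcard
  haveI : Finite (piHom ι c hρ).ker := (qeq hρ hnd).finite_iff.1 inferInstance
  have h01 : ∀ x : ZMod 2, x = 0 ∨ x = 1 := zmod2_cases
  have hz1 : ∀ x : ZMod 2, qelt (ι := ι) (c := c) hρ x (0 : U) = 1 ∨ qelt (ι := ι) (c := c) hρ x (0 : U) = qelt hρ 1 0 := by
    intro x
    rcases h01 x with rfl | rfl
    · exact Or.inl (qelt_zero hρ)
    · exact Or.inr rfl
  refine Cfsg.Agent.Lib.PGroup.ExtraMk.isExtraspecial_of hpg (qelt hρ 1 0) ?_ ?_ ?_ ?_ ?_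
  · intro h
    rw [← qelt_zero hρ] at h
    have := (qelt_inj hρ h).1
    exact absurd this (by decide)
  · intro x
    obtain ⟨s, w, rfl⟩ := qelt_surj hρ hnd x
    rw [qelt_mem_center_iff hρ hnd]
    constructor
    · rintro rfl
      exact hz1 s
    · rintro (h | h)
      · rw [← qelt_zero hρ] at h
        exact (qelt_inj hρ h).2
      · exact (qelt_inj hρ h).2
  · intro x y
    obtain ⟨s, w, rfl⟩ := qelt_surj hρ hnd x
    obtain ⟨t, v, rfl⟩ := qelt_surj hρ hnd y
    rw [qelt_commutator]
    exact hz1 _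
  · intro x
    obtain ⟨s, w, rfl⟩ := qelt_surj hρ hnd x
    rw [pow_two, qelt_mul, self_add w]
    exact hz1 _
  · obtain ⟨w, hw⟩ := exists_ne (0 : U)
    have h1 : ∃ v, c v w + c w v ≠ 0 := by
      by_contra h
      push Not at h
      exact hw (hnd w h)
    obtain ⟨v, hv⟩ := h1
    refine ⟨qelt hρ 0 w, qelt hρ 0 v, ?_⟩
    rw [qelt_commutator]
    congr 1
    revert hv
    generalize c v w + c w v = x
    revert x
    decide

theorem sq_iff [Fintype U] (hnd : Nd c) (a : (piHom ι c hρ).ker) :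
    a * a = 1 ↔ (fun w => c w w) (Multiplicative.toAdd (chiHom hρ hnd a)) = 0 := by
  obtain ⟨s, w, rfl⟩ := qelt_surj hρ hnd a
  rw [chi_qelt, qelt_mul, self_add w, ← qelt_zero hρ]
  simp only [toAdd_ofAdd]
  constructor
  · intro h
    have := (qelt_inj hρ h).1
    rw [zmod2_add_self, zero_add] at this
    exact this
  · intro h
    rw [h, zmod2_add_self, add_zero]

theorem conj_eq [Fintype U] (hnd : Nd c) (r : RR ι c ρ) (a : (piHom ι c hρ).ker)
    (hN : (piHom ι c hρ).ker.Normal) :
    chiHom hρ hnd ⟨r * (a : RR ι c ρ) * r⁻¹, hN.conj_mem (a : RR ι c ρ) a.2 r⟩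
      = Multiplicative.ofAdd (ρ (piHom ι c hρ r) (Multiplicative.toAdd (chiHom hρ hnd a))) := by
  obtain ⟨s, w, rfl⟩ := qelt_surj hρ hnd a
  rw [chi_qelt]
  simp only [toAdd_ofAdd]
  obtain ⟨s', hs'⟩ := piHom_spec hρ r w
  have key : ∀ hm, (⟨r * ((qelt (ι := ι) (c := c) hρ s w : (piHom ι c hρ).ker) : RR ι c ρ) * r⁻¹, hm⟩ :
      (piHom ι c hρ).ker) = qelt hρ (s + s') (ρ (piHom ι c hρ r) w) := by
    intro hm
    apply ker_ext hρ
    change r.1.1 * (sg s • L ι c w) * ((r⁻¹ : RR ι c ρ).1).1 = sg (s + s') • L ι c _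
    have h1 : r.1.1 * (sg s • L ι c w) = (sg (s + s')) • (L ι c (ρ (piHom ι c hρ r) w) * r.1.1) := by
      rw [Matrix.mul_smul, hs', smul_smul, sg_add]
    rw [h1, Matrix.smul_mul, Matrix.mul_assoc]
    congr 1
    have h2 : r.1.1 * ((r⁻¹ : RR ι c ρ).1).1 = 1 := by
      change ((r * r⁻¹ : RR ι c ρ).1).1 = 1
      rw [mul_inv_cancel]
      rfl
    rw [h2, Matrix.mul_one]
  rw [key, chi_qelt]

end Ker

end Grp

end

/-- Let K be a group acting faithfully and linearly on a finite-dimensional vector space U of dimension 2n ≥ 2 over the field with two elements, preserving a quadratic form q whose polar bilinear form is non-degenerate and which vanishes on some n-dimensional subspace (a non-singular form of plus type). Then there is a finite group R with a normal extraspecial 2-subgroup Q of order 2^(2n+1), an isomorphism of R/Q with K, and a surjective homomorphism χ from Q onto (the additive group of) U with kernel the centre of Q, such that χ carries conjugation by any r in R to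 the action of the image of r in K, and an element a of Q squares to the identity exactly when q vanishes at χ(a). -/
theorem result {K : Type*} [Group K] {U : Type*} [AddCommGroup U] [Module (ZMod 2) U] [Module.Finite (ZMod 2) U] (n : ℕ) (hn1 : 1 ≤ n) (hn : Module.finrank (ZMod 2) U = 2 * n) (ρ : Representation (ZMod 2) K U) (hρ : Function.Injective ρ) (q : QuadraticForm (ZMod 2) U) (hq : ∀ (k : K) (u : U), q (ρ k u) = q u) (hnd : (QuadraticMap.polarBilin q).Nondegenerate) (hplus : ∃ W : Submodule (ZMod 2) U, Module.finrank (ZMod 2) ↥W = n ∧ ∀ w ∈ W, q w = 0) : ∃ (R : Type) (_ : Group R) (_ : Finite R) (Q : Subgroup R) (hN : Q.Normal) (e : R ⧸ Q ≃* K) (χ : ↥Q →* Multiplicative U), Cfsg.IsExtraspecial 2 ↥Q ∧ Nat.card ↥Q = 2 ^ (2 * n + 1) ∧ Function.Surjective χ ∧ χ.ker = Subgroup.center ↥Q ∧ (∀ (r : R) (a : ↥Q), χ ⟨r * a * r⁻¹, hN.conj_mem (a : R) a.2 r⟩ = Multiplicative.ofAdd (ρ (e (r : R ⧸ Q)) (Multiplicative.toAdd (χ a)))) ∧ ∀ a : ↥Q, a * a = 1 ↔ q (Multiplicative.toAdd (χ a))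 = 0 := by
  classical
  haveI : Finite U := Module.finite_of_finite (ZMod 2)
  letI : Fintype U := Fintype.ofFinite U
  let bm := Module.finBasis (ZMod 2) U
  let c : LinearMap.BilinForm (ZMod 2) U := q.toBilin bm
  have hcq : ∀ v, c v v = q v := fun v => by
    have := QuadraticMap.toQuadraticMap_toBilin q bm
    conv_rhs => rw [← this]
    rfl
  have hpolar : ∀ v w, QuadraticMap.polar q v w = c v w + c w v := by
    intro v w
    simp only [QuadraticMap.polar, ← hcq, map_add, LinearMap.add_apply]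
    ring
  have hNd : Nd c := by
    intro w hw
    apply hnd.2 w
    intro v
    rw [QuadraticMap.polarBilin_apply_apply, hpolar]
    exact hw v
  have hq' : ∀ k v, c (ρ k v) (ρ k v) = c v v := by
    intro k v
    rw [hcq, hcq, hq]
  let I := Fin (Nat.card U)
  let ι : I ≃ U := (Finite.equivFin U).symm
  haveI : Nontrivial U := by
    apply Module.nontrivial_of_finrank_pos (R := ZMod 2)
    omega
  have hsurj := piHom_surj (ι := ι) (c := c) hρ hNd hq'
  have hcard : Nat.card (piHom ι c hρ).ker = 2 ^ (2 * n + 1) := by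
    rw [Nat.card_congr (qeq hρ hNd).symm, Nat.card_prod, Nat.card_zmod,
      Module.natCard_eq_pow_finrank (K := ZMod 2), hn, Nat.card_zmod]
    ring
  haveI hKfin : Finite K :=
    Finite.of_injective (fun k => (ρ k : U → U)) fun x y h => hρ (LinearMap.ext (congrFun h))
  haveI hQfin : Finite (piHom ι c hρ).ker := (qeq hρ hNd).finite_iff.1 inferInstance
  haveI hQuot : Finite (RR ι c ρ ⧸ (piHom ι c hρ).ker) :=
    (QuotientGroup.quotientKerEquivOfSurjective _ hsurj).toEquiv.finite_iff.2 hKfin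
  have hfin : Finite (RR ι c ρ) :=
    Finite.of_equiv _ (Subgroup.groupEquivQuotientProdSubgroup (s := (piHom ι c hρ).ker)).symm
  refine ⟨RR ι c ρ, inferInstance, hfin, (piHom ι c hρ).ker, inferInstance,
    QuotientGroup.quotientKerEquivOfSurjective _ hsurj, chiHom hρ hNd, ?_, hcard, ?_, ?_, ?_, ?_⟩
  · apply extraspecial_ker hρ hNd
    rw [hcard, hn]
  · intro m
    exact ⟨qelt hρ 0 (Multiplicative.toAdd m), by rw [chi_qelt]; rfl⟩
  · ext a
    obtain ⟨s, w, rfl⟩ := qelt_surj hρ hNd a
    rw [MonoidHom.mem_ker, chi_qelt, qelt_mem_center_iff hρ hNd]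
    exact ofAdd_eq_one
  · intro r a
    exact conj_eq hρ hNd r a inferInstance
  · intro a
    have := sq_iff hρ hNd a
    simp only [hcq] at this
    exact this

end Cfsg.Agent.S3084
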