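import Cfsg.Statements.S3085
import Cfsg.Agent.Lib.PGroup.Extraspecial
import Mathlib

set_option autoImplicit false
open Cfsg

namespace Cfsg.Agent.S3085

structure Data (Q : Type*) [Group Q] (z : Q) : Prop where
  z_ne : z ≠ 1
  z_comm : ∀ x, z * x = x * z
  z_sq : z * z = 1
  comm : ∀ x y, x * y = y * x ∨ x * y = z * (y * x)
  sq : ∀ x, x * x = 1 ∨ x * x = z
  cen : ∀ x, (∀ y, x * y = y * x) → x = 1 ∨ x = z

variable {Q : Type*} [Group Q] {z : Q}

open Classical in
/-- The map `x ↦ x` if `x` commutes with `g`, and `x ↦ x g` otherwise. -/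
noncomputable def alphaFun (g x : Q) : Q := if x * g = g * x then x else x * g

lemma alphaFun_of_comm {g x : Q} (h : x * g = g * x) : alphaFun g x = x := by
  simp [alphaFun, h]

lemma alphaFun_of_not {g x : Q} (h : ¬ x * g = g * x) : alphaFun g x = x * g := by
  simp [alphaFun, h]

lemma Data.not_comm (D : Data Q z) {x g : Q} (h : ¬ x * g = g * x) : x * g = z * (g * x) :=
  (D.comm x g).resolve_left h

lemma Data.alpha_mul (D : Data Q z) {g : Q} (hg : g * g = z) (x y : Q) :
    alphaFun g (x * y) = alphaFun g x * alphaFun g y := by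
  by_cases hx : x * g = g * x <;> by_cases hy : y * g = g * y
  · have : x * y * g = g * (x * y) := by
      rw [mul_assoc, hy, ← mul_assoc, hx, mul_assoc]
    rw [alphaFun_of_comm this, alphaFun_of_comm hx, alphaFun_of_comm hy]
  · have : ¬ x * y * g = g * (x * y) := by
      intro h
      apply hy
      have h2 : x * (y * g) = x * (g * y) := by
        rw [← mul_assoc, h, ← mul_assoc, ← mul_assoc, hx]
      exact mul_left_cancel h2
    rw [alphaFun_of_not this, alphaFun_of_comm hx, alphaFun_of_not hy, mul_assoc]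
  · have : ¬ x * y * g = g * (x * y) := by
      intro h
      apply hx
      have h2 : (x * g) * y = (g * x) * y := by
        rw [mul_assoc, ← hy, ← mul_assoc, h, mul_assoc]
      exact mul_right_cancel h2
    rw [alphaFun_of_not this, alphaFun_of_not hx, alphaFun_of_comm hy, mul_assoc, mul_assoc, hy]
  · have hx' := D.not_comm hx
    have hy' := D.not_comm hy
    have : x * y * g = g * (x * y) := by
      calc x * y * g = x * (z * (g * y)) := by rw [mul_assoc, hy']
        _ = z * (x * g) * y := by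
          rw [← mul_assoc x z, ← D.z_comm x]; simp only [mul_assoc]
        _ = z * (z * (g * x)) * y := by rw [hx']
        _ = g * (x * y) := by
          rw [← mul_assoc z z, D.z_sq]; simp only [one_mul, mul_assoc]
    rw [alphaFun_of_comm this, alphaFun_of_not hx, alphaFun_of_not hy]
    have h3 : g * (y * g) = y := by
      calc g * (y * g) = g * (z * (g * y)) := by rw [hy']
        _ = (g * z) * (g * y) := by rw [mul_assoc]
        _ = (z * g) * (g * y) := by rw [D.z_comm g]
        _ = z * (g * g) * y := by simp only [mul_assoc]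
        _ = y := by rw [hg, D.z_sq, one_mul]
    rw [mul_assoc x g, h3]

lemma Data.alpha_self (g : Q) : alphaFun g g = g := alphaFun_of_comm rfl

lemma Data.alpha_inj (D : Data Q z) {g : Q} (hg : g * g = z) : Function.Injective (alphaFun g) := by
  have key : ∀ x, alphaFun g x = 1 → x = 1 := by
    intro x hx
    by_cases h : x * g = g * x
    · rwa [alphaFun_of_comm h] at hx
    · rw [alphaFun_of_not h] at hx
      exfalso; apply h
      have : x = g⁻¹ := eq_inv_of_mul_eq_one_left hx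
      rw [this]; simp
  have hm : (MonoidHom.mk' (alphaFun g) (D.alpha_mul hg)) = (MonoidHom.mk' (alphaFun g) (D.alpha_mul hg)) := rfl
  intro a b hab
  have h1 : alphaFun g (a * b⁻¹) = 1 := by
    have h2 := D.alpha_mul hg (a * b⁻¹) b
    rw [inv_mul_cancel_right, hab] at h2
    exact (mul_eq_right.mp h2.symm)
  have := key _ h1
  exact mul_inv_eq_one.mp this

variable [Finite Q]

/-- The automorphism attached to `g` with `g² = z`. -/
noncomputable def al (D : Data Q z) (g : Q) (hg : g * g = z) : MulAut Q :=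
  MulEquiv.ofBijective (MonoidHom.mk' (alphaFun g) (D.alpha_mul hg))
    (Finite.injective_iff_bijective.mp (D.alpha_inj hg))

lemma al_apply (D : Data Q z) (g : Q) (hg : g * g = z) (x : Q) :
    al D g hg x = alphaFun g x := rfl

lemma al_conj (a : MulAut Q) (w : Q) : a * MulAut.conj w = MulAut.conj (a w) * a := by
  ext x
  simp [MulAut.mul_apply, MulAut.conj_apply, map_mul, map_inv]

lemma Data.conj_z (D : Data Q z) : MulAut.conj z = 1 := by
  ext x
  simp [MulAut.conj_apply, D.z_comm x]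

lemma al_sq (D : Data Q z) (g : Q) (hg : g * g = z) :
    al D g hg * al D g hg = MulAut.conj g := by
  ext x
  rw [MulAut.mul_apply, al_apply, al_apply, MulAut.conj_apply]
  by_cases h : x * g = g * x
  · rw [alphaFun_of_comm h, alphaFun_of_comm h, ← h]; simp
  · rw [alphaFun_of_not h, D.alpha_mul hg, alphaFun_of_not h, Data.alpha_self, mul_assoc, hg]
    have h' := D.not_comm h
    rw [← mul_right_cancel_iff (a := g)]
    simp only [inv_mul_cancel_right]
    calc x * z * g = z * (x * g) := by rw [← D.z_comm x]; simp only [mul_assoc]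
      _ = z * (z * (g * x)) := by rw [h']
      _ = g * x := by rw [← mul_assoc, D.z_sq, one_mul]

lemma al_comm (D : Data Q z) (g h : Q) (hg : g * g = z) (hh : h * h = z) (hgh : g * h = h * g) :
    al D g hg * al D h hh = al D h hh * al D g hg := by
  ext x
  rw [MulAut.mul_apply, MulAut.mul_apply, al_apply, al_apply, al_apply, al_apply]
  by_cases h1 : x * g = g * x <;> by_cases h2 : x * h = h * x
  · rw [alphaFun_of_comm h2, alphaFun_of_comm h1, alphaFun_of_comm h2]
  · rw [alphaFun_of_not h2, alphaFun_of_comm h1, D.alpha_mul hg, alphaFun_of_comm h1,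
      alphaFun_of_comm hgh.symm, alphaFun_of_not h2]
  · rw [alphaFun_of_comm h2, alphaFun_of_not h1, D.alpha_mul hh, alphaFun_of_comm h2,
      alphaFun_of_comm hgh]
  · rw [alphaFun_of_not h2, alphaFun_of_not h1, D.alpha_mul hg, D.alpha_mul hh,
      alphaFun_of_not h1, alphaFun_of_not h2, alphaFun_of_comm hgh, alphaFun_of_comm hgh.symm,
      mul_assoc, mul_assoc, hgh]

/-- Claim A -/
lemma claimA (D : Data Q z) {L : Subgroup (MulAut Q)} (hL : Disjoint (Inn Q) L) {g y : Q}
    (hg : g * g = z) (hy : MulAut.conj y * al D g hg ∈ L) : ¬ y * g = g * y := by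
  intro h
  have hfix : al D g hg y = y := alphaFun_of_comm h
  have h1 : (MulAut.conj y * al D g hg) * (MulAut.conj y * al D g hg) = MulAut.conj (y * y * g) := by
    calc (MulAut.conj y * al D g hg) * (MulAut.conj y * al D g hg)
        = MulAut.conj y * (al D g hg * MulAut.conj y) * al D g hg := by simp only [mul_assoc]
      _ = MulAut.conj y * (MulAut.conj y * al D g hg) * al D g hg := by rw [al_conj, hfix]
      _ = MulAut.conj y * MulAut.conj y * (al D g hg * al D g hg) := by simp only [mul_assoc]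
      _ = MulAut.conj (y * y * g) := by rw [al_sq, map_mul, map_mul]
  have h2 : MulAut.conj (y * y * g) ∈ L := h1 ▸ L.mul_mem hy hy
  have h3 : MulAut.conj (y * y * g) = 1 := by
    have : MulAut.conj (y * y * g) ∈ Inn Q ⊓ L := ⟨⟨_, rfl⟩, h2⟩
    rw [hL.eq_bot] at this
    simpa using this
  have h4 : MulAut.conj g = 1 := by
    rcases D.sq y with h5 | h5
    · rw [h5, one_mul] at h3; exact h3
    · rw [h5, map_mul, D.conj_z, one_mul] at h3; exact h3
  have h5 : ∀ x, g * x = x * g := by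
    intro x
    have := DFunLike.congr_fun h4 x
    rw [MulAut.conj_apply, MulAut.one_apply] at this
    exact mul_inv_eq_iff_eq_mul.mp this
  rcases D.cen g h5 with h6 | h6
  · rw [h6, one_mul] at hg; exact D.z_ne hg.symm
  · rw [h6, D.z_sq] at hg; exact D.z_ne hg.symm

/-- Claim B -/
lemma claimB (D : Data Q z) {L : Subgroup (MulAut Q)} (hL : Disjoint (Inn Q) L) {g h y w : Q}
    (hg : g * g = z) (hh : h * h = z) (hgh : g * h = h * g)
    (hc : MulAut.conj h ≠ 1) (hc2 : MulAut.conj g ≠ MulAut.conj h)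
    (hy : MulAut.conj y * al D g hg ∈ L) (hw : MulAut.conj w * al D h hh ∈ L) : y * h = h * y := by
  by_contra hne
  set a := al D g hg with ha
  set b := al D h hh with hb
  have hab : a * b = b * a := al_comm D g h hg hh hgh
  have e1 : (MulAut.conj y * a) * (MulAut.conj w * b) = MulAut.conj (y * a w) * (a * b) := by
    calc (MulAut.conj y * a) * (MulAut.conj w * b) = MulAut.conj y * (a * MulAut.conj w) * b := by
          simp only [mul_assoc]
      _ = MulAut.conj y * (MulAut.conj (a w) * a) * b := by rw [al_conj]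
      _ = MulAut.conj (y * a w) * (a * b) := by rw [map_mul]; simp only [mul_assoc]
  have e2 : (MulAut.conj w * b) * (MulAut.conj y * a) = MulAut.conj (w * b y) * (a * b) := by
    calc (MulAut.conj w * b) * (MulAut.conj y * a) = MulAut.conj w * (b * MulAut.conj y) * a := by
          simp only [mul_assoc]
      _ = MulAut.conj w * (MulAut.conj (b y) * b) * a := by rw [al_conj]
      _ = MulAut.conj (w * b y) * (b * a) := by rw [map_mul]; simp only [mul_assoc]
      _ = MulAut.conj (w * b y) * (a * b) := by rw [hab]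
  have hmem : (MulAut.conj y * a) * (MulAut.conj w * b) * ((MulAut.conj w * b) * (MulAut.conj y * a))⁻¹ ∈ L :=
    L.mul_mem (L.mul_mem hy hw) (L.inv_mem (L.mul_mem hw hy))
  have hval : (MulAut.conj y * a) * (MulAut.conj w * b) * ((MulAut.conj w * b) * (MulAut.conj y * a))⁻¹
      = MulAut.conj ((y * a w) * (w * b y)⁻¹) := by
    rw [e1, e2, map_mul (MulAut.conj) (y * a w), map_inv]
    group
  have htriv : MulAut.conj ((y * a w) * (w * b y)⁻¹) = 1 := by
    rw [hval] at hmem
    have : MulAut.conj ((y * a w) * (w * b y)⁻¹) ∈ Inn Q ⊓ L := ⟨⟨_, rfl⟩, hmem⟩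
    rw [hL.eq_bot] at this
    simpa using this
  have heq : MulAut.conj (y * a w) = MulAut.conj (w * b y) := by
    rw [map_mul, map_inv] at htriv
    exact mul_inv_eq_one.mp htriv
  have hby : b y = y * h := alphaFun_of_not hne
  have hyw : MulAut.conj (y * w) = MulAut.conj (w * y) := by
    rcases D.comm y w with h6 | h6
    · rw [h6]
    · rw [h6, map_mul, D.conj_z, one_mul]
  rw [hby] at heq
  by_cases h1 : w * g = g * w
  · have h2 : a w = w := alphaFun_of_comm h1
    rw [h2, hyw, ← mul_assoc, map_mul (MulAut.conj) (w * y) h] at heq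
    exact hc (mul_left_cancel (a := MulAut.conj (w * y)) (by rw [mul_one]; exact heq.symm))
  · have h2 : a w = w * g := alphaFun_of_not h1
    rw [h2, ← mul_assoc, ← mul_assoc, map_mul (MulAut.conj) (y * w) g, hyw,
      map_mul (MulAut.conj) (w * y) h] at heq
    exact hc2 (mul_left_cancel heq)


lemma conj_ne_one_of_not_center (D : Data Q z) {x : Q} (hx : x ≠ 1) (hx2 : x ≠ z) :
    MulAut.conj x ≠ 1 := by
  intro h
  have h5 : ∀ y, x * y = y * x := by
    intro y
    have := DFunLike.congr_fun h y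
    rw [MulAut.conj_apply, MulAut.one_apply] at this
    exact mul_inv_eq_iff_eq_mul.mp this
  rcases D.cen x h5 with h6 | h6
  · exact hx h6
  · exact hx2 h6

/-- The combinatorial core: three pairwise commuting independent elements of square `z` prevent
a complement. -/
theorem core (D : Data Q z) (L : Subgroup (MulAut Q)) (hL : (Inn Q).IsComplement' L)
    {g₁ g₂ g₃ : Q} (h1 : g₁ * g₁ = z) (h2 : g₂ * g₂ = z) (h3 : g₃ * g₃ = z)
    (h12 : g₁ * g₂ = g₂ * g₁) (h13 : g₁ * g₃ = g₃ * g₁) (h23 : g₂ * g₃ = g₃ * g₂)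
    (n2 : MulAut.conj g₂ ≠ 1) (n3 : MulAut.conj g₃ ≠ 1)
    (n4 : MulAut.conj (g₁ * g₂ * g₃) ≠ 1)
    (n12 : MulAut.conj g₁ ≠ MulAut.conj g₂) (n13 : MulAut.conj g₁ ≠ MulAut.conj g₃)
    (n14 : MulAut.conj g₁ ≠ MulAut.conj (g₁ * g₂ * g₃)) : False := by
  have hdisj : Disjoint (Inn Q) L := hL.disjoint
  have hex : ∀ a : MulAut Q, ∃ y : Q, MulAut.conj y * a ∈ L := by
    intro a
    obtain ⟨⟨⟨_, ⟨y, rfl⟩⟩, ⟨l, hl⟩⟩, he⟩ := hL.2 a
    refine ⟨y⁻¹, ?_⟩
    have he' : MulAut.conj y * l = a := he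
    rw [← he', map_inv, inv_mul_cancel_left]
    exact hl
  have h4 : (g₁ * g₂ * g₃) * (g₁ * g₂ * g₃) = z := by
    have c1 : g₁ * g₂ * g₃ * (g₁ * g₂ * g₃) = (g₁ * g₁) * (g₂ * g₂) * (g₃ * g₃) := by
      calc g₁ * g₂ * g₃ * (g₁ * g₂ * g₃) = g₁ * g₂ * (g₃ * g₁) * (g₂ * g₃) := by
            simp only [mul_assoc]
        _ = g₁ * g₂ * (g₁ * g₃) * (g₂ * g₃) := by rw [h13]
        _ = g₁ * (g₂ * g₁) * (g₃ * g₂) * g₃ := by simp only [mul_assoc]
        _ = g₁ * (g₁ * g₂) * (g₂ * g₃) * g₃ := by rw [h12, h23]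
        _ = (g₁ * g₁) * (g₂ * g₂) * (g₃ * g₃) := by simp only [mul_assoc]
    rw [c1, h1, h2, h3, D.z_sq, one_mul]
  obtain ⟨y, hy⟩ := hex (al D g₁ h1)
  obtain ⟨w₂, hw₂⟩ := hex (al D g₂ h2)
  obtain ⟨w₃, hw₃⟩ := hex (al D g₃ h3)
  obtain ⟨w₄, hw₄⟩ := hex (al D (g₁ * g₂ * g₃) h4)
  have c14 : g₁ * (g₁ * g₂ * g₃) = (g₁ * g₂ * g₃) * g₁ :=
    ((Commute.refl g₁).mul_right h12).mul_right h13
  have A := claimA D hdisj h1 hy
  have B2 := claimB D hdisj h1 h2 h12 n2 n12 hy hw₂
  have B3 := claimB D hdisj h1 h3 h13 n3 n13 hy hw₃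
  have B4 := claimB D hdisj h1 h4 c14 n4 n14 hy hw₄
  apply A
  have C2 : Commute y g₂ := B2
  have C3 : Commute y g₃ := B3
  have C4 : Commute y (g₁ * g₂ * g₃) := B4
  have : g₁ = (g₁ * g₂ * g₃) * g₃⁻¹ * g₂⁻¹ := by group
  have C1 : Commute y g₁ := by
    rw [this]
    exact (C4.mul_right C3.inv_right).mul_right C2.inv_right
  exact C1


lemma conj_ne_of_mem (D : Data Q z) {K : Subgroup Q} (hz : z ∈ K) {a b : Q} (ha : a ∈ K)
    (hb : b ∉ K) : MulAut.conj a ≠ MulAut.conj b := by
  intro h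
  have h1 : MulAut.conj (a⁻¹ * b) = 1 := by
    rw [map_mul, map_inv, ← h, inv_mul_cancel]
  have h5 : ∀ y, (a⁻¹ * b) * y = y * (a⁻¹ * b) := by
    intro y
    have := DFunLike.congr_fun h1 y
    rw [MulAut.conj_apply, MulAut.one_apply] at this
    exact mul_inv_eq_iff_eq_mul.mp this
  have h6 : a⁻¹ * b ∈ K := by
    rcases D.cen _ h5 with h6 | h6
    · rw [h6]; exact K.one_mem
    · rw [h6]; exact hz
  apply hb
  have := K.mul_mem ha h6
  simpa using this

lemma conj_ne_one_of_mem (D : Data Q z) {K : Subgroup Q} (hz : z ∈ K) {b : Q}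
    (hb : b ∉ K) : MulAut.conj b ≠ 1 := by
  have := conj_ne_of_mem D hz K.one_mem hb
  rw [map_one] at this
  exact this.symm

lemma pick (D : Data Q z) {g₁ : Q} (h1 : g₁ * g₁ = z) (A K : Subgroup Q)
    (hA : ∀ a ∈ A, a * g₁ = g₁ * a) (hg₁A : g₁ ∈ A) (hg₁K : g₁ ∈ K)
    (hlt : Nat.card K < Nat.card A) : ∃ g ∈ A, g ∉ K ∧ g * g = z := by
  have : ∃ x ∈ A, x ∉ K := by
    by_contra hcon
    push Not at hcon
    have := Subgroup.card_le_of_le (fun x hx => hcon x hx : A ≤ K)
    omega
  obtain ⟨x, hxA, hxK⟩ := this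
  rcases D.sq x with h | h
  · refine ⟨x * g₁, A.mul_mem hxA hg₁A, ?_, ?_⟩
    · intro hc
      apply hxK
      have := K.mul_mem hc (K.inv_mem hg₁K)
      simpa using this
    · calc x * g₁ * (x * g₁) = x * (g₁ * x) * g₁ := by simp only [mul_assoc]
        _ = x * (x * g₁) * g₁ := by rw [hA x hxA]
        _ = (x * x) * (g₁ * g₁) := by simp only [mul_assoc]
        _ = z := by rw [h, h1, one_mul]
  · exact ⟨x, hxA, hxK, h⟩

open Cfsg.Agent.Lib.PGroup.Extraspecial in
lemma exists_data (hQ : Cfsg.IsExtraspecial 2 Q) : ∃ z : Q, Data Q z := by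
  haveI : Fact (Nat.Prime 2) := ⟨Nat.prime_two⟩
  have hcen := hQ.2
  obtain ⟨zz, hzz, huniq⟩ := (Nat.card_eq_two_iff' (1 : Subgroup.center Q)).mp hcen
  have hzz' : (zz : Q) ≠ 1 := fun h => hzz (Subtype.ext h)
  have two : ∀ c : Subgroup.center Q, (c : Q) = 1 ∨ (c : Q) = zz := by
    intro c
    by_cases h : c = 1
    · left; rw [h]; rfl
    · right; rw [huniq c h]
  have zc : ∀ x : Q, (zz : Q) * x = x * zz := fun x => (Subgroup.mem_center_iff.mp zz.2 x).symm
  refine ⟨zz, hzz', zc, ?_, ?_, ?_, ?_⟩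
  · rcases two (zz * zz) with h | h
    · exact h
    · exfalso; apply hzz'
      have h' : (zz : Q) * zz = zz := h
      exact mul_eq_right.mp h'
  · intro x y
    rcases two ⟨_, IsExtraspecial.comm_mem_center hQ x y⟩ with h | h
    · left
      exact commutatorElement_eq_one_iff_mul_comm.mp h
    · right
      have h' : x * y * x⁻¹ * y⁻¹ = zz := h
      rw [← h']; group
  · intro x
    rcases two ⟨_, IsExtraspecial.pow_mem_center hQ x⟩ with h | h
    · left; have h' : x ^ 2 = 1 := h; rwa [pow_two] at h'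
    · right; have h' : x ^ 2 = zz := h; rwa [pow_two] at h'
  · intro x hx
    have hx' : x ∈ Subgroup.center Q := Subgroup.mem_center_iff.mpr (fun y => (hx y).symm)
    exact two ⟨x, hx'⟩

open Cfsg.Agent.Lib.PGroup.Extraspecial in
theorem main {n : ℕ} (hn : 3 ≤ n) (hQ : Cfsg.IsExtraspecial 2 Q)
    (hcard : Nat.card Q = 2 ^ (2 * n + 1)) (L : Subgroup (MulAut Q)) :
    ¬ (Inn Q).IsComplement' L := by
  intro hL
  haveI : Fact (Nat.Prime 2) := ⟨Nat.prime_two⟩
  obtain ⟨z, D⟩ := exists_data hQ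
  have hQ128 : 128 ≤ Nat.card Q := by
    rw [hcard]
    calc 128 = 2 ^ (2 * 3 + 1) := by norm_num
      _ ≤ 2 ^ (2 * n + 1) := Nat.pow_le_pow_right (by norm_num) (by omega)
  -- some element of square `z`
  obtain ⟨g₁, h1⟩ : ∃ g : Q, g * g = z := by
    by_contra hcon
    push Not at hcon
    have hs : ∀ x : Q, x * x = 1 := fun x => (D.sq x).resolve_right (hcon x)
    have hc : ∀ x y : Q, x * y = y * x := by
      intro x y
      have h1 := hs (x * y)
      have h2 := hs x
      have h3 := hs y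
      calc x * y = x * y * (y * x) * (y * x) := by
            rw [mul_assoc _ (y * x) (y * x), hs (y * x), mul_one]
        _ = x * (y * y) * x * (y * x) := by simp only [mul_assoc]
        _ = y * x := by rw [h3, mul_one, h2, one_mul]
    have hcen : Subgroup.center Q = ⊤ := by
      ext x; simp [Subgroup.mem_center_iff, hc]
    have := hQ.2
    rw [hcen, Subgroup.card_top] at this
    omega
  have hcc := IsExtraspecial.comm_mem_center hQ
  have hZ := hQ.2
  have hord : ∀ g : Q, g * g = z → Nat.card (Subgroup.zpowers g) ≤ 4 := by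
    intro g hg
    rw [Nat.card_zpowers]
    apply orderOf_le_of_pow_eq_one (by norm_num)
    calc g ^ 4 = (g * g) * (g * g) := by simp only [pow_succ, pow_zero, one_mul, mul_assoc]
      _ = 1 := by rw [hg, D.z_sq]
  set A₁ : Subgroup Q := ⊤ ⊓ Subgroup.centralizer ({g₁} : Set Q) with hA₁
  have hA₁card : Nat.card Q ≤ 2 * Nat.card A₁ := by
    have := card_le_mul_card_inf_centralizer hcc hZ ⊤ g₁
    rwa [Subgroup.card_top] at this
  have hcomm1 : ∀ a ∈ A₁, a * g₁ = g₁ * a := by
    intro a ha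
    have := Subgroup.mem_centralizer_iff.mp ha.2 g₁ rfl
    exact this.symm
  have hg₁A₁ : g₁ ∈ A₁ := ⟨trivial, Subgroup.mem_centralizer_iff.mpr (by
    intro h hh; rw [Set.mem_singleton_iff.mp hh])⟩
  have hzK₁ : z ∈ Subgroup.zpowers g₁ := by
    rw [← h1, ← pow_two]; exact Subgroup.npow_mem_zpowers g₁ 2
  obtain ⟨g₂, hg₂A, hg₂K, h2⟩ := pick D h1 A₁ (Subgroup.zpowers g₁) hcomm1 hg₁A₁
    (Subgroup.mem_zpowers g₁) (by have := hord g₁ h1; omega)
  have h12 : g₁ * g₂ = g₂ * g₁ := (hcomm1 g₂ hg₂A).symm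
  set A₂ : Subgroup Q := A₁ ⊓ Subgroup.centralizer ({g₂} : Set Q) with hA₂
  have hA₂card : Nat.card A₁ ≤ 2 * Nat.card A₂ := card_le_mul_card_inf_centralizer hcc hZ A₁ g₂
  have hcomm2 : ∀ a ∈ A₂, a * g₁ = g₁ * a := fun a ha => hcomm1 a ha.1
  have hg₁A₂ : g₁ ∈ A₂ := ⟨hg₁A₁, Subgroup.mem_centralizer_iff.mpr (by
    intro h hh; rw [Set.mem_singleton_iff.mp hh]; exact h12.symm)⟩
  -- the subgroup generated by `g₁`, `g₂`
  let φ : Subgroup.zpowers g₁ × Subgroup.zpowers g₂ →* Q :=
    MonoidHom.noncommCoprod (Subgroup.zpowers g₁).subtype (Subgroup.zpowers g₂).subtype (by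
      rintro ⟨a, ha⟩ ⟨b, hb⟩
      obtain ⟨i, rfl⟩ := Subgroup.mem_zpowers_iff.mp ha
      obtain ⟨j, rfl⟩ := Subgroup.mem_zpowers_iff.mp hb
      have C : Commute g₁ g₂ := h12
      exact (C.zpow_zpow i j))
  have hφ1 : ∀ a : Subgroup.zpowers g₁, φ (a, 1) = a := by intro a; simp [φ]
  have hφ2 : ∀ b : Subgroup.zpowers g₂, φ (1, b) = b := by intro b; simp [φ]
  have hg₁K : g₁ ∈ φ.range := ⟨(⟨g₁, Subgroup.mem_zpowers g₁⟩, 1), hφ1 _⟩
  have hg₂K' : g₂ ∈ φ.range := ⟨(1, ⟨g₂, Subgroup.mem_zpowers g₂⟩), hφ2 _⟩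
  have hzK₂ : z ∈ φ.range := by
    rw [← h1]; exact φ.range.mul_mem hg₁K hg₁K
  have hcardK : Nat.card φ.range ≤ 16 := by
    have h3 : Nat.card φ.range ≤ Nat.card (Subgroup.zpowers g₁ × Subgroup.zpowers g₂) :=
      Nat.card_le_card_of_surjective _ φ.rangeRestrict_surjective
    rw [Nat.card_prod] at h3
    have h4 := hord g₁ h1
    have h5 := hord g₂ h2
    calc _ ≤ _ := h3
      _ ≤ 4 * 4 := Nat.mul_le_mul h4 h5
      _ = 16 := by norm_num
  obtain ⟨g₃, hg₃A, hg₃K, h3⟩ := pick D h1 A₂ φ.range hcomm2 hg₁A₂ hg₁K (by omega)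
  have h13 : g₁ * g₃ = g₃ * g₁ := (hcomm2 g₃ hg₃A).symm
  have h23 : g₂ * g₃ = g₃ * g₂ := by
    have := Subgroup.mem_centralizer_iff.mp hg₃A.2 g₂ rfl
    exact this
  have hn4 : g₁ * g₂ * g₃ ∉ φ.range := by
    intro hc
    apply hg₃K
    have := φ.range.mul_mem (φ.range.inv_mem (φ.range.mul_mem hg₁K hg₂K')) hc
    rwa [inv_mul_cancel_left] at this
  exact core D L hL h1 h2 h3 h12 h13 h23
    (conj_ne_one_of_mem D hzK₁ hg₂K) (conj_ne_one_of_mem D hzK₂ hg₃K)
    (conj_ne_one_of_mem D hzK₂ hn4)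
    (conj_ne_of_mem D hzK₁ (Subgroup.mem_zpowers g₁) hg₂K)
    (conj_ne_of_mem D hzK₂ hg₁K hg₃K)
    (conj_ne_of_mem D hzK₂ hg₁K hn4)

/-- Let Q be an extraspecial 2-group of order 2^(2n+1) with n ≥ 3 that is of plus type (it contains an elementary abelian subgroup of order 2^(n+1)). Then the group of inner automorphisms of Q has no complement in the full automorphism group of Q: the extension of the inner automorphism group (elementary abelian of order 2^(2n)) by the outer automorphism group (the orthogonal group of plus type) does not split. -/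
theorem result {Q : Type*} [Group Q] [Finite Q] (n : ℕ) (hn : 3 ≤ n) (hQ : Cfsg.IsExtraspecial 2 Q) (hcard : Nat.card Q = 2 ^ (2 * n + 1)) (hplus : ∃ E : Subgroup Q, Cfsg.IsElementaryAbelian 2 E ∧ Nat.card ↥E = 2 ^ (n + 1)) (L : Subgroup (MulAut Q)) : ¬ (Cfsg.Inn Q).IsComplement' L :=
  main hn hQ hcard L

end Cfsg.Agent.S3085
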