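import Cfsg.Statements.S3117
import Mathlib
import Cfsg.Agent.Lib.PGroup.Critical
import Cfsg.Agent.Lib.PGroup.AnisoQuad
import Cfsg.Agent.Lib.Char.Burnside2
import Cfsg.Agent.S0121

set_option autoImplicit false
open Cfsg

namespace Cfsg.Agent.S3117

section Core
variable {D : Type*} [Group D] [Finite D] {V : Subgroup D}

/-- Hypotheses on the subgroup `V` of order four. -/
structure Hyp (V : Subgroup D) : Prop where
  cen : ∀ v ∈ V, ∀ x : D, v * x = x * v
  sq : ∀ x : D, x ^ 2 ∈ V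
  v2 : ∀ v ∈ V, v ^ 2 = 1
  card4 : Nat.card V = 4
  aniso : ∀ x : D, x ^ 2 = 1 → x ∈ V

theorem Hyp.comm_mem (h : Hyp V) (x y : D) : x * y * x⁻¹ * y⁻¹ ∈ V := by
  have hc : y * (x ^ 2)⁻¹ = (x ^ 2)⁻¹ * y := (h.cen _ (V.inv_mem (h.sq x)) y).symm
  have : x * y * x⁻¹ * y⁻¹ = (x * y) ^ 2 * (x ^ 2)⁻¹ * (y ^ 2)⁻¹ := by
    calc x * y * x⁻¹ * y⁻¹ = x * y * x * ((x ^ 2)⁻¹ * y) * (y ^ 2)⁻¹ := by group
      _ = x * y * x * (y * (x ^ 2)⁻¹) * (y ^ 2)⁻¹ := by rw [hc]
      _ = (x * y) ^ 2 * (x ^ 2)⁻¹ * (y ^ 2)⁻¹ := by rw [pow_two (x * y)]; group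
  rw [this]
  exact V.mul_mem (V.mul_mem (h.sq _) (V.inv_mem (h.sq x))) (V.inv_mem (h.sq y))

theorem Hyp.sq_mul (h : Hyp V) (x y : D) :
    (x * y) ^ 2 = (x * y * x⁻¹ * y⁻¹) * x ^ 2 * y ^ 2 := by
  have hc : y⁻¹ * x ^ 2 = x ^ 2 * y⁻¹ := (h.cen _ (h.sq x) y⁻¹).symm
  calc (x * y) ^ 2 = x * y * x⁻¹ * (x ^ 2 * y⁻¹) * y ^ 2 := by rw [pow_two (x * y)]; group
    _ = x * y * x⁻¹ * (y⁻¹ * x ^ 2) * y ^ 2 := by rw [hc]
    _ = _ := by group

theorem Hyp.comm_mul (h : Hyp V) (u v w : D) :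
    u * (v * w) * u⁻¹ * (v * w)⁻¹ = (u * v * u⁻¹ * v⁻¹) * (u * w * u⁻¹ * w⁻¹) := by
  have hk := h.cen _ (h.comm_mem u w) v
  calc u * (v * w) * u⁻¹ * (v * w)⁻¹ = (u * v * u⁻¹ * v⁻¹) * (v * (u * w * u⁻¹ * w⁻¹)) * v⁻¹ := by group
    _ = (u * v * u⁻¹ * v⁻¹) * ((u * w * u⁻¹ * w⁻¹) * v) * v⁻¹ := by rw [hk]
    _ = _ := by group

theorem Hyp.enum (h : Hyp V) {a : D} (ha : a ∈ V) (ha1 : a ≠ 1) :
    ∃ b ∈ V, b ≠ 1 ∧ b ≠ a ∧ a * b ≠ 1 ∧ a * b ≠ a ∧ a * b ≠ b ∧
      ∀ t ∈ V, t = 1 ∨ t = a ∨ t = b ∨ t = a * b := by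
  classical
  have hcard : (V : Set D).ncard = 4 := by
    rw [← Nat.card_coe_set_eq]; exact h.card4
  have hb : ∃ b ∈ V, b ≠ 1 ∧ b ≠ a := by
    by_contra hcon
    push Not at hcon
    have hsub : (V : Set D) ⊆ {1, a} := by
      intro t ht
      by_cases ht1 : t = 1
      · left; exact ht1
      · right; exact hcon t ht ht1
    have := Set.ncard_le_ncard hsub (Set.toFinite _)
    have h2 : ({1, a} : Set D).ncard ≤ 2 := Set.ncard_insert_le _ _ |>.trans (by simp)
    omega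
  obtain ⟨b, hbV, hb1, hba⟩ := hb
  have h1 : a * b ≠ 1 := by
    intro hab
    have ha2 := h.v2 a ha
    apply hba
    have : a * a = 1 := by rw [← pow_two]; exact ha2
    calc b = a * a * b := by rw [this, one_mul]
      _ = a * (a * b) := by group
      _ = a := by rw [hab, mul_one]
  have h2 : a * b ≠ a := by
    intro hab
    exact hb1 (by simpa using hab)
  have h3 : a * b ≠ b := by
    intro hab
    exact ha1 (by simpa using hab)
  refine ⟨b, hbV, hb1, hba, h1, h2, h3, ?_⟩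
  have hsub : ({1, a, b, a * b} : Set D) ⊆ V := by
    rintro t (rfl | rfl | rfl | rfl)
    · exact V.one_mem
    · exact ha
    · exact hbV
    · exact V.mul_mem ha hbV
  have hn : ({1, a, b, a * b} : Set D).ncard = 4 := by
    rw [Set.ncard_eq_toFinset_card']
    simp only [Set.toFinset_insert, Set.toFinset_singleton]
    rw [Finset.card_insert_of_notMem, Finset.card_insert_of_notMem, Finset.card_insert_of_notMem,
      Finset.card_singleton]
    · simp [h3.symm]
    · simp [hba.symm, h2.symm]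
    · simp [ha1.symm, hb1.symm, h1.symm]
  have := Set.eq_of_subset_of_ncard_le hsub (by rw [hn, hcard]) (Set.toFinite _)
  intro t ht
  have ht' : t ∈ ({1, a, b, a * b} : Set D) := by rw [this]; exact ht
  exact ht'

/-- The basic "no three independent vectors" lemma. -/
theorem Hyp.card_le (h : Hyp V) (T : Subgroup D) (hVT : V ≤ T) {a : D} (ha : a ∈ V) (ha1 : a ≠ 1)
    (hT : ∀ x, x ∉ T → x ^ 2 ≠ 1 ∧ x ^ 2 ≠ a) : Nat.card D ≤ 4 * Nat.card T := by
  classical
  by_contra hcon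
  push Not at hcon
  obtain ⟨b, hbV, hb1, hba, hab1, haba, habb, hen⟩ := h.enum ha ha1
  -- all squares outside `T` lie in `{b, a b}`
  have hout : ∀ x, x ∉ T → x ^ 2 = b ∨ x ^ 2 = a * b := by
    intro x hx
    obtain ⟨h1, h2⟩ := hT x hx
    rcases hen _ (h.sq x) with h3 | h3 | h3 | h3
    · exact absurd h3 h1
    · exact absurd h3 h2
    · exact Or.inl h3
    · exact Or.inr h3
  -- cosets
  have hcoset : ∀ x : D, ((fun y => x * y) '' (T : Set D)).ncard = Nat.card T := by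
    intro x
    rw [Set.ncard_image_of_injective _ (mul_right_injective x), ← Nat.card_coe_set_eq]
    rfl
  have hex : ∀ S : Set D, S.ncard < Nat.card D → ∃ x, x ∉ S := by
    intro S hS
    by_contra hc
    push Not at hc
    have : S = Set.univ := Set.eq_univ_of_forall hc
    rw [this, Set.ncard_univ] at hS
    exact lt_irrefl _ hS
  have hTpos : 0 < Nat.card T := Nat.card_pos
  have hmem : ∀ x y : D, x * y ∈ T → y ∈ (fun y => x * y) '' (T : Set D) := by
    intro x y hxy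
    refine ⟨x⁻¹ * y, ?_, by group⟩
    have : x⁻¹ * y = (x ^ 2)⁻¹ * (x * y) := by group
    rw [SetLike.mem_coe, this]
    exact T.mul_mem (T.inv_mem (hVT (h.sq x))) hxy
  obtain ⟨u, hu⟩ := hex (T : Set D) (by
    rw [← Nat.card_coe_set_eq]
    show Nat.card T < _
    omega)
  obtain ⟨v, hv⟩ := hex ((T : Set D) ∪ (fun y => u * y) '' (T : Set D)) (by
    refine lt_of_le_of_lt (Set.ncard_union_le _ _) ?_
    rw [hcoset, ← Nat.card_coe_set_eq]
    show Nat.card T + Nat.card T < _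
    omega)
  obtain ⟨w, hw⟩ := hex (((T : Set D) ∪ (fun y => u * y) '' (T : Set D)) ∪
      ((fun y => v * y) '' (T : Set D) ∪ (fun y => (u * v) * y) '' (T : Set D))) (by
    refine lt_of_le_of_lt (Set.ncard_union_le _ _) ?_
    have h1 := Set.ncard_union_le (T : Set D) ((fun y => u * y) '' (T : Set D))
    have h2 := Set.ncard_union_le ((fun y => v * y) '' (T : Set D)) ((fun y => (u * v) * y) '' (T : Set D))
    rw [hcoset] at h1
    rw [hcoset, hcoset] at h2
    have h3 : (T : Set D).ncard = Nat.card T := by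
      rw [← Nat.card_coe_set_eq]; rfl
    omega)
  simp only [Set.mem_union, not_or] at hv hw
  obtain ⟨⟨hw1, hw2⟩, hw3, hw4⟩ := hw
  have hu' : u ∉ T := hu
  have hv' : v ∉ T := hv.1
  have hw' : w ∉ T := hw1
  have huv : u * v ∉ T := fun hc => hv.2 (hmem u v hc)
  have huw : u * w ∉ T := fun hc => hw2 (hmem u w hc)
  have hvw : v * w ∉ T := fun hc => hw3 (hmem v w hc)
  have huvw : (u * v) * w ∉ T := fun hc => hw4 (hmem (u * v) w hc)
  have ha2 : a * a = 1 := by rw [← pow_two]; exact h.v2 a ha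
  have hb2 : b * b = 1 := by rw [← pow_two]; exact h.v2 b hbV
  have habc : a * b = b * a := h.cen a ha b
  have L1 : ∀ s t : D, (s = b ∨ s = a * b) → (t = b ∨ t = a * b) → s * t = 1 ∨ s * t = a := by
    rintro s t (rfl | rfl) (rfl | rfl)
    · exact Or.inl hb2
    · right
      calc s * (a * s) = a * (s * s) := by rw [← mul_assoc, ← habc, mul_assoc]
        _ = a := by rw [hb2, mul_one]
    · right
      calc a * t * t = a * (t * t) := by rw [mul_assoc]
        _ = a := by rw [hb2, mul_one]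
    · left
      calc a * b * (a * b) = a * (b * a) * b := by group
        _ = a * (a * b) * b := by rw [← habc]
        _ = (a * a) * (b * b) := by group
        _ = 1 := by rw [ha2, hb2, one_mul]
  have L3 : ∀ k l : D, (k = 1 ∨ k = a) → (l = 1 ∨ l = a) → k * l = 1 ∨ k * l = a := by
    rintro k l (rfl | rfl) (rfl | rfl)
    · simp
    · simp
    · simp
    · exact Or.inl ha2
  have hne : ∀ s l : D, (s = b ∨ s = a * b) → (l = 1 ∨ l = a) → s ≠ l := by
    rintro s l (rfl | rfl) (rfl | rfl)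
    · exact hb1
    · exact hba
    · exact hab1
    · exact haba
  have hkey : ∀ x y : D, x ∉ T → y ∉ T → x * y ∉ T →
      x * y * x⁻¹ * y⁻¹ = b ∨ x * y * x⁻¹ * y⁻¹ = a * b := by
    intro x y hx hy hxy
    have h1 := h.sq_mul x y
    rw [mul_assoc _ (x ^ 2)] at h1
    have h2 := L1 _ _ (hout x hx) (hout y hy)
    rcases hen _ (h.comm_mem x y) with hk | hk | hk | hk
    · exfalso
      exact hne _ _ (hout _ hxy) (L3 _ _ (Or.inl hk) h2) h1
    · exfalso
      exact hne _ _ (hout _ hxy) (L3 _ _ (Or.inr hk) h2) h1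
    · exact Or.inl hk
    · exact Or.inr hk
  have hk1 := hkey u v hu' hv' huv
  have hk2 := hkey u w hu' hw' huw
  have hk3 := hkey u (v * w) hu' hvw (by rwa [mul_assoc] at huvw)
  rw [h.comm_mul] at hk3
  rcases L1 _ _ hk1 hk2 with h4 | h4
  · exact hne _ _ hk3 (Or.inl rfl) h4
  · exact hne _ _ hk3 (Or.inr rfl) h4

/-- subsets saturated by `V` have order divisible by `|V|`. -/
theorem card_dvd_of_sat (V : Subgroup D) (S : Set D) (hS : ∀ x ∈ S, ∀ v ∈ V, x * v ∈ S) :
    4 ∣ Nat.card V → 4 ∣ S.ncard := by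
  intro h4
  have hS' : S = QuotientGroup.mk ⁻¹' ((QuotientGroup.mk : D → D ⧸ V) '' S) := by
    ext x
    constructor
    · intro hx
      exact ⟨x, hx, rfl⟩
    · rintro ⟨y, hy, hyx⟩
      have : y⁻¹ * x ∈ V := QuotientGroup.eq.mp hyx
      have h2 := hS y hy _ this
      simpa using h2
  rw [← Nat.card_coe_set_eq, hS', Nat.card_congr (QuotientGroup.preimageMkEquivSubgroupProdSet V _),
    Nat.card_prod]
  exact Dvd.dvd.mul_right h4 _

/-- Fixed points of an automorphism. -/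
def Fix (f : MulAut D) : Subgroup D where
  carrier := {x | f x = x}
  mul_mem' := by
    intro x y hx hy
    show f (x * y) = x * y
    have hx : f x = x := hx
    have hy : f y = y := hy
    rw [map_mul, hx, hy]
  one_mem' := by simp
  inv_mem' := by
    intro x hx
    show f x⁻¹ = x⁻¹
    have hx : f x = x := hx
    rw [map_inv, hx]

theorem mem_Fix {f : MulAut D} {x : D} : x ∈ Fix f ↔ f x = x := Iff.rfl

theorem modEq_set (f : MulAut D) {r : ℕ} [Fact r.Prime] (hf : f ^ r = 1) (S : Set D)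
    (hS : ∀ x ∈ S, f x ∈ S) : S.ncard ≡ (S ∩ Fix f).ncard [MOD r] := by
  classical
  haveI : Fintype S := Fintype.ofFinite _
  let g : Function.End S := fun y => ⟨f y, hS _ y.2⟩
  have hit : ∀ k : ℕ, ∀ y : S, ((g ^ k) y : D) = (f ^ k) y := by
    intro k
    induction k with
    | zero => intro y; rw [pow_zero, pow_zero]; rfl
    | succ k ih =>
      intro y
      rw [pow_succ', pow_succ']
      show (f (((g ^ k) y : S) : D)) = f ((f ^ k) y)
      rw [ih]
  have hg : g ^ r ^ 1 = 1 := by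
    rw [pow_one]
    funext y
    apply Subtype.ext
    rw [hit, hf]
    rfl
  have h := Equiv.Perm.card_fixedPoints_modEq hg
  have h1 : Fintype.card S = S.ncard := by
    rw [← Nat.card_eq_fintype_card, Nat.card_coe_set_eq]
  have h2 : Fintype.card (Function.fixedPoints g) = (S ∩ Fix f).ncard := by
    rw [← Nat.card_eq_fintype_card, ← Nat.card_coe_set_eq]
    refine Nat.card_congr ⟨fun y => ⟨y.1.1, y.1.2, ?_⟩, fun y => ⟨⟨y.1, y.2.1⟩, ?_⟩, ?_, ?_⟩
    · have := y.2
      have h3 : g y.1 = y.1 := this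
      exact congrArg Subtype.val h3
    · apply Subtype.ext
      exact y.2.2
    · intro y; rfl
    · intro y; rfl
  rw [h1, h2] at h
  exact h

/-- solutions of `x ^ 2 = t`. -/
def Xt (t : D) : Set D := {x | x ^ 2 = t}

theorem mem_Xt {t x : D} : x ∈ Xt t ↔ x ^ 2 = t := Iff.rfl

theorem Hyp.split (h : Hyp V) {a b : D} (hb1 : b ≠ 1) (ha1 : a ≠ 1) (hba : b ≠ a) (hab1 : a * b ≠ 1)
    (haba : a * b ≠ a) (habb : a * b ≠ b) (hen : ∀ t ∈ V, t = 1 ∨ t = a ∨ t = b ∨ t = a * b)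
    (Y : Set D) : Y.ncard = (Y ∩ Xt 1).ncard + ((Y ∩ Xt a).ncard + ((Y ∩ Xt b).ncard +
      (Y ∩ Xt (a * b)).ncard)) := by
  have hY : Y = (Y ∩ Xt 1) ∪ ((Y ∩ Xt a) ∪ ((Y ∩ Xt b) ∪ (Y ∩ Xt (a * b)))) := by
    ext x
    constructor
    · intro hx
      rcases hen _ (h.sq x) with h1 | h1 | h1 | h1
      · exact Or.inl ⟨hx, h1⟩
      · exact Or.inr (Or.inl ⟨hx, h1⟩)
      · exact Or.inr (Or.inr (Or.inl ⟨hx, h1⟩))
      · exact Or.inr (Or.inr (Or.inr ⟨hx, h1⟩))
    · rintro (h1 | h1 | h1 | h1) <;> exact h1.1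
  have hd : ∀ s t : D, s ≠ t → Disjoint (Y ∩ Xt s) (Y ∩ Xt t) := by
    intro s t hst
    rw [Set.disjoint_left]
    rintro x ⟨-, h1⟩ ⟨-, h2⟩
    exact hst (h1.symm.trans h2)
  have hf : ∀ S : Set D, S.Finite := fun S => Set.toFinite S
  conv_lhs => rw [hY]
  rw [Set.ncard_union_eq _ (hf _) (hf _), Set.ncard_union_eq _ (hf _) (hf _),
    Set.ncard_union_eq (hd _ _ habb.symm) (hf _) (hf _)]
  · rw [Set.disjoint_union_right]
    exact ⟨hd _ _ hba.symm, hd _ _ haba.symm⟩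
  · rw [Set.disjoint_union_right, Set.disjoint_union_right]
    exact ⟨hd _ _ ha1.symm, hd _ _ hb1.symm, hd _ _ hab1.symm⟩

theorem Hyp.isP (h : Hyp V) : IsPGroup 2 D := by
  intro x
  refine ⟨2, ?_⟩
  have := h.v2 _ (h.sq x)
  rw [← pow_mul] at this
  exact this

theorem Hyp.card_le64 (h : Hyp V) : Nat.card D ≤ 64 := by
  haveI : V.Normal := ⟨fun n hn g => by
    have := (h.cen n hn g).symm
    rw [this]; simpa using hn⟩
  have h1 := Cfsg.Agent.Lib.PGroup.AnisoQuad.card_quotient_le V h.cen h.sq h.comm_mem h.v2 h.card4 h.aniso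
  have h2 := Subgroup.card_eq_card_quotient_mul_card_subgroup V
  rw [h.card4] at h2
  omega

section Facts
variable (h : Hyp V) (f : MulAut D) (hV : ∀ v ∈ V, f v = v)
include h hV

theorem Hyp.mod_t {r : ℕ} [Fact r.Prime] (hf : f ^ r = 1) {t : D} (ht : t ∈ V) :
    (Xt t).ncard % r = (Xt t ∩ Fix f).ncard % r := by
  refine modEq_set f hf (Xt t) ?_
  intro x hx
  show (f x) ^ 2 = t
  rw [← map_pow, mem_Xt.mp hx, hV t ht]

theorem Hyp.dvd_N {t : D} : 4 ∣ (Xt t).ncard := by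
  refine card_dvd_of_sat V _ ?_ (by rw [h.card4])
  intro x hx v hv
  have hc := h.cen v hv x
  show (x * v) ^ 2 = t
  have : (x * v) ^ 2 = x ^ 2 * v ^ 2 := (Commute.mul_pow hc.symm 2)
  rw [this, h.v2 v hv, mul_one]
  exact hx

theorem Hyp.dvd_F {t : D} : 4 ∣ (Xt t ∩ Fix f).ncard := by
  refine card_dvd_of_sat V _ ?_ (by rw [h.card4])
  rintro x ⟨hx, hxf⟩ v hv
  have hc := h.cen v hv x
  refine ⟨?_, ?_⟩
  · show (x * v) ^ 2 = t
    have : (x * v) ^ 2 = x ^ 2 * v ^ 2 := (Commute.mul_pow hc.symm 2)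
    rw [this, h.v2 v hv, mul_one]
    exact hx
  · show f (x * v) = x * v
    rw [map_mul, hV v hv]
    congr 1

theorem Hyp.V_le : V ≤ Fix f := fun v hv => hV v hv

theorem Hyp.X1 : Xt (1 : D) = (V : Set D) := by
  ext x
  exact ⟨fun hx => h.aniso x hx, fun hx => h.v2 x hx⟩

theorem Hyp.X1F : Xt (1 : D) ∩ Fix f = (V : Set D) := by
  rw [h.X1 f hV]
  ext x
  exact ⟨fun hx => hx.1, fun hx => ⟨hx, h.V_le f hV hx⟩⟩

theorem Hyp.no_full {t : D} (ht : t ∈ V) (ht1 : t ≠ 1) (hNF : (Xt t).ncard = (Xt t ∩ Fix f).ncard) :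
    Nat.card D ≤ 4 * Nat.card (Fix f) := by
  have hsub : Xt t ∩ Fix f ⊆ Xt t := Set.inter_subset_left
  have heq := Set.eq_of_subset_of_ncard_le hsub (le_of_eq hNF) (Set.toFinite _)
  refine h.card_le (Fix f) (h.V_le f hV) ht ht1 ?_
  intro x hx
  refine ⟨fun h1 => hx (h.V_le f hV (h.aniso x h1)), fun h1 => hx ?_⟩
  have : x ∈ Xt t ∩ Fix f := by rw [heq]; exact h1
  exact this.2

omit hV in
theorem Hyp.N_pos {t : D} (ht : t ∈ V) (ht1 : t ≠ 1) (hbig : 16 < Nat.card D) : 0 < (Xt t).ncard := by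
  by_contra hcon
  have h0 : (Xt t).ncard = 0 := by omega
  have he : Xt t = ∅ := by
    rwa [Set.ncard_eq_zero (Set.toFinite _)] at h0
  have h1 := h.card_le V le_rfl ht ht1 (fun x hx => ⟨fun h2 => hx (h.aniso x h2), fun h2 => by
    have : x ∈ Xt t := h2
    rw [he] at this
    exact this⟩)
  rw [h.card4] at h1
  omega

end Facts

/-- the numerical data -/
theorem Hyp.data (h : Hyp V) (f : MulAut D) (hV : ∀ v ∈ V, f v = v) (hf1 : f ≠ 1) {a b : D}
    (hb1 : b ≠ 1) (ha1 : a ≠ 1) (hba : b ≠ a) (hab1 : a * b ≠ 1)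
    (haba : a * b ≠ a) (habb : a * b ≠ b) (hen : ∀ t ∈ V, t = 1 ∨ t = a ∨ t = b ∨ t = a * b) :
    ∃ n m : ℕ, Nat.card D = 2 ^ n ∧ Nat.card (Fix f) = 2 ^ m ∧ 2 ≤ m ∧ m < n ∧ n ≤ 6 ∧
      2 ^ n = 4 + ((Xt a).ncard + ((Xt b).ncard + (Xt (a * b)).ncard)) ∧
      2 ^ m = 4 + ((Xt a ∩ Fix f).ncard + ((Xt b ∩ Fix f).ncard + (Xt (a * b) ∩ Fix f).ncard)) := by
  obtain ⟨n, hn⟩ := IsPGroup.iff_card.mp h.isP
  have hdvd : Nat.card (Fix f) ∣ 2 ^ n := by
    rw [← hn]; exact Subgroup.card_subgroup_dvd_card _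
  obtain ⟨m, hmn, hm⟩ := (Nat.dvd_prime_pow Nat.prime_two).mp hdvd
  have hle64 := h.card_le64
  have hn6 : n ≤ 6 := by
    rw [hn] at hle64
    have : (2 : ℕ) ^ n ≤ 2 ^ 6 := by norm_num; exact hle64
    exact (Nat.pow_le_pow_iff_right (by norm_num)).mp this
  have hm2 : 2 ≤ m := by
    have h4 : 4 ≤ Nat.card (Fix f) := by
      rw [← h.card4]
      exact Subgroup.card_le_of_le (h.V_le f hV)
    rw [hm] at h4
    by_contra hc
    have : m = 0 ∨ m = 1 := by omega
    rcases this with rfl | rfl <;> norm_num at h4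
  have hlt : m < n := by
    refine lt_of_le_of_ne hmn ?_
    rintro rfl
    apply hf1
    have htop : Fix f = ⊤ := Subgroup.eq_top_of_card_eq _ (by rw [hm, hn])
    ext x
    have : x ∈ Fix f := by rw [htop]; exact Subgroup.mem_top x
    exact this
  refine ⟨n, m, hn, hm, hm2, hlt, hn6, ?_, ?_⟩
  · have h1 := h.split hb1 ha1 hba hab1 haba habb hen Set.univ
    simp only [Set.univ_inter] at h1
    rw [h.X1 f hV, Set.ncard_univ, hn] at h1
    rw [h1, ← Nat.card_coe_set_eq (V : Set D)]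
    congr 1
    exact h.card4
  · have h1 := h.split hb1 ha1 hba hab1 haba habb hen (Fix f : Set D)
    have e : ∀ t : D, ((Fix f : Set D) ∩ Xt t) = Xt t ∩ Fix f := fun t => Set.inter_comm _ _
    rw [e, e, e, e, h.X1F f hV, ← Nat.card_coe_set_eq (Fix f : Set D),
      ← Nat.card_coe_set_eq (V : Set D)] at h1
    have h5 : Nat.card ↥(V : Set D) = 4 := h.card4
    rw [h5] at h1
    rw [← hm]
    exact h1

theorem Hyp.exists_a (h : Hyp V) : ∃ a ∈ V, a ≠ 1 := by
  by_contra hc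
  push Not at hc
  have : V = ⊥ := by
    rw [Subgroup.eq_bot_iff_forall]
    exact hc
  have h4 := h.card4
  rw [this] at h4
  simp at h4

theorem Hyp.prime_cases (h : Hyp V) (f : MulAut D) (hV : ∀ v ∈ V, f v = v) (hf1 : f ≠ 1) {r : ℕ}
    [hr : Fact r.Prime] (hr2 : r ≠ 2) (hf : f ^ r = 1) : r = 3 ∨ r = 5 := by
  obtain ⟨a, ha, ha1⟩ := h.exists_a
  obtain ⟨b, hbV, hb1, hba, hab1, haba, habb, hen⟩ := h.enum ha ha1
  have hab : a * b ∈ V := V.mul_mem ha hbV
  obtain ⟨n, m, hn, hm, hm2, hlt, hn6, h1, h2⟩ := h.data f hV hf1 hb1 ha1 hba hab1 haba habb hen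
  have ma := h.mod_t f hV hf ha
  have mb := h.mod_t f hV hf hbV
  have mc := h.mod_t f hV hf hab
  have da := h.dvd_N f hV (t := a)
  have db := h.dvd_N f hV (t := b)
  have dc := h.dvd_N f hV (t := a * b)
  have ea := h.dvd_F f hV (t := a)
  have eb := h.dvd_F f hV (t := b)
  have ec := h.dvd_F f hV (t := a * b)
  have fa := h.no_full f hV ha ha1
  have fb := h.no_full f hV hbV hb1
  have fc := h.no_full f hV hab hab1
  have pa := fun hb => h.N_pos ha ha1 hb
  have pb := fun hb => h.N_pos hbV hb1 hb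
  have pc := fun hb => h.N_pos hab hab1 hb
  rw [hn, hm] at fa fb fc
  rw [hn] at pa pb pc
  have hp := hr.out
  have hmodE : 2 ^ m ≡ 2 ^ n [MOD r] := by
    rw [h1, h2]
    exact (Nat.ModEq.add_left _ (Nat.ModEq.add ma.symm (Nat.ModEq.add mb.symm mc.symm)))
  have hle : 2 ^ m ≤ 2 ^ n := Nat.pow_le_pow_right (by norm_num) hlt.le
  have hd1 : r ∣ 2 ^ n - 2 ^ m := (Nat.modEq_iff_dvd' hle).mp hmodE
  have hcop : Nat.Coprime r (2 ^ m) := by
    apply Nat.Coprime.pow_right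
    exact (Nat.coprime_primes hp Nat.prime_two).mpr hr2
  obtain ⟨d, rfl⟩ : ∃ d, n = m + d := ⟨n - m, by omega⟩
  have hd2 : r ∣ 2 ^ d - 1 := by
    have : 2 ^ (m + d) - 2 ^ m = 2 ^ m * (2 ^ d - 1) := by
      rw [pow_add, Nat.mul_sub, mul_one]
    rw [this] at hd1
    exact hcop.dvd_of_dvd_mul_left hd1
  have hd3 : d = 1 ∨ d = 2 ∨ d = 3 ∨ d = 4 := by omega
  rcases hd3 with rfl | rfl | rfl | rfl
  · exfalso
    norm_num at hd2
    exact hp.one_lt.ne' hd2
  · left
    norm_num at hd2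
    exact (Nat.prime_dvd_prime_iff_eq hp Nat.prime_three).mp hd2
  · exfalso
    norm_num at hd2
    have hr7 : r = 7 := (Nat.prime_dvd_prime_iff_eq hp (by norm_num)).mp hd2
    subst hr7
    have hm3 : m = 2 ∨ m = 3 := by omega
    rcases hm3 with rfl | rfl
    · norm_num at h1 h2 pa pb pc
      omega
    · norm_num at h1 h2 pa pb pc fa fb fc
      omega
  · norm_num at hd2
    have hle2 : r ≤ 15 := Nat.le_of_dvd (by norm_num) hd2
    have hh : r = 3 ∨ r = 5 := by
      interval_cases r <;> first | omega | (exfalso; revert hp; norm_num)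
    exact hh

theorem Hyp.no35 (h : Hyp V) (f g : MulAut D) (hV : ∀ v ∈ V, f v = v) (hV' : ∀ v ∈ V, g v = v)
    (hf1 : f ≠ 1) (hg1 : g ≠ 1) (hf : f ^ 3 = 1) (hg : g ^ 5 = 1) : False := by
  haveI : Fact (Nat.Prime 3) := ⟨by norm_num⟩
  haveI : Fact (Nat.Prime 5) := ⟨by norm_num⟩
  obtain ⟨a, ha, ha1⟩ := h.exists_a
  obtain ⟨b, hbV, hb1, hba, hab1, haba, habb, hen⟩ := h.enum ha ha1
  have hab : a * b ∈ V := V.mul_mem ha hbV
  obtain ⟨n, m, hn, hm, hm2, hlt, hn6, h1, h2⟩ := h.data f hV hf1 hb1 ha1 hba hab1 haba habb hen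
  obtain ⟨n', m', hn', hm', hm2', hlt', hn6', h1', h2'⟩ := h.data g hV' hg1 hb1 ha1 hba hab1 haba habb hen
  have hnn : n = n' := by
    have : (2 : ℕ) ^ n = 2 ^ n' := by rw [← hn, hn']
    exact Nat.pow_right_injective (le_refl 2) this
  subst hnn
  have ma := h.mod_t f hV hf ha
  have mb := h.mod_t f hV hf hbV
  have mc := h.mod_t f hV hf hab
  have ma' := h.mod_t g hV' hg ha
  have mb' := h.mod_t g hV' hg hbV
  have mc' := h.mod_t g hV' hg hab
  have da := h.dvd_N f hV (t := a)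
  have db := h.dvd_N f hV (t := b)
  have dc := h.dvd_N f hV (t := a * b)
  have ea := h.dvd_F f hV (t := a)
  have eb := h.dvd_F f hV (t := b)
  have ec := h.dvd_F f hV (t := a * b)
  have ea' := h.dvd_F g hV' (t := a)
  have eb' := h.dvd_F g hV' (t := b)
  have ec' := h.dvd_F g hV' (t := a * b)
  have pa := fun hb => h.N_pos ha ha1 hb
  have pb := fun hb => h.N_pos hbV hb1 hb
  have pc := fun hb => h.N_pos hab hab1 hb
  rw [hn] at pa pb pc
  have hmod5 : 2 ^ m' % 5 = 2 ^ n % 5 := by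
    rw [h1, h2']
    exact (Nat.ModEq.add_left _ (Nat.ModEq.add ma'.symm (Nat.ModEq.add mb'.symm mc'.symm)))
  have hmod3 : 2 ^ m % 3 = 2 ^ n % 3 := by
    rw [h1, h2]
    exact (Nat.ModEq.add_left _ (Nat.ModEq.add ma.symm (Nat.ModEq.add mb.symm mc.symm)))
  have hn62 : n = 6 ∧ m' = 2 := by
    have h11 : m' < 6 := by omega
    interval_cases m' <;> interval_cases n <;> first | omega | (exfalso; revert hmod5; norm_num)
  obtain ⟨rfl, rfl⟩ := hn62
  norm_num at h1 h2' pa pb pc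
  have h0a : (Xt a ∩ Fix g).ncard = 0 := by omega
  have h0b : (Xt b ∩ Fix g).ncard = 0 := by omega
  have h0c : (Xt (a * b) ∩ Fix g).ncard = 0 := by omega
  rw [h0a] at ma'
  rw [h0b] at mb'
  rw [h0c] at mc'
  have hNa : (Xt a).ncard = 20 ∧ (Xt b).ncard = 20 ∧ (Xt (a * b)).ncard = 20 := by omega
  obtain ⟨e1, e2, e3⟩ := hNa
  rw [e1] at ma
  rw [e2] at mb
  rw [e3] at mc
  have hm5 : m = 2 ∨ m = 3 ∨ m = 4 ∨ m = 5 := by omega
  rcases hm5 with rfl | rfl | rfl | rfl <;> norm_num at h2 hmod3 <;> omega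

end Core

section Main
variable {X : Type*} [Group X] [Finite X]
open scoped commutatorElement

theorem not_four (h3 : Nat.card {x : X // orderOf x = 2} = 3) {a b c d : X}
    (ha : a ^ 2 = 1) (hb : b ^ 2 = 1) (hc : c ^ 2 = 1) (hd : d ^ 2 = 1)
    (ha1 : a ≠ 1) (hb1 : b ≠ 1) (hc1 : c ≠ 1) (hd1 : d ≠ 1)
    (hab : a ≠ b) (hac : a ≠ c) (had : a ≠ d) (hbc : b ≠ c) (hbd : b ≠ d) (hcd : c ≠ d) : False := by
  classical
  haveI : Fact (Nat.Prime 2) := ⟨Nat.prime_two⟩
  have hS : {x : X | orderOf x = 2}.ncard = 3 := by rw [← Nat.card_coe_set_eq]; exact h3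
  have hsub : ({a, b, c, d} : Set X) ⊆ {x : X | orderOf x = 2} := by
    rintro t (rfl | rfl | rfl | rfl)
    · exact orderOf_eq_prime ha ha1
    · exact orderOf_eq_prime hb hb1
    · exact orderOf_eq_prime hc hc1
    · exact orderOf_eq_prime hd hd1
  have hn : ({a, b, c, d} : Set X).ncard = 4 := by
    rw [Set.ncard_eq_toFinset_card']
    simp only [Set.toFinset_insert, Set.toFinset_singleton]
    rw [Finset.card_insert_of_notMem, Finset.card_insert_of_notMem, Finset.card_insert_of_notMem,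
      Finset.card_singleton]
    · simp [hcd]
    · simp [hbc, hbd]
    · simp [hab, hac, had]
  have := Set.ncard_le_ncard hsub (Set.toFinite _)
  omega

theorem inv_comm (h2 : IsPGroup 2 X) (h3 : Nat.card {x : X // orderOf x = 2} = 3) {a b : X}
    (ha : a ^ 2 = 1) (hb : b ^ 2 = 1) : a * b = b * a := by
  classical
  by_contra hne
  have ha1 : a ≠ 1 := by rintro rfl; simp at hne
  have hb1 : b ≠ 1 := by rintro rfl; simp at hne
  have haa : a * a = 1 := by rw [← pow_two]; exact ha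
  have hbb : b * b = 1 := by rw [← pow_two]; exact hb
  have hai : a⁻¹ = a := inv_eq_of_mul_eq_one_left haa
  have hbi : b⁻¹ = b := inv_eq_of_mul_eq_one_left hbb
  have hz : (a * b)⁻¹ = b * a := by rw [mul_inv_rev, hai, hbi]
  have hz2 : (a * b) ^ 2 ≠ 1 := by
    intro h
    apply hne
    have : (a * b) * (a * b) = 1 := by rw [← pow_two]; exact h
    have h2 : (a * b)⁻¹ = a * b := inv_eq_of_mul_eq_one_left this
    rw [← h2, hz]
  obtain ⟨m, hm⟩ := (IsPGroup.iff_orderOf.mp h2) (a * b)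
  have hm2 : 2 ≤ m := by
    by_contra hc
    have : m = 0 ∨ m = 1 := by omega
    rcases this with rfl | rfl
    · rw [pow_zero, orderOf_eq_one_iff] at hm
      apply hz2
      rw [hm, one_pow]
    · rw [pow_one] at hm
      apply hz2
      rw [← hm]
      exact pow_orderOf_eq_one _
  obtain ⟨k, rfl⟩ : ∃ k, m = k + 1 := ⟨m - 1, by omega⟩
  set z := a * b with hzdef
  set w := z ^ 2 ^ k with hw
  have hw2 : w ^ 2 = 1 := by
    rw [hw, ← pow_mul, ← pow_succ, ← hm]
    exact pow_orderOf_eq_one _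
  have hw1 : w ≠ 1 := by
    apply pow_ne_one_of_lt_orderOf (by positivity)
    rw [hm, pow_succ]
    have : 0 < 2 ^ k := by positivity
    omega
  have hwi : w⁻¹ = w := inv_eq_of_mul_eq_one_left (by rw [← pow_two]; exact hw2)
  have hconj : ∀ c : X, c * z * c⁻¹ = z⁻¹ → c * w = w * c := by
    intro c hc
    have h4 : c * w * c⁻¹ = w⁻¹ := by
      rw [hw, ← conj_pow, hc, inv_pow]
    rw [hwi] at h4
    calc c * w = c * w * c⁻¹ * c := by group
      _ = w * c := by rw [h4]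
  have haw : a * w = w * a := by
    apply hconj
    rw [hz, hzdef, hai]
    calc a * (a * b) * a = (a * a) * b * a := by group
      _ = b * a := by rw [haa, one_mul]
  have hbw : b * w = w * b := by
    apply hconj
    rw [hz, hzdef, hbi]
    calc b * (a * b) * b = b * a * (b * b) := by group
      _ = b * a := by rw [hbb, mul_one]
  have haw2 : (a * w) ^ 2 = 1 := by
    rw [Commute.mul_pow haw, ha, hw2, one_mul]
  have haw_ne : a ≠ w := by
    intro h
    apply hne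
    rw [hzdef, h]
    exact hbw.symm
  refine not_four h3 ha hb hw2 haw2 ha1 hb1 hw1 ?_ ?_ haw_ne ?_ ?_ ?_ ?_
  · intro h
    apply haw_ne
    have : a = w⁻¹ := eq_inv_of_mul_eq_one_left h
    rw [this, hwi]
  · intro h
    apply hne
    rw [hzdef, h]
  · intro h
    exact hw1 (by simpa using h)
  · intro h
    apply hne
    rw [hzdef, h]
    exact haw
  · intro h
    apply hz2
    have h5 : z = w := by
      rw [hzdef, h, ← mul_assoc, haa, one_mul]
    rw [h5]
    exact hw2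
  · intro h
    exact ha1 (by simpa using h)

/-- all solutions of `x² = 1` -/
def Vsub (hc : ∀ a b : X, a ^ 2 = 1 → b ^ 2 = 1 → a * b = b * a) : Subgroup X where
  carrier := {x | x ^ 2 = 1}
  mul_mem' := by
    intro a b ha hb
    show (a * b) ^ 2 = 1
    have ha' : a ^ 2 = 1 := ha
    have hb' : b ^ 2 = 1 := hb
    rw [Commute.mul_pow (hc a b ha' hb'), ha', hb', one_mul]
  one_mem' := by show (1 : X) ^ 2 = 1; simp
  inv_mem' := by
    intro a ha
    show a⁻¹ ^ 2 = 1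
    have ha' : a ^ 2 = 1 := ha
    rw [inv_pow, ha', inv_one]

theorem mem_Vsub {hc : ∀ a b : X, a ^ 2 = 1 → b ^ 2 = 1 → a * b = b * a} {x : X} :
    x ∈ Vsub hc ↔ x ^ 2 = 1 := Iff.rfl

theorem card_Vsub (h3 : Nat.card {x : X // orderOf x = 2} = 3)
    (hc : ∀ a b : X, a ^ 2 = 1 → b ^ 2 = 1 → a * b = b * a) : Nat.card (Vsub hc) = 4 := by
  classical
  haveI : Fact (Nat.Prime 2) := ⟨Nat.prime_two⟩
  have hS : {x : X | orderOf x = 2}.ncard = 3 := by rw [← Nat.card_coe_set_eq]; exact h3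
  have heq : ((Vsub hc : Subgroup X) : Set X) = insert 1 {x : X | orderOf x = 2} := by
    ext x
    constructor
    · intro hx
      by_cases hx1 : x = 1
      · left; exact hx1
      · right; exact orderOf_eq_prime hx hx1
    · rintro (rfl | hx)
      · exact Subgroup.one_mem _
      · have hx' : orderOf x = 2 := hx
        show x ^ 2 = 1
        rw [← hx']
        exact pow_orderOf_eq_one x
  have h1 : Nat.card (Vsub hc) = ((Vsub hc : Subgroup X) : Set X).ncard := by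
    rw [← Nat.card_coe_set_eq]; rfl
  rw [h1, heq, Set.ncard_insert_of_notMem _ (Set.toFinite _), hS]
  show ¬ orderOf (1 : X) = 2
  simp

/-- enumeration of a four-group -/
theorem enum_of (V : Subgroup X) (hv2 : ∀ v ∈ V, v ^ 2 = 1) (hcard : Nat.card V = 4) {a b : X}
    (ha : a ∈ V) (ha1 : a ≠ 1) (hbV : b ∈ V) (hb1 : b ≠ 1) (hba : b ≠ a) :
    ∀ t ∈ V, t = 1 ∨ t = a ∨ t = b ∨ t = a * b := by
  classical
  have hcard' : (V : Set X).ncard = 4 := by
    rw [← Nat.card_coe_set_eq]; exact hcard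
  have h1 : a * b ≠ 1 := by
    intro hab
    have ha2 := hv2 a ha
    apply hba
    have : a * a = 1 := by rw [← pow_two]; exact ha2
    calc b = a * a * b := by rw [this, one_mul]
      _ = a * (a * b) := by group
      _ = a := by rw [hab, mul_one]
  have h2 : a * b ≠ a := by
    intro hab
    exact hb1 (by simpa using hab)
  have h3 : a * b ≠ b := by
    intro hab
    exact ha1 (by simpa using hab)
  have hsub : ({1, a, b, a * b} : Set X) ⊆ V := by
    rintro t (rfl | rfl | rfl | rfl)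
    · exact V.one_mem
    · exact ha
    · exact hbV
    · exact V.mul_mem ha hbV
  have hn : ({1, a, b, a * b} : Set X).ncard = 4 := by
    rw [Set.ncard_eq_toFinset_card']
    simp only [Set.toFinset_insert, Set.toFinset_singleton]
    rw [Finset.card_insert_of_notMem, Finset.card_insert_of_notMem, Finset.card_insert_of_notMem,
      Finset.card_singleton]
    · simp [h3.symm]
    · simp [hba.symm, h2.symm]
    · simp [ha1.symm, hb1.symm, h1.symm]
  have := Set.eq_of_subset_of_ncard_le hsub (by rw [hn, hcard']) (Set.toFinite _)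
  intro t ht
  have ht' : t ∈ ({1, a, b, a * b} : Set X) := by rw [this]; exact ht
  exact ht'

/-- restriction of an automorphism to an invariant subgroup -/
def resAut (D : Subgroup X) (hD : ∀ α : MulAut X, ∀ x ∈ D, α x ∈ D) (α : MulAut X) : MulAut D where
  toFun x := ⟨α x, hD α x x.2⟩
  invFun x := ⟨α⁻¹ x, hD α⁻¹ x x.2⟩
  left_inv x := by
    apply Subtype.ext
    show α⁻¹ (α x) = x
    simp
  right_inv x := by
    apply Subtype.ext
    show α (α⁻¹ x) = x
    simp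
  map_mul' x y := by
    apply Subtype.ext
    show α (x * y) = α x * α y
    exact map_mul α _ _

theorem resAut_apply (D : Subgroup X) (hD : ∀ α : MulAut X, ∀ x ∈ D, α x ∈ D) (α : MulAut X) (x : D) :
    ((resAut D hD α x : D) : X) = α x := rfl

theorem resAut_pow (D : Subgroup X) (hD : ∀ α : MulAut X, ∀ x ∈ D, α x ∈ D) (α : MulAut X) (k : ℕ) (x : D) :
    (((resAut D hD α) ^ k) x : X) = (α ^ k) x := by
  induction k with
  | zero => rw [pow_zero, pow_zero]; rfl
  | succ k ih =>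
    rw [pow_succ', pow_succ']
    show α (((resAut D hD α ^ k) x : D) : X) = α ((α ^ k) x)
    rw [ih]

/-- the hom to the permutations of an invariant subgroup -/
def permHom (D : Subgroup X) (hD : ∀ α : MulAut X, ∀ x ∈ D, α x ∈ D) : MulAut X →* Equiv.Perm D where
  toFun α := (resAut D hD α).toEquiv
  map_one' := by
    ext x
    rfl
  map_mul' α β := by
    ext x
    rfl

theorem mem_ker_permHom (D : Subgroup X) (hD : ∀ α : MulAut X, ∀ x ∈ D, α x ∈ D) {α : MulAut X}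
    (h : α ∈ (permHom D hD).ker) : ∀ v ∈ D, α v = v := by
  intro v hv
  have h1 : permHom D hD α = 1 := h
  have h2 := congrArg (fun e : Equiv.Perm D => ((e ⟨v, hv⟩ : D) : X)) h1
  exact h2

theorem solvable_of_primes (K : Type*) [Group K] [Finite K]
    (hprime : ∀ α : K, ∀ r : ℕ, r.Prime → r ≠ 2 → orderOf α = r → r = 3 ∨ r = 5)
    (h35 : ∀ α β : K, orderOf α = 3 → orderOf β = 5 → False) : Group.IsSolvable K := by
  classical
  have hn0 : Nat.card K ≠ 0 := Nat.card_pos.ne'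
  obtain ⟨a, m, hm, hn⟩ := Nat.exists_eq_two_pow_mul_odd hn0
  have hm0 : m ≠ 0 := by
    rintro rfl
    simp at hm
  have hcau : ∀ d : ℕ, d.Prime → d ∣ m → d = 3 ∨ d = 5 := by
    intro d hd hdm
    haveI : Fact d.Prime := ⟨hd⟩
    have hd2 : d ≠ 2 := by
      rintro rfl
      exact (Nat.not_even_iff_odd.mpr hm) (even_iff_two_dvd.mpr hdm)
    obtain ⟨x, hx⟩ := exists_prime_orderOf_dvd_card' d (by rw [hn]; exact Dvd.dvd.mul_left hdm _)
    exact hprime x d hd hd2 hx
  have hex : ∀ d : ℕ, d.Prime → d ∣ m → ∃ x : K, orderOf x = d := by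
    intro d hd hdm
    haveI : Fact d.Prime := ⟨hd⟩
    exact exists_prime_orderOf_dvd_card' d (by rw [hn]; exact Dvd.dvd.mul_left hdm _)
  by_cases h5 : 5 ∣ m
  · have h3 : ¬ 3 ∣ m := by
      intro h3
      obtain ⟨x, hx⟩ := hex 3 (by norm_num) h3
      obtain ⟨y, hy⟩ := hex 5 (by norm_num) h5
      exact h35 x y hx hy
    have hm5 := Nat.eq_prime_pow_of_unique_prime_dvd (p := 5) hm0 (by
      intro d hd hdm
      rcases hcau d hd hdm with rfl | rfl
      · exact absurd hdm h3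
      · rfl)
    exact Cfsg.Agent.Lib.Char.Burnside2.isSolvable_of_card_eq Nat.prime_two (by norm_num : Nat.Prime 5)
      _ K a _ rfl (by rw [hn]; congr 1)
  · have hm3 := Nat.eq_prime_pow_of_unique_prime_dvd (p := 3) hm0 (by
      intro d hd hdm
      rcases hcau d hd hdm with rfl | rfl
      · rfl
      · exact absurd hdm h5)
    exact Cfsg.Agent.Lib.Char.Burnside2.isSolvable_of_card_eq Nat.prime_two (by norm_num : Nat.Prime 3)
      _ K a _ rfl (by rw [hn]; congr 1)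

end Main

section Final
variable {X : Type*} [Group X] [Finite X]
open scoped commutatorElement
open Subgroup

/-- elements of order dividing four of `W`. -/
def Usub (W : Subgroup X) (hmul : ∀ x ∈ W, ∀ y ∈ W, (x * y) ^ 4 = x ^ 4 * y ^ 4) : Subgroup X where
  carrier := {x | x ∈ W ∧ x ^ 4 = 1}
  mul_mem' := by
    rintro a b ⟨ha, ha4⟩ ⟨hb, hb4⟩
    exact ⟨W.mul_mem ha hb, by rw [hmul a ha b hb, ha4, hb4, one_mul]⟩
  one_mem' := ⟨W.one_mem, one_pow _⟩
  inv_mem' := by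
    rintro a ⟨ha, ha4⟩
    exact ⟨W.inv_mem ha, by rw [inv_pow, ha4, inv_one]⟩

theorem U_cent (h3 : Nat.card {x : X // orderOf x = 2} = 3)
    (hc : ∀ a b : X, a ^ 2 = 1 → b ^ 2 = 1 → a * b = b * a) (W : Subgroup X)
    (hW2 : IsPGroup 2 W)
    (c1 : (frattini W).map W.subtype ≤ centralizer (W : Set X))
    (c2 : ⁅W, (⊤ : Subgroup X)⁆ ≤ W ⊓ centralizer (W : Set X)) {x v : X} (hx : x ∈ W)
    (hx4 : x ^ 4 = 1) (hv : v ^ 2 = 1) : x * v = v * x := by
  haveI : Fact (Nat.Prime 2) := ⟨Nat.prime_two⟩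
  by_contra hne
  have hcard := card_Vsub h3 hc
  set V := Vsub hc with hVdef
  have hv2 : ∀ u ∈ V, u ^ 2 = 1 := fun u hu => hu
  have hvV : v ∈ V := hv
  have hnorm : ∀ g u : X, u ∈ V → g * u * g⁻¹ ∈ V := by
    intro g u hu
    show (g * u * g⁻¹) ^ 2 = 1
    rw [conj_pow, hv2 u hu]
    simp
  have hcm : ⁅x, v⁆ ∈ W ⊓ centralizer (W : Set X) :=
    c2 (commutator_mem_commutator hx (mem_top v))
  have hcV : ⁅x, v⁆ ∈ V := by
    rw [commutatorElement_def]
    exact V.mul_mem (hnorm _ _ hvV) (V.inv_mem hvV)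
  have hc1 : ⁅x, v⁆ ≠ 1 := fun h => hne (commutatorElement_eq_one_iff_mul_comm.mp h)
  have hxx : x ^ 2 ∈ centralizer (W : Set X) := by
    have := Cfsg.Agent.Lib.PGroup.Basic.pow_mem_frattini hW2 (⟨x, hx⟩ : W)
    have h2 := c1 ⟨_, this, rfl⟩
    simpa using h2
  have hxV : x ^ 2 ∈ V := by
    show (x ^ 2) ^ 2 = 1
    rw [← pow_mul]
    exact hx4
  have hvC : v ∉ centralizer (W : Set X) := by
    intro h
    exact hne (mem_centralizer_iff.mp h x hx)
  have hv1 : v ≠ 1 := by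
    rintro rfl
    exact hvC (one_mem _)
  have hvc : v ≠ ⁅x, v⁆ := fun h => hvC (h ▸ hcm.2)
  have henum := enum_of V hv2 hcard hcV hc1 hvV hv1 hvc
  have hxnot : x ∉ V := fun h => hne (hc x v h hv)
  rcases henum (x ^ 2) hxV with h | h | h | h
  · exact hxnot h
  · apply hxnot
    have hcv : ⁅x, v⁆ * v = v * ⁅x, v⁆ := hc _ _ (hv2 _ hcV) hv
    have h5 : x * v = ⁅x, v⁆ * v * x := by
      rw [commutatorElement_def]; group
    have h6 : (x * v) ^ 2 = 1 := by
      calc (x * v) ^ 2 = (x * v) * (x * v) := pow_two _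
        _ = (⁅x, v⁆ * v * x) * (x * v) := by rw [← h5]
        _ = ⁅x, v⁆ * v * x ^ 2 * v := by rw [pow_two]; group
        _ = ⁅x, v⁆ * v * ⁅x, v⁆ * v := by rw [h]
        _ = ⁅x, v⁆ * (v * ⁅x, v⁆) * v := by group
        _ = ⁅x, v⁆ * (⁅x, v⁆ * v) * v := by rw [hcv]
        _ = ⁅x, v⁆ ^ 2 * v ^ 2 := by rw [pow_two, pow_two]; group
        _ = 1 := by rw [hv2 _ hcV, hv2 _ hvV, one_mul]
    have h7 : x * v ∈ V := h6
    have : x = (x * v) * v⁻¹ := by group
    rw [this]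
    exact V.mul_mem h7 (V.inv_mem hvV)
  · exact hvC (h ▸ hxx)
  · apply hvC
    have : v = ⁅x, v⁆⁻¹ * x ^ 2 := by rw [h]; group
    rw [this]
    exact (centralizer _).mul_mem ((centralizer _).inv_mem hcm.2) hxx

theorem hyp_D (U V : Subgroup X) [hVn : V.Normal] (hv2 : ∀ v ∈ V, v ^ 2 = 1) (hcard : Nat.card V = 4)
    (haniso : ∀ x : X, x ^ 2 = 1 → x ∈ V) (hUV : ∀ u ∈ U, ∀ v ∈ V, u * v = v * u)
    (hVV : ∀ a ∈ V, ∀ b ∈ V, a * b = b * a) (hU2 : ∀ u ∈ U, u ^ 2 ∈ V) :
    Hyp (V.subgroupOf (U ⊔ V)) := by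
  have hmem : ∀ x ∈ U ⊔ V, ∃ u ∈ U, ∃ v ∈ V, x = u * v := by
    intro x hx
    have : x ∈ ((U ⊔ V : Subgroup X) : Set X) := hx
    rw [Subgroup.mul_normal] at this
    obtain ⟨u, hu, v, hv, rfl⟩ := this
    exact ⟨u, hu, v, hv, rfl⟩
  refine ⟨?_, ?_, ?_, ?_, ?_⟩
  · rintro ⟨v, hvD⟩ hv ⟨x, hx⟩
    have hv' : v ∈ V := hv
    obtain ⟨u, hu, w, hw, rfl⟩ := hmem x hx
    apply Subtype.ext
    show v * (u * w) = (u * w) * v
    calc v * (u * w) = (v * u) * w := by group
      _ = (u * v) * w := by rw [hUV u hu v hv']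
      _ = u * (v * w) := by group
      _ = u * (w * v) := by rw [hVV v hv' w hw]
      _ = (u * w) * v := by group
  · rintro ⟨x, hx⟩
    obtain ⟨u, hu, w, hw, rfl⟩ := hmem x hx
    show (u * w) ^ 2 ∈ V
    rw [Commute.mul_pow (hUV u hu w hw), hv2 w hw, mul_one]
    exact hU2 u hu
  · rintro ⟨v, hvD⟩ hv
    apply Subtype.ext
    exact hv2 v hv
  · rw [← hcard]
    exact Nat.card_congr (Subgroup.subgroupOfEquivOfLe le_sup_right).toEquiv
  · rintro ⟨x, hx⟩ h
    apply haniso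
    have := congrArg Subtype.val h
    simpa using this

end Final


/-- If X is a finite 2-group containing exactly three involutions, then the automorphism group of X is solvable. -/
theorem result {X : Type*} [Group X] [Finite X] (h2 : IsPGroup 2 X) (h3 : Nat.card {x : X // orderOf x = 2} = 3) : Group.IsSolvable (MulAut X) := by
  classical
  haveI : Fact (Nat.Prime 2) := ⟨Nat.prime_two⟩
  haveI : Finite (MulAut X) := Finite.of_injective (fun α : MulAut X => α.toEquiv)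
    (fun a b h => by ext x; exact congrArg (fun e : X ≃ X => e x) h)
  have hc : ∀ a b : X, a ^ 2 = 1 → b ^ 2 = 1 → a * b = b * a := fun a b ha hb => inv_comm h2 h3 ha hb
  have hcard := card_Vsub h3 hc
  set V := Vsub hc with hVdef
  have hv2 : ∀ u ∈ V, u ^ 2 = 1 := fun u hu => hu
  have hVinv : ∀ α : MulAut X, ∀ x ∈ V, α x ∈ V := by
    intro α x hx
    show (α x) ^ 2 = 1
    rw [← map_pow, hv2 x hx, map_one]
  haveI hVn : V.Normal := ⟨fun n hn g => by
    show (g * n * g⁻¹) ^ 2 = 1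
    rw [conj_pow, hv2 n hn]
    simp⟩
  obtain ⟨W, hchar, c1, c2, c3⟩ := Cfsg.Agent.Lib.PGroup.Critical.exists_critical h2
  have hWinv : ∀ α : MulAut X, ∀ x ∈ W, α x ∈ W := fun α x hx =>
    (Subgroup.characteristic_iff_map_le.mp hchar α) ⟨x, hx, rfl⟩
  have hmul : ∀ x ∈ W, ∀ y ∈ W, (x * y) ^ 4 = x ^ 4 * y ^ 4 := fun x hx y hy =>
    Cfsg.Agent.Lib.PGroup.Critical.critical_mul_pow h2 c1 c2 (n := 4) (by norm_num [Nat.choose]) hx hy
  set U := Usub W hmul with hUdef
  have hUinv : ∀ α : MulAut X, ∀ x ∈ U, α x ∈ U := by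
    rintro α x ⟨hx, hx4⟩
    exact ⟨hWinv α x hx, by rw [← map_pow, hx4, map_one]⟩
  have hUV : ∀ u ∈ U, ∀ v ∈ V, u * v = v * u := by
    rintro u ⟨hu, hu4⟩ v hv
    exact U_cent h3 hc W (h2.to_subgroup W) c1 c2 hu hu4 hv
  have hVV : ∀ a ∈ V, ∀ b ∈ V, a * b = b * a := fun a ha b hb => hc a b ha hb
  have hU2 : ∀ u ∈ U, u ^ 2 ∈ V := by
    rintro u ⟨hu, hu4⟩
    show (u ^ 2) ^ 2 = 1
    rw [← pow_mul]
    exact hu4
  have hyp := hyp_D U V hv2 hcard (fun x hx => hx) hUV hVV hU2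
  have hDinv : ∀ α : MulAut X, ∀ x ∈ U ⊔ V, α x ∈ U ⊔ V := by
    intro α x hx
    have : x ∈ ((U ⊔ V : Subgroup X) : Set X) := hx
    rw [Subgroup.mul_normal] at this
    obtain ⟨u, hu, v, hv, rfl⟩ := this
    show α (u * v) ∈ U ⊔ V
    rw [map_mul]
    exact Subgroup.mul_mem_sup (hUinv α u hu) (hVinv α v hv)
  have hres1 : ∀ α : MulAut X, Nat.Coprime (orderOf α) 2 → (∀ x ∈ U ⊔ V, α x = x) → α = 1 := by
    intro α ha hfix
    refine Cfsg.Agent.S0121.result h2 W hchar c1 c2 c3 α ha ?_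
    exact Cfsg.Agent.Lib.PGroup.Critical.fixes_of_fixes_kernel h2 W α ha (hWinv α) (by norm_num) hmul
      (fun x hx hx4 => hfix x (Subgroup.mem_sup_left ⟨hx, hx4⟩))
  have hfV : ∀ α : MulAut X, (∀ v ∈ V, α v = v) →
      ∀ v ∈ V.subgroupOf (U ⊔ V), resAut (U ⊔ V) hDinv α v = v := by
    intro α hα v hv
    apply Subtype.ext
    exact hα _ hv
  have hfne : ∀ α : MulAut X, ∀ r : ℕ, r.Prime → r ≠ 2 → orderOf α = r →
      resAut (U ⊔ V) hDinv α ≠ 1 := by
    intro α r hr hr2 hor h1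
    have hcop : Nat.Coprime (orderOf α) 2 := by
      rw [hor]
      exact (Nat.coprime_primes hr Nat.prime_two).mpr hr2
    have := hres1 α hcop (fun x hx => by
      have := congrArg (fun e : MulAut ↥(U ⊔ V) => ((e ⟨x, hx⟩ : ↥(U ⊔ V)) : X)) h1
      exact this)
    rw [this, orderOf_one] at hor
    exact hr.one_lt.ne hor
  have hpow : ∀ α : MulAut X, ∀ k : ℕ, α ^ k = 1 → (resAut (U ⊔ V) hDinv α) ^ k = 1 := by
    intro α k hk
    ext x
    rw [resAut_pow, hk]
    rfl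
  let ψ := permHom V hVinv
  haveI hK : Group.IsSolvable ψ.ker := by
    apply solvable_of_primes
    · rintro ⟨α, hα⟩ r hr hr2 hor
      haveI : Fact r.Prime := ⟨hr⟩
      have hor' : orderOf α = r := by
        rw [← hor]
        exact (Subgroup.orderOf_mk α hα).symm
      have hαV := mem_ker_permHom V hVinv hα
      refine hyp.prime_cases (resAut (U ⊔ V) hDinv α) (hfV α hαV) (hfne α r hr hr2 hor') hr2 (hpow α r ?_)
      rw [← hor']
      exact pow_orderOf_eq_one α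
    · rintro ⟨α, hα⟩ ⟨β, hβ⟩ hor hor5
      have hor' : orderOf α = 3 := by
        rw [← hor]
        exact (Subgroup.orderOf_mk α hα).symm
      have hor5' : orderOf β = 5 := by
        rw [← hor5]
        exact (Subgroup.orderOf_mk β hβ).symm
      have hαV := mem_ker_permHom V hVinv hα
      have hβV := mem_ker_permHom V hVinv hβ
      refine hyp.no35 (resAut (U ⊔ V) hDinv α) (resAut (U ⊔ V) hDinv β) (hfV α hαV) (hfV β hβV)
        (hfne α 3 (by norm_num) (by norm_num) hor') (hfne β 5 (by norm_num) (by norm_num) hor5')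
        (hpow α 3 ?_) (hpow β 5 ?_)
      · rw [← hor']
        exact pow_orderOf_eq_one α
      · rw [← hor5']
        exact pow_orderOf_eq_one β
  haveI hP : Group.IsSolvable (Equiv.Perm V) := by
    refine Cfsg.Agent.Lib.Char.Burnside2.isSolvable_of_card_eq Nat.prime_two Nat.prime_three _ _ 3 1 rfl ?_
    rw [Nat.card_perm, hcard]
    rfl
  exact Group.isSolvable_of_ker_le_range ψ.ker.subtype ψ (by rw [Subgroup.range_subtype])

end Cfsg.Agent.S3117
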