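import Cfsg.Statements.S3356

set_option autoImplicit false
open Cfsg
open MulAction

namespace Cfsg.Agent.S3356

/-- All orbits of the same size `e`: `e` divides the cardinality. -/
theorem e_dvd_card {H X : Type*} [Group H] [Finite H] [MulAction H X] [Finite X] {e s : ℕ}
    (hs : 0 < s) (he : e * s = Nat.card H) (hst : ∀ y : X, Nat.card (stabilizer H y) = s) :
    e ∣ Nat.card X := by
  classical
  letI := Fintype.ofFinite (Quotient (MulAction.orbitRel H X))
  rw [Nat.card_congr (MulAction.selfEquivSigmaOrbits H X), Nat.card_sigma]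
  apply Finset.dvd_sum
  intro ω _
  have h1 := (stabilizer H ω.out).card_mul_index
  rw [index_stabilizer, hst, ← he, mul_comm] at h1
  have h2 : Set.ncard (orbit H ω.out) = e := Nat.eq_of_mul_eq_mul_right hs h1
  have h3 : Nat.card (orbit H ω.out) = e := by rw [← h2]; rfl
  rw [h3]

/-- The same for an invariant subset. -/
theorem e_dvd_card_set {H X : Type*} [Group H] [Finite H] [MulAction H X] [Finite X] {e s : ℕ}
    (hs : 0 < s) (he : e * s = Nat.card H) (S : Set X) (hS : ∀ h : H, ∀ y ∈ S, h • y ∈ S)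
    (hst : ∀ y ∈ S, Nat.card (stabilizer H y) = s) : e ∣ Nat.card S := by
  let T : SubMulAction H X := { carrier := S, smul_mem' := hS }
  have := e_dvd_card (H := H) (X := T) hs he (fun y => by
    rw [SubMulAction.stabilizer_of_subMul]
    exact hst y y.2)
  exact this

section Abstract

variable {A N : Type*} [Group A] [Group N] [Finite A] [Finite N] [MulDistribMulAction A N]
  [FaithfulSMul A N]

/-- The common data. -/
structure Data (A N : Type*) [Group A] [Group N] [Finite A] [Finite N] [MulDistribMulAction A N]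
    (s d : ℕ) : Prop where
  hstab : ∀ x : N, x ≠ 1 → Nat.card (stabilizer A x) = s
  hd : d * s = Nat.card A
  hs : 1 < s

variable {s d : ℕ}

theorem Data.spos (D : Data A N s d) : 0 < s := by have := D.hs; omega

/-- `E` acting on an invariant set of non-identity elements whose stabilizers lie in `E`. -/
theorem Data.exists_e (D : Data A N s d) (E : Subgroup A) (C : Set N)
    (hinv : ∀ a ∈ E, ∀ w ∈ C, a • w ∈ C) (hle : ∀ w ∈ C, stabilizer A w ≤ E)
    (hne : ∀ w ∈ C, w ≠ 1) (hCne : C.Nonempty) :
    ∃ e : ℕ, e * s = Nat.card E ∧ e ∣ Nat.card C ∧ e ∣ d := by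
  obtain ⟨w₀, hw₀⟩ := hCne
  have hstE : ∀ w ∈ C, Nat.card (stabilizer ↥E w) = s := by
    intro w hw
    have h1 : stabilizer ↥E w = (stabilizer A w).subgroupOf E := by
      ext x
      rw [Subgroup.mem_subgroupOf, mem_stabilizer_iff, mem_stabilizer_iff]
      rfl
    rw [h1, Nat.card_congr (Subgroup.subgroupOfEquivOfLe (hle w hw)).toEquiv]
    exact D.hstab w (hne w hw)
  have hdvd : s ∣ Nat.card E := by
    rw [← hstE w₀ hw₀]
    exact Subgroup.card_subgroup_dvd_card _
  obtain ⟨e, he⟩ := hdvd
  have he' : e * s = Nat.card E := by rw [he, mul_comm]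
  refine ⟨e, he', ?_, ?_⟩
  · apply e_dvd_card_set (H := ↥E) D.spos he' C
    · intro h y hy
      exact hinv h h.2 y hy
    · exact hstE
  · have h1 : Nat.card E ∣ Nat.card A := Subgroup.card_subgroup_dvd_card _
    rw [← he', ← D.hd] at h1
    exact Nat.dvd_of_mul_dvd_mul_right D.spos h1

/-- `d` is coprime to the order of `N`; more generally `d` divides `|H| - 1` for an invariant `H`. -/
theorem Data.d_dvd (D : Data A N s d) (H : Subgroup N) (hH : ∀ a : A, ∀ x ∈ H, a • x ∈ H) :
    d ∣ Nat.card H - 1 := by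
  classical
  have h1 := e_dvd_card_set (H := A) D.spos D.hd {x : N | x ∈ H ∧ x ≠ 1}
    (by
      rintro a y ⟨hy, hy1⟩
      refine ⟨hH a y hy, ?_⟩
      intro e
      apply hy1
      have := congrArg (fun z => a⁻¹ • z) e
      simpa using this)
    (fun y hy => D.hstab y hy.2)
  have h2 : Nat.card {x : N | x ∈ H ∧ x ≠ 1} = Nat.card H - 1 := by
    have h3 : Nat.card H = Nat.card {x : N | x ∈ H} := rfl
    have h4 : {x : N | x ∈ H ∧ x ≠ 1} = {x : N | x ∈ H} \ {1} := by
      ext x; simp
    rw [h4, h3]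
    have h5 : ({1} : Set N) ⊆ {x : N | x ∈ H} := by
      intro x hx
      rw [Set.mem_singleton_iff] at hx
      rw [hx]
      exact H.one_mem
    have h6 := Set.ncard_diff h5 (Set.toFinite _)
    simp only [Set.ncard_singleton] at h6
    exact h6
  rwa [h2] at h1

theorem Data.coprime (D : Data A N s d) : Nat.Coprime d (Nat.card N) := by
  have h1 := D.d_dvd ⊤ (fun _ _ _ => Subgroup.mem_top _)
  rw [Subgroup.card_top] at h1
  have hpos : 0 < Nat.card N := Nat.card_pos
  have h2 : Nat.Coprime (Nat.card N - 1) (Nat.card N) := by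
    have := (Nat.coprime_self_sub_right (n := Nat.card N) (m := 1) hpos)
    rw [Nat.coprime_comm]
    simpa using this
  exact Nat.Coprime.coprime_dvd_left h1 h2

/-- Conjugate elements of `N` have the same stabilizer in `A`. -/
theorem Data.stab_conj (D : Data A N s d) {x y : N} (hx : x ≠ 1) (hc : IsConj x y) :
    stabilizer A y = stabilizer A x := by
  have hmap : ∀ (a : A) {u v : N}, IsConj u v → IsConj (a • u) (a • v) := fun a u v h =>
    MonoidHom.map_isConj (MulDistribMulAction.toMonoidHom N a) h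
  let E : Subgroup A :=
    { carrier := {a | IsConj (a • x) x}
      mul_mem' := by
        intro a b ha hb
        show IsConj ((a * b) • x) x
        rw [mul_smul]
        exact (hmap a hb).trans ha
      one_mem' := by
        show IsConj ((1 : A) • x) x
        rw [one_smul]
      inv_mem' := by
        intro a ha
        show IsConj (a⁻¹ • x) x
        have := hmap a⁻¹ ha
        rw [inv_smul_smul] at this
        exact this.symm }
  let C : Set N := {w | IsConj x w}
  have hinv : ∀ a ∈ E, ∀ w ∈ C, a • w ∈ C := by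
    intro a ha w hw
    have h1 : IsConj (a • x) x := ha
    exact h1.symm.trans (hmap a hw)
  have hle : ∀ w ∈ C, stabilizer A w ≤ E := by
    intro w hw a ha
    have h1 : a • w = w := ha
    have h2 := hmap a (show IsConj x w from hw)
    rw [h1] at h2
    exact h2.trans (IsConj.symm hw)
  have hne : ∀ w ∈ C, w ≠ 1 := by
    intro w hw e
    have hw' : IsConj x w := hw
    rw [e] at hw'
    exact hx (isConj_one_right.1 hw'.symm)
  obtain ⟨e, he, heC, hed⟩ := D.exists_e E C hinv hle hne ⟨x, IsConj.refl x⟩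
  have hCcard : Nat.card C ∣ Nat.card N := by
    have hCeq : C = orbit (ConjAct N) x := by
      ext w
      rw [ConjAct.mem_orbit_conjAct]
      exact ⟨fun h => IsConj.symm h, fun h => IsConj.symm h⟩
    have h1 : Nat.card C = (stabilizer (ConjAct N) x).index := by
      rw [index_stabilizer, hCeq]; rfl
    rw [h1]
    have h2 := (stabilizer (ConjAct N) x).index_dvd_card
    have h3 : Nat.card (ConjAct N) = Nat.card N := Nat.card_congr ConjAct.toConjAct.symm.toEquiv
    rwa [h3] at h2
  have he1 : e = 1 :=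
    Nat.eq_one_of_dvd_coprimes D.coprime hed (heC.trans hCcard)
  rw [he1, one_mul] at he
  have hst : ∀ w ∈ C, stabilizer A w = E := by
    intro w hw
    apply Subgroup.eq_of_le_of_card_ge (hle w hw)
    rw [D.hstab w (hne w hw), he]
  rw [hst y hc, hst x (IsConj.refl x)]

/-- Non-commuting elements have the same stabilizer. -/
theorem Data.stab_eq_of_not_commute (D : Data A N s d) {x y : N} (h : x * y ≠ y * x) :
    stabilizer A x = stabilizer A y := by
  have hx : x ≠ 1 := by
    rintro rfl
    simp at h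
  have hy : y ≠ 1 := by
    rintro rfl
    simp at h
  set z := x * y * x⁻¹ * y⁻¹ with hz
  have hz1 : z ≠ 1 := by
    intro e
    apply h
    have : x * y * x⁻¹ * y⁻¹ * (y * x) = y * x := by rw [← hz, e, one_mul]
    calc x * y = x * y * x⁻¹ * y⁻¹ * (y * x) := by group
      _ = y * x := this
  have h1 : stabilizer A x ≤ stabilizer A z := by
    intro a ha
    have ha1 : a • x = x := ha
    have hc : IsConj x (y * x * y⁻¹) := isConj_iff.2 ⟨y, rfl⟩
    have ha2 : a • (y * x * y⁻¹) = y * x * y⁻¹ := by
      have : a ∈ stabilizer A (y * x * y⁻¹) := by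
        rw [D.stab_conj hx hc]; exact ha
      exact this
    have hzz : z = x * (y * x * y⁻¹)⁻¹ := by rw [hz]; group
    show a • z = z
    rw [hzz, smul_mul', smul_inv', ha1, ha2]
  have h2 : stabilizer A y ≤ stabilizer A z := by
    intro a ha
    have ha1 : a • y = y := ha
    have hc : IsConj y (x * y * x⁻¹) := isConj_iff.2 ⟨x, rfl⟩
    have ha2 : a • (x * y * x⁻¹) = x * y * x⁻¹ := by
      have : a ∈ stabilizer A (x * y * x⁻¹) := by
        rw [D.stab_conj hy hc]; exact ha
      exact this
    show a • z = z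
    rw [hz, smul_mul', smul_inv', ha1, ha2]
  have h3 : stabilizer A x = stabilizer A z := Subgroup.eq_of_le_of_card_ge h1
    (by rw [D.hstab x hx, D.hstab z hz1])
  have h4 : stabilizer A y = stabilizer A z := Subgroup.eq_of_le_of_card_ge h2
    (by rw [D.hstab y hy, D.hstab z hz1])
  rw [h3, h4]

/-- `N` is commutative. -/
theorem Data.comm (D : Data A N s d) : ∀ a b : N, a * b = b * a := by
  by_contra hcon
  push Not at hcon
  obtain ⟨x₁, y₁, hxy⟩ := hcon
  -- non-central elements all have the same stabilizer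
  have hsame : ∀ x x' : N, (∃ y, x * y ≠ y * x) → (∃ y, x' * y ≠ y * x') →
      stabilizer A x = stabilizer A x' := by
    rintro x x' ⟨u, hu⟩ ⟨v, hv⟩
    by_cases h1 : x' * u ≠ u * x'
    · rw [D.stab_eq_of_not_commute hu, D.stab_eq_of_not_commute h1]
    by_cases h2 : x * v ≠ v * x
    · rw [D.stab_eq_of_not_commute h2, D.stab_eq_of_not_commute hv]
    push Not at h1 h2
    have h3 : x * (u * v) ≠ (u * v) * x := by
      intro e
      apply hu
      have h4 : x * u * v = u * x * v := by
        calc x * u * v = x * (u * v) := by group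
          _ = (u * v) * x := e
          _ = u * (v * x) := by group
          _ = u * (x * v) := by rw [h2]
          _ = u * x * v := by group
      exact mul_right_cancel h4
    have h5 : x' * (u * v) ≠ (u * v) * x' := by
      intro e
      apply hv
      have h4 : u * (x' * v) = u * (v * x') := by
        calc u * (x' * v) = (u * x') * v := by group
          _ = (x' * u) * v := by rw [h1]
          _ = x' * (u * v) := by group
          _ = (u * v) * x' := e
          _ = u * (v * x') := by group
      exact mul_left_cancel h4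
    rw [D.stab_eq_of_not_commute h3, D.stab_eq_of_not_commute h5]
  have hx1 : x₁ ≠ 1 := by
    rintro rfl
    simp at hxy
  have hbot : stabilizer A x₁ = ⊥ := by
    rw [Subgroup.eq_bot_iff_forall]
    intro a ha
    have ha1 : a • x₁ = x₁ := ha
    apply FaithfulSMul.eq_of_smul_eq_smul (α := N)
    intro n
    rw [one_smul]
    by_cases hn : ∃ y, n * y ≠ y * n
    · have : a ∈ stabilizer A n := by
        rw [← hsame x₁ n ⟨y₁, hxy⟩ hn]; exact ha
      exact this
    · push Not at hn
      have hnx : ∃ y, (n * x₁) * y ≠ y * (n * x₁) := by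
        refine ⟨y₁, fun e => hxy ?_⟩
        have : n * (x₁ * y₁) = n * (y₁ * x₁) := by
          calc n * (x₁ * y₁) = n * x₁ * y₁ := by group
            _ = y₁ * (n * x₁) := e
            _ = (y₁ * n) * x₁ := by group
            _ = (n * y₁) * x₁ := by rw [hn y₁]
            _ = n * (y₁ * x₁) := by group
        exact mul_left_cancel this
      have h2 : a • (n * x₁) = n * x₁ := by
        have : a ∈ stabilizer A (n * x₁) := by
          rw [← hsame x₁ _ ⟨y₁, hxy⟩ hnx]; exact ha
        exact this
      rw [smul_mul', ha1] at h2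
      exact mul_right_cancel h2
  have h1 := D.hstab x₁ hx1
  rw [hbot] at h1
  simp at h1
  have := D.hs
  omega

/-- The key step on invariant subgroups. -/
theorem Data.stab_eq_of_not_mem (D : Data A N s d) (H : Subgroup N)
    (hH : ∀ a : A, ∀ x ∈ H, a • x ∈ H) {y : N} (hy : y ∉ H) {h : N} (hh : h ∈ H) (hh1 : h ≠ 1) :
    stabilizer A y = stabilizer A h := by
  have hinvH : ∀ (a b : A), y⁻¹ * (b • y) ∈ H → y⁻¹ * (a • y) ∈ H → y⁻¹ * ((a * b) • y) ∈ H := by
    intro a b hb ha
    have h1 : y⁻¹ * ((a * b) • y) = (y⁻¹ * (a • y)) * (a • (y⁻¹ * (b • y))) := by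
      rw [mul_smul, smul_mul', smul_inv', smul_smul]
      group
    rw [h1]
    exact H.mul_mem ha (hH a _ hb)
  let E : Subgroup A :=
    { carrier := {a | y⁻¹ * (a • y) ∈ H}
      mul_mem' := by
        intro a b ha hb
        exact hinvH a b hb ha
      one_mem' := by
        show y⁻¹ * ((1 : A) • y) ∈ H
        simp
      inv_mem' := by
        intro a ha
        show y⁻¹ * (a⁻¹ • y) ∈ H
        have h1 := hH a⁻¹ _ (H.inv_mem ha)
        have h2 : a⁻¹ • (y⁻¹ * (a • y))⁻¹ = y⁻¹ * (a⁻¹ • y) := by
          rw [smul_inv', smul_mul', smul_inv', inv_smul_smul]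
          group
        rwa [h2] at h1 }
  let C : Set N := {w | y⁻¹ * w ∈ H}
  have hinv : ∀ a ∈ E, ∀ w ∈ C, a • w ∈ C := by
    intro a ha w hw
    show y⁻¹ * (a • w) ∈ H
    have h1 : y⁻¹ * (a • w) = (y⁻¹ * (a • y)) * (a • (y⁻¹ * w)) := by
      rw [smul_mul', smul_inv']
      group
    rw [h1]
    exact H.mul_mem ha (hH a _ hw)
  have hle : ∀ w ∈ C, stabilizer A w ≤ E := by
    intro w hw a ha
    have ha1 : a • w = w := ha
    show y⁻¹ * (a • y) ∈ H
    have h1 : y⁻¹ * (a • y) = (y⁻¹ * w) * (a • (y⁻¹ * w))⁻¹ := by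
      rw [smul_mul', smul_inv', ha1]
      group
    rw [h1]
    exact H.mul_mem hw (H.inv_mem (hH a _ hw))
  have hne : ∀ w ∈ C, w ≠ 1 := by
    intro w hw e
    have hw' : y⁻¹ * w ∈ H := hw
    rw [e, mul_one] at hw'
    exact hy (by simpa using H.inv_mem hw')
  have hyC : y ∈ C := by
    show y⁻¹ * y ∈ H
    simp
  obtain ⟨e, he, heC, hed⟩ := D.exists_e E C hinv hle hne ⟨y, hyC⟩
  have hCcard : Nat.card C = Nat.card H := by
    apply Nat.card_congr
    exact { toFun := fun w => ⟨y⁻¹ * w.1, w.2⟩
            invFun := fun v => ⟨y * v.1, by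
              show y⁻¹ * (y * v.1) ∈ H
              simp⟩
            left_inv := fun w => by simp
            right_inv := fun v => by simp }
  rw [hCcard] at heC
  have hd' := D.d_dvd H hH
  have he1 : e = 1 := by
    have h2 : e ∣ Nat.card H - 1 := hed.trans hd'
    have hpos : 0 < Nat.card H := Nat.card_pos
    have h3 : e ∣ Nat.card H - (Nat.card H - 1) := Nat.dvd_sub heC h2
    have h4 : Nat.card H - (Nat.card H - 1) = 1 := by omega
    rw [h4] at h3
    exact Nat.dvd_one.1 h3
  rw [he1, one_mul] at he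
  have hst : ∀ w ∈ C, stabilizer A w = E := by
    intro w hw
    apply Subgroup.eq_of_le_of_card_ge (hle w hw)
    rw [D.hstab w (hne w hw), he]
  have hy1 : y ≠ 1 := hne y hyC
  have hyh : y * h ∈ C := by
    show y⁻¹ * (y * h) ∈ H
    simpa using hh
  have hle2 : stabilizer A y ≤ stabilizer A h := by
    intro a ha
    have ha1 : a • y = y := ha
    have ha2 : a ∈ stabilizer A (y * h) := by
      rw [hst _ hyh, ← hst y hyC]; exact ha
    have ha3 : a • (y * h) = y * h := ha2
    rw [smul_mul', ha1] at ha3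
    exact mul_left_cancel ha3
  exact Subgroup.eq_of_le_of_card_ge hle2 (by rw [D.hstab y hy1, D.hstab h hh1])

/-- No proper non-trivial invariant subgroup. -/
theorem Data.invariant (D : Data A N s d) (H : Subgroup N)
    (hH : ∀ a : A, ∀ x ∈ H, a • x ∈ H) : H = ⊥ ∨ H = ⊤ := by
  by_contra hcon
  push Not at hcon
  obtain ⟨hbot, htop⟩ := hcon
  obtain ⟨⟨h₀, hh₀⟩, hh₀1⟩ := (Subgroup.ne_bot_iff_exists_ne_one).1 hbot
  have hh₀1' : h₀ ≠ 1 := fun e => hh₀1 (Subtype.ext e)
  obtain ⟨y₀, hy₀⟩ : ∃ y, y ∉ H := by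
    by_contra hall
    push Not at hall
    exact htop ((Subgroup.eq_top_iff' H).2 hall)
  have hall : ∀ x : N, x ≠ 1 → stabilizer A x = stabilizer A h₀ := by
    intro x hx
    by_cases hxH : x ∈ H
    · rw [← D.stab_eq_of_not_mem H hH hy₀ hxH hx, D.stab_eq_of_not_mem H hH hy₀ hh₀ hh₀1']
    · exact D.stab_eq_of_not_mem H hH hxH hh₀ hh₀1'
  have hb : stabilizer A h₀ = ⊥ := by
    rw [Subgroup.eq_bot_iff_forall]
    intro a ha
    apply FaithfulSMul.eq_of_smul_eq_smul (α := N)
    intro n
    rw [one_smul]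
    by_cases hn : n = 1
    · rw [hn, smul_one]
    · have : a ∈ stabilizer A n := by rw [hall n hn]; exact ha
      exact this
  have h1 := D.hstab h₀ hh₀1'
  rw [hb] at h1
  simp at h1
  have := D.hs
  omega

end Abstract

/-- Let G be a finite 3/2-transitive permutation group: G acts faithfully and transitively on a finite set, the point stabilizers are non-trivial, and for each point a all orbits of G_a on the remaining points have the same size. Suppose G has a regular normal subgroup N and G is not a Frobenius group (some two-point stabilizer is non-trivial). Then N is an elementary abelian p-group for some prime p, and every non-trivial normal subgroup of G contains N (so N is the unique minimal normal subgroup). -/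
theorem result {G Ω : Type*} [Group G] [Finite G]
    [MulAction G Ω] [FaithfulSMul G Ω] [Finite Ω] (htrans : MulAction.IsPretransitive G Ω)
    (hne : ∀ a : Ω, MulAction.stabilizer G a ≠ ⊥)
    (hhalf : ∀ a b c : Ω, b ≠ a → c ≠ a →
      Nat.card (MulAction.orbit (MulAction.stabilizer G a) b) = Nat.card (MulAction.orbit (MulAction.stabilizer G a) c))
    (N : Subgroup G) [hN : N.Normal] (hNt : MulAction.IsPretransitive N Ω) (hNr : ∀ a : Ω, MulAction.stabilizer N a = ⊥)
    (hnotF : ∃ a b : Ω, a ≠ b ∧ MulAction.stabilizer G a ⊓ MulAction.stabilizer G b ≠ ⊥) :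
    (∃ p : ℕ, p.Prime ∧ IsMulCommutative N ∧ ∀ x ∈ N, x ^ p = 1) ∧
    (∀ M : Subgroup G, M.Normal → M ≠ ⊥ → N ≤ M) := by
  classical
  obtain ⟨a, b, hab, hnt⟩ := hnotF
  haveI := htrans
  haveI := hNt
  -- the action of `A = G_a` on `N`
  set A : Subgroup G := stabilizer G a with hA
  letI inst : MulDistribMulAction ↥A ↥N :=
    MulDistribMulAction.compHom ↥N ((MulAut.conjNormal : G →* MulAut ↥N).comp A.subtype)
  have hsmul : ∀ (x : ↥A) (n : ↥N), ((x • n : ↥N) : G) = (x : G) * n * (x : G)⁻¹ := by
    intro x n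
    rfl
  -- regularity: `n ↦ n • a` is injective
  have hreg : ∀ m n : ↥N, (m : G) • a = (n : G) • a → m = n := by
    intro m n h
    have h1 : n⁻¹ * m ∈ stabilizer (↥N) a := by
      rw [mem_stabilizer_iff]
      show ((n⁻¹ * m : ↥N) : G) • a = a
      rw [Subgroup.coe_mul, mul_smul, h]
      simp
    rw [hNr a, Subgroup.mem_bot] at h1
    exact (inv_mul_eq_one.1 h1).symm
  have hsurj : ∀ ω : Ω, ∃ n : ↥N, (n : G) • a = ω := by
    intro ω
    obtain ⟨n, hn⟩ := MulAction.exists_smul_eq (↥N) a ω
    exact ⟨n, hn⟩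
  -- the point action of `A` and the conjugation action agree
  have hpt : ∀ (x : ↥A) (n : ↥N), (x : G) • ((n : G) • a) = ((x • n : ↥N) : G) • a := by
    intro x n
    have hxa : (x : G) • a = a := x.2
    rw [hsmul, mul_smul, mul_smul]
    congr 1
    rw [inv_smul_eq_iff.2 hxa.symm]
  have hfix_iff : ∀ (x : ↥A) (n : ↥N), x • n = n ↔ (x : G) • ((n : G) • a) = (n : G) • a := by
    intro x n
    rw [hpt]
    constructor
    · intro h; rw [h]
    · exact hreg _ _
  haveI hfaith : FaithfulSMul ↥A ↥N := by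
    refine ⟨fun {x y} hxy => ?_⟩
    apply Subtype.ext
    apply FaithfulSMul.eq_of_smul_eq_smul (α := Ω)
    intro ω
    obtain ⟨n, rfl⟩ := hsurj ω
    rw [hpt, hpt, hxy]
  -- stabilizers
  have hstabeq : ∀ n : ↥N, Nat.card (stabilizer ↥A n) = Nat.card (stabilizer ↥A ((n : G) • a)) := by
    intro n
    have : stabilizer ↥A n = stabilizer ↥A ((n : G) • a) := by
      ext x
      rw [mem_stabilizer_iff, mem_stabilizer_iff]
      exact hfix_iff x n
    rw [this]
  have hne1 : ∀ n : ↥N, n ≠ 1 → (n : G) • a ≠ a := by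
    intro n hn h
    apply hn
    apply hreg
    simpa using h
  obtain ⟨n₀, hn₀⟩ := hsurj b
  have hn₀1 : n₀ ≠ 1 := by
    rintro rfl
    apply hab
    simpa using hn₀
  have hconst : ∀ x y : ↥N, x ≠ 1 → y ≠ 1 → Nat.card (stabilizer ↥A x) = Nat.card (stabilizer ↥A y) := by
    intro x y hx hy
    rw [hstabeq, hstabeq]
    have h1 := hhalf a _ _ (hne1 x hx) (hne1 y hy)
    have h2 := (stabilizer ↥A ((x : G) • a)).card_mul_index
    have h3 := (stabilizer ↥A ((y : G) • a)).card_mul_index
    rw [index_stabilizer] at h2 h3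
    have hcard : ∀ ω : Ω, Nat.card (orbit (↥(stabilizer G a)) ω) = (orbit (↥A) ω).ncard := fun ω => rfl
    have h4 : (orbit (↥A) ((x : G) • a)).ncard = (orbit (↥A) ((y : G) • a)).ncard := h1
    rw [h4] at h2
    have hpos : 0 < (orbit (↥A) ((y : G) • a)).ncard := by
      rw [Set.ncard_pos]
      exact ⟨_, mem_orbit_self _⟩
    exact Nat.eq_of_mul_eq_mul_right hpos (h2.trans h3.symm)
  -- the data
  have hs1 : 1 < Nat.card (stabilizer ↥A n₀) := by
    rw [Subgroup.one_lt_card_iff_ne_bot]
    intro hbot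
    apply hnt
    rw [Subgroup.eq_bot_iff_forall]
    rintro x ⟨hxa, hxb⟩
    have hmem : (⟨x, hxa⟩ : ↥A) ∈ stabilizer ↥A n₀ := by
      rw [mem_stabilizer_iff, hfix_iff, hn₀]
      exact hxb
    rw [hbot, Subgroup.mem_bot] at hmem
    exact congrArg Subtype.val hmem
  obtain ⟨d, hd⟩ : Nat.card (stabilizer ↥A n₀) ∣ Nat.card ↥A := Subgroup.card_subgroup_dvd_card _
  have D : Data ↥A ↥N (Nat.card (stabilizer ↥A n₀)) d :=
    ⟨fun x hx => hconst x n₀ hx hn₀1, by rw [mul_comm]; exact hd.symm, hs1⟩
  have hcomm := D.comm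
  have hfaithA : ∀ x : ↥A, (∀ n : ↥N, (x : G) * n * (x : G)⁻¹ = n) → (x : G) = 1 := by
    intro x hx
    have : x = 1 := by
      apply FaithfulSMul.eq_of_smul_eq_smul (α := ↥N)
      intro n
      rw [one_smul]
      apply Subtype.ext
      rw [hsmul]
      exact hx n
    rw [this]; rfl
  refine ⟨?_, ?_⟩
  · -- elementary abelian
    have hnt' : Nat.card ↥N ≠ 1 := by
      intro h
      have := (Nat.card_eq_one_iff_unique.1 h).1
      exact hn₀1 (Subsingleton.elim _ _)
    obtain ⟨p, hp, hpd⟩ := Nat.exists_prime_and_dvd hnt'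
    refine ⟨p, hp, ⟨⟨hcomm⟩⟩, ?_⟩
    haveI : Fact p.Prime := ⟨hp⟩
    let H : Subgroup ↥N :=
      { carrier := {x | x ^ p = 1}
        mul_mem' := by
          intro u v hu hv
          show (u * v) ^ p = 1
          have hc : Commute u v := hcomm u v
          rw [hc.mul_pow]
          rw [show u ^ p = 1 from hu, show v ^ p = 1 from hv, one_mul]
        one_mem' := by
          show (1 : ↥N) ^ p = 1
          simp
        inv_mem' := by
          intro u hu
          show u⁻¹ ^ p = 1
          rw [inv_pow, show u ^ p = 1 from hu, inv_one] }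
    have hHinv : ∀ c : ↥A, ∀ x ∈ H, c • x ∈ H := by
      intro c x hx
      show (c • x) ^ p = 1
      rw [← smul_pow', show x ^ p = 1 from hx, smul_one]
    rcases D.invariant H hHinv with hb | ht
    · exfalso
      obtain ⟨x, hx⟩ := exists_prime_orderOf_dvd_card' (G := ↥N) p hpd
      have hxH : x ∈ H := by
        show x ^ p = 1
        rw [← hx, pow_orderOf_eq_one]
      rw [hb, Subgroup.mem_bot] at hxH
      rw [hxH, orderOf_one] at hx
      exact hp.one_lt.ne hx
    · intro x hx
      have hxH : (⟨x, hx⟩ : ↥N) ∈ H := ht ▸ Subgroup.mem_top _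
      have h2 : (⟨x, hx⟩ : ↥N) ^ p = 1 := hxH
      exact congrArg Subtype.val h2
  · intro M hM hMbot
    have hHinv : ∀ c : ↥A, ∀ x ∈ M.subgroupOf N, c • x ∈ M.subgroupOf N := by
      intro c x hx
      rw [Subgroup.mem_subgroupOf] at hx ⊢
      rw [hsmul]
      exact hM.conj_mem _ hx _
    rcases D.invariant _ hHinv with hb | ht
    · exfalso
      apply hMbot
      rw [Subgroup.eq_bot_iff_forall]
      intro m hm
      have hinter : ∀ u ∈ M, ∀ hu : u ∈ N, u = 1 := by
        intro u huM huN
        have : (⟨u, huN⟩ : ↥N) ∈ M.subgroupOf N := by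
          rw [Subgroup.mem_subgroupOf]; exact huM
        rw [hb, Subgroup.mem_bot] at this
        exact congrArg Subtype.val this
      have hmn : ∀ n : ↥N, (m : G) * n * m⁻¹ = n := by
        intro n
        have h1 : m * n * m⁻¹ * (n : G)⁻¹ ∈ M :=
          M.mul_mem hm (hM.conj_mem _ (M.inv_mem hm) _)
            |> fun h => by
              have h2 : m * ((n : G) * m⁻¹ * (n : G)⁻¹) = m * n * m⁻¹ * (n : G)⁻¹ := by group
              rwa [← h2]
        have h3 : m * n * m⁻¹ * (n : G)⁻¹ ∈ N :=
          N.mul_mem (hN.conj_mem _ n.2 _) (N.inv_mem n.2)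
        have h4 := hinter _ h1 h3
        exact mul_inv_eq_one.1 h4
      obtain ⟨n₁, hn₁⟩ := hsurj (m • a)
      have hxA : (n₁ : G)⁻¹ * m ∈ A := by
        rw [hA, mem_stabilizer_iff, mul_smul, ← hn₁]
        simp
      have h5 := hfaithA ⟨_, hxA⟩ (by
        intro n
        have hc : Commute (n₁ : G) (n : G) := congrArg Subtype.val (hcomm n₁ n)
        show (n₁ : G)⁻¹ * m * n * ((n₁ : G)⁻¹ * m)⁻¹ = n
        calc (n₁ : G)⁻¹ * m * n * ((n₁ : G)⁻¹ * m)⁻¹ = (n₁ : G)⁻¹ * (m * n * m⁻¹) * n₁ := by group
          _ = (n₁ : G)⁻¹ * (n * n₁) := by rw [hmn n]; group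
          _ = (n₁ : G)⁻¹ * (n₁ * n) := by rw [hc.eq]
          _ = n := by group)
      have h6 : m = n₁ := by
        have h7 : (n₁ : G)⁻¹ * m = 1 := h5
        exact (inv_mul_eq_one.1 h7).symm
      exact hinter m hm (h6 ▸ n₁.2)
    · exact Subgroup.subgroupOf_eq_top.1 ht

end Cfsg.Agent.S3356
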