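import Cfsg.Statements.S4292
import Mathlib
import Cfsg.Agent.Lib.Char.FrobeniusKernel
import Cfsg.Agent.Lib.Frobenius.Basic
import Cfsg.Agent.Lib.Frobenius.Construct
import Cfsg.Agent.Lib.Frobenius.Invariant
import Cfsg.Agent.Lib.Frobenius.Center

set_option autoImplicit false
set_option linter.style.haveILetI false
open Cfsg

namespace Cfsg.Agent.S4292

open MonoidAlgebra

section Norm

variable {A : Type*} [Group A]

/-- The norm element of `⟨c⟩` in the group ring. -/
noncomputable def nm (R : Type*) [CommRing R] (c : A) : MonoidAlgebra R A :=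
  ∑ i ∈ Finset.range (orderOf c), MonoidAlgebra.of R A (c ^ i)

theorem of_mul_nm (R : Type*) [CommRing R] (c : A) : MonoidAlgebra.of R A c * nm R c = nm R c := by
  classical
  unfold nm
  rw [Finset.mul_sum]
  have h : ∀ i, MonoidAlgebra.of R A c * MonoidAlgebra.of R A (c ^ i) = MonoidAlgebra.of R A (c ^ (i + 1)) := by
    intro i
    rw [← map_mul, pow_succ']
  simp_rw [h]
  have h1 := Finset.sum_range_succ' (fun i => MonoidAlgebra.of R A (c ^ i)) (orderOf c)
  have h2 := Finset.sum_range_succ (fun i => MonoidAlgebra.of R A (c ^ i)) (orderOf c)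
  rw [h2] at h1
  simp only [pow_orderOf_eq_one, pow_zero] at h1
  exact (add_right_cancel h1).symm

theorem pow_mul_nm (R : Type*) [CommRing R] (c : A) (i : ℕ) :
    MonoidAlgebra.of R A (c ^ i) * nm R c = nm R c := by
  induction i with
  | zero => rw [pow_zero, map_one, one_mul]
  | succ i ih =>
    rw [pow_succ, map_mul, mul_assoc, of_mul_nm, ih]

theorem nm_mul_nm (R : Type*) [CommRing R] (c : A) :
    nm R c * nm R c = (orderOf c : MonoidAlgebra R A) * nm R c := by
  calc nm R c * nm R c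
      = (∑ i ∈ Finset.range (orderOf c), MonoidAlgebra.of R A (c ^ i)) * nm R c := rfl
    _ = ∑ i ∈ Finset.range (orderOf c), MonoidAlgebra.of R A (c ^ i) * nm R c := Finset.sum_mul _ _ _
    _ = ∑ i ∈ Finset.range (orderOf c), nm R c := by simp_rw [pow_mul_nm]
    _ = _ := by simp

theorem map_nm {R S : Type*} [CommRing R] [CommRing S] (f : R →+* S) (c : A) :
    mapRingHom A f (nm R c) = nm S c := by
  unfold nm
  rw [map_sum]
  refine Finset.sum_congr rfl fun i _ => ?_
  simp [MonoidAlgebra.of]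

/-- The left ideal generated by the products `nm c * z`. -/
noncomputable def LL (R : Type*) [CommRing R] (A : Type*) [Group A] :
    Submodule (MonoidAlgebra R A) (MonoidAlgebra R A) :=
  Submodule.span _ {y | ∃ c : A, c ≠ 1 ∧ ∃ z, y = nm R c * z}

theorem map_surj {R S : Type*} [CommRing R] [CommRing S] (f : R →+* S)
    (hf : Function.Surjective f) (y : MonoidAlgebra S A) : ∃ x, mapRingHom A f x = y := by
  classical
  induction y using MonoidAlgebra.induction_linear with
  | zero => exact ⟨0, map_zero _⟩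
  | add a b ha hb =>
    obtain ⟨x, rfl⟩ := ha
    obtain ⟨x', rfl⟩ := hb
    exact ⟨x + x', map_add _ _ _⟩
  | single g s =>
    obtain ⟨r, rfl⟩ := hf s
    exact ⟨MonoidAlgebra.single g r, by simp⟩

theorem map_mem_LL {R S : Type*} [CommRing R] [CommRing S] (f : R →+* S)
    (hf : Function.Surjective f) {x : MonoidAlgebra R A} (hx : x ∈ LL R A) :
    mapRingHom A f x ∈ LL S A := by
  induction hx using Submodule.span_induction with
  | mem y hy =>
    obtain ⟨c, hc, z, rfl⟩ := hy
    apply Submodule.subset_span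
    exact ⟨c, hc, mapRingHom A f z, by rw [map_mul, map_nm]⟩
  | zero => simp
  | add a b _ _ ha hb =>
    rw [map_add]
    exact add_mem ha hb
  | smul a b _ hb =>
    rw [smul_eq_mul, map_mul]
    exact Submodule.smul_mem _ _ hb

theorem exists_lift_LL {R S : Type*} [CommRing R] [CommRing S] (f : R →+* S)
    (hf : Function.Surjective f) {y : MonoidAlgebra S A} (hy : y ∈ LL S A) :
    ∃ x ∈ LL R A, mapRingHom A f x = y := by
  induction hy using Submodule.span_induction with
  | mem y hy =>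
    obtain ⟨c, hc, z, rfl⟩ := hy
    obtain ⟨z', rfl⟩ := map_surj f hf z
    exact ⟨nm R c * z', Submodule.subset_span ⟨c, hc, z', rfl⟩, by rw [map_mul, map_nm]⟩
  | zero => exact ⟨0, zero_mem _, map_zero _⟩
  | add a b _ _ ha hb =>
    obtain ⟨x, hx, rfl⟩ := ha
    obtain ⟨x', hx', rfl⟩ := hb
    exact ⟨x + x', add_mem hx hx', map_add _ _ _⟩
  | smul a b _ hb =>
    obtain ⟨x, hx, rfl⟩ := hb
    obtain ⟨a', rfl⟩ := map_surj f hf a
    exact ⟨a' * x, Submodule.smul_mem _ _ hx, map_mul _ _ _⟩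

theorem exists_smul_of_map_eq_zero [Finite A] {R S : Type*} [CommRing R] [CommRing S] (f : R →+* S)
    (π : R) (hπ : ∀ a, f a = 0 → ∃ b, a = π * b) {x : MonoidAlgebra R A}
    (hx : mapRingHom A f x = 0) : ∃ w : MonoidAlgebra R A, x = π • w := by
  classical
  choose! y hy using hπ
  let w : MonoidAlgebra R A := MonoidAlgebra.ofCoeff (Finsupp.equivFunOnFinite.symm (fun g => y (x.coeff g)))
  refine ⟨w, ?_⟩
  ext g
  have h1 : f (x.coeff g) = 0 := by
    have := congrArg (fun z : MonoidAlgebra S A => z.coeff g) hx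
    simpa using this
  rw [hy _ h1]
  simp [w]

end Norm

universe u v

section Main

variable {A : Type*} [Group A] [Finite A]

theorem nm_eq_sum (R : Type*) [CommRing R] (c : A) :
    nm R c = ∑ i ∈ Finset.range (orderOf c), MonoidAlgebra.of R A (c ^ i) := rfl

/-- On a fixed point free module, the norm elements act as zero. -/
theorem asAlg_nm {k : Type*} [Field k] {W : Type*} [AddCommGroup W] [Module k W]
    (ρ : Representation k A W) (hfpf : ∀ c : A, c ≠ 1 → ∀ v : W, ρ c v = v → v = 0)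
    (c : A) (hc : c ≠ 1) (v : W) : ρ.asAlgebraHom (nm k c) v = 0 := by
  apply hfpf c hc
  have h := congrArg (fun x => ρ.asAlgebraHom x v) (of_mul_nm k c)
  simp only [map_mul, Module.End.mul_apply, Representation.asAlgebraHom_of] at h
  exact h

/-- The idempotent of `k[A]` coming from a fixed point free module. -/
theorem exists_idem {k : Type*} [Field k] [NeZero (Nat.card A : k)]
    {W : Type*} [AddCommGroup W] [Module k W] [Nontrivial W] (ρ : Representation k A W)
    (hfpf : ∀ c : A, c ≠ 1 → ∀ v : W, ρ c v = v → v = 0) :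
    ∃ e : MonoidAlgebra k A, IsIdempotentElem e ∧ e ≠ 0 ∧ ∀ c : A, c ≠ 1 → ∀ z, nm k c * z * e = 0 := by
  classical
  obtain ⟨w, hw⟩ := exists_ne (0 : W)
  let ann : Submodule (MonoidAlgebra k A) (MonoidAlgebra k A) :=
    { carrier := {x | ρ.asAlgebraHom x w = 0}
      add_mem' := by
        intro a b ha hb
        simp only [Set.mem_setOf_eq] at ha hb ⊢
        rw [map_add, LinearMap.add_apply, ha, hb, add_zero]
      zero_mem' := by simp
      smul_mem' := by
        intro c x hx
        simp only [Set.mem_setOf_eq] at hx ⊢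
        rw [smul_eq_mul, map_mul, Module.End.mul_apply, hx, map_zero] }
  have hann : ∀ x, x ∈ ann ↔ ρ.asAlgebraHom x w = 0 := fun _ => Iff.rfl
  obtain ⟨comp, hc⟩ := exists_isCompl ann
  have h1 : (1 : MonoidAlgebra k A) ∈ ann ⊔ comp := by
    rw [hc.sup_eq_top]
    exact Submodule.mem_top
  obtain ⟨a, ha, b, hb, hab⟩ := Submodule.mem_sup.mp h1
  have hdis : ∀ x, x ∈ ann → x ∈ comp → x = 0 := by
    intro x hx hx'
    have := hc.disjoint.le_bot (Submodule.mem_inf.mpr ⟨hx, hx'⟩)
    simpa using this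
  refine ⟨b, ?_, ?_, ?_⟩
  · have h2 : b - b * b = b * a := by
      have : b * (a + b) = b := by rw [hab, mul_one]
      rw [mul_add] at this
      exact sub_eq_of_eq_add this.symm
    have h3 : b - b * b ∈ ann := by
      rw [h2]
      exact ann.smul_mem b ha
    have h4 : b - b * b ∈ comp := sub_mem hb (comp.smul_mem b hb)
    have := hdis _ h3 h4
    exact (sub_eq_zero.mp this).symm
  · rintro rfl
    rw [add_zero] at hab
    rw [hab] at ha
    have := (hann 1).mp ha
    rw [map_one] at this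
    exact hw this
  · intro c hcc z
    apply hdis
    · rw [hann, mul_assoc, map_mul, Module.End.mul_apply]
      exact asAlg_nm ρ hfpf c hcc _
    · exact comp.smul_mem _ hb

theorem nm_mul_nm' (R : Type*) [CommRing R] (c : A) :
    nm R c * nm R c = (orderOf c : R) • nm R c := by
  rw [nm_mul_nm, ← nsmul_eq_mul, Nat.cast_smul_eq_nsmul]

/-- Lifting the idempotent to coefficient ring `ZMod (p ^ (s + 1))`. -/
theorem exists_idem_lift (p s : ℕ) [hp : Fact p.Prime] (hpA : ¬ p ∣ Nat.card A)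
    (e₀ : MonoidAlgebra (ZMod p) A) (he₀ : IsIdempotentElem e₀)
    (hann : ∀ c : A, c ≠ 1 → ∀ z, nm (ZMod p) c * z * e₀ = 0) :
    ∃ e : MonoidAlgebra (ZMod (p ^ (s + 1))) A, IsIdempotentElem e ∧
      mapRingHom A (ZMod.castHom (dvd_pow_self p (Nat.succ_ne_zero s)) (ZMod p)) e = e₀ ∧
      ∀ c : A, c ≠ 1 → ∀ z, nm (ZMod (p ^ (s + 1))) c * z * e = 0 := by
  classical
  haveI : NeZero (p ^ (s + 1)) := ⟨pow_ne_zero _ hp.out.ne_zero⟩
  set R := ZMod (p ^ (s + 1)) with hR
  let f : R →+* ZMod p := ZMod.castHom (dvd_pow_self p (Nat.succ_ne_zero s)) (ZMod p)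
  have hf : Function.Surjective f := ZMod.castHom_surjective _
  have hπ : ∀ a : R, f a = 0 → ∃ b, a = (p : R) * b := by
    intro a ha
    have h1 : a = (a.val : R) := (ZMod.natCast_zmod_val a).symm
    have h2 : f a = (a.val : ZMod p) := by
      conv_lhs => rw [h1]
      exact map_natCast f _
    rw [h2, ZMod.natCast_eq_zero_iff] at ha
    obtain ⟨m, hm⟩ := ha
    refine ⟨(m : R), ?_⟩
    rw [h1, hm]
    exact Nat.cast_mul p m
  have hp0 : (p : R) ^ (s + 1) = 0 := by
    have : ((p ^ (s + 1) : ℕ) : R) = 0 := ZMod.natCast_self _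
    exact_mod_cast this
  have hnil : ∀ x ∈ RingHom.ker (mapRingHom A f), IsNilpotent x := by
    intro x hx
    obtain ⟨w, rfl⟩ := exists_smul_of_map_eq_zero f _ hπ (RingHom.mem_ker.mp hx)
    refine ⟨s + 1, ?_⟩
    rw [smul_pow, hp0, zero_smul]
  obtain ⟨e, he, hee⟩ := exists_isIdempotentElem_eq_of_ker_isNilpotent (mapRingHom A f) hnil e₀
    (map_surj f hf e₀) he₀
  refine ⟨e, he, hee, ?_⟩
  intro c hc z
  have hord : (orderOf c).Coprime (p ^ (s + 1)) := by
    apply Nat.Coprime.pow_right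
    apply Nat.Coprime.symm
    rw [hp.out.coprime_iff_not_dvd]
    intro h
    exact hpA (h.trans (orderOf_dvd_natCard c))
  obtain ⟨t, htt⟩ : ∃ t : R, t * (orderOf c : R) = 1 := by
    have hu : IsUnit ((orderOf c : ℕ) : R) := (ZMod.isUnit_iff_coprime _ _).mpr hord
    obtain ⟨u, hu⟩ := hu
    exact ⟨(u⁻¹ : Rˣ), by rw [← hu]; exact u.inv_mul⟩
  have hbase : ∀ w : MonoidAlgebra R A, ∃ w', nm R c * w * e = (p : R) • w' := by
    intro w
    apply exists_smul_of_map_eq_zero f _ hπ
    rw [map_mul, map_mul, map_nm, hee]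
    exact hann c hc _
  have hrep : ∀ z : MonoidAlgebra R A, nm R c * z * e = t • (nm R c * (nm R c * z * e) * e) := by
    intro z
    have h1 : nm R c * (nm R c * z * e) * e = nm R c * nm R c * z * (e * e) := by
      simp only [mul_assoc]
    rw [h1, he.eq, nm_mul_nm', smul_mul_assoc, smul_mul_assoc, smul_smul, htt, one_smul]
  have hk : ∀ k : ℕ, ∀ z : MonoidAlgebra R A, ∃ w, nm R c * z * e = (p : R) ^ k • w := by
    intro k
    induction k with
    | zero =>
      intro z
      exact ⟨_, by rw [pow_zero, one_smul]⟩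
    | succ k ih =>
      intro z
      obtain ⟨w, hw⟩ := ih z
      obtain ⟨w', hw'⟩ := hbase w
      refine ⟨t • w', ?_⟩
      rw [hrep z, hw, mul_smul_comm, smul_mul_assoc, hw', smul_smul, smul_smul, smul_smul]
      congr 1
      ring
  obtain ⟨w, hw⟩ := hk (s + 1) z
  rw [hw, hp0, zero_smul]

/-- Nakayama step: if the ideal is everything modulo `r`, a nonzero integer lies in it. -/
theorem exists_int_mem (r : ℕ) [hr : Fact r.Prime]
    (h1 : (1 : MonoidAlgebra (ZMod r) A) ∈ LL (ZMod r) A) :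
    ∃ a : ℤ, a ≠ 0 ∧ (a : MonoidAlgebra ℤ A) ∈ LL ℤ A := by
  classical
  let fr : ℤ →+* ZMod r := Int.castRingHom (ZMod r)
  have hfr : Function.Surjective fr := ZMod.intCast_surjective
  obtain ⟨y, hy, hmap⟩ := exists_lift_LL fr hfr h1
  have hπr : ∀ a : ℤ, fr a = 0 → ∃ b, a = (r : ℤ) * b := by
    intro a ha
    exact (ZMod.intCast_zmod_eq_zero_iff_dvd a r).mp ha
  obtain ⟨u, hu⟩ : ∃ u : MonoidAlgebra ℤ A, 1 - y = (r : ℤ) • u := by
    apply exists_smul_of_map_eq_zero fr _ hπr
    rw [map_sub, hmap, map_one, sub_self]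
  -- Nakayama over the integers
  let P : Submodule ℤ (MonoidAlgebra ℤ A) := (LL ℤ A).restrictScalars ℤ
  have hP : ∀ x, x ∈ P ↔ x ∈ LL ℤ A := fun _ => Iff.rfl
  haveI hfin : Module.Finite ℤ (MonoidAlgebra ℤ A) := inferInstance
  have hle : (⊤ : Submodule ℤ (MonoidAlgebra ℤ A ⧸ P)) ≤
      (Ideal.span {(r : ℤ)}) • (⊤ : Submodule ℤ (MonoidAlgebra ℤ A ⧸ P)) := by
    intro m _
    obtain ⟨x, rfl⟩ := P.mkQ_surjective m
    have h2 : x = x * y + (r : ℤ) • (x * u) := by
      rw [← mul_smul_comm, ← hu, mul_sub, mul_one]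
      abel
    have h3 : P.mkQ x = (r : ℤ) • P.mkQ (x * u) := by
      conv_lhs => rw [h2]
      rw [map_add, map_smul]
      have : P.mkQ (x * y) = 0 := by
        rw [Submodule.mkQ_apply, Submodule.Quotient.mk_eq_zero, hP]
        exact (LL ℤ A).smul_mem x hy
      rw [this, zero_add]
    rw [h3]
    exact Submodule.smul_mem_smul (Ideal.mem_span_singleton_self _) Submodule.mem_top
  haveI : Module.Finite ℤ (MonoidAlgebra ℤ A ⧸ P) := inferInstance
  obtain ⟨a, ha1, ha⟩ := Submodule.exists_sub_one_mem_and_smul_eq_zero_of_fg_of_le_smul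
    (Ideal.span {(r : ℤ)}) (⊤ : Submodule ℤ (MonoidAlgebra ℤ A ⧸ P))
    (Module.finite_def.mp inferInstance) hle
  refine ⟨a, ?_, ?_⟩
  · rintro rfl
    rw [Ideal.mem_span_singleton] at ha1
    have h3 : (r : ℤ) ∣ 1 := by
      have := (dvd_neg.mpr ha1)
      simpa using this
    have h4 : r ∣ 1 := by exact_mod_cast h3
    exact hr.out.one_lt.ne' (Nat.dvd_one.mp h4)
  · have h3 := ha (P.mkQ 1) Submodule.mem_top
    rw [← map_smul, Submodule.mkQ_apply, Submodule.Quotient.mk_eq_zero, hP, zsmul_eq_mul, mul_one] at h3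
    exact h3

/-- The main point: for `r` prime to `|A|` the left ideal `LL` in `F_r[A]` is proper. -/
theorem one_not_mem (p r : ℕ) [hp : Fact p.Prime] [hr : Fact r.Prime] (hpA : ¬ p ∣ Nat.card A)
    {W : Type*} [AddCommGroup W] [Module (ZMod p) W] [Nontrivial W]
    (ρ : Representation (ZMod p) A W) (hfpf : ∀ c : A, c ≠ 1 → ∀ v : W, ρ c v = v → v = 0) :
    (1 : MonoidAlgebra (ZMod r) A) ∉ LL (ZMod r) A := by
  classical
  intro h1
  obtain ⟨a, ha0, haL⟩ := exists_int_mem r h1
  -- `p`-part of `a`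
  obtain ⟨s, b, hb, hab⟩ := Nat.exists_eq_pow_mul_and_not_dvd (Int.natAbs_ne_zero.mpr ha0) p
    hp.out.ne_one
  haveI : NeZero (p ^ (s + 1)) := ⟨pow_ne_zero _ hp.out.ne_zero⟩
  haveI : NeZero (Nat.card A : ZMod p) := ⟨by
    rw [Ne, ZMod.natCast_eq_zero_iff]
    exact hpA⟩
  obtain ⟨e₀, he₀, he₀0, hann⟩ := exists_idem ρ hfpf
  obtain ⟨e, he, hee, hann'⟩ := exists_idem_lift p s hpA e₀ he₀ hann
  let fR : ℤ →+* ZMod (p ^ (s + 1)) := Int.castRingHom (ZMod (p ^ (s + 1)))
  have hfR : Function.Surjective fR := ZMod.intCast_surjective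
  have haL' : (a : MonoidAlgebra (ZMod (p ^ (s + 1))) A) ∈ LL (ZMod (p ^ (s + 1))) A := by
    have := map_mem_LL fR hfR haL
    rwa [map_intCast] at this
  have hLe : ∀ x ∈ LL (ZMod (p ^ (s + 1))) A, x * e = 0 := by
    intro x hx
    induction hx using Submodule.span_induction with
    | mem y hy =>
      obtain ⟨c, hc, z, rfl⟩ := hy
      exact hann' c hc z
    | zero => simp
    | add x y _ _ hx hy => rw [add_mul, hx, hy, add_zero]
    | smul x y _ hy => rw [smul_eq_mul, mul_assoc, hy, mul_zero]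
  have h5 : a • e = 0 := by
    rw [zsmul_eq_mul]
    exact hLe _ haL'
  -- a coefficient of `e₀` which is nonzero
  obtain ⟨g, hg⟩ : ∃ g, e₀.coeff g ≠ 0 := by
    by_contra hcon
    push Not at hcon
    apply he₀0
    ext g
    simpa using hcon g
  have h6 : a • e.coeff g = 0 := by
    have h51 : (a • e).coeff g = a • e.coeff g := rfl
    rw [← h51, h5]
    rfl
  obtain ⟨E, hE⟩ := hfR (e.coeff g)
  have h7 : fR (a * E) = 0 := by
    rw [map_mul, hE]
    have : fR a = (a : ZMod (p ^ (s + 1))) := rfl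
    rw [this]
    rw [← zsmul_eq_mul]
    exact h6
  have h8 : ((p ^ (s + 1) : ℕ) : ℤ) ∣ a * E := (ZMod.intCast_zmod_eq_zero_iff_dvd _ _).mp h7
  have h9 : p ∣ E.natAbs := by
    have h10 : p ^ (s + 1) ∣ a.natAbs * E.natAbs := by
      have := Int.natAbs_dvd_natAbs.mpr h8
      simpa [Int.natAbs_mul] using this
    rw [hab, pow_succ, mul_assoc] at h10
    have h11 := Nat.dvd_of_mul_dvd_mul_left (pow_pos hp.out.pos s) h10
    exact (hp.out.dvd_mul.mp h11).resolve_left hb
  apply hg
  have h12 : e₀.coeff g = ZMod.castHom (dvd_pow_self p (Nat.succ_ne_zero s)) (ZMod p) (e.coeff g) := by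
    rw [← hee]
    simp
  rw [h12, ← hE]
  have h13 : ZMod.castHom (dvd_pow_self p (Nat.succ_ne_zero s)) (ZMod p) (fR E) = (E : ZMod p) := by
    show ZMod.castHom _ _ ((Int.castRingHom (ZMod (p ^ (s + 1)))) E) = _
    simp
  rw [h13, ZMod.intCast_zmod_eq_zero_iff_dvd]
  exact Int.natCast_dvd.mpr h9

/-- A fixed point free module in characteristic `p` (prime to `|A|`) gives one in characteristic
`r` for every prime `r` not dividing `|A|`. -/
theorem exists_fpf_rep {A : Type u} [Group A] [Finite A] (p r : ℕ) [hp : Fact p.Prime] [hr : Fact r.Prime] (hpA : ¬ p ∣ Nat.card A)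
    (hrA : ¬ r ∣ Nat.card A)
    {W : Type*} [AddCommGroup W] [Module (ZMod p) W] [Nontrivial W]
    (ρ : Representation (ZMod p) A W) (hfpf : ∀ c : A, c ≠ 1 → ∀ v : W, ρ c v = v → v = 0) :
    ∃ (W' : Type u) (_ : AddCommGroup W') (_ : Module (ZMod r) W') (_ : Finite W')
      (_ : Nontrivial W') (ρ' : Representation (ZMod r) A W'),
      ∀ c : A, c ≠ 1 → ∀ v : W', ρ' c v = v → v = 0 := by
  classical
  have h1 := one_not_mem p r hpA ρ hfpf
  have hne : LL (ZMod r) A ≠ ⊤ := by
    intro h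
    apply h1
    rw [h]
    exact Submodule.mem_top
  haveI : NeZero r := ⟨hr.out.ne_zero⟩
  haveI hfA : Finite (MonoidAlgebra (ZMod r) A) :=
    Finite.of_equiv (A → ZMod r)
      ((Finsupp.equivFunOnFinite).symm.trans (MonoidAlgebra.coeffEquiv (R := ZMod r) (M := A)).symm)
  refine ⟨MonoidAlgebra (ZMod r) A ⧸ LL (ZMod r) A, inferInstance, inferInstance,
    Finite.of_surjective (LL (ZMod r) A).mkQ (Submodule.mkQ_surjective _),
    Submodule.Quotient.nontrivial_iff.mpr hne,
    ((Algebra.lsmul (ZMod r) (ZMod r) (MonoidAlgebra (ZMod r) A ⧸ LL (ZMod r) A)).toRingHom.toMonoidHom).comp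
      (MonoidAlgebra.of (ZMod r) A), ?_⟩
  intro c hc v hv
  have hv' : MonoidAlgebra.of (ZMod r) A c • v = v := hv
  have hpow : ∀ i : ℕ, MonoidAlgebra.of (ZMod r) A (c ^ i) • v = v := by
    intro i
    induction i with
    | zero => rw [pow_zero, map_one, one_smul]
    | succ i ih =>
      rw [pow_succ, map_mul, mul_smul, hv', ih]
  have hsum : nm (ZMod r) c • v = (orderOf c : ZMod r) • v := by
    rw [nm_eq_sum, Finset.sum_smul]
    simp_rw [hpow]
    rw [Finset.sum_const, Finset.card_range, Nat.cast_smul_eq_nsmul]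
  have hzero : nm (ZMod r) c • v = 0 := by
    obtain ⟨x, rfl⟩ := (LL (ZMod r) A).mkQ_surjective v
    rw [← map_smul, Submodule.mkQ_apply, Submodule.Quotient.mk_eq_zero]
    exact Submodule.subset_span ⟨c, hc, x, rfl⟩
  rw [hsum] at hzero
  have hn : (orderOf c : ZMod r) ≠ 0 := by
    rw [Ne, ZMod.natCast_eq_zero_iff]
    exact fun h => hrA (h.trans (orderOf_dvd_natCard c))
  exact (smul_eq_zero.mp hzero).resolve_left hn

end Main

section Prod

variable {A B : Type*} [Group A] [Finite A] [Group B] [Finite B]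

theorem rTensor_fix {k : Type*} [Field k] {V W : Type*} [AddCommGroup V] [Module k V]
    [AddCommGroup W] [Module k W] (ρ : Representation k A V)
    (hfpf : ∀ c : A, c ≠ 1 → ∀ v : V, ρ c v = v → v = 0) (hn : ¬ ringChar k ∣ Nat.card A)
    (a : A) (ha : a ≠ 1) (x : TensorProduct k V W) (hx : LinearMap.rTensor W (ρ a) x = x) : x = 0 := by
  classical
  have h0 : (∑ i ∈ Finset.range (orderOf a), (ρ a) ^ i) = 0 := by
    ext v
    have h1 := asAlg_nm ρ hfpf a ha v
    rw [nm_eq_sum, map_sum] at h1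
    simp only [Representation.asAlgebraHom_of, map_pow, LinearMap.sum_apply] at h1
    simpa using h1
  have h2 : (∑ i ∈ Finset.range (orderOf a), LinearMap.rTensor W ((ρ a) ^ i)) x = 0 := by
    have h3 : LinearMap.rTensor W (∑ i ∈ Finset.range (orderOf a), (ρ a) ^ i) x = 0 := by
      rw [h0]
      simp
    have h4 : LinearMap.rTensor W (∑ i ∈ Finset.range (orderOf a), (ρ a) ^ i) =
        ∑ i ∈ Finset.range (orderOf a), LinearMap.rTensor W ((ρ a) ^ i) :=
      map_sum (LinearMap.rTensorHom W) _ _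
    rw [h4] at h3
    exact h3
  have hpow : ∀ i : ℕ, LinearMap.rTensor W ((ρ a) ^ i) x = x := by
    intro i
    induction i with
    | zero =>
      rw [pow_zero, Module.End.one_eq_id, LinearMap.rTensor_id]
      rfl
    | succ i ih =>
      rw [pow_succ, LinearMap.rTensor_mul, Module.End.mul_apply, hx, ih]
  rw [LinearMap.sum_apply] at h2
  simp_rw [hpow] at h2
  simp only [Finset.sum_const, Finset.card_range] at h2
  rw [← Nat.cast_smul_eq_nsmul k] at h2
  have hne : (orderOf a : k) ≠ 0 := by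
    intro h
    rw [CharP.cast_eq_zero_iff k (ringChar k)] at h
    exact hn (h.trans (orderOf_dvd_natCard a))
  exact (smul_eq_zero.mp h2).resolve_left hne

theorem lTensor_fix {k : Type*} [Field k] {V W : Type*} [AddCommGroup V] [Module k V]
    [AddCommGroup W] [Module k W] (ρ : Representation k A V)
    (hfpf : ∀ c : A, c ≠ 1 → ∀ v : V, ρ c v = v → v = 0) (hn : ¬ ringChar k ∣ Nat.card A)
    (a : A) (ha : a ≠ 1) (x : TensorProduct k W V) (hx : LinearMap.lTensor W (ρ a) x = x) : x = 0 := by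
  classical
  have h0 : (∑ i ∈ Finset.range (orderOf a), (ρ a) ^ i) = 0 := by
    ext v
    have h1 := asAlg_nm ρ hfpf a ha v
    rw [nm_eq_sum, map_sum] at h1
    simp only [Representation.asAlgebraHom_of, map_pow, LinearMap.sum_apply] at h1
    simpa using h1
  have h2 : (∑ i ∈ Finset.range (orderOf a), LinearMap.lTensor W ((ρ a) ^ i)) x = 0 := by
    have h3 : LinearMap.lTensor W (∑ i ∈ Finset.range (orderOf a), (ρ a) ^ i) x = 0 := by
      rw [h0]
      simp
    have h4 : LinearMap.lTensor W (∑ i ∈ Finset.range (orderOf a), (ρ a) ^ i) =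
        ∑ i ∈ Finset.range (orderOf a), LinearMap.lTensor W ((ρ a) ^ i) :=
      map_sum (LinearMap.lTensorHom W) _ _
    rw [h4] at h3
    exact h3
  have hpow : ∀ i : ℕ, LinearMap.lTensor W ((ρ a) ^ i) x = x := by
    intro i
    induction i with
    | zero =>
      rw [pow_zero, Module.End.one_eq_id, LinearMap.lTensor_id]
      rfl
    | succ i ih =>
      rw [pow_succ, LinearMap.lTensor_mul, Module.End.mul_apply, hx, ih]
  rw [LinearMap.sum_apply] at h2
  simp_rw [hpow] at h2
  simp only [Finset.sum_const, Finset.card_range] at h2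
  rw [← Nat.cast_smul_eq_nsmul k] at h2
  have hne : (orderOf a : k) ≠ 0 := by
    intro h
    rw [CharP.cast_eq_zero_iff k (ringChar k)] at h
    exact hn (h.trans (orderOf_dvd_natCard a))
  exact (smul_eq_zero.mp h2).resolve_left hne

/-- The tensor product of fixed point free modules is fixed point free when orders are coprime. -/
theorem tensor_frobenius (r : ℕ) [hr : Fact r.Prime] (hrA : ¬ r ∣ Nat.card A)
    (hrB : ¬ r ∣ Nat.card B) (hcop : (Nat.card A).Coprime (Nat.card B))
    [Nontrivial A] [Nontrivial B]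
    {V W : Type*} [AddCommGroup V] [Module (ZMod r) V] [Finite V] [Nontrivial V]
    [AddCommGroup W] [Module (ZMod r) W] [Finite W] [Nontrivial W]
    (ρ : Representation (ZMod r) A V) (hρ : ∀ c : A, c ≠ 1 → ∀ v : V, ρ c v = v → v = 0)
    (σ : Representation (ZMod r) B W) (hσ : ∀ c : B, c ≠ 1 → ∀ v : W, σ c v = v → v = 0) :
    ∃ (L : Type) (_ : Group L) (_ : Finite L) (H : Subgroup L),
      IsFrobeniusComplement H ∧ Nonempty ((A × B) ≃* H) := by
  classical
  haveI : NeZero r := ⟨hr.out.ne_zero⟩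
  have hch : ringChar (ZMod r) = r := ZMod.ringChar_zmod_n r
  haveI : Module.Finite (ZMod r) V := Module.Finite.of_finite
  haveI : Module.Finite (ZMod r) W := Module.Finite.of_finite
  haveI : Finite (TensorProduct (ZMod r) V W) := Module.finite_of_finite (ZMod r)
  haveI : Nontrivial (TensorProduct (ZMod r) V W) := by
    apply Module.nontrivial_of_finrank_pos (R := ZMod r)
    rw [Module.finrank_tensorProduct]
    exact Nat.mul_pos Module.finrank_pos Module.finrank_pos
  let ρ' : Representation (ZMod r) (A × B) V := ρ.comp (MonoidHom.fst A B)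
  let σ' : Representation (ZMod r) (A × B) W := σ.comp (MonoidHom.snd A B)
  apply Cfsg.Agent.Lib.Frobenius.Construct.exists_frobenius_of_rep (ρ'.tprod σ')
  rintro ⟨a, b⟩ hg x hx
  have hfix : ∀ m : ℕ, (ρ'.tprod σ') ((a, b) ^ m) x = x := by
    intro m
    induction m with
    | zero => simp
    | succ m ih =>
      rw [pow_succ, map_mul, Module.End.mul_apply, hx, ih]
  by_cases ha : a = 1
  · -- `b ≠ 1`; take the power killing nothing
    have hb : b ≠ 1 := by
      rintro rfl
      exact hg (by rw [ha]; rfl)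
    have h1 := hfix (Nat.card A)
    have h2 : (a, b) ^ (Nat.card A) = ((1 : A), b ^ Nat.card A) := by
      rw [Prod.pow_mk, ha, one_pow]
    rw [h2] at h1
    have hb' : b ^ Nat.card A ≠ 1 := by
      intro h
      have h3 := orderOf_dvd_of_pow_eq_one h
      have h4 := Nat.Coprime.eq_one_of_dvd (hcop.symm.coprime_dvd_left (orderOf_dvd_natCard b)) h3
      exact hb (orderOf_eq_one_iff.mp h4)
    apply lTensor_fix (W := V) σ hσ (by rw [hch]; exact hrB) _ hb' x
    have h5 : (ρ'.tprod σ') ((1 : A), b ^ Nat.card A) = LinearMap.lTensor V (σ (b ^ Nat.card A)) := by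
      rw [Representation.tprod_apply]
      show TensorProduct.map (ρ (1 : A)) _ = _
      rw [map_one]
      rfl
    rw [← h5]
    exact h1
  · have h1 := hfix (Nat.card B)
    have h2 : (a, b) ^ (Nat.card B) = (a ^ Nat.card B, (1 : B)) := by
      rw [Prod.pow_mk, pow_card_eq_one']
    rw [h2] at h1
    have ha' : a ^ Nat.card B ≠ 1 := by
      intro h
      have h3 := orderOf_dvd_of_pow_eq_one h
      have h4 := Nat.Coprime.eq_one_of_dvd (hcop.coprime_dvd_left (orderOf_dvd_natCard a)) h3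
      exact ha (orderOf_eq_one_iff.mp h4)
    apply rTensor_fix (W := W) ρ hρ (by rw [hch]; exact hrA) _ ha' x
    have h5 : (ρ'.tprod σ') (a ^ Nat.card B, (1 : B)) = LinearMap.rTensor W (ρ (a ^ Nat.card B)) := by
      rw [Representation.tprod_apply]
      show TensorProduct.map _ (σ (1 : B)) = _
      rw [map_one]
      rfl
    rw [← h5]
    exact h1

end Prod

section Final

theorem exists_rep' {A V : Type*} [Group A] [AddCommGroup V] {p : ℕ} [Module (ZMod p) V]
    (cj : A → V →+ V) (h1 : ∀ x, cj 1 x = x) (hmul : ∀ a b x, cj (a * b) x = cj a (cj b x)) :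
    ∃ (ρ : Representation (ZMod p) A V), ∀ a x, ρ a x = cj a x := by
  have hc : ∀ (a : A) (x : V), ((cj a).toZModLinearMap p) x = cj a x := by
    intro a x
    rfl
  let ρ : A →* Module.End (ZMod p) V :=
    { toFun := fun a => ((cj a).toZModLinearMap p : Module.End (ZMod p) V)
      map_one' := by
        refine LinearMap.ext fun x => ?_
        rw [Module.End.one_apply, hc, h1]
      map_mul' := fun a b => by
        refine LinearMap.ext fun x => ?_
        rw [Module.End.mul_apply, hc, hc, hc, hmul] }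
  refine ⟨ρ, fun a x => ?_⟩
  exact hc a x

/-- An additive action on a group of exponent `p` is a representation over `ZMod p`. -/
theorem exists_rep {A V : Type*} [Group A] [AddCommGroup V] {p : ℕ} (hexp : ∀ x : V, p • x = 0)
    (cj : A → V →+ V) (h1 : ∀ x, cj 1 x = x) (hmul : ∀ a b x, cj (a * b) x = cj a (cj b x)) :
    ∃ (_ : Module (ZMod p) V) (ρ : Representation (ZMod p) A V), ∀ a x, ρ a x = cj a x := by
  letI iM : Module (ZMod p) V := AddCommGroup.zmodModule hexp
  exact ⟨iM, exists_rep' cj h1 hmul⟩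

/-- A Frobenius complement has a fixed point free module over a prime field. -/
theorem exists_module_of_complement {A : Type*} [Group A] [Finite A] [Nontrivial A]
    (L : Type) [Group L] [Finite L] (H : Subgroup L) (hH : IsFrobeniusComplement H)
    (e : A ≃* H) :
    ∃ (p : ℕ) (_ : Fact p.Prime) (W : Type) (_ : AddCommGroup W) (_ : Module (ZMod p) W)
      (_ : Nontrivial W) (ρ : Representation (ZMod p) A W),
      ¬ p ∣ Nat.card A ∧ ∀ c : A, c ≠ 1 → ∀ v : W, ρ c v = v → v = 0 := by
  classical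
  obtain ⟨N, hN, hNn, hNc⟩ := Cfsg.Agent.Lib.Char.FrobeniusKernel.frobenius_theorem H hH
  have hfix : ∀ h ∈ H, h ≠ 1 → ∀ k ∈ N, h * k = k * h → k = 1 :=
    fun h hh hh1 k hk hc => Cfsg.Agent.Lib.Frobenius.Basic.kernel_fpf hH hN hh hh1 hk hc
  have hNne : N ≠ ⊥ := by
    rintro rfl
    apply hH.2.1
    apply Subgroup.eq_top_of_card_eq
    have := hNc.card_mul
    rwa [Subgroup.card_bot, one_mul] at this
  have hnorm : ∀ K : Subgroup L, K.Normal → H ≤ Subgroup.normalizer (K : Set L) := by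
    intro K hK h _
    refine Subgroup.mem_normalizer_iff.mpr (fun x => ⟨fun hx => hK.conj_mem x hx h, fun hx => ?_⟩)
    have h1 := hK.conj_mem _ hx h⁻¹
    have e1 : h⁻¹ * (h * x * h⁻¹) * h⁻¹⁻¹ = x := by group
    rwa [e1] at h1
  have hHN := hnorm N hNn
  -- an invariant abelian subgroup
  have hZ := Cfsg.Agent.Lib.Frobenius.Center.center_ne_bot_of_fpf hNne hH.1 hHN hfix
  haveI : Nontrivial (Subgroup.center H) := (Subgroup.nontrivial_iff_ne_bot _).mpr hZ
  obtain ⟨q, hq, hqd⟩ := Nat.exists_prime_and_dvd (Finite.one_lt_card (α := Subgroup.center H)).ne'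
  haveI : Fact q.Prime := ⟨hq⟩
  obtain ⟨z, hz⟩ := exists_prime_orderOf_dvd_card' q hqd
  let z₀ : L := ((z : H) : L)
  have hzo : orderOf z₀ = q := by
    rw [← hz]
    have h1 : orderOf z₀ = orderOf (z : H) := Subgroup.orderOf_coe _
    rw [h1]
    exact Subgroup.orderOf_coe _
  have hW1 : Subgroup.zpowers z₀ ≠ ⊥ := by
    rw [Ne, Subgroup.zpowers_eq_bot]
    intro h
    rw [h, orderOf_one] at hzo
    exact hq.one_lt.ne hzo
  have hWE : Subgroup.zpowers z₀ ≤ H := (Subgroup.zpowers_le).mpr (z : H).2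
  have hWn : ∀ a ∈ H, ∀ w ∈ Subgroup.zpowers z₀, a⁻¹ * w * a ∈ Subgroup.zpowers z₀ := by
    rintro a ha _ ⟨k, rfl⟩
    have h1 : a⁻¹ * z₀ * a = z₀ := by
      have h2 : (z : H) * (⟨a, ha⟩ : H) = ⟨a, ha⟩ * z :=
        (Subgroup.mem_center_iff.mp z.2 ⟨a, ha⟩).symm
      have h3 : z₀ * a = a * z₀ := congrArg Subtype.val h2
      rw [mul_assoc, h3]
      group
    have h4 : a⁻¹ * z₀ ^ k * a = (a⁻¹ * z₀ * a) ^ k := by
      have := conj_zpow (a := a⁻¹) (b := z₀) (i := k)
      simpa using this.symm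
    show a⁻¹ * z₀ ^ k * a ∈ _
    rw [h4, h1]
    exact Subgroup.zpow_mem _ (Subgroup.mem_zpowers _) k
  have hWp : IsPGroup q (Subgroup.zpowers z₀) := by
    apply IsPGroup.of_card (n := 1)
    rw [Nat.card_zpowers, hzo, pow_one]
  obtain ⟨V, hVN, hVne, hVc, hHV⟩ := Cfsg.Agent.Lib.Frobenius.Invariant.exists_invariant_abelian_of_fpf
    hNne hHN hfix hWE hW1 hWn hWp
  -- the elementary part
  haveI : Nontrivial V := (Subgroup.nontrivial_iff_ne_bot _).mpr hVne
  obtain ⟨p, hp, hpd⟩ := Nat.exists_prime_and_dvd (Finite.one_lt_card (α := V)).ne'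
  haveI hpF : Fact p.Prime := ⟨hp⟩
  have hVcomm : ∀ a ∈ V, ∀ b ∈ V, a * b = b * a := fun a ha b hb =>
    congrArg Subtype.val (hVc.is_comm.comm (⟨a, ha⟩ : V) ⟨b, hb⟩)
  let V₀ : Subgroup L :=
    { carrier := {x | x ∈ V ∧ x ^ p = 1}
      mul_mem' := by
        rintro a b ⟨ha, ha'⟩ ⟨hb, hb'⟩
        refine ⟨mul_mem ha hb, ?_⟩
        rw [(show Commute a b from hVcomm a ha b hb).mul_pow, ha', hb', one_mul]
      one_mem' := ⟨one_mem _, one_pow _⟩
      inv_mem' := by
        rintro a ⟨ha, ha'⟩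
        exact ⟨inv_mem ha, by rw [inv_pow, ha', inv_one]⟩ }
  have hV₀ : ∀ x, x ∈ V₀ ↔ x ∈ V ∧ x ^ p = 1 := fun _ => Iff.rfl
  obtain ⟨x₀, hx₀⟩ := exists_prime_orderOf_dvd_card' p hpd
  have hx₁ : (x₀ : L) ^ p = 1 := by
    have := pow_orderOf_eq_one x₀
    rw [hx₀] at this
    exact congrArg Subtype.val this
  have hx₂ : (x₀ : L) ≠ 1 := by
    intro h
    have : x₀ = 1 := Subtype.ext h
    rw [this, orderOf_one] at hx₀
    exact hp.one_lt.ne hx₀
  letI iCG : CommGroup V₀ :=
    { (inferInstance : Group V₀) with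
      mul_comm := fun a b => Subtype.ext (hVcomm _ ((hV₀ _).mp a.2).1 _ ((hV₀ _).mp b.2).1) }
  have hexp : ∀ x : Additive V₀, p • x = 0 := by
    intro x
    apply Additive.toMul.injective
    apply Subtype.ext
    exact ((hV₀ _).mp (x.toMul).2).2
  haveI iNt : Nontrivial (Additive V₀) := by
    refine ⟨⟨Additive.ofMul (⟨x₀, x₀.2, hx₁⟩ : V₀), 0, fun h => hx₂ ?_⟩⟩
    have := congrArg (fun y : Additive V₀ => ((y.toMul : V₀) : L)) h
    simpa using this
  -- conjugation by `H` preserves `V₀`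
  have hconj : ∀ h ∈ H, ∀ x ∈ V₀, h * x * h⁻¹ ∈ V₀ := by
    intro h hh x hx
    refine ⟨(Subgroup.mem_normalizer_iff.mp (hHV hh) x).mp hx.1, ?_⟩
    rw [conj_pow, hx.2]
    simp
  let cj : A → Additive V₀ →+ Additive V₀ := fun a =>
    { toFun := fun x => Additive.ofMul
        (⟨((e a : H) : L) * (x.toMul : V₀) * ((e a : H) : L)⁻¹, hconj _ (e a).2 _ x.toMul.2⟩ : V₀)
      map_zero' := by
        apply Additive.toMul.injective
        apply Subtype.ext
        show ((e a : H) : L) * 1 * ((e a : H) : L)⁻¹ = 1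
        simp
      map_add' := fun x y => by
        apply Additive.toMul.injective
        apply Subtype.ext
        show ((e a : H) : L) * ((x.toMul : V₀) * (y.toMul : V₀)) * ((e a : H) : L)⁻¹ =
          (((e a : H) : L) * (x.toMul : V₀) * ((e a : H) : L)⁻¹) *
            (((e a : H) : L) * (y.toMul : V₀) * ((e a : H) : L)⁻¹)
        group }
  have hcj : ∀ a (x : Additive V₀), ((cj a x).toMul : L) = ((e a : H) : L) * (x.toMul : V₀) * ((e a : H) : L)⁻¹ :=
    fun _ _ => rfl
  obtain ⟨iM, ρ, hρ⟩ := exists_rep (p := p) hexp cj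
    (by
      intro x
      apply Additive.toMul.injective
      apply Subtype.ext
      show ((e 1 : H) : L) * (x.toMul : V₀) * ((e 1 : H) : L)⁻¹ = (x.toMul : V₀)
      simp)
    (by
      intro a b x
      apply Additive.toMul.injective
      apply Subtype.ext
      show ((e (a * b) : H) : L) * (x.toMul : V₀) * ((e (a * b) : H) : L)⁻¹ =
        ((e a : H) : L) * (((e b : H) : L) * (x.toMul : V₀) * ((e b : H) : L)⁻¹) * ((e a : H) : L)⁻¹
      rw [map_mul]
      simp only [Subgroup.coe_mul]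
      group)
  refine ⟨p, hpF, Additive V₀, inferInstance, iM, iNt, ρ, ?_, ?_⟩
  · intro hpA
    have h1 := Cfsg.Agent.Lib.Frobenius.Invariant.coprime_of_fpf hHN hfix
    have h2 : Nat.card H = Nat.card A := (Nat.card_congr e.toEquiv).symm
    have h3 : Nat.card V ∣ Nat.card N := Subgroup.card_dvd_of_le hVN
    have h4 := Nat.dvd_gcd (h2 ▸ hpA) (hpd.trans h3)
    rw [h1.gcd_eq_one] at h4
    exact hp.one_lt.ne' (Nat.dvd_one.mp h4)
  · intro c hc v hv
    have h1 : ((e c : H) : L) ≠ 1 := by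
      intro h
      apply hc
      have : e c = 1 := Subtype.ext h
      exact (map_eq_one_iff e e.injective).mp this
    rw [hρ] at hv
    have h2 := congrArg (fun y : Additive V₀ => ((y.toMul : V₀) : L)) hv
    have h3 : ((e c : H) : L) * (v.toMul : V₀) * ((e c : H) : L)⁻¹ = (v.toMul : V₀) := h2
    have h4 : ((e c : H) : L) * (v.toMul : V₀) = (v.toMul : V₀) * ((e c : H) : L) :=
      calc ((e c : H) : L) * (v.toMul : V₀)
          = (((e c : H) : L) * (v.toMul : V₀) * ((e c : H) : L)⁻¹) * ((e c : H) : L) := by group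
        _ = _ := by rw [h3]
    have h5 := hfix _ (e c).2 h1 _ (hVN ((hV₀ _).mp (v.toMul).2).1) h4
    apply Additive.toMul.injective
    exact Subtype.ext h5

end Final

/-- The forward direction for one factor. -/
theorem complement_of_injective {A C : Type*} [Group A] [Finite A] [Nontrivial A] [Group C]
    (L : Type) [Group L] [Finite L] (H : Subgroup L) (hH : IsFrobeniusComplement H)
    (ψ : A →* H) (hψ : Function.Injective ψ) :
    ∃ (L' : Type) (_ : Group L') (_ : Finite L') (H' : Subgroup L'),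
      IsFrobeniusComplement H' ∧ Nonempty (A ≃* H') := by
  classical
  obtain ⟨N, hN, hNn, hNc⟩ := Cfsg.Agent.Lib.Char.FrobeniusKernel.frobenius_theorem H hH
  have hfix : ∀ h ∈ H, h ≠ 1 → ∀ k ∈ N, h * k = k * h → k = 1 :=
    fun h hh hh1 k hk hc => Cfsg.Agent.Lib.Frobenius.Basic.kernel_fpf hH hN hh hh1 hk hc
  have hNne : N ≠ ⊥ := by
    rintro rfl
    apply hH.2.1
    apply Subgroup.eq_top_of_card_eq
    have := hNc.card_mul
    rwa [Subgroup.card_bot, one_mul] at this
  haveI : Nontrivial N := (Subgroup.nontrivial_iff_ne_bot _).mpr hNne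
  let φ : A →* MulAut N := (MulAut.conjNormal (H := N)).comp (H.subtype.comp ψ)
  apply Cfsg.Agent.Lib.Frobenius.Construct.exists_frobenius_of_fpf φ
  intro c hc n hn
  have h1 : ((ψ c : H) : L) ≠ 1 := by
    intro h
    apply hc
    have : ψ c = 1 := Subtype.ext h
    exact (map_eq_one_iff ψ hψ).mp this
  have h2 : ((ψ c : H) : L) * (n : L) * ((ψ c : H) : L)⁻¹ = n := congrArg Subtype.val hn
  have h3 : ((ψ c : H) : L) * (n : L) = (n : L) * ((ψ c : H) : L) :=
    calc ((ψ c : H) : L) * (n : L)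
        = (((ψ c : H) : L) * (n : L) * ((ψ c : H) : L)⁻¹) * ((ψ c : H) : L) := by group
      _ = _ := by rw [h2]
  exact Subtype.ext (hfix _ (ψ c).2 h1 _ n.2 h3)

/-- Let A and B be nontrivial finite groups. Then the direct product A × B occurs as a Frobenius complement if and only if A and B both occur as Frobenius complements and the orders of A and B are coprime. -/
theorem result {A B : Type*} [Group A] [Finite A] [Nontrivial A] [Group B] [Finite B] [Nontrivial B] :
    (∃ (L : Type) (_ : Group L) (_ : Finite L) (H : Subgroup L), Cfsg.IsFrobeniusComplement H ∧ Nonempty ((A × B) ≃* H)) ↔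
    ((∃ (L : Type) (_ : Group L) (_ : Finite L) (H : Subgroup L), Cfsg.IsFrobeniusComplement H ∧ Nonempty (A ≃* H)) ∧
     (∃ (L : Type) (_ : Group L) (_ : Finite L) (H : Subgroup L), Cfsg.IsFrobeniusComplement H ∧ Nonempty (B ≃* H)) ∧
     (Nat.card A).Coprime (Nat.card B)) := by
  classical
  constructor
  · rintro ⟨L, iG, iF, H, hH, ⟨e⟩⟩
    refine ⟨complement_of_injective (C := A) L H hH (e.toMonoidHom.comp (MonoidHom.inl A B)) ?_,
      complement_of_injective (C := A) L H hH (e.toMonoidHom.comp (MonoidHom.inr A B)) ?_, ?_⟩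
    · intro x y hxy
      have := e.injective hxy
      exact congrArg Prod.fst this
    · intro x y hxy
      have := e.injective hxy
      exact congrArg Prod.snd this
    · apply Nat.coprime_of_dvd
      intro q hq hqA hqB
      haveI : Fact q.Prime := ⟨hq⟩
      obtain ⟨a, ha⟩ := exists_prime_orderOf_dvd_card' q hqA
      obtain ⟨b, hb⟩ := exists_prime_orderOf_dvd_card' q hqB
      obtain ⟨N, hN, hNn, hNc⟩ := Cfsg.Agent.Lib.Char.FrobeniusKernel.frobenius_theorem H hH
      have hfix : ∀ h ∈ H, h ≠ 1 → ∀ k ∈ N, h * k = k * h → k = 1 :=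
        fun h hh hh1 k hk hc => Cfsg.Agent.Lib.Frobenius.Basic.kernel_fpf hH hN hh hh1 hk hc
      have hNne : N ≠ ⊥ := by
        rintro rfl
        apply hH.2.1
        apply Subgroup.eq_top_of_card_eq
        have := hNc.card_mul
        rwa [Subgroup.card_bot, one_mul] at this
      let ψ : A × B →* L := H.subtype.comp e.toMonoidHom
      have hψ : Function.Injective ψ := H.subtype_injective.comp e.injective
      let E : Subgroup L := ((Subgroup.zpowers a).prod (Subgroup.zpowers b)).map ψ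
      have hEH : E ≤ H := by
        rintro _ ⟨y, -, rfl⟩
        exact (e y).2
      have hcard : Nat.card E = q ^ 2 := by
        have h1 : Nat.card E = Nat.card ((Subgroup.zpowers a).prod (Subgroup.zpowers b)) :=
          (Nat.card_congr (Subgroup.equivMapOfInjective _ ψ hψ).toEquiv).symm
        rw [h1, Nat.card_congr (Subgroup.prodEquiv _ _).toEquiv, Nat.card_prod, Nat.card_zpowers,
          Nat.card_zpowers, ha, hb, sq]
      have hexp : ∀ x ∈ E, x ^ q = 1 := by
        rintro _ ⟨⟨u, v⟩, huv, rfl⟩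
        obtain ⟨hu, hv⟩ := Subgroup.mem_prod.mp huv
        obtain ⟨k, hk⟩ := hu
        obtain ⟨l, hl⟩ := hv
        rw [← map_pow, Prod.pow_mk]
        have hu' : u ^ q = 1 := by
          simp only at hk hl
          rw [← hk, ← zpow_natCast, ← zpow_mul, mul_comm, zpow_mul, zpow_natCast, ← ha,
            pow_orderOf_eq_one, one_zpow]
        have hv' : v ^ q = 1 := by
          simp only at hk hl
          rw [← hl, ← zpow_natCast, ← zpow_mul, mul_comm, zpow_mul, zpow_natCast, ← hb,
            pow_orderOf_eq_one, one_zpow]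
        rw [hu', hv']
        exact map_one ψ
      have hEK : E ≤ Subgroup.normalizer (N : Set L) := by
        intro h _
        refine Subgroup.mem_normalizer_iff.mpr (fun x => ⟨fun hx => hNn.conj_mem x hx h, fun hx => ?_⟩)
        have h1 := hNn.conj_mem _ hx h⁻¹
        have e1 : h⁻¹ * (h * x * h⁻¹) * h⁻¹⁻¹ = x := by group
        rwa [e1] at h1
      exact Cfsg.Agent.Lib.Frobenius.Invariant.no_elementary_of_fpf' hNne hEK
        (fun a ha => hfix a (hEH ha)) hcard hexp
  · rintro ⟨⟨L₁, iG₁, iF₁, H₁, hH₁, ⟨e₁⟩⟩, ⟨L₂, iG₂, iF₂, H₂, hH₂, ⟨e₂⟩⟩, hcop⟩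
    obtain ⟨p₁, hp₁, W₁, i₁, m₁, n₁, ρ₁, hp₁A, hρ₁⟩ := exists_module_of_complement L₁ H₁ hH₁ e₁
    obtain ⟨p₂, hp₂, W₂, i₂, m₂, n₂, ρ₂, hp₂B, hρ₂⟩ := exists_module_of_complement L₂ H₂ hH₂ e₂
    obtain ⟨r, hrle, hr⟩ := Nat.exists_infinite_primes (Nat.card A * Nat.card B + 1)
    haveI : Fact r.Prime := ⟨hr⟩
    have hApos : 0 < Nat.card A := Nat.card_pos
    have hBpos : 0 < Nat.card B := Nat.card_pos
    have hrA : ¬ r ∣ Nat.card A := by
      intro h
      have := Nat.le_of_dvd hApos h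
      have h2 : Nat.card A ≤ Nat.card A * Nat.card B := Nat.le_mul_of_pos_right _ hBpos
      omega
    have hrB : ¬ r ∣ Nat.card B := by
      intro h
      have := Nat.le_of_dvd hBpos h
      have h2 : Nat.card B ≤ Nat.card A * Nat.card B := Nat.le_mul_of_pos_left _ hApos
      omega
    obtain ⟨V, iV, mV, fV, nV, ρ, hρ⟩ := exists_fpf_rep p₁ r hp₁A hrA ρ₁ hρ₁
    obtain ⟨W, iW, mW, fW, nW, σ, hσ⟩ := exists_fpf_rep p₂ r hp₂B hrB ρ₂ hρ₂
    exact tensor_frobenius r hrA hrB hcop ρ hρ σ hσ

end Cfsg.Agent.S4292
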