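import Cfsg.Statements.S3357
import Mathlib
import Cfsg.Agent.S4292

set_option autoImplicit false
set_option linter.style.haveILetI false
open Cfsg

namespace Cfsg.Agent.S3357

open MonoidAlgebra Cfsg.Agent.S4292

universe u

variable {A : Type u} [Group A] [Finite A]

theorem smul_mem_LL {k : Type*} [Field k] (κ : k) {y : MonoidAlgebra k A} (hy : y ∈ LL k A) :
    κ • y ∈ LL k A := by
  rw [Algebra.smul_def]
  exact (LL k A).smul_mem _ hy

/-- No nonzero integer lies in the ideal `LL ℤ A` when a fixed point free module exists. -/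
theorem no_int_mem (p : ℕ) [hp : Fact p.Prime] (hpA : ¬ p ∣ Nat.card A)
    {W : Type*} [AddCommGroup W] [Module (ZMod p) W] [Nontrivial W]
    (ρ : Representation (ZMod p) A W) (hfpf : ∀ c : A, c ≠ 1 → ∀ v : W, ρ c v = v → v = 0)
    (a : ℤ) (ha : a ≠ 0) : (a : MonoidAlgebra ℤ A) ∉ LL ℤ A := by
  intro h
  obtain ⟨r, hr1, hr⟩ := Nat.exists_infinite_primes (a.natAbs + 1)
  haveI : Fact r.Prime := ⟨hr⟩
  have h1 := one_not_mem p r hpA ρ hfpf
  apply h1
  let fr : ℤ →+* ZMod r := Int.castRingHom (ZMod r)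
  have hfr : Function.Surjective fr := ZMod.intCast_surjective
  have h2 := map_mem_LL fr hfr h
  rw [map_intCast] at h2
  have hne : (a : ZMod r) ≠ 0 := by
    rw [Ne, ZMod.intCast_zmod_eq_zero_iff_dvd]
    intro hd
    have h3 : r ∣ a.natAbs := Int.natCast_dvd.mp hd
    have h4 := Nat.le_of_dvd (Int.natAbs_pos.mpr ha) h3
    omega
  have h3 : ((a : ZMod r)⁻¹) • (a : MonoidAlgebra (ZMod r) A) = 1 := by
    have h4 : (a : MonoidAlgebra (ZMod r) A) = (a : ZMod r) • (1 : MonoidAlgebra (ZMod r) A) := by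
      rw [Int.cast_smul_eq_zsmul, zsmul_eq_mul, mul_one]
    rw [h4, smul_smul, inv_mul_cancel₀ hne, one_smul]
  rw [← h3]
  exact smul_mem_LL _ h2

/-- Clearing denominators in `ℚ[A]`. -/
theorem exists_den (z : MonoidAlgebra ℚ A) :
    ∃ d : ℤ, d ≠ 0 ∧ ∃ z' : MonoidAlgebra ℤ A, mapRingHom A (Int.castRingHom ℚ) z' = (d : ℚ) • z := by
  classical
  induction z using MonoidAlgebra.induction_linear with
  | zero => exact ⟨1, one_ne_zero, 0, by simp⟩
  | add a b ha hb =>
    obtain ⟨d, hd, a', ha'⟩ := ha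
    obtain ⟨e, he, b', hb'⟩ := hb
    refine ⟨d * e, mul_ne_zero hd he, (e • a') + (d • b'), ?_⟩
    rw [map_add, map_zsmul, map_zsmul, ha', hb', smul_add]
    congr 1
    · rw [← Int.cast_smul_eq_zsmul ℚ, smul_smul]
      congr 1
      push_cast
      ring
    · rw [← Int.cast_smul_eq_zsmul ℚ, smul_smul]
      congr 1
      push_cast
      rfl
  | single g q =>
    refine ⟨q.den, by exact_mod_cast q.den_nz, MonoidAlgebra.single g q.num, ?_⟩
    rw [mapRingHom_single, smul_single']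
    congr 1
    simp

theorem den_LL {y : MonoidAlgebra ℚ A} (hy : y ∈ LL ℚ A) :
    ∃ d : ℤ, d ≠ 0 ∧ ∃ y' ∈ LL ℤ A, mapRingHom A (Int.castRingHom ℚ) y' = (d : ℚ) • y := by
  induction hy using Submodule.span_induction with
  | mem y hy =>
    obtain ⟨c, hc, z, rfl⟩ := hy
    obtain ⟨d, hd, z', hz'⟩ := exists_den z
    refine ⟨d, hd, nm ℤ c * z', Submodule.subset_span ⟨c, hc, z', rfl⟩, ?_⟩
    rw [map_mul, map_nm, hz', mul_smul_comm]
  | zero => exact ⟨1, one_ne_zero, 0, zero_mem _, by simp⟩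
  | add a b _ _ ha hb =>
    obtain ⟨d, hd, a', ha0, ha'⟩ := ha
    obtain ⟨e, he, b', hb0, hb'⟩ := hb
    refine ⟨d * e, mul_ne_zero hd he, (e • a') + (d • b'),
      add_mem (zsmul_mem ha0 e) (zsmul_mem hb0 d), ?_⟩
    rw [map_add, map_zsmul, map_zsmul, ha', hb', smul_add]
    congr 1
    · rw [← Int.cast_smul_eq_zsmul ℚ, smul_smul]
      congr 1
      push_cast
      ring
    · rw [← Int.cast_smul_eq_zsmul ℚ, smul_smul]
      congr 1
      push_cast
      rfl
  | smul a b _ hb =>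
    obtain ⟨d, hd, b', hb0, hb'⟩ := hb
    obtain ⟨e, he, a', ha'⟩ := exists_den a
    refine ⟨e * d, mul_ne_zero he hd, a' * b', (LL ℤ A).smul_mem a' hb0, ?_⟩
    rw [map_mul, ha', hb', smul_eq_mul, smul_mul_assoc, mul_smul_comm, smul_smul]
    push_cast
    rfl

/-- Over the rationals the ideal `LL` is proper. -/
theorem one_not_mem_rat (p : ℕ) [hp : Fact p.Prime] (hpA : ¬ p ∣ Nat.card A)
    {W : Type*} [AddCommGroup W] [Module (ZMod p) W] [Nontrivial W]
    (ρ : Representation (ZMod p) A W) (hfpf : ∀ c : A, c ≠ 1 → ∀ v : W, ρ c v = v → v = 0) :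
    (1 : MonoidAlgebra ℚ A) ∉ LL ℚ A := by
  intro h
  obtain ⟨d, hd, y, hy, hmap⟩ := den_LL h
  apply no_int_mem p hpA ρ hfpf d hd
  have hinj : Function.Injective (mapRingHom A (Int.castRingHom ℚ)) := by
    intro x x' hxx
    ext g
    have := congrArg (fun z : MonoidAlgebra ℚ A => z.coeff g) hxx
    simpa using this
  have : y = (d : MonoidAlgebra ℤ A) := by
    apply hinj
    rw [hmap, map_intCast, Int.cast_smul_eq_zsmul, zsmul_eq_mul, mul_one]
  rw [← this]
  exact hy

/-- The rational module on which all norms vanish. -/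
theorem exists_rat_rep (h1 : (1 : MonoidAlgebra ℚ A) ∉ LL ℚ A) :
    ∃ (W : Type u) (_ : AddCommGroup W) (_ : Module ℚ W) (_ : Module.Finite ℚ W) (_ : Nontrivial W)
      (ρ : Representation ℚ A W),
      ∀ c : A, c ≠ 1 → (∑ i ∈ Finset.range (orderOf c), ρ (c ^ i)) = 0 := by
  classical
  let P : Submodule ℚ (MonoidAlgebra ℚ A) := (LL ℚ A).restrictScalars ℚ
  have hP : ∀ x, x ∈ P ↔ x ∈ LL ℚ A := fun _ => Iff.rfl
  have hne : P ≠ ⊤ := by
    intro h
    apply h1
    rw [← hP, h]
    exact Submodule.mem_top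
  haveI hfA : Module.Finite ℚ (MonoidAlgebra ℚ A) := inferInstance
  have hinv : ∀ g : A, P ≤ P.comap (LinearMap.mulLeft ℚ (MonoidAlgebra.of ℚ A g)) := by
    intro g x hx
    rw [Submodule.mem_comap, LinearMap.mulLeft_apply, hP]
    exact (LL ℚ A).smul_mem _ ((hP x).mp hx)
  let ρ : A →* Module.End ℚ (MonoidAlgebra ℚ A ⧸ P) :=
    { toFun := fun g => P.mapQ P (LinearMap.mulLeft ℚ (MonoidAlgebra.of ℚ A g)) (hinv g)
      map_one' := by
        refine LinearMap.ext fun v => ?_
        obtain ⟨x, rfl⟩ := P.mkQ_surjective v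
        rw [Submodule.mkQ_apply, Submodule.mapQ_apply, map_one, LinearMap.mulLeft_one]
        rfl
      map_mul' := fun a b => by
        refine LinearMap.ext fun v => ?_
        obtain ⟨x, rfl⟩ := P.mkQ_surjective v
        rw [Submodule.mkQ_apply, Module.End.mul_apply, Submodule.mapQ_apply, Submodule.mapQ_apply,
          Submodule.mapQ_apply, map_mul, LinearMap.mulLeft_apply, LinearMap.mulLeft_apply,
          LinearMap.mulLeft_apply, mul_assoc] }
  have hρ : ∀ g x, ρ g (P.mkQ x) = P.mkQ (MonoidAlgebra.of ℚ A g * x) := fun _ _ => rfl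
  refine ⟨MonoidAlgebra ℚ A ⧸ P, inferInstance, inferInstance, inferInstance,
    Submodule.Quotient.nontrivial_iff.mpr hne, ρ, ?_⟩
  intro c hc
  refine LinearMap.ext fun v => ?_
  obtain ⟨x, rfl⟩ := P.mkQ_surjective v
  rw [LinearMap.sum_apply]
  simp_rw [hρ]
  rw [← map_sum, ← Finset.sum_mul, ← nm_eq_sum]
  show P.mkQ _ = 0
  rw [Submodule.mkQ_apply, Submodule.Quotient.mk_eq_zero, hP]
  exact Submodule.subset_span ⟨c, hc, x, rfl⟩

/-- Base change to an algebraically closed (char 0) field: a fixed point free module. -/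
theorem exists_fpf_basechange {K : Type*} [Field K] [CharZero K]
    {W : Type*} [AddCommGroup W] [Module ℚ W] [Module.Finite ℚ W] [Nontrivial W]
    (ρ : Representation ℚ A W)
    (hρ : ∀ c : A, c ≠ 1 → (∑ i ∈ Finset.range (orderOf c), ρ (c ^ i)) = 0) [Algebra ℚ K] :
    ∃ (ρ' : Representation K A (TensorProduct ℚ K W)),
      ∀ c : A, c ≠ 1 → ∀ v, ρ' c v = v → v = 0 := by
  classical
  have hb1 : ∀ g : A, (ρ g).baseChange K = (ρ g).baseChange K := fun _ => rfl
  let ρ' : A →* Module.End K (TensorProduct ℚ K W) :=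
    { toFun := fun g => (ρ g).baseChange K
      map_one' := by
        rw [map_one]
        exact LinearMap.baseChange_id
      map_mul' := fun a b => by
        rw [map_mul]
        exact LinearMap.baseChange_comp _ _ }
  refine ⟨ρ', fun c hc v hv => ?_⟩
  have hfix : ∀ i : ℕ, ρ' (c ^ i) v = v := by
    intro i
    rw [map_pow]
    induction i with
    | zero => simp
    | succ i ih => rw [pow_succ, Module.End.mul_apply, hv, ih]
  have h0 : (∑ i ∈ Finset.range (orderOf c), (ρ (c ^ i)).baseChange K) = 0 := by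
    have : (∑ i ∈ Finset.range (orderOf c), (ρ (c ^ i)).baseChange K) =
        (∑ i ∈ Finset.range (orderOf c), ρ (c ^ i)).baseChange K :=
      (map_sum (LinearMap.baseChangeHom ℚ K W W) _ _).symm
    rw [this, hρ c hc]
    exact LinearMap.baseChange_zero
  have h1 := LinearMap.congr_fun h0 v
  rw [LinearMap.sum_apply] at h1
  have h2 : ∀ i, ((ρ (c ^ i)).baseChange K) v = v := fun i => hfix i
  simp_rw [h2] at h1
  rw [Finset.sum_const, Finset.card_range, ← Nat.cast_smul_eq_nsmul K] at h1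
  have hord : (orderOf c : K) ≠ 0 := by
    exact_mod_cast (orderOf_pos c).ne'
  exact (smul_eq_zero.mp h1).resolve_left hord

/-- A minimal nonzero invariant subspace. -/
theorem exists_minimal_invariant {K : Type*} [Field K] {V : Type*} [AddCommGroup V] [Module K V]
    [Module.Finite K V] [Nontrivial V] (ρ : Representation K A V) :
    ∃ U : Submodule K V, U ≠ ⊥ ∧ (∀ g, ∀ u ∈ U, ρ g u ∈ U) ∧
      ∀ U' : Submodule K V, U' ≤ U → (∀ g, ∀ u ∈ U', ρ g u ∈ U') → U' = ⊥ ∨ U' = U := by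
  classical
  let S : Set (Submodule K V) := {U | U ≠ ⊥ ∧ ∀ g, ∀ u ∈ U, ρ g u ∈ U}
  have hS : S.Nonempty := ⟨⊤, top_ne_bot, fun _ _ _ => Submodule.mem_top⟩
  have hex : ∃ d, ∃ U ∈ S, Module.finrank K U = d := ⟨_, ⊤, hS.some_mem.elim (fun h1 h2 => ⟨top_ne_bot, fun _ _ _ => Submodule.mem_top⟩), rfl⟩
  obtain ⟨U, hU, hd⟩ := Nat.find_spec hex
  refine ⟨U, hU.1, hU.2, fun U' hU' hinv => ?_⟩
  by_cases hbot : U' = ⊥
  · exact Or.inl hbot
  · right
    apply Submodule.eq_of_le_of_finrank_le hU'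
    rw [hd]
    exact Nat.find_min' hex ⟨U', ⟨hbot, hinv⟩, rfl⟩

/-- Matrix form of an irreducible fixed point free subrepresentation. -/
theorem matrix_form {K : Type*} [Field K] {V : Type*} [AddCommGroup V] [Module K V]
    [Module.Finite K V] (ρ : Representation K A V)
    (hfpf : ∀ c : A, c ≠ 1 → ∀ v, ρ c v = v → v = 0)
    (U : Submodule K V) (hU : U ≠ ⊥) (hinv : ∀ g, ∀ u ∈ U, ρ g u ∈ U)
    (hmin : ∀ U' : Submodule K V, U' ≤ U → (∀ g, ∀ u ∈ U', ρ g u ∈ U') → U' = ⊥ ∨ U' = U) :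
    ∃ (n : ℕ) (r : A →* GL (Fin n) K), 0 < n ∧ Function.Injective r ∧
      (∀ W : Submodule K (Fin n → K),
        (∀ g : A, ∀ w ∈ W, ((r g : GL (Fin n) K) : Matrix (Fin n) (Fin n) K).mulVec w ∈ W) →
          W = ⊥ ∨ W = ⊤) ∧
      ∀ g : A, g ≠ 1 → ∀ v : Fin n → K,
        ((r g : GL (Fin n) K) : Matrix (Fin n) (Fin n) K).mulVec v = v → v = 0 := by
  classical
  haveI hUn : Nontrivial U := (Submodule.nontrivial_iff_ne_bot).mpr hU
  set n := Module.finrank K U with hn
  have hnpos : 0 < n := Module.finrank_pos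
  let φ : U ≃ₗ[K] (Fin n → K) := (Module.finBasis K U).equivFun
  let res : A → (U →ₗ[K] U) := fun g => (ρ g).restrict (hinv g)
  have hres : ∀ g (u : U), ((res g u : U) : V) = ρ g u := fun _ _ => rfl
  let B : A → ((Fin n → K) →ₗ[K] (Fin n → K)) := fun g =>
    φ.toLinearMap ∘ₗ res g ∘ₗ φ.symm.toLinearMap
  have hB : ∀ g (u : U), B g (φ u) = φ (res g u) := by
    intro g u
    show φ (res g (φ.symm (φ u))) = _
    rw [φ.symm_apply_apply]
  have hB1 : B 1 = LinearMap.id := by
    refine LinearMap.ext fun v => ?_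
    obtain ⟨u, rfl⟩ := φ.surjective v
    rw [hB, LinearMap.id_apply]
    congr 1
    apply Subtype.ext
    rw [hres, map_one]
    rfl
  have hBmul : ∀ a b, B (a * b) = (B a) ∘ₗ (B b) := by
    intro a b
    refine LinearMap.ext fun v => ?_
    obtain ⟨u, rfl⟩ := φ.surjective v
    show B (a * b) (φ u) = B a (B b (φ u))
    rw [hB, hB, hB]
    congr 1
    apply Subtype.ext
    rw [hres, hres, hres, map_mul]
    rfl
  let M : A →* Matrix (Fin n) (Fin n) K :=
    { toFun := fun g => LinearMap.toMatrix' (B g)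
      map_one' := by
        rw [hB1, LinearMap.toMatrix'_id]
      map_mul' := fun a b => by
        rw [hBmul, LinearMap.toMatrix'_comp] }
  have hM : ∀ g v, (M g).mulVec v = B g v := fun g v => LinearMap.toMatrix'_mulVec (B g) v
  let r : A →* GL (Fin n) K := M.toHomUnits
  have hr : ∀ g, ((r g : GL (Fin n) K) : Matrix (Fin n) (Fin n) K) = M g := fun _ => rfl
  have hfix : ∀ g : A, g ≠ 1 → ∀ v : Fin n → K,
      ((r g : GL (Fin n) K) : Matrix (Fin n) (Fin n) K).mulVec v = v → v = 0 := by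
    intro g hg v hv
    rw [hr, hM] at hv
    obtain ⟨u, rfl⟩ := φ.surjective v
    rw [hB] at hv
    have h1 := φ.injective hv
    have h2 : ρ g (u : V) = u := congrArg Subtype.val h1
    have h3 := hfpf g hg _ h2
    have h4 : u = 0 := Subtype.ext h3
    rw [h4, map_zero]
  refine ⟨n, r, hnpos, ?_, ?_, hfix⟩
  · rw [injective_iff_map_eq_one]
    intro g hg
    by_contra hg1
    have h1 := hfix g hg1 (fun _ => 1) (by
      rw [hg]
      simp)
    have h2 := congrFun h1 ⟨0, hnpos⟩
    exact one_ne_zero h2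
  · intro W hW
    let U' : Submodule K V := (W.comap φ.toLinearMap).map U.subtype
    have hU' : ∀ x, x ∈ U' ↔ ∃ u : U, φ u ∈ W ∧ (u : V) = x := by
      intro x
      constructor
      · rintro ⟨u, hu, rfl⟩
        exact ⟨u, hu, rfl⟩
      · rintro ⟨u, hu, rfl⟩
        exact ⟨u, hu, rfl⟩
    have hle : U' ≤ U := by
      intro x hx
      obtain ⟨u, -, rfl⟩ := (hU' x).mp hx
      exact u.2
    have hinv' : ∀ g, ∀ x ∈ U', ρ g x ∈ U' := by
      intro g x hx
      obtain ⟨u, hu, rfl⟩ := (hU' x).mp hx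
      rw [hU']
      refine ⟨res g u, ?_, rfl⟩
      rw [← hB, ← hM, ← hr]
      exact hW g _ hu
    rcases hmin U' hle hinv' with h | h
    · left
      rw [eq_bot_iff]
      intro w hw
      obtain ⟨u, rfl⟩ := φ.surjective w
      have h1 : (u : V) ∈ U' := (hU' _).mpr ⟨u, hw, rfl⟩
      rw [h, Submodule.mem_bot] at h1
      have h2 : u = 0 := Subtype.ext h1
      rw [h2, map_zero, Submodule.mem_bot]
    · right
      rw [eq_top_iff]
      intro w _
      obtain ⟨u, rfl⟩ := φ.surjective w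
      have h1 : (u : V) ∈ U' := by
        rw [h]
        exact u.2
      obtain ⟨u', hu', hu''⟩ := (hU' _).mp h1
      have h2 : u' = u := Subtype.ext hu''
      rwa [h2] at hu'

/-- Let G be a finite group that occurs as a Frobenius complement. Then G has a faithful irreducible representation over an algebraic closure of the rationals in which no non-identity element of G has 1 as an eigenvalue: there are n ≥ 1 and an injective homomorphism ρ from G to GL(n) over that field, with no invariant subspace other than 0 and the whole space, such that for g ≠ 1 the only vector fixed by ρ(g) is 0. -/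
theorem result {G : Type*} [Group G] [Finite G]
    (hFC : ∃ (L : Type) (_ : Group L) (_ : Finite L) (H : Subgroup L), Cfsg.IsFrobeniusComplement H ∧ Nonempty (G ≃* H)) :
    ∃ (n : ℕ) (ρ : G →* GL (Fin n) (AlgebraicClosure ℚ)), 0 < n ∧ Function.Injective ρ ∧
      (∀ W : Submodule (AlgebraicClosure ℚ) (Fin n → AlgebraicClosure ℚ),
        (∀ g : G, ∀ w ∈ W, ((ρ g : GL (Fin n) (AlgebraicClosure ℚ)) : Matrix (Fin n) (Fin n) (AlgebraicClosure ℚ)).mulVec w ∈ W) → W = ⊥ ∨ W = ⊤) ∧
      ∀ g : G, g ≠ 1 → ∀ v : Fin n → AlgebraicClosure ℚ,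
        ((ρ g : GL (Fin n) (AlgebraicClosure ℚ)) : Matrix (Fin n) (Fin n) (AlgebraicClosure ℚ)).mulVec v = v → v = 0 := by
  classical
  obtain ⟨L, iG, iF, H, hH, ⟨e⟩⟩ := hFC
  haveI : Nontrivial H := (Subgroup.nontrivial_iff_ne_bot _).mpr hH.1
  haveI : Nontrivial G := e.toEquiv.nontrivial
  obtain ⟨p, hp, W, i1, m1, n1, ρ, hpA, hρ⟩ := exists_module_of_complement L H hH e
  have h1 := one_not_mem_rat p hpA ρ hρ
  obtain ⟨W', i2, m2, f2, n2, ρ', hρ'⟩ := exists_rat_rep h1
  obtain ⟨ρ'', hρ''⟩ := exists_fpf_basechange (K := AlgebraicClosure ℚ) ρ' hρ'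
  haveI : Nontrivial (TensorProduct ℚ (AlgebraicClosure ℚ) W') := by
    apply Module.nontrivial_of_finrank_pos (R := AlgebraicClosure ℚ)
    rw [Module.finrank_baseChange]
    exact Module.finrank_pos
  obtain ⟨U, hU, hinv, hmin⟩ := exists_minimal_invariant ρ''
  exact matrix_form ρ'' hρ'' U hU hinv hmin

end Cfsg.Agent.S3357
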