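import Cfsg.Statements.S3358
import Cfsg.Agent.Lib.Coprime.ZGroupPres
import Cfsg.Agent.Lib.Frobenius.Types.Solv

set_option autoImplicit false
open Cfsg

namespace Cfsg.Agent.S3358

/-- Structure of solvable Frobenius complements. Let G be a finite solvable group that occurs as a Frobenius complement. Then G has a normal subgroup G₀ such that G/G₀ is isomorphic to a subgroup of Sym(4) (G₀ is the kernel of a homomorphism to Sym(4)), all Sylow subgroups of G₀ are cyclic, and G₀ has a presentation ⟨x, y | x^n = 1, y^m = 1, x⁻¹ y x = y^r⟩ with n, m ≥ 1, gcd(r − 1, m) = gcd(n, m) = 1 and r^(n/n′) ≡ 1 (mod m), where n′ is the product of the distinct primes dividing n. -/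
theorem result {G : Type*} [Group G] [Finite G] (hsol : Group.IsSolvable G)
    (hFC : ∃ (L : Type) (_ : Group L) (_ : Finite L) (H : Subgroup L), Cfsg.IsFrobeniusComplement H ∧ Nonempty (G ≃* H)) :
    ∃ G₀ : Subgroup G, G₀.Normal ∧
      (∃ f : G →* Equiv.Perm (Fin 4), f.ker = G₀) ∧
      (∀ (p : ℕ) [Fact p.Prime] (P : Sylow p G₀), IsCyclic P) ∧
      ∃ n m r : ℕ, 0 < n ∧ 0 < m ∧ Nat.Coprime (r - 1) m ∧ Nat.Coprime n m ∧ 1 ≤ r ∧
        r ^ (n / ∏ p ∈ n.primeFactors, p) % m = 1 % m ∧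
        Nonempty (G₀ ≃* PresentedGroup
          ({FreeGroup.of (0 : Fin 2) ^ n, FreeGroup.of (1 : Fin 2) ^ m,
            (FreeGroup.of (0 : Fin 2))⁻¹ * FreeGroup.of 1 * FreeGroup.of 0 * (FreeGroup.of (1 : Fin 2) ^ r)⁻¹} :
            Set (FreeGroup (Fin 2)))) := by
  classical
  obtain ⟨L, _, _, H, hH, ⟨e⟩⟩ := hFC
  have hA : Cfsg.Agent.Lib.Frobenius.Zass.FpfAct G :=
    (Cfsg.Agent.Lib.Frobenius.Zass.FpfAct.of_complement hH).of_injective e.toMonoidHom e.injective
  obtain ⟨N, hn, hc, ha⟩ := Cfsg.Agent.Lib.Frobenius.Types.exists_adm hA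
  have hcyc : ∀ (p : ℕ) [Fact p.Prime] (P : Sylow p N), IsCyclic P :=
    (Cfsg.Agent.Lib.Frobenius.Types.cycSub_iff N).mpr hc
  haveI hZ : IsZGroup N := ⟨fun p hp P => by
    haveI := Fact.mk hp
    exact hcyc p P⟩
  refine ⟨N, hn, ?_, hcyc, ?_⟩
  · rcases ha with rfl | ⟨f, hf, rfl⟩ | ⟨f, hf, rfl⟩ | ⟨f, hf, rfl⟩ | ⟨f, hf, rfl⟩ | ⟨f, hf, rfl⟩
    · exact ⟨1, MonoidHom.ker_one⟩
    · have hcard : Nat.card (DihedralGroup 2) = Fintype.card (Fin 4) := by
        rw [DihedralGroup.nat_card]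
        simp
      obtain ⟨eq⟩ : Nonempty (DihedralGroup 2 ≃ Fin 4) := by
        haveI : Fintype (DihedralGroup 2) := Fintype.ofFinite _
        exact ⟨Fintype.equivOfCardEq (by rw [← Nat.card_eq_fintype_card, hcard])⟩
      let j : DihedralGroup 2 →* Equiv.Perm (Fin 4) :=
        (Equiv.permCongrHom eq).toMonoidHom.comp (MulAction.toPermHom (DihedralGroup 2) (DihedralGroup 2))
      have hj : Function.Injective j := by
        intro a b hab
        have h1 : MulAction.toPermHom (DihedralGroup 2) (DihedralGroup 2) a =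
            MulAction.toPermHom (DihedralGroup 2) (DihedralGroup 2) b :=
          (Equiv.permCongrHom eq).injective hab
        have h2 := congrArg (fun s => s 1) h1
        simpa using h2
      refine ⟨j.comp f, ?_⟩
      ext g
      simp only [MonoidHom.mem_ker, MonoidHom.comp_apply]
      exact map_eq_one_iff j hj
    · refine ⟨(alternatingGroup (Fin 4)).subtype.comp f, ?_⟩
      ext g
      simp only [MonoidHom.mem_ker, MonoidHom.comp_apply]
      exact map_eq_one_iff _ (Subgroup.subtype_injective _)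
    · exact ⟨f, rfl⟩
    · exact absurd (solvable_of_surjective hf) Cfsg.Agent.Lib.Coprime.ZGroupPres.not_solvable_a5
    · exact absurd (solvable_of_surjective hf) (Equiv.Perm.fin_5_not_solvable)
  · exact Cfsg.Agent.Lib.Coprime.ZGroupPres.exists_presentation
      (fun hx hy hne h => (hA.subgroup N).pq hx hy hne h)

end Cfsg.Agent.S3358
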