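import Cfsg.Statements.S3362
import Cfsg.Agent.Lib.Compute.PermCert

set_option autoImplicit false
open Cfsg

namespace Cfsg.Agent.S3362

open Cfsg.Agent.Lib.Compute.PermCert

/-- Level 0 of the stabilizer chain. -/
def lv0 : Level :=
  { base := 2, gens := [⟨171139535290896, 186605193351696⟩, ⟨92615224025616, 148868997747216⟩, ⟨183942805598736, 153208536773136⟩, ⟨80841396400656, 95285065495056⟩, ⟨164327252963856, 110731096240656⟩, ⟨167926364897811, 167926364897811⟩, ⟨148896472117761, 148896472117761⟩, ⟨114875801284896, 114875801284896⟩],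
    gwords := [[], [], [], [], [], [], [], []],
    trans := [⟨2, ⟨205163983024656, 205163983024656⟩, []⟩,
      ⟨1, ⟨114875801284896, 114875801284896⟩, [14]⟩,
      ⟨0, ⟨171143312191521, 186601419583746⟩, [12,14]⟩,
      ⟨3, ⟨203987229082401, 200838984507651⟩, [10,12,14]⟩,
      ⟨4, ⟨169769507816481, 117336514384131⟩, [0,10,12,14]⟩,
      ⟨5, ⟨188533650425121, 188465700749571⟩, [1,10,12,14]⟩,
      ⟨6, ⟨92056794367521, 166598605709571⟩, [2,10,12,14]⟩,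
      ⟨9, ⟨147692243781921, 92545448640771⟩, [3,10,12,14]⟩,
      ⟨7, ⟨57839073101601, 132577678242051⟩, [2,0,10,12,14]⟩,
      ⟨10, ⟨113474522516001, 72940011426051⟩, [3,0,10,12,14]⟩,
      ⟨11, ⟨183088369306401, 47799939387651⟩, [7,0,10,12,14]⟩,
      ⟨8, ⟨198433230686241, 198472963346691⟩, [9,0,10,12,14]⟩] }

/-- Level 1 of the stabilizer chain. -/
def lv1 : Level :=
  { base := 1, gens := [⟨171139535290896, 186605193351696⟩, ⟨92615224025616, 148868997747216⟩, ⟨183942805598736, 153208536773136⟩, ⟨80841396400656, 95285065495056⟩, ⟨164327252963856, 110731096240656⟩, ⟨167926364897811, 167926364897811⟩, ⟨148896472117761, 148896472117761⟩],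
    gwords := [[0], [2], [4], [6], [8], [10], [12]],
    trans := [⟨1, ⟨205163983024656, 205163983024656⟩, []⟩,
      ⟨0, ⟨148896472117761, 148896472117761⟩, [12]⟩,
      ⟨3, ⟨183040958792241, 118230153957891⟩, [10,12]⟩,
      ⟨4, ⟨201805098451521, 202763917152771⟩, [0,10,12]⟩,
      ⟨5, ⟨167587380134481, 148135453475331⟩, [1,10,12]⟩,
      ⟨6, ⟨80967474020961, 133750674129411⟩, [2,10,12]⟩,
      ⟨9, ⟨126745973490321, 92456560992771⟩, [3,10,12]⟩,
      ⟨7, ⟨99731613680241, 169823371289091⟩, [2,0,10,12]⟩,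
      ⟨10, ⟨145510113149601, 71861356098051⟩, [3,0,10,12]⟩,
      ⟨11, ⟨93005540688561, 24839016043011⟩, [7,0,10,12]⟩,
      ⟨8, ⟨115811565568641, 110644726092291⟩, [9,0,10,12]⟩] }

/-- Level 2 of the stabilizer chain. -/
def lv2 : Level :=
  { base := 0, gens := [⟨167926364897811, 167926364897811⟩, ⟨183942805598736, 153208536773136⟩, ⟨92615224025616, 148868997747216⟩],
    gwords := [[10], [4], [2]],
    trans := [⟨0, ⟨205163983024656, 205163983024656⟩, []⟩,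
      ⟨3, ⟨167926364897811, 167926364897811⟩, [0]⟩,
      ⟨6, ⟨65234555830806, 183022525133331⟩, [4,0]⟩,
      ⟨9, ⟨111631379595801, 92399974380051⟩, [5,0]⟩,
      ⟨7, ⟨10259479802391, 129355902104091⟩, [0,4,0]⟩,
      ⟨5, ⟨64417122746901, 99593446994451⟩, [2,4,0]⟩,
      ⟨4, ⟨62025157444116, 110545368822291⟩, [3,4,0]⟩,
      ⟨11, ⟨129355902104091, 10259479802391⟩, [0,5,0]⟩,
      ⟨8, ⟨5045168189976, 113869654209051⟩, [2,0,4,0]⟩,
      ⟨10, ⟨5950806438426, 88542523175451⟩, [3,0,4,0]⟩] }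

/-- Level 3 of the stabilizer chain. -/
def lv3 : Level :=
  { base := 3, gens := [⟨92615224025616, 148868997747216⟩, ⟨183942805598736, 153208536773136⟩, ⟨80841396400656, 95285065495056⟩],
    gwords := [[4], [2], [1,2,0]],
    trans := [⟨3, ⟨205163983024656, 205163983024656⟩, []⟩,
      ⟨6, ⟨92615224025616, 148868997747216⟩, [0]⟩,
      ⟨9, ⟨148868997747216, 92615224025616⟩, [1]⟩,
      ⟨5, ⟨165177810506256, 97532167754256⟩, [2,0]⟩,
      ⟨4, ⟨115692283773456, 128266436579856⟩, [3,0]⟩,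
      ⟨10, ⟨201436522979856, 197322160509456⟩, [4,0]⟩,
      ⟨8, ⟨135469351600656, 182878491415056⟩, [5,0]⟩,
      ⟨11, ⟨109501441487376, 60015914754576⟩, [1,2,0]⟩,
      ⟨7, ⟨184951145853456, 117966517015056⟩, [5,2,0]⟩] }

/-- Level 4 of the stabilizer chain. -/
def lv4 : Level :=
  { base := 4, gens := [⟨183942805598736, 153208536773136⟩, ⟨80841396400656, 95285065495056⟩],
    gwords := [[2], [4]],
    trans := [⟨4, ⟨205163983024656, 205163983024656⟩, []⟩,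
      ⟨6, ⟨183942805598736, 153208536773136⟩, [0]⟩,
      ⟨9, ⟨153208536773136, 183942805598736⟩, [1]⟩,
      ⟨7, ⟨80841396400656, 95285065495056⟩, [2]⟩,
      ⟨11, ⟨95285065495056, 80841396400656⟩, [3]⟩,
      ⟨5, ⟨132399770186256, 132399770186256⟩, [0,0]⟩,
      ⟨10, ⟨164327252963856, 110731096240656⟩, [2,0]⟩,
      ⟨8, ⟨110731096240656, 164327252963856⟩, [3,0]⟩] }



/-- The chain is correct. -/
theorem hchk : chainCheck 4 15 12 [lv0, lv1, lv2, lv3, lv4] = true := by decide +kernel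

theorem hmap0 : List.map (permOf 4 15 12) lv0.gens = [
      Equiv.swap (3 : Fin 12) 5 * Equiv.swap (3 : Fin 12) 4 * Equiv.swap (6 : Fin 12) 8 * Equiv.swap (6 : Fin 12) 7 * Equiv.swap (9 : Fin 12) 11 * Equiv.swap (9 : Fin 12) 10,
      Equiv.swap (3 : Fin 12) 9 * Equiv.swap (3 : Fin 12) 6 * Equiv.swap (4 : Fin 12) 10 * Equiv.swap (4 : Fin 12) 7 * Equiv.swap (5 : Fin 12) 11 * Equiv.swap (5 : Fin 12) 8,
      Equiv.swap (4 : Fin 12) 9 * Equiv.swap (4 : Fin 12) 5 * Equiv.swap (4 : Fin 12) 6 * Equiv.swap (7 : Fin 12) 10 * Equiv.swap (7 : Fin 12) 11 * Equiv.swap (7 : Fin 12) 8,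
      Equiv.swap (4 : Fin 12) 11 * Equiv.swap (4 : Fin 12) 5 * Equiv.swap (4 : Fin 12) 7 * Equiv.swap (6 : Fin 12) 8 * Equiv.swap (6 : Fin 12) 9 * Equiv.swap (6 : Fin 12) 10,
      Equiv.swap (4 : Fin 12) 8 * Equiv.swap (4 : Fin 12) 5 * Equiv.swap (4 : Fin 12) 10 * Equiv.swap (6 : Fin 12) 7 * Equiv.swap (6 : Fin 12) 9 * Equiv.swap (6 : Fin 12) 11,
      Equiv.swap (0 : Fin 12) 3 * Equiv.swap (6 : Fin 12) 7 * Equiv.swap (8 : Fin 12) 10 * Equiv.swap (9 : Fin 12) 11,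
      Equiv.swap (0 : Fin 12) 1 * Equiv.swap (6 : Fin 12) 9 * Equiv.swap (7 : Fin 12) 10 * Equiv.swap (8 : Fin 12) 11,
      Equiv.swap (1 : Fin 12) 2 * Equiv.swap (6 : Fin 12) 11 * Equiv.swap (7 : Fin 12) 9 * Equiv.swap (8 : Fin 12) 10] := by
  refine map_permOf_cons (by decide +kernel) (by decide +kernel) ?_
  refine map_permOf_cons (by decide +kernel) (by decide +kernel) ?_
  refine map_permOf_cons (by decide +kernel) (by decide +kernel) ?_
  refine map_permOf_cons (by decide +kernel) (by decide +kernel) ?_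
  refine map_permOf_cons (by decide +kernel) (by decide +kernel) ?_
  refine map_permOf_cons (by decide +kernel) (by decide +kernel) ?_
  refine map_permOf_cons (by decide +kernel) (by decide +kernel) ?_
  refine map_permOf_cons (by decide +kernel) (by decide +kernel) ?_
  exact map_permOf_nil

theorem hmap1 : List.map (permOf 4 15 12) lv1.gens = [
      Equiv.swap (3 : Fin 12) 5 * Equiv.swap (3 : Fin 12) 4 * Equiv.swap (6 : Fin 12) 8 * Equiv.swap (6 : Fin 12) 7 * Equiv.swap (9 : Fin 12) 11 * Equiv.swap (9 : Fin 12) 10,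
      Equiv.swap (3 : Fin 12) 9 * Equiv.swap (3 : Fin 12) 6 * Equiv.swap (4 : Fin 12) 10 * Equiv.swap (4 : Fin 12) 7 * Equiv.swap (5 : Fin 12) 11 * Equiv.swap (5 : Fin 12) 8,
      Equiv.swap (4 : Fin 12) 9 * Equiv.swap (4 : Fin 12) 5 * Equiv.swap (4 : Fin 12) 6 * Equiv.swap (7 : Fin 12) 10 * Equiv.swap (7 : Fin 12) 11 * Equiv.swap (7 : Fin 12) 8,
      Equiv.swap (4 : Fin 12) 11 * Equiv.swap (4 : Fin 12) 5 * Equiv.swap (4 : Fin 12) 7 * Equiv.swap (6 : Fin 12) 8 * Equiv.swap (6 : Fin 12) 9 * Equiv.swap (6 : Fin 12) 10,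
      Equiv.swap (4 : Fin 12) 8 * Equiv.swap (4 : Fin 12) 5 * Equiv.swap (4 : Fin 12) 10 * Equiv.swap (6 : Fin 12) 7 * Equiv.swap (6 : Fin 12) 9 * Equiv.swap (6 : Fin 12) 11,
      Equiv.swap (0 : Fin 12) 3 * Equiv.swap (6 : Fin 12) 7 * Equiv.swap (8 : Fin 12) 10 * Equiv.swap (9 : Fin 12) 11,
      Equiv.swap (0 : Fin 12) 1 * Equiv.swap (6 : Fin 12) 9 * Equiv.swap (7 : Fin 12) 10 * Equiv.swap (8 : Fin 12) 11] := by
  refine map_permOf_cons (by decide +kernel) (by decide +kernel) ?_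
  refine map_permOf_cons (by decide +kernel) (by decide +kernel) ?_
  refine map_permOf_cons (by decide +kernel) (by decide +kernel) ?_
  refine map_permOf_cons (by decide +kernel) (by decide +kernel) ?_
  refine map_permOf_cons (by decide +kernel) (by decide +kernel) ?_
  refine map_permOf_cons (by decide +kernel) (by decide +kernel) ?_
  refine map_permOf_cons (by decide +kernel) (by decide +kernel) ?_
  exact map_permOf_nil

/-- An explicit construction of the Mathieu groups of degrees 11 and 12. On the points 0, …, 11 let s = (3 4 5)(6 7 8)(9 10 11), t = (3 6 9)(4 7 10)(5 8 11), u = (4 6 5 9)(7 8 11 10), v = (4 7 5 11)(6 10 9 8), w = (4 10 5 8)(6 11 9 7), x₁ = (0 3)(6 7)(8 10)(9 11), x₂ = (0 1)(6 9)(7 10)(8 11), x₃ = (1 2)(6 11)(7 9)(8 10) (each written as a product of transpositions). Then the group M₁₂ generated by all eight permutations is sharply 5-transitive on the 12 points and has order 95040,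 and the group M₁₁ generated by the first seven has order 7920 and is the stabilizer of the point 2 in M₁₂. -/
theorem result
    (s t u v w x₁ x₂ x₃ : Equiv.Perm (Fin 12))
    (hs : s = Equiv.swap (3 : Fin 12) 5 * Equiv.swap (3 : Fin 12) 4 * Equiv.swap (6 : Fin 12) 8 * Equiv.swap (6 : Fin 12) 7 * Equiv.swap (9 : Fin 12) 11 * Equiv.swap (9 : Fin 12) 10) (ht : t = Equiv.swap (3 : Fin 12) 9 * Equiv.swap (3 : Fin 12) 6 * Equiv.swap (4 : Fin 12) 10 * Equiv.swap (4 : Fin 12) 7 * Equiv.swap (5 : Fin 12) 11 * Equiv.swap (5 : Fin 12) 8)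
    (hu : u = Equiv.swap (4 : Fin 12) 9 * Equiv.swap (4 : Fin 12) 5 * Equiv.swap (4 : Fin 12) 6 * Equiv.swap (7 : Fin 12) 10 * Equiv.swap (7 : Fin 12) 11 * Equiv.swap (7 : Fin 12) 8) (hv : v = Equiv.swap (4 : Fin 12) 11 * Equiv.swap (4 : Fin 12) 5 * Equiv.swap (4 : Fin 12) 7 * Equiv.swap (6 : Fin 12) 8 * Equiv.swap (6 : Fin 12) 9 * Equiv.swap (6 : Fin 12) 10) (hw : w = Equiv.swap (4 : Fin 12) 8 * Equiv.swap (4 : Fin 12) 5 * Equiv.swap (4 : Fin 12) 10 * Equiv.swap (6 : Fin 12) 7 * Equiv.swap (6 : Fin 12) 9 * Equiv.swap (6 : Fin 12) 11)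
    (hx₁ : x₁ = Equiv.swap (0 : Fin 12) 3 * Equiv.swap (6 : Fin 12) 7 * Equiv.swap (8 : Fin 12) 10 * Equiv.swap (9 : Fin 12) 11) (hx₂ : x₂ = Equiv.swap (0 : Fin 12) 1 * Equiv.swap (6 : Fin 12) 9 * Equiv.swap (7 : Fin 12) 10 * Equiv.swap (8 : Fin 12) 11)
    (hx₃ : x₃ = Equiv.swap (1 : Fin 12) 2 * Equiv.swap (6 : Fin 12) 11 * Equiv.swap (7 : Fin 12) 9 * Equiv.swap (8 : Fin 12) 10)
    (M₁₂ M₁₁ : Subgroup (Equiv.Perm (Fin 12))) (hM₁₂ : M₁₂ = Subgroup.closure {s, t, u, v, w, x₁, x₂, x₃})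
    (hM₁₁ : M₁₁ = Subgroup.closure {s, t, u, v, w, x₁, x₂}) :
    MulAction.IsMultiplyPretransitive M₁₂ (Fin 12) 5 ∧ (∀ y : Fin 5 ↪ Fin 12, MulAction.stabilizer M₁₂ y = ⊥) ∧
    Nat.card M₁₂ = 95040 ∧ Nat.card M₁₁ = 7920 ∧
    M₁₁ = M₁₂ ⊓ MulAction.stabilizer (Equiv.Perm (Fin 12)) (2 : Fin 12) := by
  subst hs ht hu hv hw hx₁ hx₂ hx₃ hM₁₂ hM₁₁
  have hc1 : chainCheck 4 15 12 [lv1, lv2, lv3, lv4] = true := chainCheck_tail hchk
  have hc2 : chainCheck 4 15 12 [lv2, lv3, lv4] = true := chainCheck_tail hc1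
  have hc3 : chainCheck 4 15 12 [lv3, lv4] = true := chainCheck_tail hc2
  have hc4 : chainCheck 4 15 12 [lv4] = true := chainCheck_tail hc3
  have hM12 : chainGroup 4 15 12 [lv0, lv1, lv2, lv3, lv4] = Subgroup.closure {
      Equiv.swap (3 : Fin 12) 5 * Equiv.swap (3 : Fin 12) 4 * Equiv.swap (6 : Fin 12) 8 * Equiv.swap (6 : Fin 12) 7 * Equiv.swap (9 : Fin 12) 11 * Equiv.swap (9 : Fin 12) 10,
      Equiv.swap (3 : Fin 12) 9 * Equiv.swap (3 : Fin 12) 6 * Equiv.swap (4 : Fin 12) 10 * Equiv.swap (4 : Fin 12) 7 * Equiv.swap (5 : Fin 12) 11 * Equiv.swap (5 : Fin 12) 8,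
      Equiv.swap (4 : Fin 12) 9 * Equiv.swap (4 : Fin 12) 5 * Equiv.swap (4 : Fin 12) 6 * Equiv.swap (7 : Fin 12) 10 * Equiv.swap (7 : Fin 12) 11 * Equiv.swap (7 : Fin 12) 8,
      Equiv.swap (4 : Fin 12) 11 * Equiv.swap (4 : Fin 12) 5 * Equiv.swap (4 : Fin 12) 7 * Equiv.swap (6 : Fin 12) 8 * Equiv.swap (6 : Fin 12) 9 * Equiv.swap (6 : Fin 12) 10,
      Equiv.swap (4 : Fin 12) 8 * Equiv.swap (4 : Fin 12) 5 * Equiv.swap (4 : Fin 12) 10 * Equiv.swap (6 : Fin 12) 7 * Equiv.swap (6 : Fin 12) 9 * Equiv.swap (6 : Fin 12) 11,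
      Equiv.swap (0 : Fin 12) 3 * Equiv.swap (6 : Fin 12) 7 * Equiv.swap (8 : Fin 12) 10 * Equiv.swap (9 : Fin 12) 11,
      Equiv.swap (0 : Fin 12) 1 * Equiv.swap (6 : Fin 12) 9 * Equiv.swap (7 : Fin 12) 10 * Equiv.swap (8 : Fin 12) 11,
      Equiv.swap (1 : Fin 12) 2 * Equiv.swap (6 : Fin 12) 11 * Equiv.swap (7 : Fin 12) 9 * Equiv.swap (8 : Fin 12) 10} :=
    genGroup_of_map hmap0 (fun x => by simp)
  have hM11 : chainGroup 4 15 12 [lv1, lv2, lv3, lv4] = Subgroup.closure {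
      Equiv.swap (3 : Fin 12) 5 * Equiv.swap (3 : Fin 12) 4 * Equiv.swap (6 : Fin 12) 8 * Equiv.swap (6 : Fin 12) 7 * Equiv.swap (9 : Fin 12) 11 * Equiv.swap (9 : Fin 12) 10,
      Equiv.swap (3 : Fin 12) 9 * Equiv.swap (3 : Fin 12) 6 * Equiv.swap (4 : Fin 12) 10 * Equiv.swap (4 : Fin 12) 7 * Equiv.swap (5 : Fin 12) 11 * Equiv.swap (5 : Fin 12) 8,
      Equiv.swap (4 : Fin 12) 9 * Equiv.swap (4 : Fin 12) 5 * Equiv.swap (4 : Fin 12) 6 * Equiv.swap (7 : Fin 12) 10 * Equiv.swap (7 : Fin 12) 11 * Equiv.swap (7 : Fin 12) 8,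
      Equiv.swap (4 : Fin 12) 11 * Equiv.swap (4 : Fin 12) 5 * Equiv.swap (4 : Fin 12) 7 * Equiv.swap (6 : Fin 12) 8 * Equiv.swap (6 : Fin 12) 9 * Equiv.swap (6 : Fin 12) 10,
      Equiv.swap (4 : Fin 12) 8 * Equiv.swap (4 : Fin 12) 5 * Equiv.swap (4 : Fin 12) 10 * Equiv.swap (6 : Fin 12) 7 * Equiv.swap (6 : Fin 12) 9 * Equiv.swap (6 : Fin 12) 11,
      Equiv.swap (0 : Fin 12) 3 * Equiv.swap (6 : Fin 12) 7 * Equiv.swap (8 : Fin 12) 10 * Equiv.swap (9 : Fin 12) 11,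
      Equiv.swap (0 : Fin 12) 1 * Equiv.swap (6 : Fin 12) 9 * Equiv.swap (7 : Fin 12) 10 * Equiv.swap (8 : Fin 12) 11} :=
    genGroup_of_map hmap1 (fun x => by simp)
  rw [← hM12, ← hM11]
  have h0 := chain_stab hchk (l := lv0) (ls := [lv1, lv2, lv3, lv4]) (by decide)
  have h1 := chain_stab hc1 (l := lv1) (ls := [lv2, lv3, lv4]) (by decide)
  have h2 := chain_stab hc2 (l := lv2) (ls := [lv3, lv4]) (by decide)
  have h3 := chain_stab hc3 (l := lv3) (ls := [lv4]) (by decide)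
  have h4 := chain_stab hc4 (l := lv4) (ls := []) (by decide)
  have hbot : chainGroup 4 15 12 [] = ⊥ := by simp [chainGroup, nextGens, genGroup]
  have hcard0 : Nat.card (chainGroup 4 15 12 [lv0, lv1, lv2, lv3, lv4]) = 95040 := chain_card hchk
  have hcard1 : Nat.card (chainGroup 4 15 12 [lv1, lv2, lv3, lv4]) = 7920 := chain_card hc1
  have hy : Function.Injective (![2, 1, 0, 3, 4] : Fin 5 → Fin 12) := by decide
  have hcardE : Nat.card (chainGroup 4 15 12 [lv0, lv1, lv2, lv3, lv4]) = Nat.card (Fin 5 ↪ Fin 12) := by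
    rw [hcard0, Nat.card_eq_fintype_card, Fintype.card_embedding_eq]
    simp [Nat.descFactorial]
  have hstab : MulAction.stabilizer (chainGroup 4 15 12 [lv0, lv1, lv2, lv3, lv4]) (⟨_, hy⟩ : Fin 5 ↪ Fin 12) = ⊥ := by
    rw [Subgroup.eq_bot_iff_forall]
    rintro ⟨g, hg⟩ hgy
    rw [MulAction.mem_stabilizer_iff] at hgy
    have hfix : ∀ i : Fin 5, g ((![2, 1, 0, 3, 4] : Fin 5 → Fin 12) i) = (![2, 1, 0, 3, 4] : Fin 5 → Fin 12) i := by
      intro i
      exact congrArg (fun f : Fin 5 ↪ Fin 12 => f i) hgy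
    have hg1 : g ∈ chainGroup 4 15 12 [lv1, lv2, lv3, lv4] := by
      rw [← h0]; exact ⟨hg, hfix 0⟩
    have hg2 : g ∈ chainGroup 4 15 12 [lv2, lv3, lv4] := by
      rw [← h1]; exact ⟨hg1, hfix 1⟩
    have hg3 : g ∈ chainGroup 4 15 12 [lv3, lv4] := by
      rw [← h2]; exact ⟨hg2, hfix 2⟩
    have hg4 : g ∈ chainGroup 4 15 12 [lv4] := by
      rw [← h3]; exact ⟨hg3, hfix 3⟩
    have hg5 : g ∈ chainGroup 4 15 12 [] := by
      rw [← h4]; exact ⟨hg4, hfix 4⟩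
    rw [hbot, Subgroup.mem_bot] at hg5
    exact Subtype.ext hg5
  obtain ⟨ht, hs⟩ := sharply_of_card _ hstab hcardE
  refine ⟨ht, hs, hcard0, hcard1, ?_⟩
  exact h0.symm

end Cfsg.Agent.S3362
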