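import Cfsg.Statements.S3370
import Mathlib
import Cfsg.Prelude.Def_CaseTheorems
import Cfsg.Agent.S0016

set_option autoImplicit false
open Cfsg

namespace Cfsg.Agent.S3370


section numbers

lemma oddz (c : ℤ) (hc : Even c) (k : ℕ) : ∃ s : ℤ, Odd s ∧ (c + 1) ^ (2 * k + 1) = c * s + 1 := by
  induction k with
  | zero => exact ⟨1, odd_one, by ring⟩
  | succ k ih =>
    obtain ⟨s, hs, h⟩ := ih
    refine ⟨(c + 1) ^ 2 * s + c + 2, ?_, ?_⟩
    · have h1 : Odd (c + 1) := hc.add_one
      have h2 : Odd ((c + 1) ^ 2 * s) := (h1.pow).mul hs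
      have h3 : Even (c + 2) := hc.add (by decide)
      rw [add_assoc]
      exact h2.add_even h3
    · have : (c + 1) ^ (2 * (k + 1) + 1) = (c + 1) ^ 2 * (c + 1) ^ (2 * k + 1) := by ring
      rw [this, h]; ring

lemma odd_dvd_two_pow (s : ℤ) (hs : Odd s) (n : ℕ) (h : s ∣ 2 ^ n) : s = 1 ∨ s = -1 := by
  have h1 : s.natAbs ∣ 2 ^ n := by
    have := Int.natAbs_dvd_natAbs.2 h
    simpa [Int.natAbs_pow] using this
  obtain ⟨i, hi, hi2⟩ := (Nat.dvd_prime_pow Nat.prime_two).1 h1
  have h2 : Odd s.natAbs := Int.natAbs_odd.2 hs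
  have h3 : i = 0 := by
    by_contra h0
    rw [hi2] at h2
    exact (Nat.not_even_iff_odd.2 h2) (even_two.pow_of_ne_zero h0)
  rw [h3, pow_zero] at hi2
  exact Int.natAbs_eq_iff.1 (by simpa using hi2)

/-- `R1`: `p ^ j + 1 = 2 ^ n` forces `j = 1`. -/
lemma r1 (p j n : ℕ) (hp : 3 ≤ p) (hpodd : Odd p) (hj : 1 ≤ j) (h : p ^ j + 1 = 2 ^ n) : j = 1 := by
  rcases Nat.even_or_odd j with hje | hjo
  · exfalso
    obtain ⟨m, rfl⟩ := hje
    have hm : p ^ (m + m) = (p ^ m) ^ 2 := by ring
    have hodd : Odd (p ^ m) := hpodd.pow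
    obtain ⟨t, ht⟩ := hodd
    have hn : n ≠ 0 := by
      rintro rfl
      have : 0 < p ^ (m + m) := by positivity
      omega
    have hn1 : n ≠ 1 := by
      rintro rfl
      have : 1 < p ^ (m + m) := Nat.one_lt_pow (by omega) (by omega)
      omega
    obtain ⟨l, rfl⟩ : ∃ l, n = l + 2 := ⟨n - 2, by omega⟩
    rw [hm, ht] at h
    have h4 : 2 ^ (l + 2) = 4 * 2 ^ l := by ring
    rw [h4] at h
    have h5 : (2 * t + 1) ^ 2 + 1 = 4 * (t ^ 2 + t) + 2 := by ring
    rw [h5] at h
    omega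
  · obtain ⟨k, rfl⟩ := hjo
    obtain ⟨s, hs, hk⟩ := oddz (-(p : ℤ) - 1) (by
      have : Even ((p : ℤ) + 1) := by
        have := hpodd.add_one
        exact_mod_cast this
      have h2 := this.neg
      have : -(p : ℤ) - 1 = -((p : ℤ) + 1) := by ring
      rw [this]; exact h2) k
    have e1 : (-(p : ℤ) - 1 + 1) = -(p : ℤ) := by ring
    rw [e1, Odd.neg_pow ⟨k, rfl⟩] at hk
    have h2 : ((p : ℤ) + 1) * s = 2 ^ n := by
      have : ((p : ℤ) ^ (2 * k + 1) + 1) = 2 ^ n := by exact_mod_cast h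
      rw [← this]
      linear_combination hk
    have hsd : s ∣ 2 ^ n := ⟨(p : ℤ) + 1, by rw [← h2]; ring⟩
    have hpos : (0 : ℤ) < (p : ℤ) + 1 := by positivity
    have hs1 : s = 1 := by
      rcases odd_dvd_two_pow s hs n hsd with h1 | h1
      · exact h1
      · exfalso
        rw [h1] at h2
        have : (0 : ℤ) < 2 ^ n := by positivity
        linarith
    rw [hs1] at h2
    have h3 : p ^ (2 * k + 1) + 1 = p + 1 := by
      rw [h]
      have : ((2 ^ n : ℕ) : ℤ) = ((p + 1 : ℕ) : ℤ) := by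
        push_cast
        linarith
      exact_mod_cast this
    have h4 : p ^ (2 * k + 1) = p ^ 1 := by rw [pow_one]; omega
    have := Nat.pow_right_injective (by omega : 2 ≤ p) h4
    exact this

/-- `R2`. -/
lemma r2 (q n j : ℕ) (hq : q.Prime) (hq3 : 3 ≤ q) (hqodd : Odd q) (hn : 1 ≤ n) (h : q ^ n = 2 ^ j + 1) :
    n = 1 ∨ (q = 3 ∧ n = 2) := by
  rcases Nat.even_or_odd n with hne | hno
  · right
    obtain ⟨m, rfl⟩ := hne
    have hm1 : 1 ≤ m := by omega
    have hx : 3 ≤ q ^ m := le_trans hq3 (Nat.le_self_pow (by omega) q)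
    obtain ⟨y, hy⟩ : ∃ y, q ^ m = y + 1 := ⟨q ^ m - 1, by omega⟩
    have hmul : y * (y + 2) = 2 ^ j := by
      have : q ^ (m + m) = (q ^ m) ^ 2 := by ring
      rw [this, hy] at h
      nlinarith
    obtain ⟨a, _, ha⟩ := (Nat.dvd_prime_pow Nat.prime_two).1 (⟨y + 2, hmul.symm⟩ : y ∣ 2 ^ j)
    obtain ⟨b, _, hb⟩ := (Nat.dvd_prime_pow Nat.prime_two).1 (⟨y, by rw [← hmul]; ring⟩ : y + 2 ∣ 2 ^ j)
    have hy2 : 2 ≤ y := by omega
    have hb2 : 2 ≤ b := by
      by_contra hb'
      have : b = 0 ∨ b = 1 := by omega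
      rcases this with rfl | rfl <;> simp at hb <;> omega
    have hy_eq : y = 2 := by
      by_contra hne
      have ha2 : 2 ≤ a := by
        by_contra ha'
        have : a = 0 ∨ a = 1 := by omega
        rcases this with rfl | rfl <;> simp at ha <;> omega
      obtain ⟨a', rfl⟩ : ∃ a', a = a' + 2 := ⟨a - 2, by omega⟩
      obtain ⟨b', rfl⟩ : ∃ b', b = b' + 2 := ⟨b - 2, by omega⟩
      have e1 : 2 ^ (a' + 2) = 4 * 2 ^ a' := by ring
      have e2 : 2 ^ (b' + 2) = 4 * 2 ^ b' := by ring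
      omega
    have h3 : q ^ m = 3 := by omega
    have hq3' : q = 3 := by
      have : q ∣ 3 := by
        rw [← h3]
        exact dvd_pow_self q (by omega)
      exact (Nat.prime_dvd_prime_iff_eq hq Nat.prime_three).1 this
    subst hq3'
    have hm : m = 1 := by
      have : 3 ^ m = 3 ^ 1 := by rw [h3]; rfl
      exact Nat.pow_right_injective (by omega : 2 ≤ 3) this
    exact ⟨rfl, by omega⟩
  · left
    obtain ⟨k, rfl⟩ := hno
    obtain ⟨s, hs, hk⟩ := oddz ((q : ℤ) - 1) (by
      have : Even ((q : ℤ) + 1) := by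
        have := hqodd.add_one
        exact_mod_cast this
      have h2 : (q : ℤ) - 1 = (q : ℤ) + 1 - 2 := by ring
      rw [h2]
      exact this.sub (by decide)) k
    have e1 : ((q : ℤ) - 1 + 1) = (q : ℤ) := by ring
    rw [e1] at hk
    have h2 : ((q : ℤ) - 1) * s = 2 ^ j := by
      have : ((q : ℤ) ^ (2 * k + 1)) = 2 ^ j + 1 := by exact_mod_cast h
      linarith
    have hsd : s ∣ 2 ^ j := ⟨(q : ℤ) - 1, by rw [← h2]; ring⟩
    have hpos : (0 : ℤ) < (q : ℤ) - 1 := by
      have : (3 : ℤ) ≤ q := by exact_mod_cast hq3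
      linarith
    have hs1 : s = 1 := by
      rcases odd_dvd_two_pow s hs j hsd with h1 | h1
      · exact h1
      · exfalso
        rw [h1] at h2
        have : (0 : ℤ) < 2 ^ j := by positivity
        linarith
    rw [hs1] at h2
    have h3 : q ^ (2 * k + 1) = q ^ 1 := by
      have : ((q ^ (2 * k + 1) : ℕ) : ℤ) = ((q ^ 1 : ℕ) : ℤ) := by
        push_cast
        rw [hk, hs1]
        ring
      exact_mod_cast this
    exact Nat.pow_right_injective (by omega : 2 ≤ q) h3

end numbers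



section action

variable {q : ℕ} [Fact q.Prime] {V : Type*} [AddCommGroup V] [Module (ZMod q) V] [Finite V]
  {G : Type*} [Group G] [Finite G]

/-- The permutation action. -/
@[reducible] def act (ρ : G →* (V ≃ₗ[ZMod q] V)) : MulAction G V where
  smul g v := ρ g v
  one_smul v := by
    change ρ 1 v = v
    simp
  mul_smul g h v := by
    change ρ (g * h) v = ρ g (ρ h v)
    simp

lemma card_ne_zero_sub (V : Type*) [AddCommGroup V] [Finite V] :
    Nat.card {w : V // w ≠ 0} = Nat.card V - 1 := by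
  classical
  have := Fintype.ofFinite V
  rw [Nat.card_eq_fintype_card, Nat.card_eq_fintype_card, Fintype.card_subtype_compl]
  simp

/-- Orbit-stabilizer. -/
lemma card_orbit (ρ : G →* (V ≃ₗ[ZMod q] V))
    (htrans : ∀ v w : V, v ≠ 0 → w ≠ 0 → ∃ g : G, ρ g v = w) (v0 : V) (hv0 : v0 ≠ 0) :
    (Nat.card V - 1) * Nat.card {g : G // ρ g v0 = v0} = Nat.card G := by
  letI := act ρ
  have h := Nat.card_congr (MulAction.orbitProdStabilizerEquivGroup G v0)
  rw [Nat.card_prod] at h
  have hset : MulAction.orbit G v0 = {w : V | w ≠ 0} := by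
    ext w
    constructor
    · rintro ⟨g, rfl⟩
      change ρ g v0 ≠ 0
      simpa using hv0
    · intro hw
      obtain ⟨g, hg⟩ := htrans v0 w hv0 hw
      exact ⟨g, hg⟩
  have horb : Nat.card (MulAction.orbit G v0) = Nat.card V - 1 := by
    rw [← card_ne_zero_sub V]
    exact Nat.card_congr (Equiv.setCongr hset)
  rw [horb] at h
  exact h

/-- The permutation representation. -/
noncomputable def toPerm (ρ : G →* (V ≃ₗ[ZMod q] V)) : G →* Equiv.Perm V where
  toFun g := (ρ g).toEquiv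
  map_one' := by
    ext v
    simp
  map_mul' g h := by
    ext v
    simp

lemma toPerm_injective (ρ : G →* (V ≃ₗ[ZMod q] V)) (hρ : Function.Injective ρ) :
    Function.Injective (toPerm ρ) := by
  intro g h hgh
  apply hρ
  ext v
  exact congrArg (fun e : Equiv.Perm V => e v) hgh

/-- The case `|V| = p + 1`. -/
lemma case_one (ρ : G →* (V ≃ₗ[ZMod q] V)) (hρ : Function.Injective ρ) (p : ℕ) [hp : Fact p.Prime]
    (hG : IsPGroup p G) (hV : Nat.card V = p + 1)
    (hdvd : p ∣ Nat.card G) : Nat.card G = p := by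
  have h1 := Subgroup.card_dvd_of_injective (toPerm ρ) (toPerm_injective ρ hρ)
  rw [Nat.card_perm, hV] at h1
  obtain ⟨k, hk⟩ := IsPGroup.iff_card.1 hG
  have hpp := hp.out
  have hk1 : k ≠ 0 := by
    rintro rfl
    rw [pow_zero] at hk
    rw [hk] at hdvd
    exact hpp.one_lt.ne' (Nat.dvd_one.1 hdvd)
  have hk2 : k < 2 := by
    by_contra hk2
    have h2 : p ^ 2 ∣ (p + 1).factorial := by
      refine Dvd.dvd.trans (pow_dvd_pow p (show 2 ≤ k by omega)) ?_
      rw [← hk]
      exact h1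
    obtain ⟨m, rfl⟩ : ∃ m, p = m + 1 := ⟨p - 1, by have := hpp.one_lt; omega⟩
    rw [Nat.factorial_succ, Nat.factorial_succ, pow_two] at h2
    have h3 : (m + 1) ∣ (m + 1 + 1) * m.factorial := by
      have h4 : (m + 1) * (m + 1) ∣ (m + 1) * ((m + 1 + 1) * m.factorial) := by
        convert h2 using 1
        ring
      exact (Nat.mul_dvd_mul_iff_left (by omega)).1 h4
    rcases (Nat.Prime.dvd_mul hpp).1 h3 with h5 | h5
    · have : m + 1 ∣ 1 := by
        have := (Nat.dvd_sub h5 (dvd_refl (m + 1)))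
        simpa using this
      have h6 := Nat.dvd_one.1 this
      have := hpp.one_lt
      omega
    · have := (hpp.dvd_factorial).1 h5
      omega
  have hk3 : k = 1 := by omega
  rw [hk, hk3, pow_one]

/-- The one-dimensional case. -/
lemma case_two (ρ : G →* (V ≃ₗ[ZMod q] V)) (hρ : Function.Injective ρ)
    (hV : Nat.card V = q) (htrans : ∀ v w : V, v ≠ 0 → w ≠ 0 → ∃ g : G, ρ g v = w)
    (v0 : V) (hv0 : v0 ≠ 0) : IsCyclic G ∧ Nat.card G = q - 1 := by
  classical
  have hq := (Fact.out : q.Prime)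
  haveI : Module.Finite (ZMod q) V := Module.Finite.of_finite
  have hfr : Module.finrank (ZMod q) V = 1 := by
    have h1 := Module.natCard_eq_pow_finrank (K := ZMod q) (V := V)
    rw [hV, Nat.card_zmod] at h1
    have h2 : q ^ 1 = q ^ Module.finrank (ZMod q) V := by rw [pow_one]; exact h1
    exact (Nat.pow_right_injective hq.two_le h2).symm
  have hspan := (finrank_eq_one_iff_of_nonzero' v0 hv0).1 hfr
  choose c hc using fun g : G => hspan (ρ g v0)
  have hinj : ∀ s t : ZMod q, s • v0 = t • v0 → s = t := fun s t h => smul_left_injective _ hv0 h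
  have hc1 : c 1 = 1 := by
    apply hinj
    rw [hc, one_smul]
    simp
  have hcmul : ∀ g h, c (g * h) = c g * c h := by
    intro g h
    apply hinj
    rw [hc, map_mul, LinearEquiv.mul_apply, ← hc h, map_smul, ← hc g, smul_smul, mul_comm]
  let f : G →* ZMod q :=
    { toFun := c
      map_one' := hc1
      map_mul' := hcmul }
  have hf : Function.Injective f := by
    intro g h hgh
    apply hρ
    ext w
    obtain ⟨t, rfl⟩ := hspan w
    have : c g = c h := hgh
    rw [map_smul, map_smul, ← hc g, ← hc h, this]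
  refine ⟨isCyclic_of_injective_ringHom f hf, ?_⟩
  have hcard := card_orbit ρ htrans v0 hv0
  have h1 : q - 1 ∣ Nat.card G := by
    rw [← hcard, hV]
    exact dvd_mul_right _ _
  have h2 : Nat.card G ∣ q - 1 := by
    have := Subgroup.card_dvd_of_injective (MonoidHom.toHomUnits f) (by
      intro g h hgh
      apply hf
      have := congrArg Units.val hgh
      simpa using this)
    rwa [Nat.card_eq_fintype_card (α := (ZMod q)ˣ), ZMod.card_units_eq_totient, Nat.totient_prime hq] at this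
  exact Nat.dvd_antisymm h2 h1

end action



section gl23

open scoped MatrixGroups

/-- The matrices of the semilinear group of `F₉`. -/
abbrev M23 := Matrix (Fin 2) (Fin 2) (ZMod 3)

/-- The sixteen matrices of a Sylow `2`-subgroup. -/
def Lset : Finset M23 :=
  {!![1,0;0,1], !![2,0;0,2], !![0,2;1,0], !![0,1;2,0], !![1,2;1,1], !![1,1;2,1], !![2,2;1,2], !![2,1;2,2],
   !![1,0;0,2], !![2,0;0,1], !![0,1;1,0], !![0,2;2,0], !![1,1;1,2], !![1,2;2,2], !![2,1;1,1], !![2,2;2,1]}

lemma Lset_mul : ∀ a ∈ Lset, ∀ b ∈ Lset, a * b ∈ Lset := by decide +kernel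

lemma Lset_inv : ∀ a ∈ Lset, ∃ b ∈ Lset, a * b = 1 := by decide +kernel

lemma Lset_one : (1 : M23) ∈ Lset := by decide +kernel

lemma Lset_card : Lset.card = 16 := by decide +kernel

/-- The explicit Sylow `2`-subgroup. -/
def Psyl : Subgroup (GL (Fin 2) (ZMod 3)) where
  carrier := {g | (g : M23) ∈ Lset}
  mul_mem' := fun {a b} ha hb => by
    change ((a * b : GL (Fin 2) (ZMod 3)) : M23) ∈ Lset
    rw [Units.val_mul]
    exact Lset_mul _ ha _ hb
  one_mem' := by
    change ((1 : GL (Fin 2) (ZMod 3)) : M23) ∈ Lset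
    rw [Units.val_one]
    exact Lset_one
  inv_mem' := fun {a} ha => by
    obtain ⟨b, hb, hab⟩ := Lset_inv _ ha
    change ((a⁻¹ : GL (Fin 2) (ZMod 3)) : M23) ∈ Lset
    have : ((a⁻¹ : GL (Fin 2) (ZMod 3)) : M23) = b := by
      have h1 : ((a⁻¹ : GL (Fin 2) (ZMod 3)) : M23) * ((a : M23) * b) = b := by
        rw [← mul_assoc, ← Units.val_mul, inv_mul_cancel, Units.val_one, one_mul]
      rw [hab, mul_one] at h1
      exact h1
    rw [this]
    exact hb

lemma Psyl_card : Nat.card Psyl = 16 := by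
  classical
  have e : Psyl ≃ Lset :=
    { toFun := fun g => ⟨(g.1 : M23), g.2⟩
      invFun := fun a =>
        ⟨⟨a.1, (Classical.choose (Lset_inv a.1 a.2)),
          (Classical.choose_spec (Lset_inv a.1 a.2)).2,
          mul_eq_one_comm.1 (Classical.choose_spec (Lset_inv a.1 a.2)).2⟩, a.2⟩
      left_inv := fun g => by
        apply Subtype.ext
        apply Units.ext
        rfl
      right_inv := fun a => rfl }
  rw [Nat.card_congr e, Nat.card_eq_fintype_card, Fintype.card_coe, Lset_card]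

/-- The element of order `8`. -/
def x0 : GL (Fin 2) (ZMod 3) := ⟨!![1,2;1,1], !![2,2;1,2], by decide +kernel, by decide +kernel⟩

/-- The involution. -/
def t0 : GL (Fin 2) (ZMod 3) := ⟨!![1,0;0,2], !![1,0;0,2], by decide +kernel, by decide +kernel⟩

lemma x0_mem : x0 ∈ Psyl := by
  change (!![1,2;1,1] : M23) ∈ Lset
  decide +kernel

lemma t0_mem : t0 ∈ Psyl := by
  change (!![1,0;0,2] : M23) ∈ Lset
  decide +kernel

lemma x0_order : orderOf x0 = 2 ^ 3 := by
  haveI : Fact (Nat.Prime 2) := ⟨Nat.prime_two⟩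
  apply orderOf_eq_prime_pow
  · intro h
    have := congrArg (fun g : GL (Fin 2) (ZMod 3) => (g : M23)) h
    revert this
    change (!![1,2;1,1] : M23) ^ 2 ^ 2 = 1 → False
    decide +kernel
  · apply Units.ext
    change (!![1,2;1,1] : M23) ^ 2 ^ (2 + 1) = 1
    decide +kernel

lemma t0_order : orderOf t0 = 2 := by
  haveI : Fact (Nat.Prime 2) := ⟨Nat.prime_two⟩
  apply orderOf_eq_prime
  · apply Units.ext
    change (!![1,0;0,2] : M23) ^ 2 = 1
    decide +kernel
  · intro h
    have := congrArg (fun g : GL (Fin 2) (ZMod 3) => (g : M23)) h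
    revert this
    change (!![1,0;0,2] : M23) = 1 → False
    decide +kernel

lemma rel0 : t0 * x0 * t0⁻¹ = x0 ^ 3 := by
  apply Units.ext
  change (!![1,0;0,2] : M23) * !![1,2;1,1] * !![1,0;0,2] = (!![1,2;1,1] : M23) ^ 3
  decide +kernel

lemma card_GL23 : Nat.card (GL (Fin 2) (ZMod 3)) = 48 := by
  rw [Matrix.card_GL_field]
  simp [ZMod.card, Fin.prod_univ_two]

lemma sylow_conj {Γ : Type*} [Group Γ] [Finite Γ] (H P : Subgroup Γ) (hΓ : Nat.card Γ = 48)
    (hH : Nat.card H = 16) (hP : Nat.card P = 16) : ∃ g : Γ, ∀ x ∈ P, g * x * g⁻¹ ∈ H := by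
  haveI : Fact (Nat.Prime 2) := ⟨Nat.prime_two⟩
  have hf : (Nat.card Γ).factorization 2 = 4 := by
    rw [hΓ, show 48 = 2 ^ 4 * 3 by norm_num, Nat.factorization_mul (by norm_num) (by norm_num),
      Nat.Prime.factorization_pow Nat.prime_two]
    simp [Nat.Prime.factorization Nat.prime_three]
  let S1 : Sylow 2 Γ := Sylow.ofCard H (by rw [hH, hf]; norm_num)
  let S2 : Sylow 2 Γ := Sylow.ofCard P (by rw [hP, hf]; norm_num)
  obtain ⟨g, hg⟩ := MulAction.exists_smul_eq Γ S2 S1
  refine ⟨g, fun x hx => ?_⟩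
  have h1 : MulAut.conj g x ∈ ((g • S2 : Sylow 2 Γ) : Subgroup Γ) := by
    rw [Sylow.coe_subgroup_smul]
    exact Subgroup.smul_mem_pointwise_smul _ _ _ hx
  rw [hg] at h1
  exact h1

end gl23

section casethree

open scoped MatrixGroups

variable {V : Type*} [AddCommGroup V] [Module (ZMod 3) V] [Finite V]
  {G : Type*} [Group G] [Finite G]

/-- The linear representation as matrices. -/
lemma exists_embedding (ρ : G →* (V ≃ₗ[ZMod 3] V)) (hρ : Function.Injective ρ)
    (hV : Nat.card V = 9) : ∃ ψ : G →* GL (Fin 2) (ZMod 3), Function.Injective ψ := by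
  have : Module.Finite (ZMod 3) V := Module.Finite.of_finite
  have hfr : Module.finrank (ZMod 3) V = 2 := by
    have h1 := Module.natCard_eq_pow_finrank (K := ZMod 3) (V := V)
    rw [hV, Nat.card_zmod] at h1
    have h2 : 3 ^ 2 = 3 ^ Module.finrank (ZMod 3) V := by rw [← h1]; norm_num
    exact (Nat.pow_right_injective (by norm_num : 2 ≤ 3) h2).symm
  let b : Module.Basis (Fin 2) (ZMod 3) V := Module.finBasisOfFinrankEq _ _ hfr
  let m : (V →ₗ[ZMod 3] V) →* Matrix (Fin 2) (Fin 2) (ZMod 3) :=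
    ((LinearMap.toMatrixAlgEquiv b : _ ≃ₐ[ZMod 3] _) : _ →* _)
  have hm : Function.Injective m := (LinearMap.toMatrixAlgEquiv b).injective
  refine ⟨(Units.map m).comp
    ((LinearMap.GeneralLinearGroup.generalLinearEquiv (ZMod 3) V).symm.toMonoidHom.comp ρ), ?_⟩
  intro g h hgh
  apply hρ
  apply (LinearMap.GeneralLinearGroup.generalLinearEquiv (ZMod 3) V).symm.injective
  apply Units.ext
  apply hm
  exact congrArg Units.val hgh

/-- `|G| = 8`. -/
lemma case_eight (ρ : G →* (V ≃ₗ[ZMod 3] V)) (hρ : Function.Injective ρ)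
    (hV : Nat.card V = 9) (hG : IsPGroup 2 G) (hcard : Nat.card G = 8)
    (htrans : ∀ v w : V, v ≠ 0 → w ≠ 0 → ∃ g : G, ρ g v = w) :
    IsCyclic G ∨ Nonempty (G ≃* QuaternionGroup 2) := by
  haveI : Fact (Nat.Prime 2) := ⟨Nat.prime_two⟩
  have hfree : ∀ (g : G) (v : V), v ≠ 0 → ρ g v = v → g = 1 := by
    intro g v hv hgv
    have h1 := card_orbit ρ htrans v hv
    rw [hV, hcard] at h1
    have h2 : Nat.card {g : G // ρ g v = v} = 1 := by omega
    have h3 := (Nat.card_eq_one_iff_unique.1 h2).1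
    have h4 : (⟨g, hgv⟩ : {g : G // ρ g v = v}) = ⟨1, by simp⟩ := Subsingleton.elim _ _
    exact congrArg Subtype.val h4
  have hinv : ∀ g : G, g ^ 2 = 1 → g ≠ 1 → ∀ v : V, ρ g v = -v := by
    intro g hg hg1 v
    have h1 : ρ g (v + ρ g v) = v + ρ g v := by
      have h2 : ρ g (ρ g v) = v := by
        have : ρ (g * g) v = v := by
          rw [← pow_two, hg]
          simp
        simpa using this
      rw [map_add, h2, add_comm]
    by_contra hne
    have h3 : v + ρ g v ≠ 0 := by
      intro h0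
      exact hne (eq_neg_of_add_eq_zero_right h0)
    exact hg1 (hfree g _ h3 h1)
  have huniq : ∀ H K : Subgroup G, Nat.card H = 2 → Nat.card K = 2 → H = K := by
    have key : ∀ H : Subgroup G, Nat.card H = 2 → ∃ g : G, g ≠ 1 ∧ g ^ 2 = 1 ∧ H = Subgroup.zpowers g := by
      intro H hH
      have hnt : Nontrivial H := by
        apply Finite.one_lt_card_iff_nontrivial.1
        omega
      obtain ⟨g, hg⟩ := exists_ne (1 : H)
      have hg1 : (g : G) ≠ 1 := fun h => hg (Subtype.ext h)
      have hg2 : (g : G) ^ 2 = 1 := by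
        have := pow_card_eq_one' (x := g)
        rw [hH] at this
        simpa using congrArg Subtype.val this
      refine ⟨g, hg1, hg2, ?_⟩
      have hord : orderOf (g : G) = 2 := orderOf_eq_prime hg2 hg1
      symm
      apply Subgroup.eq_of_le_of_card_ge
      · rw [Subgroup.zpowers_le]
        exact g.2
      · rw [Nat.card_zpowers, hord, hH]
    intro H K hH hK
    obtain ⟨g, hg1, hg2, rfl⟩ := key H hH
    obtain ⟨h, hh1, hh2, rfl⟩ := key K hK
    have : g = h := by
      apply hρ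
      ext v
      rw [hinv g hg2 hg1, hinv h hh2 hh1]
    rw [this]
  rcases Cfsg.Agent.S0016.result 2 hG huniq with h | ⟨_, m, ⟨e⟩⟩
  · exact Or.inl h
  · right
    have h1 := Nat.card_congr e.toEquiv
    rw [hcard, Nat.card_eq_fintype_card, QuaternionGroup.card] at h1
    have h2 : 2 ^ m = 2 := by omega
    rw [h2] at e
    exact ⟨e⟩

/-- `|G| = 16`. -/
lemma case_sixteen (ψ : G →* GL (Fin 2) (ZMod 3)) (hψ : Function.Injective ψ)
    (hcard : Nat.card G = 16) : Cfsg.IsQuasiDihedral G := by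
  have hH : Nat.card ψ.range = 16 := by
    rw [← hcard]
    exact (Nat.card_congr (MonoidHom.ofInjective hψ).toEquiv).symm
  obtain ⟨g, hg⟩ := sylow_conj ψ.range Psyl card_GL23 hH Psyl_card
  obtain ⟨x, hx⟩ := hg x0 x0_mem
  obtain ⟨y, hy⟩ := hg t0 t0_mem
  have hx' : ψ x = MulAut.conj g x0 := hx
  have hy' : ψ y = MulAut.conj g t0 := hy
  refine ⟨3, le_rfl, by rw [hcard]; norm_num, x, y, ?_, ?_, ?_⟩
  · rw [← orderOf_injective ψ hψ x, hx', MulEquiv.orderOf_eq, x0_order]
  · rw [← orderOf_injective ψ hψ y, hy', MulEquiv.orderOf_eq, t0_order]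
  · apply hψ
    simp only [map_mul, map_inv, map_pow, hx', hy']
    rw [← map_inv, ← map_mul, ← map_mul, rel0, map_pow]
    norm_num

/-- The case `|V| = 9`. -/
lemma case_three (ρ : G →* (V ≃ₗ[ZMod 3] V)) (hρ : Function.Injective ρ)
    (hV : Nat.card V = 9) (hG : IsPGroup 2 G)
    (htrans : ∀ v w : V, v ≠ 0 → w ≠ 0 → ∃ g : G, ρ g v = w) (v0 : V) (hv0 : v0 ≠ 0) :
    (IsCyclic G ∧ Nat.card G = 8) ∨ Nonempty (G ≃* QuaternionGroup 2) ∨
      (Cfsg.IsQuasiDihedral G ∧ Nat.card G = 16) := by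
  obtain ⟨ψ, hψ⟩ := exists_embedding ρ hρ hV
  have h48 : Nat.card G ∣ 48 := card_GL23 ▸ Subgroup.card_dvd_of_injective ψ hψ
  have h8 : 8 ∣ Nat.card G := by
    have h1 := card_orbit ρ htrans v0 hv0
    rw [hV] at h1
    exact ⟨_, h1.symm⟩
  obtain ⟨k, hk⟩ := IsPGroup.iff_card.1 hG
  have hk3 : 3 ≤ k := by
    rw [hk, show 8 = 2 ^ 3 by norm_num] at h8
    exact (Nat.pow_dvd_pow_iff_le_right (by norm_num)).1 h8
  have hk4 : k ≤ 4 := by
    by_contra hk5
    have h1 : 2 ^ 5 ∣ 2 ^ k := pow_dvd_pow 2 (by omega)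
    rw [← hk] at h1
    have := h1.trans h48
    norm_num at this
  have hcases : k = 3 ∨ k = 4 := by omega
  rcases hcases with rfl | rfl
  · have hc : Nat.card G = 8 := by rw [hk]; norm_num
    rcases case_eight ρ hρ hV hG hc htrans with h | h
    · exact Or.inl ⟨h, hc⟩
    · exact Or.inr (Or.inl h)
  · have hc : Nat.card G = 16 := by rw [hk]; norm_num
    exact Or.inr (Or.inr ⟨case_sixteen ψ hψ hc, hc⟩)

end casethree

/-- Let q be a prime, V a non-trivial finite vector space over the field with q elements, and G a non-trivial finite p-group (p prime) acting faithfully and linearly on V and transitively on the non-zero vectors. Then either q = 2 and G has prime order p = |V| − 1; or p = 2, V has q elements with q = 2^m + 1 and G is cyclic of order 2^m; or p = 2, q = 3, V has 9 elements and G is cyclic of order 8, quaternion of order 8, or semidihedral of order 16. -/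
theorem result (q : ℕ) [Fact q.Prime] {V : Type*} [AddCommGroup V] [Module (ZMod q) V] [Finite V] [Nontrivial V]
    {G : Type*} [Group G] [Finite G] [Nontrivial G] (p : ℕ) [Fact p.Prime] (hG : IsPGroup p G)
    (ρ : G →* (V ≃ₗ[ZMod q] V)) (hρ : Function.Injective ρ)
    (htrans : ∀ v w : V, v ≠ 0 → w ≠ 0 → ∃ g : G, ρ g v = w) :
    (q = 2 ∧ p = Nat.card V - 1 ∧ Nat.card G = p) ∨
    (p = 2 ∧ Nat.card V = q ∧ (∃ m : ℕ, q = 2 ^ m + 1 ∧ Nat.card G = 2 ^ m) ∧ IsCyclic G) ∨
    (p = 2 ∧ q = 3 ∧ Nat.card V = 9 ∧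
      ((IsCyclic G ∧ Nat.card G = 8) ∨ Nonempty (G ≃* QuaternionGroup 2) ∨ (Cfsg.IsQuasiDihedral G ∧ Nat.card G = 16))) := by
  classical
  have hq : q.Prime := Fact.out
  have hp : p.Prime := Fact.out
  obtain ⟨v0, hv0⟩ := exists_ne (0 : V)
  have : Module.Finite (ZMod q) V := Module.Finite.of_finite
  have hcardV := Module.natCard_eq_pow_finrank (K := ZMod q) (V := V)
  rw [Nat.card_zmod] at hcardV
  set n := Module.finrank (ZMod q) V with hn
  have hn1 : 1 ≤ n := by
    have : 0 < n := Module.finrank_pos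
    omega
  have hV2 : 2 ≤ Nat.card V := by
    rw [hcardV]
    exact le_trans hq.two_le (Nat.le_self_pow (by omega) q)
  have horb := card_orbit ρ htrans v0 hv0
  have hdvd : Nat.card V - 1 ∣ Nat.card G := ⟨_, horb.symm⟩
  obtain ⟨k, hk⟩ := IsPGroup.iff_card.1 hG
  rw [hk] at hdvd
  obtain ⟨j, _, hj⟩ := (Nat.dvd_prime_pow hp).1 hdvd
  have heq : q ^ n = p ^ j + 1 := by omega
  by_cases hj0 : j = 0
  · exfalso
    subst hj0
    rw [pow_zero] at hj
    have hV2' : Nat.card V = 2 := by omega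
    have htriv : ∀ g : G, g = 1 := by
      intro g
      apply hρ
      ext v
      by_cases hv : v = 0
      · simp [hv]
      · have hw : ρ g v ≠ 0 := by simpa using hv
        -- `V` has a unique nonzero element
        have h1 : Nat.card {w : V // w ≠ 0} = 1 := by rw [card_ne_zero_sub, hV2']
        have h3 := (Nat.card_eq_one_iff_unique.1 h1).1
        have h4 : (⟨ρ g v, hw⟩ : {w : V // w ≠ 0}) = ⟨v, hv⟩ := Subsingleton.elim _ _
        simpa using congrArg Subtype.val h4
    obtain ⟨a, b, hab⟩ := exists_pair_ne G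
    exact hab ((htriv a).trans (htriv b).symm)
  by_cases hq2 : q = 2
  · left
    subst hq2
    refine ⟨rfl, ?_⟩
    have hpodd : p ≠ 2 := by
      rintro rfl
      have h1 : Even (2 ^ n) := (even_two).pow_of_ne_zero (by omega)
      have h2 : Even (2 ^ j) := (even_two).pow_of_ne_zero hj0
      rw [heq] at h1
      exact (Nat.not_even_iff_odd.2 h2.add_one) h1
    have hodd : Odd p := hp.odd_of_ne_two hpodd
    have hp3 : 3 ≤ p := by
      have := hp.two_le
      omega
    have hj1 : j = 1 := r1 p j n hp3 hodd (by omega) heq.symm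
    subst hj1
    rw [pow_one] at hj
    refine ⟨hj.symm, ?_⟩
    refine case_one ρ hρ p hG (by omega) ?_
    rw [hk]
    rw [hj] at hdvd
    exact hdvd
  · right
    have hqodd : Odd q := hq.odd_of_ne_two hq2
    have hq3 : 3 ≤ q := by
      have := hq.two_le
      omega
    have hp2 : p = 2 := by
      have h1 : Odd (q ^ n) := hqodd.pow
      rw [heq] at h1
      have h2 : Even (p ^ j) := by
        by_contra h3
        exact (Nat.not_even_iff_odd.2 h1) ((Nat.not_even_iff_odd.1 h3).add_one)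
      have h3 : Even p := (Nat.even_pow.1 h2).1
      exact (hp.even_iff.1 h3)
    subst hp2
    rcases r2 q n j hq hq3 hqodd hn1 heq with h1 | ⟨h3, h2⟩
    · left
      have hVq : Nat.card V = q := by rw [hcardV, h1, pow_one]
      obtain ⟨hcyc, hcG⟩ := case_two ρ hρ hVq htrans v0 hv0
      refine ⟨rfl, hVq, ⟨j, ?_, ?_⟩, hcyc⟩
      · rw [h1, pow_one] at heq
        exact heq
      · rw [hcG]
        rw [h1, pow_one] at heq
        omega
    · right
      subst h3
      have hV9 : Nat.card V = 9 := by rw [hcardV, h2]; norm_num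
      exact ⟨rfl, rfl, hV9, case_three ρ hρ hV9 hG htrans v0 hv0⟩

end Cfsg.Agent.S3370
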