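import Cfsg.Statements.S3375
import Mathlib
-- import your own Cfsg.Agent.* helpers here

set_option autoImplicit false
open Cfsg

namespace Cfsg.Agent.S3375

section Helpers

variable {H : Type*} [Group H] [Finite H]

/-- Counting: `|H| = |image of h ↦ h⁻¹ γ h| * |Fix γ|`. -/
theorem card_image_mul_fix [Fintype H] [DecidableEq H] (γ : MulAut H) :
    Nat.card H = (Finset.univ.image (fun h : H => h⁻¹ * γ h)).card * Nat.card {h : H // γ h = h} := by
  classical
  rw [Nat.card_eq_fintype_card (α := H), ← Finset.card_univ,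
    Finset.card_eq_sum_card_fiberwise (f := fun h : H => h⁻¹ * γ h)
      (t := Finset.univ.image (fun h : H => h⁻¹ * γ h)) (fun h _ => by
        simp only [Finset.coe_image, Finset.coe_univ, Set.image_univ]
        exact Set.mem_range_self h)]
  rw [Finset.sum_const_nat (m := Nat.card {h : H // γ h = h})]
  intro y hy
  obtain ⟨h₀, -, rfl⟩ := Finset.mem_image.mp hy
  rw [Nat.card_eq_fintype_card, Fintype.card_subtype]
  symm
  refine Finset.card_bij (fun c _ => c * h₀) ?_ ?_ ?_
  · intro c hc
    have hc' : γ c = c := (Finset.mem_filter.mp hc).2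
    rw [Finset.mem_filter]
    refine ⟨Finset.mem_univ _, ?_⟩
    show (c * h₀)⁻¹ * γ (c * h₀) = h₀⁻¹ * γ h₀
    rw [map_mul, hc']
    group
  · intro c₁ _ c₂ _ he
    exact mul_right_cancel he
  · intro k hk
    have hk' : k⁻¹ * γ k = h₀⁻¹ * γ h₀ := (Finset.mem_filter.mp hk).2
    refine ⟨k * h₀⁻¹, ?_, by simp⟩
    rw [Finset.mem_filter]
    refine ⟨Finset.mem_univ _, ?_⟩
    rw [map_mul, map_inv]
    have : γ k = k * (h₀⁻¹ * γ h₀) := by rw [← hk']; group
    rw [this]
    group

/-- If every element of a subgroup is inverted by `γ` and it is invariant, then it is abelian. -/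
theorem comm_of_inverted {H : Type*} [Group H] (γ : MulAut H) (A : Subgroup H)
    (hinv : ∀ a ∈ A, γ a = a⁻¹) : ∀ a ∈ A, ∀ b ∈ A, a * b = b * a := by
  intro a ha b hb
  have h1 := hinv (b * a) (Subgroup.mul_mem _ hb ha)
  rw [map_mul, hinv a ha, hinv b hb, mul_inv_rev] at h1
  -- b⁻¹ * a⁻¹ = a⁻¹ * b⁻¹
  have h2 : (b⁻¹ * a⁻¹)⁻¹ = (a⁻¹ * b⁻¹)⁻¹ := by rw [h1]
  simpa using h2

/-- The key lemma: an invariant subgroup of index two, with exactly two fixed points. -/
theorem index_two_case (γ : MulAut H) (hγ : ∀ h, γ (γ h) = h) (A : Subgroup H) (hA : A.index = 2)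
    (hinv : ∀ a ∈ A, γ a ∈ A) (hfix : Nat.card {h : H // γ h = h} = 2) :
    ∀ a ∈ A, γ a = a⁻¹ := by
  classical
  have := Fintype.ofFinite H
  have h1 := card_image_mul_fix γ
  rw [hfix] at h1
  have h2 := A.card_mul_index
  rw [hA] at h2
  have hX : ∀ h : H, h⁻¹ * γ h ∈ A := by
    intro h
    rw [Subgroup.mul_mem_iff_of_index_two hA, Subgroup.inv_mem_iff]
    constructor
    · exact hinv h
    · intro hh
      have := hinv _ hh
      rwa [hγ] at this
  have hcardA : (A : Set H).ncard = Nat.card A := Nat.card_coe_set_eq (A : Set H) |>.symm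
  have hsub : Finset.univ.image (fun h : H => h⁻¹ * γ h) = Finset.univ.filter (· ∈ A) := by
    apply Finset.eq_of_subset_of_card_le
    · intro x hx
      obtain ⟨h, -, rfl⟩ := Finset.mem_image.mp hx
      exact Finset.mem_filter.mpr ⟨Finset.mem_univ _, hX h⟩
    · have : (Finset.univ.filter (· ∈ A)).card = Nat.card A := by
        rw [Nat.card_eq_fintype_card, Fintype.card_subtype]
      rw [this]
      have hpos : 0 < Nat.card H := Nat.card_pos
      omega
  intro a ha
  have : a ∈ Finset.univ.image (fun h : H => h⁻¹ * γ h) := by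
    rw [hsub]
    exact Finset.mem_filter.mpr ⟨Finset.mem_univ _, ha⟩
  obtain ⟨h, -, rfl⟩ := Finset.mem_image.mp this
  rw [map_mul, map_inv, hγ, mul_inv_rev, inv_inv]

end Helpers

/-- Let γ be an automorphism of order 2 of a finite group H. (i) If γ fixes only the identity, then H is abelian and γ inverts every element. (ii) If γ has exactly two fixed points and H has a subgroup of index 2, then H has a γ-invariant abelian subgroup of index 2 on which γ acts by inversion. -/
theorem result {H : Type*} [Group H] [Finite H] (γ : MulAut H) (hγ : orderOf γ = 2) :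
    ((∀ h : H, γ h = h → h = 1) → (∀ a b : H, a * b = b * a) ∧ ∀ h : H, γ h = h⁻¹) ∧
    ((Nat.card {h : H // γ h = h} = 2 ∧ ∃ M : Subgroup H, M.index = 2) →
      ∃ A : Subgroup H, A.index = 2 ∧ IsMulCommutative A ∧ (∀ a ∈ A, γ a ∈ A) ∧ ∀ a ∈ A, γ a = a⁻¹) := by
  classical
  have := Fintype.ofFinite H
  have hγ2 : ∀ h, γ (γ h) = h := by
    intro h
    have h1 : γ ^ 2 = 1 := by
      have := pow_orderOf_eq_one γ
      rwa [hγ] at this
    have : (γ ^ 2) h = h := by rw [h1]; rfl
    simpa [pow_two, MulAut.mul_apply] using this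
  constructor
  · intro hfix
    have hfix1 : Nat.card {h : H // γ h = h} = 1 := by
      rw [Nat.card_eq_one_iff_unique]
      exact ⟨⟨fun a b => Subtype.ext ((hfix a a.2).trans (hfix b b.2).symm)⟩, ⟨⟨1, map_one γ⟩⟩⟩
    have h1 := card_image_mul_fix γ
    rw [hfix1, mul_one, Nat.card_eq_fintype_card, ← Finset.card_univ] at h1
    have hall : Finset.univ.image (fun h : H => h⁻¹ * γ h) = Finset.univ :=
      Finset.eq_of_subset_of_card_le (Finset.subset_univ _) (by omega)
    have hinv : ∀ h, γ h = h⁻¹ := by
      intro a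
      have : a ∈ Finset.univ.image (fun h : H => h⁻¹ * γ h) := by
        rw [hall]; exact Finset.mem_univ _
      obtain ⟨h, -, rfl⟩ := Finset.mem_image.mp this
      rw [map_mul, map_inv, hγ2, mul_inv_rev, inv_inv]
    refine ⟨?_, hinv⟩
    intro a b
    exact comm_of_inverted γ ⊤ (fun x _ => hinv x) a trivial b trivial
  · rintro ⟨hfix, M, hM⟩
    -- find a γ-invariant subgroup of index 2
    have hexA : ∃ A : Subgroup H, A.index = 2 ∧ ∀ a ∈ A, γ a ∈ A := by
      by_cases hinvM : ∀ a ∈ M, γ a ∈ M
      · exact ⟨M, hM, hinvM⟩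
      · push Not at hinvM
        obtain ⟨u, huM, hγu⟩ := hinvM
        -- the homomorphism
        let χ : H →* Multiplicative (ZMod 2) := MonoidHom.mk' (fun h => if h ∈ M then 1 else Multiplicative.ofAdd 1) (by
          intro a b
          by_cases ha : a ∈ M <;> by_cases hb : b ∈ M <;>
            simp only [Subgroup.mul_mem_iff_of_index_two hM, ha, hb, if_true, if_false, iff_true, iff_false, true_iff, false_iff, not_true, not_false_iff, mul_one, one_mul] <;> decide)
        let ψ : H →* Multiplicative (ZMod 2) := χ * (χ.comp γ.toMonoidHom)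
        have hψu : ψ u ≠ 1 := by
          show χ u * χ (γ u) ≠ 1
          have h1 : χ u = 1 := if_pos huM
          have h2 : χ (γ u) = Multiplicative.ofAdd 1 := if_neg hγu
          rw [h1, h2]
          decide
        have hrange : Nat.card ψ.range = 2 := by
          have h2 : Nat.card ψ.range ∣ Nat.card (Multiplicative (ZMod 2)) := Subgroup.card_subgroup_dvd_card _
          have h3 : Nat.card (Multiplicative (ZMod 2)) = 2 := by
            rw [Nat.card_congr Multiplicative.toAdd]
            simp
          rw [h3] at h2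
          have h4 : Nat.card ψ.range ≠ 1 := by
            intro h5
            have h6 := Subgroup.card_eq_one.mp h5
            apply hψu
            have : ψ u ∈ ψ.range := ⟨u, rfl⟩
            rw [h6] at this
            exact this
          rcases (Nat.dvd_prime Nat.prime_two).mp h2 with h5 | h5
          · exact absurd h5 h4
          · exact h5
        refine ⟨ψ.ker, by rw [Subgroup.index_ker, hrange], ?_⟩
        intro a ha
        rw [MonoidHom.mem_ker] at ha ⊢
        show χ (γ a) * χ (γ (γ a)) = 1
        have : χ a * χ (γ a) = 1 := ha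
        rw [hγ2, mul_comm]
        exact this
    obtain ⟨A, hA, hAinv⟩ := hexA
    have hinv := index_two_case γ hγ2 A hA hAinv hfix
    refine ⟨A, hA, ?_, hAinv, hinv⟩
    refine ⟨⟨?_⟩⟩
    intro a b
    exact Subtype.ext (comm_of_inverted γ A hinv a a.2 b b.2)

end Cfsg.Agent.S3375
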