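import Cfsg.Statements.S3379
import Mathlib

set_option autoImplicit false
set_option linter.style.haveILetI false
open Cfsg
open scoped commutatorElement

namespace Cfsg.Agent.S3379

theorem result {G : Type*} [Group G] [Finite G]
    (hZ : ∀ (p : ℕ) [Fact p.Prime] (P : Sylow p G), IsCyclic (P : Subgroup G)) :
    ∃ (x y : G) (n m r : ℕ), Subgroup.closure {x, y} = ⊤ ∧ orderOf x = n ∧ orderOf y = m ∧
      x⁻¹ * y * x = y ^ r ∧ Nat.Coprime (r - 1) m ∧ Nat.Coprime n m ∧ 1 ≤ r ∧ r ^ n % m = 1 % m := by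
  classical
  haveI hZG : IsZGroup G := ⟨fun p hp P => by haveI := Fact.mk hp; exact hZ p P⟩
  haveI hcycD : IsCyclic (commutator G) := IsZGroup.isCyclic_commutator G
  have hcop : (Nat.card (commutator G)).Coprime (commutator G).index :=
    IsZGroup.coprime_commutator_index G
  obtain ⟨X, hX⟩ := Subgroup.exists_right_complement'_of_coprime hcop
  have hXcyc : IsCyclic X := by
    let f : X →* Abelianization G := (Abelianization.of).comp X.subtype
    have hinj : Function.Injective f := by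
      rw [injective_iff_map_eq_one]
      rintro ⟨a, ha⟩ h1
      have h2 : a ∈ (Abelianization.of (G := G)).ker := h1
      rw [Abelianization.ker_of] at h2
      have h3 : a ∈ commutator G ⊓ X := ⟨h2, ha⟩
      rw [hX.disjoint.eq_bot, Subgroup.mem_bot] at h3
      exact Subtype.ext h3
    exact isCyclic_of_injective f hinj
  obtain ⟨⟨x, hxX⟩, hxgen⟩ := IsCyclic.exists_generator (α := X)
  obtain ⟨⟨y, hyD⟩, hygen⟩ := IsCyclic.exists_generator (α := commutator G)
  have hXeq : X = Subgroup.zpowers x := by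
    apply le_antisymm
    · intro a ha
      obtain ⟨k, hk⟩ := Subgroup.mem_zpowers_iff.mp (hxgen ⟨a, ha⟩)
      exact Subgroup.mem_zpowers_iff.mpr ⟨k, by simpa using congrArg Subtype.val hk⟩
    · rwa [Subgroup.zpowers_le]
  have hDeq : commutator G = Subgroup.zpowers y := by
    apply le_antisymm
    · intro a ha
      obtain ⟨k, hk⟩ := Subgroup.mem_zpowers_iff.mp (hygen ⟨a, ha⟩)
      exact Subgroup.mem_zpowers_iff.mpr ⟨k, by simpa using congrArg Subtype.val hk⟩
    · rwa [Subgroup.zpowers_le]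
  have hoy : orderOf y = Nat.card (commutator G) := by rw [hDeq, Nat.card_zpowers]
  have hox : orderOf x = (commutator G).index := by
    rw [hX.symm.index_eq_card, hXeq, Nat.card_zpowers]
  have hclosure : Subgroup.closure {x, y} = ⊤ := by
    rw [eq_top_iff, ← hX.sup_eq_top, hDeq, hXeq]
    refine sup_le ?_ ?_
    · rw [Subgroup.zpowers_le]; exact Subgroup.subset_closure (by simp)
    · rw [Subgroup.zpowers_le]; exact Subgroup.subset_closure (by simp)
  have hDn : (Subgroup.zpowers y).Normal := hDeq ▸ (inferInstance : (commutator G).Normal)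
  have hm : 0 < orderOf y := orderOf_pos y
  obtain ⟨r₀, hr₀⟩ : ∃ r₀ : ℕ, x⁻¹ * y * x = y ^ r₀ := by
    have h1 : x⁻¹ * y * x⁻¹⁻¹ ∈ Subgroup.zpowers y :=
      hDn.conj_mem y (Subgroup.mem_zpowers y) x⁻¹
    rw [inv_inv] at h1
    have h2 := mem_powers_iff_mem_zpowers.mpr h1
    obtain ⟨k, hk⟩ := h2
    exact ⟨k, hk.symm⟩
  let r := r₀ + orderOf y
  have hr : x⁻¹ * y * x = y ^ r := by
    rw [hr₀, pow_add, pow_orderOf_eq_one, mul_one]
  have hr1 : 1 ≤ r := by omega
  have hit : ∀ j : ℕ, (x ^ j)⁻¹ * y * x ^ j = y ^ (r ^ j) := by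
    intro j
    induction j with
    | zero => simp
    | succ j ih =>
      have h1 : (x ^ (j + 1))⁻¹ * y * x ^ (j + 1) = x⁻¹ * ((x ^ j)⁻¹ * y * x ^ j) * x := by
        rw [pow_succ]; group
      rw [h1, ih]
      have h2 : x⁻¹ * y ^ r ^ j * x = (x⁻¹ * y * x) ^ r ^ j := by
        have := conj_pow (a := x⁻¹) (b := y) (i := r ^ j)
        simpa using this.symm
      rw [h2, hr, ← pow_mul, pow_succ, mul_comm]
  have hrn : r ^ orderOf x % orderOf y = 1 % orderOf y := by
    have h1 := hit (orderOf x)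
    rw [pow_orderOf_eq_one] at h1
    have h2 : y ^ (r ^ orderOf x) = y ^ 1 := by
      rw [← h1]; simp
    exact (pow_eq_pow_iff_modEq.mp h2)
  -- the group `E` generated by `y ^ (r - 1)` contains the commutator subgroup
  let E : Subgroup G := Subgroup.zpowers (y ^ (r - 1))
  have hEn : E.Normal := by
    constructor
    intro w hw g
    obtain ⟨t, rfl⟩ := Subgroup.mem_zpowers_iff.mp hw
    obtain ⟨s, hs⟩ := Subgroup.mem_zpowers_iff.mp (hDn.conj_mem y (Subgroup.mem_zpowers y) g)
    have h1 : g * (y ^ (r - 1)) ^ t * g⁻¹ = ((y ^ (r - 1)) ^ t) ^ s := by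
      have e : g * y * g⁻¹ = y ^ s := hs.symm
      calc g * (y ^ (r - 1)) ^ t * g⁻¹ = (g * y ^ (r - 1) * g⁻¹) ^ t := by rw [conj_zpow]
        _ = ((g * y * g⁻¹) ^ (r - 1)) ^ t := by rw [conj_pow]
        _ = ((y ^ s) ^ (r - 1)) ^ t := by rw [e]
        _ = y ^ (s * ((r - 1 : ℕ) : ℤ) * t) := by rw [zpow_mul, zpow_mul, zpow_natCast]
        _ = y ^ (((r - 1 : ℕ) : ℤ) * t * s) := by ring_nf
        _ = _ := by rw [zpow_mul, zpow_mul, zpow_natCast]
    rw [h1]
    exact Subgroup.zpow_mem _ (Subgroup.zpow_mem_zpowers _ _) _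
  haveI := hEn
  have hle : commutator G ≤ E := by
    let φ := QuotientGroup.mk' E
    have hcomm : ∀ a b : G ⧸ E, a * b = b * a := by
      have hxy : φ x * φ y = φ y * φ x := by
        have h1 : (y ^ (r - 1)) ∈ φ.ker := by
          rw [QuotientGroup.ker_mk']; exact Subgroup.mem_zpowers _
        have h2 : φ (y ^ (r - 1)) = 1 := h1
        have h3 : φ y ^ r = φ y := by
          have : r = (r - 1) + 1 := (Nat.sub_add_cancel hr1).symm
          conv_lhs => rw [this, pow_succ]
          rw [← map_pow, h2, one_mul]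
        have h4 : (φ x)⁻¹ * φ y * φ x = φ y := by
          rw [← map_inv, ← map_mul, ← map_mul, hr, map_pow, h3]
        calc φ x * φ y = φ x * ((φ x)⁻¹ * φ y * φ x) := by rw [h4]
          _ = φ y * φ x := by group
      have hcl : Subgroup.closure ({φ x, φ y} : Set (G ⧸ E)) = ⊤ := by
        have h1 := congrArg (Subgroup.map φ) hclosure
        rw [MonoidHom.map_closure, Subgroup.map_top_of_surjective φ (QuotientGroup.mk'_surjective E),
          Set.image_pair] at h1
        exact h1
      have hcc := Subgroup.isMulCommutative_closure (k := ({φ x, φ y} : Set (G ⧸ E))) (by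
        rintro a (rfl | rfl) b (rfl | rfl)
        · rfl
        · exact hxy
        · exact hxy.symm
        · rfl)
      intro a b
      have ha : a ∈ Subgroup.closure ({φ x, φ y} : Set (G ⧸ E)) := by rw [hcl]; trivial
      have hb : b ∈ Subgroup.closure ({φ x, φ y} : Set (G ⧸ E)) := by rw [hcl]; trivial
      exact congrArg Subtype.val (hcc.is_comm.comm ⟨a, ha⟩ ⟨b, hb⟩)
    rw [commutator_def, Subgroup.commutator_le]
    intro a _ b _
    have h1 : φ ⁅a, b⁆ = 1 := by
      rw [map_commutatorElement, commutatorElement_eq_one_iff_mul_comm]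
      exact hcomm _ _
    have h2 : ⁅a, b⁆ ∈ φ.ker := h1
    rwa [QuotientGroup.ker_mk'] at h2
  have hcoprm : Nat.Coprime (r - 1) (orderOf y) := by
    obtain ⟨t, ht⟩ := Subgroup.mem_zpowers_iff.mp (hle hyD)
    have h1 : y ^ (((r - 1 : ℕ) : ℤ) * t - 1) = 1 := by
      rw [zpow_sub, zpow_mul, zpow_natCast, ht]
      simp
    obtain ⟨c, hc⟩ := orderOf_dvd_iff_zpow_eq_one.mpr h1
    rw [← Nat.isCoprime_iff_coprime]
    refine ⟨t, -c, ?_⟩
    have : ((r - 1 : ℕ) : ℤ) * t - 1 = (orderOf y : ℤ) * c := hc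
    linear_combination this
  refine ⟨x, y, orderOf x, orderOf y, r, hclosure, rfl, rfl, hr, hcoprm, ?_, hr1, hrn⟩
  rw [hox, hoy]
  exact hcop.symm

end Cfsg.Agent.S3379
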