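import Cfsg.Statements.S3381
import Mathlib
-- import your own Cfsg.Agent.* helpers here

set_option autoImplicit false
open Cfsg

namespace Cfsg.Agent.S3381

section

variable {q : ℕ} [Fact q.Prime] {V : Type*} [AddCommGroup V] [Module (ZMod q) V]
variable {G : Type*} [Group G] {ρ : G →* (V ≃ₗ[ZMod q] V)}

lemma rho_mul (g h : G) (x : V) : ρ (g * h) x = ρ g (ρ h x) := by
  rw [map_mul, LinearEquiv.mul_apply]

lemma rho_one (x : V) : ρ 1 x = x := by
  rw [map_one, LinearEquiv.coe_one, id]

lemma stab_exists (hstab : ∀ v : V, v ≠ 0 → Nat.card {g : G // ρ g v = v} = 2) {v : V} (hv : v ≠ 0) :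
    ∃ t : G, t ≠ 1 ∧ ρ t v = v ∧ ∀ g, ρ g v = v → g = 1 ∨ g = t := by
  classical
  have h := hstab v hv
  let one : {g : G // ρ g v = v} := ⟨1, rho_one v⟩
  obtain ⟨t, ht, huniq⟩ := (Nat.card_eq_two_iff' one).mp h
  refine ⟨t.1, fun h => ht (Subtype.ext h), t.2, fun g hg => ?_⟩
  by_cases hg1 : g = 1
  · exact Or.inl hg1
  · right
    have := huniq ⟨g, hg⟩ (fun h => hg1 (congrArg Subtype.val h))
    exact congrArg Subtype.val this

lemma stab_unique (hstab : ∀ v : V, v ≠ 0 → Nat.card {g : G // ρ g v = v} = 2) {v : V} (hv : v ≠ 0)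
    {g h : G} (hg : g ≠ 1) (hh : h ≠ 1) (hgv : ρ g v = v) (hhv : ρ h v = v) : g = h := by
  obtain ⟨t, _, _, ht⟩ := stab_exists hstab hv
  rcases ht g hgv with h1 | h1
  · exact absurd h1 hg
  rcases ht h hhv with h2 | h2
  · exact absurd h2 hh
  rw [h1, h2]

lemma stab_sq (hstab : ∀ v : V, v ≠ 0 → Nat.card {g : G // ρ g v = v} = 2) {v : V} (hv : v ≠ 0)
    {t : G} (ht : t ≠ 1) (htv : ρ t v = v) : orderOf t = 2 := by
  obtain ⟨s, _, _, hs⟩ := stab_exists hstab hv
  have h2 : ρ (t * t) v = v := by rw [rho_mul, htv, htv]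
  have h3 : t * t = 1 := by
    rcases hs _ h2 with h | h
    · exact h
    · rcases hs _ htv with h' | h'
      · exact absurd h' ht
      · rw [← h'] at h
        exact absurd (mul_eq_left.mp h) ht
  apply orderOf_eq_prime
  · rw [sq]; exact h3
  · exact ht

/-- A central involution acts as `-1`, and the characteristic is odd. -/
lemma central_neg (hρ : Function.Injective ρ)
    (hstab : ∀ v : V, v ≠ 0 → Nat.card {g : G // ρ g v = v} = 2)
    {z : G} (hz : orderOf z = 2) (hzc : z ∈ Subgroup.center G) :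
    (∀ x : V, ρ z x = -x) ∧ ∀ x : V, x + x = 0 → x = 0 := by
  classical
  have hzz : z * z = 1 := by
    have := pow_orderOf_eq_one z
    rwa [hz, sq] at this
  have hz1 : z ≠ 1 := by
    rintro rfl
    rw [orderOf_one] at hz
    omega
  have key : ∀ x : V, x + ρ z x = 0 ∨ ρ z x = x := by
    intro x
    by_cases hx : x + ρ z x = 0
    · exact Or.inl hx
    right
    have hx0 : x ≠ 0 := by
      rintro rfl
      simp at hx
    obtain ⟨s, hs1, hsx, _⟩ := stab_exists hstab hx0
    have hcomm : s * z = z * s := Subgroup.mem_center_iff.mp hzc s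
    have hzz' : ρ z (ρ z x) = x := by
      rw [← rho_mul, hzz, rho_one]
    have h1 : ρ s (x + ρ z x) = x + ρ z x := by
      rw [map_add, hsx, ← rho_mul, hcomm, rho_mul, hsx]
    have h2 : ρ z (x + ρ z x) = x + ρ z x := by
      rw [map_add, hzz', add_comm]
    have h3 : s = z := stab_unique hstab hx hs1 hz1 h1 h2
    rw [← h3]
    exact hsx
  have hne : ∃ x₀ : V, ρ z x₀ ≠ x₀ := by
    by_contra hall
    push Not at hall
    apply hz1
    apply hρ
    rw [map_one]
    ext x
    rw [hall x]
    rfl
  obtain ⟨x₀, hx₀⟩ := hne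
  have hx₀' : ρ z x₀ = -x₀ := by
    rcases key x₀ with h | h
    · exact eq_neg_of_add_eq_zero_right h
    · exact absurd h hx₀
  have hx₀2 : x₀ + x₀ ≠ 0 := by
    intro h
    apply hx₀
    rw [hx₀']
    exact (eq_neg_of_add_eq_zero_left h).symm
  have hneg : ∀ x : V, ρ z x = -x := by
    intro x
    rcases key x with h | h
    · exact eq_neg_of_add_eq_zero_right h
    · -- `x` is fixed; test `x + x₀`
      rcases key (x + x₀) with h' | h'
      · rw [map_add, h, hx₀'] at h'
        have h2 : x + x = 0 := by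
          have : x + x₀ + (x + -x₀) = x + x := by abel
          rw [← this]
          exact h'
        rw [h]
        exact (eq_neg_of_add_eq_zero_left h2)
      · exfalso
        rw [map_add, h, hx₀'] at h'
        have h2 : x₀ + x₀ = 0 := by
          have h3 : -x₀ = x₀ := add_left_cancel h'
          calc x₀ + x₀ = -x₀ + x₀ := by rw [h3]
            _ = 0 := neg_add_cancel _
        exact hx₀2 h2
  refine ⟨hneg, ?_⟩
  intro x hx
  -- two is invertible since it acts non-trivially on `x₀`
  have htwo : (2 : ZMod q) ≠ 0 := by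
    intro h0
    apply hx₀2
    rw [← two_smul (ZMod q) x₀, h0, zero_smul]
  have h2 : (2 : ZMod q) • x = 0 := by rw [two_smul]; exact hx
  exact (smul_eq_zero.mp h2).resolve_left htwo

/-- The fixed subspace of `t`. -/
def fix (ρ : G →* (V ≃ₗ[ZMod q] V)) (t : G) : Submodule (ZMod q) V where
  carrier := {x | ρ t x = x}
  add_mem' := fun {a b} ha hb => by
    simp only [Set.mem_ofPred_eq] at *
    rw [map_add, ha, hb]
  zero_mem' := map_zero _
  smul_mem' := fun c x hx => by
    simp only [Set.mem_ofPred_eq] at *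
    rw [map_smul, hx]

lemma mem_fix {t : G} {x : V} : x ∈ fix ρ t ↔ ρ t x = x := Iff.rfl

lemma fix_isCompl {z t : G} (hneg : ∀ x : V, ρ z x = -x) (hodd : ∀ x : V, x + x = 0 → x = 0)
    (htwo : (2 : ZMod q) ≠ 0) (ht : t * t = 1) :
    IsCompl (fix ρ t) (fix ρ (t * z)) := by
  have htt : ∀ x : V, ρ t (ρ t x) = x := fun x => by rw [← rho_mul, ht, rho_one]
  refine ⟨?_, ?_⟩
  · rw [Submodule.disjoint_def]
    intro x hx hx'
    rw [mem_fix] at hx hx'
    rw [rho_mul, hneg, map_neg, hx] at hx'
    apply hodd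
    nth_rw 1 [← hx']
    exact neg_add_cancel x
  · rw [codisjoint_iff, Submodule.eq_top_iff']
    intro x
    rw [Submodule.mem_sup]
    have h2 : (2 : ZMod q)⁻¹ + (2 : ZMod q)⁻¹ = 1 := by
      rw [← two_mul, mul_inv_cancel₀ htwo]
    refine ⟨(2 : ZMod q)⁻¹ • (x + ρ t x), ?_, (2 : ZMod q)⁻¹ • (x - ρ t x), ?_, ?_⟩
    · rw [mem_fix, map_smul, map_add, htt, add_comm]
    · rw [mem_fix, rho_mul, map_smul, hneg, map_smul, map_neg, map_sub, htt, neg_sub]
    · rw [smul_add, smul_sub]
      have : (2 : ZMod q)⁻¹ • x + (2 : ZMod q)⁻¹ • ρ t x + ((2 : ZMod q)⁻¹ • x - (2 : ZMod q)⁻¹ • ρ t x)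
          = ((2 : ZMod q)⁻¹ + (2 : ZMod q)⁻¹) • x := by
        rw [add_smul]
        abel
      rw [this, h2, one_smul]

end


/-- Let G be a finite group acting faithfully and linearly on a non-trivial finite vector space V over the field with q elements (q prime) so that every non-zero vector has a stabilizer of order 2, and suppose G has a central involution. Then V has q^(2r) elements for some r and G contains exactly q^r + 1 non-central involutions. -/
theorem result
    (q : ℕ) [Fact q.Prime] {V : Type*} [AddCommGroup V] [Module (ZMod q) V] [Finite V] [Nontrivial V]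
    {G : Type*} [Group G] [Finite G] (ρ : G →* (V ≃ₗ[ZMod q] V)) (hρ : Function.Injective ρ)
    (hstab : ∀ v : V, v ≠ 0 → Nat.card {g : G // ρ g v = v} = 2)
    (z : G) (hz : orderOf z = 2) (hzc : z ∈ Subgroup.center G) :
    ∃ r : ℕ, Nat.card V = q ^ (2 * r) ∧
      Nat.card {g : G // orderOf g = 2 ∧ g ∉ Subgroup.center G} = q ^ r + 1 := by
  classical
  obtain ⟨hneg, hodd⟩ := central_neg hρ hstab hz hzc
  have : Module.Finite (ZMod q) V := Module.Finite.of_finite
  have hzz : z * z = 1 := by
    have := pow_orderOf_eq_one z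
    rwa [hz, sq] at this
  have hz1 : z ≠ 1 := by
    rintro rfl
    rw [orderOf_one] at hz
    omega
  have hzc' : ∀ g, g * z = z * g := fun g => Subgroup.mem_center_iff.mp hzc g
  obtain ⟨x₁, hx₁⟩ := exists_ne (0 : V)
  have htwo : (2 : ZMod q) ≠ 0 := by
    intro h0
    apply hx₁
    apply hodd
    rw [← two_smul (ZMod q) x₁, h0, zero_smul]
  -- elementary properties of the set of non-central involutions
  have hsq : ∀ t : G, orderOf t = 2 → t * t = 1 := fun t ht => by
    have := pow_orderOf_eq_one t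
    rwa [ht, sq] at this
  have hne1 : ∀ t : G, orderOf t = 2 → t ≠ 1 := fun t ht => by
    rintro rfl
    rw [orderOf_one] at ht
    omega
  have hTz : ∀ t : G, orderOf t = 2 → t ∉ Subgroup.center G →
      orderOf (t * z) = 2 ∧ t * z ∉ Subgroup.center G := by
    intro t ht htc
    have hnc : t * z ∉ Subgroup.center G := by
      intro h
      apply htc
      have : t = (t * z) * z := by rw [mul_assoc, hzz, mul_one]
      rw [this]
      exact Subgroup.mul_mem _ h hzc
    refine ⟨?_, hnc⟩
    apply orderOf_eq_prime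
    · rw [sq, mul_assoc, ← mul_assoc z, ← hzc' t, mul_assoc, hzz, mul_one, hsq t ht]
    · intro h
      apply hnc
      rw [h]
      exact Subgroup.one_mem _
  have hstabT : ∀ v : V, v ≠ 0 → ∃ t : G, (orderOf t = 2 ∧ t ∉ Subgroup.center G) ∧ ρ t v = v := by
    intro v hv
    obtain ⟨t, ht1, htv, _⟩ := stab_exists hstab hv
    have ho := stab_sq hstab hv ht1 htv
    refine ⟨t, ⟨ho, fun hc => hv ?_⟩, htv⟩
    have := (central_neg hρ hstab ho hc).1 v
    rw [htv] at this
    apply hodd
    nth_rw 1 [this]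
    exact neg_add_cancel v
  have hcompl : ∀ t : G, orderOf t = 2 → IsCompl (fix ρ t) (fix ρ (t * z)) := fun t ht =>
    fix_isCompl hneg hodd htwo (hsq t ht)
  have hdsum : ∀ t : G, orderOf t = 2 →
      Module.finrank (ZMod q) (fix ρ t) + Module.finrank (ZMod q) (fix ρ (t * z)) =
        Module.finrank (ZMod q) V := fun t ht => Submodule.finrank_add_eq_of_isCompl (hcompl t ht)
  have hdisj : ∀ t s : G, t ≠ 1 → s ≠ 1 → t ≠ s → Disjoint (fix ρ t) (fix ρ s) := by
    intro t s ht hs hts
    rw [Submodule.disjoint_def]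
    intro x hx hx'
    by_contra hx0
    exact hts (stab_unique hstab hx0 ht hs hx hx')
  have hdle : ∀ t s : G, t ≠ 1 → s ≠ 1 → t ≠ s →
      Module.finrank (ZMod q) (fix ρ t) + Module.finrank (ZMod q) (fix ρ s) ≤
        Module.finrank (ZMod q) V := fun t s ht hs hts =>
    Submodule.finrank_add_finrank_le_of_disjoint (hdisj t s ht hs hts)
  -- nonzero vectors in the fixed spaces
  have hfixne : ∀ t : G, orderOf t = 2 → t * z ≠ 1 → ∃ a : V, a ≠ 0 ∧ ρ t a = a := by
    intro t ht htz
    by_contra hall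
    push Not at hall
    apply htz
    have htz' : t = z := by
      apply hρ
      ext x
      by_contra hx
      have hx' : x + ρ t x ≠ 0 := by
        intro h0
        apply hx
        rw [hneg]
        exact eq_neg_of_add_eq_zero_right h0
      apply hall _ hx'
      rw [map_add, ← rho_mul, hsq t ht, rho_one, add_comm]
    rw [htz', hzz]
  have hhalf : ∀ t : G, orderOf t = 2 → t ∉ Subgroup.center G →
      2 * Module.finrank (ZMod q) (fix ρ t) = Module.finrank (ZMod q) V := by
    intro t ht htc
    have htz1 : t * z ≠ 1 := by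
      intro h
      apply htc
      have : t = z := by
        have h3 : t = (t * z) * z := by rw [mul_assoc, hzz, mul_one]
        rw [h3, h, one_mul]
      rw [this]
      exact hzc
    obtain ⟨htz2, htzc⟩ := hTz t ht htc
    have h3 : t * z * z = t := by rw [mul_assoc, hzz, mul_one]
    obtain ⟨a, ha0, hat⟩ := hfixne t ht htz1
    obtain ⟨b, hb0, hbt⟩ := hfixne (t * z) htz2 (by rw [h3]; exact hne1 t ht)
    have hbt' : ρ t b = -b := by
      rw [rho_mul, hneg, map_neg] at hbt
      exact neg_eq_iff_eq_neg.mp hbt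
    have hat' : ρ (t * z) a = -a := by
      rw [rho_mul, hneg, map_neg, hat]
    have hv : a + b ≠ 0 := by
      intro h
      have hab : a = -b := eq_neg_of_add_eq_zero_left h
      have hb : ρ t b = b := by
        have : b = -a := by rw [hab, neg_neg]
        rw [this, map_neg, hat]
      rw [hbt'] at hb
      apply hb0
      apply hodd
      nth_rw 1 [← hb]
      exact neg_add_cancel b
    obtain ⟨s, ⟨hs2, hsc⟩, hsv⟩ := hstabT _ hv
    obtain ⟨hsz2, hszc⟩ := hTz s hs2 hsc
    have hst : s ≠ t := by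
      rintro rfl
      rw [map_add, hat, hbt'] at hsv
      have h4 : -b = b := add_left_cancel hsv
      apply hb0
      apply hodd
      nth_rw 1 [← h4]
      exact neg_add_cancel b
    have hstz : s ≠ t * z := by
      rintro rfl
      rw [map_add, hat', hbt] at hsv
      have h4 : -a = a := add_right_cancel hsv
      apply ha0
      apply hodd
      nth_rw 1 [← h4]
      exact neg_add_cancel a
    have hszt : s * z ≠ t := by
      intro h
      apply hstz
      rw [← h, mul_assoc, hzz, mul_one]
    have hsztz : s * z ≠ t * z := fun h => hst (mul_right_cancel h)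
    have e1 := hdsum t ht
    have e2 := hdsum s hs2
    have l1 := hdle s t (hne1 s hs2) (hne1 t ht) hst
    have l2 := hdle s (t * z) (hne1 s hs2) (hne1 _ htz2) hstz
    have l3 := hdle (s * z) t (hne1 _ hsz2) (hne1 t ht) hszt
    have l4 := hdle (s * z) (t * z) (hne1 _ hsz2) (hne1 _ htz2) hsztz
    omega
  obtain ⟨t₀, ⟨ht₀2, ht₀c⟩, -⟩ := hstabT x₁ hx₁
  have hcard : Nat.card V = q ^ (2 * Module.finrank (ZMod q) (fix ρ t₀)) := by
    have := Fintype.ofFinite V
    rw [hhalf t₀ ht₀2 ht₀c, Nat.card_eq_fintype_card, Module.card_eq_pow_finrank (K := ZMod q),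
      ZMod.card]
  refine ⟨Module.finrank (ZMod q) (fix ρ t₀), hcard, ?_⟩
  set r := Module.finrank (ZMod q) (fix ρ t₀) with hr
  have hq2 : 2 ≤ q := (Fact.out : q.Prime).two_le
  have hr0 : r ≠ 0 := by
    intro h0
    rw [h0, mul_zero, pow_zero] at hcard
    have := Finite.one_lt_card (α := V)
    omega
  have hqr : 2 ≤ q ^ r := le_trans hq2 (Nat.le_self_pow hr0 q)
  -- the count
  have hfixcard : ∀ t : G, orderOf t = 2 → t ∉ Subgroup.center G →
      Nat.card {y : fix ρ t // y ≠ 0} + 1 = q ^ r := by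
    intro t ht htc
    have e := hhalf t ht htc
    have e0 := hhalf t₀ ht₀2 ht₀c
    have hrt : Module.finrank (ZMod q) (fix ρ t) = r := by omega
    rw [← Finite.card_option, Nat.card_congr (Equiv.optionSubtypeNe (0 : fix ρ t))]
    have := Fintype.ofFinite (fix ρ t)
    rw [Nat.card_eq_fintype_card, Module.card_eq_pow_finrank (K := ZMod q), ZMod.card, hrt]
  have hVcard : Nat.card {v : V // v ≠ 0} + 1 = q ^ (2 * r) := by
    rw [← hcard, ← Finite.card_option, Nat.card_congr (Equiv.optionSubtypeNe (0 : V))]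
  let T := {g : G // orderOf g = 2 ∧ g ∉ Subgroup.center G}
  have := Fintype.ofFinite T
  choose f hf using fun v : {v : V // v ≠ 0} => hstabT v.1 v.2
  let F : {v : V // v ≠ 0} → T := fun v => ⟨f v, hf v |>.1⟩
  have hfib : ∀ t : T, Nat.card {x : {v : V // v ≠ 0} // F x = t} =
      Nat.card {y : fix ρ t.1 // y ≠ 0} := by
    intro t
    refine Nat.card_congr
      { toFun := fun x => ⟨⟨x.1.1, ?_⟩, ?_⟩
        invFun := fun y => ⟨⟨y.1.1, ?_⟩, ?_⟩
        left_inv := ?_
        right_inv := ?_ }
    · have h1 := (hf x.1).2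
      have h2 : f x.1 = t.1 := congrArg Subtype.val x.2
      rw [mem_fix, ← h2]
      exact h1
    · intro h0
      apply x.1.2
      exact congrArg Subtype.val h0
    · intro h0
      apply y.2
      exact Subtype.ext h0
    · apply Subtype.ext
      apply stab_unique hstab (v := y.1.1)
      · intro h0
        exact y.2 (Subtype.ext h0)
      · exact hne1 _ (hf _).1.1
      · exact hne1 _ t.2.1
      · exact (hf _).2
      · exact y.1.2
    · intro x
      rfl
    · intro y
      rfl
  have hsum : Nat.card {v : V // v ≠ 0} = Nat.card T * (q ^ r - 1) := by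
    rw [Nat.card_congr (Equiv.sigmaFiberEquiv F).symm, Nat.card_sigma]
    have : ∀ t : T, Nat.card {x : {v : V // v ≠ 0} // F x = t} = q ^ r - 1 := by
      intro t
      rw [hfib t]
      have := hfixcard t.1 t.2.1 t.2.2
      omega
    simp only [this]
    rw [Finset.sum_const, Finset.card_univ, smul_eq_mul, Nat.card_eq_fintype_card]
  obtain ⟨M, hM⟩ : ∃ M, q ^ r = M + 1 := ⟨q ^ r - 1, by omega⟩
  have hM0 : M ≠ 0 := by omega
  change Nat.card T = q ^ r + 1
  rw [hM] at hsum ⊢
  rw [add_tsub_cancel_right] at hsum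
  have h2r : q ^ (2 * r) = (M + 1) ^ 2 := by
    rw [mul_comm, pow_mul, hM]
  rw [h2r, hsum] at hVcard
  have : M * Nat.card T = M * (M + 1 + 1) := by nlinarith
  exact Nat.eq_of_mul_eq_mul_left (Nat.pos_of_ne_zero hM0) this

end Cfsg.Agent.S3381
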