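import Cfsg.Statements.S3382
import Mathlib

set_option autoImplicit false
open Cfsg

namespace Cfsg.Agent.S3382

section abstractPart

variable {G : Type*} [Group G]

theorem step (α : MulAut G) {n : ℕ} (hn : Odd n) (hα : α ^ n = 1) (hG : IsPGroup 2 G) (x : G)
    (hc : α (x⁻¹ * α x) = x⁻¹ * α x) : α x = x := by
  obtain ⟨c, hcdef⟩ : ∃ c, c = x⁻¹ * α x := ⟨_, rfl⟩
  rw [← hcdef] at hc
  have hx : α x = x * c := by rw [hcdef]; group
  have h1 : ∀ j : ℕ, (α ^ j) x = x * c ^ j := by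
    intro j
    induction j with
    | zero => simp
    | succ j ih =>
      rw [pow_succ', MulAut.mul_apply, ih, map_mul, map_pow, hc, hx, pow_succ', mul_assoc]
  have h2 : c ^ n = 1 := by
    have h := h1 n
    rw [hα] at h
    simpa using h
  obtain ⟨k, hk⟩ := hG c
  have h3 : orderOf c ∣ n := orderOf_dvd_of_pow_eq_one h2
  have h4 : orderOf c ∣ 2 ^ k := orderOf_dvd_of_pow_eq_one hk
  have h5 : Nat.Coprime n (2 ^ k) := Nat.Coprime.pow_right _ (Nat.coprime_two_right.mpr hn)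
  have h6 : orderOf c = 1 := Nat.eq_one_of_dvd_coprimes h5 h3 h4
  rw [hx, orderOf_eq_one_iff.mp h6, mul_one]

theorem fix_cyclic [Finite G] (α : MulAut G) {n : ℕ} (hn : Odd n) (hα : α ^ n = 1)
    (hG : IsPGroup 2 G) (S : Subgroup G) [IsCyclic S] (hS : ∀ x ∈ S, α x ∈ S) :
    ∀ x ∈ S, α x = x := by
  classical
  let f : S →* S := ((α.toMonoidHom).comp S.subtype).codRestrict S (fun x => hS x x.2)
  have hinj : Function.Injective f := by
    intro a b h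
    apply Subtype.ext
    apply α.injective
    exact congrArg Subtype.val h
  let β : MulAut S := MulEquiv.ofBijective f (Finite.injective_iff_bijective.mp hinj)
  have hβ : ∀ a : S, ((β a : S) : G) = α a := fun a => rfl
  have hβj : ∀ (j : ℕ) (a : S), (((β ^ j) a : S) : G) = (α ^ j) a := by
    intro j
    induction j with
    | zero => intro a; simp
    | succ j ih =>
      intro a
      rw [pow_succ', MulAut.mul_apply, hβ, ih, pow_succ', MulAut.mul_apply]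
  have hβn : β ^ n = 1 := by
    ext a
    rw [hβj, hα]; rfl
  have hS2 : IsPGroup 2 S := fun x => by
    obtain ⟨k, hk⟩ := hG x
    exact ⟨k, Subtype.ext (by simpa using hk)⟩
  obtain ⟨k, hk⟩ := IsPGroup.iff_card.mp hS2
  have h1 : orderOf β ∣ n := orderOf_dvd_of_pow_eq_one hβn
  have h2 : orderOf β ∣ Nat.card (MulAut S) := orderOf_dvd_natCard β
  rw [IsCyclic.card_mulAut, hk] at h2
  have h3 : Nat.Coprime n (Nat.totient (2 ^ k)) := by
    rcases Nat.eq_zero_or_pos k with rfl | hpos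
    · simp
    · rw [Nat.totient_prime_pow Nat.prime_two hpos]
      simp only [Nat.add_one_sub_one, mul_one, show (2 - 1 : ℕ) = 1 from rfl]
      exact Nat.Coprime.pow_right _ (Nat.coprime_two_right.mpr hn)
  have h4 := Nat.eq_one_of_dvd_coprimes h3 h1 h2
  have h5 : β = 1 := orderOf_eq_one_iff.mp h4
  intro x hx
  have := hβ ⟨x, hx⟩
  rw [h5] at this
  exact this.symm

theorem abs_D_inv (D : Subgroup G) (hc : ∀ x ∈ D, ∀ y ∈ D, x * y = y * x) {k : ℕ}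
    (hout : ∀ t, t ∉ D → t ^ k = 1) (x₀ : G) (hx₀ : x₀ ∈ D) (hx₀k : x₀ ^ k ≠ 1) (α : MulAut G) :
    ∀ d ∈ D, α d ∈ D := by
  have key : ∀ x, x ^ k ≠ 1 → α x ∈ D := by
    intro x hx
    by_contra h
    have h1 := hout _ h
    rw [← map_pow] at h1
    exact hx (α.injective (by simpa using h1))
  intro d hd
  by_cases hdk : d ^ k = 1
  · have h1 : (d * x₀) ^ k ≠ 1 := by
      have h2 : Commute d x₀ := hc d hd x₀ hx₀
      rw [h2.mul_pow, hdk, one_mul]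
      exact hx₀k
    have h3 : d = (d * x₀) * x₀⁻¹ := by group
    rw [h3, map_mul, map_inv]
    exact D.mul_mem (key _ h1) (D.inv_mem (key _ hx₀k))
  · exact key d hdk

theorem abs_out (D : Subgroup G) (hmul : ∀ t, t ∉ D → ∀ u, u ∉ D → t * u ∈ D) (α : MulAut G)
    {n : ℕ} (hn : Odd n) (hα : α ^ n = 1) (hG : IsPGroup 2 G) (hfix : ∀ d ∈ D, α d = d) :
    ∀ x, α x = x := by
  intro x
  by_cases hx : x ∈ D
  · exact hfix x hx
  · apply step α hn hα hG x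
    have hαx : α x ∉ D := by
      intro h
      exact hx ((α.injective (hfix _ h)) ▸ h)
    have hxinv : x⁻¹ ∉ D := fun h => hx (by simpa using D.inv_mem h)
    exact hfix _ (hmul _ hxinv _ hαx)

/-- The subgroup of squares of a commutative subgroup. -/
def sqSub (D : Subgroup G) (hc : ∀ x ∈ D, ∀ y ∈ D, x * y = y * x) : Subgroup G where
  carrier := {x | ∃ d ∈ D, x = d ^ 2}
  mul_mem' := by
    rintro _ _ ⟨d, hd, rfl⟩ ⟨e, he, rfl⟩
    refine ⟨d * e, D.mul_mem hd he, ?_⟩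
    have h2 : Commute d e := hc d hd e he
    rw [h2.mul_pow]
  one_mem' := ⟨1, D.one_mem, by simp⟩
  inv_mem' := by
    rintro _ ⟨d, hd, rfl⟩
    exact ⟨d⁻¹, D.inv_mem hd, by simp⟩

theorem abs_fix [Finite G] (D : Subgroup G) (hc : ∀ x ∈ D, ∀ y ∈ D, x * y = y * x) {k : ℕ}
    (hout : ∀ t, t ∉ D → t ^ k = 1) (x₀ : G) (hx₀ : x₀ ∈ D) (hx₀k : x₀ ^ k ≠ 1)
    [IsCyclic (sqSub D hc)] (z h : G) (hz : z ∈ sqSub D hc) (hz2 : z ^ 2 = 1) (hh : h ∈ D)
    (hh2 : h ^ 2 = 1) (hΩ : ∀ d ∈ D, d ^ 2 = 1 → d = 1 ∨ d = z ∨ d = h ∨ d = z * h)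
    (α : MulAut G) {n : ℕ} (hn : Odd n) (hα : α ^ n = 1) (hG : IsPGroup 2 G) :
    ∀ d ∈ D, α d = d := by
  have hDinv := abs_D_inv D hc hout x₀ hx₀ hx₀k α
  have hSinv : ∀ x ∈ sqSub D hc, α x ∈ sqSub D hc := by
    rintro _ ⟨d, hd, rfl⟩
    exact ⟨α d, hDinv d hd, by rw [map_pow]⟩
  have hSfix := fix_cyclic α hn hα hG (sqSub D hc) hSinv
  have hzfix := hSfix z hz
  have hzD : z ∈ D := by
    obtain ⟨d, hd, rfl⟩ := hz
    exact pow_mem hd 2
  have hhfix : α h = h := by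
    apply step α hn hα hG h
    have hαh2 : (α h) ^ 2 = 1 := by rw [← map_pow, hh2, map_one]
    have hcz : h⁻¹ * α h = 1 ∨ h⁻¹ * α h = z := by
      rcases hΩ (α h) (hDinv h hh) hαh2 with h1 | h1 | h1 | h1
      · have : h = 1 := α.injective (by rw [h1, map_one])
        left; rw [h1, this]; simp
      · have : h = z := α.injective (by rw [h1, hzfix])
        left; rw [h1, this]; simp
      · left; rw [h1]; simp
      · right
        rw [h1]
        have h2 : h * z = z * h := hc h hh z hzD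
        rw [← h2]
        group
    rcases hcz with h1 | h1
    · rw [h1, map_one]
    · rw [h1, hzfix]
  have hΩfix : ∀ d ∈ D, d ^ 2 = 1 → α d = d := by
    intro d hd hd2
    rcases hΩ d hd hd2 with rfl | rfl | rfl | rfl
    · exact map_one α
    · exact hzfix
    · exact hhfix
    · rw [map_mul, hzfix, hhfix]
  intro d hd
  apply step α hn hα hG d
  apply hΩfix _ (D.mul_mem (D.inv_mem hd) (hDinv d hd))
  have h1 : Commute d⁻¹ (α d) := hc _ (D.inv_mem hd) _ (hDinv d hd)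
  rw [h1.mul_pow, ← map_pow, hSfix (d ^ 2) ⟨d, hd, rfl⟩]
  group

/-- Final reduction to odd-order automorphisms. -/
theorem isPGroup_of_odd [Finite G] (H : ∀ (α : MulAut G) (n : ℕ), Odd n → α ^ n = 1 → α = 1) :
    IsPGroup 2 (MulAut G) := by
  intro α
  obtain ⟨e, r, hr, he⟩ := Nat.exists_eq_two_pow_mul_odd (n := orderOf α)
    (orderOf_pos α).ne'
  refine ⟨e, H _ r hr ?_⟩
  rw [← pow_mul, ← he, pow_orderOf_eq_one]

end abstractPart

section concretePart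

variable {q : ℕ} [Fact q.Prime]

/-- Diagonal form. -/
def IsDg (f : (Fin 2 → ZMod q) ≃ₗ[ZMod q] (Fin 2 → ZMod q)) (a e : ZMod q) : Prop :=
  ∀ v, f v = ![a * v 0, e * v 1]

/-- Antidiagonal form. -/
def IsAg (f : (Fin 2 → ZMod q) ≃ₗ[ZMod q] (Fin 2 → ZMod q)) (a e : ZMod q) : Prop :=
  ∀ v, f v = ![e * v 1, a * v 0]

variable {f g : (Fin 2 → ZMod q) ≃ₗ[ZMod q] (Fin 2 → ZMod q)} {a b e d : ZMod q}

theorem vec_ext {x y : Fin 2 → ZMod q} (h0 : x 0 = y 0) (h1 : x 1 = y 1) : x = y := by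
  ext i
  fin_cases i
  · exact h0
  · exact h1

theorem dg_dg (hf : IsDg f a e) (hg : IsDg g b d) : IsDg (f * g) (a * b) (e * d) := by
  intro v
  show f (g v) = _
  rw [hg v, hf]
  apply vec_ext <;> simp <;> ring

theorem ag_ag (hf : IsAg f a e) (hg : IsAg g b d) : IsDg (f * g) (e * b) (a * d) := by
  intro v
  show f (g v) = _
  rw [hg v, hf]
  apply vec_ext <;> simp <;> ring

theorem dg_ag (hf : IsDg f a e) (hg : IsAg g b d) : IsAg (f * g) (e * b) (a * d) := by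
  intro v
  show f (g v) = _
  rw [hg v, hf]
  apply vec_ext <;> simp <;> ring

theorem ag_dg (hf : IsAg f a e) (hg : IsDg g b d) : IsAg (f * g) (a * b) (e * d) := by
  intro v
  show f (g v) = _
  rw [hg v, hf]
  apply vec_ext <;> simp <;> ring

theorem dg_one : IsDg (1 : (Fin 2 → ZMod q) ≃ₗ[ZMod q] (Fin 2 → ZMod q)) 1 1 := by
  intro v
  show v = _
  apply vec_ext <;> simp

theorem eq_of_dg (hf : IsDg f a e) (hg : IsDg g a e) : f = g := by
  apply LinearEquiv.ext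
  intro v
  rw [hf, hg]

theorem eq_of_ag (hf : IsAg f a e) (hg : IsAg g a e) : f = g := by
  apply LinearEquiv.ext
  intro v
  rw [hf, hg]

theorem dg_inv (hf : IsDg f a e) (ha : a ≠ 0) (he : e ≠ 0) : IsDg f⁻¹ a⁻¹ e⁻¹ := by
  intro v
  apply f.injective
  have h1 : f (f⁻¹ v) = v := by
    show (f * f⁻¹) v = v
    simp
  rw [h1, hf]
  apply vec_ext <;> simp [ha, he]

theorem dg_pow (hf : IsDg f a e) (n : ℕ) : IsDg (f ^ n) (a ^ n) (e ^ n) := by
  induction n with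
  | zero => simpa using dg_one
  | succ n ih =>
    rw [pow_succ, pow_succ, pow_succ]
    exact dg_dg ih hf

/-- Explicit diagonal equivalences. -/
def mkD (a e : ZMod q) (ha : a ≠ 0) (he : e ≠ 0) :
    (Fin 2 → ZMod q) ≃ₗ[ZMod q] (Fin 2 → ZMod q) where
  toFun v := ![a * v 0, e * v 1]
  invFun v := ![a⁻¹ * v 0, e⁻¹ * v 1]
  map_add' x y := by apply vec_ext <;> simp <;> ring
  map_smul' c x := by apply vec_ext <;> simp <;> ring
  left_inv x := by apply vec_ext <;> simp [ha, he]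
  right_inv x := by apply vec_ext <;> simp [ha, he]

theorem mkD_dg (a e : ZMod q) (ha : a ≠ 0) (he : e ≠ 0) : IsDg (mkD a e ha he) a e := fun _ => rfl

/-- Explicit antidiagonal equivalences. -/
def mkA (a e : ZMod q) (ha : a ≠ 0) (he : e ≠ 0) :
    (Fin 2 → ZMod q) ≃ₗ[ZMod q] (Fin 2 → ZMod q) where
  toFun v := ![e * v 1, a * v 0]
  invFun v := ![a⁻¹ * v 1, e⁻¹ * v 0]
  map_add' x y := by apply vec_ext <;> simp <;> ring
  map_smul' c x := by apply vec_ext <;> simp <;> ring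
  left_inv x := by apply vec_ext <;> simp [ha, he]
  right_inv x := by apply vec_ext <;> simp [ha, he]

theorem mkA_ag (a e : ZMod q) (ha : a ≠ 0) (he : e ≠ 0) : IsAg (mkA a e ha he) a e := fun _ => rfl

theorem finite_equiv : Finite ((Fin 2 → ZMod q) ≃ₗ[ZMod q] (Fin 2 → ZMod q)) := by
  haveI : NeZero q := ⟨(Fact.out : q.Prime).ne_zero⟩
  exact Finite.of_injective (fun f : (Fin 2 → ZMod q) ≃ₗ[ZMod q] (Fin 2 → ZMod q) =>
    (f : (Fin 2 → ZMod q) → (Fin 2 → ZMod q))) DFunLike.coe_injective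

/-- The diagonal subgroup. -/
def Dsub (T : Subgroup ((Fin 2 → ZMod q) ≃ₗ[ZMod q] (Fin 2 → ZMod q))) : Subgroup T where
  carrier := {f | ∃ a s : ZMod q, a ≠ 0 ∧ (s = 1 ∨ s = -1) ∧ IsDg (f : (Fin 2 → ZMod q) ≃ₗ[ZMod q] (Fin 2 → ZMod q)) a (s * a⁻¹)}
  mul_mem' := by
    rintro f g ⟨a, s, ha, hs, hf⟩ ⟨b, r, hb, hr, hg⟩
    refine ⟨a * b, s * r, mul_ne_zero ha hb, ?_, ?_⟩
    · rcases hs with rfl | rfl <;> rcases hr with rfl | rfl <;> simp
    · have h1 := dg_dg hf hg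
      have h2 : s * r * (a * b)⁻¹ = s * a⁻¹ * (r * b⁻¹) := by
        rw [mul_inv]; ring
      rw [h2]
      exact h1
  one_mem' := ⟨1, 1, one_ne_zero, Or.inl rfl, by simpa using dg_one⟩
  inv_mem' := by
    rintro f ⟨a, s, ha, hs, hf⟩
    have hs0 : s ≠ 0 := by
      rcases hs with rfl | rfl <;> simp
    refine ⟨a⁻¹, s, inv_ne_zero ha, hs, ?_⟩
    have h1 := dg_inv hf ha (mul_ne_zero hs0 (inv_ne_zero ha))
    have h2 : (s * a⁻¹)⁻¹ = s * a⁻¹⁻¹ := by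
      rw [mul_inv]
      congr 1
      rcases hs with rfl | rfl <;> simp
    rw [h2] at h1
    exact h1

end concretePart

section concreteTwo

variable {q : ℕ} [Fact q.Prime]
variable (T : Subgroup ((Fin 2 → ZMod q) ≃ₗ[ZMod q] (Fin 2 → ZMod q)))

theorem mem_or (hT : ∀ f, f ∈ T ↔ ∃ a s : ZMod q, a ≠ 0 ∧ (s = 1 ∨ s = -1) ∧
      ((∀ v, f v = ![a * v 0, s * a⁻¹ * v 1]) ∨ (∀ v, f v = ![s * a⁻¹ * v 1, a * v 0])))
    (f : T) : f ∈ Dsub T ∨ ∃ a s : ZMod q, a ≠ 0 ∧ (s = 1 ∨ s = -1) ∧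
      IsAg (f : (Fin 2 → ZMod q) ≃ₗ[ZMod q] (Fin 2 → ZMod q)) a (s * a⁻¹) := by
  obtain ⟨a, s, ha, hs, h | h⟩ := (hT f.1).1 f.2
  · left; exact ⟨a, s, ha, hs, h⟩
  · right; exact ⟨a, s, ha, hs, h⟩

variable {f g : (Fin 2 → ZMod q) ≃ₗ[ZMod q] (Fin 2 → ZMod q)} {a b e d a' e' : ZMod q}

theorem dg_unique (hf : IsDg f a e) (hg : IsDg f a' e') : a = a' ∧ e = e' := by
  have h := hf ![1, 1]
  rw [hg] at h
  have h0 := congrFun h 0
  have h1 := congrFun h 1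
  simp at h0 h1
  exact ⟨h0.symm, h1.symm⟩

theorem ag_four (hf : IsAg f a (b * a⁻¹)) (ha : a ≠ 0) (hs : b = 1 ∨ b = -1) : f ^ 4 = 1 := by
  have h2 := ag_ag hf hf
  have h3 := dg_dg h2 h2
  have h4 : f ^ 4 = f * f * (f * f) := by simp only [pow_succ, pow_zero, one_mul, mul_assoc]
  rw [h4]
  have h5 : b * a⁻¹ * a * (b * a⁻¹ * a) = 1 := by
    rw [mul_assoc b, inv_mul_cancel₀ ha, mul_one]
    rcases hs with rfl | rfl <;> simp
  have h6 : a * (b * a⁻¹) * (a * (b * a⁻¹)) = 1 := by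
    have : a * (b * a⁻¹) = b := by field_simp
    rw [this]
    rcases hs with rfl | rfl <;> simp
  rw [h5, h6] at h3
  exact eq_of_dg h3 dg_one

theorem pgroup_T (m : ℕ) (hq : q = 2 ^ m + 1)
    (hT : ∀ f, f ∈ T ↔ ∃ a s : ZMod q, a ≠ 0 ∧ (s = 1 ∨ s = -1) ∧
      ((∀ v, f v = ![a * v 0, s * a⁻¹ * v 1]) ∨ (∀ v, f v = ![s * a⁻¹ * v 1, a * v 0]))) :
    IsPGroup 2 T := by
  intro f
  have hcard : q - 1 = 2 ^ m := by rw [hq]; simp
  rcases mem_or T hT f with ⟨a, s, ha, hs, hf⟩ | ⟨a, s, ha, hs, hf⟩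
  · refine ⟨m, Subtype.ext ?_⟩
    have h1 := dg_pow hf (2 ^ m)
    rw [← hcard] at h1 ⊢
    have hs0 : s ≠ 0 := by
      rcases hs with rfl | rfl <;> simp
    rw [ZMod.pow_card_sub_one_eq_one ha,
      ZMod.pow_card_sub_one_eq_one (mul_ne_zero hs0 (inv_ne_zero ha))] at h1
    exact eq_of_dg h1 dg_one
  · refine ⟨2, Subtype.ext ?_⟩
    exact ag_four hf ha hs

theorem dsub_comm : ∀ x ∈ Dsub T, ∀ y ∈ Dsub T, x * y = y * x := by
  rintro x ⟨a, s, -, -, hf⟩ y ⟨b, r, -, -, hg⟩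
  apply Subtype.ext
  have h1 := dg_dg hf hg
  have h2 := dg_dg hg hf
  rw [mul_comm a b, mul_comm (s * a⁻¹)] at h1
  exact eq_of_dg h1 h2

theorem dsub_out (hT : ∀ f, f ∈ T ↔ ∃ a s : ZMod q, a ≠ 0 ∧ (s = 1 ∨ s = -1) ∧
      ((∀ v, f v = ![a * v 0, s * a⁻¹ * v 1]) ∨ (∀ v, f v = ![s * a⁻¹ * v 1, a * v 0]))) :
    ∀ t, t ∉ Dsub T → t ^ 4 = 1 := by
  intro t ht
  rcases mem_or T hT t with h | ⟨a, s, ha, hs, hf⟩
  · exact absurd h ht
  · exact Subtype.ext (ag_four hf ha hs)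

theorem dsub_mul (hT : ∀ f, f ∈ T ↔ ∃ a s : ZMod q, a ≠ 0 ∧ (s = 1 ∨ s = -1) ∧
      ((∀ v, f v = ![a * v 0, s * a⁻¹ * v 1]) ∨ (∀ v, f v = ![s * a⁻¹ * v 1, a * v 0]))) :
    ∀ t, t ∉ Dsub T → ∀ u, u ∉ Dsub T → t * u ∈ Dsub T := by
  intro t ht u hu
  rcases mem_or T hT t with h | ⟨a, s, ha, hs, hf⟩
  · exact absurd h ht
  rcases mem_or T hT u with h | ⟨b, r, hb, hr, hg⟩
  · exact absurd h hu
  have hs0 : s ≠ 0 := by
    rcases hs with rfl | rfl <;> simp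
  refine ⟨s * a⁻¹ * b, s * r, mul_ne_zero (mul_ne_zero hs0 (inv_ne_zero ha)) hb, ?_, ?_⟩
  · rcases hs with rfl | rfl <;> rcases hr with rfl | rfl <;> simp
  · have h1 := ag_ag hf hg
    have h2 : s * r * (s * a⁻¹ * b)⁻¹ = a * (r * b⁻¹) := by
      have hss : s⁻¹ = s := by rcases hs with rfl | rfl <;> simp
      rw [mul_inv, mul_inv, hss, inv_inv]
      have hss2 : s * s = 1 := by rcases hs with rfl | rfl <;> simp
      calc s * r * (s * a * b⁻¹) = (s * s) * (a * (r * b⁻¹)) := by ring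
        _ = _ := by rw [hss2, one_mul]
    rw [h2]
    exact h1

theorem no_dvd15 (q : ℕ) (hp : q.Prime) (h9 : 9 ≤ q) : ¬ q ∣ 15 := by
  intro h
  have h1 := Nat.le_of_dvd (by norm_num) h
  interval_cases q <;> first | omega | (norm_num at hp)

/-- The big case. -/
theorem case_big (hq9 : 9 ≤ q) (hq4 : q % 4 = 1) (hT : ∀ f, f ∈ T ↔ ∃ a s : ZMod q, a ≠ 0 ∧ (s = 1 ∨ s = -1) ∧
      ((∀ v, f v = ![a * v 0, s * a⁻¹ * v 1]) ∨ (∀ v, f v = ![s * a⁻¹ * v 1, a * v 0])))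
    (hP : IsPGroup 2 T)
    (α : MulAut T) (n : ℕ) (hn : Odd n) (hα : α ^ n = 1) : α = 1 := by
  haveI : Finite ((Fin 2 → ZMod q) ≃ₗ[ZMod q] (Fin 2 → ZMod q)) := finite_equiv
  have hp : q.Prime := Fact.out
  have hc := dsub_comm T
  have hpm : ∀ s : ZMod q, (s = 1 ∨ s = -1) → s ≠ 0 := by
    rintro s (rfl | rfl) <;> simp
  -- element builder
  have mk : ∀ (a s : ZMod q), a ≠ 0 → (s = 1 ∨ s = -1) → ∃ x : T, x ∈ Dsub T ∧
      IsDg (x : (Fin 2 → ZMod q) ≃ₗ[ZMod q] (Fin 2 → ZMod q)) a (s * a⁻¹) := by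
    intro a s ha hs
    have hne := mul_ne_zero (hpm s hs) (inv_ne_zero ha)
    refine ⟨⟨mkD a (s * a⁻¹) ha hne,
      (hT _).2 ⟨a, s, ha, hs, Or.inl (mkD_dg a (s * a⁻¹) ha hne)⟩⟩,
      ⟨a, s, ha, hs, mkD_dg a (s * a⁻¹) ha hne⟩, mkD_dg a (s * a⁻¹) ha hne⟩
  have h20 : (2 : ZMod q) ≠ 0 := by
    intro h
    have h1 : ((2 : ℕ) : ZMod q) = 0 := by exact_mod_cast h
    rw [ZMod.natCast_eq_zero_iff] at h1
    have := Nat.le_of_dvd (by norm_num) h1
    omega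
  have h24 : (2 : ZMod q) ^ 4 ≠ 1 := by
    intro h
    have h1 : ((15 : ℕ) : ZMod q) = 0 := by
      have : ((15 : ℕ) : ZMod q) = (2 : ZMod q) ^ 4 - 1 := by norm_num
      rw [this, h, sub_self]
    rw [ZMod.natCast_eq_zero_iff] at h1
    exact no_dvd15 q hp hq9 h1
  obtain ⟨x₀, hx₀, hx₀f⟩ := mk 2 1 h20 (Or.inl rfl)
  have hx₀4 : x₀ ^ 4 ≠ 1 := by
    intro h
    have h1 := dg_pow hx₀f 4
    have h2 : (x₀ : (Fin 2 → ZMod q) ≃ₗ[ZMod q] (Fin 2 → ZMod q)) ^ 4 = 1 := by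
      have := congrArg Subtype.val h
      simpa using this
    rw [h2] at h1
    exact h24 (dg_unique h1 dg_one).1
  obtain ⟨z, hzD, hzf⟩ := mk (-1) 1 (by simp) (Or.inl rfl)
  obtain ⟨h, hhD, hhf⟩ := mk 1 (-1) one_ne_zero (Or.inr rfl)
  obtain ⟨i, hi⟩ : ∃ i : ZMod q, i * i = -1 := by
    have h1 : IsSquare (-1 : ZMod q) := ZMod.exists_sq_eq_neg_one_iff.mpr (by omega)
    obtain ⟨i, hi⟩ := h1
    exact ⟨i, hi.symm⟩
  have hi0 : i ≠ 0 := by
    rintro rfl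
    simp at hi
  obtain ⟨y, hyD, hyf⟩ := mk i 1 hi0 (Or.inl rfl)
  have hz : z ∈ sqSub (Dsub T) hc := by
    refine ⟨y, hyD, Subtype.ext ?_⟩
    have h1 := dg_pow hyf 2
    have h2 : i ^ 2 = -1 := by rw [pow_two, hi]
    have h3 : (1 * i⁻¹) ^ 2 = -1 := by
      rw [one_mul, inv_pow, h2]; simp
    rw [h2, h3] at h1
    have h4 : (1 : ZMod q) * (-1 : ZMod q)⁻¹ = -1 := by simp
    rw [h4] at hzf
    exact eq_of_dg hzf h1
  have hzf' : IsDg (z : (Fin 2 → ZMod q) ≃ₗ[ZMod q] (Fin 2 → ZMod q)) (-1) (-1) := by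
    have h4 : (1 : ZMod q) * (-1 : ZMod q)⁻¹ = -1 := by simp
    rwa [h4] at hzf
  have hhf' : IsDg (h : (Fin 2 → ZMod q) ≃ₗ[ZMod q] (Fin 2 → ZMod q)) 1 (-1) := by
    have h4 : (-1 : ZMod q) * (1 : ZMod q)⁻¹ = -1 := by simp
    rwa [h4] at hhf
  have hz2 : z ^ 2 = 1 := by
    apply Subtype.ext
    have h1 := dg_pow hzf' 2
    have h2 : (-1 : ZMod q) ^ 2 = 1 := by simp
    rw [h2] at h1
    exact eq_of_dg h1 dg_one
  have hh2 : h ^ 2 = 1 := by
    apply Subtype.ext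
    have h1 := dg_pow hhf' 2
    have h2 : (-1 : ZMod q) ^ 2 = 1 := by simp
    rw [h2, one_pow] at h1
    exact eq_of_dg h1 dg_one
  have hΩ : ∀ d ∈ Dsub T, d ^ 2 = 1 → d = 1 ∨ d = z ∨ d = h ∨ d = z * h := by
    rintro d ⟨a, s, ha, hs, hf⟩ hd2
    have h1 := dg_pow hf 2
    have h2 : (d : (Fin 2 → ZMod q) ≃ₗ[ZMod q] (Fin 2 → ZMod q)) ^ 2 = 1 := by
      have := congrArg Subtype.val hd2
      simpa using this
    rw [h2] at h1
    obtain ⟨h3, h4⟩ := dg_unique h1 dg_one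
    rw [pow_two, mul_self_eq_one_iff] at h3 h4
    rcases h3 with rfl | rfl <;> rcases h4 with h4 | h4 <;> rw [h4] at hf
    · left; exact Subtype.ext (eq_of_dg hf dg_one)
    · right; right; left; exact Subtype.ext (eq_of_dg hf hhf')
    · right; right; right
      apply Subtype.ext
      have h5 := dg_dg hzf' hhf'
      have h6 : (-1 : ZMod q) * 1 = -1 := by simp
      have h7 : (-1 : ZMod q) * (-1) = 1 := by simp
      rw [h6, h7] at h5
      exact eq_of_dg hf h5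
    · right; left; exact Subtype.ext (eq_of_dg hf hzf')
  have hsq : ∀ x ∈ sqSub (Dsub T) hc, ∃ c : ZMod q, c ≠ 0 ∧
      IsDg (x : (Fin 2 → ZMod q) ≃ₗ[ZMod q] (Fin 2 → ZMod q)) c c⁻¹ := by
    rintro _ ⟨d, ⟨a, s, ha, hs, hf⟩, rfl⟩
    refine ⟨a ^ 2, pow_ne_zero _ ha, ?_⟩
    have h1 := dg_pow hf 2
    have h2 : (s * a⁻¹) ^ 2 = (a ^ 2)⁻¹ := by
      have hss2 : s ^ 2 = 1 := by rcases hs with rfl | rfl <;> simp
      rw [mul_pow, hss2, one_mul, inv_pow]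
    rw [h2] at h1
    exact h1
  have hval : ∀ (x : (Fin 2 → ZMod q) ≃ₗ[ZMod q] (Fin 2 → ZMod q)) (c : ZMod q) (e : ZMod q),
      IsDg x c e → (x ![1, 0]) 0 = c := by
    intro x c e hx
    rw [hx]
    simp
  haveI : IsCyclic (sqSub (Dsub T) hc) := by
    let χ : sqSub (Dsub T) hc →* ZMod q :=
      { toFun := fun x => ((x.1.1) ![1, 0]) 0
        map_one' := by
          show ((1 : (Fin 2 → ZMod q) ≃ₗ[ZMod q] (Fin 2 → ZMod q)) ![1, 0]) 0 = 1
          exact hval _ _ _ dg_one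
        map_mul' := by
          rintro x y
          obtain ⟨c, -, hx⟩ := hsq x.1 x.2
          obtain ⟨c', -, hy⟩ := hsq y.1 y.2
          show ((x.1.1 * y.1.1) ![1, 0]) 0 = (x.1.1 ![1, 0]) 0 * (y.1.1 ![1, 0]) 0
          rw [hval _ _ _ (dg_dg hx hy), hval _ _ _ hx, hval _ _ _ hy] }
    apply isCyclic_of_injective_ringHom χ
    intro x y hxy
    obtain ⟨c, -, hx⟩ := hsq x.1 x.2
    obtain ⟨c', -, hy⟩ := hsq y.1 y.2
    have h1 : ((x.1.1) ![1, 0]) 0 = ((y.1.1) ![1, 0]) 0 := hxy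
    rw [hval _ _ _ hx, hval _ _ _ hy] at h1
    subst h1
    exact Subtype.ext (Subtype.ext (eq_of_dg hx hy))
  have hfix := abs_fix (Dsub T) hc (dsub_out T hT) x₀ hx₀ hx₀4 z h hz hz2 hhD hh2 hΩ α hn hα hP
  have hall := abs_out (Dsub T) (dsub_mul T hT) α hn hα hP hfix
  exact MulEquiv.ext hall

end concreteTwo

section small

/-- `q = 2`. -/
theorem case_two
    (T : Subgroup ((Fin 2 → ZMod 2) ≃ₗ[ZMod 2] (Fin 2 → ZMod 2)))
    (hT : ∀ f, f ∈ T ↔ ∃ a s : ZMod 2, a ≠ 0 ∧ (s = 1 ∨ s = -1) ∧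
      ((∀ v, f v = ![a * v 0, s * a⁻¹ * v 1]) ∨ (∀ v, f v = ![s * a⁻¹ * v 1, a * v 0])))
    (α : MulAut T) : α = 1 := by
  have hnum1 : ∀ a : ZMod 2, a ≠ 0 → a = 1 := by decide
  have hnum2 : ∀ s : ZMod 2, (s = 1 ∨ s = -1) → s = 1 := by decide
  have hform : ∀ x : T, x = 1 ∨ IsAg (x : (Fin 2 → ZMod 2) ≃ₗ[ZMod 2] (Fin 2 → ZMod 2)) 1 1 := by
    intro x
    rcases mem_or T hT x with ⟨a, s, ha, hs, hf⟩ | ⟨a, s, ha, hs, hf⟩
    · left
      rw [hnum1 a ha, hnum2 s hs, inv_one, one_mul] at hf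
      exact Subtype.ext (eq_of_dg hf dg_one)
    · right
      rw [hnum1 a ha, hnum2 s hs, inv_one, one_mul] at hf
      exact hf
  apply MulEquiv.ext
  intro x
  rcases hform x with rfl | hx
  · exact map_one α
  · rcases hform (α x) with h | h
    · have h1 : x = 1 := α.injective (by rw [h, map_one])
      rw [h1]
      exact map_one α
    · exact Subtype.ext (eq_of_ag h hx)

/-- `q = 3`. -/
theorem case_three
    (T : Subgroup ((Fin 2 → ZMod 3) ≃ₗ[ZMod 3] (Fin 2 → ZMod 3)))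
    (hT : ∀ f, f ∈ T ↔ ∃ a s : ZMod 3, a ≠ 0 ∧ (s = 1 ∨ s = -1) ∧
      ((∀ v, f v = ![a * v 0, s * a⁻¹ * v 1]) ∨ (∀ v, f v = ![s * a⁻¹ * v 1, a * v 0])))
    (hP : IsPGroup 2 T)
    (α : MulAut T) (n : ℕ) (hn : Odd n) (hα : α ^ n = 1) : α = 1 := by
  haveI : Finite ((Fin 2 → ZMod 3) ≃ₗ[ZMod 3] (Fin 2 → ZMod 3)) := finite_equiv
  have h1ne : (1 : ZMod 3) ≠ 0 := by decide
  have hm1ne : (-1 : ZMod 3) ≠ 0 := by decide
  have hnum : ∀ a : ZMod 3, a ≠ 0 → a = 1 ∨ a = -1 := by decide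
  have hnum2 : ∀ a : ZMod 3, a ≠ 0 → a * a = 1 := by decide
  have hinv : ∀ a : ZMod 3, a ≠ 0 → a⁻¹ = a := by
    intro a ha
    rcases hnum a ha with rfl | rfl <;> simp
  have hf₀T : mkA (1 : ZMod 3) (-1) h1ne hm1ne ∈ T := by
    refine (hT _).2 ⟨1, -1, h1ne, Or.inr rfl, Or.inr (fun v => ?_)⟩
    rw [inv_one, mul_one]
    exact mkA_ag (1 : ZMod 3) (-1) h1ne hm1ne v
  obtain ⟨f₀, hf₀⟩ : ∃ f₀ : T, IsAg (f₀ : (Fin 2 → ZMod 3) ≃ₗ[ZMod 3] (Fin 2 → ZMod 3)) 1 (-1) :=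
    ⟨⟨_, hf₀T⟩, mkA_ag (1 : ZMod 3) (-1) h1ne hm1ne⟩
  have hf₀2 : IsDg ((f₀ * f₀ : T) : (Fin 2 → ZMod 3) ≃ₗ[ZMod 3] (Fin 2 → ZMod 3)) (-1) (-1) := by
    have h1 := ag_ag hf₀ hf₀
    have h2 : (-1 : ZMod 3) * 1 = -1 := by decide
    have h3 : (1 : ZMod 3) * (-1) = -1 := by decide
    rw [h2, h3] at h1
    exact h1
  have hgood1 : ∀ (t : T) (a : ZMod 3), a ≠ 0 →
      IsDg (t : (Fin 2 → ZMod 3) ≃ₗ[ZMod 3] (Fin 2 → ZMod 3)) a a → t ∈ Subgroup.zpowers f₀ := by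
    intro t a ha ht
    rcases hnum a ha with rfl | rfl
    · have : t = 1 := Subtype.ext (eq_of_dg ht dg_one)
      rw [this]
      exact Subgroup.one_mem _
    · have : t = f₀ * f₀ := Subtype.ext (eq_of_dg ht hf₀2)
      rw [this]
      exact Subgroup.mul_mem _ (Subgroup.mem_zpowers f₀) (Subgroup.mem_zpowers f₀)
  have hgood2 : ∀ (t : T) (a : ZMod 3), a ≠ 0 →
      IsAg (t : (Fin 2 → ZMod 3) ≃ₗ[ZMod 3] (Fin 2 → ZMod 3)) a (-a) → t ∈ Subgroup.zpowers f₀ := by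
    intro t a ha ht
    rcases hnum a ha with rfl | rfl
    · have : t = f₀ := Subtype.ext (eq_of_ag ht hf₀)
      rw [this]
      exact Subgroup.mem_zpowers f₀
    · have h1 := ag_ag ht hf₀
      have h2 : (- -1 : ZMod 3) * 1 = 1 := by decide
      have h3 : (-1 : ZMod 3) * (-1) = 1 := by decide
      rw [h2, h3] at h1
      have h4 : t * f₀ = 1 := Subtype.ext (eq_of_dg h1 dg_one)
      have h5 : t = f₀⁻¹ := eq_inv_of_mul_eq_one_left h4
      rw [h5]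
      exact Subgroup.inv_mem _ (Subgroup.mem_zpowers f₀)
  have hall : ∀ t : T, t ∈ Subgroup.zpowers f₀ ∨
      (∃ a : ZMod 3, a ≠ 0 ∧ IsDg (t : (Fin 2 → ZMod 3) ≃ₗ[ZMod 3] (Fin 2 → ZMod 3)) a (-a)) ∨
      (∃ a : ZMod 3, a ≠ 0 ∧ IsAg (t : (Fin 2 → ZMod 3) ≃ₗ[ZMod 3] (Fin 2 → ZMod 3)) a a) := by
    intro t
    rcases mem_or T hT t with ⟨a, s, ha, hs, hf⟩ | ⟨a, s, ha, hs, hf⟩
    · rw [hinv a ha] at hf
      rcases hs with rfl | rfl
      · rw [one_mul] at hf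
        exact Or.inl (hgood1 t a ha hf)
      · rw [neg_one_mul] at hf
        exact Or.inr (Or.inl ⟨a, ha, hf⟩)
    · rw [hinv a ha] at hf
      rcases hs with rfl | rfl
      · rw [one_mul] at hf
        exact Or.inr (Or.inr ⟨a, ha, hf⟩)
      · rw [neg_one_mul] at hf
        exact Or.inl (hgood2 t a ha hf)
  have hc : ∀ x ∈ Subgroup.zpowers f₀, ∀ y ∈ Subgroup.zpowers f₀, x * y = y * x := by
    rintro _ ⟨i, rfl⟩ _ ⟨j, rfl⟩
    exact (Commute.refl f₀).zpow_zpow i j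
  have hout : ∀ t, t ∉ Subgroup.zpowers f₀ → t ^ 2 = 1 := by
    intro t ht
    rw [pow_two]
    apply Subtype.ext
    rcases hall t with h | ⟨a, ha, hf⟩ | ⟨a, ha, hf⟩
    · exact absurd h ht
    · have h1 := dg_dg hf hf
      rw [neg_mul_neg, hnum2 a ha] at h1
      exact eq_of_dg h1 dg_one
    · have h1 := ag_ag hf hf
      rw [hnum2 a ha] at h1
      exact eq_of_dg h1 dg_one
  have hmul : ∀ t, t ∉ Subgroup.zpowers f₀ → ∀ u, u ∉ Subgroup.zpowers f₀ →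
      t * u ∈ Subgroup.zpowers f₀ := by
    intro t ht u hu
    rcases hall t with h | ⟨a, ha, hf⟩ | ⟨a, ha, hf⟩
    · exact absurd h ht
    · rcases hall u with h | ⟨b, hb, hg⟩ | ⟨b, hb, hg⟩
      · exact absurd h hu
      · have h1 := dg_dg hf hg
        rw [neg_mul_neg] at h1
        exact hgood1 _ _ (mul_ne_zero ha hb) h1
      · have h1 := dg_ag hf hg
        have h2 : a * b = - (-a * b) := by ring
        rw [h2] at h1
        exact hgood2 _ _ (mul_ne_zero (neg_ne_zero.mpr ha) hb) h1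
    · rcases hall u with h | ⟨b, hb, hg⟩ | ⟨b, hb, hg⟩
      · exact absurd h hu
      · have h1 := ag_dg hf hg
        have h2 : a * -b = - (a * b) := by ring
        rw [h2] at h1
        exact hgood2 _ _ (mul_ne_zero ha hb) h1
      · have h1 := ag_ag hf hg
        exact hgood1 _ _ (mul_ne_zero ha hb) h1
  have hf₀ne : f₀ ^ 2 ≠ 1 := by
    intro h
    rw [pow_two] at h
    have h1 := hf₀2
    rw [h] at h1
    have h2 := (dg_unique h1 dg_one).1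
    exact absurd h2 (by decide)
  have hinvD := abs_D_inv (Subgroup.zpowers f₀) hc hout f₀ (Subgroup.mem_zpowers f₀) hf₀ne α
  have hfix := fix_cyclic α hn hα hP (Subgroup.zpowers f₀) hinvD
  exact MulEquiv.ext (abs_out (Subgroup.zpowers f₀) hmul α hn hα hP hfix)

end small


/-- Let q = 2^m + 1 be a prime other than 5. Then the automorphism group of the group of linear maps of F_q² of the forms (x, y) ↦ (a x, ± a⁻¹ y) and (x, y) ↦ (± a⁻¹ y, a x) with a ≠ 0 is itself a 2-group. -/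
theorem result (q m : ℕ) [Fact q.Prime] (hq : q = 2 ^ m + 1) (hq5 : q ≠ 5)
    (T : Subgroup ((Fin 2 → ZMod q) ≃ₗ[ZMod q] (Fin 2 → ZMod q)))
    (hT : ∀ f, f ∈ T ↔ ∃ a s : ZMod q, a ≠ 0 ∧ (s = 1 ∨ s = -1) ∧
      ((∀ v, f v = ![a * v 0, s * a⁻¹ * v 1]) ∨ (∀ v, f v = ![s * a⁻¹ * v 1, a * v 0]))) :
    IsPGroup 2 (MulAut T) := by
  classical
  have hp : q.Prime := Fact.out
  have hP : IsPGroup 2 T := pgroup_T T m hq hT
  haveI : Finite ((Fin 2 → ZMod q) ≃ₗ[ZMod q] (Fin 2 → ZMod q)) := finite_equiv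
  apply isPGroup_of_odd
  intro α n hn hα
  rcases Nat.lt_or_ge m 3 with hm | hm
  · interval_cases m
    · have h2 : q = 2 := by rw [hq]; rfl
      subst h2
      exact case_two T hT α
    · have h3 : q = 3 := by rw [hq]; rfl
      subst h3
      exact case_three T hT hP α n hn hα
    · exact absurd (by rw [hq]; rfl) hq5
  · have h8 : 2 ^ 3 ≤ 2 ^ m := Nat.pow_le_pow_right (by norm_num) hm
    have h9 : 9 ≤ q := by omega
    have h4 : q % 4 = 1 := by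
      obtain ⟨k, rfl⟩ : ∃ k, m = k + 2 := ⟨m - 2, by omega⟩
      rw [hq, pow_add]
      omega
    exact case_big T h9 h4 hT hP α n hn hα

end Cfsg.Agent.S3382
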