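import Cfsg.Statements.S3419
import Mathlib
import Cfsg.Agent.Lib.Solvable.Hall
import Cfsg.Agent.Lib.Basic.TwoPrimes
-- import your own Cfsg.Agent.* helpers here

set_option autoImplicit false
open Cfsg

namespace Cfsg.Agent.S3419

theorem aux_dvd_lcm {p : ℕ} (hp : p.Prime) (s : Multiset ℕ) (h : p ∣ s.lcm) : ∃ a ∈ s, p ∣ a := by
  induction s using Multiset.induction_on with
  | empty =>
    rw [Multiset.lcm_zero] at h
    exact absurd (Nat.dvd_one.1 h) hp.one_lt.ne'
  | cons a s ih =>
    rw [Multiset.lcm_cons] at h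
    have h2 : p ∣ a * s.lcm := h.trans (Nat.lcm_dvd_mul a s.lcm)
    rcases (Nat.Prime.dvd_mul hp).1 h2 with h3 | h3
    · exact ⟨a, Multiset.mem_cons_self _ _, h3⟩
    · obtain ⟨b, hb, hb'⟩ := ih h3
      exact ⟨b, Multiset.mem_cons_of_mem hb, hb'⟩

theorem aux_perm {α : Type*} [Fintype α] [DecidableEq α] {p q : ℕ} (hp : p.Prime) (hq : q.Prime)
    (hne : p ≠ q) (σ : Equiv.Perm α) (h : orderOf σ = p * q) : p + q ≤ Fintype.card α := by
  have hsum := σ.sum_cycleType_le
  have hl := σ.lcm_cycleType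
  obtain ⟨a, ha, hpa⟩ := aux_dvd_lcm hp σ.cycleType (by rw [hl, h]; exact dvd_mul_right _ _)
  obtain ⟨b, hb, hqb⟩ := aux_dvd_lcm hq σ.cycleType (by rw [hl, h]; exact dvd_mul_left _ _)
  have ha0 : 0 < a := by
    have := Equiv.Perm.two_le_of_mem_cycleType ha
    omega
  have hb0 : 0 < b := by
    have := Equiv.Perm.two_le_of_mem_cycleType hb
    omega
  by_cases hab : a = b
  · subst hab
    have h1 : p * q ∣ a :=
      Nat.Coprime.mul_dvd_of_dvd_of_dvd ((Nat.coprime_primes hp hq).2 hne) hpa hqb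
    have h2 : p * q ≤ a := Nat.le_of_dvd ha0 h1
    have h3 : a ≤ σ.cycleType.sum := Multiset.single_le_sum (by simp) _ ha
    have h4 : p + q ≤ p * q := Nat.add_le_mul hp.two_le hq.two_le
    omega
  · have hmem : b ∈ σ.cycleType.erase a := (Multiset.mem_erase_of_ne (Ne.symm hab)).2 hb
    have e1 : a ::ₘ (σ.cycleType.erase a) = σ.cycleType := Multiset.cons_erase ha
    have e2 : b ::ₘ ((σ.cycleType.erase a).erase b) = σ.cycleType.erase a := Multiset.cons_erase hmem
    have e3 : σ.cycleType.sum = a + (b + ((σ.cycleType.erase a).erase b).sum) := by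
      rw [← Multiset.sum_cons, e2, ← Multiset.sum_cons, e1]
    have h1 := Nat.le_of_dvd ha0 hpa
    have h2 := Nat.le_of_dvd hb0 hqb
    omega

theorem aux_hall {G : Type*} [Group G] [Finite G] [Group.IsSolvable G] {p q : ℕ} (hp : p.Prime)
    (hq : q.Prime) (hne : p ≠ q) (a b r : ℕ) (hc : Nat.card G = p ^ a * q ^ b * r) (ha : a ≠ 0)
    (hb : b ≠ 0) (hcop : Nat.Coprime (p ^ a * q ^ b) r)
    (h1 : ∀ d, d ∣ q ^ b → d ≡ 1 [MOD p] → d = 1) (h2 : ∀ d, d ∣ p ^ a → d ≡ 1 [MOD q] → d = 1) :
    ∃ x : G, orderOf x = p * q := by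
  classical
  have hfp : Fact p.Prime := ⟨hp⟩
  have hfq : Fact q.Prime := ⟨hq⟩
  obtain ⟨H, hH⟩ := Cfsg.Agent.Lib.Solvable.Hall.exists_card_eq (p ^ a * q ^ b) r hc hcop
  have hpq : Nat.Coprime (p ^ a) (q ^ b) := Nat.Coprime.pow _ _ ((Nat.coprime_primes hp hq).2 hne)
  have hpH : p ∣ Nat.card H := by
    rw [hH]
    exact (dvd_pow_self p ha).trans (dvd_mul_right _ _)
  have hqH : q ∣ Nat.card H := by
    rw [hH]
    exact (dvd_pow_self q hb).trans (dvd_mul_left _ _)
  obtain ⟨x, hx⟩ := exists_prime_orderOf_dvd_card' p hpH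
  obtain ⟨y, hy⟩ := exists_prime_orderOf_dvd_card' q hqH
  have hxp : IsPGroup p (Subgroup.zpowers x) :=
    IsPGroup.of_card (n := 1) (by rw [Nat.card_zpowers, hx, pow_one])
  have hyp : IsPGroup q (Subgroup.zpowers y) :=
    IsPGroup.of_card (n := 1) (by rw [Nat.card_zpowers, hy, pow_one])
  obtain ⟨P, hP⟩ := hxp.exists_le_sylow
  obtain ⟨Q, hQ⟩ := hyp.exists_le_sylow
  have hS1 : Nat.card (Sylow p H) = 1 := by
    refine h1 _ ?_ (card_sylow_modEq_one p H)
    have h3 : P.index ∣ p ^ a * q ^ b := by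
      rw [← hH]
      exact Subgroup.index_dvd_card _
    have h4 : Nat.Coprime (p ^ a) P.index :=
      Nat.Coprime.pow_left _ ((Nat.Prime.coprime_iff_not_dvd hp).2 P.not_dvd_index)
    exact P.card_dvd_index.trans (h4.symm.dvd_of_dvd_mul_left h3)
  have hS2 : Nat.card (Sylow q H) = 1 := by
    refine h2 _ ?_ (card_sylow_modEq_one q H)
    have h3 : Q.index ∣ q ^ b * p ^ a := by
      rw [mul_comm, ← hH]
      exact Subgroup.index_dvd_card _
    have h4 : Nat.Coprime (q ^ b) Q.index :=
      Nat.Coprime.pow_left _ ((Nat.Prime.coprime_iff_not_dvd hq).2 Q.not_dvd_index)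
    exact Q.card_dvd_index.trans (h4.symm.dvd_of_dvd_mul_left h3)
  have hs1 : Subsingleton (Sylow p H) := (Nat.card_eq_one_iff_unique.1 hS1).1
  have hs2 : Subsingleton (Sylow q H) := (Nat.card_eq_one_iff_unique.1 hS2).1
  have hPn : (P : Subgroup H).Normal := Sylow.normal_of_subsingleton P
  have hQn : (Q : Subgroup H).Normal := Sylow.normal_of_subsingleton Q
  have hdisj : Disjoint (P : Subgroup H) (Q : Subgroup H) := IsPGroup.disjoint_of_ne p q hne _ _ P.2 Q.2
  have hcomm : Commute x y := Subgroup.commute_of_normal_of_disjoint _ _ hPn hQn hdisj x y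
    (hP (Subgroup.mem_zpowers x)) (hQ (Subgroup.mem_zpowers y))
  have hord : orderOf (x * y) = p * q := by
    rw [hcomm.orderOf_mul_eq_mul_orderOf_of_coprime (by rw [hx, hy]; exact (Nat.coprime_primes hp hq).2 hne), hx, hy]
  refine ⟨((x * y : H) : G), ?_⟩
  rw [Subgroup.orderOf_coe, hord]

/-- The general case: two primes `p < q` with `n < 2 p`, `q ≤ n`. -/
theorem aux_general {G : Type*} [Group G] [Finite G] [Group.IsSolvable G] (n : ℕ) (hn : 5 ≤ n)
    (hcard : Nat.card G * 2 = n.factorial) {p q : ℕ} (hp : p.Prime) (hq : q.Prime) (hpq : p < q)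
    (hnp : n < 2 * p) (hqn : q ≤ n) : ∃ x : G, orderOf x = p * q := by
  have hp3 : 3 ≤ p := by omega
  have hq3 : 3 ≤ q := by omega
  have hfac : ∀ s : ℕ, s.Prime → 3 ≤ s → s ≤ n → n < 2 * s → (Nat.card G).factorization s = 1 := by
    intro s hs hs3 hsn hns
    have h1 : Nat.log s n < 2 := Nat.log_lt_of_lt_pow (by omega) (by nlinarith)
    have h2 := Nat.factorization_factorial hs h1
    have h3 : ∑ i ∈ Finset.Ico 1 2, n / s ^ i = 1 := by
      simp only [Nat.Ico_succ_singleton, Finset.sum_singleton, pow_one]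
      apply Nat.div_eq_of_lt_le
      · omega
      · omega
    rw [h3, ← hcard, Nat.factorization_mul Nat.card_pos.ne' (by norm_num)] at h2
    have h4 : (Nat.factorization 2) s = 0 :=
      Nat.factorization_eq_zero_of_not_dvd (fun h => by
        have := Nat.le_of_dvd (by norm_num) h
        omega)
    simpa [h4] using h2
  have hfp := hfac p hp hp3 (by omega) hnp
  have hfq := hfac q hq hq3 hqn (by omega)
  have hc0 : Nat.card G ≠ 0 := Nat.card_pos.ne'
  have hdp : p ∣ Nat.card G := Nat.dvd_of_factorization_pos (by omega)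
  have hdq : q ∣ Nat.card G := Nat.dvd_of_factorization_pos (by omega)
  have hcoppq : Nat.Coprime p q := (Nat.coprime_primes hp hq).2 (by omega)
  obtain ⟨r, hr⟩ := hcoppq.mul_dvd_of_dvd_of_dvd hdp hdq
  have hnd : ∀ s : ℕ, s.Prime → (Nat.card G).factorization s = 1 → ¬ s ^ 2 ∣ Nat.card G := by
    intro s hs h1 h2
    have := (hs.pow_dvd_iff_le_factorization hc0).1 h2
    omega
  have hrp : ¬ p ∣ r := by
    intro h
    apply hnd p hp hfp
    obtain ⟨t, rfl⟩ := h
    rw [hr]
    exact ⟨q * t, by ring⟩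
  have hrq : ¬ q ∣ r := by
    intro h
    apply hnd q hq hfq
    obtain ⟨t, rfl⟩ := h
    rw [hr]
    exact ⟨p * t, by ring⟩
  refine aux_hall hp hq (by omega) 1 1 r (by rw [hr, pow_one, pow_one]) one_ne_zero one_ne_zero ?_ ?_ ?_
  · rw [pow_one, pow_one]
    exact Nat.Coprime.mul_left ((Nat.Prime.coprime_iff_not_dvd hp).2 hrp) ((Nat.Prime.coprime_iff_not_dvd hq).2 hrq)
  · intro d hd hm
    rw [pow_one] at hd
    rcases (Nat.dvd_prime hq).1 hd with h | h
    · exact h
    · exfalso
      subst h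
      have h3 : p ∣ d - 1 := (Nat.modEq_iff_dvd' hq.one_le).1 hm.symm
      obtain ⟨k, hk⟩ := h3
      have hk1 : k = 1 := by
        have h5 : k ≠ 0 := by
          rintro rfl
          omega
        have h6 : k < 2 := by
          by_contra h7
          have : p * 2 ≤ p * k := Nat.mul_le_mul_left p (by omega)
          omega
        omega
      subst hk1
      have h8 := hp.eq_two_or_odd
      have h9 := hq.eq_two_or_odd
      omega
  · intro d hd hm
    rw [pow_one] at hd
    rcases (Nat.dvd_prime hp).1 hd with h | h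
    · exact h
    · exfalso
      subst h
      have h3 : d % q = 1 % q := hm
      rw [Nat.mod_eq_of_lt hpq, Nat.mod_eq_of_lt (by omega)] at h3
      omega


/-- Let n ≥ 5 and let G be a finite group with the same order and the same set of element orders as the alternating group of degree n. Then G is not solvable. -/
theorem result {G : Type*} [Group G] [Finite G] (n : ℕ) (hn : 5 ≤ n)
    (hcard : Nat.card G = Nat.card ↥(alternatingGroup (Fin n)))
    (hspec : Set.range (orderOf : G → ℕ) = Set.range (orderOf : ↥(alternatingGroup (Fin n)) → ℕ)) :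
    ¬ Group.IsSolvable G := by
  intro hsolv
  classical
  have hnt : Nontrivial (Fin n) := Fin.nontrivial_iff_two_le.2 (by omega)
  have hcard' : Nat.card G * 2 = n.factorial := by
    rw [hcard, mul_comm, two_mul_nat_card_alternatingGroup, Nat.card_perm, Nat.card_fin]
  have hfin : ∀ p q : ℕ, p.Prime → q.Prime → p ≠ q → n < p + q → ¬ ∃ x : G, orderOf x = p * q := by
    rintro p q hp hq hne hpq ⟨x, hx⟩
    have hmem : orderOf x ∈ Set.range (orderOf : ↥(alternatingGroup (Fin n)) → ℕ) := by
      rw [← hspec]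
      exact ⟨x, rfl⟩
    obtain ⟨σ, hσ⟩ := hmem
    have h1 : orderOf (σ : Equiv.Perm (Fin n)) = p * q := by
      rw [Subgroup.orderOf_coe, hσ, hx]
    have h2 := aux_perm hp hq hne _ h1
    rw [Fintype.card_fin] at h2
    omega
  have hgen : ∀ p q : ℕ, p.Prime → q.Prime → p < q → n < 2 * p → q ≤ n → False := by
    intro p q hp hq hpq hnp hqn
    exact hfin p q hp hq (by omega) (by omega) (aux_general n hn hcard' hp hq hpq hnp hqn)
  by_cases h12 : 12 ≤ n
  · obtain ⟨p, q, hp, hq, h1, h2, h3⟩ := Cfsg.Agent.Lib.Basic.TwoPrimes.exists_two_primes (n / 2) (by omega)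
    exact hgen p q hp hq h2 (by omega) (by omega)
  · have hcases : n = 5 ∨ n = 6 ∨ n = 7 ∨ n = 8 ∨ n = 9 ∨ n = 10 ∨ n = 11 := by omega
    rcases hcases with rfl | rfl | rfl | rfl | rfl | rfl | rfl
    · exact hgen 3 5 (by norm_num) (by norm_num) (by norm_num) (by norm_num) (by norm_num)
    · -- n = 6, |G| = 360, Hall subgroup of order 45
      have hc : Nat.card G = 3 ^ 2 * 5 ^ 1 * 8 := by
        have : Nat.factorial 6 = 720 := rfl
        omega
      refine hfin 3 5 (by norm_num) (by norm_num) (by norm_num) (by norm_num)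
        (aux_hall (by norm_num) (by norm_num) (by norm_num) 2 1 8 hc (by norm_num) (by norm_num) (by norm_num) ?_ ?_)
      · intro d hd hm
        have hd' : d ≤ 5 := Nat.le_of_dvd (by norm_num) hd
        interval_cases d <;> revert hd hm <;> decide
      · intro d hd hm
        have hd' : d ≤ 9 := Nat.le_of_dvd (by norm_num) hd
        interval_cases d <;> revert hd hm <;> decide
    · exact hgen 5 7 (by norm_num) (by norm_num) (by norm_num) (by norm_num) (by norm_num)
    · exact hgen 5 7 (by norm_num) (by norm_num) (by norm_num) (by norm_num) (by norm_num)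
    · exact hgen 5 7 (by norm_num) (by norm_num) (by norm_num) (by norm_num) (by norm_num)
    · -- n = 10, Hall subgroup of order 175
      have hc : Nat.card G = 5 ^ 2 * 7 ^ 1 * 10368 := by
        have : Nat.factorial 10 = 3628800 := rfl
        omega
      refine hfin 5 7 (by norm_num) (by norm_num) (by norm_num) (by norm_num)
        (aux_hall (by norm_num) (by norm_num) (by norm_num) 2 1 10368 hc (by norm_num) (by norm_num) (by norm_num) ?_ ?_)
      · intro d hd hm
        have hd' : d ≤ 7 := Nat.le_of_dvd (by norm_num) hd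
        interval_cases d <;> revert hd hm <;> decide
      · intro d hd hm
        have hd' : d ≤ 25 := Nat.le_of_dvd (by norm_num) hd
        interval_cases d <;> revert hd hm <;> decide
    · exact hgen 7 11 (by norm_num) (by norm_num) (by norm_num) (by norm_num) (by norm_num)

end Cfsg.Agent.S3419
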