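import Cfsg.Statements.S3430
import Mathlib
import Cfsg.Agent.Lib.Zsig.PrimCore

set_option autoImplicit false
open Cfsg

namespace Cfsg.Agent.S3430

open Cfsg.Agent.Lib.Zsig.PrimPart
open Cfsg.Agent.Lib.Zsig.PrimCore

/-- A primitive prime divisor is at least `n + 1`. -/
theorem le_of_prim {q n p : ℕ} (hq : 2 ≤ q) (hn : 1 ≤ n) (hp : p.Prime) (h1 : p ∣ q ^ n - 1)
    (h2 : ∀ i : ℕ, 1 ≤ i → i < n → ¬ p ∣ q ^ i - 1) : n + 1 ≤ p := by
  have : Fact p.Prime := ⟨hp⟩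
  have hmod : ∀ i : ℕ, 1 ≤ i → ((q : ZMod p) ^ i = 1 ↔ p ∣ q ^ i - 1) := by
    intro i hi
    have h4 : 1 ≤ q ^ i := Nat.one_le_pow _ _ (by omega)
    rw [← ZMod.natCast_eq_zero_iff, Nat.cast_sub h4]
    push_cast
    exact sub_eq_zero.symm
  have h3 : (q : ZMod p) ^ n = 1 := (hmod n hn).2 h1
  have hne : (q : ZMod p) ≠ 0 := by
    intro h0
    rw [h0, zero_pow (by omega)] at h3
    exact zero_ne_one h3
  have hord : orderOf (q : ZMod p) = n := by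
    have h5 := orderOf_dvd_of_pow_eq_one h3
    have h6 : 0 < orderOf (q : ZMod p) := Nat.pos_of_dvd_of_pos h5 (by omega)
    have h7 := Nat.le_of_dvd (by omega) h5
    by_contra hlt
    exact h2 _ h6 (by omega) ((hmod _ h6).1 (pow_orderOf_eq_one _))
  have h8 := orderOf_dvd_of_pow_eq_one (ZMod.pow_card_sub_one_eq_one hne)
  rw [hord] at h8
  have := Nat.le_of_dvd (Nat.sub_pos_of_lt hp.one_lt) h8
  have := hp.two_le
  omega

/-- From a primitive divisor `m ≥ n + 2` to the required prime. -/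
theorem prime_of_prim {q n m : ℕ} (hq : 2 ≤ q) (hn : 1 ≤ n) (hm : IsPrimDiv q n m)
    (hm2 : n + 2 ≤ m) :
    ∃ p : ℕ, p.Prime ∧ p ∣ q ^ n - 1 ∧ (∀ i : ℕ, 1 ≤ i → i < n → ¬ p ∣ q ^ i - 1) ∧
      (n + 1 < p ∨ p ^ 2 ∣ q ^ n - 1) := by
  obtain ⟨hd, hc⟩ := hm
  have hprim : ∀ p : ℕ, p.Prime → p ∣ m → (∀ i : ℕ, 1 ≤ i → i < n → ¬ p ∣ q ^ i - 1) := by
    intro p hp hpm i hi1 hi2 hpi
    exact hp.one_lt.ne' (Nat.eq_one_of_dvd_coprimes (hc i hi1 hi2) hpm hpi)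
  by_cases hex : ∃ p : ℕ, p.Prime ∧ p ∣ m ∧ p ≠ n + 1
  · obtain ⟨p, hp, hpm, hne⟩ := hex
    refine ⟨p, hp, hpm.trans hd, hprim p hp hpm, Or.inl ?_⟩
    have := le_of_prim hq hn hp (hpm.trans hd) (hprim p hp hpm)
    omega
  · push Not at hex
    have hm0 : m ≠ 0 := by omega
    have hfac := Nat.minFac_prime (n := m) (by omega)
    have hfe := hex _ hfac (Nat.minFac_dvd m)
    have hnp : (n + 1).Prime := hfe ▸ hfac
    have huniq : ∀ {d : ℕ}, d.Prime → d ∣ m → d = n + 1 := fun {d} hd1 hd2 => hex d hd1 hd2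
    have hpow := Nat.eq_prime_pow_of_unique_prime_dvd hm0 huniq
    refine ⟨n + 1, hnp, ?_, ?_, Or.inr ?_⟩
    · exact (hfe ▸ Nat.minFac_dvd m).trans hd
    · exact hprim _ hnp (hfe ▸ Nat.minFac_dvd m)
    · refine Dvd.dvd.trans ?_ hd
      rw [hpow]
      apply pow_dvd_pow
      generalize m.primeFactorsList.length = k at hpow
      rcases k with _ | _ | k
      · simp at hpow
        omega
      · simp at hpow
        omega
      · omega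

/-- The case `n = 2`. -/
theorem case_two {q : ℕ} (hq : 2 ≤ q) (h1 : ¬ (∃ s t : ℕ, t ≤ 1 ∧ q + 1 = 2 ^ s * 3 ^ t)) :
    ∃ p : ℕ, p.Prime ∧ p ∣ q ^ 2 - 1 ∧ (∀ i : ℕ, 1 ≤ i → i < 2 → ¬ p ∣ q ^ i - 1) ∧
      (2 + 1 < p ∨ p ^ 2 ∣ q ^ 2 - 1) := by
  have hfac : q ^ 2 - 1 = (q - 1) * (q + 1) := by
    obtain ⟨c, rfl⟩ : ∃ c, q = c + 1 := ⟨q - 1, by omega⟩
    simp only [Nat.add_sub_cancel]
    have : (c + 1) ^ 2 = c * (c + 1 + 1) + 1 := by ring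
    rw [this, Nat.add_sub_cancel]
  have hnot : ∀ p : ℕ, p.Prime → p ≠ 2 → p ∣ q + 1 → ¬ p ∣ q - 1 := by
    intro p hp hp2 h2 h3
    have h4 : p ∣ (q + 1) - (q - 1) := Nat.dvd_sub h2 h3
    have h5 : (q + 1) - (q - 1) = 2 := by omega
    rw [h5] at h4
    exact hp2 ((Nat.prime_dvd_prime_iff_eq hp Nat.prime_two).1 h4)
  obtain ⟨s, c, hc2, hcs⟩ := Nat.exists_eq_pow_mul_and_not_dvd (n := q + 1) (by omega) 2 (by norm_num)
  obtain ⟨t, d, hd3, hdt⟩ := Nat.exists_eq_pow_mul_and_not_dvd (n := c) (by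
    rintro rfl
    simp at hc2) 3 (by norm_num)
  have hd2 : ¬ 2 ∣ d := fun h => hc2 (hdt ▸ Dvd.dvd.mul_left h _)
  have hcs' : q + 1 = 2 ^ s * (3 ^ t * d) := by rw [hcs, hdt]
  by_cases hd1 : d = 1
  · subst hd1
    have ht : 2 ≤ t := by
      by_contra hlt
      exact h1 ⟨s, t, by omega, by rw [hcs']; ring⟩
    have h9 : 9 ∣ q + 1 := by
      rw [hcs']
      obtain ⟨t', rfl⟩ : ∃ t', t = 2 + t' := ⟨t - 2, by omega⟩
      exact ⟨2 ^ s * 3 ^ t', by rw [pow_add]; norm_num; ring⟩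
    have h3 : 3 ∣ q + 1 := Dvd.dvd.trans (by norm_num) h9
    refine ⟨3, Nat.prime_three, ?_, ?_, Or.inr ?_⟩
    · rw [hfac]; exact Dvd.dvd.mul_left h3 _
    · intro i hi1 hi2
      have : i = 1 := by omega
      subst this
      simpa using hnot 3 Nat.prime_three (by norm_num) h3
    · rw [hfac]; exact Dvd.dvd.mul_left (by simpa using h9) _
  · have hp := Nat.minFac_prime hd1
    have hpd := Nat.minFac_dvd d
    have hp2 : d.minFac ≠ 2 := fun h => hd2 (h ▸ hpd)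
    have hp3 : d.minFac ≠ 3 := fun h => hd3 (h ▸ hpd)
    have hpq : d.minFac ∣ q + 1 := by
      rw [hcs']
      exact Dvd.dvd.mul_left (Dvd.dvd.mul_left hpd _) _
    refine ⟨d.minFac, hp, ?_, ?_, Or.inl ?_⟩
    · rw [hfac]; exact Dvd.dvd.mul_left hpq _
    · intro i hi1 hi2
      have : i = 1 := by omega
      subst this
      simpa using hnot _ hp hp2 hpq
    · have := hp.two_le
      omega

/-- Let q, n ≥ 2 be integers. Unless (n = 2 and q + 1 = 2^s·3^t for some s ≥ 0 and t ≤ 1), or (q = 2 and n ∈ {4, 6, 10, 12, 18}), or (q = 3 and n ∈ {4, 6}), or (q, n) = (5, 6), there is a prime p dividing q^n − 1 but no q^i − 1 with 1 ≤ i < n (a primitive prime divisor), such that p > n + 1 or p² divides q^n − 1. -/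
theorem result (q n : ℕ) (hq : 2 ≤ q) (hn : 2 ≤ n)
    (h1 : ¬ (n = 2 ∧ ∃ s t : ℕ, t ≤ 1 ∧ q + 1 = 2 ^ s * 3 ^ t))
    (h2 : ¬ (q = 2 ∧ (n = 4 ∨ n = 6 ∨ n = 10 ∨ n = 12 ∨ n = 18)))
    (h3 : ¬ (q = 3 ∧ (n = 4 ∨ n = 6))) (h4 : ¬ (q = 5 ∧ n = 6)) :
    ∃ p : ℕ, p.Prime ∧ p ∣ q ^ n - 1 ∧ (∀ i : ℕ, 1 ≤ i → i < n → ¬ p ∣ q ^ i - 1) ∧ (n + 1 < p ∨ p ^ 2 ∣ q ^ n - 1) := by
  rcases (by omega : n = 2 ∨ 3 ≤ n) with rfl | hn3
  · exact case_two hq (fun h => h1 ⟨rfl, h⟩)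
  by_cases hL : (q, n) ∈ L13
  · -- explicit witnesses for the five pairs still allowed
    have witness : ∀ p : ℕ, p.Prime → p ∣ q ^ n - 1 → (∀ i ∈ Finset.Ico 1 n, ¬ p ∣ q ^ i - 1) →
        n + 1 < p → ∃ p : ℕ, p.Prime ∧ p ∣ q ^ n - 1 ∧ (∀ i : ℕ, 1 ≤ i → i < n → ¬ p ∣ q ^ i - 1) ∧
          (n + 1 < p ∨ p ^ 2 ∣ q ^ n - 1) := by
      intro p hp h5 h6 h7
      exact ⟨p, hp, h5, fun i hi1 hi2 => h6 i (Finset.mem_Ico.2 ⟨hi1, hi2⟩), Or.inl h7⟩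
    simp only [L13, List.mem_cons, List.not_mem_nil, or_false, Prod.mk.injEq] at hL
    rcases hL with ⟨rfl, rfl⟩ | ⟨rfl, rfl⟩ | ⟨rfl, rfl⟩ | ⟨rfl, rfl⟩ | ⟨rfl, rfl⟩ | ⟨rfl, rfl⟩ |
      ⟨rfl, rfl⟩ | ⟨rfl, rfl⟩ | ⟨rfl, rfl⟩ | ⟨rfl, rfl⟩ | ⟨rfl, rfl⟩ | ⟨rfl, rfl⟩ | ⟨rfl, rfl⟩
    · exact absurd ⟨rfl, by simp⟩ h2
    · exact absurd ⟨rfl, by simp⟩ h2
    · exact absurd ⟨rfl, by simp⟩ h2
    · exact absurd ⟨rfl, by simp⟩ h2
    · exact absurd ⟨rfl, by simp⟩ h2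
    · exact absurd ⟨rfl, by simp⟩ h3
    · exact absurd ⟨rfl, by simp⟩ h3
    · exact absurd ⟨rfl, by simp⟩ h4
    · exact witness 7 (by norm_num) (by norm_num) (by decide +kernel) (by norm_num)
    · exact witness 17 (by norm_num) (by norm_num) (by decide +kernel) (by norm_num)
    · exact witness 41 (by norm_num) (by norm_num) (by decide +kernel) (by norm_num)
    · exact witness 7 (by norm_num) (by norm_num) (by decide +kernel) (by norm_num)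
    · exact witness 13 (by norm_num) (by norm_num) (by decide +kernel) (by norm_num)
  · obtain ⟨m, hm1, hm2⟩ := core hq hn3 hL
    exact prime_of_prim hq (by omega) hm1 (by omega)

end Cfsg.Agent.S3430
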