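import Cfsg.Statements.S3431
import Mathlib
import Cfsg.Agent.Lib.NSE.Rhs
import Cfsg.Agent.Lib.NSE.A4
import Cfsg.Agent.Lib.NSE.A5
import Cfsg.Agent.Lib.NSE.A6
import Cfsg.Agent.S0494
import Cfsg.Agent.S0497

set_option autoImplicit false
open Cfsg

namespace Cfsg.Agent.S3431

open Cfsg.Agent.Lib.NSE

variable {G : Type*} [Group G] [Finite G]

/-- Values of `sc` from the set equality. -/
theorem val_of {V : Set ℕ}
    (h : ((fun m : ℕ => Nat.card {g : G // orderOf g = m}) '' Set.range (orderOf : G → ℕ)) = V)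
    (m : ℕ) : Basic.sc G m = 0 ∨ Basic.sc G m ∈ V := by
  by_cases h0 : Basic.sc G m = 0
  · exact Or.inl h0
  · obtain ⟨g, hg⟩ := Basic.sc_ne_zero_iff.mp h0
    refine Or.inr ?_
    rw [← h]
    exact ⟨m, ⟨g, hg⟩, rfl⟩

theorem exists_of {V : Set ℕ}
    (h : ((fun m : ℕ => Nat.card {g : G // orderOf g = m}) '' Set.range (orderOf : G → ℕ)) = V)
    (v : ℕ) (hv : v ∈ V) : ∃ m, Basic.sc G m = v := by
  rw [← h] at hv
  obtain ⟨m, -, hm⟩ := hv
  exact ⟨m, hm⟩

/-- Let n be 4, 5 or 6 and let G be a finite group whose set of sizes of same-order classes (the set of numbers #{g : o(g) = m} over the element orders m of G) equals that of the alternating group of degree n. Then G is isomorphic to that alternating group. -/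
theorem result {G : Type*} [Group G] [Finite G] (n : ℕ) (hn : n = 4 ∨ n = 5 ∨ n = 6)
    (h : ((fun m : ℕ => Nat.card {g : G // orderOf g = m}) '' Set.range (orderOf : G → ℕ)) = ((fun m : ℕ => Nat.card {g : ↥(alternatingGroup (Fin n)) // orderOf g = m}) '' Set.range (orderOf : ↥(alternatingGroup (Fin n)) → ℕ))) :
    Nonempty (G ≃* ↥(alternatingGroup (Fin n))) := by
  rcases hn with rfl | rfl | rfl
  · rw [Rhs.rhs4] at h
    have hV : ∀ m, A4.Val (Basic.sc G m) := by
      intro m
      have := val_of h m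
      simp only [Set.mem_insert_iff, Set.mem_singleton_iff] at this
      unfold A4.Val
      exact this
    have hE : ∀ v : ℕ, (v = 1 ∨ v = 3 ∨ v = 8) → ∃ m, Basic.sc G m = v := by
      intro v hv
      exact exists_of h v (by simpa using hv)
    obtain ⟨h1, h2⟩ := A4.main hV hE
    exact A4.iso h1 h2
  · rw [Rhs.rhs5] at h
    have hV : ∀ m, A5.Val (Basic.sc G m) := by
      intro m
      have := val_of h m
      simp only [Set.mem_insert_iff, Set.mem_singleton_iff] at this
      unfold A5.Val
      exact this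
    have hE : ∀ v : ℕ, (v = 1 ∨ v = 15 ∨ v = 20 ∨ v = 24) → ∃ m, Basic.sc G m = v := by
      intro v hv
      exact exists_of h v (by simpa using hv)
    obtain ⟨h1, h2, h3, h4, h5⟩ := A5.main hV hE
    have : IsSimpleGroup G := Main.isSimple_of (Or.inl ⟨h1, h2, h3⟩) h4 h5
    exact Cfsg.Agent.S0494.result h1
  · rw [Rhs.rhs6] at h
    have hV : ∀ m, A6.Val (Basic.sc G m) := by
      intro m
      have := val_of h m
      simp only [Set.mem_insert_iff, Set.mem_singleton_iff] at this
      unfold A6.Val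
      exact this
    have hE : ∀ v : ℕ, (v = 1 ∨ v = 45 ∨ v = 80 ∨ v = 90 ∨ v = 144) → ∃ m, Basic.sc G m = v := by
      intro v hv
      exact exists_of h v (by simpa using hv)
    obtain ⟨h1, h2, h3, h4, h5⟩ := A6.main hV hE
    have : IsSimpleGroup G := Main.isSimple_of (Or.inr ⟨h1, h2, h3⟩) h4 h5
    exact Cfsg.Agent.S0497.result h1

end Cfsg.Agent.S3431
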