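import Cfsg.Statements.S3704
import Mathlib
-- import your own Cfsg.Agent.* helpers here

set_option autoImplicit false
open Cfsg

namespace Cfsg.Agent.S3704

section LA
open Matrix

variable {X Ω : Type*} [Fintype X] [Fintype Ω] [DecidableEq X] [DecidableEq Ω]

/-- The all-ones matrix. -/
def J (Ω : Type*) : Matrix Ω Ω ℚ := Matrix.of fun _ _ => 1

theorem J_mul_J : J Ω * J Ω = (Fintype.card Ω : ℚ) • J Ω := by
  ext i j
  simp [J, Matrix.mul_apply]

/-- Linear algebra core: a left inverse built from `a I + l J`. -/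
theorem exists_form (A A₂ : Matrix X Ω ℚ) (e : X ≃ Ω) (a l p q : ℚ) (ha : a ≠ 0)
    (hn : a + l * (Fintype.card Ω : ℚ) ≠ 0)
    (h1 : Aᵀ * A = a • (1 : Matrix Ω Ω ℚ) + l • J Ω)
    (h2 : Aᵀ * A₂ = p • (1 : Matrix Ω Ω ℚ) + q • J Ω) :
    ∃ u v : ℚ, ∀ x ω, A₂ x ω = u * A x ω + v * ∑ ω', A x ω' := by
  set n : ℚ := (Fintype.card Ω : ℚ) with hnn
  set t : ℚ := l / (a + l * n) with ht
  have htn : t * (a + l * n) = l := div_mul_cancel₀ l hn
  let C : Matrix Ω Ω ℚ := (1 / a) • (1 - t • J Ω)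
  have hC : C * (Aᵀ * A) = 1 := by
    rw [h1]
    simp only [C, Matrix.smul_mul, Matrix.sub_mul, Matrix.one_mul, Matrix.mul_add, Matrix.mul_smul,
      Matrix.mul_one, J_mul_J, smul_sub, smul_smul, ← hnn, Matrix.smul_mul]
    ext i j
    simp only [Matrix.add_apply, Matrix.sub_apply, Matrix.smul_apply, smul_eq_mul, J, Matrix.of_apply,
      Matrix.one_apply]
    by_cases hij : i = j
    · simp [hij]
      field_simp
      linear_combination -htn
    · simp [hij]
      field_simp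
      linear_combination -htn
  have hleft : (C * Aᵀ) * A = 1 := by rw [Matrix.mul_assoc]; exact hC
  have hright : A * (C * Aᵀ) = 1 := (Matrix.mul_eq_one_comm_of_equiv e.symm).mp hleft
  have hA₂ : A₂ = A * (C * (Aᵀ * A₂)) := by
    calc A₂ = (A * (C * Aᵀ)) * A₂ := by rw [hright, Matrix.one_mul]
      _ = A * (C * (Aᵀ * A₂)) := by simp only [Matrix.mul_assoc]
  rw [h2] at hA₂
  have hform : C * (p • (1 : Matrix Ω Ω ℚ) + q • J Ω) =
      (p / a) • (1 : Matrix Ω Ω ℚ) + ((q - t * p - t * q * n) / a) • J Ω := by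
    simp only [C, Matrix.smul_mul, Matrix.sub_mul, Matrix.one_mul, Matrix.mul_add, Matrix.mul_smul,
      Matrix.mul_one, J_mul_J, smul_sub, smul_smul, ← hnn, Matrix.smul_mul]
    ext i j
    simp only [Matrix.add_apply, Matrix.sub_apply, Matrix.smul_apply, smul_eq_mul, J, Matrix.of_apply,
      Matrix.one_apply]
    by_cases hij : i = j
    · simp [hij]
      field_simp
      ring
    · simp [hij]
      field_simp
      ring
  rw [hform] at hA₂
  refine ⟨p / a, (q - t * p - t * q * n) / a, fun x ω => ?_⟩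
  rw [hA₂, Matrix.mul_add, Matrix.mul_smul, Matrix.mul_smul, Matrix.mul_one]
  simp only [Matrix.add_apply, Matrix.smul_apply, smul_eq_mul]
  congr 2
  simp [Matrix.mul_apply, J]

end LA

section Inv

variable {G Ω : Type*} [Group G] [MulAction G Ω]

/-- An invariant function on pairs is of the form `p δ + q` for a two-transitive action. -/
theorem form_of_invariant [DecidableEq Ω] (h2 : MulAction.IsMultiplyPretransitive G Ω 2) (hnt : Nontrivial Ω)
    (c : Ω → Ω → ℚ) (hc : ∀ (g : G) ω ω', c (g • ω) (g • ω') = c ω ω') :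
    ∃ p q : ℚ, ∀ ω ω', c ω ω' = (if ω = ω' then p else 0) + q := by
  obtain ⟨a, b, hab⟩ := hnt.exists_pair_ne
  have h2' : ∀ {a b c d : Ω}, a ≠ b → c ≠ d → ∃ g : G, g • a = c ∧ g • b = d :=
    MulAction.is_two_pretransitive_iff.mp h2
  refine ⟨c a a - c a b, c a b, fun ω ω' => ?_⟩
  by_cases h : ω = ω'
  · subst h
    simp only [if_true]
    obtain ⟨w, hw⟩ : ∃ w, ω ≠ w := by
      by_cases hwa : ω = a
      · exact ⟨b, hwa ▸ hab⟩
      · exact ⟨a, hwa⟩
    obtain ⟨g, hg1, -⟩ := h2' hab (show ω ≠ w from hw)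
    have := hc g a a
    rw [hg1] at this
    rw [this]; ring
  · simp only [h, if_false, zero_add]
    obtain ⟨g, hg1, hg2⟩ := h2' hab h
    have := hc g a b
    rw [hg1, hg2] at this
    exact this

end Inv

/-- Let G be a finite group acting faithfully and 2-transitively on a finite set Ω of size n, and let H be a subgroup of index n in G which is not transitive on Ω and fixes no point of Ω. Then H has exactly two orbits on Ω. -/
theorem result {G Ω : Type*} [Group G] [Finite G] [MulAction G Ω] [FaithfulSMul G Ω] [Finite Ω] (h2 : MulAction.IsMultiplyPretransitive G Ω 2) (H : Subgroup G) (hidx : H.index = Nat.card Ω) (hnt : ¬ MulAction.IsPretransitive H Ω) (hfix : ∀ a : Ω, ∃ h : H, h • a ≠ a) : Nat.card (MulAction.orbitRel.Quotient H Ω) = 2 := by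
  classical
  haveI := Fintype.ofFinite Ω
  haveI : Fintype (G ⧸ H) := Fintype.ofFinite _
  let X := G ⧸ H
  have hΩne : Nonempty Ω := by
    have h0 : H.index ≠ 0 := Subgroup.index_ne_zero_of_finite
    rw [hidx] at h0
    exact (Nat.card_pos_iff.mp (Nat.pos_of_ne_zero h0)).1
  -- the incidence matrices
  let inc : Set Ω → Matrix X Ω ℚ := fun O x ω => if (Quotient.out x)⁻¹ • ω ∈ O then 1 else 0
  -- invariance
  have hinc : ∀ O : Set Ω, (∀ h : H, ∀ w ∈ O, (h : G) • w ∈ O) → ∀ (g : G) ω,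
      inc O ((g : G) : X) ω = if g⁻¹ • ω ∈ O then 1 else 0 := by
    intro O hO g ω
    have hmem : g⁻¹ * Quotient.out ((g : G) : X) ∈ H := by
      have h1 : ((Quotient.out ((g : G) : X) : G) : X) = (g : X) := QuotientGroup.out_eq' _
      have h2 := QuotientGroup.eq.mp h1.symm
      exact h2
    have key : (Quotient.out ((g : G) : X))⁻¹ • ω ∈ O ↔ g⁻¹ • ω ∈ O := by
      set o := Quotient.out ((g : G) : X) with ho
      set h := g⁻¹ * o with hh
      have hoe : o⁻¹ = h⁻¹ * g⁻¹ := by rw [hh]; group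
      rw [hoe, mul_smul]
      constructor
      · intro h1
        have := hO ⟨h, hmem⟩ _ h1
        simpa using this
      · intro h1
        exact hO ⟨h, hmem⟩⁻¹ _ h1
    simp only [inc, key]
  have hincsmul : ∀ O : Set Ω, (∀ h : H, ∀ w ∈ O, (h : G) • w ∈ O) → ∀ (u : G) (x : X) ω,
      inc O (u • x) (u • ω) = inc O x ω := by
    intro O hO u x ω
    induction x using QuotientGroup.induction_on with
    | H g =>
    rw [MulAction.Quotient.smul_coe, smul_eq_mul, hinc O hO, hinc O hO]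
    have : (u * g)⁻¹ • u • ω = g⁻¹ • ω := by
      rw [smul_smul]; congr 1; group
    rw [this]
  have hincval : ∀ O x ω, inc O x ω = 0 ∨ inc O x ω = 1 := by
    intro O x ω
    by_cases h : (Quotient.out x)⁻¹ • ω ∈ O
    · right; simp only [inc, h, if_true]
    · left; simp only [inc, h, if_false]
  -- the counting function
  have hform : ∀ O O' : Set Ω, (∀ h : H, ∀ w ∈ O, (h : G) • w ∈ O) → (∀ h : H, ∀ w ∈ O', (h : G) • w ∈ O') →
      Nontrivial Ω → ∃ p q : ℚ, ∀ ω ω', (∑ x, inc O x ω * inc O' x ω') = (if ω = ω' then p else 0) + q := by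
    intro O O' hO hO' hnt'
    apply form_of_invariant (G := G) h2 hnt'
    intro g ω ω'
    refine Fintype.sum_equiv (MulAction.toPerm g⁻¹) _ _ (fun x => ?_)
    have h1 := hincsmul O hO g (g⁻¹ • x) ω
    have h2 := hincsmul O' hO' g (g⁻¹ • x) ω'
    rw [smul_inv_smul] at h1 h2
    rw [h1, h2]
    rfl
  have hmatrix : ∀ (O O' : Set Ω) (p q : ℚ),
      (∀ ω ω', (∑ x, inc O x ω * inc O' x ω') = (if ω = ω' then p else 0) + q) →
      Matrix.transpose (inc O) * inc O' = p • (1 : Matrix Ω Ω ℚ) + q • J Ω := by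
    intro O O' p q h
    ext ω ω'
    rw [Matrix.mul_apply]
    simp only [Matrix.transpose_apply, h, Matrix.add_apply, Matrix.smul_apply, smul_eq_mul, J, Matrix.of_apply,
      Matrix.one_apply, mul_one]
    by_cases hw : ω = ω' <;> simp [hw]
  -- the main argument: no three orbits
  have hno3 : ∀ ω₁ ω₂ ω₃ : Ω, ω₂ ∉ MulAction.orbit H ω₁ → ω₃ ∉ MulAction.orbit H ω₁ →
      ω₃ ∉ MulAction.orbit H ω₂ → False := by
    intro ω₁ ω₂ ω₃ h21 h31 h32
    have hne12 : ω₁ ≠ ω₂ := by
      rintro rfl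
      exact h21 (MulAction.mem_orbit_self _)
    have hnt' : Nontrivial Ω := ⟨ω₁, ω₂, hne12⟩
    have hOinv : ∀ w : Ω, (∀ h : H, ∀ y ∈ MulAction.orbit H w, (h : G) • y ∈ MulAction.orbit H w) := by
      rintro w h y ⟨k, rfl⟩
      exact ⟨h * k, mul_smul _ _ _⟩
    set O₁ : Set Ω := MulAction.orbit H ω₁ with hO₁
    set O₂ : Set Ω := MulAction.orbit H ω₂ with hO₂
    obtain ⟨p₁, q₁, hc₁⟩ := hform O₁ O₁ (hOinv _) (hOinv _) hnt'
    obtain ⟨p₂, q₂, hc₂⟩ := hform O₁ O₂ (hOinv _) (hOinv _) hnt'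
    let x₀ : X := ((1 : G) : X)
    have hv : ∀ (O : Set Ω) (hO : ∀ h : H, ∀ w ∈ O, (h : G) • w ∈ O) ω, inc O x₀ ω = if ω ∈ O then 1 else 0 := by
      intro O hO ω
      have := hinc O hO 1 ω
      simpa using this
    have h11 : inc O₁ x₀ ω₁ = 1 := by
      rw [hv O₁ (hOinv _), if_pos (MulAction.mem_orbit_self _)]
    have h12 : inc O₁ x₀ ω₂ = 0 := by
      rw [hv O₁ (hOinv _), if_neg h21]
    have h13 : inc O₁ x₀ ω₃ = 0 := by
      rw [hv O₁ (hOinv _), if_neg h31]
    have h22 : inc O₂ x₀ ω₂ = 1 := by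
      rw [hv O₂ (hOinv _), if_pos (MulAction.mem_orbit_self _)]
    have h23 : inc O₂ x₀ ω₃ = 0 := by
      rw [hv O₂ (hOinv _), if_neg h32]
    -- positivity
    have hq : q₁ = ∑ x, inc O₁ x ω₁ * inc O₁ x ω₂ := by
      rw [hc₁ ω₁ ω₂, if_neg hne12, zero_add]
    have hpq : p₁ + q₁ = ∑ x, inc O₁ x ω₁ * inc O₁ x ω₁ := by
      rw [hc₁ ω₁ ω₁, if_pos rfl]
    have hterm : ∀ x, 0 ≤ inc O₁ x ω₁ * inc O₁ x ω₂ := by
      intro x
      rcases hincval O₁ x ω₁ with h | h <;> rcases hincval O₁ x ω₂ with h' | h' <;> simp [h, h']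
    have hq0 : 0 ≤ q₁ := by
      rw [hq]; exact Finset.sum_nonneg fun x _ => hterm x
    have hlt : q₁ < p₁ + q₁ := by
      rw [hpq, hq]
      apply Finset.sum_lt_sum
      · intro x _
        rcases hincval O₁ x ω₁ with h | h <;> rcases hincval O₁ x ω₂ with h' | h' <;> simp [h, h']
      · refine ⟨x₀, Finset.mem_univ _, ?_⟩
        rw [h11, h12]
        norm_num
    have hp0 : 0 < p₁ := by linarith
    have hn0 : p₁ + q₁ * (Fintype.card Ω : ℚ) ≠ 0 := by
      have : 0 ≤ q₁ * (Fintype.card Ω : ℚ) := mul_nonneg hq0 (Nat.cast_nonneg _)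
      linarith
    -- an equivalence between cosets and points
    have hcard : Nat.card X = Nat.card Ω := hidx
    obtain ⟨e⟩ := Finite.card_eq.mp hcard
    obtain ⟨u, v, huv⟩ := exists_form (inc O₁) (inc O₂) e p₁ q₁ p₂ q₂ hp0.ne' hn0
      (hmatrix _ _ _ _ hc₁) (hmatrix _ _ _ _ hc₂)
    have e1 := huv x₀ ω₂
    have e2 := huv x₀ ω₃
    rw [h22, h12] at e1
    rw [h23, h13] at e2
    linarith
  -- the count of orbits
  haveI : Fintype (MulAction.orbitRel.Quotient H Ω) := Fintype.ofFinite _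
  have hnotle : ¬ Nat.card (MulAction.orbitRel.Quotient H Ω) ≤ 1 := by
    intro hle
    apply hnt
    haveI : Subsingleton (MulAction.orbitRel.Quotient H Ω) := by
      rw [Nat.card_eq_fintype_card] at hle
      exact Fintype.card_le_one_iff_subsingleton.mp hle
    exact (MulAction.pretransitive_iff_subsingleton_quotient H Ω).mpr inferInstance
  have hnot3 : ¬ 2 < Nat.card (MulAction.orbitRel.Quotient H Ω) := by
    intro h3
    rw [Nat.card_eq_fintype_card] at h3
    obtain ⟨q₁, q₂, q₃, h12, h13, h23⟩ := Fintype.two_lt_card_iff.mp h3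
    induction q₁ using Quotient.inductionOn with
    | h ω₁ =>
    induction q₂ using Quotient.inductionOn with
    | h ω₂ =>
    induction q₃ using Quotient.inductionOn with
    | h ω₃ =>
    refine hno3 ω₁ ω₂ ω₃ ?_ ?_ ?_
    · intro h
      exact h12 (Quotient.sound (MulAction.orbitRel_apply.mpr h)).symm
    · intro h
      exact h13 (Quotient.sound (MulAction.orbitRel_apply.mpr h)).symm
    · intro h
      exact h23 (Quotient.sound (MulAction.orbitRel_apply.mpr h)).symm
  omega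

end Cfsg.Agent.S3704
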