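import Cfsg.Statements.S3733
import Mathlib
-- import your own Cfsg.Agent.* helpers here

set_option autoImplicit false
open Cfsg

namespace Cfsg.Agent.S3733

theorem aux_norm {ι A X : Type*} [Group A] [Finite A] [CommGroup X] (ψ : A →* MulAut X)
    (𝒜 : Finset ι) (S : ι → Subgroup A) (hne : 𝒜.Nonempty)
    (hpart : ∀ a : A, a ≠ 1 → ∃! i, i ∈ 𝒜 ∧ a ∈ S i)
    (hfix : ∀ i ∈ 𝒜, ∀ x : X, (∀ b ∈ S i, ψ b x = x) → x = 1) (v : X) :
    v ^ (𝒜.card - 1) = 1 := by
  classical
  have : Fintype A := Fintype.ofFinite A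
  have fix_gen : ∀ (H : Subgroup A), ∀ b ∈ H,
      ψ b (∏ a ∈ Finset.univ.filter (· ∈ H), ψ a v) = ∏ a ∈ Finset.univ.filter (· ∈ H), ψ a v := by
    intro H b hb
    rw [map_prod]
    refine Finset.prod_bij (fun a _ => b * a) ?_ ?_ ?_ ?_
    · intro a ha
      simp only [Finset.mem_filter, Finset.mem_univ, true_and] at ha ⊢
      exact mul_mem hb ha
    · intro a _ c _ h
      exact mul_left_cancel h
    · intro c hc
      simp only [Finset.mem_filter, Finset.mem_univ, true_and] at hc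
      refine ⟨b⁻¹ * c, ?_, by group⟩
      simp only [Finset.mem_filter, Finset.mem_univ, true_and]
      exact mul_mem (inv_mem hb) hc
    · intro a _
      rw [map_mul]
      rfl
  have h_i : ∀ i ∈ 𝒜, ∏ a ∈ Finset.univ.filter (· ∈ S i), ψ a v = 1 :=
    fun i hi => hfix i hi _ (fix_gen (S i))
  obtain ⟨i₀, hi₀⟩ := hne
  have h_top : ∏ a ∈ Finset.univ.filter (· ∈ (⊤ : Subgroup A)), ψ a v = 1 :=
    hfix i₀ hi₀ _ (fun b _ => fix_gen ⊤ b (Subgroup.mem_top b))
  have h1 : ∀ H : Subgroup A, ∏ a ∈ Finset.univ.filter (· ∈ H), ψ a v =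
      v * ∏ a ∈ (Finset.univ.filter (· ∈ H)).erase 1, ψ a v := by
    intro H
    rw [← Finset.mul_prod_erase (Finset.univ.filter (· ∈ H)) (fun a => ψ a v)
      (a := 1) (by simp [one_mem])]
    simp
  set u := ∏ a ∈ (Finset.univ.filter (· ∈ (⊤ : Subgroup A))).erase 1, ψ a v with hu
  have h2 : v * u = 1 := by rw [← h1]; exact h_top
  have h3 : ∏ i ∈ 𝒜, ∏ a ∈ (Finset.univ.filter (· ∈ S i)).erase 1, ψ a v = u := by
    rw [hu, ← Finset.prod_biUnion]
    · apply Finset.prod_congr _ (fun _ _ => rfl)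
      ext a
      simp only [Finset.mem_biUnion, Finset.mem_erase, Finset.mem_filter, Finset.mem_univ, true_and,
        Subgroup.mem_top, and_true]
      constructor
      · rintro ⟨i, _, h, _⟩
        exact h
      · intro h
        obtain ⟨i, ⟨hi, hai⟩, _⟩ := hpart a h
        exact ⟨i, hi, h, hai⟩
    · intro i hi j hj hij
      simp only [Function.onFun]
      rw [Finset.disjoint_left]
      intro a ha ha'
      simp only [Finset.mem_erase, Finset.mem_filter, Finset.mem_univ, true_and] at ha ha'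
      exact hij ((hpart a ha.1).unique ⟨hi, ha.2⟩ ⟨hj, ha'.2⟩)
  have h4 : v ^ 𝒜.card * u = 1 := by
    rw [← h3, ← Finset.prod_const, ← Finset.prod_mul_distrib]
    apply Finset.prod_eq_one
    intro i hi
    rw [← h1]
    exact h_i i hi
  have hcard : 𝒜.card = (𝒜.card - 1) + 1 := by
    have : 0 < 𝒜.card := Finset.card_pos.2 ⟨i₀, hi₀⟩
    omega
  rw [hcard, pow_succ, mul_assoc, h2, mul_one] at h4
  simpa using h4


/-- Let A and V be subgroups of a finite group with V abelian and nontrivial and A normalizing V. Suppose a nonempty finite family of proper subgroups of A partitions A: every non-identity element of A lies in exactly one member. If the number of members minus one is coprime to the order of V, then some member B of the family has a non-identity fixed point on V, that is V ∩ C(B) ≠ 1. -/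
theorem result {G : Type*} [Group G] [Finite G] (A V : Subgroup G) (hVab : IsMulCommutative V) (hV : V ≠ ⊥) (hAV : A ≤ Subgroup.normalizer (V : Set G)) (𝒜 : Finset (Subgroup G)) (hne : 𝒜.Nonempty) (hprop : ∀ B ∈ 𝒜, B < A) (hpart : ∀ a ∈ A, a ≠ 1 → ∃! B, B ∈ 𝒜 ∧ a ∈ B) (hk : (𝒜.card - 1).Coprime (Nat.card V)) : ∃ B ∈ 𝒜, V ⊓ Subgroup.centralizer (B : Set G) ≠ ⊥ := by
  classical
  by_contra hcon
  push Not at hcon
  letI : CommGroup V := { (inferInstance : Group V) with mul_comm := hVab.is_comm.comm }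
  let ψ : A →* MulAut V := V.normalizerMonoidHom.comp (Subgroup.inclusion hAV)
  have hψ : ∀ (a : A) (x : V), ((ψ a x : V) : G) = (a : G) * x * (a : G)⁻¹ := fun _ _ => rfl
  have key : ∀ v : V, v ^ (𝒜.card - 1) = 1 := by
    refine aux_norm ψ 𝒜 (fun B => B.subgroupOf A) hne ?_ ?_
    · intro a ha
      obtain ⟨B, hB, huniq⟩ := hpart a a.2 (fun h => ha (Subtype.ext h))
      refine ⟨B, ⟨hB.1, Subgroup.mem_subgroupOf.2 hB.2⟩, ?_⟩
      rintro B' ⟨h1, h2⟩
      exact huniq B' ⟨h1, Subgroup.mem_subgroupOf.1 h2⟩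
    · intro B hB x hx
      have hmem : (x : G) ∈ V ⊓ Subgroup.centralizer (B : Set G) := by
        refine Subgroup.mem_inf.2 ⟨x.2, ?_⟩
        rw [Subgroup.mem_centralizer_iff]
        intro h hh
        have h1 : h ∈ A := (hprop B hB).le hh
        have h2 := congrArg (Subtype.val) (hx ⟨h, h1⟩ (Subgroup.mem_subgroupOf.2 hh))
        rw [hψ] at h2
        simp only at h2
        calc h * (x : G) = (h * x * h⁻¹) * h := by group
          _ = x * h := by rw [h2]
      rw [hcon B hB] at hmem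
      exact Subtype.ext (Subgroup.mem_bot.1 hmem)
  apply hV
  rw [Subgroup.eq_bot_iff_forall]
  intro x hx
  have h1 := key ⟨x, hx⟩
  have h2 : orderOf (⟨x, hx⟩ : V) ∣ 𝒜.card - 1 := orderOf_dvd_of_pow_eq_one h1
  have h3 : orderOf (⟨x, hx⟩ : V) ∣ Nat.card V := orderOf_dvd_natCard _
  have h4 : orderOf (⟨x, hx⟩ : V) = 1 := Nat.eq_one_of_dvd_coprimes hk h2 h3
  have h5 := orderOf_eq_one_iff.1 h4
  exact congrArg Subtype.val h5

end Cfsg.Agent.S3733
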