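import Cfsg.Statements.S3734
import Mathlib
import Cfsg.Agent.Lib.Coprime.Generation
import Cfsg.Agent.Lib.Coprime.Coset
import Cfsg.Agent.Lib.Coprime.InvSylow
import Cfsg.Agent.Lib.Nilpotent.Fitting

set_option autoImplicit false
open Cfsg

namespace Cfsg.Agent.S3734

open Cfsg.Agent.Lib.Coprime.Generation Cfsg.Agent.Lib.Coprime.Coset
open scoped commutatorElement

variable {X : Type*} [Group X]

/-- The elements of `Y` whose commutators with `A` lie in `M`. -/
def commSub (A Y M : Subgroup X) (hYM : Y ≤ Subgroup.normalizer (M : Set X)) : Subgroup X where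
  carrier := {y | y ∈ Y ∧ ∀ a ∈ A, ⁅y, a⁆ ∈ M}
  one_mem' := ⟨Y.one_mem, fun a _ => by simp [commutatorElement_def, M.one_mem]⟩
  mul_mem' := by
    rintro x y ⟨hx, hx'⟩ ⟨hy, hy'⟩
    refine ⟨Y.mul_mem hx hy, fun a ha => ?_⟩
    have h1 : ⁅x * y, a⁆ = (x * ⁅y, a⁆ * x⁻¹) * ⁅x, a⁆ := by
      simp only [commutatorElement_def]; group
    rw [h1]
    exact M.mul_mem ((Subgroup.mem_normalizer_iff.mp (hYM hx) _).mp (hy' a ha)) (hx' a ha)
  inv_mem' := by
    rintro x ⟨hx, hx'⟩
    refine ⟨Y.inv_mem hx, fun a ha => ?_⟩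
    have h1 : ⁅x⁻¹, a⁆ = x⁻¹ * ⁅x, a⁆⁻¹ * x⁻¹⁻¹ := by
      simp only [commutatorElement_def]; group
    rw [h1]
    exact (Subgroup.mem_normalizer_iff.mp (hYM (Y.inv_mem hx)) _).mp (M.inv_mem (hx' a ha))

variable [Finite X]

theorem eq_top_of_forall_sylow_le {K : Type*} [Group K] [Finite K] (W : Subgroup K)
    (h : ∀ q : ℕ, q.Prime → ∃ P : Sylow q K, (P : Subgroup K) ≤ W) : W = ⊤ := by
  by_contra hne
  have hidx : W.index ≠ 1 := by
    rw [Ne, Subgroup.index_eq_one]
    exact hne
  obtain ⟨q, hq, hqd⟩ := Nat.exists_prime_and_dvd hidx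
  obtain ⟨P, hP⟩ := h q hq
  haveI : Fact q.Prime := ⟨hq⟩
  have h1 := Subgroup.relIndex_mul_index hP
  exact P.not_dvd_index (h1 ▸ Dvd.dvd.mul_left hqd _)

theorem le_normalizer_centralizer_of_abelian (A Y B : Subgroup X) (hAab : IsMulCommutative A)
    (hAY : A ≤ Subgroup.normalizer (Y : Set X)) (hB : B ≤ A) :
    A ≤ Subgroup.normalizer ((Y ⊓ Subgroup.centralizer (B : Set X) : Subgroup X) : Set X) := by
  have hcommA : ∀ x ∈ A, ∀ y ∈ A, x * y = y * x := fun x hx y hy =>
    congrArg Subtype.val (hAab.is_comm.comm ⟨x, hx⟩ ⟨y, hy⟩)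
  have key : ∀ a ∈ A, ∀ y ∈ Y ⊓ Subgroup.centralizer (B : Set X),
      a * y * a⁻¹ ∈ Y ⊓ Subgroup.centralizer (B : Set X) := by
    intro a ha y hy
    obtain ⟨hy1, hy2⟩ := Subgroup.mem_inf.mp hy
    refine Subgroup.mem_inf.mpr ⟨(Subgroup.mem_normalizer_iff.mp (hAY ha) _).mp hy1, ?_⟩
    rw [Subgroup.mem_centralizer_iff] at hy2 ⊢
    intro b hb
    have h1 : b * a = a * b := hcommA _ (hB hb) _ ha
    have h2 := hy2 b hb
    have h3 : b * a⁻¹ = a⁻¹ * b := by
      rw [eq_inv_mul_iff_mul_eq, ← mul_assoc, ← h1, mul_assoc, mul_inv_cancel, mul_one]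
    calc b * (a * y * a⁻¹) = a * (b * y) * a⁻¹ := by
          rw [← mul_assoc, ← mul_assoc, h1]; group
      _ = a * (y * b) * a⁻¹ := by rw [h2]
      _ = a * y * a⁻¹ * b := by
          rw [mul_assoc a, mul_assoc y, h3]; group
  intro a ha
  rw [Subgroup.mem_normalizer_iff]
  intro x
  constructor
  · exact key a ha x
  · intro h
    have := key a⁻¹ (A.inv_mem ha) _ h
    simpa [mul_assoc] using this

/-- The second statement. -/
theorem commutator_le_iSup (A G : Subgroup X) (hAab : IsMulCommutative A)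
    (hAG : A ≤ Subgroup.normalizer (G : Set X)) (hcop : (Nat.card A).Coprime (Nat.card G)) :
    ⁅G, A⁆ ≤ ⨆ B ∈ cocyclicSubgroups A, ⁅G ⊓ Subgroup.centralizer (B : Set X), A⁆ := by
  classical
  set H : Subgroup X := ⨆ B ∈ cocyclicSubgroups A, ⁅G ⊓ Subgroup.centralizer (B : Set X), A⁆ with hH
  have hsolvA : Group.IsSolvable A := by
    apply Group.isSolvable_of_comm
    exact hAab.is_comm.comm
  have hle : ∀ B ∈ cocyclicSubgroups A, ⁅G ⊓ Subgroup.centralizer (B : Set X), A⁆ ≤ H :=
    fun B hB => le_iSup₂_of_le B hB le_rfl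
  have hinvC : ∀ B ∈ cocyclicSubgroups A,
      A ≤ Subgroup.normalizer ((G ⊓ Subgroup.centralizer (B : Set X) : Subgroup X) : Set X) :=
    fun B hB => le_normalizer_centralizer_of_abelian A G B hAab hAG hB.1
  -- `H` is `A`-invariant
  have hHA : ∀ a ∈ A, ∀ x ∈ H, a * x * a⁻¹ ∈ H := by
    intro a ha x hx
    have h1 : H ≤ H.comap (MulAut.conj a).toMonoidHom := by
      refine iSup₂_le fun B hB y hy => ?_
      have := Subgroup.mem_normalizer_iff.mp (commutator_le_normalizer_right (hinvC B hB) ha) y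
      exact hle B hB (this.mp hy)
    exact h1 hx
  -- coprimality for subgroups
  have hcopsub : ∀ Y : Subgroup X, Y ≤ G → (Nat.card A).Coprime (Nat.card Y) := fun Y hY =>
    Nat.Coprime.coprime_dvd_right (Subgroup.card_dvd_of_le hY) hcop
  -- nilpotent perfect-like subgroups lie in `H`
  have L1 : ∀ Y : Subgroup X, Y ≤ G → A ≤ Subgroup.normalizer (Y : Set X) →
      Group.IsNilpotent Y → ⁅Y, A⁆ = Y → Y ≤ H := by
    intro Y hYG hAY hnil hYY
    by_contra hne
    have hK : H.subgroupOf Y ≠ ⊤ := by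
      intro h
      apply hne
      intro y hy
      have : (⟨y, hy⟩ : Y) ∈ H.subgroupOf Y := by rw [h]; trivial
      exact Subgroup.mem_subgroupOf.mp this
    obtain ⟨M, hMco, hKM⟩ := (eq_top_or_exists_le_coatom (H.subgroupOf Y)).resolve_left hK
    have hMn : M.Normal := Subgroup.NormalizerCondition.normal_of_coatom M normalizerCondition_of_isNilpotent hMco
    set M' : Subgroup X := M.map Y.subtype with hM'
    have hYM' : Y ≤ Subgroup.normalizer (M' : Set X) := by
      have key : ∀ y ∈ Y, ∀ m ∈ M', y * m * y⁻¹ ∈ M' := by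
        rintro y hy _ ⟨m, hm, rfl⟩
        exact ⟨(⟨y, hy⟩ : Y) * m * (⟨y, hy⟩ : Y)⁻¹, hMn.conj_mem m hm _, rfl⟩
      intro y hy
      rw [Subgroup.mem_normalizer_iff]
      intro x
      constructor
      · exact key y hy x
      · intro h
        have := key y⁻¹ (Y.inv_mem hy) _ h
        simpa [mul_assoc] using this
    have hHYM : ∀ x, x ∈ H → x ∈ Y → x ∈ M' := by
      intro x hxH hxY
      exact ⟨⟨x, hxY⟩, hKM (Subgroup.mem_subgroupOf.mpr hxH), rfl⟩
    let T := commSub A Y M' hYM'
    have hYT : Y ≤ T := by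
      have hgen := iSup_cocyclic_eq A Y hAab hAY (hcopsub Y hYG)
      rw [← hgen]
      refine iSup₂_le fun B hB y hy => ?_
      have hinvB := le_normalizer_centralizer_of_abelian A Y B hAab hAY hB.1
      have hsub : Y ⊓ Subgroup.centralizer (B : Set X) ≤ G ⊓ Subgroup.centralizer (B : Set X) :=
        inf_le_inf_right _ hYG
      have hcopB := hcopsub _ (inf_le_left.trans hYG : Y ⊓ Subgroup.centralizer (B : Set X) ≤ G)
      obtain ⟨c, hc, huc⟩ := exists_mem_commutator_mul_centralizer hinvB hcopB (Or.inl hsolvA) hy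
      obtain ⟨hc1, hc2⟩ := Subgroup.mem_inf.mp hc
      have hcY : c ∈ Y := (Subgroup.mem_inf.mp hc1).1
      have huH : y⁻¹ * c ∈ H :=
        hle B hB (Subgroup.commutator_mono hsub le_rfl huc)
      have huY : y⁻¹ * c ∈ Y := (commutator_le_left_of_le_normalizer hinvB).trans inf_le_left huc
      have hcT : c ∈ T := by
        refine ⟨hcY, fun a ha => ?_⟩
        have h1 : c * a = a * c := (Subgroup.mem_centralizer_iff.mp hc2 a ha).symm
        have h2 : ⁅c, a⁆ = 1 := by
          rw [commutatorElement_eq_one_iff_mul_comm]; exact h1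
        rw [h2]
        exact M'.one_mem
      have huT : y⁻¹ * c ∈ T := by
        refine ⟨huY, fun a ha => ?_⟩
        have h1 : ⁅y⁻¹ * c, a⁆ = (y⁻¹ * c) * (a * (y⁻¹ * c)⁻¹ * a⁻¹) := by
          simp only [commutatorElement_def]; group
        apply hHYM
        · rw [h1]
          exact H.mul_mem huH (hHA a ha _ (H.inv_mem huH))
        · rw [h1]
          exact Y.mul_mem huY ((Subgroup.mem_normalizer_iff.mp (hAY ha) _).mp (Y.inv_mem huY))
      have : y = c * (y⁻¹ * c)⁻¹ := by group
      rw [this]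
      exact T.mul_mem hcT (T.inv_mem huT)
    have hYM : Y ≤ M' := by
      rw [← hYY, Subgroup.commutator_le]
      intro y hy a ha
      exact (hYT hy).2 a ha
    apply hMco.1
    rw [eq_top_iff]
    intro y _
    obtain ⟨m, hm, hm2⟩ := hYM y.2
    have : m = y := Subtype.ext hm2
    rw [← this]
    exact hm
  -- invariant nilpotent subgroups
  have L2 : ∀ P : Subgroup X, P ≤ G → A ≤ Subgroup.normalizer (P : Set X) →
      Group.IsNilpotent P → ⁅P, A⁆ ≤ H := by
    intro P hPG hAP hnil
    have hYP : ⁅P, A⁆ ≤ P := commutator_le_left_of_le_normalizer hAP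
    exact L1 _ (hYP.trans hPG) (commutator_le_normalizer_right hAP)
      (Lib.Nilpotent.Fitting.isNilpotent_of_le hYP hnil)
      (commutator_commutator_eq hAP (hcopsub P hPG) (Or.inl hsolvA))
  -- `C_G(A)` normalizes `H`
  have hCA : ∀ c ∈ G ⊓ Subgroup.centralizer (A : Set X), c ∈ Subgroup.normalizer (H : Set X) := by
    intro c hc
    obtain ⟨hc1, hc2⟩ := Subgroup.mem_inf.mp hc
    have key : ∀ c ∈ G ⊓ Subgroup.centralizer (A : Set X), ∀ x ∈ H, c * x * c⁻¹ ∈ H := by
      intro c hc x hx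
      obtain ⟨hc1, hc2⟩ := Subgroup.mem_inf.mp hc
      have h1 : H ≤ H.comap (MulAut.conj c).toMonoidHom := by
        refine iSup₂_le fun B hB y hy => ?_
        have hcB : c ∈ G ⊓ Subgroup.centralizer (B : Set X) :=
          Subgroup.mem_inf.mpr ⟨hc1, Subgroup.centralizer_le hB.1 hc2⟩
        have := Subgroup.mem_normalizer_iff.mp (commutator_le_normalizer_left (hinvC B hB) hcB) y
        exact hle B hB (this.mp hy)
      exact h1 hx
    rw [Subgroup.mem_normalizer_iff]
    intro x
    constructor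
    · exact key c hc x
    · intro h
      have hinv : c⁻¹ ∈ G ⊓ Subgroup.centralizer (A : Set X) := Subgroup.inv_mem _ hc
      have := key c⁻¹ hinv _ h
      simpa [mul_assoc] using this
  have hHN : H ≤ Subgroup.normalizer (H : Set X) := Subgroup.le_normalizer
  -- `G` normalizes `H`
  have hGN : G ≤ Subgroup.normalizer (H : Set X) := by
    have htop : (Subgroup.normalizer (H : Set X)).subgroupOf G = ⊤ := by
      apply eq_top_of_forall_sylow_le
      intro q hq
      haveI : Fact q.Prime := ⟨hq⟩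
      obtain ⟨P, hP⟩ := Lib.Coprime.InvSylow.exists_invariant_sylow hAG hcop (Or.inl hsolvA) q
      refine ⟨P, ?_⟩
      set Q : Subgroup X := (P : Subgroup G).map G.subtype with hQ
      have hQG : Q ≤ G := Subgroup.map_subtype_le _
      have hQnil : Group.IsNilpotent Q := by
        have hp : IsPGroup q Q := (P.isPGroup').map G.subtype
        exact hp.isNilpotent
      have h1 := L2 Q hQG hP hQnil
      have h2 := commutator_sup_centralizer hP (hcopsub Q hQG) (Or.inl hsolvA)
      have h3 : Q ≤ Subgroup.normalizer (H : Set X) := by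
        rw [← h2]
        refine sup_le (h1.trans hHN) ?_
        intro c hc
        exact hCA c (inf_le_inf_right _ hQG hc)
      intro x hx
      rw [Subgroup.mem_subgroupOf]
      exact h3 ⟨x, hx, rfl⟩
    intro x hx
    have : (⟨x, hx⟩ : G) ∈ (Subgroup.normalizer (H : Set X)).subgroupOf G := by
      rw [htop]; trivial
    exact Subgroup.mem_subgroupOf.mp this
  -- conclude
  let T := commSub A G H hGN
  have hGT : G ≤ T := by
    have hgen := iSup_cocyclic_eq A G hAab hAG hcop
    conv_lhs => rw [← hgen]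
    refine iSup₂_le fun B hB y hy => ?_
    refine ⟨(Subgroup.mem_inf.mp hy).1, fun a ha => ?_⟩
    exact hle B hB (Subgroup.commutator_mem_commutator hy ha)
  rw [Subgroup.commutator_le]
  intro y hy a ha
  exact (hGT hy).2 a ha

/-- Let A and G be subgroups of a finite group with A abelian, A normalizing G and the orders of A and G coprime. Then G is generated by the fixed-point subgroups C_G(B) of those subgroups B of A for which A/B is cyclic (that is, A = ⟨B, a⟩ for some a), and [G, A] is generated by the commutator subgroups [C_G(B), A] over the same subgroups B. -/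
theorem result {X : Type*} [Group X] [Finite X] (A G : Subgroup X) (hAab : IsMulCommutative A) (hAG : A ≤ Subgroup.normalizer (G : Set X)) (hcop : (Nat.card A).Coprime (Nat.card G)) : (⨆ B ∈ {B : Subgroup X | B ≤ A ∧ ∃ a ∈ A, B ⊔ Subgroup.zpowers a = A}, G ⊓ Subgroup.centralizer (B : Set X)) = G ∧ (⨆ B ∈ {B : Subgroup X | B ≤ A ∧ ∃ a ∈ A, B ⊔ Subgroup.zpowers a = A}, ⁅G ⊓ Subgroup.centralizer (B : Set X), A⁆) = ⁅G, A⁆ := by
  refine ⟨iSup_cocyclic_eq A G hAab hAG hcop, le_antisymm ?_ (commutator_le_iSup A G hAab hAG hcop)⟩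
  exact iSup₂_le fun B _ => Subgroup.commutator_mono inf_le_left le_rfl

end Cfsg.Agent.S3734
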