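import Cfsg.Statements.S3735
import Mathlib
-- import your own Cfsg.Agent.* helpers here

set_option autoImplicit false
open Cfsg

namespace Cfsg.Agent.S3735

variable {G : Type*} [Group G] [Finite G]

/-- `T` is a minimal nontrivial `A`-invariant subgroup of `V`. -/
def IsMinInv (A V T : Subgroup G) : Prop :=
  T ≤ V ∧ A ≤ Subgroup.normalizer (T : Set G) ∧ T ≠ ⊥ ∧
    ∀ S : Subgroup G, S ≤ T → A ≤ Subgroup.normalizer (S : Set G) → S ≠ ⊥ → S = T

theorem exists_minInv {A V W : Subgroup G} (hWV : W ≤ V) (hW : A ≤ Subgroup.normalizer (W : Set G))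
    (hne : W ≠ ⊥) : ∃ T, T ≤ W ∧ IsMinInv A V T := by
  obtain ⟨T, hT⟩ := (Set.toFinite {S : Subgroup G | S ≤ W ∧ A ≤ Subgroup.normalizer (S : Set G) ∧ S ≠ ⊥}).exists_minimal
    ⟨W, le_rfl, hW, hne⟩
  refine ⟨T, hT.1.1, hT.1.1.trans hWV, hT.1.2.1, hT.1.2.2, fun S hST hS hS0 => ?_⟩
  exact le_antisymm hST (hT.2 ⟨hST.trans hT.1.1, hS, hS0⟩ hST)

theorem inf_inv {A U W : Subgroup G} (hU : A ≤ Subgroup.normalizer (U : Set G))
    (hW : A ≤ Subgroup.normalizer (W : Set G)) : A ≤ Subgroup.normalizer ((U ⊓ W : Subgroup G) : Set G) := by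
  rw [Subgroup.le_normalizer_iff] at *
  intro a ha x hx
  exact ⟨hU a ha x hx.1, hW a ha x hx.2⟩

theorem sup_inv {A U W : Subgroup G} (hU : A ≤ Subgroup.normalizer (U : Set G))
    (hW : A ≤ Subgroup.normalizer (W : Set G)) : A ≤ Subgroup.normalizer ((U ⊔ W : Subgroup G) : Set G) :=
  (le_inf hU hW).trans (Subgroup.normalizer_inf_normalizer_le_normalizer_sup U W)

/-- Elements of a join of commuting subgroups. -/
theorem mem_sup_commuting {U W : Subgroup G} (hc : ∀ u ∈ U, ∀ w ∈ W, u * w = w * u) {x : G}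
    (hx : x ∈ U ⊔ W) : ∃ u ∈ U, ∃ w ∈ W, u * w = x := by
  rw [← Subgroup.closure_eq U, ← Subgroup.closure_eq W, ← Subgroup.closure_union] at hx
  induction hx using Subgroup.closure_induction with
  | mem x hx =>
    rcases hx with hx | hx
    · exact ⟨x, hx, 1, W.one_mem, mul_one x⟩
    · exact ⟨1, U.one_mem, x, hx, one_mul x⟩
  | one => exact ⟨1, U.one_mem, 1, W.one_mem, one_mul 1⟩
  | mul x y _ _ hx hy =>
    obtain ⟨u, hu, w, hw, rfl⟩ := hx
    obtain ⟨u', hu', w', hw', rfl⟩ := hy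
    refine ⟨u * u', U.mul_mem hu hu', w * w', W.mul_mem hw hw', ?_⟩
    rw [mul_assoc, mul_assoc, ← mul_assoc u' w, hc u' hu' w hw, mul_assoc]
  | inv x _ hx =>
    obtain ⟨u, hu, w, hw, rfl⟩ := hx
    refine ⟨u⁻¹, U.inv_mem hu, w⁻¹, W.inv_mem hw, ?_⟩
    rw [mul_inv_rev, ← (show Commute u⁻¹ w⁻¹ from
      ((show Commute u w from hc u hu w hw).inv_inv))]

/-- The socle: the subgroup generated by the minimal invariant subgroups. -/
def soc (A V : Subgroup G) : Subgroup G := Subgroup.closure {x | ∃ T, IsMinInv A V T ∧ x ∈ T}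

theorem minInv_le_soc {A V T : Subgroup G} (hT : IsMinInv A V T) : T ≤ soc A V :=
  fun _ hx => Subgroup.subset_closure ⟨T, hT, hx⟩

theorem soc_le {A V : Subgroup G} : soc A V ≤ V := by
  rw [soc, Subgroup.closure_le]
  rintro x ⟨T, hT, hx⟩
  exact hT.1 hx

/-- Conjugates of minimal invariant subgroups. -/
theorem minInv_conj {H A V T : Subgroup G} (hHV : H ≤ Subgroup.normalizer (V : Set G))
    (hAH : A ≤ H) (hAn : H ≤ Subgroup.normalizer (A : Set G)) (hT : IsMinInv A V T) {h : G} (hh : h ∈ H) :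
    IsMinInv A V (T.map (MulAut.conj h).toMonoidHom) := by
  have hinv : ∀ {h : G}, h ∈ H → ∀ S : Subgroup G, A ≤ Subgroup.normalizer (S : Set G) →
      A ≤ Subgroup.normalizer ((S.map (MulAut.conj h).toMonoidHom : Subgroup G) : Set G) := by
    intro h hh S hS
    rw [Subgroup.le_normalizer_iff] at hS ⊢
    rintro a ha _ ⟨s, hs, rfl⟩
    refine ⟨(h⁻¹ * a * h) * s * (h⁻¹ * a * h)⁻¹, hS _ ?_ s hs, ?_⟩
    · exact (Subgroup.le_normalizer_iff.mp hAn) h⁻¹ (H.inv_mem hh) a ha |> fun h2 => by simpa using h2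
    · simp [mul_assoc]
  have hmapmap : ∀ {h : G} (S : Subgroup G), (S.map (MulAut.conj h).toMonoidHom).map (MulAut.conj h⁻¹).toMonoidHom = S := by
    intro h S
    ext x
    simp only [Subgroup.mem_map, MulEquiv.coe_toMonoidHom, MulAut.conj_apply]
    constructor
    · rintro ⟨_, ⟨y, hy, rfl⟩, rfl⟩
      simpa [mul_assoc] using hy
    · intro hx
      exact ⟨h * x * h⁻¹, ⟨x, hx, rfl⟩, by simp [mul_assoc]⟩
  refine ⟨?_, hinv hh T hT.2.1, ?_, ?_⟩
  · rintro _ ⟨t, ht, rfl⟩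
    exact (Subgroup.le_normalizer_iff.mp hHV) h hh t (hT.1 ht)
  · intro h0
    apply hT.2.2.1
    rw [← hmapmap (h := h) T, h0, Subgroup.map_bot]
  · intro S hS hSA hS0
    have h1 : S.map (MulAut.conj h⁻¹).toMonoidHom ≤ T := by
      rintro _ ⟨s, hs, rfl⟩
      obtain ⟨t, ht, rfl⟩ := hS hs
      simpa [mul_assoc] using ht
    have h2 := hT.2.2.2 _ h1 (hinv (H.inv_mem hh) S hSA) (by
      intro h0
      apply hS0
      have := hmapmap (h := h⁻¹) S
      rw [inv_inv, h0, Subgroup.map_bot] at this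
      exact this.symm)
    rw [← h2]
    have := hmapmap (h := h⁻¹) S
    rw [inv_inv] at this
    exact this.symm

theorem soc_eq {H A V : Subgroup G} (hHV : H ≤ Subgroup.normalizer (V : Set G))
    (hAH : A ≤ H) (hAn : H ≤ Subgroup.normalizer (A : Set G))
    (hss : ∀ U : Subgroup G, U ≤ V → H ≤ Subgroup.normalizer (U : Set G) →
      ∃ W : Subgroup G, W ≤ V ∧ H ≤ Subgroup.normalizer (W : Set G) ∧ U ⊓ W = ⊥ ∧ U ⊔ W = V) :
    soc A V = V := by
  have hH : H ≤ Subgroup.normalizer (soc A V : Set G) := by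
    rw [soc, Subgroup.le_normalizer_closure_iff]
    rintro h hh x ⟨T, hT, hx⟩
    exact Subgroup.subset_closure ⟨_, minInv_conj hHV hAH hAn hT hh, x, hx, rfl⟩
  obtain ⟨W, hWV, hWH, hinf, hsup⟩ := hss _ soc_le hH
  have hW0 : W = ⊥ := by
    by_contra hne
    obtain ⟨T, hTW, hT⟩ := exists_minInv hWV (hAH.trans hWH) hne
    apply hT.2.2.1
    rw [eq_bot_iff, ← hinf]
    exact le_inf (minInv_le_soc hT) hTW
  rw [hW0, sup_bot_eq] at hsup
  exact hsup


/-- Clifford's Theorem for actions on finite abelian groups, first part. Let H and V be subgroups of a finite group with V abelian and H normalizing V, and let A be a normal subgroup of H. If every H-invariant subgroup of V has an H-invariant complement in V, then every A-invariant subgroup of V has an A-invariant complement in V. -/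
theorem result {G : Type*} [Group G] [Finite G] (H A V : Subgroup G) (hVab : IsMulCommutative V) (hHV : H ≤ Subgroup.normalizer (V : Set G)) (hAH : A ≤ H) (hAn : H ≤ Subgroup.normalizer (A : Set G)) (hss : ∀ U : Subgroup G, U ≤ V → H ≤ Subgroup.normalizer (U : Set G) → ∃ W : Subgroup G, W ≤ V ∧ H ≤ Subgroup.normalizer (W : Set G) ∧ U ⊓ W = ⊥ ∧ U ⊔ W = V) (U : Subgroup G) (hUV : U ≤ V) (hAU : A ≤ Subgroup.normalizer (U : Set G)) : ∃ W : Subgroup G, W ≤ V ∧ A ≤ Subgroup.normalizer (W : Set G) ∧ U ⊓ W = ⊥ ∧ U ⊔ W = V := by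
  have hsoc := soc_eq hHV hAH hAn hss
  have hcomm : ∀ x ∈ V, ∀ y ∈ V, x * y = y * x := by
    intro x hx y hy
    have := (hVab.is_comm.comm ⟨x, hx⟩ ⟨y, hy⟩)
    exact congrArg Subtype.val this
  obtain ⟨W, hW⟩ := (Set.toFinite {W : Subgroup G | W ≤ V ∧ A ≤ Subgroup.normalizer (W : Set G) ∧ U ⊓ W = ⊥}).exists_maximal
    ⟨⊥, bot_le, by
      rw [Subgroup.le_normalizer_iff]
      intro a _ x hx
      rw [Subgroup.mem_bot] at hx ⊢
      simp [hx], inf_bot_eq _⟩
  obtain ⟨⟨hWV, hWA, hUW⟩, hmax⟩ := hW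
  refine ⟨W, hWV, hWA, hUW, ?_⟩
  apply le_antisymm (sup_le hUV hWV)
  by_contra hnot
  -- some minimal subgroup is not contained in `U ⊔ W`
  have hex : ∃ T, IsMinInv A V T ∧ ¬ T ≤ U ⊔ W := by
    by_contra hall
    push Not at hall
    apply hnot
    rw [← hsoc, soc, Subgroup.closure_le]
    rintro x ⟨T, hT, hx⟩
    exact hall T hT hx
  obtain ⟨T, hT, hTn⟩ := hex
  have hsA := sup_inv hAU hWA
  have hT0 : T ⊓ (U ⊔ W) = ⊥ := by
    by_contra hne
    exact hTn (inf_eq_left.mp (hT.2.2.2 _ inf_le_left (inf_inv hT.2.1 hsA) hne))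
  have hle : W ⊔ T ≤ V := sup_le hWV hT.1
  have hnew : W ⊔ T ∈ {W : Subgroup G | W ≤ V ∧ A ≤ Subgroup.normalizer (W : Set G) ∧ U ⊓ W = ⊥} := by
    refine ⟨hle, sup_inv hWA hT.2.1, ?_⟩
    rw [eq_bot_iff]
    rintro x ⟨hxU, hxS⟩
    obtain ⟨w, hw, t, ht, rfl⟩ := mem_sup_commuting (fun u hu v hv => hcomm u (hWV hu) v (hT.1 hv)) hxS
    have ht' : t ∈ T ⊓ (U ⊔ W) := by
      refine ⟨ht, ?_⟩
      have : t = w⁻¹ * (w * t) := by group
      rw [this]
      exact Subgroup.mul_mem _ ((le_sup_right : W ≤ U ⊔ W) (W.inv_mem hw)) ((le_sup_left : U ≤ U ⊔ W) hxU)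
    rw [hT0, Subgroup.mem_bot] at ht'
    subst ht'
    rw [mul_one] at hxU ⊢
    have : w ∈ U ⊓ W := ⟨hxU, hw⟩
    rwa [hUW] at this
  have hWle : W ≤ W ⊔ T := le_sup_left
  have hback := hmax hnew hWle
  -- then `T ≤ W`
  have hTW : T ≤ W := (le_sup_right.trans hback)
  exact hTn (hTW.trans le_sup_right)

end Cfsg.Agent.S3735
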