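import Cfsg.Statements.S3736
import Cfsg.Agent.Lib.Coprime.AutAction
import Cfsg.Agent.Lib.Coprime.OmegaOne
import Cfsg.Agent.Lib.Coprime.StabilityElem
import Cfsg.Agent.Lib.Coprime.Three
import Mathlib

set_option autoImplicit false
open Cfsg

namespace Cfsg.Agent.S3736

open Cfsg.Agent.Lib.Coprime.AutAction Cfsg.Agent.Lib.Coprime.OmegaOne
  Cfsg.Agent.Lib.Coprime.StabilityElem Cfsg.Agent.Lib.Coprime.Three
open scoped commutatorElement

/-- Images of characteristic subgroups of `↥P` are normalized by the normalizer of `P`. -/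
theorem map_char_mem_normalizer {X : Type*} [Group X] [Finite X] {P : Subgroup X}
    (U : Subgroup P) (hU : U.Characteristic) {b : X} (hb : b ∈ Subgroup.normalizer (P : Set X)) :
    b ∈ Subgroup.normalizer ((U.map P.subtype : Subgroup X) : Set X) := by
  apply mem_normalizer_of_conj_mem
  rintro _ ⟨u, hu, rfl⟩
  have hchar := (Subgroup.characteristic_iff_map_le.mp hU) (conjAut P b hb)
  have h1 : conjAut P b hb u ∈ U := hchar ⟨u, hu, rfl⟩
  exact ⟨_, h1, rfl⟩

/-- The Hall–Higman reduction for a minimal non-trivial action. Let B, A and P be subgroups of a finite group with P a p-group, B normalizing P, and A a normal subgroup of B of order prime to p. Suppose A does not centralize P but centralizes every proper B-invariant subgroup of P. Then [P, A] = P; P is elementary abelian or special; B acts irreducibly on P/Φ(P), that is, the only B-invariant subgroups of P containing Φ(P) are Φ(P) and P; and if p is odd then every element of P has order dividing p. -/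
theorem result {X : Type*} [Group X] [Finite X] {p : ℕ} [Fact p.Prime] (B A P : Subgroup X) (hP : IsPGroup p P) (hBP : B ≤ Subgroup.normalizer (P : Set X)) (hAB : A ≤ B) (hAn : B ≤ Subgroup.normalizer (A : Set X)) (hAp : (Nat.card A).Coprime p) (hnt : ⁅P, A⁆ ≠ ⊥) (hmin : ∀ U : Subgroup X, U < P → B ≤ Subgroup.normalizer (U : Set X) → ⁅U, A⁆ = ⊥) : ⁅P, A⁆ = P ∧ (Cfsg.IsElementaryAbelian p P ∨ Cfsg.IsSpecial p ↥P) ∧ (∀ U : Subgroup X, (frattini ↥P).map P.subtype ≤ U → U ≤ P → B ≤ Subgroup.normalizer (U : Set X) → U = (frattini ↥P).map P.subtype ∨ U = P) ∧ (p ≠ 2 → ∀ x ∈ P, x ^ p = 1) := by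
  classical
  have hAP : A ≤ Subgroup.normalizer (P : Set X) := hAB.trans hBP
  have hcomm_le : ⁅P, A⁆ ≤ P := by
    rw [Subgroup.commutator_le]
    intro u hu a ha
    have h1 : a * u⁻¹ * a⁻¹ ∈ P := conj_mem_of_mem_normalizer (hAP ha) (inv_mem hu)
    rw [commutatorElement_def, mul_assoc, mul_assoc]
    have h2 : a * (u⁻¹ * a⁻¹) = a * u⁻¹ * a⁻¹ := by group
    rw [h2]
    exact P.mul_mem hu h1
  have hcop_of : ∀ V : Subgroup X, V ≤ P → ∀ a ∈ A, (Nat.card V).Coprime (orderOf a) := by
    intro V hle a ha
    obtain ⟨k, hk⟩ := IsPGroup.iff_card.mp (hP.to_le hle)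
    rw [hk]
    apply Nat.Coprime.pow_left
    exact (Nat.Coprime.coprime_dvd_left (Subgroup.orderOf_dvd_natCard A ha) hAp).symm
  -- `[P, A] = P`
  have h1 : ⁅P, A⁆ = P := by
    by_contra hne
    have hlt : ⁅P, A⁆ < P := lt_of_le_of_ne hcomm_le hne
    have hb : ⁅⁅P, A⁆, A⁆ = ⊥ := hmin _ hlt (fun b hb =>
      commutator_mem_normalizer (hBP hb) (hAn hb))
    have hAcent : ∀ a ∈ A, ∀ v ∈ ⁅P, A⁆, a * v = v * a := by
      intro a ha v hv
      have : ⁅v, a⁆ = 1 := by
        have h := Subgroup.commutator_mem_commutator hv ha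
        rw [hb] at h
        simpa using h
      exact (commutatorElement_eq_one_iff_mul_comm.mp this).symm
    apply hnt
    rw [← le_bot_iff, Subgroup.commutator_le]
    intro x hx a ha
    have hcomm : a * x = x * a :=
      comm_of_mem_centralized (N := ⁅P, A⁆) (a := a) (x := x) (m := orderOf a)
        (by
          have := Subgroup.commutator_mem_commutator (inv_mem hx) ha
          simpa [commutatorElement_def] using this)
        (hAcent a ha) (hcop_of _ hcomm_le a ha) (by simp [pow_orderOf_eq_one])
    have : ⁅x, a⁆ = 1 := commutatorElement_eq_one_iff_mul_comm.mpr hcomm.symm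
    simp [this]
  -- abstract action
  let ρ : A →* MulAut P := (Subgroup.normalizerMonoidHom P).comp (Subgroup.inclusion hAP)
  have hρ : ∀ (a : A) (x : P), ((ρ a x : P) : X) = (a : X) * x * (a : X)⁻¹ := fun _ _ => rfl
  have hgen : commClosure ρ = ⊤ := by
    apply Subgroup.map_injective P.subtype_injective
    apply le_antisymm
    · exact Subgroup.map_mono le_top
    · have h2 : (⊤ : Subgroup P).map P.subtype = P := by ext x; simp
      rw [h2]
      nth_rewrite 1 [← h1]
      rw [Subgroup.commutator_le]
      intro x hx a ha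
      refine ⟨(⟨x⁻¹, inv_mem hx⟩ : P)⁻¹ * ρ ⟨a, ha⟩ ⟨x⁻¹, inv_mem hx⟩, ?_, ?_⟩
      · exact Subgroup.subset_closure ⟨_, _, rfl⟩
      · simp [hρ, commutatorElement_def, mul_assoc]
  have hPnt : Nontrivial P := by
    by_contra hnon
    rw [not_nontrivial_iff_subsingleton] at hnon
    apply hnt
    rw [h1]
    ext x
    constructor
    · intro hx
      have : (⟨x, hx⟩ : P) = 1 := Subsingleton.elim _ _
      simpa using congrArg (fun y : P => (y : X)) this
    · intro hx
      rw [Subgroup.mem_bot] at hx
      rw [hx]
      exact P.one_mem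
  have hPfin : IsPGroup p P := hP
  have hcard : (Nat.card A).Coprime p := hAp
  -- proper `B`-invariant subgroups are fixed
  have hfixU : ∀ U : Subgroup X, U < P → B ≤ Subgroup.normalizer (U : Set X) →
      ∀ u ∈ U, ∀ a ∈ A, a * u = u * a := by
    intro U hU hUB u hu a ha
    have : ⁅u, a⁆ = 1 := by
      have h := Subgroup.commutator_mem_commutator hu ha
      rw [hmin U hU hUB] at h
      simpa using h
    exact (commutatorElement_eq_one_iff_mul_comm.mp this).symm
  have hchar : ∀ U : Subgroup P, U.Characteristic → U ≠ ⊤ → ∀ u ∈ U, ∀ b, ρ b u = u := by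
    intro U hU hne u hu b
    have hlt : U.map P.subtype < P := by
      refine lt_of_le_of_ne ?_ ?_
      · rintro _ ⟨v, _, rfl⟩
        exact v.2
      · intro he
        apply hne
        apply Subgroup.map_injective P.subtype_injective
        rw [he]
        ext x; simp
    have h2 := hfixU _ hlt (fun b hb => map_char_mem_normalizer U hU (hBP hb)) (u : X) ⟨u, hu, rfl⟩
      (b : X) b.2
    apply Subtype.ext
    rw [hρ, h2]
    group
  obtain ⟨hΦ1, hΦ2⟩ := frattini_eq_commutator_of_min hPfin ρ hcard hgen hchar
  refine ⟨h1, ?_, ?_, ?_⟩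
  · -- elementary abelian or special
    by_cases hZ : Subgroup.center P = ⊤
    · left
      have hcom : IsMulCommutative P := by
        refine ⟨⟨fun x y => ?_⟩⟩
        have : x ∈ Subgroup.center P := by rw [hZ]; trivial
        exact ((Subgroup.mem_center_iff.mp this) y).symm
      refine ⟨hcom, ?_⟩
      intro x hx
      have h3 : (⟨x, hx⟩ : P) ^ p ∈ frattini P :=
        Cfsg.Agent.Lib.PGroup.Basic.pow_mem_frattini hPfin _
      rw [hΦ1] at h3
      have h4 : commutator P = ⊥ := by
        rw [commutator_def, Subgroup.commutator_eq_bot_iff_le_centralizer]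
        intro y _
        refine Subgroup.mem_centralizer_iff.mpr ?_
        intro z _
        have : y ∈ Subgroup.center P := by rw [hZ]; trivial
        exact (Subgroup.mem_center_iff.mp this) z
      rw [h4, Subgroup.mem_bot] at h3
      simpa using congrArg (fun y : P => (y : X)) h3
    · right
      refine ⟨hPfin, ?_, ?_⟩
      · refine le_antisymm hΦ2 ?_
        intro z hz
        rw [hΦ1]
        exact mem_commutator_of_fixed hPfin ρ hcard hgen (hchar _ inferInstance hZ z hz)
      · rw [← hΦ1]
        refine le_antisymm hΦ2 ?_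
        intro z hz
        rw [hΦ1]
        exact mem_commutator_of_fixed hPfin ρ hcard hgen (hchar _ inferInstance hZ z hz)
  · -- irreducibility
    intro U hΦU hUP hUB
    by_cases hU : U = P
    · exact Or.inr hU
    · left
      refine le_antisymm ?_ hΦU
      intro u hu
      have hlt : U < P := lt_of_le_of_ne hUP hU
      have hfix := hfixU U hlt hUB u hu
      have h3 : (⟨u, hUP hu⟩ : P) ∈ commutator P := by
        refine mem_commutator_of_fixed hPfin ρ hcard hgen ?_
        intro b
        apply Subtype.ext
        rw [hρ]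
        have := hfix (b : X) b.2
        simp only
        rw [this]
        group
      rw [← hΦ1] at h3
      exact ⟨_, h3, rfl⟩
  · intro hp2 x hx
    have := pow_eq_one_of_min hPfin ρ hcard hgen hchar hp2 ⟨x, hx⟩
    simpa using congrArg (fun y : P => (y : X)) this

end Cfsg.Agent.S3736
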