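import Cfsg.Statements.S3737
import Cfsg.Agent.Lib.Coprime.BaerClassTwo

set_option autoImplicit false
open Cfsg

namespace Cfsg.Agent.S3737

/-- Thompson's strengthening of the P × Q lemma for odd primes. Let p be an odd prime and let P, Q and G be subgroups of a finite group with P a p-group, Q of order prime to p and normalized by P, and G a p-group normalized by both P and Q. If every element of G centralized by P is centralized by Q, then Q centralizes G. -/
theorem result {X : Type*} [Group X] [Finite X] {p : ℕ} [Fact p.Prime] (hp : p ≠ 2) (P Q G : Subgroup X) (hP : IsPGroup p P) (hQ : (Nat.card Q).Coprime p) (hPQ : P ≤ Subgroup.normalizer (Q : Set X)) (hG : IsPGroup p G) (hPG : P ≤ Subgroup.normalizer (G : Set X)) (hQG : Q ≤ Subgroup.normalizer (G : Set X)) (hC : G ⊓ Subgroup.centralizer (P : Set X) ≤ Subgroup.centralizer (Q : Set X)) : Q ≤ Subgroup.centralizer (G : Set X) := by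
  have hnorm : ∀ s ∈ Subgroup.normalizer (G : Set X), ∀ x ∈ G, s * x * s⁻¹ ∈ G := fun s hs x hx =>
    (Subgroup.mem_normalizer_iff.mp hs x).mp hx
  let mkAut : ↥(Subgroup.normalizer (G : Set X)) →* MulAut G :=
    { toFun := fun s =>
        { toFun := fun x => ⟨s * x * (s : X)⁻¹, hnorm s s.2 x x.2⟩
          invFun := fun x => ⟨(s : X)⁻¹ * x * s, by
            have := hnorm (s⁻¹ : Subgroup.normalizer (G : Set X)) (s⁻¹).2 x x.2
            simpa using this⟩
          left_inv := fun x => Subtype.ext (by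
            show (s : X)⁻¹ * (s * (x : X) * (s : X)⁻¹) * s = x
            group)
          right_inv := fun x => Subtype.ext (by
            show (s : X) * ((s : X)⁻¹ * (x : X) * s) * (s : X)⁻¹ = x
            group)
          map_mul' := fun x y => Subtype.ext (by
            show (s : X) * ((x : X) * y) * (s : X)⁻¹ = (s * x * (s : X)⁻¹) * (s * y * (s : X)⁻¹)
            group) }
      map_one' := by
        ext x
        show ((1 : Subgroup.normalizer (G : Set X)) : X) * (x : X) * ((1 : Subgroup.normalizer (G : Set X)) : X)⁻¹ = x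
        simp
      map_mul' := by
        intro s t
        ext x
        show ((s * t : Subgroup.normalizer (G : Set X)) : X) * (x : X) * ((s * t : Subgroup.normalizer (G : Set X)) : X)⁻¹ = s * (t * x * (t : X)⁻¹) * (s : X)⁻¹
        push_cast
        group }
  have hmk : ∀ (s : Subgroup.normalizer (G : Set X)) (x : G), ((mkAut s x : G) : X) = s * x * (s : X)⁻¹ :=
    fun _ _ => rfl
  let ρ : ↥P →* MulAut G := mkAut.comp (Subgroup.inclusion hPG)
  let τ : ↥Q →* MulAut G := mkAut.comp (Subgroup.inclusion hQG)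
  have hρ : ∀ (i : P) (x : G), ((ρ i x : G) : X) = i * x * (i : X)⁻¹ := fun _ _ => rfl
  have hτ : ∀ (i : Q) (x : G), ((τ i x : G) : X) = i * x * (i : X)⁻¹ := fun _ _ => rfl
  have hQconj : ∀ i ∈ P, ∀ j ∈ Q, i * j * i⁻¹ ∈ Q := fun i hi j hj =>
    (Subgroup.mem_normalizer_iff.mp (hPQ hi) j).mp hj
  have hQconj' : ∀ i ∈ P, ∀ j ∈ Q, i⁻¹ * j * i ∈ Q := fun i hi j hj => by
    have := hQconj i⁻¹ (P.inv_mem hi) j hj
    simpa using this
  let c : ↥P → ↥Q ≃ ↥Q := fun i =>
    { toFun := fun j => ⟨(i : X)⁻¹ * j * i, hQconj' i i.2 j j.2⟩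
      invFun := fun j => ⟨(i : X) * j * (i : X)⁻¹, hQconj i i.2 j j.2⟩
      left_inv := fun j => Subtype.ext (by
        show (i : X) * ((i : X)⁻¹ * (j : X) * i) * (i : X)⁻¹ = j
        group)
      right_inv := fun j => Subtype.ext (by
        show (i : X)⁻¹ * ((i : X) * (j : X) * (i : X)⁻¹) * i = j
        group) }
  have hfinal := Cfsg.Agent.Lib.Coprime.BaerClassTwo.pq_lemma hp hG hP hQ ρ τ c
    (by
      intro i j x
      apply Subtype.ext
      show (j : X) * ((i : X) * x * (i : X)⁻¹) * (j : X)⁻¹ =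
        (i : X) * (((i : X)⁻¹ * j * i) * x * ((i : X)⁻¹ * j * i)⁻¹) * (i : X)⁻¹
      group)
    (by
      intro x hx j
      apply Subtype.ext
      rw [hτ]
      have hxmem : (x : X) ∈ G ⊓ Subgroup.centralizer (P : Set X) := by
        refine ⟨x.2, Subgroup.mem_centralizer_iff.mpr ?_⟩
        intro i hi
        have h1 : (i : X) * x * (i : X)⁻¹ = x := congrArg Subtype.val (hx ⟨i, hi⟩)
        have h2 : (i : X) * x = x * i := by
          conv_rhs => rw [← h1]
          group
        exact h2
      have h3 := Subgroup.mem_centralizer_iff.mp (hC hxmem) j j.2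
      rw [h3]
      group)
  intro q hq
  refine Subgroup.mem_centralizer_iff.mpr ?_
  intro x hx
  have h1 := hfinal ⟨q, hq⟩
  have h2 : τ ⟨q, hq⟩ ⟨x, hx⟩ = ⟨x, hx⟩ := by
    rw [h1]
    rfl
  have h3 : q * x * q⁻¹ = x := congrArg Subtype.val h2
  have h4 : q * x = x * q := by
    conv_rhs => rw [← h3]
    group
  exact h4.symm

end Cfsg.Agent.S3737
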