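import Cfsg.Statements.S3738
import Cfsg.Agent.Lib.Coprime.Order9

set_option autoImplicit false
open Cfsg

namespace Cfsg.Agent.S3738

/-- Let d be a non-identity 3-element of a finite group and P a 2-subgroup normalized by d on which ⟨d⟩ acts faithfully (no non-identity power of d centralizes P) and without non-identity fixed points (C_P(d) = 1). If every abelian subgroup of P has 2-rank at most 2, then d has order 3. -/
theorem result {X : Type*} [Group X] [Finite X] (d : X) (n : ℕ) (hn : 1 ≤ n) (hd : orderOf d = 3 ^ n) (P : Subgroup X) (hP : IsPGroup 2 P) (hdP : d ∈ Subgroup.normalizer (P : Set X)) (hfaith : Subgroup.zpowers d ⊓ Subgroup.centralizer (P : Set X) = ⊥) (hfpf : P ⊓ Subgroup.centralizer {d} = ⊥) (hrank : ∀ V : Subgroup X, V ≤ P → IsMulCommutative V → Cfsg.PRankLE 2 2 V) : orderOf d = 3 := by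
  have hconj : ∀ x ∈ P, d * x * d⁻¹ ∈ P := fun x hx => (Subgroup.mem_normalizer_iff.mp hdP x).mp hx
  have hconj' : ∀ x ∈ P, d⁻¹ * x * d ∈ P := fun x hx => by
    have := (Subgroup.mem_normalizer_iff.mp hdP (d⁻¹ * x * d)).mpr (by
      have e : d * (d⁻¹ * x * d) * d⁻¹ = x := by group
      rw [e]
      exact hx)
    exact this
  let σ : MulAut P :=
    { toFun := fun x => ⟨d * x * d⁻¹, hconj x x.2⟩
      invFun := fun x => ⟨d⁻¹ * x * d, hconj' x x.2⟩
      left_inv := fun x => Subtype.ext (by
        show d⁻¹ * (d * (x : X) * d⁻¹) * d = x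
        group)
      right_inv := fun x => Subtype.ext (by
        show d * (d⁻¹ * (x : X) * d) * d⁻¹ = x
        group)
      map_mul' := fun x y => Subtype.ext (by
        show d * ((x : X) * y) * d⁻¹ = (d * x * d⁻¹) * (d * y * d⁻¹)
        group) }
  have hσ : ∀ x : P, ((σ x : P) : X) = d * x * d⁻¹ := fun _ => rfl
  have hσk : ∀ k : ℕ, ∀ x : P, (((σ ^ k) x : P) : X) = d ^ k * x * (d ^ k)⁻¹ := by
    intro k
    induction k with
    | zero => intro x; simp
    | succ k ih =>
      intro x
      rw [pow_succ, MulAut.mul_apply, ih, hσ]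
      rw [pow_succ]
      group
  have hord : orderOf σ = orderOf d := by
    apply Nat.dvd_antisymm
    · apply orderOf_dvd_of_pow_eq_one
      ext x
      have h1 := hσk (orderOf d) x
      rw [pow_orderOf_eq_one] at h1
      simpa using h1
    · apply orderOf_dvd_of_pow_eq_one
      have hmem : d ^ orderOf σ ∈ Subgroup.zpowers d ⊓ Subgroup.centralizer (P : Set X) := by
        refine ⟨Subgroup.npow_mem_zpowers d _, ?_⟩
        refine Subgroup.mem_centralizer_iff.mpr ?_
        intro x hx
        have h1 := hσk (orderOf σ) ⟨x, hx⟩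
        rw [pow_orderOf_eq_one] at h1
        have h2 : x = d ^ orderOf σ * x * (d ^ orderOf σ)⁻¹ := h1
        have h3 : x * d ^ orderOf σ = d ^ orderOf σ * x := by
          conv_lhs => rw [h2]
          group
        exact h3
      rw [hfaith] at hmem
      exact (Subgroup.mem_bot).mp hmem
  have hf : ∀ x : P, σ x = x → x = 1 := by
    intro x hx
    have h1 : d * (x : X) * d⁻¹ = x := congrArg Subtype.val hx
    have h2 : (x : X) ∈ P ⊓ Subgroup.centralizer {d} := by
      refine ⟨x.2, ?_⟩
      refine Subgroup.mem_centralizer_iff.mpr ?_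
      intro y hy
      rw [Set.mem_singleton_iff] at hy
      subst hy
      have h3 : y * (x : X) = x * y := by
        conv_rhs => rw [← h1]
        group
      exact h3
    rw [hfpf] at h2
    exact Subtype.ext ((Subgroup.mem_bot).mp h2)
  have hrk : ∀ E : Subgroup P, (∀ a ∈ E, ∀ b ∈ E, a * b = b * a) → (∀ a ∈ E, a ^ 2 = 1) →
      Nat.card E ≤ 4 := by
    intro E hc h2
    let V : Subgroup X := E.map P.subtype
    have hVcomm : ∀ a b : V, a * b = b * a := by
      rintro ⟨_, a, ha, rfl⟩ ⟨_, b, hb, rfl⟩
      apply Subtype.ext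
      show ((a * b : P) : X) = ((b * a : P) : X)
      rw [hc a ha b hb]
    have hVc : IsMulCommutative V := ⟨⟨hVcomm⟩⟩
    have h := hrank V (Subgroup.map_subtype_le E) hVc (⊤ : Subgroup V)
      ⟨⟨by
        rintro ⟨a, _⟩ ⟨b, _⟩
        apply Subtype.ext
        exact hVcomm a b⟩⟩
      (by
        rintro ⟨_, a, ha, rfl⟩ -
        apply Subtype.ext
        show ((a ^ 2 : P) : X) = ((1 : P) : X)
        rw [h2 a ha])
    have e1 : Nat.card (⊤ : Subgroup V) = Nat.card V := Subgroup.card_top
    have e2 : Nat.card V = Nat.card E :=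
      (Nat.card_congr (Subgroup.equivMapOfInjective _ P.subtype Subtype.coe_injective).toEquiv).symm
    rw [e1, e2] at h
    simpa using h
  have hn1 := Cfsg.Agent.Lib.Coprime.Order9.order_three hP σ n (hord.trans hd) hn hf hrk
  rw [hd, hn1, pow_one]

end Cfsg.Agent.S3738
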