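import Cfsg.Statements.S3740
import Cfsg.Agent.Lib.PSL2.TraceOrder
import Cfsg.Agent.Lib.PSL2.CoprimeSup
import Cfsg.Agent.Lib.PGroup.CyclicMax
import Cfsg.Agent.Lib.PSL2.ClassSizes

set_option autoImplicit false
set_option linter.style.haveILetI false
set_option linter.unusedVariables false
set_option linter.unusedSectionVars false
set_option linter.unusedSimpArgs false
open Cfsg

namespace Cfsg.Agent.S3740

open Matrix Matrix.SpecialLinearGroup Subgroup
open scoped MatrixGroups
open Cfsg.Agent.Lib.PSL2 Cfsg.Agent.Lib.PSL2.Basic Cfsg.Agent.Lib.PSL2.Conj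
open Cfsg.Agent.Lib.PSL2.Members Cfsg.Agent.Lib.PSL2.Reduction Cfsg.Agent.Lib.PSL2.FieldEmbed
open Cfsg.Agent.Lib.PSL2.DicksonCor Cfsg.Agent.Lib.PSL2.DihedralMax
open Cfsg.Agent.Lib.PSL2.Overgroups Cfsg.Agent.Lib.PSL2.Position Cfsg.Agent.Lib.PSL2.TraceOrder
open Cfsg.Agent.Lib.PSL2.CoprimeSup

set_option maxRecDepth 100000 in
lemma a5_invol : ∀ z : alternatingGroup (Fin 5), ∃ u : alternatingGroup (Fin 5), u ^ 2 = 1 ∧ (u * z) ^ 2 = 1 := by
  decide

set_option maxRecDepth 100000 in
lemma s4_invol : ∀ z : Equiv.Perm (Fin 4), ∃ u : Equiv.Perm (Fin 4), u ^ 2 = 1 ∧ (u * z) ^ 2 = 1 := by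
  decide

lemma p_of_dvd12 {p : ℕ} (hp : p.Prime) (h2 : p % 2 = 1) (h : p ∣ 12) : p = 3 := by
  have hle := Nat.le_of_dvd (by norm_num) h
  interval_cases p <;> first | omega | (norm_num at hp) | (norm_num at h)

section

variable {F : Type*} [Field F] [Fintype F]

lemma neg_ne_self (h2 : (2 : F) ≠ 0) (Y : SL(2, F)) : Y ≠ -Y := by
  intro h
  have e : ∀ i j, Y.1 i j = 0 := by
    intro i j
    have h1 := congrArg (fun M : SL(2, F) => M.1 i j) h
    have h3 : Y.1 i j = - Y.1 i j := h1
    have h4 : 2 * Y.1 i j = 0 := by linear_combination h3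
    exact (mul_eq_zero.1 h4).resolve_left h2
  have hdet := det_entries Y
  rw [e 0 0, e 0 1] at hdet
  simp at hdet

lemma a_data (p : ℕ) [hpp : Fact p.Prime] [CharP F p] (hp2 : p % 2 = 1) (h2 : (2 : F) ≠ 0) {a : SL(2, F)}
    (ha : IsPGroup p (zpowers a)) (ha1 : a ≠ 1) :
    tr a = 2 ∧ NC a ∧ a ^ p = 1 ∧ orderOf a = p ∧ orderOf (mkP a) = p := by
  have hp := hpp.out
  obtain ⟨k, hk⟩ := (IsPGroup.iff_orderOf.1 ha) ⟨a, mem_zpowers a⟩
  rw [Subgroup.orderOf_mk] at hk
  have hpow : a ^ p ^ k = 1 := by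
    rw [← hk]
    exact pow_orderOf_eq_one a
  obtain ⟨k', rfl⟩ : ∃ k', k = k' + 1 := by
    refine ⟨k - 1, ?_⟩
    rcases Nat.eq_zero_or_pos k with rfl | h
    · exfalso
      rw [pow_zero] at hk
      exact ha1 (orderOf_eq_one_iff.1 hk)
    · omega
  have hodd : Odd (p ^ (k' + 1)) := (Nat.odd_iff.2 hp2).pow
  have hneg : ∀ A : SL(2, F), (-A) ^ p ^ (k' + 1) = -(A ^ p ^ (k' + 1)) := fun A => hodd.neg_pow A
  have hm1 : a ≠ -1 := by
    rintro rfl
    have h3 := hneg 1
    rw [hpow, one_pow] at h3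
    exact neg_ne_self h2 1 h3
  have hNC : NC a := ⟨ha1, hm1⟩
  have hd : disc a = 0 := disc_of_mkP_pow p (n := k' + 1) (by rw [← map_pow, hpow, map_one])
  have htr : tr a = 2 := by
    rcases tr_cases_of_disc hd with h | h
    · exact h
    · exfalso
      have h1 : tr (-a) = 2 := by rw [tr_neg, h]; ring
      have h3 := pow_char_of_tr_two p h1
      have h4 : (-a) ^ p ^ (k' + 1) = 1 := by
        rw [pow_succ, mul_comm, pow_mul, h3, one_pow]
      rw [hneg, hpow] at h4
      exact neg_ne_self h2 1 h4.symm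
  have hap := pow_char_of_tr_two p htr
  exact ⟨htr, hNC, hap, orderOf_eq_prime hap ha1,
    orderOf_eq_prime (by rw [← map_pow, hap, map_one]) (mkP_ne_one hNC)⟩

lemma comm_of_mkP_comm (h2 : (2 : F) ≠ 0) {a r : SL(2, F)} (htr : tr a = 2)
    (h : mkP r * mkP a = mkP a * mkP r) : r * a = a * r := by
  rw [← map_mul, ← map_mul, mkP_eq_iff] at h
  rcases h with h | h
  · exact h.symm
  · exfalso
    have h3 : r⁻¹ * a * r⁻¹⁻¹ = -a := by
      rw [inv_inv, mul_assoc, h]
      have : r⁻¹ * -(r * a) = - (r⁻¹ * (r * a)) := by simp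
      rw [this]
      simp
    have h4 := tr_conj r⁻¹ a
    rw [h3, tr_neg, htr] at h4
    have h5 : (2 : F) * 2 = 0 := by linear_combination -h4
    rcases mul_eq_zero.1 h5 with h6 | h6 <;> exact h2 h6

/-- The part using Dickson's theorem. -/
theorem dickson_part (p : ℕ) [hpp : Fact p.Prime] [CharP F p] (hp2 : p % 2 = 1) (h2 : (2 : F) ≠ 0)
    {a : SL(2, F)} (htr : tr a = 2) (hNC : NC a) (hap : a ^ p = 1) (hord : orderOf (mkP a) = p)
    {R : Subgroup SL(2, F)} (hR : (Nat.card R).Coprime p) (haN : a ∈ normalizer (R : Set SL(2, F)))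
    {r : SL(2, F)} (hr : r ∈ R) (hnc : r * a ≠ a * r) :
    p = 3 ∧ Nat.card (R.map mkP) = 4 := by
  classical
  have hp := hpp.out
  set Rb : Subgroup PSL(2, F) := R.map mkP with hRb
  set ab : PSL(2, F) := mkP a with hab
  have haNb : ab ∈ normalizer (Rb : Set PSL(2, F)) :=
    Subgroup.le_normalizer_map (mkP : SL(2, F) →* PSL(2, F)) ⟨a, haN, rfl⟩
  have hcop : (Nat.card Rb).Coprime p := by
    have h1 : Nat.card Rb ∣ Nat.card R :=
      Subgroup.card_dvd_of_surjective ((mkP : SL(2, F) →* PSL(2, F)).subgroupMap R)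
        (MonoidHom.subgroupMap_surjective _ _)
    exact Nat.Coprime.coprime_dvd_left h1 hR
  set K : Subgroup PSL(2, F) := Rb ⊔ zpowers ab with hK
  have hcard : Nat.card K = Nat.card Rb * p := card_sup hp haNb hord hcop
  have hmem : ∀ z ∈ K, ∀ n : ℕ, n.Coprime p → z ^ n = 1 → z ∈ Rb :=
    fun z hz n hn h => mem_of_pow hp haNb hord hcop hz hn h
  have hnorm : K ≤ normalizer (Rb : Set PSL(2, F)) :=
    sup_le le_normalizer (zpowers_le.2 haNb)
  have hnotmem : ∀ z ∈ Rb, z ^ p = 1 → z = 1 := fun z hz h => eq_one_of_coprime hcop hz h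
  have hab1 : ab ≠ 1 := mkP_ne_one hNC
  have habnot : ab ∉ Rb := fun h => hab1 (hnotmem _ h (by rw [hab, ← map_pow, hap, map_one]))
  have hrK : mkP r ∈ K := (le_sup_left : Rb ≤ K) ⟨r, hr, rfl⟩
  have haK : ab ∈ K := (le_sup_right : zpowers ab ≤ K) (mem_zpowers _)
  have hncb : mkP r * ab ≠ ab * mkP r := fun h => hnc (comm_of_mkP_comm h2 htr h)
  have hp3 : p % 2 = 1 := hp2
  have h2cop : Nat.Coprime 2 p := (Nat.coprime_primes Nat.prime_two hp).2 (by
    intro h
    rw [← h] at hp2
    omega)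
  -- a product of two involutions
  have hinv : ∀ u : K, u ^ 2 = 1 → (u * ⟨ab, haK⟩) ^ 2 = 1 → False := by
    intro u hu huab
    have h1 : (u : PSL(2, F)) ∈ Rb :=
      hmem _ u.2 2 h2cop (by simpa using congrArg Subtype.val hu)
    have h3 : (u : PSL(2, F)) * ab ∈ Rb :=
      hmem _ (K.mul_mem u.2 haK) 2 h2cop (by simpa using congrArg Subtype.val huab)
    apply habnot
    have : ab = (u : PSL(2, F))⁻¹ * ((u : PSL(2, F)) * ab) := by group
    rw [this]
    exact Rb.mul_mem (Rb.inv_mem h1) h3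
  have hfinal : ∀ n : ℕ, Nat.card K = n * 3 → p = 3 → Nat.card Rb = n := by
    intro n h h3
    rw [hcard, h3] at h
    exact Nat.eq_of_mul_eq_mul_right (by norm_num) h
  rcases dickson_frame_pos p K with h1 | ⟨A, hA, hd, hle⟩ | ⟨A, hA, hd, hAH, hidx⟩ | ⟨g, hg⟩ |
      ⟨⟨e⟩⟩ | ⟨⟨e⟩⟩ | ⟨⟨e⟩⟩ | hpos
  · exfalso
    rw [h1] at hcard
    have h3 : p ∣ 1 := ⟨Nat.card Rb, by rw [hcard]; ring⟩
    exact hp.one_lt.ne' (Nat.dvd_one.1 h3)
  · exfalso
    obtain ⟨hc, -⟩ := MemberCyc.cbar_cyclic hA hd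
    have hcomm : ∀ u v : cbar A, u * v = v * u := by
      letI := IsCyclic.commGroup (α := cbar A)
      exact mul_comm
    have := hcomm ⟨_, hle hrK⟩ ⟨_, hle haK⟩
    exact hncb (congrArg Subtype.val this)
  · exfalso
    have h1 : (⟨ab, haK⟩ : K) ∈ member K A :=
      mem_of_index_two hidx hp2 (Subtype.ext (by simpa [hab] using (by rw [← map_pow, hap, map_one] : (mkP a) ^ p = 1)))
    have h3 : orderOf (⟨⟨ab, haK⟩, h1⟩ : member K A) = p := by
      rw [Subgroup.orderOf_mk, Subgroup.orderOf_mk]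
      exact hord
    have h4 := orderOf_dvd_natCard (⟨⟨ab, haK⟩, h1⟩ : member K A)
    rw [h3] at h4
    exact cop_of_disc (H := K) p hA hd h4
  · exfalso
    have hur : Up g r := hg r hrK
    have hua : Up g a := hg a haK
    have hch1 : ch g (1 : SL(2, F)) = 1 := by
      show (T g 1).1 0 0 = 1
      rw [T_one]
      simp
    have hinv' : ∀ X : SL(2, F), Up g X → ch g X * ch g X⁻¹ = 1 := by
      intro X hX
      rw [← ch_mul (up_inv hX), mul_inv_cancel, hch1]
    set c := r * a * r⁻¹ * a⁻¹ with hc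
    have hcu : Up g c := up_mul (up_mul (up_mul hur hua) (up_inv hur)) (up_inv hua)
    have hcc : ch g c = 1 := by
      rw [hc, ch_mul (up_inv hua), ch_mul (up_inv hur), ch_mul hua]
      linear_combination ch g a * ch g a⁻¹ * hinv' r hur + hinv' a hua
    have hc11 : (T g c).1 1 1 = 1 := by
      have := ch_mul_11 hcu
      rwa [hcc, one_mul] at this
    have htc : tr c = 2 := by
      rw [← tr_conj g c]
      show (T g c).1 0 0 + (T g c).1 1 1 = 2
      rw [hc11]
      have h3 : (T g c).1 0 0 = 1 := hcc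
      rw [h3]
      norm_num
    have hcp := pow_char_of_tr_two p htc
    have hcR : c ∈ R := by
      have h3 : c = r * (a * r⁻¹ * a⁻¹) := by rw [hc]; group
      rw [h3]
      exact R.mul_mem hr (conj_mem_of_normalizer haN (R.inv_mem hr))
    have hc1 := eq_one_of_coprime hR hcR hcp
    apply hnc
    have h3 : r * a = c * (a * r) := by rw [hc]; group
    rw [h3, hc1, one_mul]
  · -- `A₄`
    have h12 : Nat.card K = 12 := by rw [Nat.card_congr e.toEquiv, card_alt4]
    have hdvd : p ∣ 12 := by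
      rw [← h12, hcard]
      exact Dvd.intro_left _ rfl
    have h3 := p_of_dvd12 hp hp2 hdvd
    exact ⟨h3, hfinal 4 h12 h3⟩
  · exfalso
    obtain ⟨u, hu, huz⟩ := s4_invol (e ⟨ab, haK⟩)
    apply hinv (e.symm u)
    · rw [← map_pow, hu, map_one]
    · have h3 : (e.symm u * ⟨ab, haK⟩) = e.symm (u * e ⟨ab, haK⟩) := by simp
      rw [h3, ← map_pow, huz, map_one]
  · exfalso
    obtain ⟨u, hu, huz⟩ := a5_invol (e ⟨ab, haK⟩)
    apply hinv (e.symm u)
    · rw [← map_pow, hu, map_one]
    · have h3 : (e.symm u * ⟨ab, haK⟩) = e.symm (u * e ⟨ab, haK⟩) := by simp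
      rw [h3, ← map_pow, huz, map_one]
  · obtain ⟨g₁, c₁, hc₁, K', _, _, ι, m, hm, hle, hcase⟩ := hpos
    set Φ := frameP g₁ c₁ hc₁ with hΦ
    have hcardΦ : Nat.card (K.map Φ.toMonoidHom) = Nat.card K :=
      (Nat.card_congr (Φ.subgroupMap K).toEquiv).symm
    have hpull : ∀ w, w ∈ K.map Φ.toMonoidHom → Φ.symm w ∈ K := by
      rintro _ ⟨v, hv, rfl⟩
      have : Φ.symm (Φ.toMonoidHom v) = v := by simp
      rw [this]
      exact hv
    have hpull' : ∀ w, w ∈ stdPsl ι → Φ.symm w ∈ K := fun w hw => hpull w (hle hw)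
    have hmem' : ∀ w, w ∈ K.map Φ.toMonoidHom → ∀ n : ℕ, n.Coprime p → w ^ n = 1 → Φ.symm w ∈ Rb := by
      intro w hw n hn h
      apply hmem _ (hpull w hw) n hn
      rw [← map_pow, h, map_one]
    have hnotx : ∀ t : F, t ≠ 0 → Φ.symm (mkP (x t)) ∉ Rb := by
      intro t ht h
      have h3 : Φ.symm (mkP (x t)) ^ p = 1 := by
        rw [← map_pow, ← map_pow, x_pow_char p, map_one, map_one]
      have h4 := hnotmem _ h h3
      have h5 : mkP (x t) = 1 := by simpa using h4
      rcases mkP_eq_one_iff.1 h5 with h6 | h6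
      · have := congrArg (fun M : SL(2, F) => M.1 0 1) h6
        simp at this
        exact ht this
      · have := congrArg (fun M : SL(2, F) => M.1 0 0) h6
        simp at this
        apply h2
        linear_combination this
    haveI hcK : CharP K' p := (RingHom.charP_iff ι ι.injective p).2 inferInstance
    obtain ⟨j, -, hj⟩ := FiniteField.card K' p
    have hj0 : (j : ℕ) ≠ 0 := j.ne_zero
    have hoddK : Fintype.card K' % 2 = 1 := by
      rw [hj, Nat.pow_mod, hp2]
      simp
    by_cases hK4 : 4 ≤ Fintype.card K'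
    · exfalso
      obtain ⟨c, hc0, hcc⟩ := TorusSylow.exists_mul_self_ne_one (F := K') (by omega)
      set n := Fintype.card K' - 1 with hn
      have hncop : n.Coprime p := by
        apply Nat.Coprime.symm
        rw [Nat.Prime.coprime_iff_not_dvd hp]
        intro h
        have h3 : p ∣ Fintype.card K' := by
          rw [hj]
          exact dvd_pow_self p hj0
        have h4 : n + 1 = Fintype.card K' := by omega
        rw [← h4] at h3
        have h5 := (Nat.dvd_add_right h).1 h3
        exact hp.one_lt.ne' (Nat.dvd_one.1 h5)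
      let Y₁ : SL(2, K') := d c hc0
      let Y₂ : SL(2, K') := x 1 * d c⁻¹ (inv_ne_zero hc0) * (x 1)⁻¹
      have hY₁ : Y₁ ^ n = 1 := d_pow_card_sub_one c hc0
      have hY₂ : Y₂ ^ n = 1 := by
        show (x 1 * d c⁻¹ (inv_ne_zero hc0) * (x 1)⁻¹) ^ n = 1
        rw [conj_pow, d_pow_card_sub_one]
        simp
      have hprod : Y₁ * Y₂ = x (c ^ 2 - 1) := by
        have e1 : d c hc0 * x (1 : K') * d c⁻¹ (inv_ne_zero hc0) = x (c ^ 2 * 1) := by
          rw [← d_inv c hc0, d_x_d_inv]
        show d c hc0 * (x 1 * d c⁻¹ (inv_ne_zero hc0) * (x 1)⁻¹) = _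
        rw [← mul_assoc, ← mul_assoc, e1, x_inv, ← x_add]
        congr 1
        ring
      have hstd : ∀ Y : SL(2, K'), mkP (mapι ι Y) ∈ stdPsl ι := fun Y => ⟨mkP Y, pslMap_mk Y⟩
      have hpow : ∀ Y : SL(2, K'), Y ^ n = 1 → mkP (mapι ι Y) ^ n = 1 := by
        intro Y hY
        rw [← map_pow, ← map_pow, hY, map_one, map_one]
      have h3 := hmem' _ (hle (hstd Y₁)) n hncop (hpow _ hY₁)
      have h4 := hmem' _ (hle (hstd Y₂)) n hncop (hpow _ hY₂)
      have h5 := Rb.mul_mem h3 h4
      rw [← map_mul, ← map_mul, ← map_mul, hprod, mapι_x] at h5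
      refine hnotx _ ?_ h5
      rw [Ne, map_eq_zero_iff ι ι.injective]
      intro h6
      apply hcc
      linear_combination h6
    · have hcard3 : Fintype.card K' = 3 := by
        have := card_ge_two K'
        omega
      have hp3' : p = 3 := by
        have h3 : p ∣ 3 := by
          rw [← hcard3, hj]
          exact dvd_pow_self p hj0
        exact (Nat.prime_dvd_prime_iff_eq hp Nat.prime_three).1 h3
      have hPK : Nat.card PSL(2, K') = 12 := by
        have h3 := card_PSL2_mul_dd K'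
        have h4 : dd K' = 2 := gcd_two_odd hoddK
        rw [h4, hcard3] at h3
        omega
      rcases hcase with hc | ⟨hroot, hc⟩
      · refine ⟨hp3', hfinal 4 ?_ hp3'⟩
        rw [← hcardΦ, hc, card_stdPsl, hPK]
      · exfalso
        have hm1 : (-1 : K') ≠ 0 := neg_ne_zero.2 one_ne_zero
        obtain ⟨ρ, hρ0, hρρ, hρm⟩ := hroot (-1) hm1
        have hρρ' : ρ * ρ = -1 := by rw [hρρ, map_neg, map_one]
        have hdsq : mkP (d ρ hρ0) ^ 2 = 1 := by
          rw [← map_pow, d_pow]
          have : d (ρ ^ 2) (pow_ne_zero 2 hρ0) = -1 := by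
            apply ext2 <;> simp [pow_two, hρρ']
          rw [this, mkP_neg_one]
        have hD := hmem' _ hρm 2 h2cop hdsq
        have hX : Φ.symm (mkP (x 1)) ∈ K := by
          apply hpull'
          refine ⟨mkP (x 1), ?_⟩
          rw [pslMap_mk, mapι_x, map_one]
        have h3 := conj_mem_of_normalizer (hnorm hX) (Rb.inv_mem hD)
        have h4 := Rb.mul_mem hD h3
        have e1 : Φ.symm (mkP (d ρ hρ0)) * (Φ.symm (mkP (x 1)) * (Φ.symm (mkP (d ρ hρ0)))⁻¹ * (Φ.symm (mkP (x 1)))⁻¹) =
            Φ.symm (mkP (x (-2))) := by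
          have e2 : d ρ hρ0 * x 1 * (d ρ hρ0)⁻¹ * (x 1)⁻¹ = x (-2) := by
            rw [d_x_d_inv, x_inv, ← x_add]
            congr 1
            rw [pow_two, hρρ']
            ring
          rw [← e2]
          simp only [map_mul, map_inv]
          group
        rw [e1] at h4
        refine hnotx _ ?_ h4
        exact neg_ne_zero.2 h2

lemma sq_one_aux {z : F} (h : z ^ 2 = 1) : z = 1 ∨ z = -1 := by
  have h1 : (z - 1) * (z + 1) = 0 := by linear_combination h
  rcases mul_eq_zero.1 h1 with h2 | h2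
  · left; linear_combination h2
  · right; linear_combination h2

lemma anti_of_tr {u v : SL(2, F)} (hu : tr u = 0) (hv : tr v = 0) (huv : tr (u * v) = 0) :
    u * v = -(v * u) := by
  have h1 : u.1 1 1 = - u.1 0 0 := by
    simp only [tr] at hu
    linear_combination hu
  have h2 : v.1 1 1 = - v.1 0 0 := by
    simp only [tr] at hv
    linear_combination hv
  simp only [tr, mul_00, mul_11, h1, h2] at huv
  apply ext2
  · simp only [mul_00, neg_00]
    linear_combination huv
  · simp only [mul_01, neg_01, h1, h2]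
    ring
  · simp only [mul_10, neg_10, h1, h2]
    ring
  · simp only [mul_11, neg_11, h1, h2]
    linear_combination huv

lemma frame_x {a : SL(2, F)} (hNC : NC a) (htr : tr a = 2) : ∃ (g : SL(2, F)) (s : F), s ≠ 0 ∧ T g a = x s := by
  have hd : disc a = 0 := by
    unfold disc
    rw [htr]
    norm_num
  obtain ⟨g, ε, hε, s, hg, hs, hε2⟩ := exists_frame hNC hd
  have hε1 : ε = 1 := by
    have h1 : tr (T g a) = 2 := by
      rw [← htr]
      exact tr_conj g a
    rw [hg] at h1
    simp [tr] at h1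
    have h3 : ε⁻¹ = ε := inv_eq_of_mul_eq_one_left hε2
    rw [h3] at h1
    have h4 : (ε - 1) * (ε - 1) = 0 := by
      linear_combination hε2 - h1
    have := mul_self_eq_zero.1 h4
    linear_combination this
  subst hε1
  refine ⟨g, s, hs, ?_⟩
  rw [hg]
  apply ext2 <;> simp

/-- The structure. -/
theorem structure_part [CharP F 3] [Fact (Nat.Prime 3)] (h2 : (2 : F) ≠ 0)
    {a : SL(2, F)} (htr : tr a = 2) (hNC : NC a) (hord : orderOf a = 3)
    {R : Subgroup SL(2, F)} (hR : (Nat.card R).Coprime 3) (haN : a ∈ normalizer (R : Set SL(2, F)))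
    {r : SL(2, F)} (hr : r ∈ R) (hnc : r * a ≠ a * r) (h4 : Nat.card (R.map mkP) = 4) :
    Nonempty (R ≃* QuaternionGroup 2) ∧
      Nonempty ((R ⊔ zpowers a : Subgroup SL(2, F)) ≃* SL(2, ZMod 3)) := by
  classical
  have h3F : (3 : F) = 0 := by exact_mod_cast CharP.cast_eq_zero F 3
  set Rb : Subgroup PSL(2, F) := R.map mkP with hRb
  set ab : PSL(2, F) := mkP a with hab
  have haNb : ab ∈ normalizer (Rb : Set PSL(2, F)) :=
    Subgroup.le_normalizer_map (mkP : SL(2, F) →* PSL(2, F)) ⟨a, haN, rfl⟩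
  have hcop3 : (Nat.card Rb).Coprime 3 := by
    rw [h4]
    norm_num
  have hd : disc a = 0 := by
    unfold disc
    rw [htr]
    norm_num
  have hfix : ∀ z ∈ R, mkP z * ab = ab * mkP z → mkP z = 1 := by
    intro z hz h
    by_contra hz1
    have hNCz := nc_of_mkP_ne_one hz1
    have hcomm := comm_of_mkP_comm h2 htr h
    have hdz : disc z = 0 := (disc_eq_zero_iff hNC hNCz hcomm.symm).2 hd
    exact hz1 (eq_one_of_coprime hcop3 ⟨z, hz, rfl⟩ (mkP_pow_of_disc 3 hdz))
  have hsq : ∀ z ∈ R, mkP z ^ 2 = 1 := by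
    intro z hz
    by_contra hne
    set u := mkP z with hu
    have huR : u ∈ Rb := ⟨z, hz, rfl⟩
    have hu4 : u ^ 2 ^ (1 + 1) = 1 := by
      have h1 := pow_card_eq_one' (x := (⟨u, huR⟩ : Rb))
      rw [h4] at h1
      simpa using congrArg Subtype.val h1
    haveI : Fact (Nat.Prime 2) := ⟨Nat.prime_two⟩
    have hord4 : orderOf u = 2 ^ (1 + 1) :=
      orderOf_eq_prime_pow (by simpa using hne) hu4
    have hle : zpowers u ≤ Rb := by
      rw [zpowers_le]
      exact huR
    have heq : zpowers u = Rb := Subgroup.eq_of_le_of_card_ge hle (by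
      rw [h4, Nat.card_zpowers, hord4]
      norm_num)
    have hu' : ab * u * ab⁻¹ ∈ zpowers u := by
      rw [heq]
      exact conj_mem_of_normalizer haNb huR
    obtain ⟨k, hk⟩ := mem_zpowers_iff.1 hu'
    have hsq' : (ab * u * ab⁻¹) ^ 2 = ab * u ^ 2 * ab⁻¹ := by
      rw [conj_pow]
    have hu22 : (u ^ 2) ^ 2 = 1 := by
      rw [← pow_mul]
      exact hu4
    have hcase : (ab * u * ab⁻¹) ^ 2 = 1 ∨ (ab * u * ab⁻¹) ^ 2 = u ^ 2 := by
      rw [← hk, ← zpow_natCast, ← _root_.zpow_mul]
      have hk2 : (u : PSL(2, F)) ^ (k * ((2 : ℕ) : ℤ)) = (u ^ 2) ^ k := by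
        rw [mul_comm, _root_.zpow_mul]
        norm_cast
      rw [hk2]
      rcases Int.even_or_odd' k with ⟨m, rfl | rfl⟩
      · left
        rw [_root_.zpow_mul]
        have : (u ^ 2) ^ (2 : ℤ) = 1 := by
          norm_cast
        rw [this, _root_.one_zpow]
      · right
        rw [_root_.zpow_add, _root_.zpow_mul]
        have : (u ^ 2) ^ (2 : ℤ) = 1 := by
          norm_cast
        rw [this, _root_.one_zpow, one_mul, _root_.zpow_one]
    rcases hcase with hc | hc
    · apply hne
      rw [hsq'] at hc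
      have : u ^ 2 = ab⁻¹ * (ab * u ^ 2 * ab⁻¹) * ab := by group
      rw [this, hc]
      group
    · apply hne
      rw [hsq'] at hc
      have h5 : mkP (z * z) = u ^ 2 := by rw [map_mul, pow_two]
      rw [← h5]
      apply hfix _ (R.mul_mem hz hz)
      rw [h5]
      have : ab * u ^ 2 = (ab * u ^ 2 * ab⁻¹) * ab := by group
      rw [this, hc]
  have hr1 : mkP r ≠ 1 := by
    intro h
    apply hnc
    rcases mkP_eq_one_iff.1 h with rfl | rfl
    · simp
    · simp
  have htr0 : tr r = 0 := (tr_of_sq (hsq r hr)).resolve_left hr1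
  set r' := a * r * a⁻¹ with hr'def
  have hr' : r' ∈ R := conj_mem_of_normalizer haN hr
  have htr' : tr r' = 0 := by
    rw [hr'def, tr_conj]
    exact htr0
  have hrr : mkP r' ≠ mkP r := by
    intro h
    apply hnc
    apply comm_of_mkP_comm h2 htr
    rw [hr'def, map_mul, map_mul, map_inv] at h
    have : mkP a * mkP r = mkP a * mkP r * (mkP a)⁻¹ * mkP a := by group
    rw [this, h]
  have hsqr := hsq r hr
  have hprod : mkP (r * r') ≠ 1 := by
    intro h
    apply hrr
    rw [map_mul] at h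
    have h5 : mkP r * mkP r = 1 := by rw [← pow_two]; exact hsqr
    have h6 : mkP r' = (mkP r)⁻¹ := eq_inv_of_mul_eq_one_right h
    rw [h6]
    exact inv_eq_of_mul_eq_one_left h5
  have htrp : tr (r * r') = 0 := (tr_of_sq (hsq _ (R.mul_mem hr hr'))).resolve_left hprod
  have hanti := anti_of_tr htr0 htr' htrp
  have hrsq : r * r = -1 := (Torus.mul_self_eq_neg_one_iff r).2 htr0
  have hrsq' : r' * r' = -1 := (Torus.mul_self_eq_neg_one_iff r').2 htr'
  have hneg1 : (-1 : SL(2, F)) ∈ R := by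
    rw [← hrsq]
    exact R.mul_mem hr hr
  have hcenter : Subgroup.center SL(2, F) ≤ R := by
    intro X hX
    rcases mem_center_iff₂.1 hX with rfl | rfl
    · exact R.one_mem
    · exact hneg1
  have hcardR : Nat.card R = 8 := by
    have h5 := Spectrum.card_map_mkP R hcenter
    rw [card_center_of_two_ne_zero h2] at h5
    rw [← h5, h4]
  have hnegr : ∀ Y : SL(2, F), Y * Y = -1 → Y⁻¹ = -Y := by
    intro Y hY
    apply inv_eq_of_mul_eq_one_right
    simp [hY]
  haveI h2pr : Fact (Nat.Prime 2) := ⟨Nat.prime_two⟩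
  constructor
  · -- quaternion
    let u : R := ⟨r, hr⟩
    let v : R := ⟨r', hr'⟩
    have hm1ne : (-1 : SL(2, F)) ≠ 1 := fun h => neg_ne_self h2 1 h.symm
    apply Cfsg.Agent.Lib.PGroup.CyclicMax.quaternionEquivOfGens 2 (by rw [hcardR]) u v
    · rw [Subgroup.orderOf_mk]
      have h5 : r ^ 2 ^ (1 + 1) = 1 := by
        have : r ^ 2 ^ (1 + 1) = (r * r) * (r * r) := by
          norm_num
          simp only [pow_succ, pow_zero, one_mul, mul_assoc]
        rw [this, hrsq]
        simp
      have h6 : ¬ r ^ 2 ^ 1 = 1 := by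
        have : r ^ 2 ^ 1 = r * r := by simp [pow_two]
        rw [this, hrsq]
        exact hm1ne
      have := orderOf_eq_prime_pow h6 h5
      rw [this]
      norm_num
    · apply Subtype.ext
      show r' * r' = r ^ 2
      rw [hrsq', pow_two, hrsq]
    · apply Subtype.ext
      show r' * r * r'⁻¹ = r⁻¹
      have h5 : r' * r = (-r) * r' := by
        have : (-r) * r' = -(r * r') := by simp
        rw [this, hanti]
        simp
      rw [h5, mul_inv_cancel_right, hnegr r hrsq]
    · intro h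
      obtain ⟨k, hk⟩ := mem_zpowers_iff.1 h
      have h5 : Commute u v := by
        rw [← hk]
        exact (Commute.refl u).zpow_right k
      have h6 : r * r' = r' * r := congrArg Subtype.val h5.eq
      rw [← h6] at hanti
      exact neg_ne_self h2 _ hanti
  · -- `SL₂(3)`
    obtain ⟨g, s, hs, hg⟩ := frame_x hNC htr
    set A := T g r with hA
    have hAtr : A.1 0 0 + A.1 1 1 = 0 := by
      have : tr A = 0 := by
        rw [hA, ← htr0]
        exact tr_conj g r
      exact this
    have hdet := det_entries A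
    have hTmul : T g (r * r') = A * (x s * A * (x s)⁻¹) := by
      have e1 : ∀ P Q : SL(2, F), T g (P * Q) = T g P * T g Q := by
        intro P Q
        simp only [T]
        group
      have e2 : T g (a⁻¹) = (x s)⁻¹ := by
        rw [← hg]
        simp only [T]
        group
      rw [e1, hr'def, e1, e1, hg, e2]
    have htrT : tr (A * (x s * A * (x s)⁻¹)) = 0 := by
      rw [← hTmul, ← htrp]
      exact tr_conj g _
    have hA11 : A.1 1 1 = - A.1 0 0 := by linear_combination hAtr
    have hkey : (s * A.1 1 0) ^ 2 = 1 := by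
      simp only [tr, mul_00, mul_01, mul_10, mul_11, x_inv, x_00, x_01, x_10, x_11, hA11] at htrT
      rw [hA11] at hdet
      linear_combination -htrT - 2 * hdet - h3F
    have hγ : A.1 1 0 ≠ 0 := by
      intro h
      rw [h] at hkey
      simp at hkey
    set γ := A.1 1 0 with hγdef
    set α := A.1 0 0 with hαdef
    set u := -α / γ with hu
    have huγ : u * γ = -α := by
      rw [hu]
      field_simp
    have hu' : u = -α * γ⁻¹ := by rw [hu, div_eq_mul_inv]
    have e1 : T (x u * g) a = x s := by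
      have : T (x u * g) a = x u * T g a * (x u)⁻¹ := by
        simp only [T]
        group
      rw [this, hg, x_inv, ← x_add, ← x_add]
      congr 1
      ring
    have e2 : T (x u * g) r = x u * A * (x u)⁻¹ := by
      simp only [hA, T]
      group
    have hB00 : (T (x u * g) r).1 0 0 = 0 := by
      rw [e2, x_inv]
      simp only [mul_00, mul_01, mul_10, x_00, x_01, x_10, x_11, ← hγdef, ← hαdef]
      linear_combination huγ
    have hB10 : (T (x u * g) r).1 1 0 = γ := by
      rw [e2, x_inv]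
      simp only [mul_10, mul_00, x_00, x_01, x_10, x_11, ← hγdef, ← hαdef]
      ring
    have hB11 : (T (x u * g) r).1 1 1 = 0 := by
      rw [e2, x_inv]
      simp only [mul_11, mul_10, mul_00, x_00, x_01, x_10, x_11, ← hγdef, ← hαdef, hA11]
      linear_combination -huγ
    have hB01 : (T (x u * g) r).1 0 1 = -γ⁻¹ := by
      have h5 := det_entries (T (x u * g) r)
      rw [hB00, hB10] at h5
      field_simp
      linear_combination -h5
    let Ψ : SL(2, F) ≃* SL(2, F) := frameEquiv (x u * g) s⁻¹ (inv_ne_zero hs)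
    have hΨa : Ψ a = x 1 := by
      show frameEquiv (x u * g) s⁻¹ (inv_ne_zero hs) a = x 1
      rw [frameEquiv_apply, e1, scale_x, inv_mul_cancel₀ hs]
    have hΨm : Ψ (-1) = -1 := by
      show frameEquiv (x u * g) s⁻¹ (inv_ne_zero hs) (-1) = -1
      rw [frameEquiv_neg, map_one]
    have hΨr : ∀ i j, (Ψ r).1 i j = (scale s⁻¹ (inv_ne_zero hs) (T (x u * g) r)).1 i j := fun i j => rfl
    set L : Subgroup SL(2, F) := R ⊔ zpowers a with hL
    set L' : Subgroup SL(2, F) := L.map Ψ.toMonoidHom with hL'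
    have hmemL : ∀ z ∈ L, Ψ z ∈ L' := fun z hz => ⟨z, hz, rfl⟩
    have hx1 : x (1 : F) ∈ L' := by
      rw [← hΨa]
      exact hmemL _ ((le_sup_right : zpowers a ≤ L) (mem_zpowers a))
    have hm1 : (-1 : SL(2, F)) ∈ L' := by
      rw [← hΨm]
      exact hmemL _ ((le_sup_left : R ≤ L) hneg1)
    have hrL : Ψ r ∈ L' := hmemL _ ((le_sup_left : R ≤ L) hr)
    have hw : (w : SL(2, F)) ∈ L' := by
      have h01 : (Ψ r).1 0 1 = - (s * γ)⁻¹ := by
        rw [hΨr, scale_01, hB01, mul_inv]
        ring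
      have h10 : (Ψ r).1 1 0 = s * γ := by
        rw [hΨr, scale_10, hB10, inv_inv]
      have h00 : (Ψ r).1 0 0 = 0 := by
        rw [hΨr, scale_00, hB00]
      have h11 : (Ψ r).1 1 1 = 0 := by
        rw [hΨr, scale_11, hB11]
      rcases sq_one_aux hkey with h5 | h5
      · have : (w : SL(2, F)) = (-1) * Ψ r := by
          apply ext2
          · simp [h00]
          · simp [h01, h5]
          · simp [h10, h5]
          · simp [h11]
        rw [this]
        exact L'.mul_mem hm1 hrL
      · have : (w : SL(2, F)) = Ψ r := by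
          apply ext2
          · rw [h00]; rfl
          · rw [h01, h5]
            simp
          · rw [h10, h5]; rfl
          · rw [h11]; rfl
        rw [this]
        exact hrL
    -- the standard copy
    let ι : ZMod 3 →+* F := ZMod.castHom (dvd_refl 3) F
    have hxι : ∀ t : ZMod 3, x (ι t) ∈ L' := by
      intro t
      have h5 : ι t = ((t.val : ℕ) : F) := by
        conv_lhs => rw [← ZMod.natCast_zmod_val t]
        rw [map_natCast]
      rw [h5]
      have h6 := x_pow (1 : F) t.val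
      rw [mul_one] at h6
      rw [← h6]
      exact L'.pow_mem hx1 _
    have hyι : ∀ t : ZMod 3, y (ι t) ∈ L' := by
      intro t
      have h5 := w_x_w_inv (-(ι t))
      rw [neg_neg] at h5
      rw [← h5, ← x_inv]
      exact L'.mul_mem (L'.mul_mem hw (L'.inv_mem (hxι t))) (L'.inv_mem hw)
    have hgen : ∀ M : SL(2, ZMod 3), mapι ι M ∈ L' := by
      intro M
      have h5 : mkP (mapι ι M) ∈ L'.map (mkP : SL(2, F) →* PSL(2, F)) :=
        mem_of_gens (ι := ι) (H₁ := L'.map (mkP : SL(2, F) →* PSL(2, F))) (fun t => ⟨_, hxι t, rfl⟩) (fun t => ⟨_, hyι t, rfl⟩) M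
      obtain ⟨Z, hZ, hZM⟩ := h5
      rcases mkP_eq_iff.1 hZM with h6 | h6
      · rw [h6]
        exact hZ
      · rw [h6]
        have : -Z = (-1) * Z := by simp
        rw [this]
        exact L'.mul_mem hm1 hZ
    have hinj : Function.Injective (mapι ι) := by
      intro M M' h
      apply Subtype.ext
      ext i j
      have h5 := congrArg (fun P : SL(2, F) => P.1 i j) h
      exact ι.injective h5
    have hS : (mapι ι).range = L' := by
      apply Subgroup.eq_of_le_of_card_ge
      · rintro _ ⟨M, rfl⟩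
        exact hgen M
      · have h5 : Nat.card (mapι ι).range = Nat.card SL(2, ZMod 3) :=
          (Nat.card_congr (MonoidHom.ofInjective hinj).toEquiv).symm
        have h6 : Nat.card SL(2, ZMod 3) = 24 := by
          rw [ClassSizes.card_SL2_mul, ZMod.card]
        have h7 : Nat.card L' = Nat.card L := (Nat.card_congr (Ψ.subgroupMap L).toEquiv).symm
        have h8 : Nat.card L = 8 * 3 := by
          rw [← hcardR]
          exact card_sup Nat.prime_three haN hord hR
        rw [h5, h6, h7, h8]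
    exact ⟨(Ψ.subgroupMap L).trans ((MulEquiv.subgroupCongr hS.symm).trans (MonoidHom.ofInjective hinj).symm)⟩

end

/-- Let F be a finite field of odd characteristic p and let a be a p-element of SL₂(F) normalizing a subgroup R of order prime to p with [R, a] ≠ 1. Then p = 3, R is a quaternion group of order 8, and R⟨a⟩ is isomorphic to SL₂(3). -/
theorem result (F : Type) [Field F] [Fintype F] {p : ℕ} [Fact p.Prime] [CharP F p] (hp : p ≠ 2) (a : Matrix.SpecialLinearGroup (Fin 2) F) (ha : IsPGroup p ↥(Subgroup.zpowers a)) (R : Subgroup (Matrix.SpecialLinearGroup (Fin 2) F)) (hR : (Nat.card R).Coprime p) (haR : a ∈ Subgroup.normalizer (R : Set (Matrix.SpecialLinearGroup (Fin 2) F))) (hnt : ⁅R, Subgroup.zpowers a⁆ ≠ ⊥) : p = 3 ∧ Nonempty (↥R ≃* QuaternionGroup 2) ∧ Nonempty (↥(R ⊔ Subgroup.zpowers a) ≃* Matrix.SpecialLinearGroup (Fin 2) (ZMod 3)) := by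
  classical
  have hpp := (Fact.out : p.Prime)
  have hp2 : p % 2 = 1 := by
    rcases hpp.eq_two_or_odd with h | h
    · exact absurd h hp
    · exact h
  have h2 : (2 : F) ≠ 0 := by
    intro h
    have h1 : ((2 : ℕ) : F) = 0 := by exact_mod_cast h
    have h3 := (CharP.cast_eq_zero_iff F p 2).1 h1
    exact hp ((Nat.prime_dvd_prime_iff_eq hpp Nat.prime_two).1 h3)
  obtain ⟨r, hr, hnc⟩ : ∃ r ∈ R, r * a ≠ a * r := by
    by_contra hcon
    push Not at hcon
    apply hnt
    rw [Subgroup.commutator_eq_bot_iff_le_centralizer]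
    intro r hr
    rw [Subgroup.mem_centralizer_iff]
    intro h hh
    obtain ⟨i, rfl⟩ := mem_zpowers_iff.1 hh
    have h3 : Commute r a := hcon r hr
    exact (h3.zpow_right i).eq.symm
  have ha1 : a ≠ 1 := by
    rintro rfl
    apply hnc
    simp
  obtain ⟨htr, hNC, hap, hord, hordb⟩ := a_data p hp2 h2 ha ha1
  obtain ⟨h3, h4⟩ := dickson_part p hp2 h2 htr hNC hap hordb hR haR hr hnc
  subst h3
  exact ⟨rfl, structure_part h2 htr hNC hord hR haR hr hnc h4⟩

end Cfsg.Agent.S3740
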