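import Cfsg.Statements.S3741
import Mathlib
import Cfsg.Agent.Lib.PGroup.Critical
import Cfsg.Agent.Lib.PGroup.MaximalClass
import Cfsg.Agent.Lib.PGroup.Basic
-- import your own Cfsg.Agent.* helpers here

set_option autoImplicit false
open Cfsg

namespace Cfsg.Agent.S3741


open scoped commutatorElement

variable {G : Type*} [Group G] [Finite G] {p : ℕ} [Fact p.Prime]

/-- `⁅A, B⁆` of order `p` inside `A ⊓ B` is central in `A` and `B`. -/
lemma central_of (hG : IsPGroup p G) (A B : Subgroup G) (hAB : ⁅A, B⁆ ≤ A ⊓ B)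
    (hcard : Nat.card ↥⁅A, B⁆ = p) : ∀ z ∈ ⁅A, B⁆, ∀ g ∈ A ⊔ B, g * z = z * g := by
  classical
  set Z := ⁅A, B⁆ with hZ
  have hnA : ∀ a ∈ A, ∀ z ∈ Z, a * z * a⁻¹ ∈ Z := by
    intro a ha z hz
    have h1 : ⁅a, z⁆ ∈ Z := Subgroup.commutator_mem_commutator ha (hAB hz).2
    have h2 : a * z * a⁻¹ = ⁅a, z⁆ * z := by simp [commutatorElement_def]
    rw [h2]; exact Z.mul_mem h1 hz
  have hnB : ∀ b ∈ B, ∀ z ∈ Z, b * z * b⁻¹ ∈ Z := by
    intro b hb z hz
    have h1 : ⁅z⁻¹, b⁆ ∈ Z := Subgroup.commutator_mem_commutator (A.inv_mem (hAB hz).1) hb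
    have h2 : b * z * b⁻¹ = z * ⁅z⁻¹, b⁆ := by simp [commutatorElement_def, mul_assoc]
    rw [h2]; exact Z.mul_mem hz h1
  have hle : A ⊔ B ≤ Subgroup.normalizer (Z : Set G) := by
    rw [sup_le_iff]
    exact ⟨fun a ha => Cfsg.Agent.Lib.PGroup.MaximalClass.mem_normalizer_of_conj_mem (hnA a ha),
      fun b hb => Cfsg.Agent.Lib.PGroup.MaximalClass.mem_normalizer_of_conj_mem (hnB b hb)⟩
  set P := A ⊔ B with hP
  have hZP : Z ≤ P := hAB.trans (inf_le_left.trans le_sup_left)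
  set N : Subgroup ↥P := Z.subgroupOf P with hN
  haveI hNn : N.Normal := by
    constructor
    intro n hn g
    rw [hN, Subgroup.mem_subgroupOf] at hn ⊢
    have := (Subgroup.mem_normalizer_iff.mp (hle g.2) n).mp hn
    simpa using this
  have hcN : Nat.card N = p := by
    rw [hN, Nat.card_congr (Subgroup.subgroupOfEquivOfLe hZP).toEquiv]; exact hcard
  have hNne : N ≠ ⊥ := by
    intro h
    have : Nat.card N = 1 := by rw [h]; simp
    have hp1 := (Fact.out : p.Prime).one_lt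
    omega
  have hPp : IsPGroup p ↥P := hG.to_subgroup P
  have hc := Cfsg.Agent.Lib.PGroup.Basic.inf_center_ne_bot hPp hNne
  have hNc : N ⊓ Subgroup.center ↥P = N := by
    have hle' : N ⊓ Subgroup.center ↥P ≤ N := inf_le_left
    have hd := Subgroup.card_dvd_of_le hle'
    rw [hcN] at hd
    rcases (Nat.dvd_prime (Fact.out : p.Prime)).mp hd with h1 | h1
    · exact absurd (Subgroup.eq_bot_of_card_eq _ h1) hc
    · exact Subgroup.eq_of_le_of_card_ge hle' (by rw [h1, hcN])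
  intro z hz g hg
  have hzN : (⟨z, hZP hz⟩ : ↥P) ∈ N := by simpa [hN, Subgroup.mem_subgroupOf] using hz
  have hzc : (⟨z, hZP hz⟩ : ↥P) ∈ Subgroup.center ↥P := by
    rw [← hNc] at hzN; exact (Subgroup.mem_inf.mp hzN).2
  have := (Subgroup.mem_center_iff.mp hzc) ⟨g, hg⟩
  simpa using (congrArg Subtype.val this)

/-- The commutator map `a ↦ ⁅a, b⁆` as a homomorphism. -/
noncomputable def commHom (A B : Subgroup G)
    (hcen : ∀ z ∈ ⁅A, B⁆, ∀ g ∈ A ⊔ B, g * z = z * g) (hAB : ⁅A, B⁆ ≤ A ⊓ B) (b : ↥B) :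
    ↥A →* ↥⁅A, B⁆ :=
  MonoidHom.mk' (fun a => ⟨⁅(a : G), (b : G)⁆, Subgroup.commutator_mem_commutator a.2 b.2⟩) (by
    intro x y
    apply Subtype.ext
    simp only [Subgroup.coe_mul, commutatorElement_def]
    have h1 : ⁅(y : G), (b : G)⁆ ∈ ⁅A, B⁆ := Subgroup.commutator_mem_commutator y.2 b.2
    have h2 := hcen _ h1 (x : G) (Subgroup.mem_sup_left x.2)
    have h3 := hcen _ h1 _ (Subgroup.mem_sup_left (Subgroup.mem_inf.mp (hAB (Subgroup.commutator_mem_commutator x.2 b.2))).1)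
    rw [commutatorElement_def] at h2 h3
    rw [commutatorElement_def] at h3
    calc (x : G) * y * b * ((x : G) * y)⁻¹ * (b : G)⁻¹
        = ((x : G) * ((y : G) * b * (y : G)⁻¹ * (b : G)⁻¹)) * (b : G) * (x : G)⁻¹ * (b : G)⁻¹ := by group
      _ = ((y : G) * b * (y : G)⁻¹ * (b : G)⁻¹) * ((x : G) * b * (x : G)⁻¹ * (b : G)⁻¹) := by
          rw [h2]; group
      _ = _ := h3.symm)

open Classical in
lemma card_mul (hG : IsPGroup p G) (A B : Subgroup G) (hAB : ⁅A, B⁆ ≤ A ⊓ B)
    (hcard : Nat.card ↥⁅A, B⁆ = p) (b : ↥B) :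
    p * Nat.card ↥(A ⊓ Subgroup.centralizer ({(b : G)} : Set G)) =
      Nat.card A + if (b : G) ∈ Subgroup.centralizer (A : Set G) then (p - 1) * Nat.card A else 0 := by
  have hcen := central_of hG A B hAB hcard
  set φ := commHom A B hcen hAB b with hφ
  have hker : ∀ a : ↥A, a ∈ φ.ker ↔ Commute (a : G) (b : G) := by
    intro a
    rw [MonoidHom.mem_ker, Subtype.ext_iff]
    change ⁅(a : G), (b : G)⁆ = 1 ↔ _
    rw [commutatorElement_eq_one_iff_commute]
  have hcardker : Nat.card φ.ker = Nat.card ↥(A ⊓ Subgroup.centralizer ({(b : G)} : Set G)) := by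
    refine Nat.card_congr ⟨fun x => ⟨x.1.1, Subgroup.mem_inf.mpr ⟨x.1.2, ?_⟩⟩,
      fun x => ⟨⟨x.1, (Subgroup.mem_inf.mp x.2).1⟩, ?_⟩, ?_, ?_⟩
    · rw [Subgroup.mem_centralizer_singleton_iff]
      exact ((hker x.1).mp x.2).eq
    · rw [hker]
      have := (Subgroup.mem_inf.mp x.2).2
      rw [Subgroup.mem_centralizer_singleton_iff] at this
      exact this
    · intro x; rfl
    · intro x; rfl
  have hk := φ.ker.card_mul_index
  rw [hcardker] at hk
  have hidx : φ.ker.index = Nat.card φ.range := by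
    rw [Subgroup.index_ker]
  split_ifs with hb
  · have htop : φ = 1 := by
      ext a
      change ⁅(a : G), (b : G)⁆ = 1
      rw [commutatorElement_eq_one_iff_commute]
      exact ((Subgroup.mem_centralizer_iff.mp hb) a a.2)
    have h1 : φ.ker.index = 1 := by
      rw [hidx, htop]; simp
    rw [h1, mul_one] at hk
    rw [hk]
    have hp1 := (Fact.out : p.Prime).one_lt
    obtain ⟨q, rfl⟩ : ∃ q, p = q + 1 := ⟨p - 1, by omega⟩
    simp; ring
  · have hne : φ.range ≠ ⊥ := by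
      intro h
      rw [MonoidHom.range_eq_bot_iff] at h
      apply hb
      rw [Subgroup.mem_centralizer_iff]
      intro a ha
      have : φ ⟨a, ha⟩ = 1 := by rw [h]; rfl
      have h2 := (hker ⟨a, ha⟩).mp (by rw [MonoidHom.mem_ker]; exact this)
      exact h2.eq
    have hd : Nat.card φ.range ∣ p := by
      rw [← hcard]; exact Subgroup.card_subgroup_dvd_card _
    have hr : Nat.card φ.range = p := by
      rcases (Nat.dvd_prime (Fact.out : p.Prime)).mp hd with h1 | h1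
      · exact absurd (Subgroup.eq_bot_of_card_eq _ h1) hne
      · exact h1
    rw [hidx, hr] at hk
    rw [add_zero, ← hk, mul_comm]

lemma sum_formula (hG : IsPGroup p G) (A B : Subgroup G) (hAB : ⁅A, B⁆ ≤ A ⊓ B)
    (hcard : Nat.card ↥⁅A, B⁆ = p) [Fintype ↥B] :
    p * ∑ b : ↥B, Nat.card ↥(A ⊓ Subgroup.centralizer ({(b : G)} : Set G)) =
      Nat.card B * Nat.card A +
        Nat.card ↥(B ⊓ Subgroup.centralizer (A : Set G)) * ((p - 1) * Nat.card A) := by
  classical
  rw [Finset.mul_sum, Finset.sum_congr rfl (fun b _ => card_mul hG A B hAB hcard b),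
    Finset.sum_add_distrib, Finset.sum_const, Finset.card_univ, smul_eq_mul,
    Finset.sum_ite, Finset.sum_const_zero, add_zero, Finset.sum_const, smul_eq_mul,
    Nat.card_eq_fintype_card (α := ↥B)]
  congr 2
  rw [← Fintype.card_subtype, ← Nat.card_eq_fintype_card]
  refine Nat.card_congr ⟨fun x => ⟨x.1.1, Subgroup.mem_inf.mpr ⟨x.1.2, x.2⟩⟩,
    fun x => ⟨⟨x.1, (Subgroup.mem_inf.mp x.2).1⟩, (Subgroup.mem_inf.mp x.2).2⟩, ?_, ?_⟩
  · intro x; rfl
  · intro x; rfl

lemma double_count (A B : Subgroup G) [Fintype ↥A] [Fintype ↥B] :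
    ∑ b : ↥B, Nat.card ↥(A ⊓ Subgroup.centralizer ({(b : G)} : Set G)) =
      ∑ a : ↥A, Nat.card ↥(B ⊓ Subgroup.centralizer ({(a : G)} : Set G)) := by
  classical
  rw [← Nat.card_sigma, ← Nat.card_sigma]
  refine Nat.card_congr ⟨fun x => ⟨⟨x.2.1, (Subgroup.mem_inf.mp x.2.2).1⟩, ⟨x.1.1, Subgroup.mem_inf.mpr ⟨x.1.2, ?_⟩⟩⟩,
    fun x => ⟨⟨x.2.1, (Subgroup.mem_inf.mp x.2.2).1⟩, ⟨x.1.1, Subgroup.mem_inf.mpr ⟨x.1.2, ?_⟩⟩⟩, ?_, ?_⟩
  · have := (Subgroup.mem_inf.mp x.2.2).2
    rw [Subgroup.mem_centralizer_singleton_iff] at this ⊢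
    exact this.symm
  · have := (Subgroup.mem_inf.mp x.2.2).2
    rw [Subgroup.mem_centralizer_singleton_iff] at this ⊢
    exact this.symm
  · intro x; rfl
  · intro x; rfl

/-- Let A and B be subgroups of a finite p-group with [A, B] ≤ A ∩ B and [A, B] of order at most p. Then |A : C_A(B)| = |B : C_B(A)|. -/
theorem result {G : Type*} [Group G] [Finite G] {p : ℕ} [Fact p.Prime] (hG : IsPGroup p G) (A B : Subgroup G) (hAB : ⁅A, B⁆ ≤ A ⊓ B) (hcard : Nat.card ↥⁅A, B⁆ ≤ p) : (A ⊓ Subgroup.centralizer (B : Set G)).relIndex A = (B ⊓ Subgroup.centralizer (A : Set G)).relIndex B := by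
  classical
  haveI : Fintype ↥A := Fintype.ofFinite _
  haveI : Fintype ↥B := Fintype.ofFinite _
  have hp := (Fact.out : p.Prime)
  by_cases hbot : ⁅A, B⁆ = ⊥
  · have h1 : A ≤ Subgroup.centralizer (B : Set G) := by
      rw [Subgroup.commutator_eq_bot_iff_le_centralizer] at hbot; exact hbot
    have h2 : B ≤ Subgroup.centralizer (A : Set G) := by
      rw [Subgroup.le_centralizer_iff]; exact h1
    rw [inf_eq_left.mpr h1, inf_eq_left.mpr h2, Subgroup.relIndex_self, Subgroup.relIndex_self]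
  have hc : Nat.card ↥⁅A, B⁆ = p := by
    have hpg : IsPGroup p ↥⁅A, B⁆ := hG.to_subgroup _
    obtain ⟨k, hk⟩ := hpg.exists_card_eq
    rcases k with _ | k
    · exact absurd (Subgroup.eq_bot_of_card_eq _ (by simpa using hk)) hbot
    · rcases k with _ | k
      · simpa using hk
      · exfalso
        rw [hk] at hcard
        have : p ^ (k + 1 + 1) = p * p ^ (k + 1) := by ring
        have h3 : p ^ (k + 1) ≥ 2 := by
          calc p ^ (k + 1) ≥ p ^ 1 := Nat.pow_le_pow_right hp.pos (by omega)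
            _ ≥ 2 := by simpa using hp.two_le
        nlinarith [hp.two_le]
  have hAB' : ⁅B, A⁆ ≤ B ⊓ A := by
    rw [Subgroup.commutator_comm, inf_comm]; exact hAB
  have hc' : Nat.card ↥⁅B, A⁆ = p := by rw [Subgroup.commutator_comm]; exact hc
  have s1 := sum_formula hG A B hAB hc
  have s2 := sum_formula hG B A hAB' hc'
  rw [double_count A B] at s1
  rw [s1] at s2
  have hp1 : 0 < p - 1 := by have := hp.two_le; omega
  have key : Nat.card ↥(B ⊓ Subgroup.centralizer (A : Set G)) * Nat.card A =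
      Nat.card ↥(A ⊓ Subgroup.centralizer (B : Set G)) * Nat.card B := by
    have h3 : Nat.card ↥(B ⊓ Subgroup.centralizer (A : Set G)) * ((p - 1) * Nat.card A) =
      Nat.card ↥(A ⊓ Subgroup.centralizer (B : Set G)) * ((p - 1) * Nat.card B) := by
      have e : Nat.card A * Nat.card B = Nat.card B * Nat.card A := mul_comm _ _
      omega
    apply Nat.eq_of_mul_eq_mul_left hp1
    calc _ = Nat.card ↥(B ⊓ Subgroup.centralizer (A : Set G)) * ((p - 1) * Nat.card A) := by ring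
      _ = _ := h3
      _ = _ := by ring
  have eA := Cfsg.Agent.Lib.PGroup.Critical.card_eq_mul_relIndex (K := A) (M := A ⊓ Subgroup.centralizer (B : Set G)) inf_le_left
  have eB := Cfsg.Agent.Lib.PGroup.Critical.card_eq_mul_relIndex (K := B) (M := B ⊓ Subgroup.centralizer (A : Set G)) inf_le_left
  rw [eA, eB] at key
  have hpos1 : 0 < Nat.card ↥(A ⊓ Subgroup.centralizer (B : Set G)) := Nat.card_pos
  have hpos2 : 0 < Nat.card ↥(B ⊓ Subgroup.centralizer (A : Set G)) := Nat.card_pos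
  apply Nat.eq_of_mul_eq_mul_left (Nat.mul_pos hpos1 hpos2)
  calc _ = _ := by ring
    _ = _ := key
    _ = _ := by ring

end Cfsg.Agent.S3741
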