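import Cfsg.Statements.S3744
import Mathlib
import Cfsg.Agent.Lib.Solvable.PSeries
import Cfsg.Agent.Lib.Coprime.PSolvable
import Cfsg.Agent.Lib.Coprime.SZ
-- import your own Cfsg.Agent.* helpers here

set_option autoImplicit false
set_option linter.style.haveILetI false
open Cfsg

namespace Cfsg.Agent.S3744

open Cfsg.Agent.Lib.Solvable.PSeries Cfsg.Agent.Lib.Basic.PCore Cfsg.Agent.Lib.Coprime.SZ

open scoped Pointwise

universe u

/-- A normal subgroup of order prime to `p` lies in each subgroup of order prime to `p` and index a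
power of `p`. -/
theorem le_of_normal_coprime {G : Type u} [Group G] [Finite G] {p : ℕ} [Fact p.Prime]
    {H N : Subgroup G} [hN : N.Normal] (hH : ∃ a : ℕ, H.index = p ^ a) (hHc : (Nat.card H).Coprime p)
    (hNc : (Nat.card N).Coprime p) : N ≤ H := by
  obtain ⟨a, ha⟩ := hH
  have hcs : (Nat.card (N ⊔ H : Subgroup G)).Coprime p := coprime_card_sup hNc hHc
  have h1 : H.relIndex (N ⊔ H) ∣ p ^ a := by
    rw [← ha]
    exact Subgroup.relIndex_dvd_index_of_le le_sup_right
  have h2 : H.relIndex (N ⊔ H) ∣ Nat.card (N ⊔ H : Subgroup G) := Subgroup.relIndex_dvd_card _ _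
  have h3 : (H.relIndex (N ⊔ H)).Coprime (p ^ a) :=
    Nat.Coprime.pow_right _ (Nat.Coprime.coprime_dvd_left h2 hcs)
  have h4 : H.relIndex (N ⊔ H) = 1 := Nat.Coprime.eq_one_of_dvd h3 h1
  have h5 : N ⊔ H ≤ H := Subgroup.relIndex_eq_one.mp h4
  exact le_sup_left.trans h5

/-- index of a `p`-group in a join with a `p'`-group. -/
theorem relIndex_eq_card {G : Type u} [Group G] [Finite G] {p : ℕ} [Fact p.Prime] {R A : Subgroup G}
    (hR : IsPGroup p R) (hA : (Nat.card A).Coprime p) : R.relIndex A = Nat.card A := by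
  have hbot : R.subgroupOf A = ⊥ := by
    rw [eq_bot_iff]
    rintro ⟨x, hxA⟩ hx
    rw [Subgroup.mem_subgroupOf] at hx
    obtain ⟨k, hk⟩ := (IsPGroup.iff_orderOf.mp hR) ⟨x, hx⟩
    have h1 : orderOf x = p ^ k := by rw [← hk, Subgroup.orderOf_mk]
    have h2 : orderOf x ∣ Nat.card A := Subgroup.orderOf_dvd_natCard A hxA
    have h3 : orderOf x = 1 := by
      have hc : (orderOf x).Coprime p := by
        rw [h1] at h2 ⊢
        have h4 : (p ^ k).Coprime p := Nat.Coprime.coprime_dvd_left h2 hA
        exact h4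
      rw [h1] at hc ⊢
      cases k with
      | zero => simp
      | succ k =>
        have h5 : p ∣ p ^ (k + 1) := dvd_pow_self _ (Nat.succ_ne_zero k)
        have h6 := Nat.Coprime.eq_one_of_dvd hc.symm h5
        exact absurd h6 (Fact.out : p.Prime).one_lt.ne'
    have hx1 : x = 1 := orderOf_eq_one_iff.mp h3
    simp [hx1]
  have h := Subgroup.index_bot (G := A)
  show (R.subgroupOf A).index = _
  rw [hbot, h]

/-- Domination: subgroup of order prime to `p` has a conjugate inside any `p`-complement. -/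
theorem dominate {p : ℕ} [Fact p.Prime] (n : ℕ) : ∀ {G : Type u} [Group G] [Finite G], Nat.card G = n →
    IsPSolvable p G → ∀ H U : Subgroup G, (Nat.card H).Coprime p → (∃ a : ℕ, H.index = p ^ a) →
    (Nat.card U).Coprime p → ∃ g : G, U.map (MulAut.conj g).toMonoidHom ≤ H := by
  classical
  induction n using Nat.strong_induction_on with
  | _ n ih =>
  intro G _ _ hn hG H U hHc hHi hUc
  have step : ∀ (N : Subgroup G) [N.Normal], N ≠ ⊥ → ∃ g : G, U.map (MulAut.conj g).toMonoidHom ≤ H ⊔ N := by
    intro N _ hN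
    let π : G →* G ⧸ N := QuotientGroup.mk' N
    have hπ : Function.Surjective π := QuotientGroup.mk'_surjective N
    have hlt : Nat.card (G ⧸ N) < n := by
      rw [← hn]
      have h1 := Subgroup.card_mul_index N
      have h2 : 1 < Nat.card N := Subgroup.one_lt_card_iff_ne_bot N |>.mpr hN
      have h3 : 0 < N.index := Nat.pos_of_ne_zero Subgroup.index_ne_zero_of_finite
      change N.index < _
      rw [← h1]
      nlinarith
    have hHbarc : (Nat.card (H.map π)).Coprime p := Nat.Coprime.coprime_dvd_left (Subgroup.card_map_dvd _ _) hHc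
    have hUbarc : (Nat.card (U.map π)).Coprime p := Nat.Coprime.coprime_dvd_left (Subgroup.card_map_dvd _ _) hUc
    have hHbari : ∃ a : ℕ, (H.map π).index = p ^ a := by
      obtain ⟨a, ha⟩ := hHi
      have hd : (H.map π).index ∣ p ^ a := by
        rw [← ha]; exact Subgroup.index_map_dvd H hπ
      obtain ⟨i, -, hi⟩ := (Nat.dvd_prime_pow (Fact.out : p.Prime)).mp hd
      exact ⟨i, hi⟩
    obtain ⟨gbar, hg⟩ := ih _ hlt rfl (isPSolvable_quotient hG N) (H.map π) (U.map π) hHbarc hHbari hUbarc
    obtain ⟨g, rfl⟩ := hπ gbar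
    refine ⟨g, ?_⟩
    rintro _ ⟨u, hu, rfl⟩
    have h1 : π ((MulAut.conj g).toMonoidHom u) ∈ H.map π := by
      apply hg
      refine ⟨π u, ⟨u, hu, rfl⟩, ?_⟩
      simp [MulAut.conj_apply]
    obtain ⟨h, hh, hhx⟩ := h1
    have h2 : h⁻¹ * (MulAut.conj g).toMonoidHom u ∈ N := by
      apply (QuotientGroup.eq_one_iff _).mp
      show π _ = 1
      rw [map_mul, map_inv, ← hhx, inv_mul_cancel]
    have h3 : (MulAut.conj g).toMonoidHom u = h * (h⁻¹ * (MulAut.conj g).toMonoidHom u) := by group
    rw [h3]
    exact Subgroup.mul_mem_sup hh h2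
  by_cases htriv : Nontrivial G
  · rcases isPSolvable_core_ne_bot hG with h1 | h1
    · -- normal `p`-subgroup
      have hRn := pCore_normal p G
      set R := pCore p G with hR
      have hRp : IsPGroup p R := pCore_isPGroup p
      obtain ⟨g, hg⟩ := step R h1
      set U' := U.map (MulAut.conj g).toMonoidHom with hU'
      have hU'c : (Nat.card U').Coprime p := by
        rw [hU', Subgroup.card_map_of_injective (MulAut.conj g).injective]
        exact hUc
      set W : Subgroup G := U' ⊔ R with hW
      set H' : Subgroup G := H ⊓ W with hH'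
      have hRW : R ≤ W := le_sup_right
      have hU'W : U' ≤ W := le_sup_left
      have hH'W : H' ≤ W := inf_le_right
      have hWeq : H' ⊔ R = W := by
        apply le_antisymm (sup_le hH'W hRW)
        intro x hx
        have hxHR : x ∈ H ⊔ R := (sup_le hg le_sup_right : W ≤ H ⊔ R) hx
        obtain ⟨h, hh, r, hr, rfl⟩ := Subgroup.mem_sup_of_normal_right.mp hxHR
        have hhW : h ∈ W := by
          have : h = h * r * r⁻¹ := by group
          rw [this]
          exact W.mul_mem hx (W.inv_mem (hRW hr))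
        exact Subgroup.mul_mem_sup ⟨hh, hhW⟩ hr
      have hH'c : (Nat.card H').Coprime p :=
        Nat.Coprime.coprime_dvd_left (Subgroup.card_dvd_of_le inf_le_left) hHc
      -- the group `W`
      set N : Subgroup W := R.subgroupOf W with hN
      haveI hNn : N.Normal := Subgroup.normal_subgroupOf
      have hNidx : N.index = Nat.card U' := by
        show R.relIndex W = _
        rw [hW, Subgroup.relIndex_sup_right]
        exact relIndex_eq_card hRp hU'c
      have hNidx' : N.index = Nat.card H' := by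
        show R.relIndex W = _
        rw [← hWeq, Subgroup.relIndex_sup_right]
        exact relIndex_eq_card hRp hH'c
      have hNp : IsPGroup p N := hRp.comap_of_injective W.subtype W.subtype_injective
      have hcop : (Nat.card N).Coprime N.index := by
        obtain ⟨m, hm⟩ := IsPGroup.iff_card.mp hNp
        rw [hm, hNidx]
        exact Nat.Coprime.pow_left _ hU'c.symm
      have hsolv : Group.IsSolvable N := by
        haveI := hNp.isNilpotent
        infer_instance
      obtain ⟨w, hw⟩ := conj_of_solvable N hcop (Or.inl hsolv) (U'.subgroupOf W) (H'.subgroupOf W)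
        (by rw [card_subgroupOf_of_le hU'W, hNidx]) (by rw [card_subgroupOf_of_le hH'W, hNidx'])
      have hw' := map_subtype_conj_smul_subgroupOf hU'W hH'W w hw
      refine ⟨(w : G) * g, ?_⟩
      rintro _ ⟨u, hu, rfl⟩
      have h2 : (MulAut.conj (w : G)).toMonoidHom ((MulAut.conj g).toMonoidHom u) ∈ MulAut.conj (w : G) • U' := by
        rw [conj_smul_eq_map]
        exact ⟨_, ⟨u, hu, rfl⟩, rfl⟩
      rw [hw'] at h2
      have h3 := h2.1
      simpa [MulAut.conj_apply, mul_assoc] using h3
    · -- normal `p'`-subgroup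
      have hNn := pPrimeCore_normal p G
      obtain ⟨g, hg⟩ := step (pPrimeCore p G) h1
      have hle : pPrimeCore p G ≤ H := le_of_normal_coprime hHi hHc (pPrimeCore_coprime p)
      exact ⟨g, hg.trans (sup_le le_rfl hle)⟩
  · rw [not_nontrivial_iff_subsingleton] at htriv
    refine ⟨1, ?_⟩
    intro x _
    have : x = 1 := Subsingleton.elim _ _
    rw [this]; exact H.one_mem

/-- A finite p-soluble group has a p-complement, all its p-complements are conjugate, and every subgroup of order prime to p lies in one of them. Here a p-complement is a subgroup of order prime to p whose index is a power of p. -/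
theorem result {G : Type*} [Group G] [Finite G] {p : ℕ} [Fact p.Prime] (hG : Cfsg.IsPSolvable p G) : (∃ H : Subgroup G, (Nat.card H).Coprime p ∧ ∃ n : ℕ, H.index = p ^ n) ∧ (∀ H₁ H₂ : Subgroup G, (Nat.card H₁).Coprime p → (∃ n : ℕ, H₁.index = p ^ n) → (Nat.card H₂).Coprime p → (∃ n : ℕ, H₂.index = p ^ n) → ∃ g : G, H₂ = H₁.map (MulAut.conj g).toMonoidHom) ∧ (∀ U : Subgroup G, (Nat.card U).Coprime p → ∃ H : Subgroup G, (Nat.card H).Coprime p ∧ (∃ n : ℕ, H.index = p ^ n) ∧ ∃ g : G, U.map (MulAut.conj g).toMonoidHom ≤ H) := by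
  have hmk : ∀ H : Subgroup G, (Nat.card H).Coprime p → ∀ n : ℕ, H.index = p ^ n →
      Nat.card H = ordCompl[p] (Nat.card G) := by
    intro H hc n hn
    have h1 := Subgroup.card_mul_index H
    rw [hn] at h1
    have hp : p.Prime := Fact.out
    have hG0 : Nat.card G ≠ 0 := Nat.card_pos.ne'
    have h2 : (Nat.card H) * p ^ n ≠ 0 := by rw [h1]; exact hG0
    have hnd : ¬ p ∣ Nat.card H := fun hd => by
      have := Nat.Coprime.eq_one_of_dvd hc.symm hd
      exact hp.one_lt.ne' this
    have h3 : (Nat.card G).factorization p = n := by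
      rw [← h1, Nat.factorization_mul (by intro h; rw [h] at h2; simp at h2) (pow_pos hp.pos n).ne',
        Nat.factorization_pow, Finsupp.add_apply, Finsupp.smul_apply, Nat.Prime.factorization_self hp,
        Nat.factorization_eq_zero_of_not_dvd hnd]
      simp
    rw [h3, ← h1]
    exact (Nat.mul_div_cancel _ (pow_pos hp.pos n)).symm
  refine ⟨?_, ?_, ?_⟩
  · obtain ⟨S, hS, m, hm⟩ := Cfsg.Agent.Lib.Coprime.PSolvable.exists_hall Fact.out hG
    exact ⟨S, ((Nat.Prime.coprime_iff_not_dvd Fact.out).mpr hS).symm, m, hm⟩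
  · rintro H₁ H₂ h1c ⟨a, ha⟩ h2c ⟨b, hb⟩
    obtain ⟨g, hg⟩ := dominate _ rfl hG H₂ H₁ h2c ⟨b, hb⟩ h1c
    refine ⟨g, (Subgroup.eq_of_le_of_card_ge hg ?_).symm⟩
    rw [Subgroup.card_map_of_injective (MulAut.conj g).injective, hmk H₁ h1c a ha, hmk H₂ h2c b hb]
  · intro U hU
    obtain ⟨S, hS, m, hm⟩ := Cfsg.Agent.Lib.Coprime.PSolvable.exists_hall Fact.out hG
    have hSc : (Nat.card S).Coprime p := ((Nat.Prime.coprime_iff_not_dvd Fact.out).mpr hS).symm
    obtain ⟨g, hg⟩ := dominate _ rfl hG S U hSc ⟨m, hm⟩ hU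
    exact ⟨S, hSc, ⟨m, hm⟩, g, hg⟩

end Cfsg.Agent.S3744
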