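import Cfsg.Statements.S3746
import Mathlib
import Cfsg.Agent.Lib.Components.PComponent

set_option autoImplicit false
open Cfsg
open scoped commutatorElement

namespace Cfsg.Agent.S3746

/-- Let Z ≤ Z(G) be a central subgroup of a finite group G and E a subgroup of G containing Z whose image E/Z is a component of G/Z (subnormal and quasisimple). Then the derived subgroup [E, E] is a component of G. -/
theorem result {G : Type*} [Group G] [Finite G] (Z : Subgroup G) (hZ : Z ≤ Subgroup.center G) [Z.Normal] (E : Subgroup G) (hZE : Z ≤ E) (hE : Cfsg.IsComponent (E.map (QuotientGroup.mk' Z))) : Cfsg.IsComponent ⁅E, E⁆ := by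
  set π := QuotientGroup.mk' Z with hπ
  have hker : π.ker = Z := QuotientGroup.ker_mk' Z
  have hEsub : E.IsSubnormal := by
    have h1 : (E.map π).comap π = E := by
      rw [Subgroup.comap_map_eq, hker]; exact sup_eq_left.mpr hZE
    rw [← h1]
    exact hE.1.comap π
  have hEc : (⁅E, E⁆ : Subgroup G).IsSubnormal := by
    have h1 : (commutator E).IsSubnormal := (inferInstance : (commutator E).Normal).isSubnormal
    have h2 := h1.trans' hEsub
    rwa [Subgroup.map_subtype_commutator] at h2
  have hmap : (⁅E, E⁆ : Subgroup G).map π = E.map π := by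
    rw [Subgroup.map_commutator]
    have := hE.2.1
    exact Subgroup.commutator_eq_self
  have hdecomp : ∀ x ∈ E, ∃ e ∈ (⁅E, E⁆ : Subgroup G), ∃ z ∈ Z, x = e * z := by
    intro x hx
    have h1 : π x ∈ (⁅E, E⁆ : Subgroup G).map π := by
      rw [hmap]; exact ⟨x, hx, rfl⟩
    obtain ⟨e, he, hex⟩ := h1
    refine ⟨e, he, e⁻¹ * x, ?_, by group⟩
    rw [← hker, MonoidHom.mem_ker, map_mul, map_inv, hex]
    simp
  have hperf : ⁅(⁅E, E⁆ : Subgroup G), (⁅E, E⁆ : Subgroup G)⁆ = ⁅E, E⁆ := by
    apply le_antisymm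
    · exact Subgroup.commutator_mono (Subgroup.commutator_le_self E) (Subgroup.commutator_le_self E)
    · rw [Subgroup.commutator_le]
      intro a ha b hb
      obtain ⟨a1, ha1, z1, hz1, rfl⟩ := hdecomp a ha
      obtain ⟨b1, hb1, z2, hz2, rfl⟩ := hdecomp b hb
      rw [Cfsg.Agent.Lib.Components.Basic.commutatorElement_mul_central _ _ _ _ (hZ hz1) (hZ hz2)]
      exact Subgroup.commutator_mem_commutator ha1 hb1
  refine ⟨hEc, ?_⟩
  have hQ : IsQuasisimple ((⁅E, E⁆ : Subgroup G).map π) := by
    rw [hmap]; exact hE.2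
  have hperf' : Group.IsPerfect (⁅E, E⁆ : Subgroup G) := Subgroup.isPerfect_iff.mpr hperf
  refine Cfsg.Agent.Lib.Components.PComponent.isQuasisimple_of_central_extension
    (f := π.subgroupMap (⁅E, E⁆ : Subgroup G)) (π.subgroupMap_surjective _) ?_ hQ
  intro w hw
  rw [MonoidHom.mem_ker] at hw
  have hw' : (w : G) ∈ Z := by
    rw [← hker, MonoidHom.mem_ker]
    exact congrArg Subtype.val hw
  rw [Subgroup.mem_center_iff]
  intro g
  exact Subtype.ext (Subgroup.mem_center_iff.mp (hZ hw') g)

end Cfsg.Agent.S3746
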