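import Cfsg.Statements.S3748
import Mathlib
import Cfsg.Agent.Lib.Basic.Subnormal
import Cfsg.Agent.Lib.Basic.PCore
import Cfsg.Agent.S0064
-- import your own Cfsg.Agent.* helpers here

set_option autoImplicit false
open Cfsg

namespace Cfsg.Agent.S3748

/-- Call a proper subgroup M of G primitive when M = N_G(N) for every non-trivial normal subgroup N of M. If M is a primitive subgroup of the finite group G, then no non-trivial subnormal subgroup of G is contained in M; in particular M ∩ F(G) = 1. -/
theorem result {G : Type*} [Group G] [Finite G] (M : Subgroup G) (hM : M ≠ ⊤) (hprim : ∀ N : Subgroup G, N ≤ M → M ≤ Subgroup.normalizer (N : Set G) → N ≠ ⊥ → Subgroup.normalizer (N : Set G) = M) : (∀ L : Subgroup G, L.IsSubnormal → L ≤ M → L = ⊥) ∧ M ⊓ Cfsg.fittingSubgroup G = ⊥ := by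
  classical
  open Cfsg.Agent.Lib.Basic.Subnormal Cfsg.Agent.Lib.Basic.PCore Cfsg.Agent.Lib.Basic.Conj in
  open scoped Pointwise in
  have hmain : ∀ L : Subgroup G, L.IsSubnormal → L ≤ M → L = ⊥ := by
    -- `T` := join of all subnormal subgroups contained in `M`
    let F : Set (Subgroup G) := {L | L.IsSubnormal ∧ L ≤ M}
    let T : Subgroup G := sSup F
    have hTsn : T.IsSubnormal := sSup_isSubnormal F fun A hA => hA.1
    have hTM : T ≤ M := sSup_le fun A hA => hA.2
    have hMT : M ≤ Subgroup.normalizer (T : Set G) := by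
      intro m hm
      apply mem_normalizer_of_conj_smul_le
      have hle : T ≤ T.comap (MulAut.conj m).toMonoidHom := by
        apply sSup_le
        intro A hA y hy
        rw [Subgroup.mem_comap]
        have hmem : MulAut.conj m • A ∈ F := by
          refine ⟨hA.1.smul _, ?_⟩
          intro z hz
          have h1 := hA.2 (mem_conj_smul_iff.mp hz)
          have h2 := M.mul_mem (M.mul_mem hm h1) (M.inv_mem hm)
          simpa [mul_assoc] using h2
        exact (le_sSup hmem : MulAut.conj m • A ≤ T) (conj_mem_conj_smul hy)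
      intro x hx
      have hy := hle (mem_conj_smul_iff.mp hx)
      rw [Subgroup.mem_comap] at hy
      simpa [mul_assoc] using hy
    have hTbot : T = ⊥ := by
      by_contra hne
      have hN := hprim T hTM hMT hne
      have hTtop : T ≠ ⊤ := by
        intro h
        rw [h] at hTM
        exact hM (top_le_iff.mp hTM)
      rcases (Subgroup.IsSubnormal.iff_eq_top_or_exists).1 hTsn with h1 | ⟨K, hK, hKsn, hKn⟩
      · exact hTtop h1
      · have hKN : K ≤ Subgroup.normalizer (T : Set G) :=
          (Subgroup.normal_subgroupOf_iff_le_normalizer hK.le).1 hKn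
        have hKM : K ≤ M := hKN.trans hN.le
        have : K ≤ T := le_sSup (⟨hKsn, hKM⟩ : K ∈ F)
        exact absurd this (not_le_of_gt hK)
    intro L hL hLM
    have : L ≤ T := le_sSup (⟨hL, hLM⟩ : L ∈ F)
    rw [hTbot] at this
    exact le_bot_iff.mp this
  refine ⟨hmain, ?_⟩
  apply hmain
  · -- `M ⊓ F(G)` is subnormal since `F(G)` is nilpotent and normal
    have hnil : Group.IsNilpotent (Cfsg.fittingSubgroup G) :=
      Cfsg.Agent.Lib.Basic.PCore.fittingSubgroup_isNilpotent
    have h1 := (Cfsg.Agent.S0064.result (G := Cfsg.fittingSubgroup G)).mp hnil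
      ((M ⊓ Cfsg.fittingSubgroup G).subgroupOf (Cfsg.fittingSubgroup G))
    exact Subgroup.IsSubnormal.trans inf_le_right h1
      (Cfsg.Agent.Lib.Basic.PCore.fittingSubgroup_normal G).isSubnormal
  · exact inf_le_left

end Cfsg.Agent.S3748
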