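import Cfsg.Statements.S3749
import Mathlib
import Cfsg.Agent.Lib.Coprime.InvSylow
import Cfsg.Agent.Lib.Nilpotent.Fitting

set_option autoImplicit false
open Cfsg

namespace Cfsg.Agent.S3749

/-- Call a proper subgroup M of G primitive when M = N_G(N) for every non-trivial normal subgroup N of M. Let M be a primitive subgroup of the finite group G, p a prime with O_p(M) ≠ 1, and N a normal subgroup of G with M ∩ N = 1. Then p does not divide the order of N; for every prime q there is exactly one Sylow q-subgroup of N normalized by M; and if the order of N has at least two prime divisors then M is not a maximal subgroup of G. -/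
theorem result {G : Type*} [Group G] [Finite G] (M : Subgroup G) (hM : M ≠ ⊤) (hprim : ∀ N : Subgroup G, N ≤ M → M ≤ Subgroup.normalizer (N : Set G) → N ≠ ⊥ → Subgroup.normalizer (N : Set G) = M) {p : ℕ} [Fact p.Prime] (hOp : Cfsg.pCore p ↥M ≠ ⊥) (N : Subgroup G) [N.Normal] (hMN : M ⊓ N = ⊥) : ¬ p ∣ Nat.card N ∧ (∀ q : ℕ, [Fact q.Prime] → ∃! Q : Sylow q ↥N, M ≤ Subgroup.normalizer ((Q : Subgroup ↥N).map N.subtype : Set G)) ∧ ((∃ q r : ℕ, q.Prime ∧ r.Prime ∧ q ≠ r ∧ q ∣ Nat.card N ∧ r ∣ Nat.card N) → ¬ IsCoatom M) := by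
  classical
  set P' : Subgroup G := (Cfsg.pCore p ↥M).map M.subtype with hP'
  have hP'M : P' ≤ M := by
    rintro _ ⟨x, _, rfl⟩
    exact x.2
  have hP'bot : P' ≠ ⊥ := by
    intro h
    apply hOp
    exact (Subgroup.map_eq_bot_iff_of_injective _ Subtype.coe_injective).mp h
  have hP'p : IsPGroup p P' :=
    (Cfsg.Agent.Lib.Nilpotent.Fitting.isPGroup_pCore p (G := ↥M)).map M.subtype
  have hMP' : M ≤ Subgroup.normalizer (P' : Set G) := by
    intro m hm
    rw [Subgroup.mem_normalizer_iff]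
    intro x
    have hn := Cfsg.Agent.Lib.Nilpotent.Fitting.pCore_normal p (G := ↥M)
    constructor
    · rintro ⟨y, hy, rfl⟩
      exact ⟨⟨m, hm⟩ * y * ⟨m, hm⟩⁻¹, hn.conj_mem y hy _, rfl⟩
    · rintro ⟨y, hy, hyx⟩
      refine ⟨⟨m, hm⟩⁻¹ * y * ⟨m, hm⟩, ?_, ?_⟩
      · have := hn.conj_mem y hy (⟨m, hm⟩⁻¹)
        simpa using this
      · have h1 : x = m⁻¹ * (m * x * m⁻¹) * m := by group
        simp only [Subgroup.subtype_apply] at hyx
        rw [h1, ← hyx]
        simp
  have hNP' : Subgroup.normalizer (P' : Set G) = M := hprim P' hP'M hMP' hP'bot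
  -- part (a)
  have hpN : ¬ p ∣ Nat.card N := by
    intro hdvd
    haveI : Fact p.Prime := inferInstance
    obtain ⟨n₀, hn₀⟩ := exists_prime_orderOf_dvd_card' p hdvd
    have hz : IsPGroup p (Subgroup.zpowers (n₀ : G)) := by
      apply IsPGroup.of_card (n := 1)
      rw [Nat.card_zpowers, Subgroup.orderOf_coe, hn₀, pow_one]
    obtain ⟨T₀, hT₀⟩ := hz.exists_le_sylow
    obtain ⟨T, hT⟩ := hP'p.exists_le_sylow
    obtain ⟨g, hg⟩ := MulAction.exists_smul_eq G T₀ T
    set n₁ : G := g * n₀ * g⁻¹ with hn₁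
    have hn₁T : n₁ ∈ (T : Subgroup G) := by
      rw [← hg]
      exact Subgroup.mem_map_of_mem _ (hT₀ (Subgroup.mem_zpowers _))
    have hn₁N : n₁ ∈ N := Subgroup.Normal.conj_mem inferInstance _ n₀.2 _
    have hn₁ne : n₁ ≠ 1 := by
      intro h
      have h0 : (n₀ : G) = 1 := by
        have : g * n₀ * g⁻¹ = 1 := h
        have h2 : (n₀ : G) = g⁻¹ * (g * n₀ * g⁻¹) * g := by group
        rw [h2, this]; group
      have h3 : n₀ = 1 := Subtype.ext h0
      rw [h3, orderOf_one] at hn₀
      exact (Fact.out : p.Prime).one_lt.ne hn₀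
    set U : Subgroup G := (T : Subgroup G) ⊓ (P' ⊔ N) with hU
    have hUp : IsPGroup p U := T.isPGroup'.to_le inf_le_left
    have hP'U : P' ≤ U := le_inf hT le_sup_left
    have hn₁U : n₁ ∈ U := ⟨hn₁T, (le_sup_right : N ≤ P' ⊔ N) hn₁N⟩
    have hdisj : ∀ x ∈ M, x ∈ N → x = 1 := by
      intro x h1 h2
      have : x ∈ M ⊓ N := ⟨h1, h2⟩
      rw [hMN] at this
      simpa using this
    have hn₁P' : n₁ ∉ P' := fun h => hn₁ne (hdisj _ (hP'M h) hn₁N)
    haveI : Group.IsNilpotent U := hUp.isNilpotent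
    set H : Subgroup U := P'.subgroupOf U with hH
    have hHtop : H < ⊤ := by
      rw [lt_top_iff_ne_top]
      intro h
      have : (⟨n₁, hn₁U⟩ : U) ∈ H := by rw [h]; trivial
      exact hn₁P' this
    have hlt := (normalizerCondition_of_isNilpotent (G := U)) H hHtop
    obtain ⟨x, hxn, hxH⟩ := SetLike.exists_of_lt hlt
    have hxN : (x : G) ∈ Subgroup.normalizer (P' : Set G) := by
      rw [Subgroup.mem_normalizer_iff]
      intro y
      have hx' := Subgroup.mem_normalizer_iff.mp hxn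
      constructor
      · intro hy
        exact (hx' ⟨y, hP'U hy⟩).mp hy
      · intro hy
        have hyU : y ∈ U := by
          have h1 : y = (x : G)⁻¹ * ((x : G) * y * (x : G)⁻¹) * x := by group
          rw [h1]
          exact U.mul_mem (U.mul_mem (U.inv_mem x.2) (hP'U hy)) x.2
        exact (hx' ⟨y, hyU⟩).mpr hy
    rw [hNP'] at hxN
    have hxs : (x : G) ∈ ((P' ⊔ N : Subgroup G) : Set G) := (Subgroup.mem_inf.mp x.2).2
    rw [Subgroup.mul_normal] at hxs
    obtain ⟨u, hu, n, hn, hun⟩ := Set.mem_mul.mp hxs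
    have hnM : n ∈ M := by
      have : n = u⁻¹ * x := by rw [← hun]; group
      rw [this]
      exact M.mul_mem (M.inv_mem (hP'M hu)) hxN
    have hn1 := hdisj n hnM hn
    apply hxH
    show (x : G) ∈ P'
    rw [← hun, hn1, mul_one]
    exact hu
  -- coprimality
  have hcop : (Nat.card P').Coprime (Nat.card N) := by
    obtain ⟨k, hk⟩ := IsPGroup.iff_card.mp hP'p
    rw [hk]
    exact Nat.Coprime.pow_left _ ((Nat.Prime.coprime_iff_not_dvd Fact.out).mpr hpN)
  have hP'N : P' ≤ Subgroup.normalizer (N : Set G) := by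
    rw [Subgroup.normalizer_eq_top_iff.mpr inferInstance]
    exact le_top
  have hsolv : Group.IsSolvable P' := by
    haveI : Group.IsNilpotent P' := hP'p.isNilpotent
    infer_instance
  -- uniqueness for `P'`
  have huniq : ∀ (q : ℕ) [Fact q.Prime] (Q₁ Q₂ : Sylow q ↥N),
      P' ≤ Subgroup.normalizer (((Q₁ : Subgroup ↥N).map N.subtype : Subgroup G) : Set G) →
      P' ≤ Subgroup.normalizer (((Q₂ : Subgroup ↥N).map N.subtype : Subgroup G) : Set G) →
      Q₁ = Q₂ := by
    intro q _ Q₁ Q₂ h₁ h₂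
    obtain ⟨c, hc, hcQ⟩ := Lib.Coprime.InvSylow.invariant_sylow_conj hP'N hcop (Or.inl hsolv) q Q₁ Q₂ h₁ h₂
    have hcM : (c : G) ∈ M := by
      rw [← hNP']
      exact Subgroup.centralizer_le_normalizer _ hc
    have hc1 : (c : G) = 1 := by
      have : (c : G) ∈ M ⊓ N := ⟨hcM, c.2⟩
      rw [hMN] at this
      simpa using this
    have hc2 : c = 1 := Subtype.ext hc1
    rw [← hcQ, hc2]
    simp
  -- `M`-invariant Sylow subgroups
  have hinv : ∀ (q : ℕ) [Fact q.Prime], ∃ Q : Sylow q ↥N,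
      M ≤ Subgroup.normalizer (((Q : Subgroup ↥N).map N.subtype : Subgroup G) : Set G) := by
    intro q _
    obtain ⟨Q₀, hQ₀⟩ := Lib.Coprime.InvSylow.exists_invariant_sylow hP'N hcop (Or.inl hsolv) q
    refine ⟨Q₀, ?_⟩
    intro m hm
    set R₀ : Subgroup G := (Q₀ : Subgroup ↥N).map N.subtype with hR₀
    set R : Subgroup G := R₀.map (MulAut.conj m).toMonoidHom with hR
    have hRN : R ≤ N := by
      rintro _ ⟨_, ⟨y, _, rfl⟩, rfl⟩
      exact Subgroup.Normal.conj_mem inferInstance _ y.2 _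
    have hcardR : Nat.card (R.subgroupOf N) = q ^ (Nat.card N).factorization q := by
      have h1 : Nat.card (R.subgroupOf N) = Nat.card R :=
        Nat.card_congr (Subgroup.subgroupOfEquivOfLe hRN).toEquiv
      have h2 : Nat.card R = Nat.card R₀ :=
        (Nat.card_congr (Subgroup.equivMapOfInjective R₀ (MulAut.conj m).toMonoidHom
          (MulAut.conj m).injective).toEquiv).symm
      have h3 : Nat.card R₀ = Nat.card (Q₀ : Subgroup ↥N) :=
        (Nat.card_congr (Subgroup.equivMapOfInjective (Q₀ : Subgroup ↥N) N.subtype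
          Subtype.coe_injective).toEquiv).symm
      rw [h1, h2, h3, Q₀.card_eq_multiplicity]
    set Q' : Sylow q ↥N := Sylow.ofCard (R.subgroupOf N) hcardR with hQ'
    have hQ'map : (Q' : Subgroup ↥N).map N.subtype = R := by
      rw [hQ', Sylow.coe_ofCard, Subgroup.subgroupOf_map_subtype, inf_of_le_left hRN]
    have hQ'inv : P' ≤ Subgroup.normalizer (((Q' : Subgroup ↥N).map N.subtype : Subgroup G) : Set G) := by
      rw [hQ'map]
      intro u hu
      apply Lib.Coprime.InvSylow.mem_normalizer_of_map_conj_eq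
      have hu' : m⁻¹ * u * m ∈ P' := by
        have := (Subgroup.mem_normalizer_iff.mp (hMP' (M.inv_mem hm)) u).mp hu
        simpa using this
      have h5 := Lib.Coprime.InvSylow.map_conj_eq_of_mem_normalizer (hQ₀ hu')
      rw [hR, ← Lib.Coprime.InvSylow.map_conj_mul]
      have h6 : u * m = m * (m⁻¹ * u * m) := by group
      rw [h6, Lib.Coprime.InvSylow.map_conj_mul, h5]
    have hEq := huniq q Q' Q₀ hQ'inv hQ₀
    apply Lib.Coprime.InvSylow.mem_normalizer_of_map_conj_eq
    rw [← hR, ← hQ'map, hEq]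
  refine ⟨hpN, ?_, ?_⟩
  · intro q _
    obtain ⟨Q, hQ⟩ := hinv q
    refine ⟨Q, hQ, ?_⟩
    intro Q₂ hQ₂
    exact huniq q Q₂ Q (hP'M.trans hQ₂) (hP'M.trans hQ)
  · rintro ⟨q, r, hq, hr, hqr, hqd, hrd⟩ hco
    haveI : Fact q.Prime := ⟨hq⟩
    obtain ⟨Q, hQ⟩ := hinv q
    set R₀ : Subgroup G := (Q : Subgroup ↥N).map N.subtype with hR₀
    have hR₀N : R₀ ≤ N := by
      rintro _ ⟨y, _, rfl⟩
      exact y.2
    have hcardR₀ : Nat.card R₀ = Nat.card (Q : Subgroup ↥N) :=
      (Nat.card_congr (Subgroup.equivMapOfInjective (Q : Subgroup ↥N) N.subtype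
        Subtype.coe_injective).toEquiv).symm
    have hqQ : q ∣ Nat.card (Q : Subgroup ↥N) := by
      have h0 : Nat.card N ≠ 0 := Nat.card_pos.ne'
      rw [Q.card_eq_multiplicity]
      apply dvd_pow_self
      have : 0 < (Nat.card N).factorization q := hq.factorization_pos_of_dvd h0 hqd
      exact this.ne'
    have hdisj : ∀ x ∈ M, x ∈ N → x = 1 := by
      intro x h1 h2
      have : x ∈ M ⊓ N := ⟨h1, h2⟩
      rw [hMN] at this
      simpa using this
    have hR₀M : ¬ R₀ ≤ M := by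
      intro hle
      have hbot : R₀ = ⊥ := by
        rw [eq_bot_iff]
        intro x hx
        exact (Subgroup.mem_bot).mpr (hdisj x (hle hx) (hR₀N hx))
      rw [hcardR₀.symm, hbot] at hqQ
      simp at hqQ
      exact hq.ne_one hqQ
    have hsup : R₀ ⊔ M = ⊤ := by
      have hMlt : M < R₀ ⊔ M := by
        refine lt_of_le_of_ne le_sup_right ?_
        intro h
        exact hR₀M (by rw [h]; exact le_sup_left)
      exact hco.2 _ hMlt
    have hNR₀ : N ≤ R₀ := by
      intro n hn
      have h1 : n ∈ R₀ ⊔ M := by rw [hsup]; trivial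
      obtain ⟨s, hs, m, hm, hsm⟩ :=
        (Lib.Coprime.Coset.mem_sup_iff_of_le_normalizer hQ n).mp h1
      have hm1 : m = 1 := by
        apply hdisj m hm
        have : m = s⁻¹ * n := by rw [← hsm]; group
        rw [this]
        exact N.mul_mem (N.inv_mem (hR₀N hs)) hn
      rw [← hsm, hm1, mul_one]
      exact hs
    have hcardN : Nat.card N ∣ Nat.card R₀ := Subgroup.card_dvd_of_le hNR₀
    rw [hcardR₀, Q.card_eq_multiplicity] at hcardN
    have h3 : r ∣ q := hr.dvd_of_dvd_pow (hrd.trans hcardN)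
    exact hqr ((Nat.prime_dvd_prime_iff_eq hr hq).mp h3).symm

end Cfsg.Agent.S3749
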