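import Cfsg.Statements.S3751
import Mathlib
import Cfsg.Agent.Lib.PGroup.LargeSub2
import Cfsg.Agent.Lib.PGroup.Basic
-- import your own Cfsg.Agent.* helpers here

set_option autoImplicit false
open Cfsg

namespace Cfsg.Agent.S3751

open Subgroup Cfsg.Agent.Lib.PGroup.WeaklyClosed Cfsg.Agent.Lib.PGroup.LargeSub2
open Cfsg.Agent.Lib.PGroup.Basic

section Helpers

variable {G : Type*} [Group G] [Finite G] {p : ℕ} [Fact p.Prime]

/-- `M` is `p`-local. -/
def IsLoc (p : ℕ) (M : Subgroup G) : Prop :=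
  ∃ T : Subgroup G, IsPGroup p T ∧ T ≠ ⊥ ∧ M = normalizer (T : Set G)

/-- `M` is a maximal `p`-local subgroup. -/
def IsMaxLoc (p : ℕ) (M : Subgroup G) : Prop :=
  IsLoc p M ∧ ∀ L : Subgroup G, IsLoc p L → M ≤ L → L = M

/-- `P` is maximal among the `p`-subgroups of `M`. -/
def Sy (p : ℕ) (P M : Subgroup G) : Prop :=
  ∀ P' : Subgroup G, IsPGroup p P' → P' ≤ M → P ≤ P' → P' = P

theorem core_ne_bot {M : Subgroup G} (h : IsLoc p M) : Cfsg.pCoreOf p M ≠ ⊥ := by
  obtain ⟨T, hT, hT1, rfl⟩ := h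
  intro h0
  have : T ≤ Cfsg.pCoreOf p (normalizer (T : Set G)) := le_pCoreOf Subgroup.le_normalizer hT le_rfl
  rw [h0] at this
  exact hT1 (le_bot_iff.1 this)

theorem self_le_normalizer_core (M : Subgroup G) :
    M ≤ normalizer (Cfsg.pCoreOf p M : Set G) := by
  intro g hg
  rw [mem_normalizer_iff]
  intro z
  refine ⟨fun hz => conj_mem_pCoreOf hg hz, fun hz => ?_⟩
  have := conj_mem_pCoreOf (M.inv_mem hg) hz
  simpa [mul_assoc] using this

theorem normalizer_eq_of_max {M B : Subgroup G} (h : IsMaxLoc p M) (hB : IsPGroup p B) (hB1 : B ≠ ⊥)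
    (hMB : M ≤ normalizer (B : Set G)) : normalizer (B : Set G) = M :=
  h.2 _ ⟨B, hB, hB1, rfl⟩ hMB

theorem self_norm {M : Subgroup G} (h : IsMaxLoc p M) : normalizer (M : Set G) ≤ M := by
  have h1 := normalizer_eq_of_max h (isPGroup_pCoreOf M) (core_ne_bot h.1) (self_le_normalizer_core M)
  calc normalizer (M : Set G) ≤ normalizer (Cfsg.pCoreOf p M : Set G) :=
        normalizer_le_normalizer_pCoreOf M
    _ = M := h1

theorem cj_normalizer_le (g : G) (T : Subgroup G) :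
    cj g (normalizer (T : Set G)) ≤ normalizer (cj g T : Set G) := by
  intro y hy
  rw [mem_cj] at hy
  rw [mem_normalizer_iff]
  intro h
  have := mem_normalizer_iff.1 hy (g⁻¹ * h * g)
  rw [mem_cj, mem_cj]
  have e : g⁻¹ * (y * h * y⁻¹) * g = g⁻¹ * y * g * (g⁻¹ * h * g) * (g⁻¹ * y * g)⁻¹ := by group
  rw [e]
  exact this

theorem cj_normalizer (g : G) (T : Subgroup G) :
    cj g (normalizer (T : Set G)) = normalizer (cj g T : Set G) := by
  apply le_antisymm (cj_normalizer_le g T)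
  have h := cj_normalizer_le g⁻¹ (cj g T)
  rw [cj_inv_cj] at h
  have h2 := cj_mono (g := g) h
  rwa [cj_cj_inv] at h2

theorem isLoc_cj {M : Subgroup G} (g : G) (h : IsLoc p M) : IsLoc p (cj g M) := by
  obtain ⟨T, hT, hT1, rfl⟩ := h
  refine ⟨cj g T, isPGroup_cj hT, ?_, cj_normalizer g T⟩
  intro h0
  apply hT1
  have := cj_cj_inv g ⊥
  have h2 : cj g T = cj g ⊥ := by rw [h0]; simp [cj]
  exact cj_inj h2

theorem isMaxLoc_cj {M : Subgroup G} (g : G) (h : IsMaxLoc p M) : IsMaxLoc p (cj g M) := by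
  refine ⟨isLoc_cj g h.1, fun L hL hle => ?_⟩
  have h1 : M ≤ cj g⁻¹ L := by
    have := cj_mono (g := g⁻¹) hle
    rwa [cj_inv_cj] at this
  have h2 := h.2 _ (isLoc_cj g⁻¹ hL) h1
  rw [← h2, cj_cj_inv]

theorem exists_maxLoc {L : Subgroup G} (h : IsLoc p L) : ∃ M, IsMaxLoc p M ∧ L ≤ M := by
  have hfin : {L : Subgroup G | IsLoc p L}.Finite := Set.toFinite _
  obtain ⟨m, hLm, hm⟩ := hfin.exists_le_maximal h
  refine ⟨m, ⟨hm.1, fun L' hL' hle => le_antisymm (hm.2 hL' hle) hle⟩, hLm⟩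

theorem core_le_of_sy {P M : Subgroup G} (hP : IsPGroup p P) (hPM : P ≤ M) (hS : Sy p P M) :
    Cfsg.pCoreOf p M ≤ P := by
  have hn : P ≤ normalizer (Cfsg.pCoreOf p M : Set G) := hPM.trans (self_le_normalizer_core M)
  have h1 : IsPGroup p (P ⊔ Cfsg.pCoreOf p M : Subgroup G) :=
    hP.to_sup_of_normal_right' (isPGroup_pCoreOf M) hn
  have h2 := hS _ h1 (sup_le hPM (pCoreOf_le M)) le_sup_left
  rw [← h2]
  exact le_sup_right

theorem normalizer_le_self_of_normal {M A : Subgroup G} (h₁ : IsMaxLoc p M)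
    (hc : centralizer (Cfsg.pCore p ↥M : Set ↥M) ≤ Cfsg.pCore p ↥M)
    (hA : A ≠ ⊥) (hAle : A ≤ M) (hn : M ≤ normalizer (A : Set G)) :
    normalizer (A : Set G) ≤ M := by
  have hB : Cfsg.pCoreOf p A ≠ ⊥ := by
    intro h0
    have hle : A ⊓ Cfsg.pCoreOf p M ≤ Cfsg.pCoreOf p A := by
      apply le_pCoreOf inf_le_left
      · exact (isPGroup_pCoreOf M).to_le inf_le_right
      · intro a ha
        rw [mem_normalizer_iff]
        have hanorm := self_le_normalizer_core (p := p) M (hAle ha)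
        intro z
        simp only [SetLike.mem_coe, mem_inf]
        constructor
        · rintro ⟨h1, h2⟩
          exact ⟨A.mul_mem (A.mul_mem ha h1) (A.inv_mem ha), (mem_normalizer_iff.1 hanorm z).1 h2⟩
        · rintro ⟨h1, h2⟩
          refine ⟨?_, (mem_normalizer_iff.1 hanorm z).2 h2⟩
          have := A.mul_mem (A.mul_mem (A.inv_mem ha) h1) ha
          simpa [mul_assoc] using this
    rw [h0] at hle
    apply hA
    rw [eq_bot_iff]
    intro a ha
    have hcomm : ∀ r ∈ Cfsg.pCoreOf p M, a * r * a⁻¹ * r⁻¹ = 1 := by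
      intro r hr
      have h1 : a * r * a⁻¹ * r⁻¹ ∈ Cfsg.pCoreOf p M :=
        mul_mem (conj_mem_pCoreOf (hAle ha) hr) (inv_mem hr)
      have h2 : a * r * a⁻¹ * r⁻¹ ∈ A := by
        have hrn := hn (pCoreOf_le M hr)
        have h3 : r * a⁻¹ * r⁻¹ ∈ A := (mem_normalizer_iff.1 hrn _).1 (A.inv_mem ha)
        have : a * r * a⁻¹ * r⁻¹ = a * (r * a⁻¹ * r⁻¹) := by group
        rw [this]
        exact A.mul_mem ha h3
      have h4 := hle ⟨h2, h1⟩
      simpa using h4
    have hcen : (⟨a, hAle ha⟩ : ↥M) ∈ centralizer (Cfsg.pCore p ↥M : Set ↥M) := by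
      rw [mem_centralizer_iff]
      intro r hr
      have h5 := hcomm r ⟨r, hr, rfl⟩
      apply Subtype.ext
      have h6 : a * (r : G) * a⁻¹ = r := by
        have := mul_eq_one_iff_eq_inv.1 h5
        simpa using this
      show (r : G) * a = a * r
      calc (r : G) * a = a * r * a⁻¹ * a := by rw [h6]
        _ = a * r := by group
    have h7 := hc hcen
    have h8 : a ∈ Cfsg.pCoreOf p M := ⟨⟨a, hAle ha⟩, h7, rfl⟩
    exact hle ⟨ha, h8⟩
  have h1 : M ≤ normalizer (Cfsg.pCoreOf p A : Set G) :=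
    hn.trans (normalizer_le_normalizer_pCoreOf A)
  have h2 := normalizer_eq_of_max h₁ (isPGroup_pCoreOf A) hB h1
  calc normalizer (A : Set G) ≤ normalizer (Cfsg.pCoreOf p A : Set G) :=
        normalizer_le_normalizer_pCoreOf A
    _ = M := h2

theorem char_of_max (hloc : Cfsg.IsOfLocalCharacteristic p G) {M : Subgroup G} (h : IsMaxLoc p M) :
    centralizer (Cfsg.pCore p ↥M : Set ↥M) ≤ Cfsg.pCore p ↥M := by
  obtain ⟨⟨T, hT, hT1, rfl⟩, -⟩ := h
  exact hloc.2 T hT hT1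

theorem sy_cj {P M : Subgroup G} {x : G} (hx : x ∈ normalizer (P : Set G)) (hS : Sy p P M) :
    Sy p P (cj x M) := by
  intro P' hP' hle hPP'
  have hPx : cj x⁻¹ P = P := cj_eq_self_iff.2 (Subgroup.inv_mem _ hx)
  have h1 : cj x⁻¹ P' ≤ M := by
    have := cj_mono (g := x⁻¹) hle
    rwa [cj_inv_cj] at this
  have h2 : P ≤ cj x⁻¹ P' := by
    have := cj_mono (g := x⁻¹) hPP'
    rwa [hPx] at this
  have h3 := hS _ (isPGroup_cj hP') h1 h2
  have h4 := congrArg (cj x) h3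
  rw [cj_cj_inv] at h4
  rw [h4]
  exact cj_eq_self_iff.2 hx

/-- Step: `P` of maximal size in an intersection, not `Sy` in `M` forces `N(P) ≤ M`, and gives an
element in `N(P) ∖ P`. -/
theorem step_notSy {P M : Subgroup G} (hM : IsMaxLoc p M) (hP : IsPGroup p P) (hP1 : P ≠ ⊥)
    (key : ∀ (A B P' : Subgroup G), IsMaxLoc p A → IsMaxLoc p B → A ≠ B → IsPGroup p P' →
      P' ≤ A ⊓ B → P ≤ P' → P' = P)
    (hnot : ¬ Sy p P M) :
    ∃ P'' : Subgroup G, IsPGroup p P'' ∧ P ≤ P'' ∧ P'' ≤ M ∧ P'' ≤ normalizer (P : Set G) ∧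
      normalizer (P : Set G) ≤ M ∧ ∃ x ∈ P'', x ∉ P := by
  unfold Sy at hnot
  push_neg at hnot
  obtain ⟨P', hP', hP'M, hPP', hne⟩ := hnot
  have hlt : P < P' := lt_of_le_of_ne hPP' (Ne.symm hne)
  obtain ⟨x, hxP', hxP, hxN⟩ := exists_mem_normalizer_of_lt hP' hlt
  obtain ⟨M₃, hM₃, hle⟩ := exists_maxLoc (p := p) (L := normalizer (P : Set G)) ⟨P, hP, hP1, rfl⟩
  have hP''le : P' ⊓ normalizer (P : Set G) ≤ M ⊓ M₃ :=
    le_inf (inf_le_left.trans hP'M) (inf_le_right.trans hle)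
  have hPP'' : P ≤ P' ⊓ normalizer (P : Set G) := le_inf hPP' Subgroup.le_normalizer
  have hp'' : IsPGroup p (P' ⊓ normalizer (P : Set G) : Subgroup G) := hP'.to_le inf_le_left
  have hxmem : x ∈ P' ⊓ normalizer (P : Set G) := ⟨hxP', hxN⟩
  have hM3 : M = M₃ := by
    by_contra hne'
    have := key M M₃ _ hM hM₃ hne' hp'' hP''le hPP''
    rw [this] at hxmem
    exact hxP hxmem
  subst hM3
  exact ⟨_, hp'', hPP'', inf_le_left.trans hP'M, inf_le_right, hle, x, hxmem, hxP⟩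

theorem exists_pair {M : Subgroup G} {g : G} (hM : IsMaxLoc p M) (hg : g ∉ M)
    (hp : p ∣ Nat.card ↥(M ⊓ M.map (MulAut.conj g).toMonoidHom)) :
    ∃ M₁ M₂ P : Subgroup G, IsMaxLoc p M₁ ∧ IsMaxLoc p M₂ ∧ M₁ ≠ M₂ ∧ IsPGroup p P ∧
      P ≤ M₁ ⊓ M₂ ∧ Sy p P M₁ ∧ Sy p P M₂ := by
  classical
  let S : Set (Subgroup G) := {P | P ≠ ⊥ ∧ IsPGroup p P ∧ ∃ A B : Subgroup G, IsMaxLoc p A ∧
    IsMaxLoc p B ∧ A ≠ B ∧ P ≤ A ⊓ B}
  have hne0 : M ≠ cj g M := by
    intro h
    apply hg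
    exact self_norm hM (cj_eq_self_iff.1 h.symm)
  have hSne : S.Nonempty := by
    obtain ⟨x, hx⟩ := exists_prime_orderOf_dvd_card' (G := ↥(M ⊓ cj g M)) p hp
    refine ⟨(Subgroup.zpowers x).map (M ⊓ cj g M).subtype, ?_, ?_, M, cj g M, hM, isMaxLoc_cj g hM, hne0, ?_⟩
    · intro h0
      have h1 : (x : G) ∈ (Subgroup.zpowers x).map (M ⊓ cj g M).subtype :=
        ⟨x, Subgroup.mem_zpowers x, rfl⟩
      rw [h0] at h1
      have h2 : x = 1 := Subtype.ext (by simpa using h1)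
      rw [h2, orderOf_one] at hx
      exact (Fact.out : p.Prime).one_lt.ne hx
    · apply IsPGroup.map
      rw [IsPGroup.iff_card]
      refine ⟨1, ?_⟩
      rw [Nat.card_zpowers, hx, pow_one]
    · rintro _ ⟨y, -, rfl⟩
      exact y.2
  obtain ⟨P, hPS, hPmax⟩ := Set.exists_max_image S (fun P => Nat.card P) (Set.toFinite S) hSne
  obtain ⟨hP1, hP, A, B, hA, hB, hAB, hPAB⟩ := hPS
  have key : ∀ (A B P' : Subgroup G), IsMaxLoc p A → IsMaxLoc p B → A ≠ B → IsPGroup p P' →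
      P' ≤ A ⊓ B → P ≤ P' → P' = P := by
    intro A B P' hA hB hAB hP' hle hPP'
    have hmem : P' ∈ S := by
      refine ⟨?_, hP', A, B, hA, hB, hAB, hle⟩
      intro h0
      rw [h0, le_bot_iff] at hPP'
      exact hP1 hPP'
    have hcard := hPmax P' hmem
    exact (Subgroup.eq_of_le_of_card_ge hPP' hcard).symm
  by_cases h1 : Sy p P A
  · by_cases h2 : Sy p P B
    · exact ⟨A, B, P, hA, hB, hAB, hP, hPAB, h1, h2⟩
    · obtain ⟨P'', hP'', hle1, hle2, hle3, hle4, x, hx, hxP⟩ := step_notSy hB hP hP1 key h2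
      have hxA : x ∉ A := by
        intro hxA
        have h3 := h1 (P'' ⊓ A) (hP''.to_le inf_le_left) inf_le_right
          (le_inf hle1 (hPAB.trans inf_le_left))
        have h4 : x ∈ P'' ⊓ A := ⟨hx, hxA⟩
        rw [h3] at h4
        exact hxP h4
      have hxN := hle3 hx
      refine ⟨A, cj x A, P, hA, isMaxLoc_cj x hA, ?_, hP, le_inf (hPAB.trans inf_le_left) ?_, h1, sy_cj hxN h1⟩
      · intro h
        exact hxA (self_norm hA (cj_eq_self_iff.1 h.symm))
      · have := cj_mono (g := x) (hPAB.trans inf_le_left)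
        rwa [cj_eq_self_iff.2 hxN] at this
  · obtain ⟨P'', hP'', hle1, hle2, hle3, hle4, x, hx, hxP⟩ := step_notSy hA hP hP1 key h1
    by_cases h2 : Sy p P B
    · have hxB : x ∉ B := by
        intro hxB
        have h3 := h2 (P'' ⊓ B) (hP''.to_le inf_le_left) inf_le_right
          (le_inf hle1 (hPAB.trans inf_le_right))
        have h4 : x ∈ P'' ⊓ B := ⟨hx, hxB⟩
        rw [h3] at h4
        exact hxP h4
      have hxN := hle3 hx
      refine ⟨B, cj x B, P, hB, isMaxLoc_cj x hB, ?_, hP, le_inf (hPAB.trans inf_le_right) ?_, h2, sy_cj hxN h2⟩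
      · intro h
        exact hxB (self_norm hB (cj_eq_self_iff.1 h.symm))
      · have := cj_mono (g := x) (hPAB.trans inf_le_right)
        rwa [cj_eq_self_iff.2 hxN] at this
    · obtain ⟨P3, hP3, hl1, hl2, hl3, hl4, -⟩ := step_notSy hB hP hP1 key h2
      have h5 := key A B P'' hA hB hAB hP'' (le_inf hle2 (hle3.trans hl4)) hle1
      rw [h5] at hx
      exact absurd hx hxP

end Helpers

/-- Two distinct subgroups M₁, M₂ of G form a primitive pair when, for {i, j} = {1, 2}, every non-trivial normal subgroup A of M_i contained in M₁ ∩ M₂ satisfies N_{M_j}(A) = M₁ ∩ M₂; the pair has characteristic p when moreover C_{M_i}(O_p(M_i)) ≤ O_p(M_i) for both i and O_p(M₁)O_p(M₂) ≤ M₁ ∩ M₂. Let G be a finite group, p a prime dividing its order, with O_p(G) = 1 and every p-local subgroup of characteristic p. Then either G has a primitive pair of characteristic p, or every maximal p-local subgroup M of G is strongly p-embedded in G: M is a proper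 subgroup, p divides its order, and for every g ∉ M the order of M ∩ gMg⁻¹ is prime to p. -/
theorem result {G : Type*} [Group G] [Finite G] {p : ℕ} [Fact p.Prime] (hloc : Cfsg.IsOfLocalCharacteristic p G) (hOp : Cfsg.pCore p G = ⊥) : (∃ M₁ M₂ : Subgroup G, M₁ ≠ M₂ ∧ (∀ A : Subgroup G, A ≠ ⊥ → A ≤ M₁ ⊓ M₂ → (M₁ ≤ Subgroup.normalizer (A : Set G) → M₂ ⊓ Subgroup.normalizer (A : Set G) = M₁ ⊓ M₂) ∧ (M₂ ≤ Subgroup.normalizer (A : Set G) → M₁ ⊓ Subgroup.normalizer (A : Set G) = M₁ ⊓ M₂)) ∧ Subgroup.centralizer (Cfsg.pCore p ↥M₁ : Set ↥M₁) ≤ Cfsg.pCore p ↥M₁ ∧ Subgroup.centralizer (Cfsg.pCore p ↥M₂ : Set ↥M₂) ≤ Cfsg.pCore p ↥M₂ ∧ (Cfsg.pCore p ↥M₁).map M₁.subtype ⊔ (Cfsg.pCore p ↥M₂).map M₂.subtype ≤ M₁ ⊓ M₂) ∨ (∀ M : Subgroup G, (∃ T : Subgroup G, IsPGroup p T ∧ T ≠ ⊥ ∧ M = Subgroup.normalizer (T : Set G)) → (∀ L : Subgroup G, (∃ T : Subgroup G, IsPGroup p T ∧ T ≠ ⊥ ∧ L = Subgroup.normalizer (T : Set G)) → M ≤ L → L = M) → M ≠ ⊤ ∧ p ∣ Nat.card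 M ∧ ∀ g : G, g ∉ M → ¬ p ∣ Nat.card ↥(M ⊓ M.map (MulAut.conj g).toMonoidHom)) := by
  by_cases h : ∃ M : Subgroup G, IsMaxLoc p M ∧ ∃ g : G, g ∉ M ∧
      p ∣ Nat.card ↥(M ⊓ M.map (MulAut.conj g).toMonoidHom)
  · left
    obtain ⟨M, hM, g, hg, hp⟩ := h
    obtain ⟨M₁, M₂, P, h₁, h₂, hne, hP, hle, hS₁, hS₂⟩ := exists_pair hM hg hp
    have hc₁ := char_of_max hloc h₁
    have hc₂ := char_of_max hloc h₂
    refine ⟨M₁, M₂, hne, ?_, hc₁, hc₂, ?_⟩
    · intro A hA hAle
      constructor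
      · intro hn
        apply le_antisymm
        · have := normalizer_le_self_of_normal h₁ hc₁ hA (hAle.trans inf_le_left) hn
          exact le_inf (inf_le_right.trans this) inf_le_left
        · exact le_inf inf_le_right (inf_le_left.trans hn)
      · intro hn
        apply le_antisymm
        · have := normalizer_le_self_of_normal h₂ hc₂ hA (hAle.trans inf_le_right) hn
          exact le_inf inf_le_left (inf_le_right.trans this)
        · exact le_inf inf_le_left (inf_le_right.trans hn)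
    · apply sup_le
      · have h3 := core_le_of_sy hP (hle.trans inf_le_left) hS₁
        exact h3.trans hle
      · have h3 := core_le_of_sy hP (hle.trans inf_le_right) hS₂
        exact h3.trans hle
  · right
    intro M hMl hMm
    have hM : IsMaxLoc p M := ⟨hMl, hMm⟩
    obtain ⟨T, hT, hT1, rfl⟩ := hMl
    refine ⟨?_, ?_, ?_⟩
    · intro htop
      have hNorm : T.Normal := by
        rw [← Subgroup.normalizer_eq_top_iff]
        exact htop
      have : T ≤ Cfsg.pCore p G := Cfsg.Agent.Lib.Basic.PCore.le_pCore hNorm hT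
      rw [hOp, le_bot_iff] at this
      exact hT1 this
    · have hcard : p ∣ Nat.card T := by
        obtain ⟨k, hk⟩ := IsPGroup.iff_card.1 hT
        have hk0 : k ≠ 0 := by
          rintro rfl
          apply hT1
          have h1 : Nat.card T = 1 := by simpa using hk
          exact (Subgroup.card_eq_one).1 h1
        rw [hk]
        exact dvd_pow_self p hk0
      have hle : T ≤ normalizer (T : Set G) := Subgroup.le_normalizer
      exact hcard.trans (Subgroup.card_dvd_of_le hle)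
    · intro g hg hp
      exact h ⟨_, hM, g, hg, hp⟩

end Cfsg.Agent.S3751
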