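import Cfsg.Statements.S3752
import Mathlib
import Cfsg.Agent.Lib.Components.BenderPair
-- import your own Cfsg.Agent.* helpers here

set_option autoImplicit false
open Cfsg

namespace Cfsg.Agent.S3752

/-- Bender's Theorem on primitive pairs. Two distinct subgroups M₁, M₂ of G form a primitive pair when, for {i, j} = {1, 2}, every non-trivial normal subgroup A of M_i contained in M₁ ∩ M₂ satisfies N_{M_j}(A) = M₁ ∩ M₂; the pair has characteristic p when moreover C_{M_i}(O_p(M_i)) ≤ O_p(M_i) for both i and O_p(M₁)O_p(M₂) ≤ M₁ ∩ M₂. If (M₁, M₂) is a primitive pair of the finite group G with F*(M₁) ≤ M₂ and F*(M₂) ≤ M₁, then for some prime p the pair has characteristic p. -/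
theorem result {G : Type*} [Group G] [Finite G] (M₁ M₂ : Subgroup G) (hne : M₁ ≠ M₂) (hP : ∀ A : Subgroup G, A ≠ ⊥ → A ≤ M₁ ⊓ M₂ → (M₁ ≤ Subgroup.normalizer (A : Set G) → M₂ ⊓ Subgroup.normalizer (A : Set G) = M₁ ⊓ M₂) ∧ (M₂ ≤ Subgroup.normalizer (A : Set G) → M₁ ⊓ Subgroup.normalizer (A : Set G) = M₁ ⊓ M₂)) (h₁ : (Cfsg.generalizedFittingSubgroup ↥M₁).map M₁.subtype ≤ M₂) (h₂ : (Cfsg.generalizedFittingSubgroup ↥M₂).map M₂.subtype ≤ M₁) : ∃ p : ℕ, p.Prime ∧ Subgroup.centralizer (Cfsg.pCore p ↥M₁ : Set ↥M₁) ≤ Cfsg.pCore p ↥M₁ ∧ Subgroup.centralizer (Cfsg.pCore p ↥M₂ : Set ↥M₂) ≤ Cfsg.pCore p ↥M₂ ∧ (Cfsg.pCore p ↥M₁).map M₁.subtype ⊔ (Cfsg.pCore p ↥M₂).map M₂.subtype ≤ M₁ ⊓ M₂ := by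
  open Cfsg.Agent.Lib.Components.BenderPair in
  obtain ⟨p, hp, hA, hB⟩ := bender_pair hne (fun A h0 hA => hP A h0 hA) h₁ h₂
  haveI : Fact p.Prime := ⟨hp⟩
  have hC : ∀ H : Subgroup G, IsPGroup p ↥(Cfsg.generalizedFittingSubgroup ↥H) →
      Subgroup.centralizer (Cfsg.pCore p ↥H : Set ↥H) ≤ Cfsg.pCore p ↥H := by
    intro H hH
    have he := (Cfsg.Agent.Lib.Components.LocalFStar.generalizedFitting_eq_pCore_iff (p := p)).2 hH
    rw [← he]
    exact Cfsg.Agent.Lib.Components.FStar.centralizer_generalizedFitting_le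
  have hO : ∀ H : Subgroup G, (Cfsg.pCore p ↥H).map H.subtype ≤ (Cfsg.generalizedFittingSubgroup ↥H).map H.subtype := by
    intro H
    exact Subgroup.map_mono ((Cfsg.Agent.Lib.Basic.PCore.pCore_le_fittingSubgroup p).trans le_sup_right)
  refine ⟨p, hp, hC _ hA, hC _ hB, sup_le (le_inf (map_subtype_le _ _) ((hO M₁).trans h₁)) (le_inf ((hO M₂).trans h₂) (map_subtype_le _ _))⟩

end Cfsg.Agent.S3752
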