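import Cfsg.Statements.S3754
import Mathlib
import Cfsg.Agent.Lib.HallHigman.TheoremB
import Cfsg.Agent.Lib.Coprime.GenerationE
import Cfsg.Agent.Lib.PGroup.FrattiniBasis
import Cfsg.Agent.Lib.Transfer.Basic
import Cfsg.Agent.Lib.Solvable.PSeries

set_option autoImplicit false
open Cfsg

set_option linter.style.haveILetI false
set_option linter.unusedVariables false
set_option linter.unusedSectionVars false

namespace Cfsg.Agent.S3754

open Subgroup Cfsg.Agent.Lib.Basic.PCore Cfsg.Agent.Lib.Solvable.PSeries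
open scoped commutatorElement

section aux

variable {M : Type*} [Group M] [Finite M] {p : ℕ} [hp : Fact p.Prime]

/-- Elements of `A ⊔ W`, with `A` normalizing `W`, have the form `a * w`. -/
theorem exists_mul_of_mem_sup {A W : Subgroup M} (hAW : A ≤ normalizer (W : Set M)) {g : M}
    (hg : g ∈ A ⊔ W) : ∃ a ∈ A, ∃ w ∈ W, g = a * w := by
  rw [Subgroup.sup_eq_closure] at hg
  induction hg using Subgroup.closure_induction with
  | mem x hx =>
    rcases hx with hx | hx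
    · exact ⟨x, hx, 1, W.one_mem, by simp⟩
    · exact ⟨1, A.one_mem, x, hx, by simp⟩
  | one => exact ⟨1, A.one_mem, 1, W.one_mem, by simp⟩
  | mul x y _ _ hx hy =>
    obtain ⟨a, ha, w, hw, rfl⟩ := hx
    obtain ⟨b, hb, v, hv, rfl⟩ := hy
    refine ⟨a * b, A.mul_mem ha hb, b⁻¹ * w * b * v, W.mul_mem ?_ hv, by group⟩
    have := (Subgroup.mem_normalizer_iff.1 (hAW (A.inv_mem hb)) w).1 hw
    simpa using this
  | inv x _ hx =>
    obtain ⟨a, ha, w, hw, rfl⟩ := hx
    refine ⟨a⁻¹, A.inv_mem ha, a * w⁻¹ * a⁻¹, ?_, by group⟩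
    exact (Subgroup.mem_normalizer_iff.1 (hAW ha) w⁻¹).1 (W.inv_mem hw)

/-- An element of `A ⊔ W` of order prime to `p`, with `A` a `p`-group normalizing `W`, lies in `W`. -/
theorem mem_of_coprime_of_mem_sup {A W : Subgroup M} (hA : IsPGroup p A)
    (hAW : A ≤ normalizer (W : Set M)) {g : M} (hg : g ∈ A ⊔ W) (hcop : (orderOf g).Coprime p) :
    g ∈ W := by
  obtain ⟨a, ha, w, hw, rfl⟩ := exists_mul_of_mem_sup hAW hg
  have hpow : ∀ n : ℕ, ∃ v ∈ W, (a * w) ^ n = a ^ n * v := by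
    intro n
    induction n with
    | zero => exact ⟨1, W.one_mem, by simp⟩
    | succ n ih =>
      obtain ⟨v, hv, hv2⟩ := ih
      refine ⟨a⁻¹ * v * a * w, W.mul_mem ?_ hw, ?_⟩
      · have := (Subgroup.mem_normalizer_iff.1 (hAW (A.inv_mem ha)) v).1 hv
        simpa using this
      · rw [pow_succ, hv2, pow_succ]
        group
  obtain ⟨k, hk⟩ := hA ⟨a, ha⟩
  have hak : a ^ (p ^ k) = 1 := by
    have := congrArg Subtype.val hk
    simpa using this
  obtain ⟨v, hv, hv2⟩ := hpow (p ^ k)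
  rw [hak, one_mul] at hv2
  have hcop2 : (p ^ k).Coprime (orderOf (a * w)) := Nat.Coprime.pow_left k hcop.symm
  obtain ⟨m, hm⟩ := exists_pow_eq_self_of_coprime hcop2
  rw [← hm, hv2]
  exact W.pow_mem hv m

/-- The `p'`-part of an element, with the same image in a quotient where it is a `p'`-element. -/
theorem exists_pprime_part {M' : Type*} [Group M'] (π : M →* M') (w : M)
    (hw : (orderOf (π w)).Coprime p) (hne : π w ≠ 1) :
    ∃ e : ℕ, (orderOf (w ^ e)).Coprime p ∧ π (w ^ e) = π w := by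
  have hp' : p.Prime := hp.out
  have h0 : orderOf w ≠ 0 := (orderOf_pos w).ne'
  obtain ⟨k, m, hm, hkm⟩ := Nat.exists_eq_pow_mul_and_not_dvd h0 p hp'.ne_one
  have hcopm : (p ^ k).Coprime m := Nat.Coprime.pow_left k ((Nat.Prime.coprime_iff_not_dvd hp').2 hm)
  have hdvd : orderOf (π w) ∣ m := by
    have h1 : orderOf (π w) ∣ orderOf w := orderOf_map_dvd π w
    rw [hkm] at h1
    exact (Nat.Coprime.pow_right k hw).dvd_of_dvd_mul_left h1
  have hm1 : 1 < m := by
    have hmpos : 0 < m := Nat.pos_of_ne_zero (fun h => hm (h ▸ dvd_zero p))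
    by_contra hc
    have : m = 1 := by omega
    rw [this, Nat.dvd_one, orderOf_eq_one_iff] at hdvd
    exact hne hdvd
  obtain ⟨u, hu⟩ := Nat.exists_mul_mod_eq_one_of_coprime hcopm hm1
  refine ⟨p ^ k * u, ?_, ?_⟩
  · -- order of `w ^ (p ^ k * u)` divides `m`
    have h1 : (w ^ (p ^ k * u)) ^ m = 1 := by
      rw [← pow_mul, show p ^ k * u * m = (p ^ k * m) * u by ring, ← hkm, pow_mul, pow_orderOf_eq_one, one_pow]
    have h2 : orderOf (w ^ (p ^ k * u)) ∣ m := orderOf_dvd_of_pow_eq_one h1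
    exact Nat.Coprime.coprime_dvd_left h2 ((Nat.Prime.coprime_iff_not_dvd hp').2 hm).symm
  · rw [map_pow]
    have h3 : (p ^ k * u) % orderOf (π w) = 1 % orderOf (π w) := by
      have h4 : (p ^ k * u) ≡ 1 [MOD m] := by
        rw [Nat.ModEq, hu.2, Nat.mod_eq_of_lt hm1]
      exact h4.of_dvd hdvd
    rw [← pow_mod_orderOf, h3, pow_mod_orderOf, pow_one]

end aux

/-- Let M be a finite p-soluble group and A a p-subgroup of M with Φ(A) ≤ O_p(M) but A ≰ O_p(M). Then there is x ∈ O_{p,p'}(M) such that L = ⟨A, xAx⁻¹⟩ satisfies: x ∈ O^p(L) and O^p(L) ≤ O_{p,p'}(M); [O^p(L), A] = O^p(L); A ∩ O_p(L) has index p in A; and [A ∩ O_p(L), L] ≤ O_p(M). Here O^p(L) is the subgroup generated by the p'-elements of L and O_{p,p'}(M) the preimage of O_{p'}(M/O_p(M)). -/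
theorem result {M : Type*} [Group M] [Finite M] {p : ℕ} [Fact p.Prime] (hM : Cfsg.IsPSolvable p M) (A : Subgroup M) (hA : IsPGroup p A) (hΦ : (frattini ↥A).map A.subtype ≤ Cfsg.pCore p M) (hnot : ¬ A ≤ Cfsg.pCore p M) : ∃ x ∈ (Cfsg.pPrimeCore p (M ⧸ Cfsg.pCore p M)).comap (QuotientGroup.mk' (Cfsg.pCore p M)), x ∈ (Cfsg.pResidual p ↥(A ⊔ A.map (MulAut.conj x).toMonoidHom)).map (A ⊔ A.map (MulAut.conj x).toMonoidHom).subtype ∧ (Cfsg.pResidual p ↥(A ⊔ A.map (MulAut.conj x).toMonoidHom)).map (A ⊔ A.map (MulAut.conj x).toMonoidHom).subtype ≤ (Cfsg.pPrimeCore p (M ⧸ Cfsg.pCore p M)).comap (QuotientGroup.mk' (Cfsg.pCore p M)) ∧ ⁅(Cfsg.pResidual p ↥(A ⊔ A.map (MulAut.conj x).toMonoidHom)).map (A ⊔ A.map (MulAut.conj x).toMonoidHom).subtype, A⁆ = (Cfsg.pResidual p ↥(A ⊔ A.map (MulAut.conj x).toMonoidHom)).map (A ⊔ A.map (MulAut.conj x).toMonoidHom).subtype ∧ (A ⊓ (Cfsg.pCore p ↥(A ⊔ A.map (MulAut.conj x).toMonoidHom)).map (A ⊔ A.map (MulAut.conj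 x).toMonoidHom).subtype).relIndex A = p ∧ ⁅A ⊓ (Cfsg.pCore p ↥(A ⊔ A.map (MulAut.conj x).toMonoidHom)).map (A ⊔ A.map (MulAut.conj x).toMonoidHom).subtype, A ⊔ A.map (MulAut.conj x).toMonoidHom⁆ ≤ Cfsg.pCore p M := by
  classical
  have hpp : p.Prime := Fact.out
  set Q := Cfsg.pCore p M with hQ
  haveI hQn : Q.Normal := pCore_normal p M
  have hQp : IsPGroup p Q := pCore_isPGroup p
  let π : M →* M ⧸ Q := QuotientGroup.mk' Q
  have hπ : Function.Surjective π := QuotientGroup.mk'_surjective Q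
  have hker : ∀ g : M, π g = 1 ↔ g ∈ Q := fun g => QuotientGroup.eq_one_iff g
  set Rb := Cfsg.pPrimeCore p (M ⧸ Q) with hRb
  haveI hRbn : Rb.Normal := pPrimeCore_normal p _
  have hRbc : (Nat.card Rb).Coprime p := pPrimeCore_coprime p
  set R := Rb.comap (QuotientGroup.mk' Q) with hR
  haveI hRn : R.Normal := Subgroup.Normal.comap hRbn _
  have hQR : ∀ g : M, g ∈ R ↔ π g ∈ Rb := fun g => Iff.rfl
  -- `p'`-elements of `Rb`
  have hRbord : ∀ z ∈ Rb, (orderOf z).Coprime p := by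
    intro z hz
    have h1 : orderOf (⟨z, hz⟩ : Rb) ∣ Nat.card Rb := orderOf_dvd_natCard _
    rw [Subgroup.orderOf_mk] at h1
    exact Nat.Coprime.coprime_dvd_left h1 hRbc
  have hpel : ∀ z : M ⧸ Q, z ∈ Rb → ∀ k : ℕ, z ^ (p ^ k) = 1 → z = 1 := by
    intro z hz k hk
    have h1 : orderOf z ∣ p ^ k := orderOf_dvd_of_pow_eq_one hk
    have h2 : (orderOf z).Coprime (p ^ k) := Nat.Coprime.pow_right k (hRbord z hz)
    exact orderOf_eq_one_iff.1 (Nat.Coprime.eq_one_of_dvd h2 h1)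
  -- the image of `A` is elementary abelian
  have hAcomm : ∀ a ∈ A, ∀ b ∈ A, π a * π b = π b * π a := by
    intro a ha b hb
    have h1 : ⁅(⟨a, ha⟩ : A), (⟨b, hb⟩ : A)⁆ ∈ frattini A :=
      Cfsg.Agent.Lib.PGroup.FrattiniBasis.commutator_le_frattini hA
        (Subgroup.commutator_mem_commutator trivial trivial)
    have h2 : ⁅a, b⁆ ∈ Q := hΦ ⟨_, h1, rfl⟩
    have h3 : π ⁅a, b⁆ = 1 := (hker _).2 h2
    rw [map_commutatorElement, commutatorElement_eq_one_iff_mul_comm] at h3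
    exact h3
  have hApow : ∀ a ∈ A, π a ^ p = 1 := by
    intro a ha
    have h1 : (⟨a, ha⟩ : A) ^ p ∈ frattini A :=
      Cfsg.Agent.Lib.PGroup.FrattiniBasis.pow_mem_frattini hA _
    have h2 : a ^ p ∈ Q := hΦ ⟨_, h1, rfl⟩
    rw [← map_pow]
    exact (hker _).2 h2
  set Ab := A.map π with hAb
  have hAbc : ∀ u ∈ Ab, ∀ v ∈ Ab, u * v = v * u := by
    rintro _ ⟨a, ha, rfl⟩ _ ⟨b, hb, rfl⟩
    exact hAcomm a ha b hb
  have hEA : Cfsg.IsElementaryAbelian p Ab := by
    refine ⟨⟨⟨fun x y => Subtype.ext (hAbc _ x.2 _ y.2)⟩⟩, ?_⟩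
    rintro _ ⟨a, ha, rfl⟩
    exact hApow a ha
  have hAbp : IsPGroup p Ab := hA.map π
  have hRbnd : ¬ p ∣ Nat.card Rb := fun h => by
    have := Nat.dvd_gcd h (dvd_refl p)
    rw [hRbc.gcd_eq_one] at this
    exact hpp.one_lt.ne' (Nat.dvd_one.1 this)
  have hgen := Cfsg.Agent.Lib.Coprime.GenerationE.le_iSup_relIndex_le Ab Rb hEA hRbnd
    Subgroup.le_normalizer_of_normal
  have hHH : Subgroup.centralizer (Rb : Set (M ⧸ Q)) ≤ Rb :=
    Cfsg.Agent.Lib.HallHigman.TheoremB.centralizer_pPrimeCore_le (isPSolvable_quotient hM Q)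
      pCore_quotient_eq_bot
  obtain ⟨Bb, hBb, hBbp, yb, hyR, hyB, hyA⟩ : ∃ Bb : Subgroup (M ⧸ Q), Bb ≤ Ab ∧ Bb.relIndex Ab ≤ p ∧
      ∃ yb ∈ Rb, yb ∈ Subgroup.centralizer (Bb : Set (M ⧸ Q)) ∧
        yb ∉ Subgroup.centralizer (Ab : Set (M ⧸ Q)) := by
    by_contra hno
    push Not at hno
    have h1 : Rb ≤ Subgroup.centralizer (Ab : Set (M ⧸ Q)) := by
      refine hgen.trans (iSup_le ?_)
      rintro ⟨B, hB1, hB2⟩ y ⟨hy1, hy2⟩
      exact hno B hB1 hB2 y hy1 hy2
    have h2 : Ab ≤ Rb := by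
      refine le_trans ?_ hHH
      rw [Subgroup.le_centralizer_iff]
      exact h1
    apply hnot
    intro a ha
    have h3 : π a ∈ Rb := h2 ⟨a, ha, rfl⟩
    obtain ⟨k, hk⟩ := hA ⟨a, ha⟩
    have h4 : a ^ (p ^ k) = 1 := by
      have := congrArg Subtype.val hk
      simpa using this
    have h5 : π a = 1 := hpel _ h3 k (by rw [← map_pow, h4, map_one])
    exact (hker a).1 h5
  -- `Bb` has index `p` in `Ab`
  have hrel : Bb.relIndex Ab = p := by
    have h1 : Bb.relIndex Ab ≠ 1 := by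
      intro h
      have h2 : Ab ≤ Bb := Subgroup.relIndex_eq_one.1 h
      exact hyA (Subgroup.centralizer_le h2 hyB)
    have h2 : Bb.relIndex Ab ∣ Nat.card Ab := Subgroup.relIndex_dvd_card _ _
    obtain ⟨n, hn⟩ := IsPGroup.iff_card.1 hAbp
    rw [hn] at h2
    obtain ⟨j, hj, hj2⟩ := (Nat.dvd_prime_pow hpp).1 h2
    rcases j with _ | j
    · rw [pow_zero] at hj2
      exact absurd hj2 h1
    · rw [hj2] at hBbp ⊢
      rw [pow_succ] at hBbp ⊢
      have hpos : 0 < p ^ j := pow_pos hpp.pos j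
      have h3 : p ^ j = 1 := by
        by_contra hc
        have h4 : 2 ≤ p ^ j := by omega
        nlinarith [hpp.pos]
      rw [h3, one_mul]
  -- candidates
  let LL : M → Subgroup M := fun x => A ⊔ A.map (MulAut.conj x).toMonoidHom
  let XX : M → Prop := fun x => x ∈ R ∧ π x ∈ Subgroup.centralizer (Bb : Set (M ⧸ Q)) ∧
    π x ∉ Subgroup.centralizer (Ab : Set (M ⧸ Q))
  have hXne : ∃ x, XX x := by
    obtain ⟨y, rfl⟩ := hπ yb
    exact ⟨y, hyR, hyB, hyA⟩
  obtain ⟨x₀, hx₀, hmin⟩ : ∃ x₀, XX x₀ ∧ ∀ x, XX x → Nat.card (LL x₀) ≤ Nat.card (LL x) := by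
    have hne : {n : ℕ | ∃ x, XX x ∧ Nat.card (LL x) = n}.Nonempty := by
      obtain ⟨x, hx⟩ := hXne
      exact ⟨_, x, hx, rfl⟩
    obtain ⟨x₀, hx₀, hn⟩ := Nat.sInf_mem hne
    refine ⟨x₀, hx₀, fun x hx => ?_⟩
    rw [hn]
    exact Nat.sInf_le ⟨x, hx, rfl⟩
  obtain ⟨hx₀R, hx₀B, hx₀A⟩ := hx₀
  obtain ⟨ab, hab, habne⟩ : ∃ ab ∈ Ab, ab * π x₀ ≠ π x₀ * ab := by
    rw [Subgroup.mem_centralizer_iff] at hx₀A
    push Not at hx₀A
    exact hx₀A
  obtain ⟨a₀, ha₀, rfl⟩ := hab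
  set z := π x₀ with hz
  set w : M := a₀⁻¹ * (x₀ * a₀ * x₀⁻¹) with hw
  have hconjmem : ∀ y a : M, a ∈ A → y * a * y⁻¹ ∈ A.map (MulAut.conj y).toMonoidHom := by
    intro y a ha
    exact ⟨a, ha, rfl⟩
  have hwL : w ∈ LL x₀ :=
    (LL x₀).mul_mem ((le_sup_left : A ≤ LL x₀) (A.inv_mem ha₀))
      ((le_sup_right : A.map (MulAut.conj x₀).toMonoidHom ≤ LL x₀) (hconjmem x₀ a₀ ha₀))
  have hwbar : π w = (π a₀)⁻¹ * z * π a₀ * z⁻¹ := by
    rw [hw, hz]
    simp only [map_mul, map_inv]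
    group
  have hwR : π w ∈ Rb := by
    rw [hwbar]
    refine Rb.mul_mem ?_ (Rb.inv_mem hx₀R)
    have := hRbn.conj_mem z hx₀R (π a₀)⁻¹
    simpa using this
  have hx₀Bc : ∀ b ∈ Bb, b * z = z * b := fun b hb => Subgroup.mem_centralizer_iff.1 hx₀B b hb
  have hwB : π w ∈ Subgroup.centralizer (Bb : Set (M ⧸ Q)) := by
    rw [Subgroup.mem_centralizer_iff]
    intro b hb
    have h1 : Commute b z := hx₀Bc b hb
    have h2 : Commute b (π a₀) := hAbc b (hBb hb) _ ⟨a₀, ha₀, rfl⟩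
    rw [hwbar]
    exact ((((h2.inv_right.mul_right h1).mul_right h2).mul_right h1.inv_right) : Commute b _)
  have hwA : π w ∉ Subgroup.centralizer (Ab : Set (M ⧸ Q)) := by
    intro hin
    have hc : Commute (π a₀) (π w) := Subgroup.mem_centralizer_iff.1 hin _ ⟨a₀, ha₀, rfl⟩
    have hrelw : ∀ n : ℕ, ((π a₀) ^ n)⁻¹ * z * (π a₀) ^ n = (π w) ^ n * z := by
      intro n
      induction n with
      | zero => simp
      | succ n ih =>
        have h1 : (π a₀)⁻¹ * z * π a₀ = π w * z := by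
          rw [hwbar]; group
        calc ((π a₀) ^ (n + 1))⁻¹ * z * (π a₀) ^ (n + 1)
            = (π a₀)⁻¹ * (((π a₀) ^ n)⁻¹ * z * (π a₀) ^ n) * π a₀ := by
              rw [pow_succ]; group
          _ = (π a₀)⁻¹ * ((π w) ^ n * z) * π a₀ := by rw [ih]
          _ = ((π a₀)⁻¹ * (π w) ^ n * π a₀) * ((π a₀)⁻¹ * z * π a₀) := by group
          _ = (π w) ^ n * (π w * z) := by
              rw [h1]
              congr 1
              have h3 : Commute (π a₀)⁻¹ ((π w) ^ n) := (hc.pow_right n).inv_left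
              rw [h3.eq]
              group
          _ = (π w) ^ (n + 1) * z := by rw [pow_succ]; group
    have h2 := hrelw p
    rw [hApow a₀ ha₀] at h2
    simp only [inv_one, one_mul, mul_one] at h2
    have h3 : (π w) ^ (p ^ 1) = 1 := by
      rw [pow_one]
      exact (mul_eq_right.1 h2.symm)
    have h4 : π w = 1 := hpel _ hwR 1 h3
    apply habne
    rw [hwbar] at h4
    have h5 : (π a₀)⁻¹ * z * π a₀ = z := by
      have := congrArg (· * z) h4
      simpa [mul_assoc] using this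
    calc π a₀ * z = π a₀ * ((π a₀)⁻¹ * z * π a₀) := by rw [h5]
      _ = z * π a₀ := by group
  have hwne : π w ≠ 1 := fun h => hwA (by rw [h]; exact Subgroup.one_mem _)
  obtain ⟨e, he1, he2⟩ := exists_pprime_part (p := p) π w (hRbord _ hwR) hwne
  set x := w ^ e with hx
  have hxL₀ : x ∈ LL x₀ := (LL x₀).pow_mem hwL e
  have hxX : XX x := by
    refine ⟨?_, ?_, ?_⟩
    · change π x ∈ Rb
      rw [he2]
      exact hwR
    · rw [he2]
      exact hwB
    · rw [he2]
      exact hwA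
  have hLle : LL x ≤ LL x₀ := by
    refine sup_le le_sup_left ?_
    rintro _ ⟨a, ha, rfl⟩
    change x * a * x⁻¹ ∈ LL x₀
    exact (LL x₀).mul_mem ((LL x₀).mul_mem hxL₀ ((le_sup_left : A ≤ LL x₀) ha)) ((LL x₀).inv_mem hxL₀)
  have hLeq : LL x = LL x₀ := Subgroup.eq_of_le_of_card_ge hLle (hmin x hxX)
  have hxL : x ∈ LL x := by rw [hLeq]; exact hxL₀
  obtain ⟨hxR, hxB, hxA⟩ := hxX
  have he1' : (orderOf x).Coprime p := he1
  obtain ⟨ab, hab, habne⟩ : ∃ ab ∈ Ab, ab * π x ≠ π x * ab := by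
    rw [Subgroup.mem_centralizer_iff] at hxA
    push Not at hxA
    exact hxA
  clear_value x
  clear hxL₀ hLle hLeq hmin he1 he2
  -- the final group
  refine ⟨x, hxR, ?_⟩
  have hLdef : LL x = A ⊔ A.map (MulAut.conj x).toMonoidHom := rfl
  set L : Subgroup M := A ⊔ A.map (MulAut.conj x).toMonoidHom with hL
  have hAL : A ≤ L := le_sup_left
  have hxLL : x ∈ L := hxL
  have hconjL : ∀ a ∈ A, x * a * x⁻¹ ∈ L := fun a ha =>
    (le_sup_right : A.map (MulAut.conj x).toMonoidHom ≤ L) (hconjmem x a ha)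
  -- `π L` centralizes `Bb`
  have hxBc : ∀ b ∈ Bb, Commute b (π x) := fun b hb => Subgroup.mem_centralizer_iff.1 hxB b hb
  have hLcen : L ≤ (Subgroup.centralizer (Bb : Set (M ⧸ Q))).comap π := by
    refine sup_le ?_ ?_
    · intro a ha
      rw [Subgroup.mem_comap, Subgroup.mem_centralizer_iff]
      intro b hb
      exact hAbc b (hBb hb) _ ⟨a, ha, rfl⟩
    · rintro _ ⟨a, ha, rfl⟩
      rw [Subgroup.mem_comap, Subgroup.mem_centralizer_iff]
      intro b hb
      have h1 : Commute b (π a) := hAbc b (hBb hb) _ ⟨a, ha, rfl⟩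
      have h2 := hxBc b hb
      have h3 : (MulAut.conj x).toMonoidHom a = x * a * x⁻¹ := rfl
      rw [h3, map_mul, map_mul, map_inv]
      exact ((h2.mul_right h1).mul_right h2.inv_right : Commute b _)
  -- the residual
  set U : Subgroup M := (Cfsg.pResidual p ↥L).map L.subtype with hU
  have hUmem : ∀ g ∈ L, (orderOf g).Coprime p → g ∈ U := by
    intro g hg hc
    refine ⟨⟨g, hg⟩, Subgroup.subset_closure ?_, rfl⟩
    change (orderOf (⟨g, hg⟩ : L)).Coprime p
    rwa [Subgroup.orderOf_mk]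
  have hUle : ∀ W : Subgroup M, (∀ g ∈ L, (orderOf g).Coprime p → g ∈ W) → U ≤ W := by
    intro W hW
    rw [hU, Subgroup.map_le_iff_le_comap]
    refine (Subgroup.closure_le _).2 ?_
    intro y hy
    have hy' : (orderOf y).Coprime p := hy
    refine hW y y.2 ?_
    rwa [Subgroup.orderOf_coe]
  have hUL : U ≤ L := Subgroup.map_subtype_le _
  have hUn : ∀ g ∈ L, ∀ u ∈ U, g * u * g⁻¹ ∈ U := by
    rintro g hg _ ⟨u, hu, rfl⟩
    refine ⟨⟨g, hg⟩ * u * ⟨g, hg⟩⁻¹, (Cfsg.Agent.Lib.Transfer.Basic.pResidual_normal p ↥L).conj_mem u hu _, ?_⟩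
    simp
  have hxU : x ∈ U := by
    refine hUmem x hxLL ?_
    exact he1'
  -- `U ≤ R`
  have hLAR : L ≤ A ⊔ R := by
    refine sup_le le_sup_left ?_
    rintro _ ⟨a, ha, rfl⟩
    have h3 : (MulAut.conj x).toMonoidHom a = (x * (a * x⁻¹ * a⁻¹)) * a := by
      change x * a * x⁻¹ = _
      group
    rw [h3]
    refine (A ⊔ R).mul_mem ((le_sup_right : R ≤ A ⊔ R) (R.mul_mem hxR ?_)) ((le_sup_left : A ≤ A ⊔ R) ha)
    exact hRn.conj_mem _ (R.inv_mem hxR) a
  have hUR : U ≤ R := by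
    apply hUle
    intro g hg hc
    exact mem_of_coprime_of_mem_sup hA Subgroup.le_normalizer_of_normal (hLAR hg) hc
  -- `[U, A] = U`
  have hcomm : ⁅U, A⁆ = U := by
    apply le_antisymm
    · rw [Subgroup.commutator_le]
      intro u hu a ha
      have h1 : ⁅u, a⁆ = u * (a * u⁻¹ * a⁻¹) := by
        rw [commutatorElement_def]; group
      rw [h1]
      exact U.mul_mem hu (hUn a (hAL ha) u⁻¹ (U.inv_mem hu))
    · have hconjW : ∀ b ∈ A, ∀ h ∈ ⁅U, A⁆, b * h * b⁻¹ ∈ ⁅U, A⁆ := by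
        intro b hb h hh
        have hle : ⁅U, A⁆ ≤ (⁅U, A⁆ : Subgroup M).comap (MulAut.conj b).toMonoidHom := by
          rw [Subgroup.commutator_le]
          intro u hu a ha
          rw [Subgroup.mem_comap]
          change b * ⁅u, a⁆ * b⁻¹ ∈ _
          rw [conjugate_commutatorElement]
          exact Subgroup.commutator_mem_commutator (hUn b (hAL hb) u hu)
            (A.mul_mem (A.mul_mem hb ha) (A.inv_mem hb))
        exact hle hh
      have hAW : A ≤ normalizer ((⁅U, A⁆ : Subgroup M) : Set M) := by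
        intro b hb
        rw [Subgroup.mem_normalizer_iff]
        intro h
        refine ⟨hconjW b hb h, fun hh => ?_⟩
        have := hconjW b⁻¹ (A.inv_mem hb) _ hh
        simpa [mul_assoc] using this
      apply hUle
      intro g hg hc
      refine mem_of_coprime_of_mem_sup hA hAW ?_ hc
      have hLle : L ≤ A ⊔ ⁅U, A⁆ := by
        refine sup_le le_sup_left ?_
        rintro _ ⟨a, ha, rfl⟩
        have h3 : (MulAut.conj x).toMonoidHom a = ⁅x, a⁆ * a := by
          change x * a * x⁻¹ = _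
          rw [commutatorElement_def]; group
        rw [h3]
        exact (A ⊔ ⁅U, A⁆).mul_mem
          ((le_sup_right : (⁅U, A⁆ : Subgroup M) ≤ A ⊔ ⁅U, A⁆) (Subgroup.commutator_mem_commutator hxU ha))
          ((le_sup_left : A ≤ A ⊔ ⁅U, A⁆) ha)
      exact hLle hg
  -- the core of `L`
  set O : Subgroup M := (Cfsg.pCore p ↥L).map L.subtype with hO
  have hBbp' : IsPGroup p Bb := hAbp.to_le hBb
  have hOeq : A ⊓ O = A ⊓ Bb.comap π := by
    apply le_antisymm
    · rintro c ⟨hcA, hcO⟩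
      refine ⟨hcA, ?_⟩
      change π c ∈ Bb
      by_contra hc
      obtain ⟨c', hc', rfl⟩ := hcO
      have hcomm2 : (π (c' : M)) * π x = π x * π (c' : M) := by
        set x' : ↥L := ⟨x, hxLL⟩ with hx'
        have h1 : ⁅c', x'⁆ ∈ Cfsg.pCore p ↥L := by
          have h2 : ⁅c', x'⁆ = c' * (x' * c'⁻¹ * x'⁻¹) := by
            rw [commutatorElement_def]; group
          rw [h2]
          exact (Cfsg.pCore p ↥L).mul_mem hc'
            ((pCore_normal p ↥L).conj_mem _ ((Cfsg.pCore p ↥L).inv_mem hc') _)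
        obtain ⟨k, hk⟩ := pCore_isPGroup (p := p) (G := ↥L) ⟨_, h1⟩
        have h3 : (⁅c', x'⁆ : ↥L) ^ (p ^ k) = 1 := by
          have := congrArg Subtype.val hk
          simpa using this
        have h4 : ⁅(c' : M), x⁆ ^ (p ^ k) = 1 := by
          have h8 : ((⁅c', x'⁆ : ↥L) : M) = ⁅(c' : M), x⁆ := rfl
          rw [← h8, ← Subgroup.coe_pow, h3, Subgroup.coe_one]
        have h5 : ⁅(c' : M), x⁆ ∈ R := by
          have h6 : ⁅(c' : M), x⁆ = ((c' : M) * x * (c' : M)⁻¹) * x⁻¹ := by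
            rw [commutatorElement_def]
          rw [h6]
          exact R.mul_mem (hRn.conj_mem _ hxR _) (R.inv_mem hxR)
        have h7 : π ⁅(c' : M), x⁆ = 1 := hpel _ h5 k (by rw [← map_pow, h4, map_one])
        rw [map_commutatorElement, commutatorElement_eq_one_iff_mul_comm] at h7
        exact h7
      set D : Subgroup (M ⧸ Q) := Ab ⊓ Subgroup.centralizer ({π x} : Set (M ⧸ Q)) with hD
      have hBD : Bb ≤ D := by
        intro b hb
        exact Subgroup.mem_inf.2 ⟨hBb hb, Subgroup.mem_centralizer_singleton_iff.2 (hxBc b hb)⟩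
      have hDA : D ≤ Ab := inf_le_left
      have hmul := Subgroup.relIndex_mul_relIndex Bb D Ab hBD hDA
      rw [hrel] at hmul
      have hcD : π (c' : M) ∈ D :=
        Subgroup.mem_inf.2 ⟨⟨c', hcA, rfl⟩, Subgroup.mem_centralizer_singleton_iff.2 hcomm2⟩
      rcases (Nat.dvd_prime hpp).1 (Dvd.intro _ hmul) with h1 | h1
      · have h2 : D ≤ Bb := Subgroup.relIndex_eq_one.1 h1
        exact hc (h2 hcD)
      · rw [h1] at hmul
        have h2 : D.relIndex Ab = 1 := by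
          have hp0 : 0 < p := hpp.pos
          nlinarith
        have h3 : Ab ≤ D := Subgroup.relIndex_eq_one.1 h2
        apply hxA
        rw [Subgroup.mem_centralizer_iff]
        intro a ha
        have h4 : a ∈ Subgroup.centralizer ({π x} : Set (M ⧸ Q)) := (Subgroup.mem_inf.1 (h3 ha)).2
        rw [Subgroup.mem_centralizer_singleton_iff] at h4
        exact h4
    · rintro b ⟨hbA, hbB⟩
      refine ⟨hbA, ?_⟩
      let φ : ↥L →* M ⧸ Q := π.comp L.subtype
      let T : Subgroup ↥L := Bb.comap φ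
      have hTn : T.Normal := by
        constructor
        intro t ht g
        change φ (g * t * g⁻¹) ∈ Bb
        have h1 : φ (g * t * g⁻¹) = φ t := by
          have h2 := Subgroup.mem_centralizer_iff.1 (hLcen g.2) (φ t) ht
          have h3 : Commute (φ t) (φ g) := h2
          rw [map_mul, map_mul, map_inv, h3.symm.eq]
          group
        rw [h1]
        exact ht
      have hkerp : IsPGroup p φ.ker := by
        rintro ⟨k, hk⟩
        have h1 : (k : M) ∈ Q := (hker _).1 hk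
        obtain ⟨n, hn⟩ := hQp ⟨k, h1⟩
        refine ⟨n, ?_⟩
        apply Subtype.ext
        apply Subtype.ext
        have := congrArg Subtype.val hn
        simpa using this
      have hTp : IsPGroup p T := IsPGroup.comap_of_ker_isPGroup hBbp' φ hkerp
      have hTle : T ≤ Cfsg.pCore p ↥L := le_pCore hTn hTp
      exact ⟨⟨b, hAL hbA⟩, hTle hbB, rfl⟩
  refine ⟨hxU, hUR, hcomm, ?_, ?_⟩
  · rw [hOeq, Subgroup.inf_relIndex_left, Subgroup.relIndex_comap]
    exact hrel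
  · rw [Subgroup.commutator_le]
    intro b hb g hg
    rw [hOeq] at hb
    rw [← hker, map_commutatorElement, commutatorElement_eq_one_iff_mul_comm]
    have h1 := Subgroup.mem_centralizer_iff.1 (hLcen hg) (π b) hb.2
    exact h1

end Cfsg.Agent.S3754
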