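import Cfsg.Statements.S3755
import Mathlib
import Cfsg.Agent.Lib.PGroup.FFPair
import Cfsg.Agent.Lib.SFour.Recog
-- import your own Cfsg.Agent.* helpers here

set_option autoImplicit false
set_option linter.style.haveILetI false
set_option linter.unusedVariables false
open Cfsg

namespace Cfsg.Agent.S3755

open Subgroup Cfsg.Agent.Lib.PGroup.FFPair Cfsg.Agent.Lib.SFour.Recog

variable {X : Type*} [Group X] [Finite X]

/-- The action on the three nontrivial elements of a four-group gives `S₃`. -/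
theorem involves_S3 (M W : Subgroup X) (hW4 : Nat.card W = 4) (c a : X) (hc : c ∈ M) (ha : a ∈ M)
    (hcN : c ∈ normalizer (W : Set X)) (haN : a ∈ normalizer (W : Set X))
    (hcodd : Odd (orderOf c)) (ha2 : a ^ 2 = 1)
    (hcW : ¬ W ≤ centralizer ({c} : Set X)) (haW : ¬ W ≤ centralizer ({a} : Set X)) :
    Cfsg.Involves (Equiv.Perm (Fin 3)) ↥M := by
  classical
  let Γ : Subgroup X := M ⊓ normalizer (W : Set X)
  let Ω := {w : ↥W // w ≠ 1}
  have hmem : ∀ (g : ↥Γ) (w : ↥W), (g : X) * w * (g : X)⁻¹ ∈ W := fun g w =>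
    (Subgroup.mem_normalizer_iff.mp g.2.2 w).mp w.2
  have hne : ∀ (g : ↥Γ) (w : Ω), (⟨(g : X) * w.1 * (g : X)⁻¹, hmem g w.1⟩ : ↥W) ≠ 1 := by
    intro g w h
    apply w.2
    have h1 := congrArg Subtype.val h
    apply Subtype.ext
    have h2 : (g : X) * (w.1 : X) * (g : X)⁻¹ = 1 := h1
    have h3 : (w.1 : X) = 1 := by
      have h4 : (g : X) * (w.1 : X) = g := mul_inv_eq_one.mp h2
      exact mul_eq_left.mp h4
    exact h3
  letI act : MulAction ↥Γ Ω :=
    { smul := fun g w => ⟨⟨(g : X) * w.1 * (g : X)⁻¹, hmem g w.1⟩, hne g w⟩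
      one_smul := by
        intro w
        apply Subtype.ext
        apply Subtype.ext
        show ((1 : ↥Γ) : X) * w.1 * ((1 : ↥Γ) : X)⁻¹ = w.1
        simp
      mul_smul := by
        intro g h w
        apply Subtype.ext
        apply Subtype.ext
        show ((g * h : ↥Γ) : X) * w.1 * ((g * h : ↥Γ) : X)⁻¹ =
          (g : X) * ((h : X) * w.1 * (h : X)⁻¹) * (g : X)⁻¹
        simp only [Subgroup.coe_mul]
        group }
  have hact : ∀ (g : ↥Γ) (w : Ω), (((g • w : Ω) : ↥W) : X) = (g : X) * w.1 * (g : X)⁻¹ :=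
    fun _ _ => rfl
  have hΩ : Nat.card Ω = 3 := by
    have h1 : Nat.card Ω = Nat.card ↥W - 1 := by
      simp only [Ω]
      haveI : Fintype ↥W := Fintype.ofFinite _
      rw [Nat.card_eq_fintype_card, Nat.card_eq_fintype_card]
      rw [Fintype.card_subtype_compl]
      simp
    omega
  let e : Ω ≃ Fin 3 := Finite.equivFinOfCardEq hΩ
  let φ : ↥Γ →* Equiv.Perm Ω := MulAction.toPermHom ↥Γ Ω
  let σ : ↥Γ →* Equiv.Perm (Fin 3) := (e.permCongrHom.toMonoidHom).comp φ
  have hσ1 : ∀ g : ↥Γ, σ g = 1 → ∀ w ∈ W, (g : X) * w * (g : X)⁻¹ = w := by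
    intro g hg w hw
    by_cases hw1 : w = 1
    · subst hw1; simp
    · have h1 : φ g = 1 := by
        have : e.permCongrHom (φ g) = e.permCongrHom 1 := by
          rw [map_one]; exact hg
        exact e.permCongrHom.injective this
      have hw' : (⟨w, hw⟩ : ↥W) ≠ 1 := fun h => hw1 (congrArg Subtype.val h)
      have h2 : g • (⟨⟨w, hw⟩, hw'⟩ : Ω) = ⟨⟨w, hw⟩, hw'⟩ := by
        have : φ g ⟨⟨w, hw⟩, hw'⟩ = ⟨⟨w, hw⟩, hw'⟩ := by rw [h1]; rfl
        exact this
      have h3 := congrArg (fun z : Ω => ((z : ↥W) : X)) h2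
      exact h3
  let c' : ↥Γ := ⟨c, hc, hcN⟩
  let a' : ↥Γ := ⟨a, ha, haN⟩
  have hcard6 : Nat.card (Equiv.Perm (Fin 3)) = 6 := by
    rw [Nat.card_eq_fintype_card, Fintype.card_perm, Fintype.card_fin]
    rfl
  have hσc : σ c' ≠ 1 := by
    intro h
    apply hcW
    intro w hw
    rw [Subgroup.mem_centralizer_iff]
    intro z hz
    rw [Set.mem_singleton_iff] at hz
    subst hz
    have := hσ1 c' h w hw
    exact (mul_inv_eq_iff_eq_mul.mp this)
  have hσa : σ a' ≠ 1 := by
    intro h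
    apply haW
    intro w hw
    rw [Subgroup.mem_centralizer_iff]
    intro z hz
    rw [Set.mem_singleton_iff] at hz
    subst hz
    have := hσ1 a' h w hw
    exact (mul_inv_eq_iff_eq_mul.mp this)
  have hosc : orderOf (σ c') = 3 := by
    have h1 : orderOf (σ c') ∣ 6 := by
      rw [← hcard6]; exact orderOf_dvd_natCard _
    have h2 : orderOf (σ c') ∣ orderOf c := by
      have h3 : orderOf (σ c') ∣ orderOf c' := orderOf_map_dvd σ c'
      have h4 : orderOf c' = orderOf c := Subgroup.orderOf_mk c _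
      rwa [h4] at h3
    have h5 : Odd (orderOf (σ c')) := Odd.of_dvd_nat hcodd h2
    have h6 : orderOf (σ c') ≠ 1 := fun h => hσc (orderOf_eq_one_iff.mp h)
    have h7 : orderOf (σ c') ≤ 6 := Nat.le_of_dvd (by norm_num) h1
    interval_cases hk : orderOf (σ c') <;> first | rfl | omega | (exfalso; revert h1; decide) | (exfalso; revert h5; decide)
  have hosa : orderOf (σ a') = 2 := by
    apply orderOf_eq_prime
    · rw [← map_pow]
      have : a' ^ 2 = 1 := by
        apply Subtype.ext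
        simpa [a'] using ha2
      rw [this, map_one]
    · exact hσa
  have hsurj : Function.Surjective σ := by
    have h2 : 2 ∣ Nat.card σ.range := by
      have := orderOf_dvd_natCard (⟨σ a', a', rfl⟩ : ↥σ.range)
      rw [← Subgroup.orderOf_coe] at this
      rwa [show ((⟨σ a', a', rfl⟩ : ↥σ.range) : Equiv.Perm (Fin 3)) = σ a' from rfl, hosa] at this
    have h3 : 3 ∣ Nat.card σ.range := by
      have := orderOf_dvd_natCard (⟨σ c', c', rfl⟩ : ↥σ.range)
      rw [← Subgroup.orderOf_coe] at this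
      rwa [show ((⟨σ c', c', rfl⟩ : ↥σ.range) : Equiv.Perm (Fin 3)) = σ c' from rfl, hosc] at this
    have h6 : 6 ∣ Nat.card σ.range := by
      have : Nat.Coprime 2 3 := by norm_num
      exact this.mul_dvd_of_dvd_of_dvd h2 h3
    have h4 : σ.range = ⊤ := by
      apply Subgroup.eq_top_of_card_eq
      apply le_antisymm
      · exact Subgroup.card_le_card_group _
      · rw [hcard6]; exact Nat.le_of_dvd Nat.card_pos h6
    exact MonoidHom.range_eq_top.mp h4
  let χ : ↥Γ →* ↥M := Subgroup.inclusion inf_le_left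
  exact involves_of_inj_surj χ (Subgroup.inclusion_injective _) σ hsurj

/-- An element of odd order commuting with its square's target. -/
theorem commute_of_sq {c v : X} (hcodd : Odd (orderOf c)) (h : c ^ 2 * v = v * c ^ 2) : c * v = v * c := by
  obtain ⟨k, hk⟩ := hcodd
  have h1 : c = (c ^ 2) ^ (k + 1) := by
    rw [← pow_mul]
    have : 2 * (k + 1) = orderOf c + 1 := by omega
    rw [this, pow_succ, pow_orderOf_eq_one, one_mul]
  have h2 : Commute (c ^ 2) v := h
  have h3 : Commute ((c ^ 2) ^ (k + 1)) v := h2.pow_left _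
  rw [← h1] at h3
  exact h3

/-- The dihedral configuration forces a section `S₃`. -/
theorem dihedral_case (M Y Z : Subgroup X) (hYEA : Cfsg.IsElementaryAbelian 2 Y) (c a : X) (hc : c ∈ M) (ha : a ∈ M)
    (hcN : c ∈ normalizer (Y : Set X)) (haN : a ∈ normalizer (Y : Set X))
    (hcodd : Odd (orderOf c)) (ha2 : a ^ 2 = 1) (hac : a * c * a⁻¹ = c⁻¹)
    (hcY : ¬ Y ≤ centralizer ({c} : Set X))
    (hZa : Z ≤ centralizer ({a} : Set X)) (hZY : Z ≤ Y) (hZi : Z.relIndex Y < 4) :
    Cfsg.Involves (Equiv.Perm (Fin 3)) ↥M := by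
  classical
  have hcomm : ∀ u ∈ Y, ∀ v ∈ Y, u * v = v * u := by
    intro u hu v hv
    have := hYEA.1.is_comm.comm ⟨u, hu⟩ ⟨v, hv⟩
    simpa using congrArg Subtype.val this
  have hsq : ∀ u ∈ Y, u * u = 1 := by
    intro u hu
    have := hYEA.2 u hu
    rwa [pow_two] at this
  have hYp : IsPGroup 2 ↥Y := Cfsg.Agent.Lib.Coprime.GenerationE.isPGroup_of_isElementaryAbelian hYEA
  have hconj : ∀ v ∈ Y, c * v * c⁻¹ ∈ Y := fun v hv => (Subgroup.mem_normalizer_iff.mp hcN v).mp hv
  have hconj' : ∀ v ∈ Y, c⁻¹ * v * c ∈ Y := fun v hv => by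
    have := (Subgroup.mem_normalizer_iff.mp (inv_mem hcN) v).mp hv
    simpa using this
  have haconj : ∀ v ∈ Y, a * v * a⁻¹ ∈ Y := fun v hv => (Subgroup.mem_normalizer_iff.mp haN v).mp hv
  have haconj' : ∀ v ∈ Y, a⁻¹ * v * a ∈ Y := fun v hv => by
    have := (Subgroup.mem_normalizer_iff.mp (inv_mem haN) v).mp hv
    simpa using this
  -- the commutator map
  let f : ↥Y →* ↥Y :=
    { toFun := fun v => ⟨v * (c * (v : X)⁻¹ * c⁻¹), Y.mul_mem v.2 (hconj _ (Y.inv_mem v.2))⟩
      map_one' := by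
        apply Subtype.ext
        simp
      map_mul' := by
        intro u v
        apply Subtype.ext
        show (u * v : X) * (c * ((u : X) * v)⁻¹ * c⁻¹) =
          ((u : X) * (c * (u : X)⁻¹ * c⁻¹)) * ((v : X) * (c * (v : X)⁻¹ * c⁻¹))
        have h1 : c * ((u : X) * v)⁻¹ * c⁻¹ = (c * (u : X)⁻¹ * c⁻¹) * (c * (v : X)⁻¹ * c⁻¹) := by
          rw [hcomm (u : X) u.2 v v.2, mul_inv_rev]
          group
        rw [h1]
        have h2 := hcomm _ v.2 (c * (u : X)⁻¹ * c⁻¹) (hconj _ (Y.inv_mem u.2))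
        calc (u * v : X) * ((c * (u : X)⁻¹ * c⁻¹) * (c * (v : X)⁻¹ * c⁻¹))
            = u * ((v : X) * (c * (u : X)⁻¹ * c⁻¹)) * (c * (v : X)⁻¹ * c⁻¹) := by group
          _ = u * ((c * (u : X)⁻¹ * c⁻¹) * (v : X)) * (c * (v : X)⁻¹ * c⁻¹) := by rw [h2]
          _ = _ := by group }
  have hf : ∀ v : ↥Y, ((f v : ↥Y) : X) = v * (c * (v : X)⁻¹ * c⁻¹) := fun _ => rfl
  let W : Subgroup X := f.range.map Y.subtype
  have hWY : W ≤ Y := by
    rintro _ ⟨w, -, rfl⟩
    exact w.2
  have hWmem : ∀ v ∈ Y, v * (c * v⁻¹ * c⁻¹) ∈ W := fun v hv => ⟨f ⟨v, hv⟩, ⟨_, rfl⟩, rfl⟩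
  have hWcases : ∀ w ∈ W, ∃ v ∈ Y, w = v * (c * v⁻¹ * c⁻¹) := by
    rintro _ ⟨_, ⟨v, rfl⟩, rfl⟩
    exact ⟨v, v.2, rfl⟩
  have hcardW : Nat.card W = f.ker.index := by
    rw [Subgroup.index_ker]
    exact Nat.card_congr (Subgroup.equivMapOfInjective _ _ Y.subtype_injective).symm.toEquiv
  -- `c` and `a` normalize `W`
  have hcW1 : ∀ w ∈ W, c * w * c⁻¹ ∈ W := by
    intro w hw
    obtain ⟨v, hv, rfl⟩ := hWcases w hw
    have := hWmem _ (hconj v hv)
    convert this using 1
    group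
  have hcW2 : ∀ w ∈ W, c⁻¹ * w * c ∈ W := by
    intro w hw
    obtain ⟨v, hv, rfl⟩ := hWcases w hw
    have := hWmem _ (hconj' v hv)
    convert this using 1
    group
  have hainv : a * c⁻¹ * a⁻¹ = c := by
    have h1 : (a * c * a⁻¹)⁻¹ = c := by rw [hac]; simp
    calc a * c⁻¹ * a⁻¹ = (a * c * a⁻¹)⁻¹ := by group
      _ = c := h1
  have haa : a⁻¹ = a := by
    have : a * a = 1 := by rwa [pow_two] at ha2
    exact inv_eq_of_mul_eq_one_left this
  have haW1 : ∀ w ∈ W, a * w * a⁻¹ ∈ W := by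
    intro w hw
    obtain ⟨v, hv, rfl⟩ := hWcases w hw
    -- `a [v,c] a⁻¹ = [a v a⁻¹, c⁻¹]`
    set v₁ := a * v * a⁻¹ with hv₁
    have hv₁Y : v₁ ∈ Y := haconj v hv
    set v₂ := c⁻¹ * v₁ * c with hv₂
    have hv₂Y : v₂ ∈ Y := hconj' _ hv₁Y
    have h1 : a * (v * (c * v⁻¹ * c⁻¹)) * a⁻¹ = v₁ * (c⁻¹ * v₁⁻¹ * c) := by
      rw [hv₁]
      calc a * (v * (c * v⁻¹ * c⁻¹)) * a⁻¹
          = (a * v * a⁻¹) * ((a * c * a⁻¹) * (a * v⁻¹ * a⁻¹) * (a * c⁻¹ * a⁻¹)) := by group
        _ = _ := by rw [hac, hainv]; group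
    have h2 : c * v₂ * c⁻¹ = v₁ := by rw [hv₂]; group
    have h3 : c⁻¹ * v₁⁻¹ * c = v₂⁻¹ := by rw [hv₂]; group
    rw [h1, h3]
    have h4 := hWmem _ (Y.inv_mem hv₂Y)
    have h5 : v₂⁻¹ * (c * v₂⁻¹⁻¹ * c⁻¹) = v₂⁻¹ * v₁ := by
      rw [inv_inv, h2]
    rw [h5] at h4
    rwa [hcomm v₁ hv₁Y _ (Y.inv_mem hv₂Y)]
  have hcNW : c ∈ normalizer (W : Set X) := by
    rw [Subgroup.mem_normalizer_iff]
    intro w
    constructor
    · exact hcW1 w
    · intro h
      have := hcW2 _ h
      convert this using 1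
      group
  have haNW : a ∈ normalizer (W : Set X) := by
    rw [Subgroup.mem_normalizer_iff]
    intro w
    constructor
    · exact haW1 w
    · intro h
      have := haW1 _ h
      have h1 : a * (a * w * a⁻¹) * a⁻¹ = w := by
        have h2 : a * a = 1 := by rwa [pow_two] at ha2
        calc a * (a * w * a⁻¹) * a⁻¹ = (a * a) * w * (a⁻¹ * a⁻¹) := by group
          _ = (a * a) * w * (a * a) := by rw [haa]
          _ = w := by rw [h2]; group
      rwa [h1] at this
  -- `c` does not centralize `W`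
  have hcWn : ¬ W ≤ centralizer ({c} : Set X) := by
    intro hle
    apply hcY
    intro v hv
    rw [Subgroup.mem_centralizer_iff]
    intro z hz
    rw [Set.mem_singleton_iff] at hz
    subst hz
    -- `c v c⁻¹ = v w`, where `w = v (c v⁻¹ c⁻¹)`
    set w := v * (z * v⁻¹ * z⁻¹) with hw
    have hwW : w ∈ W := hWmem v hv
    have hwY : w ∈ Y := hWY hwW
    have hzw : z * w = w * z := Subgroup.mem_centralizer_iff.mp (hle hwW) z rfl
    have hw2 : w * w = 1 := hsq w hwY
    have h1 : z * v * z⁻¹ = v * w := by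
      have h2 : z * v⁻¹ * z⁻¹ = (z * v * z⁻¹)⁻¹ := by group
      have h3 : z * v * z⁻¹ ∈ Y := hconj v hv
      rw [hw, h2]
      have h4 : v * (v * (z * v * z⁻¹)⁻¹) = (z * v * z⁻¹)⁻¹ := by
        rw [← mul_assoc, hsq v hv, one_mul]
      rw [h4]
      have h5 := hsq _ h3
      exact eq_inv_of_mul_eq_one_left h5
    have hpow : ∀ k : ℕ, z ^ k * v * z⁻¹ ^ k = v * w ^ k := by
      intro k
      induction k with
      | zero => simp
      | succ k ih =>
        have hzk : z ^ k * w = w * z ^ k := (Commute.pow_left hzw k)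
        calc z ^ (k + 1) * v * z⁻¹ ^ (k + 1) = z ^ k * (z * v * z⁻¹) * z⁻¹ ^ k := by
              rw [pow_succ, pow_succ']; group
          _ = z ^ k * (v * w) * z⁻¹ ^ k := by rw [h1]
          _ = (z ^ k * v * z⁻¹ ^ k) * (z ^ k * w * z⁻¹ ^ k) := by
              have : z⁻¹ ^ k * z ^ k = 1 := by simp
              calc z ^ k * (v * w) * z⁻¹ ^ k = z ^ k * v * 1 * w * z⁻¹ ^ k := by group
                _ = z ^ k * v * (z⁻¹ ^ k * z ^ k) * w * z⁻¹ ^ k := by rw [this]
                _ = _ := by group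
          _ = (v * w ^ k) * w := by
              rw [ih, hzk]
              simp
          _ = v * w ^ (k + 1) := by rw [pow_succ]; group
    have h2 := hpow (orderOf z)
    rw [pow_orderOf_eq_one, inv_pow, pow_orderOf_eq_one] at h2
    obtain ⟨k, hk⟩ := hcodd
    have h3 : w ^ orderOf z = w := by
      rw [hk, pow_succ, pow_mul, pow_two, hw2, one_pow, one_mul]
    rw [h3] at h2
    have h4 : w = 1 := by
      have h5 : v = v * w := by simpa using h2
      exact mul_eq_left.mp h5.symm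
    rw [h4, mul_one] at h1
    exact mul_inv_eq_iff_eq_mul.mp h1
  -- `a` does not centralize `W`
  have haWn : ¬ W ≤ centralizer ({a} : Set X) := by
    intro hle
    apply hcWn
    intro w hw
    rw [Subgroup.mem_centralizer_iff]
    intro z hz
    rw [Set.mem_singleton_iff] at hz
    subst hz
    have h1 : z * w * z⁻¹ ∈ W := hcW1 w hw
    have h2 : a * (z * w * z⁻¹) = (z * w * z⁻¹) * a := Subgroup.mem_centralizer_iff.mp (hle h1) a rfl
    have h3 : a * w = w * a := Subgroup.mem_centralizer_iff.mp (hle hw) a rfl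
    have h4 : a * (z * w * z⁻¹) * a⁻¹ = z⁻¹ * w * z := by
      calc a * (z * w * z⁻¹) * a⁻¹ = (a * z * a⁻¹) * (a * w * a⁻¹) * (a * z⁻¹ * a⁻¹) := by group
        _ = z⁻¹ * w * z := by
          rw [hac, hainv, h3]
          group
    have h5 : a * (z * w * z⁻¹) * a⁻¹ = z * w * z⁻¹ := by
      rw [h2]; group
    rw [h5] at h4
    have h6 : z ^ 2 * w = w * z ^ 2 := by
      have h7 : z * (z * w * z⁻¹) * z = z * (z⁻¹ * w * z) * z := by rw [h4]
      calc z ^ 2 * w = z * (z * w * z⁻¹) * z := by rw [pow_two]; group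
        _ = z * (z⁻¹ * w * z) * z := h7
        _ = w * z ^ 2 := by rw [pow_two]; group
    exact commute_of_sq hcodd h6
  -- the order of `W`
  have hker : f.ker.index ≤ 4 := by
    let τ : X →* X := (MulAut.conj c⁻¹).toMonoidHom
    have hτY : Y.map τ = Y := by
      ext v
      constructor
      · rintro ⟨u, hu, rfl⟩
        have := hconj' u hu
        simpa [τ] using this
      · intro hv
        refine ⟨c * v * c⁻¹, hconj v hv, ?_⟩
        simp [τ]
        group
    let Z₂ : Subgroup X := Z.comap τ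
    have hZ₂ : Z₂.relIndex Y = Z.relIndex Y := by
      have := Subgroup.relIndex_comap (H := Z) τ Y
      rw [hτY] at this
      exact this
    have hr : Z.relIndex Y ≤ 2 := by
      -- a power of two below four
      have hd : Z.relIndex Y ∣ Nat.card Y := Subgroup.relIndex_dvd_card _ _
      obtain ⟨n, hn⟩ := (IsPGroup.iff_card).mp hYp
      rw [hn] at hd
      obtain ⟨k, -, hk⟩ := (Nat.dvd_prime_pow Nat.prime_two).mp hd
      rcases k with _ | _ | k
      · simp [hk]
      · simp [hk]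
      · exfalso
        rw [hk, pow_succ, pow_succ] at hZi
        have : 1 ≤ 2 ^ k := Nat.one_le_two_pow
        omega
    have hX : (Z ⊓ Z₂).relIndex Y ≤ 4 := by
      refine Subgroup.relIndex_inf_le.trans ?_
      rw [hZ₂]
      nlinarith
    have hX0 : (Z ⊓ Z₂).relIndex Y ≠ 0 := Subgroup.index_ne_zero_of_finite
    -- `Z ⊓ Z₂` lies in the kernel
    have hle : (Z ⊓ Z₂).subgroupOf Y ≤ f.ker := by
      rintro ⟨v, hvY⟩ hv
      obtain ⟨hvZ, hvZ₂⟩ := Subgroup.mem_inf.mp (Subgroup.mem_subgroupOf.mp hv)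
      have hvZ₃ : c⁻¹ * v * c ∈ Z := by
        have : τ v ∈ Z := hvZ₂
        simpa [τ] using this
      have h1 : a * v = v * a := Subgroup.mem_centralizer_iff.mp (hZa hvZ) a rfl
      have h2 : a * (c⁻¹ * v * c) = (c⁻¹ * v * c) * a := Subgroup.mem_centralizer_iff.mp (hZa hvZ₃) a rfl
      have h3 : a * (c⁻¹ * v * c) * a⁻¹ = c * v * c⁻¹ := by
        calc a * (c⁻¹ * v * c) * a⁻¹ = (a * c⁻¹ * a⁻¹) * (a * v * a⁻¹) * (a * c * a⁻¹) := by group
          _ = _ := by rw [hac, hainv, h1]; group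
      have h4 : a * (c⁻¹ * v * c) * a⁻¹ = c⁻¹ * v * c := by
        rw [h2]; group
      rw [h4] at h3
      have h6 : c ^ 2 * v = v * c ^ 2 := by
        calc c ^ 2 * v = c * (c * v * c⁻¹) * c := by rw [pow_two]; group
          _ = c * (c⁻¹ * v * c) * c := by rw [h3]
          _ = v * c ^ 2 := by rw [pow_two]; group
      have h7 : c * v = v * c := commute_of_sq hcodd h6
      rw [MonoidHom.mem_ker]
      apply Subtype.ext
      show v * (c * v⁻¹ * c⁻¹) = 1
      have h8 : c * v⁻¹ = v⁻¹ * c := by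
        rw [eq_inv_mul_iff_mul_eq, ← mul_assoc, ← h7, mul_assoc, mul_inv_cancel, mul_one]
      rw [h8]
      group
    have h5 : f.ker.index ∣ ((Z ⊓ Z₂).subgroupOf Y).index := Subgroup.index_dvd_of_le hle
    have h6 : ((Z ⊓ Z₂).subgroupOf Y).index = (Z ⊓ Z₂).relIndex Y := rfl
    rw [h6] at h5
    exact (Nat.le_of_dvd (Nat.pos_of_ne_zero hX0) h5).trans hX
  have hWp : IsPGroup 2 ↥W := hYp.to_le hWY
  have hW4 : Nat.card W = 4 := by
    obtain ⟨k, hk⟩ := (IsPGroup.iff_card).mp hWp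
    have hle4 : Nat.card W ≤ 4 := by rw [hcardW]; exact hker
    rcases k with _ | _ | _ | k
    · exfalso
      apply hcWn
      have hbot : W = ⊥ := Subgroup.eq_bot_of_card_eq _ (by simpa using hk)
      rw [hbot]
      exact bot_le
    · exfalso
      apply hcWn
      intro w hw
      rw [Subgroup.mem_centralizer_iff]
      intro z hz
      rw [Set.mem_singleton_iff] at hz
      subst hz
      by_cases hw1 : w = 1
      · subst hw1; simp
      · have h2 : Nat.card W = 2 := by simpa using hk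
        obtain ⟨y, hy1, hy2⟩ := (Nat.card_eq_two_iff' (1 : ↥W)).mp h2
        have hw2 : (⟨w, hw⟩ : ↥W) = y := hy2 _ (fun h => hw1 (congrArg Subtype.val h))
        have hw3 : (⟨z * w * z⁻¹, hcW1 w hw⟩ : ↥W) = y := by
          apply hy2
          intro h
          have h3 : z * w * z⁻¹ = 1 := congrArg Subtype.val h
          apply hw1
          have h4 : z * w = z := mul_inv_eq_one.mp h3
          exact mul_eq_left.mp h4
        have h5 := congrArg Subtype.val (hw3.trans hw2.symm)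
        exact mul_inv_eq_iff_eq_mul.mp h5
    · simpa using hk
    · exfalso
      rw [hk, pow_succ, pow_succ, pow_succ] at hle4
      have : 1 ≤ 2 ^ k := Nat.one_le_two_pow
      omega
  exact involves_S3 M W hW4 c a hc ha hcNW haNW hcodd ha2 hcWn haWn

/-- One step: a hyperplane with large index in the fixed points. -/
theorem step {M V A : Subgroup X} (S : Setup 2 V M) (hAM : A ≤ M) (hEA : Cfsg.IsElementaryAbelian 2 A)
    (hne : A ≠ ⊥) (hS3 : ¬ Cfsg.Involves (Equiv.Perm (Fin 3)) ↥M) :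
    ∃ L : Subgroup X, L ≤ A ∧ L.relIndex A ≤ 2 ∧ L ≠ A ∧
      4 ≤ (V ⊓ centralizer (A : Set X)).relIndex (V ⊓ centralizer (L : Set X)) := by
  classical
  haveI hp2 : Fact (Nat.Prime 2) := ⟨Nat.prime_two⟩
  have hgen := Cfsg.Agent.Lib.Coprime.GenerationE.le_iSup_relIndex_le A (core 2 M) hEA (core_not_dvd M)
    (hAM.trans (le_normalizer_core M))
  obtain ⟨L, hLA, hLi, hg⟩ : ∃ L : Subgroup X, L ≤ A ∧ L.relIndex A ≤ 2 ∧
      ¬ (core 2 M ⊓ centralizer (L : Set X) ≤ centralizer (A : Set X)) := by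
    by_contra hno
    push Not at hno
    have h1 : core 2 M ≤ centralizer (A : Set X) := by
      refine hgen.trans (iSup_le ?_)
      rintro ⟨B, hB1, hB2⟩
      exact hno B hB1 hB2
    exact hne (eq_bot_of_le_centralizer_core S hAM (isPGroup_of_isEA hEA) (Subgroup.le_centralizer_iff.mp h1))
  have hab : ∀ u ∈ A, ∀ v ∈ A, u * v = v * u := by
    intro u hu v hv
    have := hEA.1.is_comm.comm ⟨u, hu⟩ ⟨v, hv⟩
    simpa using congrArg Subtype.val this
  obtain ⟨y, ⟨hyR, hyL⟩, a, ha, hay⟩ : ∃ y ∈ core 2 M ⊓ centralizer (L : Set X), ∃ a ∈ A, a * y ≠ y * a := by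
    by_contra hno
    push Not at hno
    apply hg
    intro y hy
    rw [Subgroup.mem_centralizer_iff]
    intro a ha
    exact hno y hy a ha
  have hXN := le_normalizer_core (p := 2) M
  have haM := hAM ha
  have hyM : y ∈ M := core_le M hyR
  have ha2 : a ^ 2 = 1 := hEA.2 a ha
  have haa : a⁻¹ = a := by
    have : a * a = 1 := by rwa [pow_two] at ha2
    exact inv_eq_of_mul_eq_one_left this
  set c : X := y * (a * y⁻¹ * a⁻¹) with hc
  have hcR : c ∈ core 2 M := by
    refine (core 2 M).mul_mem hyR ?_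
    exact (Subgroup.mem_normalizer_iff.mp (hXN haM) y⁻¹).mp ((core 2 M).inv_mem hyR)
  have hcM : c ∈ M := core_le M hcR
  have hcL : c ∈ centralizer (L : Set X) := by
    rw [Subgroup.mem_centralizer_iff]
    intro b hb
    have hby : b * y = y * b := Subgroup.mem_centralizer_iff.mp hyL b hb
    have hba : b * a = a * b := hab b (hLA hb) a ha
    have hby' : b * y⁻¹ = y⁻¹ * b := by
      rw [eq_inv_mul_iff_mul_eq, ← mul_assoc, ← hby, mul_assoc, mul_inv_cancel, mul_one]
    have hba' : b * a⁻¹ = a⁻¹ * b := by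
      rw [eq_inv_mul_iff_mul_eq, ← mul_assoc, ← hba, mul_assoc, mul_inv_cancel, mul_one]
    rw [hc]
    calc b * (y * (a * y⁻¹ * a⁻¹)) = (b * y) * a * y⁻¹ * a⁻¹ := by group
      _ = y * (b * a) * y⁻¹ * a⁻¹ := by rw [hby]; group
      _ = y * a * (b * y⁻¹) * a⁻¹ := by rw [hba]; group
      _ = y * a * y⁻¹ * (b * a⁻¹) := by rw [hby']; group
      _ = y * a * y⁻¹ * a⁻¹ * b := by rw [hba']; group
      _ = _ := by group
  have hc1 : c ≠ 1 := by
    intro h1
    apply hay
    rw [hc] at h1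
    have h2 : y * a * y⁻¹ * a⁻¹ = 1 := by rw [← h1]; group
    have h3 : y * a = a * y := by
      calc y * a = (y * a * y⁻¹ * a⁻¹) * (a * y) := by group
        _ = a * y := by rw [h2, one_mul]
    exact h3.symm
  have hac : a * c * a⁻¹ = c⁻¹ := by
    rw [hc]
    have h2 : a * a = 1 := by rwa [pow_two] at ha2
    calc a * (y * (a * y⁻¹ * a⁻¹)) * a⁻¹ = a * y * a * y⁻¹ * (a⁻¹ * a⁻¹) := by group
      _ = a * y * a⁻¹ * y⁻¹ := by
        rw [haa, h2, mul_one]
      _ = _ := by group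
  have hcodd : Odd (orderOf c) := by
    have h1 : orderOf c ∣ Nat.card (core 2 M) := by
      have := orderOf_dvd_natCard (⟨c, hcR⟩ : ↥(core 2 M))
      rwa [Subgroup.orderOf_mk] at this
    have h2 : ¬ 2 ∣ orderOf c := fun h => core_not_dvd (p := 2) M (h.trans h1)
    exact Nat.not_even_iff_odd.mp (fun h => h2 h.two_dvd)
  refine ⟨L, hLA, hLi, ?_, ?_⟩
  · rintro rfl
    exact hg inf_le_right
  by_contra hlt
  push Not at hlt
  set Y : Subgroup X := V ⊓ centralizer (L : Set X) with hY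
  have hYV : Y ≤ V := inf_le_left
  have hYEA : Cfsg.IsElementaryAbelian 2 Y := by
    refine ⟨⟨⟨?_⟩⟩, fun u hu => S.hV.2 u hu.1⟩
    rintro ⟨u, hu⟩ ⟨v, hv⟩
    apply Subtype.ext
    have := S.hV.1.is_comm.comm ⟨u, hu.1⟩ ⟨v, hv.1⟩
    simpa using congrArg Subtype.val this
  have hnorm : ∀ g ∈ M, g ∈ centralizer (L : Set X) → g ∈ normalizer (Y : Set X) := by
    intro g hgM hgL
    have key : ∀ g ∈ M, g ∈ centralizer (L : Set X) → ∀ v ∈ Y, g * v * g⁻¹ ∈ Y := by
      intro g hgM hgL v hv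
      refine ⟨(Subgroup.mem_normalizer_iff.mp (S.hHV hgM) v).mp hv.1, ?_⟩
      exact Subgroup.mul_mem _ (Subgroup.mul_mem _ hgL hv.2) (Subgroup.inv_mem _ hgL)
    rw [Subgroup.mem_normalizer_iff]
    intro v
    refine ⟨key g hgM hgL v, fun h => ?_⟩
    have := key g⁻¹ (M.inv_mem hgM) (Subgroup.inv_mem _ hgL) _ h
    simpa [mul_assoc] using this
  have haL : a ∈ centralizer (L : Set X) := by
    rw [Subgroup.mem_centralizer_iff]
    intro b hb
    exact hab b (hLA hb) a ha
  have hcY : ¬ Y ≤ centralizer ({c} : Set X) := by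
    intro hle
    have hQ : Subgroup.zpowers c ≤ core 2 M := by
      rw [Subgroup.zpowers_le]; exact hcR
    have hQcop : (Nat.card (Subgroup.zpowers c)).Coprime 2 :=
      Nat.Coprime.coprime_dvd_left (Subgroup.card_dvd_of_le hQ) (core_coprime M)
    have hVp : IsPGroup 2 V := isPGroup_of_isEA S.hV
    have hBp : IsPGroup 2 L := (isPGroup_of_isEA hEA).to_le hLA
    have hfin := Cfsg.Agent.S0028.result 2 L (Subgroup.zpowers c) V hBp hQcop hVp
      (by
        intro b hb
        rw [Subgroup.mem_centralizer_iff]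
        rintro q ⟨k, rfl⟩
        have h1 : c * b = b * c := (Subgroup.mem_centralizer_iff.mp hcL b hb).symm
        exact (Commute.zpow_left h1 k))
      ((hLA.trans hAM).trans S.hHV)
      ((hQ.trans (core_le M)).trans S.hHV)
      (by
        rintro v hv
        rw [Subgroup.mem_centralizer_iff]
        rintro q ⟨k, rfl⟩
        have h1 : c * v = v * c := Subgroup.mem_centralizer_iff.mp (hle hv) c rfl
        exact (Commute.zpow_left h1 k))
    have h1 : c ∈ M ⊓ Subgroup.centralizer (V : Set X) := ⟨hcM, hfin (Subgroup.mem_zpowers c)⟩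
    rw [S.hf] at h1
    exact hc1 h1
  have hZa : V ⊓ centralizer (A : Set X) ≤ centralizer ({a} : Set X) := by
    intro v hv
    rw [Subgroup.mem_centralizer_iff]
    intro z hz
    rw [Set.mem_singleton_iff] at hz
    subst hz
    exact Subgroup.mem_centralizer_iff.mp hv.2 _ ha
  have hZY : V ⊓ centralizer (A : Set X) ≤ Y := inf_le_inf_left _ (Subgroup.centralizer_le hLA)
  exact hS3 (dihedral_case M Y _ hYEA c a hcM haM (hnorm c hcM hcL) (hnorm a haM haL) hcodd ha2 hac hcY hZa hZY hlt)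

/-- The bound `|A|² ≤ |V : C_V(A)|`. -/
theorem bound {M V : Subgroup X} (S : Setup 2 V M) (hS3 : ¬ Cfsg.Involves (Equiv.Perm (Fin 3)) ↥M) :
    ∀ (n : ℕ) (A : Subgroup X), Nat.card A = n → A ≤ M → Cfsg.IsElementaryAbelian 2 A →
      Nat.card A ^ 2 ≤ (V ⊓ centralizer (A : Set X)).relIndex V := by
  intro n
  induction n using Nat.strong_induction_on with
  | _ n ih =>
    intro A hn hAM hEA
    by_cases hne : A = ⊥
    · subst hne
      rw [Subgroup.card_bot]
      have : (V ⊓ centralizer (((⊥ : Subgroup X)) : Set X)).relIndex V ≠ 0 := Subgroup.index_ne_zero_of_finite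
      simp only [one_pow]
      omega
    · obtain ⟨L, hLA, hLi, hLne, h4⟩ := step S hAM hEA hne hS3
      have hrel : L.relIndex A = 2 := by
        have h0 : L.relIndex A ≠ 0 := Subgroup.index_ne_zero_of_finite
        have h1 : L.relIndex A ≠ 1 := by
          intro h
          exact hLne (le_antisymm hLA (Subgroup.relIndex_eq_one.mp h))
        omega
      have hcard : Nat.card L * 2 = Nat.card A := by
        rw [← hrel]
        exact Cfsg.Agent.Lib.PGroup.Timmesfeld.card_mul_relIndex' hLA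
      have hLpos : 0 < Nat.card L := Nat.card_pos
      have hlt : Nat.card L < n := by omega
      have hLEA : Cfsg.IsElementaryAbelian 2 L := by
        refine ⟨⟨⟨?_⟩⟩, fun u hu => hEA.2 u (hLA hu)⟩
        rintro ⟨u, hu⟩ ⟨v, hv⟩
        apply Subtype.ext
        have := hEA.1.is_comm.comm ⟨u, hLA hu⟩ ⟨v, hLA hv⟩
        simpa using congrArg Subtype.val this
      have h5 := ih _ hlt L rfl (hLA.trans hAM) hLEA
      have h6 : (V ⊓ centralizer (A : Set X)).relIndex (V ⊓ centralizer (L : Set X)) *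
          (V ⊓ centralizer (L : Set X)).relIndex V = (V ⊓ centralizer (A : Set X)).relIndex V :=
        Subgroup.relIndex_mul_relIndex _ _ _ (inf_le_inf_left _ (Subgroup.centralizer_le hLA)) inf_le_left
      rw [← h6, ← hcard]
      nlinarith


/-- Let M and V be subgroups of a finite group with V an elementary abelian 2-group, M normalizing V and acting faithfully on it (M ∩ C(V) = 1), and C_M(O_{2'}(M)) ≤ O_{2'}(M). If some elementary abelian 2-subgroup A of M satisfies |V : C_V(A)| < |A|², then M has a section isomorphic to the symmetric group of degree 3. -/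
theorem result {X : Type*} [Group X] [Finite X] (M V : Subgroup X) (hV : Cfsg.IsElementaryAbelian 2 V) (hMV : M ≤ Subgroup.normalizer (V : Set X)) (hfaith : M ⊓ Subgroup.centralizer (V : Set X) = ⊥) (hcon : Subgroup.centralizer (Cfsg.pPrimeCore 2 ↥M : Set ↥M) ≤ Cfsg.pPrimeCore 2 ↥M) (A : Subgroup X) (hAM : A ≤ M) (hA : Cfsg.IsElementaryAbelian 2 A) (hsmall : (V ⊓ Subgroup.centralizer (A : Set X)).relIndex V < Nat.card A ^ 2) : Cfsg.Involves (Equiv.Perm (Fin 3)) ↥M := by
  by_contra hS3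
  have S : Setup 2 V M := ⟨hV, hMV, hfaith, hcon⟩
  have := bound S hS3 _ A rfl hAM hA
  omega

end Cfsg.Agent.S3755
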