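import Cfsg.Statements.S3760
import Mathlib
-- import your own Cfsg.Agent.* helpers here

set_option autoImplicit false
open Cfsg

namespace Cfsg.Agent.S3760

/-- Let the group G act transitively on a set X, let x ∈ X with stabilizer H = G_x, and let K ≤ H. Then N_G(K) acts transitively on the set of fixed points of K if and only if every G-conjugate of K contained in H is already an H-conjugate of K. -/
theorem result {G : Type*} [Group G] {X : Type*} [MulAction G X] (htrans : ∀ a b : X, ∃ g : G, g • a = b) (x : X) (K : Subgroup G) (hK : K ≤ MulAction.stabilizer G x) : (∀ a b : X, (∀ k ∈ K, k • a = a) → (∀ k ∈ K, k • b = b) → ∃ g ∈ Subgroup.normalizer (K : Set G), g • a = b) ↔ ∀ g : G, K.map (MulAut.conj g).toMonoidHom ≤ MulAction.stabilizer G x → ∃ h ∈ MulAction.stabilizer G x, K.map (MulAut.conj g).toMonoidHom = K.map (MulAut.conj h).toMonoidHom := by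
  have hconj : ∀ (g : G) (y : G), y ∈ K.map (MulAut.conj g).toMonoidHom ↔ g⁻¹ * y * g ∈ K := by
    intro g y
    constructor
    · rintro ⟨k, hk, rfl⟩
      simpa [mul_assoc] using hk
    · intro h
      exact ⟨_, h, by simp [mul_assoc]⟩
  constructor
  · intro h g hg
    -- K fixes g⁻¹ • x
    have hfx : ∀ k ∈ K, k • x = x := fun k hk => hK hk
    have hfgx : ∀ k ∈ K, k • (g⁻¹ • x) = g⁻¹ • x := by
      intro k hk
      have hk' : g * k * g⁻¹ ∈ MulAction.stabilizer G x :=
        hg ((hconj g _).mpr (by simpa [mul_assoc] using hk))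
      have h3 : (g * k * g⁻¹) • x = x := hk'
      calc k • (g⁻¹ • x) = g⁻¹ • ((g * k * g⁻¹) • x) := by
            simp [mul_smul]
        _ = g⁻¹ • x := by rw [h3]
    obtain ⟨n, hn, hnx⟩ := h x (g⁻¹ • x) hfx hfgx
    refine ⟨g * n, ?_, ?_⟩
    · show (g * n) • x = x
      rw [mul_smul, hnx, smul_inv_smul]
    · ext y
      rw [hconj, hconj]
      have hn' : n⁻¹ ∈ Subgroup.normalizer (K : Set G) := (Subgroup.inv_mem_iff _).mpr hn
      have h2 := Subgroup.mem_normalizer_iff.mp hn' (g⁻¹ * y * g)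
      rw [h2, inv_inv]
      have : (g * n)⁻¹ * y * (g * n) = n⁻¹ * (g⁻¹ * y * g) * n := by group
      rw [this]
  · intro h a b ha hb
    have key : ∀ a : X, (∀ k ∈ K, k • a = a) →
        ∃ n ∈ Subgroup.normalizer (K : Set G), n • x = a := by
      intro a ha
      obtain ⟨g, hg⟩ := htrans x a
      have hle : K.map (MulAut.conj g⁻¹).toMonoidHom ≤ MulAction.stabilizer G x := by
        rintro _ ⟨k, hk, rfl⟩
        show (MulAut.conj g⁻¹ k) • x = x
        have : (MulAut.conj g⁻¹ k) • x = g⁻¹ • (k • (g • x)) := by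
          simp [mul_smul]
        rw [this, hg, ha k hk, ← hg, inv_smul_smul]
      obtain ⟨h1, hh1, heq⟩ := h g⁻¹ hle
      refine ⟨g * h1, ?_, ?_⟩
      · rw [Subgroup.mem_normalizer_iff]
        intro y
        have hy := SetLike.ext_iff.mp heq (g⁻¹ * (g * h1 * y * (g * h1)⁻¹) * g)
        rw [hconj, hconj] at hy
        have e1 : g⁻¹⁻¹ * (g⁻¹ * (g * h1 * y * (g * h1)⁻¹) * g) * g⁻¹ = g * h1 * y * (g * h1)⁻¹ := by group
        have e2 : h1⁻¹ * (g⁻¹ * (g * h1 * y * (g * h1)⁻¹) * g) * h1 = y := by group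
        rw [e1, e2] at hy
        exact hy.symm
      · rw [mul_smul]
        have : h1 • x = x := hh1
        rw [this, hg]
    obtain ⟨n1, hn1, rfl⟩ := key a ha
    obtain ⟨n2, hn2, rfl⟩ := key b hb
    refine ⟨n2 * n1⁻¹, Subgroup.mul_mem _ hn2 ((Subgroup.inv_mem_iff _).mpr hn1), ?_⟩
    simp [mul_smul]

end Cfsg.Agent.S3760
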