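import Cfsg.Statements.S3763
import Mathlib
import Cfsg.Agent.Lib.PGroup.ExtraRank
-- import your own Cfsg.Agent.* helpers here

set_option autoImplicit false
open Cfsg

namespace Cfsg.Agent.S3763

open Cfsg.Agent.Lib.PGroup.ExtraQuad Cfsg.Agent.Lib.PGroup.ExtraClass Cfsg.Agent.Lib.PGroup.ExtraRank

/-- Let E be an extraspecial 2-group of order 2^(2n+1). Then the largest elementary abelian subgroups of E have order 2^n or 2^(n+1); and two extraspecial 2-groups of the same order whose largest elementary abelian subgroups have the same order are isomorphic. -/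
theorem result {E : Type*} [Group E] [Finite E] (hE : Cfsg.IsExtraspecial 2 E) (n : ℕ) (hn : Nat.card E = 2 ^ (2 * n + 1)) : ((Cfsg.PRankLE 2 n E ∧ ¬ Cfsg.PRankLE 2 (n - 1) E) ∨ (Cfsg.PRankLE 2 (n + 1) E ∧ ¬ Cfsg.PRankLE 2 n E)) ∧ ∀ (E' : Type*) [Group E'] [Finite E'], Cfsg.IsExtraspecial 2 E' → Nat.card E' = Nat.card E → (∀ k : ℕ, Cfsg.PRankLE 2 k E ↔ Cfsg.PRankLE 2 k E') → Nonempty (E ≃* E') := by
  have h := quadPair_of_extraspecial hE
  obtain ⟨m, hm1, hcard, -⟩ := extraspecial_card hE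
  have hmn : m = n := by
    rw [hn] at hcard
    have := Nat.pow_right_injective (le_refl 2) hcard
    omega
  subst hmn
  refine ⟨?_, ?_⟩
  · obtain ⟨A, hA, hmax⟩ := exists_max_elementary E
    have hle : ∀ k, Nat.card A ≤ 2 ^ k → Cfsg.PRankLE 2 k E := by
      intro k hk B hB hB2
      exact (hmax B ⟨hB, hB2⟩).trans hk
    have hge : ∀ k, Cfsg.PRankLE 2 k E → Nat.card A ≤ 2 ^ k := fun k hr => hr A hA.1 hA.2
    rcases rank_analysis h hn hA hmax with ⟨h1, -⟩ | ⟨h1, -⟩
    · right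
      refine ⟨hle _ h1.le, fun hr => ?_⟩
      have h2 := hge _ hr
      rw [h1] at h2
      have h3 : (2:ℕ) ^ m < 2 ^ (m + 1) := Nat.pow_lt_pow_right (by norm_num) (by omega)
      omega
    · left
      refine ⟨hle _ h1.le, fun hr => ?_⟩
      have h2 := hge _ hr
      rw [h1] at h2
      have h3 : (2:ℕ) ^ (m - 1) < 2 ^ m := Nat.pow_lt_pow_right (by norm_num) (by omega)
      omega
  · intro E' _ _ hE' hc hk
    have h' := quadPair_of_extraspecial hE'
    have hn' : Nat.card E' = 2 ^ (2 * m + 1) := hc.trans hn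
    refine iso_of_same_gauss h h' m hn hn' ?_
    rw [gauss_pos_iff_not_pRankLE h hn, gauss_pos_iff_not_pRankLE h' hn', hk]

end Cfsg.Agent.S3763
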