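import Cfsg.Statements.S3764
import Mathlib
import Cfsg.Agent.Lib.OddOrder.HHExtra
import Cfsg.Agent.Lib.OddOrder.HHFitting
-- import your own Cfsg.Agent.* helpers here

set_option autoImplicit false
open Cfsg

namespace Cfsg.Agent.S3764

open scoped commutatorElement

/-- Let p, q, r be distinct primes and let X, Q, V be subgroups of a finite group with X of order r, Q an extraspecial q-group normalized by X with C_Q(X) = Z(Q), and V an elementary abelian p-group normalized by X and Q on which XQ acts faithfully ((X ⊔ Q) ∩ C(V) = 1). If C_V(X) = 1, then q = 2, r = 2^n + 1 for some n, and Q has order 2^(2n+1). -/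
theorem result {G : Type*} [Group G] [Finite G] {p q r : ℕ} (hp : p.Prime) (hq : q.Prime) (hr : r.Prime) (hpq : p ≠ q) (hpr : p ≠ r) (hqr : q ≠ r) (X Q V : Subgroup G) (hX : Nat.card X = r) (hQ : Cfsg.IsExtraspecial q ↥Q) (hXQ : X ≤ Subgroup.normalizer (Q : Set G)) (hCQ : Q ⊓ Subgroup.centralizer (X : Set G) = (Subgroup.center ↥Q).map Q.subtype) (hV : Cfsg.IsElementaryAbelian p V) (hXV : X ≤ Subgroup.normalizer (V : Set G)) (hQV : Q ≤ Subgroup.normalizer (V : Set G)) (hfaith : (X ⊔ Q) ⊓ Subgroup.centralizer (V : Set G) = ⊥) (hCV : V ⊓ Subgroup.centralizer (X : Set G) = ⊥) : q = 2 ∧ ∃ n : ℕ, r = 2 ^ n + 1 ∧ Nat.card Q = 2 ^ (2 * n + 1) := by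
  classical
  haveI : Fact p.Prime := ⟨hp⟩
  haveI : Fact q.Prime := ⟨hq⟩
  haveI : Fact r.Prime := ⟨hr⟩
  haveI : Fact (Nat.card X).Prime := ⟨by rw [hX]; exact hr⟩
  -- a generator of `X`
  haveI : IsCyclic X := isCyclic_of_prime_card (p := Nat.card X) rfl
  obtain ⟨g, hg⟩ := IsCyclic.exists_generator (α := X)
  set x : G := (g : G) with hxdef
  have hxX : x ∈ X := g.2
  have hXz : X ≤ Subgroup.zpowers x := by
    intro a ha
    obtain ⟨k, hk⟩ := Subgroup.mem_zpowers_iff.mp (hg ⟨a, ha⟩)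
    refine ⟨k, ?_⟩
    have := congrArg Subtype.val hk
    simpa using this
  have hx : x ^ r = 1 := by
    have h1 : g ^ Nat.card X = 1 := pow_card_eq_one'
    rw [hX] at h1
    simpa using congrArg Subtype.val h1
  have hcentX : ∀ a : G, x * a * x⁻¹ = a → a ∈ Subgroup.centralizer (X : Set G) := by
    intro a ha
    rw [Subgroup.mem_centralizer_iff]
    intro h hh
    have h1 : Subgroup.zpowers x ≤ Subgroup.centralizer ({a} : Set G) := by
      rw [Subgroup.zpowers_le, Subgroup.mem_centralizer_singleton_iff]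
      calc x * a = (x * a * x⁻¹) * x := by group
        _ = a * x := by rw [ha]
    have h2 := h1 (hXz hh)
    rw [Subgroup.mem_centralizer_singleton_iff] at h2
    exact h2
  -- the centre of `Q`
  set Z₀ : Subgroup G := (Subgroup.center Q).map Q.subtype with hZ₀def
  have hZ₀Q : Z₀ ≤ Q := by
    rintro _ ⟨a, -, rfl⟩
    exact a.2
  have hZ₀c : ∀ z ∈ Z₀, ∀ h ∈ Q, z * h = h * z := by
    rintro _ ⟨a, ha, rfl⟩ h hh
    have := (Subgroup.mem_center_iff.mp ha) ⟨h, hh⟩
    exact (congrArg Subtype.val this).symm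
  have hZ₀mem : ∀ z ∈ Q, (∀ h ∈ Q, z * h = h * z) → z ∈ Z₀ := by
    intro z hz hc
    refine ⟨⟨z, hz⟩, ?_, rfl⟩
    show (⟨z, hz⟩ : Q) ∈ Subgroup.center Q
    rw [Subgroup.mem_center_iff]
    intro h
    apply Subtype.ext
    exact (hc h h.2).symm
  have hZ₀x : ∀ z ∈ Z₀, x * z * x⁻¹ = z := by
    intro z hz
    rw [← hCQ] at hz
    have h1 := Subgroup.mem_centralizer_iff.mp (Subgroup.mem_inf.mp hz).2 x hxX
    rw [h1]
    group
  have hfixZ : ∀ z ∈ Q, x * z * x⁻¹ = z → z ∈ Z₀ := by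
    intro z hz hf
    rw [← hCQ]
    exact Subgroup.mem_inf.mpr ⟨hz, hcentX z hf⟩
  have hQp : IsPGroup q Q := hQ.1.1
  have hZcomm : ∀ u ∈ Q, ∀ v ∈ Q, u * v * u⁻¹ * v⁻¹ ∈ Z₀ := by
    intro u hu v hv
    have h1 : ⁅(⟨u, hu⟩ : Q), (⟨v, hv⟩ : Q)⁆ ∈ Subgroup.center Q := by
      rw [← hQ.1.2.2]
      exact Subgroup.commutator_mem_commutator (Subgroup.mem_top _) (Subgroup.mem_top _)
    exact ⟨_, h1, rfl⟩
  have hZcard : Nat.card (Subgroup.center Q) = q := hQ.2
  -- the group of operators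
  set N : Subgroup G := Subgroup.normalizer (V : Set G) with hNdef
  let x' : N := ⟨x, hXV hxX⟩
  let β : N →* MulAut V := V.normalizerMonoidHom
  have hβ : ∀ (g : N) (v : V), ((β g v : V) : G) = g * v * (g : G)⁻¹ := fun _ _ => rfl
  have hA : ∀ a b : V, a * b = b * a := by
    haveI := hV.1
    exact fun a b => IsMulCommutative.is_comm.comm a b
  have hpA : ∀ a : V, a ^ p = 1 := by
    intro a
    apply Subtype.ext
    simpa using hV.2 a a.2
  have hfix : ∀ a, β x' a = a → a = 1 := by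
    intro a ha
    have h1 : x * (a : G) * x⁻¹ = a := congrArg Subtype.val ha
    have h2 : (a : G) ∈ V ⊓ Subgroup.centralizer (X : Set G) :=
      Subgroup.mem_inf.mpr ⟨a.2, hcentX _ h1⟩
    rw [hCV] at h2
    exact Subtype.ext h2
  have hxr : x' ^ r = 1 := by
    apply Subtype.ext
    simpa using hx
  let Y : Subgroup N := Q.subgroupOf N
  have hYQ : ∀ y : Y, ((y : N) : G) ∈ Q := fun y => y.2
  have hxQ : x ∈ Subgroup.normalizer (Q : Set G) := hXQ hxX
  have hxY : ∀ y ∈ Y, x' * y * x'⁻¹ ∈ Y := by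
    intro y hy
    exact (Subgroup.mem_normalizer_iff.mp hxQ _).mp hy
  let C : Subgroup Y := Z₀.comap (N.subtype.comp Y.subtype)
  have hCmem : ∀ y : Y, y ∈ C ↔ ((y : N) : G) ∈ Z₀ := fun _ => Iff.rfl
  have hmk : ∀ (a : G) (ha : a ∈ Q), ∃ y : Y, ((y : N) : G) = a := by
    intro a ha
    exact ⟨⟨⟨a, hQV ha⟩, ha⟩, rfl⟩
  have hYcard : Nat.card Y = Nat.card Q :=
    Nat.card_congr (Subgroup.subgroupOfEquivOfLe hQV).toEquiv
  have hCcard : Nat.card C = q := by
    rw [← hZcard]
    have h1 : Nat.card C = Nat.card (C.map (N.subtype.comp Y.subtype)) :=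
      Nat.card_congr (Subgroup.equivMapOfInjective C _ (by
        intro a b hab
        exact Subtype.ext (Subtype.ext hab))).toEquiv
    have h2 : C.map (N.subtype.comp Y.subtype) = Z₀ := by
      ext a
      constructor
      · rintro ⟨b, hb, rfl⟩
        exact hb
      · intro ha
        obtain ⟨y, rfl⟩ := hmk a (hZ₀Q ha)
        exact ⟨y, ha, rfl⟩
    rw [h1, h2]
    exact Nat.card_congr (Subgroup.equivMapOfInjective _ _ Q.subtype_injective).symm.toEquiv
  -- a nontrivial central element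
  obtain ⟨z₀, hz₀, hz₀1⟩ : ∃ z₀ ∈ Z₀, z₀ ≠ 1 := by
    haveI : Nontrivial (Subgroup.center Q) := by
      apply Finite.one_lt_card_iff_nontrivial.mp
      rw [hZcard]
      exact hq.one_lt
    obtain ⟨a, ha⟩ := exists_ne (1 : Subgroup.center Q)
    refine ⟨((a : Q) : G), ⟨a, a.2, rfl⟩, ?_⟩
    intro h
    apply ha
    exact Subtype.ext (Subtype.ext h)
  obtain ⟨c, hcz⟩ := hmk z₀ (hZ₀Q hz₀)
  have hc : c ∈ C := by
    rw [hCmem, hcz]
    exact hz₀
  have hβc : β (c : N) ≠ 1 := by
    intro h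
    apply hz₀1
    have h1 : z₀ ∈ (X ⊔ Q) ⊓ Subgroup.centralizer (V : Set G) := by
      refine Subgroup.mem_inf.mpr ⟨(le_sup_right : Q ≤ X ⊔ Q) (hZ₀Q hz₀), ?_⟩
      rw [Subgroup.mem_centralizer_iff]
      intro v hv
      have h2 : ((β (c : N) ⟨v, hv⟩ : V) : G) = v := by rw [h]; rfl
      rw [hβ, hcz] at h2
      calc v * z₀ = (z₀ * v * z₀⁻¹) * z₀ := by rw [h2]
        _ = z₀ * v := by group
    rw [hfaith] at h1
    exact h1
  have hCcyc : ∀ d ∈ C, d ≠ 1 → c ∈ Subgroup.zpowers d := by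
    intro d hd hd1
    haveI : Fact (Nat.card (Subgroup.center Q)).Prime := ⟨by rw [hZcard]; exact hq⟩
    obtain ⟨a, ha, had⟩ := (hCmem d).mp hd
    obtain ⟨b, hb, hbc⟩ := hz₀
    let a' : Subgroup.center Q := ⟨a, ha⟩
    let b' : Subgroup.center Q := ⟨b, hb⟩
    have ha'1 : a' ≠ 1 := by
      intro h
      apply hd1
      apply Subtype.ext
      apply Subtype.ext
      have h1 : (a : G) = 1 := congrArg (fun z : Subgroup.center Q => ((z : Q) : G)) h
      rw [← had]
      simpa using h1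
    have htop := zpowers_eq_top_of_prime_card (p := Nat.card (Subgroup.center Q)) rfl ha'1
    have hb' : b' ∈ Subgroup.zpowers a' := by rw [htop]; exact Subgroup.mem_top _
    obtain ⟨k, hk⟩ := Subgroup.mem_zpowers_iff.mp hb'
    refine Subgroup.mem_zpowers_iff.mpr ⟨k, ?_⟩
    apply Subtype.ext
    apply Subtype.ext
    have h1 : (a : G) ^ k = b := by
      have := congrArg (fun z : Subgroup.center Q => ((z : Q) : G)) hk
      simpa [a', b'] using this
    have h2 : ((a : Q) : G) = ((d : N) : G) := had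
    have h3 : ((b : Q) : G) = z₀ := hbc
    simp only [Subgroup.coe_zpow]
    rw [← h2, h1, h3, hcz]
  have hnd : ∀ y : Y, y ∉ C → ∃ u : Y, u * y * u⁻¹ * y⁻¹ ≠ 1 := by
    intro y hy
    by_contra hcon
    push Not at hcon
    apply hy
    rw [hCmem]
    apply hZ₀mem _ (hYQ y)
    intro h hh
    obtain ⟨u, rfl⟩ := hmk h hh
    have h1 : ((u : N) : G) * ((y : N) : G) * ((u : N) : G)⁻¹ * ((y : N) : G)⁻¹ = 1 := by
      have := congrArg (fun z : Y => ((z : N) : G)) (hcon u)
      simpa using this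
    have h2 : ((u : N) : G) * ((y : N) : G) = ((y : N) : G) * ((u : N) : G) := by
      calc ((u : N) : G) * ((y : N) : G)
          = (((u : N) : G) * ((y : N) : G) * ((u : N) : G)⁻¹ * ((y : N) : G)⁻¹) * (((y : N) : G) * ((u : N) : G)) := by group
        _ = _ := by rw [h1, one_mul]
    exact h2.symm
  have hCtop : C ≠ ⊤ := by
    intro h
    -- `Q` would be abelian
    have hall : ∀ a ∈ Q, a ∈ Z₀ := by
      intro a ha
      obtain ⟨y, rfl⟩ := hmk a ha
      have : y ∈ C := by rw [h]; exact Subgroup.mem_top _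
      exact this
    have hc : commutator Q ≤ ⊥ := by
      rw [commutator_def, Subgroup.commutator_le]
      intro a _ b _
      rw [Subgroup.mem_bot]
      apply Subtype.ext
      have h1 := hZ₀c _ (hall a a.2) b b.2
      simp only [commutatorElement_def, Subgroup.coe_mul, Subgroup.coe_inv, Subgroup.coe_one]
      rw [h1]
      group
    have hb : Subgroup.center Q = ⊥ := by
      rw [← hQ.1.2.2]
      exact le_bot_iff.mp hc
    rw [hb, Subgroup.card_bot] at hZcard
    exact hq.one_lt.ne hZcard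
  obtain ⟨M, hM, hrM⟩ := Cfsg.Agent.Lib.OddOrder.HHExtra.num_comm' hA hpA β hr hpr x' hxr hfix Y hxY C
    (by
      rw [hYcard]
      obtain ⟨m, hm⟩ := IsPGroup.iff_card.mp hQp
      rw [hm]
      exact Nat.Coprime.pow_left m ((Nat.coprime_primes hq hp).mpr (Ne.symm hpq)))
    (by
      intro c hc
      apply Subtype.ext
      apply Subtype.ext
      exact hZ₀x _ hc)
    (by
      intro c hc g
      apply Subtype.ext
      apply Subtype.ext
      exact hZ₀c _ hc _ g.2)
    (by
      intro u y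
      exact hZcomm _ u.2 _ y.2)
    (by
      intro y hy
      -- coprime action
      have hd := hy
      rw [hCmem] at hd
      set d : G := x * ((y : N) : G) * x⁻¹ * ((y : N) : G)⁻¹ with hddef
      have hd' : d ∈ Z₀ := hd
      have hdQ : d ∈ Q := hZ₀Q hd'
      have he : ((y : N) : G)⁻¹ * (x * ((y : N) : G) * x⁻¹) = d := by
        have h1 := hZ₀c d hd' _ (hYQ y)
        calc ((y : N) : G)⁻¹ * (x * ((y : N) : G) * x⁻¹)
            = ((y : N) : G)⁻¹ * (d * ((y : N) : G)) := by rw [hddef]; group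
          _ = ((y : N) : G)⁻¹ * (((y : N) : G) * d) := by rw [h1]
          _ = d := by group
      have h2 := Cfsg.Agent.Lib.OddOrder.HHFitting.eq_one_of_comm_of_coprime (x := x) (k := ((y : N) : G)) hx
        (by
          rw [he]
          obtain ⟨k, hk⟩ := hQp ⟨d, hdQ⟩
          have h3 : d ^ (q ^ k) = 1 := by simpa using congrArg Subtype.val hk
          exact Nat.Coprime.coprime_dvd_left (orderOf_dvd_of_pow_eq_one h3)
            (Nat.Coprime.pow_left k ((Nat.coprime_primes hq hr).mpr hqr)))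
        (by rw [he]; exact hZ₀x d hd')
      rw [he] at h2
      rw [hCmem]
      apply hfixZ _ (hYQ y)
      have h3 : x * ((y : N) : G) * x⁻¹ * ((y : N) : G)⁻¹ = 1 := h2
      exact mul_inv_eq_one.mp h3)
    hCtop
    c hc hβc hCcyc hnd
  -- arithmetic
  have hL : Nat.card Q = M ^ 2 * q := by
    rw [← hYcard, Subgroup.card_eq_card_quotient_mul_card_subgroup C, hM, hCcard]
  obtain ⟨m, hm⟩ := IsPGroup.iff_card.mp hQp
  have hm0 : m ≠ 0 := by
    rintro rfl
    rw [hm, pow_zero] at hL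
    have h1 : q ∣ 1 := ⟨M ^ 2, by rw [hL]; ring⟩
    exact hq.one_lt.ne' (Nat.dvd_one.mp h1)
  obtain ⟨m', rfl⟩ : ∃ m', m = m' + 1 := ⟨m - 1, by omega⟩
  have hM2 : M ^ 2 = q ^ m' := by
    rw [hm, pow_succ] at hL
    exact (Nat.eq_of_mul_eq_mul_right hq.pos hL).symm
  have hMd : M ∣ q ^ m' := by
    rw [← hM2]
    exact dvd_pow_self M two_ne_zero
  obtain ⟨b, -, rfl⟩ := (Nat.dvd_prime_pow hq).mp hMd
  have hb0 : b ≠ 0 := by
    rintro rfl
    rw [pow_zero, one_pow] at hM
    exact hCtop (Subgroup.index_eq_one.mp hM)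
  have hq2 : q = 2 := by
    by_contra hne
    have hqodd : Odd q := hq.odd_of_ne_two hne
    have hre : Even r := by
      rw [hrM]
      exact (hqodd.pow).add_one
    have hr2 : r = 2 := hr.even_iff.mp hre
    have h1 : q ^ b = 1 := by omega
    have h2 : 1 < q ^ b := Nat.one_lt_pow hb0 hq.one_lt
    omega
  subst hq2
  refine ⟨rfl, b, hrM, ?_⟩
  rw [hL]
  ring


end Cfsg.Agent.S3764
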