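import Cfsg.Statements.S3765
import Cfsg.Agent.Lib.OddOrder.HHTwo

set_option autoImplicit false
open Cfsg

namespace Cfsg.Agent.S3765

/-- Let p, q, r be distinct primes and let X, Q, V be subgroups of a finite group with X of order r normalizing the q-group Q and acting faithfully on it (X ∩ C(Q) = 1), and V a nontrivial elementary abelian p-group normalized by X and Q on which XQ acts faithfully. If q = 2 and r has the form 2^n + 1, assume in addition that Q is abelian. Then C_V(X) ≠ 1. -/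
theorem result {G : Type*} [Group G] [Finite G] {p q r : ℕ} (hp : p.Prime) (hq : q.Prime) (hr : r.Prime) (hpq : p ≠ q) (hpr : p ≠ r) (hqr : q ≠ r) (X Q V : Subgroup G) (hX : Nat.card X = r) (hQ : IsPGroup q Q) (hXQ : X ≤ Subgroup.normalizer (Q : Set G)) (hXfaith : X ⊓ Subgroup.centralizer (Q : Set G) = ⊥) (hV : Cfsg.IsElementaryAbelian p V) (hV1 : V ≠ ⊥) (hXV : X ≤ Subgroup.normalizer (V : Set G)) (hQV : Q ≤ Subgroup.normalizer (V : Set G)) (hfaith : (X ⊔ Q) ⊓ Subgroup.centralizer (V : Set G) = ⊥) (hexc : q = 2 → (∃ n : ℕ, r = 2 ^ n + 1) → IsMulCommutative Q) : V ⊓ Subgroup.centralizer (X : Set G) ≠ ⊥ := by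
  classical
  intro hcon
  haveI hpf : Fact p.Prime := ⟨hp⟩
  haveI hqf : Fact q.Prime := ⟨hq⟩
  haveI hrf : Fact r.Prime := ⟨hr⟩
  haveI hXp : Fact (Nat.card X).Prime := ⟨by rw [hX]; exact hr⟩
  haveI : IsCyclic X := isCyclic_of_prime_card (p := Nat.card X) rfl
  obtain ⟨g, hg⟩ := IsCyclic.exists_generator (α := X)
  set x : G := (g : G) with hxdef
  have hxX : x ∈ X := g.2
  have hXz : X ≤ Subgroup.zpowers x := by
    intro a ha
    obtain ⟨k, hk⟩ := Subgroup.mem_zpowers_iff.mp (hg ⟨a, ha⟩)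
    refine ⟨k, ?_⟩
    have := congrArg Subtype.val hk
    simpa using this
  have hxr : x ^ r = 1 := by
    have h1 : g ^ Nat.card X = 1 := pow_card_eq_one'
    rw [hX] at h1
    calc x ^ r = ((g ^ r : X) : G) := by simp [hxdef]
      _ = 1 := by rw [h1]; rfl
  have hxV : x ∈ Subgroup.normalizer (V : Set G) := hXV hxX
  have hxQ : x ∈ Subgroup.normalizer (Q : Set G) := hXQ hxX
  let N : Subgroup G := Subgroup.normalizer (V : Set G)
  let β : N →* MulAut V := V.normalizerMonoidHom
  have hβ : ∀ (a : N) (v : V), ((β a v : V) : G) = a * v * (a : G)⁻¹ := fun _ _ => rfl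
  let x' : N := ⟨x, hxV⟩
  let Y : Subgroup N := Q.subgroupOf N
  have hYp : IsPGroup q Y := by
    intro y
    obtain ⟨k, hk⟩ := hQ ⟨((y : N) : G), Subgroup.mem_subgroupOf.mp y.2⟩
    refine ⟨k, ?_⟩
    apply Subtype.ext
    apply Subtype.ext
    have h := congrArg Subtype.val hk
    simpa using h
  have hkey := Cfsg.Agent.Lib.OddOrder.HHTwo.centralizes_comm_exc' (Γ := N) (A := V)
    (fun a b => by
      have := hV.1.is_comm.comm a b
      exact this)
    (q := p) (p := q) (r := r)
    (fun a => Subtype.ext (by simpa using hV.2 a a.2))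
    β hr hqr (Ne.symm hpq) hpr x' (by
      apply Subtype.ext
      simpa [x'] using hxr)
    (by
      intro a hfix
      have h1 : x * (a : G) * x⁻¹ = a := congrArg Subtype.val hfix
      have hmem : (a : G) ∈ V ⊓ Subgroup.centralizer (X : Set G) := by
        refine ⟨a.2, Subgroup.mem_centralizer_iff.mpr ?_⟩
        intro t ht
        obtain ⟨k, rfl⟩ := Subgroup.mem_zpowers_iff.mp (hXz ht)
        have hc : Commute x (a : G) := by
          have : x * (a : G) = a * x := by
            conv_rhs => rw [← h1]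
            group
          exact this
        exact hc.zpow_left k
      rw [hcon] at hmem
      exact Subtype.ext ((Subgroup.mem_bot).mp hmem))
    Y hYp
    (by
      intro y hy
      refine Subgroup.mem_subgroupOf.mpr ?_
      exact (Subgroup.mem_normalizer_iff.mp hxQ _).mp (Subgroup.mem_subgroupOf.mp hy))
    (by
      intro h2 hf a ha b hb
      have hcm := hexc h2 hf
      apply Subtype.ext
      have := hcm.is_comm.comm (⟨((a : N) : G), Subgroup.mem_subgroupOf.mp ha⟩ : Q) ⟨((b : N) : G), Subgroup.mem_subgroupOf.mp hb⟩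
      have h := congrArg Subtype.val this
      simpa using h)
  have hcommQ : ∀ y ∈ Q, x * y * x⁻¹ = y := by
    intro y hy
    have hy' : (⟨y, hQV hy⟩ : N) ∈ Y := Subgroup.mem_subgroupOf.mpr hy
    have h1 := hkey _ hy'
    have hmem : x * y * x⁻¹ * y⁻¹ ∈ (X ⊔ Q) ⊓ Subgroup.centralizer (V : Set G) := by
      constructor
      · have hc : x * y * x⁻¹ ∈ Q := (Subgroup.mem_normalizer_iff.mp hxQ _).mp hy
        exact Subgroup.mul_mem _ ((le_sup_right : Q ≤ X ⊔ Q) hc) ((le_sup_right : Q ≤ X ⊔ Q) (Q.inv_mem hy))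
      · refine Subgroup.mem_centralizer_iff.mpr ?_
        intro v hv
        have h2 := congrArg (fun φ : MulAut V => ((φ ⟨y⁻¹ * v * y, by
          have := (Subgroup.mem_normalizer_iff.mp (hQV (Q.inv_mem hy)) v).mp hv
          simpa using this⟩ : V) : G)) h1
        simp only [hβ] at h2
        have h3 : (⟨x, hxV⟩ * ⟨y, hQV hy⟩ * (⟨x, hxV⟩ : N)⁻¹ : N) = ⟨x * y * x⁻¹, by
          exact Subgroup.mul_mem _ (Subgroup.mul_mem _ hxV (hQV hy)) (Subgroup.inv_mem _ hxV)⟩ := by
          apply Subtype.ext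
          simp
        change (((x' * ⟨y, hQV hy⟩ * x'⁻¹ : N) : G)) * (y⁻¹ * v * y) * ((x' * ⟨y, hQV hy⟩ * x'⁻¹ : N) : G)⁻¹ = y * (y⁻¹ * v * y) * y⁻¹ at h2
        have h4 : ((x' * ⟨y, hQV hy⟩ * x'⁻¹ : N) : G) = x * y * x⁻¹ := by
          simp [x']
        rw [h4] at h2
        have h5 : (x * y * x⁻¹) * (y⁻¹ * v * y) * (x * y * x⁻¹)⁻¹ = v := by
          rw [h2]
          group
        have h6 : v * (x * y * x⁻¹ * y⁻¹) = (x * y * x⁻¹ * y⁻¹) * v := by
          have h7 : (x * y * x⁻¹ * y⁻¹) * v * (x * y * x⁻¹ * y⁻¹)⁻¹ = v := by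
            calc _ = (x * y * x⁻¹) * (y⁻¹ * v * y) * (x * y * x⁻¹)⁻¹ := by group
              _ = v := h5
          conv_lhs => rw [← h7]
          group
        exact h6
    rw [hfaith, Subgroup.mem_bot] at hmem
    exact mul_inv_eq_one.mp hmem
  have hxC : x ∈ X ⊓ Subgroup.centralizer (Q : Set G) := by
    refine ⟨hxX, Subgroup.mem_centralizer_iff.mpr ?_⟩
    intro y hy
    have h1 := hcommQ y hy
    have : y * x = x * y := by
      conv_lhs => rw [← h1]
      group
    exact this
  rw [hXfaith, Subgroup.mem_bot] at hxC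
  have hXbot : X = ⊥ := by
    rw [eq_bot_iff]
    intro a ha
    have := hXz ha
    rw [hxC] at this
    simpa using this
  rw [hXbot] at hX
  simp at hX
  rw [← hX] at hr
  exact Nat.not_prime_one hr

end Cfsg.Agent.S3765
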