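import Cfsg.Statements.S4206
import Mathlib
import Cfsg.Agent.Lib.Nilpotent.Commutator

set_option autoImplicit false
open Cfsg

namespace Cfsg.Agent.S4206

/-- Let `H 0 ≥ H 1 ≥ H 2 ≥ ⋯` be normal subgroups of a finite group and `L` a subgroup with `⁅H i, L⁆ ≤ H (i+1)` for all `i`. Then `⁅H i, γ⁆ ≤ H (i + j + 1)` where `γ` is the `j`-th term of the lower central series of `L` (indexed from `0`, so the term with index `j` is the `(j+1)`-fold commutator). -/
theorem result {G : Type*} [Group G] [Finite G] (H : ℕ → Subgroup G) (hN : ∀ i, (H i).Normal) (hdesc : ∀ i, H (i + 1) ≤ H i) (L : Subgroup G) (hL : ∀ i, ⁅H i, L⁆ ≤ H (i + 1)) (i j : ℕ) : ⁅H i, L.lowerCentralSeries j⁆ ≤ H (i + j + 1) := by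
  induction j generalizing i with
  | zero => exact hL i
  | succ j ih =>
    rw [Subgroup.lowerCentralSeries_succ, Subgroup.commutator_comm]
    haveI := hN (i + (j + 1) + 1)
    refine Cfsg.Agent.Lib.Nilpotent.Commutator.three_subgroups _ _ _ _ ?_ ?_
    · rw [Subgroup.commutator_comm L (H i)]
      refine le_trans (Subgroup.commutator_mono (hL i) le_rfl) ?_
      have := ih (i + 1)
      rwa [show i + 1 + j + 1 = i + (j + 1) + 1 by omega] at this
    · refine le_trans (Subgroup.commutator_mono (ih i) le_rfl) ?_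
      have := hL (i + j + 1)
      rwa [show i + j + 1 + 1 = i + (j + 1) + 1 by omega] at this

end Cfsg.Agent.S4206
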