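import Cfsg.Statements.S3766
import Mathlib
import Cfsg.Agent.Lib.Nilpotent.Commutator
import Cfsg.Agent.Lib.Basic.PCore
import Cfsg.Agent.S0044
import Cfsg.Agent.S4206
-- import your own Cfsg.Agent.* helpers here

set_option autoImplicit false
open Cfsg

namespace Cfsg.Agent.S3766

open Cfsg.Agent.Lib.Nilpotent.Commutator Cfsg.Agent.Lib.Basic.PCore
open scoped commutatorElement

variable {G : Type*} [Group G]

/-- A chief factor of `G`. -/
def IsChief (U V : Subgroup G) : Prop :=
  U.Normal ∧ V.Normal ∧ V < U ∧ ∀ W : Subgroup G, W.Normal → V ≤ W → W ≤ U → W = V ∨ W = U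

/-- `⁅X, D, D, …, D⁆`. -/
def itComm (D X : Subgroup G) : ℕ → Subgroup G
  | 0 => X
  | k + 1 => ⁅itComm D X k, D⁆

theorem itComm_succ (D X : Subgroup G) (k : ℕ) : itComm D X (k + 1) = ⁅itComm D X k, D⁆ := rfl

theorem itComm_mono (D : Subgroup G) {X Y : Subgroup G} (h : X ≤ Y) (k : ℕ) :
    itComm D X k ≤ itComm D Y k := by
  induction k with
  | zero => exact h
  | succ k ih => exact Subgroup.commutator_mono ih le_rfl

theorem itComm_succ' (D X : Subgroup G) (k : ℕ) : itComm D X (k + 1) = itComm D ⁅X, D⁆ k := by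
  induction k with
  | zero => rfl
  | succ k ih => rw [itComm_succ, ih, itComm_succ]

instance itComm_normal (D X : Subgroup G) [D.Normal] [X.Normal] (k : ℕ) : (itComm D X k).Normal := by
  induction k with
  | zero => exact inferInstanceAs X.Normal
  | succ k ih => exact inferInstanceAs (⁅itComm D X k, D⁆ : Subgroup G).Normal

/-- Elements of `N` centralising the chief factors `U / V` with `U` satisfying `Q`. -/
def chiefCent (N : Subgroup G) (Q : Subgroup G → Prop) : Subgroup G where
  carrier := {g | g ∈ N ∧ ∀ U V : Subgroup G, IsChief U V → Q U → ∀ u ∈ U, u * g * u⁻¹ * g⁻¹ ∈ V}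
  one_mem' := ⟨N.one_mem, fun U V hc _ u _ => by simp⟩
  mul_mem' := by
    rintro a b ⟨ha, ha'⟩ ⟨hb, hb'⟩
    refine ⟨N.mul_mem ha hb, fun U V hc hQ u hu => ?_⟩
    have h1 := ha' U V hc hQ u hu
    have h2 := hb' U V hc hQ u hu
    have hV := hc.2.1
    have h3 : u * (a * b) * u⁻¹ * (a * b)⁻¹ =
        (u * a * u⁻¹ * a⁻¹) * (a * (u * b * u⁻¹ * b⁻¹) * a⁻¹) := by group
    rw [h3]
    exact V.mul_mem h1 (hV.conj_mem _ h2 a)
  inv_mem' := by
    rintro a ⟨ha, ha'⟩
    refine ⟨N.inv_mem ha, fun U V hc hQ u hu => ?_⟩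
    have h1 := ha' U V hc hQ u hu
    have hV := hc.2.1
    have h3 : u * a⁻¹ * u⁻¹ * a⁻¹⁻¹ = a⁻¹ * (u * a * u⁻¹ * a⁻¹)⁻¹ * a⁻¹⁻¹ := by group
    rw [h3]
    exact hV.conj_mem _ (V.inv_mem h1) _

instance chiefCent_normal (N : Subgroup G) [hN : N.Normal] (Q : Subgroup G → Prop) :
    (chiefCent N Q).Normal := by
  constructor
  rintro g ⟨hg, hg'⟩ x
  refine ⟨hN.conj_mem g hg x, fun U V hc hQ u hu => ?_⟩
  have hU := hc.1
  have hV := hc.2.1
  have h1 := hg' U V hc hQ (x⁻¹ * u * x) (by
    have := hU.conj_mem u hu x⁻¹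
    simpa using this)
  have h2 : u * (x * g * x⁻¹) * u⁻¹ * (x * g * x⁻¹)⁻¹ =
      x * (x⁻¹ * u * x * g * (x⁻¹ * u * x)⁻¹ * g⁻¹) * x⁻¹ := by group
  rw [h2]
  exact hV.conj_mem _ h1 x

/-- A normal subgroup `D` centralising the chief factors below `W` acts nilpotently on `W`. -/
theorem exists_itComm_eq_bot [Finite G] (D : Subgroup G) [D.Normal] :
    ∀ (n : ℕ) (W : Subgroup G) [W.Normal], Nat.card W = n →
      (∀ U V : Subgroup G, IsChief U V → U ≤ W → ⁅U, D⁆ ≤ V) → ∃ k, itComm D W k = ⊥ := by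
  classical
  intro n
  induction n using Nat.strong_induction_on with
  | _ n ih =>
    intro W _ hn hW
    by_cases hW1 : W = ⊥
    · exact ⟨0, hW1⟩
    · -- a maximal normal subgroup of `G` strictly inside `W`
      obtain ⟨V, hV⟩ := Set.Finite.exists_maximal (Set.toFinite {V : Subgroup G | V.Normal ∧ V < W})
        ⟨⊥, Subgroup.normal_bot, bot_lt_iff_ne_bot.2 hW1⟩
      haveI hVn : V.Normal := hV.prop.1
      have hVW : V < W := hV.prop.2
      have hchief : IsChief W V := by
        refine ⟨inferInstance, hVn, hVW, fun X hX hVX hXW => ?_⟩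
        by_cases hXW' : X = W
        · exact Or.inr hXW'
        · left
          have hlt : X < W := lt_of_le_of_ne hXW hXW'
          exact le_antisymm (hV.le_of_ge ⟨hX, hlt⟩ hVX) hVX
      have hcard : Nat.card V < n := by
        rw [← hn]
        exact Set.ncard_lt_ncard (SetLike.coe_ssubset_coe.2 hVW) (Set.toFinite _)
      obtain ⟨k, hk⟩ := ih (Nat.card V) hcard V rfl
        (fun U U' hc hUV => hW U U' hc (hUV.trans hVW.le))
      refine ⟨k + 1, ?_⟩
      rw [itComm_succ', eq_bot_iff, ← hk]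
      exact itComm_mono D (hW W V hchief le_rfl) k

/-- A nilpotent normal subgroup centralises every chief factor. -/
theorem commutator_le_of_chief [Finite G] {F : Subgroup G} [F.Normal] (hF : Group.IsNilpotent F)
    {U V : Subgroup G} (hc : IsChief U V) : ⁅U, F⁆ ≤ V := by
  haveI hU := hc.1
  haveI hV := hc.2.1
  have hVU : V < U := hc.2.2.1
  have hUFn : (⁅U, F⁆ ⊔ V).Normal := Subgroup.sup_normal _ _
  have hUFle : ⁅U, F⁆ ⊔ V ≤ U := sup_le (Subgroup.commutator_le_left _ _) hVU.le
  rcases hc.2.2.2 (⁅U, F⁆ ⊔ V) hUFn le_sup_right hUFle with h | h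
  · rw [← h]
    exact le_sup_left
  · exfalso
    have hkey : ∀ k : ℕ, U ≤ itComm F U k ⊔ V := by
      intro k
      induction k with
      | zero => exact le_sup_left
      | succ k ih =>
        refine le_trans (le_of_eq h.symm) ?_
        refine sup_le ?_ le_sup_right
        have h1 : ⁅U, F⁆ ≤ ⁅itComm F U k ⊔ V, F⁆ := Subgroup.commutator_mono ih le_rfl
        refine h1.trans ?_
        haveI : (itComm F U (k + 1) ⊔ V).Normal := inferInstance
        apply commutator_sup_left_le
        · exact le_trans (le_of_eq (itComm_succ F U k).symm) le_sup_left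
        · exact (Subgroup.commutator_le_left _ _).trans le_sup_right
    have hlcs : ∀ k : ℕ, itComm F U (k + 1) ≤ F.lowerCentralSeries k := by
      intro k
      induction k with
      | zero => exact Subgroup.commutator_le_right _ _
      | succ k ih => exact Subgroup.commutator_mono ih le_rfl
    obtain ⟨m, hm⟩ := (Subgroup.isNilpotent_iff_lowerCentralSeries F).1 hF
    have h2 := hkey (m + 1)
    have h3 : itComm F U (m + 1) = ⊥ := by
      rw [eq_bot_iff, ← hm]
      exact hlcs m
    rw [h3, bot_sup_eq] at h2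
    exact (not_le_of_gt hVU) h2

/-- Let G be a finite solvable group and N a normal subgroup of G. Call a pair V < U of normal subgroups of G a chief factor of G when no normal subgroup of G lies strictly between them; an element g centralizes the chief factor U/V when u g u⁻¹ g⁻¹ ∈ V for all u ∈ U. Then an element of G lies in the Fitting subgroup F(N) if and only if it lies in N and centralizes every chief factor of G; and also if and only if it lies in N and centralizes every chief factor U/V of G with U ≤ F(N). -/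
theorem result {G : Type*} [Group G] [Finite G] (hG : Group.IsSolvable G) (N : Subgroup G) [N.Normal] (g : G) : (g ∈ (Cfsg.fittingSubgroup ↥N).map N.subtype ↔ g ∈ N ∧ ∀ U V : Subgroup G, (U.Normal ∧ V.Normal ∧ V < U ∧ ∀ W : Subgroup G, W.Normal → V ≤ W → W ≤ U → W = V ∨ W = U) → ∀ u ∈ U, u * g * u⁻¹ * g⁻¹ ∈ V) ∧ (g ∈ (Cfsg.fittingSubgroup ↥N).map N.subtype ↔ g ∈ N ∧ ∀ U V : Subgroup G, (U.Normal ∧ V.Normal ∧ V < U ∧ ∀ W : Subgroup G, W.Normal → V ≤ W → W ≤ U → W = V ∨ W = U) → U ≤ (Cfsg.fittingSubgroup ↥N).map N.subtype → ∀ u ∈ U, u * g * u⁻¹ * g⁻¹ ∈ V) := by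
  classical
  set F : Subgroup G := (Cfsg.fittingSubgroup ↥N).map N.subtype with hF
  haveI hFn : F.Normal := map_subtype_normal_of_characteristic _
  have hFnil : Group.IsNilpotent F :=
    isNilpotent_map fittingSubgroup_isNilpotent N.subtype
  have hFN : F ≤ N := Subgroup.map_subtype_le _
  have hforward : g ∈ F → g ∈ N ∧ ∀ U V : Subgroup G, IsChief U V → ∀ u ∈ U, u * g * u⁻¹ * g⁻¹ ∈ V := by
    intro hg
    refine ⟨hFN hg, fun U V hc u hu => ?_⟩
    exact commutator_le_of_chief hFnil hc (Subgroup.commutator_mem_commutator hu hg)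
  -- the membership criterion
  have hmem : ∀ D : Subgroup G, D.Normal → D ≤ N → Group.IsNilpotent D → D ≤ F := by
    intro D hDn hDN hDnil x hx
    have h1 : D.subgroupOf N ≤ Cfsg.fittingSubgroup ↥N := by
      apply le_fittingSubgroup (Subgroup.Normal.subgroupOf hDn N)
      exact Group.nilpotent_of_surjective (Subgroup.subgroupOfEquivOfLe hDN).symm.toMonoidHom
        (Subgroup.subgroupOfEquivOfLe hDN).symm.surjective
    exact ⟨⟨x, hDN hx⟩, h1 hx, rfl⟩
  have hlcs : ∀ (D : Subgroup G) (k : ℕ), D.lowerCentralSeries k = itComm D D k := by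
    intro D k
    induction k with
    | zero => rfl
    | succ k ih => rw [Subgroup.lowerCentralSeries_succ, ih, itComm_succ]
  have hcomm : ∀ {Q : Subgroup G → Prop} {U V : Subgroup G}, IsChief U V → Q U →
      ⁅U, chiefCent N Q⁆ ≤ V := by
    intro Q U V hc hQ
    rw [Subgroup.commutator_le]
    intro u hu d hd
    exact hd.2 U V hc hQ u hu
  have hback1 : g ∈ N → (∀ U V : Subgroup G, IsChief U V → ∀ u ∈ U, u * g * u⁻¹ * g⁻¹ ∈ V) → g ∈ F := by
    intro hgN hg
    set D := chiefCent N (fun _ => True) with hD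
    have hgD : g ∈ D := ⟨hgN, fun U V hc _ u hu => hg U V hc u hu⟩
    obtain ⟨k, hk⟩ := exists_itComm_eq_bot D (Nat.card D) D rfl
      (fun U V hc _ => hcomm hc trivial)
    have hnil : Group.IsNilpotent D :=
      (Subgroup.isNilpotent_iff_lowerCentralSeries D).2 ⟨k, by rw [hlcs, hk]⟩
    exact hmem D inferInstance (fun x hx => hx.1) hnil hgD
  have hback2 : g ∈ N → (∀ U V : Subgroup G, IsChief U V → U ≤ F → ∀ u ∈ U, u * g * u⁻¹ * g⁻¹ ∈ V) → g ∈ F := by
    intro hgN hg
    set D := chiefCent N (fun U => U ≤ F) with hD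
    have hgD : g ∈ D := ⟨hgN, fun U V hc hU u hu => hg U V hc hU u hu⟩
    obtain ⟨m, hm⟩ := exists_itComm_eq_bot D (Nat.card F) F rfl
      (fun U V hc hU => hcomm hc hU)
    have hDN : D ≤ N := fun x hx => hx.1
    -- stability
    have hstab := Cfsg.Agent.S4206.result (itComm D F) (fun i => itComm_normal D F i)
      (fun i => Subgroup.commutator_le_left _ _) D (fun i => le_of_eq (itComm_succ D F i).symm) 0 m
    have h0 : itComm D F (0 + m + 1) = ⊥ := by
      rw [show 0 + m + 1 = m + 1 by omega, itComm_succ, hm]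
      exact Subgroup.commutator_bot_left _
    rw [h0, le_bot_iff] at hstab
    have hcentr : D.lowerCentralSeries m ≤ F := by
      intro x hx
      have hxD : x ∈ D := Subgroup.lowerCentralSeries_le_self D m hx
      have hxN : x ∈ N := hDN hxD
      have hsolvN : Group.IsSolvable ↥N := inferInstance
      have h1 : (⟨x, hxN⟩ : N) ∈ Subgroup.centralizer (Cfsg.fittingSubgroup ↥N : Set ↥N) := by
        rw [Subgroup.mem_centralizer_iff]
        intro y hy
        have hyF : (y : G) ∈ F := ⟨y, hy, rfl⟩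
        have h2 : ⁅(y : G), x⁆ = 1 := by
          have h3 : ⁅(y : G), x⁆ ∈ ⁅F, D.lowerCentralSeries m⁆ :=
            Subgroup.commutator_mem_commutator hyF hx
          change ⁅(y : G), x⁆ ∈ ⁅itComm D F 0, D.lowerCentralSeries m⁆ at h3
          rw [hstab, Subgroup.mem_bot] at h3
          exact h3
        have h4 : Commute (y : G) x := commutatorElement_eq_one_iff_commute.1 h2
        exact Subtype.ext h4
      exact ⟨_, Cfsg.Agent.S0044.result h1, rfl⟩
    have hchain : ∀ j : ℕ, D.lowerCentralSeries (m + j) ≤ itComm D F j := by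
      intro j
      induction j with
      | zero => exact hcentr
      | succ j ih => exact Subgroup.commutator_mono ih le_rfl
    have hnil : Group.IsNilpotent D :=
      (Subgroup.isNilpotent_iff_lowerCentralSeries D).2 ⟨m + m, by
        rw [eq_bot_iff, ← hm]
        exact hchain m⟩
    exact hmem D inferInstance hDN hnil hgD
  refine ⟨⟨hforward, fun h => hback1 h.1 h.2⟩, ⟨fun h => ?_, fun h => hback2 h.1 h.2⟩⟩
  obtain ⟨h1, h2⟩ := hforward h
  exact ⟨h1, fun U V hc _ u hu => h2 U V hc u hu⟩

end Cfsg.Agent.S3766
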