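import Cfsg.Statements.S3767
import Mathlib
import Cfsg.Agent.Lib.PGroup.FpfForm
import Cfsg.Agent.Lib.PGroup.Extraspecial

set_option autoImplicit false
set_option linter.style.haveILetI false
set_option linter.unusedVariables false
set_option linter.unusedSectionVars false
open Cfsg

namespace Cfsg.Agent.S3767

open Polynomial Subgroup
open scoped commutatorElement
open Cfsg.Agent.Lib.PGroup.FpfForm

section Grp

variable {Q : Type*} [Group Q] [Finite Q] {p : ℕ} [hp : Fact p.Prime]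

theorem exists_form {V : Type*} [AddCommGroup V] [Module (ZMod p) V] (c : V → V → ZMod p)
    (haddL : ∀ u u' v, c (u + u') v = c u v + c u' v)
    (haddR : ∀ u v v', c u (v + v') = c u v + c u v') :
    ∃ B : LinearMap.BilinForm (ZMod p) V, ∀ u v, B u v = c u v := by
  let Lu : V → (V →ₗ[ZMod p] ZMod p) := fun u =>
    AddMonoidHom.toZModLinearMap p (AddMonoidHom.mk' (c u) (haddR u))
  have hLu : ∀ u v : V, (Lu u) v = c u v := fun _ _ => rfl
  have hLadd : ∀ u u' : V, Lu (u + u') = Lu u + Lu u' := fun u u' =>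
    LinearMap.ext fun v => by
      rw [LinearMap.add_apply, hLu, hLu, hLu, haddL]
  let BI : V →+ (V →ₗ[ZMod p] ZMod p) := AddMonoidHom.mk' Lu hLadd
  let B₀ : V →ₗ[ZMod p] V →ₗ[ZMod p] ZMod p := AddMonoidHom.toZModLinearMap p BI
  exact ⟨B₀, fun u v => rfl⟩

theorem finrank_of_card {V : Type*} [AddCommGroup V] [Module (ZMod p) V] [Finite V] {k : ℕ}
    (h : Nat.card V = p ^ k) : Module.finrank (ZMod p) V = k := by
  haveI : Module.Finite (ZMod p) V := Module.Finite.of_finite
  have h1 := Module.natCard_eq_pow_finrank (K := ZMod p) (V := V)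
  rw [Nat.card_zmod, h] at h1
  exact ((Nat.pow_right_injective hp.out.one_lt) h1).symm

/-- The group-theoretic core, on an abstract module. -/
theorem core {V : Type*} [AddCommGroup V] [Module (ZMod p) V] [Finite V] (hE : Cfsg.IsExtraspecial p Q)
    (θ : Q ≃* Q) {h : ℕ} (hh : 0 < h) (hθh : θ ^ h = 1)
    (hfix : ∀ k, 0 < k → k < h → ∀ q : Q, (θ ^ k) q = q → q ∈ center Q)
    (hZ : ∀ z ∈ center Q, θ z = z) (hcop : h.Coprime p) {n : ℕ}
    (hc : ∀ x y : Q, ⁅x, y⁆ ∈ center Q)
    (π : Q → V) (hπs : ∀ v : V, ∃ a, π a = v) (hπadd : ∀ a b, π (a * b) = π a + π b)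
    (hπ0 : ∀ a, π a = 0 ↔ a ∈ center Q) (hπeq : ∀ a b, π a = π b ↔ a⁻¹ * b ∈ center Q)
    (hfin : Module.finrank (ZMod p) V = 2 * n) : h ∣ p ^ n + 1 ∨ h ∣ p ^ n - 1 := by
  classical
  -- the form
  have hcardZ : Nat.card (center Q) = p := hE.2
  let e : center Q ≃* Multiplicative (ZMod p) :=
    mulEquivOfPrimeCardEq hcardZ (by simp)
  let val : Q → Q → ZMod p := fun a b => Multiplicative.toAdd (e ⟨⁅a, b⁆, hc a b⟩)
  have hvalL : ∀ a a' b, val (a * a') b = val a b + val a' b := by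
    intro a a' b
    have h1 : (⟨⁅a * a', b⁆, hc _ _⟩ : center Q) = ⟨⁅a, b⁆, hc _ _⟩ * ⟨⁅a', b⁆, hc _ _⟩ :=
      Subtype.ext (Cfsg.Agent.Lib.PGroup.Extraspecial.comm_mul_left hc a a' b)
    simp only [val]
    rw [h1, map_mul]
    rfl
  have hvalR : ∀ a b b', val a (b * b') = val a b + val a b' := by
    intro a b b'
    have h1 : (⟨⁅a, b * b'⁆, hc _ _⟩ : center Q) = ⟨⁅a, b⁆, hc _ _⟩ * ⟨⁅a, b'⁆, hc _ _⟩ :=
      Subtype.ext (Cfsg.Agent.Lib.PGroup.Extraspecial.comm_mul_right hc a b b')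
    simp only [val]
    rw [h1, map_mul]
    rfl
  have hval0 : ∀ a b, val a b = 0 ↔ a * b = b * a := by
    intro a b
    simp only [val]
    constructor
    · intro h1
      have h2 : e ⟨⁅a, b⁆, hc a b⟩ = 1 := by
        apply Multiplicative.toAdd.injective
        exact h1
      have h3 : (⟨⁅a, b⁆, hc a b⟩ : center Q) = 1 := by
        apply e.injective
        rw [h2, map_one]
      have h4 : ⁅a, b⁆ = 1 := congrArg Subtype.val h3
      exact commutatorElement_eq_one_iff_mul_comm.1 h4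
    · intro h1
      have h4 : ⁅a, b⁆ = 1 := commutatorElement_eq_one_iff_mul_comm.2 h1
      have h3 : (⟨⁅a, b⁆, hc a b⟩ : center Q) = 1 := Subtype.ext h4
      rw [h3, map_one]
      rfl
  have hvalZL : ∀ a a' b, π a = π a' → val a b = val a' b := by
    intro a a' b hπ
    have h1 : a⁻¹ * a' ∈ center Q := (hπeq a a').1 hπ
    have h2 : a' = a * (a⁻¹ * a') := by group
    rw [h2, hvalL]
    have h3 : val (a⁻¹ * a') b = 0 := (hval0 _ _).2 (mem_center_iff.1 h1 b).symm
    rw [h3, add_zero]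
  have hvalZR : ∀ a b b', π b = π b' → val a b = val a b' := by
    intro a b b' hπ
    have h1 : b⁻¹ * b' ∈ center Q := (hπeq b b').1 hπ
    have h2 : b' = b * (b⁻¹ * b') := by group
    rw [h2, hvalR]
    have h3 : val a (b⁻¹ * b') = 0 := (hval0 _ _).2 (mem_center_iff.1 h1 a)
    rw [h3, add_zero]
  let rep : V → Q := fun v => (hπs v).choose
  have hrep : ∀ v, π (rep v) = v := fun v => (hπs v).choose_spec
  let c : V → V → ZMod p := fun u v => val (rep u) (rep v)
  have hcπ : ∀ a b, c (π a) (π b) = val a b := by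
    intro a b
    simp only [c]
    rw [hvalZL _ a _ (hrep _), hvalZR _ _ b (hrep _)]
  have haddL : ∀ u u' v, c (u + u') v = c u v + c u' v := by
    intro u u' v
    obtain ⟨a, rfl⟩ := hπs u
    obtain ⟨a', rfl⟩ := hπs u'
    obtain ⟨b, rfl⟩ := hπs v
    rw [← hπadd, hcπ, hcπ, hcπ, hvalL]
  have haddR : ∀ u v v', c u (v + v') = c u v + c u v' := by
    intro u v v'
    obtain ⟨a, rfl⟩ := hπs u
    obtain ⟨b, rfl⟩ := hπs v
    obtain ⟨b', rfl⟩ := hπs v'
    rw [← hπadd, hcπ, hcπ, hcπ, hvalR]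
  obtain ⟨B, hBc⟩ := exists_form c haddL haddR
  have hB : ∀ a b, B (π a) (π b) = val a b := fun a b => by rw [hBc, hcπ]
  have hAlt : B.IsAlt := by
    intro v
    obtain ⟨a, rfl⟩ := hπs v
    rw [hB]
    exact (hval0 a a).2 rfl
  have hSepL : ∀ u, (∀ v, B u v = 0) → u = 0 := by
    intro u hu
    obtain ⟨a, rfl⟩ := hπs u
    rw [hπ0, mem_center_iff]
    intro b
    have := hu (π b)
    rw [hB, hval0] at this
    exact this.symm
  have hN : B.Nondegenerate := by
    refine ⟨hSepL, fun v hv => hSepL v (fun u => ?_)⟩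
    rw [← hAlt.neg_eq, hv, neg_zero]
  -- the operator
  have hθZ : ∀ z, z ∈ center Q → θ z ∈ center Q := fun z hz => by rw [hZ z hz]; exact hz
  have hθπ : ∀ a a', π a = π a' → π (θ a) = π (θ a') := by
    intro a a' h1
    rw [hπeq] at h1 ⊢
    rw [← map_inv, ← map_mul]
    exact hθZ _ h1
  let TA : V →+ V := AddMonoidHom.mk' (fun v => π (θ (rep v))) (fun u v => by
    have h1 : π (rep (u + v)) = π (rep u * rep v) := by
      rw [hrep, hπadd, hrep, hrep]
    rw [hθπ _ _ h1, map_mul, hπadd])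
  let T : V →ₗ[ZMod p] V := AddMonoidHom.toZModLinearMap p TA
  have hTπ : ∀ a, T (π a) = π (θ a) := fun a => hθπ _ _ (hrep (π a))
  have hTk : ∀ k a, (T ^ k) (π a) = π ((θ ^ k) a) := by
    intro k a
    induction k with
    | zero => rfl
    | succ k ih =>
      rw [pow_succ', Module.End.mul_apply, ih, hTπ, pow_succ']
      rfl
  have hTiso : ∀ u v : V, B (T u) (T v) = B u v := by
    intro u v
    obtain ⟨a, rfl⟩ := hπs u
    obtain ⟨b, rfl⟩ := hπs v
    rw [hTπ, hTπ, hB, hB]
    simp only [val]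
    have h1 : (⟨⁅θ a, θ b⁆, hc _ _⟩ : center Q) = ⟨⁅a, b⁆, hc _ _⟩ := by
      apply Subtype.ext
      show ⁅θ a, θ b⁆ = ⁅a, b⁆
      rw [← map_commutatorElement, hZ _ (hc a b)]
    rw [h1]
  have hTh : T ^ h = 1 := by
    ext v
    obtain ⟨a, rfl⟩ := hπs v
    rw [hTk, hθh]
    rfl
  have hfp : ∀ k, 0 < k → k < h → ∀ v : V, (T ^ k) v = v → v = 0 := by
    intro k hk hk' v hv
    obtain ⟨a, rfl⟩ := hπs v
    rw [hTk, hπeq] at hv
    -- `θ^k a = a z`
    set y := θ ^ k with hy
    have hyz : ∀ z ∈ center Q, y z = z := by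
      intro z hz
      rw [hy]
      clear hv hy
      induction k with
      | zero => rfl
      | succ k ih =>
        by_cases hk0 : k = 0
        · subst hk0
          simpa using hZ z hz
        · rw [pow_succ', MulAut.mul_apply, ih (by omega) (by omega), hZ z hz]
    set z := (y a)⁻¹ * a with hzdef
    have hay : y a = a * z⁻¹ := by
      rw [hzdef]
      group
    have hzinv : z⁻¹ ∈ center Q := inv_mem hv
    have hiter : ∀ j : ℕ, (y ^ j) a = a * (z⁻¹) ^ j := by
      intro j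
      induction j with
      | zero => simp
      | succ j ih =>
        rw [pow_succ', MulAut.mul_apply, ih, map_mul, hay, map_pow, hyz _ hzinv, pow_succ']
        group
    have hyh : y ^ h = 1 := by
      rw [hy, ← pow_mul, mul_comm, pow_mul, hθh, one_pow]
    have h1 := hiter h
    rw [hyh] at h1
    have h2 : (z⁻¹) ^ h = 1 := by
      have : a = a * (z⁻¹) ^ h := h1
      exact (mul_eq_left.1 this.symm)
    have h3 : (z⁻¹) ^ p = 1 :=
      Cfsg.Agent.Lib.PGroup.Extraspecial.IsSpecial.pow_eq_one_of_mem_center hE.1 hzinv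
    have h4 : orderOf z⁻¹ ∣ 1 := by
      have h5 := Nat.dvd_gcd (orderOf_dvd_of_pow_eq_one h2) (orderOf_dvd_of_pow_eq_one h3)
      rwa [hcop.gcd_eq_one] at h5
    have h5 : z⁻¹ = 1 := orderOf_eq_one_iff.1 (Nat.dvd_one.1 h4)
    have h6 : y a = a := by rw [hay, h5, mul_one]
    exact (hπ0 a).2 (hfix k hk hk' a h6)
  exact main_linear B hN hAlt T hTiso hh hTh hfp hcop hfin

/-- The group-theoretic core. -/
theorem grp (hE : Cfsg.IsExtraspecial p Q) (θ : Q ≃* Q) {h : ℕ} (hh : 0 < h) (hθh : θ ^ h = 1)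
    (hfix : ∀ k, 0 < k → k < h → ∀ q : Q, (θ ^ k) q = q → q ∈ center Q)
    (hZ : ∀ z ∈ center Q, θ z = z) (hcop : h.Coprime p) {n : ℕ}
    (hcard : Nat.card Q = p ^ (2 * n + 1)) : h ∣ p ^ n + 1 ∨ h ∣ p ^ n - 1 := by
  classical
  have hc : ∀ x y : Q, ⁅x, y⁆ ∈ center Q :=
    Cfsg.Agent.Lib.PGroup.Extraspecial.IsExtraspecial.comm_mem_center hE
  have hpm : ∀ x : Q, x ^ p ∈ center Q :=
    Cfsg.Agent.Lib.PGroup.Extraspecial.IsExtraspecial.pow_mem_center hE
  have hcomm : ∀ x y : Q ⧸ center Q, x * y = y * x := by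
    intro x y
    obtain ⟨a, rfl⟩ := QuotientGroup.mk_surjective x
    obtain ⟨b, rfl⟩ := QuotientGroup.mk_surjective y
    rw [← QuotientGroup.mk_mul, ← QuotientGroup.mk_mul, QuotientGroup.eq]
    have h1 := hc a⁻¹ b⁻¹
    have h2 : (a * b)⁻¹ * (b * a) = ⁅b⁻¹, a⁻¹⁆ := by
      simp only [commutatorElement_def, inv_inv]
      group
    rw [h2]
    exact hc _ _
  letI cY : CommGroup (Q ⧸ center Q) := { (inferInstance : Group (Q ⧸ center Q)) with mul_comm := hcomm }
  let V := Additive (Q ⧸ center Q)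
  haveI : Finite V := inferInstanceAs (Finite (Q ⧸ center Q))
  let π : Q → V := fun a => Additive.ofMul (a : Q ⧸ center Q)
  have hπs : ∀ v : V, ∃ a, π a = v := fun v => by
    obtain ⟨a, ha⟩ := QuotientGroup.mk_surjective (Additive.toMul v)
    exact ⟨a, by simp only [π]; rw [ha]; rfl⟩
  have hπadd : ∀ a b, π (a * b) = π a + π b := fun a b => rfl
  have hπ0 : ∀ a, π a = 0 ↔ a ∈ center Q := fun a => QuotientGroup.eq_one_iff a
  have hπeq : ∀ a b, π a = π b ↔ a⁻¹ * b ∈ center Q := fun a b => QuotientGroup.eq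
  letI : Module (ZMod p) V := AddCommGroup.zmodModule (n := p) (by
    intro v
    obtain ⟨a, rfl⟩ := hπs v
    have h1 : ∀ k : ℕ, k • π a = π (a ^ k) := by
      intro k
      induction k with
      | zero => simpa using ((hπ0 1).2 (one_mem _)).symm
      | succ k ih => rw [succ_nsmul, ih, pow_succ, hπadd]
    rw [h1, hπ0]
    exact hpm a)
  -- dimension
  have hfin : Module.finrank (ZMod p) V = 2 * n := by
    have h3 : Nat.card (center Q) * (center Q).index = Nat.card Q := (center Q).card_mul_index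
    rw [hE.2, hcard, pow_succ, mul_comm] at h3
    have h5 : (center Q).index = p ^ (2 * n) := Nat.eq_of_mul_eq_mul_right hp.out.pos h3
    exact finrank_of_card (p := p) (V := V) h5
  exact core hE θ hh hθh hfix hZ hcop hc π hπs hπadd hπ0 hπeq hfin

end Grp

/-- Let P be an extraspecial p-group of order p^(2n+1) and H a cyclic group of order h prime to p acting on P (inside a common finite group: H normalizes P) so that C_P(x) = Z(P) for every non-identity x ∈ H. Then h divides p^n + 1 or h divides p^n − 1. -/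
theorem result {G : Type*} [Group G] [Finite G] {p : ℕ} [Fact p.Prime] (P H : Subgroup G) (hP : Cfsg.IsExtraspecial p ↥P) (n : ℕ) (hn : Nat.card P = p ^ (2 * n + 1)) (hH : IsCyclic H) (hcop : (Nat.card H).Coprime p) (hHP : H ≤ Subgroup.normalizer (P : Set G)) (hfix : ∀ x ∈ H, x ≠ 1 → P ⊓ Subgroup.centralizer {x} = (Subgroup.center ↥P).map P.subtype) : Nat.card H ∣ p ^ n + 1 ∨ Nat.card H ∣ p ^ n - 1 := by
  classical
  obtain ⟨⟨x, hxH⟩, hgen⟩ := hH.exists_generator
  have hord : orderOf x = Nat.card H := by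
    rw [← Subgroup.orderOf_mk x hxH]
    exact orderOf_eq_card_of_forall_mem_zpowers hgen
  have hxN : x ∈ Subgroup.normalizer (P : Set G) := hHP hxH
  let θ : P ≃* P := Subgroup.normalizerMonoidHom P ⟨x, hxN⟩
  have hθ : ∀ q : P, ((θ q : P) : G) = x * q * x⁻¹ := fun q => rfl
  have hθk : ∀ (k : ℕ) (q : P), (((θ ^ k) q : P) : G) = x ^ k * q * (x ^ k)⁻¹ := by
    intro k q
    induction k with
    | zero => simp
    | succ k ih =>
      rw [pow_succ', MulAut.mul_apply, hθ, ih, pow_succ']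
      group
  have hpos : 0 < Nat.card H := Nat.card_pos
  refine grp (Q := P) hP θ hpos ?_ ?_ ?_ hcop hn
  · ext q
    rw [hθk, ← hord, pow_orderOf_eq_one]
    simp
  · intro k hk hk' q hq
    have hxk : x ^ k ∈ H := H.pow_mem hxH k
    have hne : x ^ k ≠ 1 := pow_ne_one_of_lt_orderOf hk.ne' (hord ▸ hk')
    have h1 : (q : G) ∈ P ⊓ Subgroup.centralizer {x ^ k} := by
      refine Subgroup.mem_inf.2 ⟨q.2, ?_⟩
      rw [Subgroup.mem_centralizer_singleton_iff]
      have h2 := congrArg (Subtype.val) hq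
      rw [hθk, mul_inv_eq_iff_eq_mul] at h2
      exact h2.symm
    rw [hfix _ hxk hne] at h1
    obtain ⟨w, hw, hwq⟩ := h1
    have : w = q := Subtype.ext hwq
    rwa [← this]
  · intro z hz
    by_cases hx1 : x = 1
    · apply Subtype.ext
      rw [hθ, hx1]
      simp
    · have h1 : (z : G) ∈ P ⊓ Subgroup.centralizer {x} := by
        rw [hfix _ hxH hx1]
        exact ⟨z, hz, rfl⟩
      apply Subtype.ext
      rw [hθ]
      have h2 := (Subgroup.mem_inf.1 h1).2
      rw [Subgroup.mem_centralizer_singleton_iff] at h2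
      rw [← h2]
      group

end Cfsg.Agent.S3767
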