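import Cfsg.Statements.S3768
import Mathlib
import Cfsg.Agent.Lib.Frobenius.Basic
import Cfsg.Agent.Lib.Char.FrobeniusKernel

set_option autoImplicit false
open Cfsg

namespace Cfsg.Agent.S3768

open Cfsg.Agent.Lib.Frobenius.Basic

/-- Let G be a finite Frobenius group with Frobenius complement R and Frobenius kernel K (the identity together with the elements in no conjugate of R), and let N be a normal subgroup of G not containing K. Then G/N is a Frobenius group with Frobenius complement RN/N whose Frobenius kernel is the image of K. -/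
theorem result {G : Type*} [Group G] [Finite G] (R : Subgroup G) (hR : Cfsg.IsFrobeniusComplement R) (N : Subgroup G) [N.Normal] (hKN : ¬ Cfsg.frobeniusKernel R ⊆ N) : Cfsg.IsFrobeniusComplement (R.map (QuotientGroup.mk' N)) ∧ Cfsg.frobeniusKernel (R.map (QuotientGroup.mk' N)) = QuotientGroup.mk' N '' Cfsg.frobeniusKernel R := by
  classical
  obtain ⟨K, hK, hKn, hc⟩ := Lib.Char.FrobeniusKernel.frobenius_theorem R hR
  haveI := hKn
  have hNK : N ≤ K := by
    rcases kernel_comparable hR hK (inferInstance : N.Normal) with h | h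
    · exfalso
      apply hKN
      rw [← hK]
      exact h
    · exact h
  have hdis : ∀ x, x ∈ K → x ∈ R → x = 1 := by
    intro x hx hx'
    have := hc.disjoint.le_bot (Subgroup.mem_inf.mpr ⟨hx, hx'⟩)
    simpa using this
  have hfix : ∀ r ∈ R, r ≠ 1 → ∀ k ∈ K, r * k = k * r → k = 1 :=
    fun r hr hr1 k hk hcomm => kernel_fpf hR hK hr hr1 hk hcomm
  let π := QuotientGroup.mk' N
  let Kb : Subgroup (G ⧸ N) := K.map π
  let Rb : Subgroup (G ⧸ N) := R.map π
  haveI hKbn : Kb.Normal := Subgroup.Normal.map hKn π (QuotientGroup.mk'_surjective N)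
  have hcb : Kb.IsComplement' Rb := by
    apply Subgroup.isComplement'_of_disjoint_and_mul_eq_univ
    · rw [Subgroup.disjoint_def]
      rintro _ ⟨k, hk, rfl⟩ ⟨r, hr, hrk⟩
      have h1 : k⁻¹ * r ∈ N := QuotientGroup.eq.mp hrk.symm
      have h2 : r ∈ K := by
        have : r = k * (k⁻¹ * r) := by group
        rw [this]
        exact K.mul_mem hk (hNK h1)
      have h3 := hdis r h2 hr
      rw [← hrk, h3]
      simp
    · ext x
      simp only [Set.mem_mul, Set.mem_univ, iff_true]
      obtain ⟨g, rfl⟩ := QuotientGroup.mk'_surjective N x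
      have hg : g ∈ K ⊔ R := by rw [hc.sup_eq_top]; trivial
      obtain ⟨k, hk, r, hr, rfl⟩ := Subgroup.mem_sup_of_normal_left.mp hg
      exact ⟨π k, ⟨k, hk, rfl⟩, π r, ⟨r, hr, rfl⟩, (map_mul π k r).symm⟩
  have hKb : Kb ≠ ⊥ := by
    intro h
    apply hKN
    rw [← hK]
    intro x hx
    have : π x ∈ Kb := ⟨x, hx, rfl⟩
    rw [h, Subgroup.mem_bot] at this
    exact (QuotientGroup.eq_one_iff x).mp this
  have hRb : Rb ≠ ⊥ := by
    intro h
    apply hR.1
    rw [eq_bot_iff]
    intro x hx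
    have : π x ∈ Rb := ⟨x, hx, rfl⟩
    rw [h, Subgroup.mem_bot] at this
    have h1 : x ∈ N := (QuotientGroup.eq_one_iff x).mp this
    exact (Subgroup.mem_bot).mpr (hdis x (hNK h1) hx)
  have hfixb : ∀ h ∈ Rb, h ≠ 1 → ∀ k ∈ Kb, h * k = k * h → k = 1 := by
    rintro _ ⟨r, hr, rfl⟩ hr1 _ ⟨k, hk, rfl⟩ hcomm
    have hr1' : r ≠ 1 := by
      rintro rfl
      exact hr1 (map_one π)
    -- `k⁻¹ r k r⁻¹ ∈ N`
    have h1 : k⁻¹ * r * k * r⁻¹ ∈ N := by
      have h2 : π (k⁻¹ * r * k * r⁻¹) = 1 := by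
        simp only [map_mul, map_inv]
        calc (π k)⁻¹ * π r * π k * (π r)⁻¹ = (π k)⁻¹ * (π r * π k) * (π r)⁻¹ := by group
          _ = (π k)⁻¹ * (π k * π r) * (π r)⁻¹ := by rw [hcomm]
          _ = 1 := by group
      exact (QuotientGroup.eq_one_iff _).mp h2
    obtain ⟨u, hu, huk⟩ := exists_conj_of_fpf (x := r) (K := N)
      (by rw [Subgroup.normalizer_eq_top_iff.mpr inferInstance]; trivial)
      (fun k hk hcomm => hfix r hr hr1' k (hNK hk) hcomm) h1
    have h3 : u⁻¹ * r * u = k⁻¹ * r * k := mul_right_cancel huk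
    have h4 : r * (k * u⁻¹) = (k * u⁻¹) * r := by
      calc r * (k * u⁻¹) = k * (k⁻¹ * r * k) * u⁻¹ := by group
        _ = k * (u⁻¹ * r * u) * u⁻¹ := by rw [h3]
        _ = (k * u⁻¹) * r := by group
    have h5 := hfix r hr hr1' _ (K.mul_mem hk (K.inv_mem (hNK hu))) h4
    have h6 : k = u := mul_inv_eq_one.mp h5
    rw [h6]
    exact (QuotientGroup.eq_one_iff u).mpr hu
  refine ⟨isFrobeniusComplement_of_complement hcb hKb hRb hfixb, ?_⟩
  rw [frobeniusKernel_eq_of_complement hcb hfixb, ← hK]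
  rfl

end Cfsg.Agent.S3768
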