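import Cfsg.Statements.S3769
import Cfsg.Agent.Lib.OddOrder.HHGroup
import Cfsg.Agent.Lib.Coprime.InvSylow

set_option autoImplicit false
open Cfsg

namespace Cfsg.Agent.S3769

/-- Let G and V be subgroups of a finite group with G solvable of odd order normalizing V, V an elementary abelian ℓ-group for a prime ℓ not dividing the order of G, and suppose G has a normal Hall subgroup K with a complement R of prime order. If C_V(R) = 1, then [R, K] centralizes V. -/
theorem result {X : Type*} [Group X] [Finite X] (G : Subgroup X) (hsolv : Group.IsSolvable G) (hodd : Odd (Nat.card G)) (V : Subgroup X) {ℓ : ℕ} (hℓ : ℓ.Prime) (hV : Cfsg.IsElementaryAbelian ℓ V) (hℓG : ¬ ℓ ∣ Nat.card G) (hGV : G ≤ Subgroup.normalizer (V : Set X)) (K R : Subgroup X) (hKG : K ≤ G) (hKn : G ≤ Subgroup.normalizer (K : Set X)) (hHall : (Nat.card K).Coprime (K.relIndex G)) (hRG : R ≤ G) (hR : (Nat.card R).Prime) (hKR : K ⊓ R = ⊥) (hKRG : K ⊔ R = G) (hCV : V ⊓ Subgroup.centralizer (R : Set X) = ⊥) : ⁅R, K⁆ ≤ Subgroup.centralizer (V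 : Set X) := by
  classical
  set r := Nat.card R with hrdef
  haveI hrp : Fact r.Prime := ⟨hR⟩
  haveI hℓp : Fact ℓ.Prime := ⟨hℓ⟩
  haveI : IsCyclic R := isCyclic_of_prime_card (p := r) rfl
  obtain ⟨g, hg⟩ := IsCyclic.exists_generator (α := R)
  set x : X := (g : X) with hxdef
  have hxR : x ∈ R := g.2
  have hRz : R ≤ Subgroup.zpowers x := by
    intro a ha
    obtain ⟨k, hk⟩ := Subgroup.mem_zpowers_iff.mp (hg ⟨a, ha⟩)
    refine ⟨k, ?_⟩
    have := congrArg Subtype.val hk
    simpa using this
  have hxr : x ^ r = 1 := by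
    have h1 : g ^ r = 1 := pow_card_eq_one'
    calc x ^ r = ((g ^ r : R) : X) := by simp [hxdef]
      _ = 1 := by rw [h1]; rfl
  have hxG : x ∈ G := hRG hxR
  have hxV : x ∈ Subgroup.normalizer (V : Set X) := hGV hxG
  -- coprimality
  haveI hKnorm : (K.subgroupOf G).Normal :=
    Subgroup.normal_subgroupOf_of_le_normalizer hKn
  have hrdvd : r ∣ K.relIndex G := by
    have h1 : (⟨x, hxG⟩ : G) ^ (K.subgroupOf G).index ∈ K.subgroupOf G :=
      Subgroup.pow_index_mem _ _
    have h2 : x ^ K.relIndex G ∈ K := by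
      have := Subgroup.mem_subgroupOf.mp h1
      rw [Subgroup.coe_pow] at this
      exact this
    have h3 : x ^ K.relIndex G ∈ K ⊓ R := ⟨h2, R.pow_mem hxR _⟩
    rw [hKR, Subgroup.mem_bot] at h3
    have hord : orderOf x = r := by
      have : orderOf x ∣ r := orderOf_dvd_of_pow_eq_one hxr
      rcases (Nat.dvd_prime hR).mp this with h | h
      · exfalso
        have hx1 : x = 1 := orderOf_eq_one_iff.mp h
        have hR1 : R = ⊥ := by
          rw [eq_bot_iff]
          intro a ha
          have := hRz ha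
          rw [hx1] at this
          simpa using this
        rw [hR1] at hrdef
        simp at hrdef
        rw [hrdef] at hR
        exact Nat.not_prime_one hR
      · exact h
    rw [← hord]
    exact orderOf_dvd_of_pow_eq_one h3
  have hcop : (Nat.card R).Coprime (Nat.card K) :=
    (Nat.Coprime.coprime_dvd_right hrdvd hHall).symm
  have hKsub : K ≤ Subgroup.normalizer (V : Set X) := hKG.trans hGV
  have hKsolv : Group.IsSolvable K := by
    haveI := hsolv
    exact Group.isSolvable_of_isSolvable_injective (f := Subgroup.inclusion hKG) (Subgroup.inclusion_injective hKG)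
  have hRN : R ≤ Subgroup.normalizer (K : Set X) := hRG.trans hKn
  -- centralizer normalized
  have hCn : ∀ a ∈ Subgroup.normalizer (V : Set X), ∀ c ∈ Subgroup.centralizer (V : Set X),
      a * c * a⁻¹ ∈ Subgroup.centralizer (V : Set X) := by
    intro a ha c hc
    refine Subgroup.mem_centralizer_iff.mpr ?_
    intro v hv
    have h1 : a⁻¹ * v * a ∈ V := by
      have := (Subgroup.mem_normalizer_iff.mp ha (a⁻¹ * v * a)).mpr (by
        have e : a * (a⁻¹ * v * a) * a⁻¹ = v := by group
        rw [e]
        exact hv)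
      exact this
    have h2 := Subgroup.mem_centralizer_iff.mp hc _ h1
    have h3 : v * (a * c * a⁻¹) = a * ((a⁻¹ * v * a) * c) * a⁻¹ := by group
    rw [h3, h2]
    group
  -- the subgroup `D`
  let D : Subgroup X :=
    { carrier := {k | k ∈ K ∧ x * k * x⁻¹ * k⁻¹ ∈ Subgroup.centralizer (V : Set X)}
      one_mem' := ⟨K.one_mem, by simp⟩
      mul_mem' := by
        rintro a b ⟨ha, ha'⟩ ⟨hb, hb'⟩
        refine ⟨K.mul_mem ha hb, ?_⟩
        have e : x * (a * b) * x⁻¹ * (a * b)⁻¹ =
            (x * a * x⁻¹ * a⁻¹) * (a * (x * b * x⁻¹ * b⁻¹) * a⁻¹) := by group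
        rw [e]
        exact Subgroup.mul_mem _ ha' (hCn a (hKsub ha) _ hb')
      inv_mem' := by
        rintro a ⟨ha, ha'⟩
        refine ⟨K.inv_mem ha, ?_⟩
        have e : x * a⁻¹ * x⁻¹ * a⁻¹⁻¹ = a⁻¹ * (x * a * x⁻¹ * a⁻¹)⁻¹ * a⁻¹⁻¹ := by group
        rw [e]
        exact hCn a⁻¹ (Subgroup.inv_mem _ (hKsub ha)) _ (Subgroup.inv_mem _ ha') }
  have hDK : ∀ k ∈ K, k ∈ D := by
    let D' : Subgroup K := D.subgroupOf K
    have hD'top : D' = ⊤ := by
      rw [← Subgroup.index_eq_one]
      by_contra hne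
      obtain ⟨q, hq, hqdvd⟩ := Nat.exists_prime_and_dvd hne
      haveI hqf : Fact q.Prime := ⟨hq⟩
      have hqK : q ∣ Nat.card K := hqdvd.trans (Subgroup.index_dvd_card D')
      obtain ⟨P, hP⟩ := Cfsg.Agent.Lib.Coprime.InvSylow.exists_invariant_sylow hRN hcop
        (Or.inr hKsolv) q
      set Y : Subgroup X := (P : Subgroup K).map K.subtype with hY
      have hYK : Y ≤ K := Subgroup.map_subtype_le _
      have hYp : IsPGroup q Y :=
        P.isPGroup'.map K.subtype
      have hq2 : q ≠ 2 := by
        rintro rfl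
        have h1 : Nat.card K ∣ Nat.card G := by
          have := Subgroup.card_dvd_of_le hKG
          exact this
        have h2 : Odd (Nat.card K) := Odd.of_dvd_nat hodd h1
        exact (Nat.not_even_iff_odd.mpr h2) (even_iff_two_dvd.mpr hqK)
      have hqr : q ≠ r := by
        rintro rfl
        have h1 := Nat.Coprime.eq_one_of_dvd (Nat.Coprime.coprime_dvd_right hqK hcop) (dvd_refl _)
        exact hR.one_lt.ne' h1
      have hqℓ : q ≠ ℓ := by
        rintro rfl
        exact hℓG (hqK.trans (Subgroup.card_dvd_of_le hKG))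
      have hℓr : ℓ ≠ r := by
        intro h
        apply hℓG
        rw [h]
        exact (Subgroup.card_dvd_of_le hRG)
      have hVp : IsPGroup ℓ V := fun a => ⟨1, Subtype.ext (by simpa using hV.2 a a.2)⟩
      have hxYn : ∀ y ∈ Y, x * y * x⁻¹ ∈ Y := fun y hy =>
        (Subgroup.mem_normalizer_iff.mp (hP hxR) y).mp hy
      have hkey := Cfsg.Agent.Lib.OddOrder.HHGroup.hall_higman_group (p := q) (q := ℓ) (r := r)
        hR hqr hq2 hqℓ hℓr.symm.symm V Y x hxr hVp hYp hxV (hYK.trans hKsub) hxYn
        (by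
          intro t ht hfix
          have hmem : t ∈ V ⊓ Subgroup.centralizer (R : Set X) := by
            refine ⟨ht, Subgroup.mem_centralizer_iff.mpr ?_⟩
            intro a ha
            obtain ⟨k, rfl⟩ := Subgroup.mem_zpowers_iff.mp (hRz ha)
            have hc : Commute x t := by
              have : x * t = t * x := by
                conv_rhs => rw [← hfix]
                group
              exact this
            exact (hc.zpow_left k)
          rw [hCV] at hmem
          exact (Subgroup.mem_bot).mp hmem)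
      have hYD : (P : Subgroup K) ≤ D' := by
        intro y hy
        refine Subgroup.mem_subgroupOf.mpr ⟨y.2, ?_⟩
        exact hkey y ⟨y, hy, rfl⟩
      have h1 : D'.index ∣ (P : Subgroup K).index := Subgroup.index_dvd_of_le hYD
      exact P.not_dvd_index (hqdvd.trans h1)
    intro k hk
    have : (⟨k, hk⟩ : K) ∈ D' := by rw [hD'top]; exact Subgroup.mem_top _
    exact Subgroup.mem_subgroupOf.mp this
  -- powers of `x`
  have hpow : ∀ n : ℕ, ∀ k ∈ K, x ^ n * k * (x ^ n)⁻¹ * k⁻¹ ∈ Subgroup.centralizer (V : Set X) := by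
    intro n
    induction n with
    | zero => intro k _; simp
    | succ n ih =>
      intro k hk
      have e : x ^ (n + 1) * k * (x ^ (n + 1))⁻¹ * k⁻¹ =
          (x * (x ^ n * k * (x ^ n)⁻¹ * k⁻¹) * x⁻¹) * (x * k * x⁻¹ * k⁻¹) := by
        rw [pow_succ']
        group
      rw [e]
      exact Subgroup.mul_mem _ (hCn x hxV _ (ih k hk)) (hDK k hk).2
  rw [Subgroup.commutator_le]
  intro a ha k hk
  obtain ⟨n, rfl⟩ : ∃ n : ℕ, x ^ n = a := by
    have h1 := hRz ha
    rw [← mem_powers_iff_mem_zpowers] at h1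
    exact h1
  exact hpow n k hk

end Cfsg.Agent.S3769
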