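import Cfsg.Statements.S3770
import Cfsg.Agent.Lib.FrobRep.Core
import Cfsg.Agent.Lib.PGroup.VRep
import Cfsg.Agent.Lib.Char.FrobeniusKernel
import Cfsg.Agent.Lib.Frobenius.Basic
import Cfsg.Agent.Lib.Thompson.Main

set_option autoImplicit false
open Cfsg

namespace Cfsg.Agent.S3770

open Cfsg.Agent.Lib.PGroup.VRep Cfsg.Agent.Lib.PGroup.OffPair
open scoped commutatorElement

/-- Let G and V be subgroups of a finite group with G a Frobenius group with complement R of prime order and kernel K, G normalizing V, and V an elementary abelian ℓ-group for a prime ℓ not dividing the order of G. If C_V(R) has order ℓ, then the derived subgroup of K centralizes V. -/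
theorem result {X : Type*} [Group X] [Finite X] (G : Subgroup X) (V : Subgroup X) {ℓ : ℕ} (hℓ : ℓ.Prime) (hV : Cfsg.IsElementaryAbelian ℓ V) (hℓG : ¬ ℓ ∣ Nat.card G) (hGV : G ≤ Subgroup.normalizer (V : Set X)) (R : Subgroup ↥G) (hR : Cfsg.IsFrobeniusComplement R) (hRp : (Nat.card R).Prime) (hCV : Nat.card ↥(V ⊓ Subgroup.centralizer ((R.map G.subtype : Subgroup X) : Set X)) = ℓ) : ⁅Subgroup.closure (Subtype.val '' Cfsg.frobeniusKernel R), Subgroup.closure (Subtype.val '' Cfsg.frobeniusKernel R)⁆ ≤ Subgroup.centralizer (V : Set X) := by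
  classical
  haveI : Fact ℓ.Prime := ⟨hℓ⟩
  obtain ⟨N, hNset, hNn, hc⟩ := Cfsg.Agent.Lib.Char.FrobeniusKernel.frobenius_theorem R hR
  have hmemN : ∀ n : ↥G, n ∈ N ↔ n ∈ Cfsg.frobeniusKernel R := fun n => by
    rw [← hNset]
    rfl
  have hfpf : ∀ h ∈ R, h ≠ 1 → ∀ n ∈ N, h * n = n * h → n = 1 := by
    intro h hh hne n hn hcomm
    exact (Cfsg.Agent.Lib.Frobenius.Basic.eq_one_of_commute_of_mem_kernel hR ((hmemN n).1 hn) hh hcomm).resolve_left hne
  obtain ⟨h, hh, hne⟩ := Cfsg.Agent.Lib.Frobenius.Basic.IsFrobeniusComplement.exists_ne_one hR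
  have hiter : ∀ (i : ℕ) (g : N), (((MulAut.conjNormal (h : ↥G) : N ≃* N))^[i] g : ↥G)
      = h ^ i * g * (h ^ i)⁻¹ := by
    intro i g
    induction i with
    | zero => simp
    | succ i ih =>
      rw [Function.iterate_succ_apply', MulAut.conjNormal_apply, ih]
      group
  have hnil : Group.IsNilpotent N := by
    refine Cfsg.Agent.Lib.Thompson.Main.thompson_nilpotent hRp _ N (MulAut.conjNormal (h : ↥G)) rfl ?_ ?_
    · intro g hg
      have h1 : (MulAut.conjNormal (h : ↥G) g : ↥G) = g := congrArg Subtype.val hg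
      rw [MulAut.conjNormal_apply] at h1
      apply Subtype.ext
      refine hfpf h hh hne g g.2 ?_
      exact mul_inv_eq_iff_eq_mul.1 h1
    · intro g
      apply Subtype.ext
      rw [hiter]
      have : h ^ Nat.card R = 1 := by
        have := pow_card_eq_one' (x := (⟨h, hh⟩ : R))
        exact congrArg Subtype.val this
      rw [this]
      simp
  set ρ := vRep (p := ℓ) hV hGV with hρ
  haveI : Finite (VMod ℓ V hV) := inferInstanceAs (Finite ↥V)
  haveI : Module.Finite (ZMod ℓ) (VMod ℓ V hV) := Module.Finite.of_finite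
  have hcard : ((Nat.card ↥G : ℕ) : ZMod ℓ) ≠ 0 := by
    rw [Ne, ZMod.natCast_eq_zero_iff]
    exact hℓG
  have hcardfx : Nat.card (fx ρ R) = ℓ := by
    rw [hρ, card_fx, hCV]
  have hdim : ∀ x y : VMod ℓ V hV, x ≠ 0 → (∀ r ∈ R, ρ r x = x) → (∀ r ∈ R, ρ r y = y) →
      ∃ c : ZMod ℓ, y = c • x := by
    intro x y hx hxR hyR
    have hxm : x ∈ fx ρ R := hxR
    have hym : y ∈ fx ρ R := hyR
    let f : ZMod ℓ → fx ρ R := fun c => ⟨c • x, (fx ρ R).smul_mem c hxm⟩
    have hf : Function.Injective f := by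
      intro a b hab
      have h1 : a • x = b • x := congrArg Subtype.val hab
      exact smul_left_injective _ hx h1
    have hf2 : Function.Surjective f := by
      refine (Function.Injective.bijective_of_nat_card_le hf ?_).2
      rw [hcardfx, Nat.card_zmod]
    obtain ⟨c, hc'⟩ := hf2 ⟨y, hym⟩
    exact ⟨c, (congrArg Subtype.val hc').symm⟩
  have hcore := Cfsg.Agent.Lib.FrobRep.core ρ hc hfpf hnil hcard hdim
  have hK : Subgroup.closure (Subtype.val '' Cfsg.frobeniusKernel R) = N.map G.subtype := by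
    rw [← hNset]
    have := Subgroup.closure_eq (N.map G.subtype)
    rw [← this]
    congr 1
  rw [hK]
  rw [Subgroup.commutator_le]
  rintro _ ⟨a, ha, rfl⟩ _ ⟨b, hb, rfl⟩
  rw [Subgroup.mem_centralizer_iff]
  intro v hv
  have h1 := hcore a⁻¹ (N.inv_mem ha) b⁻¹ (N.inv_mem hb)
  have h2 := LinearMap.congr_fun h1 (VMod.mk hV v hv)
  have h3 := congrArg VMod.val h2
  simp only [hρ, val_vRep, VMod.val_mk, Subgroup.coe_mul, InvMemClass.coe_inv] at h3
  simp only [Subgroup.coe_subtype, commutatorElement_def]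
  set a' : X := ((a : ↥G) : X)
  set b' : X := ((b : ↥G) : X)
  have h4 : a'⁻¹ * b'⁻¹ * v * (a'⁻¹ * b'⁻¹)⁻¹ = b'⁻¹ * a'⁻¹ * v * (b'⁻¹ * a'⁻¹)⁻¹ := h3
  have h5 : (a' * b' * a'⁻¹ * b'⁻¹) * v * (a' * b' * a'⁻¹ * b'⁻¹)⁻¹ = v := by
    have : (a' * b' * a'⁻¹ * b'⁻¹) * v * (a' * b' * a'⁻¹ * b'⁻¹)⁻¹
        = (a' * b') * (a'⁻¹ * b'⁻¹ * v * (a'⁻¹ * b'⁻¹)⁻¹) * (a' * b')⁻¹ := by group
    rw [this, h4]
    group
  exact (mul_inv_eq_iff_eq_mul.1 h5).symm

end Cfsg.Agent.S3770
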