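import Cfsg.Statements.S3772
import Mathlib
import Cfsg.Agent.Lib.PGroup.ExtraQuad
-- import your own Cfsg.Agent.* helpers here

set_option autoImplicit false
open Cfsg

namespace Cfsg.Agent.S3772

open Cfsg.Agent.Lib.PGroup.ExtraQuad
open scoped commutatorElement

/-- Let G be a finite 2-group whose Frattini subgroup Φ(G) has order 2, with |G : Φ(G)| = 2^d, and let j be the number of elements x of G with x² = 1. Then j = 2^d, or j = 2^d + 2^(d−r) or j = 2^d − 2^(d−r) for some positive integer r with 2r ≤ d. Moreover if d = 2r and j is 2^d + 2^r or 2^d − 2^r, then G is extraspecial. -/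
theorem result {G : Type*} [Group G] [Finite G] (hG : IsPGroup 2 G) (hΦ : Nat.card (frattini G) = 2) (d : ℕ) (hd : (frattini G).index = 2 ^ d) : (Nat.card {x : G // x ^ 2 = 1} = 2 ^ d ∨ ∃ r : ℕ, 1 ≤ r ∧ 2 * r ≤ d ∧ (Nat.card {x : G // x ^ 2 = 1} = 2 ^ d + 2 ^ (d - r) ∨ Nat.card {x : G // x ^ 2 = 1} + 2 ^ (d - r) = 2 ^ d)) ∧ (∀ r : ℕ, d = 2 * r → (Nat.card {x : G // x ^ 2 = 1} = 2 ^ d + 2 ^ r ∨ Nat.card {x : G // x ^ 2 = 1} + 2 ^ r = 2 ^ d) → Cfsg.IsExtraspecial 2 G) := by
  classical
  letI : Fintype G := Fintype.ofFinite G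
  haveI : Fact (Nat.Prime 2) := ⟨Nat.prime_two⟩
  have h := quadPair_of_frattini hG hΦ
  have hcard : Nat.card G = 2 ^ (d + 1) := by
    have := Subgroup.card_mul_index (frattini G)
    rw [hΦ, hd] at this
    rw [← this, pow_succ]; ring
  set j := Nat.card {x : G // x ^ 2 = 1} with hj
  set T := ∑ g : G, sgn (g ^ 2) with hT
  have h2j : 2 * (j : ℤ) = 2 ^ (d + 1) + T := by
    have := QuadPair.two_mul_card_sq_eq_one (G := G)
    rw [← Nat.card_eq_fintype_card, hcard] at this
    push_cast at this
    exact this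
  have hT2 := h.sum_sq_sq
  rw [h.sum_center_sgn, ← Nat.card_eq_fintype_card, hcard] at hT2
  obtain ⟨k, hk⟩ : ∃ k, Nat.card (Subgroup.center G) = 2 ^ k :=
    (IsPGroup.iff_card).1 (hG.to_subgroup _)
  have hcen_pos : Nat.card (frattini G) ≤ Nat.card (Subgroup.center G) :=
    Subgroup.card_le_of_le h.le_center
  have hk1 : 1 ≤ k := by
    rw [hΦ, hk] at hcen_pos
    by_contra hk0
    have : k = 0 := by omega
    subst this
    omega
  -- abelian with trivial squares contradicts Φ ≠ 1
  have hnot_top : (∀ u ∈ Subgroup.center G, u ^ 2 = 1) → Subgroup.center G ≠ ⊤ := by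
    intro hc htop
    have hle : frattini G ≤ ⊥ := by
      rw [Cfsg.Agent.Lib.PGroup.Basic.frattini_le_iff hG]
      constructor
      · intro x
        rw [Subgroup.mem_bot]
        exact hc x (htop ▸ Subgroup.mem_top x)
      · intro x y
        rw [Subgroup.mem_bot]
        exact QuadPair.comm_eq_one_of_mem_center (htop ▸ Subgroup.mem_top x)
    have hbot : frattini G = ⊥ := le_bot_iff.1 hle
    rw [hbot] at hΦ
    simp at hΦ
  have hmain : (∀ u ∈ Subgroup.center G, u ^ 2 = 1) →
      ∃ s : ℕ, d + 1 + k = 2 * s ∧ (T = 2 ^ s ∨ T = -2 ^ s) := by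
    intro hc
    rw [if_pos hc, hk] at hT2
    push_cast at hT2
    rw [← pow_add] at hT2
    exact int_sq_eq_two_pow hT2
  have hzero : ¬ (∀ u ∈ Subgroup.center G, u ^ 2 = 1) → T = 0 := by
    intro hc
    rw [if_neg hc, mul_zero] at hT2
    exact pow_eq_zero_iff (two_ne_zero) |>.1 hT2
  refine ⟨?_, ?_⟩
  · by_cases hc : ∀ u ∈ Subgroup.center G, u ^ 2 = 1
    · right
      obtain ⟨s, hs, hsT⟩ := hmain hc
      have hkle : k ≠ d + 1 := by
        intro hkd
        apply hnot_top hc
        apply Subgroup.eq_top_of_card_eq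
        rw [hk, hcard, hkd]
      have hkle2 : k ≤ d + 1 := by
        have h1 := Subgroup.card_le_card_group (Subgroup.center G)
        rw [hk, hcard] at h1
        exact (Nat.pow_le_pow_iff_right (by norm_num)).1 h1
      obtain ⟨t, rfl⟩ : ∃ t, s = t + 1 := ⟨s - 1, by omega⟩
      refine ⟨d - t, by omega, by omega, ?_⟩
      have hdt : d - (d - t) = t := by omega
      rw [hdt]
      rcases hsT with h1 | h1
      · left
        rw [h1] at h2j
        have h3 : (2:ℤ) * (j : ℤ) = 2 * (2 ^ d + 2 ^ t) := by rw [h2j]; ring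
        have h4 : (j : ℤ) = 2 ^ d + 2 ^ t := by linarith
        exact_mod_cast h4
      · right
        rw [h1] at h2j
        have h3 : (2:ℤ) * (j : ℤ) = 2 * (2 ^ d - 2 ^ t) := by rw [h2j]; ring
        have h4 : (j : ℤ) + 2 ^ t = 2 ^ d := by linarith
        exact_mod_cast h4
    · left
      have h1 := hzero hc
      rw [h1] at h2j
      have h3 : (2:ℤ) * (j : ℤ) = 2 * 2 ^ d := by rw [h2j]; ring
      have h4 : (j : ℤ) = 2 ^ d := by linarith
      exact_mod_cast h4
  · intro r hdr hjr
    have hTr : T = 2 ^ (r + 1) ∨ T = -2 ^ (r + 1) := by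
      rcases hjr with h1 | h1
      · left
        have h3 : (j : ℤ) = 2 ^ d + 2 ^ r := by exact_mod_cast h1
        rw [h3] at h2j
        rw [pow_succ] at h2j ⊢
        linarith
      · right
        have h3 : (j : ℤ) + 2 ^ r = 2 ^ d := by exact_mod_cast h1
        rw [pow_succ] at h2j ⊢
        linarith
    have hTne : T ≠ 0 := by
      have h0 : (2:ℤ) ^ (r + 1) ≠ 0 := by positivity
      rcases hTr with h1 | h1
      · rw [h1]; exact h0
      · rw [h1]; exact neg_ne_zero.2 h0
    have hc : ∀ u ∈ Subgroup.center G, u ^ 2 = 1 := by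
      by_contra hc
      exact hTne (hzero hc)
    obtain ⟨s, hs, hsT⟩ := hmain hc
    have hsr : s = r + 1 := by
      have h1 : (2:ℤ) ^ s = 2 ^ (r + 1) := by
        rcases hTr with h1 | h1 <;> rcases hsT with h2 | h2
        · rw [← h1, h2]
        · have : (0:ℤ) < 2 ^ s := by positivity
          have : (0:ℤ) < 2 ^ (r + 1) := by positivity
          linarith
        · have : (0:ℤ) < 2 ^ s := by positivity
          have : (0:ℤ) < 2 ^ (r + 1) := by positivity
          linarith
        · linarith
      have h2 : (2:ℕ) ^ s = 2 ^ (r + 1) := by exact_mod_cast h1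
      exact Nat.pow_right_injective (le_refl 2) h2
    have hk' : k = 1 := by omega
    have hZ2 : Nat.card (Subgroup.center G) = 2 := by rw [hk, hk']; rfl
    have hfr : frattini G = Subgroup.center G :=
      Subgroup.eq_of_le_of_card_ge h.le_center (by rw [hΦ, hZ2])
    refine ⟨⟨hG, hfr, ?_⟩, hZ2⟩
    have hcomm_le : commutator G ≤ Subgroup.center G := by
      rw [← hfr]; exact Cfsg.Agent.Lib.PGroup.Basic.commutator_le_frattini hG
    have hcomm_ne : commutator G ≠ ⊥ := by
      intro hb
      apply hnot_top hc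
      have : ∀ a b : G, a * b = b * a := by
        intro a b
        have h1 : ⁅a, b⁆ ∈ commutator G :=
          Subgroup.commutator_mem_commutator (Subgroup.mem_top a) (Subgroup.mem_top b)
        rw [hb, Subgroup.mem_bot, commutatorElement_eq_one_iff_mul_comm] at h1
        exact h1
      rw [eq_top_iff]
      intro x _
      rw [Subgroup.mem_center_iff]
      exact fun g => this g x
    apply Subgroup.eq_of_le_of_card_ge hcomm_le
    rw [hZ2]
    have h1 : Nat.card (commutator G) ∣ Nat.card (Subgroup.center G) :=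
      Subgroup.card_dvd_of_le hcomm_le
    rw [hZ2] at h1
    have h2 : Nat.card (commutator G) ≠ 1 := by
      intro h3
      exact hcomm_ne (Subgroup.eq_bot_of_card_eq _ h3)
    have h3 := (Nat.dvd_prime Nat.prime_two).1 h1
    omega

end Cfsg.Agent.S3772
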