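import Cfsg.Statements.S3774
import Mathlib
import Cfsg.Agent.Lib.PGroup.CyclicMax2

set_option autoImplicit false
open Cfsg

namespace Cfsg.Agent.S3774

open Subgroup

/-- Let G be a nontrivial finite 2-group whose automorphism group permutes the involutions of G transitively. Then every involution of G is central, so that the involutions together with 1 form the subgroup Ω₁(Z(G)), and if this subgroup has order q then |G| is a power of q. -/
theorem result {G : Type*} [Group G] [Finite G] [Nontrivial G] (hG : IsPGroup 2 G) (htrans : ∀ x y : G, x ≠ 1 → x ^ 2 = 1 → y ≠ 1 → y ^ 2 = 1 → ∃ a : MulAut G, a x = y) : (∀ x : G, x ^ 2 = 1 → x ∈ Subgroup.center G) ∧ ∃ m : ℕ, Nat.card G = Nat.card {z : G // z ^ 2 = 1} ^ m := by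

  classical
  haveI h2 : Fact (Nat.Prime 2) := ⟨Nat.prime_two⟩
  haveI := Fintype.ofFinite G
  have hcen : ∀ x : G, x ^ 2 = 1 → x ∈ center G := by
    obtain ⟨z, hzc, hzo⟩ := Cfsg.Agent.Lib.PGroup.CyclicMax2.exists_central_order_p hG
    have hz2 : z ^ 2 = 1 := by
      rw [← hzo]
      exact pow_orderOf_eq_one z
    have hz1 : z ≠ 1 := by
      rintro rfl
      simp at hzo
    intro x hx
    by_cases hx1 : x = 1
    · rw [hx1]; exact one_mem _
    obtain ⟨a, rfl⟩ := htrans z x hz1 hz2 hx1 hx
    rw [mem_center_iff]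
    intro g
    obtain ⟨g', rfl⟩ := a.surjective g
    rw [← map_mul, ← map_mul, mem_center_iff.1 hzc g']
  refine ⟨hcen, ?_⟩
  -- the subgroup of involutions
  let Ω : Subgroup G :=
    { carrier := {z | z ^ 2 = 1}
      one_mem' := by simp
      mul_mem' := by
        intro a b ha hb
        have ha' : a ^ 2 = 1 := ha
        have hb' : b ^ 2 = 1 := hb
        show (a * b) ^ 2 = 1
        have hc : Commute a b := (mem_center_iff.1 (hcen a ha') b).symm
        rw [hc.mul_pow, ha', hb', one_mul]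
      inv_mem' := by
        intro a ha
        have ha' : a ^ 2 = 1 := ha
        show a⁻¹ ^ 2 = 1
        rw [inv_pow, ha', inv_one] }
  have hcardΩ : Nat.card {z : G // z ^ 2 = 1} = Nat.card Ω := rfl
  rw [hcardΩ]
  obtain ⟨N, hN⟩ := IsPGroup.iff_card.1 hG
  obtain ⟨n, hn⟩ := IsPGroup.iff_card.1 (hG.to_subgroup Ω)
  -- the map to involutions
  let π : G → G := fun x => x ^ (orderOf x / 2)
  have hord2 : ∀ x : G, x ≠ 1 → 2 ∣ orderOf x := by
    intro x hx
    obtain ⟨k, hk⟩ := hG x
    obtain ⟨j, _, hj⟩ := (Nat.dvd_prime_pow Nat.prime_two).1 (orderOf_dvd_of_pow_eq_one hk)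
    have hj0 : j ≠ 0 := by
      rintro rfl
      rw [pow_zero] at hj
      exact hx (orderOf_eq_one_iff.1 hj)
    rw [hj]
    exact dvd_pow_self 2 hj0
  have hπ2 : ∀ x : G, x ≠ 1 → (π x) ^ 2 = 1 := by
    intro x hx
    show (x ^ (orderOf x / 2)) ^ 2 = 1
    rw [← pow_mul, Nat.div_mul_cancel (hord2 x hx), pow_orderOf_eq_one]
  have hπ1 : ∀ x : G, x ≠ 1 → π x ≠ 1 := by
    intro x hx
    apply pow_ne_one_of_lt_orderOf
    · have h1 := orderOf_pos x
      have h2' := hord2 x hx
      omega
    · have h1 := orderOf_pos x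
      have h2' := hord2 x hx
      omega
  have hπa : ∀ (a : MulAut G) (x : G), π (a x) = a (π x) := by
    intro a x
    show (a x) ^ (orderOf (a x) / 2) = a (x ^ (orderOf x / 2))
    have h1 : orderOf (a x) = orderOf x :=
      orderOf_injective a.toMonoidHom a.injective x
    rw [h1, map_pow]
  -- fibres have equal size
  let s : Finset G := Finset.univ.filter (fun x => x ≠ 1)
  let t : Finset G := Finset.univ.filter (fun x => x ≠ 1 ∧ x ^ 2 = 1)
  have hmaps : Set.MapsTo π s t := by
    intro x hx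
    have hx1 : x ≠ 1 := by simpa [s] using hx
    simp only [t, Finset.coe_filter, Finset.mem_univ, true_and, Set.mem_setOf_eq]
    exact ⟨hπ1 x hx1, hπ2 x hx1⟩
  have hsum := Finset.card_eq_sum_card_fiberwise hmaps
  have hfib : ∀ z ∈ t, ∀ z' ∈ t, (s.filter (fun x => π x = z)).card =
      (s.filter (fun x => π x = z')).card := by
    intro z hz z' hz'
    have hz0 : z ≠ 1 ∧ z ^ 2 = 1 := by simpa [t] using hz
    have hz0' : z' ≠ 1 ∧ z' ^ 2 = 1 := by simpa [t] using hz'
    obtain ⟨a, ha⟩ := htrans z z' hz0.1 hz0.2 hz0'.1 hz0'.2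
    apply Finset.card_bij (fun x _ => a x)
    · intro x hx
      simp only [Finset.mem_filter, s, Finset.mem_univ, true_and] at hx ⊢
      refine ⟨?_, ?_⟩
      · exact fun h => hx.1 (a.map_eq_one_iff.1 h)
      · rw [hπa, hx.2, ha]
    · intro x _ y _ h
      exact a.injective h
    · intro y hy
      simp only [Finset.mem_filter, s, Finset.mem_univ, true_and] at hy
      refine ⟨a⁻¹ y, ?_, ?_⟩
      · simp only [Finset.mem_filter, s, Finset.mem_univ, true_and]
        refine ⟨fun h => hy.1 ?_, ?_⟩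
        · have h3 : a (a⁻¹ y) = y := by
            rw [← MulAut.mul_apply, mul_inv_cancel]; rfl
          rw [← h3, h, map_one]
        · apply a.injective
          rw [← hπa]
          have h3 : a (a⁻¹ y) = y := by
            rw [← MulAut.mul_apply, mul_inv_cancel]; rfl
          rw [h3, hy.2, ha]
      · rw [← MulAut.mul_apply, mul_inv_cancel]; rfl
  have hscard : s.card = 2 ^ N - 1 := by
    have h1 : s = Finset.univ.erase (1 : G) := by
      ext x
      simp [s]
    rw [h1, Finset.card_erase_of_mem (Finset.mem_univ _), Finset.card_univ,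
      ← Nat.card_eq_fintype_card, hN]
  have htcard : t.card = 2 ^ n - 1 := by
    have h1 : t = ((Finset.univ.filter (fun x : G => x ^ 2 = 1)).erase 1) := by
      ext x
      simp [t, and_comm]
    rw [h1, Finset.card_erase_of_mem (by simp)]
    have h3 : (Finset.univ.filter (fun x : G => x ^ 2 = 1)).card = Nat.card Ω := by
      rw [Nat.card_eq_fintype_card, ← Fintype.card_subtype]
      rfl
    rw [h3, hn]
  have hdvd : 2 ^ n - 1 ∣ 2 ^ N - 1 := by
    rw [← hscard, ← htcard, hsum]
    rcases t.eq_empty_or_nonempty with ht | ⟨z₀, hz₀⟩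
    · simp [ht]
    · rw [Finset.sum_congr rfl (fun z hz => hfib z hz z₀ hz₀), Finset.sum_const, smul_eq_mul]
      exact dvd_mul_right _ _
  have hg := Nat.pow_sub_one_gcd_pow_sub_one 2 n N
  rw [Nat.gcd_eq_left hdvd] at hg
  have hpow : 2 ^ n = 2 ^ Nat.gcd n N := by
    have h1 : 1 ≤ 2 ^ n := Nat.one_le_two_pow
    have h3 : 1 ≤ 2 ^ Nat.gcd n N := Nat.one_le_two_pow
    omega
  have hgcd : n = Nat.gcd n N := Nat.pow_right_injective (le_refl 2) hpow
  have hnN : n ∣ N := by
    rw [hgcd]
    exact Nat.gcd_dvd_right n N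
  obtain ⟨m, hm⟩ := hnN
  refine ⟨m, ?_⟩
  rw [hN, hn, hm, pow_mul]

end Cfsg.Agent.S3774
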