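import Cfsg.Statements.S3775
import Cfsg.Agent.Lib.Coprime.Averaging

set_option autoImplicit false
open Cfsg

namespace Cfsg.Agent.S3775

open Cfsg.Agent.Lib.Coprime.Averaging

variable {A : Type*} [CommGroup A] [Finite A] {p : ℕ} [hp : Fact p.Prime]

/-- Bezout step: if `y ^ j` and `y ^ p` lie in `K`, and `p ∤ j`, then `y ∈ K`. -/
theorem mem_of_pow_mem {K : Subgroup A} {y : A} {j : ℤ} (hj : ¬ (p : ℤ) ∣ j)
    (h1 : y ^ j ∈ K) (h2 : y ^ p ∈ K) : y ∈ K := by
  have hc : IsCoprime j (p : ℤ) := by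
    have := (Nat.prime_iff_prime_int.mp hp.out)
    exact ((Prime.coprime_iff_not_dvd this).mpr hj).symm
  obtain ⟨s, t, hst⟩ := hc
  have h3 : y = (y ^ j) ^ s * (y ^ p) ^ t := by
    have : (y ^ p) ^ t = y ^ ((p : ℤ) * t) := by rw [zpow_mul, zpow_natCast]
    rw [this, ← zpow_mul, ← zpow_add]
    have : j * s + (p : ℤ) * t = 1 := by linarith
    rw [this, zpow_one]
  rw [h3]
  exact K.mul_mem (K.zpow_mem h1 s) (K.zpow_mem h2 t)

/-- A maximal subgroup avoiding `U` : if `a ^ p` lies in it then `a` lies in `U ⊔ C`. -/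
theorem mem_sup_of_max {U C : Subgroup A} (hUC : U ⊓ C = ⊥)
    (hmax : ∀ C' : Subgroup A, C ≤ C' → U ⊓ C' = ⊥ → C' = C)
    {a : A} (ha : a ^ p ∈ C) : a ∈ U ⊔ C := by
  classical
  by_cases hac : a ∈ C
  · exact Subgroup.mem_sup_right hac
  have hne : U ⊓ (C ⊔ Subgroup.zpowers a) ≠ ⊥ := by
    intro h
    have h1 := hmax _ le_sup_left h
    apply hac
    rw [← h1]
    exact Subgroup.mem_sup_right (Subgroup.mem_zpowers a)
  obtain ⟨u, ⟨hu, hu'⟩, hu1⟩ := ((U ⊓ (C ⊔ Subgroup.zpowers a)).bot_or_exists_ne_one).resolve_left hne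
  obtain ⟨c, hc, z, hz, rfl⟩ := Subgroup.mem_sup.mp hu'
  obtain ⟨j, rfl⟩ := Subgroup.mem_zpowers_iff.mp hz
  by_cases hj : (p : ℤ) ∣ j
  · exfalso
    obtain ⟨k, rfl⟩ := hj
    have h1 : a ^ ((p : ℤ) * k) ∈ C := by
      rw [zpow_mul, zpow_natCast]
      exact C.zpow_mem ha k
    have h2 : c * a ^ ((p : ℤ) * k) ∈ U ⊓ C := ⟨hu, C.mul_mem hc h1⟩
    rw [hUC] at h2
    exact hu1 h2
  · apply mem_of_pow_mem (p := p) hj
    · have : a ^ j = c⁻¹ * (c * a ^ j) := by group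
      rw [this]
      exact (U ⊔ C).mul_mem (Subgroup.mem_sup_right (C.inv_mem hc)) (Subgroup.mem_sup_left hu)
    · exact Subgroup.mem_sup_right ha

section Core

variable {e : ℕ} (he : ∀ a : A, a ^ (p ^ (e + 1)) = 1) {U : Subgroup A}
  (hUT : ∀ u ∈ U, ∃ a : A, u = a ^ (p ^ e))

include hUT in
/-- A subgroup mapping onto `U` under `a ↦ a ^ (p ^ e)` in which the kernel consists of `p`-th powers. -/
theorem exists_H : ∃ H : Subgroup A, (∀ h ∈ H, h ^ (p ^ e) ∈ U) ∧ (∀ u ∈ U, ∃ h ∈ H, h ^ (p ^ e) = u) ∧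
    (∀ h ∈ H, h ^ (p ^ e) = 1 → ∃ g ∈ H, h = g ^ p) := by
  classical
  let τ : A →* A := powMonoidHom (p ^ e)
  have hτ : ∀ a, τ a = a ^ (p ^ e) := fun a => rfl
  let S : Set (Subgroup A) := {H | (∀ h ∈ H, h ^ (p ^ e) ∈ U) ∧ (∀ u ∈ U, ∃ h ∈ H, h ^ (p ^ e) = u)}
  have hS : S.Nonempty := by
    refine ⟨U.comap τ, fun h hh => hh, fun u hu => ?_⟩
    obtain ⟨a, rfl⟩ := hUT u hu
    exact ⟨a, hu, rfl⟩
  obtain ⟨H, hH⟩ := (Set.toFinite S).exists_minimal hS
  refine ⟨H, hH.1.1, hH.1.2, fun k hk hk1 => ?_⟩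
  by_contra hkp
  push Not at hkp
  -- the `p`-th powers of `H`
  let Hp : Subgroup A := H.map (powMonoidHom p)
  have hHpH : Hp ≤ H := by
    rintro _ ⟨h, hh, rfl⟩
    exact H.pow_mem hh p
  have hkHp : k ∉ Hp := by
    rintro ⟨g, hg, rfl⟩
    exact hkp g hg rfl
  let S' : Set (Subgroup A) := {M | Hp ≤ M ∧ M ≤ H ∧ k ∉ M}
  have hS' : S'.Nonempty := ⟨Hp, le_rfl, hHpH, hkHp⟩
  obtain ⟨M, hM⟩ := (Set.toFinite S').exists_maximal hS'
  have hcov : ∀ y ∈ H, y ∈ M ⊔ Subgroup.zpowers k := by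
    intro y hy
    by_cases hyM : y ∈ M
    · exact Subgroup.mem_sup_left hyM
    have hk' : k ∈ M ⊔ Subgroup.zpowers y := by
      by_contra hcon
      have h1 : (M ⊔ Subgroup.zpowers y) ∈ S' := by
        refine ⟨hM.1.1.trans le_sup_left, sup_le hM.1.2.1 ?_, hcon⟩
        rw [Subgroup.zpowers_le]
        exact hy
      have h2 := hM.2 h1 le_sup_left
      exact hyM (h2 (Subgroup.mem_sup_right (Subgroup.mem_zpowers y)))
    obtain ⟨m, hm, z, hz, hmz⟩ := Subgroup.mem_sup.mp hk'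
    obtain ⟨j, rfl⟩ := Subgroup.mem_zpowers_iff.mp hz
    have hyp : y ^ p ∈ M := hM.1.1 ⟨y, hy, rfl⟩
    by_cases hj : (p : ℤ) ∣ j
    · exfalso
      obtain ⟨t, rfl⟩ := hj
      apply hM.1.2.2
      rw [← hmz]
      refine M.mul_mem hm ?_
      rw [zpow_mul, zpow_natCast]
      exact M.zpow_mem hyp t
    · apply mem_of_pow_mem (p := p) hj
      · have : y ^ j = m⁻¹ * (m * y ^ j) := by group
        rw [this, hmz]
        exact (M ⊔ Subgroup.zpowers k).mul_mem (Subgroup.mem_sup_left (M.inv_mem hm))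
          (Subgroup.mem_sup_right (Subgroup.mem_zpowers k))
      · exact Subgroup.mem_sup_left hyp
  have hMS : M ∈ S := by
    refine ⟨fun h hh => hH.1.1 h (hM.1.2.1 hh), fun u hu => ?_⟩
    obtain ⟨h, hh, rfl⟩ := hH.1.2 u hu
    obtain ⟨m, hm, z, hz, rfl⟩ := Subgroup.mem_sup.mp (hcov h hh)
    obtain ⟨j, rfl⟩ := Subgroup.mem_zpowers_iff.mp hz
    refine ⟨m, hm, ?_⟩
    rw [mul_pow]
    have : (k ^ j) ^ (p ^ e) = 1 := by
      rw [← zpow_natCast, ← zpow_mul, mul_comm, zpow_mul, zpow_natCast, hk1, one_zpow]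
    rw [this, mul_one]
  have h3 : H ≤ M := hH.2 hMS hM.1.2.1
  exact hM.1.2.2 (h3 hk)

variable {H : Subgroup A} (hH1 : ∀ h ∈ H, h ^ (p ^ e) ∈ U) (hH3 : ∀ h ∈ H, h ^ (p ^ e) = 1 → ∃ g ∈ H, h = g ^ p)

include he hH1 hH3 in
/-- Every non-identity element of `H` has a non-identity `p`-power in `U`. -/
theorem exists_pow_mem {h : A} (hh : h ∈ H) (h1 : h ≠ 1) : ∃ n : ℕ, h ^ (p ^ n) ≠ 1 ∧ h ^ (p ^ n) ∈ U := by
  classical
  have hex : ∃ j : ℕ, (∃ g ∈ H, h = g ^ (p ^ j)) ∧ ¬ ∃ g ∈ H, h = g ^ (p ^ (j + 1)) := by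
    by_contra hcon
    push Not at hcon
    have hall : ∀ j : ℕ, ∃ g ∈ H, h = g ^ (p ^ j) := by
      intro j
      induction j with
      | zero => exact ⟨h, hh, by simp⟩
      | succ j ih => exact hcon j ih
    obtain ⟨g, hg, hgj⟩ := hall (e + 1)
    rw [he] at hgj
    exact h1 hgj
  obtain ⟨j, ⟨g, hg, hgj⟩, hno⟩ := hex
  have hτ : g ^ (p ^ e) ≠ 1 := by
    intro h2
    obtain ⟨g₁, hg₁, rfl⟩ := hH3 g hg h2
    apply hno
    refine ⟨g₁, hg₁, ?_⟩
    rw [hgj, ← pow_mul, pow_succ']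
  have hje : j ≤ e := by
    by_contra hje
    push Not at hje
    obtain ⟨t, rfl⟩ : ∃ t, j = e + 1 + t := ⟨j - (e + 1), by omega⟩
    rw [pow_add, pow_mul, he, one_pow] at hgj
    exact h1 hgj
  obtain ⟨n, rfl⟩ : ∃ n, e = j + n := ⟨e - j, by omega⟩
  have h2 : h ^ (p ^ n) = g ^ (p ^ (j + n)) := by
    rw [hgj, ← pow_mul, pow_add]
  refine ⟨n, ?_, ?_⟩
  · rw [h2]; exact hτ
  · rw [h2]; exact hH1 g hg

include he hH1 hH3 in
/-- Elements of `H` of order `p` lie in `U`. -/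
theorem mem_of_pow_p {z : A} (hz : z ∈ H) (hzp : z ^ p = 1) : z ∈ U := by
  by_cases h1 : z = 1
  · rw [h1]; exact U.one_mem
  obtain ⟨n, hn1, hn2⟩ := exists_pow_mem he hH1 hH3 hz h1
  cases n with
  | zero => simpa using hn2
  | succ n =>
    exfalso
    apply hn1
    rw [pow_succ', pow_mul, hzp, one_pow]

include he hH1 hH3 in
/-- `H` meets a subgroup avoiding `U` trivially. -/
theorem inf_eq_bot {C : Subgroup A} (hUC : U ⊓ C = ⊥) : H ⊓ C = ⊥ := by
  rw [eq_bot_iff]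
  rintro h ⟨hh, hc⟩
  by_contra h1
  obtain ⟨n, hn1, hn2⟩ := exists_pow_mem he hH1 hH3 hh h1
  have : h ^ (p ^ n) ∈ U ⊓ C := ⟨hn2, C.pow_mem hc _⟩
  rw [hUC] at this
  exact hn1 this

include he hH1 hH3 in
/-- `H` and a maximal subgroup avoiding `U` generate the group. -/
theorem sup_eq_top (hp' : ∀ a : A, ∃ N : ℕ, a ^ (p ^ N) = 1) {C : Subgroup A} (hUC : U ⊓ C = ⊥)
    (hmax : ∀ C' : Subgroup A, C ≤ C' → U ⊓ C' = ⊥ → C' = C)
    (hUH : U ≤ H) : H ⊔ C = ⊤ := by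
  have hstep : ∀ a : A, a ^ p ∈ H ⊔ C → a ∈ H ⊔ C := by
    intro a ha
    obtain ⟨h, hh, c, hc, hhc⟩ := Subgroup.mem_sup.mp ha
    have h1 : (h * c) ^ (p ^ e) = 1 := by
      rw [hhc, ← pow_mul, ← pow_succ', he]
    rw [mul_pow] at h1
    have h2 : c ^ (p ^ e) ∈ U ⊓ C := by
      refine ⟨?_, C.pow_mem hc _⟩
      have : c ^ (p ^ e) = (h ^ (p ^ e))⁻¹ := by
        rw [eq_inv_iff_mul_eq_one, mul_comm]
        exact h1
      rw [this]
      exact U.inv_mem (hH1 h hh)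
    rw [hUC] at h2
    have h3 : h ^ (p ^ e) = 1 := by
      rw [Subgroup.mem_bot.mp h2, mul_one] at h1
      exact h1
    obtain ⟨g, hg, rfl⟩ := hH3 h hh h3
    have h4 : (a * g⁻¹) ^ p ∈ C := by
      rw [mul_pow, ← hhc, inv_pow]
      have : g ^ p * c * (g ^ p)⁻¹ = c := by rw [mul_comm (g ^ p) c, mul_inv_cancel_right]
      rw [this]
      exact hc
    have h5 := mem_sup_of_max hUC hmax h4
    have h6 : a * g⁻¹ ∈ H ⊔ C := sup_le_sup_right hUH C h5
    have h7 : a = (a * g⁻¹) * g := by group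
    rw [h7]
    exact (H ⊔ C).mul_mem h6 (Subgroup.mem_sup_left hg)
  have hind : ∀ N : ℕ, ∀ a : A, a ^ (p ^ N) ∈ H ⊔ C → a ∈ H ⊔ C := by
    intro N
    induction N with
    | zero => intro a ha; simpa using ha
    | succ N ih =>
      intro a ha
      apply hstep
      apply ih
      rw [← pow_mul, ← pow_succ']
      exact ha
  rw [eq_top_iff]
  intro a _
  obtain ⟨N, hN⟩ := hp' a
  apply hind N
  rw [hN]
  exact Subgroup.one_mem _

end Core

/-- Fitting's lemma for an endomorphism of a finite commutative group. -/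
theorem fitting (f : Monoid.End A) :
    ∃ n : ℕ, let g : A →* A := f ^ (n + 1)
      (MonoidHom.ker g) ⊓ (MonoidHom.range g) = ⊥ ∧ (MonoidHom.ker g) ⊔ (MonoidHom.range g) = ⊤ := by
  classical
  let R : ℕ → Subgroup A := fun n => MonoidHom.range (f ^ n : A →* A)
  have hR : ∀ m n, R (m + n) ≤ R n := by
    intro m n
    rintro _ ⟨a, rfl⟩
    refine ⟨(f ^ m : A →* A) a, ?_⟩
    show (f ^ n * f ^ m) a = (f ^ (m + n)) a
    rw [add_comm, pow_add]
  let n₀ := Function.argmin (fun n => Nat.card (R n))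
  have hmin : ∀ k, Nat.card (R n₀) ≤ Nat.card (R k) := fun k => Function.argmin_le (fun n => Nat.card (R n)) k
  have heq : ∀ m, R (m + n₀) = R n₀ := by
    intro m
    exact Subgroup.eq_of_le_of_card_ge (hR m n₀) (hmin _)
  refine ⟨n₀, ?_⟩
  intro g
  have hg : ∀ a, g a = (f ^ (n₀ + 1)) a := fun a => rfl
  have hRg : MonoidHom.range g = R n₀ := by
    have := heq 1
    rw [add_comm] at this
    exact this
  have h2 : R (n₀ + 1 + (n₀ + 1)) = R n₀ := by
    have := heq (n₀ + 1 + 1)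
    rwa [show n₀ + 1 + 1 + n₀ = n₀ + 1 + (n₀ + 1) by omega] at this
  -- `g` maps its range onto its range
  have hsurj : ∀ r ∈ MonoidHom.range g, ∃ s ∈ MonoidHom.range g, g s = r := by
    intro r hr
    rw [hRg, ← h2] at hr
    obtain ⟨a, rfl⟩ := hr
    refine ⟨g a, ⟨a, rfl⟩, ?_⟩
    show (f ^ (n₀ + 1)) ((f ^ (n₀ + 1)) a) = (f ^ (n₀ + 1 + (n₀ + 1))) a
    have hpa : (f ^ (n₀ + 1 + (n₀ + 1)) : Monoid.End A) = f ^ (n₀ + 1) * f ^ (n₀ + 1) := pow_add _ _ _
    rw [hpa]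
    rfl
  let φ : MonoidHom.range g → MonoidHom.range g := fun r => ⟨g r.1, ⟨r.1, rfl⟩⟩
  have hφs : Function.Surjective φ := by
    intro r
    obtain ⟨s, hs, hsr⟩ := hsurj r.1 r.2
    exact ⟨⟨s, hs⟩, Subtype.ext hsr⟩
  have hφi : Function.Injective φ := Finite.injective_iff_surjective.mpr hφs
  constructor
  · rw [eq_bot_iff]
    rintro r ⟨hk, hr⟩
    have h1 : φ ⟨r, hr⟩ = φ ⟨1, (MonoidHom.range g).one_mem⟩ := by
      apply Subtype.ext
      show g r = g 1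
      rw [map_one]
      exact hk
    have h3 := hφi h1
    exact congrArg Subtype.val h3
  · rw [eq_top_iff]
    intro a _
    obtain ⟨s, hs, hsa⟩ := hsurj (g a) ⟨a, rfl⟩
    have h1 : a * s⁻¹ ∈ MonoidHom.ker g := by
      rw [MonoidHom.mem_ker, map_mul, map_inv, hsa, mul_inv_cancel]
    have h3 : a = (a * s⁻¹) * s := by group
    rw [h3]
    exact (Subgroup.mul_mem_sup h1 hs)

/-- The core: a proper invariant `U` in the top layer gives a nontrivial invariant decomposition. -/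
theorem exists_decomp (hA : IsPGroup p A) (X : Subgroup (MulAut A)) (hX : (Nat.card X).Coprime p)
    {e : ℕ} (he : ∀ a : A, a ^ (p ^ (e + 1)) = 1) {U : Subgroup A}
    (hUT : ∀ u ∈ U, ∃ a : A, u = a ^ (p ^ e)) (hU0 : U ≠ ⊥)
    (hUinv : ∀ x ∈ X, ∀ u ∈ U, (x : MulAut A) u ∈ U) {w : A} (hw : w ^ p = 1) (hwU : w ∉ U) :
    ∃ B C : Subgroup A, B ≠ ⊥ ∧ C ≠ ⊥ ∧ (∀ x ∈ X, B.map x.toMonoidHom = B) ∧
      (∀ x ∈ X, C.map x.toMonoidHom = C) ∧ B ⊓ C = ⊥ ∧ B ⊔ C = ⊤ := by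
  classical
  obtain ⟨H, hH1, hH2, hH3⟩ := exists_H (p := p) (U := U) hUT
  have hUH : U ≤ H := by
    intro u hu
    obtain ⟨h, hh, rfl⟩ := hH2 u hu
    exact H.pow_mem hh _
  -- a maximal subgroup avoiding `U`
  let S : Set (Subgroup A) := {C | U ⊓ C = ⊥}
  have hS : S.Nonempty := ⟨⊥, inf_bot_eq _⟩
  obtain ⟨C, hC⟩ := (Set.toFinite S).exists_maximal hS
  have hUC : U ⊓ C = ⊥ := hC.1
  have hmax : ∀ C' : Subgroup A, C ≤ C' → U ⊓ C' = ⊥ → C' = C := fun C' h1 h2 =>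
    le_antisymm (hC.2 h2 h1) h1
  have hp' : ∀ a : A, ∃ N : ℕ, a ^ (p ^ N) = 1 := fun a => hA a
  have h1 := inf_eq_bot he hH1 hH3 hUC
  have h2 := sup_eq_top he hH1 hH3 hp' hUC hmax hUH
  obtain ⟨π, hπ1, hπ2⟩ := exists_proj H C h1 h2
  -- averaging
  let _ : Fintype X := Fintype.ofFinite X
  obtain ⟨N, hN⟩ := (IsPGroup.iff_card.mp hA)
  have hc : (Fintype.card X).Coprime (Nat.card A) := by
    rw [hN, ← Nat.card_eq_fintype_card]
    exact Nat.Coprime.pow_right N hX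
  obtain ⟨m, hm⟩ := exists_pow_inverse hc
  let f : Monoid.End A :=
    { toFun := fun v => (∏ x : X, (x.1 : MulAut A) (π ((x.1 : MulAut A)⁻¹ v))) ^ m
      map_one' := by simp
      map_mul' := by
        intro a b
        simp only [map_mul, Finset.prod_mul_distrib, mul_pow] }
  have hf : ∀ v, f v = (∏ x : X, (x.1 : MulAut A) (π ((x.1 : MulAut A)⁻¹ v))) ^ m := fun v => rfl
  have hfU : ∀ u ∈ U, f u = u := by
    intro u hu
    rw [hf]
    have h3 : ∀ x : X, (x.1 : MulAut A) (π ((x.1 : MulAut A)⁻¹ u)) = u := by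
      intro x
      have h4 : (x.1 : MulAut A)⁻¹ u ∈ U := hUinv _ (X.inv_mem x.2) u hu
      rw [hπ2 _ (hUH h4)]
      simp
    simp only [h3, Finset.prod_const, Finset.card_univ]
    exact hm u
  have hfcomm : ∀ y ∈ X, ∀ v, f ((y : MulAut A) v) = (y : MulAut A) (f v) := by
    intro y hy v
    rw [hf, hf, map_pow, map_prod]
    congr 1
    refine Fintype.prod_equiv (Equiv.mulLeft (⟨y, hy⟩ : X)).symm _ _ (fun x => ?_)
    simp only [Equiv.mulLeft_symm, Equiv.coe_mulLeft, Subgroup.coe_mul, Subgroup.coe_inv]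
    have h5 : (x.1 : MulAut A)⁻¹ ((y : MulAut A) v) =
        ((y⁻¹ * x.1 : MulAut A))⁻¹ v := by
      simp [mul_inv_rev, MulAut.mul_apply]
    rw [h5]
    simp [MulAut.mul_apply]
  have hfΩ : ∀ v, v ^ p = 1 → f v ∈ U := by
    intro v hv
    rw [hf]
    refine U.pow_mem (Subgroup.prod_mem _ fun x _ => ?_) _
    refine hUinv _ x.2 _ ?_
    refine mem_of_pow_p he hH1 hH3 (hπ1 _) ?_
    rw [← map_pow, ← map_pow, hv, map_one, map_one]
  -- Fitting
  obtain ⟨n, hn⟩ := fitting f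
  dsimp only at hn
  set g : A →* A := f ^ (n + 1) with hgdef
  have hgcomm : ∀ y ∈ X, ∀ v, g ((y : MulAut A) v) = (y : MulAut A) (g v) := by
    intro y hy v
    have : ∀ k : ℕ, ∀ v, (f ^ k : Monoid.End A) ((y : MulAut A) v) = (y : MulAut A) ((f ^ k : Monoid.End A) v) := by
      intro k
      induction k with
      | zero => intro v; rfl
      | succ k ih =>
        intro v
        rw [pow_succ]
        show (f ^ k : Monoid.End A) (f ((y : MulAut A) v)) = (y : MulAut A) ((f ^ k : Monoid.End A) (f v))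
        rw [hfcomm y hy, ih]
    exact this (n + 1) v
  have hgU : ∀ u ∈ U, g u = u := by
    intro u hu
    have : ∀ k : ℕ, (f ^ k : Monoid.End A) u = u := by
      intro k
      induction k with
      | zero => rfl
      | succ k ih =>
        rw [pow_succ]
        show (f ^ k : Monoid.End A) (f u) = u
        rw [hfU u hu, ih]
    exact this (n + 1)
  -- nontriviality
  have hker : MonoidHom.ker g ≠ ⊥ := by
    intro h
    have h3 : w * (f w)⁻¹ ∈ MonoidHom.ker g := by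
      rw [MonoidHom.mem_ker]
      show (f ^ (n + 1) : Monoid.End A) (w * (f w)⁻¹) = 1
      rw [pow_succ]
      show (f ^ n : Monoid.End A) (f (w * (f w)⁻¹)) = 1
      have : f (w * (f w)⁻¹) = 1 := by
        rw [map_mul, map_inv, hfU _ (hfΩ w hw), mul_inv_cancel]
      rw [this, map_one]
    rw [h] at h3
    have h4 : w = f w := mul_inv_eq_one.mp (Subgroup.mem_bot.mp h3)
    exact hwU (h4 ▸ hfΩ w hw)
  have hrange : MonoidHom.range g ≠ ⊥ := by
    intro h
    apply hU0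
    rw [eq_bot_iff, ← h]
    intro u hu
    exact ⟨u, hgU u hu⟩
  have hinv : ∀ K : Subgroup A, (∀ y ∈ X, ∀ v ∈ K, (y : MulAut A) v ∈ K) →
      ∀ x ∈ X, K.map x.toMonoidHom = K := by
    intro K hK x hx
    apply le_antisymm
    · rintro _ ⟨v, hv, rfl⟩
      exact hK x hx v hv
    · intro v hv
      refine ⟨(x⁻¹ : MulAut A) v, hK _ (X.inv_mem hx) v hv, ?_⟩
      simp
  refine ⟨MonoidHom.range g, MonoidHom.ker g, hrange, hker, hinv _ ?_, hinv _ ?_, ?_, ?_⟩
  · rintro y hy _ ⟨a, rfl⟩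
    exact ⟨(y : MulAut A) a, hgcomm y hy a⟩
  · intro y hy v hv
    rw [MonoidHom.mem_ker] at hv ⊢
    rw [hgcomm y hy, hv, map_one]
  · rw [inf_comm]; exact hn.1
  · rw [sup_comm]; exact hn.2

/-- Let A be a finite abelian p-group and X a group of automorphisms of A of order prime to p. -/
theorem result {A : Type*} [CommGroup A] [Finite A] {p : ℕ} [Fact p.Prime] (hA : IsPGroup p A) (X : Subgroup (MulAut A)) (hX : (Nat.card X).Coprime p) : ((¬ ∃ B C : Subgroup A, B ≠ ⊥ ∧ C ≠ ⊥ ∧ (∀ x ∈ X, B.map x.toMonoidHom = B) ∧ (∀ x ∈ X, C.map x.toMonoidHom = C) ∧ B ⊓ C = ⊥ ∧ B ⊔ C = ⊤) ↔ (∀ B : Subgroup A, (∀ x ∈ X, B.map x.toMonoidHom = B) → ∃ i : ℕ, ∀ a : A, a ∈ B ↔ a ^ p ^ i = 1)) ∧ ((∀ B : Subgroup A, (∀ x ∈ X, B.map x.toMonoidHom = B) → ∃ i : ℕ, ∀ a : A, a ∈ B ↔ a ^ p ^ i = 1) ↔ (∀ B : Subgroup A, (∀ x ∈ X, B.map x.toMonoidHom = B) → (∀ b ∈ B, b ^ p = 1) → B = ⊥ ∨ ∀ a : A, a ∈ B ↔ a ^ p = 1)) := by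
  classical
  have hpp := (Fact.out : p.Prime)
  have hinvmem : ∀ (B : Subgroup A), (∀ x ∈ X, B.map x.toMonoidHom = B) → ∀ x ∈ X, ∀ b ∈ B, (x : MulAut A) b ∈ B := by
    intro B hB x hx b hb
    rw [← hB x hx]
    exact ⟨b, hb, rfl⟩
  -- (ii) ⇒ (iii)
  have h23 : (∀ B : Subgroup A, (∀ x ∈ X, B.map x.toMonoidHom = B) → ∃ i : ℕ, ∀ a : A, a ∈ B ↔ a ^ p ^ i = 1) →
      (∀ B : Subgroup A, (∀ x ∈ X, B.map x.toMonoidHom = B) → (∀ b ∈ B, b ^ p = 1) → B = ⊥ ∨ ∀ a : A, a ∈ B ↔ a ^ p = 1) := by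
    intro h2 B hB hBp
    obtain ⟨i, hi⟩ := h2 B hB
    cases i with
    | zero =>
      left
      rw [eq_bot_iff]
      intro a ha
      simpa using (hi a).mp ha
    | succ i =>
      right
      intro a
      refine ⟨hBp a, fun ha => (hi a).mpr ?_⟩
      rw [pow_succ', pow_mul, ha, one_pow]
  -- (iii) ⇒ (ii)
  have h32 : (∀ B : Subgroup A, (∀ x ∈ X, B.map x.toMonoidHom = B) → (∀ b ∈ B, b ^ p = 1) → B = ⊥ ∨ ∀ a : A, a ∈ B ↔ a ^ p = 1) →
      (∀ B : Subgroup A, (∀ x ∈ X, B.map x.toMonoidHom = B) → ∃ i : ℕ, ∀ a : A, a ∈ B ↔ a ^ p ^ i = 1) := by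
    intro h3 B hB
    obtain ⟨N, hN⟩ := IsPGroup.iff_card.mp hA
    have hall : ∀ a : A, a ^ p ^ N = 1 := by
      intro a
      rw [← hN]
      exact pow_card_eq_one'
    have key : ∀ n : ℕ, (∀ a : A, a ^ p ^ n = 1 → a ∈ B) ∨ ∃ i : ℕ, ∀ a : A, a ∈ B ↔ a ^ p ^ i = 1 := by
      intro n
      induction n with
      | zero =>
        left
        intro a ha
        have : a = 1 := by simpa using ha
        rw [this]; exact B.one_mem
      | succ n ih =>
        rcases ih with ih | ih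
        · by_cases hBn : ∀ b ∈ B, b ^ p ^ n = 1
          · right
            exact ⟨n, fun a => ⟨hBn a, ih a⟩⟩
          · left
            push Not at hBn
            obtain ⟨b, hb, hbn⟩ := hBn
            -- a power of `b` has order exactly `p ^ (n + 1)`
            have hex : ∃ c ∈ B, c ^ p ^ n ≠ 1 ∧ c ^ p ^ (n + 1) = 1 := by
              have hk : ∃ k : ℕ, (b ^ p ^ k) ^ p ^ n ≠ 1 ∧ (b ^ p ^ (k + 1)) ^ p ^ n = 1 := by
                by_contra hcon
                push Not at hcon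
                have hal : ∀ k : ℕ, (b ^ p ^ k) ^ p ^ n ≠ 1 := by
                  intro k
                  induction k with
                  | zero => simpa using hbn
                  | succ k ihk =>
                    intro h0
                    exact hcon k ihk h0
                apply hal N
                rw [hall, one_pow]
              obtain ⟨k, hk1, hk2⟩ := hk
              refine ⟨b ^ p ^ k, B.pow_mem hb _, hk1, ?_⟩
              have : (b ^ p ^ k) ^ p ^ (n + 1) = (b ^ p ^ (k + 1)) ^ p ^ n := by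
                rw [← pow_mul, ← pow_mul, pow_succ, pow_succ]
                congr 1
                ring
              rw [this, hk2]
            obtain ⟨c, hc, hc1, hc2⟩ := hex
            -- the image under the power map
            let τ : A →* A := powMonoidHom (p ^ n)
            let Ω' : Subgroup A := (powMonoidHom (p ^ (n + 1)) : A →* A).ker
            let B₁ : Subgroup A := (B ⊓ Ω').map τ
            have hB₁ : ∀ x ∈ X, B₁.map x.toMonoidHom = B₁ := by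
              have hfw : ∀ y ∈ X, ∀ v ∈ B₁, (y : MulAut A) v ∈ B₁ := by
                rintro y hy _ ⟨v, ⟨hvB, hvΩ⟩, rfl⟩
                refine ⟨(y : MulAut A) v, ⟨hinvmem B hB y hy v hvB, ?_⟩, ?_⟩
                · show ((y : MulAut A) v) ^ (p ^ (n + 1)) = 1
                  rw [← map_pow]
                  have : v ^ (p ^ (n + 1)) = 1 := hvΩ
                  rw [this, map_one]
                · show ((y : MulAut A) v) ^ (p ^ n) = (y : MulAut A) (v ^ (p ^ n))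
                  rw [map_pow]
              intro x hx
              apply le_antisymm
              · rintro _ ⟨v, hv, rfl⟩
                exact hfw x hx v hv
              · intro v hv
                refine ⟨(x⁻¹ : MulAut A) v, hfw _ (X.inv_mem hx) v hv, ?_⟩
                simp
            have hB₁p : ∀ b ∈ B₁, b ^ p = 1 := by
              rintro _ ⟨v, ⟨_, hvΩ⟩, rfl⟩
              have : v ^ (p ^ (n + 1)) = 1 := hvΩ
              show (v ^ (p ^ n)) ^ p = 1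
              rw [← pow_mul, ← pow_succ]
              exact this
            rcases h3 B₁ hB₁ hB₁p with h0 | h0
            · exfalso
              apply hc1
              have : τ c ∈ B₁ := ⟨c, ⟨hc, hc2⟩, rfl⟩
              rw [h0] at this
              exact this
            · intro a ha
              have h1 : τ a ∈ B₁ := by
                rw [h0]
                show (a ^ (p ^ n)) ^ p = 1
                rw [← pow_mul, ← pow_succ]
                exact ha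
              obtain ⟨d, ⟨hd, _⟩, hda⟩ := h1
              have h2 : a * d⁻¹ ∈ B := by
                apply ih
                rw [mul_pow, inv_pow]
                have h4 : d ^ p ^ n = a ^ p ^ n := hda
                rw [h4, mul_inv_cancel]
              have h3' : a = (a * d⁻¹) * d := by group
              rw [h3']
              exact B.mul_mem h2 hd
        · right; exact ih
    rcases key N with h | h
    · refine ⟨N, fun a => ⟨fun _ => hall a, fun ha => h a ha⟩⟩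
    · exact h
  -- (ii) ⇒ (i)
  have h21 : (∀ B : Subgroup A, (∀ x ∈ X, B.map x.toMonoidHom = B) → ∃ i : ℕ, ∀ a : A, a ∈ B ↔ a ^ p ^ i = 1) →
      (¬ ∃ B C : Subgroup A, B ≠ ⊥ ∧ C ≠ ⊥ ∧ (∀ x ∈ X, B.map x.toMonoidHom = B) ∧ (∀ x ∈ X, C.map x.toMonoidHom = C) ∧ B ⊓ C = ⊥ ∧ B ⊔ C = ⊤) := by
    rintro h2 ⟨B, C, hB0, hC0, hB, hC, hinf, -⟩
    obtain ⟨i, hi⟩ := h2 B hB
    obtain ⟨j, hj⟩ := h2 C hC
    rcases le_total i j with hij | hij
    · apply hB0
      rw [eq_bot_iff, ← hinf]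
      intro a ha
      refine ⟨ha, (hj a).mpr ?_⟩
      obtain ⟨t, rfl⟩ := Nat.exists_eq_add_of_le hij
      rw [pow_add, pow_mul, (hi a).mp ha, one_pow]
    · apply hC0
      rw [eq_bot_iff, ← hinf]
      intro a ha
      refine ⟨(hi a).mpr ?_, ha⟩
      obtain ⟨t, rfl⟩ := Nat.exists_eq_add_of_le hij
      rw [pow_add, pow_mul, (hj a).mp ha, one_pow]
  -- (i) ⇒ (iii)
  have h13 : (¬ ∃ B C : Subgroup A, B ≠ ⊥ ∧ C ≠ ⊥ ∧ (∀ x ∈ X, B.map x.toMonoidHom = B) ∧ (∀ x ∈ X, C.map x.toMonoidHom = C) ∧ B ⊓ C = ⊥ ∧ B ⊔ C = ⊤) →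
      (∀ B : Subgroup A, (∀ x ∈ X, B.map x.toMonoidHom = B) → (∀ b ∈ B, b ^ p = 1) → B = ⊥ ∨ ∀ a : A, a ∈ B ↔ a ^ p = 1) := by
    intro h1 B₀ hB₀ hB₀p
    by_contra hcon
    push Not at hcon
    obtain ⟨hB₀0, hB₀1⟩ := hcon
    apply h1
    -- the exponent
    obtain ⟨N, hN⟩ := IsPGroup.iff_card.mp hA
    have hall : ∃ k, ∀ a : A, a ^ p ^ k = 1 := ⟨N, fun a => by rw [← hN]; exact pow_card_eq_one'⟩
    let k₀ := Nat.find hall
    have hk₀ : ∀ a : A, a ^ p ^ k₀ = 1 := Nat.find_spec hall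
    have hk₀0 : k₀ ≠ 0 := by
      intro h0
      apply hB₀0
      rw [eq_bot_iff]
      intro a _
      have := hk₀ a
      rw [h0] at this
      simpa using this
    obtain ⟨e, he⟩ : ∃ e, k₀ = e + 1 := Nat.exists_eq_succ_of_ne_zero hk₀0
    rw [he] at hk₀
    have hmin : ∃ a : A, a ^ p ^ e ≠ 1 := by
      by_contra h0
      push Not at h0
      have : k₀ ≤ e := Nat.find_min' hall h0
      omega
    obtain ⟨a₀, ha₀⟩ := hmin
    let T : Subgroup A := (powMonoidHom (p ^ e) : A →* A).range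
    have hTp : ∀ b ∈ T, b ^ p = 1 := by
      rintro _ ⟨a, rfl⟩
      show (a ^ p ^ e) ^ p = 1
      rw [← pow_mul, ← pow_succ]
      exact hk₀ a
    have hTinv : ∀ x ∈ X, ∀ u ∈ T, (x : MulAut A) u ∈ T := by
      rintro x _ _ ⟨a, rfl⟩
      exact ⟨(x : MulAut A) a, by
        show ((x : MulAut A) a) ^ p ^ e = (x : MulAut A) (a ^ p ^ e)
        rw [map_pow]⟩
    by_cases hTΩ : ∀ a : A, a ∈ T ↔ a ^ p = 1
    · -- `T` is everything of order `p`: use `B₀`
      obtain ⟨w, hw⟩ := hB₀1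
      have hw' : w ^ p = 1 ∧ w ∉ B₀ := by
        rcases hw with ⟨h3, h4⟩ | ⟨h3, h4⟩
        · exact absurd (hB₀p w h3) h4
        · exact ⟨h4, h3⟩
      refine exists_decomp hA X hX hk₀ (U := B₀) ?_ hB₀0 (fun x hx u hu => hinvmem B₀ hB₀ x hx u hu) hw'.1 hw'.2
      intro u hu
      obtain ⟨a, ha⟩ := (hTΩ u).mpr (hB₀p u hu)
      exact ⟨a, ha.symm⟩
    · push Not at hTΩ
      obtain ⟨w, hw⟩ := hTΩ
      have hw' : w ^ p = 1 ∧ w ∉ T := by
        rcases hw with ⟨h3, h4⟩ | ⟨h3, h4⟩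
        · exact absurd (hTp w h3) h4
        · exact ⟨h4, h3⟩
      refine exists_decomp hA X hX hk₀ (U := T) ?_ ?_ hTinv hw'.1 hw'.2
      · rintro _ ⟨a, rfl⟩
        exact ⟨a, rfl⟩
      · intro h0
        apply ha₀
        have : a₀ ^ p ^ e ∈ T := ⟨a₀, rfl⟩
        rw [h0] at this
        exact this
  exact ⟨⟨fun h => h32 (h13 h), h21⟩, ⟨h23, h32⟩⟩

end Cfsg.Agent.S3775
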