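import Cfsg.Statements.S3780
import Cfsg.Agent.Lib.PGroup.FrattiniBasis

set_option autoImplicit false
open Cfsg

namespace Cfsg.Agent.S3780

open Cfsg.Agent.Lib.PGroup.FrattiniBasis

theorem card_ker_comp_le {M : Type*} [AddCommGroup M] [Finite M] (f g : M →+ M) :
    Nat.card (g.comp f).ker ≤ Nat.card f.ker * Nat.card g.ker := by
  let φ : (g.comp f).ker →+ g.ker :=
    { toFun := fun x => ⟨f x.1, by
        have hx := x.2
        rw [AddMonoidHom.mem_ker] at hx ⊢
        exact hx⟩
      map_zero' := by ext; simp
      map_add' := fun x y => by ext; simp }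
  have h1 := AddSubgroup.card_mul_index φ.ker
  rw [AddSubgroup.index_ker] at h1
  have h2 : Nat.card φ.ker ≤ Nat.card f.ker := by
    refine Nat.card_le_card_of_injective
      (fun x => (⟨x.1.1, ?_⟩ : f.ker)) ?_
    · have hx := x.2
      rw [AddMonoidHom.mem_ker] at hx ⊢
      have := congrArg Subtype.val hx
      simpa [φ] using this
    · intro x y hxy
      ext
      simpa using hxy
  have h3 : Nat.card φ.range ≤ Nat.card g.ker :=
    Nat.card_le_card_of_injective _ (AddSubgroup.subtype_injective _)
  rw [← h1]
  exact Nat.mul_le_mul h2 h3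

/-- Iterates as additive homomorphisms. -/
def iterHom {M : Type*} [AddCommGroup M] (f : M →+ M) : ℕ → (M →+ M)
  | 0 => AddMonoidHom.id M
  | k + 1 => (iterHom f k).comp f

theorem iterHom_apply {M : Type*} [AddCommGroup M] (f : M →+ M) (k : ℕ) (x : M) :
    iterHom f k x = f^[k] x := by
  induction k generalizing x with
  | zero => rfl
  | succ k ih =>
    rw [Function.iterate_succ_apply, ← ih]
    rfl

theorem card_ker_iterHom_le {M : Type*} [AddCommGroup M] [Finite M] (f : M →+ M) (k : ℕ) :
    Nat.card (iterHom f k).ker ≤ Nat.card f.ker ^ k := by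
  induction k with
  | zero =>
    have : (iterHom f 0).ker = ⊥ := by
      ext x
      simp [AddMonoidHom.mem_ker, iterHom]
    rw [this]
    simp
  | succ k ih =>
    have h := card_ker_comp_le f (iterHom f k)
    rw [pow_succ, mul_comm (Nat.card f.ker ^ k)]
    exact h.trans (Nat.mul_le_mul_left _ ih)

/-- `(a - 1)^p = 0` for `a^p = 1` in a ring where `p = 0`. -/
theorem sub_one_pow_eq_zero {E : Type*} [Ring E] {p : ℕ} [hp : Fact p.Prime] (hE : (p : E) = 0)
    (a : E) (ha : a ^ p = 1) : (a - 1) ^ p = 0 := by
  obtain ⟨r, hr⟩ := (Commute.one_right a).neg_right.exists_add_pow_prime_eq hp.out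
  rw [sub_eq_add_neg, hr, ha, hE]
  rcases hp.out.eq_two_or_odd' with rfl | hodd
  · have h2 : (1 : E) + 1 = 0 := by
      have := hE
      push_cast at this
      rw [one_add_one_eq_two]
      exact this
    simp [h2]
  · simp [hodd.neg_one_pow]

theorem result {V : Type*} [CommGroup V] [Finite V] {p : ℕ} [Fact p.Prime] (hV : IsPGroup p V) (α : MulAut V) (hα : orderOf α = p) (n : ℕ) (hfix : Nat.card {v : V // α v = v} = p ^ n) : ∃ S : Finset V, S.card ≤ p * n ∧ Subgroup.closure (S : Set V) = ⊤ := by
  classical
  have hp : p.Prime := Fact.out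
  set W : Subgroup V := (powMonoidHom p : V →* V).ker with hW
  have hWmem : ∀ x : V, x ∈ W ↔ x ^ p = 1 := fun x => by
    rw [hW, MonoidHom.mem_ker, powMonoidHom_apply]
  -- α restricted to W
  let a0 : W →* W :=
    { toFun := fun x => ⟨α x.1, by
        rw [hWmem, ← map_pow, (hWmem _).1 x.2, map_one]⟩
      map_one' := by ext; simp
      map_mul' := fun x y => by ext; simp }
  let a : AddMonoid.End (Additive W) := MonoidHom.toAdditive a0
  have ha_apply : ∀ x : Additive W, ((a x).toMul : V) = α (x.toMul : V) := fun x => rfl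
  have hapow : ∀ (k : ℕ) (x : Additive W), (((a ^ k) x).toMul : V) = (α ^ k) (x.toMul : V) := by
    intro k
    induction k with
    | zero => intro x; simp
    | succ k ih =>
      intro x
      rw [pow_succ, pow_succ, MulAut.mul_apply]
      exact ih (a x)
  have ha : a ^ p = 1 := by
    ext x
    rw [hapow]
    rw [← hα, pow_orderOf_eq_one]
    rfl
  have hE : ((p : ℕ) : AddMonoid.End (Additive W)) = 0 := by
    ext x
    have : ((p : AddMonoid.End (Additive W)) x) = p • x := by
      exact AddMonoid.End.natCast_apply p x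
    rw [this]
    have h2 : ((p • x).toMul : V) = (x.toMul : V) ^ p := rfl
    rw [h2, (hWmem _).1 x.toMul.2]
    rfl
  have hT := sub_one_pow_eq_zero hE a ha
  let T : Additive W →+ Additive W := (a - 1 : AddMonoid.End (Additive W))
  have h1 := card_ker_iterHom_le T p
  have htop : (iterHom T p).ker = ⊤ := by
    ext x
    have h2 : T^[p] x = 0 := by
      have h3 : ((a - 1 : AddMonoid.End (Additive W)) ^ p) x = 0 := by rw [hT]; rfl
      rw [AddMonoid.End.coe_pow] at h3
      exact h3
    simp [AddMonoidHom.mem_ker, iterHom_apply, h2]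
  rw [htop] at h1
  have hcardW : Nat.card W ≤ (p ^ n) ^ p := by
    have h2 : Nat.card T.ker ≤ p ^ n := by
      rw [← hfix]
      refine Nat.card_le_card_of_injective
        (fun x => (⟨(x.1.toMul : V), ?_⟩ : {v : V // α v = v})) ?_
      · have hx := x.2
        rw [AddMonoidHom.mem_ker] at hx
        have h3 : a x.1 = x.1 := by
          have : a x.1 - x.1 = 0 := hx
          exact sub_eq_zero.1 this
        have h4 := congrArg (fun z : Additive W => ((z.toMul : W) : V)) h3
        exact h4
      · intro x y hxy
        have := congrArg Subtype.val hxy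
        apply Subtype.ext
        apply Additive.toMul.injective
        exact Subtype.ext this
    have h5 : Nat.card (⊤ : AddSubgroup (Additive W)) = Nat.card W := by
      rw [Nat.card_congr AddSubgroup.topEquiv.toEquiv]
      rfl
    rw [h5] at h1
    exact h1.trans (Nat.pow_le_pow_left h2 p)
  -- index of the p-th powers
  have hrange : (powMonoidHom p : V →* V).range.index = Nat.card W := by
    have h1 := Subgroup.card_mul_index (powMonoidHom p : V →* V).ker
    rw [Subgroup.index_ker] at h1
    have h2 := Subgroup.card_mul_index (powMonoidHom p : V →* V).range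
    have hpos : 0 < Nat.card (powMonoidHom p : V →* V).range := Nat.card_pos
    rw [← h1, mul_comm] at h2
    exact Nat.eq_of_mul_eq_mul_right hpos h2
  have hle : (powMonoidHom p : V →* V).range ≤ frattini V := by
    rintro _ ⟨x, rfl⟩
    exact pow_mem_frattini hV x
  have hdvd : (frattini V).index ∣ Nat.card W := hrange ▸ Subgroup.index_dvd_of_le hle
  have hWp : IsPGroup p W := hV.to_subgroup W
  obtain ⟨r, hr⟩ := (IsPGroup.iff_card).1 hWp
  rw [hr] at hdvd hcardW
  obtain ⟨s, hs, hidx⟩ := (Nat.dvd_prime_pow hp).1 hdvd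
  have hrle : r ≤ p * n := by
    rw [← pow_mul, mul_comm n p] at hcardW
    exact (Nat.pow_le_pow_iff_right hp.one_lt).1 hcardW
  have : Fintype V := Fintype.ofFinite V
  obtain ⟨S, -, hS, hcl⟩ := (burnside_basis hV hidx).1 Finset.univ (by simp)
  exact ⟨S, by omega, hcl⟩

end Cfsg.Agent.S3780
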