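import Cfsg.Statements.S3781
import Mathlib
import Cfsg.Agent.S4206

set_option autoImplicit false
open Cfsg

namespace Cfsg.Agent.S3781

variable {G : Type*} [Group G]

/-- Iterated commutators `[A, G, ..., G]`. -/
def itComm (A : Subgroup G) : ℕ → Subgroup G
  | 0 => A
  | j + 1 => ⁅itComm A j, ⊤⁆

instance itComm_normal (A : Subgroup G) [A.Normal] (j : ℕ) : (itComm A j).Normal := by
  induction j with
  | zero => exact inferInstanceAs A.Normal
  | succ j ih => exact inferInstanceAs (⁅itComm A j, ⊤⁆ : Subgroup G).Normal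

theorem itComm_mono {A B : Subgroup G} (h : A ≤ B) (j : ℕ) : itComm A j ≤ itComm B j := by
  induction j with
  | zero => exact h
  | succ j ih => exact Subgroup.commutator_mono ih le_rfl

theorem itComm_succ (A : Subgroup G) (j : ℕ) : itComm A (j + 1) = ⁅itComm A j, ⊤⁆ := rfl

theorem itComm_succ' (A : Subgroup G) (j : ℕ) : itComm A (j + 1) = itComm ⁅A, ⊤⁆ j := by
  induction j with
  | zero => rfl
  | succ j ih => rw [itComm_succ, ih, itComm_succ]

theorem itComm_le_self (A : Subgroup G) [A.Normal] (j : ℕ) : itComm A j ≤ A := by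
  induction j with
  | zero => exact le_rfl
  | succ j ih => exact (Subgroup.commutator_le_left _ _).trans ih

/-- Nilpotent groups: a normal subgroup strictly above `B` strictly contains its commutator with `G` modulo `B`. -/
theorem commutator_sup_lt [Group.IsNilpotent G] {X B : Subgroup G} [X.Normal] [B.Normal] (hBX : B ≤ X)
    (hne : ¬ X ≤ B) : ⁅X, ⊤⁆ ⊔ B < X := by
  refine lt_of_le_of_ne (sup_le (Subgroup.commutator_le_left _ _) hBX) ?_
  intro heq
  apply hne
  -- `X ≤ lcs k ⊔ B` for all `k`
  have key : ∀ k : ℕ, X ≤ (⊤ : Subgroup G).lowerCentralSeries k ⊔ B := by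
    intro k
    induction k with
    | zero => exact le_trans le_top le_sup_left
    | succ k ih =>
      have h1 : ⁅X, ⊤⁆ ≤ (⊤ : Subgroup G).lowerCentralSeries (k + 1) ⊔ B := by
        rw [← QuotientGroup.ker_mk' B] at *
        have hle : ∀ (Y : Subgroup G), Y.map (QuotientGroup.mk' B) ≤
            ((⊤ : Subgroup G).lowerCentralSeries (k + 1)).map (QuotientGroup.mk' B) →
            Y ≤ (⊤ : Subgroup G).lowerCentralSeries (k + 1) ⊔ (QuotientGroup.mk' B).ker := by
          intro Y hY
          rw [← Subgroup.comap_map_eq]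
          exact (Subgroup.map_le_iff_le_comap.1 hY)
        apply hle
        rw [Subgroup.map_commutator, Subgroup.lowerCentralSeries_succ, Subgroup.map_commutator]
        have h2 : X.map (QuotientGroup.mk' B) ≤ ((⊤ : Subgroup G).lowerCentralSeries k).map (QuotientGroup.mk' B) := by
          rw [Subgroup.map_le_iff_le_comap, Subgroup.comap_map_eq]
          simpa using ih
        exact Subgroup.commutator_mono h2 le_rfl
      calc X = ⁅X, ⊤⁆ ⊔ B := heq.symm
        _ ≤ (⊤ : Subgroup G).lowerCentralSeries (k + 1) ⊔ B := sup_le h1 le_sup_right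
  obtain ⟨n, hn⟩ := Subgroup.nilpotent_iff_lowerCentralSeries.1 (inferInstance : Group.IsNilpotent G)
  have := key n
  rwa [hn, bot_sup_eq] at this

/-- If `[X:B] ≤ p^k` then `[X, G,...,G] ≤ B` with `k` copies of `G`. -/
theorem itComm_le_of_relIndex_le [Finite G] {p : ℕ} [hp : Fact p.Prime] (hG : IsPGroup p G) :
    ∀ (k : ℕ) (X B : Subgroup G) [X.Normal] [B.Normal], B ≤ X → B.relIndex X ≤ p ^ k → itComm X k ≤ B := by
  intro k
  induction k with
  | zero =>
    intro X B _ _ hBX hidx
    have h1 : B.relIndex X = 1 := by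
      have hpos : 0 < B.relIndex X := Nat.pos_of_ne_zero (Subgroup.FiniteIndex.index_ne_zero)
      simp at hidx
      omega
    exact Subgroup.relIndex_eq_one.1 h1
  | succ k ih =>
    intro X B _ _ hBX hidx
    haveI : Group.IsNilpotent G := hG.isNilpotent
    by_cases hXB : X ≤ B
    · exact (itComm_le_self X (k + 1)).trans hXB
    · have hY := commutator_sup_lt hBX hXB
      set Y := ⁅X, ⊤⁆ ⊔ B with hYdef
      haveI : Y.Normal := inferInstance
      have hBY : B ≤ Y := le_sup_right
      have hmul : B.relIndex Y * Y.relIndex X = B.relIndex X := Subgroup.relIndex_mul_relIndex _ _ _ hBY hY.le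
      have hYX : p ∣ Y.relIndex X := by
        -- proper index in a `p`-group
        have hne : Y.relIndex X ≠ 1 := fun h => (not_le_of_gt hY) (Subgroup.relIndex_eq_one.1 h)
        have hdvd : Y.relIndex X ∣ Nat.card G := by
          have h1 : Y.relIndex X ∣ Nat.card X := Subgroup.index_dvd_card _
          exact h1.trans (Subgroup.card_subgroup_dvd_card X)
        obtain ⟨a, ha⟩ := IsPGroup.iff_card.1 hG
        rw [ha] at hdvd
        obtain ⟨b, _, hb⟩ := (Nat.dvd_prime_pow hp.out).1 hdvd
        rw [hb]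
        apply dvd_pow_self
        rintro rfl
        exact hne (by simpa using hb)
      have hle : B.relIndex Y ≤ p ^ k := by
        obtain ⟨c, hc⟩ := hYX
        rw [hc] at hmul
        have hpos : 0 < c := by
          rcases Nat.eq_zero_or_pos c with rfl | h
          · exfalso
            have h0 : Y.relIndex X = 0 := by rw [hc, mul_zero]
            exact Subgroup.FiniteIndex.index_ne_zero h0
          · exact h
        have h2 : B.relIndex Y * (p * c) ≤ p ^ (k + 1) := hmul ▸ hidx
        rw [pow_succ] at h2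
        have h3 : B.relIndex Y * p ≤ B.relIndex Y * (p * c) := by
          apply Nat.mul_le_mul_left
          exact Nat.le_mul_of_pos_right _ hpos
        exact Nat.le_of_mul_le_mul_right (h3.trans h2) hp.out.pos
      have := ih Y B hBY hle
      rw [itComm_succ']
      exact (itComm_mono le_sup_left k).trans this

theorem lcs_normal (N : Subgroup G) [N.Normal] (k : ℕ) : (N.lowerCentralSeries k).Normal := by
  induction k with
  | zero => simpa using (inferInstance : N.Normal)
  | succ k ih =>
    rw [Subgroup.lowerCentralSeries_succ]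
    exact Subgroup.commutator_normal _ _

/-- Let G be a finite p-group and n ≥ 1, and write γ_1(G) = G, γ_{k+1}(G) = [γ_k(G), G], and likewise γ_k(N) for a subgroup N. Let N be a normal subgroup of G contained in γ_n(G). If i > 1 and γ_{i+1}(N) ≠ 1, then |γ_i(N) : γ_{i+1}(N)| ≥ p^n. -/
theorem result {G : Type*} [Group G] [Finite G] {p : ℕ} [Fact p.Prime] (hG : IsPGroup p G) (n : ℕ) (hn : 1 ≤ n) (N : Subgroup G) [N.Normal] (hN : N ≤ (⊤ : Subgroup G).lowerCentralSeries (n - 1)) (i : ℕ) (hi : 1 < i) (hne : N.lowerCentralSeries i ≠ ⊥) : p ^ n ≤ (N.lowerCentralSeries i).relIndex (N.lowerCentralSeries (i - 1)) := by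
  classical
  haveI : Group.IsNilpotent G := hG.isNilpotent
  obtain ⟨i', rfl⟩ : ∃ i', i = i' + 1 := ⟨i - 1, by omega⟩
  obtain ⟨n', rfl⟩ : ∃ n', n = n' + 1 := ⟨n - 1, by omega⟩
  simp only [Nat.add_sub_cancel] at hN ⊢
  by_contra hlt
  push_neg at hlt
  set A : Subgroup G := N.lowerCentralSeries i' with hA
  set B : Subgroup G := N.lowerCentralSeries (i' + 1) with hB
  haveI hAn : A.Normal := lcs_normal N i'
  haveI hBn : B.Normal := lcs_normal N (i' + 1)
  have hBA : B ≤ A := by
    rw [hB, Subgroup.lowerCentralSeries_succ]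
    exact Subgroup.commutator_le_left _ _
  -- the index is a power of `p`, hence at most `p ^ n'`
  have hle : B.relIndex A ≤ p ^ n' := by
    have hdvd : B.relIndex A ∣ Nat.card G :=
      (Subgroup.index_dvd_card _).trans (Subgroup.card_subgroup_dvd_card A)
    obtain ⟨a, ha⟩ := IsPGroup.iff_card.1 hG
    rw [ha] at hdvd
    obtain ⟨b, _, hb⟩ := (Nat.dvd_prime_pow (Fact.out : p.Prime)).1 hdvd
    rw [hb] at hlt ⊢
    have : b < n' + 1 := (Nat.pow_lt_pow_iff_right (Fact.out : p.Prime).one_lt).1 hlt
    exact Nat.pow_le_pow_right (Fact.out : p.Prime).pos (by omega)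
  have hit : itComm A n' ≤ B := itComm_le_of_relIndex_le hG n' A B hBA hle
  have hchain : ⁅A, (⊤ : Subgroup G).lowerCentralSeries n'⁆ ≤ itComm A (n' + 1) := by
    have := Cfsg.Agent.S4206.result (itComm A) (fun j => itComm_normal A j)
      (fun j => by
        rw [itComm_succ]
        exact Subgroup.commutator_le_left _ _)
      ⊤ (fun j => le_of_eq (itComm_succ A j).symm) 0 n'
    have h0 : 0 + n' + 1 = n' + 1 := by omega
    rw [h0] at this
    exact this
  have hkey : B ≤ ⁅B, ⊤⁆ := by
    calc B = ⁅A, N⁆ := by rw [hB, Subgroup.lowerCentralSeries_succ]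
      _ ≤ ⁅A, (⊤ : Subgroup G).lowerCentralSeries n'⁆ := Subgroup.commutator_mono le_rfl hN
      _ ≤ itComm A (n' + 1) := hchain
      _ = ⁅itComm A n', ⊤⁆ := itComm_succ A n'
      _ ≤ ⁅B, ⊤⁆ := Subgroup.commutator_mono hit le_rfl
  apply hne
  have hall : ∀ k : ℕ, B ≤ (⊤ : Subgroup G).lowerCentralSeries k := by
    intro k
    induction k with
    | zero => exact le_top
    | succ k ih =>
      rw [Subgroup.lowerCentralSeries_succ]
      exact hkey.trans (Subgroup.commutator_mono ih le_rfl)
  obtain ⟨m, hm⟩ := Subgroup.nilpotent_iff_lowerCentralSeries.1 (inferInstance : Group.IsNilpotent G)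
  have := hall m
  rw [hm] at this
  exact le_bot_iff.1 this

end Cfsg.Agent.S3781
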