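import Cfsg.Statements.S3783
import Mathlib
import Cfsg.Agent.Lib.HallHigman.Layer
import Cfsg.Agent.Lib.Basic.SylowUtil
-- import your own Cfsg.Agent.* helpers here

set_option autoImplicit false
open Cfsg

namespace Cfsg.Agent.S3783

/-- Let G be a finite p-soluble group in which, for every prime q ≠ p, the Sylow q-subgroups are abelian. If the Sylow p-subgroups of G have exponent dividing p^n, then G has p-length at most n. -/
theorem result {G : Type*} [Group G] [Finite G] {p : ℕ} [Fact p.Prime] (hG : Cfsg.IsPSolvable p G) (hab : ∀ (q : ℕ) [Fact q.Prime], q ≠ p → ∀ Q : Sylow q G, IsMulCommutative (Q : Subgroup G)) (n : ℕ) (hexp : ∀ (P : Sylow p G), ∀ x ∈ (P : Subgroup G), x ^ p ^ n = 1) : Cfsg.PLengthLE p n G := by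
  classical
  apply Cfsg.Agent.Lib.HallHigman.Layer.plength_of_exp n G hG
  · intro n₀ q m h1 h2 h3 h4 h5 Q
    haveI : Fact q.Prime := ⟨h3⟩
    refine hab q ?_ Q
    rintro rfl
    have hd1 : q ∣ q ^ n₀ := dvd_pow_self q (by omega)
    have hd2 : q ∣ q ^ n₀ - 1 := by rw [h5]; exact dvd_pow_self q (by omega)
    have hpos : 0 < q ^ n₀ := pow_pos h3.pos _
    have h6 : q ∣ 1 := by
      have := Nat.dvd_sub hd1 hd2
      rwa [Nat.sub_sub_self hpos] at this
    exact h3.one_lt.ne' (Nat.dvd_one.1 h6)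
  · rintro x ⟨k, hk⟩
    obtain ⟨j, -, hj⟩ := (Nat.dvd_prime_pow (Fact.out : p.Prime)).1 (orderOf_dvd_of_pow_eq_one hk)
    obtain ⟨P, hP⟩ := Cfsg.Agent.Lib.Basic.SylowUtil.exists_sylow_of_orderOf hj
    exact hexp P x hP

end Cfsg.Agent.S3783
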