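import Cfsg.Statements.S3784
import Mathlib
-- import your own Cfsg.Agent.* helpers here

set_option autoImplicit false
open Cfsg

namespace Cfsg.Agent.S3784

theorem odd_cofactor (x : ℤ) (hx : Odd x) (k : ℕ) : ∃ c : ℤ, Odd c ∧ x ^ (2 * k + 1) - 1 = (x - 1) * c := by
  induction k with
  | zero => exact ⟨1, odd_one, by ring⟩
  | succ k ih =>
    obtain ⟨c, hc, he⟩ := ih
    refine ⟨x ^ 2 * c + x + 1, ?_, ?_⟩
    · have h1 : Odd (x ^ 2 * c) := (hx.pow).mul hc
      have h2 : Even (x + 1) := hx.add_one
      have := h1.add_even h2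
      rwa [add_assoc]
    · have : x ^ (2 * (k + 1) + 1) - 1 = x ^ 2 * (x ^ (2 * k + 1) - 1) + (x ^ 2 - 1) := by ring
      rw [this, he]
      ring

theorem odd_dvd_two_pow (c : ℤ) (hc : Odd c) (a : ℕ) (h : c ∣ 2 ^ a) : c.natAbs = 1 := by
  have h1 : c.natAbs ∣ 2 ^ a := by
    have := Int.natAbs_dvd_natAbs.mpr h
    simpa [Int.natAbs_pow] using this
  obtain ⟨j, -, hj⟩ := (Nat.dvd_prime_pow Nat.prime_two).mp h1
  have hodd : Odd c.natAbs := Int.natAbs_odd.mpr hc
  rw [hj] at hodd
  rcases j with _ | j
  · simpa using hj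
  · exfalso
    rw [pow_succ] at hodd
    exact (Nat.not_even_iff_odd.mpr hodd) (even_two.mul_left _)

/-- Let p, q be primes and a, b positive integers with p^a = q^b + 1. Then either p = 2, b = 1, a is prime and q = 2^a − 1; or q = 2, a = 1, b is a power of 2 and p = 2^b + 1; or p^a = 9 and q^b = 8. -/
theorem result (p q a b : ℕ) (hp : p.Prime) (hq : q.Prime) (ha : 1 ≤ a) (hb : 1 ≤ b) (h : p ^ a = q ^ b + 1) : (p = 2 ∧ b = 1 ∧ a.Prime ∧ q + 1 = 2 ^ a) ∨ (q = 2 ∧ a = 1 ∧ (∃ m : ℕ, b = 2 ^ m) ∧ p = 2 ^ b + 1) ∨ (p ^ a = 9 ∧ q ^ b = 8) := by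
  rcases hq.eq_two_or_odd' with rfl | hqodd
  · -- q = 2
    right
    have hpodd : Odd p := by
      rcases hp.eq_two_or_odd' with rfl | hpo
      · exfalso
        have h1 : Even (2 ^ a) := (even_two).pow_of_ne_zero (by omega)
        have h2 : Even (2 ^ b) := (even_two).pow_of_ne_zero (by omega)
        rw [h] at h1
        exact (Nat.not_even_iff_odd.mpr h2.add_one) h1
      · exact hpo
    have hp3 : 3 ≤ p := by
      have := hp.two_le
      rcases hpodd with ⟨m, rfl⟩
      omega
    rcases Nat.even_or_odd' a with ⟨c, rfl | rfl⟩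
    · -- a even
      right
      have hc : 1 ≤ c := by omega
      set u := p ^ c with hu
      have hu3 : 3 ≤ u := by
        calc 3 ≤ p := hp3
          _ = p ^ 1 := (pow_one p).symm
          _ ≤ p ^ c := Nat.pow_le_pow_right (by omega) hc
      have h2 : u * u = 2 ^ b + 1 := by
        rw [← h, hu, pow_mul, ← pow_mul, mul_comm 2 c, pow_mul]
        ring
      have h3 : (u - 1) * (u + 1) = 2 ^ b := by
        obtain ⟨v, hv⟩ : ∃ v, u = v + 1 := ⟨u - 1, by omega⟩
        rw [hv] at h2 ⊢
        simp only [Nat.add_sub_cancel]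
        have : (v + 1) * (v + 1) = v * (v + 1 + 1) + 1 := by ring
        rw [this] at h2
        omega
      obtain ⟨i, -, hi⟩ := (Nat.dvd_prime_pow Nat.prime_two).mp (Dvd.intro _ h3)
      obtain ⟨j, -, hj⟩ := (Nat.dvd_prime_pow Nat.prime_two).mp (Dvd.intro_left _ h3)
      have hij : i < j := by
        have : 2 ^ i < 2 ^ j := by omega
        exact (Nat.pow_lt_pow_iff_right (by norm_num)).mp this
      have hi1 : i = 1 := by
        by_contra hne
        have hi0 : i ≠ 0 := by
          rintro rfl
          simp at hi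
          omega
        have hi2 : 2 ≤ i := by omega
        have h4 : 4 ∣ 2 ^ i := by
          have : (2:ℕ) ^ 2 ∣ 2 ^ i := pow_dvd_pow 2 hi2
          simpa using this
        have h5 : 4 ∣ 2 ^ j := by
          have : (2:ℕ) ^ 2 ∣ 2 ^ j := pow_dvd_pow 2 (by omega)
          simpa using this
        have h6 : (2:ℕ) ^ j = 2 ^ i + 2 := by omega
        rw [h6] at h5
        omega
      subst hi1
      have hu' : u = 3 := by
        simp at hi
        omega
      constructor
      · rw [pow_mul', ← hu, hu']
        norm_num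
      · rw [hu'] at h2
        omega
    · -- a odd
      left
      refine ⟨rfl, ?_⟩
      have hcast : ((p : ℤ) ^ (2 * c + 1)) - 1 = 2 ^ b := by
        have : ((p ^ (2 * c + 1) : ℕ) : ℤ) = ((2 ^ b + 1 : ℕ) : ℤ) := by rw [h]
        push_cast at this
        rw [this]
        ring
      obtain ⟨e, he, hee⟩ := odd_cofactor (p : ℤ) (by exact_mod_cast hpodd) c
      have he1 := odd_dvd_two_pow e he b ⟨(p : ℤ) - 1, by rw [← hcast, hee]; ring⟩
      have hp1 : (0 : ℤ) < (p : ℤ) - 1 := by
        have : (3 : ℤ) ≤ p := by exact_mod_cast hp3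
        omega
      have hepos : 0 < e := by
        have h2 : (0 : ℤ) < 2 ^ b := by positivity
        rw [← hcast, hee] at h2
        exact (pos_iff_pos_of_mul_pos h2).mp hp1
      have he2 : e = 1 := by omega
      rw [he2, mul_one] at hee
      have h7 : (p : ℤ) ^ (2 * c + 1) = p := by linarith
      have h8 : p ^ (2 * c + 1) = p := by exact_mod_cast h7
      have hc0 : c = 0 := by
        by_contra hne
        have : p ^ 1 < p ^ (2 * c + 1) := Nat.pow_lt_pow_right (by omega) (by omega)
        simp only [pow_one] at this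
        omega
      subst hc0
      simp only [Nat.mul_zero, Nat.zero_add, pow_one] at h h8
      refine ⟨rfl, ?_, h⟩
      rcases Nat.eq_two_pow_or_exists_odd_prime_and_dvd b with hb2 | ⟨r, hr, hrb, hrodd⟩
      · exact hb2
      · exfalso
        obtain ⟨t, rfl⟩ := hrb
        have ht0 : t ≠ 0 := by
          rintro rfl
          simp at hb
        have h9 : 2 ^ t + 1 ∣ (2 ^ t) ^ r + 1 ^ r := Odd.nat_add_dvd_pow_add_pow _ _ hrodd
        rw [one_pow, ← pow_mul, mul_comm t r, ← h] at h9
        rcases (Nat.dvd_prime hp).mp h9 with h10 | h10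
        · have : 0 < 2 ^ t := by positivity
          omega
        · rw [h] at h10
          have h11 : 2 ^ t = 2 ^ (r * t) := by omega
          have h12 := Nat.pow_right_injective (le_refl 2) h11
          have hr2 := hr.two_le
          have : 2 * t ≤ r * t := Nat.mul_le_mul_right t hr2
          omega
  · -- q odd
    left
    have hq3 : 3 ≤ q := by
      have := hq.two_le
      rcases hqodd with ⟨m, rfl⟩
      omega
    have hp2 : p = 2 := by
      rcases hp.eq_two_or_odd' with h2 | hpo
      · exact h2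
      · exfalso
        have h1 : Odd (p ^ a) := hpo.pow
        rw [h] at h1
        exact (Nat.not_odd_iff_even.mpr (hqodd.pow.add_one)) h1
    subst hp2
    have hb1 : b = 1 := by
      rcases Nat.even_or_odd' b with ⟨m, rfl | rfl⟩
      · exfalso
        have hm : 1 ≤ m := by omega
        obtain ⟨v, hv⟩ : Odd (q ^ m) := hqodd.pow
        have h1 : q ^ (2 * m) = (q ^ m) * (q ^ m) := by
          rw [two_mul, pow_add]
        have h2 : q ^ (2 * m) % 4 = 1 := by
          rw [h1, hv]
          have : (2 * v + 1) * (2 * v + 1) = 4 * (v * v + v) + 1 := by ring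
          rw [this]
          omega
        have h3 : 2 ^ a % 4 = 2 := by
          rw [h]
          omega
        have ha1 : a = 1 := by
          by_contra hne
          have h4 : (2:ℕ) ^ 2 ∣ 2 ^ a := pow_dvd_pow 2 (by omega)
          have : (4:ℕ) ∣ 2 ^ a := by simpa using h4
          omega
        subst ha1
        have h5 : 1 < q ^ (2 * m) := Nat.one_lt_pow (by omega) (by omega)
        omega
      · have hcast : ((q : ℤ) ^ (2 * m + 1)) + 1 = 2 ^ a := by
          have : ((2 ^ a : ℕ) : ℤ) = ((q ^ (2 * m + 1) + 1 : ℕ) : ℤ) := by rw [h]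
          push_cast at this
          rw [this]
        obtain ⟨e, he, hee⟩ := odd_cofactor (-(q : ℤ)) (by
          have : Odd (q : ℤ) := by exact_mod_cast hqodd
          exact this.neg) m
        have hq' : (-(q : ℤ)) ^ (2 * m + 1) = -((q : ℤ) ^ (2 * m + 1)) := by
          rw [Odd.neg_pow ⟨m, rfl⟩]
        rw [hq'] at hee
        have hee' : (q : ℤ) ^ (2 * m + 1) + 1 = ((q : ℤ) + 1) * e := by linarith
        have he1 := odd_dvd_two_pow e he a ⟨(q : ℤ) + 1, by rw [← hcast, hee']; ring⟩
        have hq1 : (0 : ℤ) < (q : ℤ) + 1 := by positivity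
        have hepos : 0 < e := by
          have h2 : (0 : ℤ) < 2 ^ a := by positivity
          rw [← hcast, hee'] at h2
          exact (pos_iff_pos_of_mul_pos h2).mp hq1
        have he2 : e = 1 := by omega
        rw [he2, mul_one] at hee'
        have h7 : (q : ℤ) ^ (2 * m + 1) = q := by linarith
        have h8 : q ^ (2 * m + 1) = q := by exact_mod_cast h7
        by_contra hne
        have hm : m ≠ 0 := by
          rintro rfl
          simp at hne
        have : q ^ 1 < q ^ (2 * m + 1) := Nat.pow_lt_pow_right (by omega) (by omega)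
        simp only [pow_one] at this
        omega
    subst hb1
    simp only [pow_one] at h
    refine ⟨rfl, rfl, ?_, h.symm⟩
    -- a is prime
    have ha2 : 2 ≤ a := by
      by_contra hlt
      have : a = 1 := by omega
      subst this
      simp at h
      omega
    by_contra hnp
    obtain ⟨r, hr, hr1, hr2⟩ := Nat.exists_dvd_of_not_prime2 ha2 hnp
    obtain ⟨s, rfl⟩ := hr
    have h9 : 2 ^ r - 1 ∣ (2 ^ r) ^ s - 1 ^ s := Nat.sub_dvd_pow_sub_pow _ _ _
    rw [one_pow, ← pow_mul] at h9
    have hq2 : 2 ^ (r * s) - 1 = q := by omega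
    rw [hq2] at h9
    rcases (Nat.dvd_prime hq).mp h9 with h10 | h10
    · have : 2 ^ 2 ≤ 2 ^ r := Nat.pow_le_pow_right (by norm_num) hr1
      omega
    · have hlt : 2 ^ r < 2 ^ (r * s) := Nat.pow_lt_pow_right (by norm_num) hr2
      omega

end Cfsg.Agent.S3784
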