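import Cfsg.Statements.S3785
import Mathlib
import Cfsg.Agent.S0044
import Cfsg.Agent.Lib.Nilpotent.Fitting
import Cfsg.Agent.Lib.Coprime.OmegaOne
import Cfsg.Agent.Lib.Basic.ConjCount

set_option autoImplicit false

namespace Cfsg.Agent.S3785

open Subgroup Cfsg.Agent.Lib.Nilpotent.Fitting

/-- A finite group all of whose elements of order prime to `q` are central is nilpotent. -/
theorem isNilpotent_of_central_coprime {H : Type*} [Group H] [Finite H] {q : ℕ} [hq : Fact q.Prime]
    (h : ∀ x : H, (orderOf x).Coprime q → x ∈ center H) : Group.IsNilpotent H := by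
  have hp : IsPGroup q (H ⧸ center H) := by
    intro y
    obtain ⟨g, rfl⟩ := QuotientGroup.mk_surjective y
    obtain ⟨a, m, hm, hg⟩ := Nat.exists_eq_pow_mul_and_not_dvd (orderOf_pos g).ne' q hq.out.ne_one
    refine ⟨a, ?_⟩
    rw [← QuotientGroup.mk_pow]
    apply (QuotientGroup.eq_one_iff _).mpr
    apply h
    have h1 : (g ^ (q ^ a)) ^ m = 1 := by rw [← pow_mul, ← hg, pow_orderOf_eq_one]
    have h2 : orderOf (g ^ (q ^ a)) ∣ m := orderOf_dvd_of_pow_eq_one h1
    have h3 : m.Coprime q := ((Nat.Prime.coprime_iff_not_dvd hq.out).mpr hm).symm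
    exact Nat.Coprime.coprime_dvd_left h2 h3
  haveI : Group.IsNilpotent (H ⧸ center H) := hp.isNilpotent
  exact Subgroup.isNilpotent_of_ker_le_center (QuotientGroup.mk' (center H)) (by simp)

/-- The join of the `p`-cores for primes `p ≠ q`. -/
def coprimeJoin (G : Type*) [Group G] (q : ℕ) : Subgroup G :=
  ⨆ p : {p : Nat.Primes // (p : ℕ) ≠ q}, Cfsg.pCore ((p : Nat.Primes) : ℕ) G

theorem coprimeJoin_normal (G : Type*) [Group G] (q : ℕ) : (coprimeJoin G q).Normal :=
  Subgroup.iSup_normal _

theorem le_coprimeJoin {G : Type*} [Group G] {q p : ℕ} (hp : p.Prime) (hpq : p ≠ q) :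
    Cfsg.pCore p G ≤ coprimeJoin G q :=
  le_iSup (fun p : {p : Nat.Primes // (p : ℕ) ≠ q} => Cfsg.pCore ((p : Nat.Primes) : ℕ) G)
    ⟨⟨p, hp⟩, hpq⟩

theorem coprimeJoin_le {G : Type*} [Group G] {q : ℕ} {K : Subgroup G}
    (h : ∀ p : ℕ, p.Prime → p ≠ q → Cfsg.pCore p G ≤ K) : coprimeJoin G q ≤ K :=
  iSup_le fun p => h _ p.1.2 p.2

/-- Let G be a finite solvable group whose Fitting subgroup F(G) has odd order. If an element g of G commutes with every element of prime order of F(G), then g ∈ F(G). -/
theorem result {G : Type*} [Group G] [Finite G] (hG : Group.IsSolvable G) (hodd : Odd (Nat.card (Cfsg.fittingSubgroup G))) (g : G) (hg : ∀ x ∈ Cfsg.fittingSubgroup G, (orderOf x).Prime → g * x = x * g) : g ∈ Cfsg.fittingSubgroup G := by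
  classical
  haveI := hG
  haveI hFn : (Cfsg.fittingSubgroup G).Normal := fittingSubgroup_normal
  set F := Cfsg.fittingSubgroup G with hF
  -- claim A
  have claimA : ∀ (p : ℕ) [Fact p.Prime] (y : G), (orderOf y).Coprime p →
      (∀ x ∈ F, (orderOf x).Prime → y * x = x * y) → ∀ x ∈ Cfsg.pCore p G, y * x = x * y := by
    intro p _ y hy hyc x hx
    by_cases hp2 : p = 2
    · subst hp2
      have hxF : x ∈ F := pCore_le_fittingSubgroup 2 hx
      have hxo : Odd (orderOf x) := by
        have h1 : orderOf (⟨x, hxF⟩ : F) ∣ Nat.card F := orderOf_dvd_natCard _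
        rw [Subgroup.orderOf_mk] at h1
        exact Odd.of_dvd_nat hodd h1
      obtain ⟨k, hk⟩ := (isPGroup_pCore 2) ⟨x, hx⟩
      have h1 : x ^ (2 ^ k) = 1 := by simpa using congrArg Subtype.val hk
      have h2 := orderOf_dvd_of_pow_eq_one h1
      have h3 : (2 ^ k).Coprime (orderOf x) := Nat.Coprime.pow_left k (Nat.coprime_two_left.mpr hxo)
      have h4 := Nat.dvd_gcd (dvd_refl _) h2
      rw [Nat.gcd_comm, h3] at h4
      have h5 : x = 1 := orderOf_eq_one_iff.mp (Nat.dvd_one.mp h4)
      rw [h5]; simp
    · have hnorm : y ∈ Subgroup.normalizer ((Cfsg.pCore p G : Subgroup G) : Set G) := by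
        haveI := pCore_normal (G := G) p
        rw [normalizer_eq_top]; exact mem_top y
      refine Cfsg.Agent.Lib.Coprime.OmegaOne.comm_of_forall_pow_eq_one hp2 (isPGroup_pCore p) hnorm hy ?_ x hx
      intro z hz hzp
      by_cases hz1 : z = 1
      · rw [hz1]; simp
      · have hzo : orderOf z = p := orderOf_eq_prime hzp hz1
        exact hyc z (pCore_le_fittingSubgroup p hz) (hzo ▸ Fact.out)
  -- the subgroup `C`
  let Ω : Set G := {x | x ∈ F ∧ (orderOf x).Prime}
  let C : Subgroup G := Subgroup.centralizer Ω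
  have hmemC : ∀ y, y ∈ C ↔ ∀ x ∈ F, (orderOf x).Prime → y * x = x * y := by
    intro y
    constructor
    · intro hy x hx hxp
      exact (Subgroup.mem_centralizer_iff.mp hy x ⟨hx, hxp⟩).symm
    · intro hy
      rw [Subgroup.mem_centralizer_iff]
      rintro x ⟨hx, hxp⟩
      exact (hy x hx hxp).symm
  haveI hCn : C.Normal := by
    constructor
    intro c hc h
    rw [hmemC] at hc ⊢
    intro x hx hxp
    have h1 : h⁻¹ * x * h ∈ F := by
      have := hFn.conj_mem x hx h⁻¹
      simpa using this
    have h2 : (orderOf (h⁻¹ * x * h)).Prime := by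
      have h3 : orderOf (h⁻¹ * x * h) = orderOf x := by
        have := Cfsg.Agent.Lib.Basic.ConjCount.orderOf_eq_of_isConj
          (isConj_iff.mpr ⟨h⁻¹, by simp⟩ : IsConj x (h⁻¹ * x * h))
        exact this.symm
      rw [h3]; exact hxp
    have h3 := hc _ h1 h2
    calc h * c * h⁻¹ * x = h * (c * (h⁻¹ * x * h)) * h⁻¹ := by group
      _ = h * ((h⁻¹ * x * h) * c) * h⁻¹ := by rw [h3]
      _ = x * (h * c * h⁻¹) := by group
  have hgC : g ∈ C := (hmemC g).mpr hg
  -- work with a fixed prime
  have key : ∀ (q : ℕ) [Fact q.Prime] (y : G) (k : ℕ), y ∈ C → orderOf y = q ^ k → y ∈ F := by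
    intro q _ y k hyC hyo
    have hqp : q.Prime := Fact.out
    set Fq : Subgroup G := coprimeJoin G q with hFq
    haveI hFqn : Fq.Normal := coprimeJoin_normal G q
    set Tq : Subgroup G := C ⊓ Subgroup.centralizer (Fq : Set G) with hTq
    haveI hTqn : Tq.Normal := by
      haveI : (Subgroup.centralizer (Fq : Set G)).Normal := Subgroup.normal_centralizer
      infer_instance
    -- B : `y ∈ Tq`
    have hyT : y ∈ Tq := by
      refine ⟨hyC, ?_⟩
      have h1 : Fq ≤ Subgroup.centralizer ({y} : Set G) := by
        refine coprimeJoin_le ?_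
        intro p hp hpq
        haveI : Fact p.Prime := ⟨hp⟩
        intro x hx
        rw [Subgroup.mem_centralizer_singleton_iff]
        have hcop : (orderOf y).Coprime p := by
          rw [hyo]
          exact Nat.Coprime.pow_left k ((Nat.coprime_primes hqp hp).mpr (Ne.symm hpq))
        have := claimA p y hcop ((hmemC y).mp hyC) x hx
        exact this.symm
      show y ∈ Subgroup.centralizer (Fq : Set G)
      rw [Subgroup.mem_centralizer_iff]
      intro x hx
      exact Subgroup.mem_centralizer_singleton_iff.mp (h1 hx)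
    -- C : `q'`-elements of `Tq` lie in `Fq`
    have hC : ∀ x ∈ Tq, (orderOf x).Coprime q → x ∈ Fq := by
      intro x hxT hxc
      have hxF : x ∈ F := by
        apply Cfsg.Agent.S0044.result
        rw [Subgroup.mem_centralizer_iff]
        intro f hf
        have h1 : F ≤ Subgroup.centralizer ({x} : Set G) := by
          rw [hF, fittingSubgroup_eq_iSup_primes]
          refine iSup_le ?_
          rintro ⟨p, hp⟩
          haveI : Fact p.Prime := ⟨hp⟩
          intro z hz
          rw [Subgroup.mem_centralizer_singleton_iff]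
          by_cases hpq : p = q
          · subst hpq
            have := claimA p x hxc ((hmemC x).mp hxT.1) z hz
            exact this.symm
          · have hzF : z ∈ Fq := le_coprimeJoin hp hpq hz
            exact (Subgroup.mem_centralizer_iff.mp hxT.2 z hzF)
        exact Subgroup.mem_centralizer_singleton_iff.mp (h1 hf)
      refine mem_of_forall_pow_ordCompl_mem ?_
      intro p hp
      haveI : Fact p.Prime := ⟨hp⟩
      by_cases hpq : p = q
      · subst hpq
        have h0 : (orderOf x).factorization p = 0 :=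
          Nat.factorization_eq_zero_of_not_dvd (fun hd => by
            have := Nat.dvd_gcd hd (dvd_refl p)
            rw [hxc] at this
            exact hp.one_lt.ne' (Nat.dvd_one.mp this))
        rw [h0, pow_zero, Nat.div_one, pow_orderOf_eq_one]
        exact one_mem _
      · have h1 : x ^ (orderOf x / p ^ (orderOf x).factorization p) ∈ F := pow_mem hxF _
        have h2 := orderOf_pow_ordCompl x hp
        have h3 := mem_pCore_of_mem_nilpotent_normal (isNilpotent_fittingSubgroup) h1 h2
        exact le_coprimeJoin hp hpq h3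
    -- D : `Tq` is nilpotent
    have hTnil : Group.IsNilpotent Tq := by
      apply isNilpotent_of_central_coprime (q := q)
      intro x hx
      rw [Subgroup.mem_center_iff]
      intro t
      have h1 : (x : G) ∈ Fq := by
        refine hC x x.2 ?_
        rwa [← Subgroup.orderOf_coe] at hx
      have h2 := Subgroup.mem_centralizer_iff.mp t.2.2 x h1
      exact Subtype.ext h2.symm
    exact (le_fittingSubgroup hTnil) hyT
  refine mem_of_forall_pow_ordCompl_mem ?_
  intro q hq
  haveI : Fact q.Prime := ⟨hq⟩
  exact key q _ _ (pow_mem hgC _) (orderOf_pow_ordCompl g hq)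

end Cfsg.Agent.S3785
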