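-- S3786: Hall-Higman p-length bounds.
import Cfsg.Statements.S3786
import Cfsg.Agent.Lib.LastPow.Main

set_option autoImplicit false
open Cfsg

namespace Cfsg.Agent.S3786

/-- The Hall–Higman bound on p-length. Let p be an odd prime and G a finite p-soluble group whose Sylow p-subgroups have exponent dividing p^e. (a) If p is not of the form 2^k + 1, or if the Sylow 2-subgroups of G are abelian, then G has p-length at most e. (b) In every case G has p-length at most 2e. -/
theorem result {G : Type*} [Group G] [Finite G] {p : ℕ} [Fact p.Prime] (hp : p ≠ 2) (hG : Cfsg.IsPSolvable p G) (e : ℕ) (hexp : ∀ (P : Sylow p G), ∀ x ∈ (P : Subgroup G), x ^ p ^ e = 1) : (((¬ ∃ k : ℕ, p = 2 ^ k + 1) ∨ ∀ S : Sylow 2 G, IsMulCommutative (S : Subgroup G)) → Cfsg.PLengthLE p e G) ∧ Cfsg.PLengthLE p (2 * e) G := by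
  classical
  have hexp' : ∀ x : G, (∃ k, x ^ p ^ k = 1) → x ^ p ^ e = 1 := by
    rintro x ⟨k, hk⟩
    have h1 : IsPGroup p (Subgroup.zpowers x) := by
      rw [IsPGroup.iff_card]
      have hd : orderOf x ∣ p ^ k := orderOf_dvd_of_pow_eq_one hk
      obtain ⟨j, _, hj⟩ := (Nat.dvd_prime_pow Fact.out).mp hd
      exact ⟨j, by rw [Nat.card_zpowers, hj]⟩
    obtain ⟨P, hP⟩ := h1.exists_le_sylow
    exact hexp P x (hP (Subgroup.mem_zpowers x))
  refine ⟨fun hcase => ?_, Cfsg.Agent.Lib.LastPow.Main.plength_two hp e G hG hexp'⟩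
  refine Cfsg.Agent.Lib.HallHigman.Layer.plength_of_exp e G hG ?_ hexp'
  intro n₀ q m h1 _ hq hm heq Q
  have hp1 : Nat.Prime p := Fact.out
  have hodd : Odd (p ^ n₀) := (hp1.odd_of_ne_two hp).pow
  have hq2 : q = 2 := by
    have h2 : 2 ∣ q ^ m := by
      rw [← heq]
      obtain ⟨t, ht⟩ := hodd
      rw [ht]
      exact ⟨t, by omega⟩
    exact ((Nat.prime_dvd_prime_iff_eq Nat.prime_two hq).mp (Nat.prime_two.dvd_of_dvd_pow h2)).symm
  subst hq2
  rcases hcase with h | h
  · exfalso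
    apply h
    have hd : p - 1 ∣ p ^ n₀ - 1 := by
      have := Nat.sub_dvd_pow_sub_pow p 1 n₀
      simpa using this
    rw [heq] at hd
    obtain ⟨k, _, hk⟩ := (Nat.dvd_prime_pow Nat.prime_two).mp hd
    exact ⟨k, by have := hp1.pos; omega⟩
  · exact h Q

end Cfsg.Agent.S3786
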