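import Cfsg.Statements.S3788
import Mathlib
import Cfsg.Agent.Lib.SFour.Offender
import Cfsg.Agent.Lib.PGroup.FFDuo
import Cfsg.Agent.Lib.Coprime.FrattiniAct
import Cfsg.Agent.Lib.PGroup.Basic
import Cfsg.Agent.Lib.Coprime.PSolvable
-- import your own Cfsg.Agent.* helpers here

set_option autoImplicit false
set_option linter.style.haveILetI false
set_option linter.unusedVariables false
set_option linter.unusedSectionVars false
open Cfsg

namespace Cfsg.Agent.S3788

open Subgroup Cfsg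
open scoped commutatorElement MatrixGroups
open Cfsg.Agent.Lib.SFour.Recog Cfsg.Agent.Lib.SFour.Offender
open Cfsg.Agent.Lib.PGroup.Timmesfeld Cfsg.Agent.Lib.PGroup.FFPair Cfsg.Agent.Lib.PGroup.FFTv
  Cfsg.Agent.Lib.PGroup.FFDuo Cfsg.Agent.Lib.PGroup.FFSL2 Cfsg.Agent.Lib.PGroup.FFTrans

section core

variable {Γ : Type*} [Group Γ] [Finite Γ] {p : ℕ} [hp : Fact p.Prime]

/-- The minus identity. -/
def mone (p : ℕ) [Fact p.Prime] : SL(2, ZMod p) := ⟨!![-1, 0; 0, -1], by simp [Matrix.det_fin_two]⟩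

theorem mone_central (A : SL(2, ZMod p)) : mone p * A = A * mone p := by
  apply Subtype.ext
  show (mone p).1 * A.1 = A.1 * (mone p).1
  ext i j
  fin_cases i <;> fin_cases j <;> simp [mone, Matrix.mul_apply, Fin.sum_univ_two]

/-- The rank one data: `a` acts on the elementary abelian `V` with `[V, a] ≤ ⟨c⟩`, `a` fixes `c`. -/
structure Rk (p : ℕ) (V : Subgroup Γ) (a c : Γ) : Prop where
  hV : IsElementaryAbelian p V
  hcV : c ∈ V
  hc1 : c ≠ 1
  hac : a * c = c * a
  hrank : ∀ v ∈ V, a * v * a⁻¹ * v⁻¹ ∈ zpowers c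
  hna : ∃ v ∈ V, a * v ≠ v * a

variable {V : Subgroup Γ} {a c : Γ}

theorem Rk.order (R : Rk p V a c) : orderOf c = p := orderOf_eq_prime (R.hV.2 c R.hcV) R.hc1

theorem Rk.comm (R : Rk p V a c) {x y : Γ} (hx : x ∈ V) (hy : y ∈ V) : x * y = y * x := by
  have := R.hV.1.is_comm.comm ⟨x, hx⟩ ⟨y, hy⟩
  simpa using congrArg Subtype.val this

theorem Rk.zp_le (R : Rk p V a c) : zpowers c ≤ V := by
  rw [zpowers_le]; exact R.hcV

theorem Rk.fix (R : Rk p V a c) {t : Γ} (ht : t ∈ zpowers c) : a * t = t * a := by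
  obtain ⟨k, rfl⟩ := ht
  exact (Commute.zpow_right R.hac k)

theorem Rk.pow_comm (R : Rk p V a c) {v : Γ} (hv : v ∈ V) (n : ℕ) :
    a ^ n * v * (a ^ n)⁻¹ * v⁻¹ ∈ zpowers c := by
  have ht := R.hrank v hv
  have h1 : a * v * a⁻¹ = (a * v * a⁻¹ * v⁻¹) * v := by group
  have h2 := conj_pow_eq (R.fix ht) h1 n
  rw [h2]
  simpa using (zpowers c).pow_mem ht n

theorem Rk.pow_p (R : Rk p V a c) {v : Γ} (hv : v ∈ V) : a ^ p * v = v * a ^ p := by
  have ht := R.hrank v hv
  have h1 : a * v * a⁻¹ = (a * v * a⁻¹ * v⁻¹) * v := by group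
  have h2 := conj_pow_eq (R.fix ht) h1 p
  rw [R.hV.2 _ (R.zp_le ht), one_mul] at h2
  exact mul_inv_eq_iff_eq_mul.mp h2

theorem Rk.comm_le (R : Rk p V a c) : ⁅V, zpowers a⁆ ≤ zpowers c := by
  rw [Subgroup.commutator_le]
  intro v hv g hg
  obtain ⟨n, rfl⟩ := (mem_powers_iff_mem_zpowers (x := a) (y := g)).mpr hg
  have h1 := (zpowers c).inv_mem (R.pow_comm hv n)
  have h2 : ⁅v, a ^ n⁆ = (a ^ n * v * (a ^ n)⁻¹ * v⁻¹)⁻¹ := by
    rw [commutatorElement_def]; group
  simpa only [h2] using h1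

theorem Rk.card_comm (R : Rk p V a c) : Nat.card ↥(⁅V, zpowers a⁆ : Subgroup Γ) = p := by
  have h1 : Nat.card ↥(⁅V, zpowers a⁆ : Subgroup Γ) ∣ p := by
    have := Subgroup.card_dvd_of_le R.comm_le
    rwa [Nat.card_zpowers, R.order] at this
  rcases (Nat.dvd_prime hp.out).mp h1 with h | h
  · exfalso
    obtain ⟨v, hv, hne⟩ := R.hna
    have hbot := Subgroup.eq_bot_of_card_eq _ h
    have h2 : ⁅v, a⁆ ∈ (⁅V, zpowers a⁆ : Subgroup Γ) :=
      Subgroup.commutator_mem_commutator hv (mem_zpowers a)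
    rw [hbot, Subgroup.mem_bot] at h2
    apply hne
    exact (commutatorElement_eq_one_iff_mul_comm.mp h2).symm
  · exact h

/-- `|V : C_V(a)| ≤ p`. -/
theorem Rk.card_le (R : Rk p V a c) :
    Nat.card V ≤ p * Nat.card ↥(V ⊓ centralizer ((zpowers a : Subgroup Γ) : Set Γ)) := by
  classical
  have hconj : ∀ v ∈ V, a * v * a⁻¹ ∈ V := fun v hv => by
    have h1 := R.hrank v hv
    have h2 : a * v * a⁻¹ = (a * v * a⁻¹ * v⁻¹) * v := by group
    rw [h2]
    exact V.mul_mem (R.zp_le h1) hv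
  let f : ↥V →* ↥(zpowers c) :=
    { toFun := fun v => ⟨a * v * a⁻¹ * (v : Γ)⁻¹, R.hrank v v.2⟩
      map_one' := by
        apply Subtype.ext
        simp
      map_mul' := by
        intro u v
        apply Subtype.ext
        show a * ((u : Γ) * v) * a⁻¹ * ((u : Γ) * v)⁻¹ =
          (a * u * a⁻¹ * (u : Γ)⁻¹) * (a * v * a⁻¹ * (v : Γ)⁻¹)
        have hc := R.comm (R.zp_le (R.hrank v v.2)) u.2
        calc a * ((u : Γ) * v) * a⁻¹ * ((u : Γ) * v)⁻¹
            = (a * u * a⁻¹ * (u : Γ)⁻¹) * ((u : Γ) * (a * v * a⁻¹ * (v : Γ)⁻¹)) * (u : Γ)⁻¹ := by group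
          _ = (a * u * a⁻¹ * (u : Γ)⁻¹) * ((a * v * a⁻¹ * (v : Γ)⁻¹) * (u : Γ)) * (u : Γ)⁻¹ := by rw [hc]
          _ = _ := by group }
  have h1 : Nat.card f.ker * f.ker.index = Nat.card V := Subgroup.card_mul_index f.ker
  have h2 : f.ker.index ≤ p := by
    rw [Subgroup.index_ker]
    have h3 := Subgroup.card_le_card_group f.range
    rwa [Nat.card_zpowers, R.order] at h3
  have h3 : Nat.card f.ker ≤ Nat.card ↥(V ⊓ centralizer ((zpowers a : Subgroup Γ) : Set Γ)) := by
    let ι : f.ker → ↥(V ⊓ centralizer ((zpowers a : Subgroup Γ) : Set Γ)) := fun v =>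
      ⟨v.1.1, v.1.2, by
        refine Subgroup.mem_centralizer_iff.mpr ?_
        rintro g ⟨k, rfl⟩
        have h4 : a * v.1.1 * a⁻¹ * (v.1.1)⁻¹ = 1 := congrArg Subtype.val v.2
        have h5 : a * v.1.1 = v.1.1 * a := by
          have h6 : a * v.1.1 * a⁻¹ = v.1.1 := mul_inv_eq_one.mp h4
          exact mul_inv_eq_iff_eq_mul.mp h6
        exact Commute.zpow_left h5 k⟩
    apply Nat.card_le_card_of_injective ι
    intro x y hxy
    apply Subtype.ext
    apply Subtype.ext
    exact congrArg (fun z : ↥(V ⊓ centralizer ((zpowers a : Subgroup Γ) : Set Γ)) => (z : Γ)) hxy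
  rw [← h1, mul_comm]
  exact Nat.mul_le_mul h2 h3

/-- `⟨a⟩` is a best offender. -/
theorem Rk.isBest (R : Rk p V a c) (hap : IsPGroup p ↥(zpowers a)) : IsBestOffenderOn p V (zpowers a) := by
  refine ⟨?_, ?_, ?_⟩
  · intro B hB
    by_cases hBa : B = zpowers a
    · rw [hBa]
    have h1 := card_mul_relIndex' hB
    have h2 : p ≤ B.relIndex (zpowers a) := by
      have hd : B.relIndex (zpowers a) ∣ Nat.card (zpowers a) := Subgroup.relIndex_dvd_card _ _
      obtain ⟨n, hn⟩ := IsPGroup.iff_card.mp hap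
      rw [hn] at hd
      obtain ⟨k, -, hk⟩ := (Nat.dvd_prime_pow hp.out).mp hd
      rcases k with _ | k
      · exfalso
        apply hBa
        apply le_antisymm hB
        have : B.relIndex (zpowers a) = 1 := by simpa using hk
        exact Subgroup.relIndex_eq_one.mp this
      · rw [hk, pow_succ]
        exact Nat.le_mul_of_pos_left _ (pow_pos hp.out.pos k)
    have h3 : Nat.card ↥(V ⊓ centralizer (B : Set Γ)) ≤ Nat.card V :=
      Subgroup.card_le_of_le inf_le_left
    have h4 := R.card_le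
    calc Nat.card B * Nat.card ↥(V ⊓ centralizer (B : Set Γ))
        ≤ Nat.card B * (p * Nat.card ↥(V ⊓ centralizer ((zpowers a : Subgroup Γ) : Set Γ))) :=
          Nat.mul_le_mul_left _ (h3.trans h4)
      _ = (Nat.card B * p) * Nat.card ↥(V ⊓ centralizer ((zpowers a : Subgroup Γ) : Set Γ)) := by ring
      _ ≤ (Nat.card B * B.relIndex (zpowers a)) *
            Nat.card ↥(V ⊓ centralizer ((zpowers a : Subgroup Γ) : Set Γ)) :=
          Nat.mul_le_mul_right _ (Nat.mul_le_mul_left _ h2)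
      _ = _ := by rw [h1]
  · have : ⁅zpowers a, zpowers a⁆ = ⊥ := by
      rw [Subgroup.commutator_eq_bot_iff_le_centralizer]
      rintro _ ⟨k, rfl⟩
      rw [Subgroup.mem_centralizer_iff]
      rintro _ ⟨j, rfl⟩
      exact (Commute.refl a).zpow_zpow j k
    rw [this]
    exact bot_le
  · rintro _ ⟨k, rfl⟩
    rw [Subgroup.mem_centralizer_iff]
    intro v hv
    have h1 : Commute (a ^ p) v := R.pow_p hv
    have h2 : (a ^ k) ^ p = (a ^ p) ^ k := by
      rw [← zpow_natCast, ← zpow_mul, mul_comm, zpow_mul, zpow_natCast]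
    show v * (a ^ k) ^ p = (a ^ k) ^ p * v
    rw [h2]
    exact (Commute.zpow_left h1 k).symm

/-- The contradiction for odd `p`. -/
theorem odd_contra {V : Subgroup Γ} [hVn : V.Normal] (hp2 : p ≠ 2) (hsol : IsPSolvable p Γ)
    (hOC : ∀ D : Subgroup Γ, D.Normal → centralizer (V : Set Γ) ≤ D →
      (∃ k : ℕ, (centralizer (V : Set Γ)).relIndex D = p ^ k) → D = centralizer (V : Set Γ))
    (hCV : centralizer (V : Set Γ) ≤ V) {a c : Γ} (R : Rk p V a c)
    (hP : ∀ g : Γ, ∀ w ∈ V, g * a * g⁻¹ = a * w → g * c * g⁻¹ = c) : False := by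
  classical
  set H : Subgroup (TT V) := (⊤ : Subgroup Γ).map (pi V) with hH
  have hS1 : centralizer (pPrimeCore p ↥H : Set ↥H) ≤ pPrimeCore p ↥H := by
    apply Cfsg.Agent.Lib.Solvable.Stability.centralizer_pPrimeCore_le
    · have h1 : IsPSolvable p ↥(⊤ : Subgroup Γ) :=
        Cfsg.Agent.Lib.Coprime.PSolvable.isPSolvable_subgroup hp.out _ hsol
      exact Cfsg.Agent.Lib.Coprime.PSolvable.isPSolvable_of_surjective hp.out
        ((pi V).subgroupMap ⊤) ((pi V).subgroupMap_surjective ⊤) h1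
    · exact pCore_map_eq_bot hOC ⊤
  have S : Setup p (V0 V) H :=
    ⟨isEA_V0 R.hV, map_le_normalizer_V0 ⊤, map_inf_centralizer_eq_bot ⊤, hS1⟩
  set a' : TT V := pi V a with ha'def
  have hpow : a' ^ p = 1 := by
    rw [ha'def, ← map_pow]
    apply (pi_eq_one_iff _).mpr
    rw [Subgroup.mem_centralizer_iff]
    intro v hv
    exact (R.pow_p hv).symm
  have hne1 : a' ≠ 1 := by
    intro h
    obtain ⟨v, hv, hne⟩ := R.hna
    have := Subgroup.mem_centralizer_iff.mp ((pi_eq_one_iff a).mp h) v hv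
    exact hne this.symm
  have hzp : zpowers a' = (zpowers a).map (pi V) := by
    rw [MonoidHom.map_zpowers]
  have ha'm : a' ∈ H := ⟨a, trivial, rfl⟩
  have hTv : IsTv p (V0 V) H a' := by
    refine ⟨ha'm, hpow, ?_⟩
    show Nat.card ↥(⁅V0 V, zpowers a'⁆ : Subgroup (TT V)) = p
    rw [hzp, card_commutator_up]
    exact R.card_comm
  have hord : orderOf a' = p := orderOf_eq_prime hpow hne1
  have hpg : IsPGroup p ↥(zpowers a') := by
    apply IsPGroup.of_card (n := 1)
    rw [Nat.card_zpowers, hord, pow_one]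
  obtain ⟨f', hf', hne⟩ : ∃ f' ∈ core p H, f' * a' ≠ a' * f' := by
    by_contra hno
    push Not at hno
    have h1 : zpowers a' ≤ centralizer (core p H : Set (TT V)) := by
      rw [zpowers_le, Subgroup.mem_centralizer_iff]
      intro y hy
      exact hno y hy
    have h2 := eq_bot_of_le_centralizer_core S (zpowers_le.mpr ha'm) hpg h1
    apply hne1
    exact zpowers_eq_bot.mp h2
  have hcl := (Cl.self hTv).conj_core S hTv hf'
  have hD : Duo p (V0 V) H a' (f' * a' * f'⁻¹) := by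
    refine ⟨hTv, hcl.1, hcl.2, ?_⟩
    intro h
    apply hne
    have h1 : a' * f' = f' * a' := by
      calc a' * f' = (f' * a' * f'⁻¹) * f' := by rw [← h]
        _ = f' * a' := by group
    exact h1.symm
  obtain ⟨d₁, d₂, f, hza, -, P, -, hfR⟩ := exists_equiv_E S hD
  set τ' : ↥(EE a' (f' * a' * f'⁻¹)) := f.symm (mone p) with hτ'
  have hRτ : Cfsg.Agent.Lib.PGroup.FFSL2.R d₁ d₂ τ'.1 (mone p) := by
    have := hfR τ'
    rwa [hτ', MulEquiv.apply_symm_apply] at this
  -- `τ'` inverts `d₁`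
  have hinv : τ'.1 * d₁ * τ'.1⁻¹ = d₁⁻¹ := by
    have h3 := hRτ ![1, 0]
    rw [psi_e0] at h3
    rw [h3]
    have hm : (mone p).1.mulVec (![1, 0] : Fin 2 → ZMod p) = ![-1, 0] := by
      funext i
      fin_cases i <;> simp [Matrix.mulVec, dotProduct, Fin.sum_univ_two, mone]
    rw [hm]
    simp only [psi, Matrix.cons_val_zero, Matrix.cons_val_one, Matrix.cons_val_fin_one]
    have h5 := pow_val_add P.pow₁ (-1 : ZMod p) 1
    have h6 : d₁ ^ ((1 : ZMod p)).val = d₁ := by
      have := pow_val_natCast (p := p) P.pow₁ 1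
      simpa using this
    rw [neg_add_cancel, ZMod.val_zero, pow_zero, h6] at h5
    simp only [ZMod.val_zero, pow_zero, mul_one]
    exact (eq_inv_of_mul_eq_one_left h5.symm)
  -- `τ'` commutes with `a'`
  have hamem : a' ∈ EE a' (f' * a' * f'⁻¹) :=
    (le_sup_left : zpowers a' ≤ EE a' (f' * a' * f'⁻¹)) (mem_zpowers a')
  have hcomm : τ'.1 * a' = a' * τ'.1 := by
    have h1 : τ' * (⟨a', hamem⟩ : ↥(EE a' (f' * a' * f'⁻¹))) = ⟨a', hamem⟩ * τ' := by
      apply f.injective
      rw [map_mul, map_mul, hτ', MulEquiv.apply_symm_apply]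
      exact mone_central _
    exact congrArg Subtype.val h1
  obtain ⟨τ₁, -, hτ₁⟩ := EE_le hD τ'.2
  rw [← hτ₁] at hinv hcomm
  -- `τ₁` commutes with `a` modulo `V`
  have hw : a⁻¹ * (τ₁ * a * τ₁⁻¹) ∈ V := by
    apply hCV
    apply (pi_eq_one_iff _).mp
    simp only [map_mul, map_inv]
    rw [← ha'def, hcomm]
    group
  have hfix := hP τ₁ _ hw (by group)
  -- `d₁` in `V`
  have hd₁ : d₁ ∈ (⁅V0 V, (zpowers a).map (pi V)⁆ : Subgroup (TT V)) := by
    rw [← hzp]
    show d₁ ∈ cen (V0 V) a'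
    rw [hza]
    exact mem_zpowers d₁
  rw [commutator_up] at hd₁
  obtain ⟨v, hv, hvd⟩ := hd₁
  have hvU : (v : Γ) ∈ (⁅V, zpowers a⁆ : Subgroup Γ) := Subgroup.mem_subgroupOf.mp hv
  have hvc : (v : Γ) ∈ zpowers c := R.comm_le hvU
  have hv1 : (v : Γ) ≠ 1 := by
    intro h
    have h1 : v = 1 := Subtype.ext h
    apply P.ne₁
    rw [← hvd, h1, map_one]
  have hzv : zpowers (v : Γ) = zpowers c := by
    apply Subgroup.eq_of_le_of_card_ge ((zpowers_le).mpr hvc)
    rw [Nat.card_zpowers, Nat.card_zpowers, R.order, orderOf_eq_prime (R.hV.2 _ v.2) hv1]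
  have hcv : c ∈ zpowers (v : Γ) := by rw [hzv]; exact mem_zpowers c
  obtain ⟨m, rfl⟩ := hcv
  -- `τ₁` inverts `v`
  have hτv : τ₁ * (v : Γ) * τ₁⁻¹ = (v : Γ)⁻¹ := by
    have h1 := inl_mul_pi (V := V) τ₁ v
    rw [hvd, hinv, ← hvd, ← map_inv] at h1
    have h2 := SemidirectProduct.inl_injective h1
    have h3 := congrArg Subtype.val h2
    exact h3.symm
  have hc1 : τ₁ * ((v : Γ) ^ m) * τ₁⁻¹ = ((v : Γ) ^ m)⁻¹ := by
    rw [← conj_zpow, hτv, inv_zpow]
  rw [hc1] at hfix
  have hfix' : ((v : Γ) ^ m)⁻¹ = (v : Γ) ^ m := hfix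
  have h2 : ((v : Γ) ^ m) ^ 2 = 1 := by
    rw [pow_two]
    calc (v : Γ) ^ m * (v : Γ) ^ m = ((v : Γ) ^ m)⁻¹ * (v : Γ) ^ m := by rw [hfix']
      _ = 1 := inv_mul_cancel _
  have h3 : orderOf ((v : Γ) ^ m) ∣ 2 := orderOf_dvd_of_pow_eq_one h2
  have h4 : orderOf ((v : Γ) ^ m) = p := R.order
  rw [h4] at h3
  exact hp2 ((Nat.prime_dvd_prime_iff_eq hp.out Nat.prime_two).mp h3)

end core

section top

variable {G : Type*} [Group G] [Finite G] {p : ℕ} [hp : Fact p.Prime]

/-- The power formula. -/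
theorem pow_formula {Γ : Type*} [Group Γ] {a w z : Γ} (haz : a * z = z * a) (hzw : z * w = w * z)
    (h : a⁻¹ * w * a = z * w) (n : ℕ) : (a * w) ^ n = a ^ n * z ^ (n.choose 2) * w ^ n := by
  induction n with
  | zero => simp
  | succ n ih =>
    have h1 : w ^ n * a = a * (z * w) ^ n := by
      have h2 : a⁻¹ * w ^ n * a = (z * w) ^ n := by
        rw [← h]
        have := conj_pow (a := a⁻¹) (b := w) (i := n)
        simpa using this.symm
      calc w ^ n * a = a * (a⁻¹ * w ^ n * a) := by group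
        _ = _ := by rw [h2]
    have hcomm : Commute z w := hzw
    have h3 : z ^ (n.choose 2) * a = a * z ^ (n.choose 2) := (Commute.pow_left (show Commute z a from haz.symm) _)
    have hch : (n + 1).choose 2 = n.choose 2 + n := by
      rw [Nat.choose_succ_succ' n 1, Nat.choose_one_right, add_comm]
    calc (a * w) ^ (n + 1) = (a * w) ^ n * (a * w) := pow_succ _ _
      _ = a ^ n * z ^ (n.choose 2) * (w ^ n * a) * w := by rw [ih]; group
      _ = a ^ n * (z ^ (n.choose 2) * a) * (z * w) ^ n * w := by rw [h1]; group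
      _ = a ^ (n + 1) * z ^ (n.choose 2) * (z ^ n * w ^ n) * w := by
          rw [h3, hcomm.mul_pow, pow_succ]; group
      _ = a ^ (n + 1) * z ^ ((n + 1).choose 2) * w ^ (n + 1) := by
          rw [hch, pow_add, pow_succ w n]; group

/-- The theorem with trivial `O_{p'}`. -/
theorem main_core (hG : IsPSolvable p G) (h0 : pPrimeCore p G = ⊥) (P : Sylow p G) (A : Subgroup G)
    (hAP : A ≤ (P : Subgroup G)) (hAn : (P : Subgroup G) ≤ normalizer (A : Set G)) (hA : IsCyclic A)
    (h : p ≠ 2 ∨ ¬ Involves (Equiv.Perm (Fin 4)) G) : A ≤ pCore p G := by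
  classical
  by_contra hAR
  set Q := pCore p G with hQdef
  haveI hQn : Q.Normal := pCore_normal p G
  have hQp : IsPGroup p Q := Cfsg.Agent.Lib.Basic.PCore.pCore_isPGroup p
  have hQP : Q ≤ (P : Subgroup G) := Cfsg.Agent.Lib.Basic.PCore.pCore_le_sylow P
  have hCQ : centralizer (Q : Set G) ≤ Q := Cfsg.Agent.Lib.Solvable.PSeries.centralizer_pCore_le hG h0
  -- the Frattini subgroup
  set F : Subgroup G := (frattini ↥Q).map Q.subtype with hF
  haveI hFn : F.Normal := Cfsg.Agent.Lib.Basic.PCore.map_subtype_normal_of_characteristic _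
  have hFQ : F ≤ Q := by
    rintro _ ⟨x, -, rfl⟩
    exact x.2
  let π : G →* G ⧸ F := QuotientGroup.mk' F
  have hπs : Function.Surjective π := QuotientGroup.mk'_surjective F
  have hπ1 : ∀ x, π x = 1 ↔ x ∈ F := fun x => QuotientGroup.eq_one_iff x
  set V : Subgroup (G ⧸ F) := Q.map π with hVdef
  haveI hVn : V.Normal := Subgroup.Normal.map hQn π hπs
  -- `V` is elementary abelian
  have hV : IsElementaryAbelian p V := by
    refine ⟨⟨⟨?_⟩⟩, ?_⟩
    · rintro ⟨_, r, hr, rfl⟩ ⟨_, s, hs, rfl⟩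
      apply Subtype.ext
      show π r * π s = π s * π r
      have h1 : ⁅r, s⁆ ∈ F := by
        have := Cfsg.Agent.Lib.PGroup.Basic.commutatorElement_mem_frattini hQp (⟨r, hr⟩ : ↥Q) ⟨s, hs⟩
        exact ⟨_, this, rfl⟩
      have h2 := (hπ1 _).mpr h1
      rw [commutatorElement_def, map_mul, map_mul, map_mul, map_inv, map_inv] at h2
      calc π r * π s = (π r * π s * (π r)⁻¹ * (π s)⁻¹) * (π s * π r) := by group
        _ = π s * π r := by rw [h2, one_mul]
    · rintro _ ⟨r, hr, rfl⟩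
      have h1 : r ^ p ∈ F := by
        have := Cfsg.Agent.Lib.PGroup.Basic.pow_mem_frattini hQp (⟨r, hr⟩ : ↥Q)
        exact ⟨_, this, rfl⟩
      rw [← map_pow]
      exact (hπ1 _).mpr h1
  -- the centralizer of `V`
  have hCVG : (centralizer (V : Set (G ⧸ F))).comap π ≤ Q := by
    set C₁ := (centralizer (V : Set (G ⧸ F))).comap π with hC₁
    have hC₁n : C₁.Normal := Subgroup.Normal.comap inferInstance π
    have hC₁p : IsPGroup p C₁ := by
      rw [IsPGroup.iff_orderOf]
      rintro ⟨g, hg⟩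
      have hg' : orderOf (⟨g, hg⟩ : ↥C₁) = orderOf g := Subgroup.orderOf_mk g hg
      rw [hg']
      obtain ⟨m, k, hm, hk⟩ : ∃ m k : ℕ, ¬ p ∣ m ∧ orderOf g = p ^ k * m := by
        have hne : orderOf g ≠ 0 := (orderOf_pos g).ne'
        obtain ⟨k, m, hm, hk⟩ := Nat.exists_eq_pow_mul_and_not_dvd hne p hp.out.ne_one
        exact ⟨m, k, hm, hk⟩
      set y := g ^ p ^ k with hy
      have hyC : y ∈ C₁ := C₁.pow_mem hg _
      have hoy : orderOf y = m := by
        rw [hy, orderOf_pow' _ (pow_ne_zero _ hp.out.ne_zero), hk]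
        rw [Nat.gcd_eq_right (Nat.dvd_mul_right _ _)]
        exact Nat.mul_div_cancel_left _ (pow_pos hp.out.pos k)
      have hmc : (Nat.card (zpowers y)).Coprime p := by
        rw [Nat.card_zpowers, hoy, Nat.coprime_comm, Nat.Prime.coprime_iff_not_dvd hp.out]
        exact hm
      have hle := Cfsg.Agent.Lib.Coprime.FrattiniAct.le_centralizer_of_frattini hQp
        (A := zpowers y) (by
          rw [zpowers_le, Subgroup.normalizer_eq_top_iff.mpr hQn]
          trivial) hmc (by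
          intro t ht x hx
          have hxC : x ∈ C₁ := by
            have : zpowers y ≤ C₁ := zpowers_le.mpr hyC
            exact this hx
          have h1 : π x * π t = π t * π x :=
            (Subgroup.mem_centralizer_iff.mp hxC (π t) ⟨t, ht, rfl⟩).symm
          apply (hπ1 _).mp
          simp only [map_mul, map_inv]
          rw [h1]
          group)
      have hyQ : y ∈ Q := hCQ (hle (mem_zpowers y))
      have hm1 : m = 1 := by
        obtain ⟨j, hj⟩ := IsPGroup.iff_orderOf.mp hQp ⟨y, hyQ⟩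
        have h2 : orderOf y = p ^ j := by
          rw [← hj]
          exact (Subgroup.orderOf_mk y hyQ).symm
        rw [hoy] at h2
        rcases j with _ | j
        · simpa using h2
        · exfalso
          apply hm
          rw [h2, pow_succ]
          exact dvd_mul_left _ _
      exact ⟨k, by rw [hk, hm1, mul_one]⟩
    exact Cfsg.Agent.Lib.Basic.PCore.le_pCore hC₁n hC₁p
  have hCV : centralizer (V : Set (G ⧸ F)) ≤ V := by
    intro x hx
    obtain ⟨g, rfl⟩ := hπs x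
    exact ⟨g, hCVG hx, rfl⟩
  have hVC : V ≤ centralizer (V : Set (G ⧸ F)) := by
    intro x hx
    rw [Subgroup.mem_centralizer_iff]
    intro y hy
    have := hV.1.is_comm.comm ⟨y, hy⟩ ⟨x, hx⟩
    simpa using congrArg Subtype.val this
  have hCVeq : centralizer (V : Set (G ⧸ F)) = V := le_antisymm hCV hVC
  have hVp : IsPGroup p V := hQp.map π
  have hOC : ∀ D : Subgroup (G ⧸ F), D.Normal → centralizer (V : Set (G ⧸ F)) ≤ D →
      (∃ k : ℕ, (centralizer (V : Set (G ⧸ F))).relIndex D = p ^ k) → D = centralizer (V : Set (G ⧸ F)) := by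
    rintro D hD hCD ⟨k, hk⟩
    apply le_antisymm _ hCD
    rw [hCVeq] at hk hCD ⊢
    have hDp : IsPGroup p D := by
      obtain ⟨n, hn⟩ := IsPGroup.iff_card.mp hVp
      apply IsPGroup.of_card (n := n + k)
      rw [← card_mul_relIndex' hCD, hn, hk, pow_add]
    have hFp : IsPGroup p ↥π.ker := by
      have h1 : π.ker = F := QuotientGroup.ker_mk' F
      rw [h1]
      exact hQp.to_le hFQ
    have h1 : IsPGroup p ↥(D.comap π) := IsPGroup.comap_of_ker_isPGroup hDp π hFp
    have h2 : D.comap π ≤ Q := Cfsg.Agent.Lib.Basic.PCore.le_pCore (Subgroup.Normal.comap hD π) h1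
    intro x hx
    obtain ⟨g, rfl⟩ := hπs x
    exact ⟨g, h2 hx, rfl⟩
  have hsol : IsPSolvable p (G ⧸ F) :=
    Cfsg.Agent.Lib.Coprime.PSolvable.isPSolvable_of_surjective hp.out π hπs hG
  -- the generator
  obtain ⟨⟨a, haA⟩, hgen⟩ := hA
  have hgen' : ∀ x ∈ A, ∃ n : ℕ, x = a ^ n := by
    intro x hx
    have h1 := hgen ⟨x, hx⟩
    obtain ⟨n, hn⟩ := (mem_powers_iff_mem_zpowers (x := (⟨a, haA⟩ : ↥A)) (y := ⟨x, hx⟩)).mpr h1
    refine ⟨n, ?_⟩
    have := congrArg Subtype.val hn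
    simpa using this.symm
  have haQ : a ∉ Q := by
    intro h1
    apply hAR
    intro x hx
    obtain ⟨n, rfl⟩ := hgen' x hx
    exact Q.pow_mem h1 n
  -- the exponent
  have hex : ∃ n : ℕ, 0 < n ∧ a ^ n ∈ Q := ⟨orderOf a, orderOf_pos a, by
    rw [pow_orderOf_eq_one]; exact Q.one_mem⟩
  set m := Nat.find hex with hm
  obtain ⟨hm0, hmQ⟩ := Nat.find_spec hex
  rw [← hm] at hm0 hmQ
  have hmin : ∀ j : ℕ, a ^ j ∈ Q → m ∣ j := by
    intro j hj
    have h1 : a ^ (j % m) ∈ Q := by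
      have h2 : a ^ j = (a ^ m) ^ (j / m) * a ^ (j % m) := by
        rw [← pow_mul, ← pow_add, Nat.div_add_mod]
      rw [h2] at hj
      exact (Subgroup.mul_mem_cancel_left _ (Q.pow_mem hmQ _)).mp hj
    by_contra hnd
    have hpos : 0 < j % m := Nat.pos_of_ne_zero (fun h0 => hnd (Nat.dvd_of_mod_eq_zero h0))
    exact Nat.find_min hex (Nat.mod_lt j hm0) ⟨hpos, h1⟩
  have haP : IsPGroup p ↥(zpowers a) := by
    have h1 : zpowers a ≤ (P : Subgroup G) := (zpowers_le.mpr (hAP haA))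
    exact P.isPGroup'.to_le h1
  obtain ⟨e, he⟩ : ∃ e : ℕ, orderOf a = p ^ e := by
    obtain ⟨n, hn⟩ := IsPGroup.iff_card.mp haP
    exact ⟨n, by rw [← Nat.card_zpowers, hn]⟩
  obtain ⟨k, -, hk⟩ : ∃ k ≤ e, m = p ^ k := by
    have h1 : m ∣ p ^ e := by
      rw [← he]
      apply hmin
      rw [pow_orderOf_eq_one]
      exact Q.one_mem
    exact (Nat.dvd_prime_pow hp.out).mp h1
  have hk1 : 1 ≤ k := by
    rcases k with _ | k
    · exfalso
      apply haQ
      rw [pow_zero] at hk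
      rw [hk, pow_one] at hmQ
      exact hmQ
    · omega
  set c := a ^ m with hc
  set a₁ := π a with ha₁
  set c₁ := π c with hc₁
  have hc₁eq : c₁ = a₁ ^ m := by rw [hc₁, hc, map_pow]
  have hcV : c₁ ∈ V := ⟨c, hmQ, rfl⟩
  have hrank : ∀ v ∈ V, a₁ * v * a₁⁻¹ * v⁻¹ ∈ zpowers c₁ := by
    rintro _ ⟨r, hr, rfl⟩
    have h1 : a * r * a⁻¹ * r⁻¹ ∈ A := by
      have h2 : r * a⁻¹ * r⁻¹ ∈ A :=
        (Subgroup.mem_normalizer_iff.mp (hAn (hQP hr)) a⁻¹).mp (A.inv_mem haA)
      have h3 := A.mul_mem haA h2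
      have h4 : a * (r * a⁻¹ * r⁻¹) = a * r * a⁻¹ * r⁻¹ := by group
      rwa [h4] at h3
    have h2 : a * r * a⁻¹ * r⁻¹ ∈ Q :=
      Q.mul_mem (hQn.conj_mem r hr a) (Q.inv_mem hr)
    obtain ⟨n, hn⟩ := hgen' _ h1
    rw [hn] at h2
    obtain ⟨t, ht⟩ := hmin n h2
    have h3 : a * r * a⁻¹ * r⁻¹ = c ^ t := by
      rw [hn, hc, ht, pow_mul]
    have h4 : a₁ * π r * a₁⁻¹ * (π r)⁻¹ = c₁ ^ t := by
      rw [ha₁, hc₁, ← map_pow, ← h3]
      simp only [map_mul, map_inv]
    rw [h4]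
    exact (zpowers c₁).pow_mem (mem_zpowers c₁) t
  have ha₁V : a₁ ∉ V := by
    rintro ⟨r, hr, hre⟩
    apply haQ
    have h1 : r⁻¹ * a ∈ F := (hπ1 _).mp (by
      rw [map_mul, map_inv, hre]
      simp [ha₁])
    have h2 := Q.mul_mem hr (hFQ h1)
    simpa using h2
  have hna : ∃ v ∈ V, a₁ * v ≠ v * a₁ := by
    by_contra hno
    push Not at hno
    apply ha₁V
    apply hCV
    rw [Subgroup.mem_centralizer_iff]
    intro v hv
    exact (hno v hv).symm
  have hc1 : c₁ ≠ 1 := by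
    intro h1
    obtain ⟨v, hv, hne⟩ := hna
    have h2 := hrank v hv
    rw [h1, zpowers_one_eq_bot, Subgroup.mem_bot] at h2
    apply hne
    have h3 : a₁ * v * a₁⁻¹ = v := mul_inv_eq_one.mp h2
    exact mul_inv_eq_iff_eq_mul.mp h3
  have hac : a₁ * c₁ = c₁ * a₁ := by
    rw [hc₁eq]
    exact (Commute.pow_right (Commute.refl a₁) m)
  have R : Rk p V a₁ c₁ := ⟨hV, hcV, hc1, hac, hrank, hna⟩
  rcases Nat.eq_or_lt_of_le (hp.out.two_le) with hp2 | hp2
  · -- `p = 2`
    have hp2' : p = 2 := hp2.symm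
    subst hp2'
    have hnot : ¬ Involves (Equiv.Perm (Fin 4)) G := by
      rcases h with h | h
      · exact absurd rfl h
      · exact h
    apply hnot
    have hpg : IsPGroup 2 ↥(zpowers a₁) := by
      have h1 : zpowers a₁ = (zpowers a).map π := by rw [MonoidHom.map_zpowers]
      rw [h1]
      exact haP.map π
    have hB := R.isBest hpg
    have hBV : ⁅V, zpowers a₁⁆ ≠ ⊥ := by
      intro h1
      have h2 := R.card_comm
      rw [h1, Subgroup.card_bot] at h2
      omega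
    have h5 := involves_of_best_offender V hV hsol hOC hB hBV
    exact Cfsg.Agent.Lib.SFour.Recog.involves_of_surjective π hπs h5
  · -- `p` odd
    have hp2' : p ≠ 2 := by omega
    refine odd_contra hp2' hsol hOC hCV R ?_
    intro g w hw hgw
    -- the power computation
    set z := a₁⁻¹ * w * a₁ * w⁻¹ with hz
    have hw' : a₁⁻¹ * w * a₁ ∈ V := by
      have := hVn.conj_mem w hw a₁⁻¹
      simpa using this
    have hzc : z ∈ zpowers c₁ := by
      have h1 := (zpowers c₁).inv_mem (hrank _ hw')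
      have h2 : (a₁ * (a₁⁻¹ * w * a₁) * a₁⁻¹ * (a₁⁻¹ * w * a₁)⁻¹)⁻¹ = (a₁⁻¹ * w * a₁) * w⁻¹ := by group
      rw [h2] at h1
      exact h1
    have hzV : z ∈ V := R.zp_le hzc
    have hazc : a₁ * z = z * a₁ := R.fix hzc
    have hzw : z * w = w * z := R.comm hzV hw
    have hform := pow_formula hazc hzw (by rw [hz]; group : a₁⁻¹ * w * a₁ = z * w) m
    have hwm : w ^ m = 1 := by
      have h1 : p ∣ m := by
        rw [hk]
        exact dvd_pow_self p (by omega)
      obtain ⟨t, ht⟩ := h1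
      rw [ht, pow_mul, hV.2 w hw, one_pow]
    have hzm : z ^ (m.choose 2) = 1 := by
      have h1 : p ∣ m.choose 2 := by
        have h2 : m.choose 2 * 2 = m * (m - 1) := by
          rw [Nat.choose_two_right]
          apply Nat.div_mul_cancel
          exact (Nat.even_mul_pred_self m).two_dvd
        have h3 : p ∣ m.choose 2 * 2 := by
          rw [h2, hk]
          exact Dvd.dvd.mul_right (dvd_pow_self p (by omega)) _
        rcases (Nat.Prime.dvd_mul hp.out).mp h3 with h4 | h4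
        · exact h4
        · exfalso
          apply hp2'
          exact (Nat.prime_dvd_prime_iff_eq hp.out Nat.prime_two).mp h4
      obtain ⟨t, ht⟩ := h1
      rw [ht, pow_mul, hV.2 z hzV, one_pow]
    calc g * c₁ * g⁻¹ = (g * a₁ * g⁻¹) ^ m := by
          rw [hc₁eq, conj_pow]
      _ = (a₁ * w) ^ m := by rw [hgw]
      _ = a₁ ^ m := by rw [hform, hwm, hzm]; group
      _ = c₁ := hc₁eq.symm

end top


/-- Let G be a finite p-soluble group, P a Sylow p-subgroup of G and A a cyclic normal subgroup of P. If p is odd, or if no section of G is isomorphic to the symmetric group of degree 4, then A ≤ O_{p',p}(G). -/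
theorem result {G : Type*} [Group G] [Finite G] {p : ℕ} [Fact p.Prime] (hG : Cfsg.IsPSolvable p G) (P : Sylow p G) (A : Subgroup G) (hAP : A ≤ (P : Subgroup G)) (hAn : (P : Subgroup G) ≤ Subgroup.normalizer (A : Set G)) (hA : IsCyclic A) (h : p ≠ 2 ∨ ¬ Cfsg.Involves (Equiv.Perm (Fin 4)) G) : A ≤ Cfsg.pPrimePCore p G := by
  classical
  set N := pPrimeCore p G with hN
  haveI hNn : N.Normal := pPrimeCore_normal p G
  let φ : G →* G ⧸ N := QuotientGroup.mk' N
  have hφ : Function.Surjective φ := QuotientGroup.mk'_surjective N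
  have hG' : IsPSolvable p (G ⧸ N) :=
    Cfsg.Agent.Lib.Coprime.PSolvable.isPSolvable_of_surjective (Fact.out) φ hφ hG
  have h0 : pPrimeCore p (G ⧸ N) = ⊥ := Cfsg.Agent.Lib.Solvable.PSeries.pPrimeCore_quotient p
  have hAc : IsCyclic ↥(A.map φ) := by
    haveI := hA
    exact isCyclic_of_surjective (φ.subgroupMap A) (φ.subgroupMap_surjective A)
  have hmain := main_core hG' h0 (P.mapSurjective hφ) (A.map φ) (Subgroup.map_mono hAP) (by
    rintro _ ⟨x, hx, rfl⟩
    have h1' := hAn hx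
    have h1 := h1'
    rw [Subgroup.mem_normalizer_iff] at h1 ⊢
    intro y
    constructor
    · rintro ⟨u, hu, rfl⟩
      exact ⟨x * u * x⁻¹, (h1 u).mp hu, by simp [map_mul, map_inv]⟩
    · rintro ⟨u, hu, hue⟩
      obtain ⟨y', rfl⟩ := hφ y
      have h2 : x⁻¹ * u * x ∈ A := by
        have := (Subgroup.mem_normalizer_iff.mp (Subgroup.inv_mem _ h1') u).mp hu
        simpa using this
      refine ⟨x⁻¹ * u * x, h2, ?_⟩
      simp only [map_mul, map_inv]
      rw [hue]
      group) hAc (by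
      rcases h with h | h
      · exact Or.inl h
      · exact Or.inr (fun hi => h (Cfsg.Agent.Lib.SFour.Recog.involves_of_surjective φ hφ hi)))
  intro x hx
  exact hmain ⟨x, hx, rfl⟩

end Cfsg.Agent.S3788
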