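import Cfsg.Statements.S3790
import Mathlib
import Cfsg.Agent.Lib.Solvable.PSeries2
import Cfsg.Agent.Lib.Solvable.Hall
-- import your own Cfsg.Agent.* helpers here

set_option autoImplicit false
set_option linter.style.haveILetI false
open Cfsg

namespace Cfsg.Agent.S3790

open Cfsg.Agent.Lib.Solvable.PSeries Cfsg.Agent.Lib.Solvable.PSeries2

universe u

/-- A finite `p`-group has `p`-length at most one. -/
theorem pLengthLE_one_of_pGroup {G : Type u} [Group G] [Finite G] {p : ℕ} [Fact p.Prime]
    (h : ∃ a : ℕ, Nat.card G = p ^ a) : PLengthLE p 1 G := by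
  unfold PLengthLE
  simp only [mul_one]
  have hU := upper_le_succ (p := p) (G := G) 2
  refine top_le_iff.mp (le_trans ?_ hU)
  rw [upper_succ p G 1]
  apply le_stepAt_of_relIndex _ _ inferInstance
  have hodd : ¬ Even 1 := by decide
  simp only [GoodIdx, if_neg hodd, Subgroup.relIndex_top_right]
  obtain ⟨a, ha⟩ := h
  have hd : (upperPSeries p G 1).1.index ∣ p ^ a := by
    rw [← ha]; exact Subgroup.index_dvd_card _
  obtain ⟨i, -, hi⟩ := (Nat.dvd_prime_pow (Fact.out : p.Prime)).mp hd
  exact ⟨i, hi⟩

theorem main (r : ℕ) : ∀ {G : Type u} [Group G] [Finite G] (_ : Group.IsSolvable G) (p : ℕ) [Fact p.Prime]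
    (q : Fin r → ℕ) (_ : ∀ i, (q i).Prime ∧ q i ≠ p) (_ : Function.Injective q)
    (_ : ∀ s : ℕ, s.Prime → s ∣ Nat.card G → s ≠ p → ∃ i, q i = s) (l : Fin r → ℕ)
    (_ : ∀ i, Cfsg.PLengthLE (q i) (l i) G), Cfsg.PLengthLE p (Finset.univ.prod fun i => 1 + l i) G := by
  induction r with
  | zero =>
    intro G _ _ _ p _ q _ _ hcover l _
    simp only [Finset.univ_eq_empty, Finset.prod_empty]
    apply pLengthLE_one_of_pGroup
    refine ⟨_, Nat.eq_prime_pow_of_unique_prime_dvd Nat.card_pos.ne' (fun {d} hd hdvd => ?_)⟩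
    by_contra hne
    obtain ⟨i, -⟩ := hcover d hd hdvd hne
    exact i.elim0
  | succ r ih =>
    intro G _ _ hsol p _ q hq hinj hcover l hl
    rw [Fin.prod_univ_succ]
    set t := q 0 with ht
    haveI : Fact t.Prime := ⟨(hq 0).1⟩
    have htp : t ≠ p := (hq 0).2
    -- Hall `t'`-subgroup
    have hcard : Nat.card G = ordCompl[t] (Nat.card G) * t ^ (Nat.card G).factorization t := by
      rw [mul_comm]; exact (Nat.ordProj_mul_ordCompl_eq_self _ _).symm
    have hcop : (ordCompl[t] (Nat.card G)).Coprime (t ^ (Nat.card G).factorization t) :=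
      Nat.Coprime.pow_right _ ((Nat.coprime_ordCompl (Fact.out) Nat.card_pos.ne').symm)
    obtain ⟨H, hH⟩ := Cfsg.Agent.Lib.Solvable.Hall.exists_card_eq _ _ hcard hcop
    have hHc : (Nat.card H).Coprime t := by
      rw [hH]
      exact (Nat.coprime_ordCompl (Fact.out) Nat.card_pos.ne').symm
    have hHidx : H.index = t ^ (Nat.card G).factorization t := by
      have h1 := Subgroup.card_mul_index H
      rw [hH] at h1
      have hpos : 0 < ordCompl[t] (Nat.card G) := Nat.ordCompl_pos _ Nat.card_pos.ne'
      apply Nat.eq_of_mul_eq_mul_left hpos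
      rw [h1]
      exact hcard
    -- induction on `H`
    have hH' : PLengthLE p (Finset.univ.prod fun i : Fin r => 1 + l i.succ) H := by
      apply ih inferInstance p (fun i => q i.succ) (fun i => hq _) ?_ ?_ _ ?_
      · intro a b hab
        exact Fin.succ_injective _ (hinj hab)
      · intro s hs hsd hsp
        have hsG : s ∣ Nat.card G := hsd.trans (Subgroup.card_subgroup_dvd_card H)
        obtain ⟨i, hi⟩ := hcover s hs hsG hsp
        refine Fin.cases ?_ (fun j hj => ⟨j, hj⟩) i hi
        intro h0
        have h2 : s ∣ t := by rw [ht, h0]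
        have h3 := Nat.Coprime.eq_one_of_dvd (Nat.Coprime.coprime_dvd_left hsd (Nat.Coprime.coprime_dvd_right h2 hHc)) dvd_rfl
        exact absurd h3 hs.one_lt.ne'
      · intro i
        haveI : Fact (q i.succ).Prime := ⟨(hq _).1⟩
        exact pLengthLE_of_injective H.subtype H.subtype_injective (hl _)
    have hfinal := pLengthLE_of_upper_t (G := G) htp (hl 0)
      (fun U _ N hN hc => pLengthLE_section_of_hall H ⟨_, hHidx⟩ hHc hH' U N hN hc)
    rw [add_comm (l 0) 1] at hfinal
    exact hfinal

/-- Let G be a finite solvable group and p a prime. Suppose p₁, …, p_r are distinct primes, all different from p, that include every prime dividing the order of G other than p, and that G has p_i-length at most l_i for each i. Then G has p-length at most the product of the numbers 1 + l_i. -/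
theorem result {G : Type*} [Group G] [Finite G] (hG : Group.IsSolvable G) (p : ℕ) [Fact p.Prime] (r : ℕ) (q : Fin r → ℕ) (hq : ∀ i, (q i).Prime ∧ q i ≠ p) (hinj : Function.Injective q) (hcover : ∀ s : ℕ, s.Prime → s ∣ Nat.card G → s ≠ p → ∃ i, q i = s) (l : Fin r → ℕ) (hl : ∀ i, Cfsg.PLengthLE (q i) (l i) G) : Cfsg.PLengthLE p (Finset.univ.prod fun i => 1 + l i) G :=
  main r hG p q hq hinj hcover l hl

end Cfsg.Agent.S3790
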