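import Cfsg.Statements.S3791
import Mathlib
import Cfsg.Agent.Lib.Solvable.PSeries
-- import your own Cfsg.Agent.* helpers here

set_option autoImplicit false
set_option linter.style.haveILetI false
open Cfsg

namespace Cfsg.Agent.S3791

open Cfsg.Agent.Lib.Solvable.PSeries Cfsg.Agent.Lib.Basic.PCore

universe u

/-- The derived series of a subgroup, inside the ambient group. -/
def dSeries {G : Type*} [Group G] (A : Subgroup G) : ℕ → Subgroup G
  | 0 => A
  | n + 1 => ⁅dSeries A n, dSeries A n⁆

theorem dSeries_mono {G : Type*} [Group G] {A B : Subgroup G} (h : A ≤ B) (n : ℕ) :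
    dSeries A n ≤ dSeries B n := by
  induction n with
  | zero => exact h
  | succ n ih => exact Subgroup.commutator_mono ih ih

theorem map_dSeries {G H : Type*} [Group G] [Group H] (f : G →* H) (A : Subgroup G) (n : ℕ) :
    (dSeries A n).map f = dSeries (A.map f) n := by
  induction n with
  | zero => rfl
  | succ n ih =>
    show (⁅dSeries A n, dSeries A n⁆ : Subgroup G).map f = ⁅dSeries (A.map f) n, dSeries (A.map f) n⁆
    rw [Subgroup.map_commutator, ih]

theorem dSeries_top {G : Type*} [Group G] (n : ℕ) : dSeries (⊤ : Subgroup G) n = derivedSeries G n := by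
  induction n with
  | zero => rfl
  | succ n ih =>
    show ⁅dSeries (⊤ : Subgroup G) n, dSeries (⊤ : Subgroup G) n⁆ = ⁅derivedSeries G n, derivedSeries G n⁆
    rw [ih]

theorem dSeries_add {G : Type*} [Group G] (A : Subgroup G) (a b : ℕ) :
    dSeries A (a + b) = dSeries (dSeries A a) b := by
  induction b with
  | zero => rfl
  | succ b ih =>
    show ⁅dSeries A (a + b), dSeries A (a + b)⁆ = ⁅dSeries (dSeries A a) b, dSeries (dSeries A a) b⁆
    rw [ih]

theorem map_subtype_derivedSeries {G : Type*} [Group G] (A : Subgroup G) (n : ℕ) :
    (derivedSeries A n).map A.subtype = dSeries A n := by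
  rw [← dSeries_top, map_dSeries]
  congr 1
  rw [← MonoidHom.range_eq_map, Subgroup.range_subtype]

theorem dSeries_eq_bot_iff {G : Type*} [Group G] (A : Subgroup G) (n : ℕ) :
    derivedSeries A n = ⊥ ↔ dSeries A n = ⊥ := by
  rw [← map_subtype_derivedSeries]
  exact (Subgroup.map_eq_bot_iff_of_injective _ A.subtype_injective).symm

theorem main {r : ℕ} (q : Fin r → ℕ) (hq : ∀ i, (q i).Prime) (d : Fin r → ℕ) (n : ℕ) :
    ∀ {G : Type u} [Group G] [Finite G] (_ : Nat.card G = n)
    (_ : ∀ s : ℕ, s.Prime → s ∣ Nat.card G → ∃ i, q i = s)
    (_ : ∀ i, ∀ S : Sylow (q i) G, dSeries (S : Subgroup G) (d i) = ⊥)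
    (l : Fin r → ℕ) (_ : ∀ i, Cfsg.PLengthLE (q i) (l i) G),
    derivedSeries G (Finset.univ.sum fun i => d i * l i) = ⊥ := by
  classical
  induction n using Nat.strong_induction_on with
  | _ n ih =>
  intro G _ _ hn hcover hd l hl
  -- it is enough to show that the series lies in each `O_{p'}`
  have hall : ∀ i, derivedSeries G (Finset.univ.sum fun i => d i * l i) ≤ pPrimeCore (q i) G := by
    intro i
    haveI : Fact (q i).Prime := ⟨hq i⟩
    set p := q i with hp
    rcases Nat.eq_zero_or_pos (l i) with hli | hli
    · -- `G` is a `p'`-group
      have h0 : PLengthLE p 0 G := by rw [← hli]; exact hl i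
      have hc := pLengthLE_zero_iff.mp h0
      have : pPrimeCore p G = ⊤ := top_le_iff.mp (le_pPrimeCore inferInstance (by simpa using hc))
      rw [this]
      exact le_top
    · by_cases hG : Nontrivial G
      · -- the quotient by `U₂`
        set U := (upperPSeries p G 2).1 with hU
        haveI hUn : U.Normal := upperPSeries_normal p G 2
        have hUne : U ≠ ⊥ := by
          intro hbot
          have h1 : (upperPSeries p G 1).1 ≤ U := upper_le_succ _
          have h1' : pPrimeCore p G = ⊥ := by
            rw [← upper_one, eq_bot_iff, ← hbot]; exact h1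
          have h2 : pCore p G ≤ U := by
            rw [hU, upper_two]
            intro x hx
            have hm := map_pCore_le_of_surjective (p := p) (QuotientGroup.mk'_surjective (pPrimeCore p G))
            exact hm ⟨x, hx, rfl⟩
          have h2' : pCore p G = ⊥ := by
            rw [eq_bot_iff, ← hbot]; exact h2
          have hcore := isPSolvable_core_ne_bot (isPSolvable_iff.mpr ⟨_, hl i⟩)
          rcases hcore with h | h
          · exact h h2'
          · exact h h1'
        let π : G →* G ⧸ U := QuotientGroup.mk' U
        have hπ : Function.Surjective π := QuotientGroup.mk'_surjective U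
        have hlt : Nat.card (G ⧸ U) < n := by
          rw [← hn]
          have h1 := Subgroup.card_mul_index U
          have h2 : 1 < Nat.card U := Subgroup.one_lt_card_iff_ne_bot U |>.mpr hUne
          have h3 : 0 < U.index := Nat.pos_of_ne_zero Subgroup.index_ne_zero_of_finite
          change U.index < _
          rw [← h1]
          nlinarith
        set l' : Fin r → ℕ := Function.update l i (l i - 1) with hl'
        have hcover' : ∀ s : ℕ, s.Prime → s ∣ Nat.card (G ⧸ U) → ∃ j, q j = s := by
          intro s hs hsd
          exact hcover s hs (hsd.trans (Subgroup.index_dvd_card U))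
        have hd' : ∀ j, ∀ S : Sylow (q j) (G ⧸ U), dSeries (S : Subgroup (G ⧸ U)) (d j) = ⊥ := by
          intro j S
          haveI : Fact (q j).Prime := ⟨hq j⟩
          obtain ⟨S₀, rfl⟩ := Sylow.mapSurjective_surjective hπ (q j) S
          rw [Sylow.coe_mapSurjective, ← map_dSeries, hd j S₀, Subgroup.map_bot]
        have hl2 : ∀ j, PLengthLE (q j) (l' j) (G ⧸ U) := by
          intro j
          by_cases hj : j = i
          · subst hj
            rw [hl', Function.update_self]
            unfold PLengthLE
            have hshift := comap_upper_of_ker_even (p := p) hπ (m := 2) (by decide)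
              (QuotientGroup.ker_mk' U) (2 * (l j - 1) + 1)
            have hnum : 2 + (2 * (l j - 1) + 1) = 2 * l j + 1 := by omega
            rw [hnum] at hshift
            have htop : (upperPSeries p G (2 * l j + 1)).1 = ⊤ := hl j
            rw [htop] at hshift
            rw [eq_top_iff]
            intro x _
            obtain ⟨g, rfl⟩ := hπ x
            have hg : g ∈ (upperPSeries p (G ⧸ U) (2 * (l j - 1) + 1)).1.comap π := by
              rw [hshift]; trivial
            exact hg
          · rw [hl', Function.update_of_ne hj]
            haveI : Fact (q j).Prime := ⟨hq j⟩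
            exact pLengthLE_map hπ (hl j)
        have hIH := ih _ hlt rfl hcover' hd' l' hl2
        -- sums
        have hsum : (Finset.univ.sum fun j => d j * l j) = (Finset.univ.sum fun j => d j * l' j) + d i := by
          have h1 := Finset.add_sum_erase Finset.univ (fun j => d j * l j) (Finset.mem_univ i)
          have h2 := Finset.add_sum_erase Finset.univ (fun j => d j * l' j) (Finset.mem_univ i)
          have h3 : (∑ j ∈ Finset.univ.erase i, d j * l' j) = ∑ j ∈ Finset.univ.erase i, d j * l j := by
            apply Finset.sum_congr rfl
            intro j hj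
            rw [hl', Function.update_of_ne (Finset.ne_of_mem_erase hj)]
          have h4 : l' i = l i - 1 := by rw [hl', Function.update_self]
          rw [← h1, ← h2, h3, h4]
          obtain ⟨k, hk⟩ : ∃ k, l i = k + 1 := ⟨l i - 1, by omega⟩
          rw [hk]
          simp only [Nat.add_sub_cancel]
          ring
        rw [hsum, ← dSeries_top, dSeries_add, dSeries_top]
        set D' := Finset.univ.sum fun j => d j * l' j with hD'
        -- the derived series of `G` at `D'` lies in `U`
        have hDU : derivedSeries G D' ≤ U := by
          have h1 : (derivedSeries G D').map π = ⊥ := by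
            rw [← dSeries_top, map_dSeries, ← MonoidHom.range_eq_map, MonoidHom.range_eq_top.mpr hπ,
              dSeries_top]
            exact hIH
          intro x hx
          have : π x ∈ (derivedSeries G D').map π := ⟨x, hx, rfl⟩
          rw [h1, Subgroup.mem_bot] at this
          exact (QuotientGroup.eq_one_iff x).mp this
        -- now pass to `G / O_{p'}(G)`
        set M := pPrimeCore p G with hM
        haveI hMn : M.Normal := pPrimeCore_normal p G
        let ρ : G →* G ⧸ M := QuotientGroup.mk' M
        have hρ : Function.Surjective ρ := QuotientGroup.mk'_surjective M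
        obtain ⟨S₀⟩ : Nonempty (Sylow p G) := inferInstance
        let S' : Sylow p (G ⧸ M) := S₀.mapSurjective hρ
        have hS' : (S' : Subgroup (G ⧸ M)) = (S₀ : Subgroup G).map ρ := Sylow.coe_mapSurjective _ _
        have hUle : U.map ρ ≤ (S' : Subgroup (G ⧸ M)) := by
          refine le_trans ?_ (pCore_le_sylow S')
          rw [hU, upper_two]
          unfold pPrimePCore
          rw [Subgroup.map_comap_eq_self_of_surjective hρ]
        have h2 : (dSeries (derivedSeries G D') (d i)).map ρ = ⊥ := by
          rw [map_dSeries]
          have h3 : (derivedSeries G D').map ρ ≤ (S' : Subgroup (G ⧸ M)) :=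
            (Subgroup.map_mono hDU).trans hUle
          have h4 := dSeries_mono h3 (d i)
          have h5 : dSeries ((S₀ : Subgroup G).map ρ) (d i) = ⊥ := by
            rw [← map_dSeries, hd i S₀, Subgroup.map_bot]
          rw [hS', h5] at h4
          exact le_bot_iff.mp h4
        intro x hx
        have : ρ x ∈ (dSeries (derivedSeries G D') (d i)).map ρ := ⟨x, hx, rfl⟩
        rw [h2, Subgroup.mem_bot] at this
        exact (QuotientGroup.eq_one_iff x).mp this
      · rw [not_nontrivial_iff_subsingleton] at hG
        intro x _
        have : x = 1 := Subsingleton.elim _ _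
        rw [this]
        exact Subgroup.one_mem _
  -- the intersection is trivial
  rw [eq_bot_iff]
  intro x hx
  rw [Subgroup.mem_bot]
  by_contra hx1
  have hord : orderOf x ≠ 1 := by simpa [orderOf_eq_one_iff] using hx1
  obtain ⟨s, hs, hsd⟩ := Nat.exists_prime_and_dvd hord
  have hsG : s ∣ Nat.card G := hsd.trans (orderOf_dvd_natCard x)
  obtain ⟨i, hi⟩ := hcover s hs hsG
  have hxM := hall i hx
  have h1 : orderOf x ∣ Nat.card (pPrimeCore (q i) G) := Subgroup.orderOf_dvd_natCard _ hxM
  have h2 := pPrimeCore_coprime (G := G) (q i)
  subst hi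
  have h3 := Nat.Coprime.eq_one_of_dvd h2.symm (hsd.trans h1)
  exact hs.one_lt.ne' h3

/-- The Hall–Higman bound on derived length: let G be a finite solvable group, let p₁, …, p_r be distinct primes that include every prime dividing the order of G, and suppose that for each i the Sylow p_i-subgroups of G have derived length at most d_i and G has p_i-length at most l_i. Then G has derived length at most Σ d_i l_i. -/
theorem result {G : Type*} [Group G] [Finite G] (hG : Group.IsSolvable G) (r : ℕ) (q : Fin r → ℕ) (hq : ∀ i, (q i).Prime) (hinj : Function.Injective q) (hcover : ∀ s : ℕ, s.Prime → s ∣ Nat.card G → ∃ i, q i = s) (d l : Fin r → ℕ) (hd : ∀ i, ∀ P : Subgroup G, (haveI := Fact.mk (hq i); ∃ S : Sylow (q i) G, (S : Subgroup G) = P) → derivedSeries ↥P (d i) = ⊥) (hl : ∀ i, Cfsg.PLengthLE (q i) (l i) G) : derivedSeries G (Finset.univ.sum fun i => d i * l i) = ⊥ := by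
  refine main q hq d _ rfl hcover ?_ l hl
  intro i S
  exact (dSeries_eq_bot_iff _ _).mp (hd i _ ⟨S, rfl⟩)

end Cfsg.Agent.S3791
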