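import Cfsg.Statements.S3794
import Mathlib
import Cfsg.Agent.Lib.Coprime.FPF4
import Cfsg.Agent.Lib.Nilpotent.Fitting
import Cfsg.Agent.Lib.Components.Fitting
import Cfsg.Agent.Lib.Components.FStar2
import Cfsg.Agent.Lib.Components.Layer

set_option autoImplicit false
open Cfsg

namespace Cfsg.Agent.S3794

open Cfsg.Agent.Lib.Coprime.FPF4
open scoped commutatorElement

universe u

/-- A fixed-point-free automorphism with `σ ^ 4 = 1` forces odd order. -/
theorem odd_card {G : Type*} [Group G] [Finite G] (σ : MulAut G) (hσ : σ ^ 4 = 1)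
    (hfpf : ∀ g : G, σ g = g → g = 1) : Odd (Nat.card G) := by
  classical
  have : Fintype G := Fintype.ofFinite G
  let f : Function.End G := fun x => σ x
  have hf : f ^ 2 ^ 2 = 1 := by
    funext x
    have h1 := congrArg (fun T : MulAut G => T x) hσ
    have h2 : σ (σ (σ (σ x))) = x := by simpa [pow_succ] using h1
    show (f ^ 4) x = x
    simp only [pow_succ, pow_zero, one_mul]
    exact h2
  have : Fact (Nat.Prime 2) := ⟨Nat.prime_two⟩
  have hmod := Equiv.Perm.card_fixedPoints_modEq (f := f) (p := 2) (n := 2) hf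
  have hfix : ∀ (i : Fintype f.fixedPoints), @Fintype.card _ i = 1 := by
    intro i
    rw [Fintype.card_eq_one_iff]
    refine ⟨⟨1, map_one σ⟩, ?_⟩
    rintro ⟨y, hy⟩
    exact Subtype.ext (hfpf y hy)
  rw [hfix] at hmod
  rw [Nat.card_eq_fintype_card, Nat.odd_iff]
  exact hmod

/-- Key lemma for a subgroup with a commutative group law. -/
theorem conj_sq_eq' {V : Type u} [Group V] [Finite V] (hV : ∀ x y : V, x * y = y * x)
    (S : MulAut V) (A : Subgroup (MulAut V)) (hS : S ^ 4 = 1) (hfpf : ∀ v, S v = v → v = 1)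
    (hinv : ∀ a ∈ A, S * a * S⁻¹ ∈ A) (hnil : Group.IsNilpotent A)
    (hfix : ∀ a ∈ A, S * a * S⁻¹ = a → a = 1)
    (hcop : (Nat.card A).Coprime (Nat.card V)) (hoddA : Odd (Nat.card A))
    (hoddV : Odd (Nat.card V)) : ∀ a ∈ A, S * (S * a * S⁻¹) * S⁻¹ = a := by
  letI : CommGroup V := { (inferInstance : Group V) with mul_comm := hV }
  exact conj_sq_eq _ V S A rfl hS hfpf hinv hnil hfix hcop hoddA hoddV

/-- A `p`-group of automorphisms of a nontrivial `p`-group has a nontrivial fixed point. -/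
theorem exists_fixed {N : Type*} [Group N] [Finite N] (p : ℕ) [hp : Fact p.Prime]
    (hN : IsPGroup p N) (hnt : Nontrivial N) (O : Subgroup (MulAut N))
    (hO : IsPGroup p O) : ∃ x : N, x ≠ 1 ∧ ∀ o ∈ O, o x = x := by
  letI : MulAction O N := MulAction.compHom N O.subtype
  have hmod := hO.card_modEq_card_fixedPoints N
  obtain ⟨k, hk⟩ := hN.exists_card_eq
  have hk0 : k ≠ 0 := by
    rintro rfl
    rw [pow_zero] at hk
    exact (Finite.one_lt_card_iff_nontrivial.mpr hnt).ne' hk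
  have hdvd : p ∣ Nat.card N := by rw [hk]; exact dvd_pow_self p hk0
  have hdvd' : p ∣ Nat.card (MulAction.fixedPoints O N) :=
    (Nat.modEq_zero_iff_dvd.mp (hmod.symm.trans (Nat.modEq_zero_iff_dvd.mpr hdvd)))
  have h1mem : (1 : N) ∈ MulAction.fixedPoints O N := by
    intro o
    exact map_one (o.1)
  haveI : Finite (MulAction.fixedPoints O N) := inferInstance
  have hpos : 0 < Nat.card (MulAction.fixedPoints O N) :=
    Nat.card_pos_iff.mpr ⟨⟨⟨1, h1mem⟩⟩, inferInstance⟩
  have h2 : 1 < Nat.card (MulAction.fixedPoints O N) :=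
    lt_of_lt_of_le hp.out.one_lt (Nat.le_of_dvd hpos hdvd')
  have : Nontrivial (MulAction.fixedPoints O N) := Finite.one_lt_card_iff_nontrivial.mp h2
  obtain ⟨⟨x, hx⟩, hx1⟩ := exists_ne (⟨1, h1mem⟩ : MulAction.fixedPoints O N)
  refine ⟨x, fun h => hx1 (Subtype.ext h), fun o ho => ?_⟩
  exact hx ⟨o, ho⟩

theorem layer_eq_bot_of_isSolvable {R : Type*} [Group R] (h : Group.IsSolvable R) : layer R = ⊥ := by
  rw [layer, sSup_eq_bot]
  intro L hL
  exact absurd le_top (Lib.Components.Layer.not_le_of_isSolvable hL (H := ⊤) inferInstance)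

/-- The action of `G'` on a minimal invariant normal abelian `p`-subgroup is trivial. -/
theorem commutator_centralizes {G : Type u} [Group G] [Finite G] (hG : Group.IsSolvable G)
    (σ : MulAut G) (hσ : σ ^ 4 = 1) (hfpf : ∀ g : G, σ g = g → g = 1)
    (N : Subgroup G) [hN : N.Normal] (hNσ : ∀ x ∈ N, σ x ∈ N) (hN1 : N ≠ ⊥)
    (hmin : ∀ M : Subgroup G, M.Normal → (∀ x ∈ M, σ x ∈ M) → M ≠ ⊥ → M ≤ N → M = N)
    (hab : ∀ x ∈ N, ∀ y ∈ N, x * y = y * x) (p : ℕ) [hp : Fact p.Prime] (hpN : IsPGroup p N) :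
    ∀ x ∈ commutator G, ∀ n ∈ N, x * n = n * x := by
  have hoddG := odd_card σ hσ hfpf
  have hσinv : ∀ x : G, σ⁻¹ x = σ (σ (σ x)) := by
    intro x
    have h1 := congrArg (fun T : MulAut G => T x) hσ
    have h2 : σ (σ (σ (σ x))) = x := by simpa [pow_succ] using h1
    apply σ.injective
    rw [h2]
    simp
  have hNσinv : ∀ v ∈ N, σ⁻¹ v ∈ N := by
    intro v hv
    rw [hσinv]
    exact hNσ _ (hNσ _ (hNσ _ hv))
  let ρ : G →* MulAut N := MulAut.conjNormal
  have hρ : ∀ (g : G) (n : N), ((ρ g n : N) : G) = g * n * g⁻¹ := fun g n => by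
    simp [ρ, MulAut.conjNormal_apply]
  let S : MulAut N := resAut N σ hNσ hNσinv
  have hSc : ∀ n : N, ((S n : N) : G) = σ n := fun _ => rfl
  have hSi : ∀ n : N, ((S⁻¹ n : N) : G) = σ⁻¹ n := fun _ => rfl
  have hSρ : ∀ g : G, S * ρ g * S⁻¹ = ρ (σ g) := by
    intro g
    apply MulEquiv.ext
    intro n
    apply Subtype.ext
    rw [hρ]
    show σ (((ρ g) (S⁻¹ n) : N) : G) = _
    rw [hρ, hSi]
    simp
  let R : Subgroup (MulAut N) := ρ.range
  have hRS : ∀ a ∈ R, S * a * S⁻¹ ∈ R := by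
    rintro _ ⟨g, rfl⟩
    rw [hSρ]
    exact ⟨_, rfl⟩
  have hS4 : S ^ 4 = 1 := by
    apply MulEquiv.ext
    intro w
    have h0 : (S ^ 4) w = S (S (S (S w))) := by simp [pow_succ]
    rw [h0]
    apply Subtype.ext
    have h1 := congrArg (fun T : MulAut G => T w.1) hσ
    have h2 : σ (σ (σ (σ w.1))) = w.1 := by simpa [pow_succ] using h1
    exact h2
  have hSfpf : ∀ v : N, S v = v → v = 1 := by
    intro w hw
    exact Subtype.ext (hfpf w.1 (congrArg Subtype.val hw))
  let c : R →* R := conjHom S R hRS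
  have hcfix : ∀ a : R, c a = a → a = 1 := by
    refine fpf_of_surjective ρ.rangeRestrict ρ.rangeRestrict_surjective σ.toMonoidHom c ?_ hfpf
    intro x
    apply Subtype.ext
    exact (hSρ x).symm
  have hsolvR : Group.IsSolvable R :=
    Group.isSolvable_of_surjective ρ.rangeRestrict_surjective
  have hRdvd : Nat.card R ∣ Nat.card G := Subgroup.card_range_dvd ρ
  have hoddR : Odd (Nat.card R) := Odd.of_dvd_nat hoddG hRdvd
  have hc4 : ∀ a : R, c (c (c (c a))) = a := by
    intro a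
    apply Subtype.ext
    exact conj_four S hS4 a.1
  -- `c` is an automorphism of `R`
  let e : MulAut R := MonoidHom.toMulEquiv c (c.comp (c.comp c))
    (by ext1 a; exact hc4 a) (by ext1 a; exact hc4 a)
  have hec : ∀ a : R, e a = c a := fun _ => rfl
  -- the `p`-core of `R` is trivial
  have hO : ∀ o : R, o ∈ pCore p R → o = 1 := by
    let O : Subgroup (MulAut N) := (pCore p R).map R.subtype
    have hOnorm : ∀ (a : R), ∀ o ∈ pCore p R, a⁻¹ * o * a ∈ pCore p R := by
      intro a o ho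
      have := (Lib.Nilpotent.Fitting.pCore_normal p (G := R)).conj_mem o ho a⁻¹
      simpa using this
    have hOc : ∀ o ∈ pCore p R, c o ∈ pCore p R := by
      intro o ho
      have hnorm : ((pCore p R).map e.toMonoidHom).Normal :=
        (Lib.Nilpotent.Fitting.pCore_normal p (G := R)).map _ e.surjective
      have hpg : IsPGroup p ((pCore p R).map e.toMonoidHom) :=
        (Lib.Nilpotent.Fitting.isPGroup_pCore p (G := R)).map _
      exact Lib.Nilpotent.Fitting.le_pCore hpg ⟨o, ho, rfl⟩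
    have hOp : IsPGroup p O := (Lib.Nilpotent.Fitting.isPGroup_pCore p (G := R)).map _
    have hntN : Nontrivial N := (Subgroup.nontrivial_iff_ne_bot N).mpr hN1
    obtain ⟨x₀, hx₀, hx₀f⟩ := exists_fixed p hpN hntN O hOp
    -- fixed points as a subgroup of `G`
    let C : Subgroup G :=
      { carrier := {x | ∃ h : x ∈ N, ∀ o ∈ O, o ⟨x, h⟩ = ⟨x, h⟩}
        one_mem' := ⟨N.one_mem, fun o _ => map_one o⟩
        mul_mem' := by
          rintro a b ⟨ha, ha'⟩ ⟨hb, hb'⟩
          refine ⟨N.mul_mem ha hb, fun o ho => ?_⟩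
          have := map_mul o ⟨a, ha⟩ ⟨b, hb⟩
          rw [ha' o ho, hb' o ho] at this
          exact this
        inv_mem' := by
          rintro a ⟨ha, ha'⟩
          refine ⟨N.inv_mem ha, fun o ho => ?_⟩
          have := map_inv o ⟨a, ha⟩
          rw [ha' o ho] at this
          exact this }
    have hCN : C ≤ N := fun x hx => hx.1
    have hCnormal : C.Normal := by
      constructor
      rintro x ⟨hx, hx'⟩ g
      have hgx : g * x * g⁻¹ ∈ N := hN.conj_mem x hx g
      refine ⟨hgx, fun o ho => ?_⟩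
      obtain ⟨o', ho', rfl⟩ := ho
      -- conjugate
      have h1 : ρ g ⟨x, hx⟩ = ⟨g * x * g⁻¹, hgx⟩ := Subtype.ext (hρ g _)
      let a : R := ⟨ρ g, ⟨g, rfl⟩⟩
      have h2 : (a⁻¹ * o' * a) ∈ pCore p R := hOnorm a o' ho'
      have h3 := hx' (R.subtype (a⁻¹ * o' * a)) ⟨_, h2, rfl⟩
      rw [← h1]
      have h4 : (R.subtype (a⁻¹ * o' * a)) ⟨x, hx⟩ = (ρ g)⁻¹ (o'.1 (ρ g ⟨x, hx⟩)) := rfl
      rw [h4] at h3
      have h5 := congrArg (ρ g) h3
      have h6 : ∀ u : N, ρ g ((ρ g)⁻¹ u) = u := fun u => by simp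
      rw [h6] at h5
      exact h5
    have hCσ : ∀ x ∈ C, σ x ∈ C := by
      rintro x ⟨hx, hx'⟩
      refine ⟨hNσ x hx, fun o ho => ?_⟩
      obtain ⟨o', ho', rfl⟩ := ho
      have h2 : c (c (c o')) ∈ pCore p R := hOc _ (hOc _ (hOc _ ho'))
      have h3 := hx' (R.subtype (c (c (c o')))) ⟨_, h2, rfl⟩
      have h7 : (R.subtype (c (c (c o')))) = S⁻¹ * o'.1 * S := by
        show S * (S * (S * o'.1 * S⁻¹) * S⁻¹) * S⁻¹ = _
        rw [inv_conj_eq S hS4]
      rw [h7] at h3
      have h4 : (S⁻¹ * o'.1 * S) ⟨x, hx⟩ = S⁻¹ (o'.1 (S ⟨x, hx⟩)) := rfl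
      rw [h4] at h3
      have h5 := congrArg S h3
      have h6 : ∀ u : N, S (S⁻¹ u) = u := fun u => by simp
      rw [h6] at h5
      exact h5
    have hCbot : C ≠ ⊥ := by
      intro h
      have : x₀.1 ∈ C := ⟨x₀.2, fun o ho => hx₀f o ho⟩
      rw [h, Subgroup.mem_bot] at this
      exact hx₀ (Subtype.ext this)
    have hCeq := hmin C hCnormal hCσ hCbot hCN
    intro o ho
    apply Subtype.ext
    apply MulEquiv.ext
    intro n
    have hn : n.1 ∈ C := by rw [hCeq]; exact n.2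
    obtain ⟨_, h⟩ := hn
    exact h (R.subtype o) ⟨o, ho, rfl⟩
  -- the Fitting subgroup
  let F : Subgroup R := fittingSubgroup R
  have hFc : ∀ f ∈ F, c f ∈ F := by
    intro f hf
    have h1 := Lib.Components.Fitting.fitting_map_eq e
    have h2 : e f ∈ (fittingSubgroup R).map e.toMonoidHom := ⟨f, hf, rfl⟩
    rw [h1] at h2
    exact h2
  have hFnil : Group.IsNilpotent F := Lib.Nilpotent.Fitting.isNilpotent_fittingSubgroup
  have hFnormal : F.Normal := Lib.Nilpotent.Fitting.fittingSubgroup_normal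
  let A : Subgroup (MulAut N) := F.map R.subtype
  have hAS : ∀ a ∈ A, S * a * S⁻¹ ∈ A := by
    rintro _ ⟨f, hf, rfl⟩
    exact ⟨c f, hFc f hf, rfl⟩
  have hAnil : Group.IsNilpotent A :=
    Group.nilpotent_of_surjective (R.subtype.subgroupMap F) (R.subtype.subgroupMap_surjective F)
  have hAfix : ∀ a ∈ A, S * a * S⁻¹ = a → a = 1 := by
    rintro _ ⟨f, hf, rfl⟩ h
    have h1 : c f = f := Subtype.ext h
    have h2 := hcfix f h1
    rw [h2]
    rfl
  have hAcard : Nat.card A = Nat.card F :=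
    (Nat.card_congr (Subgroup.equivMapOfInjective F R.subtype R.subtype_injective).toEquiv).symm
  have hFdvd : Nat.card F ∣ Nat.card R := Subgroup.card_subgroup_dvd_card F
  have hoddA : Odd (Nat.card A) := by
    rw [hAcard]; exact Odd.of_dvd_nat hoddR hFdvd
  have hoddN : Odd (Nat.card N) := Odd.of_dvd_nat hoddG (Subgroup.card_subgroup_dvd_card N)
  have hnotp : ¬ p ∣ Nat.card F := by
    intro hdvd
    obtain ⟨x, hx⟩ := exists_prime_orderOf_dvd_card' p hdvd
    have hx1 : orderOf (x.1) = p ^ 1 := by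
      rw [pow_one, ← hx]
      exact (Subgroup.orderOf_coe x)
    have hmem := Lib.Nilpotent.Fitting.mem_pCore_of_mem_nilpotent_normal hFnil x.2 hx1
    have := hO _ hmem
    have hx2 : x = 1 := Subtype.ext this
    rw [hx2, orderOf_one] at hx
    exact hp.out.one_lt.ne hx
  have hcopA : (Nat.card A).Coprime (Nat.card N) := by
    obtain ⟨k, hk⟩ := hpN.exists_card_eq
    rw [hk, hAcard]
    exact Nat.Coprime.pow_right k ((Nat.Prime.coprime_iff_not_dvd hp.out).mpr hnotp).symm
  have hkey := conj_sq_eq' (fun x y : N => Subtype.ext (hab x.1 x.2 y.1 y.2)) S A hS4 hSfpf hAS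
    hAnil hAfix hcopA hoddA hoddN
  -- the square of `S` is trivial on `F`, hence on `R`
  have hFfix : ∀ f ∈ F, c (c f) = f := by
    intro f hf
    apply Subtype.ext
    exact hkey f.1 ⟨f, hf, rfl⟩
  have hcent : Subgroup.centralizer (F : Set R) ≤ F :=
    Lib.Components.FStar2.centralizer_fitting_le_iff.mpr (layer_eq_bot_of_isSolvable hsolvR)
  have hRfix : ∀ g : R, c (c g) = g := by
    intro g
    set x := g⁻¹ * c (c g) with hx
    have hxF : x ∈ F := by
      apply hcent
      rw [Subgroup.mem_centralizer_iff]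
      intro f hf
      have h1 : g * f * g⁻¹ ∈ F := hFnormal.conj_mem f hf g
      have h2 := hFfix _ h1
      rw [map_mul, map_mul, map_mul, map_mul, map_inv, map_inv, hFfix f hf] at h2
      have h3 : c (c g) * f = g * f * g⁻¹ * c (c g) := by
        rw [← h2]; group
      rw [hx]
      calc f * (g⁻¹ * c (c g)) = g⁻¹ * (g * f * g⁻¹ * c (c g)) := by group
        _ = g⁻¹ * (c (c g) * f) := by rw [h3]
        _ = g⁻¹ * c (c g) * f := by group
    have hxfix : c (c x) = x := hFfix x hxF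
    have hg : c (c g) = g * x := by rw [hx]; group
    have h4 : c (c (c (c g))) = g := hc4 g
    rw [hg, map_mul, map_mul, hxfix, hg, mul_assoc] at h4
    have h5 : x * x = 1 * 1 := by
      have := mul_eq_left.mp h4
      rw [this]
      simp
    have h6 := eq_of_sq_eq_of_odd hoddR h5
    rw [hg, h6, mul_one]
  -- `S` inverts `R`
  have hcinv : ∀ g : R, c g = g⁻¹ := by
    intro g
    obtain ⟨k, hk⟩ := exists_inv_mul_eq c hcfix g
    rw [← hk, map_mul, map_inv, hRfix k]
    group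
  have hRcomm : ∀ g h : R, g * h = h * g := by
    intro g h
    have h1 := map_mul c g h
    rw [hcinv, hcinv, hcinv, mul_inv_rev] at h1
    have h2 := congrArg (fun x => x⁻¹) h1
    simpa using h2
  have hker : commutator G ≤ ρ.ker := by
    rw [commutator_def, Subgroup.commutator_le]
    intro g _ h _
    rw [MonoidHom.mem_ker]
    have h1 : ρ ⁅g, h⁆ = 1 := by
      have h2 := hRcomm (ρ.rangeRestrict g) (ρ.rangeRestrict h)
      have h3 : ρ g * ρ h = ρ h * ρ g := congrArg Subtype.val h2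
      rw [commutatorElement_def]
      simp only [map_mul, map_inv]
      rw [h3]
      group
    exact h1
  intro x hx n hn
  have h1 : ρ x = 1 := hker hx
  have h2 := hρ x ⟨n, hn⟩
  rw [h1] at h2
  have h3 : n = x * n * x⁻¹ := h2
  exact (eq_mul_inv_iff_mul_eq.mp h3).symm

/-- Existence of a minimal invariant normal subgroup, which is an abelian `p`-group. -/
theorem exists_minimal_invariant {G : Type u} [Group G] [Finite G] (hG : Group.IsSolvable G)
    (hnt : Nontrivial G) (σ : MulAut G) :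
    ∃ N : Subgroup G, N.Normal ∧ (∀ x ∈ N, σ x ∈ N) ∧ N ≠ ⊥ ∧
      (∀ M : Subgroup G, M.Normal → (∀ x ∈ M, σ x ∈ M) → M ≠ ⊥ → M ≤ N → M = N) ∧
      (∀ x ∈ N, ∀ y ∈ N, x * y = y * x) ∧
      ∃ p : ℕ, p.Prime ∧ IsPGroup p N := by
  classical
  let P : Subgroup G → Prop := fun N => N.Normal ∧ (∀ x ∈ N, σ x ∈ N) ∧ N ≠ ⊥
  have hP : P ⊤ := ⟨inferInstance, fun _ _ => Subgroup.mem_top _, top_ne_bot⟩
  obtain ⟨N, hNmin⟩ : ∃ N, Minimal P N := by
    have hfin : (Set.univ : Set (Subgroup G)).Finite := Set.toFinite _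
    have hfin' : {N | P N}.Finite := hfin.subset (Set.subset_univ _)
    obtain ⟨N, hN⟩ := hfin'.exists_minimal ⟨⊤, hP⟩
    exact ⟨N, hN⟩
  obtain ⟨⟨hN, hNσ, hN1⟩, hmin'⟩ := hNmin
  have hmin : ∀ M : Subgroup G, M.Normal → (∀ x ∈ M, σ x ∈ M) → M ≠ ⊥ → M ≤ N → M = N := by
    intro M h1 h2 h3 h4
    exact le_antisymm h4 (hmin' ⟨h1, h2, h3⟩ h4)
  -- abelian
  have hcomm : ⁅N, N⁆ = ⊥ := by
    by_contra hne
    have hlt := Lib.Components.Fitting.commutator_lt_of_solvable hN1 inferInstance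
    have h1 : (⁅N, N⁆ : Subgroup G).Normal := inferInstance
    have h2 : ∀ x ∈ (⁅N, N⁆ : Subgroup G), σ x ∈ (⁅N, N⁆ : Subgroup G) := by
      intro x hx
      have h3 : (⁅N, N⁆ : Subgroup G).map σ.toMonoidHom ≤ ⁅N, N⁆ := by
        rw [Subgroup.map_commutator]
        have h4 : N.map σ.toMonoidHom ≤ N := by
          rintro _ ⟨y, hy, rfl⟩
          exact hNσ y hy
        exact Subgroup.commutator_mono h4 h4
      exact h3 ⟨x, hx, rfl⟩
    exact hlt.ne (hmin _ h1 h2 hne hlt.le)
  have hab : ∀ x ∈ N, ∀ y ∈ N, x * y = y * x := by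
    intro x hx y hy
    have h1 := Subgroup.commutator_mem_commutator hx hy
    rw [hcomm, Subgroup.mem_bot, commutatorElement_eq_one_iff_mul_comm] at h1
    exact h1
  refine ⟨N, hN, hNσ, hN1, hmin, hab, ?_⟩
  -- a prime
  have hnt' : Nontrivial N := (Subgroup.nontrivial_iff_ne_bot N).mpr hN1
  obtain ⟨p, hp, hpd⟩ := Nat.exists_prime_and_dvd (Finite.one_lt_card (α := N)).ne'
  refine ⟨p, hp, ?_⟩
  haveI : Fact p.Prime := ⟨hp⟩
  let Ω : Subgroup G :=
    { carrier := {x | x ∈ N ∧ x ^ p = 1}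
      one_mem' := ⟨N.one_mem, one_pow p⟩
      mul_mem' := by
        rintro a b ⟨ha, ha'⟩ ⟨hb, hb'⟩
        refine ⟨N.mul_mem ha hb, ?_⟩
        have hc : Commute a b := hab a ha b hb
        rw [hc.mul_pow, ha', hb', one_mul]
      inv_mem' := by
        rintro a ⟨ha, ha'⟩
        refine ⟨N.inv_mem ha, ?_⟩
        rw [inv_pow, ha', inv_one] }
  have hΩnormal : Ω.Normal := by
    constructor
    rintro x ⟨hx, hx'⟩ g
    refine ⟨hN.conj_mem x hx g, ?_⟩
    rw [conj_pow, hx']
    simp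
  have hΩσ : ∀ x ∈ Ω, σ x ∈ Ω := by
    rintro x ⟨hx, hx'⟩
    refine ⟨hNσ x hx, ?_⟩
    rw [← map_pow, hx', map_one]
  have hΩbot : Ω ≠ ⊥ := by
    obtain ⟨x, hx⟩ := exists_prime_orderOf_dvd_card' p hpd
    intro h
    have hm : x.1 ∈ Ω := by
      refine ⟨x.2, ?_⟩
      have : x ^ p = 1 := by rw [← hx]; exact pow_orderOf_eq_one x
      exact congrArg Subtype.val this
    rw [h, Subgroup.mem_bot] at hm
    have hx2 : x = 1 := Subtype.ext hm
    rw [hx2, orderOf_one] at hx
    exact hp.one_lt.ne hx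
  have hΩ := hmin Ω hΩnormal hΩσ hΩbot (fun x hx => hx.1)
  intro g
  refine ⟨1, ?_⟩
  have hg : g.1 ∈ Ω := by rw [hΩ]; exact g.2
  rw [pow_one]
  exact Subtype.ext hg.2

/-- The main induction. -/
theorem main : ∀ (n : ℕ) (G : Type u) [Group G] [Finite G], Nat.card G = n →
    Group.IsSolvable G → ∀ σ : MulAut G, σ ^ 4 = 1 → (∀ g : G, σ g = g → g = 1) →
    Group.IsNilpotent (commutator G) := by
  intro n
  induction n using Nat.strong_induction_on with
  | _ n IH =>
  intro G _ _ hcard hG σ hσ hfpf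
  by_cases hnt : Nontrivial G
  swap
  · rw [not_nontrivial_iff_subsingleton] at hnt
    infer_instance
  obtain ⟨N, hN, hNσ, hN1, hmin, hab, p, hp, hpN⟩ := exists_minimal_invariant hG hnt σ
  haveI : Fact p.Prime := ⟨hp⟩
  have hcent := commutator_centralizes hG σ hσ hfpf N hNσ hN1 hmin hab p hpN
  -- the quotient
  have hσ4 : ∀ x : G, σ (σ (σ (σ x))) = x := by
    intro x
    have h1 := congrArg (fun T : MulAut G => T x) hσ
    simpa [pow_succ] using h1
  have hmap : N = N.map σ.toMonoidHom := by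
    apply le_antisymm
    · intro x hx
      refine ⟨σ (σ (σ x)), hNσ _ (hNσ _ (hNσ _ hx)), hσ4 x⟩
    · rintro _ ⟨y, hy, rfl⟩
      exact hNσ y hy
  let σ' : MulAut (G ⧸ N) := QuotientGroup.congr N N σ hmap.symm
  have hσ'mk : ∀ x : G, σ' (x : G ⧸ N) = ((σ x : G) : G ⧸ N) := fun x => rfl
  have hσ'4 : σ' ^ 4 = 1 := by
    apply MulEquiv.ext
    intro q
    obtain ⟨x, rfl⟩ := QuotientGroup.mk_surjective q
    have h0 : (σ' ^ 4) (x : G ⧸ N) = σ' (σ' (σ' (σ' (x : G ⧸ N)))) := by simp [pow_succ]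
    rw [h0, hσ'mk, hσ'mk, hσ'mk, hσ'mk, hσ4]
    rfl
  have hσ'fpf : ∀ q : G ⧸ N, σ' q = q → q = 1 :=
    fpf_of_surjective (QuotientGroup.mk' N) (QuotientGroup.mk'_surjective N) σ.toMonoidHom
      σ'.toMonoidHom (fun x => rfl) hfpf
  have hlt : Nat.card (G ⧸ N) < n := by
    have h1 := Subgroup.card_eq_card_quotient_mul_card_subgroup N
    have h2 : 1 < Nat.card N := by
      have hnt' : Nontrivial N := (Subgroup.nontrivial_iff_ne_bot N).mpr hN1
      exact Finite.one_lt_card
    rw [← hcard, h1]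
    have h3 : 0 < Nat.card (G ⧸ N) := Nat.card_pos
    nlinarith
  have hsolvQ : Group.IsSolvable (G ⧸ N) := inferInstance
  have hnilQ := IH _ hlt (G ⧸ N) rfl hsolvQ σ' hσ'4 hσ'fpf
  -- restriction to the derived subgroups
  have hmapc : ∀ x ∈ commutator G, (QuotientGroup.mk' N) x ∈ commutator (G ⧸ N) := by
    intro x hx
    have h1 : (commutator G).map (QuotientGroup.mk' N) ≤ commutator (G ⧸ N) := by
      rw [commutator_def, commutator_def, Subgroup.map_commutator]
      exact Subgroup.commutator_mono le_top le_top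
    exact h1 ⟨x, hx, rfl⟩
  let f : commutator G →* commutator (G ⧸ N) :=
    ((QuotientGroup.mk' N).comp (commutator G).subtype).codRestrict _
      (fun x => hmapc x.1 x.2)
  refine isNilpotent_of_ker_le_center f ?_
  intro x hx
  have hxN : x.1 ∈ N := by
    have h1 : (QuotientGroup.mk' N) x.1 = 1 := congrArg Subtype.val (MonoidHom.mem_ker.mp hx)
    simpa using h1
  rw [Subgroup.mem_center_iff]
  intro y
  apply Subtype.ext
  exact hcent y.1 y.2 x.1 hxN

/-- Let G be a finite solvable group with an automorphism σ satisfying σ⁴ = 1 and fixing only the identity. Then the derived subgroup G' is nilpotent. -/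
theorem result {G : Type*} [Group G] [Finite G] (hG : Group.IsSolvable G) (σ : MulAut G) (hσ : σ ^ 4 = 1) (hfpf : ∀ g : G, σ g = g → g = 1) : Group.IsNilpotent (commutator G) := by
  exact main _ G rfl hG σ hσ hfpf

end Cfsg.Agent.S3794
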