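import Cfsg.Statements.S3796
import Cfsg.Agent.Lib.Ward.Main

set_option autoImplicit false
set_option linter.style.haveILetI false
set_option linter.unusedVariables false
open Cfsg

namespace Cfsg.Agent.S3796

open Cfsg.Agent.Lib.Ward SemidirectProduct

/-- Ward's Theorem: let G be a finite solvable group and A an elementary abelian group of automorphisms of G of order p² (p a prime) with no non-identity common fixed point. Then G has Fitting height at most 2: G has Fitting height at most m when there is a chain of normal subgroups 1 = F₀ ≤ F₁ ≤ ⋯ ≤ F_m = G with each F_{i+1}/F_i nilpotent. -/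
theorem result {G : Type*} [Group G] [Finite G] (hG : Group.IsSolvable G) {p : ℕ} (hp : p.Prime) (A : Subgroup (MulAut G)) (hA : Cfsg.IsElementaryAbelian p A) (hcard : Nat.card A = p ^ 2) (hfpf : ∀ g : G, (∀ a ∈ A, a g = g) → g = 1) : ∃ F : Fin (2 + 1) → Subgroup G, F 0 = ⊥ ∧ F (Fin.last 2) = ⊤ ∧ Monotone F ∧ (∀ i, (F i).Normal) ∧ ∀ i : Fin 2, ∃ k : ℕ, (F i.succ).lowerCentralSeries k ≤ F i.castSucc := by
  classical
  haveI : Fact p.Prime := ⟨hp⟩
  -- `p` does not divide `|G|`
  have hpG : ¬ p ∣ Nat.card G := by
    intro hdvd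
    have hAp : IsPGroup p A := IsPGroup.of_card hcard
    have h1 := hAp.card_modEq_card_fixedPoints G
    have h0 : Nat.card G ≡ 0 [MOD p] := (Nat.modEq_zero_iff_dvd).mpr hdvd
    have h2 : p ∣ Nat.card (MulAction.fixedPoints A G) :=
      (Nat.modEq_zero_iff_dvd).mp (h1.symm.trans h0)
    have hsub : Subsingleton (MulAction.fixedPoints A G) := by
      constructor
      rintro ⟨a, ha⟩ ⟨b, hb⟩
      have hall : ∀ v ∈ MulAction.fixedPoints A G, v = 1 := by
        intro v hv
        exact hfpf v fun a ha => hv ⟨a, ha⟩
      exact Subtype.ext ((hall a ha).trans (hall b hb).symm)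
    haveI : Nonempty (MulAction.fixedPoints A G) := ⟨⟨1, fun g => by
      show (g : MulAut G) 1 = 1
      exact map_one _⟩⟩
    rw [Nat.card_unique] at h2
    exact hp.one_lt.ne' (Nat.dvd_one.mp h2)
  let φ : A →* MulAut G := A.subtype
  let X := G ⋊[φ] A
  haveI : Finite X := Finite.of_equiv _ (equivProd (N := G) (G := A) (φ := φ)).symm
  let GX : Subgroup X := (inl : G →* X).range
  let AX : Subgroup X := (inr : A →* X).range
  haveI hGn : GX.Normal := by
    show (inl : G →* X).range.Normal
    rw [range_inl_eq_ker_rightHom]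
    infer_instance
  have hinl : Function.Injective (inl : G →* X) := inl_injective
  have hinr : Function.Injective (inr : A →* X) := inr_injective
  have hcardG : Nat.card GX = Nat.card G := by
    exact Nat.card_congr (MonoidHom.ofInjective hinl).toEquiv.symm
  have hcardA : Nat.card AX = Nat.card A := by
    exact Nat.card_congr (MonoidHom.ofInjective hinr).toEquiv.symm
  have hW : Ward AX GX p :=
    { prime := hp
      comm := by
        rintro _ ⟨a, rfl⟩ _ ⟨b, rfl⟩
        rw [← map_mul, ← map_mul]
        congr 1
        exact hA.1.is_comm.comm a b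
      pow := by
        rintro _ ⟨a, rfl⟩
        rw [← map_pow]
        have : a ^ p = 1 := Subtype.ext (by simpa using hA.2 a a.2)
        rw [this, map_one]
      card := by rw [hcardA, hcard]
      norm := by
        intro a _
        exact mem_norm_of_conj (fun x hx => hGn.conj_mem x hx a) (fun x hx => by
          have := hGn.conj_mem x hx a⁻¹
          rwa [inv_inv] at this)
      cop := by rw [hcardG]; exact hpG
      solv := by
        haveI := hG
        exact Group.isSolvable_of_surjective (f := (inl : G →* X).rangeRestrict)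
          (MonoidHom.rangeRestrict_surjective _)
      fpf := by
        rintro _ ⟨g, rfl⟩ hfix
        have h1 : g = 1 := by
          refine hfpf g fun a ha => ?_
          have h2 := hfix (inr ⟨a, ha⟩) ⟨_, rfl⟩
          have h3 : (inl ((φ ⟨a, ha⟩) g) : X) = inr ⟨a, ha⟩ * inl g * (inr ⟨a, ha⟩)⁻¹ := by
            rw [inl_aut, map_inv]
          rw [← h3] at h2
          exact hinl h2
        rw [h1, map_one] }
  obtain ⟨N, hNn, hNG, hNnil, m, hm⟩ := ward_main _ X AX GX p hW hGn rfl
  let N' : Subgroup G := N.comap (inl : G →* X)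
  have hN'n : N'.Normal := by
    constructor
    intro x hx g
    show (inl (g * x * g⁻¹) : X) ∈ N
    rw [map_mul, map_mul, map_inv]
    exact hNn.conj_mem _ hx _
  refine ⟨![⊥, N', ⊤], rfl, rfl, ?_, ?_, ?_⟩
  · intro i j hij
    fin_cases i <;> fin_cases j <;> simp at hij ⊢
  · intro i
    fin_cases i
    · exact (inferInstance : (⊥ : Subgroup G).Normal)
    · exact hN'n
    · exact (inferInstance : (⊤ : Subgroup G).Normal)
  · intro i
    fin_cases i
    · obtain ⟨k, hk⟩ := (Subgroup.isNilpotent_iff_lowerCentralSeries _).mp hNnil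
      refine ⟨k, ?_⟩
      show N'.lowerCentralSeries k ≤ ⊥
      intro x hx
      have h1 : (inl x : X) ∈ (N'.lowerCentralSeries k).map (inl : G →* X) := ⟨x, hx, rfl⟩
      rw [Subgroup.map_lowerCentralSeries] at h1
      have h2 : N'.map (inl : G →* X) ≤ N := Subgroup.map_comap_le _ _
      have h3 : (inl x : X) ∈ N.lowerCentralSeries k := Subgroup.lowerCentralSeries_mono k h2 h1
      rw [hk, Subgroup.mem_bot] at h3
      rw [Subgroup.mem_bot]
      exact hinl (by rw [h3, map_one])
    · refine ⟨m, ?_⟩
      show (⊤ : Subgroup G).lowerCentralSeries m ≤ N'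
      intro x hx
      have h1 : (inl x : X) ∈ ((⊤ : Subgroup G).lowerCentralSeries m).map (inl : G →* X) := ⟨x, hx, rfl⟩
      rw [Subgroup.map_lowerCentralSeries, ← MonoidHom.range_eq_map] at h1
      exact hm h1

end Cfsg.Agent.S3796
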