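import Cfsg.Statements.S3797
import Mathlib
import Cfsg.Agent.Lib.AllInv.Main

set_option autoImplicit false
open Cfsg

namespace Cfsg.Agent.S3797

/-- Let G be a finite solvable group of even order whose Sylow 2-subgroups contain more than one involution, and suppose all involutions of G are conjugate. Then G has 2-length at most 1, and a Sylow 2-subgroup S of G is either homocyclic (a direct product of cyclic groups of one common order) or a non-abelian 2-group with more than one involution admitting a solvable group of automorphisms transitive on its involutions. -/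
theorem result {G : Type*} [Group G] [Finite G] (hG : Group.IsSolvable G) (heven : Even (Nat.card G)) (S : Sylow 2 G) (htwo : ∃ x y : G, x ∈ (S : Subgroup G) ∧ y ∈ (S : Subgroup G) ∧ x ≠ y ∧ x ≠ 1 ∧ x ^ 2 = 1 ∧ y ≠ 1 ∧ y ^ 2 = 1) (hconj : ∀ x y : G, x ≠ 1 → x ^ 2 = 1 → y ≠ 1 → y ^ 2 = 1 → IsConj x y) : Cfsg.PLengthLE 2 1 G ∧ ((∃ m r : ℕ, Nonempty (↥(S : Subgroup G) ≃* (Fin r → Multiplicative (ZMod (2 ^ m))))) ∨ (¬ IsMulCommutative (S : Subgroup G) ∧ ∃ Y : Subgroup (MulAut ↥(S : Subgroup G)), Group.IsSolvable Y ∧ ∀ x y : ↥(S : Subgroup G), x ≠ 1 → x ^ 2 = 1 → y ≠ 1 → y ^ 2 = 1 → ∃ a ∈ Y, a x = y)) := by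
  classical
  haveI : Fact (Nat.Prime 2) := ⟨Nat.prime_two⟩
  have hconj' : ∀ x y : G, x ≠ 1 → x * x = 1 → y ≠ 1 → y * y = 1 → IsConj x y :=
    fun x y a b c d => hconj x y a (by rw [sq, b]) c (by rw [sq, d])
  obtain ⟨x, y, hx, hy, hxy, hx1, hxx, hy1, hyy⟩ := htwo
  obtain ⟨h1, h2⟩ := Cfsg.Agent.Lib.AllInv.all_inv_main hG S x y hx hy hxy hx1 (by rw [← sq, hxx]) hy1
    (by rw [← sq, hyy]) hconj'
  refine ⟨h1, ?_⟩
  have htr : ∀ a b : ↥(S : Subgroup G), a ≠ 1 → a * a = 1 → b ≠ 1 → b * b = 1 →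
      ∃ n : Subgroup.normalizer (((S : Subgroup G) : Set G)),
        (Subgroup.normalizerMonoidHom (S : Subgroup G)) n a = b := by
    intro a b ha1 haa hb1 hbb
    have ha1' : (a : G) ≠ 1 := fun h0 => ha1 (Subtype.ext h0)
    have hb1' : (b : G) ≠ 1 := fun h0 => hb1 (Subtype.ext h0)
    have haa' : (a : G) * (a : G) = 1 := congrArg Subtype.val haa
    have hbb' : (b : G) * (b : G) = 1 := congrArg Subtype.val hbb
    obtain ⟨g, hg⟩ := isConj_iff.1 (hconj' a b ha1' haa' hb1' hbb')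
    obtain ⟨n, hn, hnX⟩ := Cfsg.Agent.Lib.Basic.SylowUtil.burnside_fusion S {(a : G)} g
      (by
        rintro z rfl w hw
        exact h2 a a.2 haa' w hw)
      (by
        rintro z rfl w hw
        rw [hg]
        exact h2 b b.2 hbb' w hw)
    refine ⟨⟨n, hn⟩, Subtype.ext ?_⟩
    show n * (a : G) * n⁻¹ = b
    rw [hnX a rfl, hg]
  by_cases hcomm : IsMulCommutative (S : Subgroup G)
  · left
    letI : CommGroup ↥(S : Subgroup G) :=
      { (inferInstance : Group ↥(S : Subgroup G)) with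
        mul_comm := fun a b => hcomm.is_comm.comm a b }
    refine Cfsg.Agent.Lib.AllInv.homocyclic S.isPGroup' ?_
    intro a b ha1 haa hb1 hbb
    obtain ⟨n, hn⟩ := htr a b ha1 haa hb1 hbb
    exact ⟨Subgroup.normalizerMonoidHom (S : Subgroup G) n, hn⟩
  · right
    refine ⟨hcomm, (Subgroup.normalizerMonoidHom (S : Subgroup G)).range, ?_, ?_⟩
    · haveI := hG
      exact solvable_of_surjective (MonoidHom.rangeRestrict_surjective _)
    · intro a b ha1 haa hb1 hbb
      obtain ⟨n, hn⟩ := htr a b ha1 (by rw [← sq, haa]) hb1 (by rw [← sq, hbb])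
      exact ⟨_, ⟨n, rfl⟩, hn⟩

end Cfsg.Agent.S3797
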