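import Mathlib
import Cfsg.Statements.S3798
import Cfsg.Agent.Lib.Solvable.PSeries
import Cfsg.Agent.Lib.Coprime.OmegaOne
import Cfsg.Agent.Lib.Coprime.SZ
import Cfsg.Agent.Lib.Basic.PCore
import Cfsg.Agent.Lib.Coprime.PSolvable
import Cfsg.Agent.Lib.Basic.Conj

set_option autoImplicit false
set_option linter.style.haveILetI false
open Cfsg

namespace Cfsg.Agent.S3798

open Cfsg.Agent.Lib.Solvable.PSeries Cfsg.Agent.Lib.Basic.PCore

section core2

variable {G : Type*} [Group G] [Finite G] {p : ℕ} [Fact p.Prime]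

/-- Frattini argument for complements of a normal Hall `p`-subgroup `P` in the normal subgroup `N`. -/
theorem frattini_complement {P N : Subgroup G} [hNn : N.Normal] [hPn : P.Normal]
    (hPp : IsPGroup p P) (hc : (P.relIndex N).Coprime p) :
    ∃ K : Subgroup G, K ≤ N ∧ K ⊓ P = ⊥ ∧ (∀ n ∈ N, ∃ u ∈ P, ∃ k ∈ K, n = u * k) ∧
      ∀ l : G, ∃ u ∈ P, ∃ v ∈ Subgroup.normalizer (K : Set G), l = u * v := by
  classical
  have hp := (Fact.out : p.Prime)
  set P' : Subgroup N := P.subgroupOf N with hP'
  haveI hP'n : P'.Normal := Subgroup.Normal.subgroupOf hPn N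
  have hP'p : IsPGroup p P' := hPp.comap_subtype
  obtain ⟨m, hm⟩ := IsPGroup.iff_card.mp hP'p
  have hcop : (Nat.card P').Coprime P'.index := by
    rw [hm]
    exact Nat.Coprime.pow_left _ hc.symm
  haveI : Group.IsSolvable P' := by
    haveI : Fact p.Prime := ⟨hp⟩
    haveI := hP'p.isNilpotent
    infer_instance
  obtain ⟨K', hK'⟩ := Subgroup.exists_right_complement'_of_coprime hcop
  have hK'card : Nat.card K' = P'.index := by
    have := hK'.card_mul_card
    have h2 := P'.card_mul_index
    have hpos : 0 < Nat.card P' := Nat.card_pos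
    exact Nat.eq_of_mul_eq_mul_left hpos (this.trans h2.symm)
  refine ⟨K'.map N.subtype, ?_, ?_, ?_, ?_⟩
  · rintro _ ⟨k, -, rfl⟩; exact k.2
  · rw [eq_bot_iff]
    rintro x ⟨⟨k, hk, rfl⟩, hxP⟩
    have h1 : k ∈ P' := by
      simpa [hP', Subgroup.mem_subgroupOf] using hxP
    have h2 : k ∈ P' ⊓ K' := ⟨h1, hk⟩
    rw [hK'.disjoint.eq_bot, Subgroup.mem_bot] at h2
    simp [h2]
  · intro n hn
    obtain ⟨⟨u, k⟩, huk⟩ := hK'.surjective ⟨n, hn⟩
    refine ⟨(u : N), ?_, (k : N), ⟨k, k.2, rfl⟩, ?_⟩
    · exact u.2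
    · have := congrArg (fun y : N => (y : G)) huk
      simpa using this.symm
  · intro l
    -- the conjugate of `K'` by `l`
    set φ : MulAut N := MulAut.conjNormal l with hφ
    set K₁ : Subgroup N := K'.map φ.toMonoidHom with hK₁
    have hK₁card : Nat.card K₁ = P'.index := by
      rw [hK₁, Subgroup.card_map_of_injective (show Function.Injective φ.toMonoidHom from φ.injective), hK'card]
    obtain ⟨g, hg⟩ := Cfsg.Agent.Lib.Coprime.SZ.conj_of_solvable P' hcop (Or.inl inferInstance)
      K₁ K' hK₁card hK'card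
    -- decompose `g = k * u`
    obtain ⟨⟨k, u⟩, hku⟩ := hK'.symm.surjective g
    have hg' : g = (k : N) * (u : N) := hku.symm
    set v : G := (u : N) * l with hv
    have hvnorm : v ∈ Subgroup.normalizer ((K'.map N.subtype : Subgroup G) : Set G) := by
      apply Cfsg.Agent.Lib.Basic.Conj.mem_normalizer_of_conj_smul_le
      intro x hx
      rw [Cfsg.Agent.Lib.Basic.Conj.mem_conj_smul_iff] at hx
      obtain ⟨k0, hk0, hk0eq⟩ := hx
      have ht : φ k0 ∈ K₁ := ⟨k0, hk0, rfl⟩
      have h1 : g * φ k0 * g⁻¹ ∈ K' := by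
        rw [← hg, Cfsg.Agent.Lib.Basic.Conj.mem_conj_smul_iff]
        simpa [mul_assoc] using ht
      have h2 : (k : N)⁻¹ * (g * φ k0 * g⁻¹) * (k : N) ∈ K' :=
        K'.mul_mem (K'.mul_mem (K'.inv_mem k.2) h1) k.2
      refine ⟨_, h2, ?_⟩
      have h3 : (φ k0 : G) = l * (k0 : G) * l⁻¹ := rfl
      simp only [Subgroup.subtype_apply, Subgroup.coe_mul, Subgroup.coe_inv, h3, hg'] at hk0eq ⊢
      rw [hk0eq]
      simp only [hv]
      group
    refine ⟨((u : N) : G)⁻¹, ?_, v, hvnorm, by simp [hv]⟩
    exact P.inv_mem u.2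

/-- An automorphism-invariant subgroup containing an element of order `p` contains all of them. -/
theorem mem_of_invariant
    (htrans : ∀ U V : Subgroup G, Nat.card U = p → Nat.card V = p → ∃ a : MulAut G, U.map a.toMonoidHom = V)
    (X : Subgroup G) (hX : ∀ a : MulAut G, ∀ x ∈ X, a x ∈ X) {e : G} (he : orderOf e = p) (heX : e ∈ X)
    {g : G} (hg : orderOf g = p) : g ∈ X := by
  have hcU : Nat.card (Subgroup.zpowers e) = p := by rw [Nat.card_zpowers, he]
  have hcV : Nat.card (Subgroup.zpowers g) = p := by rw [Nat.card_zpowers, hg]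
  obtain ⟨a, ha⟩ := htrans _ _ hcU hcV
  have h1 : a e ∈ Subgroup.zpowers g := by
    rw [← ha]
    exact ⟨e, Subgroup.mem_zpowers e, rfl⟩
  have h2 : orderOf (a e) = p := by
    rw [MulEquiv.orderOf_eq, he]
  have h3 : Subgroup.zpowers (a e) = Subgroup.zpowers g := by
    apply Subgroup.eq_of_le_of_card_ge (Subgroup.zpowers_le.mpr h1)
    rw [Nat.card_zpowers, Nat.card_zpowers, h2, hg]
  have h4 : g ∈ Subgroup.zpowers (a e) := by
    rw [h3]; exact Subgroup.mem_zpowers g
  have h5 : Subgroup.zpowers (a e) ≤ X := Subgroup.zpowers_le.mpr (hX a e heX)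
  exact h5 h4

/-- The `p`-part: any element has a power of `p`-power order with the cofactor coprime. -/
theorem exists_pow_parts (x : G) : ∃ a q : ℕ, orderOf x = p ^ a * q ∧ q.Coprime p := by
  have hp := (Fact.out : p.Prime)
  have hpos : orderOf x ≠ 0 := (orderOf_pos x).ne'
  obtain ⟨a, q, hq, h⟩ := Nat.exists_eq_pow_mul_and_not_dvd hpos p hp.ne_one
  exact ⟨a, q, h, ((Nat.Prime.coprime_iff_not_dvd hp).mpr hq).symm⟩

/-- A `p`-element different from `1` has a power of order `p`. -/
theorem exists_pow_orderOf_eq {w : G} {a : ℕ} (hw : w ^ p ^ a = 1) (hne : w ≠ 1) :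
    ∃ m : ℕ, orderOf (w ^ m) = p := by
  have hp := (Fact.out : p.Prime)
  obtain ⟨k, hk⟩ : ∃ k, orderOf w = p ^ k := by
    have := orderOf_dvd_of_pow_eq_one hw
    obtain ⟨k, -, hk⟩ := (Nat.dvd_prime_pow hp).mp this
    exact ⟨k, hk⟩
  have hk0 : k ≠ 0 := by
    rintro rfl
    apply hne
    simpa using hk
  have hd : p ∣ orderOf w := by
    rw [hk]; exact dvd_pow_self p hk0
  exact ⟨orderOf w / p, orderOf_pow_orderOf_div (orderOf_pos w).ne' hd⟩

theorem core (hp2 : p ≠ 2) (hG : IsPSolvable p G) (h0 : pPrimeCore p G = ⊥)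
    (htrans : ∀ U V : Subgroup G, Nat.card U = p → Nat.card V = p → ∃ a : MulAut G, U.map a.toMonoidHom = V)
    (x : G) (a0 : ℕ) (hx : x ^ p ^ a0 = 1) : x ∈ pCore p G := by
  classical
  have hp := (Fact.out : p.Prime)
  set P := pCore p G with hPdef
  haveI hPn : P.Normal := pCore_normal p G
  have hPp : IsPGroup p P := pCore_isPGroup p
  have hCP : Subgroup.centralizer (P : Set G) ≤ P := centralizer_pCore_le hG h0
  have hPchar : P.Characteristic := pCore_char p G
  by_contra hxP
  have hPa : ∀ a : MulAut G, ∀ y ∈ P, a y ∈ P := by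
    intro a y hy
    have := (Subgroup.characteristic_iff_map_eq.mp hPchar a)
    rw [← this]; exact ⟨y, hy, rfl⟩
  have hPne : P ≠ ⊥ := by
    intro hbot
    apply hxP
    apply hCP
    rw [hbot, Subgroup.mem_centralizer_iff]
    simp
  -- central element of order p
  obtain ⟨z, hzP, hzc, hzo⟩ : ∃ z ∈ P, z ∈ Subgroup.centralizer (P : Set G) ∧ orderOf z = p := by
    haveI : Nontrivial P := (Subgroup.bot_or_nontrivial P).resolve_left hPne
    haveI := hPp.center_nontrivial
    obtain ⟨c, hc⟩ := exists_ne (1 : Subgroup.center P)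
    obtain ⟨k, hk⟩ := hPp c.1
    have hk' : ((c.1 : P) : G) ^ p ^ k = 1 := by
      have := congrArg (fun y : P => (y : G)) hk
      simpa using this
    have hne : ((c.1 : P) : G) ≠ 1 := by
      intro h
      apply hc
      apply Subtype.ext
      apply Subtype.ext
      simpa using h
    obtain ⟨m, hm⟩ := exists_pow_orderOf_eq hk' hne
    refine ⟨((c.1 : P) : G) ^ m, P.pow_mem c.1.2 m, ?_, hm⟩
    apply Subgroup.pow_mem
    rw [Subgroup.mem_centralizer_iff]
    intro h hh
    have := (Subgroup.mem_center_iff.mp c.2) ⟨h, hh⟩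
    have := congrArg (fun y : P => (y : G)) this
    simpa using this
  -- the centre of `P` is invariant
  have hYinv : ∀ a : MulAut G, ∀ y ∈ P ⊓ Subgroup.centralizer (P : Set G),
      a y ∈ P ⊓ Subgroup.centralizer (P : Set G) := by
    intro a y hy
    obtain ⟨hy1, hy2⟩ := Subgroup.mem_inf.mp hy
    refine Subgroup.mem_inf.mpr ⟨hPa a y hy1, ?_⟩
    rw [Subgroup.mem_centralizer_iff] at hy2 ⊢
    intro h hh
    have h1 := hy2 (a⁻¹ h) (hPa _ h hh)
    have h2 := congrArg a h1
    simpa using h2
  have hA : ∀ g : G, orderOf g = p → g ∈ P ∧ g ∈ Subgroup.centralizer (P : Set G) := fun g hg =>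
    mem_of_invariant htrans _ hYinv hzo ⟨hzP, hzc⟩ hg
  -- the centralizer of all elements of order `p`
  set S : Set G := {g | orderOf g = p} with hS
  set C : Subgroup G := Subgroup.centralizer S with hC
  have hCn : C.Normal := by
    refine ⟨fun y hy h => ?_⟩
    rw [hC, Subgroup.mem_centralizer_iff] at hy ⊢
    intro g hg
    have hg' : h⁻¹ * g * h ∈ S := by
      have : orderOf (h⁻¹ * g * h) = orderOf g := by
        have := MulEquiv.orderOf_eq (MulAut.conj h⁻¹) g
        simpa [MulAut.conj_apply] using this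
      simpa [hS, this] using hg
    have h1 := hy _ hg'
    calc g * (h * y * h⁻¹) = h * ((h⁻¹ * g * h) * y) * h⁻¹ := by group
      _ = h * (y * (h⁻¹ * g * h)) * h⁻¹ := by rw [h1]
      _ = h * y * h⁻¹ * g := by group
  have hPnorm : ∀ v : G, v ∈ Subgroup.normalizer (P : Set G) := by
    intro v
    rw [Subgroup.normalizer_eq_top_iff.mpr hPn]
    trivial
  have hCpg : IsPGroup p C := by
    rintro ⟨y, hy⟩
    obtain ⟨a, q, hyo, hq⟩ := exists_pow_parts (p := p) y
    have hpow : p ^ a ≠ 0 := pow_ne_zero _ hp.ne_zero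
    have hvo : orderOf (y ^ p ^ a) = q := by
      rw [orderOf_pow_of_dvd hpow (by rw [hyo]; exact dvd_mul_right _ _), hyo]
      exact Nat.mul_div_cancel_left _ (Nat.pos_of_ne_zero hpow)
    have hvC : y ^ p ^ a ∈ C := C.pow_mem hy _
    have hvP : y ^ p ^ a ∈ P := by
      apply hCP
      rw [Subgroup.mem_centralizer_iff]
      intro h hh
      refine (Cfsg.Agent.Lib.Coprime.OmegaOne.comm_of_forall_pow_eq_one hp2 hPp (hPnorm _) (by rw [hvo]; exact hq)
        ?_ h hh).symm
      intro x' _ hx'
      by_cases h1 : x' = 1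
      · simp [h1]
      · have h2 : x' ∈ S := orderOf_eq_prime hx' h1
        have := (Subgroup.mem_centralizer_iff.mp hvC) x' h2
        exact this.symm
    obtain ⟨k, hk⟩ := hPp ⟨_, hvP⟩
    have hk' : (y ^ p ^ a) ^ p ^ k = 1 := by
      have := congrArg (fun y : P => (y : G)) hk
      simpa using this
    have hq1 : q = 1 := by
      have h1 : q ∣ p ^ k := by rw [← hvo]; exact orderOf_dvd_of_pow_eq_one hk'
      exact Nat.Coprime.eq_one_of_dvd (Nat.Coprime.pow_right k hq) h1
    have hv1 : y ^ p ^ a = 1 := by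
      rw [← orderOf_eq_one_iff, hvo, hq1]
    refine ⟨a, ?_⟩
    apply Subtype.ext
    simpa using hv1
  have hCle : C ≤ P := le_pCore hCn hCpg
  set N := stepQ p P with hNdef
  have hPN : P ≤ N := le_stepQ p P
  have hc : (P.relIndex N).Coprime p := relIndex_stepQ P
  have hNa : ∀ a : MulAut G, ∀ n ∈ N, a n ∈ N := by
    intro a n hn
    have hV : (N.map a.toMonoidHom).Normal := Subgroup.Normal.map inferInstance _ a.surjective
    have h1 : P.map a.toMonoidHom = P := Subgroup.characteristic_iff_map_eq.mp hPchar a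
    have h2 : P.relIndex (N.map a.toMonoidHom) = P.relIndex N := by
      conv_lhs => rw [← h1]
      exact Subgroup.relIndex_map_map_of_injective _ _ a.injective
    have h3 := le_stepQ_of_relIndex P hV (by rw [h2]; exact hc)
    exact h3 ⟨n, hn, rfl⟩
  by_cases hNP : N ≤ P
  · -- then `G = P`
    have hbot : pPrimeCore p (G ⧸ P) = ⊥ := by
      rw [eq_bot_iff]
      intro y hy
      obtain ⟨g, rfl⟩ := QuotientGroup.mk'_surjective P y
      have hg : g ∈ N := hy
      simpa using hNP hg
    have hG' : IsPSolvable p (G ⧸ P) := isPSolvable_of_surjective (QuotientGroup.mk'_surjective P) hG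
    have h1 := centralizer_pCore_le hG' hbot
    have h2 : pCore p (G ⧸ P) = ⊥ := pCore_quotient_eq_bot
    rw [h2] at h1
    have h3 : (QuotientGroup.mk' P x) ∈ (⊥ : Subgroup (G ⧸ P)) :=
      h1 (by rw [Subgroup.mem_centralizer_iff]; simp)
    apply hxP
    simpa using h3
  · have hNC : ∀ e : G, orderOf e = p → ¬ ∀ n ∈ N, e * n = n * e := by
      intro e he hcomm
      apply hNP
      have hXinv : ∀ a : MulAut G, ∀ y ∈ Subgroup.centralizer (N : Set G),
          a y ∈ Subgroup.centralizer (N : Set G) := by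
        intro a y hy
        rw [Subgroup.mem_centralizer_iff] at hy ⊢
        intro h hh
        have h1 := hy (a⁻¹ h) (hNa _ h hh)
        have h2 := congrArg a h1
        simpa using h2
      have heX : e ∈ Subgroup.centralizer (N : Set G) := by
        rw [Subgroup.mem_centralizer_iff]
        intro h hh
        exact (hcomm h hh).symm
      refine le_trans ?_ hCle
      intro n hn
      rw [hC, Subgroup.mem_centralizer_iff]
      intro g hg
      have := mem_of_invariant htrans _ hXinv he heX hg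
      exact (Subgroup.mem_centralizer_iff.mp this n hn).symm
    obtain ⟨K, hKN, hKP, hdecomp, hFr⟩ := frattini_complement (p := p) (P := P) (N := N) hPp hc
    obtain ⟨u, hu, l, hl, hxul⟩ := hFr x
    obtain ⟨a, q, hlo, hq⟩ := exists_pow_parts (p := p) l
    have hzp : (l ^ q) ^ p ^ a = 1 := by
      rw [← pow_mul, mul_comm, ← hlo, pow_orderOf_eq_one]
    have hzP' : l ^ q ∉ P := by
      intro hlq
      apply hxP
      have h1 : QuotientGroup.mk' P x = QuotientGroup.mk' P l := by
        rw [hxul, map_mul]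
        have : QuotientGroup.mk' P u = 1 := by simpa using hu
        rw [this, one_mul]
      have h2 : (QuotientGroup.mk' P x) ^ q = 1 := by
        rw [h1, ← map_pow]; exact (QuotientGroup.eq_one_iff _).mpr hlq
      have h3 : (QuotientGroup.mk' P x) ^ p ^ a0 = 1 := by
        rw [← map_pow, hx, map_one]
      have h4 : orderOf (QuotientGroup.mk' P x) = 1 := by
        have h5 := Nat.dvd_gcd (orderOf_dvd_of_pow_eq_one h2) (orderOf_dvd_of_pow_eq_one h3)
        rw [Nat.Coprime.gcd_eq_one (Nat.Coprime.pow_right a0 hq)] at h5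
        exact Nat.dvd_one.mp h5
      rw [orderOf_eq_one_iff] at h4
      simpa using h4
    -- a power of `z = l ^ q` outside `P` whose `p`-th power is inside `P`
    set z : G := l ^ q with hz
    have hexj : ∃ j, z ^ p ^ j ∈ P := ⟨a, by rw [hzp]; exact P.one_mem⟩
    have hj0 : Nat.find hexj ≠ 0 := by
      intro h0'
      have := Nat.find_spec hexj
      rw [h0'] at this
      exact hzP' (by simpa using this)
    obtain ⟨i, hi⟩ := Nat.exists_eq_succ_of_ne_zero hj0
    have hyP : z ^ p ^ i ∉ P := Nat.find_min hexj (by omega)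
    have hyp : (z ^ p ^ i) ^ p ∈ P := by
      have := Nat.find_spec hexj
      rw [hi, Nat.succ_eq_add_one, pow_succ, pow_mul] at this
      exact this
    set y : G := z ^ p ^ i with hy
    have hyL : y ∈ Subgroup.normalizer (K : Set G) :=
      Subgroup.pow_mem _ (Subgroup.pow_mem _ hl _) _
    have hyo : y ^ p ^ a = 1 := by
      rw [hy, ← pow_mul, mul_comm, pow_mul, hzp, one_pow]
    set w : G := y ^ p with hw
    have hwL : w ∈ Subgroup.normalizer (K : Set G) := Subgroup.pow_mem _ hyL _
    have hwo : w ^ p ^ a = 1 := by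
      rw [hw, ← pow_mul, mul_comm, pow_mul, hyo, one_pow]
    have hwK : ∀ k ∈ K, w * k = k * w := by
      intro k hk
      have h1 : w * k * w⁻¹ ∈ K := (Subgroup.mem_normalizer_iff.mp hwL k).mp hk
      have h2 : w * k * w⁻¹ * k⁻¹ ∈ K := K.mul_mem h1 (K.inv_mem hk)
      have h3 : w * k * w⁻¹ * k⁻¹ ∈ P := by
        have h4 : k * w⁻¹ * k⁻¹ ∈ P := hPn.conj_mem _ (P.inv_mem hyp) k
        have h5 : w * (k * w⁻¹ * k⁻¹) ∈ P := P.mul_mem hyp h4
        simpa [mul_assoc] using h5
      have h6 : w * k * w⁻¹ * k⁻¹ ∈ K ⊓ P := Subgroup.mem_inf.mpr ⟨h2, h3⟩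
      rw [hKP, Subgroup.mem_bot] at h6
      have h7 : w * k * w⁻¹ = k := by
        rw [mul_inv_eq_one] at h6; exact h6
      rw [mul_inv_eq_iff_eq_mul] at h7
      exact h7
    by_cases hw1 : w = 1
    · have hy1 : y ≠ 1 := by
        intro h1
        apply hyP
        rw [h1]; exact P.one_mem
      have hyord : orderOf y = p := orderOf_eq_prime hw1 hy1
      exact hyP (hA y hyord).1
    · obtain ⟨m, hm⟩ := exists_pow_orderOf_eq hwo hw1
      apply hNC _ hm
      intro n hn
      obtain ⟨u', hu', k', hk', rfl⟩ := hdecomp n hn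
      have h1 : (w ^ m) * u' = u' * (w ^ m) := by
        have := Subgroup.mem_centralizer_iff.mp (hA _ hm).2 u' hu'
        exact this.symm
      have h2 : (w ^ m) * k' = k' * (w ^ m) := by
        have : Commute w k' := hwK k' hk'
        exact (this.pow_left m).eq
      rw [← mul_assoc, h1, mul_assoc, h2, mul_assoc]

/-- An element of order `p` in a subgroup of order `p` of `G ⧸ O_{p'}(G)` can be lifted. -/
theorem lift_order_p (U : Subgroup (G ⧸ pPrimeCore p G)) (hU : Nat.card U = p) :
    ∃ u : G, orderOf u = p ∧ U = Subgroup.zpowers (QuotientGroup.mk' (pPrimeCore p G) u) := by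
  classical
  have hp := (Fact.out : p.Prime)
  set R := pPrimeCore p G with hR
  set W : Subgroup G := U.comap (QuotientGroup.mk' R) with hW
  have hdvd : p ∣ Nat.card W := by
    rw [← hU]
    have hsurj : Function.Surjective ((QuotientGroup.mk' R).subgroupComap U) :=
      MonoidHom.subgroupComap_surjective_of_surjective _ _ (QuotientGroup.mk'_surjective R)
    exact Subgroup.card_dvd_of_surjective _ hsurj
  obtain ⟨w, hw⟩ := exists_prime_orderOf_dvd_card' p hdvd
  have huo : orderOf (w : G) = p := by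
    rw [← hw]; exact Subgroup.orderOf_coe w
  refine ⟨(w : G), huo, ?_⟩
  have hne : QuotientGroup.mk' R (w : G) ≠ 1 := by
    intro h
    have h1 : (w : G) ∈ R := (QuotientGroup.eq_one_iff _).mp h
    have h2 : orderOf (w : G) ∣ Nat.card R := by
      have := orderOf_dvd_natCard (⟨(w : G), h1⟩ : R)
      rwa [Subgroup.orderOf_mk] at this
    rw [huo] at h2
    have h3 := Nat.Coprime.eq_one_of_dvd (pPrimeCore_coprime (G := G) p).symm h2
    exact hp.ne_one h3
  have hord : orderOf (QuotientGroup.mk' R (w : G)) = p := by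
    apply orderOf_eq_prime _ hne
    have hwp : (w : G) ^ p = 1 := by
      have := pow_orderOf_eq_one (w : G)
      rwa [huo] at this
    rw [← map_pow, hwp, map_one]
  symm
  apply Subgroup.eq_of_le_of_card_ge (Subgroup.zpowers_le.mpr (show QuotientGroup.mk' R (w : G) ∈ U from w.2))
  rw [hU, Nat.card_zpowers, hord]

theorem trans_quotient
    (htrans : ∀ U V : Subgroup G, Nat.card U = p → Nat.card V = p → ∃ a : MulAut G, U.map a.toMonoidHom = V)
    (U V : Subgroup (G ⧸ pPrimeCore p G)) (hU : Nat.card U = p) (hV : Nat.card V = p) :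
    ∃ a : MulAut (G ⧸ pPrimeCore p G), U.map a.toMonoidHom = V := by
  classical
  have hp := (Fact.out : p.Prime)
  obtain ⟨u, huo, rfl⟩ := lift_order_p U hU
  obtain ⟨v, hvo, rfl⟩ := lift_order_p V hV
  have hcU : Nat.card (Subgroup.zpowers u) = p := by rw [Nat.card_zpowers, huo]
  have hcV : Nat.card (Subgroup.zpowers v) = p := by rw [Nat.card_zpowers, hvo]
  obtain ⟨a, ha⟩ := htrans _ _ hcU hcV
  have hR : (pPrimeCore p G).map a.toMonoidHom = pPrimeCore p G :=
    Subgroup.characteristic_iff_map_eq.mp (pPrimeCore_char p G) a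
  refine ⟨QuotientGroup.congr _ _ a hR, ?_⟩
  apply Subgroup.eq_of_le_of_card_ge
  · rw [Subgroup.map_le_iff_le_comap, Subgroup.zpowers_le]
    have h1 : a u ∈ Subgroup.zpowers v := by
      rw [← ha]; exact ⟨u, Subgroup.mem_zpowers u, rfl⟩
    obtain ⟨k, hk⟩ := h1
    refine ⟨k, ?_⟩
    have hk' : v ^ k = a u := hk
    show (QuotientGroup.mk' (pPrimeCore p G)) v ^ k = QuotientGroup.mk' (pPrimeCore p G) (a u)
    rw [← hk', map_zpow]
  · rw [Subgroup.card_map_of_injective (MulEquiv.injective _), hU, hV]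

end core2

/-- The Gaschütz–Yen Theorem: let G be a finite p-soluble group, p an odd prime dividing its order, such that the automorphism group of G permutes the subgroups of G of order p transitively. Then G has p-length at most 1. -/
theorem result {G : Type*} [Group G] [Finite G] {p : ℕ} [Fact p.Prime] (hp : p ≠ 2) (hdvd : p ∣ Nat.card G) (hG : Cfsg.IsPSolvable p G) (htrans : ∀ U V : Subgroup G, Nat.card U = p → Nat.card V = p → ∃ a : MulAut G, U.map a.toMonoidHom = V) : Cfsg.PLengthLE p 1 G := by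
  classical
  have hmem : ∀ (x : G) (a : ℕ), x ^ p ^ a = 1 → x ∈ (upperPSeries p G 2).1 := by
    intro x a hx
    rw [upper_two]
    have hG' : IsPSolvable p (G ⧸ pPrimeCore p G) :=
      isPSolvable_of_surjective (QuotientGroup.mk'_surjective _) hG
    refine core hp hG' (pPrimeCore_quotient p) (trans_quotient htrans) _ a ?_
    rw [← map_pow, hx, map_one]
  unfold PLengthLE
  apply top_le_iff.mp
  have h3 : (upperPSeries p G (2 * 1 + 1)).1 = stepAt p 2 (upperPSeries p G 2).1 := upper_succ p G 2
  rw [h3, stepAt, if_pos (by decide)]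
  apply le_stepQ_of_relIndex _ inferInstance
  rw [Subgroup.relIndex_top_right]
  obtain ⟨S⟩ : Nonempty (Sylow p G) := inferInstance
  have hS : (S : Subgroup G) ≤ (upperPSeries p G 2).1 := by
    intro x hx
    obtain ⟨k, hk⟩ := S.isPGroup' ⟨x, hx⟩
    refine hmem x k ?_
    have := congrArg (fun y : S => (y : G)) hk
    simpa using this
  have hd := Subgroup.index_dvd_of_le hS
  have hnd : ¬ p ∣ (S : Subgroup G).index := S.not_dvd_index
  refine ((Nat.Prime.coprime_iff_not_dvd (Fact.out : p.Prime)).mpr ?_).symm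
  exact fun h => hnd (h.trans hd)

end Cfsg.Agent.S3798
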