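import Cfsg.Statements.S3799
import Mathlib
import Cfsg.Agent.Lib.PGroup.Basic
-- import your own Cfsg.Agent.* helpers here

set_option autoImplicit false
open Cfsg

namespace Cfsg.Agent.S3799

open Matrix
open scoped commutatorElement

/-- The Heisenberg group on triples. -/
@[ext] structure Heis (n : ℕ) (F : Type*) where
  a : Fin n → F
  b : Fin n → F
  c : F

namespace Heis

variable {n : ℕ} {F : Type*} [Field F]

instance : Mul (Heis n F) := ⟨fun x y => ⟨x.a + y.a, x.b + y.b, x.c + y.c + x.a ⬝ᵥ y.b⟩⟩
instance : One (Heis n F) := ⟨⟨0, 0, 0⟩⟩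
instance : Inv (Heis n F) := ⟨fun x => ⟨-x.a, -x.b, -x.c + x.a ⬝ᵥ x.b⟩⟩

@[simp] lemma mul_a (x y : Heis n F) : (x * y).a = x.a + y.a := rfl
@[simp] lemma mul_b (x y : Heis n F) : (x * y).b = x.b + y.b := rfl
@[simp] lemma mul_c (x y : Heis n F) : (x * y).c = x.c + y.c + x.a ⬝ᵥ y.b := rfl
@[simp] lemma one_a : (1 : Heis n F).a = 0 := rfl
@[simp] lemma one_b : (1 : Heis n F).b = 0 := rfl
@[simp] lemma one_c : (1 : Heis n F).c = 0 := rfl
@[simp] lemma inv_a (x : Heis n F) : (x⁻¹).a = -x.a := rfl
@[simp] lemma inv_b (x : Heis n F) : (x⁻¹).b = -x.b := rfl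
@[simp] lemma inv_c (x : Heis n F) : (x⁻¹).c = -x.c + x.a ⬝ᵥ x.b := rfl

instance : Group (Heis n F) :=
  Group.ofLeftAxioms
    (fun x y z => by
      ext <;> simp [add_assoc, dotProduct_add, add_dotProduct]
      ring)
    (fun x => by
      ext <;> simp)
    (fun x => by
      ext <;> simp)

/-- The central elements. -/
def z (t : F) : Heis n F := ⟨0, 0, t⟩

lemma z_mul (t : F) (y : Heis n F) : z t * y = ⟨y.a, y.b, t + y.c⟩ := by
  ext <;> simp [z]

lemma mul_z (t : F) (y : Heis n F) : y * z t = ⟨y.a, y.b, t + y.c⟩ := by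
  ext <;> simp [z, add_comm]

lemma z_central (t : F) (y : Heis n F) : y * z t = z t * y := by
  rw [z_mul, mul_z]

lemma comm_eq (x y : Heis n F) : ⁅x, y⁆ = z (x.a ⬝ᵥ y.b - y.a ⬝ᵥ x.b) := by
  rw [commutatorElement_def, mul_inv_eq_iff_eq_mul, mul_inv_eq_iff_eq_mul, mul_assoc, z_mul]
  ext <;> simp [add_comm]
  ring

lemma z_eq_one {t : F} (h : (z t : Heis n F) = 1) : t = 0 := congrArg Heis.c h

lemma mem_center_iff (x : Heis n F) : x ∈ Subgroup.center (Heis n F) ↔ x = z x.c := by
  classical
  constructor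
  · intro hx
    have hc : ∀ y : Heis n F, ⁅x, y⁆ = 1 := fun y => by
      rw [commutatorElement_eq_one_iff_mul_comm]
      exact ((Subgroup.mem_center_iff.mp hx) y).symm
    have ha : x.a = 0 := by
      funext i
      have h := z_eq_one ((comm_eq x ⟨0, Pi.single i 1, 0⟩).symm.trans (hc _))
      simpa using h
    have hb : x.b = 0 := by
      funext i
      have h := z_eq_one ((comm_eq x ⟨Pi.single i 1, 0, 0⟩).symm.trans (hc _))
      simpa using h
    ext1
    · exact ha
    · exact hb
    · rfl
  · intro hx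
    rw [hx, Subgroup.mem_center_iff]
    intro y
    exact z_central _ y

lemma commutator_eq_center (hn : 1 ≤ n) :
    commutator (Heis n F) = Subgroup.center (Heis n F) := by
  classical
  apply le_antisymm
  · rw [commutator_def, Subgroup.commutator_le]
    rintro x - y -
    rw [comm_eq, mem_center_iff]
    rfl
  · intro x hx
    rw [mem_center_iff] at hx
    rw [hx]
    have h0 : (⟨0, by omega⟩ : Fin n) = ⟨0, by omega⟩ := rfl
    have h1 : (z x.c : Heis n F) =
        ⁅(⟨Pi.single ⟨0, by omega⟩ x.c, 0, 0⟩ : Heis n F), (⟨0, Pi.single ⟨0, by omega⟩ 1, 0⟩ : Heis n F)⁆ := by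
      rw [comm_eq]
      simp
    rw [h1, commutator_def]
    exact Subgroup.commutator_mem_commutator (Subgroup.mem_top _) (Subgroup.mem_top _)

lemma pow_eq (x : Heis n F) (k : ℕ) :
    x ^ k = ⟨(k : F) • x.a, (k : F) • x.b, (k : F) * x.c + (k.choose 2 : F) * (x.a ⬝ᵥ x.b)⟩ := by
  induction k with
  | zero => ext <;> simp
  | succ k ih =>
    rw [pow_succ, ih]
    ext <;> simp [add_smul, smul_dotProduct, Nat.choose_succ_succ', add_mul]
    ring

/-- Sum decomposition of the Heisenberg group as a type. -/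
def toProd : Heis n F ≃ (Fin n → F) × (Fin n → F) × F where
  toFun x := (x.a, x.b, x.c)
  invFun y := ⟨y.1, y.2.1, y.2.2⟩
  left_inv _ := rfl
  right_inv _ := rfl

/-- The linear action on `F × (Fin n → F) × F`. -/
def act (h : Heis n F) : Module.End F (F × (Fin n → F) × F) where
  toFun v := (v.1 + h.a ⬝ᵥ v.2.1 + h.c * v.2.2, v.2.1 + v.2.2 • h.b, v.2.2)
  map_add' v w := by
    ext <;> simp [dotProduct_add, add_smul] <;> ring
  map_smul' r v := by
    ext <;> simp [dotProduct_smul, mul_smul] <;> ring

@[simp] lemma act_apply (h : Heis n F) (v : F × (Fin n → F) × F) :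
    act h v = (v.1 + h.a ⬝ᵥ v.2.1 + h.c * v.2.2, v.2.1 + v.2.2 • h.b, v.2.2) := rfl

/-- The linear action as a monoid homomorphism. -/
def actHom : Heis n F →* Module.End F (F × (Fin n → F) × F) where
  toFun := act
  map_one' := by
    apply LinearMap.ext
    intro v
    simp
  map_mul' x y := by
    apply LinearMap.ext
    intro v
    ext
    · simp [dotProduct_add, add_dotProduct, dotProduct_smul, add_mul]
      ring
    · simp [add_comm, add_left_comm]
    · simp

lemma actHom_injective : Function.Injective (actHom : Heis n F →* _) := by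
  classical
  intro x y hxy
  have h0 : ∀ v, act x v = act y v := fun v => congrArg (fun f : Module.End F _ => f v) hxy
  have h1 := h0 (0, 0, 1)
  simp only [act_apply, Prod.mk.injEq] at h1
  ext i
  · have h2 := h0 (0, Pi.single i 1, 0)
    simp only [act_apply, Prod.mk.injEq] at h2
    simpa using h2.1
  · have := h1.2.1
    simpa using congrFun this i
  · simpa using h1.1

end Heis

lemma extraspecial_of_equiv {p : ℕ} [Fact p.Prime] {H E : Type*} [Group H] [Group E] [Finite E]
    (e : H ≃* E) (hP : IsPGroup p E) (hexp : ∀ x : H, x ^ p = 1)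
    (hcomm : commutator H = Subgroup.center H) (hcard : Nat.card (Subgroup.center H) = p) :
    Cfsg.IsExtraspecial p E := by
  have hcenter : Subgroup.center E = (Subgroup.center H).map e.toMonoidHom := by
    ext x
    simp only [Subgroup.mem_map]
    constructor
    · intro hx
      refine ⟨e.symm x, ?_, by simp⟩
      rw [Subgroup.mem_center_iff] at hx ⊢
      intro g
      apply e.injective
      simp only [map_mul, MulEquiv.apply_symm_apply]
      exact hx (e g)
    · rintro ⟨y, hy, rfl⟩
      rw [Subgroup.mem_center_iff] at hy ⊢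
      intro g
      obtain ⟨g', rfl⟩ := e.surjective g
      change e g' * e y = e y * e g'
      rw [← map_mul, ← map_mul, hy]
  have hcomm' : commutator E = Subgroup.center E := by
    rw [hcenter, ← hcomm, commutator_def, commutator_def]
    rw [Subgroup.map_commutator]
    have : (⊤ : Subgroup H).map e.toMonoidHom = ⊤ := by
      ext x
      simp only [Subgroup.mem_map, Subgroup.mem_top, true_and, iff_true]
      exact e.surjective x
    rw [this]
  have hexp' : ∀ x : E, x ^ p = 1 := fun x => by
    obtain ⟨y, rfl⟩ := e.surjective x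
    rw [← map_pow, hexp, map_one]
  refine ⟨⟨hP, ?_, hcomm'⟩, ?_⟩
  · apply le_antisymm
    · rw [Cfsg.Agent.Lib.PGroup.Basic.frattini_le_iff hP]
      refine ⟨fun x => by rw [hexp']; exact one_mem _, fun x y => ?_⟩
      rw [← hcomm', commutator_def]
      exact Subgroup.commutator_mem_commutator (Subgroup.mem_top _) (Subgroup.mem_top _)
    · rw [← hcomm']
      exact Cfsg.Agent.Lib.PGroup.Basic.commutator_le_frattini hP
  · rw [← hcard]
    exact (Nat.card_congr (Subgroup.centerCongr e).toEquiv).symm

/-- For every odd prime p and every n ≥ 1 there is an extraspecial p-group of order p^(1+2n) and exponent p; concretely, the general linear group of degree n + 2 over the field with p elements contains such a subgroup. -/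
theorem result (p : ℕ) [Fact p.Prime] (hp : p ≠ 2) (n : ℕ) (hn : 1 ≤ n) : ∃ E : Subgroup (Matrix.GeneralLinearGroup (Fin (n + 2)) (ZMod p)), Cfsg.IsExtraspecial p ↥E ∧ Nat.card E = p ^ (1 + 2 * n) ∧ ∀ x ∈ E, x ^ p = 1 := by
  classical
  have hfin : Module.finrank (ZMod p) (ZMod p × (Fin n → ZMod p) × ZMod p) = n + 2 := by
    simp
    omega
  let b := Module.finBasisOfFinrankEq (ZMod p) (ZMod p × (Fin n → ZMod p) × ZMod p) hfin
  let toM := LinearMap.toMatrixAlgEquiv b
  let φ₀ : Heis n (ZMod p) →* Matrix (Fin (n + 2)) (Fin (n + 2)) (ZMod p) :=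
    (toM : _ →* _).comp Heis.actHom
  let φ : Heis n (ZMod p) →* Matrix.GeneralLinearGroup (Fin (n + 2)) (ZMod p) := φ₀.toHomUnits
  have hφ : Function.Injective φ := by
    intro x y hxy
    have h1 : φ₀ x = φ₀ y := congrArg Units.val hxy
    exact Heis.actHom_injective (toM.injective h1)
  let e : Heis n (ZMod p) ≃* φ.range := MonoidHom.ofInjective hφ
  haveI : Finite (Heis n (ZMod p)) := Finite.of_equiv _ Heis.toProd.symm
  haveI : Finite φ.range := Finite.of_equiv _ e.toEquiv
  have hcardH : Nat.card (Heis n (ZMod p)) = p ^ (1 + 2 * n) := by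
    rw [Nat.card_congr Heis.toProd]
    simp [Nat.card_eq_fintype_card, Fintype.card_prod, ZMod.card, ← pow_add, ← pow_succ']
    ring
  have hcardE : Nat.card φ.range = p ^ (1 + 2 * n) := by
    rw [← Nat.card_congr e.toEquiv, hcardH]
  have hpow : ∀ x : Heis n (ZMod p), x ^ p = 1 := by
    intro x
    rw [Heis.pow_eq]
    have hdvd : (p.choose 2 : ZMod p) = 0 := by
      rw [ZMod.natCast_eq_zero_iff]
      apply Nat.Prime.dvd_choose_self (Fact.out) (by norm_num)
      have := (Fact.out : p.Prime).two_le
      omega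
    ext <;> simp [hdvd]
  refine ⟨φ.range, ?_, hcardE, ?_⟩
  · refine extraspecial_of_equiv e (IsPGroup.of_card hcardE) hpow (Heis.commutator_eq_center hn) ?_
    have : Nat.card (Subgroup.center (Heis n (ZMod p))) = Nat.card (ZMod p) := by
      symm
      apply Nat.card_congr
      refine ⟨fun t => ⟨Heis.z t, (Heis.mem_center_iff _).mpr rfl⟩, fun x => x.1.c, fun _ => rfl, ?_⟩
      rintro ⟨x, hx⟩
      apply Subtype.ext
      exact ((Heis.mem_center_iff _).mp hx).symm
    rw [this, Nat.card_eq_fintype_card, ZMod.card]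
  · rintro x ⟨y, rfl⟩
    rw [← map_pow, hpow, map_one]

end Cfsg.Agent.S3799
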