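import Cfsg.Statements.S3800
import Mathlib
import Cfsg.Agent.Lib.Perm.SylowIn

set_option autoImplicit false
open Cfsg

namespace Cfsg.Agent.S3800

open Subgroup
open Cfsg.Agent.Lib.Perm.SylowIn

/-- Let G be a finite group, N a normal subgroup of G whose order is prime to p, and P a p-subgroup of G. Then in G/N the normalizer of the image of P is the image of N_G(P), and the centralizer of the image of P is the image of C_G(P). -/
theorem result {G : Type*} [Group G] [Finite G] {p : ℕ} [Fact p.Prime] (N : Subgroup G) [N.Normal] (hN : (Nat.card N).Coprime p) (P : Subgroup G) (hP : IsPGroup p P) : Subgroup.normalizer ((P.map (QuotientGroup.mk' N)) : Set (G ⧸ N)) = (Subgroup.normalizer (P : Set G)).map (QuotientGroup.mk' N) ∧ Subgroup.centralizer ((P.map (QuotientGroup.mk' N)) : Set (G ⧸ N)) = (Subgroup.centralizer (P : Set G)).map (QuotientGroup.mk' N) := by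
  classical
  have hN' := hN
  have hPN : ∀ x, x ∈ P → x ∈ N → x = 1 := by
    intro x hxP hxN
    obtain ⟨k, hk⟩ := IsPGroup.iff_orderOf.mp hP ⟨x, hxP⟩
    rw [Subgroup.orderOf_mk] at hk
    have h1 : orderOf x ∣ Nat.card N := by
      rw [← Subgroup.orderOf_mk x hxN]
      exact orderOf_dvd_natCard _
    have h2 : Nat.Coprime (orderOf x) (p ^ k) :=
      Nat.Coprime.pow_right _ (Nat.Coprime.coprime_dvd_left h1 hN)
    rw [hk, Nat.coprime_self] at h2
    have h3 : orderOf x = 1 := by rw [hk, h2]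
    exact orderOf_eq_one_iff.mp h3
  have hSyl : IsSylowIn p P (P ⊔ N) := by
    refine ⟨le_sup_left, hP, ?_⟩
    have e1 := card_mul_relIndex (le_sup_left : P ≤ P ⊔ N)
    have e2 := card_mul_relIndex (le_sup_right : N ≤ P ⊔ N)
    rw [relIndex_sup_right] at e2
    have e3 : N.relIndex P = Nat.card P := by
      have hb : N.subgroupOf P = ⊥ := by
        rw [eq_bot_iff]
        rintro ⟨x, hx⟩ hxN
        rw [mem_bot]
        exact Subtype.ext (hPN x hx hxN)
      rw [relIndex, hb, index_bot]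
    rw [e3, ← e1, mul_comm] at e2
    have e4 : P.relIndex (P ⊔ N) = Nat.card N := (Nat.eq_of_mul_eq_mul_left Nat.card_pos e2).symm
    rw [e4]
    intro hd
    have := Nat.Coprime.coprime_dvd_left hd hN
    rw [Nat.coprime_self] at this
    exact (Fact.out : p.Prime).one_lt.ne' this
  have hnorm : normalizer ((P.map (QuotientGroup.mk' N)) : Set (G ⧸ N)) ≤
      (normalizer (P : Set G)).map (QuotientGroup.mk' N) := by
    intro q hq
    obtain ⟨g, rfl⟩ := QuotientGroup.mk_surjective q
    have h1 : ∀ u ∈ P, g * u * g⁻¹ ∈ P ⊔ N := by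
      intro u hu
      have h2 : (QuotientGroup.mk u : G ⧸ N) ∈ P.map (QuotientGroup.mk' N) := ⟨u, hu, rfl⟩
      have h3 := (mem_normalizer_iff.mp hq _).mp h2
      obtain ⟨x, hx, hxe⟩ := h3
      have h4 : x⁻¹ * (g * u * g⁻¹) ∈ N := by
        rw [← QuotientGroup.eq]
        exact hxe
      have h5 : g * u * g⁻¹ = x * (x⁻¹ * (g * u * g⁻¹)) := by group
      rw [h5]
      exact mul_mem (mem_sup_left hx) (mem_sup_right h4)
    obtain ⟨h, hh, hhg⟩ := hSyl.exists_mem_mul_mem_normalizer g h1
    rw [mem_sup_of_normal_right] at hh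
    obtain ⟨u, hu, n, hn, rfl⟩ := hh
    refine ⟨n * g, ?_, ?_⟩
    · have h2 : n * g = u⁻¹ * (u * n * g) := by group
      rw [h2]
      exact mul_mem (inv_mem (le_normalizer hu)) hhg
    · show (QuotientGroup.mk (n * g) : G ⧸ N) = QuotientGroup.mk g
      rw [QuotientGroup.mk_mul, (QuotientGroup.eq_one_iff n).mpr hn, one_mul]
  refine ⟨le_antisymm hnorm (le_normalizer_map _), ?_⟩
  apply le_antisymm
  · intro q hq
    obtain ⟨g, hg, rfl⟩ := hnorm (centralizer_le_normalizer _ hq)
    refine ⟨g, ?_, rfl⟩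
    show g ∈ centralizer (P : Set G)
    rw [mem_centralizer_iff]
    intro x hx
    have h1 : g * x * g⁻¹ * x⁻¹ ∈ P :=
      mul_mem ((mem_normalizer_iff.mp hg x).mp hx) (inv_mem hx)
    have h2 : g * x * g⁻¹ * x⁻¹ ∈ N := by
      rw [← QuotientGroup.eq_one_iff, QuotientGroup.mk_mul, QuotientGroup.mk_mul, QuotientGroup.mk_mul,
        QuotientGroup.mk_inv, QuotientGroup.mk_inv]
      have h3 := mem_centralizer_iff.mp hq (QuotientGroup.mk x) ⟨x, hx, rfl⟩
      have h4 : (QuotientGroup.mk' N) g = (QuotientGroup.mk g : G ⧸ N) := rfl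
      rw [h4] at h3
      rw [← h3]
      group
    have h3 := hPN _ h1 h2
    rw [mul_inv_eq_one, mul_inv_eq_iff_eq_mul] at h3
    exact h3.symm
  · rintro _ ⟨g, hg, rfl⟩
    rw [mem_centralizer_iff]
    rintro _ ⟨x, hx, rfl⟩
    rw [← map_mul, ← map_mul, mem_centralizer_iff.mp hg x hx]

end Cfsg.Agent.S3800
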