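import Cfsg.Statements.S3801
import Mathlib
import Cfsg.Agent.Lib.Gross.TwoLength
import Cfsg.Agent.Lib.Basic.SylowUtil
-- import your own Cfsg.Agent.* helpers here

set_option autoImplicit false
open Cfsg

namespace Cfsg.Agent.S3801

/-- Gross's bound on 2-length: if G is a finite solvable group whose Sylow 2-subgroups have exponent dividing 2^e with e ≥ 1, then G has 2-length at most 2e − 1. -/
theorem result {G : Type*} [Group G] [Finite G] (hG : Group.IsSolvable G) (e : ℕ) (he : 1 ≤ e) (hexp : ∀ (P : Sylow 2 G), ∀ x ∈ (P : Subgroup G), x ^ 2 ^ e = 1) : Cfsg.PLengthLE 2 (2 * e - 1) G := by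
  haveI : Fact (Nat.Prime 2) := ⟨Nat.prime_two⟩
  obtain ⟨f, rfl⟩ : ∃ f, e = f + 1 := ⟨e - 1, by omega⟩
  have e1 : 2 * (f + 1) - 1 = 2 * f + 1 := by omega
  rw [e1]
  refine Cfsg.Agent.Lib.Gross.TwoLength.two_length f G hG ?_
  rintro x ⟨k, hk⟩
  obtain ⟨t, -, ht⟩ := (Nat.dvd_prime_pow Nat.prime_two).1 (orderOf_dvd_of_pow_eq_one hk)
  obtain ⟨P, hP⟩ := Cfsg.Agent.Lib.Basic.SylowUtil.exists_sylow_of_orderOf (p := 2) ht
  exact hexp P x hP

end Cfsg.Agent.S3801
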