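import Cfsg.Statements.S3950
import Mathlib
import Cfsg.Agent.Lib.Schur.Basic

set_option autoImplicit false
open Cfsg

namespace Cfsg.Agent.S3950

open Cfsg.Agent.Lib.Schur.Basic

theorem prod_dvd_of_pairwise_coprime {ι : Type} [Fintype ι] (n : ι → ℕ)
    (hc : Pairwise (fun i j => Nat.Coprime (n i) (n j))) (N : ℕ) (h : ∀ i, n i ∣ N) :
    ∏ i, n i ∣ N := by
  classical
  have key : ∀ s : Finset ι, ∏ i ∈ s, n i ∣ N := by
    intro s
    induction s using Finset.induction_on with
    | empty => simp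
    | insert a s has ih =>
      rw [Finset.prod_insert has]
      apply Nat.Coprime.mul_dvd_of_dvd_of_dvd _ (h a) ih
      apply Nat.Coprime.prod_right
      intro i hi
      apply hc
      rintro rfl
      exact has hi
  exact key _

theorem isCyclic_pi_of_coprime {ι : Type} [Fintype ι] (n : ι → ℕ) (h1 : ∀ i, 1 < n i)
    (hc : Pairwise (fun i j => Nat.Coprime (n i) (n j))) :
    IsCyclic (∀ i, Multiplicative (ZMod (n i))) := by
  classical
  haveI : ∀ i, NeZero (n i) := fun i => ⟨by have := h1 i; omega⟩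
  set x : ∀ i, Multiplicative (ZMod (n i)) := fun i => Multiplicative.ofAdd 1 with hx
  have hcard : Nat.card (∀ i, Multiplicative (ZMod (n i))) = ∏ i, n i := by
    rw [Nat.card_pi]
    apply Finset.prod_congr rfl
    intro i _
    rw [Nat.card_congr (Multiplicative.toAdd), Nat.card_zmod]
  apply isCyclic_of_orderOf_eq_card x
  rw [hcard]
  apply Nat.dvd_antisymm
  · rw [← hcard]
    exact orderOf_dvd_natCard x
  · apply prod_dvd_of_pairwise_coprime n hc
    intro i
    have h2 : (x ^ orderOf x) i = 1 := by rw [pow_orderOf_eq_one]; rfl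
    have h3 : (x ^ orderOf x) i = Multiplicative.ofAdd ((orderOf x : ℕ) : ZMod (n i)) := by
      rw [Pi.pow_apply, hx, ← ofAdd_nsmul, nsmul_one]
    rw [h3] at h2
    have h4 : ((orderOf x : ℕ) : ZMod (n i)) = 0 := h2
    rwa [ZMod.natCast_eq_zero_iff] at h4

/-- A finite abelian group has trivial Schur multiplier if and only if it is cyclic. -/
theorem result {G : Type*} [CommGroup G] [Finite G] : Cfsg.HasCyclicSchurMultiplier G 1 ↔ IsCyclic G := by
  classical
  refine ⟨fun hS => ?_, fun _ => hasCyclicSchurMultiplier_one_of_isCyclic⟩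
  obtain ⟨ι, _, n, h1, ⟨φ⟩⟩ := CommGroup.equiv_prod_multiplicative_zmod_of_finite G
  by_cases hc : Pairwise (fun i j => Nat.Coprime (n i) (n j))
  · haveI := isCyclic_pi_of_coprime n h1 hc
    exact isCyclic_of_surjective φ.symm φ.symm.surjective
  · exfalso
    simp only [Pairwise, not_forall] at hc
    obtain ⟨i, j, hij, hcop⟩ := hc
    set d := Nat.gcd (n i) (n j) with hd
    have hd1 : 1 < d := by
      have hn0 : 0 < n i := by have := h1 i; omega
      have hpos : 0 < d := Nat.gcd_pos_of_pos_left _ hn0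
      have hne : d ≠ 1 := hcop
      omega
    haveI : Fact (1 < d) := ⟨hd1⟩
    haveI : NeZero d := ⟨by omega⟩
    let ci : Multiplicative (ZMod (n i)) →* Multiplicative (ZMod d) :=
      AddMonoidHom.toMultiplicative (ZMod.castHom (Nat.gcd_dvd_left _ _) (ZMod d)).toAddMonoidHom
    let cj : Multiplicative (ZMod (n j)) →* Multiplicative (ZMod d) :=
      AddMonoidHom.toMultiplicative (ZMod.castHom (Nat.gcd_dvd_right _ _) (ZMod d)).toAddMonoidHom
    let f₁ : G →* Multiplicative (ZMod d) := ci.comp ((Pi.evalMonoidHom _ i).comp φ.toMonoidHom)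
    let f₂ : G →* Multiplicative (ZMod d) := cj.comp ((Pi.evalMonoidHom _ j).comp φ.toMonoidHom)
    let g : G := φ.symm (Pi.mulSingle i (Multiplicative.ofAdd 1))
    let h : G := φ.symm (Pi.mulSingle j (Multiplicative.ofAdd 1))
    have h11 : Multiplicative.toAdd (f₁ g) = 1 := by
      show ZMod.castHom (Nat.gcd_dvd_left _ _) (ZMod d) (Multiplicative.toAdd ((φ (φ.symm (Pi.mulSingle i (Multiplicative.ofAdd 1)))) i)) = 1
      simp only [MulEquiv.apply_symm_apply, Pi.mulSingle_eq_same, toAdd_ofAdd, map_one]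
    have h22 : Multiplicative.toAdd (f₂ h) = 1 := by
      show ZMod.castHom (Nat.gcd_dvd_right _ _) (ZMod d) (Multiplicative.toAdd ((φ (φ.symm (Pi.mulSingle j (Multiplicative.ofAdd 1)))) j)) = 1
      simp only [MulEquiv.apply_symm_apply, Pi.mulSingle_eq_same, toAdd_ofAdd, map_one]
    have h12 : Multiplicative.toAdd (f₁ h) = 0 := by
      show ZMod.castHom (Nat.gcd_dvd_left _ _) (ZMod d) (Multiplicative.toAdd ((φ (φ.symm (Pi.mulSingle j (Multiplicative.ofAdd 1)))) i)) = 0
      simp [Pi.mulSingle_eq_of_ne hij]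
    have hω : Multiplicative.toAdd (f₁ g) * Multiplicative.toAdd (f₂ h)
        - Multiplicative.toAdd (f₁ h) * Multiplicative.toAdd (f₂ g) = 1 := by
      rw [h11, h22, h12]; ring
    have hst := Heis.isStemExtension f₁ f₂ g h hω
    have hbot := ker_eq_bot_of_hasCyclicSchurMultiplier_one hS _ _ hst
    have hmem : (⟨1, 1⟩ : Heis f₁ f₂) ∈ (Heis.proj f₁ f₂).ker := rfl
    rw [hbot, Subgroup.mem_bot] at hmem
    have h10 : (1 : ZMod d) = 0 := congrArg Heis.s hmem
    exact one_ne_zero h10

end Cfsg.Agent.S3950
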