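import Cfsg.Statements.S3951
import Mathlib
import Cfsg.Agent.Lib.Schur.Basic

set_option autoImplicit false
open Cfsg
open scoped commutatorElement

namespace Cfsg.Agent.S3951

open Cfsg.Agent.Lib.Schur.Basic

/-- Commutator subgroup contained in `N` if the commutators of a generating set are. -/
theorem commutator_le_of_closure {Γ : Type*} [Group Γ] (N : Subgroup Γ) [N.Normal] (T : Set Γ)
    (hT : Subgroup.closure T = ⊤) (h : ∀ u ∈ T, ∀ v ∈ T, ⁅u, v⁆ ∈ N) : commutator Γ ≤ N := by
  let q := QuotientGroup.mk' N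
  have hcomm : ∀ x ∈ q '' T, ∀ y ∈ q '' T, x * y = y * x := by
    rintro _ ⟨u, hu, rfl⟩ _ ⟨v, hv, rfl⟩
    have : q ⁅u, v⁆ = 1 := (QuotientGroup.eq_one_iff _).mpr (h u hu v hv)
    rw [map_commutatorElement, commutatorElement_eq_one_iff_mul_comm] at this
    exact this
  haveI hc := Subgroup.isMulCommutative_closure hcomm
  have htop : Subgroup.closure (q '' T) = ⊤ := by
    rw [← MonoidHom.map_closure, hT, ← MonoidHom.range_eq_map, MonoidHom.range_eq_top]
    exact QuotientGroup.mk'_surjective N
  rw [commutator_def, Subgroup.commutator_le]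
  intro u _ v _
  rw [← QuotientGroup.eq_one_iff]
  show q ⁅u, v⁆ = 1
  rw [map_commutatorElement, commutatorElement_eq_one_iff_mul_comm]
  have hu : q u ∈ Subgroup.closure (q '' T) := by rw [htop]; trivial
  have hv : q v ∈ Subgroup.closure (q '' T) := by rw [htop]; trivial
  have := hc.is_comm.comm ⟨q u, hu⟩ ⟨q v, hv⟩
  exact congrArg Subtype.val this

/-- For positive integers `m` and `n` with `n` dividing `m`, the Schur multiplier of the abelian group `ZMod m × ZMod n` (written multiplicatively) is cyclic of order `n`. In particular the elementary abelian group of order `p ^ 2` has multiplier of order `p`. -/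
theorem result (m n : ℕ) [NeZero m] [NeZero n] (hnm : n ∣ m) : Cfsg.HasCyclicSchurMultiplier (Multiplicative (ZMod m × ZMod n)) n := by
  classical
  refine ⟨?_, ?_⟩
  · -- existence
    let c : ZMod m →+* ZMod n := ZMod.castHom hnm (ZMod n)
    let f₁ : Multiplicative (ZMod m × ZMod n) →* Multiplicative (ZMod n) :=
      AddMonoidHom.toMultiplicative (c.toAddMonoidHom.comp (AddMonoidHom.fst _ _))
    let f₂ : Multiplicative (ZMod m × ZMod n) →* Multiplicative (ZMod n) :=
      AddMonoidHom.toMultiplicative (AddMonoidHom.snd _ _)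
    have hω : Multiplicative.toAdd (f₁ (Multiplicative.ofAdd (1, 0)))
          * Multiplicative.toAdd (f₂ (Multiplicative.ofAdd (0, 1)))
        - Multiplicative.toAdd (f₁ (Multiplicative.ofAdd (0, 1)))
          * Multiplicative.toAdd (f₂ (Multiplicative.ofAdd (1, 0))) = 1 := by
      show c 1 * 1 - c 0 * 0 = 1
      simp
    exact ⟨Heis f₁ f₂, inferInstance, inferInstance, Heis.proj f₁ f₂,
      Heis.isStemExtension f₁ f₂ _ _ hω, ⟨Heis.kerEquiv f₁ f₂⟩⟩
  · intro Γ _ _ σ hσ
    obtain ⟨hs, hZ, hZ'⟩ := hσ
    obtain ⟨x, hx⟩ := hs (Multiplicative.ofAdd (1, 0))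
    obtain ⟨y, hy⟩ := hs (Multiplicative.ofAdd (0, 1))
    set z := ⁅x, y⁆ with hz
    have hzk : z ∈ σ.ker := by
      rw [MonoidHom.mem_ker, hz, map_commutatorElement, commutatorElement_eq_one_iff_mul_comm]
      exact mul_comm _ _
    have hcen : ∀ t ∈ σ.ker, ∀ g : Γ, g * t = t * g := fun t ht g =>
      (Subgroup.mem_center_iff.mp (hZ ht)) g
    -- generation
    have hσpow : ∀ A B : ℕ, σ (x ^ A * y ^ B) = Multiplicative.ofAdd ((A : ZMod m), (B : ZMod n)) := by
      intro A B
      rw [map_mul, map_pow, map_pow, hx, hy, ← ofAdd_nsmul, ← ofAdd_nsmul, ← ofAdd_add]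
      congr 1
      ext <;> simp
    have hgen : Subgroup.closure (({x, y} : Set Γ) ∪ σ.ker) = ⊤ := by
      rw [eq_top_iff]
      intro g _
      have hxm : x ∈ Subgroup.closure (({x, y} : Set Γ) ∪ σ.ker) :=
        Subgroup.subset_closure (by simp)
      have hym : y ∈ Subgroup.closure (({x, y} : Set Γ) ∪ σ.ker) :=
        Subgroup.subset_closure (by simp)
      set A := (Multiplicative.toAdd (σ g)).1.val with hA
      set B := (Multiplicative.toAdd (σ g)).2.val with hB
      have hkg : (x ^ A * y ^ B)⁻¹ * g ∈ σ.ker := by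
        rw [MonoidHom.mem_ker, map_mul, map_inv, hσpow, inv_mul_eq_one]
        apply Multiplicative.toAdd.injective
        ext
        · simp [hA]
        · simp [hB]
      have hkm : (x ^ A * y ^ B)⁻¹ * g ∈ Subgroup.closure (({x, y} : Set Γ) ∪ σ.ker) :=
        Subgroup.subset_closure (Or.inr hkg)
      have := Subgroup.mul_mem _ (Subgroup.mul_mem _ (Subgroup.pow_mem _ hxm A) (Subgroup.pow_mem _ hym B)) hkm
      have e : x ^ A * y ^ B * ((x ^ A * y ^ B)⁻¹ * g) = g := by group
      rwa [e] at this
    have hzcen : z ∈ Subgroup.center Γ := hZ hzk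
    haveI hNn : (Subgroup.zpowers z).Normal := by
      constructor
      intro t ht g
      have hc : t ∈ Subgroup.center Γ := (Subgroup.zpowers_le.mpr hzcen) ht
      rw [(Subgroup.mem_center_iff.mp hc) g]
      simpa using ht
    have hcomm : commutator Γ ≤ Subgroup.zpowers z := by
      apply commutator_le_of_closure _ _ hgen
      have hone : (1 : Γ) ∈ Subgroup.zpowers z := one_mem _
      have hkl : ∀ t ∈ σ.ker, ∀ g : Γ, ⁅t, g⁆ = 1 := by
        intro t ht g
        rw [commutatorElement_eq_one_iff_mul_comm]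
        exact (hcen t ht g).symm
      have hkr : ∀ t ∈ σ.ker, ∀ g : Γ, ⁅g, t⁆ = 1 := by
        intro t ht g
        rw [commutatorElement_eq_one_iff_mul_comm]
        exact (hcen t ht g)
      rintro u (hu | hu) v (hv | hv)
      · simp only [Set.mem_insert_iff, Set.mem_singleton_iff] at hu hv
        rcases hu with rfl | rfl <;> rcases hv with rfl | rfl
        · simp
        · exact Subgroup.mem_zpowers _
        · rw [← commutatorElement_inv]
          exact Subgroup.inv_mem _ (Subgroup.mem_zpowers _)
        · simp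
      · rw [hkr v hv]; exact hone
      · rw [hkl u hu]; exact hone
      · rw [hkl u hu]; exact hone
    -- the order of `z`
    have hyn : y ^ n ∈ σ.ker := by
      rw [MonoidHom.mem_ker, map_pow, hy, ← ofAdd_nsmul]
      apply Multiplicative.toAdd.injective
      ext <;> simp
    have hzn : z ^ n = 1 := by
      have h1 : x * y * x⁻¹ = z * y := by
        rw [hz, commutatorElement_def]; group
      have h2 : x * y ^ n * x⁻¹ = (z * y) ^ n := by rw [← h1, conj_pow]
      have h3 : Commute z y := (hcen z hzk y).symm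
      rw [h3.mul_pow, hcen _ hyn x] at h2
      simpa using h2
    refine exists_zmodHom_surjective_of_le_zpowers z hzk hzn ?_
    intro t ht
    have := hcomm (hZ' ht)
    rw [← mem_powers_iff_mem_zpowers] at this
    obtain ⟨k, hk⟩ := this
    exact ⟨k, hk.symm⟩

end Cfsg.Agent.S3951
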