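import Cfsg.Statements.S3952
import Mathlib
import Cfsg.Agent.Lib.Schur.Hopf
import Cfsg.Agent.Lib.Char.CompleteCor
import Cfsg.Agent.Lib.Char.Integrality
-- import your own Cfsg.Agent.* helpers here

set_option autoImplicit false
open Cfsg

namespace Cfsg.Agent.S3952

open Cfsg in
/-- Central data of an irreducible character. -/
theorem irr_central_data {Γ : Type*} [Group Γ] [Finite Γ] (K : Subgroup Γ)
    (hKc : K ≤ Subgroup.center Γ) (hKd : K ≤ commutator Γ) {χ : Γ → ℂ}
    (hχ : IsIrrCharacter Γ χ) :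
    ∃ (n : ℕ) (c : K →* ℂˣ), χ 1 = n ∧ (∀ k : K, χ k = n * (c k : ℂ)) ∧ ∀ k : K, (c k) ^ n = 1 := by
  classical
  obtain ⟨n, ρ, hρ, rfl⟩ := hχ
  have hnt : Nontrivial (Fin n → ℂ) :=
    Cfsg.Agent.Lib.Char.Integrality.nontrivial_of_isIrreducible ρ
  obtain ⟨v, hv⟩ := exists_ne (0 : Fin n → ℂ)
  have hsc : ∀ k : K, ∃ a : ℂ, ρ k = a • (LinearMap.id : (Fin n → ℂ) →ₗ[ℂ] (Fin n → ℂ)) := by
    intro k
    refine Cfsg.Agent.Lib.Char.Integrality.exists_smul_id_of_commute ρ (ρ k) (fun g => ?_)
    show ρ k * ρ g = ρ g * ρ k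
    rw [← map_mul, ← map_mul, (Subgroup.mem_center_iff.mp (hKc k.2) g)]
  choose a ha using hsc
  have hinj : ∀ b b' : ℂ, b • v = b' • v → b = b' := by
    intro b b' h
    have : (b - b') • v = 0 := by rw [sub_smul, h, sub_self]
    rcases smul_eq_zero.1 this with h5 | h5
    · exact sub_eq_zero.1 h5
    · exact absurd h5 hv
  have hrhov : ∀ k : K, ρ k v = a k • v := fun k => by
    rw [ha]; simp
  let c₀ : K →* ℂ :=
    { toFun := a
      map_one' := by
        apply hinj
        rw [← hrhov]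
        simp
      map_mul' := fun x y => by
        apply hinj
        rw [← hrhov, Subgroup.coe_mul, map_mul, Module.End.mul_apply, hrhov, map_smul, hrhov, smul_smul,
          mul_comm] }
  have hfr : Module.finrank ℂ (Fin n → ℂ) = n := by simp
  refine ⟨n, c₀.toHomUnits, ?_, ?_, ?_⟩
  · unfold Representation.character
    rw [map_one]
    show LinearMap.trace ℂ _ LinearMap.id = _
    rw [LinearMap.trace_id, hfr]
  · intro k
    unfold Representation.character
    rw [ha, map_smul, LinearMap.trace_id, hfr, smul_eq_mul, mul_comm]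
    rfl
  · intro k
    let d : Γ →* ℂˣ := ((LinearMap.det : ((Fin n → ℂ) →ₗ[ℂ] (Fin n → ℂ)) →* ℂ).comp ρ).toHomUnits
    have hker : commutator Γ ≤ d.ker := by
      rw [commutator_def, Subgroup.commutator_le]
      intro g _ h _
      rw [MonoidHom.mem_ker, map_commutatorElement, commutatorElement_eq_one_iff_mul_comm, mul_comm]
    have hd : d k = 1 := hker (hKd k.2)
    apply Units.ext
    have h2 := congrArg Units.val hd
    have h3 : ((d k : ℂˣ) : ℂ) = a k ^ n := by
      show LinearMap.det (ρ k) = _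
      rw [ha, LinearMap.det_smul, LinearMap.det_id, hfr, mul_one]
    rw [h3] at h2
    rw [Units.val_pow_eq_pow_val]
    exact h2

open Cfsg Cfsg.Agent.Lib.Char.CompleteCor in
open scoped ComplexConjugate in
theorem exponent_sq_dvd {Q : Type*} [Group Q] [Finite Q] {A : Type*} [CommGroup A]
    (hA : Cfsg.HasSchurMultiplier Q A) : Monoid.exponent A ^ 2 ∣ Nat.card Q := by
  classical
  have hAf := Cfsg.Agent.Lib.Schur.Hopf.finite_of_hasSchurMultiplier hA
  obtain ⟨⟨Γ, _, _, σ, hσ, ⟨e₀⟩⟩, -⟩ := hA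
  haveI := Fintype.ofFinite Γ
  haveI := Fintype.ofFinite σ.ker
  haveI := Fintype.ofFinite A
  haveI := Fintype.ofFinite (IrrCharacter Γ)
  have hexp : NeZero (Monoid.exponent A) := ⟨Monoid.exponent_ne_zero_of_finite⟩
  -- a character of order the exponent
  obtain ⟨eA⟩ := CommGroup.monoidHom_mulEquiv_of_hasEnoughRootsOfUnity A ℂ
  have hexp2 : Monoid.exponent (A →* ℂˣ) = Monoid.exponent A := Monoid.exponent_eq_of_mulEquiv eA
  have hfin2 : Finite (A →* ℂˣ) := Finite.of_equiv _ eA.symm.toEquiv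
  obtain ⟨l₀, hl₀⟩ := Monoid.exists_orderOf_eq_exponent
    (Monoid.exponent_ne_zero.mp (by rw [hexp2]; exact hexp.out))
  rw [hexp2] at hl₀
  let l₁ : σ.ker →* ℂˣ := l₀.comp e₀.toMonoidHom
  have hdata : ∀ χ : IrrCharacter Γ, ∃ (n : ℕ) (c : σ.ker →* ℂˣ),
      (χ : Γ → ℂ) 1 = n ∧ (∀ k : σ.ker, (χ : Γ → ℂ) k = n * (c k : ℂ)) ∧ ∀ k : σ.ker, (c k) ^ n = 1 :=
    fun χ => irr_central_data σ.ker hσ.2.1 hσ.2.2 χ.2
  choose n c h1 h2 h3 using hdata
  -- the sum
  let S : ℕ := ∑ χ : IrrCharacter Γ, if c χ = l₁ then n χ ^ 2 else 0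
  have hsum : ((Nat.card Γ : ℕ) : ℂ) = (S : ℂ) * (Nat.card σ.ker : ℕ) := by
    have key : ∀ k : σ.ker, ∑ χ : IrrCharacter Γ, (χ : Γ → ℂ) k * conj ((χ : Γ → ℂ) 1)
        = if k = 1 then (Nat.card Γ : ℂ) else 0 := by
      intro k
      split_ifs with hk
      · subst hk
        have := column_orth_conj (G := Γ) (IsConj.refl (1 : Γ))
        have hc : Nat.card (Subgroup.centralizer ({1} : Set Γ)) = Nat.card Γ := by
          have : Subgroup.centralizer ({1} : Set Γ) = ⊤ := by
            ext x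
            simp [Subgroup.mem_centralizer_singleton_iff]
          rw [this]
          exact Nat.card_congr Subgroup.topEquiv.toEquiv
        rw [hc] at this
        exact this
      · apply column_orth_not_conj
        intro hc
        exact hk (Subtype.ext (isConj_one_right.mp hc.symm))
    have h4 : ∑ k : σ.ker, (∑ χ : IrrCharacter Γ, (χ : Γ → ℂ) k * conj ((χ : Γ → ℂ) 1)) * ((l₁ k)⁻¹ : ℂˣ)
        = (Nat.card Γ : ℂ) := by
      simp only [key]
      rw [Finset.sum_eq_single 1]
      · simp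
      · intro k _ hk
        simp [hk]
      · intro h
        exact absurd (Finset.mem_univ _) h
    rw [← h4]
    simp only [Finset.sum_mul]
    rw [Finset.sum_comm]
    have h5 : ∀ χ : IrrCharacter Γ,
        ∑ k : σ.ker, (χ : Γ → ℂ) k * conj ((χ : Γ → ℂ) 1) * ((l₁ k)⁻¹ : ℂˣ)
          = ((if c χ = l₁ then n χ ^ 2 else 0 : ℕ) : ℂ) * (Nat.card σ.ker : ℕ) := by
      intro χ
      have h6 : ∀ k : σ.ker, (χ : Γ → ℂ) k * conj ((χ : Γ → ℂ) 1) * ((l₁ k)⁻¹ : ℂˣ)
          = (n χ : ℂ) ^ 2 * (((c χ * l₁⁻¹) k : ℂˣ) : ℂ) := by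
        intro k
        rw [h2, h1, map_natCast, MonoidHom.mul_apply, MonoidHom.inv_apply, Units.val_mul]
        ring
      simp only [h6]
      rw [← Finset.mul_sum]
      by_cases hc : c χ = l₁
      · rw [if_pos hc, hc]
        have hone : ∀ i, (l₁ * l₁⁻¹) i = 1 := fun i => by simp
        simp only [hone]
        simp [Nat.card_eq_fintype_card]
      · rw [if_neg hc]
        have hne : (Units.coeHom ℂ).comp (c χ * l₁⁻¹) ≠ 1 := by
          intro h
          apply hc
          have : c χ * l₁⁻¹ = 1 := by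
            ext k
            have := congrArg (fun f => f k) h
            simpa using this
          exact mul_inv_eq_one.mp this
        have h7 := sum_hom_units_eq_zero ((Units.coeHom ℂ).comp (c χ * l₁⁻¹)) hne
        simp only [MonoidHom.comp_apply, Units.coeHom_apply] at h7
        rw [h7]
        simp
    simp only [h5]
    rw [← Finset.sum_mul]
    simp only [S]
    push_cast
    rfl
  have hcardQ : Nat.card Q * Nat.card σ.ker = Nat.card Γ := by
    have h6 := Subgroup.card_eq_card_quotient_mul_card_subgroup σ.ker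
    rw [h6, Nat.card_congr (QuotientGroup.quotientKerEquivOfSurjective σ hσ.1).toEquiv]
  have hS : S = Nat.card Q := by
    have h6 : Nat.card Γ = S * Nat.card σ.ker := by exact_mod_cast hsum
    have hpos : 0 < Nat.card σ.ker := Nat.card_pos
    rw [← hcardQ] at h6
    exact (Nat.eq_of_mul_eq_mul_right hpos h6).symm
  rw [← hS]
  apply Finset.dvd_sum
  intro χ _
  split_ifs with hc
  · apply pow_dvd_pow_of_dvd
    rw [← hl₀]
    apply orderOf_dvd_of_pow_eq_one
    ext a
    have h8 := h3 χ (e₀.symm a)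
    rw [hc] at h8
    have h9 : (l₀ ^ n χ) a = 1 := by
      rw [MonoidHom.pow_apply]
      have : l₁ (e₀.symm a) = l₀ a := by
        simp [l₁]
      rw [← this, h8]
    rw [h9]
    rfl
  · exact dvd_zero _


/-- If `A` is the Schur multiplier of the finite group `Q`, then the square of the exponent of `A` divides the order of `Q`. -/
theorem result {Q : Type*} [Group Q] [Finite Q] {A : Type*} [CommGroup A] (hA : Cfsg.HasSchurMultiplier Q A) : Monoid.exponent A ^ 2 ∣ Nat.card Q := by
  exact exponent_sq_dvd hA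


end Cfsg.Agent.S3952
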