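import Cfsg.Statements.S3953
import Mathlib
import Cfsg.Agent.Lib.Schur.Corestriction
import Cfsg.Agent.Lib.Schur.Hopf
-- import your own Cfsg.Agent.* helpers here

set_option autoImplicit false
open Cfsg

namespace Cfsg.Agent.S3953


/-- Let `P` be a Sylow `p`-subgroup of the finite group `G`, let `A` be the Schur multiplier of `G` and `B` that of `P`. Then the `p`-primary component of `A` is isomorphic to a direct factor of `B`: there are subgroups `C` and `D` of `B` meeting trivially and generating `B`, with `C` isomorphic to the `p`-primary component of `A`. -/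
theorem result {G : Type*} [Group G] [Finite G] (p : ℕ) [Fact p.Prime] (P : Sylow p G) {A B : Type*} [CommGroup A] [CommGroup B] (hA : Cfsg.HasSchurMultiplier G A) (hB : Cfsg.HasSchurMultiplier P B) : ∃ C D : Subgroup B, C ⊓ D = ⊥ ∧ C ⊔ D = ⊤ ∧ Nonempty (CommGroup.primaryComponent A p ≃* C) := by
  have hAf := Cfsg.Agent.Lib.Schur.Hopf.finite_of_hasSchurMultiplier hA
  obtain ⟨tr, cor, h⟩ := Cfsg.Agent.Lib.Schur.Corestriction.exists_tr_cor (P : Subgroup G) hA hB
  exact Cfsg.Agent.Lib.Schur.Corestriction.exists_direct_factor p tr cor _ P.not_dvd_index h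


end Cfsg.Agent.S3953
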