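import Cfsg.Statements.S3957
import Mathlib
import Cfsg.Agent.Lib.Schur.Hopf
-- import your own Cfsg.Agent.* helpers here

set_option autoImplicit false
universe u v
open Cfsg

namespace Cfsg.Agent.S3957


/-- Let `Q` be a finite group with Schur multiplier `A` and let `τ : Δ →* Q` be a finite stem extension, `Δ` in the universe of `Q`. Then there is a finite stem extension `σ : Γ →* Q` with kernel isomorphic to `A` (a Schur covering group) and a surjective homomorphism `β : Γ →* Δ` with `τ ∘ β = σ`. -/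
theorem result {Q : Type u} [Group Q] [Finite Q] {A : Type v} [CommGroup A] (hA : Cfsg.HasSchurMultiplier Q A) {Δ : Type u} [Group Δ] [Finite Δ] (τ : Δ →* Q) (hτ : Cfsg.IsStemExtension τ) : ∃ (Γ : Type u) (_ : Group Γ) (_ : Finite Γ) (σ : Γ →* Q), Cfsg.IsStemExtension σ ∧ Nonempty (σ.ker ≃* A) ∧ ∃ β : Γ →* Δ, Function.Surjective β ∧ τ.comp β = σ := by
  classical

  let α := Cfsg.Agent.Lib.Schur.Hopf.alphaCan Q
  have hα := Cfsg.Agent.Lib.Schur.Hopf.alphaCan_surjective Q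
  obtain ⟨b, hb⟩ := Cfsg.Agent.Lib.Schur.Hopf.exists_lift α hτ.1
  have hbs : Function.Surjective b := Cfsg.Agent.Lib.Schur.Hopf.lift_surjective_of_stem hα hτ hb
  have hCU : Cfsg.Agent.Lib.Schur.Hopf.cc α ≤ b.ker := Cfsg.Agent.Lib.Schur.Hopf.cc_le_ker_of_lift hτ.2.1 hb
  have hUS : b.ker ≤ α.ker := by
    intro x hx
    rw [MonoidHom.mem_ker] at hx ⊢
    have := congrArg (fun φ : FreeGroup Q →* Q => φ x) hb
    simp only [MonoidHom.comp_apply] at this
    rw [← this, hx, map_one]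
  have hU : ∀ s ∈ α.ker, ∃ u ∈ b.ker, ∃ m ∈ commutator (FreeGroup Q), s = u * m := by
    intro s hs
    have h1 : b s ∈ τ.ker := by
      rw [MonoidHom.mem_ker]
      have := congrArg (fun φ : FreeGroup Q →* Q => φ s) hb
      simp only [MonoidHom.comp_apply] at this
      rw [this]
      exact hs
    obtain ⟨m, hm, hmb⟩ := Cfsg.Agent.Lib.Schur.Hopf.exists_mem_inf_of_mem hα hτ.2.1 hb (hτ.2.2 h1) h1
    refine ⟨s * m⁻¹, ?_, m, hm.2, by group⟩
    rw [MonoidHom.mem_ker, map_mul, map_inv, hmb]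
    group
  obtain ⟨T, hCT, hTU, hTF, hsupp⟩ := Cfsg.Agent.Lib.Schur.Hopf.exists_complement α b.ker hCU hUS hU
  have hTS := hTU.trans hUS
  have hN : T.Normal := Cfsg.Agent.Lib.Schur.Hopf.normal_of_between hCT hTS
  have hF := Cfsg.Agent.Lib.Schur.Hopf.finite_quot hα hCT hTS hsupp
  have hst := Cfsg.Agent.Lib.Schur.Hopf.isStem_sigmaT hα hCT hTS hsupp
  obtain ⟨e⟩ := Cfsg.Agent.Lib.Schur.Hopf.nonempty_mulEquiv_MM hA hα
  let e₁ := MulEquiv.ofBijective _ (Cfsg.Agent.Lib.Schur.Hopf.mmToKer_bijective hCT hTS hTF hsupp)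
  refine ⟨FreeGroup Q ⧸ T, inferInstance, hF, Cfsg.Agent.Lib.Schur.Hopf.sigmaT hTS, hst, ⟨e₁.symm.trans e⟩, ?_⟩
  refine ⟨QuotientGroup.lift T b (fun x hx => hTU hx), ?_, ?_⟩
  · intro y
    obtain ⟨x, rfl⟩ := hbs y
    exact ⟨QuotientGroup.mk x, rfl⟩
  · refine MonoidHom.ext fun x => ?_
    obtain ⟨f, rfl⟩ := QuotientGroup.mk_surjective x
    have := congrArg (fun φ : FreeGroup Q →* Q => φ f) hb
    simp only [MonoidHom.comp_apply] at this
    exact this


end Cfsg.Agent.S3957
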