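import Cfsg.Statements.S3958
import Mathlib
import Cfsg.Agent.Lib.Schur.Hopf
-- import your own Cfsg.Agent.* helpers here

set_option autoImplicit false
universe u v
open Cfsg

namespace Cfsg.Agent.S3958


/-- Let `σ : Γ →* Q` be a finite stem extension of the finite group `Q` with `Γ` of trivial Schur multiplier. Then `σ` is a Schur covering group of `Q`: for every finite stem extension `τ : Δ →* Q` with `Δ` in the same universe as `Q`, the kernel of `τ` is a homomorphic image of the kernel of `σ`. -/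
theorem result {Q : Type u} [Group Q] [Finite Q] {Γ : Type v} [Group Γ] [Finite Γ] (σ : Γ →* Q) (hσ : Cfsg.IsStemExtension σ) (hΓ : Cfsg.HasCyclicSchurMultiplier Γ 1) (Δ : Type u) [Group Δ] [Finite Δ] (τ : Δ →* Q) (hτ : Cfsg.IsStemExtension τ) : ∃ π : σ.ker →* τ.ker, Function.Surjective π := by
  classical
  let α := Cfsg.Agent.Lib.Schur.Hopf.alphaCan Γ
  have hα := Cfsg.Agent.Lib.Schur.Hopf.alphaCan_surjective Γ
  -- presentation of `Q` through `Γ`
  have hq : Function.Surjective (σ.comp α) := hσ.1.comp hα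
  obtain ⟨b, hb⟩ := Cfsg.Agent.Lib.Schur.Hopf.exists_lift (σ.comp α) hτ.1
  have hle : α.ker ⊓ commutator (FreeGroup Γ) ≤ b.ker := by
    refine (Cfsg.Agent.Lib.Schur.Hopf.inf_commutator_le_cc hΓ hα).trans ?_
    have h1 : Cfsg.Agent.Lib.Schur.Hopf.cc α ≤ Cfsg.Agent.Lib.Schur.Hopf.cc (σ.comp α) := by
      unfold Cfsg.Agent.Lib.Schur.Hopf.cc
      refine Subgroup.commutator_mono ?_ le_rfl
      intro x hx
      rw [MonoidHom.mem_ker] at hx ⊢
      simp [hx]
    exact h1.trans (Cfsg.Agent.Lib.Schur.Hopf.cc_le_ker_of_lift hτ.2.1 hb)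
  exact Cfsg.Agent.Lib.Schur.Hopf.exists_ker_surj hσ hτ hq rfl hb hle


end Cfsg.Agent.S3958
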