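import Cfsg.Statements.S3960
import Mathlib
import Cfsg.Agent.Lib.Schur.Hopf
-- import your own Cfsg.Agent.* helpers here

set_option autoImplicit false
universe u
open Cfsg

namespace Cfsg.Agent.S3960

open scoped commutatorElement

theorem comm_mul_central' {P : Type*} [Group P] {a b k l : P} (hk : k ∈ Subgroup.center P)
    (hl : l ∈ Subgroup.center P) : ⁅a * k, b * l⁆ = ⁅a, b⁆ := by
  have hkc := Subgroup.mem_center_iff.mp hk
  have hlc := Subgroup.mem_center_iff.mp hl
  have e1c := Subgroup.mem_center_iff.mp (inv_mem hk)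
  simp only [commutatorElement_def, mul_inv_rev]
  calc a * k * (b * l) * (k⁻¹ * a⁻¹) * (l⁻¹ * b⁻¹)
      = a * (k * b) * l * (k⁻¹ * a⁻¹) * (l⁻¹ * b⁻¹) := by group
    _ = a * (b * k) * l * (k⁻¹ * a⁻¹) * (l⁻¹ * b⁻¹) := by rw [hkc b]
    _ = a * b * (k * (l * k⁻¹)) * a⁻¹ * (l⁻¹ * b⁻¹) := by group
    _ = a * b * (k * (k⁻¹ * l)) * a⁻¹ * (l⁻¹ * b⁻¹) := by rw [e1c l]
    _ = a * b * l * a⁻¹ * (l⁻¹ * b⁻¹) := by group
    _ = a * b * a⁻¹ * (l * (l⁻¹ * b⁻¹)) := by
        rw [mul_assoc (a * b) l, ← hlc a⁻¹]; group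
    _ = a * b * a⁻¹ * b⁻¹ := by group


/-- A finite perfect group `Q` has a universal central extension: a finite perfect group `G` in the universe of `Q` and a surjective homomorphism `π : G →* Q` with central kernel such that for every group `X` in that universe and every surjective homomorphism `ξ : X →* Q` with central kernel there is exactly one homomorphism `η : G →* X` with `ξ ∘ η = π`. -/
theorem result {Q : Type u} [Group Q] [Finite Q] (hQ : Group.IsPerfect Q) : ∃ (G : Type u) (_ : Group G) (_ : Finite G) (π : G →* Q), Group.IsPerfect G ∧ Function.Surjective π ∧ π.ker ≤ Subgroup.center G ∧ ∀ (X : Type u) [Group X] (ξ : X →* Q), Function.Surjective ξ → ξ.ker ≤ Subgroup.center X → ∃! η : G →* X, ξ.comp η = π := by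
  classical
  let α := Cfsg.Agent.Lib.Schur.Hopf.alphaCan Q
  have hα := Cfsg.Agent.Lib.Schur.Hopf.alphaCan_surjective Q
  let E := Cfsg.Agent.Lib.Schur.Hopf.EE α
  let p : E →* Q := QuotientGroup.lift (Cfsg.Agent.Lib.Schur.Hopf.cc α) α
    (fun x hx => Cfsg.Agent.Lib.Schur.Hopf.cc_le_ker α hx)
  have hps : Function.Surjective p := by
    intro q
    obtain ⟨x, rfl⟩ := hα q
    exact ⟨QuotientGroup.mk x, rfl⟩
  have hpk : p.ker ≤ Subgroup.center E := by
    intro z hz
    obtain ⟨s, rfl⟩ := QuotientGroup.mk_surjective z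
    exact Cfsg.Agent.Lib.Schur.Hopf.mk_mem_center α hz
  let D : Subgroup E := commutator E
  have hDfin : Finite D := Cfsg.Agent.Lib.Schur.Hopf.finite_commutator_EE hα
  let π : D →* Q := p.comp D.subtype
  have hmap : D.map p = ⊤ := by
    show (commutator E).map p = ⊤
    rw [commutator_def, Subgroup.map_commutator, Subgroup.map_top_of_surjective _ hps]
    exact hQ.commutator_eq_top
  have hπs : Function.Surjective π := by
    intro g
    have : g ∈ D.map p := by rw [hmap]; trivial
    obtain ⟨d, hd, rfl⟩ := this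
    exact ⟨⟨d, hd⟩, rfl⟩
  have hπk : π.ker ≤ Subgroup.center D := by
    rintro ⟨d, hd⟩ hk
    rw [Subgroup.mem_center_iff]
    rintro ⟨d', hd'⟩
    apply Subtype.ext
    exact Subgroup.mem_center_iff.mp (hpk hk) d'
  have hDperf : commutator D = ⊤ := by
    have hcover : ∀ e : E, ∃ d : D, ∃ k ∈ p.ker, e = d * k := by
      intro e
      obtain ⟨d, hd⟩ := hπs (p e)
      refine ⟨d, (d : E)⁻¹ * e, ?_, by group⟩
      rw [MonoidHom.mem_ker, map_mul, map_inv]
      have : p (d : E) = p e := hd
      rw [this]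
      group
    have : (commutator D).map D.subtype = D := by
      apply le_antisymm
      · exact Subgroup.map_subtype_le _
      · show commutator E ≤ _
        rw [commutator_def, Subgroup.commutator_le]
        intro a _ b _
        obtain ⟨d, k, hk, rfl⟩ := hcover a
        obtain ⟨e, l, hl, rfl⟩ := hcover b
        have heq : ⁅(d : E) * k, (e : E) * l⁆ = ⁅(d : E), (e : E)⁆ :=
          comm_mul_central' (hpk hk) (hpk hl)
        rw [heq]
        exact Subgroup.mem_map_of_mem D.subtype (Subgroup.commutator_mem_commutator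
          (Subgroup.mem_top d) (Subgroup.mem_top e))
    apply Subgroup.map_injective D.subtype_injective
    rw [this, ← MonoidHom.range_eq_map, Subgroup.range_subtype]
  refine ⟨D, inferInstance, hDfin, π, ⟨hDperf⟩, hπs, hπk, ?_⟩
  intro X _ ξ hξ hξk
  obtain ⟨β, hβ⟩ := Cfsg.Agent.Lib.Schur.Hopf.exists_lift α hξ
  let βb : E →* X := QuotientGroup.lift (Cfsg.Agent.Lib.Schur.Hopf.cc α) β
    (fun x hx => Cfsg.Agent.Lib.Schur.Hopf.cc_le_ker_of_lift hξk hβ hx)
  have hcomp : ξ.comp βb = p := by
    refine MonoidHom.ext fun x => ?_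
    obtain ⟨f, rfl⟩ := QuotientGroup.mk_surjective x
    have := congrArg (fun φ : FreeGroup Q →* Q => φ f) hβ
    simp only [MonoidHom.comp_apply] at this
    exact this
  refine ⟨βb.comp D.subtype, ?_, ?_⟩
  · refine MonoidHom.ext fun d => ?_
    exact congrArg (fun φ : E →* Q => φ (d : E)) hcomp
  · intro η₂ hη₂
    -- uniqueness: two lifts agree on commutators, and `D` is perfect
    have hcentral : ∀ d : D, (βb (d : E))⁻¹ * η₂ d ∈ Subgroup.center X := by
      intro d
      apply hξk
      rw [MonoidHom.mem_ker, map_mul, map_inv]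
      have h1 := congrArg (fun φ : D →* Q => φ d) hη₂
      simp only [MonoidHom.comp_apply] at h1
      have h2 := congrArg (fun φ : E →* Q => φ (d : E)) hcomp
      simp only [MonoidHom.comp_apply] at h2
      rw [h1, h2]
      show (p (d : E))⁻¹ * π d = 1
      simp [π]
    have hle : commutator D ≤ η₂.eqLocus (βb.comp D.subtype) := by
      rw [commutator_def, Subgroup.commutator_le]
      intro a _ b _
      show η₂ ⁅a, b⁆ = βb ((⁅a, b⁆ : D) : E)
      have e1 : ((⁅a, b⁆ : D) : E) = ⁅(a : E), (b : E)⁆ := rfl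
      rw [e1, map_commutatorElement, map_commutatorElement]
      have h1 : η₂ a = βb (a : E) * ((βb (a : E))⁻¹ * η₂ a) := by group
      have h2 : η₂ b = βb (b : E) * ((βb (b : E))⁻¹ * η₂ b) := by group
      rw [h1, h2]
      exact comm_mul_central' (hcentral a) (hcentral b)
    refine MonoidHom.ext fun d => ?_
    have : d ∈ commutator D := by rw [hDperf]; trivial
    exact hle this


end Cfsg.Agent.S3960
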