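import Cfsg.Statements.S3961
import Mathlib
import Cfsg.Agent.Lib.Schur.Hopf
import Cfsg.Agent.Lib.Schur.Basic
-- import your own Cfsg.Agent.* helpers here

set_option autoImplicit false
universe u v
open Cfsg

namespace Cfsg.Agent.S3961

open scoped commutatorElement

theorem comm_mul_central {P : Type*} [Group P] {a b k l : P} (hk : k ∈ Subgroup.center P)
    (hl : l ∈ Subgroup.center P) : ⁅a * k, b * l⁆ = ⁅a, b⁆ := by
  have hkc := Subgroup.mem_center_iff.mp hk
  have hlc := Subgroup.mem_center_iff.mp hl
  have e1c := Subgroup.mem_center_iff.mp (inv_mem hk)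
  simp only [commutatorElement_def, mul_inv_rev]
  calc a * k * (b * l) * (k⁻¹ * a⁻¹) * (l⁻¹ * b⁻¹)
      = a * (k * b) * l * (k⁻¹ * a⁻¹) * (l⁻¹ * b⁻¹) := by group
    _ = a * (b * k) * l * (k⁻¹ * a⁻¹) * (l⁻¹ * b⁻¹) := by rw [hkc b]
    _ = a * b * (k * (l * k⁻¹)) * a⁻¹ * (l⁻¹ * b⁻¹) := by group
    _ = a * b * (k * (k⁻¹ * l)) * a⁻¹ * (l⁻¹ * b⁻¹) := by rw [e1c l]
    _ = a * b * l * a⁻¹ * (l⁻¹ * b⁻¹) := by group
    _ = a * b * a⁻¹ * (l * (l⁻¹ * b⁻¹)) := by
        rw [mul_assoc (a * b) l, ← hlc a⁻¹]; group
    _ = a * b * a⁻¹ * b⁻¹ := by group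

/-- `P' → G` section in the perfect case. -/
theorem exists_section {G : Type u} {X : Type u} {Q : Type v} [Group G] [Group Q] [Finite G] [Group X]
    (hG : Group.IsPerfect G) (π : G →* Q) (ξ : X →* Q) (hξ : Function.Surjective ξ)
    (hker : ξ.ker ≤ Subgroup.center X) (hG1 : Cfsg.HasCyclicSchurMultiplier G 1) :
    ∃ η : G →* X, ξ.comp η = π := by
  classical
  -- the fibre product
  let Pb : Subgroup (G × X) := (π.comp (MonoidHom.fst G X)).eqLocus (ξ.comp (MonoidHom.snd G X))
  have hPbmem : ∀ p : G × X, p ∈ Pb ↔ π p.1 = ξ p.2 := fun p => Iff.rfl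
  let pr : Pb →* G := (MonoidHom.fst G X).comp Pb.subtype
  have hprs : Function.Surjective pr := by
    intro g
    obtain ⟨x, hx⟩ := hξ (π g)
    exact ⟨⟨(g, x), (hPbmem _).mpr hx.symm⟩, rfl⟩
  have hprk : pr.ker ≤ Subgroup.center Pb := by
    rintro ⟨⟨g, x⟩, hp⟩ hk
    have hg : g = 1 := hk
    subst hg
    have hx : x ∈ ξ.ker := by
      rw [MonoidHom.mem_ker]
      have := (hPbmem _).mp hp
      simpa using this.symm
    rw [Subgroup.mem_center_iff]
    rintro ⟨⟨g', x'⟩, hp'⟩
    apply Subtype.ext
    apply Prod.ext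
    · simp
    · exact Subgroup.mem_center_iff.mp (hker hx) x'
  -- its derived subgroup `D`
  let D : Subgroup Pb := commutator Pb
  let pr₀ : D →* G := pr.comp D.subtype
  have hmap : D.map pr = ⊤ := by
    show (commutator Pb).map pr = ⊤
    rw [commutator_def, Subgroup.map_commutator, Subgroup.map_top_of_surjective _ hprs]
    exact hG.commutator_eq_top
  have hpr₀s : Function.Surjective pr₀ := by
    intro g
    have : g ∈ D.map pr := by rw [hmap]; trivial
    obtain ⟨d, hd, rfl⟩ := this
    exact ⟨⟨d, hd⟩, rfl⟩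
  have hpr₀k : pr₀.ker ≤ Subgroup.center D := by
    rintro ⟨d, hd⟩ hk
    rw [Subgroup.mem_center_iff]
    rintro ⟨d', hd'⟩
    apply Subtype.ext
    exact Subgroup.mem_center_iff.mp (hprk hk) d'
  -- `D` is perfect: `Pb = D · ker`
  have hDperf : commutator D = ⊤ := by
    have hcover : ∀ p : Pb, ∃ d : D, ∃ k ∈ pr.ker, p = d * k := by
      intro p
      obtain ⟨d, hd⟩ := hpr₀s (pr p)
      refine ⟨d, (d : Pb)⁻¹ * p, ?_, by group⟩
      rw [MonoidHom.mem_ker, map_mul, map_inv]
      have : pr (d : Pb) = pr p := hd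
      rw [this]
      group
    have : (commutator D).map D.subtype = D := by
      apply le_antisymm
      · exact Subgroup.map_subtype_le _
      · show commutator Pb ≤ _
        rw [commutator_def, Subgroup.commutator_le]
        intro p _ q _
        obtain ⟨d, k, hk, rfl⟩ := hcover p
        obtain ⟨e, l, hl, rfl⟩ := hcover q
        have heq : ⁅(d : Pb) * k, (e : Pb) * l⁆ = ⁅(d : Pb), (e : Pb)⁆ :=
          comm_mul_central (hprk hk) (hprk hl)
        rw [heq]
        exact Subgroup.mem_map_of_mem D.subtype (Subgroup.commutator_mem_commutator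
          (Subgroup.mem_top d) (Subgroup.mem_top e))
    apply Subgroup.map_injective D.subtype_injective
    rw [this, ← MonoidHom.range_eq_map, Subgroup.range_subtype]
  -- `D` is finite
  have hDfin : Finite D := by
    have : Finite (D ⧸ Subgroup.center D) := by
      have hk : pr₀.ker ≤ Subgroup.center D := hpr₀k
      let e := QuotientGroup.quotientKerEquivOfSurjective pr₀ hpr₀s
      have hf : Finite (D ⧸ pr₀.ker) := Finite.of_equiv _ e.symm.toEquiv
      exact Finite.of_surjective (QuotientGroup.map pr₀.ker (Subgroup.center D) (MonoidHom.id _)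
        (fun x hx => hk hx)) (by
          intro y
          obtain ⟨x, rfl⟩ := QuotientGroup.mk_surjective y
          exact ⟨QuotientGroup.mk x, rfl⟩)
    have hc := Cfsg.Agent.Lib.Schur.Hopf.finite_commutator_of_finite_quot (E := D)
    rw [hDperf] at hc
    exact Finite.of_equiv _ Subgroup.topEquiv.toEquiv
  -- the stem extension
  have hst : Cfsg.IsStemExtension pr₀ := by
    refine ⟨hpr₀s, hpr₀k, ?_⟩
    rw [commutator_def] at hDperf ⊢
    rw [hDperf]
    exact le_top
  have hkb := Cfsg.Agent.Lib.Schur.Basic.ker_eq_bot_of_hasCyclicSchurMultiplier_one hG1 D pr₀ hst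
  have hbij : Function.Bijective pr₀ :=
    ⟨(MonoidHom.ker_eq_bot_iff pr₀).mp hkb, hpr₀s⟩
  let e := MulEquiv.ofBijective pr₀ hbij
  refine ⟨((MonoidHom.snd G X).comp Pb.subtype).comp (D.subtype.comp e.symm.toMonoidHom), ?_⟩
  refine MonoidHom.ext fun g => ?_
  have h1 : pr₀ (e.symm g) = g := e.apply_symm_apply g
  have h2 := (hPbmem _).mp ((e.symm g : D) : Pb).2
  simp only [MonoidHom.comp_apply]
  show ξ (((e.symm g : D) : Pb) : G × X).2 = π g
  rw [← h2]
  exact congrArg π h1

/-- Let `π : G →* Q` be a surjective homomorphism with central kernel from a finite perfect group `G` (a perfect cover of `Q`). Then `π` is universal, in the sense that every surjective homomorphism `ξ : X →* Q` with central kernel from a group `X` in the universe of `G` admits a homomorphism `η : G →* X` with `ξ ∘ η = π`, if and only if `G` has trivial Schur multiplier. -/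
theorem result {G : Type u} {Q : Type v} [Group G] [Group Q] [Finite G] (hG : Group.IsPerfect G) (π : G →* Q) (hπ : Function.Surjective π) (hker : π.ker ≤ Subgroup.center G) : (∀ (X : Type u) [Group X] (ξ : X →* Q), Function.Surjective ξ → ξ.ker ≤ Subgroup.center X → ∃ η : G →* X, ξ.comp η = π) ↔ Cfsg.HasCyclicSchurMultiplier G 1 := by
  constructor
  · intro h
    refine Cfsg.Agent.Lib.Schur.Basic.hasCyclicSchurMultiplier_one_of ?_
    intro Γ _ _ τ hτ
    have hcov : ∀ g : Γ, g ∈ commutator Γ := by
      intro g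
      have h1 : τ g ∈ (commutator Γ).map τ := by
        rw [commutator_def, Subgroup.map_commutator, Subgroup.map_top_of_surjective _ hτ.1]
        have : τ g ∈ (⊤ : Subgroup G) := trivial
        rw [← hG.commutator_eq_top] at this
        exact this
      obtain ⟨c, hc, hcg⟩ := h1
      have h2 : c⁻¹ * g ∈ τ.ker := by
        rw [MonoidHom.mem_ker, map_mul, map_inv, hcg]
        group
      have h3 : g = c * (c⁻¹ * g) := by group
      rw [h3]
      exact mul_mem hc (hτ.2.2 h2)
    have hcentral : (π.comp τ).ker ≤ Subgroup.center Γ := by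
      intro x hx
      have hx1 : τ x ∈ π.ker := hx
      have hxc := Subgroup.mem_center_iff.mp (hker hx1)
      have hcomm : ∀ y : Γ, ⁅x, y⁆ ∈ Subgroup.center Γ := by
        intro y
        apply hτ.2.1
        rw [MonoidHom.mem_ker, map_commutatorElement, commutatorElement_eq_one_iff_mul_comm]
        exact (hxc (τ y)).symm
      have hcen : commutator Γ ≤ Subgroup.centralizer {x} := by
        rw [commutator_def, Subgroup.commutator_le]
        intro y _ z _
        rw [Subgroup.mem_centralizer_singleton_iff]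
        have h1 : x * y * x⁻¹ = ⁅x, y⁆ * y := by simp [commutatorElement_def]
        have h2 : x * z * x⁻¹ = ⁅x, z⁆ * z := by simp [commutatorElement_def]
        have h3 : x * ⁅y, z⁆ * x⁻¹ = ⁅x * y * x⁻¹, x * z * x⁻¹⁆ := by
          simp only [commutatorElement_def]
          group
        have hc1 := Subgroup.mem_center_iff.mp (hcomm y)
        have hc2 := Subgroup.mem_center_iff.mp (hcomm z)
        have h4 : ⁅⁅x, y⁆ * y, ⁅x, z⁆ * z⁆ = ⁅y, z⁆ := by
          rw [← hc1 y, ← hc2 z]
          exact comm_mul_central (hcomm y) (hcomm z)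
        rw [h1, h2, h4] at h3
        calc ⁅y, z⁆ * x = x * ⁅y, z⁆ * x⁻¹ * x := by rw [h3]
          _ = x * ⁅y, z⁆ := by group
      rw [Subgroup.mem_center_iff]
      intro g
      have := hcen (hcov g)
      rw [Subgroup.mem_centralizer_singleton_iff] at this
      exact this
    obtain ⟨η, hη⟩ := h Γ (π.comp τ) (hπ.comp hτ.1) hcentral
    -- `τ ∘ η` is the identity
    have hid : ∀ g : G, τ (η g) = g := by
      have hd : ∀ g : G, g⁻¹ * τ (η g) ∈ Subgroup.center G := by
        intro g
        apply hker
        rw [MonoidHom.mem_ker, map_mul, map_inv]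
        have := congrArg (fun φ : G →* Q => φ g) hη
        simp only [MonoidHom.comp_apply] at this
        rw [this]
        group
      have hle : commutator G ≤ (τ.comp η).eqLocus (MonoidHom.id G) := by
        rw [commutator_def, Subgroup.commutator_le]
        intro a _ b _
        show τ (η ⁅a, b⁆) = ⁅a, b⁆
        rw [map_commutatorElement, map_commutatorElement]
        have h1 : τ (η a) = a * (a⁻¹ * τ (η a)) := by group
        have h2 : τ (η b) = b * (b⁻¹ * τ (η b)) := by group
        rw [h1, h2]
        exact comm_mul_central (hd a) (hd b)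
      intro g
      have : g ∈ commutator G := by
        have : g ∈ (⊤ : Subgroup G) := trivial
        rw [← hG.commutator_eq_top] at this
        exact this
      exact hle this
    -- `Γ' ≤ range η`
    have hran : commutator Γ ≤ η.range := by
      rw [commutator_def, Subgroup.commutator_le]
      intro u _ v _
      have hd : ∀ u : Γ, (η (τ u))⁻¹ * u ∈ Subgroup.center Γ := by
        intro u
        apply hτ.2.1
        rw [MonoidHom.mem_ker, map_mul, map_inv, hid]
        group
      have h1 : u = η (τ u) * ((η (τ u))⁻¹ * u) := by group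
      have h2 : v = η (τ v) * ((η (τ v))⁻¹ * v) := by group
      have h3 : ⁅u, v⁆ = ⁅η (τ u), η (τ v)⁆ := by
        conv_lhs => rw [h1, h2]
        exact comm_mul_central (hd u) (hd v)
      rw [h3]
      exact ⟨⁅τ u, τ v⁆, map_commutatorElement η _ _⟩
    rw [eq_bot_iff]
    intro x hx
    obtain ⟨g, rfl⟩ := hran (hτ.2.2 hx)
    have h1 : τ (η g) = 1 := hx
    rw [hid] at h1
    rw [h1, map_one]
    exact one_mem _
  · intro hG1 X _ ξ hξ hk
    exact exists_section hG π ξ hξ hk hG1


end Cfsg.Agent.S3961
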