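import Cfsg.Statements.S3962
import Mathlib
-- import your own Cfsg.Agent.* helpers here

set_option autoImplicit false
open Cfsg

namespace Cfsg.Agent.S3962

/-- Let `G` be a perfect group and `π : G →* Q` a surjective homomorphism whose kernel is central. Then `π` maps the centre of `G` onto the centre of `Q`. Taking `π` to be the map to `G ⧸ Z(G)` shows that the central quotient of a perfect group has trivial centre. -/
theorem result {G Q : Type*} [Group G] [Group Q] (hG : Group.IsPerfect G) (π : G →* Q) (hπ : Function.Surjective π) (hker : π.ker ≤ Subgroup.center G) : (Subgroup.center G).map π = Subgroup.center Q := by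
  have hp : commutator G = ⊤ := Group.isPerfect_def.mp hG
  ext y
  constructor
  · rintro ⟨z, hz, rfl⟩
    rw [SetLike.mem_coe, Subgroup.mem_center_iff] at hz
    rw [Subgroup.mem_center_iff]
    intro q
    obtain ⟨g, rfl⟩ := hπ q
    rw [← map_mul, ← map_mul, hz]
  · intro hy
    obtain ⟨z, rfl⟩ := hπ y
    refine ⟨z, ?_, rfl⟩
    have hy' := Subgroup.mem_center_iff.mp hy
    have hcen : ∀ g, z * g * z⁻¹ * g⁻¹ ∈ Subgroup.center G := by
      intro g
      apply hker
      rw [MonoidHom.mem_ker]
      simp only [map_mul, map_inv]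
      rw [← hy' (π g)]
      group
    let f : G →* Subgroup.center G :=
      { toFun := fun g => ⟨z * g * z⁻¹ * g⁻¹, hcen g⟩
        map_one' := by ext; simp
        map_mul' := by
          intro g h
          ext
          have hc := Subgroup.mem_center_iff.mp (hcen h) g⁻¹
          simp only [Subgroup.coe_mul]
          calc z * (g * h) * z⁻¹ * (g * h)⁻¹
              = z * g * z⁻¹ * ((z * h * z⁻¹ * h⁻¹) * g⁻¹) := by simp [mul_assoc]
            _ = z * g * z⁻¹ * (g⁻¹ * (z * h * z⁻¹ * h⁻¹)) := by rw [hc]
            _ = z * g * z⁻¹ * g⁻¹ * (z * h * z⁻¹ * h⁻¹) := by simp [mul_assoc] }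
    have hk : commutator G ≤ f.ker := by
      rw [commutator_def, Subgroup.commutator_le]
      intro a _ b _
      rw [MonoidHom.mem_ker, map_commutatorElement, commutatorElement_eq_one_iff_mul_comm]
      apply Subtype.ext
      exact Subgroup.mem_center_iff.mp (f b).2 (f a)
    rw [hp] at hk
    rw [SetLike.mem_coe, Subgroup.mem_center_iff]
    intro g
    have h1 : f g = 1 := hk (Subgroup.mem_top g)
    have h2 : z * g * z⁻¹ * g⁻¹ = 1 := congrArg Subtype.val h1
    have h3 : z * g * z⁻¹ = g := by
      rw [mul_inv_eq_one] at h2; exact h2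
    rw [mul_inv_eq_iff_eq_mul] at h3
    exact h3.symm

end Cfsg.Agent.S3962
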