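import Cfsg.Statements.S3963
import Mathlib
-- import your own Cfsg.Agent.* helpers here

set_option autoImplicit false
open Cfsg

namespace Cfsg.Agent.S3963

/-- The key identity in a lift. -/
theorem core_identity {Γ : Type*} [Group Γ] (α ξ z w : Γ)
    (hz : z ∈ Subgroup.center Γ) (hw : w ∈ Subgroup.center Γ) (n : ℕ)
    (h1 : ξ⁻¹ * α * ξ = z * α⁻¹) (h2 : ξ * ξ = α ^ n * w) : (z * α⁻¹ * α⁻¹) ^ n = 1 := by
  have hzc : ∀ g, g * z = z * g := fun g => Subgroup.mem_center_iff.mp hz g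
  have hwc : ∀ g, g * w = w * g := fun g => Subgroup.mem_center_iff.mp hw g
  have h3 : ξ⁻¹ * (ξ * ξ) * ξ = ξ * ξ := by group
  have h4 : ξ⁻¹ * α ^ n * ξ = (z * α⁻¹) ^ n := by
    have := conj_pow (i := n) (a := ξ⁻¹) (b := α)
    rw [inv_inv] at this
    rw [← h1, this]
  have hcz : Commute z α⁻¹ := (hzc α⁻¹).symm
  rw [h2] at h3
  have h5 : ξ⁻¹ * (α ^ n * w) * ξ = (z * α⁻¹) ^ n * w := by
    rw [← h4]
    calc ξ⁻¹ * (α ^ n * w) * ξ = ξ⁻¹ * α ^ n * (w * ξ) := by group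
      _ = ξ⁻¹ * α ^ n * (ξ * w) := by rw [hwc ξ]
      _ = _ := by group
  rw [h5] at h3
  have h6 : (z * α⁻¹) ^ n = α ^ n := mul_right_cancel h3
  have hc2 : Commute (z * α⁻¹) α⁻¹ := Commute.mul_left hcz (Commute.refl _)
  rw [hc2.mul_pow, h6, inv_pow, mul_inv_cancel]

theorem aux_inv {Γ : Type*} [Group Γ] (z α : Γ) (h : α * z⁻¹ = z⁻¹ * α) :
    (α * z⁻¹) * α = (z * α⁻¹ * α⁻¹)⁻¹ := by
  calc (α * z⁻¹) * α = α * (z⁻¹ * α) := by rw [mul_assoc]
    _ = α * (α * z⁻¹) := by rw [h]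
    _ = (z * α⁻¹ * α⁻¹)⁻¹ := by simp [mul_inv_rev, mul_assoc]

/-- The kernel of a finite stem extension of the dicyclic group is trivial. -/
theorem ker_trivial (n : ℕ) [NeZero n] {Γ : Type*} [Group Γ] [Finite Γ]
    (σ : Γ →* QuaternionGroup n) (hσ : Cfsg.IsStemExtension σ) : ∀ k ∈ σ.ker, k = 1 := by
  classical
  obtain ⟨hsurj, hcen, hcom⟩ := hσ
  haveI : NeZero (2 * n) := ⟨by have := NeZero.ne n; omega⟩
  have hnn : (n : ZMod (2 * n)) + n = 0 := by
    have h := ZMod.natCast_self (2 * n)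
    push_cast at h
    calc (n : ZMod (2 * n)) + n = 2 * n := (two_mul _).symm
      _ = 0 := h
  have hxinv : (QuaternionGroup.xa 0 : QuaternionGroup n)⁻¹ = QuaternionGroup.xa (n : ZMod (2 * n)) := by
    apply inv_eq_of_mul_eq_one_right
    rw [QuaternionGroup.xa_mul_xa, hnn, sub_zero, QuaternionGroup.one_def]
  have hainv : (QuaternionGroup.a 1 : QuaternionGroup n)⁻¹ = QuaternionGroup.a (-1) := by
    apply inv_eq_of_mul_eq_one_right
    rw [QuaternionGroup.a_mul_a, add_neg_cancel, QuaternionGroup.one_def]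
  obtain ⟨α, hα⟩ := hsurj (QuaternionGroup.a 1)
  obtain ⟨ξ, hξ⟩ := hsurj (QuaternionGroup.xa 0)
  set z := ξ⁻¹ * α * ξ * α with hz
  have hzk : z ∈ σ.ker := by
    rw [MonoidHom.mem_ker, hz]
    simp only [map_mul, map_inv, hα, hξ, hxinv, QuaternionGroup.xa_mul_a,
      QuaternionGroup.xa_mul_xa, QuaternionGroup.a_mul_a, QuaternionGroup.one_def]
    congr 1
    ring
  set w := (α ^ n)⁻¹ * (ξ * ξ) with hw
  have hwk : w ∈ σ.ker := by
    rw [MonoidHom.mem_ker, hw]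
    simp only [map_mul, map_inv, map_pow, hα, hξ, QuaternionGroup.a_one_pow,
      QuaternionGroup.xa_mul_xa]
    simp
  have h1 : ξ⁻¹ * α * ξ = z * α⁻¹ := by rw [hz]; group
  have h2 : ξ * ξ = α ^ n * w := by rw [hw]; group
  have hcn := core_identity α ξ z w (hcen hzk) (hcen hwk) n h1 h2
  set c := z * α⁻¹ * α⁻¹ with hc
  have hcdef : c = ξ⁻¹ * α * ξ * α⁻¹ := by rw [hc, hz]; group
  have hzc : ∀ g, g * z = z * g := fun g => Subgroup.mem_center_iff.mp (hcen hzk) g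
  have hkc : ∀ k ∈ σ.ker, ∀ g, g * k = k * g := fun k hk g => Subgroup.mem_center_iff.mp (hcen hk) g
  -- decomposition
  have hdec : ∀ g : Γ, ∃ (e i : ℕ), ∃ k ∈ σ.ker, g = ξ ^ e * α ^ i * k := by
    intro g
    rcases hg : σ g with i | i
    · refine ⟨0, i.val, (α ^ i.val)⁻¹ * g, ?_, by group⟩
      rw [MonoidHom.mem_ker, map_mul, map_inv, map_pow, hα, hg, QuaternionGroup.a_one_pow,
        ZMod.natCast_zmod_val, inv_mul_cancel]
    · refine ⟨1, i.val, (ξ * α ^ i.val)⁻¹ * g, ?_, by group⟩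
      rw [MonoidHom.mem_ker, map_mul, map_inv, map_mul, map_pow, hα, hξ, hg, QuaternionGroup.a_one_pow,
        ZMod.natCast_zmod_val, QuaternionGroup.xa_mul_a, zero_add, inv_mul_cancel]
  set C : Subgroup Γ := Subgroup.zpowers c with hC
  have hαc : Commute α c := by
    rw [hc]
    exact Commute.mul_right (Commute.mul_right (show α * z = z * α from hzc α) (Commute.inv_right (Commute.refl α)))
      (Commute.inv_right (Commute.refl α))
  have hξc : ξ * c * ξ⁻¹ = c⁻¹ := by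
    have h7 : ξ * α⁻¹ * ξ⁻¹ = z⁻¹ * α := by
      have e1 : α * ξ = ξ * (z * α⁻¹) := by rw [← h1]; group
      have e2 : ξ * (z * α⁻¹) * ξ⁻¹ = α := by rw [← e1]; group
      have e3 : z * (ξ * α⁻¹ * ξ⁻¹) = ξ * (z * α⁻¹) * ξ⁻¹ := by
        rw [← mul_assoc, ← mul_assoc, ← hzc ξ]; group
      rw [eq_inv_mul_iff_mul_eq, e3, e2]
    calc ξ * c * ξ⁻¹ = (ξ * z) * α⁻¹ * α⁻¹ * ξ⁻¹ := by rw [hc]; group
      _ = (z * ξ) * α⁻¹ * α⁻¹ * ξ⁻¹ := by rw [hzc ξ]
      _ = z * ((ξ * α⁻¹ * ξ⁻¹) * (ξ * α⁻¹ * ξ⁻¹)) := by group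
      _ = z * ((z⁻¹ * α) * (z⁻¹ * α)) := by rw [h7]
      _ = (α * z⁻¹) * α := by group
      _ = c⁻¹ := by
          have hzi : α * z⁻¹ = z⁻¹ * α := by
            have hh := hzc α
            calc α * z⁻¹ = z⁻¹ * (z * α) * z⁻¹ := by group
              _ = z⁻¹ * (α * z) * z⁻¹ := by rw [hh]
              _ = z⁻¹ * α := by group
          rw [hc]
          exact aux_inv z α hzi
  have hαN : α ∈ Subgroup.normalizer (C : Set Γ) := by
    apply Subgroup.mem_normalizer_fintype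
    intro y hy
    obtain ⟨m, rfl⟩ := Subgroup.mem_zpowers_iff.mp hy
    have h8 : α * c ^ m * α⁻¹ = c ^ m := by
      rw [(hαc.zpow_right m).eq]; group
    rw [h8]
    exact hy
  have hξN : ξ ∈ Subgroup.normalizer (C : Set Γ) := by
    apply Subgroup.mem_normalizer_fintype
    intro y hy
    obtain ⟨m, rfl⟩ := Subgroup.mem_zpowers_iff.mp hy
    rw [← conj_zpow, hξc]
    exact Subgroup.zpow_mem _ (Subgroup.inv_mem _ (Subgroup.mem_zpowers c)) m
  have hkN : ∀ k ∈ σ.ker, k ∈ Subgroup.normalizer (C : Set Γ) := by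
    intro k hk
    apply Subgroup.mem_normalizer_fintype
    intro y hy
    have h8 : k * y * k⁻¹ = y := by
      rw [← hkc k hk y]; group
    rw [h8]
    exact hy
  haveI hCn : C.Normal := by
    rw [← Subgroup.normalizer_eq_top_iff, eq_top_iff]
    intro g _
    obtain ⟨e, i, k, hk, rfl⟩ := hdec g
    exact Subgroup.mul_mem _ (Subgroup.mul_mem _ (Subgroup.pow_mem _ hξN e) (Subgroup.pow_mem _ hαN i))
      (hkN k hk)
  -- the quotient is commutative
  have hcQ : ((c : Γ) : Γ ⧸ C) = 1 := (QuotientGroup.eq_one_iff _).mpr (Subgroup.mem_zpowers c)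
  have hαξ : Commute ((α : Γ) : Γ ⧸ C) ((ξ : Γ) : Γ ⧸ C) := by
    rw [hcdef] at hcQ
    show ((α : Γ) : Γ ⧸ C) * ((ξ : Γ) : Γ ⧸ C) = ((ξ : Γ) : Γ ⧸ C) * ((α : Γ) : Γ ⧸ C)
    have h9 : ((ξ : Γ) : Γ ⧸ C)⁻¹ * ((α : Γ) : Γ ⧸ C) * ((ξ : Γ) : Γ ⧸ C) * ((α : Γ) : Γ ⧸ C)⁻¹ = 1 := hcQ
    rw [mul_inv_eq_one, mul_assoc, inv_mul_eq_iff_eq_mul] at h9
    exact h9
  have hkQ : ∀ k ∈ σ.ker, ∀ g : Γ, Commute ((k : Γ) : Γ ⧸ C) ((g : Γ) : Γ ⧸ C) := by
    intro k hk g
    show ((k : Γ) : Γ ⧸ C) * ((g : Γ) : Γ ⧸ C) = ((g : Γ) : Γ ⧸ C) * ((k : Γ) : Γ ⧸ C)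
    rw [← QuotientGroup.mk_mul, ← QuotientGroup.mk_mul, hkc k hk g]
  have hQ : ∀ g h : Γ, Commute ((g : Γ) : Γ ⧸ C) ((h : Γ) : Γ ⧸ C) := by
    intro g h
    obtain ⟨e, i, k, hk, rfl⟩ := hdec g
    obtain ⟨e', i', k', hk', rfl⟩ := hdec h
    have hh : ∀ (e i : ℕ) (k : Γ), k ∈ σ.ker →
        ((ξ ^ e * α ^ i * k : Γ) : Γ ⧸ C) = ((ξ : Γ) : Γ ⧸ C) ^ e * ((α : Γ) : Γ ⧸ C) ^ i * ((k : Γ) : Γ ⧸ C) := by
      intro e i k _
      rfl
    rw [hh e i k hk, hh e' i' k' hk']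
    have hξα' : ∀ (e i : ℕ), Commute (((ξ : Γ) : Γ ⧸ C) ^ e) (((α : Γ) : Γ ⧸ C) ^ i) :=
      fun e i => (hαξ.symm.pow_pow e i)
    apply Commute.mul_left
    · apply Commute.mul_left
      · apply Commute.mul_right
        · apply Commute.mul_right
          · exact (Commute.refl _).pow_pow e e'
          · exact hξα' e i'
        · exact ((hkQ k' hk' ξ).pow_right e).symm
      · apply Commute.mul_right
        · apply Commute.mul_right
          · exact (hξα' e' i).symm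
          · exact (Commute.refl _).pow_pow i i'
        · exact ((hkQ k' hk' α).pow_right i).symm
    · apply Commute.mul_right
      · apply Commute.mul_right
        · exact (hkQ k hk ξ).pow_right e'
        · exact (hkQ k hk α).pow_right i'
      · exact hkQ k hk k'
  have hcomC : commutator Γ ≤ C := by
    rw [commutator_def, Subgroup.commutator_le]
    intro g _ h _
    rw [← QuotientGroup.eq_one_iff, commutatorElement_def]
    show ((g : Γ) : Γ ⧸ C) * ((h : Γ) : Γ ⧸ C) * ((g : Γ) : Γ ⧸ C)⁻¹ * ((h : Γ) : Γ ⧸ C)⁻¹ = 1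
    rw [(hQ g h).eq]
    group
  intro k hk
  have hkC : k ∈ C := hcomC (hcom hk)
  obtain ⟨m, rfl⟩ := Subgroup.mem_zpowers_iff.mp hkC
  have hσc : σ c = (QuaternionGroup.a 1 : QuaternionGroup n)⁻¹ * (QuaternionGroup.a 1)⁻¹ := by
    rw [hc, map_mul, map_mul, map_inv, hα, MonoidHom.mem_ker.mp hzk, one_mul]
  have hk1 : σ (c ^ m) = 1 := hk
  rw [map_zpow, hσc] at hk1
  have e1 : (QuaternionGroup.a 1 : QuaternionGroup n)⁻¹ * (QuaternionGroup.a 1)⁻¹ =
      (QuaternionGroup.a 1 : QuaternionGroup n) ^ (-2 : ℤ) := by group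
  rw [e1, ← zpow_mul] at hk1
  have hd := orderOf_dvd_iff_zpow_eq_one.mpr hk1
  rw [QuaternionGroup.orderOf_a_one] at hd
  have hd2 : (n : ℤ) ∣ m := by
    push_cast at hd
    have h2 : (2 : ℤ) ≠ 0 := by norm_num
    have h3 : (2 : ℤ) * n ∣ 2 * m := by
      have := (dvd_neg (a := (2 : ℤ) * n) (b := -2 * m)).mpr hd
      simpa using this
    exact (mul_dvd_mul_iff_left h2).mp h3
  obtain ⟨d, rfl⟩ := hd2
  rw [zpow_mul, zpow_natCast, hcn, one_zpow]

/-- For every `n ≥ 1` the dicyclic (generalized quaternion) group of order `4 n` has trivial Schur multiplier. -/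
theorem result (n : ℕ) [NeZero n] : Cfsg.HasCyclicSchurMultiplier (QuaternionGroup n) 1 := by
  refine ⟨⟨QuaternionGroup n, inferInstance, inferInstance, MonoidHom.id _, ⟨Function.surjective_id, ?_, ?_⟩, ?_⟩, ?_⟩
  · intro x hx
    have : x = 1 := hx
    rw [this]
    exact Subgroup.one_mem _
  · intro x hx
    have : x = 1 := hx
    rw [this]
    exact Subgroup.one_mem _
  · refine ⟨{ toFun := fun _ => 1, invFun := fun _ => 1, left_inv := ?_, right_inv := ?_, map_mul' := ?_ }⟩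
    · intro x
      apply Subtype.ext
      exact x.2.symm
    · intro y
      exact Subsingleton.elim _ _
    · intro x y
      exact Subsingleton.elim _ _
  · intro Γ _ _ σ hσ
    refine ⟨1, ?_⟩
    intro k
    refine ⟨1, ?_⟩
    apply Subtype.ext
    exact (ker_trivial n σ hσ k k.2).symm

end Cfsg.Agent.S3963
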