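import Cfsg.Statements.S3964
import Mathlib

set_option autoImplicit false
open Cfsg
open scoped commutatorElement

namespace Cfsg.Agent.S3964

open DihedralGroup

theorem r_two_zpow {n : ℕ} (a : ℤ) : (r (2 : ZMod n) : DihedralGroup n) ^ a = r ((2 : ZMod n) * (a : ZMod n)) := by
  induction a using Int.induction_on with
  | zero => simp
  | succ k ih =>
    rw [zpow_add_one, ih, r_mul_r]
    congr 1
    push_cast
    ring
  | pred k ih =>
    rw [zpow_sub_one, ih, inv_r, r_mul_r]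
    congr 1
    push_cast
    ring

theorem ker_eq_bot {n : ℕ} (hn : Odd n) {Γ : Type*} [Group Γ] (σ : Γ →* DihedralGroup n)
    (hs : Function.Surjective σ) (hZ : σ.ker ≤ Subgroup.center Γ) (hZ' : σ.ker ≤ commutator Γ) :
    σ.ker = ⊥ := by
  have hn0 : n ≠ 0 := by
    rintro rfl
    exact absurd hn (by decide)
  haveI : NeZero n := ⟨hn0⟩
  obtain ⟨x, hx⟩ := hs (r 1)
  obtain ⟨y, hy⟩ := hs (sr 0)
  have hcen : ∀ z ∈ σ.ker, ∀ g : Γ, g * z = z * g := by
    intro z hz g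
    exact (Subgroup.mem_center_iff.mp (hZ hz)) g
  -- the element `z3`
  set z3 := y * x * y⁻¹ * x with hz3def
  have hz3 : z3 ∈ σ.ker := by
    rw [MonoidHom.mem_ker, hz3def]
    simp [hx, hy]
  have hyx : y * x * y⁻¹ = z3 * x⁻¹ := by rw [hz3def]; group
  have hz3c := hcen z3 hz3
  set w := x * x * z3⁻¹ with hwdef
  have hwcomm : x * y * x⁻¹ * y⁻¹ = w := by
    have h1 : y * x⁻¹ * y⁻¹ = x * z3⁻¹ := by
      have : y * x⁻¹ * y⁻¹ = (y * x * y⁻¹)⁻¹ := by group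
      rw [this, hyx]; group
    calc x * y * x⁻¹ * y⁻¹ = x * (y * x⁻¹ * y⁻¹) := by group
      _ = w := by rw [h1, hwdef]; group
  have hσw : σ w = r 2 := by
    rw [← hwcomm]
    simp [hx, hy]
    ring_nf
  -- `y` inverts `w`
  have hyw : y * w * y⁻¹ = w⁻¹ := by
    have h1 : y * z3⁻¹ * y⁻¹ = z3⁻¹ := by
      have : y * z3 = z3 * y := hz3c y
      have h2 : y * z3⁻¹ = z3⁻¹ * y := by
        rw [eq_inv_mul_iff_mul_eq, ← mul_assoc, ← this]; group
      rw [h2]; group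
    calc y * w * y⁻¹ = (y * x * y⁻¹) * (y * x * y⁻¹) * (y * z3⁻¹ * y⁻¹) := by rw [hwdef]; group
      _ = (z3 * x⁻¹) * (z3 * x⁻¹) * z3⁻¹ := by rw [hyx, h1]
      _ = z3 * x⁻¹ * (x⁻¹ * z3) * z3⁻¹ := by
          have : x⁻¹ * z3 = z3 * x⁻¹ := hz3c x⁻¹
          rw [this]
      _ = w⁻¹ := by rw [hwdef]; group
  have hyk : ∀ k : ℤ, y * w ^ k * y⁻¹ = w ^ (-k) := by
    intro k
    rw [← conj_zpow, hyw, inv_zpow, zpow_neg]
  have hyk' : ∀ k : ℤ, y * w ^ k = w ^ (-k) * y := by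
    intro k
    rw [← hyk k]; group
  have hy2 : y * y ∈ σ.ker := by
    rw [MonoidHom.mem_ker, map_mul, hy, sr_mul_sr, sub_self]
    rfl
  have hy2c := hcen _ hy2
  -- the form of the elements
  have hm2 : ∃ m : ℤ, (2 : ZMod n) * m = 1 := by
    obtain ⟨k, hk⟩ := hn
    refine ⟨k + 1, ?_⟩
    have h3 : ((2 * k + 1 : ℕ) : ZMod n) = 0 := by rw [← hk]; exact ZMod.natCast_self n
    push_cast at h3 ⊢
    linear_combination h3
  obtain ⟨m, hm⟩ := hm2
  have hform0 : ∀ i : ZMod n, ∃ a : ℤ, σ (w ^ a) = r i := by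
    intro i
    refine ⟨(i.val : ℤ) * m, ?_⟩
    rw [map_zpow, hσw, r_two_zpow]
    congr 1
    push_cast
    rw [ZMod.natCast_zmod_val]
    linear_combination i * hm
  have hform : ∀ g : Γ, (∃ a : ℤ, ∃ z ∈ σ.ker, g = w ^ a * z) ∨ (∃ a : ℤ, ∃ z ∈ σ.ker, g = y * (w ^ a * z)) := by
    have key : ∀ g : Γ, ∀ i : ZMod n, σ g = r i → ∃ a : ℤ, ∃ z ∈ σ.ker, g = w ^ a * z := by
      intro g i hg
      obtain ⟨a, ha⟩ := hform0 i
      refine ⟨a, (w ^ a)⁻¹ * g, ?_, by group⟩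
      rw [MonoidHom.mem_ker, map_mul, map_inv, ha, hg]
      simp
    intro g
    rcases hg : σ g with i | i
    · left
      exact key g i hg
    · right
      obtain ⟨a, z, hz, h⟩ := key (y⁻¹ * g) i (by
        rw [map_mul, map_inv, hy, hg]
        simp)
      refine ⟨a, z, hz, ?_⟩
      rw [← h]; group
  set D : Subgroup Γ := Subgroup.zpowers (w ^ 2) with hD
  have hD2 : ∀ k : ℤ, w ^ (2 * k) ∈ D := by
    intro k
    have : w ^ (2 * k) = (w ^ 2) ^ k := by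
      rw [zpow_mul]; norm_cast
    rw [this]
    exact Subgroup.zpow_mem_zpowers _ _
  -- the commutators
  have hcomm : ∀ g h : Γ, ⁅g, h⁆ ∈ D := by
    intro g h
    have hcz : ∀ (u v z z' : Γ), z ∈ σ.ker → z' ∈ σ.ker → ⁅u * z, v * z'⁆ = ⁅u, v⁆ := by
      intro u v z z' hz hz'
      rw [commutatorElement_def, commutatorElement_def]
      have h1 := hcen z hz
      have h2 := hcen z' hz'
      have h1' : ∀ g : Γ, g * z⁻¹ = z⁻¹ * g := by
        intro g
        rw [eq_inv_mul_iff_mul_eq, ← mul_assoc, ← h1]; group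
      have h2' : ∀ g : Γ, g * z'⁻¹ = z'⁻¹ * g := by
        intro g
        rw [eq_inv_mul_iff_mul_eq, ← mul_assoc, ← h2]; group
      calc u * z * (v * z') * (u * z)⁻¹ * (v * z')⁻¹
          = u * (z * v) * z' * z⁻¹ * u⁻¹ * z'⁻¹ * v⁻¹ := by group
        _ = u * (v * z) * z' * z⁻¹ * u⁻¹ * z'⁻¹ * v⁻¹ := by rw [h1 v]
        _ = u * v * (z * z' * z⁻¹) * u⁻¹ * z'⁻¹ * v⁻¹ := by group
        _ = u * v * z' * u⁻¹ * z'⁻¹ * v⁻¹ := by
            have : z * z' * z⁻¹ = z' := by rw [h2 z]; group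
            rw [this]
        _ = u * v * (z' * u⁻¹) * z'⁻¹ * v⁻¹ := by group
        _ = u * v * (u⁻¹ * z') * z'⁻¹ * v⁻¹ := by rw [h2 u⁻¹]
        _ = u * v * u⁻¹ * v⁻¹ := by group
    have hcase : ∀ u v z z' : Γ, z ∈ σ.ker → z' ∈ σ.ker → ⁅u, v⁆ ∈ D → ⁅u * z, v * z'⁆ ∈ D := by
      intro u v z z' hz hz' h
      rw [hcz u v z z' hz hz']; exact h
    rcases hform g with ⟨a, z, hz, rfl⟩ | ⟨a, z, hz, rfl⟩ <;>
      rcases hform h with ⟨b, z', hz', rfl⟩ | ⟨b, z', hz', rfl⟩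
    · apply hcase _ _ _ _ hz hz'
      have : ⁅w ^ a, w ^ b⁆ = 1 := by
        rw [commutatorElement_eq_one_iff_mul_comm]
        exact zpow_mul_comm w a b
      rw [this]; exact one_mem _
    · rw [← mul_assoc y]
      apply hcase _ _ _ _ hz hz'
      rw [commutatorElement_def]
      have e : w ^ a * (y * w ^ b) * (w ^ a)⁻¹ * (y * w ^ b)⁻¹ = w ^ a * (y * w ^ (-a) * y⁻¹) := by
        group
      rw [e, hyk, neg_neg]
      have : w ^ a * w ^ a = w ^ (2 * a) := by group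
      rw [this]; exact hD2 a
    · rw [← mul_assoc y]
      apply hcase _ _ _ _ hz hz'
      rw [commutatorElement_def]
      have e : y * w ^ a * w ^ b * (y * w ^ a)⁻¹ * (w ^ b)⁻¹ = (y * w ^ b * y⁻¹) * w ^ (-b) := by
        group
      rw [e, hyk]
      have : w ^ (-b) * w ^ (-b) = w ^ (2 * (-b)) := by group
      rw [this]; exact hD2 (-b)
    · rw [← mul_assoc y, ← mul_assoc y]
      apply hcase _ _ _ _ hz hz'
      rw [commutatorElement_def]
      have e1 : y * w ^ a * (y * w ^ b) * (y * w ^ a)⁻¹ * (y * w ^ b)⁻¹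
          = (y * w ^ a * y⁻¹) * ((y * y) * w ^ (b - a)) * y⁻¹ * w ^ (-b) * y⁻¹ := by group
      have e2 : (y * w ^ a * y⁻¹) * ((y * y) * w ^ (b - a)) * y⁻¹ * w ^ (-b) * y⁻¹
          = w ^ (-a) * (w ^ (b - a) * (y * y)) * y⁻¹ * w ^ (-b) * y⁻¹ := by
        rw [hyk, hy2c]
      have e3 : w ^ (-a) * (w ^ (b - a) * (y * y)) * y⁻¹ * w ^ (-b) * y⁻¹
          = w ^ (-a) * w ^ (b - a) * (y * w ^ (-b) * y⁻¹) := by group
      rw [e1, e2, e3, hyk, neg_neg]
      have : w ^ (-a) * w ^ (b - a) * w ^ b = w ^ (2 * (b - a)) := by group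
      rw [this]; exact hD2 (b - a)
  -- `w ^ (2 n) = 1`
  have hw2n : w ^ (2 * (n : ℤ)) = 1 := by
    have h1 : w ^ (n : ℤ) ∈ σ.ker := by
      rw [MonoidHom.mem_ker, map_zpow, hσw, r_two_zpow, one_def]
      congr 1
      simp
    have h2 := hyk (n : ℤ)
    have h3 : y * w ^ (n : ℤ) * y⁻¹ = w ^ (n : ℤ) := by
      rw [hcen _ h1 y]; group
    rw [h3] at h2
    have : w ^ (2 * (n : ℤ)) = w ^ (n : ℤ) * w ^ (n : ℤ) := by group
    rw [this]
    nth_rewrite 1 [h2]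
    group
  rw [eq_bot_iff]
  intro t ht
  have hc : commutator Γ ≤ D := by
    rw [commutator_def, Subgroup.commutator_le]
    intro g _ h _
    exact hcomm g h
  obtain ⟨k, hk⟩ := Subgroup.mem_zpowers_iff.mp (hc (hZ' ht))
  have htσ : σ t = 1 := ht
  have e1 : σ ((w ^ 2) ^ k) = r ((2 : ZMod n) * ((2 * k : ℤ) : ZMod n)) := by
    have : (w ^ 2) ^ k = w ^ (2 * k) := by
      rw [zpow_mul]; norm_cast
    rw [this, map_zpow, hσw, r_two_zpow]
  rw [← hk, e1, one_def] at htσ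
  have h4 : (2 : ZMod n) * ((2 * k : ℤ) : ZMod n) = 0 := r.inj htσ
  have h5 : ((4 * k : ℤ) : ZMod n) = 0 := by
    push_cast at h4 ⊢
    linear_combination h4
  rw [ZMod.intCast_zmod_eq_zero_iff_dvd] at h5
  have hcop : IsCoprime (n : ℤ) 4 := by
    have h6 : Nat.Coprime n 4 := by
      have h7 : Nat.Coprime n 2 := Nat.coprime_two_right.mpr hn
      exact Nat.Coprime.pow_right 2 h7
    exact_mod_cast Nat.isCoprime_iff_coprime.mpr h6
  have h8 : (n : ℤ) ∣ k := hcop.dvd_of_dvd_mul_left h5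
  obtain ⟨q, rfl⟩ := h8
  have e2 : (w ^ 2) ^ ((n : ℤ) * q) = (w ^ (2 * (n : ℤ))) ^ q := by
    have h9 : (w ^ 2 : Γ) = w ^ (2 : ℤ) := by norm_cast
    rw [h9, ← zpow_mul, ← zpow_mul, mul_assoc]
  rw [← hk, e2, hw2n, one_zpow]
  exact one_mem _

/-- For odd `n` the dihedral group of order `2 n` has trivial Schur multiplier. -/
theorem result (n : ℕ) (hn : Odd n) : Cfsg.HasCyclicSchurMultiplier (DihedralGroup n) 1 := by
  have hn0 : n ≠ 0 := by
    rintro rfl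
    exact absurd hn (by decide)
  haveI : NeZero n := ⟨hn0⟩
  refine ⟨⟨DihedralGroup n, inferInstance, inferInstance, MonoidHom.id _, ?_, ?_⟩, ?_⟩
  · refine ⟨Function.surjective_id, ?_, ?_⟩
    · intro x hx
      have : x = 1 := hx
      rw [this]; exact one_mem _
    · intro x hx
      have : x = 1 := hx
      rw [this]; exact one_mem _
  · refine ⟨{ toFun := fun _ => 1, invFun := fun _ => 1, left_inv := ?_, right_inv := ?_, map_mul' := ?_ }⟩
    · rintro ⟨x, hx⟩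
      have : x = 1 := hx
      exact Subtype.ext this.symm
    · intro x
      exact Subsingleton.elim _ _
    · intro _ _
      exact Subsingleton.elim _ _
  · intro Γ _ _ σ h
    have hk := ker_eq_bot hn σ h.1 h.2.1 h.2.2
    refine ⟨1, ?_⟩
    rintro ⟨x, hx⟩
    rw [hk, Subgroup.mem_bot] at hx
    exact ⟨1, Subtype.ext (by simp [hx])⟩

end Cfsg.Agent.S3964
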