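import Cfsg.Statements.S3965
import Mathlib

set_option autoImplicit false
open Cfsg
open scoped commutatorElement

namespace Cfsg.Agent.S3965

open DihedralGroup

/-- Homomorphism from `Multiplicative (ZMod 2)` attached to an element with square one. -/
def homOfSq {K : Type*} [Group K] (u : K) (hu : u * u = 1) : Multiplicative (ZMod 2) →* K where
  toFun a := if Multiplicative.toAdd a = 0 then 1 else u
  map_one' := by simp
  map_mul' := by
    intro a b
    have key : ∀ a b : ZMod 2, (if a + b = 0 then (1 : K) else u)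
        = (if a = 0 then 1 else u) * (if b = 0 then 1 else u) := by
      intro a b
      have h2 : ∀ a : ZMod 2, a = 0 ∨ a = 1 := by decide
      have h10 : (1 : ZMod 2) ≠ 0 := by decide
      have h11 : (1 : ZMod 2) + 1 = 0 := by decide
      rcases h2 a with rfl | rfl <;> rcases h2 b with rfl | rfl <;> simp [h10, h11, hu]
    exact key _ _

theorem r_zpow {n : ℕ} (i : ZMod n) (a : ℤ) : (r i : DihedralGroup n) ^ a = r (i * (a : ZMod n)) := by
  induction a using Int.induction_on with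
  | zero => simp
  | succ k ih =>
    rw [zpow_add_one, ih, r_mul_r]
    congr 1
    push_cast
    ring
  | pred k ih =>
    rw [zpow_sub_one, ih, inv_r, r_mul_r]
    congr 1
    push_cast
    ring

/-- The upper bound: the kernel of a stem extension of `D_{2n}` (`n = 2 * m`) is contained in
`{1, u}` for an element `u` of the kernel with square one. -/
theorem exists_ker_le {n : ℕ} [NeZero n] (hn : Even n) {Γ : Type*} [Group Γ]
    (σ : Γ →* DihedralGroup n)
    (hs : Function.Surjective σ) (hZ : σ.ker ≤ Subgroup.center Γ) (hZ' : σ.ker ≤ commutator Γ) :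
    ∃ u ∈ σ.ker, u * u = 1 ∧ ∀ t ∈ σ.ker, t = 1 ∨ t = u := by
  obtain ⟨x, hx⟩ := hs (r 1)
  obtain ⟨y, hy⟩ := hs (sr 0)
  obtain ⟨m, hm⟩ := hn
  have hcen : ∀ z ∈ σ.ker, ∀ g : Γ, g * z = z * g := by
    intro z hz g
    exact (Subgroup.mem_center_iff.mp (hZ hz)) g
  set z3 := y * x * y⁻¹ * x with hz3def
  have hz3 : z3 ∈ σ.ker := by
    rw [MonoidHom.mem_ker, hz3def]
    simp [hx, hy]
  have hyx : y * x * y⁻¹ = z3 * x⁻¹ := by rw [hz3def]; group
  have hz3c := hcen z3 hz3
  have hyxi : y * x⁻¹ * y⁻¹ = x * z3⁻¹ := by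
    have : y * x⁻¹ * y⁻¹ = (y * x * y⁻¹)⁻¹ := by group
    rw [this, hyx]; group
  set w := x * x * z3⁻¹ with hwdef
  have hwcomm : x * y * x⁻¹ * y⁻¹ = w := by
    calc x * y * x⁻¹ * y⁻¹ = x * (y * x⁻¹ * y⁻¹) := by group
      _ = w := by rw [hyxi, hwdef]; group
  have hσw : σ w = r 2 := by
    rw [← hwcomm]
    simp [hx, hy]
    ring_nf
  have hyw : y * w * y⁻¹ = w⁻¹ := by
    have h1 : y * z3⁻¹ * y⁻¹ = z3⁻¹ := by
      have : y * z3 = z3 * y := hz3c y
      have h2 : y * z3⁻¹ = z3⁻¹ * y := by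
        rw [eq_inv_mul_iff_mul_eq, ← mul_assoc, ← this]; group
      rw [h2]; group
    calc y * w * y⁻¹ = (y * x * y⁻¹) * (y * x * y⁻¹) * (y * z3⁻¹ * y⁻¹) := by rw [hwdef]; group
      _ = (z3 * x⁻¹) * (z3 * x⁻¹) * z3⁻¹ := by rw [hyx, h1]
      _ = z3 * x⁻¹ * (x⁻¹ * z3) * z3⁻¹ := by
          have : x⁻¹ * z3 = z3 * x⁻¹ := hz3c x⁻¹
          rw [this]
      _ = w⁻¹ := by rw [hwdef]; group
  have hyk : ∀ k : ℤ, y * w ^ k * y⁻¹ = w ^ (-k) := by
    intro k
    rw [← conj_zpow, hyw, inv_zpow, zpow_neg]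
  have hy2 : y * y ∈ σ.ker := by
    rw [MonoidHom.mem_ker, map_mul, hy, sr_mul_sr, sub_self]
    rfl
  have hy2c := hcen _ hy2
  -- `[x^a, y] = w^a`
  have hxz : Commute x (x * z3⁻¹) := by
    show x * (x * z3⁻¹) = (x * z3⁻¹) * x
    have : x * z3⁻¹ = z3⁻¹ * x := by
      rw [eq_inv_mul_iff_mul_eq, ← mul_assoc, ← hz3c x]; group
    calc x * (x * z3⁻¹) = x * (z3⁻¹ * x) := by rw [this]
      _ = (x * z3⁻¹) * x := by group
  have hxa : ∀ a : ℤ, x ^ a * (y * x ^ (-a) * y⁻¹) = w ^ a := by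
    intro a
    have h1 : y * x ^ (-a) * y⁻¹ = (x * z3⁻¹) ^ a := by
      have : x ^ (-a) = (x⁻¹) ^ a := by rw [zpow_neg, inv_zpow]
      rw [this, ← conj_zpow, hyxi]
    rw [h1, ← hxz.mul_zpow, hwdef, mul_assoc]
  have hform : ∀ g : Γ, (∃ a : ℤ, ∃ z ∈ σ.ker, g = x ^ a * z) ∨ (∃ a : ℤ, ∃ z ∈ σ.ker, g = y * x ^ a * z) := by
    have key : ∀ g : Γ, ∀ i : ZMod n, σ g = r i → ∃ a : ℤ, ∃ z ∈ σ.ker, g = x ^ a * z := by
      intro g i hg
      refine ⟨(i.val : ℤ), (x ^ (i.val : ℤ))⁻¹ * g, ?_, by group⟩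
      rw [MonoidHom.mem_ker, map_mul, map_inv, map_zpow, hx, hg, r_zpow]
      simp
    intro g
    rcases hg : σ g with i | i
    · left
      exact key g i hg
    · right
      obtain ⟨a, z, hz, h⟩ := key (y⁻¹ * g) i (by
        rw [map_mul, map_inv, hy, hg]
        simp)
      refine ⟨a, z, hz, ?_⟩
      rw [mul_assoc, ← h]; group
  set D : Subgroup Γ := Subgroup.zpowers w with hD
  have hD1 : ∀ k : ℤ, w ^ k ∈ D := fun k => Subgroup.zpow_mem_zpowers _ _
  have hcomm : ∀ g h : Γ, ⁅g, h⁆ ∈ D := by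
    intro g h
    have hcz : ∀ (u v z z' : Γ), z ∈ σ.ker → z' ∈ σ.ker → ⁅u * z, v * z'⁆ = ⁅u, v⁆ := by
      intro u v z z' hz hz'
      rw [commutatorElement_def, commutatorElement_def]
      have h1 := hcen z hz
      have h2 := hcen z' hz'
      calc u * z * (v * z') * (u * z)⁻¹ * (v * z')⁻¹
          = u * (z * v) * z' * z⁻¹ * u⁻¹ * z'⁻¹ * v⁻¹ := by group
        _ = u * (v * z) * z' * z⁻¹ * u⁻¹ * z'⁻¹ * v⁻¹ := by rw [h1 v]
        _ = u * v * (z * z' * z⁻¹) * u⁻¹ * z'⁻¹ * v⁻¹ := by group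
        _ = u * v * z' * u⁻¹ * z'⁻¹ * v⁻¹ := by
            have : z * z' * z⁻¹ = z' := by rw [h2 z]; group
            rw [this]
        _ = u * v * (z' * u⁻¹) * z'⁻¹ * v⁻¹ := by group
        _ = u * v * (u⁻¹ * z') * z'⁻¹ * v⁻¹ := by rw [h2 u⁻¹]
        _ = u * v * u⁻¹ * v⁻¹ := by group
    have hcase : ∀ u v z z' : Γ, z ∈ σ.ker → z' ∈ σ.ker → ⁅u, v⁆ ∈ D → ⁅u * z, v * z'⁆ ∈ D := by
      intro u v z z' hz hz' h
      rw [hcz u v z z' hz hz']; exact h
    rcases hform g with ⟨a, z, hz, rfl⟩ | ⟨a, z, hz, rfl⟩ <;>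
      rcases hform h with ⟨b, z', hz', rfl⟩ | ⟨b, z', hz', rfl⟩
    · apply hcase _ _ _ _ hz hz'
      have : ⁅x ^ a, x ^ b⁆ = 1 := by
        rw [commutatorElement_eq_one_iff_mul_comm]
        exact zpow_mul_comm x a b
      rw [this]; exact one_mem _
    · apply hcase _ _ _ _ hz hz'
      rw [commutatorElement_def]
      have e : x ^ a * (y * x ^ b) * (x ^ a)⁻¹ * (y * x ^ b)⁻¹ = x ^ a * (y * x ^ (-a) * y⁻¹) := by
        group
      rw [e, hxa]; exact hD1 a
    · apply hcase _ _ _ _ hz hz'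
      rw [commutatorElement_def]
      have e : y * x ^ a * x ^ b * (y * x ^ a)⁻¹ * (x ^ b)⁻¹ = (x ^ b * (y * x ^ (-b) * y⁻¹))⁻¹ := by
        group
      rw [e, hxa]; exact D.inv_mem (hD1 b)
    · apply hcase _ _ _ _ hz hz'
      rw [commutatorElement_def]
      -- set `X = y x y⁻¹` which commutes with `x`
      have hXc : Commute x (y * x * y⁻¹) := by
        show x * (y * x * y⁻¹) = (y * x * y⁻¹) * x
        rw [hyx]
        have : x * z3 = z3 * x := hz3c x
        calc x * (z3 * x⁻¹) = (x * z3) * x⁻¹ := by group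
          _ = z3 * x * x⁻¹ := by rw [this]
          _ = z3 * x⁻¹ * x := by group
      have hcj : ∀ k : ℤ, y * x ^ k * y⁻¹ = (y * x * y⁻¹) ^ k := fun k => (conj_zpow).symm
      have e1 : y * x ^ a * (y * x ^ b) * (y * x ^ a)⁻¹ * (y * x ^ b)⁻¹
          = (y * x ^ a * y⁻¹) * ((y * y) * x ^ (b - a)) * y⁻¹ * x ^ (-b) * y⁻¹ := by group
      have e2 : (y * x ^ a * y⁻¹) * ((y * y) * x ^ (b - a)) * y⁻¹ * x ^ (-b) * y⁻¹
          = (y * x ^ a * y⁻¹) * (x ^ (b - a) * (y * y)) * y⁻¹ * x ^ (-b) * y⁻¹ := by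
        rw [hy2c]
      have e3 : (y * x ^ a * y⁻¹) * (x ^ (b - a) * (y * y)) * y⁻¹ * x ^ (-b) * y⁻¹
          = (y * x ^ a * y⁻¹) * x ^ (b - a) * (y * x ^ (-b) * y⁻¹) := by group
      rw [e1, e2, e3]
      -- Everything now commutes
      have e4 : (y * x ^ a * y⁻¹) * x ^ (b - a) * (y * x ^ (-b) * y⁻¹)
          = x ^ (b - a) * (y * x ^ (a - b) * y⁻¹) := by
        rw [hcj, hcj, hcj]
        have h5 : Commute ((y * x * y⁻¹) ^ a) (x ^ (b - a)) := (hXc.symm.zpow_zpow a (b - a))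
        rw [h5.eq, mul_assoc, ← zpow_add]
        congr 2
      rw [e4]
      have h6 := hxa (b - a)
      rw [neg_sub] at h6
      rw [h6]
      exact hD1 _
  -- conclusion
  have hm0 : m ≠ 0 := by
    rintro rfl
    exact NeZero.ne n (by omega)
  have hu : w ^ (m : ℤ) ∈ σ.ker := by
    rw [MonoidHom.mem_ker, map_zpow, hσw, r_zpow, one_def]
    congr 1
    have h3 : ((m + m : ℕ) : ZMod n) = 0 := by rw [← hm]; exact ZMod.natCast_self n
    push_cast at h3 ⊢
    linear_combination h3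
  have huu : w ^ (m : ℤ) * w ^ (m : ℤ) = 1 := by
    have h2 := hyk (m : ℤ)
    have h3 : y * w ^ (m : ℤ) * y⁻¹ = w ^ (m : ℤ) := by
      rw [hcen _ hu y]; group
    rw [h3] at h2
    nth_rewrite 1 [h2]
    group
  refine ⟨w ^ (m : ℤ), hu, huu, ?_⟩
  intro t ht
  have hc : commutator Γ ≤ D := by
    rw [commutator_def, Subgroup.commutator_le]
    intro g _ h _
    exact hcomm g h
  obtain ⟨k, hk⟩ := Subgroup.mem_zpowers_iff.mp (hc (hZ' ht))
  have htσ : σ t = 1 := ht
  rw [← hk, map_zpow, hσw, r_zpow, one_def] at htσ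
  have h4 : (2 : ZMod n) * (k : ZMod n) = 0 := r.inj htσ
  have h5 : ((2 * k : ℤ) : ZMod n) = 0 := by
    push_cast
    exact h4
  rw [ZMod.intCast_zmod_eq_zero_iff_dvd] at h5
  have h6 : (m : ℤ) ∣ k := by
    have h7 : ((m : ℤ) * 2) ∣ 2 * k := by
      have : (n : ℤ) = (m : ℤ) * 2 := by rw [hm]; push_cast; ring
      rwa [this] at h5
    rw [mul_comm (m : ℤ) 2] at h7
    exact (mul_dvd_mul_iff_left (by norm_num)).mp h7
  obtain ⟨q, rfl⟩ := h6
  have e2 : w ^ ((m : ℤ) * q) = (w ^ (m : ℤ)) ^ q := zpow_mul _ _ _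
  rw [← hk, e2]
  have hsq : (w ^ (m : ℤ)) ^ (2 : ℤ) = 1 := by
    rw [zpow_two]; exact huu
  rcases Int.even_or_odd' q with ⟨j, rfl | rfl⟩
  · left
    rw [zpow_mul, hsq, one_zpow]
  · right
    rw [zpow_add, zpow_mul, hsq, one_zpow, one_mul, zpow_one]

/-- The covering map `D_{2(2n)} → D_{2n}`. -/
def coverHom (n : ℕ) : DihedralGroup (2 * n) →* DihedralGroup n where
  toFun
    | r i => r (ZMod.castHom (Dvd.intro_left 2 rfl) (ZMod n) i)
    | sr i => sr (ZMod.castHom (Dvd.intro_left 2 rfl) (ZMod n) i)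
  map_one' := by
    show r (ZMod.castHom _ (ZMod n) 0) = 1
    rw [map_zero]
    rfl
  map_mul' := by
    rintro (i | i) (j | j) <;> simp [map_add, map_sub]

/-- For even `n ≥ 2` the dihedral group of order `2 n` has Schur multiplier cyclic of order `2`. -/
theorem result (n : ℕ) [NeZero n] (hn : Even n) : Cfsg.HasCyclicSchurMultiplier (DihedralGroup n) 2 := by
  refine ⟨?_, ?_⟩
  · have hn0 : n ≠ 0 := NeZero.ne n
    haveI h2n : NeZero (2 * n) := ⟨by omega⟩
    obtain ⟨m, hm⟩ := hn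
    set c : ZMod (2 * n) →+* ZMod n := ZMod.castHom (Dvd.intro_left 2 rfl) (ZMod n) with hc
    have hcr : ∀ i, coverHom n (r i) = r (c i) := fun _ => rfl
    have hcs : ∀ i, coverHom n (sr i) = sr (c i) := fun _ => rfl
    have hcn : ∀ v : ℕ, c (v : ZMod (2 * n)) = (v : ZMod n) := fun v => map_natCast c v
    have hsurj : Function.Surjective (coverHom n) := by
      rintro (i | i)
      · refine ⟨r ((i.val : ℕ) : ZMod (2 * n)), ?_⟩
        rw [hcr, hcn, ZMod.natCast_zmod_val]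
      · refine ⟨sr ((i.val : ℕ) : ZMod (2 * n)), ?_⟩
        rw [hcs, hcn, ZMod.natCast_zmod_val]
    have hnn : ((n : ℕ) : ZMod (2 * n)) + (n : ZMod (2 * n)) = 0 := by
      have := ZMod.natCast_self (2 * n)
      push_cast at this
      rw [← this]; ring
    have hkerr : r ((n : ℕ) : ZMod (2 * n)) ∈ (coverHom n).ker := by
      rw [MonoidHom.mem_ker, hcr, hcn, ZMod.natCast_self]
      rfl
    have hne : (n : ZMod (2 * n)) ≠ 0 := by
      rw [Ne, ZMod.natCast_eq_zero_iff]
      intro h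
      have := Nat.le_of_dvd (Nat.pos_of_ne_zero hn0) h
      omega
    have hkerform : ∀ t ∈ (coverHom n).ker, t = 1 ∨ t = r ((n : ℕ) : ZMod (2 * n)) := by
      rintro (i | i) ht
      · have h1 : r (c i) = (1 : DihedralGroup n) := ht
        rw [one_def] at h1
        have h2 : c i = 0 := r.inj h1
        have hi : ((i.val : ℕ) : ZMod (2 * n)) = i := ZMod.natCast_zmod_val i
        rw [← hi, hcn, ZMod.natCast_eq_zero_iff] at h2
        obtain ⟨d, hd⟩ := h2
        have hlt : i.val < 2 * n := ZMod.val_lt i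
        have hd2 : d < 2 := by
          by_contra hcon
          have : 2 ≤ d := by omega
          have : n * 2 ≤ n * d := Nat.mul_le_mul_left n this
          omega
        have hd3 : d = 0 ∨ d = 1 := by omega
        rcases hd3 with rfl | rfl
        · left
          rw [one_def, ← hi, hd]
          simp
        · right
          rw [← hi, hd]
          simp
      · have h1 : sr (c i) = (1 : DihedralGroup n) := ht
        rw [one_def] at h1
        cases h1
    have hcentral : ∀ g : DihedralGroup (2 * n), g * r ((n : ℕ) : ZMod (2 * n)) = r ((n : ℕ) : ZMod (2 * n)) * g := by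
      rintro (i | i)
      · simp [add_comm]
      · simp only [sr_mul_r, r_mul_sr]
        congr 1
        linear_combination hnn
    have hu : (⟨r ((n : ℕ) : ZMod (2 * n)), hkerr⟩ : (coverHom n).ker) * ⟨r ((n : ℕ) : ZMod (2 * n)), hkerr⟩ = 1 := by
      apply Subtype.ext
      show r ((n : ℕ) : ZMod (2 * n)) * r ((n : ℕ) : ZMod (2 * n)) = 1
      rw [r_mul_r, hnn, one_def]
    refine ⟨DihedralGroup (2 * n), inferInstance, inferInstance, coverHom n, ⟨hsurj, ?_, ?_⟩, ?_⟩
    · intro t ht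
      rw [Subgroup.mem_center_iff]
      rcases hkerform t ht with rfl | rfl
      · intro g; simp
      · intro g; exact hcentral g
    · intro t ht
      rcases hkerform t ht with rfl | rfl
      · exact one_mem _
      · have h1 : ⁅(r 1 : DihedralGroup (2 * n)), (sr 0 : DihedralGroup (2 * n))⁆ = r 2 := by
          rw [commutatorElement_def]
          simp
          ring_nf
        have h2 : (r (2 : ZMod (2 * n)) : DihedralGroup (2 * n)) ^ (m : ℤ) = r ((n : ℕ) : ZMod (2 * n)) := by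
          rw [r_zpow, hm]
          congr 1
          push_cast
          ring
        rw [← h2, ← h1]
        apply Subgroup.zpow_mem
        rw [commutator_def]
        exact Subgroup.commutator_mem_commutator (Subgroup.mem_top _) (Subgroup.mem_top _)
    · refine ⟨(MulEquiv.ofBijective (homOfSq _ hu) ⟨?_, ?_⟩).symm⟩
      · rw [injective_iff_map_eq_one]
        intro a ha
        have h2 : ∀ a : ZMod 2, a = 0 ∨ a = 1 := by decide
        rcases h2 (Multiplicative.toAdd a) with h0 | h0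
        · exact h0
        · exfalso
          have h10 : (1 : ZMod 2) ≠ 0 := by decide
          have h3 : homOfSq _ hu a = ⟨r ((n : ℕ) : ZMod (2 * n)), hkerr⟩ := by
            show (if Multiplicative.toAdd a = 0 then 1 else _) = _
            rw [h0, if_neg h10]
          rw [h3] at ha
          have h4 : r ((n : ℕ) : ZMod (2 * n)) = 1 := congrArg Subtype.val ha
          rw [one_def] at h4
          exact hne (r.inj h4)
      · rintro ⟨t, ht⟩
        rcases hkerform t ht with rfl | rfl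
        · exact ⟨1, by simp; rfl⟩
        · refine ⟨Multiplicative.ofAdd 1, ?_⟩
          have h10 : (1 : ZMod 2) ≠ 0 := by decide
          simp [homOfSq, h10]
  · intro Γ _ _ σ h
    obtain ⟨u, hu, huu, hall⟩ := exists_ker_le hn σ h.1 h.2.1 h.2.2
    have hu' : (⟨u, hu⟩ : σ.ker) * ⟨u, hu⟩ = 1 := Subtype.ext huu
    refine ⟨homOfSq _ hu', ?_⟩
    rintro ⟨t, ht⟩
    rcases hall t ht with rfl | rfl
    · exact ⟨1, by simp; rfl⟩
    · refine ⟨Multiplicative.ofAdd 1, ?_⟩
      have h10 : (1 : ZMod 2) ≠ 0 := by decide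
      simp [homOfSq, h10]

end Cfsg.Agent.S3965
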