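import Cfsg.Statements.S3966
import Mathlib
-- import your own Cfsg.Agent.* helpers here

set_option autoImplicit false
open Cfsg
open scoped commutatorElement

namespace Cfsg.Agent.S3966

open QuaternionGroup

/-- The covering map `Q_{4n} → D_{2n}`. -/
def coverHom (n : ℕ) : QuaternionGroup n →* DihedralGroup n where
  toFun
    | a i => DihedralGroup.r (ZMod.castHom (Dvd.intro_left 2 rfl) (ZMod n) i)
    | xa i => DihedralGroup.sr (ZMod.castHom (Dvd.intro_left 2 rfl) (ZMod n) i)
  map_one' := by
    show DihedralGroup.r (ZMod.castHom _ (ZMod n) 0) = 1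
    rw [map_zero]
    rfl
  map_mul' := by
    rintro (i | i) (j | j) <;> simp [map_add, map_sub]

/-- For even `n ≥ 2` the dicyclic group of order `4 n` is a stem extension of the dihedral group of order `2 n` with kernel of order `2`: there is a surjective homomorphism `QuaternionGroup n →* DihedralGroup n` whose kernel is central, lies in the commutator subgroup and has two elements. Together with the order of the multiplier this exhibits the dicyclic group as a Schur covering group of the dihedral group. -/
theorem result (n : ℕ) [NeZero n] (hn : Even n) : ∃ σ : QuaternionGroup n →* DihedralGroup n, Cfsg.IsStemExtension σ ∧ Nat.card σ.ker = 2 := by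
  have hn0 : n ≠ 0 := NeZero.ne n
  haveI h2n : NeZero (2 * n) := ⟨by omega⟩
  obtain ⟨m, hm⟩ := hn
  set c : ZMod (2 * n) →+* ZMod n := ZMod.castHom (Dvd.intro_left 2 rfl) (ZMod n) with hc
  have hcr : ∀ i, coverHom n (a i) = DihedralGroup.r (c i) := fun _ => rfl
  have hcs : ∀ i, coverHom n (xa i) = DihedralGroup.sr (c i) := fun _ => rfl
  have hcn : ∀ v : ℕ, c (v : ZMod (2 * n)) = (v : ZMod n) := fun v => map_natCast c v
  have hsurj : Function.Surjective (coverHom n) := by
    rintro (i | i)
    · refine ⟨a ((i.val : ℕ) : ZMod (2 * n)), ?_⟩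
      rw [hcr, hcn, ZMod.natCast_zmod_val]
    · refine ⟨xa ((i.val : ℕ) : ZMod (2 * n)), ?_⟩
      rw [hcs, hcn, ZMod.natCast_zmod_val]
  have hnn : ((n : ℕ) : ZMod (2 * n)) + (n : ZMod (2 * n)) = 0 := by
    have := ZMod.natCast_self (2 * n)
    push_cast at this
    rw [← this]; ring
  have hkerr : a ((n : ℕ) : ZMod (2 * n)) ∈ (coverHom n).ker := by
    rw [MonoidHom.mem_ker, hcr, hcn, ZMod.natCast_self]
    rfl
  have hne : (n : ZMod (2 * n)) ≠ 0 := by
    rw [Ne, ZMod.natCast_eq_zero_iff]
    intro h
    have := Nat.le_of_dvd (Nat.pos_of_ne_zero hn0) h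
    omega
  have hkerform : ∀ t ∈ (coverHom n).ker, t = 1 ∨ t = a ((n : ℕ) : ZMod (2 * n)) := by
    rintro (i | i) ht
    · have h1 : DihedralGroup.r (c i) = (1 : DihedralGroup n) := ht
      rw [DihedralGroup.one_def] at h1
      have h2 : c i = 0 := DihedralGroup.r.inj h1
      have hi : ((i.val : ℕ) : ZMod (2 * n)) = i := ZMod.natCast_zmod_val i
      rw [← hi, hcn, ZMod.natCast_eq_zero_iff] at h2
      obtain ⟨d, hd⟩ := h2
      have hlt : i.val < 2 * n := ZMod.val_lt i
      have hd2 : d < 2 := by
        by_contra hcon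
        have : 2 ≤ d := by omega
        have : n * 2 ≤ n * d := Nat.mul_le_mul_left n this
        omega
      have hd3 : d = 0 ∨ d = 1 := by omega
      rcases hd3 with rfl | rfl
      · left
        rw [QuaternionGroup.one_def, ← hi, hd]
        simp
      · right
        rw [← hi, hd]
        simp
    · have h1 : DihedralGroup.sr (c i) = (1 : DihedralGroup n) := ht
      rw [DihedralGroup.one_def] at h1
      cases h1
  have hcentral : ∀ g : QuaternionGroup n, g * a ((n : ℕ) : ZMod (2 * n)) = a ((n : ℕ) : ZMod (2 * n)) * g := by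
    rintro (i | i)
    · simp [add_comm]
    · simp only [xa_mul_a, a_mul_xa]
      congr 1
      linear_combination hnn
  refine ⟨coverHom n, ⟨hsurj, ?_, ?_⟩, ?_⟩
  · intro t ht
    rw [Subgroup.mem_center_iff]
    rcases hkerform t ht with rfl | rfl
    · intro g; simp
    · intro g; exact hcentral g
  · intro t ht
    rcases hkerform t ht with rfl | rfl
    · exact one_mem _
    · have h1 : ⁅(a 1 : QuaternionGroup n), (xa 0 : QuaternionGroup n)⁆ = a 2 := by
        have e1 : (a 1 : QuaternionGroup n)⁻¹ = a (-1) := rfl
        have e2 : (xa 0 : QuaternionGroup n)⁻¹ = xa ((n : ZMod (2 * n)) + 0) := rfl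
        rw [commutatorElement_def, e1, e2, a_mul_xa, xa_mul_a, xa_mul_xa]
        congr 1
        linear_combination hnn
      have h2 : (a (2 : ZMod (2 * n)) : QuaternionGroup n) ^ m = a ((n : ℕ) : ZMod (2 * n)) := by
        have h3 : ∀ k : ℕ, (a (2 : ZMod (2 * n)) : QuaternionGroup n) ^ k = a (2 * (k : ZMod (2 * n))) := by
          intro k
          induction k with
          | zero => simp
          | succ k ih =>
            rw [pow_succ, ih, a_mul_a]
            congr 1
            push_cast
            ring
        rw [h3, hm]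
        congr 1
        push_cast
        ring
      rw [← h2, ← h1]
      apply Subgroup.pow_mem
      rw [commutator_def]
      exact Subgroup.commutator_mem_commutator (Subgroup.mem_top _) (Subgroup.mem_top _)
  · rw [Nat.card_eq_two_iff]
    refine ⟨1, ⟨_, hkerr⟩, ?_, ?_⟩
    · intro h
      have h4 : (1 : QuaternionGroup n) = a ((n : ℕ) : ZMod (2 * n)) := congrArg Subtype.val h
      rw [QuaternionGroup.one_def] at h4
      exact hne (a.inj h4).symm
    · ext ⟨t, ht⟩
      simp only [Set.mem_insert_iff, Set.mem_singleton_iff, Set.mem_univ, iff_true, Subtype.ext_iff]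
      exact hkerform t ht

end Cfsg.Agent.S3966
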