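import Cfsg.Statements.S3967
import Mathlib

set_option autoImplicit false
set_option linter.unusedVariables false
set_option linter.unusedSectionVars false
open Cfsg

namespace Cfsg.Agent.S3967

open scoped commutatorElement

/-! ### A group with the required relations in which the element `x` has the exact order `M`. -/

section Model

variable (M : ℕ) (u : (ZMod M)ˣ)

/-- Multiplication by a unit. -/
def psi : MulAut (Multiplicative (ZMod M)) where
  toFun x := Multiplicative.ofAdd ((u : ZMod M) * x.toAdd)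
  invFun x := Multiplicative.ofAdd (((u⁻¹ : (ZMod M)ˣ) : ZMod M) * x.toAdd)
  left_inv x := by
    apply Multiplicative.toAdd.injective
    simp
  right_inv x := by
    apply Multiplicative.toAdd.injective
    simp
  map_mul' x y := by
    apply Multiplicative.toAdd.injective
    simp [mul_add]

lemma psi_pow (k : ℕ) (x : Multiplicative (ZMod M)) :
    (psi M u ^ k) x = Multiplicative.ofAdd (((u ^ k : (ZMod M)ˣ) : ZMod M) * x.toAdd) := by
  induction k generalizing x with
  | zero => simp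
  | succ k ih =>
    rw [pow_succ, MulAut.mul_apply, ih]
    apply Multiplicative.toAdd.injective
    simp [psi, pow_succ, mul_assoc]

lemma psi_zpow (k : ℤ) (x : Multiplicative (ZMod M)) :
    (psi M u ^ k) x = Multiplicative.ofAdd (((u ^ k : (ZMod M)ˣ) : ZMod M) * x.toAdd) := by
  cases k with
  | ofNat k => simpa using psi_pow M u k x
  | negSucc k =>
    rw [zpow_negSucc, zpow_negSucc]
    have e : ((psi M u ^ (k + 1))⁻¹ : MulAut (Multiplicative (ZMod M))) x =
        (psi M u ^ (k + 1)).symm x := rfl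
    rw [e, MulEquiv.symm_apply_eq, psi_pow]
    apply Multiplicative.toAdd.injective
    rw [toAdd_ofAdd, toAdd_ofAdd, ← mul_assoc, Units.mul_inv, one_mul]

/-- The action of the integers. -/
def phi : Multiplicative ℤ →* MulAut (Multiplicative (ZMod M)) := zpowersHom _ (psi M u)

lemma phi_apply (k : Multiplicative ℤ) (x : Multiplicative (ZMod M)) :
    phi M u k x = Multiplicative.ofAdd (((u ^ k.toAdd : (ZMod M)ˣ) : ZMod M) * x.toAdd) := by
  simp only [phi, zpowersHom_apply]
  exact psi_zpow M u _ x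

/-- The semidirect product. -/
abbrev PP := Multiplicative (ZMod M) ⋊[phi M u] Multiplicative ℤ

end Model

/-- The model: a group with `x ^ M = 1`, `y ^ n = x ^ T`, `y x y⁻¹ = x ^ R`, and `x` of order exactly `M`. -/
theorem exists_model (M n R T : ℕ) (hM : 0 < M) (hn : 0 < n) (hR : R ^ n ≡ 1 [MOD M])
    (hT : T * R ≡ T [MOD M]) :
    ∃ (X : Type) (_ : Group X) (x y : X), x ^ M = 1 ∧ y ^ n = x ^ T ∧ y * x * y⁻¹ = x ^ R ∧
      ∀ k : ℕ, x ^ k = 1 → M ∣ k := by
  classical
  have hRn : ((R : ZMod M)) ^ n = 1 := by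
    have := (ZMod.natCast_eq_natCast_iff _ _ M).2 hR
    simpa using this
  let u : (ZMod M)ˣ :=
    { val := (R : ZMod M), inv := (R : ZMod M) ^ (n - 1)
      val_inv := by
        rw [← pow_succ', Nat.sub_add_cancel hn, hRn]
      inv_val := by
        rw [← pow_succ, Nat.sub_add_cancel hn, hRn] }
  have hun : u ^ n = 1 := by
    apply Units.ext
    simpa [u] using hRn
  have hTu : (u : ZMod M) * (T : ZMod M) = (T : ZMod M) := by
    have := (ZMod.natCast_eq_natCast_iff _ _ M).2 hT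
    simp only [Nat.cast_mul] at this
    show (R : ZMod M) * T = T
    rw [mul_comm]
    exact this
  have hTuz : ∀ k : ℤ, ((u ^ k : (ZMod M)ˣ) : ZMod M) * (T : ZMod M) = T := by
    have h1 : ∀ k : ℕ, ((u ^ k : (ZMod M)ˣ) : ZMod M) * (T : ZMod M) = T := by
      intro k
      induction k with
      | zero => simp
      | succ k ih =>
        rw [pow_succ, Units.val_mul, mul_assoc, hTu, ih]
    have h2 : ∀ k : ℕ, (((u ^ k)⁻¹ : (ZMod M)ˣ) : ZMod M) * (T : ZMod M) = T := by
      intro k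
      calc (((u ^ k)⁻¹ : (ZMod M)ˣ) : ZMod M) * (T : ZMod M)
          = (((u ^ k)⁻¹ : (ZMod M)ˣ) : ZMod M) * (((u ^ k : (ZMod M)ˣ) : ZMod M) * (T : ZMod M)) := by
            rw [h1]
        _ = T := by
            rw [← mul_assoc, Units.inv_mul, one_mul]
    intro k
    cases k with
    | ofNat k => simpa using h1 k
    | negSucc k =>
      rw [zpow_negSucc]
      exact h2 _
  let c : PP M u := ⟨Multiplicative.ofAdd (-(T : ZMod M)), Multiplicative.ofAdd (n : ℤ)⟩
  have hc : c ∈ Subgroup.center (PP M u) := by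
    rw [Subgroup.mem_center_iff]
    intro p
    apply SemidirectProduct.ext
    · rw [SemidirectProduct.mul_left, SemidirectProduct.mul_left]
      rw [phi_apply, phi_apply]
      apply Multiplicative.toAdd.injective
      show p.left.toAdd + ((u ^ p.right.toAdd : (ZMod M)ˣ) : ZMod M) * (-(T : ZMod M)) =
        (-(T : ZMod M)) + ((u ^ (n : ℤ) : (ZMod M)ˣ) : ZMod M) * p.left.toAdd
      rw [mul_neg, hTuz, zpow_natCast, hun]
      simp [add_comm]
    · rw [SemidirectProduct.mul_right, SemidirectProduct.mul_right, mul_comm]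
  let N : Subgroup (PP M u) := Subgroup.zpowers c
  have hNc : N ≤ Subgroup.center (PP M u) := by
    rw [Subgroup.zpowers_le]
    exact hc
  haveI hN : N.Normal := by
    constructor
    intro z hz g
    have := Subgroup.mem_center_iff.mp (hNc hz) g
    rw [this, mul_inv_cancel_right]
    exact hz
  let X₀ : PP M u := SemidirectProduct.inl (Multiplicative.ofAdd (1 : ZMod M))
  let Y₀ : PP M u := SemidirectProduct.inr (Multiplicative.ofAdd (1 : ℤ))
  have hX : ∀ k : ℕ, X₀ ^ k = SemidirectProduct.inl (Multiplicative.ofAdd (k : ZMod M)) := by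
    intro k
    simp only [X₀, ← map_pow, ← ofAdd_nsmul, nsmul_one]
  have hY : ∀ k : ℕ, Y₀ ^ k = SemidirectProduct.inr (Multiplicative.ofAdd (k : ℤ)) := by
    intro k
    simp only [Y₀, ← map_pow, ← ofAdd_nsmul, nsmul_one]
  refine ⟨PP M u ⧸ N, inferInstance, (X₀ : PP M u ⧸ N), (Y₀ : PP M u ⧸ N), ?_, ?_, ?_, ?_⟩
  · rw [← QuotientGroup.mk_pow, hX]
    simp
  · rw [← QuotientGroup.mk_pow, ← QuotientGroup.mk_pow, eq_comm, QuotientGroup.eq, hX, hY]
    have : (SemidirectProduct.inl (Multiplicative.ofAdd (T : ZMod M)) : PP M u)⁻¹ *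
        SemidirectProduct.inr (Multiplicative.ofAdd (n : ℤ)) = c := by
      rw [← map_inv]
      exact SemidirectProduct.inl_left_mul_inr_right c
    rw [this]
    exact Subgroup.mem_zpowers c
  · rw [← QuotientGroup.mk_pow, ← QuotientGroup.mk_inv, ← QuotientGroup.mk_mul,
      ← QuotientGroup.mk_mul]
    congr 1
    rw [hX]
    have h1 : Y₀⁻¹ = SemidirectProduct.inr (Multiplicative.ofAdd (1 : ℤ))⁻¹ := by
      simp [Y₀]
    rw [h1]
    simp only [X₀, Y₀]
    rw [← SemidirectProduct.inl_aut, phi_apply]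
    congr 1
    apply Multiplicative.toAdd.injective
    simp [u]
  · intro k hk
    rw [← QuotientGroup.mk_pow, QuotientGroup.eq_one_iff, hX] at hk
    obtain ⟨w, hw⟩ := Subgroup.mem_zpowers_iff.mp hk
    have h1 := congrArg SemidirectProduct.rightHom hw
    rw [map_zpow, SemidirectProduct.rightHom_inl] at h1
    have h2 : SemidirectProduct.rightHom c = Multiplicative.ofAdd (n : ℤ) := rfl
    rw [h2, ← ofAdd_zsmul] at h1
    have h3 : w • (n : ℤ) = 0 := Multiplicative.ofAdd.injective h1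
    have h4 : w = 0 := by
      have hn' : (n : ℤ) ≠ 0 := by exact_mod_cast hn.ne'
      exact (mul_eq_zero.mp h3).resolve_right hn'
    rw [h4, zpow_zero] at hw
    have h5 := congrArg SemidirectProduct.left hw
    have h6 : (k : ZMod M) = 0 := by
      have := Multiplicative.ofAdd.injective (by simpa using h5.symm : Multiplicative.ofAdd (k : ZMod M) = Multiplicative.ofAdd 0)
      exact this
    exact (ZMod.natCast_eq_zero_iff k M).mp h6

/-! ### The presented group -/

/-- The relators. -/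
def rels (m n r t : ℕ) : Set (FreeGroup Bool) :=
  {FreeGroup.of true ^ m, (FreeGroup.of false) ^ n * (FreeGroup.of true ^ t)⁻¹,
    FreeGroup.of false * FreeGroup.of true * (FreeGroup.of false)⁻¹ * (FreeGroup.of true ^ r)⁻¹}

/-- The presented group. -/
abbrev Pres (m n r t : ℕ) := PresentedGroup (rels m n r t)

section PresSec

variable {m n r t : ℕ}

/-- The first generator. -/
def a : Pres m n r t := PresentedGroup.of true

/-- The second generator. -/
def b : Pres m n r t := PresentedGroup.of false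

lemma a_pow : (a : Pres m n r t) ^ m = 1 := by
  have : PresentedGroup.mk (rels m n r t) (FreeGroup.of true ^ m) = 1 :=
    PresentedGroup.one_of_mem (by simp [rels])
  rw [map_pow] at this
  exact this

lemma b_pow : (b : Pres m n r t) ^ n = a ^ t := by
  have : PresentedGroup.mk (rels m n r t) ((FreeGroup.of false) ^ n * (FreeGroup.of true ^ t)⁻¹) = 1 :=
    PresentedGroup.one_of_mem (by simp [rels])
  rw [map_mul, map_inv, map_pow, map_pow, mul_inv_eq_one] at this
  exact this

lemma conj_ab : (b : Pres m n r t) * a * b⁻¹ = a ^ r := by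
  have : PresentedGroup.mk (rels m n r t)
      (FreeGroup.of false * FreeGroup.of true * (FreeGroup.of false)⁻¹ * (FreeGroup.of true ^ r)⁻¹) = 1 :=
    PresentedGroup.one_of_mem (by simp [rels])
  rw [map_mul, map_mul, map_mul, map_inv, map_inv, map_pow, mul_inv_eq_one] at this
  exact this

lemma closure_ab : Subgroup.closure {(a : Pres m n r t), b} = ⊤ := by
  rw [← PresentedGroup.closure_range_of (rels m n r t)]
  congr 1
  ext x
  simp only [Set.mem_insert_iff, Set.mem_singleton_iff, Set.mem_range]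
  constructor
  · rintro (rfl | rfl)
    · exact ⟨true, rfl⟩
    · exact ⟨false, rfl⟩
  · rintro ⟨i, rfl⟩
    cases i
    · exact Or.inr rfl
    · exact Or.inl rfl

/-- The universal property. -/
def liftP {X : Type*} [Group X] (x y : X) (h1 : x ^ m = 1) (h2 : y ^ n = x ^ t)
    (h3 : y * x * y⁻¹ = x ^ r) : Pres m n r t →* X :=
  PresentedGroup.toGroup (f := fun i => cond i x y) (by
    intro z hz
    simp only [rels, Set.mem_insert_iff, Set.mem_singleton_iff] at hz
    rcases hz with rfl | rfl | rfl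
    · simpa using h1
    · simp [h2]
    · simp [h3])

@[simp] lemma liftP_a {X : Type*} [Group X] (x y : X) (h1 : x ^ m = 1) (h2 : y ^ n = x ^ t)
    (h3 : y * x * y⁻¹ = x ^ r) : liftP x y h1 h2 h3 (a : Pres m n r t) = x := by
  simp [liftP, a]

@[simp] lemma liftP_b {X : Type*} [Group X] (x y : X) (h1 : x ^ m = 1) (h2 : y ^ n = x ^ t)
    (h3 : y * x * y⁻¹ = x ^ r) : liftP x y h1 h2 h3 (b : Pres m n r t) = y := by
  simp [liftP, b]

end PresSec

section Conj

variable {X : Type*} [Group X] {x y : X} {r : ℕ}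

lemma conj_pow_x (h : y * x * y⁻¹ = x ^ r) (k : ℕ) : y * x ^ k * y⁻¹ = x ^ (r * k) := by
  rw [pow_mul, ← h, conj_pow]

lemma conj_pow_y (h : y * x * y⁻¹ = x ^ r) (j k : ℕ) : y ^ j * x ^ k * (y ^ j)⁻¹ = x ^ (r ^ j * k) := by
  induction j generalizing k with
  | zero => simp
  | succ j ih =>
    have e : y ^ (j + 1) * x ^ k * (y ^ (j + 1))⁻¹ = y ^ j * (y * x ^ k * y⁻¹) * (y ^ j)⁻¹ := by
      rw [pow_succ]
      group
    rw [e, conj_pow_x h, ih, pow_succ]
    congr 1
    ring

lemma y_mul_x (h : y * x * y⁻¹ = x ^ r) (j k : ℕ) : y ^ j * x ^ k = x ^ (r ^ j * k) * y ^ j := by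
  rw [← conj_pow_y h, inv_mul_cancel_right]

end Conj

section NormalForm

variable {m n r t : ℕ}

theorem exists_form (hm : 0 < m) (hn : 0 < n) (g : Pres m n r t) :
    ∃ i j : ℕ, g = a ^ i * b ^ j := by
  have hg : g ∈ Subgroup.closure {(a : Pres m n r t), b} := by
    rw [closure_ab]
    trivial
  have hai : (a : Pres m n r t)⁻¹ = a ^ (m - 1) := by
    rw [inv_eq_iff_mul_eq_one, ← pow_succ', Nat.sub_add_cancel hm, a_pow]
  have hbi : (b : Pres m n r t)⁻¹ = b ^ (n - 1) * a ^ ((m - 1) * t) := by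
    rw [inv_eq_iff_mul_eq_one, ← mul_assoc, ← pow_succ', Nat.sub_add_cancel hn, b_pow, mul_comm (m - 1),
      pow_mul, ← pow_succ', Nat.sub_add_cancel hm, ← pow_mul, mul_comm, pow_mul, a_pow, one_pow]
  induction hg using Subgroup.closure_induction_right with
  | one => exact ⟨0, 0, by simp⟩
  | mul_right x hx y hy ih =>
    obtain ⟨i, j, rfl⟩ := ih
    simp only [Set.mem_insert_iff, Set.mem_singleton_iff] at hy
    rcases hy with rfl | rfl
    · refine ⟨i + r ^ j * 1, j, ?_⟩
      have := y_mul_x (conj_ab (m := m) (n := n) (r := r) (t := t)) j 1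
      rw [pow_one] at this
      rw [mul_assoc, this, ← mul_assoc, pow_add]
    · exact ⟨i, j + 1, by rw [pow_succ, mul_assoc]⟩
  | mul_inv_cancel x hx y hy ih =>
    obtain ⟨i, j, rfl⟩ := ih
    simp only [Set.mem_insert_iff, Set.mem_singleton_iff] at hy
    rcases hy with rfl | rfl
    · refine ⟨i + r ^ j * (m - 1), j, ?_⟩
      have := y_mul_x (conj_ab (m := m) (n := n) (r := r) (t := t)) j (m - 1)
      rw [hai, mul_assoc, this, ← mul_assoc, pow_add]
    · refine ⟨i + r ^ (j + (n - 1)) * ((m - 1) * t), j + (n - 1), ?_⟩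
      have := y_mul_x (conj_ab (m := m) (n := n) (r := r) (t := t)) (j + (n - 1)) ((m - 1) * t)
      rw [hbi, mul_assoc, ← mul_assoc (b ^ j), ← pow_add, this, ← mul_assoc, pow_add a i]

theorem exists_form_lt (hm : 0 < m) (hn : 0 < n) (g : Pres m n r t) :
    ∃ i j : ℕ, g = a ^ i * b ^ j ∧ i < m ∧ j < n := by
  obtain ⟨i, j, rfl⟩ := exists_form hm hn g
  have e1 : ∀ k : ℕ, (a : Pres m n r t) ^ k = a ^ (k % m) := fun k => pow_eq_pow_mod k a_pow
  have e2 : (b : Pres m n r t) ^ j = a ^ (t * (j / n)) * b ^ (j % n) := by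
    conv_lhs => rw [← Nat.div_add_mod j n, pow_add, pow_mul, b_pow, ← pow_mul]
  refine ⟨(i + t * (j / n)) % m, j % n, ?_, Nat.mod_lt _ hm, Nat.mod_lt _ hn⟩
  rw [e2, ← mul_assoc, ← pow_add, e1 (i + t * (j / n))]

theorem finite_pres (hm : 0 < m) (hn : 0 < n) : Finite (Pres m n r t) := by
  let f : Fin m × Fin n → Pres m n r t := fun p => a ^ (p.1 : ℕ) * b ^ (p.2 : ℕ)
  refine Finite.of_surjective f ?_
  intro g
  obtain ⟨i, j, rfl, hi, hj⟩ := exists_form_lt hm hn g
  exact ⟨(⟨i, hi⟩, ⟨j, hj⟩), rfl⟩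

theorem a_dvd (hm : 0 < m) (hn : 0 < n) (hR : r ^ n ≡ 1 [MOD m]) (hT : t * r ≡ t [MOD m]) (k : ℕ)
    (hk : (a : Pres m n r t) ^ k = 1) : m ∣ k := by
  obtain ⟨X, _, x, y, h1, h2, h3, h4⟩ := exists_model m n r t hm hn hR hT
  apply h4
  have := congrArg (liftP x y h1 h2 h3) hk
  simpa using this

/-- The map onto the cyclic group of order `n`. -/
def toZ : Pres m n r t →* Multiplicative (ZMod n) :=
  liftP 1 (Multiplicative.ofAdd (1 : ZMod n)) (by simp)
    (by
      rw [← ofAdd_nsmul]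
      simp)
    (by simp)

lemma b_pow_of_mem {j : ℕ} (hj : j < n) (i : ℕ) (h : ((a : Pres m n r t) ^ i * b ^ j) = 1) : j = 0 := by
  have := congrArg (toZ (m := m) (n := n) (r := r) (t := t)) h
  simp only [map_mul, map_pow, map_one, toZ, liftP_a, liftP_b, one_pow, one_mul] at this
  rw [← ofAdd_nsmul] at this
  have h2 : (j : ZMod n) = 0 := by
    have := Multiplicative.ofAdd.injective (this.trans (ofAdd_zero (α := ZMod n)).symm)
    simpa using this
  have h3 := (ZMod.natCast_eq_zero_iff j n).mp h2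
  exact Nat.eq_zero_of_dvd_of_lt h3 hj

end NormalForm

/-! ### The kernel of a stem extension -/

/-- Lifts of generators of `G` to a stem extension generate. -/
lemma closure_eq_top_of_stem {Γ G : Type*} [Group Γ] [Group G] (σ : Γ →* G) (hσ : IsStemExtension σ)
    (S : Set Γ) (hS : Subgroup.map σ (Subgroup.closure S) = ⊤) : Subgroup.closure S = ⊤ := by
  set H := Subgroup.closure S with hH
  have hdec : ∀ x : Γ, ∃ y ∈ H, ∃ k ∈ σ.ker, x = y * k := by
    intro x
    have : σ x ∈ Subgroup.map σ H := by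
      rw [hS]
      trivial
    obtain ⟨y, hy, hyx⟩ := this
    refine ⟨y, hy, y⁻¹ * x, ?_, by group⟩
    rw [MonoidHom.mem_ker, map_mul, map_inv, hyx, inv_mul_cancel]
  have hcomm : commutator Γ ≤ H := by
    rw [commutator_def, Subgroup.commutator_le]
    intro x _ y _
    obtain ⟨x', hx', k, hk, rfl⟩ := hdec x
    obtain ⟨y', hy', k', hk', rfl⟩ := hdec y
    have h1 := Subgroup.mem_center_iff.mp (hσ.2.1 hk)
    have h2 := Subgroup.mem_center_iff.mp (hσ.2.1 hk')
    have e1 : ⁅x' * k, y' * k'⁆ = x' * (y' * (k * k') * k⁻¹ * k'⁻¹) * x'⁻¹ * y'⁻¹ := by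
      have e2 : k * (y' * k') * k⁻¹ = y' * k' := by
        rw [← h1, mul_inv_cancel_right]
      have e3 : k' * (x'⁻¹ * k⁻¹) * k'⁻¹ = x'⁻¹ * k⁻¹ := by
        rw [← h2, mul_inv_cancel_right]
      rw [commutatorElement_def]
      have e4 : y' * (k * k') * k⁻¹ * k'⁻¹ = y' := by
        have : k * k' = k' * k := (h1 k').symm
        rw [this]
        group
      rw [e4]
      calc x' * k * (y' * k') * (x' * k)⁻¹ * (y' * k')⁻¹
          = x' * (k * (y' * k') * k⁻¹) * x'⁻¹ * (y' * k')⁻¹ := by group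
        _ = x' * (y' * k') * x'⁻¹ * (y' * k')⁻¹ := by rw [e2]
        _ = x' * y' * (k' * x'⁻¹ * k'⁻¹) * y'⁻¹ := by group
        _ = x' * y' * x'⁻¹ * y'⁻¹ := by
            rw [← h2 x'⁻¹, mul_inv_cancel_right]
    have e5 : y' * (k * k') * k⁻¹ * k'⁻¹ = y' := by
      have : k * k' = k' * k := (h1 k').symm
      rw [this]
      group
    rw [e1, e5]
    exact H.mul_mem (H.mul_mem (H.mul_mem hx' hy') (H.inv_mem hx')) (H.inv_mem hy')
  rw [eq_top_iff]
  intro x _
  obtain ⟨y, hy, k, hk, rfl⟩ := hdec x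
  exact H.mul_mem hy (hcomm (hσ.2.2 hk))

theorem upper {m n p d m' p' l : ℕ} (hm : 0 < m) (hn : 0 < n) (hmd : m = d * m') (hpd : p = d * p')
    (hco : Nat.Coprime m' p') (hRn : (1 + p) ^ n ≡ 1 [MOD m])
    {Γ : Type*} [Group Γ] [Finite Γ] (σ : Γ →* Pres m n (1 + p) (m' * l)) (hσ : IsStemExtension σ) :
    ∃ u : Γ, u ^ m = 1 ∧ u ^ (m' * l) = 1 ∧ u ^ (∑ i ∈ Finset.range n, (1 + p) ^ i) = 1 ∧
      u ^ m' ∈ σ.ker ∧ ∀ κ ∈ σ.ker, ∃ w : ℕ, κ = (u ^ m') ^ w := by
  classical
  have hd : 0 < d := Nat.pos_of_ne_zero (by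
    rintro rfl
    simp at hmd
    omega)
  have hT : (m' * l) * (1 + p) ≡ m' * l [MOD m] := by
    have e : (m' * l) * (1 + p) = m' * l + m * (l * p') := by
      rw [hmd, hpd]
      ring
    rw [e]
    show _ % _ = _ % _
    simp
  obtain ⟨A, hA⟩ := hσ.1 a
  obtain ⟨B, hB⟩ := hσ.1 b
  have hcent : ∀ z ∈ σ.ker, ∀ g, g * z = z * g := fun z hz g => Subgroup.mem_center_iff.mp (hσ.2.1 hz) g
  have hgen : Subgroup.closure {A, B} = ⊤ := closure_eq_top_of_stem σ hσ _ (by
    rw [MonoidHom.map_closure, Set.image_pair, hA, hB, closure_ab])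
  set u := B * A * B⁻¹ * A⁻¹ with hu
  have hBA : B * A * B⁻¹ = u * A := by
    rw [hu, inv_mul_cancel_right]
  have hγ : B * A * B⁻¹ * (A ^ (1 + p))⁻¹ ∈ σ.ker := by
    rw [MonoidHom.mem_ker, map_mul, map_mul, map_mul, map_inv, map_inv, map_pow, hA, hB, conj_ab,
      mul_inv_cancel]
  set γ := B * A * B⁻¹ * (A ^ (1 + p))⁻¹ with hγdef
  have huγ : u = γ * A ^ p := by
    rw [hγdef, hu, add_comm 1 p, pow_succ, mul_inv_rev]
    group
  have huA : Commute u A := by
    show u * A = A * u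
    rw [huγ]
    calc γ * A ^ p * A = γ * (A ^ p * A) := mul_assoc _ _ _
      _ = γ * (A * A ^ p) := by rw [((Commute.refl A).pow_left p).eq]
      _ = (γ * A) * A ^ p := (mul_assoc _ _ _).symm
      _ = (A * γ) * A ^ p := by rw [hcent γ hγ A]
      _ = A * (γ * A ^ p) := mul_assoc _ _ _
  have hBu : B * u * B⁻¹ = u ^ (1 + p) := by
    have hγB := hcent γ hγ B
    have e1 : B * (A ^ p) * B⁻¹ = u ^ p * A ^ p := by
      rw [← conj_pow, hBA, huA.mul_pow]
    have e2 : B * u * B⁻¹ = γ * (B * (A ^ p) * B⁻¹) := by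
      calc B * u * B⁻¹ = B * (γ * A ^ p) * B⁻¹ := by rw [← huγ]
        _ = (B * γ) * (A ^ p * B⁻¹) := by group
        _ = (γ * B) * (A ^ p * B⁻¹) := by rw [hγB]
        _ = γ * (B * A ^ p * B⁻¹) := by group
    have hγu : u ^ p * γ = γ * u ^ p := hcent γ hγ _
    rw [e2, e1, add_comm 1 p, pow_succ]
    calc γ * (u ^ p * A ^ p) = (γ * u ^ p) * A ^ p := (mul_assoc _ _ _).symm
      _ = (u ^ p * γ) * A ^ p := by rw [hγu]
      _ = u ^ p * (γ * A ^ p) := mul_assoc _ _ _
      _ = u ^ p * u := by rw [← huγ]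
  have hBAk : ∀ k, B * A ^ k * B⁻¹ = u ^ k * A ^ k := by
    intro k
    rw [← conj_pow, hBA, huA.mul_pow]
  have hkill : ∀ k, B * A ^ k = A ^ k * B → u ^ k = 1 := by
    intro k hk
    have := hBAk k
    rw [hk, mul_inv_cancel_right] at this
    exact (mul_eq_right.mp this.symm)
  -- `u ^ m = 1`
  have hαker : A ^ m ∈ σ.ker := by
    rw [MonoidHom.mem_ker, map_pow, hA, a_pow]
  have hum : u ^ m = 1 := hkill m (hcent _ hαker B)
  -- `u ^ t = 1`
  have hβker : B ^ n * (A ^ (m' * l))⁻¹ ∈ σ.ker := by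
    rw [MonoidHom.mem_ker, map_mul, map_inv, map_pow, map_pow, hA, hB, b_pow, mul_inv_cancel]
  set β := B ^ n * (A ^ (m' * l))⁻¹ with hβ
  have hAt : A ^ (m' * l) = β⁻¹ * B ^ n := by
    rw [hβ]
    group
  have hut : u ^ (m' * l) = 1 := by
    apply hkill
    rw [hAt, ← mul_assoc, hcent _ (inv_mem hβker) B, mul_assoc, mul_assoc]
    congr 1
    exact ((Commute.refl B).pow_right n).eq
  -- `u ^ s = 1`
  have hBjA : ∀ j, B ^ j * A * (B ^ j)⁻¹ = u ^ (∑ i ∈ Finset.range j, (1 + p) ^ i) * A := by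
    intro j
    induction j with
    | zero => simp
    | succ j ih =>
      have e : B ^ (j + 1) * A * (B ^ (j + 1))⁻¹ = B ^ j * (B * A * B⁻¹) * (B ^ j)⁻¹ := by
        rw [pow_succ]
        group
      have e2 : B ^ j * (u * A) * (B ^ j)⁻¹ = (B ^ j * u * (B ^ j)⁻¹) * (B ^ j * A * (B ^ j)⁻¹) := by
        group
      have e3 : B ^ j * u * (B ^ j)⁻¹ = u ^ ((1 + p) ^ j) := by
        have := conj_pow_y hBu j 1
        simpa using this
      rw [e, hBA, e2, e3, ih, Finset.sum_range_succ, ← mul_assoc, ← pow_add, add_comm]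
  have hus : u ^ (∑ i ∈ Finset.range n, (1 + p) ^ i) = 1 := by
    have h1 := hBjA n
    have h2 : B ^ n * A = A * B ^ n := by
      have : B ^ n = β * A ^ (m' * l) := by
        rw [hβ]
        group
      rw [this]
      calc β * A ^ (m' * l) * A = β * (A ^ (m' * l) * A) := mul_assoc _ _ _
        _ = β * (A * A ^ (m' * l)) := by rw [((Commute.refl A).pow_left _).eq]
        _ = (β * A) * A ^ (m' * l) := (mul_assoc _ _ _).symm
        _ = (A * β) * A ^ (m' * l) := by rw [hcent β hβker A]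
        _ = A * (β * A ^ (m' * l)) := mul_assoc _ _ _
    rw [h2, mul_inv_cancel_right] at h1
    exact (mul_eq_right.mp h1.symm)
  -- the conjugates of `u`
  have hconj : ∀ g : Γ, ∃ w : ℕ, g * u * g⁻¹ = u ^ w := by
    intro g
    have hg : g ∈ Subgroup.closure {A, B} := by
      rw [hgen]
      trivial
    induction hg using Subgroup.closure_induction with
    | mem x hx =>
      simp only [Set.mem_insert_iff, Set.mem_singleton_iff] at hx
      rcases hx with rfl | rfl
      · refine ⟨1, ?_⟩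
        rw [huA.symm.eq, mul_inv_cancel_right, pow_one]
      · exact ⟨1 + p, hBu⟩
    | one => exact ⟨1, by simp⟩
    | mul x y _ _ hx hy =>
      obtain ⟨w1, h1⟩ := hx
      obtain ⟨w2, h2⟩ := hy
      refine ⟨w1 * w2, ?_⟩
      have : x * y * u * (x * y)⁻¹ = x * (y * u * y⁻¹) * x⁻¹ := by group
      rw [this, h2, ← conj_pow, h1, ← pow_mul]
    | inv x _ hx =>
      obtain ⟨w, h⟩ := hx
      have hinv : x⁻¹ = x ^ (orderOf x - 1) := by
        rw [inv_eq_iff_mul_eq_one, ← pow_succ', Nat.sub_add_cancel (orderOf_pos x), pow_orderOf_eq_one]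
      have := conj_pow_y h (orderOf x - 1) 1
      rw [pow_one] at this
      rw [inv_inv]
      rw [← hinv] at this
      rw [inv_inv] at this
      exact ⟨_, this⟩
  let C : Subgroup Γ := Subgroup.zpowers u
  haveI hC : C.Normal := by
    constructor
    intro v hv g
    obtain ⟨z, rfl⟩ := Subgroup.mem_zpowers_iff.mp hv
    obtain ⟨w, hw⟩ := hconj g
    have e : g * u ^ z * g⁻¹ = (g * u * g⁻¹) ^ z := (conj_zpow).symm
    rw [e, hw]
    exact Subgroup.zpow_mem _ (Subgroup.pow_mem _ (Subgroup.mem_zpowers u) w) z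
  have hcomm : commutator Γ ≤ C := by
    have hk : Subgroup.closure {((A : Γ ⧸ C)), ((B : Γ ⧸ C))} = ⊤ := by
      have := congrArg (Subgroup.map (QuotientGroup.mk' C)) hgen
      rw [MonoidHom.map_closure, Set.image_pair] at this
      rw [Subgroup.map_top_of_surjective _ (QuotientGroup.mk'_surjective C)] at this
      exact this
    have hAB : ((A : Γ ⧸ C)) * ((B : Γ ⧸ C)) = ((B : Γ ⧸ C)) * ((A : Γ ⧸ C)) := by
      rw [← QuotientGroup.mk_mul, ← QuotientGroup.mk_mul, QuotientGroup.eq]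
      have e : (A * B)⁻¹ * (B * A) = B⁻¹ * (A⁻¹ * (B * A * B⁻¹ * A⁻¹) * A) * B := by group
      rw [e]
      exact hC.conj_mem' _ (hC.conj_mem' _ (Subgroup.mem_zpowers u) A) B
    have hcc := Subgroup.isMulCommutative_closure (G := Γ ⧸ C) (k := {((A : Γ ⧸ C)), ((B : Γ ⧸ C))}) (by
      intro x hx y hy
      simp only [Set.mem_insert_iff, Set.mem_singleton_iff] at hx hy
      rcases hx with rfl | rfl <;> rcases hy with rfl | rfl
      · rfl
      · exact hAB
      · exact hAB.symm
      · rfl)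
    rw [commutator_def, Subgroup.commutator_le]
    intro x _ y _
    rw [← QuotientGroup.eq_one_iff, commutatorElement_def, QuotientGroup.mk_mul, QuotientGroup.mk_mul,
      QuotientGroup.mk_mul, QuotientGroup.mk_inv, QuotientGroup.mk_inv]
    have hx : ((x : Γ ⧸ C)) ∈ Subgroup.closure {((A : Γ ⧸ C)), ((B : Γ ⧸ C))} := by
      rw [hk]
      trivial
    have hy : ((y : Γ ⧸ C)) ∈ Subgroup.closure {((A : Γ ⧸ C)), ((B : Γ ⧸ C))} := by
      rw [hk]
      trivial
    have h := congrArg Subtype.val (hcc.is_comm.comm ⟨_, hx⟩ ⟨_, hy⟩)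
    have h' : ((x : Γ ⧸ C)) * ((y : Γ ⧸ C)) = ((y : Γ ⧸ C)) * ((x : Γ ⧸ C)) := h
    rw [h']
    group
  have hσu : σ u = a ^ p := by
    rw [hu, map_mul, map_mul, map_mul, map_inv, map_inv, hA, hB, conj_ab, add_comm 1 p, pow_succ,
      mul_inv_cancel_right]
  have hdvd : ∀ w : ℕ, σ (u ^ w) = 1 → m' ∣ w := by
    intro w hw
    rw [map_pow, hσu, ← pow_mul] at hw
    have h1 : m ∣ p * w := a_dvd hm hn hRn hT _ hw
    rw [hmd, hpd, mul_assoc] at h1
    have h2 : m' ∣ p' * w := Nat.dvd_of_mul_dvd_mul_left hd h1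
    exact hco.dvd_of_dvd_mul_left h2
  refine ⟨u, hum, hut, hus, ?_, ?_⟩
  · rw [MonoidHom.mem_ker, map_pow, hσu, ← pow_mul]
    have : p * m' = m * p' := by
      rw [hmd, hpd]
      ring
    rw [this, pow_mul, a_pow, one_pow]
  · intro κ hκ
    have h1 : κ ∈ C := hcomm (hσ.2.2 hκ)
    obtain ⟨w, rfl⟩ := (mem_powers_iff_mem_zpowers).mpr h1
    obtain ⟨w', rfl⟩ := hdvd w hκ
    exact ⟨w', by simp only [pow_mul]⟩

/-! ### The stem extension -/

theorem lower {m n p d m' p' l g y : ℕ} (hm : 0 < m) (hn : 0 < n) (hg : 0 < g) (hmd : m = d * m')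
    (hpd : p = d * p') (hRn0 : (1 + p) ^ n ≡ 1 [MOD m]) (hy : y ≡ p' [MOD m'])
    (hyc : Nat.Coprime y (m' * g)) (hgd : g ∣ d) (hgl : g ∣ l) (hRn : (1 + d * y) ^ n ≡ 1 [MOD m * g]) :
    Finite (Pres (m * g) n (1 + d * y) (m' * l)) ∧
    ∃ σ : Pres (m * g) n (1 + d * y) (m' * l) →* Pres m n (1 + p) (m' * l),
      IsStemExtension σ ∧ Nonempty (σ.ker ≃* Multiplicative (ZMod g)) := by
  classical
  have hmg : 0 < m * g := Nat.mul_pos hm hg
  have hd : 0 < d := Nat.pos_of_ne_zero (by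
    rintro rfl
    simp at hmd
    omega)
  have hfin : Finite (Pres (m * g) n (1 + d * y) (m' * l)) := finite_pres hmg hn
  refine ⟨hfin, ?_⟩
  have hRr : 1 + d * y ≡ 1 + p [MOD m] := by
    rw [hmd, hpd]
    exact (Nat.ModEq.mul_left' d hy).add_left 1
  have hT0 : (m' * l) * (1 + p) ≡ m' * l [MOD m] := by
    have e : (m' * l) * (1 + p) = m' * l + m * (l * p') := by
      rw [hmd, hpd]
      ring
    rw [e]
    show _ % _ = _ % _
    simp
  obtain ⟨l', rfl⟩ := hgl
  obtain ⟨d', hd'⟩ := hgd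
  have hT : (m' * (g * l')) * (1 + d * y) ≡ m' * (g * l') [MOD m * g] := by
    have e : (m' * (g * l')) * (1 + d * y) = m' * (g * l') + (m * g) * (l' * y) := by
      rw [hmd]
      ring
    rw [e]
    show _ % _ = _ % _
    simp
  -- the map
  have r1 : (a : Pres m n (1 + p) (m' * (g * l'))) ^ (m * g) = 1 := by
    rw [pow_mul, a_pow, one_pow]
  have r3 : (b : Pres m n (1 + p) (m' * (g * l'))) * a * b⁻¹ = a ^ (1 + d * y) := by
    rw [conj_ab, pow_eq_pow_mod (1 + p) a_pow, pow_eq_pow_mod (1 + d * y) a_pow, hRr]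
  let σ : Pres (m * g) n (1 + d * y) (m' * (g * l')) →* Pres m n (1 + p) (m' * (g * l')) :=
    liftP a b r1 b_pow r3
  have hσa : σ a = a := liftP_a _ _ _ _ _
  have hσb : σ b = b := liftP_b _ _ _ _ _
  have hsurj : Function.Surjective σ := by
    rw [← MonoidHom.range_eq_top, eq_top_iff, ← closure_ab, Subgroup.closure_le]
    intro x hx
    simp only [Set.mem_insert_iff, Set.mem_singleton_iff] at hx
    rcases hx with rfl | rfl
    · exact ⟨a, hσa⟩
    · exact ⟨b, hσb⟩
  set A : Pres (m * g) n (1 + d * y) (m' * (g * l')) := a with hAdef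
  set B : Pres (m * g) n (1 + d * y) (m' * (g * l')) := b with hBdef
  have hAord : orderOf A = m * g :=
    Nat.dvd_antisymm (orderOf_dvd_of_pow_eq_one a_pow) (a_dvd hmg hn hRn hT _ (pow_orderOf_eq_one _))
  set z := A ^ m with hz
  have hker : σ.ker = Subgroup.zpowers z := by
    apply le_antisymm
    · intro x hx
      obtain ⟨i, j, rfl, hi, hj⟩ := exists_form_lt hmg hn x
      rw [MonoidHom.mem_ker, map_mul, map_pow, map_pow, hσa, hσb] at hx
      have hj0 : j = 0 := b_pow_of_mem hj i hx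
      subst hj0
      rw [pow_zero, mul_one] at hx
      obtain ⟨i', rfl⟩ := a_dvd hm hn hRn0 hT0 i hx
      rw [pow_zero, mul_one, pow_mul]
      exact Subgroup.pow_mem _ (Subgroup.mem_zpowers z) i'
    · rw [Subgroup.zpowers_le, MonoidHom.mem_ker, hz, map_pow, hσa, a_pow]
  have hBz : B * z = z * B := by
    have h1 : B * z * B⁻¹ = A ^ ((1 + d * y) * m) := conj_pow_x conj_ab m
    have h2 : A ^ ((1 + d * y) * m) = z := by
      have e : (1 + d * y) * m = m + (m * g) * (d' * y) := by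
        rw [hd']
        ring
      rw [e, pow_add, pow_mul (a := A) (m := m * g), a_pow, one_pow, mul_one]
    rw [h2] at h1
    exact (mul_inv_eq_iff_eq_mul.mp h1)
  have hzcent : ∀ x, x * z = z * x := by
    intro x
    have hx : x ∈ Subgroup.closure {A, B} := by
      rw [closure_ab]
      trivial
    induction hx using Subgroup.closure_induction with
    | mem w hw =>
      simp only [Set.mem_insert_iff, Set.mem_singleton_iff] at hw
      rcases hw with hw | hw
      · rw [hw]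
        exact ((Commute.refl A).pow_right m).eq
      · rw [hw]
        exact hBz
    | one => simp
    | mul v w _ _ hv hw =>
      calc v * w * z = v * (w * z) := mul_assoc _ _ _
        _ = v * (z * w) := by rw [hw]
        _ = (v * z) * w := (mul_assoc _ _ _).symm
        _ = (z * v) * w := by rw [hv]
        _ = z * (v * w) := mul_assoc _ _ _
    | inv v _ hv =>
      calc v⁻¹ * z = v⁻¹ * (z * v) * v⁻¹ := by group
        _ = v⁻¹ * (v * z) * v⁻¹ := by rw [hv]
        _ = z * v⁻¹ := by group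
  have hzcomm : z ∈ commutator (Pres (m * g) n (1 + d * y) (m' * (g * l'))) := by
    have h1 : A ^ (d * y) ∈ commutator (Pres (m * g) n (1 + d * y) (m' * (g * l'))) := by
      have h2 : ⁅B, A⁆ ∈ commutator (Pres (m * g) n (1 + d * y) (m' * (g * l'))) := by
        rw [commutator_def]
        exact Subgroup.commutator_mem_commutator trivial trivial
      have h3 : ⁅B, A⁆ = A ^ (d * y) := by
        have h4 : A ^ (1 + d * y) = A ^ (d * y) * A :=
          (pow_add A 1 (d * y)).trans (by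
            rw [pow_one]
            exact ((Commute.refl A).pow_right _).eq)
        rw [commutatorElement_def, conj_ab, h4, mul_inv_cancel_right]
      rwa [h3] at h2
    have h4 : Nat.gcd (m * g) (d * y) = d := by
      rw [hmd, mul_assoc, Nat.gcd_mul_left, Nat.Coprime.symm hyc, mul_one]
    have h5 : (A : Pres (m * g) n (1 + d * y) (m' * (g * l'))) ^ d ∈
        commutator (Pres (m * g) n (1 + d * y) (m' * (g * l'))) := by
      have h6 := Nat.gcd_eq_gcd_ab (m * g) (d * y)
      rw [h4] at h6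
      have h7 : A ^ (d : ℤ) = (A ^ (m * g)) ^ Nat.gcdA (m * g) (d * y) * (A ^ (d * y)) ^ Nat.gcdB (m * g) (d * y) := by
        rw [h6, zpow_add, zpow_mul, zpow_mul, zpow_natCast, zpow_natCast]
      rw [zpow_natCast, a_pow, one_zpow, one_mul] at h7
      rw [h7]
      exact Subgroup.zpow_mem _ h1 _
    have h8 : z = (A ^ d) ^ m' := by
      rw [← pow_mul, ← hmd]
    rw [h8]
    exact Subgroup.pow_mem _ h5 _
  refine ⟨σ, ⟨hsurj, ?_, ?_⟩, ?_⟩
  · rw [hker, Subgroup.zpowers_le, Subgroup.mem_center_iff]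
    exact hzcent
  · rw [hker, Subgroup.zpowers_le]
    exact hzcomm
  · have hcard : Nat.card (Subgroup.zpowers z) = g := by
      rw [Nat.card_zpowers, hz, orderOf_pow, hAord, Nat.gcd_mul_right_left]
      exact Nat.mul_div_cancel_left g hm
    have e : Multiplicative (ZMod g) ≃* Subgroup.zpowers z := by
      have e₀ := zmodCyclicMulEquiv (inferInstance : IsCyclic (Subgroup.zpowers z))
      rw [hcard] at e₀
      exact e₀
    exact ⟨(MulEquiv.subgroupCongr hker).trans e.symm⟩

/-- A surjection from a cyclic group. -/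
theorem exists_surj_zmod {K : Type*} [Group K] (e : K) {g : ℕ} (hg : 0 < g) (he : e ^ g = 1)
    (hK : ∀ κ : K, ∃ w : ℕ, κ = e ^ w) : ∃ π : Multiplicative (ZMod g) →* K, Function.Surjective π := by
  haveI : NeZero g := ⟨hg.ne'⟩
  let π : Multiplicative (ZMod g) →* K :=
    { toFun := fun x => e ^ (ZMod.val x.toAdd)
      map_one' := by
        simp
      map_mul' := by
        intro x y
        rw [toAdd_mul, ZMod.val_add, ← pow_eq_pow_mod _ he, pow_add] }
  refine ⟨π, ?_⟩
  intro κ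
  obtain ⟨w, rfl⟩ := hK κ
  refine ⟨Multiplicative.ofAdd (w : ZMod g), ?_⟩
  show e ^ (ZMod.val (w : ZMod g)) = e ^ w
  rw [ZMod.val_natCast, ← pow_eq_pow_mod _ he]

lemma geom_eq (p n : ℕ) : (1 + p) ^ n = 1 + p * ∑ i ∈ Finset.range n, (1 + p) ^ i := by
  induction n with
  | zero => simp
  | succ n ih =>
    rw [Finset.sum_range_succ, pow_succ, mul_add p, ← add_assoc, ← ih]
    ring

/-- Schur multiplier of a metacyclic group: Let `m, n ≥ 1`, `r ≥ 1` with `r ^ n ≡ 1 (mod m)`, and `l` a natural number; put `d = gcd(m, r - 1)`, `t = m l / d` and `h = d · gcd(m, 1 + r + ⋯ + r^(n-1)) / m`. The group presented by generators `a, b` and relations `a ^ m = 1`, `b ^ n = a ^ t`, `b a b⁻¹ = a ^ r` (a metacyclic group of order `m n`) has Schur multiplier cyclic of order `gcd(l, h)`. -/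
theorem result (m n r l : ℕ) (hm : 0 < m) (hn : 0 < n) (hr : 0 < r) (hrn : r ^ n ≡ 1 [MOD m]) : Cfsg.HasCyclicSchurMultiplier (PresentedGroup ({FreeGroup.of true ^ m, (FreeGroup.of false) ^ n * (FreeGroup.of true ^ (m * l / Nat.gcd m (r - 1)))⁻¹, FreeGroup.of false * FreeGroup.of true * (FreeGroup.of false)⁻¹ * (FreeGroup.of true ^ r)⁻¹} : Set (FreeGroup Bool))) (Nat.gcd l (Nat.gcd m (r - 1) * Nat.gcd m (∑ i ∈ Finset.range n, r ^ i) / m)) := by
  classical
  obtain ⟨p, rfl⟩ : ∃ p, r = 1 + p := ⟨r - 1, by omega⟩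
  have e1 : 1 + p - 1 = p := by omega
  rw [e1]
  set d := Nat.gcd m p with hd
  have hdpos : 0 < d := Nat.gcd_pos_of_pos_left _ hm
  obtain ⟨m', p', hco, hm', hp'⟩ := Nat.exists_coprime m p
  rw [← hd] at hm' hp'
  have hmd : m = d * m' := by rw [mul_comm]; exact hm'
  have hpd : p = d * p' := by rw [mul_comm]; exact hp'
  have hm'pos : 0 < m' := Nat.pos_of_ne_zero (by
    rintro rfl
    simp at hmd
    omega)
  have et : m * l / d = m' * l := by
    apply Nat.div_eq_of_eq_mul_left hdpos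
    rw [hmd]
    ring
  rw [et]
  set s := ∑ i ∈ Finset.range n, (1 + p) ^ i with hs
  have hgeom : (1 + p) ^ n = 1 + p * s := geom_eq p n
  have hms : m ∣ p * s := by
    rw [hgeom] at hrn
    have h1 : p * s ≡ 0 [MOD m] := Nat.ModEq.add_left_cancel' 1 (by simpa using hrn)
    exact (Nat.modEq_zero_iff_dvd).mp h1
  have hm's : m' ∣ s := by
    rw [hmd, hpd, mul_assoc] at hms
    exact hco.dvd_of_dvd_mul_left (Nat.dvd_of_mul_dvd_mul_left hdpos hms)
  obtain ⟨h0, hh0⟩ : m' ∣ Nat.gcd m s := Nat.dvd_gcd (hmd ▸ dvd_mul_left _ _) hm's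
  have hgspos : 0 < Nat.gcd m s := Nat.gcd_pos_of_pos_left _ hm
  have hh0pos : 0 < h0 := Nat.pos_of_ne_zero (by
    rintro rfl
    simp at hh0
    omega)
  have eh : d * Nat.gcd m s / m = h0 := by
    apply Nat.div_eq_of_eq_mul_right hm
    rw [hh0, hmd]
    ring
  rw [eh]
  set g := Nat.gcd l h0 with hg
  have hgpos : 0 < g := Nat.gcd_pos_of_pos_right _ hh0pos
  have hgl : g ∣ l := Nat.gcd_dvd_left _ _
  have hgh : g ∣ h0 := Nat.gcd_dvd_right _ _
  have hh0d : h0 ∣ d := by
    have h1 : m' * h0 ∣ m' * d := by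
      rw [← hh0, mul_comm m' d, ← hmd]
      exact Nat.gcd_dvd_left _ _
    exact Nat.dvd_of_mul_dvd_mul_left hm'pos h1
  have hgd : g ∣ d := hgh.trans hh0d
  -- the choice of `y`
  obtain ⟨y, hyp, hyc⟩ : ∃ y, y ≡ p' [MOD m'] ∧ Nat.Coprime y (m' * g) := by
    haveI : NeZero (m' * g) := ⟨(Nat.mul_pos hm'pos hgpos).ne'⟩
    obtain ⟨v, hv⟩ := ZMod.unitsMap_surjective (n := m') (m := m' * g) (dvd_mul_right _ _)
      (ZMod.unitOfCoprime p' hco.symm)
    refine ⟨(v : ZMod (m' * g)).val, ?_, ZMod.val_coe_unit_coprime v⟩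
    have h1 := congrArg Units.val hv
    rw [ZMod.unitsMap_val, ZMod.coe_unitOfCoprime] at h1
    apply (ZMod.natCast_eq_natCast_iff _ _ m').mp
    rw [ZMod.natCast_val]
    exact h1
  have hyr : 1 + d * y ≡ 1 + p [MOD m] := by
    rw [hmd, hpd]
    exact (Nat.ModEq.mul_left' d hyp).add_left 1
  have hRn : (1 + d * y) ^ n ≡ 1 [MOD m * g] := by
    set S := ∑ i ∈ Finset.range n, (1 + d * y) ^ i with hS
    have h1 : (1 + d * y) ^ n = 1 + (d * y) * S := geom_eq (d * y) n
    have h2 : S ≡ s [MOD m] := by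
      apply (ZMod.natCast_eq_natCast_iff _ _ m).mp
      have h3 := (ZMod.natCast_eq_natCast_iff _ _ m).mpr hyr
      rw [hS, hs]
      push_cast at h3 ⊢
      rw [h3]
    have h4 : Nat.gcd m s ∣ S := (h2.dvd_iff (Nat.gcd_dvd_left _ _)).mpr (Nat.gcd_dvd_right _ _)
    obtain ⟨c, hc⟩ := h4
    obtain ⟨e0, he0⟩ := hgh
    have h5 : (d * y) * S = (m * g) * (y * e0 * c) := by
      rw [hc, hh0, he0, hmd]
      ring
    rw [h1, h5]
    show _ % _ = _ % _
    simp
  obtain ⟨hfin, σ, hσ, hker⟩ := lower hm hn hgpos hmd hpd hrn hyp hyc hgd hgl hRn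
  refine ⟨⟨Pres (m * g) n (1 + d * y) (m' * l), inferInstance, hfin, σ, hσ, ?_⟩, ?_⟩
  · exact hker
  · intro Γ _ _ σ' hσ'
    obtain ⟨u, hum, hut, hus, hmem, hall⟩ := upper hm hn hmd hpd hco hrn σ' hσ'
    have he : (u ^ m') ^ g = 1 := by
      have h1 : (u ^ m') ^ l = 1 := by
        rw [← pow_mul]
        exact hut
      have h2 : (u ^ m') ^ h0 = 1 := by
        rw [← pow_mul, ← hh0]
        exact pow_gcd_eq_one.mpr ⟨hum, hus⟩
      exact pow_gcd_eq_one.mpr ⟨h1, h2⟩
    exact exists_surj_zmod (⟨u ^ m', hmem⟩ : σ'.ker) hgpos (Subtype.ext he) (by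
      rintro ⟨κ, hκ⟩
      obtain ⟨w, rfl⟩ := hall κ hκ
      exact ⟨w, Subtype.ext rfl⟩)

end Cfsg.Agent.S3967
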