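import Cfsg.Statements.S3969
import Mathlib
import Cfsg.Agent.Lib.Basic.BurnsideAut
-- import your own Cfsg.Agent.* helpers here

set_option autoImplicit false
open Cfsg

namespace Cfsg.Agent.S3969

open Subgroup

section Aut

variable {A : Type*} [CommGroup A] [Finite A] {p : ℕ} [hp : Fact p.Prime]

/-- A subgroup generated by `k` elements in a commutative group of exponent `p` has at most `p^k`
elements. -/
theorem card_closure_le (hA : ∀ x : A, x ^ p = 1) (S : Finset A) :
    Nat.card (closure (S : Set A)) ≤ p ^ S.card := by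
  classical
  induction S using Finset.induction_on with
  | empty => simp
  | insert a S ha ih =>
    rw [Finset.card_insert_of_notMem ha, Finset.coe_insert, Set.insert_eq, Subgroup.closure_union,
      ← zpowers_eq_closure]
    have h1 : Nat.card (zpowers a) ≤ p := by
      rw [Nat.card_zpowers]
      exact Nat.le_of_dvd hp.out.pos (orderOf_dvd_of_pow_eq_one (hA a))
    set H := zpowers a
    set K := closure (S : Set A)
    have hKL : K ≤ H ⊔ K := le_sup_right
    have h2 := card_mul_index (K.subgroupOf (H ⊔ K))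
    have h3 : Nat.card (K.subgroupOf (H ⊔ K)) = Nat.card K :=
      Nat.card_congr (subgroupOfEquivOfLe hKL).toEquiv
    rw [h3] at h2
    have h4 : (K.subgroupOf (H ⊔ K)).index = K.relIndex H := relIndex_sup_right H K
    rw [h4] at h2
    have h5 : K.relIndex H ≤ Nat.card H :=
      Nat.le_of_dvd Nat.card_pos (relIndex_dvd_card K H)
    rw [← h2, pow_succ]
    exact Nat.mul_le_mul ih (h5.trans h1)

/-- The elements of order dividing `p` number at most `p^rank`. -/
theorem card_ker_pow_le : Nat.card (powMonoidHom p : A →* A).ker ≤ p ^ Group.rank A := by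
  classical
  let f : A →* A := powMonoidHom p
  let R := f.range
  have hQ : ∀ x : A ⧸ R, x ^ p = 1 := by
    intro x
    obtain ⟨y, rfl⟩ := QuotientGroup.mk_surjective x
    rw [← QuotientGroup.mk_pow, QuotientGroup.eq_one_iff]
    exact ⟨y, rfl⟩
  obtain ⟨S, hS, hS2⟩ := Group.rank_spec A
  let π : A →* A ⧸ R := QuotientGroup.mk' R
  have hπ : Function.Surjective π := QuotientGroup.mk'_surjective R
  have htop : closure ((S.image π : Finset (A ⧸ R)) : Set (A ⧸ R)) = ⊤ := by
    rw [Finset.coe_image, ← MonoidHom.map_closure, hS2, Subgroup.map_top_of_surjective _ hπ]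
  have hc := card_closure_le hQ (S.image π)
  rw [htop, Subgroup.card_top] at hc
  have h1 : Nat.card (A ⧸ R) ≤ p ^ Group.rank A := by
    refine hc.trans (Nat.pow_le_pow_right hp.out.pos ?_)
    rw [← hS]
    exact Finset.card_image_le
  have h2 : Nat.card f.ker * Nat.card R = Nat.card R * Nat.card (A ⧸ R) := by
    have e1 := card_mul_index f.ker
    rw [Subgroup.index_ker] at e1
    have e2 := card_mul_index R
    rw [Subgroup.index_eq_card] at e2
    exact e1.trans e2.symm
  have h3 : Nat.card f.ker = Nat.card (A ⧸ R) := by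
    rw [mul_comm] at h2
    exact Nat.eq_of_mul_eq_mul_left Nat.card_pos h2
  exact h3.le.trans h1

/-- An automorphism of order prime to `p` fixing all elements of order dividing `p` of an abelian
`p`-group is trivial. -/
theorem aut_trivial (hA : IsPGroup p A) (β : MulAut A) (hco : Nat.Coprime (orderOf β) p)
    (h : ∀ x : A, x ^ p = 1 → β x = x) : β = 1 := by
  have key : ∀ k : ℕ, ∀ x : A, x ^ p ^ k = 1 → β x = x := by
    intro k
    induction k with
    | zero =>
      intro x hx
      rw [pow_zero, pow_one] at hx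
      rw [hx, map_one]
    | succ k ih =>
      intro x hx
      have h1 : β (x ^ p) = x ^ p := ih _ (by rw [← pow_mul, ← pow_succ']; exact hx)
      set y := x⁻¹ * β x with hy
      have hyp : y ^ p = 1 := by
        rw [hy, mul_pow, inv_pow, ← map_pow, h1, inv_mul_cancel]
      have hβy : β y = y := h y hyp
      have hpow : ∀ n : ℕ, (β ^ n) x = x * y ^ n := by
        intro n
        induction n with
        | zero => simp
        | succ n ih2 =>
          rw [pow_succ', MulAut.mul_apply, ih2, map_mul, map_pow, hβy, pow_succ', ← mul_assoc,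
            show β x = x * y by rw [hy]; group]
      have h3 := hpow (orderOf β)
      rw [pow_orderOf_eq_one] at h3
      have h4 : y ^ orderOf β = 1 := by
        have : x = x * y ^ orderOf β := h3
        simpa using this.symm
      have h5 : y = 1 := by
        have := (pow_gcd_eq_one (a := y)).mpr ⟨h4, hyp⟩
        rwa [hco.gcd_eq_one, pow_one] at this
      rw [hy, inv_mul_eq_one] at h5
      exact h5.symm
  ext x
  obtain ⟨k, hk⟩ := IsPGroup.iff_orderOf.mp hA x
  rw [MulAut.one_apply]
  exact key k x (by rw [← hk, pow_orderOf_eq_one])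

/-- The arithmetic consequence: a nontrivial automorphism of prime order `r ≠ p` of an abelian
`p`-group of rank `d` forces `r ∣ p^f - 1` for some `1 ≤ f ≤ d`. -/
theorem exists_dvd (hA : IsPGroup p A) (β : MulAut A) {r : ℕ} [hr : Fact r.Prime] (hrp : r ≠ p)
    (hβ : orderOf β = r) : ∃ f : ℕ, 1 ≤ f ∧ f ≤ Group.rank A ∧ r ∣ p ^ f - 1 := by
  classical
  have hco : Nat.Coprime r p := (Nat.coprime_primes hr.out hp.out).mpr hrp
  obtain ⟨v, hvp, hv⟩ : ∃ v : A, v ^ p = 1 ∧ β v ≠ v := by
    by_contra hno
    push Not at hno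
    have := aut_trivial hA β (by rw [hβ]; exact hco) hno
    rw [this, orderOf_one] at hβ
    exact hr.out.one_lt.ne hβ
  let Φ : A → A := fun x => ∏ i ∈ Finset.range r, (β ^ i) x
  have hΦmul : ∀ x y, Φ (x * y) = Φ x * Φ y := by
    intro x y
    simp only [Φ, map_mul, Finset.prod_mul_distrib]
  have hΦinv : ∀ x, Φ x⁻¹ = (Φ x)⁻¹ := by
    intro x
    simp only [Φ, map_inv, Finset.prod_inv_distrib]
  have hΦβ : ∀ x, Φ (β x) = β (Φ x) := by
    intro x
    simp only [Φ, map_prod]
    refine Finset.prod_congr rfl fun i _ => ?_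
    rw [← MulAut.mul_apply, ← MulAut.mul_apply, ← pow_succ, ← pow_succ']
  let U : Subgroup A :=
    { carrier := {x | x ^ p = 1 ∧ Φ x = 1}
      one_mem' := by simp [Φ]
      mul_mem' := by
        rintro a b ⟨ha, ha'⟩ ⟨hb, hb'⟩
        exact ⟨by rw [mul_pow, ha, hb, one_mul], by rw [hΦmul, ha', hb', one_mul]⟩
      inv_mem' := by
        rintro a ⟨ha, ha'⟩
        exact ⟨by rw [inv_pow, ha, inv_one], by rw [hΦinv, ha', inv_one]⟩ }
  have hmemU : ∀ x, x ∈ U ↔ x ^ p = 1 ∧ Φ x = 1 := fun x => Iff.rfl
  have hUβ : ∀ x ∈ U, β x ∈ U := by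
    rintro x ⟨hx, hx'⟩
    exact ⟨by rw [← map_pow, hx, map_one], by rw [hΦβ, hx', map_one]⟩
  -- `w` is a non-trivial element of `U`
  let w : A := β v * v⁻¹
  have hw1 : w ≠ 1 := by
    intro h
    exact hv (mul_inv_eq_one.mp h)
  have hwU : w ∈ U := by
    refine ⟨by simp only [w]; rw [mul_pow, inv_pow, ← map_pow, hvp, map_one, inv_one, one_mul], ?_⟩
    have : Φ w = ∏ i ∈ Finset.range r, ((β ^ (i + 1)) v / (β ^ i) v) := by
      refine Finset.prod_congr rfl fun i _ => ?_
      simp only [w, map_mul, map_inv, div_eq_mul_inv]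
      rw [← MulAut.mul_apply, ← pow_succ]
    rw [this, Finset.prod_range_div (fun i => (β ^ i) v), ← hβ, pow_orderOf_eq_one]
    simp
  -- the action on `U`
  let f : Function.End U := fun x => ⟨β x, hUβ x x.2⟩
  have hfpow : ∀ n : ℕ, ∀ x : U, (((f ^ n : Function.End U) x : U) : A) = (β ^ n) x := by
    intro n
    induction n with
    | zero => intro x; rw [pow_zero, pow_zero]; rfl
    | succ n ih =>
      intro x
      rw [pow_succ']
      show β (((f ^ n : Function.End U) x : U) : A) = _
      rw [ih, pow_succ', MulAut.mul_apply]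
  have hfr : f ^ r ^ 1 = 1 := by
    rw [pow_one]
    funext x
    apply Subtype.ext
    rw [hfpow, ← hβ, pow_orderOf_eq_one]
    rfl
  let _ : Fintype U := Fintype.ofFinite _
  have hmod := Equiv.Perm.card_fixedPoints_modEq hfr
  have hfix : Fintype.card (Function.fixedPoints f) = 1 := by
    rw [Fintype.card_eq_one_iff]
    refine ⟨⟨1, ?_⟩, ?_⟩
    · show f 1 = 1
      apply Subtype.ext
      show β 1 = 1
      rw [map_one]
    · rintro ⟨x, hx⟩
      apply Subtype.ext
      apply Subtype.ext
      have hx1 : β x = x := congrArg Subtype.val hx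
      have hpow : ∀ n : ℕ, (β ^ n) (x : A) = x := by
        intro n
        induction n with
        | zero => simp
        | succ n ih => rw [pow_succ, MulAut.mul_apply, hx1, ih]
      have h3 : (x : A) ^ r = 1 := by
        have h4 := x.2.2
        simp only [Φ, hpow, Finset.prod_const, Finset.card_range] at h4
        exact h4
      have h5 := (pow_gcd_eq_one (a := (x : A))).mpr ⟨h3, x.2.1⟩
      rw [hco.gcd_eq_one, pow_one] at h5
      exact h5
  rw [hfix, ← Nat.card_eq_fintype_card] at hmod
  -- `U` is a `p`-group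
  have hUp : IsPGroup p U := hA.to_subgroup U
  obtain ⟨k, hk⟩ := IsPGroup.iff_card.mp hUp
  rw [hk] at hmod
  refine ⟨k, ?_, ?_, ?_⟩
  · rcases Nat.eq_zero_or_pos k with rfl | h
    · exfalso
      rw [pow_zero] at hk
      have := (Subgroup.card_eq_one).mp hk
      exact hw1 (by
        have h2 : w ∈ (⊥ : Subgroup A) := this ▸ hwU
        exact h2)
    · exact h
  · have h1 : U ≤ (powMonoidHom p : A →* A).ker := fun x hx => hx.1
    have h2 := Nat.le_of_dvd Nat.card_pos (Subgroup.card_dvd_of_le h1)
    have h3 := h2.trans (card_ker_pow_le (A := A) (p := p))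
    rw [hk] at h3
    exact (Nat.pow_le_pow_iff_right hp.out.one_lt).mp h3
  · exact (Nat.modEq_iff_dvd' (Nat.one_le_pow _ _ hp.out.pos)).mp hmod.symm

end Aut

/-- Let `P` be an abelian Sylow `p`-subgroup of the finite group `G`, generated by `d` elements (`d` its minimal number of generators). If the order of `G` is coprime to `(p - 1)(p ^ 2 - 1) ⋯ (p ^ d - 1)`, then `G` has a normal `p`-complement. (The classical statement needs only the largest number of cyclic factors of `P` of equal order in place of `d`; the form here follows from it.) -/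
theorem result {G : Type*} [Group G] [Finite G] (p : ℕ) [Fact p.Prime] (P : Sylow p G) (hab : IsMulCommutative (P : Subgroup G)) (hcop : Nat.Coprime (Nat.card G) (∏ i ∈ Finset.Icc 1 (Group.rank (P : Subgroup G)), (p ^ i - 1))) : Cfsg.HasNormalPComplement p G  := by
  refine Cfsg.Agent.Lib.Basic.BurnsideAut.hasNormalPComplement_of_aut P hab ?_
  intro q hq hqp hqG σ hσ
  by_contra hne
  haveI : Fact q.Prime := ⟨hq⟩
  letI : CommGroup (P : Subgroup G) := { (inferInstance : Group (P : Subgroup G)) with mul_comm := hab.is_comm.comm }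
  obtain ⟨f, hf1, hf2, hfd⟩ := exists_dvd (A := (P : Subgroup G)) P.2 σ hqp hσ
  have h1 : p ^ f - 1 ∣ ∏ i ∈ Finset.Icc 1 (Group.rank (P : Subgroup G)), (p ^ i - 1) :=
    Finset.dvd_prod_of_mem _ (Finset.mem_Icc.mpr ⟨hf1, hf2⟩)
  have h2 := Nat.dvd_gcd hqG (hfd.trans h1)
  rw [hcop.gcd_eq_one] at h2
  exact hq.one_lt.ne' (Nat.dvd_one.mp h2)

end Cfsg.Agent.S3969
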