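import Cfsg.Statements.S3970
import Mathlib
import Cfsg.Agent.S3969
import Cfsg.Agent.Lib.Transfer.Basic
import Cfsg.Agent.Lib.Basic.SylowUtil
-- import your own Cfsg.Agent.* helpers here

set_option autoImplicit false
open Cfsg

namespace Cfsg.Agent.S3970

open Subgroup

universe u

/-- The arithmetic coprimality needed for the smallest prime. -/
theorem coprime_aux {n p d : ℕ} (hn : n ≠ 0) (hn1 : n ≠ 1) (hp : p = n.minFac) (hd : d ≤ 2)
    (h2 : p = 2 → Nat.Coprime n 3 ∨ d ≤ 1) :
    Nat.Coprime n (∏ i ∈ Finset.Icc 1 d, (p ^ i - 1)) := by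
  have hpp : p.Prime := hp ▸ Nat.minFac_prime hn1
  have hmin : ∀ r : ℕ, r.Prime → r ∣ n → p ≤ r := fun r hr hrn => by
    rw [hp]; exact Nat.minFac_le_of_dvd hr.two_le hrn
  apply Nat.Coprime.prod_right
  intro i hi
  rw [Finset.mem_Icc] at hi
  have hi' : i = 1 ∨ i = 2 := by omega
  rcases hi' with rfl | rfl
  · -- `p - 1`
    rw [pow_one]
    apply Nat.coprime_of_dvd
    intro r hr hrn hrd
    have h3 := hmin r hr hrn
    have hpos : 0 < p - 1 := by have := hpp.two_le; omega
    have := Nat.le_of_dvd hpos hrd
    have := hpp.two_le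
    omega
  · -- `p^2 - 1`
    by_cases hp2 : p = 2
    · subst hp2
      rcases h2 rfl with h | h
      · simpa using h
      · omega
    · apply Nat.coprime_of_dvd
      intro r hr hrn hrd
      have h3 := hmin r hr hrn
      have hge : 3 ≤ p := by
        have := hpp.two_le
        omega
      have hodd : Odd p := hpp.odd_of_ne_two hp2
      have hfac : p ^ 2 - 1 = (p - 1) * (p + 1) := by
        obtain ⟨k, rfl⟩ : ∃ k, p = k + 1 := ⟨p - 1, by omega⟩
        simp only [Nat.add_sub_cancel]
        ring_nf
        omega
      rw [hfac] at hrd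
      rcases (Nat.Prime.dvd_mul hr).mp hrd with h4 | h4
      · have := Nat.le_of_dvd (by omega) h4
        omega
      · have h5 := Nat.le_of_dvd (by omega) h4
        -- `p ≤ r ≤ p + 1`
        have h6 : r = p ∨ r = p + 1 := by omega
        rcases h6 with rfl | rfl
        · have : r ∣ 1 := (Nat.dvd_add_right (dvd_refl r)).mp h4
          exact hr.one_lt.ne' (Nat.dvd_one.mp this)
        · have hrodd : Odd (p + 1) := hr.odd_of_ne_two (by omega)
          obtain ⟨a, ha⟩ := hodd
          obtain ⟨b, hb⟩ := hrodd
          omega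

/-- Statement by induction on the group order. -/
theorem main : ∀ (n : ℕ) (G : Type u) [Group G] [Finite G], Nat.card G = n →
    (∀ p : ℕ, p.Prime → p ∣ Nat.card G → (∃ q : ℕ, q.Prime ∧ q ∣ Nat.card G ∧ p < q) →
      ∀ P : Sylow p G, IsMulCommutative (P : Subgroup G) ∧ Group.rank (P : Subgroup G) ≤ 2) →
    ¬ 12 ∣ Nat.card G → Group.IsSolvable G := by
  intro n
  induction n using Nat.strong_induction_on with
  | _ n ih =>
  intro G _ _ hn h h12
  by_cases hG1 : Nat.card G = 1
  · haveI : Subsingleton G := (Nat.card_eq_one_iff_unique.mp hG1).1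
    infer_instance
  have hG0 : Nat.card G ≠ 0 := Nat.card_pos.ne'
  set p := (Nat.card G).minFac with hp
  have hpp : p.Prime := Nat.minFac_prime hG1
  haveI : Fact p.Prime := ⟨hpp⟩
  have hpd : p ∣ Nat.card G := Nat.minFac_dvd _
  by_cases hq : ∃ q : ℕ, q.Prime ∧ q ∣ Nat.card G ∧ p < q
  · -- a normal `p`-complement
    let P : Sylow p G := default
    obtain ⟨hab, hrk⟩ := h p hpp hpd hq P
    have hc : Nat.Coprime (Nat.card G) (∏ i ∈ Finset.Icc 1 (Group.rank (P : Subgroup G)), (p ^ i - 1)) := by
      refine coprime_aux hG0 hG1 hp hrk ?_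
      intro hp2
      by_cases h3 : 3 ∣ Nat.card G
      · right
        -- `|P| = 2`
        have hnot4 : ¬ 4 ∣ Nat.card G := by
          intro h4
          exact h12 ((by norm_num : (12 : ℕ) = 4 * 3) ▸
            Nat.Coprime.mul_dvd_of_dvd_of_dvd (by norm_num) h4 h3)
        obtain ⟨k, hk⟩ := IsPGroup.iff_card.mp P.2
        have hPcard : Nat.card (P : Subgroup G) ∣ Nat.card G := Subgroup.card_subgroup_dvd_card _
        have e2 : p ^ k = 2 ^ k := by rw [hp2]
        rw [hk, e2] at hPcard
        have hk1 : k ≤ 1 := by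
          by_contra hlt
          apply hnot4
          have : (2 : ℕ) ^ 2 ∣ 2 ^ k := pow_dvd_pow 2 (by omega)
          exact this.trans hPcard
        have hcyc : IsCyclic (P : Subgroup G) := by
          rcases Nat.le_one_iff_eq_zero_or_eq_one.mp hk1 with rfl | rfl
          · rw [pow_zero] at hk
            haveI : Subsingleton (P : Subgroup G) := (Nat.card_eq_one_iff_unique.mp hk).1
            infer_instance
          · have hk' : Nat.card (P : Subgroup G) = 2 := by rw [hk, pow_one]; exact hp2
            exact isCyclic_of_prime_card hk'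
        obtain ⟨g, hg⟩ := hcyc.exists_generator
        classical
        have hcl : closure (({g} : Finset (P : Subgroup G)) : Set (P : Subgroup G)) = ⊤ := by
          rw [Finset.coe_singleton, ← zpowers_eq_closure]
          exact eq_top_iff.mpr fun x _ => hg x
        exact (Group.rank_le hcl).trans (by simp)
      · left
        exact ((Nat.Prime.coprime_iff_not_dvd Nat.prime_three).mpr h3).symm
    have hcomp := Cfsg.Agent.S3969.result p P hab hc
    obtain ⟨N, hNn, hN⟩ := Cfsg.Agent.Lib.Transfer.Basic.exists_complement_of_hasNormalPComplement hcomp P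
    have hNcop : (Nat.card N).Coprime p := Cfsg.Agent.Lib.Transfer.Basic.coprime_card_of_isComplement' hN
    have hQ : IsPGroup p (G ⧸ N) := Cfsg.Agent.Lib.Transfer.Basic.isPGroup_quotient_of_isComplement' hN
    have hcardG : Nat.card N * Nat.card (P : Subgroup G) = Nat.card G := hN.card_mul_card
    have hPidx : N.index = Nat.card (P : Subgroup G) := hN.symm.index_eq_card
    -- `N` is smaller
    have hPne : Nat.card (P : Subgroup G) ≠ 1 := by
      intro h1
      have hb : (P : Subgroup G) = ⊥ := (Subgroup.card_eq_one).mp h1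
      have := P.not_dvd_index
      rw [hb, Subgroup.index_bot] at this
      exact this hpd
    have hlt : Nat.card N < n := by
      rw [← hn, ← hcardG]
      have h1 : 0 < Nat.card N := Nat.card_pos
      have h2 : 1 < Nat.card (P : Subgroup G) := by
        have : 0 < Nat.card (P : Subgroup G) := Nat.card_pos
        omega
      exact lt_mul_of_one_lt_right h1 h2
    have hNG : Nat.card N ∣ Nat.card G := Subgroup.card_subgroup_dvd_card _
    have hNsolv : Group.IsSolvable N := by
      refine ih _ hlt N rfl ?_ (fun h4 => h12 (h4.trans hNG))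
      intro r hr hrN hq' R
      obtain ⟨s, hs, hsN, hrs⟩ := hq'
      haveI : Fact r.Prime := ⟨hr⟩
      have hrp : r ≠ p := by
        intro e
        have := Nat.dvd_gcd (e ▸ hrN : p ∣ Nat.card N) (dvd_refl p)
        rw [hNcop.gcd_eq_one] at this
        exact hpp.one_lt.ne' (Nat.dvd_one.mp this)
      have hind : ¬ r ∣ N.index := by
        rw [hPidx]
        obtain ⟨k, hk⟩ := IsPGroup.iff_card.mp P.2
        rw [hk]
        intro hd
        have := hr.dvd_of_dvd_pow hd
        exact hrp ((Nat.prime_dvd_prime_iff_eq hr hpp).mp this)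
      obtain ⟨R', hR'⟩ := Cfsg.Agent.Lib.Basic.SylowUtil.sylow_map_of_not_dvd_index hind R
      obtain ⟨h5, h6⟩ := h r hr (hrN.trans hNG) ⟨s, hs, hsN.trans hNG, hrs⟩ R'
      let e : (R : Subgroup N) ≃* (R' : Subgroup G) :=
        ((R : Subgroup N).equivMapOfInjective N.subtype N.subtype_injective).trans
          (MulEquiv.subgroupCongr hR'.symm)
      refine ⟨⟨⟨fun a b => e.injective ?_⟩⟩, ?_⟩
      · rw [map_mul, map_mul]
        exact h5.is_comm.comm _ _
      · rw [Group.rank_congr e]
        exact h6
    have hQsolv : Group.IsSolvable (G ⧸ N) := by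
      have := hQ.isNilpotent
      infer_instance
    refine Group.isSolvable_of_ker_le_range N.subtype (QuotientGroup.mk' N) ?_
    rw [QuotientGroup.ker_mk', Subgroup.range_subtype]
  · -- a `p`-group
    have hpg : IsPGroup p G := by
      refine IsPGroup.of_card (Nat.eq_prime_pow_of_unique_prime_dvd hG0 ?_)
      intro d hd hdG
      have h1 : p ≤ d := Nat.minFac_le_of_dvd hd.two_le hdG
      by_contra hne
      exact hq ⟨d, hd, hdG, lt_of_le_of_ne h1 (Ne.symm hne)⟩
    have := hpg.isNilpotent
    infer_instance

/-- Let `G` be a finite group such that for every prime `p` dividing its order, other than the largest such prime, the Sylow `p`-subgroups are abelian and generated by at most two elements, and suppose `12` does not divide the order of `G`. Then `G` is solvable. In particular a group of cube-free order not divisible by `12` is solvable. -/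
theorem result {G : Type*} [Group G] [Finite G] (h : ∀ p : ℕ, p.Prime → p ∣ Nat.card G → (∃ q : ℕ, q.Prime ∧ q ∣ Nat.card G ∧ p < q) → ∀ P : Sylow p G, IsMulCommutative (P : Subgroup G) ∧ Group.rank (P : Subgroup G) ≤ 2) (h12 : ¬ 12 ∣ Nat.card G) : Group.IsSolvable G  :=
  main _ G rfl h h12

end Cfsg.Agent.S3970
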