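import Cfsg.Statements.S3972
import Mathlib
import Cfsg.Agent.Lib.Perm.SchurRing
-- import your own Cfsg.Agent.* helpers here

set_option autoImplicit false
open Cfsg

namespace Cfsg.Agent.S3972

/-- Let `p` be a prime, `m ≥ 2`, and `G` a transitive but not doubly transitive permutation group on `p ^ m` points containing a permutation of order `p ^ m` (necessarily a full cycle). Then `G` is imprimitive, and the normal closure in `G` of the `p ^ (m - 1)`-th power of that permutation is an intransitive normal subgroup. -/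
theorem result {Ω : Type*} [Fintype Ω] [DecidableEq Ω] (p m : ℕ) (hp : p.Prime) (hm : 2 ≤ m) (hΩ : Fintype.card Ω = p ^ m) (G : Subgroup (Equiv.Perm Ω)) (htr : MulAction.IsPretransitive G Ω) (h2 : ¬ MulAction.IsMultiplyPretransitive G Ω 2) (g : G) (hg : orderOf g = p ^ m) : ¬ MulAction.IsPreprimitive G Ω ∧ ¬ MulAction.IsPretransitive (Subgroup.normalClosure ({g ^ (p ^ (m - 1))} : Set G)) Ω := by
  classical
  have hpf : Fact p.Prime := ⟨hp⟩
  have hg₀1 : g ^ (p ^ (m - 1)) ≠ 1 := by
    intro h
    have h1 := orderOf_dvd_of_pow_eq_one h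
    rw [hg] at h1
    have h3 := (Nat.pow_dvd_pow_iff_le_right hp.one_lt).mp h1
    omega
  obtain ⟨o, ho⟩ : ∃ o : Ω, g ^ (p ^ (m - 1)) • o ≠ o := by
    by_contra hcon
    push Not at hcon
    apply hg₀1
    apply Subtype.ext
    apply Equiv.ext
    intro x
    exact hcon x
  let _ : CommGroup (Subgroup.zpowers g) := IsCyclic.commGroup
  have hcardK : Nat.card (Subgroup.zpowers g) = p ^ m := by rw [Nat.card_zpowers, hg]
  -- the central element as an element of the cyclic group
  let g₀ : Subgroup.zpowers g := ⟨g ^ (p ^ (m - 1)), Subgroup.npow_mem_zpowers g _⟩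
  have hg₀p : g₀ ^ p = 1 := by
    apply Subtype.ext
    change (g ^ (p ^ (m - 1))) ^ p = 1
    rw [← pow_mul, ← pow_succ, show m - 1 + 1 = m by omega, ← hg, pow_orderOf_eq_one]
  have hmem : ∀ U : Subgroup (Subgroup.zpowers g), U ≠ ⊥ → g₀ ∈ U := fun U hU =>
    Cfsg.Agent.Lib.Perm.SchurRing.mem_of_pow_eq_one_of_ne_bot hp hcardK hU hg₀p
  have hinj : Function.Injective fun x : Subgroup.zpowers g =>
      ((Subgroup.zpowers g).subtype x) • o := by
    intro x y hxy
    have h1 : (x : G) • o = (y : G) • o := hxy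
    have hs : MulAction.stabilizer (Subgroup.zpowers g) o = ⊥ := by
      by_contra hU
      have := hmem _ hU
      rw [MulAction.mem_stabilizer_iff] at this
      exact ho this
    have h3 : y⁻¹ * x ∈ MulAction.stabilizer (Subgroup.zpowers g) o := by
      rw [MulAction.mem_stabilizer_iff, mul_smul]
      change y⁻¹ • ((x : G) • o) = o
      rw [h1]
      change y⁻¹ • (y • o) = o
      rw [inv_smul_smul]
    rw [hs, Subgroup.mem_bot] at h3
    exact (inv_mul_eq_one.mp h3).symm
  have hbij : Function.Bijective fun x : Subgroup.zpowers g =>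
      ((Subgroup.zpowers g).subtype x) • o :=
    hinj.bijective_of_nat_card_le (by rw [hcardK, Nat.card_eq_fintype_card, hΩ])
  have hnp : ¬ MulAction.IsPreprimitive G Ω := by
    intro hprim
    refine h2 (Cfsg.Agent.Lib.Perm.SchurRing.isMultiplyPretransitive_two_of_cyclic hbij hp
      (by rw [hcardK]; exact dvd_pow_self p (by omega)) ?_)
    rw [hcardK]
    intro h
    have : p ^ m = p ^ 1 := by rw [h, pow_one]
    have := Nat.pow_right_injective hp.two_le this
    omega
  refine ⟨hnp, ?_⟩
  obtain ⟨B, hB, hBt⟩ : ∃ B : Set Ω, MulAction.IsBlock G B ∧ ¬ MulAction.IsTrivialBlock B := by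
    by_contra hcon
    push Not at hcon
    exact hnp { toIsPretransitive := htr, isTrivialBlock_of_isBlock := fun hB => hcon _ hB }
  have hBns : ¬ B.Subsingleton := fun h => hBt (Or.inl h)
  have hBu : B ≠ Set.univ := fun h => hBt (Or.inr h)
  obtain ⟨a, ha, b, hb, hab⟩ := Set.not_subsingleton_iff.mp hBns
  obtain ⟨w, hw⟩ : ∃ w, w ∉ B := by
    by_contra hcon
    push Not at hcon
    exact hBu (Set.eq_univ_of_forall hcon)
  open scoped Pointwise in
  have hblock : ∀ x y : G, ¬ Disjoint (x • B) (y • B) → x • B = y • B := by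
    intro x y hd
    by_contra hne
    exact hd (hB hne)
  open scoped Pointwise in
  have hg₀B : (g₀ : G) • B = B := by
    obtain ⟨x, hx⟩ := hbij.2 b
    obtain ⟨y, hy⟩ := hbij.2 a
    have hxy : x * y⁻¹ ≠ 1 := by
      intro h
      rw [mul_inv_eq_one] at h
      rw [h] at hx
      exact hab (hy.symm.trans hx)
    have hxB : ((x * y⁻¹ : Subgroup.zpowers g) : G) • B = B := by
      have h0 : ((x * y⁻¹ : Subgroup.zpowers g) : G) • a = b := by
        have hxy' : ((x * y⁻¹ : Subgroup.zpowers g) : G) = (x : G) * (y : G)⁻¹ := rfl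
        rw [hxy', mul_smul]
        change (x : G) • (y : G)⁻¹ • a = b
        have hya : (y : G) • o = a := hy
        have hxb : (x : G) • o = b := hx
        rw [← hya, inv_smul_smul, hxb]
      have := hblock ((x * y⁻¹ : Subgroup.zpowers g) : G) 1 (by
        rw [Set.not_disjoint_iff]
        refine ⟨b, ?_, ?_⟩
        · exact ⟨a, ha, h0⟩
        · rw [one_smul]; exact hb)
      rwa [one_smul] at this
    let U : Subgroup (Subgroup.zpowers g) :=
      { carrier := {z | (z : G) • B = B}
        mul_mem' := by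
          intro z z' hz hz'
          simp only [Set.mem_ofPred_eq] at hz hz' ⊢
          rw [Subgroup.coe_mul, mul_smul, hz', hz]
        one_mem' := by
          simp
        inv_mem' := by
          intro z hz
          simp only [Set.mem_ofPred_eq] at hz ⊢
          rw [Subgroup.coe_inv, inv_smul_eq_iff, hz] }
    have hUne : U ≠ ⊥ := by
      intro h
      have : x * y⁻¹ ∈ U := hxB
      rw [h, Subgroup.mem_bot] at this
      exact hxy this
    exact hmem U hUne
  open scoped Pointwise in
  have hall : ∀ h : G, (g₀ : G) • (h • B) = h • B := by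
    intro h
    obtain ⟨x, hx⟩ := hbij.2 (h • a)
    obtain ⟨y, hy⟩ := hbij.2 a
    have h0 : ((x * y⁻¹ : Subgroup.zpowers g) : G) • a = h • a := by
      have hxy' : ((x * y⁻¹ : Subgroup.zpowers g) : G) = (x : G) * (y : G)⁻¹ := rfl
      rw [hxy', mul_smul]
      have hya : (y : G) • o = a := hy
      have hxb : (x : G) • o = h • a := hx
      rw [← hya, inv_smul_smul, hxb, hya]
    have h3 : h • B = ((x * y⁻¹ : Subgroup.zpowers g) : G) • B := by
      refine hblock _ _ ?_
      rw [Set.not_disjoint_iff]
      exact ⟨h • a, ⟨a, ha, rfl⟩, ⟨a, ha, h0⟩⟩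
    rw [h3, smul_smul]
    have hc : (g₀ : G) * ((x * y⁻¹ : Subgroup.zpowers g) : G) =
        ((x * y⁻¹ : Subgroup.zpowers g) : G) * (g₀ : G) := by
      have := mul_comm g₀ (x * y⁻¹)
      exact congrArg Subtype.val this
    rw [hc, mul_smul, hg₀B]
  open scoped Pointwise in
  let L : Subgroup G :=
    { carrier := {z | ∀ h : G, z • (h • B) = h • B}
      mul_mem' := by
        intro z z' hz hz' h
        rw [mul_smul, hz', hz]
      one_mem' := by
        intro h
        rw [one_smul]
      inv_mem' := by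
        intro z hz h
        rw [inv_smul_eq_iff, hz] }
  have hLn : L.Normal := by
    constructor
    intro z hz c h
    have h1 : z • ((c⁻¹ * h) • B) = (c⁻¹ * h) • B := hz _
    rw [mul_smul, mul_smul, ← mul_smul c⁻¹ h, h1, mul_smul, smul_inv_smul]
  have hNL : Subgroup.normalClosure ({g ^ (p ^ (m - 1))} : Set G) ≤ L := by
    refine Subgroup.normalClosure_le_normal ?_
    rintro _ rfl
    exact hall
  intro htrans
  obtain ⟨n, hn⟩ := MulAction.exists_smul_eq (Subgroup.normalClosure ({g ^ (p ^ (m - 1))} : Set G)) a w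
  have h1 : (n : G) • a = w := hn
  have h3 : (n : G) ∈ L := hNL n.2
  have h4 : (n : G) • ((1 : G) • B) = (1 : G) • B := h3 1
  rw [one_smul] at h4
  apply hw
  rw [← h4, ← h1]
  exact ⟨a, ha, rfl⟩

end Cfsg.Agent.S3972
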