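import Cfsg.Statements.S3973
import Mathlib
import Cfsg.Agent.Lib.Schur.Hopf
-- import your own Cfsg.Agent.* helpers here

set_option autoImplicit false
open Cfsg

namespace Cfsg.Agent.S3973

open Cfsg.Agent.Lib.Schur.Hopf in
open scoped IsMulCommutative in
theorem main_rank {n : ℕ} (rels : Finset (FreeGroup (Fin n)))
    [Finite (PresentedGroup (rels : Set (FreeGroup (Fin n))))] {A : Type*} [CommGroup A] [Finite A]
    (hA : Cfsg.HasSchurMultiplier (PresentedGroup (rels : Set (FreeGroup (Fin n)))) A) :
    Group.rank A ≤ rels.card - n := by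
  classical
  let α : FreeGroup (Fin n) →* PresentedGroup (rels : Set (FreeGroup (Fin n))) := PresentedGroup.mk _
  have hα : Function.Surjective α := PresentedGroup.mk_surjective _
  have hker : ∀ x, x ∈ α.ker ↔ x ∈ Subgroup.normalClosure (rels : Set (FreeGroup (Fin n))) :=
    fun x => PresentedGroup.mk_eq_one_iff
  obtain ⟨e⟩ := nonempty_mulEquiv_MM hA hα
  let W := Additive (Subgroup.center (EE α))
  let gen : (↥rels) → W := fun i => Additive.ofMul
    ⟨(QuotientGroup.mk i.1 : EE α), mk_mem_center α ((hker _).mpr (Subgroup.subset_normalClosure i.2))⟩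
  let ρ : ((↥rels) →₀ ℤ) →ₗ[ℤ] W := Finsupp.linearCombination ℤ gen
  let abW : W →ₗ[ℤ] FreeAbelianGroup (Fin n) := AddMonoidHom.toIntLinearMap
    (AddMonoidHom.mk' (fun z => Multiplicative.toAdd (abE α (Additive.toMul z : Subgroup.center (EE α)).1))
      (by
        intro a b
        show Multiplicative.toAdd (abE α ((Additive.toMul a).1 * (Additive.toMul b).1)) = _
        rw [map_mul]
        rfl))
  have habW : ∀ (s : FreeGroup (Fin n)) (h : (QuotientGroup.mk s : EE α) ∈ Subgroup.center (EE α)),
      abW (Additive.ofMul ⟨(QuotientGroup.mk s : EE α), h⟩) = Multiplicative.toAdd (abF (Fin n) s) :=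
    fun s h => rfl
  let θ := abW ∘ₗ ρ
  -- range of `ρ` lies in the image of the kernel
  have hρ₁ : ∀ v, ∃ s ∈ α.ker, (QuotientGroup.mk s : EE α) = (Additive.toMul (ρ v) : Subgroup.center (EE α)).1 := by
    let Y : AddSubgroup W :=
      { carrier := {y | ∃ s ∈ α.ker, (QuotientGroup.mk s : EE α) =
          (Additive.toMul y : Subgroup.center (EE α)).1}
        add_mem' := by
          rintro a c ⟨t, ht, h⟩ ⟨t', ht', h'⟩
          refine ⟨t * t', mul_mem ht ht', ?_⟩
          rw [QuotientGroup.mk_mul, h, h']
          rfl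
        zero_mem' := ⟨1, one_mem _, rfl⟩
        neg_mem' := by
          rintro a ⟨t, ht, h⟩
          refine ⟨t⁻¹, inv_mem ht, ?_⟩
          rw [QuotientGroup.mk_inv, h]
          rfl }
    have hspan : LinearMap.range ρ ≤ AddSubgroup.toIntSubmodule Y := by
      rw [Finsupp.range_linearCombination, Submodule.span_le]
      rintro _ ⟨i, rfl⟩
      exact ⟨i.1, (hker _).mpr (Subgroup.subset_normalClosure i.2), rfl⟩
    intro v
    exact hspan ⟨v, rfl⟩
  -- the kernel lies in the range of `ρ`
  have hρ₂ : ∀ s (h : s ∈ α.ker), ∃ v, ρ v = Additive.ofMul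
      ⟨(QuotientGroup.mk s : EE α), mk_mem_center α h⟩ := by
    let Y₂ : Subgroup (FreeGroup (Fin n)) :=
      { carrier := {s | ∃ h : s ∈ α.ker, ∃ v, ρ v = Additive.ofMul
            ⟨(QuotientGroup.mk s : EE α), mk_mem_center α h⟩}
        mul_mem' := by
          rintro a c ⟨h, v, hv⟩ ⟨h', v', hv'⟩
          refine ⟨mul_mem h h', v + v', ?_⟩
          rw [map_add, hv, hv']
          rfl
        one_mem' := ⟨one_mem _, 0, by rw [map_zero]; rfl⟩
        inv_mem' := by
          rintro a ⟨h, v, hv⟩
          refine ⟨inv_mem h, -v, ?_⟩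
          rw [map_neg, hv]
          rfl }
    have hN : Y₂.Normal := by
      constructor
      rintro s ⟨h, v, hv⟩ g
      have hh : g * s * g⁻¹ ∈ α.ker := (MonoidHom.normal_ker α).conj_mem s h g
      refine ⟨hh, v, ?_⟩
      rw [hv]
      congr 2
      rw [QuotientGroup.mk_mul, QuotientGroup.mk_mul, QuotientGroup.mk_inv]
      have hc := Subgroup.mem_center_iff.mp (mk_mem_center α h) (QuotientGroup.mk g)
      rw [hc, mul_inv_cancel_right]
    have hle : Subgroup.normalClosure (rels : Set (FreeGroup (Fin n))) ≤ Y₂ := by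
      apply Subgroup.normalClosure_le_normal
      intro r hr
      have hr' : r ∈ α.ker := (hker _).mpr (Subgroup.subset_normalClosure hr)
      refine ⟨hr', Finsupp.single ⟨r, hr⟩ 1, ?_⟩
      simp only [ρ, Finsupp.linearCombination_single, one_smul]
      rfl
    intro s h
    obtain ⟨_, v, hv⟩ := hle ((hker _).mp h)
    exact ⟨v, hv⟩
  -- finite rank considerations
  have hM : Module.finrank ℤ (FreeAbelianGroup (Fin n)) = n := by
    rw [Module.finrank_eq_card_basis (FreeAbelianGroup.basis (Fin n))]
    simp
  have hrange : Module.finrank ℤ (LinearMap.range θ) = n := by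
    have hq : Module.finrank ℤ (FreeAbelianGroup (Fin n) ⧸ LinearMap.range θ) = 0 := by
      apply Module.finrank_eq_zero_of_rank_eq_zero
      rw [rank_eq_zero_iff]
      intro x
      obtain ⟨x, rfl⟩ := Submodule.Quotient.mk_surjective _ x
      refine ⟨(Nat.card (PresentedGroup (rels : Set (FreeGroup (Fin n)))) : ℤ),
        by exact_mod_cast Nat.card_pos.ne', ?_⟩
      rw [← Submodule.Quotient.mk_smul, Submodule.Quotient.mk_eq_zero]
      have hcl : ∀ x : FreeAbelianGroup (Fin n), ∃ w, Multiplicative.toAdd (abF (Fin n) w) = x := by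
        intro x
        induction x using FreeAbelianGroup.induction_on with
        | zero => exact ⟨1, by simp⟩
        | of x => exact ⟨FreeGroup.of x, by simp [abF]⟩
        | neg x h =>
          obtain ⟨w, hw⟩ := h
          exact ⟨(FreeGroup.of x)⁻¹, by simp [abF]⟩
        | add x y hx hy =>
          obtain ⟨w, hw⟩ := hx
          obtain ⟨w', hw'⟩ := hy
          exact ⟨w * w', by rw [map_mul, toAdd_mul, hw, hw']⟩
      obtain ⟨w, rfl⟩ := hcl x
      have hw : w ^ Nat.card (PresentedGroup (rels : Set (FreeGroup (Fin n)))) ∈ α.ker := by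
        rw [MonoidHom.mem_ker, map_pow, pow_card_eq_one']
      obtain ⟨v, hv⟩ := hρ₂ _ hw
      refine ⟨v, ?_⟩
      show abW (ρ v) = _
      rw [hv, habW, map_pow, toAdd_pow]
      simp
    have := Submodule.finrank_quotient_add_finrank (LinearMap.range θ)
    rw [hq, zero_add, hM] at this
    exact this
  have hkerk : Module.finrank ℤ (LinearMap.ker θ) = rels.card - n := by
    have := Submodule.finrank_quotient_add_finrank (LinearMap.ker θ)
    rw [(LinearMap.quotKerEquivRange θ).finrank_eq, hrange] at this
    have h2 : Module.finrank ℤ ((↥rels) →₀ ℤ) = rels.card := by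
      simp
    omega
  let b := Module.finBasis ℤ (LinearMap.ker θ)
  -- generators of the multiplier
  have hmm : ∀ v : LinearMap.ker θ, (Additive.toMul (ρ v) : Subgroup.center (EE α)) ∈ MM α := by
    intro v
    obtain ⟨s, hs, hs2⟩ := hρ₁ v
    rw [mem_MM_iff]
    refine ⟨s, Subgroup.mem_inf.mpr ⟨?_, hs⟩, hs2⟩
    rw [← abF_ker, MonoidHom.mem_ker]
    have h0 : abW (ρ v) = 0 := v.2
    have h1 : abW (ρ v) = Multiplicative.toAdd (abF (Fin n) s) := by
      show Multiplicative.toAdd (abE α (Additive.toMul (ρ v) : Subgroup.center (EE α)).1) = _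
      rw [← hs2]
      rfl
    rw [h1] at h0
    exact h0
  let zz : Fin (Module.finrank ℤ (LinearMap.ker θ)) → MM α := fun i => ⟨_, hmm (b i)⟩
  have hcl : ∀ v : LinearMap.ker θ, (⟨_, hmm v⟩ : MM α) ∈ Subgroup.closure (Set.range zz) := by
    intro v
    have hspan : v ∈ Submodule.span ℤ (Set.range b) := by
      rw [b.span_eq]; trivial
    induction hspan using Submodule.span_induction with
    | mem x h =>
      obtain ⟨i, rfl⟩ := h
      exact Subgroup.subset_closure ⟨i, rfl⟩
    | zero =>
      convert (Subgroup.closure (Set.range zz)).one_mem using 1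
      apply Subtype.ext
      apply Subtype.ext
      show ((Additive.toMul (ρ 0) : Subgroup.center (EE α)) : EE α) = 1
      rw [map_zero]
      rfl
    | add x y _ _ hx hy =>
      convert mul_mem hx hy using 1
      apply Subtype.ext
      apply Subtype.ext
      show ((Additive.toMul (ρ (x + y)) : Subgroup.center (EE α)) : EE α) = _
      rw [map_add]
      rfl
    | smul a x _ hx =>
      convert zpow_mem hx a using 1
      apply Subtype.ext
      apply Subtype.ext
      show ((Additive.toMul (ρ (a • x)) : Subgroup.center (EE α)) : EE α) = _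
      rw [map_zsmul]
      rfl
  have htop : Subgroup.closure (Set.range zz) = ⊤ := by
    rw [eq_top_iff]
    rintro z -
    obtain ⟨w, hw, h⟩ := (mem_MM_iff _).mp z.2
    have hw' : w ∈ α.ker := hw.2
    obtain ⟨v, hv⟩ := hρ₂ w hw'
    have hvk : v ∈ LinearMap.ker θ := by
      show abW (ρ v) = 0
      rw [hv, habW]
      have : w ∈ (abF (Fin n)).ker := by rw [abF_ker]; exact hw.1
      rw [show abF (Fin n) w = 1 from this]
      rfl
    convert hcl ⟨v, hvk⟩ using 1
    apply Subtype.ext
    apply Subtype.ext
    show (z : EE α) = ((Additive.toMul (ρ v) : Subgroup.center (EE α)) : EE α)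
    rw [hv, ← h]
    rfl
  let S : Finset A := Finset.univ.image (fun i => e (zz i))
  have hS : Subgroup.closure (S : Set A) = ⊤ := by
    have : (S : Set A) = e '' (Set.range zz) := by
      ext a
      simp [S]
    rw [this]
    have h2 := MonoidHom.map_closure e.toMonoidHom (Set.range zz)
    simp only [MulEquiv.coe_toMonoidHom] at h2
    rw [← h2, htop]
    exact Subgroup.map_top_of_surjective _ e.surjective
  calc Group.rank A ≤ S.card := Group.rank_le hS
    _ ≤ (Finset.univ : Finset (Fin (Module.finrank ℤ (LinearMap.ker θ)))).card := Finset.card_image_le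
    _ = rels.card - n := by
      rw [Finset.card_univ, Fintype.card_fin, hkerk]


/-- If a finite group is presented by `n` generators and a finite set of `r` relators, then its Schur multiplier can be generated by `r - n` elements. In particular a finite group with a presentation having as many relators as generators has trivial Schur multiplier. -/
theorem result (n : ℕ) (rels : Finset (FreeGroup (Fin n))) [Finite (PresentedGroup (rels : Set (FreeGroup (Fin n))))] {A : Type*} [CommGroup A] [Finite A] (hA : Cfsg.HasSchurMultiplier (PresentedGroup (rels : Set (FreeGroup (Fin n)))) A) : Group.rank A ≤ rels.card - n := by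
  exact main_rank rels hA


end Cfsg.Agent.S3973
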