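import Cfsg.Statements.S3977
import Mathlib
import Cfsg.Agent.Lib.PGroup.CyclicMax2

set_option autoImplicit false
open Cfsg

namespace Cfsg.Agent.S3977

open Cfsg.Agent.Lib.PGroup.CyclicMax Cfsg.Agent.Lib.PGroup.CyclicMax2 Subgroup

/-- Let `p` be a prime and `G` a group of order `p ^ m` which has exactly one subgroup of order `p ^ s`, where `1 ≤ s < m`, and where `s ≥ 2` if `p = 2`. Then `G` is cyclic. (For `p = 2` and `s = 1` the generalized quaternion groups also occur; that case is the classical criterion for a unique involution.) -/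
theorem result {G : Type*} [Group G] [Finite G] (p m s : ℕ) (hp : p.Prime) (hG : Nat.card G = p ^ m) (hs : 1 ≤ s) (hsm : s < m) (h2 : p ≠ 2 ∨ 2 ≤ s) (huniq : ∀ H K : Subgroup G, Nat.card H = p ^ s → Nat.card K = p ^ s → H = K) : IsCyclic G := by
  haveI : Fact p.Prime := ⟨hp⟩
  have hpG : IsPGroup p G := IsPGroup.of_card hG
  have hdvd : ∀ i, i ≤ m → p ^ i ∣ Nat.card G := fun i hi => by
    rw [hG]; exact pow_dvd_pow p hi
  obtain ⟨H, hH⟩ := Sylow.exists_subgroup_card_pow_prime p (hdvd s hsm.le)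
  -- elements of `p`-power order at most `p^s` lie in `H`
  have hsub : ∀ x : G, orderOf x ∣ p ^ s → x ∈ H := by
    intro x hx
    obtain ⟨r, hr, hrx⟩ := (Nat.dvd_prime_pow hp).mp hx
    obtain ⟨L, hL, hxL⟩ := Sylow.exists_subgroup_card_pow_prime_le p (hdvd s hsm.le) (zpowers x)
      (by rw [Nat.card_zpowers, hrx]) hr
    rw [huniq L H hL hH] at hxL
    exact hxL (mem_zpowers x)
  -- `H` is cyclic
  have hHne : H ≠ ⊤ := by
    intro ht
    rw [ht, Subgroup.card_top, hG] at hH
    have := Nat.pow_right_injective hp.two_le hH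
    omega
  obtain ⟨x, hx⟩ : ∃ x, x ∉ H := by
    by_contra hcon
    push Not at hcon
    exact hHne (eq_top_iff.mpr fun y _ => hcon y)
  have hHcyc : IsCyclic H := by
    obtain ⟨e, he⟩ := hpG x
    obtain ⟨r, hr, hrx⟩ := (Nat.dvd_prime_pow hp).mp (orderOf_dvd_of_pow_eq_one he)
    have hrs : s ≤ r := by
      by_contra hc
      apply hx
      apply hsub
      rw [hrx]
      exact pow_dvd_pow p (by omega)
    have e1 : p ^ r = p ^ (r - s) * p ^ s := by rw [← pow_add]; congr 1; omega
    have h1 : orderOf (x ^ p ^ (r - s)) = p ^ s := by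
      rw [orderOf_pow_of_dvd (pow_ne_zero _ hp.ne_zero) (by rw [hrx, e1]; exact dvd_mul_right _ _), hrx, e1]
      exact Nat.mul_div_cancel_left _ (pow_pos hp.pos _)
    have h3 : H = zpowers (x ^ p ^ (r - s)) := huniq _ _ hH (by rw [Nat.card_zpowers, h1])
    rw [h3]
    infer_instance
  -- `UniqueP`
  have hu : UniqueP p G := by
    intro y z hy hz hy1 hz1
    have hyH : y ∈ H := by
      apply hsub
      rw [orderOf_eq_prime hy hy1]
      exact dvd_pow_self p (by omega)
    have hzH : z ∈ H := by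
      apply hsub
      rw [orderOf_eq_prime hz hz1]
      exact dvd_pow_self p (by omega)
    have := uniqueP_of_isCyclic (p := p) (A := H) ⟨y, hyH⟩ ⟨z, hzH⟩
      (Subtype.ext (by simpa using hy)) (Subtype.ext (by simpa using hz))
      (fun hc => hy1 (congrArg Subtype.val hc)) (fun hc => hz1 (congrArg Subtype.val hc))
    obtain ⟨i, hi⟩ := this
    refine ⟨i, ?_⟩
    simpa using congrArg Subtype.val hi
  rcases cyclic_or_quaternion hpG hu with h | ⟨rfl, u, b, n, hSC, hn, hcard, hb, hbu, hb2⟩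
  · exact h
  -- exclude quaternion
  exfalso
  have hs2 : 2 ≤ s := by
    rcases h2 with h2 | h2
    · exact (h2 rfl).elim
    · exact h2
  have hmn : m = n + 1 := by
    rw [hG] at hcard
    exact Nat.pow_right_injective (le_refl 2) hcard
  subst hmn
  -- a second subgroup
  have hb4 : orderOf b = 2 ^ 2 := by
    apply orderOf_eq_prime_pow
    · simp only [pow_one]
      rw [hb2]
      intro hc
      have h1 : orderOf u ∣ 2 ^ (n - 1) := orderOf_dvd_of_pow_eq_one hc
      rw [hSC.hu] at h1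
      have h2 := (Nat.pow_dvd_pow_iff_le_right (by norm_num)).mp h1
      omega
    · have e0 : 2 ^ (1 + 1) = 2 * 2 := by norm_num
      have e2 : 2 ^ (n - 1) * 2 = 2 ^ n := by
        rw [← pow_succ]; congr 1; omega
      rw [e0, pow_mul, hb2, ← pow_mul, e2, ← hSC.hu, pow_orderOf_eq_one]
  obtain ⟨L, hL, hbL⟩ := Sylow.exists_subgroup_card_pow_prime_le 2 (hdvd s hsm.le) (zpowers b)
      (by rw [Nat.card_zpowers, hb4]) hs2
  have e1 : 2 ^ n = 2 ^ (n - s) * 2 ^ s := by rw [← pow_add]; congr 1; omega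
  have h1 : orderOf (u ^ 2 ^ (n - s)) = 2 ^ s := by
    rw [orderOf_pow_of_dvd (pow_ne_zero _ (by norm_num)) (by rw [hSC.hu, e1]; exact dvd_mul_right _ _), hSC.hu, e1]
    exact Nat.mul_div_cancel_left _ (pow_pos (by norm_num) _)
  have h3 := huniq L (zpowers (u ^ 2 ^ (n - s))) hL (by rw [Nat.card_zpowers, h1])
  apply hb
  have h4 : b ∈ zpowers (u ^ 2 ^ (n - s)) := by
    rw [← h3]
    exact hbL (mem_zpowers b)
  exact zpowers_le.mpr (pow_mem (mem_zpowers u) _) h4

end Cfsg.Agent.S3977
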