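import Cfsg.Statements.S3992
import Cfsg.Agent.Lib.Basic.PCore
import Cfsg.Agent.Lib.Basic.SylowUtil
import Cfsg.Agent.Lib.Frobenius.SylowFpf
import Cfsg.Agent.Lib.Solvable.PSeries

set_option autoImplicit false
open Cfsg

namespace Cfsg.Agent.S3992

open Cfsg.Agent.Lib.Basic.PCore Cfsg.Agent.Lib.Basic.SylowUtil
open Cfsg.Agent.Lib.Frobenius.SylowFpf Cfsg.Agent.Lib.Frobenius.Invariant

/-- All nontrivial elements have prime power order. -/
def EP (G : Type*) [Group G] : Prop := ∀ g : G, g ≠ 1 → IsPrimePow (orderOf g)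

section basic
variable {G : Type*} [Group G]

theorem eq_of_dvd_of_isPrimePow {n a b : ℕ} (hn : IsPrimePow n) (ha : a.Prime) (hb : b.Prime)
    (han : a ∣ n) (hbn : b ∣ n) : a = b := by
  obtain ⟨c, k, hc, hk, rfl⟩ := hn
  have hc' := hc.nat_prime
  have h1 := (Nat.prime_dvd_prime_iff_eq ha hc').mp (ha.dvd_of_dvd_pow han)
  have h2 := (Nat.prime_dvd_prime_iff_eq hb hc').mp (hb.dvd_of_dvd_pow hbn)
  rw [h1, h2]

theorem ep_subgroup (hG : EP G) (H : Subgroup G) : EP H := by
  intro g hg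
  rw [← Subgroup.orderOf_coe]
  exact hG _ (fun h => hg (Subtype.ext h))

theorem no_commute (hG : EP G) {x y : G} {a b i j : ℕ} (ha : a.Prime) (hb : b.Prime)
    (hab : a ≠ b) (hx : orderOf x = a ^ i) (hy : orderOf y = b ^ j) (hx1 : x ≠ 1) (hy1 : y ≠ 1)
    (hc : Commute x y) : False := by
  have hi : i ≠ 0 := by
    rintro rfl
    rw [pow_zero] at hx
    exact hx1 (orderOf_eq_one_iff.mp hx)
  have hj : j ≠ 0 := by
    rintro rfl
    rw [pow_zero] at hy
    exact hy1 (orderOf_eq_one_iff.mp hy)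
  have hcop : (orderOf x).Coprime (orderOf y) := by
    rw [hx, hy]
    exact Nat.Coprime.pow _ _ ((Nat.coprime_primes ha hb).mpr hab)
  have hord := hc.orderOf_mul_eq_mul_orderOf_of_coprime hcop
  have hne : x * y ≠ 1 := by
    intro h
    rw [h, orderOf_one, hx, hy] at hord
    have : a ∣ 1 := by
      rw [hord]
      exact dvd_mul_of_dvd_left (dvd_pow_self a hi) _
    exact ha.one_lt.ne' (Nat.dvd_one.mp this)
  have hpp := hG _ hne
  rw [hord, hx, hy] at hpp
  exact hab (eq_of_dvd_of_isPrimePow hpp ha hb (dvd_mul_of_dvd_left (dvd_pow_self a hi) _)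
    (dvd_mul_of_dvd_right (dvd_pow_self b hj) _))

/-- An element commuting with a nontrivial `q`-element is a `q`-element. -/
theorem order_of_commute (hG : EP G) {z x : G} {q j : ℕ} (hq : q.Prime) (hz : orderOf z = q ^ j)
    (hz1 : z ≠ 1) (hc : Commute x z) : ∃ k, orderOf x = q ^ k := by
  by_cases hx : x = 1
  · exact ⟨0, by simp [hx]⟩
  · obtain ⟨c, k, hc', hk, he⟩ := hG x hx
    by_cases hcq : c = q
    · exact ⟨k, by rw [← he, hcq]⟩
    · exact (no_commute hG hc'.nat_prime hq hcq he.symm hz hx hz1 hc).elim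

variable [Finite G]

theorem nontrivial_of_ne_bot {H : Subgroup G} (h : H ≠ ⊥) : Nontrivial H :=
  Finite.one_lt_card_iff_nontrivial.mp ((Subgroup.one_lt_card_iff_ne_bot H).mpr h)

theorem comm_eq_one (hG : EP G) {A B : Subgroup G} {a b : ℕ} [Fact a.Prime] [Fact b.Prime]
    (hA : IsPGroup a A) (hB : IsPGroup b B) (hab : a ≠ b) {x y : G} (hx : x ∈ A) (hy : y ∈ B)
    (hx1 : x ≠ 1) (hc : x * y = y * x) : y = 1 := by
  by_contra hy1
  obtain ⟨i, hi⟩ := orderOf_eq_pow_of_isPGroup hA hx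
  obtain ⟨j, hj⟩ := orderOf_eq_pow_of_isPGroup hB hy
  exact no_commute hG Fact.out Fact.out hab hi hj hx1 hy1 hc

/-- The layer above `O_p(G)`, through a solvable normal subgroup. -/
theorem layer {p : ℕ} [Fact p.Prime] (T : Subgroup G) [hTn : T.Normal] [hTs : Group.IsSolvable T]
    (hTF : ¬ T ≤ pCore p G) :
    ∃ (q : ℕ) (_ : Fact q.Prime) (Q : Subgroup G), q ≠ p ∧ IsPGroup q Q ∧ Q ≠ ⊥ ∧
      ∀ g : G, ∃ f ∈ pCore p G, ∃ h ∈ Subgroup.normalizer (Q : Set G), g = f * h := by
  classical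
  set F : Subgroup G := pCore p G with hF
  let mk : G →* G ⧸ F := QuotientGroup.mk' F
  have hmk : Function.Surjective mk := QuotientGroup.mk'_surjective F
  set Tb : Subgroup (G ⧸ F) := T.map mk with hTb
  haveI hTbn : Tb.Normal := Subgroup.Normal.map hTn _ hmk
  haveI hTbs : Group.IsSolvable Tb :=
    solvable_of_surjective (f := mk.subgroupMap T) (mk.subgroupMap_surjective T)
  have hTbne : Tb ≠ ⊥ := by
    intro h
    apply hTF
    intro x hx
    have : mk x ∈ Tb := ⟨x, hx, rfl⟩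
    rw [h, Subgroup.mem_bot] at this
    exact (QuotientGroup.eq_one_iff x).mp this
  haveI : Nontrivial Tb := nontrivial_of_ne_bot hTbne
  obtain ⟨q, N₀, hq, hN₀n, hN₀b, hN₀p⟩ :=
    Cfsg.Agent.Lib.Solvable.PSeries.exists_normal_prime_power_of_solvable (H := Tb)
  haveI : Fact q.Prime := ⟨hq⟩
  set Nb : Subgroup (G ⧸ F) := pCore q (G ⧸ F) with hNb
  have hNbp : IsPGroup q Nb := pCore_isPGroup q
  have hNbne : Nb ≠ ⊥ := by
    intro h
    apply hN₀b
    rw [eq_bot_iff]
    intro n hn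
    have h1 : n ∈ pCore q Tb := le_pCore hN₀n hN₀p hn
    have h2 : (n : G ⧸ F) ∈ Nb := map_pCore_of_normal_le ⟨n, h1, rfl⟩
    rw [h, Subgroup.mem_bot] at h2
    exact Subgroup.mem_bot.mpr (Subtype.ext h2)
  set L : Subgroup G := Nb.comap mk with hL
  haveI hLn : L.Normal := Subgroup.Normal.comap (pCore_normal q (G ⧸ F)) mk
  have hker : mk.ker = F := QuotientGroup.ker_mk' F
  have hqp : q ≠ p := by
    rintro rfl
    have hLp : IsPGroup q L := hNbp.comap_of_ker_isPGroup mk (by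
      rw [hker]; exact pCore_isPGroup q)
    have hLF : L ≤ F := le_pCore hLn hLp
    apply hNbne
    rw [eq_bot_iff]
    intro n hn
    obtain ⟨g, rfl⟩ := hmk n
    have : g ∈ F := hLF hn
    rw [Subgroup.mem_bot]
    exact (QuotientGroup.eq_one_iff g).mpr this
  let ψ : L →* Nb := (mk.comp L.subtype).codRestrict Nb (fun x => x.2)
  have hψ : Function.Surjective ψ := by
    rintro ⟨n, hn⟩
    obtain ⟨g, rfl⟩ := hmk n
    exact ⟨⟨g, hn⟩, rfl⟩
  obtain ⟨Q₀⟩ : Nonempty (Sylow q L) := inferInstance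
  have hqNb : q ∣ Nat.card Nb := by
    haveI : Nontrivial Nb := nontrivial_of_ne_bot hNbne
    obtain ⟨k, hk⟩ := IsPGroup.iff_card.mp hNbp
    rw [hk]
    have hk0 : k ≠ 0 := by
      rintro rfl
      rw [pow_zero] at hk
      exact Finite.one_lt_card.ne' hk
    exact dvd_pow_self q hk0
  have hqL : q ∣ Nat.card L := hqNb.trans (Subgroup.card_dvd_of_surjective ψ hψ)
  refine ⟨q, ‹_›, (Q₀ : Subgroup L).map L.subtype, hqp, Q₀.2.map _, ?_, ?_⟩
  · intro h
    apply Q₀.ne_bot_of_dvd_card hqL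
    exact (Subgroup.map_eq_bot_iff_of_injective _ L.subtype_injective).mp h
  · intro g
    obtain ⟨n, hn, h, hh, rfl⟩ := frattini_argument' Q₀ g
    -- the image of `Q₀` is all of `Nb`
    have htop : ((Q₀.mapSurjective hψ : Sylow q Nb) : Subgroup Nb) = ⊤ :=
      ((Q₀.mapSurjective hψ).3 (hNbp.to_subgroup ⊤) le_top).symm
    have hmem : ψ ⟨n, hn⟩ ∈ (Q₀ : Subgroup L).map ψ := by
      have : ψ ⟨n, hn⟩ ∈ ((Q₀.mapSurjective hψ : Sylow q Nb) : Subgroup Nb) := by
        rw [htop]; trivial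
      exact this
    obtain ⟨y, hy, hye⟩ := hmem
    have hyy : mk (y : G) = mk n := congrArg Subtype.val hye
    refine ⟨n * (y : G)⁻¹, ?_, (y : G) * h, ?_, by group⟩
    · have : mk (n * (y : G)⁻¹) = 1 := by
        rw [map_mul, map_inv, hyy, mul_inv_cancel]
      exact (QuotientGroup.eq_one_iff _).mp this
    · refine Subgroup.mul_mem _ (Subgroup.le_normalizer ?_) hh
      exact ⟨y, hy, rfl⟩

theorem mulAut_comm_of_cyclic {Q : Type*} [Group Q] [IsCyclic Q] (f g : MulAut Q) :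
    f * g = g * f := by
  obtain ⟨c, hc⟩ := IsCyclic.exists_generator (α := Q)
  have key : ∀ φ : MulAut Q, ∃ k : ℤ, ∀ x : Q, φ x = x ^ k := by
    intro φ
    obtain ⟨k, hk⟩ := Subgroup.mem_zpowers_iff.mp (hc (φ c))
    refine ⟨k, fun x => ?_⟩
    obtain ⟨m, rfl⟩ := Subgroup.mem_zpowers_iff.mp (hc x)
    rw [map_zpow, ← hk, ← zpow_mul, ← zpow_mul, mul_comm]
  obtain ⟨a, ha⟩ := key f
  obtain ⟨b, hb⟩ := key g
  ext x
  simp only [MulAut.mul_apply, ha, hb, ← zpow_mul, mul_comm]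

/-- The normalizer of a nontrivial `q`-subgroup acting on a nontrivial normal `p`-subgroup. -/
theorem normalizer_solvable (hG : EP G) {p q : ℕ} [Fact p.Prime] [hq : Fact q.Prime] (hpq : q ≠ p)
    {F Q : Subgroup G} (hF : F.Normal) (hFb : F ≠ ⊥) (hFp : IsPGroup p F) (hQb : Q ≠ ⊥)
    (hQp : IsPGroup q Q) : Group.IsSolvable (Subgroup.normalizer (Q : Set G)) := by
  classical
  have hnorm : ∀ A : Subgroup G, A ≤ Subgroup.normalizer (F : Set G) := fun A => by
    rw [Subgroup.normalizer_eq_top_iff.mpr hF]; exact le_top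
  have hfpf : ∀ a ∈ Q, a ≠ 1 → ∀ v ∈ F, a * v = v * a → v = 1 := fun a ha ha1 v hv hc =>
    comm_eq_one hG hQp hFp hpq ha hv ha1 hc
  haveI : Nontrivial Q := nontrivial_of_ne_bot hQb
  have hqQ : q ∣ Nat.card Q := by
    obtain ⟨k, hk⟩ := IsPGroup.iff_card.mp hQp
    rw [hk]
    have hk0 : k ≠ 0 := by
      rintro rfl
      rw [pow_zero] at hk
      exact Finite.one_lt_card.ne' hk
    exact dvd_pow_self q hk0
  by_cases hq2 : q = 2
  · subst hq2
    have huniq : ∀ A B : Subgroup Q, Nat.card A = 2 → Nat.card B = 2 → A = B := by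
      apply unique_of_no_elementary hQp
      intro E hE hexp
      let E' : Subgroup G := E.map Q.subtype
      have hE'Q : E' ≤ Q := by
        rintro _ ⟨x, -, rfl⟩
        exact x.2
      apply no_elementary_of_fpf' hFb (hnorm E') (fun a ha => hfpf a (hE'Q ha)) (p := 2)
      · have : Nat.card E' = Nat.card E :=
          (Nat.card_congr (Subgroup.equivMapOfInjective _ _ Q.subtype_injective).toEquiv).symm
        rw [this, hE]
      · rintro _ ⟨x, hx, rfl⟩
        rw [← map_pow, hexp x hx, map_one]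
    obtain ⟨z, hz⟩ := exists_prime_orderOf_dvd_card' (G := Q) 2 hqQ
    have hz1 : (z : G) ≠ 1 := by
      intro h
      have : z = 1 := Subtype.ext h
      rw [this, orderOf_one] at hz
      exact absurd hz (by norm_num)
    have hzG : orderOf (z : G) = 2 ^ 1 := by
      rw [Subgroup.orderOf_coe, hz, pow_one]
    have hcomm : ∀ x ∈ Subgroup.normalizer (Q : Set G), Commute x (z : G) := by
      intro x hx
      have hm : x * z * x⁻¹ ∈ Q := (Subgroup.mem_normalizer_iff.mp hx z).mp z.2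
      let z' : Q := ⟨x * z * x⁻¹, hm⟩
      have hz' : orderOf z' = 2 := by
        rw [← Subgroup.orderOf_coe]
        have : ((z' : Q) : G) = MulAut.conj x (z : G) := rfl
        rw [this, MulEquiv.orderOf_eq, Subgroup.orderOf_coe, hz]
      have heq : Subgroup.zpowers z = Subgroup.zpowers z' :=
        huniq _ _ (by rw [Nat.card_zpowers, hz]) (by rw [Nat.card_zpowers, hz'])
      have hmem : z' ∈ Subgroup.zpowers z := by
        rw [heq]; exact Subgroup.mem_zpowers z'
      have hc2 : Nat.card (Subgroup.zpowers z) = 2 := by rw [Nat.card_zpowers, hz]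
      obtain ⟨w, hw⟩ := (Nat.card_eq_two_iff' (1 : Subgroup.zpowers z)).mp hc2
      have h1 : (⟨z, Subgroup.mem_zpowers z⟩ : Subgroup.zpowers z) = w := by
        apply hw.2
        intro h
        have : z = 1 := congrArg Subtype.val h
        rw [this, orderOf_one] at hz
        exact absurd hz (by norm_num)
      have h2 : (⟨z', hmem⟩ : Subgroup.zpowers z) = w := by
        apply hw.2
        intro h
        have : z' = 1 := congrArg Subtype.val h
        rw [this, orderOf_one] at hz'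
        exact absurd hz' (by norm_num)
      have h3 : z' = z := congrArg Subtype.val (h2.trans h1.symm)
      have h4 : x * z * x⁻¹ = z := congrArg Subtype.val h3
      calc x * z = (x * z * x⁻¹) * x := by group
        _ = z * x := by rw [h4]
    have hN : IsPGroup 2 (Subgroup.normalizer (Q : Set G)) := by
      rw [IsPGroup.iff_orderOf]
      rintro ⟨x, hx⟩
      rw [Subgroup.orderOf_mk]
      exact order_of_commute hG Nat.prime_two hzG hz1 (hcomm x hx)
    haveI := hN.isNilpotent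
    infer_instance
  · -- `Q` is cyclic
    have hcyc : IsCyclic Q := by
      rcases isCyclic_or_quaternion_of_fpf hFb (hnorm Q) hfpf hQp with h | ⟨h, -⟩
      · exact h
      · exact absurd h hq2
    obtain ⟨b, hb⟩ := exists_prime_orderOf_dvd_card' (G := Q) q hqQ
    have hb1 : (b : G) ≠ 1 := by
      intro h
      have : b = 1 := Subtype.ext h
      rw [this, orderOf_one] at hb
      exact (Fact.out : q.Prime).one_lt.ne hb
    have hbG : orderOf (b : G) = q ^ 1 := by
      rw [Subgroup.orderOf_coe, hb, pow_one]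
    let φ := Q.normalizerMonoidHom
    haveI : Group.IsSolvable (MulAut Q) := isSolvable_of_comm mulAut_comm_of_cyclic
    have hkerp : IsPGroup q φ.ker := by
      rw [IsPGroup.iff_orderOf]
      rintro ⟨x, hx⟩
      have hx' : x ∈ (Subgroup.centralizer (Q : Set G)).subgroupOf (Subgroup.normalizer (Q : Set G)) := by
        have := Q.normalizerMonoidHom_ker
        rw [← this]; exact hx
      have hx2 : (x : G) ∈ Subgroup.centralizer (Q : Set G) := hx'
      have hc := (Subgroup.mem_centralizer_iff.mp hx2) b b.2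
      rw [Subgroup.orderOf_mk, ← Subgroup.orderOf_coe]
      exact order_of_commute hG (Fact.out) hbG hb1 hc.symm
    haveI := hkerp.isNilpotent
    exact solvable_of_ker_le_range φ.ker.subtype φ (by simp)

end basic

section norm

variable {Γ V : Type*} [Group Γ] [CommGroup V]

/-- The twisted partial products `a · a^t ⋯ a^(t^(i-1))`. -/
def phi (t a : Γ) : ℕ → Γ
  | 0 => 1
  | i + 1 => phi t a i * (t ^ i * a * (t ^ i)⁻¹)

theorem phi_one (t : Γ) (i : ℕ) : phi t (1 : Γ) i = 1 := by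
  induction i with
  | zero => rfl
  | succ j ih => rw [phi, ih]; group

theorem conj_pow_mem {Q₀ : Subgroup Γ} {t : Γ} (htQ : ∀ a ∈ Q₀, t * a * t⁻¹ ∈ Q₀) {a : Γ}
    (ha : a ∈ Q₀) (i : ℕ) : t ^ i * a * (t ^ i)⁻¹ ∈ Q₀ := by
  induction i with
  | zero => simpa using ha
  | succ i ih =>
    have := htQ _ ih
    have h2 : t ^ (i + 1) * a * (t ^ (i + 1))⁻¹ = t * (t ^ i * a * (t ^ i)⁻¹) * t⁻¹ := by
      rw [pow_succ']; group
    rw [h2]; exact this

theorem phi_mem {Q₀ : Subgroup Γ} {t : Γ} (htQ : ∀ a ∈ Q₀, t * a * t⁻¹ ∈ Q₀) {a : Γ}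
    (ha : a ∈ Q₀) (i : ℕ) : phi t a i ∈ Q₀ := by
  induction i with
  | zero => exact Q₀.one_mem
  | succ i ih => exact Q₀.mul_mem ih (conj_pow_mem htQ ha i)

theorem mul_pow_phi (t a : Γ) (i : ℕ) : (a * t) ^ i = phi t a i * t ^ i := by
  induction i with
  | zero => simp [phi]
  | succ i ih =>
    rw [pow_succ, ih, phi]
    have : t ^ (i + 1) = t ^ i * t := pow_succ t i
    rw [this]; group

theorem conj_phi {Q₀ : Subgroup Γ} (hQ₀ : ∀ a ∈ Q₀, ∀ b ∈ Q₀, a * b = b * a) {t : Γ}
    (htQ : ∀ a ∈ Q₀, t * a * t⁻¹ ∈ Q₀) {a : Γ} (ha : a ∈ Q₀) (i : ℕ) :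
    t * phi t a i * t⁻¹ = phi t a i * a⁻¹ * (t ^ i * a * (t ^ i)⁻¹) := by
  induction i with
  | zero => simp [phi]
  | succ i ih =>
    have h1 : t * phi t a (i + 1) * t⁻¹ =
        (t * phi t a i * t⁻¹) * (t * (t ^ i * a * (t ^ i)⁻¹) * t⁻¹) := by
      rw [phi]; group
    have h2 : t * (t ^ i * a * (t ^ i)⁻¹) * t⁻¹ = t ^ (i + 1) * a * (t ^ (i + 1))⁻¹ := by
      rw [pow_succ']; group
    rw [h1, ih, h2, phi]
    -- commutativity of `Q₀`
    have hc := hQ₀ _ (Q₀.inv_mem ha) _ (conj_pow_mem htQ ha i)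
    calc phi t a i * a⁻¹ * (t ^ i * a * (t ^ i)⁻¹) * (t ^ (i + 1) * a * (t ^ (i + 1))⁻¹)
        = phi t a i * (a⁻¹ * (t ^ i * a * (t ^ i)⁻¹)) * (t ^ (i + 1) * a * (t ^ (i + 1))⁻¹) := by
          group
      _ = phi t a i * ((t ^ i * a * (t ^ i)⁻¹) * a⁻¹) * (t ^ (i + 1) * a * (t ^ (i + 1))⁻¹) := by
          rw [hc]
      _ = _ := by group

theorem phi_mul {Q₀ : Subgroup Γ} (hQ₀ : ∀ a ∈ Q₀, ∀ b ∈ Q₀, a * b = b * a) {t : Γ}
    (htQ : ∀ a ∈ Q₀, t * a * t⁻¹ ∈ Q₀) {a b : Γ} (ha : a ∈ Q₀) (hb : b ∈ Q₀) (i : ℕ) :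
    phi t (a * b) i = phi t a i * phi t b i := by
  induction i with
  | zero => simp [phi]
  | succ i ih =>
    rw [phi, phi, phi, ih]
    have h1 : t ^ i * (a * b) * (t ^ i)⁻¹ = (t ^ i * a * (t ^ i)⁻¹) * (t ^ i * b * (t ^ i)⁻¹) := by
      group
    rw [h1]
    have hc := hQ₀ _ (phi_mem htQ hb i) _ (conj_pow_mem htQ ha i)
    calc phi t a i * phi t b i * ((t ^ i * a * (t ^ i)⁻¹) * (t ^ i * b * (t ^ i)⁻¹))
        = phi t a i * (phi t b i * (t ^ i * a * (t ^ i)⁻¹)) * (t ^ i * b * (t ^ i)⁻¹) := by group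
      _ = phi t a i * ((t ^ i * a * (t ^ i)⁻¹) * phi t b i) * (t ^ i * b * (t ^ i)⁻¹) := by rw [hc]
      _ = _ := by group

/-- `(at)^r = 1`. -/
theorem mul_pow_prime {Q₀ : Subgroup Γ} (hQ₀ : ∀ a ∈ Q₀, ∀ b ∈ Q₀, a * b = b * a) {t : Γ}
    (htQ : ∀ a ∈ Q₀, t * a * t⁻¹ ∈ Q₀) {r : ℕ} (htr : t ^ r = 1)
    (h1 : ∀ a ∈ Q₀, t * a = a * t → a = 1) {a : Γ} (ha : a ∈ Q₀) : (a * t) ^ r = 1 := by
  rw [mul_pow_phi, htr, mul_one]
  apply h1 _ (phi_mem htQ ha r)
  have := conj_phi hQ₀ htQ ha r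
  rw [htr] at this
  have h3 : t * phi t a r * t⁻¹ = phi t a r := by
    rw [this]; group
  calc t * phi t a r = (t * phi t a r * t⁻¹) * t := by group
    _ = _ := by rw [h3]

theorem phi_eq_one {Q₀ : Subgroup Γ} (hQ₀ : ∀ a ∈ Q₀, ∀ b ∈ Q₀, a * b = b * a) {t : Γ}
    (htQ : ∀ a ∈ Q₀, t * a * t⁻¹ ∈ Q₀) {r : ℕ} (hr : r.Prime) (htr : t ^ r = 1)
    (h1 : ∀ a ∈ Q₀, t * a = a * t → a = 1) {a : Γ} (ha : a ∈ Q₀) {i : ℕ} (hi : 0 < i) (hir : i < r)
    (he : phi t a i = 1) : a = 1 := by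
  have h3 := conj_phi hQ₀ htQ ha i
  rw [he] at h3
  have h4 : t ^ i * a * (t ^ i)⁻¹ = a := by
    have : t * 1 * t⁻¹ = (1 : Γ) := by group
    rw [this] at h3
    have h5 : (1 : Γ) * a⁻¹ * (t ^ i * a * (t ^ i)⁻¹) = 1 := h3.symm
    rw [one_mul] at h5
    exact (inv_mul_eq_one.mp h5).symm
  have hc : Commute (t ^ i) a := by
    show t ^ i * a = a * t ^ i
    calc t ^ i * a = (t ^ i * a * (t ^ i)⁻¹) * t ^ i := by group
      _ = _ := by rw [h4]
  have hcop : Nat.Coprime i r := ((Nat.Prime.coprime_iff_not_dvd hr).mpr (Nat.not_dvd_of_pos_of_lt hi hir)).symm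
  obtain ⟨m, -, hm⟩ := Nat.exists_mul_mod_eq_one_of_coprime hcop hr.one_lt
  have ht : (t ^ i) ^ m = t := by
    rw [← pow_mul, pow_eq_pow_mod _ htr, hm, pow_one]
  have hc2 : Commute t a := by
    have := hc.pow_left m
    rwa [ht] at this
  exact h1 a ha hc2

/-- The norm computation: the contradiction with a Frobenius group `Q₀⟨t⟩` acting with no fixed
points. -/
theorem norm_lemma [Finite V] (ρ : Γ →* MulAut V) (Q₀ : Subgroup Γ) [Finite Q₀]
    (hQ₀ : ∀ a ∈ Q₀, ∀ b ∈ Q₀, a * b = b * a) (t : Γ) {r : ℕ} (hr : r.Prime) (htr : t ^ r = 1)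
    (htQ : ∀ a ∈ Q₀, t * a * t⁻¹ ∈ Q₀)
    (h1 : ∀ a ∈ Q₀, t * a = a * t → a = 1)
    (h2 : ∀ a ∈ Q₀, a ≠ 1 → ∀ v : V, ρ a v = v → v = 1)
    (h3 : ∀ y : Γ, y ≠ 1 → y ^ r = 1 → ∀ v : V, ρ y v = v → v = 1)
    (h0 : ∀ a ∈ Q₀, a * t ≠ 1) (hne : Q₀ ≠ ⊥) (v : V) : v ^ Nat.card Q₀ = 1 := by
  classical
  haveI := Fintype.ofFinite Q₀
  obtain ⟨c, hc, hc1⟩ := (Subgroup.ne_bot_iff_exists_ne_one (H := Q₀)).mp hne |>.imp (fun c h => h) |> fun ⟨c, h⟩ => (⟨c.1, c.2, fun h' => h (Subtype.ext h')⟩ : ∃ c ∈ Q₀, c ≠ 1)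
  -- the orbit sum over `Q₀` vanishes
  have hsum : ∀ w : V, ∏ b : Q₀, ρ (b : Γ) w = 1 := by
    intro w
    apply h2 c hc hc1
    rw [map_prod]
    refine Fintype.prod_equiv (Equiv.mulLeft (⟨c, hc⟩ : Q₀)) _ _ (fun b => ?_)
    simp [map_mul]
  -- the norm of `at` vanishes
  have hN : ∀ a : Q₀, ∏ i ∈ Finset.range r, ρ ((a * t) ^ i) v = 1 := by
    intro a
    apply h3 _ (h0 a a.2) (mul_pow_prime hQ₀ htQ htr h1 a.2)
    rw [map_prod]
    have hshift : ∀ i, ρ (a * t) (ρ ((a * t) ^ i) v) = ρ ((a * t) ^ (i + 1)) v := by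
      intro i
      have h5 : ρ (((a : Γ) * t) ^ (i + 1)) = ρ ((a : Γ) * t) * ρ (((a : Γ) * t) ^ i) := by
        rw [pow_succ', map_mul]
      rw [h5, MulAut.mul_apply]
    simp_rw [hshift]
    have hp := mul_pow_prime hQ₀ htQ htr h1 a.2
    have e1 := Finset.prod_range_succ (fun i => ρ (((a : Γ) * t) ^ i) v) r
    have e2 := Finset.prod_range_succ' (fun i => ρ (((a : Γ) * t) ^ i) v) r
    rw [e1] at e2
    simp only [hp, pow_zero, map_one, MulAut.one_apply] at e2
    exact (mul_right_cancel e2).symm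
  have htotal : ∏ a : Q₀, ∏ i ∈ Finset.range r, ρ (((a : Γ) * t) ^ i) v = 1 :=
    Finset.prod_eq_one fun a _ => hN a
  rw [Finset.prod_comm] at htotal
  -- all terms with `i ≠ 0` vanish
  have hterm : ∀ i ∈ Finset.range r, i ≠ 0 → ∏ a : Q₀, ρ (((a : Γ) * t) ^ i) v = 1 := by
    intro i hi hi0
    have hir : i < r := Finset.mem_range.mp hi
    have hipos : 0 < i := Nat.pos_of_ne_zero hi0
    -- the map `a ↦ phi i a` is a bijection of `Q₀`
    let f : Q₀ → Q₀ := fun a => ⟨phi t a i, phi_mem htQ a.2 i⟩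
    have hf : Function.Injective f := by
      intro a b hab
      have hab' : phi t (a : Γ) i = phi t (b : Γ) i := congrArg Subtype.val hab
      have hm := phi_mul hQ₀ htQ a.2 (Q₀.inv_mem b.2) i
      have hib : phi t (b : Γ)⁻¹ i = (phi t (b : Γ) i)⁻¹ := by
        have := phi_mul hQ₀ htQ b.2 (Q₀.inv_mem b.2) i
        rw [mul_inv_cancel] at this
        rw [phi_one] at this
        exact eq_inv_of_mul_eq_one_right this.symm
      rw [hib, hab', mul_inv_cancel] at hm
      have := phi_eq_one hQ₀ htQ hr htr h1 (Q₀.mul_mem a.2 (Q₀.inv_mem b.2)) hipos hir hm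
      exact Subtype.ext (mul_inv_eq_one.mp this)
    have hfb : Function.Bijective f := Finite.injective_iff_bijective.mp hf
    have hrew : ∀ a : Q₀, ρ (((a : Γ) * t) ^ i) v = ρ ((f a : Q₀) : Γ) (ρ (t ^ i) v) := by
      intro a
      rw [mul_pow_phi, map_mul, MulAut.mul_apply]
    simp_rw [hrew]
    rw [Function.Bijective.prod_comp hfb (fun b : Q₀ => ρ (b : Γ) (ρ (t ^ i) v))]
    exact hsum _
  rw [Finset.prod_eq_single 0 hterm (by
    intro h0'
    exact absurd (Finset.mem_range.mpr hr.pos) h0')] at htotal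
  simp only [pow_zero, map_one, MulAut.one_apply, Finset.prod_const, Finset.card_univ,
    ← Nat.card_eq_fintype_card] at htotal
  exact htotal

end norm

section three

variable {X : Type*} [Group X] [Finite X]

/-- A finite solvable group all of whose elements have prime power order has at most two prime
divisors. -/
theorem primeFactors_le_two (hX : EP X) [hs : Group.IsSolvable X] :
    (Nat.card X).primeFactors.card ≤ 2 := by
  classical
  by_contra hlt
  rw [not_le] at hlt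
  have hnt : Nontrivial X := by
    by_contra h
    rw [not_nontrivial_iff_subsingleton] at h
    rw [Nat.card_unique] at hlt
    simp at hlt
  obtain ⟨p, N, hp, hNn, hNb, hNp⟩ :=
    Cfsg.Agent.Lib.Solvable.PSeries.exists_normal_prime_power_of_solvable (H := X)
  haveI : Fact p.Prime := ⟨hp⟩
  have hFp : IsPGroup p (pCore p X) := pCore_isPGroup p
  have hFb : pCore p X ≠ ⊥ := by
    intro h
    exact hNb (le_bot_iff.mp (h ▸ le_pCore hNn hNp))
  have hFn : (pCore p X).Normal := pCore_normal p X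
  have hTF : ¬ (⊤ : Subgroup X) ≤ pCore p X := by
    intro h
    have h2 : pCore p X = ⊤ := top_le_iff.mp h
    have hXp : IsPGroup p X := by
      rw [IsPGroup.iff_orderOf]
      intro x
      exact orderOf_eq_pow_of_isPGroup hFp (h (Subgroup.mem_top x))
    obtain ⟨k, hk⟩ := IsPGroup.iff_card.mp hXp
    rw [hk] at hlt
    have : (p ^ k).primeFactors ⊆ {p} := by
      intro q hq
      have := (Nat.prime_dvd_prime_iff_eq (Nat.prime_of_mem_primeFactors hq) hp).mp
        ((Nat.prime_of_mem_primeFactors hq).dvd_of_dvd_pow (Nat.dvd_of_mem_primeFactors hq))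
      simp [this]
    have h3 := Finset.card_le_card this
    simp at h3
    omega
  haveI hTs : Group.IsSolvable (⊤ : Subgroup X) :=
    Group.isSolvable_of_isSolvable_injective (Subgroup.subtype_injective (⊤ : Subgroup X))
  obtain ⟨q, hqf, Q, hqp, hQp, hQb, hfr⟩ := layer (⊤ : Subgroup X) hTF
  -- a third prime
  have hcard : ({p, q} : Finset ℕ).card < (Nat.card X).primeFactors.card :=
    lt_of_le_of_lt (Finset.card_le_two) hlt
  obtain ⟨r, hr, hrn⟩ := Finset.exists_mem_notMem_of_card_lt_card hcard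
  have hrp : r.Prime := Nat.prime_of_mem_primeFactors hr
  have hrd : r ∣ Nat.card X := Nat.dvd_of_mem_primeFactors hr
  simp only [Finset.mem_insert, Finset.mem_singleton, not_or] at hrn
  obtain ⟨hrnp, hrnq⟩ := hrn
  haveI : Fact r.Prime := ⟨hrp⟩
  obtain ⟨x, hx⟩ := exists_prime_orderOf_dvd_card' r hrd
  obtain ⟨f, hf, h, hh, hxe⟩ := hfr x
  set F := pCore p X with hFdef
  have hmkh : QuotientGroup.mk' F x = QuotientGroup.mk' F h := by
    rw [hxe, map_mul]
    have : QuotientGroup.mk' F f = 1 := (QuotientGroup.eq_one_iff f).mpr hf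
    rw [this, one_mul]
  have hordm : orderOf (QuotientGroup.mk' F x) = r := by
    have hd : orderOf (QuotientGroup.mk' F x) ∣ r := hx ▸ orderOf_map_dvd _ _
    rcases (Nat.dvd_prime hrp).mp hd with h1 | h1
    · exfalso
      have h2 : x ∈ F := (QuotientGroup.eq_one_iff x).mp (orderOf_eq_one_iff.mp h1)
      obtain ⟨k, hk⟩ := orderOf_eq_pow_of_isPGroup hFp h2
      rw [hx] at hk
      have : r ∣ p ^ k := hk ▸ dvd_rfl
      exact hrnp ((Nat.prime_dvd_prime_iff_eq hrp hp).mp (hrp.dvd_of_dvd_pow this))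
    · exact h1
  have hrh : r ∣ orderOf h := by
    rw [← hordm, hmkh]
    exact orderOf_map_dvd _ _
  have hh0 : orderOf h ≠ 0 := (orderOf_pos h).ne'
  set t : X := h ^ (orderOf h / r) with ht
  have htord : orderOf t = r := orderOf_pow_orderOf_div hh0 hrh
  have htN : t ∈ Subgroup.normalizer (Q : Set X) := Subgroup.pow_mem _ hh _
  have htr : t ^ r = 1 := by rw [← htord]; exact pow_orderOf_eq_one t
  -- the abelian pieces
  let V : Subgroup X := (Subgroup.center F).map F.subtype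
  haveI hVn : V.Normal := inferInstance
  have hVF : V ≤ F := by
    rintro _ ⟨x, -, rfl⟩
    exact x.2
  have hVp : IsPGroup p V := hFp.to_le hVF
  have hVcomm : ∀ u w : V, u * w = w * u := by
    rintro ⟨_, a, ha, rfl⟩ ⟨_, b, hb, rfl⟩
    apply Subtype.ext
    have hc : b * a = a * b := Subgroup.mem_center_iff.mp ha b
    show (a : X) * (b : X) = (b : X) * (a : X)
    exact (congrArg Subtype.val hc).symm
  haveI : Nontrivial F := nontrivial_of_ne_bot hFb
  haveI hcF : Nontrivial (Subgroup.center F) := hFp.center_nontrivial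
  have hVb : V ≠ ⊥ := by
    obtain ⟨a, ha⟩ := exists_ne (1 : Subgroup.center F)
    intro h
    have : ((a : F) : X) ∈ V := ⟨a, a.2, rfl⟩
    rw [h, Subgroup.mem_bot] at this
    apply ha
    exact Subtype.ext (Subtype.ext this)
  let Q₀ : Subgroup X := (Subgroup.center Q).map Q.subtype
  have hQ₀Q : Q₀ ≤ Q := by
    rintro _ ⟨x, -, rfl⟩
    exact x.2
  have hQ₀p : IsPGroup q Q₀ := hQp.to_le hQ₀Q
  have hQ₀comm : ∀ a ∈ Q₀, ∀ b ∈ Q₀, a * b = b * a := by
    rintro _ ⟨a, ha, rfl⟩ _ ⟨b, hb, rfl⟩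
    have hc : b * a = a * b := Subgroup.mem_center_iff.mp ha b
    exact (congrArg Subtype.val hc).symm
  haveI : Nontrivial Q := nontrivial_of_ne_bot hQb
  haveI hcQ : Nontrivial (Subgroup.center Q) := hQp.center_nontrivial
  have hQ₀b : Q₀ ≠ ⊥ := by
    obtain ⟨a, ha⟩ := exists_ne (1 : Subgroup.center Q)
    intro h
    have : ((a : Q) : X) ∈ Q₀ := ⟨a, a.2, rfl⟩
    rw [h, Subgroup.mem_bot] at this
    apply ha
    exact Subtype.ext (Subtype.ext this)
  have htQ : ∀ a ∈ Q₀, t * a * t⁻¹ ∈ Q₀ := by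
    rintro _ ⟨a, ha, rfl⟩
    have hm : t * (a : X) * t⁻¹ ∈ Q := (Subgroup.mem_normalizer_iff.mp htN a).mp a.2
    refine ⟨⟨_, hm⟩, ?_, rfl⟩
    rw [SetLike.mem_coe, Subgroup.mem_center_iff]
    rintro ⟨y, hy⟩
    apply Subtype.ext
    show y * (t * (a : X) * t⁻¹) = (t * (a : X) * t⁻¹) * y
    have hm2 : t⁻¹ * y * t ∈ Q := by
      have := (Subgroup.mem_normalizer_iff.mp (Subgroup.inv_mem _ htN) y).mp hy
      simpa using this
    have hc := congrArg Subtype.val (Subgroup.mem_center_iff.mp ha ⟨_, hm2⟩)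
    have hc' : t⁻¹ * y * t * (a : X) = (a : X) * (t⁻¹ * y * t) := hc
    calc y * (t * (a : X) * t⁻¹) = t * (t⁻¹ * y * t * (a : X)) * t⁻¹ := by group
      _ = t * ((a : X) * (t⁻¹ * y * t)) * t⁻¹ := by rw [hc']
      _ = _ := by group
  letI : CommGroup V := { (inferInstance : Group V) with mul_comm := hVcomm }
  have hmain := norm_lemma (Γ := X) (V := V) (MulAut.conjNormal : X →* MulAut V) Q₀ hQ₀comm t hrp htr htQ
    ?_ ?_ ?_ ?_ hQ₀b
  · -- conclusion
    obtain ⟨v, hv⟩ := (Subgroup.ne_bot_iff_exists_ne_one (H := V)).mp hVb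
    have h1 := hmain v
    have h2 : orderOf v ∣ Nat.card Q₀ := orderOf_dvd_of_pow_eq_one h1
    obtain ⟨k, hk⟩ := IsPGroup.iff_orderOf.mp hVp v
    obtain ⟨m, hm⟩ := IsPGroup.iff_card.mp hQ₀p
    rw [hk, hm] at h2
    have hk0 : k ≠ 0 := by
      rintro rfl
      rw [pow_zero] at hk
      exact hv (orderOf_eq_one_iff.mp hk)
    have h3 : p ∣ q ^ m := (dvd_pow_self p hk0).trans h2
    exact hqp ((Nat.prime_dvd_prime_iff_eq hp Fact.out).mp (hp.dvd_of_dvd_pow h3)).symm
  · -- `t` acts fpf on `Q₀`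
    intro a ha hc
    by_contra ha1
    obtain ⟨i, hi⟩ := orderOf_eq_pow_of_isPGroup hQ₀p ha
    have htne : t ≠ 1 := by
      intro h
      rw [h, orderOf_one] at htord
      exact hrp.one_lt.ne htord
    have htord' : orderOf t = r ^ 1 := by rw [htord, pow_one]
    exact no_commute hX Fact.out hrp (Ne.symm hrnq) hi htord' ha1 htne hc.symm
  · intro a ha ha1 v hv
    have hc : a * (v : X) = (v : X) * a := by
      have h1 : a * (v : X) * a⁻¹ = v := congrArg Subtype.val hv
      calc a * (v : X) = (a * (v : X) * a⁻¹) * a := by group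
        _ = _ := by rw [h1]
    have := comm_eq_one hX hQ₀p hVp hqp ha v.2 ha1 hc
    exact Subtype.ext this
  · intro y hy hyr v hv
    have hc : y * (v : X) = (v : X) * y := by
      have h1 : y * (v : X) * y⁻¹ = v := congrArg Subtype.val hv
      calc y * (v : X) = (y * (v : X) * y⁻¹) * y := by group
        _ = _ := by rw [h1]
    have hoy : orderOf y = r ^ 1 := by
      rw [pow_one]; exact orderOf_eq_prime hyr hy
    by_contra hv1
    have hv1' : (v : X) ≠ 1 := fun h => hv1 (Subtype.ext h)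
    obtain ⟨k, hk⟩ := orderOf_eq_pow_of_isPGroup hVp v.2
    exact no_commute hX hrp hp hrnp hoy hk hy hv1' hc
  · -- `at ≠ 1`
    intro a ha he
    have hta : t = a⁻¹ := (eq_inv_of_mul_eq_one_right he)
    have hmem : t ∈ Q₀ := hta ▸ Q₀.inv_mem ha
    obtain ⟨i, hi⟩ := orderOf_eq_pow_of_isPGroup hQ₀p hmem
    rw [htord] at hi
    have : r ∣ q ^ i := hi ▸ dvd_rfl
    exact hrnq ((Nat.prime_dvd_prime_iff_eq hrp Fact.out).mp (hrp.dvd_of_dvd_pow this))

end three

section main

variable {G : Type*} [Group G] [Finite G]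

/-- Part one: the solvable radical is a `p`-group. -/
theorem radical_isPGroup (hns : ¬ Group.IsSolvable G) (hG : EP G)
    (R : Subgroup G) [hRn : R.Normal] [hRs : Group.IsSolvable R] :
    ∃ p : ℕ, p.Prime ∧ IsPGroup p R := by
  classical
  by_cases hR : R = ⊥
  · subst hR
    exact ⟨2, Nat.prime_two, IsPGroup.of_bot⟩
  haveI : Nontrivial R := nontrivial_of_ne_bot hR
  obtain ⟨p, N₀, hp, hN₀n, hN₀b, hN₀p⟩ :=
    Cfsg.Agent.Lib.Solvable.PSeries.exists_normal_prime_power_of_solvable (H := R)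
  haveI : Fact p.Prime := ⟨hp⟩
  refine ⟨p, hp, ?_⟩
  have hFb : pCore p G ≠ ⊥ := by
    intro h
    apply hN₀b
    rw [eq_bot_iff]
    intro n hn
    have h1 : n ∈ pCore p R := le_pCore hN₀n hN₀p hn
    have h2 : (n : G) ∈ pCore p G := map_pCore_of_normal_le ⟨n, h1, rfl⟩
    rw [h, Subgroup.mem_bot] at h2
    exact Subgroup.mem_bot.mpr (Subtype.ext h2)
  have hFp : IsPGroup p (pCore p G) := pCore_isPGroup p
  haveI hFn : (pCore p G).Normal := pCore_normal p G
  by_cases hRF : R ≤ pCore p G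
  · exact hFp.to_le hRF
  exfalso
  obtain ⟨q, hqf, Q, hqp, hQp, hQb, hfr⟩ := layer R hRF
  haveI hNs := normalizer_solvable hG hqp hFn hFb hFp hQb hQp
  apply hns
  set F := pCore p G with hFdef
  -- `G/F` is solvable
  have hsurj : Function.Surjective
      ((QuotientGroup.mk' F).comp (Subgroup.normalizer (Q : Set G)).subtype) := by
    intro x
    obtain ⟨g, rfl⟩ := QuotientGroup.mk'_surjective F x
    obtain ⟨f, hf, h, hh, rfl⟩ := hfr g
    refine ⟨⟨h, hh⟩, ?_⟩
    simp only [MonoidHom.comp_apply, Subgroup.subtype_apply, map_mul]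
    have : QuotientGroup.mk' F f = 1 := (QuotientGroup.eq_one_iff f).mpr hf
    rw [this, one_mul]
  haveI hqs : Group.IsSolvable (G ⧸ F) := solvable_of_surjective hsurj
  haveI := hFp.isNilpotent
  exact solvable_of_ker_le_range F.subtype (QuotientGroup.mk' F) (by
    rw [QuotientGroup.ker_mk', Subgroup.range_subtype])

/-- Commuting elements of different prime orders do not exist in `G/R`. -/
theorem quot_no_commute (hG : EP G) (R : Subgroup G) [R.Normal] {x y : G ⧸ R} {a b : ℕ}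
    (ha : a.Prime) (hb : b.Prime) (hab : a ≠ b) (hx : orderOf x = a) (hy : orderOf y = b)
    (hc : Commute x y) : False := by
  have hcop : (orderOf x).Coprime (orderOf y) := by
    rw [hx, hy]
    exact (Nat.coprime_primes ha hb).mpr hab
  have hord := hc.orderOf_mul_eq_mul_orderOf_of_coprime hcop
  rw [hx, hy] at hord
  obtain ⟨g, hg⟩ := QuotientGroup.mk'_surjective R (x * y)
  have hdvd : a * b ∣ orderOf g := by
    rw [← hord, ← hg]
    exact orderOf_map_dvd _ _
  have hg1 : g ≠ 1 := by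
    rintro rfl
    rw [orderOf_one] at hdvd
    have : a ∣ 1 := (dvd_mul_right a b).trans hdvd
    exact ha.one_lt.ne' (Nat.dvd_one.mp this)
  exact hab (eq_of_dvd_of_isPrimePow (hG g hg1) ha hb ((dvd_mul_right a b).trans hdvd)
    ((dvd_mul_left b a).trans hdvd))

/-- A subgroup that is not a `b`-group has a prime divisor different from `b`. -/
theorem exists_other_prime {K : Type*} [Group K] [Finite K] {b : ℕ} (hb : b.Prime)
    (hK : ¬ IsPGroup b K) : ∃ a : ℕ, a.Prime ∧ a ≠ b ∧ a ∣ Nat.card K := by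
  by_contra hcon
  apply hK
  have hne : Nat.card K ≠ 0 := Nat.card_pos.ne'
  have h := Nat.eq_prime_pow_of_unique_prime_dvd (p := b) hne (fun {d} hd hdvd => by
    by_contra hdb
    exact hcon ⟨d, hd, hdb, hdvd⟩)
  exact IsPGroup.of_card h

theorem exists_minimal_normal {Y : Type*} [Group Y] [Finite Y] {P : Subgroup Y → Prop}
    (h : ∃ N, P N) : ∃ N, P N ∧ ∀ M, P M → M ≤ N → M = N := by
  classical
  have hfin : ({N | P N} : Set (Subgroup Y)).Finite := Set.toFinite _
  obtain ⟨N, hN⟩ := hfin.exists_minimal h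
  exact ⟨N, hN.1, fun M hM hle => le_antisymm hle (hN.2 hM hle)⟩

/-- Part two. -/
theorem quotient_structure (hns : ¬ Group.IsSolvable G) (hG : EP G)
    (R : Subgroup G) [hRn : R.Normal] [hRs : Group.IsSolvable R]
    (hRmax : ∀ N : Subgroup G, N.Normal → Group.IsSolvable N → N ≤ R) :
    ∃ M : Subgroup (G ⧸ R), M.Normal ∧ IsSimpleGroup M ∧ ¬ IsMulCommutative M ∧
      ∀ N : Subgroup (G ⧸ R), N.Normal → N ≠ ⊥ → M ≤ N := by
  classical
  -- no solvable normal subgroups
  have hP1 : ∀ N : Subgroup (G ⧸ R), N.Normal → Group.IsSolvable N → N = ⊥ := by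
    intro N hN hNs
    set L : Subgroup G := N.comap (QuotientGroup.mk' R) with hL
    haveI hLn : L.Normal := Subgroup.Normal.comap hN _
    have hRL : R ≤ L := by
      intro x hx
      show QuotientGroup.mk' R x ∈ N
      have h1 : QuotientGroup.mk' R x = 1 := (QuotientGroup.eq_one_iff x).mpr hx
      rw [h1]
      exact N.one_mem
    let g : L →* N := ((QuotientGroup.mk' R).comp L.subtype).codRestrict N (fun x => x.2)
    let f : R →* L := Subgroup.inclusion hRL
    have hLs : Group.IsSolvable L := by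
      apply solvable_of_ker_le_range f g
      intro x hx
      have h1 : QuotientGroup.mk' R (x : G) = 1 := congrArg Subtype.val hx
      exact ⟨⟨x, (QuotientGroup.eq_one_iff (x : G)).mp h1⟩, rfl⟩
    have hLR : L ≤ R := hRmax L hLn hLs
    rw [eq_bot_iff]
    intro n hn
    obtain ⟨x, rfl⟩ := QuotientGroup.mk'_surjective R n
    exact Subgroup.mem_bot.mpr ((QuotientGroup.eq_one_iff x).mpr (hLR hn))
  -- a nontrivial normal subgroup is not a `b`-group
  have hP2 : ∀ (N : Subgroup (G ⧸ R)) (b : ℕ), b.Prime → N.Normal → N ≠ ⊥ → ¬ IsPGroup b N := by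
    intro N b hb hN hNb hNp
    haveI : Fact b.Prime := ⟨hb⟩
    haveI := hNp.isNilpotent
    exact hNb (hP1 N hN inferInstance)
  have hnt : (⊤ : Subgroup (G ⧸ R)) ≠ ⊥ := by
    intro h
    apply hns
    have hRtop : ∀ x : G, x ∈ R := by
      intro x
      have h1 : QuotientGroup.mk' R x ∈ (⊤ : Subgroup (G ⧸ R)) := Subgroup.mem_top _
      rw [h, Subgroup.mem_bot] at h1
      exact (QuotientGroup.eq_one_iff x).mp h1
    exact solvable_of_surjective (f := R.subtype) (fun x => ⟨⟨x, hRtop x⟩, rfl⟩)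
  obtain ⟨M, ⟨hMn, hMb⟩, hMmin⟩ := exists_minimal_normal
    (P := fun N : Subgroup (G ⧸ R) => N.Normal ∧ N ≠ ⊥) ⟨⊤, inferInstance, hnt⟩
  haveI := hMn
  haveI hMnt : Nontrivial M := nontrivial_of_ne_bot hMb
  refine ⟨M, hMn, ?_, ?_, ?_⟩
  · -- simplicity
    refine ⟨fun K hK => ?_⟩
    by_contra hcon
    rw [not_or] at hcon
    obtain ⟨hK1, hK2⟩ := hcon
    obtain ⟨K₀, ⟨hK₀n, hK₀b, hK₀le⟩, hmin⟩ := exists_minimal_normal
      (P := fun H : Subgroup M => H.Normal ∧ H ≠ ⊥ ∧ H ≤ K) ⟨K, hK, hK1, le_rfl⟩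
    haveI := hK₀n
    have hK₀top : K₀ ≠ ⊤ := fun h => hK2 (top_le_iff.mp (h ▸ hK₀le))
    have hnp : ∀ b : ℕ, b.Prime → ¬ IsPGroup b K₀ := by
      intro b hb hKp
      haveI : Fact b.Prime := ⟨hb⟩
      have hle : K₀ ≤ pCore b M := le_pCore hK₀n hKp
      have hne : pCore b (G ⧸ R) ≠ ⊥ := by
        intro h
        apply hK₀b
        rw [eq_bot_iff]
        intro k hk
        have h2 : (k : G ⧸ R) ∈ pCore b (G ⧸ R) := map_pCore_of_normal_le ⟨k, hle hk, rfl⟩
        rw [h, Subgroup.mem_bot] at h2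
        exact Subgroup.mem_bot.mpr (Subtype.ext h2)
      exact hP2 _ b hb (pCore_normal b (G ⧸ R)) hne (pCore_isPGroup b)
    haveI hK₀nt : Nontrivial K₀ := nontrivial_of_ne_bot hK₀b
    obtain ⟨b, hbp, hbd⟩ := Nat.exists_prime_and_dvd (Finite.one_lt_card (α := K₀)).ne'
    obtain ⟨a, hap, hab, had⟩ := exists_other_prime hbp (hnp b hbp)
    haveI : Fact b.Prime := ⟨hbp⟩
    haveI : Fact a.Prime := ⟨hap⟩
    obtain ⟨y₀, hy₀⟩ := exists_prime_orderOf_dvd_card' b hbd
    obtain ⟨x₀, hx₀⟩ := exists_prime_orderOf_dvd_card' a had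
    have hex : ∃ g : G ⧸ R, K₀.map (MulAut.conjNormal g : MulAut M).toMonoidHom ≠ K₀ := by
      by_contra hall
      simp only [not_exists, not_not] at hall
      have hnormal : (K₀.map M.subtype).Normal := by
        constructor
        rintro _ ⟨k, hk, rfl⟩ g
        have h1 : (MulAut.conjNormal g : MulAut M) k ∈ K₀ := by
          rw [← hall g]
          exact ⟨k, hk, rfl⟩
        exact ⟨_, h1, by simp [MulAut.conjNormal_apply]⟩
      have hne : K₀.map M.subtype ≠ ⊥ := by
        intro h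
        exact hK₀b ((Subgroup.map_eq_bot_iff_of_injective _ M.subtype_injective).mp h)
      have hle : K₀.map M.subtype ≤ M := by
        rintro _ ⟨k, -, rfl⟩
        exact k.2
      have heq := hMmin _ ⟨hnormal, hne⟩ hle
      apply hK₀top
      rw [eq_top_iff]
      intro m _
      have : (m : G ⧸ R) ∈ K₀.map M.subtype := by
        rw [heq]; exact m.2
      obtain ⟨k, hk, hke⟩ := this
      have : k = m := Subtype.ext hke
      rwa [← this]
    obtain ⟨g, hg⟩ := hex
    set c : M ≃* M := (MulAut.conjNormal g : MulAut M) with hc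
    set K₁ : Subgroup M := K₀.map c.toMonoidHom with hK₁
    have hK₁n : K₁.Normal := Subgroup.Normal.map hK₀n _ c.surjective
    haveI := hK₁n
    have hdis : Disjoint K₀ K₁ := by
      rw [disjoint_iff]
      by_contra hne
      have h1 := hmin (K₀ ⊓ K₁) ⟨inferInstance, hne, inf_le_left.trans hK₀le⟩ inf_le_left
      have h2 : K₀ ≤ K₁ := by
        rw [← h1]; exact inf_le_right
      have h3 : Nat.card K₁ = Nat.card K₀ := by
        rw [hK₁]
        exact Nat.card_congr (Subgroup.equivMapOfInjective K₀ c.toMonoidHom c.injective).toEquiv.symm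
      exact hg (Subgroup.eq_of_le_of_card_ge h2 h3.le).symm
    have hcm := Subgroup.commute_of_normal_of_disjoint K₀ K₁ hK₀n hK₁n hdis (x₀ : M)
      (c (y₀ : M)) x₀.2 ⟨y₀, y₀.2, rfl⟩
    have hcG : Commute (((x₀ : K₀) : M) : G ⧸ R) ((c (y₀ : M) : M) : G ⧸ R) :=
      congrArg Subtype.val hcm
    have hoa : orderOf (((x₀ : K₀) : M) : G ⧸ R) = a := by
      rw [Subgroup.orderOf_coe, Subgroup.orderOf_coe, hx₀]
    have hob : orderOf ((c (y₀ : M) : M) : G ⧸ R) = b := by
      rw [Subgroup.orderOf_coe, MulEquiv.orderOf_eq, Subgroup.orderOf_coe, hy₀]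
    exact quot_no_commute hG R hap hbp hab hoa hob hcG
  · intro hcomm
    have hs : Group.IsSolvable M := by
      haveI := hcomm
      exact isSolvable_of_comm (fun a b => by
        exact mul_comm' a b)
    exact hMb (hP1 M hMn hs)
  · intro N hN hNb
    -- the intersection with `M`
    have hinf : (N ⊓ M).Normal := inferInstance
    by_cases hb : N ⊓ M = ⊥
    · exfalso
      have hdis : Disjoint N M := by
        rw [disjoint_iff]; exact hb
      haveI hNnt : Nontrivial N := nontrivial_of_ne_bot hNb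
      obtain ⟨b, hbp, hbd⟩ := Nat.exists_prime_and_dvd (Finite.one_lt_card (α := N)).ne'
      haveI : Fact b.Prime := ⟨hbp⟩
      obtain ⟨y, hy⟩ := exists_prime_orderOf_dvd_card' b hbd
      obtain ⟨a, hap, hab, had⟩ := exists_other_prime hbp (hP2 M b hbp hMn hMb)
      haveI : Fact a.Prime := ⟨hap⟩
      obtain ⟨x, hx⟩ := exists_prime_orderOf_dvd_card' a had
      have hc := Subgroup.commute_of_normal_of_disjoint N M hN hMn hdis (y : G ⧸ R) (x : G ⧸ R) y.2 x.2
      rw [← Subgroup.orderOf_coe] at hx hy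
      exact quot_no_commute hG R hap hbp hab hx hy hc.symm
    · have := hMmin (N ⊓ M) ⟨hinf, hb⟩ inf_le_right
      rw [← this]
      exact inf_le_left

end main

/-- Let G be a finite non-solvable group in which every element has prime-power order, and let R be its largest solvable normal subgroup. Then R is a p-group for some prime p; G/R has a non-abelian simple normal subgroup contained in every nontrivial normal subgroup of G/R (its unique minimal normal subgroup); and the order of every solvable subgroup of G has at most two prime divisors. -/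
theorem result {G : Type*} [Group G] [Finite G] (hns : ¬ Group.IsSolvable G) (hpp : ∀ g : G, g ≠ 1 → IsPrimePow (orderOf g))
    (R : Subgroup G) [R.Normal] (hRs : Group.IsSolvable ↥R) (hRmax : ∀ N : Subgroup G, N.Normal → Group.IsSolvable ↥N → N ≤ R) :
    (∃ p : ℕ, p.Prime ∧ IsPGroup p ↥R) ∧
      (∃ M : Subgroup (G ⧸ R), M.Normal ∧ IsSimpleGroup ↥M ∧ ¬ IsMulCommutative ↥M ∧
        ∀ N : Subgroup (G ⧸ R), N.Normal → N ≠ ⊥ → M ≤ N) ∧
      ∀ H : Subgroup G, Group.IsSolvable ↥H → (Nat.card ↥H).primeFactors.card ≤ 2 := by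
  haveI := hRs
  refine ⟨radical_isPGroup hns hpp R, quotient_structure hns hpp R hRmax, fun H hH => ?_⟩
  haveI := hH
  exact primeFactors_le_two (ep_subgroup hpp H)

end Cfsg.Agent.S3992
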