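import Cfsg.Statements.S3994
import Mathlib
import Cfsg.Agent.S3993
import Cfsg.Agent.Lib.Basic.ConjCount
-- import your own Cfsg.Agent.* helpers here

set_option autoImplicit false
open Cfsg

namespace Cfsg.Agent.S3994

open Cfsg.Agent.S3993 in
theorem dvd_class_mul' {G : Type*} [Group G] [Fintype G] {m : ℕ} (y0 : G) (hm : m ∣ Nat.card G) :
    m ∣ Nat.card {y // IsConj y0 y} * (W m y0).card := by
  classical
  have hclass := Cfsg.Agent.Lib.Basic.ConjCount.card_isConj_mul_card_centralizer y0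
  set m' := Nat.gcd m (Nat.card (Subgroup.centralizer ({y0} : Set G))) with hm'
  have h1 := Cfsg.Agent.S3993.result (G := Subgroup.centralizer ({y0} : Set G)) m' (Nat.gcd_dvd_right _ _)
  have h2 : Nat.card {z : Subgroup.centralizer ({y0} : Set G) // z ^ m' = 1} =
      Nat.card {z : Subgroup.centralizer ({y0} : Set G) // z ^ m = 1} :=
    Nat.card_congr (Equiv.subtypeEquivRight fun z => by
      rw [hm', pow_gcd_eq_one]
      exact ⟨fun h => h.1, fun h => ⟨h, pow_card_eq_one'⟩⟩)
  rw [h2, ← card_W_eq] at h1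
  have h3 : m ∣ m' * Nat.card {y // IsConj y0 y} := by
    have h4 : m ∣ Nat.gcd (m * Nat.card {y // IsConj y0 y})
        (Nat.card (Subgroup.centralizer ({y0} : Set G)) * Nat.card {y // IsConj y0 y}) :=
      Nat.dvd_gcd (dvd_mul_right _ _) (by rw [mul_comm, hclass]; exact hm)
    rwa [Nat.gcd_mul_right] at h4
  calc m ∣ m' * Nat.card {y // IsConj y0 y} := h3
    _ ∣ Nat.card {y // IsConj y0 y} * (W m y0).card := by
      rw [mul_comm]
      exact mul_dvd_mul_left _ h1

/-- Arithmetic: the part of `N` coprime to `n`. -/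
theorem coprime_aux (N n : ℕ) (hN : 0 < N) (hn : 0 < n) :
    Nat.Coprime (N / Nat.gcd N (n ^ N)) n := by
  set A := Nat.gcd N (n ^ N) with hA
  have hApos : 0 < A := Nat.gcd_pos_of_pos_left _ hN
  have hAN : A ∣ N := Nat.gcd_dvd_left _ _
  obtain ⟨M, hM⟩ := hAN
  have hMdiv : N / A = M := by
    rw [hM]; exact Nat.mul_div_cancel_left _ hApos
  rw [hMdiv]
  apply Nat.coprime_of_dvd
  intro p hp hpM hpn
  have hv : N.factorization p < N := Nat.factorization_lt p hN.ne'
  have h1 : p ^ N.factorization p ∣ n ^ N :=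
    (pow_dvd_pow p hv.le).trans (pow_dvd_pow_of_dvd hpn N)
  have h2 : p ^ N.factorization p ∣ N := Nat.ordProj_dvd N p
  have h3 : p ^ N.factorization p ∣ A := Nat.dvd_gcd h2 h1
  have h4 : p ^ (N.factorization p + 1) ∣ N := by
    have h5 : p ^ N.factorization p * p ∣ A * M := mul_dvd_mul h3 hpM
    rwa [← hM, ← pow_succ] at h5
  exact Nat.pow_succ_factorization_not_dvd hN.ne' hp h4

open Cfsg.Agent.S3993 in
/-- Let G be a finite group and n a positive integer. The number of elements of G whose order is divisible by n is either 0 or divisible by the largest divisor of the order of G that is coprime to n. -/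
theorem result {G : Type*} [Group G] [Finite G] (n : ℕ) (hn : 0 < n) :
    Nat.card {g : G // n ∣ orderOf g} = 0 ∨
      (Nat.card G / Nat.gcd (Nat.card G) (n ^ Nat.card G)) ∣ Nat.card {g : G // n ∣ orderOf g} := by
  classical
  have := Fintype.ofFinite G
  right
  have hN : 0 < Nat.card G := Nat.card_pos
  set N := Nat.card G with hNdef
  set A := Nat.gcd N (n ^ N) with hA
  have hApos : 0 < A := Nat.gcd_pos_of_pos_left _ hN
  have hcopMn : Nat.Coprime (N / A) n := coprime_aux N n hN hn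
  obtain ⟨M, hM⟩ : A ∣ N := Nat.gcd_dvd_left _ _
  have hMdiv : N / A = M := by
    rw [hM]; exact Nat.mul_div_cancel_left _ hApos
  rw [hMdiv] at hcopMn ⊢
  have hMpos : 0 < M := by
    rcases Nat.eq_zero_or_pos M with h | h
    · rw [h, mul_zero] at hM; omega
    · exact h
  have hAdvd : A ∣ n ^ N := Nat.gcd_dvd_right _ _
  have hcopAM : Nat.Coprime A M := ((hcopMn.pow_right N).coprime_dvd_right hAdvd).symm
  obtain ⟨e, he1, he2⟩ := Nat.chineseRemainder hcopAM 1 0
  have hMe : M ∣ e := (Nat.modEq_zero_iff_dvd).mp he2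
  have hpowe : ∀ x : G, x ^ A = 1 → x ^ e = x := by
    intro x hx
    have hmod : e % A = 1 % A := he1
    rw [pow_eq_pow_mod e hx, hmod, ← pow_eq_pow_mod 1 hx, pow_one]
  have hpowN : ∀ x : G, x ^ N = 1 := fun x => pow_card_eq_one'
  let U : Finset G := Finset.univ.filter (fun u => u ^ A = 1 ∧ n ∣ orderOf u)
  have hmemU : ∀ u : G, u ∈ U ↔ u ^ A = 1 ∧ n ∣ orderOf u := fun u => by simp [U]
  have hcoprimeord : ∀ (u w : G), u ^ A = 1 → w ^ M = 1 →
      Nat.Coprime (orderOf u) (orderOf w) := fun u w hu hw =>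
    Nat.Coprime.of_dvd (orderOf_dvd_of_pow_eq_one hu) (orderOf_dvd_of_pow_eq_one hw) hcopAM
  have hcount : Nat.card {g : G // n ∣ orderOf g} = ∑ u ∈ U, (W M u).card := by
    rw [Nat.subtype_card (Finset.univ.filter (fun g : G => n ∣ orderOf g)) (by simp), ← Finset.card_sigma]
    refine Finset.card_nbij' (fun g => ⟨g ^ e, g * (g ^ e)⁻¹⟩) (fun s => s.1 * s.2) ?_ ?_ ?_ ?_
    · intro g hg
      have hg' : n ∣ orderOf g := (Finset.mem_filter.mp hg).2
      have hu : (g ^ e) ^ A = 1 := by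
        obtain ⟨j, rfl⟩ := hMe
        rw [← pow_mul, show M * j * A = N * j by rw [hM]; ring, pow_mul, hpowN, one_pow]
      have hc : Commute g (g ^ e)⁻¹ := ((Commute.refl g).pow_right e).inv_right
      have hwM : (g * (g ^ e)⁻¹) ^ M = 1 := by
        rw [hc.mul_pow, inv_pow, ← pow_mul, mul_comm e M, pow_mul]
        have hxm : (g ^ M) ^ A = 1 := by
          rw [← pow_mul, mul_comm, ← hM, hpowN]
        rw [hpowe _ hxm]
        simp
      have hcomm : Commute (g * (g ^ e)⁻¹) (g ^ e) :=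
        ((Commute.refl g).pow_right e).mul_left (Commute.refl (g ^ e)).inv_left
      rw [Finset.mem_coe, Finset.mem_sigma]
      refine ⟨(hmemU _).mpr ⟨hu, ?_⟩, mem_W.mpr ⟨hcomm, hwM⟩⟩
      have hord : orderOf g = orderOf (g ^ e) * orderOf (g * (g ^ e)⁻¹) := by
        have h1 : g = g ^ e * (g * (g ^ e)⁻¹) := by
          rw [← mul_assoc, ((Commute.refl g).pow_right e).eq.symm, mul_assoc, mul_inv_cancel, mul_one]
        conv_lhs => rw [h1]
        exact (hcomm.symm).orderOf_mul_eq_mul_orderOf_of_coprime (hcoprimeord _ _ hu hwM)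
      rw [hord] at hg'
      have hc2 : Nat.Coprime n (orderOf (g * (g ^ e)⁻¹)) :=
        (hcopMn.symm).coprime_dvd_right (orderOf_dvd_of_pow_eq_one hwM)
      exact hc2.dvd_of_dvd_mul_right hg'
    · rintro ⟨u, w⟩ hs
      rw [Finset.mem_coe, Finset.mem_sigma] at hs
      obtain ⟨hu, hw⟩ := hs
      obtain ⟨huA, hun⟩ := (hmemU _).mp hu
      obtain ⟨hc, hwM⟩ := mem_W.mp hw
      refine Finset.mem_filter.mpr ⟨Finset.mem_univ _, ?_⟩
      show n ∣ orderOf (u * w)
      rw [(hc.symm).orderOf_mul_eq_mul_orderOf_of_coprime (hcoprimeord _ _ huA hwM)]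
      exact Dvd.dvd.mul_right hun _
    · intro g _
      show g ^ e * (g * (g ^ e)⁻¹) = g
      have hc : Commute g (g ^ e) := (Commute.refl g).pow_right e
      rw [← mul_assoc, ← hc.eq, mul_assoc, mul_inv_cancel, mul_one]
    · rintro ⟨u, w⟩ hs
      rw [Finset.mem_coe, Finset.mem_sigma] at hs
      obtain ⟨hu, hw⟩ := hs
      obtain ⟨huA, -⟩ := (hmemU _).mp hu
      obtain ⟨hc, hwM⟩ := mem_W.mp hw
      have h1 : (u * w) ^ e = u := by
        obtain ⟨j, hj⟩ := hMe
        rw [(hc.symm).mul_pow, hpowe u huA, hj, pow_mul w, hwM, one_pow, mul_one]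
      show (⟨(u * w) ^ e, u * w * ((u * w) ^ e)⁻¹⟩ : Σ _ : G, G) = ⟨u, w⟩
      rw [h1, (hc.symm).eq, mul_assoc, mul_inv_cancel, mul_one]
  rw [hcount]
  have hMG : M ∣ Nat.card G := by rw [← hNdef, hM]; exact Dvd.intro_left _ rfl
  refine dvd_sum_of_fibers _ (fun y => ConjClasses.mk y) _ _ fun y0 hy0 => ?_
  have hconj : ∀ y, ConjClasses.mk y = ConjClasses.mk y0 ↔ IsConj y0 y := fun y => by
    rw [ConjClasses.mk_eq_mk_iff_isConj]; exact isConj_comm
  rw [Finset.sum_congr rfl (fun y hy => card_W_conj M ((hconj y).mp (Finset.mem_filter.mp hy).2)),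
    Finset.sum_const, smul_eq_mul]
  have hF : (U.filter (fun y => ConjClasses.mk y = ConjClasses.mk y0)).card =
      Nat.card {y // IsConj y0 y} := by
    symm
    apply Nat.subtype_card
    intro y
    rw [Finset.mem_filter, hmemU, hconj]
    constructor
    · rintro ⟨_, h⟩
      exact h
    · intro h
      obtain ⟨h1, h2⟩ := (hmemU _).mp hy0
      refine ⟨⟨?_, ?_⟩, h⟩
      · obtain ⟨c, rfl⟩ := isConj_iff.mp h
        rw [conj_pow, h1]
        group
      · rw [← Cfsg.Agent.Lib.Basic.ConjCount.orderOf_eq_of_isConj h]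
        exact h2
  rw [hF]
  exact dvd_class_mul' y0 hMG

end Cfsg.Agent.S3994
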