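import Cfsg.Statements.S3995
import Cfsg.Agent.S3993
import Cfsg.Agent.Lib.PGroup.CyclicMax2

set_option autoImplicit false
open Cfsg

namespace Cfsg.Agent.S3995

open Cfsg.Agent.Lib.PGroup.CyclicMax2

lemma zmod2_val : ∀ a : ZMod 2, a = 0 ∨ a = 1 := by decide

lemma zmod2_add : (1 : ZMod 2) + 1 = 0 := by decide

/-- a type-zero box -/
def Box (n : ℕ) : Type := Fin n

instance (n : ℕ) : Finite (Box n) := inferInstanceAs (Finite (Fin n))

/-- number of elements of order `m` -/
noncomputable def c (G : Type*) [Group G] (m : ℕ) : ℕ := Nat.card {g : G // orderOf g = m}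

section
variable {G : Type*} [Group G] [Finite G]

lemma L_eq (k : ℕ) (D : Finset ℕ) (hD : ∀ g : G, g ^ k = 1 ↔ orderOf g ∈ D) :
    Nat.card {g : G // g ^ k = 1} = ∑ d ∈ D, c G d := by
  classical
  haveI := Fintype.ofFinite G
  have h1 : Nat.card {g : G // g ^ k = 1} = (Finset.univ.filter (fun g : G => g ^ k = 1)).card := by
    rw [Nat.card_eq_fintype_card, Fintype.card_subtype]
  rw [h1, Finset.card_eq_sum_card_fiberwise (f := orderOf) (t := D) (fun g hg => by
     simpa [hD] using hg)]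
  apply Finset.sum_congr rfl
  intro d hd
  unfold c
  rw [Nat.card_eq_fintype_card, Fintype.card_subtype]
  congr 1
  ext g
  simp only [Finset.mem_filter, Finset.mem_univ, true_and]
  constructor
  · exact fun h => h.2
  · intro h
    exact ⟨(hD g).mpr (h ▸ hd), h⟩

lemma frob (k : ℕ) (hk : k ∣ Nat.card G) (D : Finset ℕ) (hD : ∀ g : G, g ^ k = 1 ↔ orderOf g ∈ D) :
    k ∣ ∑ d ∈ D, c G d := by
  rw [← L_eq k D hD]
  exact Cfsg.Agent.S3993.result k hk

lemma c_ne_zero_iff (m : ℕ) : c G m ≠ 0 ↔ ∃ g : G, orderOf g = m := by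
  unfold c
  rw [Nat.card_ne_zero]
  constructor
  · rintro ⟨⟨g, hg⟩, -⟩
    exact ⟨g, hg⟩
  · rintro ⟨g, hg⟩
    exact ⟨⟨⟨g, hg⟩⟩, inferInstance⟩

lemma c_one : c G 1 = 1 := by
  unfold c
  rw [Nat.card_eq_one_iff_unique]
  refine ⟨⟨?_⟩, ⟨⟨1, orderOf_one⟩⟩⟩
  rintro ⟨a, ha⟩ ⟨b, hb⟩
  apply Subtype.ext
  rw [orderOf_eq_one_iff] at ha hb
  simp [ha, hb]

lemma eq_of_c_one {m : ℕ} (hm : c G m = 1) {a b : G} (ha : orderOf a = m) (hb : orderOf b = m) : a = b := by
  unfold c at hm
  rw [Nat.card_eq_one_iff_unique] at hm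
  haveI := hm.1
  exact congrArg Subtype.val (Subsingleton.elim (⟨a, ha⟩ : {g : G // orderOf g = m}) ⟨b, hb⟩)

structure Hyp (G : Type*) [Group G] (n : ℕ) : Prop where
  val : ∀ g : G, c G (orderOf g) = 1 ∨ c G (orderOf g) = n
  ex : ∃ g : G, c G (orderOf g) = n
  n1 : n ≠ 1

variable {n : ℕ}

lemma Hyp.c3 (H : Hyp G n) {m : ℕ} (hm : 3 ≤ m) : c G m = 0 ∨ c G m = n := by
  by_cases h0 : c G m = 0
  · exact Or.inl h0
  right
  obtain ⟨g, rfl⟩ := (c_ne_zero_iff m).mp h0
  rcases H.val g with h | h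
  · exfalso
    have h1 : g = g⁻¹ := eq_of_c_one h rfl (orderOf_inv g)
    have h2 : g ^ 2 = 1 := by
      rw [pow_two]
      nth_rw 1 [h1]
      simp
    have h3 := orderOf_le_of_pow_eq_one (by norm_num) h2
    omega
  · exact h

lemma Hyp.c2 (H : Hyp G n) (h2 : 2 ∣ Nat.card G) : c G 2 = 1 ∨ c G 2 = n := by
  haveI : Fact (Nat.Prime 2) := ⟨Nat.prime_two⟩
  obtain ⟨g, hg⟩ := exists_prime_orderOf_dvd_card' (G := G) 2 h2
  have := H.val g
  rwa [hg] at this

lemma c_prime {p : ℕ} (hp : p.Prime) (h : p ∣ Nat.card G) : c G p ≠ 0 := by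
  haveI : Fact p.Prime := ⟨hp⟩
  obtain ⟨g, hg⟩ := exists_prime_orderOf_dvd_card' (G := G) p h
  exact (c_ne_zero_iff p).mpr ⟨g, hg⟩

lemma Hyp.c_odd (H : Hyp G n) {p : ℕ} (hp : p.Prime) (hp3 : 3 ≤ p) (h : p ∣ Nat.card G) : c G p = n := by
  rcases H.c3 hp3 with h0 | h0
  · exact absurd h0 (c_prime hp h)
  · exact h0

lemma aux1 {p n : ℕ} (h1 : p ∣ n + 1) (h2 : p ∣ 1 + 2 * n) : p ∣ 1 := by
  have := Nat.dvd_sub (dvd_mul_of_dvd_right h1 2) h2
  rwa [show 2 * (n + 1) - (1 + 2 * n) = 1 by omega] at this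

lemma aux2 {p n : ℕ} (h1 : p ∣ n + 1) (h2 : p ∣ 1 + 3 * n) : p ∣ 2 := by
  have := Nat.dvd_sub (dvd_mul_of_dvd_right h1 3) h2
  rwa [show 3 * (n + 1) - (1 + 3 * n) = 2 by omega] at this

lemma aux3 {p n : ℕ} (h1 : p ∣ n + 1) (h2 : p ∣ 2 + 3 * n) : p ∣ 1 := by
  have := Nat.dvd_sub (dvd_mul_of_dvd_right h1 3) h2
  rwa [show 3 * (n + 1) - (2 + 3 * n) = 1 by omega] at this

lemma aux4 {p n : ℕ} (h1 : p ∣ n + 1) (h2 : p ∣ 2 + 4 * n) : p ∣ 2 := by
  have := Nat.dvd_sub (dvd_mul_of_dvd_right h1 4) h2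
  rwa [show 4 * (n + 1) - (2 + 4 * n) = 2 by omega] at this

lemma aux5 {p n : ℕ} (h1 : p ∣ n + 1) (h2 : p ∣ 2 + n) : p ∣ 1 := by
  have := Nat.dvd_sub h2 h1
  rwa [show (2 + n) - (n + 1) = 1 by omega] at this

lemma odd_not_dvd_one {p : ℕ} (hp : 3 ≤ p) : ¬ p ∣ 1 := fun h => by
  have := Nat.le_of_dvd (by norm_num) h
  omega

lemma odd_not_dvd_two {p : ℕ} (hp : 3 ≤ p) : ¬ p ∣ 2 := fun h => by
  have := Nat.le_of_dvd (by norm_num) h
  omega

lemma hD_p {p : ℕ} (hp : p.Prime) (g : G) : g ^ p = 1 ↔ orderOf g ∈ ({1, p} : Finset ℕ) := by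
  rw [← orderOf_dvd_iff_pow_eq_one, Nat.dvd_prime hp]
  simp

lemma hD_p2 {p : ℕ} (hp : p.Prime) (g : G) : g ^ (p ^ 2) = 1 ↔ orderOf g ∈ ({1, p, p ^ 2} : Finset ℕ) := by
  rw [← orderOf_dvd_iff_pow_eq_one, Nat.dvd_prime_pow hp]
  simp only [Finset.mem_insert, Finset.mem_singleton]
  constructor
  · rintro ⟨k, hk, hg⟩
    have : k = 0 ∨ k = 1 ∨ k = 2 := by omega
    rcases this with rfl | rfl | rfl
    · left; simpa using hg
    · right; left; simpa using hg
    · right; right; exact hg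
  · rintro (h | h | h)
    · exact ⟨0, by norm_num, by simpa using h⟩
    · exact ⟨1, by norm_num, by simpa using h⟩
    · exact ⟨2, by norm_num, h⟩

lemma hD_pq {p q : ℕ} (hp : p.Prime) (hq : q.Prime) (g : G) :
    g ^ (p * q) = 1 ↔ orderOf g ∈ ({1, p, q, p * q} : Finset ℕ) := by
  rw [← orderOf_dvd_iff_pow_eq_one]
  simp only [Finset.mem_insert, Finset.mem_singleton]
  constructor
  · intro h
    obtain ⟨a, b, ha, hb, hab⟩ := (Nat.dvd_mul).mp h
    rw [← hab]
    rcases (Nat.dvd_prime hp).mp ha with rfl | rfl <;> rcases (Nat.dvd_prime hq).mp hb with rfl | rfl <;> simp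
  · rintro (h | h | h | h) <;> rw [h]
    · exact one_dvd _
    · exact dvd_mul_right _ _
    · exact dvd_mul_left _ _

lemma hD_4 (g : G) : g ^ 4 = 1 ↔ orderOf g ∈ ({1, 2, 4} : Finset ℕ) := by
  rw [← orderOf_dvd_iff_pow_eq_one, show (4 : ℕ) = 2 ^ 2 by norm_num, Nat.dvd_prime_pow Nat.prime_two]
  simp only [Finset.mem_insert, Finset.mem_singleton]
  constructor
  · rintro ⟨k, hk, hg⟩
    have : k = 0 ∨ k = 1 ∨ k = 2 := by omega
    rcases this with rfl | rfl | rfl
    · left; simpa using hg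
    · right; left; simpa using hg
    · right; right; exact hg
  · rintro (h | h | h)
    · exact ⟨0, by norm_num, by simpa using h⟩
    · exact ⟨1, by norm_num, by simpa using h⟩
    · exact ⟨2, by norm_num, h⟩

lemma hD_8 (g : G) : g ^ 8 = 1 ↔ orderOf g ∈ ({1, 2, 4, 8} : Finset ℕ) := by
  rw [← orderOf_dvd_iff_pow_eq_one, show (8 : ℕ) = 2 ^ 3 by norm_num, Nat.dvd_prime_pow Nat.prime_two]
  simp only [Finset.mem_insert, Finset.mem_singleton]
  constructor
  · rintro ⟨k, hk, hg⟩
    have : k = 0 ∨ k = 1 ∨ k = 2 ∨ k = 3 := by omega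
    rcases this with rfl | rfl | rfl | rfl
    · left; simpa using hg
    · right; left; simpa using hg
    · right; right; left; exact hg
    · right; right; right; exact hg
  · rintro (h | h | h | h)
    · exact ⟨0, by norm_num, by simpa using h⟩
    · exact ⟨1, by norm_num, by simpa using h⟩
    · exact ⟨2, by norm_num, h⟩
    · exact ⟨3, by norm_num, h⟩

lemma hD_4p {p : ℕ} (hp : p.Prime) (g : G) :
    g ^ (4 * p) = 1 ↔ orderOf g ∈ ({1, 2, 4, p, 2 * p, 4 * p} : Finset ℕ) := by
  rw [← orderOf_dvd_iff_pow_eq_one]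
  simp only [Finset.mem_insert, Finset.mem_singleton]
  constructor
  · intro h
    obtain ⟨a, b, ha, hb, hab⟩ := (Nat.dvd_mul).mp h
    rw [← hab]
    have ha' : a = 1 ∨ a = 2 ∨ a = 4 := by
      have h1 : a ∈ Nat.divisors 4 := Nat.mem_divisors.mpr ⟨ha, by norm_num⟩
      have h2 : Nat.divisors 4 = {1, 2, 4} := by decide
      rw [h2] at h1
      simpa using h1
    rcases ha' with rfl | rfl | rfl <;> rcases (Nat.dvd_prime hp).mp hb with rfl | rfl <;> simp
  · rintro (h | h | h | h | h | h) <;> rw [h]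
    · exact one_dvd _
    · exact Dvd.dvd.mul_right (by norm_num) _
    · exact dvd_mul_right _ _
    · exact dvd_mul_left _ _
    · exact Nat.mul_dvd_mul (by norm_num) dvd_rfl

lemma Hyp.no_sq (H : Hyp G n) {p : ℕ} (hp : p.Prime) (hp3 : 3 ≤ p) : c G (p ^ 2) = 0 := by
  by_contra hne
  obtain ⟨g, hg⟩ := (c_ne_zero_iff _).mp hne
  have hd2 : p ^ 2 ∣ Nat.card G := by
    rw [← hg]; exact orderOf_dvd_natCard g
  have hd : p ∣ Nat.card G := (dvd_pow_self p (by norm_num)).trans hd2
  have h1 := H.c_odd hp hp3 hd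
  have h2 : c G (p ^ 2) = n := by
    rcases H.c3 (m := p ^ 2) (by nlinarith) with h | h
    · exact absurd h hne
    · exact h
  have L1 := frob p hd _ (hD_p (G := G) hp)
  rw [Finset.sum_pair (by omega), c_one, h1, add_comm] at L1
  have L2 := frob _ hd2 _ (hD_p2 (G := G) hp)
  rw [Finset.sum_insert (by
      simp only [Finset.mem_insert, Finset.mem_singleton]
      rintro (h | h)
      · omega
      · nlinarith),
    Finset.sum_pair (by nlinarith), c_one, h1, h2] at L2
  have L3 : p ∣ 1 + 2 * n := by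
    rw [show 1 + 2 * n = 1 + (n + n) by ring]
    exact (dvd_pow_self p (by norm_num)).trans L2
  exact odd_not_dvd_one hp3 (aux1 L1 L3)

lemma Hyp.no_two_odd (H : Hyp G n) {p q : ℕ} (hp : p.Prime) (hp3 : 3 ≤ p) (hq : q.Prime) (hq3 : 3 ≤ q)
    (hpq : p ≠ q) (hpd : p ∣ Nat.card G) (hqd : q ∣ Nat.card G) : False := by
  have hcop : Nat.Coprime p q := (Nat.coprime_primes hp hq).mpr hpq
  have hd : p * q ∣ Nat.card G := hcop.mul_dvd_of_dvd_of_dvd hpd hqd
  have h1 := H.c_odd hp hp3 hpd
  have h2 := H.c_odd hq hq3 hqd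
  have L1 := frob p hpd _ (hD_p (G := G) hp)
  rw [Finset.sum_pair (by omega), c_one, h1, add_comm] at L1
  have L2 := frob _ hd _ (hD_pq (G := G) hp hq)
  have hm1 : p * q ≥ 2 * q := Nat.mul_le_mul_right q (by omega)
  have hm2 : p * q ≥ p * 2 := Nat.mul_le_mul_left p (by omega)
  rw [Finset.sum_insert (by
      simp only [Finset.mem_insert, Finset.mem_singleton]
      omega),
    Finset.sum_insert (by
      simp only [Finset.mem_insert, Finset.mem_singleton]
      omega),
    Finset.sum_pair (by omega), c_one, h1, h2] at L2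
  have L3 : p ∣ 1 + (n + (n + c G (p * q))) := (dvd_mul_right p q).trans L2
  rcases H.c3 (m := p * q) (by omega) with h | h
  · rw [h] at L3
    exact odd_not_dvd_one hp3 (aux1 L1 (by rw [show 1 + 2 * n = 1 + (n + (n + 0)) by ring]; exact L3))
  · rw [h] at L3
    exact odd_not_dvd_two hp3 (aux2 L1 (by rw [show 1 + 3 * n = 1 + (n + (n + n)) by ring]; exact L3))

/-- `2` and an odd prime -/
lemma Hyp.mixed (H : Hyp G n) {p : ℕ} (hp : p.Prime) (hp3 : 3 ≤ p) (hpd : p ∣ Nat.card G)
    (h2d : 2 ∣ Nat.card G) : c G 2 = 1 ∧ ¬ 4 ∣ Nat.card G := by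
  have hcop2 : Nat.Coprime 2 p := (Nat.coprime_primes Nat.prime_two hp).mpr (by omega)
  have h1 := H.c_odd hp hp3 hpd
  have L1 := frob p hpd _ (hD_p (G := G) hp)
  rw [Finset.sum_pair (by omega), c_one, h1, add_comm] at L1
  have L2 := frob _ (hcop2.mul_dvd_of_dvd_of_dvd h2d hpd) _ (hD_pq (G := G) Nat.prime_two hp)
  rw [Finset.sum_insert (by
      simp only [Finset.mem_insert, Finset.mem_singleton]
      omega),
    Finset.sum_insert (by
      simp only [Finset.mem_insert, Finset.mem_singleton]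
      omega),
    Finset.sum_pair (by omega), c_one, h1] at L2
  have L3 : p ∣ 1 + (c G 2 + (n + c G (2 * p))) := (dvd_mul_left p 2).trans L2
  have hc2p : c G (2 * p) = 0 ∨ c G (2 * p) = n := H.c3 (by omega)
  have hc2 : c G 2 = 1 := by
    rcases H.c2 h2d with h | h
    · exact h
    · exfalso
      rw [h] at L3
      rcases hc2p with h' | h' <;> rw [h'] at L3
      · exact odd_not_dvd_one hp3 (aux1 L1 (by rw [show 1 + 2 * n = 1 + (n + (n + 0)) by ring]; exact L3))
      · exact odd_not_dvd_two hp3 (aux2 L1 (by rw [show 1 + 3 * n = 1 + (n + (n + n)) by ring]; exact L3))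
  refine ⟨hc2, ?_⟩
  intro h4d
  rw [hc2] at L3
  have hc2p' : c G (2 * p) = n := by
    rcases hc2p with h' | h'
    · exfalso
      rw [h'] at L3
      exact odd_not_dvd_one hp3 (aux5 L1 (by rw [show 2 + n = 1 + (1 + (n + 0)) by ring]; exact L3))
    · exact h'
  have L4 := frob 4 h4d _ (hD_4 (G := G))
  rw [Finset.sum_insert (by simp), Finset.sum_pair (by norm_num), c_one, hc2] at L4
  have hc4 : c G 4 = n := by
    rcases H.c3 (m := 4) (by norm_num) with h | h
    · rw [h] at L4
      norm_num at L4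
    · exact h
  have hcop4 : Nat.Coprime 4 p := by
    rw [show 4 = 2 ^ 2 by norm_num]
    exact Nat.Coprime.pow_left 2 hcop2
  have hp4 : p ≠ 4 := by
    rintro rfl
    norm_num at hp
  have L5 := frob _ (hcop4.mul_dvd_of_dvd_of_dvd h4d hpd) _ (hD_4p (G := G) hp)
  rw [Finset.sum_insert (by
      simp only [Finset.mem_insert, Finset.mem_singleton]
      omega),
    Finset.sum_insert (by
      simp only [Finset.mem_insert, Finset.mem_singleton]
      omega),
    Finset.sum_insert (by
      simp only [Finset.mem_insert, Finset.mem_singleton]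
      omega),
    Finset.sum_insert (by
      simp only [Finset.mem_insert, Finset.mem_singleton]
      omega),
    Finset.sum_pair (by omega), c_one, hc2, hc4, h1, hc2p'] at L5
  have L6 : p ∣ 1 + (1 + (n + (n + (n + c G (4 * p))))) := (dvd_mul_left p 4).trans L5
  rcases H.c3 (m := 4 * p) (by omega) with h | h <;> rw [h] at L6
  · exact odd_not_dvd_one hp3 (aux3 L1 (by rw [show 2 + 3 * n = 1 + (1 + (n + (n + (n + 0)))) by ring]; exact L6))
  · exact odd_not_dvd_two hp3 (aux4 L1 (by rw [show 2 + 4 * n = 1 + (1 + (n + (n + (n + n)))) by ring]; exact L6))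

/-- the case of a `2`-group with an element of order `4` -/
lemma Hyp.two_group (H : Hyp G n) (hG : IsPGroup 2 G) (hc4 : c G 4 ≠ 0) :
    Nonempty (G ≃* QuaternionGroup 2) ∨ (IsCyclic G ∧ Nat.card G = 4) := by
  haveI : Fact (Nat.Prime 2) := ⟨Nat.prime_two⟩
  obtain ⟨g₄, hg₄⟩ := (c_ne_zero_iff 4).mp hc4
  have h4d : 4 ∣ Nat.card G := by
    rw [← hg₄]; exact orderOf_dvd_natCard _
  have h2d : 2 ∣ Nat.card G := (by norm_num : 2 ∣ 4).trans h4d
  have hc4' : c G 4 = n := by
    rcases H.c3 (m := 4) (by norm_num) with h | h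
    · exact absurd h hc4
    · exact h
  have L4 := frob 4 h4d _ (hD_4 (G := G))
  rw [Finset.sum_insert (by simp), Finset.sum_pair (by norm_num), c_one, hc4'] at L4
  have hc2 : c G 2 = 1 := by
    rcases H.c2 h2d with h | h
    · exact h
    · exfalso
      rw [h] at L4
      omega
  rw [hc2] at L4
  have hc8 : c G 8 = 0 := by
    by_contra hne
    obtain ⟨g₈, hg₈⟩ := (c_ne_zero_iff 8).mp hne
    have h8d : 8 ∣ Nat.card G := by
      rw [← hg₈]; exact orderOf_dvd_natCard _
    have hc8' : c G 8 = n := by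
      rcases H.c3 (m := 8) (by norm_num) with h | h
      · exact absurd h hne
      · exact h
    have L8 := frob 8 h8d _ (hD_8 (G := G))
    rw [Finset.sum_insert (by simp), Finset.sum_insert (by simp), Finset.sum_pair (by norm_num),
      c_one, hc2, hc4', hc8'] at L8
    omega
  -- all elements satisfy `x ^ 4 = 1`
  have hall : ∀ x : G, x ^ 4 = 1 := by
    intro x
    by_contra hx
    obtain ⟨e, he⟩ := hG x
    have h0 : orderOf x ∣ 2 ^ e := orderOf_dvd_of_pow_eq_one he
    obtain ⟨f, _, hf⟩ := (Nat.dvd_prime_pow Nat.prime_two).mp h0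
    have hf3 : 3 ≤ f := by
      by_contra hcon
      apply hx
      apply orderOf_dvd_iff_pow_eq_one.mp
      rw [hf, show 4 = 2 ^ 2 by norm_num]
      exact pow_dvd_pow 2 (by omega)
    have h1 : 2 ^ f = 2 ^ (f - 3) * 8 := by
      rw [show (8 : ℕ) = 2 ^ 3 by norm_num, ← pow_add]; congr 1; omega
    have h2 : orderOf (x ^ 2 ^ (f - 3)) = 8 := by
      rw [orderOf_pow_of_dvd (by positivity) (by rw [hf, h1]; exact dvd_mul_right _ _), hf, h1]
      exact Nat.mul_div_cancel_left _ (by positivity)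
    exact (c_ne_zero_iff 8).mpr ⟨_, h2⟩ hc8
  have hinv : ∀ y z : G, y ^ 2 = 1 → z ^ 2 = 1 → y ≠ 1 → z ≠ 1 → y = z := by
    intro y z hy hz hy1 hz1
    exact eq_of_c_one hc2 (orderOf_eq_prime hy hy1) (orderOf_eq_prime hz hz1)
  have hu : UniqueP 2 G := by
    intro y z hy hz hy1 hz1
    rw [hinv y z hy hz hy1 hz1]
    exact Subgroup.mem_zpowers z
  rcases cyclic_or_quaternion hG hu with hcyc | ⟨-, u, b, k, hSC, hk, hcard, hb, hbu, hb2⟩
  · right
    refine ⟨hcyc, ?_⟩
    obtain ⟨g, hg⟩ := IsCyclic.exists_ofOrder_eq_natCard (α := G)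
    have h1 : Nat.card G ∣ 4 := by
      rw [← hg]
      exact orderOf_dvd_of_pow_eq_one (hall g)
    exact Nat.dvd_antisymm h1 h4d
  · left
    have h1 : 2 ^ k ∣ 2 ^ 2 := by
      rw [← hSC.hu]
      exact orderOf_dvd_of_pow_eq_one (hall u)
    have hk2 : k = 2 := by
      have := (Nat.pow_dvd_pow_iff_le_right (by norm_num)).mp h1
      omega
    subst hk2
    exact quaternion_of_data (n := 2) (by norm_num) hSC.hu hcard hb hbu hb2

/-- the mixed case: the isomorphism -/
lemma mixed_iso {p b : ℕ} (hp : p.Prime) (hp3 : 3 ≤ p) (hb : Nat.card G = 2 * p ^ b)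
    (hc2 : c G 2 = 1) (hsq : c G (p ^ 2) = 0) (hpd : p ∣ Nat.card G) :
    ∃ (K : Subgroup G), IsPGroup p K ∧ Monoid.exponent K = p ∧
      Nonempty (G ≃* Multiplicative (ZMod 2) × K) := by
  haveI : Fact p.Prime := ⟨hp⟩
  haveI : Fact (Nat.Prime 2) := ⟨Nat.prime_two⟩
  obtain ⟨K, hK⟩ := Sylow.exists_subgroup_card_pow_prime (G := G) p (n := b) ⟨2, by rw [hb]; ring⟩
  have hindex : K.index = 2 := by
    have h1 := K.card_mul_index
    rw [hK, hb] at h1
    have h2 : 0 < p ^ b := pow_pos hp.pos b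
    have h3 : p ^ b * K.index = p ^ b * 2 := by rw [h1]; ring
    exact Nat.eq_of_mul_eq_mul_left h2 h3
  haveI hnorm : K.Normal := Subgroup.normal_of_index_eq_two hindex
  have hb0 : b ≠ 0 := by
    rintro rfl
    rw [hb] at hpd
    simp only [pow_zero, mul_one] at hpd
    have := Nat.le_of_dvd (by norm_num) hpd
    omega
  have hKp : IsPGroup p K := IsPGroup.of_card hK
  have hKexp : ∀ x : K, x ^ p = 1 := by
    intro x
    by_contra hx
    obtain ⟨i, hi⟩ := exists_pow_order_sq hKp hx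
    have h1 : orderOf ((x : G) ^ i) = p ^ 2 := by
      rw [← hi]
      have : ((x : G) ^ i) = ((x ^ i : K) : G) := by simp
      rw [this, Subgroup.orderOf_coe]
    exact (c_ne_zero_iff _).mpr ⟨_, h1⟩ hsq
  haveI hKnt : Nontrivial K := by
    rw [← Finite.one_lt_card_iff_nontrivial, hK]
    exact Nat.one_lt_pow hb0 hp.one_lt
  have hKe : Monoid.exponent K = p := by
    rw [Monoid.exponent_eq_prime_iff hp]
    intro g hg
    exact orderOf_eq_prime (hKexp g) hg
  refine ⟨K, hKp, hKe, ?_⟩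
  obtain ⟨z, hz⟩ := exists_prime_orderOf_dvd_card' (G := G) 2 ⟨p ^ b, hb⟩
  have hz2 : z * z = 1 := by
    rw [← pow_two, ← hz, pow_orderOf_eq_one]
  have hzc : ∀ g : G, g * z = z * g := by
    intro g
    have h1 : orderOf (g * z * g⁻¹) = 2 := by
      rw [← hz]
      exact MulEquiv.orderOf_eq (MulAut.conj g) z
    have h2 := eq_of_c_one hc2 h1 hz
    calc g * z = g * z * g⁻¹ * g := by group
      _ = z * g := by rw [h2]
  have hzK : z ∉ K := by
    intro hzK
    have h1 : orderOf (⟨z, hzK⟩ : K) = 2 := by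
      rw [← hz]
      exact Subgroup.orderOf_mk z hzK
    have h2 : 2 ∣ Nat.card K := by
      rw [← h1]; exact orderOf_dvd_natCard _
    rw [hK] at h2
    have h3 := (Nat.prime_dvd_prime_iff_eq Nat.prime_two hp).mp (Nat.Prime.dvd_of_dvd_pow Nat.prime_two h2)
    omega
  have hval := zmod2_val
  let ζ : Multiplicative (ZMod 2) →* G := MonoidHom.mk' (fun a => z ^ (Multiplicative.toAdd a).val) (by
    intro a b
    have h1 : z ^ 2 = 1 := by rw [pow_two, hz2]
    have ha := hval (Multiplicative.toAdd a)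
    have hb' := hval (Multiplicative.toAdd b)
    simp only [toAdd_mul]
    rcases ha with ha | ha <;> rcases hb' with hb' | hb' <;> rw [ha, hb']
    · simp [ZMod.val_zero]
    · simp [ZMod.val_zero]
    · simp [ZMod.val_zero]
    · rw [zmod2_add, ZMod.val_zero, ZMod.val_one]
      simp [hz2])
  have hζ : ∀ a, ζ a = z ^ (Multiplicative.toAdd a).val := fun a => rfl
  let f : Multiplicative (ZMod 2) × K →* G :=
    MonoidHom.noncommCoprod ζ K.subtype (by
      intro a x
      show Commute (ζ a) _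
      rw [hζ]
      apply Commute.pow_left
      exact (hzc _).symm)
  have hf : ∀ a x, f (a, x) = ζ a * (x : G) := fun a x => rfl
  have hinj : Function.Injective f := by
    rw [injective_iff_map_eq_one]
    rintro ⟨a, x⟩ h
    rw [hf, hζ] at h
    have ha := hval (Multiplicative.toAdd a)
    rcases ha with ha | ha
    · rw [ha, ZMod.val_zero, pow_zero, one_mul] at h
      have h1 : x = 1 := Subtype.ext h
      have h2 : a = 1 := by
        apply Multiplicative.toAdd.injective
        rw [ha]; rfl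
      rw [h1, h2]; rfl
    · exfalso
      rw [ha, ZMod.val_one, pow_one] at h
      apply hzK
      have : z = (x : G)⁻¹ := eq_inv_of_mul_eq_one_left h
      rw [this]
      exact K.inv_mem x.2
  have hcardm : Nat.card (Multiplicative (ZMod 2) × K) = Nat.card G := by
    rw [Nat.card_prod, hK, hb]
    congr 1
    rw [show Nat.card (Multiplicative (ZMod 2)) = Nat.card (ZMod 2) from
      Nat.card_congr Multiplicative.toAdd, Nat.card_zmod]
  have hbij : Function.Bijective f :=
    (Nat.bijective_iff_injective_and_card f).mpr ⟨hinj, hcardm⟩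
  exact ⟨(MulEquiv.ofBijective f hbij).symm⟩

/-- small copy of a finite group -/
lemma small_copy {K : Type*} [Group K] [Finite K] :
    ∃ (P : Type) (_ : Group P) (_ : Finite P), Nonempty (K ≃* P) := by
  let e : K ≃ Box (Nat.card K) := Finite.equivFin K
  letI : Group (Box (Nat.card K)) := e.symm.group
  exact ⟨Box (Nat.card K), inferInstance, inferInstance, ⟨(e.symm.mulEquiv).symm⟩⟩

/-- Let G be a finite group such that the numbers of elements of each order that occurs in G (the numbers #{g : o(g) = m}, m ranging over the element orders of G) take exactly two values, 1 and some n ≠ 1. Then either G is a p-group of exponent p and order at least 3 for some prime p, or G is the quaternion group of order 8, or G is cyclic of order 4, or G ≅ Z₂ × P for a p-group P of exponent p with p an odd prime. -/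
theorem result {G : Type*} [Group G] [Finite G] (n : ℕ) (hn : n ≠ 1) (h : ((fun m : ℕ => Nat.card {g : G // orderOf g = m}) '' Set.range (orderOf : G → ℕ)) = {1, n}) :
    (∃ p : ℕ, p.Prime ∧ IsPGroup p G ∧ 3 ≤ Nat.card G ∧ Monoid.exponent G = p) ∨
      Nonempty (G ≃* QuaternionGroup 2) ∨ (IsCyclic G ∧ Nat.card G = 4) ∨
      (∃ (p : ℕ) (P : Type) (_ : Group P) (_ : Finite P), p.Prime ∧ p ≠ 2 ∧ IsPGroup p P ∧ Monoid.exponent P = p ∧
        Nonempty (G ≃* Multiplicative (ZMod 2) × P)) := by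
  have H : Hyp G n := by
    refine ⟨?_, ?_, hn⟩
    · intro g
      have h1 : (fun m : ℕ => Nat.card {g : G // orderOf g = m}) (orderOf g) ∈
          ((fun m : ℕ => Nat.card {g : G // orderOf g = m}) '' Set.range (orderOf : G → ℕ)) :=
        ⟨orderOf g, ⟨g, rfl⟩, rfl⟩
      rw [h] at h1
      exact h1
    · have h1 : n ∈ ((fun m : ℕ => Nat.card {g : G // orderOf g = m}) '' Set.range (orderOf : G → ℕ)) := by
        rw [h]; right; rfl
      obtain ⟨_, ⟨g, rfl⟩, hg⟩ := h1
      exact ⟨g, hg⟩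
  -- is there an odd prime divisor?
  by_cases hodd : ∃ p : ℕ, p.Prime ∧ 3 ≤ p ∧ p ∣ Nat.card G
  · obtain ⟨p, hp, hp3, hpd⟩ := hodd
    haveI : Fact p.Prime := ⟨hp⟩
    have hsq := H.no_sq hp hp3
    by_cases h2d : 2 ∣ Nat.card G
    · -- mixed case
      obtain ⟨hc2, h4⟩ := H.mixed hp hp3 hpd h2d
      obtain ⟨m, hm⟩ := h2d
      have hmodd : ¬ 2 ∣ m := by
        rintro ⟨m', rfl⟩
        exact h4 ⟨m', by rw [hm]; ring⟩
      have hm0 : m ≠ 0 := by
        rintro rfl
        have := Nat.card_pos (α := G)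
        omega
      have hmp : ∀ {d : ℕ}, d.Prime → d ∣ m → d = p := by
        intro d hd hdm
        have hd2 : d ≠ 2 := by
          rintro rfl
          exact hmodd hdm
        have hd3 : 3 ≤ d := by
          have := hd.two_le
          omega
        by_contra hne
        exact H.no_two_odd hd hd3 hp hp3 hne (hdm.trans ⟨2, by rw [hm]; ring⟩) hpd
      have hmb := Nat.eq_prime_pow_of_unique_prime_dvd hm0 hmp
      set b := m.primeFactorsList.length
      obtain ⟨K, hK1, hK2, ⟨hK3⟩⟩ := mixed_iso (b := b) hp hp3 (by rw [hm, ← hmb]) hc2 hsq hpd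
      obtain ⟨P, iP, fP, ⟨eP⟩⟩ := small_copy (K := K)
      right; right; right
      refine ⟨p, P, iP, fP, hp, by omega, ?_, ?_, ?_⟩
      · exact hK1.of_surjective eP.toMonoidHom eP.surjective
      · rw [← Monoid.exponent_eq_of_mulEquiv eP, hK2]
      · exact ⟨hK3.trans (MulEquiv.prodCongr (MulEquiv.refl _) eP)⟩
    · -- odd `p`-group
      left
      have hm0 : Nat.card G ≠ 0 := Nat.card_pos.ne'
      have hmp : ∀ {d : ℕ}, d.Prime → d ∣ Nat.card G → d = p := by
        intro d hd hdm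
        have hd2 : d ≠ 2 := by
          rintro rfl
          exact h2d hdm
        have hd3 : 3 ≤ d := by
          have := hd.two_le
          omega
        by_contra hne
        exact H.no_two_odd hd hd3 hp hp3 hne hdm hpd
      have hmb := Nat.eq_prime_pow_of_unique_prime_dvd hm0 hmp
      have hGp : IsPGroup p G := IsPGroup.of_card hmb
      refine ⟨p, hp, hGp, ?_, ?_⟩
      · exact hp3.trans (Nat.le_of_dvd Nat.card_pos hpd)
      · haveI : Nontrivial G := by
          rw [← Finite.one_lt_card_iff_nontrivial]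
          have := Nat.le_of_dvd Nat.card_pos hpd
          omega
        rw [Monoid.exponent_eq_prime_iff hp]
        intro g hg
        refine orderOf_eq_prime ?_ hg
        by_contra hx
        obtain ⟨i, hi⟩ := exists_pow_order_sq hGp hx
        exact (c_ne_zero_iff _).mpr ⟨_, hi⟩ hsq
  · -- a `2`-group
    push Not at hodd
    have hm0 : Nat.card G ≠ 0 := Nat.card_pos.ne'
    have hmp : ∀ {d : ℕ}, d.Prime → d ∣ Nat.card G → d = 2 := by
      intro d hd hdm
      by_contra hne
      have := hd.two_le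
      exact hodd d hd (by omega) hdm
    have hmb := Nat.eq_prime_pow_of_unique_prime_dvd hm0 hmp
    have hGp : IsPGroup 2 G := IsPGroup.of_card hmb
    haveI : Fact (Nat.Prime 2) := ⟨Nat.prime_two⟩
    by_cases hc4 : c G 4 = 0
    · -- exponent two
      left
      have hall : ∀ x : G, x ^ 2 = 1 := by
        intro x
        by_contra hx
        obtain ⟨i, hi⟩ := exists_pow_order_sq hGp hx
        exact (c_ne_zero_iff 4).mpr ⟨_, by rw [hi]; norm_num⟩ hc4
      obtain ⟨g, hg⟩ := H.ex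
      have hg1 : g ≠ 1 := by
        rintro rfl
        rw [orderOf_one, c_one] at hg
        exact hn hg.symm
      have hgo : orderOf g = 2 := orderOf_eq_prime (hall g) hg1
      rw [hgo] at hg
      have hc : c G 2 ≠ 1 := by rw [hg]; exact hn
      have h3 : 3 ≤ Nat.card G := by
        have hc0 : c G 2 ≠ 0 := (c_ne_zero_iff 2).mpr ⟨g, hgo⟩
        have hL := L_eq (G := G) 2 {1, 2} (hD_p Nat.prime_two)
        rw [Finset.sum_pair (by norm_num), c_one] at hL
        have hle : Nat.card {g : G // g ^ 2 = 1} ≤ Nat.card G := Nat.card_le_card_of_injective _ Subtype.val_injective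
        omega
      refine ⟨2, Nat.prime_two, hGp, h3, ?_⟩
      haveI : Nontrivial G := ⟨⟨g, 1, hg1⟩⟩
      rw [Monoid.exponent_eq_prime_iff Nat.prime_two]
      intro x hx
      exact orderOf_eq_prime (hall x) hx
    · rcases H.two_group hGp hc4 with h1 | h1
      · right; left; exact h1
      · right; right; left; exact h1

end

end Cfsg.Agent.S3995
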