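import Cfsg.Statements.S3997
import Mathlib
import Cfsg.Agent.Lib.Nilpotent.Elements

set_option autoImplicit false
open Cfsg

namespace Cfsg.Agent.S3997

/-- An order-preserving bijection from equality of the order statistics. -/
theorem exists_orderOf_equiv {G H : Type*} [Group G] [Finite G] [Group H] [Finite H]
    (hT : ∀ m : ℕ, Nat.card {g : G // orderOf g = m} = Nat.card {h : H // orderOf h = m}) :
    ∃ φ : G ≃ H, ∀ g, orderOf (φ g) = orderOf g := by
  have e : ∀ m : ℕ, {g : G // orderOf g = m} ≃ {h : H // orderOf h = m} := fun m =>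
    Classical.choice (Finite.card_eq.1 (hT m))
  let φ : G ≃ H :=
    (Equiv.sigmaFiberEquiv (orderOf : G → ℕ)).symm.trans
      ((Equiv.sigmaCongrRight e).trans (Equiv.sigmaFiberEquiv (orderOf : H → ℕ)))
  refine ⟨φ, fun g => ?_⟩
  exact (e (orderOf g) ⟨g, rfl⟩).2

/-- Let G and H be finite groups with the same order type: for every m they have the same number of elements of order m. If G is nilpotent then so is H. -/
theorem result {G H : Type*} [Group G] [Finite G] [Group H] [Finite H] (hT : (∀ m : ℕ, Nat.card {g : G // orderOf g = m} = Nat.card {h : H // orderOf h = m})) (hG : Group.IsNilpotent G) :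
    Group.IsNilpotent H := by
  classical
  obtain ⟨φ, hφ⟩ := exists_orderOf_equiv hT
  have hcard : Nat.card G = Nat.card H := Nat.card_congr φ
  have htfae := Group.isNilpotent_of_finite_tfae (G := H)
  have hiff : Group.IsNilpotent H ↔ ∀ (p : ℕ) (_hp : Fact p.Prime) (P : Sylow p H), (↑P : Subgroup H).Normal :=
    htfae.out 0 3
  rw [hiff]
  intro p _ P
  -- a Sylow `p`-subgroup of `G`
  obtain ⟨Q⟩ : Nonempty (Sylow p G) := inferInstance
  have hPQ : Nat.card (P : Subgroup H) = Nat.card (Q : Subgroup G) := by
    rw [Sylow.card_eq_multiplicity, Sylow.card_eq_multiplicity, hcard]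
  -- `φ` carries `p`-elements into `p`-elements, and all the `p`-elements of `G` lie in `Q`
  have hQall : ∀ g : G, (∃ k : ℕ, g ^ p ^ k = 1) → g ∈ (Q : Subgroup G) := by
    rintro g ⟨k, hk⟩
    exact Cfsg.Agent.Lib.Nilpotent.Elements.mem_sylow_of_pow_eq_one Q hk
  -- all `p`-elements of `H` lie in `P`
  have hall : ∀ h : H, (∃ k : ℕ, h ^ p ^ k = 1) → h ∈ (P : Subgroup H) := by
    -- counting: the set `S` of `p`-elements maps to `Q` injectively via `φ.symm`
    let S : Set H := {h | ∃ k : ℕ, h ^ p ^ k = 1}
    have hPS : (P : Set H) ⊆ S := by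
      intro x hx
      exact Cfsg.Agent.Lib.Nilpotent.Elements.exists_pow_eq_one_of_mem P.2 hx
    have hSQ : ∀ s ∈ S, φ.symm s ∈ (Q : Subgroup G) := by
      intro s hs
      apply hQall
      rw [Cfsg.Agent.Lib.Nilpotent.Elements.exists_pow_eq_one_iff]
      have : orderOf (φ (φ.symm s)) = orderOf (φ.symm s) := hφ _
      rw [Equiv.apply_symm_apply] at this
      rw [← this]
      exact (Cfsg.Agent.Lib.Nilpotent.Elements.exists_pow_eq_one_iff s).1 hs
    have hcardS : Nat.card S ≤ Nat.card (P : Subgroup H) := by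
      rw [hPQ]
      refine Nat.card_le_card_of_injective (fun s : S => (⟨φ.symm s.1, hSQ s.1 s.2⟩ : (Q : Subgroup G))) ?_
      intro a b hab
      have := congrArg Subtype.val hab
      exact Subtype.ext (φ.symm.injective this)
    have heq : (P : Set H) = S := by
      apply Set.eq_of_subset_of_ncard_le hPS
      · have h1 : (P : Set H).ncard = Nat.card (P : Subgroup H) := (Nat.card_coe_set_eq _).symm
        rw [h1, ← Nat.card_coe_set_eq]
        exact hcardS
    intro h hh
    have : h ∈ S := hh
    rw [← heq] at this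
    exact this
  constructor
  intro x hx g
  apply hall
  obtain ⟨k, h2⟩ := Cfsg.Agent.Lib.Nilpotent.Elements.exists_pow_eq_one_of_mem P.2 hx
  refine ⟨k, ?_⟩
  rw [conj_pow, h2]
  simp

end Cfsg.Agent.S3997
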