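import Cfsg.Statements.S3998
import Mathlib
-- import your own Cfsg.Agent.* helpers here

set_option autoImplicit false
open Cfsg

namespace Cfsg.Agent.S3998

universe u v

/-- The elements of `G` whose order has only prime factors at least `t`. -/
def piEl (t : ℕ) (G : Type*) [Group G] : Set G :=
  {g | ∀ q : ℕ, q.Prime → q ∣ orderOf g → t ≤ q}

/-- The numerical property of the counts of `piEl`. -/
def HasCount (G : Type*) [Group G] : Prop :=
  ∀ t : ℕ, ∃ b : ℕ, Nat.card G = Nat.card (piEl t G) * b ∧
    (∀ q : ℕ, q.Prime → q ∣ Nat.card (piEl t G) → t ≤ q) ∧ (∀ q : ℕ, q.Prime → q ∣ b → q < t)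

/-- An order preserving bijection between groups with the same order type. -/
theorem exists_order_equiv {G : Type*} {H : Type*} [Group G] [Finite G] [Group H] [Finite H]
    (hT : ∀ m : ℕ, Nat.card {g : G // orderOf g = m} = Nat.card {h : H // orderOf h = m}) :
    ∃ f : G ≃ H, ∀ g, orderOf (f g) = orderOf g := by
  classical
  have he : ∀ m : ℕ, Nonempty ({g : G // orderOf g = m} ≃ {h : H // orderOf h = m}) :=
    fun m => ⟨(Finite.equivFin _).trans ((finCongr (hT m)).trans (Finite.equivFin _).symm)⟩
  let e := fun m => Classical.choice (he m)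
  let E : G ≃ H := (Equiv.sigmaFiberEquiv (orderOf : G → ℕ)).symm.trans
    ((Equiv.sigmaCongrRight e).trans (Equiv.sigmaFiberEquiv (orderOf : H → ℕ)))
  refine ⟨E, fun g => ?_⟩
  have h1 : E g = ((e (orderOf g)) ⟨g, rfl⟩).1 := rfl
  rw [h1]
  exact ((e (orderOf g)) ⟨g, rfl⟩).2

theorem hasCount_of_equiv {G : Type*} {H : Type*} [Group G] [Finite G] [Group H] [Finite H]
    (f : G ≃ H) (hf : ∀ g, orderOf (f g) = orderOf g) (hG : HasCount G) : HasCount H := by
  intro t
  have h1 : Nat.card (piEl t G) = Nat.card (piEl t H) := by
    refine Nat.card_congr (f.subtypeEquiv fun g => ?_)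
    simp only [piEl, Set.mem_ofPred_eq, hf]
  have h2 : Nat.card G = Nat.card H := Nat.card_congr f
  rw [← h1, ← h2]
  exact hG t

/-- Fibers of the quotient map: count in a preimage. -/
theorem card_preimage_mk {H : Type*} [Group H] [Finite H] (K : Subgroup H) [K.Normal]
    (s : Set (H ⧸ K)) :
    Nat.card {h : H // (h : H ⧸ K) ∈ s} = Nat.card K * Nat.card s := by
  classical
  have : Fintype (H ⧸ K) := Fintype.ofFinite _
  have : Fintype s := Fintype.ofFinite _
  have hfib : ∀ y : s, Nat.card {h : H // (h : H ⧸ K) = y.1} = Nat.card K := by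
    rintro ⟨y, hy⟩
    obtain ⟨x, rfl⟩ := QuotientGroup.mk_surjective y
    refine Nat.card_congr ⟨fun h => ⟨x⁻¹ * h.1, ?_⟩, fun k => ⟨x * k.1, ?_⟩, ?_, ?_⟩
    · exact QuotientGroup.eq.1 h.2.symm
    · exact (QuotientGroup.eq.2 (by simpa using k.2)).symm
    · rintro ⟨h, hh⟩; simp
    · rintro ⟨k, hk⟩; simp
  have e : {h : H // (h : H ⧸ K) ∈ s} ≃ Σ y : s, {h : H // (h : H ⧸ K) = y.1} :=
    { toFun := fun h => ⟨⟨(h.1 : H ⧸ K), h.2⟩, ⟨h.1, rfl⟩⟩
      invFun := fun p => ⟨p.2.1, by rw [p.2.2]; exact p.1.2⟩
      left_inv := fun h => rfl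
      right_inv := by
        rintro ⟨⟨y, hy⟩, ⟨h, hh⟩⟩
        dsimp only at hh
        subst hh
        rfl }
  rw [Nat.card_congr e, Nat.card_sigma, Finset.sum_congr rfl fun y _ => hfib y]
  simp [mul_comm, Nat.card_eq_fintype_card]

theorem piEl_mk {H : Type*} [Group H] [Finite H] (K : Subgroup H) [K.Normal] (t : ℕ) (x : H)
    (hx : x ∈ piEl t H) : (x : H ⧸ K) ∈ piEl t (H ⧸ K) := by
  intro q hq hd
  apply hx q hq
  exact hd.trans (orderOf_map_dvd (QuotientGroup.mk' K) x)

/-- If the kernel consists of `t`-elements then membership in `piEl` reflects along the quotient. -/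
theorem mem_piEl_of_mk {H : Type*} [Group H] [Finite H] (K : Subgroup H) [K.Normal] (t : ℕ)
    (hK : ∀ k ∈ K, k ∈ piEl t H) (x : H) (hx : (x : H ⧸ K) ∈ piEl t (H ⧸ K)) : x ∈ piEl t H := by
  intro r hr hd
  set m := orderOf (x : H ⧸ K) with hm
  have h1 : x ^ m ∈ K := by
    rw [← QuotientGroup.eq_one_iff, QuotientGroup.mk_pow, hm, pow_orderOf_eq_one]
  have h2 : orderOf x ∣ m * orderOf (x ^ m) := by
    apply orderOf_dvd_of_pow_eq_one
    rw [pow_mul, pow_orderOf_eq_one]
  rcases (Nat.Prime.dvd_mul hr).1 (hd.trans h2) with h3 | h3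
  · exact hx r hr h3
  · exact hK _ h1 r hr h3

/-- The centralizing property: a `t`-element centralizes a normal subgroup of prime order `q < t`. -/
theorem commute_of_prime_lt {G : Type*} [Group G] [Finite G] (N : Subgroup G) [N.Normal]
    (q t : ℕ) (hq : q.Prime) (hN : Nat.card N = q) (hqt : q < t) (x : G) (hx : x ∈ piEl t G)
    (n : G) (hn : n ∈ N) : x * n * x⁻¹ = n := by
  have : Fact q.Prime := ⟨hq⟩
  have : IsCyclic N := isCyclic_of_prime_card hN
  let φ : G →* MulAut N := MulAut.conjNormal
  have h1 : orderOf (φ x) ∣ orderOf x := orderOf_map_dvd φ x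
  have h2 : orderOf (φ x) ∣ q - 1 := by
    have := orderOf_dvd_natCard (φ x)
    rwa [IsCyclic.card_mulAut, hN, Nat.totient_prime hq] at this
  have hcop : Nat.Coprime (orderOf x) (q - 1) := by
    apply Nat.coprime_of_dvd
    intro r hr hr1 hr2
    have h3 := hx r hr hr1
    have h4 : r ≤ q - 1 := Nat.le_of_dvd (by have := hq.two_le; omega) hr2
    omega
  have h3 : orderOf (φ x) = 1 := Nat.eq_one_of_dvd_coprimes hcop h1 h2
  have h4 : φ x = 1 := orderOf_eq_one_iff.1 h3
  have h5 : (φ x) ⟨n, hn⟩ = ⟨n, hn⟩ := by rw [h4]; rfl
  have h6 := congrArg Subtype.val h5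
  simpa [φ, MulAut.conjNormal_apply] using h6

/-- A nontrivial finite supersolvable group has a normal subgroup of prime order. -/
theorem exists_normal_prime {G : Type*} [Group G] [Finite G] [Nontrivial G]
    (hG : IsSupersolvable G) :
    ∃ (N : Subgroup G) (q : ℕ), N.Normal ∧ q.Prime ∧ Nat.card N = q := by
  obtain ⟨n, H, h0, hlast, hnorm, hstep⟩ := hG
  have hex : ∃ i : Fin n, H i.castSucc = ⊥ ∧ H i.succ ≠ ⊥ := by
    by_contra hcon
    push Not at hcon
    have hall : ∀ j : Fin (n + 1), H j = ⊥ := by
      intro j
      induction j using Fin.induction with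
      | zero => exact h0
      | succ i ih => exact hcon i ih
    have := hall (Fin.last n)
    rw [hlast] at this
    exact top_ne_bot this
  obtain ⟨i, hi0, hi1⟩ := hex
  obtain ⟨g, hg⟩ := hstep i
  rw [hi0, bot_sup_eq] at hg
  have hgne : g ≠ 1 := by
    rintro rfl
    apply hi1
    rw [hg]; simp
  have hord : orderOf g ≠ 1 := by
    rwa [Ne, orderOf_eq_one_iff]
  obtain ⟨q, hq, hqd⟩ := Nat.exists_prime_and_dvd hord
  have hgpos : orderOf g ≠ 0 := (orderOf_pos g).ne'
  set y := g ^ (orderOf g / q) with hy
  have hyord : orderOf y = q := orderOf_pow_orderOf_div hgpos hqd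
  refine ⟨Subgroup.zpowers y, q, ?_, hq, by rw [Nat.card_zpowers, hyord]⟩
  have hnormg := hnorm i.succ
  rw [hg] at hnormg
  constructor
  intro n' hn' x
  obtain ⟨k, rfl⟩ := Subgroup.mem_zpowers_iff.1 hn'
  have h1 : x * g * x⁻¹ ∈ Subgroup.zpowers g := hnormg.conj_mem g (Subgroup.mem_zpowers g) x
  obtain ⟨e, he⟩ := Subgroup.mem_zpowers_iff.1 h1
  have h2 : x * y * x⁻¹ = y ^ e := by
    rw [hy, ← conj_pow, ← he, ← zpow_natCast, ← zpow_natCast, ← zpow_mul, ← zpow_mul, mul_comm]
  rw [← conj_zpow, h2, ← zpow_mul]
  exact Subgroup.mem_zpowers_iff.2 ⟨_, rfl⟩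

/-- Quotients of supersolvable groups are supersolvable. -/
theorem isSupersolvable_quotient {G : Type*} [Group G] (N : Subgroup G) [N.Normal]
    (hG : IsSupersolvable G) : IsSupersolvable (G ⧸ N) := by
  obtain ⟨n, H, h0, hlast, hnorm, hstep⟩ := hG
  refine ⟨n, fun i => (H i).map (QuotientGroup.mk' N), ?_, ?_, ?_, ?_⟩
  · simp [h0]
  · simp only [hlast]
    rw [← MonoidHom.range_eq_map, MonoidHom.range_eq_top]
    exact QuotientGroup.mk'_surjective N
  · intro i
    have := hnorm i
    exact Subgroup.Normal.map (hnorm i) _ (QuotientGroup.mk'_surjective N)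
  · intro i
    obtain ⟨g, hg⟩ := hstep i
    refine ⟨QuotientGroup.mk' N g, ?_⟩
    simp only [hg, Subgroup.map_sup, MonoidHom.map_zpowers]

/-- Supersolvable groups have the counting property. -/
theorem hasCount_of_supersolvable : ∀ (d : ℕ) (G : Type u) [Group G] [Finite G],
    Nat.card G = d → IsSupersolvable G → HasCount G := by
  intro d
  induction d using Nat.strong_induction_on with
  | _ d ih =>
    intro G _ _ hd hG
    rcases subsingleton_or_nontrivial G with hsub | hnt
    · intro t
      refine ⟨1, ?_, ?_, ?_⟩
      · have h1 : (piEl t G) = Set.univ := by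
          ext g
          simp only [piEl, Set.mem_ofPred_eq, Set.mem_univ, iff_true]
          intro q hq hdv
          have : orderOf g = 1 := orderOf_eq_one_iff.2 (Subsingleton.elim _ _)
          rw [this] at hdv
          exact absurd (Nat.dvd_one.1 hdv) hq.one_lt.ne'
        rw [h1, Nat.card_coe_set_eq, Set.ncard_univ, mul_one]
      · intro q hq hdv
        have h1 : Nat.card (piEl t G) = 1 := by
          have : Subsingleton (piEl t G) := inferInstance
          have hne : Nonempty (piEl t G) := by
            refine ⟨⟨1, ?_⟩⟩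
            intro q hq hdv
            rw [orderOf_one] at hdv
            exact absurd (Nat.dvd_one.1 hdv) hq.one_lt.ne'
          exact Nat.card_unique
        rw [h1] at hdv
        exact absurd (Nat.dvd_one.1 hdv) hq.one_lt.ne'
      · intro q hq hdv
        exact absurd (Nat.dvd_one.1 hdv) hq.one_lt.ne'
    · obtain ⟨N, q, hNn, hq, hNq⟩ := exists_normal_prime hG
      have := hNn
      have hcardG : Nat.card G = q * Nat.card (G ⧸ N) := by
        rw [← hNq, mul_comm]
        exact Subgroup.card_eq_card_quotient_mul_card_subgroup N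
      have hlt : Nat.card (G ⧸ N) < d := by
        rw [← hd, hcardG]
        have := hq.two_le
        have hpos : 0 < Nat.card (G ⧸ N) := Nat.card_pos
        nlinarith
      have hQ : HasCount (G ⧸ N) := ih _ hlt (G ⧸ N) rfl (isSupersolvable_quotient N hG)
      intro t
      obtain ⟨b, hb1, hb2, hb3⟩ := hQ t
      have hNexp : ∀ n ∈ N, n ^ q = 1 := by
        intro n hn
        have h1 : (⟨n, hn⟩ : N) ^ Nat.card N = 1 := pow_card_eq_one'
        rw [hNq] at h1
        exact congrArg Subtype.val h1
      by_cases hqt : t ≤ q
      · -- the prime of the kernel belongs to the set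
        have hK : ∀ k ∈ N, k ∈ piEl t G := by
          intro k hk r hr hdv
          have h1 : orderOf k ∣ q := orderOf_dvd_of_pow_eq_one (hNexp k hk)
          have h2 := (Nat.prime_dvd_prime_iff_eq hr hq).1 (hdv.trans h1)
          omega
        have hiff : ∀ x : G, x ∈ piEl t G ↔ (x : G ⧸ N) ∈ piEl t (G ⧸ N) :=
          fun x => ⟨piEl_mk N t x, mem_piEl_of_mk N t hK x⟩
        have hcount : Nat.card (piEl t G) = q * Nat.card (piEl t (G ⧸ N)) := by
          rw [← hNq, ← card_preimage_mk N]
          exact Nat.card_congr (Equiv.subtypeEquivRight hiff)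
        refine ⟨b, ?_, ?_, hb3⟩
        · rw [hcount, hcardG, hb1, mul_assoc]
        · intro r hr hdv
          rw [hcount] at hdv
          rcases (Nat.Prime.dvd_mul hr).1 hdv with h1 | h1
          · have := (Nat.prime_dvd_prime_iff_eq hr hq).1 h1
            omega
          · exact hb2 r hr h1
      · push Not at hqt
        -- bijection between the t-elements
        have hbij : Function.Bijective (fun x : piEl t G => (⟨(x.1 : G ⧸ N), piEl_mk N t x.1 x.2⟩ :
            piEl t (G ⧸ N))) := by
          constructor
          · rintro ⟨x, hx⟩ ⟨x', hx'⟩ hxx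
            have h1 : (x : G ⧸ N) = x' := congrArg Subtype.val hxx
            have h2 : x⁻¹ * x' ∈ N := QuotientGroup.eq.1 h1
            set n := x⁻¹ * x' with hn
            have h3 : x * n * x⁻¹ = n := commute_of_prime_lt N q t hq hNq hqt x hx n h2
            have hcomm : Commute x n := mul_inv_eq_iff_eq_mul.1 h3
            have hx'' : x' = x * n := by rw [hn]; group
            set M := orderOf x * orderOf x' with hM
            have h4 : n ^ M = 1 := by
              have e1 : x' ^ M = 1 := by
                rw [hM, mul_comm, pow_mul, pow_orderOf_eq_one, one_pow]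
              have e2 : x ^ M = 1 := by
                rw [hM, pow_mul, pow_orderOf_eq_one, one_pow]
              rw [hx'', hcomm.mul_pow, e2, one_mul] at e1
              exact e1
            have hcop : Nat.Coprime M q := by
              rw [Nat.coprime_comm, Nat.Prime.coprime_iff_not_dvd hq]
              intro hdvd
              rcases (Nat.Prime.dvd_mul hq).1 hdvd with h5 | h5
              · have := hx q hq h5; omega
              · have := hx' q hq h5; omega
            have h6 : n = 1 := by
              have h7 : orderOf n ∣ M := orderOf_dvd_of_pow_eq_one h4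
              have h8 : orderOf n ∣ q := orderOf_dvd_of_pow_eq_one (hNexp n h2)
              have h9 := Nat.eq_one_of_dvd_coprimes hcop h7 h8
              exact orderOf_eq_one_iff.1 h9
            apply Subtype.ext
            show x = x'
            rw [hx'', h6, mul_one]
          · rintro ⟨y, hy⟩
            obtain ⟨g, rfl⟩ := QuotientGroup.mk_surjective y
            set m := orderOf (g : G ⧸ N) with hm
            have hcop : Nat.Coprime m q := by
              rw [Nat.coprime_comm, Nat.Prime.coprime_iff_not_dvd hq]
              intro h5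
              have := hy q hq h5
              omega
            -- pick `c ≡ 1 mod m`, `c ≡ 0 mod q`
            obtain ⟨c, hc1, hc2⟩ := Nat.chineseRemainder hcop 1 0
            have hgm : g ^ m ∈ N := by
              rw [← QuotientGroup.eq_one_iff, QuotientGroup.mk_pow, hm, pow_orderOf_eq_one]
            have hgc : (g ^ c) ^ m = 1 := by
              rw [← pow_mul, mul_comm, pow_mul]
              have h1 : q ∣ c := (Nat.modEq_zero_iff_dvd).1 hc2
              obtain ⟨c', rfl⟩ := h1
              rw [pow_mul, hNexp _ hgm, one_pow]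
            have hmem : g ^ c ∈ piEl t G := by
              intro r hr hdv
              exact hy r hr (hdv.trans (orderOf_dvd_of_pow_eq_one hgc))
            refine ⟨⟨g ^ c, hmem⟩, ?_⟩
            apply Subtype.ext
            show ((g ^ c : G) : G ⧸ N) = g
            rw [QuotientGroup.mk_pow]
            have h1 : (g : G ⧸ N) ^ c = (g : G ⧸ N) ^ 1 := by
              have := hc1
              exact pow_eq_pow_iff_modEq.2 (by rw [← hm]; exact hc1)
            rw [h1, pow_one]
        have hcount : Nat.card (piEl t G) = Nat.card (piEl t (G ⧸ N)) :=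
          Nat.card_congr (Equiv.ofBijective _ hbij)
        refine ⟨b * q, ?_, ?_, ?_⟩
        · rw [hcount, hcardG, hb1]; ring
        · rw [hcount]; exact hb2
        · intro r hr hdv
          rcases (Nat.Prime.dvd_mul hr).1 hdv with h1 | h1
          · exact hb3 r hr h1
          · have := (Nat.prime_dvd_prime_iff_eq hr hq).1 h1
            omega

/-- The counting property forces solvability. -/
theorem isSolvable_of_hasCount : ∀ (d : ℕ) (H : Type v) [Group H] [Finite H],
    Nat.card H = d → HasCount H → Group.IsSolvable H := by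
  intro d
  induction d using Nat.strong_induction_on with
  | _ d ih =>
    intro H _ _ hd hH
    rcases subsingleton_or_nontrivial H with hsub | hnt
    · infer_instance
    · have hcardpos : 0 < Nat.card H := Nat.card_pos
      have hne : (Nat.card H).primeFactors.Nonempty :=
        Nat.nonempty_primeFactors.2 Finite.one_lt_card
      obtain ⟨p, hpmem, hpmax⟩ := Finset.exists_max_image _ id hne
      have hp : p.Prime := Nat.prime_of_mem_primeFactors hpmem
      have hpd : p ∣ Nat.card H := Nat.dvd_of_mem_primeFactors hpmem
      have hmax : ∀ r : ℕ, r.Prime → r ∣ Nat.card H → r ≤ p := fun r hr hrd =>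
        hpmax r (Nat.mem_primeFactors.2 ⟨hr, hrd, hcardpos.ne'⟩)
      have : Fact p.Prime := ⟨hp⟩
      let P : Sylow p H := default
      obtain ⟨b, hb1, hb2, hb3⟩ := hH p
      set s := Nat.card (piEl p H) with hs
      have hspos : s ≠ 0 := by
        intro h0
        rw [h0, zero_mul] at hb1
        omega
      have hsdvd : s ∣ Nat.card H := ⟨b, hb1⟩
      have hspow : s = p ^ s.primeFactorsList.length := by
        apply Nat.eq_prime_pow_of_unique_prime_dvd hspos
        intro r hr hrd
        have h1 := hb2 r hr hrd
        have h2 := hmax r hr (hrd.trans hsdvd)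
        omega
      have hpb : ¬ p ∣ b := fun h => absurd (hb3 p hp h) (lt_irrefl p)
      have hfac : (Nat.card H).factorization p = s.primeFactorsList.length := by
        have hbne : b ≠ 0 := by
          rintro rfl
          rw [mul_zero] at hb1
          omega
        have h1 : Nat.card H = p ^ s.primeFactorsList.length * b := by rw [← hspow]; exact hb1
        rw [h1, Nat.factorization_mul (pow_ne_zero _ hp.ne_zero) hbne, Finsupp.add_apply,
          Nat.Prime.factorization_pow hp, Finsupp.single_eq_same,
          Nat.factorization_eq_zero_of_not_dvd hpb, add_zero]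
      have hcardP : Nat.card P = s := by
        rw [Sylow.card_eq_multiplicity, hfac, ← hspow]
      have hPS' : (P : Set H) ⊆ piEl p H := by
        intro h hh r hr hrd
        obtain ⟨k, hk⟩ := (IsPGroup.iff_orderOf.1 P.isPGroup') ⟨h, hh⟩
        have h1 : orderOf h = p ^ k := by
          rw [← hk]
          exact (Subgroup.orderOf_mk h hh).symm
        rw [h1] at hrd
        exact ((Nat.prime_dvd_prime_iff_eq hr hp).1 (hr.dvd_of_dvd_pow hrd)).symm.le
      have hPS : (P : Set H) = piEl p H := by
        apply Set.eq_of_subset_of_ncard_le hPS' _ (Set.toFinite _)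
        rw [← Nat.card_coe_set_eq, ← Nat.card_coe_set_eq]
        exact le_of_eq hcardP.symm
      have hmemP : ∀ h, h ∈ (P : Subgroup H) ↔ h ∈ piEl p H := fun h => by
        rw [← hPS]; rfl
      set K : Subgroup H := (P : Subgroup H) with hK
      have hKn : K.Normal := by
        constructor
        intro x hx g
        rw [hmemP] at hx ⊢
        intro r hr hrd
        apply hx r hr
        have : orderOf (g * x * g⁻¹) = orderOf x := by
          have := MulEquiv.orderOf_eq (MulAut.conj g) x
          simpa [MulAut.conj_apply] using this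
        rwa [this] at hrd
      have hcardH : Nat.card H = Nat.card (H ⧸ K) * Nat.card K :=
        Subgroup.card_eq_card_quotient_mul_card_subgroup K
      have hcardK : Nat.card K = s := hcardP
      have hKpos : 0 < Nat.card K := Nat.card_pos
      have hs1 : p ∣ s := by
        rw [hb1] at hpd
        rcases (Nat.Prime.dvd_mul hp).1 hpd with h1 | h1
        · exact h1
        · exact absurd h1 hpb
      have hlt : Nat.card (H ⧸ K) < d := by
        rw [← hd, hcardH, hcardK]
        have h1 : 2 ≤ s := le_trans hp.two_le (Nat.le_of_dvd (Nat.pos_of_ne_zero hspos) hs1)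
        have hpos : 0 < Nat.card (H ⧸ K) := Nat.card_pos
        nlinarith
      have hQ : HasCount (H ⧸ K) := by
        intro t
        by_cases htp : t ≤ p
        · have hKel : ∀ k ∈ K, k ∈ piEl t H := by
            intro k hk r hr hrd
            exact le_trans htp (((hmemP k).1 hk) r hr hrd)
          have hiff : ∀ x : H, x ∈ piEl t H ↔ (x : H ⧸ K) ∈ piEl t (H ⧸ K) :=
            fun x => ⟨piEl_mk K t x, mem_piEl_of_mk K t hKel x⟩
          have hcount : Nat.card (piEl t H) = Nat.card K * Nat.card (piEl t (H ⧸ K)) := by
            rw [← card_preimage_mk K]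
            exact Nat.card_congr (Equiv.subtypeEquivRight hiff)
          obtain ⟨b', hb1', hb2', hb3'⟩ := hH t
          refine ⟨b', ?_, ?_, hb3'⟩
          · rw [hcount, mul_assoc, hcardH, mul_comm] at hb1'
            exact Nat.eq_of_mul_eq_mul_left hKpos hb1'
          · intro r hr hrd
            apply hb2' r hr
            rw [hcount]
            exact Dvd.dvd.mul_left hrd _
        · push Not at htp
          have hQdvd : Nat.card (H ⧸ K) ∣ Nat.card H := ⟨_, hcardH⟩
          have h1 : Nat.card (piEl t (H ⧸ K)) = 1 := by
            have hone : ∀ y : piEl t (H ⧸ K), y = ⟨1, by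
                intro q hq hdv
                rw [orderOf_one] at hdv
                exact absurd (Nat.dvd_one.1 hdv) hq.one_lt.ne'⟩ := by
              rintro ⟨y, hy⟩
              apply Subtype.ext
              show y = 1
              rw [← orderOf_eq_one_iff]
              by_contra hy1
              obtain ⟨r, hr, hrd⟩ := Nat.exists_prime_and_dvd hy1
              have h2 := hy r hr hrd
              have h3 : r ≤ p := hmax r hr
                (hrd.trans ((orderOf_dvd_natCard y).trans hQdvd))
              omega
            have : Unique (piEl t (H ⧸ K)) := ⟨⟨_⟩, hone⟩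
            exact Nat.card_unique
          refine ⟨Nat.card (H ⧸ K), by rw [h1, one_mul], ?_, ?_⟩
          · intro q hq hdv
            rw [h1] at hdv
            exact absurd (Nat.dvd_one.1 hdv) hq.one_lt.ne'
          · intro r hr hrd
            have h3 := hmax r hr (hrd.trans hQdvd)
            omega
      have hsolvQ : Group.IsSolvable (H ⧸ K) := ih _ hlt (H ⧸ K) rfl hQ
      have hsolvK : Group.IsSolvable K := by
        have : Group.IsNilpotent K := P.isPGroup'.isNilpotent
        infer_instance
      apply Group.isSolvable_of_ker_le_range K.subtype (QuotientGroup.mk' K)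
      rw [QuotientGroup.ker_mk', Subgroup.range_subtype]

/-- Let G and H be finite groups with the same order type (for every m the same number of elements of order m). If G is supersolvable then H is solvable. -/
theorem result {G H : Type*} [Group G] [Finite G] [Group H] [Finite H] (hT : (∀ m : ℕ, Nat.card {g : G // orderOf g = m} = Nat.card {h : H // orderOf h = m})) (hG : Cfsg.IsSupersolvable G) :
    Group.IsSolvable H := by
  obtain ⟨f, hf⟩ := exists_order_equiv hT
  exact isSolvable_of_hasCount _ H rfl
    (hasCount_of_equiv f hf (hasCount_of_supersolvable _ G rfl hG))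

end Cfsg.Agent.S3998
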