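import Cfsg.Statements.S4002
import Mathlib
import Cfsg.Agent.Lib.Solvable.Hall
import Cfsg.Agent.Lib.Frobenius.FixedPoint

set_option autoImplicit false

open Cfsg

namespace Cfsg.Agent.S4002

open Cfsg.Agent.Lib.Solvable.Hall
open scoped Pointwise

/-- Commuting elements with coprime prime divisors of their orders give an element of order `a*b`. -/
theorem exists_orderOf_mul {G : Type*} [Group G] [Finite G] {a b : ℕ} (ha : a.Prime) (hb : b.Prime)
    (hab : a ≠ b) {x y : G} (hxy : x * y = y * x) (hx : a ∣ orderOf x) (hy : b ∣ orderOf y) :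
    ∃ z : G, orderOf z = a * b := by
  have hx0 : orderOf x ≠ 0 := (orderOf_pos x).ne'
  have hy0 : orderOf y ≠ 0 := (orderOf_pos y).ne'
  obtain ⟨c, hc⟩ := hx
  obtain ⟨d, hd⟩ := hy
  have hc0 : c ≠ 0 := by rintro rfl; rw [mul_zero] at hc; exact hx0 hc
  have hd0 : d ≠ 0 := by rintro rfl; rw [mul_zero] at hd; exact hy0 hd
  have h1 : orderOf (x ^ c) = a := by
    rw [orderOf_pow_of_dvd hc0 ⟨a, by rw [hc, mul_comm]⟩, hc]
    exact Nat.mul_div_cancel _ (Nat.pos_of_ne_zero hc0)
  have h2 : orderOf (y ^ d) = b := by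
    rw [orderOf_pow_of_dvd hd0 ⟨b, by rw [hd, mul_comm]⟩, hd]
    exact Nat.mul_div_cancel _ (Nat.pos_of_ne_zero hd0)
  have hcomm : Commute (x ^ c) (y ^ d) := Commute.pow_pow hxy c d
  refine ⟨x ^ c * y ^ d, ?_⟩
  rw [hcomm.orderOf_mul_eq_mul_orderOf_of_coprime (by rw [h1, h2]; exact (Nat.coprime_primes ha hb).2 hab), h1, h2]

/-- The Frobenius step. -/
theorem core_step {K V : Type*} [Group K] [Finite K] [CommGroup V] (φ : K →* MulAut V)
    {p l s : ℕ} (hp : p.Prime) (hl : l.Prime) (hs : s.Prime) (hls : l ≠ s)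
    (hsK : s ∣ Nat.card K) (hno : ∀ x : K, orderOf x ≠ l * s)
    (hfp : ∀ x : K, x ≠ 1 → ∀ v : V, φ x v = v → v = 1)
    (hV : IsPGroup p V) (hpK : ¬ p ∣ Nat.card K) (M : Subgroup K) (hMn : M.Normal) (hMb : M ≠ ⊥)
    (hM : IsPGroup l M) (v : V) : v = 1 := by
  classical
  haveI := Fact.mk hs
  obtain ⟨y, hy⟩ := exists_prime_orderOf_dvd_card' s hsK
  have hy1 : y ≠ 1 := by
    rintro rfl
    rw [orderOf_one] at hy
    exact hs.one_lt.ne hy
  obtain ⟨u, huM, hu1⟩ := M.bot_or_exists_ne_one.resolve_left hMb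
  let F : Subgroup K := M ⊔ Subgroup.zpowers y
  have hMF : M ≤ F := le_sup_left
  have hyF : Subgroup.zpowers y ≤ F := le_sup_right
  let act : F →* MulAut V := φ.comp F.subtype
  letI : MulDistribMulAction F V := MulDistribMulAction.compHom V act
  have hsmul : ∀ (a : F) (w : V), a • w = φ (a : K) w := fun _ _ => rfl
  -- elements of `M` and `⟨y⟩` commuting
  have hcomm : ∀ h ∈ Subgroup.zpowers y, h ≠ 1 → ∀ k ∈ M, h * k = k * h → k = 1 := by
    intro h hh hh1 k hk hhk
    by_contra hk1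
    have h1 : s ∣ orderOf h := by
      have : orderOf h ∣ s := by
        obtain ⟨i, rfl⟩ := hh
        rw [← hy]
        exact orderOf_dvd_of_pow_eq_one (by rw [← zpow_natCast, ← zpow_mul, mul_comm, zpow_mul, zpow_natCast, pow_orderOf_eq_one, one_zpow])
      rcases (Nat.dvd_prime hs).1 this with h2 | h2
      · exact absurd (orderOf_eq_one_iff.1 h2) hh1
      · rw [h2]
    have h2 : l ∣ orderOf k := by
      obtain ⟨e, he⟩ := hM ⟨k, hk⟩
      have he' : k ^ l ^ e = 1 := by simpa [Subtype.ext_iff] using he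
      obtain ⟨f, -, hf⟩ := (Nat.dvd_prime_pow hl).1 (orderOf_dvd_of_pow_eq_one he')
      rw [hf]
      have : f ≠ 0 := by
        rintro rfl
        rw [pow_zero] at hf
        exact hk1 (orderOf_eq_one_iff.1 hf)
      exact dvd_pow_self l this
    obtain ⟨z, hz⟩ := exists_orderOf_mul hs hl hls.symm hhk h1 h2
    exact hno z (by rw [hz, mul_comm])
  have hdisj : ∀ x ∈ M, x ∈ Subgroup.zpowers y → x = 1 := by
    intro x hx hxy
    by_contra hx1
    have := hcomm x hxy hx1 x hx rfl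
    exact hx1 this
  haveI hNn : (M.subgroupOf F).Normal := by infer_instance
  have hc : (M.subgroupOf F).IsComplement' ((Subgroup.zpowers y).subgroupOf F) := by
    apply Subgroup.isComplement'_of_disjoint_and_mul_eq_univ
    · rw [Subgroup.disjoint_def]
      intro x hx hx'
      rw [Subgroup.mem_subgroupOf] at hx hx'
      exact Subtype.ext (hdisj _ hx hx')
    · rw [Set.eq_univ_iff_forall]
      rintro ⟨x, hx⟩
      have hx2 : x ∈ (M : Set K) * (Subgroup.zpowers y : Set K) := by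
        rw [← Subgroup.normal_mul]
        exact hx
      obtain ⟨a, ha, b, hb, rfl⟩ := hx2
      refine ⟨⟨a, hMF ha⟩, ?_, ⟨b, hyF hb⟩, ?_, rfl⟩
      · simpa [Subgroup.mem_subgroupOf] using ha
      · simpa [Subgroup.mem_subgroupOf] using hb
  have hmain := Cfsg.Agent.Lib.Frobenius.FixedPoint.pow_card_kernel_eq_one (F := F) (V := V) hc
    (by
      intro h hh hh1 k hk hhk
      rw [Subgroup.mem_subgroupOf] at hh hk
      have := hcomm _ hh (fun h0 => hh1 (Subtype.ext h0)) _ hk (congrArg Subtype.val hhk)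
      exact Subtype.ext this)
    (by
      intro w hw
      refine hfp u hu1 w ?_
      have := hw ⟨u, hMF huM⟩ (by rw [Subgroup.mem_subgroupOf]; exact huM)
      exact this)
    (by
      intro w hw
      refine hfp y hy1 w ?_
      have := hw ⟨y, hyF (Subgroup.mem_zpowers y)⟩ (by rw [Subgroup.mem_subgroupOf]; exact Subgroup.mem_zpowers y)
      exact this) v
  -- `|M|` is coprime to `p`
  have hcardeq : Nat.card (M.subgroupOf F) = Nat.card M :=
    Nat.card_congr (Subgroup.subgroupOfEquivOfLe hMF).toEquiv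
  rw [hcardeq] at hmain
  have hdvd : Nat.card M ∣ Nat.card K := Subgroup.card_subgroup_dvd_card M
  have hcop : (Nat.card M).Coprime p := by
    refine Nat.Coprime.symm ((Nat.Prime.coprime_iff_not_dvd hp).2 ?_)
    exact fun h => hpK (h.trans hdvd)
  obtain ⟨e, he⟩ := hV v
  have h1 : orderOf v ∣ Nat.card M := orderOf_dvd_of_pow_eq_one hmain
  have h2 : orderOf v ∣ p ^ e := orderOf_dvd_of_pow_eq_one he
  have h3 : orderOf v = 1 := Nat.eq_one_of_dvd_coprimes (Nat.Coprime.pow_right e hcop) h1 h2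
  exact orderOf_eq_one_iff.1 h3


/-- A solvable `{q,r}`-group without elements of order `qr` cannot act fixed-point-freely on a
nontrivial abelian `p`-group. -/
theorem core_two {K V : Type*} [Group K] [Finite K] [Group.IsSolvable K] [CommGroup V]
    (φ : K →* MulAut V) {p q r : ℕ} (hp : p.Prime) (hq : q.Prime) (hr : r.Prime) (hqr : q ≠ r)
    (hqK : q ∣ Nat.card K) (hrK : r ∣ Nat.card K)
    (hprime : ∀ l : ℕ, l.Prime → l ∣ Nat.card K → l = q ∨ l = r)
    (hno : ∀ x : K, orderOf x ≠ q * r)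
    (hfp : ∀ x : K, x ≠ 1 → ∀ v : V, φ x v = v → v = 1)
    (hV : IsPGroup p V) (hpK : ¬ p ∣ Nat.card K) (v : V) : v = 1 := by
  haveI : Nontrivial K := by
    haveI := Fact.mk hq
    obtain ⟨y, hy⟩ := exists_prime_orderOf_dvd_card' q hqK
    refine ⟨y, 1, ?_⟩
    rintro rfl
    rw [orderOf_one] at hy
    exact hq.one_lt.ne hy
  obtain ⟨l, M, hl, hMn, hMb, hM, -, -⟩ := exists_normal_abelian_pSubgroup K
  have hlK : l ∣ Nat.card K := by
    obtain ⟨u, huM, hu1⟩ := M.bot_or_exists_ne_one.resolve_left hMb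
    haveI := Fact.mk hl
    have h1 : Nat.card M ≠ 1 := by
      intro h
      have := Subgroup.card_eq_one.1 h
      exact hMb this
    obtain ⟨e, he⟩ := (IsPGroup.iff_card (p := l)).1 hM
    have : l ∣ Nat.card M := by
      rw [he]
      refine dvd_pow_self l ?_
      rintro rfl
      rw [pow_zero] at he
      exact h1 he
    exact this.trans (Subgroup.card_subgroup_dvd_card M)
  rcases hprime l hl hlK with rfl | rfl
  · exact core_step φ hp hl hr hqr hrK hno hfp hV hpK M hMn hMb hM v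
  · exact core_step φ hp hl hq hqr.symm hqK (fun x => by rw [mul_comm]; exact hno x) hfp hV hpK M hMn hMb hM v

/-- Element-order lemma in a solvable `{p,q,r}`-group with a normal `p`-subgroup. -/
theorem three_primes_aux {H : Type*} [Group H] [Finite H] [Group.IsSolvable H]
    {p q r : ℕ} (hp : p.Prime) (hq : q.Prime) (hr : r.Prime) (hpq : p ≠ q) (hpr : p ≠ r) (hqr : q ≠ r)
    {a b c : ℕ} (hb : b ≠ 0) (hc : c ≠ 0) (hH : Nat.card H = p ^ a * (q ^ b * r ^ c))
    (N : Subgroup H) (hNn : N.Normal) (hNb : N ≠ ⊥) (hN : IsPGroup p N) (hNc : IsMulCommutative N) :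
    ∃ x : H, orderOf x = p * q ∨ orderOf x = p * r ∨ orderOf x = q * r := by
  classical
  by_contra hcon
  push Not at hcon
  have hcopA : (q ^ b * r ^ c).Coprime (p ^ a) := by
    refine Nat.Coprime.pow_right _ ?_
    refine Nat.Coprime.mul_left ?_ ?_
    · exact Nat.Coprime.pow_left _ ((Nat.coprime_primes hq hp).2 hpq.symm)
    · exact Nat.Coprime.pow_left _ ((Nat.coprime_primes hr hp).2 hpr.symm)
  obtain ⟨K, hK⟩ := exists_card_eq (G := H) (q ^ b * r ^ c) (p ^ a) (by rw [hH, mul_comm]) hcopA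
  letI : CommGroup N := { (inferInstance : Group N) with mul_comm := fun x y => hNc.is_comm.comm x y }
  let φ : K →* MulAut N := (MulAut.conjNormal (G := H) (H := N)).comp K.subtype
  have hφ : ∀ (x : K) (v : N), ((φ x v : N) : H) = (x : H) * (v : H) * (x : H)⁻¹ := fun _ _ => rfl
  have hfp : ∀ x : K, x ≠ 1 → ∀ v : N, φ x v = v → v = 1 := by
    intro x hx v hv
    by_contra hv1
    have hv' : (x : H) * (v : H) = (v : H) * (x : H) := by
      have := congrArg Subtype.val hv
      rw [hφ] at this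
      calc (x : H) * (v : H) = ((x : H) * (v : H) * (x : H)⁻¹) * (x : H) := by group
        _ = (v : H) * (x : H) := by rw [this]
    have hvp : p ∣ orderOf (v : H) := by
      obtain ⟨e, he⟩ := hN v
      have he' : (v : H) ^ p ^ e = 1 := by simpa using congrArg Subtype.val he
      obtain ⟨f, -, hf⟩ := (Nat.dvd_prime_pow hp).1 (orderOf_dvd_of_pow_eq_one he')
      rw [hf]
      refine dvd_pow_self p ?_
      rintro rfl
      rw [pow_zero] at hf
      exact hv1 (Subtype.ext (orderOf_eq_one_iff.1 hf))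
    have hx1 : orderOf (x : H) ≠ 1 := fun h => hx (Subtype.ext (orderOf_eq_one_iff.1 h))
    obtain ⟨l, hl, hlx⟩ := Nat.exists_prime_and_dvd hx1
    have hlK : l ∣ q ^ b * r ^ c := by
      rw [← hK]
      have hlx' : l ∣ orderOf x := by rw [← Subgroup.orderOf_coe]; exact hlx
      exact hlx'.trans (orderOf_dvd_natCard x)
    rcases (Nat.Prime.dvd_mul hl).1 hlK with h | h
    · have := (Nat.prime_dvd_prime_iff_eq hl hq).1 (hl.dvd_of_dvd_pow h)
      subst this
      obtain ⟨z, hz⟩ := exists_orderOf_mul (x := (v : H)) (y := (x : H)) hp hl hpq hv'.symm hvp hlx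
      exact (hcon z).1 hz
    · have := (Nat.prime_dvd_prime_iff_eq hl hr).1 (hl.dvd_of_dvd_pow h)
      subst this
      obtain ⟨z, hz⟩ := exists_orderOf_mul (x := (v : H)) (y := (x : H)) hp hl hpr hv'.symm hvp hlx
      exact (hcon z).2.1 hz
  have hkill := core_two φ hp hq hr hqr
    (by rw [hK]; exact (dvd_pow_self q hb).mul_right _)
    (by rw [hK]; exact (dvd_pow_self r hc).mul_left _)
    (by
      intro l hl hlK
      rw [hK] at hlK
      rcases (Nat.Prime.dvd_mul hl).1 hlK with h | h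
      · exact Or.inl ((Nat.prime_dvd_prime_iff_eq hl hq).1 (hl.dvd_of_dvd_pow h))
      · exact Or.inr ((Nat.prime_dvd_prime_iff_eq hl hr).1 (hl.dvd_of_dvd_pow h)))
    (by
      intro x hx
      refine (hcon (x : H)).2.2 ?_
      rw [Subgroup.orderOf_coe]
      exact hx)
    hfp hN
    (by
      rw [hK]
      intro h
      rcases (Nat.Prime.dvd_mul hp).1 h with h | h
      · exact hpq ((Nat.prime_dvd_prime_iff_eq hp hq).1 (hp.dvd_of_dvd_pow h))
      · exact hpr ((Nat.prime_dvd_prime_iff_eq hp hr).1 (hp.dvd_of_dvd_pow h)))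
  obtain ⟨u, huM, hu1⟩ := N.bot_or_exists_ne_one.resolve_left hNb
  have := hkill ⟨u, huM⟩
  exact hu1 (congrArg Subtype.val this)

/-- **Lucido**: a finite solvable group does not have three pairwise "non-adjacent" primes. -/
theorem three_primes {G : Type*} [Group G] [Finite G] [Group.IsSolvable G]
    {p q r : ℕ} (hp : p.Prime) (hq : q.Prime) (hr : r.Prime) (hpq : p ≠ q) (hpr : p ≠ r) (hqr : q ≠ r)
    (hpG : p ∣ Nat.card G) (hqG : q ∣ Nat.card G) (hrG : r ∣ Nat.card G) :
    ∃ x : G, orderOf x = p * q ∨ orderOf x = p * r ∨ orderOf x = q * r := by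
  classical
  have hcard : Nat.card G ≠ 0 := Nat.card_pos.ne'
  obtain ⟨a, c₁, hc₁, h₁⟩ := Nat.exists_eq_pow_mul_and_not_dvd hcard p hp.ne_one
  have hc₁0 : c₁ ≠ 0 := by
    rintro rfl
    simp at hc₁
  have hqc₁ : q ∣ c₁ := by
    rw [h₁] at hqG
    rcases (Nat.Prime.dvd_mul hq).1 hqG with h | h
    · exact absurd ((Nat.prime_dvd_prime_iff_eq hq hp).1 (hq.dvd_of_dvd_pow h)).symm hpq
    · exact h
  obtain ⟨b, c₂, hc₂, h₂⟩ := Nat.exists_eq_pow_mul_and_not_dvd hc₁0 q hq.ne_one
  have hc₂0 : c₂ ≠ 0 := by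
    rintro rfl
    simp at hc₂
  have hrc₂ : r ∣ c₂ := by
    rw [h₁, h₂] at hrG
    rcases (Nat.Prime.dvd_mul hr).1 hrG with h | h
    · exact absurd ((Nat.prime_dvd_prime_iff_eq hr hp).1 (hr.dvd_of_dvd_pow h)).symm hpr
    · rcases (Nat.Prime.dvd_mul hr).1 h with h | h
      · exact absurd ((Nat.prime_dvd_prime_iff_eq hr hq).1 (hr.dvd_of_dvd_pow h)).symm hqr
      · exact h
  obtain ⟨d, c₃, hc₃, h₃⟩ := Nat.exists_eq_pow_mul_and_not_dvd hc₂0 r hr.ne_one
  have ha : a ≠ 0 := by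
    rintro rfl
    rw [pow_zero, one_mul] at h₁
    exact hc₁ (h₁ ▸ hpG)
  have hb : b ≠ 0 := by
    rintro rfl
    rw [pow_zero, one_mul] at h₂
    exact hc₂ (h₂ ▸ hqc₁)
  have hd : d ≠ 0 := by
    rintro rfl
    rw [pow_zero, one_mul] at h₃
    exact hc₃ (h₃ ▸ hrc₂)
  have hGc : Nat.card G = (p ^ a * q ^ b * r ^ d) * c₃ := by
    rw [h₁, h₂, h₃]; ring
  have hpc₃ : ¬ p ∣ c₃ := fun h => hc₁ (by rw [h₂, h₃]; exact ((h.mul_left _).mul_left _))
  have hqc₃ : ¬ q ∣ c₃ := fun h => hc₂ (by rw [h₃]; exact h.mul_left _)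
  have hcop : (p ^ a * q ^ b * r ^ d).Coprime c₃ := by
    refine Nat.Coprime.mul_left (Nat.Coprime.mul_left ?_ ?_) ?_
    · exact Nat.Coprime.pow_left _ ((Nat.Prime.coprime_iff_not_dvd hp).2 hpc₃)
    · exact Nat.Coprime.pow_left _ ((Nat.Prime.coprime_iff_not_dvd hq).2 hqc₃)
    · exact Nat.Coprime.pow_left _ ((Nat.Prime.coprime_iff_not_dvd hr).2 hc₃)
  obtain ⟨H, hH⟩ := exists_card_eq (p ^ a * q ^ b * r ^ d) c₃ hGc hcop
  haveI : Nontrivial H := by
    haveI := Fact.mk hp
    apply Finite.one_lt_card_iff_nontrivial.1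
    rw [hH]
    have : p ∣ p ^ a * q ^ b * r ^ d := ((dvd_pow_self p ha).mul_right _).mul_right _
    have hpos : 0 < p ^ a * q ^ b * r ^ d := by positivity [hp.pos, hq.pos, hr.pos]
    exact lt_of_lt_of_le hp.one_lt (Nat.le_of_dvd hpos this)
  obtain ⟨l, N, hl, hNn, hNb, hN, hNc, -⟩ := exists_normal_abelian_pSubgroup H
  have hlH : l ∣ p ^ a * q ^ b * r ^ d := by
    rw [← hH]
    haveI := Fact.mk hl
    have h1 : Nat.card N ≠ 1 := by
      intro h
      exact hNb (Subgroup.card_eq_one.1 h)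
    obtain ⟨e, he⟩ := (IsPGroup.iff_card (p := l)).1 hN
    have : l ∣ Nat.card N := by
      rw [he]
      refine dvd_pow_self l ?_
      rintro rfl
      rw [pow_zero] at he
      exact h1 he
    exact this.trans (Subgroup.card_subgroup_dvd_card N)
  have hl3 : l = p ∨ l = q ∨ l = r := by
    rcases (Nat.Prime.dvd_mul hl).1 hlH with h | h
    · rcases (Nat.Prime.dvd_mul hl).1 h with h | h
      · exact Or.inl ((Nat.prime_dvd_prime_iff_eq hl hp).1 (hl.dvd_of_dvd_pow h))
      · exact Or.inr (Or.inl ((Nat.prime_dvd_prime_iff_eq hl hq).1 (hl.dvd_of_dvd_pow h)))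
    · exact Or.inr (Or.inr ((Nat.prime_dvd_prime_iff_eq hl hr).1 (hl.dvd_of_dvd_pow h)))
  rcases hl3 with rfl | rfl | rfl
  · obtain ⟨x, hx⟩ := three_primes_aux (a := a) (b := b) (c := d) hp hq hr hpq hpr hqr hb hd
      (by rw [hH]; ring) N hNn hNb hN hNc
    exact ⟨(x : G), by rw [Subgroup.orderOf_coe]; exact hx⟩
  · obtain ⟨x, hx⟩ := three_primes_aux (a := b) (b := a) (c := d) hq hp hr hpq.symm hqr hpr ha hd
      (by rw [hH]; ring) N hNn hNb hN hNc
    refine ⟨(x : G), ?_⟩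
    rw [Subgroup.orderOf_coe, mul_comm p l]
    tauto
  · obtain ⟨x, hx⟩ := three_primes_aux (a := d) (b := a) (c := b) hr hp hq hpr.symm hqr.symm hpq ha hb
      (by rw [hH]; ring) N hNn hNb hN hNc
    refine ⟨(x : G), ?_⟩
    rw [Subgroup.orderOf_coe, mul_comm p l, mul_comm q l]
    tauto

/-- Three primes at most `n` whose pairwise products exceed `n`. -/
theorem exists_three_primes (n : ℕ) (hn : 7 ≤ n) :
    ∃ p q r : ℕ, p.Prime ∧ q.Prime ∧ r.Prime ∧ p ≠ q ∧ p ≠ r ∧ q ≠ r ∧ p ≤ n ∧ q ≤ n ∧ r ≤ n ∧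
      n < p * q ∧ n < p * r ∧ n < q * r := by
  by_cases h1 : n ≤ 14
  · refine ⟨3, 5, 7, by norm_num, by norm_num, by norm_num, by norm_num, by norm_num, by norm_num,
      by omega, by omega, by omega, by omega, by omega, by omega⟩
  by_cases h2 : n ≤ 76
  · refine ⟨7, 11, 13, by norm_num, by norm_num, by norm_num, by norm_num, by norm_num, by norm_num,
      by omega, by omega, by omega, by omega, by omega, by omega⟩
  set m := n / 8 with hm
  have hm9 : 9 ≤ m := by omega
  have hm1 : n < 8 * (m + 1) := by omega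
  have hm2 : 8 * m ≤ n := by omega
  obtain ⟨p, hp, hp1, hp2⟩ := Nat.exists_prime_lt_and_le_two_mul m (by omega)
  obtain ⟨q, hq, hq1, hq2⟩ := Nat.exists_prime_lt_and_le_two_mul (2 * m) (by omega)
  obtain ⟨r, hr, hr1, hr2⟩ := Nat.exists_prime_lt_and_le_two_mul (4 * m) (by omega)
  refine ⟨p, q, r, hp, hq, hr, by omega, by omega, by omega, by omega, by omega, by omega, ?_, ?_, ?_⟩
  · nlinarith
  · nlinarith
  · nlinarith

/-- If the set of element orders of a finite group G is {1, 2, …, n} with n ≥ 7, then G is not solvable. -/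
theorem result {G : Type*} [Group G] [Finite G] (n : ℕ) (hn : 7 ≤ n) (h : Set.range (orderOf : G → ℕ) = {k : ℕ | 1 ≤ k ∧ k ≤ n}) : ¬ Group.IsSolvable G := by
  intro hsol
  obtain ⟨p, q, r, hp, hq, hr, hpq, hpr, hqr, hpn, hqn, hrn, h1, h2, h3⟩ := exists_three_primes n hn
  have hmem : ∀ l : ℕ, l.Prime → l ≤ n → l ∣ Nat.card G := by
    intro l hl hln
    have : l ∈ Set.range (orderOf : G → ℕ) := by
      rw [h]
      exact ⟨hl.pos, hln⟩
    obtain ⟨x, hx⟩ := this
    rw [← hx]
    exact orderOf_dvd_natCard x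
  have hle : ∀ x : G, orderOf x ≤ n := by
    intro x
    have : orderOf x ∈ Set.range (orderOf : G → ℕ) := ⟨x, rfl⟩
    rw [h] at this
    exact this.2
  obtain ⟨x, hx⟩ := three_primes hp hq hr hpq hpr hqr (hmem p hp hpn) (hmem q hq hqn) (hmem r hr hrn)
  have := hle x
  rcases hx with hx | hx | hx <;> omega

end Cfsg.Agent.S4002
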