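import Cfsg.Statements.S4004
import Cfsg.Agent.Lib.SameOrder.OddThree

set_option autoImplicit false
open Cfsg

namespace Cfsg.Agent.S4004

/-- Let G be a finite group of odd order in which the numbers of elements of each order that occurs (the numbers #{g : o(g) = m}, m ranging over the element orders of G) take exactly three different values. Then the order of G has at most two prime divisors; and if it has exactly two, then every Sylow subgroup of G for a prime dividing its order has prime exponent, G is a Frobenius group, and some Frobenius complement of G has prime order. -/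
theorem result {G : Type*} [Group G] [Finite G] (hodd : Odd (Nat.card G)) (h : (((fun m : ℕ => Nat.card {g : G // orderOf g = m}) '' Set.range (orderOf : G → ℕ))).ncard = 3) :
    (Nat.card G).primeFactors.card ≤ 2 ∧
      ((Nat.card G).primeFactors.card = 2 →
        (∀ (p : ℕ) [Fact p.Prime] (P : Sylow p G), p ∣ Nat.card G → Monoid.exponent ↥(P : Subgroup G) = p) ∧
        ∃ C : Subgroup G, Cfsg.IsFrobeniusComplement C ∧ (Nat.card ↥C).Prime) := by
  have hc := Cfsg.Agent.Lib.SameOrder.primeFactors_card_le h hodd
  refine ⟨hc, fun h2 => ?_⟩
  obtain ⟨p, r, hpr, hf⟩ := Finset.card_eq_two.mp h2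
  have hp : p ∈ (Nat.card G).primeFactors := by rw [hf]; simp
  have hr : r ∈ (Nat.card G).primeFactors := by rw [hf]; simp
  have hp' := Nat.mem_primeFactors.mp hp
  have hr' := Nat.mem_primeFactors.mp hr
  refine Cfsg.Agent.Lib.SameOrder.two_primes h hodd hp'.1 hr'.1 hpr hp'.2.1 hr'.2.1 ?_
  intro s hs hsd
  have : s ∈ (Nat.card G).primeFactors := Nat.mem_primeFactors.mpr ⟨hs, hsd, Nat.card_pos.ne'⟩
  rw [hf] at this
  simpa using this

end Cfsg.Agent.S4004
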