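import Cfsg.Statements.S4005
import Cfsg.Agent.Lib.Char.Burnside2
import Cfsg.Agent.Lib.Solvable.MinimalNormal
import Mathlib

set_option autoImplicit false
open Cfsg

namespace Cfsg.Agent.S4005

universe u

open Cfsg.Agent.Lib.Solvable.MinimalNormal

section Nine

variable {A : Type*} [CommGroup A]

/-- The combinatorics of the four subgroups of order three of `E₉`. -/
theorem nine (u a10 a20 a01 a02 a11 a22 a12 a21 : A) (hu : u * u = 1)
    (h1 : u * a10 * a20 = 1) (h2 : u * a01 * a02 = 1) (h3 : u * a11 * a22 = 1)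
    (h4 : u * a12 * a21 = 1) (h5 : a01 * a11 * a21 = 1) (h6 : a02 * a12 * a22 = 1) : u = 1 := by
  have hX : a10 * a20 * (a01 * a02) * (a11 * a22) * (a12 * a21) = 1 := by
    calc a10 * a20 * (a01 * a02) * (a11 * a22) * (a12 * a21)
        = (u * u) * (u * u) * (a10 * a20 * (a01 * a02) * (a11 * a22) * (a12 * a21)) := by
          rw [hu]; simp
      _ = (u * a10 * a20) * (u * a01 * a02) * (u * a11 * a22) * (u * a12 * a21) := by
          simp only [mul_comm, mul_left_comm, mul_assoc]
      _ = 1 := by rw [h1, h2, h3, h4]; simp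
  calc u = u * (a10 * a20 * (a01 * a02) * (a11 * a22) * (a12 * a21)) := by rw [hX, mul_one]
    _ = (u * a10 * a20) * (a01 * a11 * a21) * (a02 * a12 * a22) := by
        simp only [mul_comm, mul_left_comm, mul_assoc]
    _ = 1 := by rw [h1, h5, h6]; simp

end Nine

variable {G : Type u} [Group G] [Finite G]

/-- The order of an element of an element-order-`{1,2,3}` group. -/
theorem orders (h : Set.range (orderOf : G → ℕ) = {k : ℕ | 1 ≤ k ∧ k ≤ 3}) (g : G) :
    orderOf g = 1 ∨ orderOf g = 2 ∨ orderOf g = 3 := by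
  have h1 : orderOf g ∈ {k : ℕ | 1 ≤ k ∧ k ≤ 3} := by
    rw [← h]
    exact ⟨g, rfl⟩
  obtain ⟨h2, h3⟩ := h1
  omega

theorem not_comm (h : Set.range (orderOf : G → ℕ) = {k : ℕ | 1 ≤ k ∧ k ≤ 3}) {t z : G}
    (ht : orderOf t = 2) (hz : orderOf z = 3) : t * z ≠ z * t := by
  intro hc
  have h6 := Commute.orderOf_mul_eq_mul_orderOf_of_coprime (show Commute t z from hc)
    (by rw [ht, hz]; norm_num)
  rw [ht, hz] at h6
  have := orders h (t * z)
  omega

theorem inv_of_two {t : G} (ht : orderOf t = 2) : t⁻¹ = t := by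
  have h1 : t ^ 2 = 1 := by rw [← ht]; exact pow_orderOf_eq_one t
  rw [pow_two] at h1
  exact inv_eq_of_mul_eq_one_right h1

/-- The case of a normal elementary abelian `2`-subgroup. -/
theorem case_two (h : Set.range (orderOf : G → ℕ) = {k : ℕ | 1 ≤ k ∧ k ≤ 3})
    (A : Subgroup G) (hAn : A.Normal) (hAe : ∀ x ∈ A, x ^ 2 = 1) (hA1 : A ≠ ⊥) :
    ∃ N : Subgroup G, N.Normal ∧ Cfsg.IsElementaryAbelian 2 N ∧ N.index = 3 := by
  classical
  obtain ⟨a', ha'⟩ := Subgroup.ne_bot_iff_exists_ne_one.mp hA1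
  obtain ⟨a, haA, ha1⟩ : ∃ a ∈ A, a ≠ 1 := ⟨a'.1, a'.2, fun h => ha' (Subtype.ext h)⟩
  have hao : orderOf a = 2 := orderOf_eq_prime (hAe a haA) ha1
  -- `a` commutes with all involutions
  have hcomm : ∀ t : G, orderOf t = 2 → a * t = t * a := by
    intro t ht
    have ht' := inv_of_two ht
    have hao' := inv_of_two hao
    have hc : t * a * t⁻¹ ∈ A := hAn.conj_mem a haA t
    have h1 : (a * (t * a * t⁻¹)) ^ 2 = 1 := hAe _ (A.mul_mem haA hc)
    have h2 : a * (t * a * t⁻¹) = (a * t) ^ 2 := by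
      rw [pow_two, ht']
      group
    rw [h2, ← pow_mul] at h1
    have h3 : orderOf (a * t) ∣ 4 := orderOf_dvd_of_pow_eq_one h1
    have h4 : (a * t) ^ 2 = 1 := by
      rcases orders h (a * t) with h5 | h5 | h5
      · rw [orderOf_eq_one_iff.mp h5]; simp
      · rw [← h5]; exact pow_orderOf_eq_one _
      · rw [h5] at h3; norm_num at h3
    rw [pow_two] at h4
    have h5 : a * t = (a * t)⁻¹ := (inv_eq_of_mul_eq_one_left h4).symm
    rw [mul_inv_rev, ht', hao'] at h5
    exact h5
  -- `E`
  set E := Subgroup.centralizer ({a} : Set G) with hE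
  have hEmem : ∀ g : G, g ∈ E ↔ g ^ 2 = 1 := by
    intro g
    rw [hE, Subgroup.mem_centralizer_singleton_iff]
    constructor
    · intro hg
      rcases orders h g with h5 | h5 | h5
      · rw [orderOf_eq_one_iff.mp h5]; simp
      · rw [← h5]; exact pow_orderOf_eq_one _
      · exact absurd hg (not_comm h hao h5 ∘ Eq.symm)
    · intro hg
      by_cases hg1 : g = 1
      · rw [hg1]; simp
      · exact (hcomm g (orderOf_eq_prime hg hg1)).symm
  have hEcomm : ∀ x ∈ E, ∀ y ∈ E, x * y = y * x := by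
    intro x hx y hy
    have hx' := (hEmem x).mp hx
    have hy' := (hEmem y).mp hy
    have hxy := (hEmem (x * y)).mp (E.mul_mem hx hy)
    rw [pow_two] at hx' hy' hxy
    have h1 : x * y = (x * y)⁻¹ := (inv_eq_of_mul_eq_one_left hxy).symm
    rw [mul_inv_rev, inv_eq_of_mul_eq_one_left hx', inv_eq_of_mul_eq_one_left hy'] at h1
    exact h1
  have hEn : E.Normal := by
    constructor
    intro x hx g
    rw [hEmem] at hx ⊢
    rw [conj_pow, hx]
    group
  have hEe : Cfsg.IsElementaryAbelian 2 E := by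
    refine ⟨⟨⟨fun x y => Subtype.ext (hEcomm x.1 x.2 y.1 y.2)⟩⟩, fun x hx => (hEmem x).mp hx⟩
  refine ⟨E, hEn, hEe, ?_⟩
  -- an element of order three exists
  obtain ⟨z, hz⟩ : ∃ z : G, orderOf z = 3 := by
    have h1 : (3 : ℕ) ∈ {k : ℕ | 1 ≤ k ∧ k ≤ 3} := ⟨by norm_num, le_rfl⟩
    rw [← h] at h1
    exact h1
  have hzE : z ∉ E := by
    intro hzm
    have := orderOf_dvd_of_pow_eq_one ((hEmem z).mp hzm)
    rw [hz] at this
    norm_num at this
  -- the quotient is a `3`-group
  haveI : Fact (Nat.Prime 3) := ⟨Nat.prime_three⟩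
  haveI : Fact (Nat.Prime 2) := ⟨Nat.prime_two⟩
  have h3q : IsPGroup 3 (G ⧸ E) := by
    intro x
    obtain ⟨g, rfl⟩ := QuotientGroup.mk_surjective x
    refine ⟨1, ?_⟩
    rw [pow_one, ← QuotientGroup.mk_pow]
    rcases orders h g with h5 | h5 | h5
    · rw [orderOf_eq_one_iff.mp h5]; simp
    · have : g ∈ E := (hEmem g).mpr (by rw [← h5]; exact pow_orderOf_eq_one _)
      rw [QuotientGroup.mk_pow, (QuotientGroup.eq_one_iff g).mpr this, one_pow]
    · rw [← h5, pow_orderOf_eq_one]
      rfl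
  obtain ⟨k, hk⟩ := h3q.exists_card_eq
  have hidx : E.index = 3 ^ k := hk
  have hk0 : k ≠ 0 := by
    rintro rfl
    rw [pow_zero, Subgroup.index_eq_one] at hidx
    apply hzE
    rw [hidx]
    trivial
  have hk1 : k < 2 := by
    by_contra hk2
    push Not at hk2
    -- a large Sylow `3`-subgroup
    obtain ⟨Q⟩ : Nonempty (Sylow 3 G) := inferInstance
    have hE2 : IsPGroup 2 E := by
      intro x
      refine ⟨1, ?_⟩
      rw [pow_one]
      exact Subtype.ext ((hEmem x.1).mp x.2)
    obtain ⟨m, hm⟩ := hE2.exists_card_eq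
    have hcop : Nat.Coprime (3 ^ k) Q.index := by
      exact Nat.Coprime.pow_left _ ((Nat.Prime.coprime_iff_not_dvd Nat.prime_three).mpr Q.not_dvd_index)
    have hdv : 3 ^ k ∣ Nat.card Q := by
      have h1 : 3 ^ k ∣ Nat.card Q * Q.index := by
        rw [Subgroup.card_mul_index, ← Subgroup.card_mul_index E, hidx]
        exact dvd_mul_left _ _
      exact hcop.dvd_of_dvd_mul_right h1
    have hQ9 : 9 ≤ Nat.card Q := by
      have h1 : 3 ^ 2 ∣ Nat.card Q := (pow_dvd_pow 3 hk2).trans hdv
      have := Nat.le_of_dvd Nat.card_pos h1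
      omega
    -- central element of `Q`
    haveI : Nontrivial Q := by
      apply Finite.one_lt_card_iff_nontrivial.mp
      omega
    have hcn := Q.2.center_nontrivial
    obtain ⟨y', hy'⟩ := exists_ne (1 : Subgroup.center (Q : Subgroup G))
    set y : G := ((y' : Q) : G) with hy
    have hy1 : y ≠ 1 := fun h => hy' (Subtype.ext (Subtype.ext h))
    have hyc : ∀ g ∈ (Q : Subgroup G), y * g = g * y := by
      intro g hg
      have := (Subgroup.mem_center_iff.mp y'.2 ⟨g, hg⟩)
      exact (congrArg Subtype.val this).symm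
    have hyQ : y ∈ (Q : Subgroup G) := (y' : Q).2
    have hord3 : ∀ g ∈ (Q : Subgroup G), g ≠ 1 → orderOf g = 3 := by
      intro g hg hg1
      obtain ⟨j, hj⟩ := (IsPGroup.iff_orderOf.mp Q.2) ⟨g, hg⟩
      rw [Subgroup.orderOf_mk] at hj
      have h4 : orderOf g ≠ 1 := fun h5 => hg1 (orderOf_eq_one_iff.mp h5)
      rcases orders h g with h5 | h5 | h5
      · exact absurd h5 h4
      · exfalso
        rw [h5] at hj
        have h6 : 3 ∣ 2 := by
          have hj0 : j ≠ 0 := by
            rintro rfl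
            norm_num at hj
          rw [hj]
          exact dvd_pow_self 3 hj0
        norm_num at h6
      · exact h5
    have hyo := hord3 y hyQ hy1
    -- element outside `⟨y⟩`
    obtain ⟨z', hz'Q, hz'y⟩ : ∃ z' ∈ (Q : Subgroup G), z' ∉ Subgroup.zpowers y := by
      by_contra hno
      push Not at hno
      have h5 : (Q : Subgroup G) ≤ Subgroup.zpowers y := hno
      have h6 := Subgroup.card_le_of_le h5
      rw [Nat.card_zpowers, hyo] at h6
      omega
    have hcomm' : y * z' = z' * y := hyc z' hz'Q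
    have hz'1 : z' ≠ 1 := by
      rintro rfl
      exact hz'y (Subgroup.one_mem _)
    have hz'o := hord3 z' hz'Q hz'1
    have hz'3 : z' ^ 3 = 1 := by rw [← hz'o]; exact pow_orderOf_eq_one z'
    have hyz1 : y * z' ≠ 1 := by
      intro h5
      apply hz'y
      have : z' = y⁻¹ := (inv_eq_of_mul_eq_one_right h5).symm
      rw [this]
      exact Subgroup.inv_mem _ (Subgroup.mem_zpowers y)
    have hyz21 : y * z' ^ 2 ≠ 1 := by
      intro h5
      apply hz'y
      have h6 : z' ^ 2 = y⁻¹ := (inv_eq_of_mul_eq_one_right h5).symm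
      have h7 : z' = (z' ^ 2) ^ 2 := by
        rw [← pow_mul]
        calc z' = z' ^ 1 * z' ^ 3 := by rw [hz'3]; simp
          _ = _ := by rw [← pow_add]
      rw [h7, h6]
      exact Subgroup.pow_mem _ (Subgroup.inv_mem _ (Subgroup.mem_zpowers y)) _
    have hyzo : orderOf (y * z') = 3 :=
      hord3 _ (Subgroup.mul_mem _ hyQ hz'Q) hyz1
    have hyz2o : orderOf (y * z' ^ 2) = 3 :=
      hord3 _ (Subgroup.mul_mem _ hyQ (Subgroup.pow_mem _ hz'Q 2)) hyz21
    -- norms vanish
    have hnorm : ∀ e : G, orderOf e = 3 → ∀ w ∈ E, w * (e * w * e⁻¹) * (e ^ 2 * w * (e ^ 2)⁻¹) = 1 := by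
      intro e he w hw
      have he3 : e ^ 3 = 1 := by rw [← he]; exact pow_orderOf_eq_one e
      have hm1 : e * w * e⁻¹ ∈ E := hEn.conj_mem w hw e
      have hm2 : e ^ 2 * w * (e ^ 2)⁻¹ ∈ E := hEn.conj_mem w hw _
      set b := w * (e * w * e⁻¹) * (e ^ 2 * w * (e ^ 2)⁻¹) with hb
      have hbE : b ∈ E := E.mul_mem (E.mul_mem hw hm1) hm2
      have hfix : e * b * e⁻¹ = b := by
        have h5 : e * b * e⁻¹ = (e * w * e⁻¹) * (e ^ 2 * w * (e ^ 2)⁻¹) * (e ^ 3 * w * (e ^ 3)⁻¹) := by
          rw [hb]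
          group
        rw [h5, he3]
        have h6 : (1 : G) * w * (1 : G)⁻¹ = w := by group
        rw [h6, hb, hEcomm _ (E.mul_mem hm1 hm2) w hw]
        group
      by_contra hb1
      have hbo : orderOf b = 2 := orderOf_eq_prime ((hEmem b).mp hbE) hb1
      apply not_comm h hbo he
      have h7 : e * b = b * e := by
        calc e * b = e * b * e⁻¹ * e := by group
          _ = b * e := by rw [hfix]
      exact h7.symm
    -- the nine elements
    letI cg : CommGroup E :=
      { (inferInstance : Group E) with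
        mul_comm := fun x y => Subtype.ext (hEcomm x.1 x.2 y.1 y.2) }
    have haE : a ∈ E := Subgroup.mem_centralizer_singleton_iff.mpr rfl
    let c : G → E := fun g => ⟨g * a * g⁻¹, hEn.conj_mem a haE g⟩
    have hyz2 : (y * z') ^ 2 = y ^ 2 * z' ^ 2 := (show Commute y z' from hcomm').mul_pow 2
    have hyz22 : (y * z' ^ 2) ^ 2 = y ^ 2 * z' := by
      have hc2 : Commute y (z' ^ 2) := (show Commute y z' from hcomm').pow_right 2
      rw [hc2.mul_pow, ← pow_mul]
      congr 1
      calc z' ^ (2 * 2) = z' ^ 3 * z' := by rw [← pow_succ]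
        _ = z' := by rw [hz'3, one_mul]
    have hfinal : (⟨a, haE⟩ : E) = 1 := by
      apply nine (⟨a, haE⟩ : E) (c y) (c (y ^ 2)) (c z') (c (z' ^ 2)) (c (y * z'))
        (c (y ^ 2 * z' ^ 2)) (c (y * z' ^ 2)) (c (y ^ 2 * z'))
      · apply Subtype.ext
        have := (hEmem a).mp haE
        rw [pow_two] at this
        exact this
      · apply Subtype.ext
        exact hnorm y hyo a haE
      · apply Subtype.ext
        exact hnorm z' hz'o a haE
      · apply Subtype.ext
        have := hnorm (y * z') hyzo a haE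
        rw [hyz2] at this
        exact this
      · apply Subtype.ext
        have := hnorm (y * z' ^ 2) hyz2o a haE
        rw [hyz22] at this
        exact this
      · apply Subtype.ext
        have := hnorm y hyo (z' * a * z'⁻¹) (hEn.conj_mem a haE z')
        have e1 : y * (z' * a * z'⁻¹) * y⁻¹ = (y * z') * a * (y * z')⁻¹ := by group
        have e2 : y ^ 2 * (z' * a * z'⁻¹) * (y ^ 2)⁻¹ = (y ^ 2 * z') * a * (y ^ 2 * z')⁻¹ := by group
        rw [e1, e2] at this
        exact this
      · apply Subtype.ext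
        have := hnorm y hyo (z' ^ 2 * a * (z' ^ 2)⁻¹) (hEn.conj_mem a haE _)
        have e1 : y * (z' ^ 2 * a * (z' ^ 2)⁻¹) * y⁻¹ = (y * z' ^ 2) * a * (y * z' ^ 2)⁻¹ := by group
        have e2 : y ^ 2 * (z' ^ 2 * a * (z' ^ 2)⁻¹) * (y ^ 2)⁻¹ =
            (y ^ 2 * z' ^ 2) * a * (y ^ 2 * z' ^ 2)⁻¹ := by group
        rw [e1, e2] at this
        exact this
    exact ha1 (congrArg Subtype.val hfinal)
  have hk2 : k = 1 := by omega
  rw [hidx, hk2, pow_one]

/-- The case of a normal elementary abelian `3`-subgroup. -/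
theorem case_three (h : Set.range (orderOf : G → ℕ) = {k : ℕ | 1 ≤ k ∧ k ≤ 3})
    (A : Subgroup G) (hAn : A.Normal) (hAc : ∀ x ∈ A, ∀ y ∈ A, x * y = y * x)
    (hAe : ∀ x ∈ A, x ^ 3 = 1) (hA1 : A ≠ ⊥) :
    ∃ N : Subgroup G, N.Normal ∧ Cfsg.IsElementaryAbelian 3 N ∧ N.index = 2 := by
  classical
  obtain ⟨a', ha'⟩ := Subgroup.ne_bot_iff_exists_ne_one.mp hA1
  obtain ⟨z₀, hz₀A, hz₀1⟩ : ∃ a ∈ A, a ≠ 1 := ⟨a'.1, a'.2, fun h => ha' (Subtype.ext h)⟩
  have hz₀o : orderOf z₀ = 3 := orderOf_eq_prime (hAe z₀ hz₀A) hz₀1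
  -- involutions invert `A`
  have hinv : ∀ t : G, orderOf t = 2 → ∀ x ∈ A, t * x * t⁻¹ = x⁻¹ := by
    intro t ht x hx
    have ht' := inv_of_two ht
    have hm : t * x * t⁻¹ ∈ A := hAn.conj_mem x hx t
    set b := x * (t * x * t⁻¹) with hb
    have hbA : b ∈ A := A.mul_mem hx hm
    have hfix : t * b = b * t := by
      have h1 : t * b * t⁻¹ = b := by
        have h2 : t * b * t⁻¹ = (t * x * t⁻¹) * (t * (t * x * t⁻¹) * t⁻¹) := by
          rw [hb]
          group
        have h3 : t * (t * x * t⁻¹) * t⁻¹ = x := by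
          have htt : t * t = 1 := by
            nth_rewrite 1 [← ht']
            exact inv_mul_cancel t
          calc t * (t * x * t⁻¹) * t⁻¹ = (t * t) * x * (t⁻¹ * t⁻¹) := by group
            _ = x := by rw [ht', htt]; group
        rw [h2, h3, hb]
        exact hAc _ hm _ hx
      calc t * b = t * b * t⁻¹ * t := by group
        _ = b * t := by rw [h1]
    have hb1 : b = 1 := by
      by_contra hne
      have hbo : orderOf b = 3 := orderOf_eq_prime (hAe b hbA) hne
      exact not_comm h ht hbo hfix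
    have : x * (t * x * t⁻¹) = 1 := hb1
    exact (inv_eq_of_mul_eq_one_right this).symm
  -- two commuting involutions agree
  have hunique : ∀ s t : G, orderOf s = 2 → orderOf t = 2 → s * t = t * s → s = t := by
    intro s t hs ht hst
    by_contra hne
    have hs' := inv_of_two hs
    have ht' := inv_of_two ht
    have h1 : (s * t) ^ 2 = 1 := by
      rw [(show Commute s t from hst).mul_pow, ← hs, pow_orderOf_eq_one, hs, ← ht,
        pow_orderOf_eq_one, one_mul]
    have h2 : s * t ≠ 1 := by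
      intro h3
      apply hne
      have : s = t⁻¹ := eq_inv_of_mul_eq_one_left h3
      rw [this, ht']
    have h3 : orderOf (s * t) = 2 := orderOf_eq_prime h1 h2
    apply not_comm h h3 hz₀o
    have h4 : (s * t) * z₀ * (s * t)⁻¹ = z₀ := by
      have h5 : (s * t) * z₀ * (s * t)⁻¹ = s * (t * z₀ * t⁻¹) * s⁻¹ := by group
      rw [h5, hinv t ht z₀ hz₀A]
      have h6 : s * z₀⁻¹ * s⁻¹ = (s * z₀ * s⁻¹)⁻¹ := by group
      rw [h6, hinv s hs z₀ hz₀A, inv_inv]
    calc s * t * z₀ = (s * t) * z₀ * (s * t)⁻¹ * (s * t) := by group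
      _ = z₀ * (s * t) := by rw [h4]
  -- the Sylow `2`-subgroup has order two
  haveI : Fact (Nat.Prime 2) := ⟨Nat.prime_two⟩
  obtain ⟨T⟩ : Nonempty (Sylow 2 G) := inferInstance
  obtain ⟨t₀, ht₀⟩ : ∃ t : G, orderOf t = 2 := by
    have h1 : (2 : ℕ) ∈ {k : ℕ | 1 ≤ k ∧ k ≤ 3} := ⟨by norm_num, by norm_num⟩
    rw [← h] at h1
    exact h1
  have hT2 : ∀ g ∈ (T : Subgroup G), g ≠ 1 → orderOf g = 2 := by
    intro g hg hg1
    obtain ⟨j, hj⟩ := (IsPGroup.iff_orderOf.mp T.2) ⟨g, hg⟩
    rw [Subgroup.orderOf_mk] at hj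
    have h4 : orderOf g ≠ 1 := fun h5 => hg1 (orderOf_eq_one_iff.mp h5)
    rcases orders h g with h5 | h5 | h5
    · exact absurd h5 h4
    · exact h5
    · exfalso
      rw [h5] at hj
      have h6 : 2 ∣ 3 := by
        have hj0 : j ≠ 0 := by
          rintro rfl
          norm_num at hj
        rw [hj]
        exact dvd_pow_self 2 hj0
      norm_num at h6
  -- `T` has a non-trivial element
  have hTne : ∃ t ∈ (T : Subgroup G), t ≠ 1 := by
    by_contra hno
    push Not at hno
    have h1 : (T : Subgroup G) = ⊥ := (Subgroup.eq_bot_iff_forall _).mpr hno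
    have h2 := T.not_dvd_index
    rw [h1, Subgroup.index_bot] at h2
    apply h2
    have := orderOf_dvd_natCard t₀
    rwa [ht₀] at this
  obtain ⟨t, htT, ht1⟩ := hTne
  have hto := hT2 t htT ht1
  have ht' := inv_of_two hto
  have hTeq : ∀ g ∈ (T : Subgroup G), g = 1 ∨ g = t := by
    intro g hg
    by_cases hg1 : g = 1
    · exact Or.inl hg1
    · right
      have hgo := hT2 g hg hg1
      have hgt : g * t = t * g := by
        have hg' := inv_of_two hgo
        by_cases hgt1 : g * t = 1
        · have : g = t⁻¹ := eq_inv_of_mul_eq_one_left hgt1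
          rw [this, ht']
        · have h3 := hT2 (g * t) (Subgroup.mul_mem _ hg htT) hgt1
          have h4 := inv_of_two h3
          rw [mul_inv_rev, ht', hg'] at h4
          exact h4.symm
      exact hunique g t hgo hto hgt
  have hTcard : Nat.card (T : Subgroup G) = 2 := by
    have h1 : (T : Subgroup G) = Subgroup.zpowers t := by
      apply le_antisymm
      · intro g hg
        rcases hTeq g hg with rfl | rfl
        · exact Subgroup.one_mem _
        · exact Subgroup.mem_zpowers _
      · rwa [Subgroup.zpowers_le]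
    rw [h1, Nat.card_zpowers, hto]
  -- Burnside transfer
  have hle : Subgroup.normalizer ((T : Subgroup G) : Set G) ≤
      Subgroup.centralizer ((T : Subgroup G) : Set G) := by
    intro g hg
    rw [Subgroup.mem_centralizer_iff]
    intro x hx
    rcases hTeq x hx with rfl | rfl
    · simp
    · -- `g` fixes `t`
      have h1 : g * x * g⁻¹ ∈ (T : Subgroup G) := (Subgroup.mem_normalizer_iff.mp hg x).mp hx
      rcases hTeq _ h1 with h2 | h2
      · exfalso
        apply ht1
        have : x = g⁻¹ * (g * x * g⁻¹) * g := by group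
        rw [this, h2]
        group
      · calc x * g = g * (g⁻¹ * x * g) := by group
          _ = g * x := by
            have h3 : g * x * g⁻¹ = x := h2
            have h4 : g⁻¹ * x * g = x := by
              calc g⁻¹ * x * g = g⁻¹ * (g * x * g⁻¹) * g := by rw [h3]
                _ = x := by group
            rw [h4]
  let K := (MonoidHom.transferSylow T hle).ker
  have hc := MonoidHom.ker_transferSylow_isComplement' T hle
  have hKidx : K.index = 2 := by
    have h1 : K.index = Nat.card (T : Subgroup G) := hc.symm.index_eq_card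
    rw [h1, hTcard]
  have htK : t ∉ K := by
    intro htm
    have h1 : t ∈ K ⊓ (T : Subgroup G) := ⟨htm, htT⟩
    rw [hc.disjoint.eq_bot] at h1
    exact ht1 h1
  have hKn : K.Normal := inferInstance
  -- `t` inverts `K`
  have hinvK : ∀ k ∈ K, t * k * t⁻¹ = k⁻¹ := by
    intro k hk
    have h1 : t * k ∉ K := by
      intro h2
      apply htK
      have := K.mul_mem h2 (K.inv_mem hk)
      simpa using this
    have h2 : (t * k) ^ 2 = 1 := by
      rcases orders h (t * k) with h5 | h5 | h5
      · exact absurd ((orderOf_eq_one_iff.mp h5) ▸ K.one_mem) h1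
      · rw [← h5]; exact pow_orderOf_eq_one _
      · exfalso
        have h3 : (t * k) ^ 3 = 1 := by rw [← h5]; exact pow_orderOf_eq_one _
        have h4 : (t * k) ^ 2 ∈ K := Subgroup.sq_mem_of_index_two hKidx _
        have h6 : (t * k) ^ 2 * (t * k) ∈ K := by
          rw [← pow_succ, h3]
          exact K.one_mem
        have h7 := K.mul_mem (K.inv_mem h4) h6
        apply h1
        simpa using h7
    rw [pow_two] at h2
    have h3 : t * k * t = k⁻¹ := by
      calc t * k * t = (t * k * (t * k)) * k⁻¹ := by group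
        _ = k⁻¹ := by rw [h2, one_mul]
    rw [ht']
    exact h3
  have hKcomm : ∀ x ∈ K, ∀ y ∈ K, x * y = y * x := by
    intro x hx y hy
    have h1 := hinvK _ (K.mul_mem hx hy)
    have h2 : t * (x * y) * t⁻¹ = (t * x * t⁻¹) * (t * y * t⁻¹) := by group
    rw [h2, hinvK x hx, hinvK y hy, mul_inv_rev] at h1
    have h3 : (y * x)⁻¹ = x⁻¹ * y⁻¹ := by group
    have h4 : (x * y)⁻¹ = y⁻¹ * x⁻¹ := by group
    have h5 : (y * x)⁻¹ = (x * y)⁻¹ := by rw [h3, h4]; exact h1
    exact (inv_injective h5).symm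
  have hKe : ∀ k ∈ K, k ^ 3 = 1 := by
    intro k hk
    rcases orders h k with h5 | h5 | h5
    · rw [orderOf_eq_one_iff.mp h5]; simp
    · exfalso
      apply htK
      have h6 := hinvK k hk
      rw [inv_of_two h5] at h6
      have h7 : t * k = k * t := by
        calc t * k = t * k * t⁻¹ * t := by group
          _ = k * t := by rw [h6]
      have := hunique t k hto h5 h7
      rwa [this]
    · rw [← h5]; exact pow_orderOf_eq_one _
  refine ⟨K, hKn, ⟨⟨⟨fun x y => Subtype.ext (hKcomm x.1 x.2 y.1 y.2)⟩⟩, hKe⟩, hKidx⟩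

/-- A finite group whose set of element orders is exactly {1, 2, 3} has either a normal elementary abelian 3-subgroup of index 2 or a normal elementary abelian 2-subgroup of index 3. -/
theorem result {G : Type*} [Group G] [Finite G] (h : Set.range (orderOf : G → ℕ) = {k : ℕ | 1 ≤ k ∧ k ≤ 3}) :
    (∃ N : Subgroup G, N.Normal ∧ Cfsg.IsElementaryAbelian 3 N ∧ N.index = 2) ∨
      (∃ N : Subgroup G, N.Normal ∧ Cfsg.IsElementaryAbelian 2 N ∧ N.index = 3) := by
  classical
  -- primes dividing the order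
  have hprime : ∀ q : ℕ, q.Prime → q ∣ Nat.card G → q = 2 ∨ q = 3 := by
    intro q hq hd
    haveI : Fact q.Prime := ⟨hq⟩
    obtain ⟨g, hg⟩ := exists_prime_orderOf_dvd_card' (G := G) q hd
    have := orders h g
    have hq2 := hq.two_le
    omega
  have hcard : Nat.card G = 2 ^ ((Nat.card G).factorization 2) *
      3 ^ ((ordCompl[2] (Nat.card G)).factorization 3) := by
    set n := Nat.card G with hn
    have hn0 : n ≠ 0 := Nat.card_pos.ne'
    have h1 : n = ordProj[2] n * ordCompl[2] n := (Nat.ordProj_mul_ordCompl_eq_self n 2).symm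
    set m := ordCompl[2] n with hm
    have hm0 : m ≠ 0 := by
      intro h0
      rw [h0, mul_zero] at h1
      exact hn0 h1
    have h2 : m = ordProj[3] m * ordCompl[3] m := (Nat.ordProj_mul_ordCompl_eq_self m 3).symm
    have h3 : ordCompl[3] m = 1 := by
      by_contra hne
      obtain ⟨q, hq, hd⟩ := Nat.exists_prime_and_dvd hne
      have hdm : q ∣ m := hd.trans (Nat.ordCompl_dvd m 3)
      have hdn : q ∣ n := by
        rw [h1]
        exact hdm.trans (dvd_mul_left _ _)
      rcases hprime q hq hdn with rfl | rfl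
      · exact Nat.not_dvd_ordCompl Nat.prime_two hn0 hdm
      · exact Nat.not_dvd_ordCompl Nat.prime_three hm0 hd
    rw [h3, mul_one] at h2
    rw [← h2]
    exact h1
  haveI hsolv : Group.IsSolvable G :=
    Cfsg.Agent.Lib.Char.Burnside2.isSolvable_of_card_eq Nat.prime_two Nat.prime_three _ G _ _ rfl hcard
  obtain ⟨t₀, ht₀⟩ : ∃ t : G, orderOf t = 2 := by
    have h1 : (2 : ℕ) ∈ {k : ℕ | 1 ≤ k ∧ k ≤ 3} := ⟨by norm_num, by norm_num⟩
    rw [← h] at h1
    exact h1
  haveI hnt : Nontrivial G := ⟨⟨t₀, 1, by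
    rintro rfl
    rw [orderOf_one] at ht₀
    omega⟩⟩
  obtain ⟨A, hA⟩ := exists_isMinNormal (G := G)
  obtain ⟨r, hr, -, hAc, hAe⟩ := hA.exists_isPGroup
  haveI : Fact r.Prime := ⟨hr⟩
  obtain ⟨a', ha'⟩ := Subgroup.ne_bot_iff_exists_ne_one.mp hA.ne_bot
  have ha1 : (a' : G) ≠ 1 := fun h => ha' (Subtype.ext h)
  have hao : orderOf (a' : G) = r := orderOf_eq_prime (hAe _ a'.2) ha1
  have hr' : r = 2 ∨ r = 3 := by
    have := orders h (a' : G)
    have := hr.two_le
    omega
  have hcomm : ∀ x ∈ A, ∀ y ∈ A, x * y = y * x := by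
    intro x hx y hy
    have := hAc.is_comm.comm ⟨x, hx⟩ ⟨y, hy⟩
    exact congrArg Subtype.val this
  rcases hr' with rfl | rfl
  · exact Or.inr (case_two h A hA.normal hAe hA.ne_bot)
  · exact Or.inl (case_three h A hA.normal hcomm hAe hA.ne_bot)

end Cfsg.Agent.S4005
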