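import Cfsg.Statements.S4200
import Mathlib

set_option autoImplicit false
open Cfsg

namespace Cfsg.Agent.S4200

open scoped BigOperators

/-- Y, viewed inside `ConjAct X`. -/
private def Y' {X : Type*} [Group X] (Y : Subgroup X) : Subgroup (ConjAct X) :=
  Y.map (ConjAct.toConjAct (G := X)).toMonoidHom

private lemma mem_Y' {X : Type*} [Group X] (Y : Subgroup X) (g : ConjAct X) :
    g ∈ Y' Y ↔ ConjAct.ofConjAct g ∈ Y := by
  constructor
  · rintro ⟨y, hy, rfl⟩
    simpa using hy
  · intro h
    exact ⟨ConjAct.ofConjAct g, h, by simp⟩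

variable {X : Type*} [Group X] [Finite X]

private lemma first_ineq (Y : Subgroup X) :
    Nat.card (ConjClasses Y) ≤ Y.index * Nat.card (ConjClasses X) := by
  have h := Subgroup.commProb_subgroup_le Y
  rw [commProb_def', commProb_def'] at h
  have hY : (0 : ℚ) < Nat.card Y := by exact_mod_cast Nat.card_pos
  have hm : (0 : ℚ) < Y.index := by exact_mod_cast Nat.pos_of_ne_zero (Subgroup.index_ne_zero_of_finite)
  have hX : (Nat.card X : ℚ) = Nat.card Y * Y.index := by
    exact_mod_cast (Y.card_mul_index).symm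
  rw [hX] at h
  have : (Nat.card (ConjClasses Y) : ℚ) ≤ Y.index * Nat.card (ConjClasses X) := by
    have h2 : (Nat.card (ConjClasses X) : ℚ) / (Nat.card Y * Y.index) * (Y.index : ℚ) ^ 2
        = (Y.index * Nat.card (ConjClasses X)) / Nat.card Y := by
      field_simp
    rw [h2] at h
    rwa [div_le_div_iff_of_pos_right hY] at h
  exact_mod_cast this

/-- Number of Y-orbits on X. -/
private noncomputable def nOrb (Y : Subgroup X) : ℕ :=
  Nat.card (MulAction.orbitRel.Quotient (Y' Y) X)

private lemma card_fixed_le (Y : Subgroup X) (y : Y) :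
    Nat.card (Subgroup.centralizer {(y : X)}) ≤ Y.index * Nat.card { b : Y // Commute y b } := by
  set C := Subgroup.centralizer {(y : X)} with hC
  have h1 := (Y.subgroupOf C).card_mul_index
  have h2 : Nat.card (Y.subgroupOf C) = Nat.card { b : Y // Commute y b } := by
    apply Nat.card_congr
    refine ⟨fun b => ⟨⟨b.1.1, Subgroup.mem_subgroupOf.1 b.2⟩, ?_⟩,
      fun b => ⟨⟨b.1.1, ?_⟩, ?_⟩, fun b => rfl, fun b => rfl⟩
    · have h : b.1.1 ∈ Subgroup.centralizer {(y : X)} := b.1.2
      rw [Subgroup.mem_centralizer_singleton_iff] at h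
      exact Subtype.ext h.symm
    · rw [hC, Subgroup.mem_centralizer_singleton_iff]
      exact (congrArg Subtype.val b.2).symm
    · exact Subgroup.mem_subgroupOf.2 b.1.2
  have h3 : (Y.subgroupOf C).index ≤ Y.index := by
    have := Subgroup.relIndex_le_of_le_right (H := Y) (K := C) (L := ⊤) le_top
      (by rw [Subgroup.relIndex_top_right]; exact Subgroup.index_ne_zero_of_finite)
    rwa [Subgroup.relIndex_top_right] at this
  rw [← h1, h2, mul_comm]
  exact Nat.mul_le_mul_right _ h3

/-- The bijection between `Y` and its copy in `ConjAct X`. -/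
private def eY (Y : Subgroup X) : Y ≃ Y' Y where
  toFun y := ⟨ConjAct.toConjAct (y : X), (mem_Y' Y _).2 (by simp)⟩
  invFun g := ⟨ConjAct.ofConjAct (g : ConjAct X), (mem_Y' Y _).1 g.2⟩
  left_inv y := by simp
  right_inv g := by simp

private lemma nOrb_mul (Y : Subgroup X) :
    nOrb Y ≤ Y.index * Nat.card (ConjClasses Y) := by
  classical
  have := Fintype.ofFinite X
  have := Fintype.ofFinite Y
  have hBurn := MulAction.sum_card_fixedBy_eq_card_orbits_mul_card_group (Y' Y) X
  have hcard : Fintype.card (Y' Y) = Nat.card Y := by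
    rw [← Nat.card_eq_fintype_card]
    exact (Nat.card_congr (eY Y)).symm
  have hcomm := card_comm_eq_card_conjClasses_mul_card Y
  have hsig : Nat.card { p : Y × Y // Commute p.1 p.2 } = ∑ y : Y, Nat.card { b : Y // Commute y b } := by
    rw [Nat.card_congr (Equiv.subtypeProdEquivSigmaSubtype Commute), Nat.card_sigma]
  have hle : ∑ g : Y' Y, Fintype.card (MulAction.fixedBy X g)
      ≤ ∑ y : Y, Y.index * Nat.card { b : Y // Commute y b } := by
    rw [← Equiv.sum_comp (eY Y)]
    apply Finset.sum_le_sum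
    intro y _
    refine le_trans (le_of_eq ?_) (card_fixed_le Y y)
    rw [← Nat.card_eq_fintype_card]
    apply Nat.card_congr
    refine ⟨fun b => ⟨b.1, ?_⟩, fun b => ⟨b.1, ?_⟩, fun b => rfl, fun b => rfl⟩
    · have h := b.2
      rw [MulAction.mem_fixedBy] at h
      rw [Subgroup.mem_centralizer_singleton_iff]
      have h' : (y : X) * b.1 * (y : X)⁻¹ = b.1 := h
      exact (mul_inv_eq_iff_eq_mul.1 h').symm
    · rw [MulAction.mem_fixedBy]
      have h := b.2
      rw [Subgroup.mem_centralizer_singleton_iff] at h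
      show (y : X) * b.1 * (y : X)⁻¹ = b.1
      exact mul_inv_eq_iff_eq_mul.2 h.symm
  have hpos : 0 < Nat.card Y := Nat.card_pos
  have : nOrb Y * Nat.card Y ≤ (Y.index * Nat.card (ConjClasses Y)) * Nat.card Y := by
    unfold nOrb
    rw [Nat.card_eq_fintype_card, ← hcard, ← hBurn, hcard, mul_assoc, ← hcomm, hsig, Finset.mul_sum]
    exact hle
  exact Nat.le_of_mul_le_mul_right this hpos

private lemma q_exists (Y : Subgroup X) :
    ∃ q : MulAction.orbitRel.Quotient (Y' Y) X → ConjClasses X, Function.Surjective q ∧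
      (¬ Y.Normal → ¬ Function.Injective q) := by
  have hc : ∀ (a b : X), (MulAction.orbitRel (Y' Y) X).r a b → ConjClasses.mk a = ConjClasses.mk b := by
    rintro a b ⟨g, rfl⟩
    apply ConjClasses.mk_eq_mk_iff_isConj.2
    exact (isConj_iff.2 ⟨ConjAct.ofConjAct g.1, rfl⟩).symm
  refine ⟨Quotient.lift ConjClasses.mk hc, ?_, ?_⟩
  · intro c
    obtain ⟨x, rfl⟩ := ConjClasses.mk_surjective c
    exact ⟨Quotient.mk'' x, rfl⟩
  · intro hn hinj
    apply hn
    constructor
    intro y hy x
    have h1 : (Quotient.mk'' (x * y * x⁻¹) : MulAction.orbitRel.Quotient (Y' Y) X) = Quotient.mk'' y := by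
      apply hinj
      show ConjClasses.mk (x * y * x⁻¹) = ConjClasses.mk y
      apply ConjClasses.mk_eq_mk_iff_isConj.2
      exact (isConj_iff.2 ⟨x, rfl⟩).symm
    have h2 : (MulAction.orbitRel (Y' Y) X).r (x * y * x⁻¹) y := Quotient.exact h1
    obtain ⟨g, hg⟩ := h2
    have h3 : ConjAct.ofConjAct g.1 * y * (ConjAct.ofConjAct g.1)⁻¹ = x * y * x⁻¹ := hg
    rw [← h3]
    have h4 := (mem_Y' Y g.1).1 g.2
    exact Y.mul_mem (Y.mul_mem h4 hy) (Y.inv_mem h4)

theorem result {X : Type*} [Group X] [Finite X] (Y : Subgroup X) : Nat.card (ConjClasses Y) ≤ Y.index * Nat.card (ConjClasses X) ∧ Nat.card (ConjClasses X) ≤ Y.index * Nat.card (ConjClasses Y) ∧ (¬ Y.Normal → Nat.card (ConjClasses X) < Y.index * Nat.card (ConjClasses Y)) := by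
  obtain ⟨q, hs, hni⟩ := q_exists Y
  have hle := Nat.card_le_card_of_surjective q hs
  have h2 := nOrb_mul Y
  refine ⟨first_ineq Y, hle.trans h2, fun hn => lt_of_lt_of_le ?_ h2⟩
  apply lt_of_le_of_ne hle
  intro heq
  exact hni hn (hs.bijective_of_nat_card_le heq.ge).1

end Cfsg.Agent.S4200
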