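import Cfsg.Statements.S4201
import Mathlib
-- import your own Cfsg.Agent.* helpers here

set_option autoImplicit false
open Cfsg

namespace Cfsg.Agent.S4201

open Subgroup

section

variable {X : Type*} [Group X] (N : Subgroup X) [N.Normal]

open Classical in
/-- A chosen element of the coset `b` commuting with `x`. -/
noncomputable def y0 (x : X) (b : X ⧸ N) : X :=
  if h : ∃ y : X, (y : X ⧸ N) = b ∧ Commute x y then h.choose else 1

theorem y0_spec {x y : X} (h : Commute x y) :
    ((y0 N x (y : X ⧸ N) : X) : X ⧸ N) = y ∧ Commute x (y0 N x y) := by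
  have hex : ∃ y' : X, (y' : X ⧸ N) = (y : X ⧸ N) ∧ Commute x y' := ⟨y, rfl, h⟩
  unfold y0
  rw [dif_pos hex]
  exact hex.choose_spec

open Classical in
/-- A chosen element of the coset `a` commuting with `n`. -/
noncomputable def x0 (a : X ⧸ N) (n : X) : X :=
  if h : ∃ x : X, (x : X ⧸ N) = a ∧ Commute x n then h.choose else 1

theorem x0_spec {x n : X} (h : Commute x n) :
    ((x0 N (x : X ⧸ N) n : X) : X ⧸ N) = x ∧ Commute (x0 N x n) n := by
  have hex : ∃ x' : X, (x' : X ⧸ N) = (x : X ⧸ N) ∧ Commute x' n := ⟨x, rfl, h⟩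
  unfold x0
  rw [dif_pos hex]
  exact hex.choose_spec

/-- The `N`-part of the second coordinate. -/
noncomputable def nPart (p : {p : X × X // Commute p.1 p.2}) : X :=
  (y0 N p.1.1 (p.1.2 : X ⧸ N))⁻¹ * p.1.2

/-- The `N`-part of the first coordinate. -/
noncomputable def mPart (p : {p : X × X // Commute p.1 p.2}) : X :=
  (x0 N (p.1.1 : X ⧸ N) (nPart N p))⁻¹ * p.1.1

theorem nPart_mem (p : {p : X × X // Commute p.1 p.2}) : nPart N p ∈ N :=
  QuotientGroup.eq.mp (y0_spec N p.2).1

theorem nPart_comm (p : {p : X × X // Commute p.1 p.2}) : Commute p.1.1 (nPart N p) :=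
  ((y0_spec N p.2).2.inv_right).mul_right p.2

theorem mPart_mem (p : {p : X × X // Commute p.1 p.2}) : mPart N p ∈ N :=
  QuotientGroup.eq.mp (x0_spec N (nPart_comm N p)).1

theorem mPart_comm (p : {p : X × X // Commute p.1 p.2}) : Commute (mPart N p) (nPart N p) :=
  ((x0_spec N (nPart_comm N p)).2.inv_left).mul_left (nPart_comm N p)

/-- The injection on commuting pairs. -/
noncomputable def Phi (p : {p : X × X // Commute p.1 p.2}) :
    {q : N × N // Commute q.1 q.2} × {q : (X ⧸ N) × (X ⧸ N) // Commute q.1 q.2} :=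
  (⟨(⟨mPart N p, mPart_mem N p⟩, ⟨nPart N p, nPart_mem N p⟩),
      Subtype.ext (mPart_comm N p)⟩,
    ⟨((p.1.1 : X ⧸ N), (p.1.2 : X ⧸ N)), by
      show ((p.1.1 : X ⧸ N) * (p.1.2 : X ⧸ N)) = (p.1.2 : X ⧸ N) * (p.1.1 : X ⧸ N)
      rw [← QuotientGroup.mk_mul, ← QuotientGroup.mk_mul, p.2.eq]⟩)

theorem Phi_injective : Function.Injective (Phi N (X := X)) := by
  intro p p' h
  have h1 := congrArg Prod.fst h
  have h2 := congrArg Prod.snd h
  have hm : mPart N p = mPart N p' :=
    congrArg (fun q : {q : N × N // Commute q.1 q.2} => ((q.1.1 : N) : X)) h1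
  have hn : nPart N p = nPart N p' :=
    congrArg (fun q : {q : N × N // Commute q.1 q.2} => ((q.1.2 : N) : X)) h1
  have ha : (p.1.1 : X ⧸ N) = p'.1.1 :=
    congrArg (fun q : {q : (X ⧸ N) × (X ⧸ N) // Commute q.1 q.2} => q.1.1) h2
  have hb : (p.1.2 : X ⧸ N) = p'.1.2 :=
    congrArg (fun q : {q : (X ⧸ N) × (X ⧸ N) // Commute q.1 q.2} => q.1.2) h2
  have hx : p.1.1 = p'.1.1 := by
    have e1 : p.1.1 = x0 N (p.1.1 : X ⧸ N) (nPart N p) * mPart N p := by
      rw [mPart]; group
    have e2 : p'.1.1 = x0 N (p'.1.1 : X ⧸ N) (nPart N p') * mPart N p' := by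
      rw [mPart]; group
    rw [e1, e2, hm, hn, ha]
  have hy : p.1.2 = p'.1.2 := by
    have e1 : p.1.2 = y0 N p.1.1 (p.1.2 : X ⧸ N) * nPart N p := by
      rw [nPart]; group
    have e2 : p'.1.2 = y0 N p'.1.1 (p'.1.2 : X ⧸ N) * nPart N p' := by
      rw [nPart]; group
    rw [e1, e2, hn, hb, hx]
  exact Subtype.ext (Prod.ext hx hy)

end

/-- If N is a normal subgroup of the finite group X then k(X) ≤ k(N)·k(X ⧸ N), where k denotes the number of conjugacy classes. -/
theorem result {X : Type*} [Group X] [Finite X] (N : Subgroup X) [N.Normal] : Nat.card (ConjClasses X) ≤ Nat.card (ConjClasses N) * Nat.card (ConjClasses (X ⧸ N)) := by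
  classical
  have h1 := Nat.card_le_card_of_injective _ (Phi_injective N (X := X))
  rw [Nat.card_prod, card_comm_eq_card_conjClasses_mul_card, card_comm_eq_card_conjClasses_mul_card,
    card_comm_eq_card_conjClasses_mul_card] at h1
  have h2 : Nat.card N * Nat.card (X ⧸ N) = Nat.card X := by
    rw [mul_comm]
    exact (Subgroup.card_eq_card_quotient_mul_card_subgroup N).symm
  have h3 : Nat.card (ConjClasses N) * Nat.card N * (Nat.card (ConjClasses (X ⧸ N)) * Nat.card (X ⧸ N))
      = Nat.card (ConjClasses N) * Nat.card (ConjClasses (X ⧸ N)) * Nat.card X := by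
    rw [← h2]
    ring
  rw [h3] at h1
  exact Nat.le_of_mul_le_mul_right h1 Nat.card_pos

end Cfsg.Agent.S4201
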