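import Cfsg.Statements.S4203
import Mathlib
import Cfsg.Agent.S0144
import Cfsg.Agent.Lib.Solvable.MinimalNormal

set_option autoImplicit false

namespace Cfsg.Agent.S4203

open Subgroup

/-- A coatom `M` containing the normalizer of a Sylow `q`-subgroup has index `≡ 1 mod q`. -/
theorem index_modEq_one {G : Type*} [Group G] [Finite G] {q : ℕ} [Fact q.Prime] (P : Sylow q G)
    (M : Subgroup G) (hM : normalizer ((P : Subgroup G) : Set G) ≤ M) : M.index ≡ 1 [MOD q] := by
  have hPM : (P : Subgroup G) ≤ M := le_normalizer.trans hM
  have h1 : Nat.card (Sylow q G) = (normalizer ((P : Subgroup G) : Set G)).index := P.card_eq_index_normalizer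
  let P' : Sylow q M := P.subtype hPM
  have h2 : Nat.card (Sylow q M) = (normalizer ((P' : Subgroup M) : Set M)).index := P'.card_eq_index_normalizer
  have h3 : normalizer ((P' : Subgroup M) : Set M) = (normalizer ((P : Subgroup G) : Set G)).subgroupOf M := by
    exact (subgroupOf_normalizer_eq hPM).symm
  have h4 : (normalizer ((P : Subgroup G) : Set G)).relIndex M * M.index = (normalizer ((P : Subgroup G) : Set G)).index :=
    relIndex_mul_index hM
  have h5 : Nat.card (Sylow q M) * M.index = Nat.card (Sylow q G) := by
    rw [h2, h3, h1, ← h4]; rfl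
  have h6 : Nat.card (Sylow q G) ≡ 1 [MOD q] := card_sylow_modEq_one q G
  have h7 : Nat.card (Sylow q M) ≡ 1 [MOD q] := card_sylow_modEq_one q M
  have h8 : Nat.card (Sylow q M) * M.index ≡ 1 * M.index [MOD q] := h7.mul_right _
  rw [one_mul, h5] at h8
  exact h8.symm.trans h6

/-- A finite group in which every maximal subgroup has index a prime or the square of a prime is solvable. -/
theorem result {G : Type*} [Group G] [Finite G] (h : ∀ M : Subgroup G, IsCoatom M → ∃ p : ℕ, p.Prime ∧ (M.index = p ∨ M.index = p ^ 2)) : Group.IsSolvable G := by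
  classical
  induction hn : Nat.card G using Nat.strong_induction_on generalizing G with
  | _ n ih =>
  rcases subsingleton_or_nontrivial G with hs | hnt
  · infer_instance
  have hn0 : Nat.card G ≠ 0 := Nat.card_pos.ne'
  have hn1 : Nat.card G ≠ 1 := Finite.one_lt_card.ne'
  -- the largest prime dividing the order
  let S := (Nat.card G).primeFactors
  have hS : S.Nonempty := Nat.nonempty_primeFactors.mpr Finite.one_lt_card
  let q := S.max' hS
  have hqS : q ∈ S := S.max'_mem hS
  have hq : q.Prime := Nat.prime_of_mem_primeFactors hqS
  have hqdvd : q ∣ Nat.card G := Nat.dvd_of_mem_primeFactors hqS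
  have hqmax : ∀ r : ℕ, r.Prime → r ∣ Nat.card G → r ≤ q := by
    intro r hr hrd
    exact S.le_max' r (Nat.mem_primeFactors.mpr ⟨hr, hrd, hn0⟩)
  haveI : Fact q.Prime := ⟨hq⟩
  obtain ⟨P⟩ : Nonempty (Sylow q G) := inferInstance
  by_cases hPn : normalizer ((P : Subgroup G) : Set G) = ⊤
  · -- normal Sylow: quotient
    haveI hPnorm : (P : Subgroup G).Normal := normalizer_eq_top_iff.mp hPn
    have hne : (P : Subgroup G) ≠ ⊥ := by
      intro hbot
      have := P.card_eq_multiplicity
      rw [hbot, card_bot] at this
      have h1 : 0 < (Nat.card G).factorization q :=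
        Nat.Prime.factorization_pos_of_dvd hq hn0 hqdvd
      have h2 : 1 < q ^ (Nat.card G).factorization q := Nat.one_lt_pow h1.ne' hq.one_lt
      omega
    have hlt := Cfsg.Agent.Lib.Solvable.MinimalNormal.card_quotient_lt (P : Subgroup G) hne
    have hquot : Group.IsSolvable (G ⧸ (P : Subgroup G)) := by
      refine ih _ (hn ▸ hlt) (G := G ⧸ (P : Subgroup G)) ?_ rfl
      intro M hM
      have hsurj := QuotientGroup.mk'_surjective (P : Subgroup G)
      obtain ⟨p, hp, hor⟩ := h (M.comap (QuotientGroup.mk' (P : Subgroup G)))
        (isCoatom_comap_of_surjective hsurj hM)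
      rw [index_comap_of_surjective M hsurj] at hor
      exact ⟨p, hp, hor⟩
    haveI hPsolv : Group.IsSolvable (P : Subgroup G) := by
      haveI : Group.IsNilpotent (P : Subgroup G) := P.isPGroup'.isNilpotent
      infer_instance
    exact Group.isSolvable_of_ker_le_range ((P : Subgroup G).subtype) (QuotientGroup.mk' (P : Subgroup G))
      (by simp)
  · -- non-normal
    obtain ⟨M, hM, hPM⟩ : ∃ M : Subgroup G, IsCoatom M ∧ normalizer ((P : Subgroup G) : Set G) ≤ M :=
      (eq_top_or_exists_le_coatom _).resolve_left hPn
    obtain ⟨r, hr, hor⟩ := h M hM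
    have hmod := index_modEq_one P M hPM
    have hdvdG : M.index ∣ Nat.card G := M.index_dvd_card
    have hrd : r ∣ Nat.card G := by
      rcases hor with e | e
      · rwa [e] at hdvdG
      · rw [e] at hdvdG
        exact (dvd_pow_self r two_ne_zero).trans hdvdG
    have hrq := hqmax r hr hrd
    rcases hor with e | e
    · exfalso
      rw [e] at hmod
      have h1 : q ∣ r - 1 := (Nat.modEq_iff_dvd' hr.one_le).mp hmod.symm
      have h2 : 0 < r - 1 := Nat.sub_pos_of_lt hr.one_lt
      have := Nat.le_of_dvd h2 h1
      have := hr.one_lt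
      omega
    · rw [e] at hmod
      have h1 : q ∣ r ^ 2 - 1 := (Nat.modEq_iff_dvd' (Nat.one_le_pow _ _ hr.pos)).mp hmod.symm
      have h2 : r ^ 2 - 1 = (r + 1) * (r - 1) := by
        have := Nat.sq_sub_sq r 1
        simpa using this
      rw [h2] at h1
      rcases (Nat.Prime.dvd_mul hq).mp h1 with h3 | h3
      · -- q ∣ r + 1
        have hle := Nat.le_of_dvd (Nat.succ_pos r) h3
        obtain ⟨c, hc⟩ := h3
        have hq2 := hq.two_le
        have hr2 := hr.two_le
        have hc1 : c = 1 := by
          rcases c with _ | _ | c
          · simp at hc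
          · rfl
          · exfalso
            have : q * (c + 1 + 1) = q * c + 2 * q := by ring
            have hq0 : 0 ≤ q * c := Nat.zero_le _
            omega
        subst hc1
        have hqr : q = r + 1 := by omega
        have hr2' : r = 2 := by
          rcases hr.eq_two_or_odd' with h | h
          · exact h
          · exfalso
            have : Even q := by rw [hqr]; exact h.add_one
            have := hq.even_iff.mp this
            omega
        have hq3 : q = 3 := by omega
        -- so |G| = 2^a 3^b
        obtain ⟨a, m, hm, hma⟩ := Nat.exists_eq_pow_mul_and_not_dvd hn0 3 (by norm_num)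
        obtain ⟨b, m', hm', hmb⟩ := Nat.exists_eq_pow_mul_and_not_dvd
          (n := m) (by rintro rfl; simp at hm) 2 (by norm_num)
        have hm'1 : m' = 1 := by
          by_contra hne
          obtain ⟨t, ht, htd⟩ := Nat.exists_prime_and_dvd hne
          have htG : t ∣ Nat.card G := by
            rw [hma, hmb]
            exact (htd.trans (dvd_mul_left _ _)).trans (dvd_mul_left _ _)
          have htle := hqmax t ht htG
          have ht2 := ht.two_le
          have ht23 : t = 2 ∨ t = 3 := by omega
          rcases ht23 with rfl | rfl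
          · exact hm' htd
          · apply hm
            rw [hmb]
            exact htd.trans (dvd_mul_left _ _)
        refine Cfsg.Agent.S0144.result 2 3 b a Nat.prime_two Nat.prime_three ?_
        rw [hma, hmb, hm'1]; ring
      · exfalso
        have h4 : 0 < r - 1 := Nat.sub_pos_of_lt hr.one_lt
        have := Nat.le_of_dvd h4 h3
        have := hr.one_lt
        omega

end Cfsg.Agent.S4203
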