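import Cfsg.Statements.S4204
import Mathlib

set_option autoImplicit false
open Cfsg
open scoped commutatorElement

namespace Cfsg.Agent.S4204

variable {G : Type*} [Group G]

/-- Elements `a` with `⁅a, s⁆ ∈ T` for all `s ∈ S` form a subgroup when `T` is normal. -/
def commSub (S T : Subgroup G) [hT : T.Normal] : Subgroup G where
  carrier := {a | ∀ s ∈ S, ⁅a, s⁆ ∈ T}
  one_mem' := by
    intro s _
    show ⁅(1 : G), s⁆ ∈ T
    rw [commutatorElement_one_left]
    exact T.one_mem
  mul_mem' := by
    intro a b ha hb s hs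
    rw [commutatorElement_mul_left_eq_conj_mul]
    exact T.mul_mem (hT.conj_mem _ (hb s hs) a) (ha s hs)
  inv_mem' := by
    intro a ha s hs
    rw [commutatorElement_inv_left]
    have h1 : ⁅s, a⁆ ∈ T := by
      rw [← commutatorElement_inv]
      exact T.inv_mem (ha s hs)
    have := hT.conj_mem _ h1 a⁻¹
    simpa [mul_assoc] using this

theorem le_commSub_iff (A S T : Subgroup G) [T.Normal] : A ≤ commSub S T ↔ ⁅A, S⁆ ≤ T := by
  rw [Subgroup.commutator_le]
  exact Iff.rfl

theorem commutator_iSup_left_le {ι : Sort*} (A : ι → Subgroup G) (S T : Subgroup G) [T.Normal]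
    (h : ∀ i, ⁅A i, S⁆ ≤ T) : ⁅⨆ i, A i, S⁆ ≤ T := by
  rw [← le_commSub_iff]
  exact iSup_le fun i => (le_commSub_iff _ _ _).2 (h i)

theorem commutator_sup_left_le (A B S T : Subgroup G) [T.Normal]
    (h1 : ⁅A, S⁆ ≤ T) (h2 : ⁅B, S⁆ ≤ T) : ⁅A ⊔ B, S⁆ ≤ T := by
  rw [← le_commSub_iff]
  exact sup_le ((le_commSub_iff _ _ _).2 h1) ((le_commSub_iff _ _ _).2 h2)

theorem commutator_sup_right_le (A B S T : Subgroup G) [T.Normal]
    (h1 : ⁅S, A⁆ ≤ T) (h2 : ⁅S, B⁆ ≤ T) : ⁅S, A ⊔ B⁆ ≤ T := by
  rw [Subgroup.commutator_comm]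
  exact commutator_sup_left_le A B S T (by rwa [Subgroup.commutator_comm]) (by rwa [Subgroup.commutator_comm])

/-- The shifted lower central series: `⊤, H, [H,H], ...`. -/
def shifted (H : Subgroup G) : ℕ → Subgroup G
  | 0 => ⊤
  | i + 1 => H.lowerCentralSeries i

instance shifted_normal (H : Subgroup G) [H.Normal] (i : ℕ) : (shifted H i).Normal := by
  cases i with
  | zero => exact inferInstanceAs (⊤ : Subgroup G).Normal
  | succ i => exact inferInstanceAs (H.lowerCentralSeries i).Normal

theorem shifted_comm (H : Subgroup G) [H.Normal] (i : ℕ) : ⁅shifted H i, H⁆ ≤ shifted H (i + 1) := by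
  cases i with
  | zero =>
    show ⁅(⊤ : Subgroup G), H⁆ ≤ H
    exact Subgroup.commutator_le_right _ _
  | succ i => exact le_rfl

/-- The normal subgroup `⨆_{i+j=n} H' i ⊓ K' j`, as a normal closure free `iSup`. -/
def layer (H K : Subgroup G) (n : ℕ) : Subgroup G :=
  ⨆ p : {p : ℕ × ℕ // p.1 + p.2 = n}, shifted H p.1.1 ⊓ shifted K p.1.2

instance layer_normal (H K : Subgroup G) [H.Normal] [K.Normal] (n : ℕ) : (layer H K n).Normal := by
  have key : ∀ g : G, (layer H K n).map (MulAut.conj g).toMonoidHom ≤ layer H K n := by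
    intro g
    unfold layer
    rw [Subgroup.map_iSup]
    refine iSup_le fun p => ?_
    refine le_trans ?_ (le_iSup _ p)
    rintro _ ⟨x, hx, rfl⟩
    refine ⟨?_, ?_⟩
    · exact (inferInstance : (shifted H p.1.1).Normal).conj_mem x hx.1 g
    · exact (inferInstance : (shifted K p.1.2).Normal).conj_mem x hx.2 g
  constructor
  intro x hx g
  exact key g ⟨x, hx, rfl⟩

theorem le_layer (H K : Subgroup G) {i j n : ℕ} (h : i + j = n) :
    shifted H i ⊓ shifted K j ≤ layer H K n :=
  le_iSup (fun p : {p : ℕ × ℕ // p.1 + p.2 = n} => shifted H p.1.1 ⊓ shifted K p.1.2) ⟨(i, j), h⟩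

theorem lcs_sup_le_layer (H K : Subgroup G) [H.Normal] [K.Normal] (n : ℕ) :
    (H ⊔ K).lowerCentralSeries n ≤ layer H K (n + 1) := by
  induction n with
  | zero =>
    rw [Subgroup.lowerCentralSeries_zero]
    refine sup_le ?_ ?_
    · have := le_layer H K (i := 1) (j := 0) (n := 1) rfl
      simpa [shifted] using this
    · have := le_layer H K (i := 0) (j := 1) (n := 1) rfl
      simpa [shifted] using this
  | succ n ih =>
    rw [Subgroup.lowerCentralSeries_succ]
    refine le_trans (Subgroup.commutator_mono ih le_rfl) ?_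
    unfold layer
    conv_lhs => rw [show (⨆ p : {p : ℕ × ℕ // p.1 + p.2 = n + 1}, shifted H p.1.1 ⊓ shifted K p.1.2) = layer H K (n+1) from rfl]
    change ⁅layer H K (n + 1), H ⊔ K⁆ ≤ layer H K (n + 1 + 1)
    refine commutator_iSup_left_le _ _ _ ?_
    rintro ⟨⟨i, j⟩, hij⟩
    simp only at hij
    refine commutator_sup_right_le H K _ _ ?_ ?_
    · refine le_trans ?_ (le_layer H K (i := i + 1) (j := j) (by omega))
      refine le_inf ?_ ?_
      · exact le_trans (Subgroup.commutator_mono inf_le_left le_rfl) (shifted_comm H i)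
      · exact le_trans (Subgroup.commutator_mono inf_le_right le_rfl) (Subgroup.commutator_le_left _ _)
    · refine le_trans ?_ (le_layer H K (i := i) (j := j + 1) (by omega))
      refine le_inf ?_ ?_
      · exact le_trans (Subgroup.commutator_mono inf_le_left le_rfl) (Subgroup.commutator_le_left _ _)
      · exact le_trans (Subgroup.commutator_mono inf_le_right le_rfl) (shifted_comm K j)

/-- If `H` and `K` are normal subgroups of a finite group with `H` nilpotent of class at most `c` and `K` nilpotent of class at most `d` (the terms with index `c`, respectively `d`, of their lower central series are trivial, indices starting at `0`), then `HK` is nilpotent of class at most `c + d`. -/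
theorem result {G : Type*} [Group G] [Finite G] (H K : Subgroup G) [H.Normal] [K.Normal] (c d : ℕ) (hH : H.lowerCentralSeries c = ⊥) (hK : K.lowerCentralSeries d = ⊥) : (H ⊔ K).lowerCentralSeries (c + d) = ⊥ := by
  rw [eq_bot_iff]
  refine le_trans (lcs_sup_le_layer H K (c + d)) ?_
  unfold layer
  refine iSup_le ?_
  rintro ⟨⟨i, j⟩, hij⟩
  simp only at hij
  by_cases hi : c + 1 ≤ i
  · obtain ⟨i', rfl⟩ : ∃ i', i = i' + 1 := ⟨i - 1, by omega⟩
    have : shifted H (i' + 1) = ⊥ := by
      show H.lowerCentralSeries i' = ⊥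
      rw [eq_bot_iff, ← hH]
      exact Subgroup.lowerCentralSeries_antitone H (by omega)
    simp only [this, bot_inf_eq, le_refl]
  · obtain ⟨j', rfl⟩ : ∃ j', j = j' + 1 := ⟨j - 1, by omega⟩
    have : shifted K (j' + 1) = ⊥ := by
      show K.lowerCentralSeries j' = ⊥
      rw [eq_bot_iff, ← hK]
      exact Subgroup.lowerCentralSeries_antitone K (by omega)
    simp only [this, inf_bot_eq, le_refl]

end Cfsg.Agent.S4204
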