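import Cfsg.Statements.S4205
import Mathlib

set_option autoImplicit false
open Cfsg
open scoped commutatorElement

namespace Cfsg.Agent.S4205

/-- In a finite group whose upper central series reaches the whole group at step `c` (nilpotent of class at most `c`), starting from any subgroup and taking normalizers `c` times reaches the whole group. -/
theorem result {G : Type*} [Group G] [Finite G] (c : ℕ) (hG : Subgroup.upperCentralSeries G c = ⊤) (H : Subgroup G) : (fun K : Subgroup G => Subgroup.normalizer (K : Set G))^[c] H = ⊤ := by
  have key : ∀ n : ℕ, Subgroup.upperCentralSeries G n ≤ (fun K : Subgroup G => Subgroup.normalizer (K : Set G))^[n] H := by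
    intro n
    induction n with
    | zero => simp [Subgroup.upperCentralSeries_zero]
    | succ n ih =>
      rw [Function.iterate_succ_apply']
      intro x hx
      rw [Subgroup.mem_normalizer_iff]
      intro y
      set K := (fun K : Subgroup G => Subgroup.normalizer (K : Set G))^[n] H with hK
      have hxy : x * y * x⁻¹ * y⁻¹ ∈ K := ih ((Subgroup.mem_upperCentralSeries_succ_iff).1 hx y)
      have hinv : x⁻¹ ∈ Subgroup.upperCentralSeries G (n + 1) := Subgroup.inv_mem _ hx
      have hxy' : ∀ z, x⁻¹ * z * x * z⁻¹ ∈ K := by
        intro z
        have := ih ((Subgroup.mem_upperCentralSeries_succ_iff).1 hinv z)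
        simpa [commutatorElement_def] using this
      constructor
      · intro hy
        have : x * y * x⁻¹ = (x * y * x⁻¹ * y⁻¹) * y := by group
        rw [this]
        exact K.mul_mem hxy hy
      · intro hy
        have h1 : y = (x⁻¹ * (x * y * x⁻¹) * x * (x * y * x⁻¹)⁻¹) * (x * y * x⁻¹) := by group
        rw [h1]
        exact K.mul_mem (hxy' _) hy
  exact eq_top_iff.2 (by rw [← hG]; exact key c)

end Cfsg.Agent.S4205
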