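import Cfsg.Statements.S4208
import Mathlib
import Cfsg.Agent.Lib.PGroup.FrattiniBasis

set_option autoImplicit false
open Cfsg

namespace Cfsg.Agent.S4208

/-- Let `P` be a group of order `p^n` whose Frattini subgroup has index `p^r`. Then the order of the automorphism group of `P` divides `p^(r(n-r)) · (p^r - 1)(p^r - p) ⋯ (p^r - p^(r-1))`. -/
theorem result {P : Type*} [Group P] [Finite P] {p n r : ℕ} [Fact p.Prime] (hP : Nat.card P = p ^ n) (hr : (frattini P).index = p ^ r) : Nat.card (MulAut P) ∣ p ^ (r * (n - r)) * ∏ i ∈ Finset.range r, (p ^ r - p ^ i) := by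
  have hG : IsPGroup p P := IsPGroup.of_card hP
  obtain ⟨hΦ, hrn⟩ := Cfsg.Agent.Lib.PGroup.FrattiniBasis.card_frattini_eq hP hr
  have hc := Cfsg.Agent.Lib.PGroup.FrattiniBasis.card_generating_tuples hG hr
  have hdvd := Cfsg.Agent.Lib.PGroup.FrattiniBasis.card_subgroup_dvd_of_tuples
    (⊤ : Subgroup (MulAut P)) {y : Fin r → P | Subgroup.closure (Set.range y) = ⊤}
    (by
      intro α _ y hy
      have h1 : Subgroup.closure (Set.range fun i => α (y i)) =
          (Subgroup.closure (Set.range y)).map α.toMonoidHom := by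
        rw [MonoidHom.map_closure, ← Set.range_comp]
        rfl
      show Subgroup.closure (Set.range fun i => α (y i)) = ⊤
      have hy' : Subgroup.closure (Set.range y) = ⊤ := hy
      rw [h1, hy', Subgroup.map_top_of_surjective]
      exact α.surjective)
    (fun y hy => hy)
  rw [Subgroup.card_top] at hdvd
  have h2 : Nat.card {y : Fin r → P | Subgroup.closure (Set.range y) = ⊤} =
      p ^ (r * (n - r)) * ∏ i ∈ Finset.range r, (p ^ r - p ^ i) := by
    have := hc
    rw [hΦ, ← pow_mul, mul_comm (n - r) r, mul_comm] at this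
    exact this
  rwa [h2] at hdvd

end Cfsg.Agent.S4208
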