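import Mathlib
import Cfsg.Prelude.Def_Transfer
import Cfsg.Agent.Lib.PGroup.PowZ

set_option autoImplicit false

namespace Cfsg.Agent.S4211

open Subgroup Cfsg.Agent.Lib.PGroup.PowZ

section General

variable {G : Type*} [Group G]

theorem comm_mem_left (hn : ∀ H : Subgroup G, H.Normal) (x y : G) :
    x * y * x⁻¹ * y⁻¹ ∈ zpowers x := by
  have h1 : y * x * y⁻¹ ∈ zpowers x := (hn (zpowers x)).conj_mem x (mem_zpowers x) y
  have e : x * y * x⁻¹ * y⁻¹ = x * (y * x * y⁻¹)⁻¹ := by group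
  rw [e]
  exact mul_mem (mem_zpowers x) (inv_mem h1)

theorem comm_mem_right (hn : ∀ H : Subgroup G, H.Normal) (x y : G) :
    x * y * x⁻¹ * y⁻¹ ∈ zpowers y :=
  mul_mem ((hn (zpowers y)).conj_mem y (mem_zpowers y) x) (inv_mem (mem_zpowers y))

theorem commute_of_mem_zpowers {c x : G} (h : c ∈ zpowers x) : Commute c x := by
  obtain ⟨k, rfl⟩ := h
  exact (Commute.refl x).zpow_left k

/-- Commutator of a power. -/
theorem pow_comm_id {x y c : G} (hc : x * y * x⁻¹ * y⁻¹ = c) (hcx : Commute c x)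
    (k : ℕ) : x ^ k * y * (x ^ k)⁻¹ * y⁻¹ = c ^ k := by
  induction k with
  | zero => simp
  | succ k ih =>
    have e : x ^ (k + 1) * y * (x ^ (k + 1))⁻¹ * y⁻¹ =
        x * (x ^ k * y * (x ^ k)⁻¹ * y⁻¹) * (y * x⁻¹ * y⁻¹) := by
      rw [pow_succ', mul_inv_rev]
      group
    rw [e, ih, ← (hcx.pow_left k).eq, pow_succ]
    rw [← hc]
    group

/-- Moving a power across. -/
theorem pow_mul_of_central {b z s : G} (h3 : z * b = s * b * z) (h2 : Commute s z) (n : ℕ) :
    z ^ n * b = s ^ n * b * z ^ n := by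
  induction n with
  | zero => simp
  | succ n ih =>
    calc z ^ (n + 1) * b = z ^ n * (z * b) := by rw [pow_succ, mul_assoc]
      _ = z ^ n * (s * b * z) := by rw [h3]
      _ = (z ^ n * s) * b * z := by group
      _ = (s * z ^ n) * b * z := by rw [(h2.pow_right n).eq]
      _ = s * (z ^ n * b) * z := by group
      _ = s * (s ^ n * b * z ^ n) * z := by rw [ih]
      _ = s ^ (n + 1) * b * z ^ (n + 1) := by rw [pow_succ', pow_succ z]; group

/-- The class two power formula. -/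
theorem mul_pow_central {b z s : G} (h1 : Commute s b) (h2 : Commute s z) (h3 : z * b = s * b * z)
    (n : ℕ) : (b * z) ^ n = b ^ n * z ^ n * s ^ (n.choose 2) := by
  induction n with
  | zero => simp
  | succ n ih =>
    have hch : (n + 1).choose 2 = n + n.choose 2 := by
      rw [Nat.choose_succ_succ' n 1, Nat.choose_one_right]
    have hc1 : Commute (s ^ (n.choose 2)) b := h1.pow_left _
    have hc2 : Commute (s ^ n) b := h1.pow_left _
    have hc3 : Commute (s ^ (n.choose 2)) z := h2.pow_left _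
    have hc4 : Commute (s ^ n) (b ^ n) := h1.pow_pow _ _
    calc (b * z) ^ (n + 1) = (b * z) ^ n * (b * z) := pow_succ _ _
      _ = b ^ n * z ^ n * s ^ (n.choose 2) * (b * z) := by rw [ih]
      _ = b ^ n * z ^ n * (s ^ (n.choose 2) * b) * z := by group
      _ = b ^ n * z ^ n * (b * s ^ (n.choose 2)) * z := by rw [hc1.eq]
      _ = b ^ n * (z ^ n * b) * s ^ (n.choose 2) * z := by group
      _ = b ^ n * (s ^ n * b * z ^ n) * s ^ (n.choose 2) * z := by
        rw [pow_mul_of_central h3 h2 n]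
      _ = (b ^ n * s ^ n) * b * z ^ n * (s ^ (n.choose 2) * z) := by group
      _ = (s ^ n * b ^ n) * b * z ^ n * (z * s ^ (n.choose 2)) := by rw [hc4.eq, hc3.eq]
      _ = s ^ n * (b ^ n * b) * (z ^ n * z) * s ^ (n.choose 2) := by group
      _ = s ^ n * b ^ (n + 1) * z ^ (n + 1) * s ^ (n.choose 2) := by rw [pow_succ, pow_succ z]
      _ = (s ^ n * b ^ (n + 1)) * z ^ (n + 1) * s ^ (n.choose 2) := by group
      _ = (b ^ (n + 1) * s ^ n) * z ^ (n + 1) * s ^ (n.choose 2) := by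
        rw [(h1.pow_pow n (n + 1)).eq]
      _ = b ^ (n + 1) * (s ^ n * z ^ (n + 1)) * s ^ (n.choose 2) := by group
      _ = b ^ (n + 1) * (z ^ (n + 1) * s ^ n) * s ^ (n.choose 2) := by
        rw [(h2.pow_pow n (n + 1)).eq]
      _ = b ^ (n + 1) * z ^ (n + 1) * (s ^ n * s ^ (n.choose 2)) := by group
      _ = _ := by rw [hch, pow_add s]

end General

/-- Arithmetic of the binomial coefficient. -/
theorem arith_choose {p e : ℕ} (hp : p.Prime) (h : ¬ p ∣ (p ^ e).choose 2) : p = 2 ∧ e = 1 := by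
  rcases e with _ | e
  · simp at h
  have h2 : 2 * (p ^ (e + 1)).choose 2 = p ^ (e + 1) * (p ^ (e + 1) - 1) := by
    rw [Nat.choose_two_right]
    exact Nat.mul_div_cancel' (Nat.even_mul_pred_self _).two_dvd
  have hp2 : p = 2 := by
    by_contra hne
    have hcop : Nat.Coprime p 2 := (Nat.coprime_primes hp Nat.prime_two).mpr hne
    apply h
    apply hcop.dvd_of_dvd_mul_left
    rw [h2, pow_succ]
    exact Dvd.dvd.mul_right (Dvd.intro_left _ rfl) _
  subst hp2
  refine ⟨rfl, ?_⟩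
  have h3 : (2 ^ (e + 1)).choose 2 = 2 ^ e * (2 ^ (e + 1) - 1) := by
    have : 2 * (2 ^ (e + 1)).choose 2 = 2 * (2 ^ e * (2 ^ (e + 1) - 1)) := by
      rw [h2, pow_succ]
      ring_nf
    omega
  rw [h3] at h
  rcases e with _ | e
  · rfl
  · exfalso
    apply h
    rw [pow_succ]
    exact Dvd.dvd.mul_right (Dvd.intro_left _ rfl) _

section Minimal

variable {G : Type*} [Group G] [Finite G]

/-- Minimal non-commuting pair: the order of each is a power of the prime order of the commutator. -/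
theorem pair_prime_power (hn : ∀ H : Subgroup G, H.Normal) {a b : G} (hab : ¬ Commute a b)
    (hmin : ∀ x y : G, ¬ Commute x y → orderOf a + orderOf b ≤ orderOf x + orderOf y) :
    (orderOf (a * b * a⁻¹ * b⁻¹)).Prime ∧ ∃ α : ℕ, 1 ≤ α ∧ orderOf a = orderOf (a * b * a⁻¹ * b⁻¹) ^ α := by
  set c := a * b * a⁻¹ * b⁻¹ with hc
  have hcx : Commute c a := commute_of_mem_zpowers (comm_mem_left hn a b)
  have hc1 : c ≠ 1 := by
    intro h
    apply hab
    have : a * b * a⁻¹ * b⁻¹ = 1 := h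
    rw [commute_iff_eq]
    have h2 : a * b * a⁻¹ = b := by
      rw [mul_inv_eq_iff_eq_mul] at this
      simpa using this
    rw [mul_inv_eq_iff_eq_mul] at h2
    exact h2
  have hne : orderOf a ≠ 0 := (orderOf_pos a).ne'
  have hne1 : orderOf a ≠ 1 := by
    intro h
    rw [orderOf_eq_one_iff] at h
    apply hab
    rw [h]
    exact Commute.one_left b
  have key : ∀ r : ℕ, r.Prime → r ∣ orderOf a → orderOf c = r := by
    intro r hr hrd
    haveI : Fact r.Prime := ⟨hr⟩
    have hlt : orderOf (a ^ r) < orderOf a := by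
      rw [orderOf_pow_of_dvd hr.ne_zero hrd]
      exact Nat.div_lt_self (orderOf_pos a) hr.one_lt
    have hcomm : Commute (a ^ r) b := by
      by_contra hcon
      have := hmin _ _ hcon
      omega
    have h1 := pow_comm_id (x := a) (y := b) (c := c) rfl hcx r
    have h2 : a ^ r * b * (a ^ r)⁻¹ * b⁻¹ = 1 := by
      rw [hcomm.eq]
      group
    rw [h2] at h1
    exact orderOf_eq_prime h1.symm hc1
  have hprime : (orderOf c).Prime := by
    have h3 := key _ (Nat.minFac_prime hne1) (Nat.minFac_dvd _)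
    rw [h3]
    exact Nat.minFac_prime hne1
  refine ⟨hprime, (orderOf a).primeFactorsList.length, ?_, ?_⟩
  · by_contra hlt
    have hzero : (orderOf a).primeFactorsList.length = 0 := by omega
    have := Nat.eq_prime_pow_of_unique_prime_dvd (p := orderOf c) hne (fun {d} hd hdd => (key d hd hdd).symm)
    rw [hzero, pow_zero] at this
    exact hne1 this
  · exact Nat.eq_prime_pow_of_unique_prime_dvd hne (fun {d} hd hdd => (key d hd hdd).symm)

/-- An element of order two in the cyclic group generated by an element of order four. -/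
theorem sq_eq_of_mem {x c : G} (hx : orderOf x = 4) (hc : c ∈ zpowers x) (hc2 : c ^ 2 = 1)
    (hc1 : c ≠ 1) : x ^ 2 = c := by
  have hc' : c ∈ Submonoid.powers x := by rwa [mem_powers_iff_mem_zpowers]
  obtain ⟨i, hi⟩ := hc'
  have hi' : x ^ i = c := hi
  subst hi'
  have h1 : 4 ∣ i * 2 := by
    rw [← hx]
    apply orderOf_dvd_of_pow_eq_one
    rw [pow_mul]
    exact hc2
  have h2 : 2 ∣ i := by omega
  have hx4 : x ^ 4 = 1 := by rw [← hx]; exact pow_orderOf_eq_one x
  obtain ⟨k, rfl⟩ := h2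
  rcases Nat.even_or_odd' k with ⟨m, rfl | rfl⟩
  · exfalso
    apply hc1
    rw [show 2 * (2 * m) = 4 * m by ring, pow_mul, hx4, one_pow]
  · rw [show 2 * (2 * m + 1) = 4 * m + 2 by ring, pow_add, pow_mul, hx4, one_pow, one_mul]

/-- The main computation. -/
theorem main_case (hn : ∀ H : Subgroup G, H.Normal) {a b : G} (hab : ¬ Commute a b)
    (hmin : ∀ x y : G, ¬ Commute x y → orderOf a + orderOf b ≤ orderOf x + orderOf y)
    (hle : orderOf b ≤ orderOf a) :
    orderOf a = 4 ∧ orderOf b = 4 ∧ a ^ 2 = a * b * a⁻¹ * b⁻¹ ∧ b ^ 2 = a * b * a⁻¹ * b⁻¹ := by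
  obtain ⟨hp, α, hα1, hα⟩ := pair_prime_power hn hab hmin
  have hba : ¬ Commute b a := fun h => hab h.symm
  have hminb : ∀ x y : G, ¬ Commute x y → orderOf b + orderOf a ≤ orderOf x + orderOf y := by
    intro x y hxy
    have := hmin x y hxy
    omega
  obtain ⟨-, β, hβ1, hβ⟩ := pair_prime_power hn hba hminb
  set c := a * b * a⁻¹ * b⁻¹ with hc
  have hc' : b * a * b⁻¹ * a⁻¹ = c⁻¹ := by
    rw [hc]; group
  rw [hc', orderOf_inv] at hβ
  set p := orderOf c with hpdef
  haveI : Fact p.Prime := ⟨hp⟩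
  have hcp : c ^ p = 1 := by rw [hpdef]; exact pow_orderOf_eq_one c
  have hcx : Commute c a := commute_of_mem_zpowers (comm_mem_left hn a b)
  have hcy : Commute c b := commute_of_mem_zpowers (comm_mem_right hn a b)
  have hc1 : c ≠ 1 := by
    intro h
    rw [h, orderOf_one] at hpdef
    exact hp.one_lt.ne' hpdef
  have hαβ : β ≤ α := by
    rw [hα, hβ] at hle
    exact (Nat.pow_le_pow_iff_right hp.one_lt).mp hle
  set n := p ^ (β - 1) with hn_def
  have hnpos : 0 < n := pow_pos hp.pos _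
  have hbn : orderOf b = n * p := by
    rw [hβ, hn_def, ← pow_succ]
    congr 1
    omega
  -- `b ^ n` is a power of `c`
  have hbnp : (b ^ n) ^ p = 1 := by
    rw [← pow_mul, ← hbn, pow_orderOf_eq_one]
  have hbn1 : b ^ n ≠ 1 := by
    intro h
    have h1 := Nat.le_of_dvd hnpos (orderOf_dvd_of_pow_eq_one h)
    rw [hbn] at h1
    have := Nat.le_mul_of_pos_right n hp.pos
    nlinarith [hp.two_le]
  have hobn : orderOf (b ^ n) = p := orderOf_eq_prime hbnp hbn1
  obtain ⟨m, hm⟩ : ∃ m : ℕ, c ^ m = b ^ n := by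
    have hcb : c ∈ Submonoid.powers b := by
      rw [mem_powers_iff_mem_zpowers]
      exact comm_mem_right hn a b
    obtain ⟨i, hi₀⟩ := hcb
    have hi : b ^ i = c := hi₀
    clear hi₀
    have h1 : n * p ∣ i * p := by
      rw [← hbn]
      apply orderOf_dvd_of_pow_eq_one
      rw [pow_mul, hi, hcp]
    obtain ⟨i', rfl⟩ := Nat.dvd_of_mul_dvd_mul_right hp.pos h1
    have hcop : Nat.Coprime i' (orderOf (b ^ n)) := by
      rw [hobn, Nat.coprime_comm, hp.coprime_iff_not_dvd]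
      rintro ⟨k, rfl⟩
      apply hc1
      rw [← hi, pow_mul, pow_mul, hbnp, one_pow]
    obtain ⟨m, hm⟩ := exists_pow_eq_self_of_coprime hcop
    refine ⟨m, ?_⟩
    rw [← hi, pow_mul]
    exact hm
  -- so it is a power of `a`
  obtain ⟨l, hl⟩ : ∃ l : ℕ, ((a ^ l) ^ n = b ^ n) ∧ ∃ j, l = p ^ (α - β) * j := by
    have hcm : b ^ n ∈ Submonoid.powers a := by
      rw [mem_powers_iff_mem_zpowers, ← hm]
      exact pow_mem (comm_mem_left hn a b) m
    obtain ⟨i, hi⟩ := hcm
    have h1 : p ^ (α - 1) * p ∣ i * p := by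
      rw [← pow_succ, show α - 1 + 1 = α by omega, ← hα]
      apply orderOf_dvd_of_pow_eq_one
      rw [pow_mul]
      have hi' : a ^ i = b ^ n := hi
      rw [hi', hbnp]
    obtain ⟨j, rfl⟩ := Nat.dvd_of_mul_dvd_mul_right hp.pos h1
    refine ⟨p ^ (α - β) * j, ?_, j, rfl⟩
    rw [← pow_mul, ← hi]
    congr 1
    rw [hn_def, show α - 1 = (α - β) + (β - 1) by omega, pow_add]
    ring
  obtain ⟨hl1, j, hj⟩ := hl
  set z := a ^ l with hz
  have hza : Commute z a := (Commute.refl a).pow_left l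
  -- the element `t`
  have htcomm : ¬ Commute a (b * z⁻¹) := by
    intro h
    apply hab
    have h1 : a * (b * z⁻¹) = b * z⁻¹ * a := h
    have h2 : z⁻¹ * a = a * z⁻¹ := (hza.inv_left).eq
    rw [mul_assoc b, h2, ← mul_assoc, ← mul_assoc] at h1
    exact mul_right_cancel h1
  have hot : orderOf b ≤ orderOf (b * z⁻¹) := by
    have := hmin _ _ htcomm
    omega
  -- the commutator of `z` and `b`
  have hw : z * b * z⁻¹ * b⁻¹ = c ^ l := pow_comm_id (x := a) (y := b) (c := c) rfl hcx l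
  have hwz : Commute (c ^ l) z := (hcx.pow_left l).pow_right l
  have hwb : Commute (c ^ l) b := hcy.pow_left l
  -- formula for `(b z⁻¹) ^ n`
  have hrel : z⁻¹ * b = (c ^ l)⁻¹ * b * z⁻¹ := by
    have h1 : z * b = c ^ l * b * z := by rw [← hw]; group
    calc z⁻¹ * b = z⁻¹ * ((c ^ l)⁻¹ * (c ^ l * b * z)) * z⁻¹ := by group
      _ = z⁻¹ * ((c ^ l)⁻¹ * (z * b)) * z⁻¹ := by rw [h1]
      _ = (z⁻¹ * (c ^ l)⁻¹) * z * b * z⁻¹ := by group
      _ = ((c ^ l)⁻¹ * z⁻¹) * z * b * z⁻¹ := by rw [hwz.inv_inv.eq]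
      _ = (c ^ l)⁻¹ * b * z⁻¹ := by group
  have hpow : (b * z⁻¹) ^ n = ((c ^ l)⁻¹) ^ (n.choose 2) := by
    rw [mul_pow_central hwb.inv_left hwz.inv_inv hrel n, inv_pow, hl1]
    group
  -- hence `p` does not divide
  have hnd : ¬ p ∣ l * n.choose 2 := by
    rintro ⟨k, hk⟩
    have h1 : (b * z⁻¹) ^ n = 1 := by
      rw [hpow, inv_pow, ← pow_mul, hk, pow_mul, hcp, one_pow, inv_one]
    have h2 := Nat.le_of_dvd hnpos (orderOf_dvd_of_pow_eq_one h1)
    rw [hbn] at hot
    have h3 : n * 2 ≤ n * p := Nat.mul_le_mul_left n hp.two_le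
    omega
  have hnd1 : ¬ p ∣ n.choose 2 := fun h => hnd (Dvd.dvd.mul_left h l)
  have hnd2 : ¬ p ∣ l := fun h => hnd (Dvd.dvd.mul_right h _)
  obtain ⟨hp2, he⟩ := arith_choose hp hnd1
  have hβ2 : β = 2 := by omega
  have hα2 : α = 2 := by
    by_contra hne
    apply hnd2
    rw [hj]
    exact Dvd.dvd.mul_right (dvd_pow_self p (by omega)) j
  have hoa : orderOf a = 4 := by rw [hα, hα2, hp2]; norm_num
  have hob : orderOf b = 4 := by rw [hβ, hβ2, hp2]; norm_num
  have hc2 : c ^ 2 = 1 := by rw [← hp2]; exact hcp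
  exact ⟨hoa, hob, sq_eq_of_mem hoa (comm_mem_left hn a b) hc2 hc1,
    sq_eq_of_mem hob (comm_mem_right hn a b) hc2 hc1⟩

/-- The quaternion relations. -/
theorem exists_q8 (hn : ∀ H : Subgroup G, H.Normal) (hna : ¬ IsMulCommutative G) :
    ∃ a b : G, orderOf a = 4 ∧ b * b = a ^ 2 ∧ b * a * b⁻¹ = a⁻¹ := by
  have hex : {q : G × G | ¬ Commute q.1 q.2}.Nonempty := by
    by_contra hcon
    rw [Set.not_nonempty_iff_eq_empty] at hcon
    apply hna
    refine ⟨⟨fun x y => ?_⟩⟩
    by_contra hxy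
    have : (x, y) ∈ {q : G × G | ¬ Commute q.1 q.2} := hxy
    rw [hcon] at this
    exact this
  obtain ⟨⟨a, b⟩, hab, hmin⟩ := Set.exists_min_image _
    (fun q : G × G => orderOf q.1 + orderOf q.2) (Set.toFinite _) hex
  have hmin' : ∀ x y : G, ¬ Commute x y → orderOf a + orderOf b ≤ orderOf x + orderOf y :=
    fun x y hxy => hmin (x, y) hxy
  have hab' : ¬ Commute a b := hab
  by_cases hle : orderOf b ≤ orderOf a
  · obtain ⟨h1, h2, h3, h4⟩ := main_case hn hab' hmin' hle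
    refine ⟨a, b, h1, ?_, ?_⟩
    · rw [← sq, h4, ← h3]
    · have h5 : b * a⁻¹ * b⁻¹ = a := by
        have : a * (b * a⁻¹ * b⁻¹) = a * a := by
          rw [← sq, h3]; group
        exact mul_left_cancel this
      have : b * a * b⁻¹ = (b * a⁻¹ * b⁻¹)⁻¹ := by group
      rw [this, h5]
  · have hba : ¬ Commute b a := fun h => hab' h.symm
    have hminb : ∀ x y : G, ¬ Commute x y → orderOf b + orderOf a ≤ orderOf x + orderOf y := by
      intro x y hxy
      have := hmin' x y hxy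
      omega
    obtain ⟨h1, h2, h3, h4⟩ := main_case hn hba hminb (by omega)
    refine ⟨b, a, h1, ?_, ?_⟩
    · rw [← sq, h4, ← h3]
    · have h5 : a * b⁻¹ * a⁻¹ = b := by
        have : b * (a * b⁻¹ * a⁻¹) = b * b := by
          rw [← sq, h3]; group
        exact mul_left_cancel this
      have : a * b * a⁻¹ = (a * b⁻¹ * a⁻¹)⁻¹ := by group
      rw [this, h5]

end Minimal

section Structure

variable {G : Type*} [Group G] [Finite G]

theorem conj_or_inv (hn : ∀ H : Subgroup G, H.Normal) {w : G} (hw : orderOf w = 4) (g : G) :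
    g * w * g⁻¹ = w ∨ g * w * g⁻¹ = w⁻¹ := by
  have h1 : g * w * g⁻¹ ∈ Submonoid.powers w := by
    rw [mem_powers_iff_mem_zpowers]
    exact (hn _).conj_mem w (mem_zpowers w) g
  obtain ⟨i, hi₀⟩ := h1
  have hi : w ^ i = g * w * g⁻¹ := hi₀
  have h4 : w ^ 4 = 1 := by rw [← hw]; exact pow_orderOf_eq_one w
  have hord : orderOf (g * w * g⁻¹) = 4 := by
    rw [← hw]
    exact MulEquiv.orderOf_eq (MulAut.conj g) w
  rw [pow_eq_pow_mod i h4] at hi
  have hlt : i % 4 < 4 := Nat.mod_lt _ (by norm_num)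
  generalize i % 4 = k at hi hlt
  interval_cases k
  · rw [← hi, pow_zero, orderOf_one] at hord
    omega
  · left
    rw [← hi, pow_one]
  · exfalso
    have h2 : (w ^ 2) ^ 2 = 1 := by rw [← pow_mul]; exact h4
    have h3 := Nat.le_of_dvd (by norm_num) (orderOf_dvd_of_pow_eq_one h2)
    rw [hi, hord] at h3
    omega
  · right
    rw [← hi, eq_inv_iff_mul_eq_one, ← pow_succ]
    exact h4

theorem eq_one_or_of_mem_zpowers {y z : G} (hy : y ^ 2 = 1) (hz : z ∈ zpowers y) : z = 1 ∨ z = y := by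
  rw [← mem_powers_iff_mem_zpowers] at hz
  obtain ⟨k, hk₀⟩ := hz
  have hk : y ^ k = z := hk₀
  subst hk
  rcases Nat.even_or_odd' k with ⟨m, rfl | rfl⟩
  · left
    rw [pow_mul, hy, one_pow]
  · right
    rw [pow_succ, pow_mul, hy, one_pow, one_mul]

theorem eq_one_of_pow_odd {w : G} {d : ℕ} (hd : Odd d) (h1 : w ^ d = 1) (h2 : w ^ 2 = 1) : w = 1 := by
  obtain ⟨k, rfl⟩ := hd
  rw [pow_succ, pow_mul, h2, one_pow, one_mul] at h1
  exact h1

/-- A Dedekind group in which no element has order four is commutative. -/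
theorem comm_of_no_four (hn : ∀ H : Subgroup G, H.Normal) (h : ∀ x : G, orderOf x ≠ 4) :
    ∀ x y : G, x * y = y * x := by
  by_contra hcon
  have hna : ¬ IsMulCommutative G := by
    intro hc
    exact hcon (fun x y => hc.is_comm.comm x y)
  obtain ⟨a, -, ha, -, -⟩ := exists_q8 hn hna
  exact h a ha

/-- **Dedekind--Baer**, in the form of the statement. -/
theorem main (hna : ¬ IsMulCommutative G) (hn : ∀ H : Subgroup G, H.Normal) :
    ∃ Q E A : Subgroup G, Nonempty (Q ≃* QuaternionGroup 2) ∧ Cfsg.IsElementaryAbelian 2 E ∧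
      IsMulCommutative A ∧ Odd (Nat.card A) ∧ E ⊓ A = ⊥ ∧ Q ⊓ (E ⊔ A) = ⊥ ∧ Q ⊔ (E ⊔ A) = ⊤ := by
  obtain ⟨a, b, hoa, hbb, hrel⟩ := exists_q8 hn hna
  have ha4 : a ^ 4 = 1 := by rw [← hoa]; exact pow_orderOf_eq_one a
  have ha2 : a ^ 2 ≠ 1 := pow_ne_one_of_lt_orderOf (by norm_num) (by omega)
  have hcom : ¬ Commute a b := by
    intro h
    apply ha2
    have h1 : b * a * b⁻¹ = a := by rw [← h.eq]; group
    rw [hrel] at h1
    rw [sq]
    nth_rewrite 1 [← h1]
    group
  have hb2 : b ^ 2 = a ^ 2 := by rw [sq, hbb]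
  have hob : orderOf b = 4 := by
    have := orderOf_eq_prime_pow (p := 2) (n := 1) (x := b) (by simpa [hb2] using ha2)
      (by
        rw [show 2 ^ (1 + 1) = 2 * 2 by norm_num, pow_mul, hb2, ← pow_mul]
        exact ha4)
    simpa using this
  have hrel2 : a * b * a⁻¹ = b⁻¹ := by
    rw [eq_inv_iff_mul_eq_one]
    have e1 : a⁻¹ * b = b * a := by
      have : b * a * b⁻¹ * b = a⁻¹ * b := by rw [hrel]
      rw [← this]; group
    calc a * b * a⁻¹ * b = a * b * (a⁻¹ * b) := by group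
      _ = a * b * (b * a) := by rw [e1]
      _ = a * (b * b) * a := by group
      _ = a * a ^ 2 * a := by rw [hbb]
      _ = a ^ 4 := by group
      _ = 1 := ha4
  -- the centralizer
  set C : Subgroup G := centralizer {a} ⊓ centralizer {b} with hCdef
  have hC : ∀ x, x ∈ C ↔ a * x = x * a ∧ b * x = x * b := by
    intro x
    rw [hCdef, Subgroup.mem_inf, Subgroup.mem_centralizer_singleton_iff,
      Subgroup.mem_centralizer_singleton_iff]
    exact ⟨fun h => ⟨h.1.symm, h.2.symm⟩, fun h => ⟨h.1.symm, h.2.symm⟩⟩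
  -- the quaternion subgroup
  haveI hne2 : NeZero (2 * 2) := ⟨by norm_num⟩
  have hr : a ^ (2 * 2) = 1 := ha4
  let f : QuaternionGroup 2 →* G := quaternionHom a b hr hbb hrel
  have hfa : ∀ i : ZMod (2 * 2), f (QuaternionGroup.a i) = a ^ i.val := fun i => rfl
  have hfxa : ∀ i : ZMod (2 * 2), f (QuaternionGroup.xa i) = b * a ^ i.val := fun i => rfl
  have hfinj : Function.Injective f := by
    refine quaternionHom_injective (m := 2) (by omega) hbb hrel ?_
    intro hmem
    apply hcom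
    exact (commute_of_mem_zpowers hmem).symm
  set Q : Subgroup G := f.range with hQ
  have haQ : a ∈ Q := ⟨QuaternionGroup.a 1, by
    rw [hfa]
    have : (1 : ZMod (2 * 2)).val = 1 := by decide
    rw [this, pow_one]⟩
  have hbQ : b ∈ Q := ⟨QuaternionGroup.xa 0, by rw [hfxa]; simp⟩
  have hQelt : ∀ y ∈ Q, ∃ i : ℕ, i < 4 ∧ (y = a ^ i ∨ y = b * a ^ i) := by
    rintro _ ⟨g, rfl⟩
    cases g with
    | a i =>
      refine ⟨i.val, ZMod.val_lt i, Or.inl (hfa i)⟩
    | xa i =>
      refine ⟨i.val, ZMod.val_lt i, Or.inr (hfxa i)⟩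
  -- `Q ∩ C`
  have hQC : ∀ y ∈ Q, y ∈ C → y = 1 ∨ y = a ^ 2 := by
    intro y hyQ hyC
    obtain ⟨i, hi, h | h⟩ := hQelt y hyQ
    · subst h
      have h1 := ((hC _).mp hyC).2
      interval_cases i
      · left; simp
      · exfalso
        apply hcom
        rw [pow_one] at h1
        exact h1.symm
      · right; rfl
      · exfalso
        apply ha2
        have h2 : b * a ^ 3 * b⁻¹ = a ^ 3 := by rw [h1]; group
        have h3 : b * a ^ 3 * b⁻¹ = (b * a * b⁻¹) ^ 3 := (conj_pow).symm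
        rw [h3, hrel] at h2
        have h4 : (a⁻¹) ^ 3 = a := by
          rw [inv_pow, inv_eq_iff_mul_eq_one, ← pow_succ]
          exact ha4
        rw [h4] at h2
        have h5 : a ^ 2 = a⁻¹ * a ^ 3 := by group
        rw [h5, ← h2]
        group
    · exfalso
      subst h
      have h1 := ((hC _).mp hyC).1
      apply hcom
      have h2 : a * (b * a ^ i) = (a * b) * a ^ i := by group
      have h3 : b * a ^ i * a = (b * a) * a ^ i := by
        rw [mul_assoc, ← pow_succ, pow_succ', mul_assoc]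
      rw [h2, h3] at h1
      exact mul_right_cancel h1
  -- factorization
  have hfac : ∀ g : G, ∃ c ∈ C, ∃ q ∈ Q, g = c * q := by
    intro g
    obtain ⟨g₁, hg₁, q₁, hq₁, e₁⟩ : ∃ g₁ : G, g₁ * a * g₁⁻¹ = a ∧ ∃ q₁ ∈ Q, g = g₁ * q₁ := by
      rcases conj_or_inv hn hoa g with h | h
      · exact ⟨g, h, 1, one_mem _, by simp⟩
      · refine ⟨g * b, ?_, b⁻¹, inv_mem hbQ, by group⟩
        have e : g * b * a * (g * b)⁻¹ = g * (b * a * b⁻¹) * g⁻¹ := by group
        rw [e, hrel]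
        have : g * a⁻¹ * g⁻¹ = (g * a * g⁻¹)⁻¹ := by group
        rw [this, h, inv_inv]
    obtain ⟨g₂, hg₂a, hg₂b, q₂, hq₂, e₂⟩ : ∃ g₂ : G, g₂ * a * g₂⁻¹ = a ∧ g₂ * b * g₂⁻¹ = b ∧
        ∃ q₂ ∈ Q, g₁ = g₂ * q₂ := by
      rcases conj_or_inv hn hob g₁ with h | h
      · exact ⟨g₁, hg₁, h, 1, one_mem _, by simp⟩
      · refine ⟨g₁ * a, ?_, ?_, a⁻¹, inv_mem haQ, by group⟩
        · have e : g₁ * a * a * (g₁ * a)⁻¹ = g₁ * a * g₁⁻¹ := by group
          rw [e, hg₁]
        · have e : g₁ * a * b * (g₁ * a)⁻¹ = g₁ * (a * b * a⁻¹) * g₁⁻¹ := by group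
          rw [e, hrel2]
          have : g₁ * b⁻¹ * g₁⁻¹ = (g₁ * b * g₁⁻¹)⁻¹ := by group
          rw [this, h, inv_inv]
    refine ⟨g₂, ?_, q₂ * q₁, mul_mem hq₂ hq₁, by rw [e₁, e₂, mul_assoc]⟩
    rw [hC]
    constructor
    · rw [mul_inv_eq_iff_eq_mul] at hg₂a
      exact hg₂a.symm
    · rw [mul_inv_eq_iff_eq_mul] at hg₂b
      exact hg₂b.symm
  -- no elements of order four in `C`
  have hno4 : ∀ x ∈ C, orderOf x ≠ 4 := by
    intro x hxC hx4
    obtain ⟨hxa, hxb⟩ := (hC x).mp hxC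
    have hcm : Commute a x := hxa
    have hx4' : x ^ 4 = 1 := by rw [← hx4]; exact pow_orderOf_eq_one x
    have hmem : a⁻¹ * x ∈ Submonoid.powers (a * x) := by
      rw [mem_powers_iff_mem_zpowers]
      have h1 : b * (a * x) * b⁻¹ ∈ zpowers (a * x) :=
        (hn _).conj_mem _ (mem_zpowers _) b
      have e : b * (a * x) * b⁻¹ = a⁻¹ * x := by
        have : b * (a * x) * b⁻¹ = (b * a * b⁻¹) * (b * x * b⁻¹) := by group
        rw [this, hrel, hxb]
        group
      rwa [e] at h1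
    obtain ⟨k, hk₀⟩ := hmem
    have hk : (a * x) ^ k = a⁻¹ * x := hk₀
    have hax4 : (a * x) ^ 4 = 1 := by rw [hcm.mul_pow, ha4, hx4', one_mul]
    rw [pow_eq_pow_mod k hax4, hcm.mul_pow] at hk
    have hlt : k % 4 < 4 := Nat.mod_lt _ (by norm_num)
    generalize k % 4 = r at hk hlt
    have hxa_eq : x = a → False := by
      intro h
      subst h
      have := hxb
      exact hcom this.symm
    interval_cases r
    · -- `a⁻¹ x = 1`
      apply hxa_eq
      simp only [pow_zero, mul_one] at hk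
      exact (inv_mul_eq_one.mp hk.symm).symm
    · apply ha2
      simp only [pow_one] at hk
      have h1 : a = a⁻¹ := mul_right_cancel hk
      rw [sq]
      nth_rewrite 1 [h1]
      simp
    · apply hxa_eq
      have h1 : a ^ 2 * x ^ 2 = (a ^ 2 * x) * x := by rw [sq x, mul_assoc]
      rw [h1] at hk
      have h2 : a ^ 2 * x = a⁻¹ := mul_right_cancel hk
      have h3 : x = (a ^ 2)⁻¹ * a⁻¹ := by
        rw [← h2]; group
      rw [h3]
      have h4 : (a ^ 2)⁻¹ * a⁻¹ = (a ^ 3)⁻¹ := by group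
      rw [h4, inv_eq_iff_mul_eq_one, ← pow_succ]
      exact ha4
    · have h1 : a ^ 3 = a⁻¹ := by
        rw [eq_inv_iff_mul_eq_one, ← pow_succ]
        exact ha4
      rw [h1] at hk
      have h2 : x ^ 3 = x := mul_left_cancel hk
      have h3 : x ^ 2 = 1 := by
        have : x ^ 2 * x = 1 * x := by rw [← pow_succ, h2, one_mul]
        exact mul_right_cancel this
      have h5 := Nat.le_of_dvd (by norm_num) (orderOf_dvd_of_pow_eq_one h3)
      omega
  -- decomposition of elements of `C`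
  have haux : ∀ y : G, y ^ 2 = 1 → ∀ d : ℕ, Odd d → y * (y⁻¹) ^ d = 1 := by
    intro y hy d hd
    obtain ⟨k, rfl⟩ := hd
    have h1 : (y⁻¹) ^ 2 = 1 := by rw [inv_pow, hy, inv_one]
    rw [pow_succ, pow_mul, h1, one_pow, one_mul, mul_inv_cancel]
  have hdec : ∀ x ∈ C, ∃ y w, x = y * w ∧ y ^ 2 = 1 ∧ y ∈ C ∧ w ∈ C ∧ ∃ d, Odd d ∧ w ^ d = 1 := by
    intro x hxC
    obtain ⟨m, d, hd, hod⟩ := Nat.exists_eq_two_pow_mul_odd (orderOf_pos x).ne'
    have hdpos : 0 < d := hd.pos
    have hm : m ≤ 1 := by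
      by_contra hlt
      push Not at hlt
      apply hno4 (x ^ (2 ^ (m - 2) * d)) (pow_mem hxC _)
      have e : 2 ^ m * d = 4 * (2 ^ (m - 2) * d) := by
        have : 2 ^ m = 4 * 2 ^ (m - 2) := by
          rw [show (4 : ℕ) = 2 ^ 2 by norm_num, ← pow_add]
          congr 1
          omega
        rw [this]
        ring
      have hpos : 2 ^ (m - 2) * d ≠ 0 := (Nat.mul_pos (pow_pos (by norm_num) _) hdpos).ne'
      rw [orderOf_pow_of_dvd hpos (by rw [hod, e]; exact Dvd.intro_left _ rfl), hod, e]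
      exact Nat.mul_div_cancel _ (Nat.pos_of_ne_zero hpos)
    have hy : (x ^ d) ^ 2 = 1 := by
      rw [← pow_mul]
      apply orderOf_dvd_iff_pow_eq_one.mp
      rw [hod]
      rw [mul_comm]
      exact Nat.mul_dvd_mul_left d
        ((Nat.pow_dvd_pow 2 hm).trans (by norm_num))
    refine ⟨x ^ d, (x ^ d)⁻¹ * x, by group, hy, pow_mem hxC d,
      mul_mem (inv_mem (pow_mem hxC d)) hxC, d, hd, ?_⟩
    have hc : Commute ((x ^ d)⁻¹) x := ((Commute.refl x).pow_left d).inv_left
    rw [hc.mul_pow, ((Commute.refl (x ^ d)).inv_left.pow_left d).eq]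
    exact haux _ hy d hd
  -- `C` is commutative
  have hCc : ∀ x ∈ C, ∀ y ∈ C, x * y = y * x := by
    have hnC : ∀ H : Subgroup C, H.Normal := by
      intro H
      constructor
      intro z hz g
      have h1 := (hn (H.map C.subtype)).conj_mem (z : G) ⟨z, hz, rfl⟩ (g : G)
      obtain ⟨w, hw, he⟩ := h1
      have : w = g * z * g⁻¹ := Subtype.ext he
      rwa [← this]
    have := comm_of_no_four hnC (fun x h => hno4 x x.2 (by rwa [Subgroup.orderOf_coe]))
    intro x hx y hy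
    exact congrArg Subtype.val (this ⟨x, hx⟩ ⟨y, hy⟩)
  -- the odd part
  let A : Subgroup G :=
    { carrier := {x | x ∈ C ∧ ∃ d, Odd d ∧ x ^ d = 1}
      mul_mem' := by
        rintro x y ⟨hx, d₁, h₁, hx'⟩ ⟨hy, d₂, h₂, hy'⟩
        refine ⟨mul_mem hx hy, d₁ * d₂, h₁.mul h₂, ?_⟩
        have hc : Commute x y := hCc x hx y hy
        rw [hc.mul_pow, pow_mul, hx', one_pow, one_mul, mul_comm, pow_mul, hy', one_pow]
      one_mem' := ⟨one_mem _, 1, odd_one, by simp⟩
      inv_mem' := by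
        rintro x ⟨hx, d, h, hx'⟩
        exact ⟨inv_mem hx, d, h, by rw [inv_pow, hx', inv_one]⟩ }
  -- a complement of `⟨a²⟩` in the involutions of `C`
  let 𝒮 : Set (Subgroup G) := {E | E ≤ C ∧ (∀ x ∈ E, x ^ 2 = 1) ∧ a ^ 2 ∉ E}
  have hne𝒮 : 𝒮.Nonempty := by
    refine ⟨⊥, bot_le, ?_, ?_⟩
    · intro x hx
      rw [Subgroup.mem_bot] at hx
      rw [hx, one_pow]
    · rw [Subgroup.mem_bot]
      exact ha2
  obtain ⟨E, hE⟩ := (Set.toFinite 𝒮).exists_maximal hne𝒮
  obtain ⟨hEC, hE2, hEa⟩ := hE.1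
  have hEmax : ∀ y ∈ C, y ^ 2 = 1 → y ∈ E ∨ y * a ^ 2 ∈ E := by
    intro y hyC hy2
    by_cases hyE : y ∈ E
    · exact Or.inl hyE
    right
    haveI := hn (zpowers y)
    have hlt : E < E ⊔ zpowers y := lt_of_le_of_ne le_sup_left
      (fun he => hyE (by rw [he]; exact mem_sup_right (mem_zpowers y)))
    have hcase : a ^ 2 ∈ E ⊔ zpowers y := by
      by_contra hnot
      refine hE.not_gt ⟨?_, ?_, hnot⟩ hlt
      · exact sup_le hEC (zpowers_le.mpr hyC)
      · intro x hx
        obtain ⟨e, he, z, hz, rfl⟩ := mem_sup_of_normal_right.mp hx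
        have hzC : z ∈ C := (zpowers_le.mpr hyC) hz
        have hc : Commute e z := hCc e (hEC he) z hzC
        rw [hc.mul_pow, hE2 e he, one_mul]
        rcases eq_one_or_of_mem_zpowers hy2 hz with h | h
        · rw [h, one_pow]
        · rw [h]; exact hy2
    obtain ⟨e, he, z, hz, hez⟩ := mem_sup_of_normal_right.mp hcase
    rcases eq_one_or_of_mem_zpowers hy2 hz with h | h
    · exfalso
      apply hEa
      rw [← hez, h, mul_one]
      exact he
    · rw [h] at hez
      rw [← hez]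
      have hc : y * e = e * y := hCc y hyC e (hEC he)
      rw [← mul_assoc, hc, mul_assoc, ← sq, hy2, mul_one]
      exact he
  refine ⟨Q, E, A, ⟨(MonoidHom.ofInjective hfinj).symm⟩, ?_, ?_, ?_, ?_, ?_, ?_⟩
  · exact ⟨⟨⟨fun x y => Subtype.ext (hCc _ (hEC x.2) _ (hEC y.2))⟩⟩, hE2⟩
  · exact ⟨⟨fun x y => Subtype.ext (hCc _ x.2.1 _ y.2.1)⟩⟩
  · rw [← Nat.not_even_iff_odd, even_iff_two_dvd]
    intro h2
    haveI : Fact (Nat.Prime 2) := ⟨Nat.prime_two⟩
    obtain ⟨w, hw⟩ := exists_prime_orderOf_dvd_card' 2 h2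
    obtain ⟨hwC, d, hd, hwd⟩ := w.2
    have hw2 : (w : G) ^ 2 = 1 := by
      have : w ^ 2 = 1 := by rw [← hw]; exact pow_orderOf_eq_one w
      simpa using congrArg Subtype.val this
    have hw1 : w = 1 := Subtype.ext (eq_one_of_pow_odd hd hwd hw2)
    rw [hw1, orderOf_one] at hw
    omega
  · rw [eq_bot_iff]
    rintro x ⟨hxE, hxA⟩
    obtain ⟨-, d, hd, hxd⟩ := hxA
    exact eq_one_of_pow_odd hd hxd (hE2 x hxE)
  · rw [eq_bot_iff]
    rintro y ⟨hyQ, hyEA⟩
    haveI := hn A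
    obtain ⟨e, he, w, hw, rfl⟩ := mem_sup_of_normal_right.mp hyEA
    have hyC : e * w ∈ C := mul_mem (hEC he) hw.1
    rcases hQC _ hyQ hyC with h1 | h1
    · exact Subgroup.mem_bot.mpr h1
    · exfalso
      have hc : Commute e w := hCc _ (hEC he) _ hw.1
      have h2 : (e * w) ^ 2 = 1 := by rw [h1, ← pow_mul]; exact ha4
      rw [hc.mul_pow, hE2 e he, one_mul] at h2
      obtain ⟨-, d, hd, hwd⟩ := hw
      have hw1 := eq_one_of_pow_odd hd hwd h2
      rw [hw1, mul_one] at h1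
      exact hEa (h1 ▸ he)
  · rw [eq_top_iff]
    intro g _
    obtain ⟨c, hc, q, hq, rfl⟩ := hfac g
    obtain ⟨y, w, rfl, hy2, hyC, hwC, d, hd, hwd⟩ := hdec c hc
    have hwA : w ∈ A := ⟨hwC, d, hd, hwd⟩
    rcases hEmax y hyC hy2 with h | h
    · exact mul_mem (mul_mem (mem_sup_right (mem_sup_left h)) (mem_sup_right (mem_sup_right hwA)))
        (mem_sup_left hq)
    · have e : y = (y * a ^ 2) * (a ^ 2)⁻¹ := by group
      rw [e]
      exact mul_mem (mul_mem (mul_mem (mem_sup_right (mem_sup_left h))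
        (mem_sup_left (inv_mem (pow_mem haQ 2)))) (mem_sup_right (mem_sup_right hwA)))
        (mem_sup_left hq)

end Structure

/-- A finite non-abelian group in which every subgroup is normal is the internal direct product of a subgroup isomorphic to the quaternion group of order `8`, an elementary abelian `2`-subgroup and an abelian subgroup of odd order. -/
theorem result {G : Type*} [Group G] [Finite G] (hna : ¬ IsMulCommutative G) (hn : ∀ H : Subgroup G, H.Normal) : ∃ Q E A : Subgroup G, Nonempty (Q ≃* QuaternionGroup 2) ∧ Cfsg.IsElementaryAbelian 2 E ∧ IsMulCommutative A ∧ Odd (Nat.card A) ∧ E ⊓ A = ⊥ ∧ Q ⊓ (E ⊔ A) = ⊥ ∧ Q ⊔ (E ⊔ A) = ⊤ :=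
  main hna hn

end Cfsg.Agent.S4211
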