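import Cfsg.Statements.S4212
import Cfsg.Agent.S3993
import Cfsg.Agent.Lib.Basic.ConjCount
import Cfsg.Agent.Lib.Transfer.Basic
import Mathlib

set_option autoImplicit false
open Cfsg

namespace Cfsg.Agent.S4212

universe u

/-- The block lemma: if `y` has order `p ^ b` with `b ≥ 1`, then `p ^ k` divides the number of
solutions of `x ^ p ^ k = y`. -/
theorem block {G : Type*} [Group G] [Finite G] {p : ℕ} (hp : p.Prime) (k b : ℕ) (hb : 0 < b) (y : G)
    (hy : orderOf y = p ^ b) : p ^ k ∣ Nat.card {x : G // x ^ p ^ k = y} := by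
  classical
  haveI := Fintype.ofFinite G
  haveI : Fact p.Prime := ⟨hp⟩
  set W : Finset G := Finset.univ.filter (fun x => x ^ p ^ k = y) with hW
  have hmemW : ∀ x, x ∈ W ↔ x ^ p ^ k = y := fun x => by simp [hW]
  have hcard : Nat.card {x : G // x ^ p ^ k = y} = W.card :=
    Nat.subtype_card W hmemW
  rw [hcard]
  -- orders of solutions
  have hord : ∀ x ∈ W, orderOf x = p ^ (k + b) := by
    intro x hx
    have hx' := (hmemW x).mp hx
    obtain ⟨b', rfl⟩ : ∃ b', b = b' + 1 := ⟨b - 1, by omega⟩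
    have h1 : x ^ p ^ (k + b' + 1) = 1 := by
      rw [show k + b' + 1 = k + (b' + 1) by ring, pow_add, pow_mul, hx', ← hy, pow_orderOf_eq_one]
    have h2 : ¬ x ^ p ^ (k + b') = 1 := by
      rw [pow_add, pow_mul, hx']
      intro h3
      have h4 := orderOf_dvd_of_pow_eq_one h3
      rw [hy] at h4
      have := (Nat.pow_dvd_pow_iff_le_right hp.one_lt).mp h4
      omega
    rw [show k + (b' + 1) = k + b' + 1 by ring]
    exact orderOf_eq_prime_pow h2 h1
  -- fibres of `zpowers`
  rw [Finset.card_eq_sum_card_image (fun x => Subgroup.zpowers x) W]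
  refine Finset.dvd_sum fun C hC => ?_
  obtain ⟨x₀, hx₀, rfl⟩ := Finset.mem_image.mp hC
  have hx₀' := (hmemW x₀).mp hx₀
  have hx₀o := hord x₀ hx₀
  -- the fibre is the coset `x₀ * ⟨x₀ ^ p ^ b⟩`
  set Z : Finset G := Finset.univ.filter (fun z => z ∈ Subgroup.zpowers (x₀ ^ p ^ b)) with hZ
  have hZcard : Z.card = p ^ k := by
    have h1 : Nat.card (Subgroup.zpowers (x₀ ^ p ^ b)) = Z.card :=
      Nat.subtype_card Z (fun z => by simp [hZ])
    rw [← h1, Nat.card_zpowers]
    rw [orderOf_pow' _ (pow_ne_zero _ hp.ne_zero), hx₀o, add_comm,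
      Nat.gcd_eq_right (pow_dvd_pow _ (by omega)), pow_add, Nat.mul_div_cancel_left _ (pow_pos hp.pos b)]
  have hfib : W.filter (fun x => Subgroup.zpowers x = Subgroup.zpowers x₀) = Z.image (fun z => x₀ * z) := by
    ext x
    simp only [Finset.mem_filter, Finset.mem_image]
    constructor
    · rintro ⟨hxW, hxz⟩
      have hmem : x ∈ Subgroup.zpowers x₀ := by
        rw [← hxz]
        exact Subgroup.mem_zpowers x
      obtain ⟨j, rfl⟩ := Subgroup.mem_zpowers_iff.mp hmem
      refine ⟨x₀⁻¹ * x₀ ^ j, ?_, mul_inv_cancel_left _ _⟩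
      -- `p ^ b ∣ j - 1`
      have h1 := (hmemW _).mp hxW
      have h2 : x₀ ^ ((j - 1) * (p ^ k : ℕ)) = 1 := by
        have h3 : (x₀ ^ j) ^ (p ^ k : ℕ) = x₀ ^ (j * (p ^ k : ℕ)) := by
          rw [zpow_mul, zpow_natCast]
        rw [h3] at h1
        rw [sub_mul, one_mul, zpow_sub, h1, zpow_natCast, hx₀', mul_inv_cancel]
      have h3 : ((orderOf x₀ : ℕ) : ℤ) ∣ (j - 1) * (p ^ k : ℕ) := orderOf_dvd_iff_zpow_eq_one.mpr h2
      rw [hx₀o, pow_add] at h3
      have h4 : (((p ^ b : ℕ) : ℤ)) ∣ j - 1 := by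
        have h5 : (((p ^ k : ℕ) * (p ^ b : ℕ) : ℕ) : ℤ) ∣ (p ^ k : ℕ) * (j - 1) := by
          rw [mul_comm ((p ^ k : ℕ) : ℤ)]
          exact h3
        push_cast at h5
        have hne : ((p : ℤ) ^ k) ≠ 0 := pow_ne_zero _ (by exact_mod_cast hp.ne_zero)
        push_cast at *
        exact (mul_dvd_mul_iff_left hne).mp h5
      obtain ⟨c, hc⟩ := h4
      simp only [hZ, Finset.mem_filter, Finset.mem_univ, true_and]
      refine Subgroup.mem_zpowers_iff.mpr ⟨c, ?_⟩
      have hj : j = 1 + ((p ^ b : ℕ) : ℤ) * c := by omega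
      rw [hj, zpow_add, zpow_one, inv_mul_cancel_left, zpow_mul, zpow_natCast]
    · rintro ⟨z, hz, rfl⟩
      have hz' : z ∈ Subgroup.zpowers (x₀ ^ p ^ b) := by simpa [hZ] using hz
      obtain ⟨c, rfl⟩ := Subgroup.mem_zpowers_iff.mp hz'
      have hcomm : Commute x₀ ((x₀ ^ p ^ b) ^ c) :=
        ((Commute.refl x₀).pow_right _).zpow_right c
      have hW' : x₀ * (x₀ ^ p ^ b) ^ c ∈ W := by
        rw [hmemW, hcomm.mul_pow, hx₀']
        have : ((x₀ ^ p ^ b) ^ c) ^ p ^ k = 1 := by
          have hw : (x₀ ^ p ^ b) ^ p ^ k = 1 := by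
            rw [← pow_mul, ← pow_add, add_comm, ← hx₀o, pow_orderOf_eq_one]
          rw [← zpow_natCast ((x₀ ^ p ^ b) ^ c), ← zpow_mul, mul_comm, zpow_mul, zpow_natCast, hw,
            one_zpow]
        rw [this, mul_one]
      refine ⟨hW', ?_⟩
      -- the two cyclic groups agree, by orders
      have hle : Subgroup.zpowers (x₀ * (x₀ ^ p ^ b) ^ c) ≤ Subgroup.zpowers x₀ := by
        rw [Subgroup.zpowers_le]
        refine Subgroup.mul_mem _ (Subgroup.mem_zpowers x₀) (Subgroup.zpow_mem _ ?_ _)
        exact Subgroup.pow_mem _ (Subgroup.mem_zpowers x₀) _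
      apply Subgroup.eq_of_le_of_card_ge hle
      rw [Nat.card_zpowers, Nat.card_zpowers, hord _ hW', hx₀o]
  rw [hfib, Finset.card_image_of_injective _ (mul_right_injective x₀), hZcard]

/-- Central elements: `gcd(p ^ k, |K|)` divides the number of `p ^ k`-th roots of a central `y`. -/
theorem central_case {K : Type*} [Group K] [Finite K] {p : ℕ} (hp : p.Prime) (k : ℕ) (y : K)
    (hy : ∀ g : K, g * y = y * g) :
    Nat.gcd (p ^ k) (Nat.card K) ∣ Nat.card {x : K // x ^ p ^ k = y} := by
  classical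
  haveI : Fact p.Prime := ⟨hp⟩
  obtain ⟨a, b, hab, hc, haz, hbz, ⟨j, hj⟩, hb⟩ :=
    Cfsg.Agent.Lib.Transfer.Basic.exists_pPart_decomp (p := p) y
  have hcen : ∀ z ∈ Subgroup.zpowers y, ∀ g : K, g * z = z * g := by
    rintro z hz g
    obtain ⟨i, rfl⟩ := Subgroup.mem_zpowers_iff.mp hz
    exact ((show Commute g y from hy g).zpow_right i)
  have hcop : Nat.Coprime (p ^ k) (orderOf b) := Nat.Coprime.pow_left _ hb.symm
  obtain ⟨m, hm⟩ := exists_pow_eq_self_of_coprime hcop
  set u := b ^ m with hu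
  have huk : u ^ p ^ k = b := by
    rw [hu, ← pow_mul, mul_comm, pow_mul, hm]
  have hucen : ∀ g : K, g * u = u * g := by
    intro g
    exact ((show Commute g b from hcen b hbz g).pow_right m)
  -- translation
  have hcard : Nat.card {x : K // x ^ p ^ k = y} = Nat.card {x : K // x ^ p ^ k = a} := by
    refine Nat.card_congr (Equiv.subtypeEquiv (Equiv.mulRight u⁻¹) ?_)
    intro x
    have hcomm : Commute x u⁻¹ := by
      have : Commute x u := hucen x
      exact this.inv_right
    simp only [Equiv.coe_mulRight]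
    rw [hcomm.mul_pow, inv_pow, huk, mul_inv_eq_iff_eq_mul, ← hab]
  rw [hcard]
  rcases Nat.eq_zero_or_pos j with rfl | hjpos
  · -- `a = 1`
    have ha1 : a = 1 := by
      rw [pow_zero] at hj
      exact orderOf_eq_one_iff.mp hj
    rw [ha1]
    have hS := Cfsg.Agent.S3993.result (G := K) (Nat.gcd (p ^ k) (Nat.card K))
      (Nat.gcd_dvd_right _ _)
    have hcongr : Nat.card {g : K // g ^ Nat.gcd (p ^ k) (Nat.card K) = 1} =
        Nat.card {x : K // x ^ p ^ k = 1} := by
      refine Nat.card_congr (Equiv.subtypeEquivRight fun x => ?_)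
      rw [← orderOf_dvd_iff_pow_eq_one, ← orderOf_dvd_iff_pow_eq_one]
      constructor
      · intro h
        exact h.trans (Nat.gcd_dvd_left _ _)
      · intro h
        exact Nat.dvd_gcd h (orderOf_dvd_natCard x)
    rwa [hcongr] at hS
  · exact (Nat.gcd_dvd_left _ _).trans (block hp k j hjpos a hj)

/-- Number of roots is invariant under conjugation. -/
theorem card_roots_conj {G : Type*} [Group G] [Finite G] (e : ℕ) {y y' : G} (h : IsConj y y') :
    Nat.card {x : G // x ^ e = y} = Nat.card {x : G // x ^ e = y'} := by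
  obtain ⟨g, rfl⟩ := isConj_iff.mp h
  refine Nat.card_congr (Equiv.subtypeEquiv (MulAut.conj g).toEquiv ?_)
  intro x
  show x ^ e = y ↔ (g * x * g⁻¹) ^ e = g * y * g⁻¹
  rw [conj_pow]
  constructor
  · rintro rfl
    rfl
  · intro h1
    exact mul_left_cancel (mul_right_cancel h1)

/-- Passing to the centralizer. -/
theorem gcd_dvd_roots {G : Type*} [Group G] [Finite G] {p : ℕ} (hp : p.Prime) (k : ℕ) (y : G) :
    Nat.gcd (p ^ k) (Nat.card (Subgroup.centralizer ({y} : Set G))) ∣
      Nat.card {x : G // x ^ p ^ k = y} := by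
  have hy : y ∈ Subgroup.centralizer ({y} : Set G) :=
    Subgroup.mem_centralizer_singleton_iff.mpr rfl
  have h1 := central_case hp k (⟨y, hy⟩ : Subgroup.centralizer ({y} : Set G)) (by
    rintro ⟨g, hg⟩
    apply Subtype.ext
    exact Subgroup.mem_centralizer_singleton_iff.mp hg)
  have h2 : Nat.card {x : Subgroup.centralizer ({y} : Set G) // x ^ p ^ k = ⟨y, hy⟩} =
      Nat.card {x : G // x ^ p ^ k = y} := by
    refine Nat.card_congr ⟨fun x => ⟨x.1.1, by
        have := congrArg Subtype.val x.2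
        simpa using this⟩, fun x => ⟨⟨x.1, ?_⟩, ?_⟩, ?_, ?_⟩
    · rw [Subgroup.mem_centralizer_singleton_iff]
      have h3 : Commute x.1 (x.1 ^ p ^ k) := (Commute.refl _).pow_right _
      rw [x.2] at h3
      exact h3
    · apply Subtype.ext
      exact x.2
    · intro x
      rfl
    · intro x
      rfl
  rwa [h2] at h1

/-- The class size times the number of roots is divisible by `p ^ k`. -/
theorem dvd_class_mul_roots {G : Type*} [Group G] [Finite G] {p : ℕ} (hp : p.Prime) (k : ℕ) (y : G)
    (hk : p ^ k ∣ Nat.card G) :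
    p ^ k ∣ Nat.card {z : G // IsConj y z} * Nat.card {x : G // x ^ p ^ k = y} := by
  have h1 := Cfsg.Agent.Lib.Basic.ConjCount.card_isConj_mul_card_centralizer y
  rw [← h1, mul_comm] at hk
  have h2 : p ^ k ∣ Nat.gcd (p ^ k) (Nat.card (Subgroup.centralizer ({y} : Set G))) *
      Nat.card {z : G // IsConj y z} := by
    have := dvd_gcd_mul_of_dvd_mul hk
    rwa [gcd_eq_nat_gcd] at this
  rw [mul_comm] at h2
  exact h2.trans (Nat.mul_dvd_mul_left _ (gcd_dvd_roots hp k y))

/-- The key divisibility for a central element. -/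
theorem prime_pow_dvd {H : Type*} [Group H] [Finite H] {p : ℕ} (hp : p.Prime) (k m : ℕ) (c : H)
    (hc : ∀ g : H, g * c = c * g) (hk : p ^ k ∣ Nat.card H) :
    p ^ k ∣ Nat.card {x : H // x ^ (p ^ k * m) = c} := by
  classical
  haveI := Fintype.ofFinite H
  let F : H → ℕ := fun y => Nat.card {x : H // x ^ p ^ k = y}
  let T : Finset H := Finset.univ.filter (fun y => y ^ m = c)
  let S : Finset H := Finset.univ.filter (fun x => x ^ (p ^ k * m) = c)
  have hS : Nat.card {x : H // x ^ (p ^ k * m) = c} = S.card :=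
    Nat.subtype_card S (fun x => by simp [S])
  have hsum : S.card = ∑ y ∈ T, F y := by
    rw [Finset.card_eq_sum_card_fiberwise (f := fun x => x ^ p ^ k) (t := T)]
    · refine Finset.sum_congr rfl fun y hy => ?_
      symm
      apply Nat.subtype_card
      intro x
      have hy' : y ^ m = c := (Finset.mem_filter.mp hy).2
      simp only [S, Finset.mem_filter, Finset.mem_univ, true_and]
      constructor
      · rintro ⟨_, h⟩
        exact h
      · intro h
        refine ⟨?_, h⟩
        rw [pow_mul, h, hy']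
    · intro x hx
      have hx' : x ^ (p ^ k * m) = c := (Finset.mem_filter.mp hx).2
      refine Finset.mem_coe.mpr (Finset.mem_filter.mpr ⟨Finset.mem_univ _, ?_⟩)
      rw [← pow_mul, hx']
  rw [hS, hsum]
  refine Cfsg.Agent.S3993.dvd_sum_of_fibers T (fun y => ConjClasses.mk y) F _ fun y₀ hy₀ => ?_
  have hconj : ∀ y, ConjClasses.mk y = ConjClasses.mk y₀ ↔ IsConj y₀ y := fun y => by
    rw [ConjClasses.mk_eq_mk_iff_isConj]; exact isConj_comm
  rw [Finset.sum_congr rfl (fun y hy => (card_roots_conj (p ^ k)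
    ((hconj y).mp (Finset.mem_filter.mp hy).2)).symm), Finset.sum_const, smul_eq_mul]
  have hF : (T.filter (fun y => ConjClasses.mk y = ConjClasses.mk y₀)).card =
      Nat.card {y // IsConj y₀ y} := by
    symm
    apply Nat.subtype_card
    intro y
    simp only [Finset.mem_filter, T, Finset.mem_univ, true_and, hconj]
    constructor
    · rintro ⟨_, h⟩
      exact h
    · intro h
      refine ⟨?_, h⟩
      obtain ⟨g, rfl⟩ := isConj_iff.mp h
      have hy₀' : y₀ ^ m = c := (Finset.mem_filter.mp hy₀).2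
      rw [conj_pow, hy₀', hc, mul_inv_cancel_right]
  rw [hF]
  exact dvd_class_mul_roots hp k y₀ hk

/-- The theorem for a central element. -/
theorem gcd_dvd_central {H : Type*} [Group H] [Finite H] (n : ℕ) (c : H)
    (hc : ∀ g : H, g * c = c * g) :
    Nat.gcd n (Nat.card H) ∣ Nat.card {x : H // x ^ n = c} := by
  refine (Nat.dvd_iff_prime_pow_dvd_dvd _ _).mpr fun p k hp hk => ?_
  obtain ⟨m, rfl⟩ : p ^ k ∣ n := hk.trans (Nat.gcd_dvd_left _ _)
  exact prime_pow_dvd hp k m c hc (hk.trans (Nat.gcd_dvd_right _ _))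

/-- Let `G` be a finite group of order `g`, `c` an element whose conjugacy class has `h` elements, and `n` a natural number. Then the number of elements `x` of `G` with `x^n` conjugate to `c` is a multiple of `gcd(hn, g)`. -/
theorem result {G : Type*} [Group G] [Finite G] (c : G) (n : ℕ) : Nat.gcd (Nat.card {y : G // IsConj c y} * n) (Nat.card G) ∣ Nat.card {x : G // IsConj c (x ^ n)} := by
  classical
  haveI := Fintype.ofFinite G
  set h := Nat.card {y : G // IsConj c y} with hh
  have hg := Cfsg.Agent.Lib.Basic.ConjCount.card_isConj_mul_card_centralizer c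
  rw [← hh] at hg
  rw [← hg, Nat.gcd_mul_left]
  -- counting
  have hcmem : c ∈ Subgroup.centralizer ({c} : Set G) :=
    Subgroup.mem_centralizer_singleton_iff.mpr rfl
  have h1 := gcd_dvd_central n (⟨c, hcmem⟩ : Subgroup.centralizer ({c} : Set G)) (by
    rintro ⟨g, hg⟩
    apply Subtype.ext
    exact Subgroup.mem_centralizer_singleton_iff.mp hg)
  have h2 : Nat.card {x : Subgroup.centralizer ({c} : Set G) // x ^ n = ⟨c, hcmem⟩} =
      Nat.card {x : G // x ^ n = c} := by
    refine Nat.card_congr ⟨fun x => ⟨x.1.1, by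
        have := congrArg Subtype.val x.2
        simpa using this⟩, fun x => ⟨⟨x.1, ?_⟩, ?_⟩, ?_, ?_⟩
    · rw [Subgroup.mem_centralizer_singleton_iff]
      have h3 : Commute x.1 (x.1 ^ n) := (Commute.refl _).pow_right _
      rw [x.2] at h3
      exact h3
    · apply Subtype.ext
      exact x.2
    · intro x
      rfl
    · intro x
      rfl
  rw [h2] at h1
  have h3 : Nat.card {x : G // IsConj c (x ^ n)} = h * Nat.card {x : G // x ^ n = c} := by
    let S : Finset G := Finset.univ.filter (fun x => IsConj c (x ^ n))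
    let T : Finset G := Finset.univ.filter (fun y => IsConj c y)
    have hS : Nat.card {x : G // IsConj c (x ^ n)} = S.card :=
      Nat.subtype_card S (fun x => by simp [S])
    have hT : h = T.card := Nat.subtype_card T (fun x => by simp [T])
    rw [hS, hT, Finset.card_eq_sum_card_fiberwise (f := fun x => x ^ n) (t := T)
      (fun x hx => Finset.mem_coe.mpr (Finset.mem_filter.mpr
        ⟨Finset.mem_univ _, (Finset.mem_filter.mp hx).2⟩))]
    rw [Finset.sum_congr rfl (g := fun _ => Nat.card {x : G // x ^ n = c}), Finset.sum_const,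
      smul_eq_mul]
    intro y hy
    have hy' : IsConj c y := (Finset.mem_filter.mp hy).2
    rw [card_roots_conj n hy']
    symm
    apply Nat.subtype_card
    intro x
    simp only [S, Finset.mem_filter, Finset.mem_univ, true_and]
    constructor
    · rintro ⟨_, hx⟩
      exact hx
    · intro hx
      exact ⟨by rw [hx]; exact hy', hx⟩
  rw [h3]
  exact Nat.mul_dvd_mul_left _ h1

end Cfsg.Agent.S4212
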