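import Cfsg.Statements.S4213
import Cfsg.Agent.S3993
import Cfsg.Agent.Lib.Solvable.MinimalNormal
import Mathlib

set_option autoImplicit false
open Cfsg

namespace Cfsg.Agent.S4213

universe u

open Cfsg.Agent.Lib.Solvable.MinimalNormal

/-- Number of `n`-torsion elements as a positive number. -/
theorem card_torsion_pos {G : Type*} [Group G] [Finite G] (n : ℕ) :
    0 < Nat.card {x : G // x ^ n = 1} := by
  haveI : Nonempty {x : G // x ^ n = 1} := ⟨⟨1, one_pow n⟩⟩
  exact Nat.card_pos

theorem card_torsion_ge {G : Type*} [Group G] [Finite G] (n : ℕ) (hn : n ∣ Nat.card G) :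
    n ≤ Nat.card {x : G // x ^ n = 1} :=
  Nat.le_of_dvd (card_torsion_pos n) (Cfsg.Agent.S3993.result n hn)

/-- The preimage in `G` of the `m`-torsion of `G ⧸ A` has `|A| * #m-torsion` elements. -/
theorem card_preimage {G : Type*} [Group G] [Finite G] (A : Subgroup G) [A.Normal] (m : ℕ) :
    Nat.card {x : G // ((x : G ⧸ A)) ^ m = 1} = Nat.card A * Nat.card {y : G ⧸ A // y ^ m = 1} := by
  classical
  haveI := Fintype.ofFinite G
  haveI : Fintype (G ⧸ A) := Fintype.ofFinite _
  let S : Finset G := Finset.univ.filter (fun x => ((x : G ⧸ A)) ^ m = 1)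
  let T : Finset (G ⧸ A) := Finset.univ.filter (fun y => y ^ m = 1)
  have hS : Nat.card {x : G // ((x : G ⧸ A)) ^ m = 1} = S.card :=
    Nat.subtype_card S (fun x => by simp [S])
  have hT : Nat.card {y : G ⧸ A // y ^ m = 1} = T.card :=
    Nat.subtype_card T (fun x => by simp [T])
  have hAc : Nat.card A = (Finset.univ.filter (fun a : G => a ∈ A)).card :=
    Nat.subtype_card _ (fun a => by simp)
  rw [hS, hT, Finset.card_eq_sum_card_fiberwise (f := fun x : G => (x : G ⧸ A)) (t := T)
    (fun x hx => Finset.mem_coe.mpr (Finset.mem_filter.mpr ⟨Finset.mem_univ _, (Finset.mem_filter.mp hx).2⟩))]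
  rw [Finset.sum_const_nat (m := Nat.card A), mul_comm]
  intro y hy
  obtain ⟨g, rfl⟩ := QuotientGroup.mk_surjective y
  rw [hAc]
  apply Finset.card_bij (fun x _ => g⁻¹ * x)
  · intro x hx
    obtain ⟨-, hx2⟩ := Finset.mem_filter.mp hx
    have := QuotientGroup.eq.mp hx2.symm
    simpa using this
  · intro a _ b _ h
    exact mul_left_cancel h
  · intro b hb
    have hb' : b ∈ A := by simpa using hb
    refine ⟨g * b, ?_, by group⟩
    refine Finset.mem_filter.mpr ⟨Finset.mem_filter.mpr ⟨Finset.mem_univ _, ?_⟩, ?_⟩
    · have hy' := (Finset.mem_filter.mp hy).2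
      rw [← hy']
      congr 1
      apply QuotientGroup.eq.mpr
      simpa using hb'
    · apply QuotientGroup.eq.mpr
      simpa using A.inv_mem hb'

/-- The induction. -/
theorem main (N : ℕ) : ∀ (G : Type u) [Group G] [Finite G] [Group.IsSolvable G] (n : ℕ),
    Nat.card G = N → n ∣ Nat.card G → Nat.card {x : G // x ^ n = 1} = n →
      ∃ H : Subgroup G, (H : Set G) = {x : G | x ^ n = 1} := by
  induction N using Nat.strong_induction_on with
  | _ N ih =>
    intro G _ _ _ n hN hn hcount
    classical
    by_cases hnt : Nontrivial G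
    swap
    · -- trivial group
      rw [not_nontrivial_iff_subsingleton] at hnt
      refine ⟨⊤, ?_⟩
      ext x
      simp [Subsingleton.elim x 1]
    obtain ⟨A, hA⟩ := exists_isMinNormal (G := G)
    haveI hAn : A.Normal := hA.normal
    obtain ⟨r, hr, hAp, hAc, hAe⟩ := hA.exists_isPGroup
    haveI : Fact r.Prime := ⟨hr⟩
    obtain ⟨b, hb⟩ := hAp.exists_card_eq
    have hbpos : 0 < b := by
      apply Nat.pos_of_ne_zero
      rintro rfl
      rw [pow_zero] at hb
      exact hA.ne_bot ((Subgroup.card_eq_one).mp hb)
    have hlt : Nat.card (G ⧸ A) < N := by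
      rw [← hN]
      exact card_quotient_lt A hA.ne_bot
    have hGA : Nat.card G = r ^ b * Nat.card (G ⧸ A) := by
      rw [← hb, ← Subgroup.index_eq_card, Subgroup.card_mul_index]
    -- general fact: preimages of torsion lie in the `n`-torsion
    have hpre : ∀ m : ℕ, 0 < m → m * r ∣ n → ∀ x : G, ((x : G ⧸ A)) ^ m = 1 → x ^ n = 1 := by
      intro m _ hd x hx
      have h1 : x ^ m ∈ A := by
        rw [← QuotientGroup.eq_one_iff]
        rw [QuotientGroup.mk_pow]
        exact hx
      obtain ⟨c, rfl⟩ := hd
      rw [mul_assoc, pow_mul, pow_mul, hAe _ h1, one_pow]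
    have hXcard : ∀ m : ℕ, 0 < m → m * r ∣ n →
        r ^ b * Nat.card {y : G ⧸ A // y ^ m = 1} ≤ n := by
      intro m hm hd
      rw [← hb, ← card_preimage A m, ← hcount]
      apply Nat.card_le_card_of_injective
        (fun x : {x : G // ((x : G ⧸ A)) ^ m = 1} => (⟨x.1, hpre m hm hd x.1 x.2⟩ : {x : G // x ^ n = 1}))
      intro a c h
      have h' : a.1 = c.1 := congrArg (fun z : {x : G // x ^ n = 1} => z.1) h
      exact Subtype.ext h'
    by_cases hrn : r ∣ n
    · -- `r ∣ n`
      by_cases hbn : r ^ b ∣ n
      · -- case (i)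
        obtain ⟨n₁, rfl⟩ := hbn
        have hnpos : 0 < r ^ b * n₁ := Nat.pos_of_dvd_of_pos hn Nat.card_pos
        have hn₁pos : 0 < n₁ := Nat.pos_of_mul_pos_left hnpos
        have hrbpos : 0 < r ^ b := pow_pos hr.pos b
        have hn₁d : n₁ ∣ Nat.card (G ⧸ A) := by
          rw [hGA] at hn
          exact Nat.dvd_of_mul_dvd_mul_left hrbpos hn
        have hd : n₁ * r ∣ r ^ b * n₁ := by
          rw [mul_comm n₁]
          obtain ⟨b', rfl⟩ : ∃ b', b = b' + 1 := ⟨b - 1, by omega⟩
          exact ⟨r ^ b', by rw [pow_succ]; ring⟩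
        have h1 := hXcard n₁ hn₁pos hd
        have h2 : Nat.card {y : G ⧸ A // y ^ n₁ = 1} ≤ n₁ := Nat.le_of_mul_le_mul_left h1 hrbpos
        have h3 := card_torsion_ge n₁ hn₁d
        have h4 : Nat.card {y : G ⧸ A // y ^ n₁ = 1} = n₁ := le_antisymm h2 h3
        obtain ⟨Hb, hHb⟩ := ih _ hlt (G ⧸ A) n₁ rfl hn₁d h4
        refine ⟨Hb.comap (QuotientGroup.mk' A), ?_⟩
        -- the preimage equals the torsion by counting
        have hsub : ∀ x : G, (x : G ⧸ A) ^ n₁ = 1 → x ^ (r ^ b * n₁) = 1 := hpre n₁ hn₁pos hd
        have heqcard : Nat.card {x : G // ((x : G ⧸ A)) ^ n₁ = 1} = Nat.card {x : G // x ^ (r ^ b * n₁) = 1} := by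
          rw [card_preimage A n₁, h4, hb, hcount]
        have hsame : ∀ x : G, x ^ (r ^ b * n₁) = 1 → (x : G ⧸ A) ^ n₁ = 1 := by
          haveI := Fintype.ofFinite G
          let S : Finset G := Finset.univ.filter (fun x => ((x : G ⧸ A)) ^ n₁ = 1)
          let T : Finset G := Finset.univ.filter (fun x => x ^ (r ^ b * n₁) = 1)
          have hS : Nat.card {x : G // ((x : G ⧸ A)) ^ n₁ = 1} = S.card :=
            Nat.subtype_card S (fun x => by simp [S])
          have hT : Nat.card {x : G // x ^ (r ^ b * n₁) = 1} = T.card :=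
            Nat.subtype_card T (fun x => by simp [T])
          have hST : S ⊆ T := by
            intro x hx
            exact Finset.mem_filter.mpr ⟨Finset.mem_univ _, hsub x (Finset.mem_filter.mp hx).2⟩
          have hEq : S = T := Finset.eq_of_subset_of_card_le hST (by rw [← hS, ← hT, heqcard])
          intro x hx
          have : x ∈ T := Finset.mem_filter.mpr ⟨Finset.mem_univ _, hx⟩
          rw [← hEq] at this
          exact (Finset.mem_filter.mp this).2
        ext x
        have hHbx : ∀ y : G ⧸ A, y ∈ Hb ↔ y ^ n₁ = 1 := fun y => by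
          have := Set.ext_iff.mp hHb y
          simpa using this
        simp only [Subgroup.coe_comap, Set.mem_preimage, SetLike.mem_coe, QuotientGroup.mk'_apply,
          hHbx, Set.mem_ofPred_eq]
        exact ⟨hsub x, hsame x⟩
      · -- case (iii): impossible
        exfalso
        -- write `n = r ^ c * n'`
        obtain ⟨c, n', hrn', hne⟩ : ∃ c n', ¬ r ∣ n' ∧ n = r ^ c * n' := by
          have hn0 : n ≠ 0 := by
            rintro rfl
            have := zero_dvd_iff.mp hn
            exact Nat.card_pos.ne' this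
          exact ⟨_, _, Nat.not_dvd_ordCompl hr hn0, (Nat.ordProj_mul_ordCompl_eq_self n r).symm⟩
        subst hne
        have hc0 : 0 < c := by
          apply Nat.pos_of_ne_zero
          rintro rfl
          rw [pow_zero, one_mul] at hrn
          exact hrn' hrn
        have hcb : c < b := by
          by_contra hle
          push Not at hle
          exact hbn ((pow_dvd_pow r hle).trans (dvd_mul_right _ _))
        have hnpos : 0 < r ^ c * n' := Nat.pos_of_dvd_of_pos hn Nat.card_pos
        have hn'pos : 0 < n' := Nat.pos_of_mul_pos_left hnpos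
        have hn'd : n' ∣ Nat.card (G ⧸ A) := by
          have h1 : n' ∣ r ^ b * Nat.card (G ⧸ A) := by
            rw [← hGA]
            exact (dvd_mul_left _ _).trans hn
          exact (Nat.Coprime.pow_left b ((Nat.Prime.coprime_iff_not_dvd hr).mpr hrn')).symm.dvd_of_dvd_mul_left h1
        have hd : n' * r ∣ r ^ c * n' := by
          rw [mul_comm n']
          obtain ⟨c', rfl⟩ : ∃ c', c = c' + 1 := ⟨c - 1, by omega⟩
          exact ⟨r ^ c', by rw [pow_succ]; ring⟩
        have h1 := hXcard n' hn'pos hd
        have h3 := card_torsion_ge n' hn'd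
        have h4 : r ^ b * n' ≤ r ^ c * n' := (Nat.mul_le_mul_left _ h3).trans h1
        have h5 := Nat.le_of_mul_le_mul_right h4 hn'pos
        have h6 := (Nat.pow_le_pow_iff_right hr.one_lt).mp h5
        omega
    · -- case (ii): `r ∤ n`
      have hnpos : 0 < n := Nat.pos_of_dvd_of_pos hn Nat.card_pos
      have hcop : Nat.Coprime (r ^ b) n :=
        Nat.Coprime.pow_left _ ((Nat.Prime.coprime_iff_not_dvd hr).mpr hrn)
      have hnd : n ∣ Nat.card (G ⧸ A) := by
        rw [hGA] at hn
        exact hcop.symm.dvd_of_dvd_mul_left hn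
      -- the map `X → X̄` is onto
      have hsurj : ∀ y : G ⧸ A, y ^ n = 1 → ∃ x : G, x ^ n = 1 ∧ (x : G ⧸ A) = y := by
        intro y hy
        obtain ⟨g, rfl⟩ := QuotientGroup.mk_surjective y
        have h1 : g ^ n ∈ A := by
          rw [← QuotientGroup.eq_one_iff, QuotientGroup.mk_pow]
          exact hy
        have h2 : g ^ (n * r) = 1 := by
          rw [pow_mul, hAe _ h1]
        -- take the `r'`-part of `g`
        obtain ⟨u, v, huv⟩ : ∃ u v : ℤ, (n : ℤ) * u + (r : ℤ) * v = 1 := by
          have hcop' : Nat.Coprime n r := (Nat.Prime.coprime_iff_not_dvd hr).mpr hrn |>.symm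
          refine ⟨Nat.gcdA n r, Nat.gcdB n r, ?_⟩
          have := Nat.gcd_eq_gcd_ab n r
          rw [hcop'] at this
          exact_mod_cast this.symm
        -- `x := g ^ (r * v)`
        refine ⟨g ^ ((r : ℤ) * v), ?_, ?_⟩
        · rw [← zpow_natCast, ← zpow_mul]
          have : (r : ℤ) * v * (n : ℤ) = ((n * r : ℕ) : ℤ) * v := by push_cast; ring
          rw [this, zpow_mul, zpow_natCast, h2, one_zpow]
        · -- `g ^ (r v) = g * (g ^ n) ^ (-u)` and `g ^ n ∈ A`
          apply QuotientGroup.eq.mpr
          have h3 : (g ^ ((r : ℤ) * v))⁻¹ * g = (g ^ n) ^ u := by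
            rw [← zpow_natCast g n, ← zpow_mul, ← zpow_neg]
            have h4 : (n : ℤ) * u = -((r : ℤ) * v) + 1 := by linarith
            rw [h4, zpow_add_one]
          rw [h3]
          exact Subgroup.zpow_mem _ h1 u
      -- so `X̄` has exactly `n` elements
      have hbar : Nat.card {y : G ⧸ A // y ^ n = 1} = n := by
        apply le_antisymm
        · have h5 : Nat.card {y : G ⧸ A // y ^ n = 1} ≤ Nat.card {x : G // x ^ n = 1} := by
            apply Nat.card_le_card_of_surjective
              (fun x : {x : G // x ^ n = 1} => (⟨(x.1 : G ⧸ A), by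
                rw [← QuotientGroup.mk_pow, x.2]; rfl⟩ : {y : G ⧸ A // y ^ n = 1}))
            rintro ⟨y, hy⟩
            obtain ⟨x, hx, rfl⟩ := hsurj y hy
            exact ⟨⟨x, hx⟩, rfl⟩
          rwa [hcount] at h5
        · exact card_torsion_ge n hnd
      obtain ⟨Hb, hHb⟩ := ih _ hlt (G ⧸ A) n rfl hnd hbar
      -- the preimage and Schur–Zassenhaus
      let T := Hb.comap (QuotientGroup.mk' A)
      have hHbcard : Nat.card Hb = n := by
        have h5 : Nat.card Hb = Nat.card {y : G ⧸ A // y ^ n = 1} := by
          apply Nat.card_congr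
          refine Equiv.subtypeEquivRight (fun y => ?_)
          have := Set.ext_iff.mp hHb y
          simpa using this
        rw [h5, hbar]
      have hAT : A ≤ T := by
        intro a ha
        show ((a : G) : G ⧸ A) ∈ Hb
        rw [(QuotientGroup.eq_one_iff a).mpr ha]
        exact Hb.one_mem
      -- the subgroup `A` inside `T`
      let A' : Subgroup T := A.subgroupOf T
      haveI : A'.Normal := inferInstance
      have hA'card : Nat.card A' = r ^ b := by
        rw [← hb]
        exact Nat.card_congr (Subgroup.subgroupOfEquivOfLe hAT).toEquiv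
      have hTcard : Nat.card T = r ^ b * n := by
        have h1 : T.index = Hb.index :=
          Subgroup.index_comap_of_surjective _ (QuotientGroup.mk'_surjective A)
        have h2 := Subgroup.card_mul_index T
        have h3 := Subgroup.card_mul_index Hb
        rw [h1] at h2
        have hpos : 0 < Hb.index := Nat.pos_of_ne_zero Subgroup.index_ne_zero_of_finite
        apply Nat.eq_of_mul_eq_mul_right hpos
        rw [h2, hGA, ← h3, hHbcard]
        ring
      have hA'idx : A'.index = n := by
        have h1 := Subgroup.card_mul_index A'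
        rw [hA'card, hTcard] at h1
        exact Nat.eq_of_mul_eq_mul_left (pow_pos hr.pos b) h1
      obtain ⟨L, hL⟩ := Subgroup.exists_right_complement'_of_coprime (N := A') (by
        rw [hA'card, hA'idx]
        exact hcop)
      have hLcard : Nat.card L = n := by
        have h1 := hL.card_mul_card
        rw [hA'card, hTcard] at h1
        exact Nat.eq_of_mul_eq_mul_left (pow_pos hr.pos b) h1
      -- `L` is the `n`-torsion
      let H : Subgroup G := L.map T.subtype
      have hHcard : Nat.card H = n := by
        rw [← hLcard]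
        exact (Nat.card_congr (L.equivMapOfInjective T.subtype T.subtype_injective).toEquiv).symm
      refine ⟨H, ?_⟩
      have hsub : ∀ h ∈ H, h ^ n = 1 := by
        intro h hh
        have := pow_card_eq_one' (x := (⟨h, hh⟩ : H))
        rw [hHcard] at this
        have h2 := congrArg Subtype.val this
        simpa using h2
      haveI := Fintype.ofFinite G
      let S : Finset G := Finset.univ.filter (fun x => x ∈ H)
      let X : Finset G := Finset.univ.filter (fun x => x ^ n = 1)
      have hS : Nat.card H = S.card := Nat.subtype_card S (fun x => by simp [S])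
      have hX : Nat.card {x : G // x ^ n = 1} = X.card := Nat.subtype_card X (fun x => by simp [X])
      have hSX : S ⊆ X := fun x hx =>
        Finset.mem_filter.mpr ⟨Finset.mem_univ _, hsub x (Finset.mem_filter.mp hx).2⟩
      have hEq : S = X := Finset.eq_of_subset_of_card_le hSX (by rw [← hS, ← hX, hHcard, hcount])
      ext x
      simp only [SetLike.mem_coe, Set.mem_ofPred_eq]
      constructor
      · exact hsub x
      · intro hx
        have : x ∈ X := Finset.mem_filter.mpr ⟨Finset.mem_univ _, hx⟩
        rw [← hEq] at this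
        exact (Finset.mem_filter.mp this).2

/-- If `G` is a finite solvable group and `n` divides the order of `G` and exactly `n` elements `x` of `G` satisfy `x^n = 1`, then these elements form a normal subgroup. -/
theorem result {G : Type*} [Group G] [Finite G] [Group.IsSolvable G] (n : ℕ) (hn : n ∣ Nat.card G) (hcount : Nat.card {x : G // x ^ n = 1} = n) : ∃ H : Subgroup G, H.Normal ∧ (H : Set G) = {x : G | x ^ n = 1} := by
  obtain ⟨H, hH⟩ := main _ G n rfl hn hcount
  refine ⟨H, ?_, hH⟩
  constructor
  intro h hh g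
  have h1 : h ∈ (H : Set G) := hh
  rw [hH] at h1
  have h2 : g * h * g⁻¹ ∈ (H : Set G) := by
    rw [hH]
    show (g * h * g⁻¹) ^ n = 1
    rw [conj_pow, show h ^ n = 1 from h1]
    group
  exact h2

end Cfsg.Agent.S4213
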