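import Cfsg.Statements.S4216
import Mathlib
import Cfsg.Agent.Lib.Transfer.Frobenius
import Cfsg.Agent.Lib.Basic.SylowConj
-- import your own Cfsg.Agent.* helpers here

set_option autoImplicit false
open Cfsg

namespace Cfsg.Agent.S4216

open Subgroup Cfsg.Agent.Lib.Transfer.Frobenius
open scoped commutatorElement

variable {G : Type*} [Group G] [Finite G] {p : ℕ} [hp : Fact p.Prime]

/-- The right-hand side of Grün's first theorem. -/
def P1 (P : Sylow p G) : Subgroup G :=
  ((P : Subgroup G) ⊓ ⁅Subgroup.normalizer ((P : Subgroup G) : Set G), Subgroup.normalizer ((P : Subgroup G) : Set G)⁆) ⊔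
    ⨆ z : G, (P : Subgroup G) ⊓ (⁅(P : Subgroup G), (P : Subgroup G)⁆).map (MulAut.conj z).toMonoidHom

theorem mem_P1_of_normalizer (P : Sylow p G) {x : G} (hx : x ∈ (P : Subgroup G))
    (hx' : x ∈ ⁅Subgroup.normalizer ((P : Subgroup G) : Set G), Subgroup.normalizer ((P : Subgroup G) : Set G)⁆) :
    x ∈ P1 P :=
  (le_sup_left : _ ≤ P1 P) ⟨hx, hx'⟩

theorem mem_P1_of_conj (P : Sylow p G) (z : G) {x : G} (hx : x ∈ (P : Subgroup G))
    (hx' : x ∈ (⁅(P : Subgroup G), (P : Subgroup G)⁆).map (MulAut.conj z).toMonoidHom) :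
    x ∈ P1 P :=
  (le_sup_right : _ ≤ P1 P) (Subgroup.mem_iSup_of_mem z ⟨hx, hx'⟩)

/-- The conjugation family property for `D`. -/
def Phi (P : Sylow p G) (D : Subgroup G) : Prop :=
  ∀ g : G, (∀ d ∈ D, g * d * g⁻¹ ∈ (P : Subgroup G)) → ∀ a ∈ D, a⁻¹ * (g * a * g⁻¹) ∈ P1 P

/-- Conjugates of a Sylow subgroup by a group element, in terms of `P1`: if `a, b` lie in a common
Sylow subgroup `R` with `a⁻¹ * (b * a * b⁻¹) ∈ P` then it belongs to `P1`. -/
theorem mem_P1_of_sylow (P R : Sylow p G) {a b : G} (ha : a ∈ (R : Subgroup G))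
    (hb : b ∈ (R : Subgroup G)) (hP : a⁻¹ * (b * a * b⁻¹) ∈ (P : Subgroup G)) :
    a⁻¹ * (b * a * b⁻¹) ∈ P1 P := by
  obtain ⟨z, hz⟩ := MulAction.exists_smul_eq G P R
  refine mem_P1_of_conj P z hP ?_
  have hR : (⁅(P : Subgroup G), (P : Subgroup G)⁆).map (MulAut.conj z).toMonoidHom =
      ⁅(R : Subgroup G), (R : Subgroup G)⁆ := by
    rw [Subgroup.map_commutator, ← hz]
    rfl
  rw [hR]
  have := Subgroup.commutator_mem_commutator (R.inv_mem ha) hb
  have he : a⁻¹ * (b * a * b⁻¹) = ⁅a⁻¹, b⁆ := by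
    rw [commutatorElement_def]; group
  rw [he]
  exact this

/-- The key step: automorphisms of a non-Sylow subgroup. -/
theorem step (P : Sylow p G) (E : Subgroup G) (hEP : E ≤ (P : Subgroup G)) (hE : E ≠ (P : Subgroup G))
    (ih : ∀ Q : Subgroup G, Q ≤ (P : Subgroup G) → Nat.card E < Nat.card Q → Phi P Q)
    (y : G) (hy : y ∈ Subgroup.normalizer (E : Set G)) (e : G) (he : e ∈ E) :
    e⁻¹ * (y * e * y⁻¹) ∈ P1 P := by
  classical
  set H : Subgroup G := Subgroup.normalizer (E : Set G) with hH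
  have hconjE : ∀ y' : H, ∀ e' ∈ E, (y' : G) * e' * (y' : G)⁻¹ ∈ E := fun y' e' he' =>
    (Subgroup.mem_normalizer_iff.1 y'.2 e').1 he'
  have hconjE' : ∀ y' : H, ∀ e' ∈ E, (y' : G)⁻¹ * e' * (y' : G) ∈ E := fun y' e' he' => by
    have := hconjE y'⁻¹ e' he'
    simpa using this
  let Y : Subgroup H :=
    { carrier := {y' | ∀ e' ∈ E, e'⁻¹ * ((y' : G) * e' * (y' : G)⁻¹) ∈ P1 P}
      one_mem' := by
        intro e' _
        simp [(P1 P).one_mem]
      mul_mem' := by
        intro a b ha hb e' he'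
        have h1 := hb e' he'
        have h2 := ha _ (hconjE b e' he')
        have := (P1 P).mul_mem h1 h2
        convert this using 1
        simp only [Subgroup.coe_mul, mul_inv_rev]
        group
      inv_mem' := by
        intro a ha e' he'
        have h1 := ha _ (hconjE' a e' he')
        have := (P1 P).inv_mem h1
        convert this using 1
        simp only [Subgroup.coe_inv]
        group }
  have hYmem : ∀ y' : H, y' ∈ Y ↔ ∀ e' ∈ E, e'⁻¹ * ((y' : G) * e' * (y' : G)⁻¹) ∈ P1 P :=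
    fun _ => Iff.rfl
  have hEp : IsPGroup p E := IsPGroup.to_le P.2 hEP
  -- Sylow subgroups of `H` are in `Y`
  have hSyl : ∀ Q : Sylow p H, (Q : Subgroup H) ≤ Y := by
    intro Q q hq
    rw [hYmem]
    intro e' he'
    have hEH : E ≤ H := Subgroup.le_normalizer
    have hEn : (E.subgroupOf H).Normal := Subgroup.normal_in_normalizer
    have hEp' : IsPGroup p (E.subgroupOf H) := hEp.comap_subtype
    have hEQ : E.subgroupOf H ≤ (Q : Subgroup H) := hEp'.le_sylow_of_normal Q
    have hQp : IsPGroup p ((Q : Subgroup H).map H.subtype) := Q.2.map H.subtype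
    obtain ⟨R, hR⟩ := hQp.exists_le_sylow
    have he'R : e' ∈ (R : Subgroup G) := hR ⟨⟨e', hEH he'⟩, hEQ he', rfl⟩
    have hqR : (q : G) ∈ (R : Subgroup G) := hR ⟨q, hq, rfl⟩
    apply mem_P1_of_sylow P R he'R hqR
    exact (P : Subgroup G).mul_mem ((P : Subgroup G).inv_mem (hEP he')) (hEP (hconjE q e' he'))
  -- the normalizer of a big Sylow subgroup of `H` is in `Y`
  have hNE : E < (P : Subgroup G) ⊓ H :=
    lt_inf_normalizer P.2 (lt_of_le_of_ne hEP hE)
  have hNEp : IsPGroup p (((P : Subgroup G) ⊓ H).subgroupOf H) :=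
    (IsPGroup.to_le P.2 inf_le_left).comap_subtype
  obtain ⟨S, hS⟩ := hNEp.exists_le_sylow
  have hSp : IsPGroup p ((S : Subgroup H).map H.subtype) := S.2.map H.subtype
  obtain ⟨b, hb⟩ := exists_conj_mem_of_isPGroup P hSp
  have hNES : ∀ x ∈ (P : Subgroup G) ⊓ H, x ∈ (S : Subgroup H).map H.subtype := fun x hx =>
    ⟨⟨x, hx.2⟩, hS hx, rfl⟩
  have hphiN : Phi P ((P : Subgroup G) ⊓ H) :=
    ih _ inf_le_left (card_lt_of_lt hNE)
  have hbNE := hphiN b (fun d hd => hb d (hNES d hd))
  have hNY : normalizer ((S : Subgroup H) : Set H) ≤ Y := by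
    intro n hn
    rw [hYmem]
    intro e' he'
    let S₁ : Subgroup G := ((S : Subgroup H).map H.subtype).map (MulAut.conj b).toMonoidHom
    have hS₁P : S₁ ≤ (P : Subgroup G) := by
      rintro _ ⟨s, hs, rfl⟩
      exact hb s hs
    have hS₁card : Nat.card E < Nat.card S₁ := by
      have h1 : Nat.card S₁ = Nat.card ((S : Subgroup H).map H.subtype) :=
        Subgroup.card_map_of_injective (MulAut.conj b).injective
      rw [h1]
      exact lt_of_lt_of_le (card_lt_of_lt hNE) (Subgroup.card_le_of_le hNES)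
    have hphiS := ih S₁ hS₁P hS₁card
    have hn' := hphiS (b * (n : G) * b⁻¹) (by
      rintro _ ⟨_, ⟨s, hs, rfl⟩, rfl⟩
      have hs' : n * s * n⁻¹ ∈ (S : Subgroup H) := (Subgroup.mem_normalizer_iff.1 hn s).1 hs
      have := hb _ ⟨_, hs', rfl⟩
      simpa [mul_assoc] using this) (b * e' * b⁻¹)
      ⟨(e' : G), ⟨⟨e', Subgroup.le_normalizer he'⟩, hS ⟨hEP he', Subgroup.le_normalizer he'⟩, rfl⟩, by simp⟩
    have he2 := hconjE n e' he'
    have hNEe : e' ∈ (P : Subgroup G) ⊓ H := ⟨hEP he', Subgroup.le_normalizer he'⟩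
    have hNEe2 : (n : G) * e' * (n : G)⁻¹ ∈ (P : Subgroup G) ⊓ H :=
      ⟨hEP he2, Subgroup.le_normalizer he2⟩
    have h1 := hbNE e' hNEe
    have h3 := hbNE _ hNEe2
    have := (P1 P).mul_mem ((P1 P).mul_mem h1 hn') ((P1 P).inv_mem h3)
    convert this using 1
    group
  -- conclusion
  have hYtop : ∀ y' : H, y' ∈ Y := by
    intro y'
    obtain ⟨u, hu, huS⟩ := Cfsg.Agent.Lib.Basic.SylowConj.exists_mem_smul_eq Y S (y' • S) (hSyl S) (hSyl _)
    have h1 : (u⁻¹ * y') • S = S := by
      rw [mul_smul, ← huS, smul_smul, inv_mul_cancel, one_smul]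
    have h2 : u⁻¹ * y' ∈ normalizer ((S : Subgroup H) : Set H) := Sylow.smul_eq_iff_mem_normalizer.mp h1
    have h3 := Y.mul_mem hu (hNY h2)
    simpa using h3
  exact (hYmem ⟨y, hy⟩).1 (hYtop ⟨y, hy⟩) e he

/-- The family property for all subgroups of `P`. -/
theorem phi_all (P : Sylow p G) : ∀ (n : ℕ) (D : Subgroup G), D ≤ (P : Subgroup G) →
    Nat.card (P : Subgroup G) - Nat.card D = n → Phi P D := by
  classical
  intro n
  induction n using Nat.strong_induction_on with
  | _ n IH =>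
    intro D hDP hn
    have ih : ∀ Q : Subgroup G, Q ≤ (P : Subgroup G) → Nat.card D < Nat.card Q → Phi P Q := by
      intro Q hQ hlt
      have hle : Nat.card Q ≤ Nat.card (P : Subgroup G) := Subgroup.card_le_of_le hQ
      exact IH _ (by omega) Q hQ rfl
    intro g hg a ha
    by_cases hDeq : D = (P : Subgroup G)
    · subst hDeq
      have hgN : g ∈ normalizer ((P : Subgroup G) : Set G) := mem_normalizer_of_conj_mem hg
      apply mem_P1_of_normalizer P ((P : Subgroup G).mul_mem ((P : Subgroup G).inv_mem ha) (hg a ha))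
      have he : a⁻¹ * (g * a * g⁻¹) = ⁅a⁻¹, g⁆ := by
        rw [commutatorElement_def]; group
      rw [he]
      exact Subgroup.commutator_mem_commutator (Subgroup.inv_mem _ (Subgroup.le_normalizer ha)) hgN
    · let E : Subgroup G := D.map (MulAut.conj g).toMonoidHom
      have hEP : E ≤ (P : Subgroup G) := by
        rintro _ ⟨d, hd, rfl⟩
        exact hg d hd
      have hEcard : Nat.card E = Nat.card D := Subgroup.card_map_of_injective (MulAut.conj g).injective
      have hDlt : D < (P : Subgroup G) := lt_of_le_of_ne hDP hDeq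
      have hDcard : Nat.card D < Nat.card (P : Subgroup G) := card_lt_of_lt hDlt
      have hEne : E ≠ (P : Subgroup G) := by
        intro h
        rw [h] at hEcard
        omega
      have ihE : ∀ Q : Subgroup G, Q ≤ (P : Subgroup G) → Nat.card E < Nat.card Q → Phi P Q := by
        intro Q hQ hlt
        rw [hEcard] at hlt
        exact ih Q hQ hlt
      let M : Subgroup G := (P : Subgroup G) ⊓ normalizer (D : Set G)
      have hDM : D < M := lt_inf_normalizer P.2 hDlt
      set H : Subgroup G := normalizer (E : Set G) with hH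
      have hMH : ∀ m ∈ M, g * m * g⁻¹ ∈ H := by
        intro m hm
        apply mem_normalizer_of_conj_mem
        rintro _ ⟨d, hd, rfl⟩
        have hd' := (Subgroup.mem_normalizer_iff.1 hm.2 d).1 hd
        refine ⟨_, hd', ?_⟩
        simp only [MulEquiv.coe_toMonoidHom, MulAut.conj_apply]
        group
      have hEp : IsPGroup p E := IsPGroup.to_le P.2 hEP
      let W : Subgroup H := (M.map (MulAut.conj g).toMonoidHom).subgroupOf H
      have hWp : IsPGroup p W := by
        have h1 : IsPGroup p M := IsPGroup.to_le P.2 inf_le_left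
        have h2 : IsPGroup p (M.map (MulAut.conj g).toMonoidHom) := h1.map _
        exact h2.comap_subtype
      have hNE : E < (P : Subgroup G) ⊓ H := lt_inf_normalizer P.2 (lt_of_le_of_ne hEP hEne)
      have hNEp : IsPGroup p (((P : Subgroup G) ⊓ H).subgroupOf H) :=
        (IsPGroup.to_le P.2 inf_le_left).comap_subtype
      obtain ⟨S, hS⟩ := hNEp.exists_le_sylow
      have hSp : IsPGroup p ((S : Subgroup H).map H.subtype) := S.2.map H.subtype
      obtain ⟨b, hb⟩ := exists_conj_mem_of_isPGroup P hSp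
      obtain ⟨y, hy⟩ := exists_conj_mem_of_isPGroup S hWp
      have hNES : ∀ x ∈ (P : Subgroup G) ⊓ H, x ∈ (S : Subgroup H).map H.subtype := fun x hx =>
        ⟨⟨x, hx.2⟩, hS hx, rfl⟩
      -- the three relations
      have h1 := ih M inf_le_left (card_lt_of_lt hDM) (b * (y : G) * g) (by
        intro m hm
        have hm' : (⟨g * m * g⁻¹, hMH m hm⟩ : H) ∈ W := ⟨m, hm, rfl⟩
        have hy' := hy _ hm'
        have := hb _ ⟨_, hy', rfl⟩
        simpa [mul_assoc] using this) a (hDM.le ha)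
      have he : g * a * g⁻¹ ∈ E := ⟨a, ha, rfl⟩
      have he1 : (y : G) * (g * a * g⁻¹) * (y : G)⁻¹ ∈ E :=
        (Subgroup.mem_normalizer_iff.1 y.2 _).1 he
      have h2 := ihE _ inf_le_left (card_lt_of_lt hNE) b (fun d hd => hb d (hNES d hd))
        _ (⟨hEP he1, Subgroup.le_normalizer he1⟩ : _ ∈ (P : Subgroup G) ⊓ H)
      have h3 := step P E hEP hEne ihE y y.2 _ he
      have := (P1 P).mul_mem ((P1 P).mul_mem h1 ((P1 P).inv_mem h2)) ((P1 P).inv_mem h3)
      convert this using 1
      group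

/-- Grün's first Theorem: if `P` is a Sylow `p`-subgroup of the finite group `G`, then `P ∩ G'` is the subgroup generated by `P ∩ N_G(P)'` together with the subgroups `P ∩ z P' z⁻¹` for all `z ∈ G`, where `'` denotes the derived subgroup and `N_G(P)` the normalizer of `P`. -/
theorem result {G : Type*} [Group G] [Finite G] {p : ℕ} [Fact p.Prime] (P : Sylow p G) : (P : Subgroup G) ⊓ commutator G = ((P : Subgroup G) ⊓ ⁅Subgroup.normalizer ((P : Subgroup G) : Set G), Subgroup.normalizer ((P : Subgroup G) : Set G)⁆) ⊔ ⨆ z : G, (P : Subgroup G) ⊓ (⁅(P : Subgroup G), (P : Subgroup G)⁆).map (MulAut.conj z).toMonoidHom := by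
  classical
  apply le_antisymm
  · -- focal subgroup theorem
    have hfoc := Subgroup.commutator_inf_eq_focalSubgroup P
    rw [inf_comm, hfoc, Subgroup.focalSubgroup_def, Subgroup.closure_le]
    rintro _ ⟨hgP, x, hx, u, rfl⟩
    have hx' : x ∈ (P : Subgroup G) := hx
    have hgP' : ⁅x, u⁆ ∈ (P : Subgroup G) := hgP
    -- the conjugate of `x⁻¹` lies in `P`
    have hconj : u * x⁻¹ * u⁻¹ ∈ (P : Subgroup G) := by
      have : u * x⁻¹ * u⁻¹ = x⁻¹ * ⁅x, u⁆ := by
        rw [commutatorElement_def]; group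
      rw [this]
      exact (P : Subgroup G).mul_mem ((P : Subgroup G).inv_mem hx') hgP'
    have hzle : zpowers x⁻¹ ≤ (P : Subgroup G) := by
      rw [Subgroup.zpowers_le]
      exact (P : Subgroup G).inv_mem hx'
    have hphi := phi_all P _ (zpowers x⁻¹) hzle rfl u (by
      rintro _ ⟨k, rfl⟩
      have : u * (x⁻¹ ^ k) * u⁻¹ = (u * x⁻¹ * u⁻¹) ^ k := by
        simp only [conj_zpow]
      simp only [this]
      exact (P : Subgroup G).zpow_mem hconj k) x⁻¹ (Subgroup.mem_zpowers _)
    have he : x⁻¹⁻¹ * (u * x⁻¹ * u⁻¹) = ⁅x, u⁆ := by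
      rw [commutatorElement_def]; group
    rw [he] at hphi
    exact hphi
  · apply sup_le
    · exact le_inf inf_le_left (inf_le_right.trans (Subgroup.commutator_mono le_top le_top))
    · apply iSup_le
      intro z
      refine le_inf inf_le_left (inf_le_right.trans ?_)
      have hc : ⁅(P : Subgroup G), (P : Subgroup G)⁆ ≤ commutator G := Subgroup.commutator_mono le_top le_top
      rintro _ ⟨c, hc', rfl⟩
      exact Subgroup.Normal.conj_mem inferInstance _ (hc hc') z

end Cfsg.Agent.S4216
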