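import Cfsg.Statements.S4217
import Cfsg.Agent.Lib.Coprime.Gaschutz
import Mathlib

set_option autoImplicit false
open Cfsg

namespace Cfsg.Agent.S4217

open Cfsg.Agent.Lib.Coprime.Gaschutz in
/-- Let `A` be an abelian normal subgroup of the finite group `G`. Then `A` has a complement in `G` if and only if, for every prime `p` dividing the index of `A`, there are a Sylow `p`-subgroup `S` of `G/A` and a subgroup `K` of `G` with `K ∩ A = 1` and `KA` equal to the preimage of `S` (that is, `A` has a complement in the preimage of a Sylow `p`-subgroup of `G/A`). -/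
theorem result {G : Type*} [Group G] [Finite G] (A : Subgroup G) [A.Normal] (hA : IsMulCommutative A) : (∃ K : Subgroup G, K.IsComplement' A) ↔ ∀ p : ℕ, p.Prime → p ∣ A.index → ∃ (S : Sylow p (G ⧸ A)) (K : Subgroup G), K ⊓ A = ⊥ ∧ K ⊔ A = (S : Subgroup (G ⧸ A)).comap (QuotientGroup.mk' A) := by
  constructor
  · rintro ⟨K, hK⟩ p hp _
    haveI : Fact p.Prime := ⟨hp⟩
    obtain ⟨S⟩ : Nonempty (Sylow p (G ⧸ A)) := inferInstance
    set U := (S : Subgroup (G ⧸ A)).comap (QuotientGroup.mk' A) with hU
    have hAU : A ≤ U := by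
      intro a ha
      show (QuotientGroup.mk' A) a ∈ (S : Subgroup (G ⧸ A))
      have : (QuotientGroup.mk' A) a = 1 := (QuotientGroup.eq_one_iff a).mpr ha
      rw [this]
      exact Subgroup.one_mem _
    refine ⟨S, K ⊓ U, ?_, ?_⟩
    · rw [inf_comm]
      exact inf_sup_inf_eq hK.symm
    · rw [sup_comm]
      exact sup_inf_eq_of_isComplement' hK.symm hAU
  · intro h
    have key : ∃ C : Subgroup G, Subgroup.IsComplement' A C := by
      apply exists_complement_of_forall_prime
      intro q hq hqA
      haveI : Fact q.Prime := ⟨hq⟩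
      obtain ⟨S, K, hK1, hK2⟩ := h q hq hqA
      refine ⟨K, by rw [inf_comm]; exact hK1, ?_⟩
      rw [sup_comm, hK2, Subgroup.index_comap_of_surjective _ (QuotientGroup.mk'_surjective A)]
      exact S.not_dvd_index
    obtain ⟨C, hC⟩ := key
    exact ⟨C, hC.symm⟩

end Cfsg.Agent.S4217
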