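import Cfsg.Statements.S4218
import Mathlib
import Cfsg.Agent.Lib.Solvable.PSeries3
import Cfsg.Agent.S0012
-- import your own Cfsg.Agent.* helpers here

set_option autoImplicit false
set_option linter.style.haveILetI false
open Cfsg

namespace Cfsg.Agent.S4218

open Cfsg.Agent.Lib.Solvable.PSeries Cfsg.Agent.Lib.Solvable.PSeries3 Cfsg.Agent.Lib.Basic.PCore
open scoped commutatorElement

/-- Let `G` be a finite `p`-solvable group, `N₀ = O_{p'}(G)`, `P₁ = O_{p',p}(G)`, and let `F ≤ P₁` be the preimage of the Frattini subgroup of `P₁/N₀`. Then an element `g` of `G` induces the identity on `P₁/F` by conjugation (that is, `g x g⁻¹ x⁻¹ ∈ F` for all `x ∈ P₁`) if and only if `g ∈ P₁`: the group `G/P₁` acts faithfully on `P₁/F`. -/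
theorem result {G : Type*} [Group G] [Finite G] {p : ℕ} [Fact p.Prime] (hG : Cfsg.IsPSolvable p G) (g : G) : (∀ x ∈ Cfsg.pPrimePCore p G, g * x * g⁻¹ * x⁻¹ ∈ ((frattini (↥(Cfsg.pPrimePCore p G) ⧸ (Cfsg.pPrimeCore p G).subgroupOf (Cfsg.pPrimePCore p G))).comap (QuotientGroup.mk' ((Cfsg.pPrimeCore p G).subgroupOf (Cfsg.pPrimePCore p G)))).map (Cfsg.pPrimePCore p G).subtype) ↔ g ∈ Cfsg.pPrimePCore p G := by
  classical
  set N₀ := pPrimeCore p G with hN₀
  set P₁ := pPrimePCore p G with hP₁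
  haveI hN₀n : N₀.Normal := pPrimeCore_normal p G
  let π : G →* G ⧸ N₀ := QuotientGroup.mk' N₀
  have hπ : Function.Surjective π := QuotientGroup.mk'_surjective N₀
  set Pbar := pCore p (G ⧸ N₀) with hPbar
  have hP₁eq : P₁ = Pbar.comap π := rfl
  have hmapP₁ : P₁.map π = Pbar := by
    rw [hP₁eq, Subgroup.map_comap_eq_self_of_surjective hπ]
  set N' := N₀.subgroupOf P₁ with hN'
  haveI hN'n : N'.Normal := Subgroup.normal_subgroupOf
  -- the quotient is a `p`-group
  have hQp : IsPGroup p (↥P₁ ⧸ N') := by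
    have hc : Nat.card (↥P₁ ⧸ N') = Nat.card Pbar := by
      show N₀.relIndex P₁ = _
      rw [← card_map_mk', ← hmapP₁]
    obtain ⟨m, hm⟩ := IsPGroup.iff_card.mp (pCore_isPGroup (G := G ⧸ N₀) p)
    exact IsPGroup.of_card (n := m) (hc.trans hm)
  constructor
  · intro hg
    -- the map from `P₁`
    have hψmem : ∀ x : P₁, π (x : G) ∈ Pbar := fun x => x.2
    let ψ : P₁ →* Pbar := (π.comp P₁.subtype).codRestrict Pbar hψmem
    have hψv : ∀ x : P₁, ((ψ x : Pbar) : G ⧸ N₀) = π (x : G) := fun _ => rfl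
    have hψker : ∀ x ∈ N', ψ x = 1 := by
      intro x hx
      apply Subtype.ext
      rw [hψv]
      exact (QuotientGroup.eq_one_iff _).mpr hx
    let ψbar : (↥P₁ ⧸ N') →* Pbar := QuotientGroup.lift N' ψ hψker
    have hψbar : Function.Surjective ψbar := by
      rintro ⟨y, hy⟩
      obtain ⟨x, rfl⟩ := hπ y
      exact ⟨QuotientGroup.mk' N' ⟨x, hy⟩, rfl⟩
    have hfrat := frattini_le_comap_frattini_of_surjective hψbar
    have hmem : π g ∈ Pbar := by
      apply mem_pCore_of_commutator_mem_frattini (isPSolvable_quotient hG N₀) (pPrimeCore_quotient p)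
      intro xbar hxbar
      obtain ⟨x, rfl⟩ := hπ xbar
      obtain ⟨y, hy, hyx⟩ := hg x hxbar
      have hy' := hfrat hy
      refine ⟨ψbar (QuotientGroup.mk' N' y), hy', ?_⟩
      show π (y : G) = _
      rw [show (y : G) = g * x * g⁻¹ * x⁻¹ from hyx]
      simp only [map_mul, map_inv]
    exact hmem
  · intro hg x hx
    let g' : P₁ := ⟨g, hg⟩
    let x' : P₁ := ⟨x, hx⟩
    refine ⟨g' * x' * g'⁻¹ * x'⁻¹, ?_, rfl⟩
    show QuotientGroup.mk' N' (g' * x' * g'⁻¹ * x'⁻¹) ∈ frattini (↥P₁ ⧸ N')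
    apply (Cfsg.Agent.S0012.result p hQp).1
    have : QuotientGroup.mk' N' (g' * x' * g'⁻¹ * x'⁻¹)
        = ⁅QuotientGroup.mk' N' g', QuotientGroup.mk' N' x'⁆ := by
      simp only [map_mul, map_inv, commutatorElement_def]
    rw [this]
    exact Subgroup.commutator_mem_commutator trivial trivial

end Cfsg.Agent.S4218
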