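import Cfsg.Statements.S4219
import Mathlib

set_option autoImplicit false
open Cfsg

namespace Cfsg.Agent.S4219

open MulAction

theorem aux {G : Type*} [Group G] [Finite G] {α : Type*} [Fintype α] [MulAction G α] {t : ℕ} (hG : MulAction.IsMultiplyPretransitive G α t) (x : Fin t ↪ α) {p : ℕ} [Fact p.Prime] (S : Subgroup G) (hS : S = MulAction.stabilizer G x) (P : Sylow p S) (a b : Fin t ↪ α) (ha : ∀ i, a i ∈ MulAction.fixedPoints ((P : Subgroup S).map S.subtype) α) (hb : ∀ i, b i ∈ MulAction.fixedPoints ((P : Subgroup S).map S.subtype) α) : ∃ g ∈ Subgroup.normalizer ((((P : Subgroup S).map S.subtype) : Subgroup G) : Set G), g • a = b := by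
  classical
  set R : Subgroup G := (P : Subgroup S).map S.subtype with hR
  have hRcard : Nat.card R = Nat.card (P : Subgroup S) :=
    Nat.card_congr (((P : Subgroup S).equivMapOfInjective S.subtype S.subtype_injective).symm.toEquiv)
  -- conjugate `R` into `S`
  have key : ∀ c : Fin t ↪ α, (∀ i, c i ∈ fixedPoints R α) → ∀ u : G, u • c = x →
      ∃ Q : Sylow p S, ∀ y : S, y ∈ (Q : Subgroup S) ↔ u⁻¹ * y * u ∈ R := by
    intro c hc u hu
    have hle : R.map (MulAut.conj u).toMonoidHom ≤ S := by
      rintro _ ⟨r, hr, rfl⟩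
      rw [hS, mem_stabilizer_iff, ← hu]
      simp only [MulEquiv.coe_toMonoidHom, MulAut.conj_apply]
      rw [smul_smul]
      have h1 : u * r * u⁻¹ * u = u * r := by group
      rw [h1, mul_smul]
      congr 1
      ext i
      exact hc i ⟨r, hr⟩
    let Q0 : Subgroup S := (R.map (MulAut.conj u).toMonoidHom).subgroupOf S
    have hQ0 : Nat.card Q0 = p ^ (Nat.card S).factorization p := by
      rw [← Sylow.card_eq_multiplicity P, ← hRcard]
      have e1 : Nat.card Q0 = Nat.card (R.map (MulAut.conj u).toMonoidHom) :=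
        Nat.card_congr (Subgroup.subgroupOfEquivOfLe hle).toEquiv
      have e2 : Nat.card (R.map (MulAut.conj u).toMonoidHom) = Nat.card R :=
        Nat.card_congr ((R.equivMapOfInjective _ (MulAut.conj u).injective).symm.toEquiv)
      rw [e1, e2]
    refine ⟨Sylow.ofCard Q0 hQ0, fun y => ?_⟩
    rw [Sylow.coe_ofCard]
    constructor
    · intro hy
      have hy' : (y : G) ∈ R.map (MulAut.conj u).toMonoidHom := hy
      obtain ⟨r, hr, hre⟩ := hy'
      rw [← hre]
      simp only [MulEquiv.coe_toMonoidHom, MulAut.conj_apply]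
      have : u⁻¹ * (u * r * u⁻¹) * u = r := by group
      rw [this]
      exact hr
    · intro hy
      refine ⟨_, hy, ?_⟩
      simp only [MulEquiv.coe_toMonoidHom, MulAut.conj_apply]
      group
      rfl
  obtain ⟨u, hu⟩ := hG.exists_smul_eq a x
  obtain ⟨v, hv⟩ := hG.exists_smul_eq b x
  obtain ⟨Q1, hQ1⟩ := key a ha u hu
  obtain ⟨Q2, hQ2⟩ := key b hb v hv
  obtain ⟨s, hs⟩ := MulAction.exists_smul_eq S Q1 Q2
  have hsmem : ∀ y : S, y ∈ (Q1 : Subgroup S) ↔ s * y * s⁻¹ ∈ (Q2 : Subgroup S) := by
    intro y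
    rw [← hs, Sylow.coe_subgroup_smul]
    rw [Subgroup.mem_pointwise_smul_iff_inv_smul_mem]
    simp only [MulAut.smul_def, MulAut.conj_inv_apply]
    have : s⁻¹ * (s * y * s⁻¹) * s = y := by group
    rw [this]
  have hsx : (s : G) • x = x := by
    have h : (s : G) ∈ MulAction.stabilizer G x := hS ▸ s.2
    exact h
  refine ⟨v⁻¹ * s * u, ?_, ?_⟩
  · rw [Subgroup.mem_normalizer_iff]
    intro r
    constructor
    · intro hr
      -- `u r u⁻¹ ∈ Q1`
      have hmem : u * r * u⁻¹ ∈ S := by
        rw [hS, mem_stabilizer_iff, ← hu, smul_smul]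
        have h2 : u * r * u⁻¹ * u = u * r := by group
        rw [h2, mul_smul]
        congr 1
        ext i
        exact ha i ⟨r, hr⟩
      have h3 : (⟨u * r * u⁻¹, hmem⟩ : S) ∈ (Q1 : Subgroup S) := by
        rw [hQ1]
        have : u⁻¹ * (u * r * u⁻¹) * u = r := by group
        simpa [this] using hr
      have h4 := ((hsmem _).mp h3)
      rw [hQ2] at h4
      convert h4 using 1
      simp only [Subgroup.coe_mul, Subgroup.coe_inv]
      group
    · intro hr
      set g := v⁻¹ * (s : G) * u with hg
      have hmem : v * (g * r * g⁻¹) * v⁻¹ ∈ S := by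
        rw [hS, mem_stabilizer_iff, ← hv, smul_smul]
        have h2 : v * (g * r * g⁻¹) * v⁻¹ * v = v * (g * r * g⁻¹) := by group
        rw [h2, mul_smul]
        congr 1
        ext i
        exact hb i ⟨_, hr⟩
      have h3 : (⟨_, hmem⟩ : S) ∈ (Q2 : Subgroup S) := by
        rw [hQ2]
        have : v⁻¹ * (v * (g * r * g⁻¹) * v⁻¹) * v = g * r * g⁻¹ := by group
        simpa [this] using hr
      have hmem2 : (s⁻¹ * (⟨_, hmem⟩ : S) * s) ∈ (Q1 : Subgroup S) := by
        rw [hsmem]
        have : s * (s⁻¹ * (⟨_, hmem⟩ : S) * s) * s⁻¹ = (⟨_, hmem⟩ : S) := by group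
        rw [this]
        exact h3
      rw [hQ1] at hmem2
      convert hmem2 using 1
      simp only [Subgroup.coe_mul, Subgroup.coe_inv, hg]
      group
  · rw [mul_smul, mul_smul, hu, hsx, inv_smul_eq_iff, hv]

/-- Let a finite group `G` act `t`-fold transitively on a finite set, let `H` be the stabilizer of `t` distinct points and `P` a Sylow `p`-subgroup of `H`. Then the normalizer of `P` in `G` is `t`-fold transitive on the fixed points of `P`: any `t` distinct fixed points of `P` can be carried to any other `t` distinct fixed points of `P` by an element normalizing `P`. -/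
theorem result {G : Type*} [Group G] [Finite G] {α : Type*} [Fintype α] [MulAction G α] {t : ℕ} (hG : MulAction.IsMultiplyPretransitive G α t) (x : Fin t ↪ α) {p : ℕ} [Fact p.Prime] (P : Sylow p (MulAction.stabilizer G x)) (a b : Fin t ↪ α) (ha : ∀ i, a i ∈ MulAction.fixedPoints ((P : Subgroup (MulAction.stabilizer G x)).map (MulAction.stabilizer G x).subtype) α) (hb : ∀ i, b i ∈ MulAction.fixedPoints ((P : Subgroup (MulAction.stabilizer G x)).map (MulAction.stabilizer G x).subtype) α) : ∃ g ∈ Subgroup.normalizer ((((P : Subgroup (MulAction.stabilizer G x)).map (MulAction.stabilizer G x).subtype) : Subgroup G) : Set G), g • a = b := by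
  exact aux hG x _ rfl P a b ha hb

end Cfsg.Agent.S4219
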