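import Cfsg.Statements.S4220
import Cfsg.Agent.S0711
import Cfsg.Agent.S0713
import Cfsg.Agent.Lib.Perm.SylowIn

set_option autoImplicit false
open Cfsg

namespace Cfsg.Agent.S4220

open Equiv Equiv.Perm MulAction Finset Cfsg.Agent.Lib.Perm.SylowIn
open scoped commutatorElement

set_option linter.unusedSectionVars false

universe u
variable {α : Type u} [Fintype α] [DecidableEq α]

/-- Orbit of `x` under a subgroup, as a finset. -/
noncomputable def orbF (Q : Subgroup (Perm α)) (x : α) : Finset α := by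
  classical exact univ.filter (fun y => ∃ q ∈ Q, q x = y)

theorem mem_orbF {Q : Subgroup (Perm α)} {x y : α} : y ∈ orbF Q x ↔ ∃ q ∈ Q, q x = y := by
  classical simp [orbF]

theorem self_mem_orbF (Q : Subgroup (Perm α)) (x : α) : x ∈ orbF Q x :=
  mem_orbF.2 ⟨1, Q.one_mem, rfl⟩

theorem orbF_eq_of_mem {Q : Subgroup (Perm α)} {x y : α} (h : y ∈ orbF Q x) : orbF Q y = orbF Q x := by
  obtain ⟨q, hq, rfl⟩ := mem_orbF.1 h
  ext z
  simp only [mem_orbF]
  constructor
  · rintro ⟨r, hr, rfl⟩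
    exact ⟨r * q, Q.mul_mem hr hq, rfl⟩
  · rintro ⟨r, hr, rfl⟩
    refine ⟨r * q⁻¹, Q.mul_mem hr (Q.inv_mem hq), ?_⟩
    simp

theorem coe_orbF (Q : Subgroup (Perm α)) (x : α) : (orbF Q x : Set α) = orbit (↥Q) x := by
  ext y
  simp only [Finset.mem_coe, mem_orbF, MulAction.mem_orbit_iff]
  constructor
  · rintro ⟨q, hq, rfl⟩
    exact ⟨⟨q, hq⟩, rfl⟩
  · rintro ⟨q, rfl⟩
    exact ⟨q, q.2, rfl⟩

theorem card_orbF_pow {p : ℕ} [Fact p.Prime] {Q : Subgroup (Perm α)} (hQ : IsPGroup p Q) (x : α) :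
    ∃ n, (orbF Q x).card = p ^ n := by
  obtain ⟨n, hn⟩ := hQ.card_orbit x
  refine ⟨n, ?_⟩
  rw [← hn, ← coe_orbF, Nat.card_coe_set_eq, Set.ncard_coe_finset]

/-- Orbit-stabilizer. -/
theorem card_eq_stab_mul (Q : Subgroup (Perm α)) (x : α) :
    Nat.card Q = Nat.card (Q ⊓ stabilizer (Perm α) x : Subgroup (Perm α)) * (orbF Q x).card := by
  have h1 := (stabilizer (↥Q) x).card_mul_index
  rw [index_stabilizer, ← coe_orbF, Set.ncard_coe_finset] at h1
  rw [← h1]
  congr 1
  exact Nat.card_congr ⟨fun a => ⟨a.1.1, a.1.2, a.2⟩, fun b => ⟨⟨b.1, b.2.1⟩, b.2.2⟩,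
    fun _ => rfl, fun _ => rfl⟩

/-- In a `p`-group acting on an orbit of size `p`, an element fixing one point fixes the orbit. -/
theorem fix_all {p : ℕ} [Fact p.Prime] {Q : Subgroup (Perm α)} (hQ : IsPGroup p Q) {x : α}
    (hcard : (orbF Q x).card = p) {q : Perm α} (hq : q ∈ Q) {y z : α} (hy : y ∈ orbF Q x)
    (hz : z ∈ orbF Q x) (hqy : q y = y) : q z = z := by
  by_contra hne
  have hzy : z ≠ y := by
    rintro rfl
    exact hne hqy
  let S : Subgroup (Perm α) := Q ⊓ stabilizer (Perm α) y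
  have hS : IsPGroup p S := hQ.to_le inf_le_left
  have hqS : q ∈ S := ⟨hq, hqy⟩
  obtain ⟨n, hn⟩ := card_orbF_pow hS z
  have hsub : orbF S z ⊆ (orbF Q x).erase y := by
    intro u hu
    obtain ⟨s, hs, rfl⟩ := mem_orbF.1 hu
    have hsQ : s ∈ Q := hs.1
    have hsy : s y = y := hs.2
    rw [Finset.mem_erase]
    refine ⟨?_, ?_⟩
    · intro h
      apply hzy
      apply s.injective
      rw [h, hsy]
    · obtain ⟨r, hr, rfl⟩ := mem_orbF.1 hz
      exact mem_orbF.2 ⟨s * r, Q.mul_mem hsQ hr, rfl⟩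
  have hle := Finset.card_le_card hsub
  rw [Finset.card_erase_of_mem hy, hcard, hn] at hle
  have hp := (Fact.out : p.Prime)
  have hn0 : n = 0 := by
    by_contra h
    have : p ≤ p ^ n := Nat.le_self_pow h p
    have := hp.pos
    omega
  have h1 : (orbF S z).card = 1 := by rw [hn, hn0, pow_zero]
  obtain ⟨w, hw⟩ := Finset.card_eq_one.1 h1
  have h2 : z ∈ orbF S z := self_mem_orbF S z
  have h3 : q z ∈ orbF S z := mem_orbF.2 ⟨q, hqS, rfl⟩
  rw [hw, Finset.mem_singleton] at h2 h3
  exact hne (h3.trans h2.symm)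

/-- Restriction of a group of permutations to an invariant finset. -/
def resHom (H : Subgroup (Perm α)) (S : Finset α) (hS : ∀ h ∈ H, ∀ x, h x ∈ S ↔ x ∈ S) :
    H →* Perm S :=
  MonoidHom.mk' (fun h => (h : Perm α).subtypePerm (fun x => hS h h.2 x)) (by
    intro a b
    ext x
    rfl)

@[simp] theorem resHom_apply (H : Subgroup (Perm α)) (S : Finset α)
    (hS : ∀ h ∈ H, ∀ x, h x ∈ S ↔ x ∈ S) (h : H) (x : S) :
    ((resHom H S hS h x : S) : α) = (h : Perm α) x := rfl

/-- Commutators of elements normalizing a cyclic subgroup centralize it. -/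
theorem commutator_conj_eq {K : Type*} [Group K] (A : Subgroup K) [IsCyclic A] {g h s : K}
    (hg : g ∈ Subgroup.normalizer (A : Set K)) (hh : h ∈ Subgroup.normalizer (A : Set K))
    (hs : s ∈ A) : ⁅g, h⁆ * s = s * ⁅g, h⁆ := by
  obtain ⟨⟨a, ha⟩, hgen⟩ := IsCyclic.exists_generator (α := A)
  have gen : ∀ u ∈ A, ∃ j : ℤ, a ^ j = u := by
    intro u hu
    obtain ⟨j, hj⟩ := Subgroup.mem_zpowers_iff.1 (hgen ⟨u, hu⟩)
    exact ⟨j, by simpa using congrArg Subtype.val hj⟩
  have key : ∀ u ∈ Subgroup.normalizer (A : Set K), ∃ m : ℤ, ∀ j : ℤ, u * a ^ j * u⁻¹ = a ^ (m * j) := by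
    intro u hu
    have h1 : u * a * u⁻¹ ∈ A := (Subgroup.mem_normalizer_iff.1 hu a).1 ha
    obtain ⟨m, hm⟩ := gen _ h1
    refine ⟨m, fun j => ?_⟩
    rw [zpow_mul, hm, conj_zpow]
  obtain ⟨m1, hm1⟩ := key g hg
  obtain ⟨m2, hm2⟩ := key g⁻¹ (Subgroup.inv_mem _ hg)
  obtain ⟨n1, hn1⟩ := key h hh
  obtain ⟨n2, hn2⟩ := key h⁻¹ (Subgroup.inv_mem _ hh)
  obtain ⟨j, rfl⟩ := gen s hs
  have e1 : ∀ i : ℤ, a ^ (m1 * (m2 * i)) = a ^ i := by
    intro i
    rw [← hm1, ← hm2]
    group
  have e2 : ∀ i : ℤ, a ^ (n1 * (n2 * i)) = a ^ i := by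
    intro i
    rw [← hn1, ← hn2]
    group
  have hstep : ∀ (u : K) (m : ℤ), (∀ i : ℤ, u * a ^ i * u⁻¹ = a ^ (m * i)) →
      ∀ i : ℤ, u * a ^ i = a ^ (m * i) * u := by
    intro u m hu i
    rw [← hu i]
    group
  have hg1 := hstep g m1 hm1
  have hg2 := hstep g⁻¹ m2 (by simpa using hm2)
  have hh1 := hstep h n1 hn1
  have hh2 := hstep h⁻¹ n2 (by simpa using hn2)
  have hexp : a ^ (m1 * (n1 * (m2 * (n2 * j)))) = a ^ j := by
    have : m1 * (n1 * (m2 * (n2 * j))) = m1 * (m2 * (n1 * (n2 * j))) := by ring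
    rw [this, e1, e2]
  rw [commutatorElement_def]
  calc g * h * g⁻¹ * h⁻¹ * a ^ j = g * (h * (g⁻¹ * (h⁻¹ * a ^ j))) := by simp only [mul_assoc]
    _ = g * (h * (g⁻¹ * (a ^ (n2 * j) * h⁻¹))) := by rw [hh2 j]
    _ = g * (h * ((g⁻¹ * a ^ (n2 * j)) * h⁻¹)) := by simp only [mul_assoc]
    _ = g * (h * ((a ^ (m2 * (n2 * j)) * g⁻¹) * h⁻¹)) := by rw [hg2]
    _ = g * ((h * a ^ (m2 * (n2 * j))) * (g⁻¹ * h⁻¹)) := by simp only [mul_assoc]
    _ = g * ((a ^ (n1 * (m2 * (n2 * j))) * h) * (g⁻¹ * h⁻¹)) := by rw [hh1]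
    _ = (g * a ^ (n1 * (m2 * (n2 * j)))) * (h * g⁻¹ * h⁻¹) := by simp only [mul_assoc]
    _ = (a ^ (m1 * (n1 * (m2 * (n2 * j)))) * g) * (h * g⁻¹ * h⁻¹) := by rw [hg1]
    _ = a ^ j * (g * h * g⁻¹ * h⁻¹) := by rw [hexp]; simp only [mul_assoc]

/-- For a transitive cyclic group of permutations, the commutator of two normalizing elements
lies in the group. -/
theorem commutator_mem_of_trans {O : Type*} (A : Subgroup (Perm O)) [IsCyclic A]
    (htr : ∀ a b : O, ∃ s ∈ A, s a = b) {g h : Perm O}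
    (hg : g ∈ Subgroup.normalizer (A : Set (Perm O)))
    (hh : h ∈ Subgroup.normalizer (A : Set (Perm O))) : ⁅g, h⁆ ∈ A := by
  by_cases hO : Nonempty O
  · obtain ⟨o⟩ := hO
    obtain ⟨s, hs, hso⟩ := htr o (⁅g, h⁆ o)
    have : ⁅g, h⁆ = s := by
      ext z
      obtain ⟨t, ht, rfl⟩ := htr o z
      have h1 := commutator_conj_eq A hg hh ht
      have h2 : t * s = s * t := by
        have := (IsCyclic.commGroup (α := A)).mul_comm ⟨t, ht⟩ ⟨s, hs⟩
        exact congrArg Subtype.val this
      have h3 : ⁅g, h⁆ (t o) = t (⁅g, h⁆ o) := DFunLike.congr_fun h1 o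
      rw [h3, ← hso]
      exact DFunLike.congr_fun h2 o
    rw [this]
    exact hs
  · rw [not_nonempty_iff] at hO
    have : ⁅g, h⁆ = 1 := Subsingleton.elim _ _
    rw [this]
    exact A.one_mem

variable {Q G : Subgroup (Perm α)} {F : Finset α}

theorem conj_mem_of_normalizer {g q : Perm α} (hg : g ∈ Subgroup.normalizer (Q : Set (Perm α)))
    (hq : q ∈ Q) : g * q * g⁻¹ ∈ Q := (Subgroup.mem_normalizer_iff.1 hg q).1 hq

theorem fixSet_iff (hF : ∀ x, x ∈ F ↔ ∀ q ∈ Q, q x = x) {g : Perm α}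
    (hg : g ∈ Subgroup.normalizer (Q : Set (Perm α))) (x : α) : g x ∈ F ↔ x ∈ F := by
  have key : ∀ g ∈ Subgroup.normalizer (Q : Set (Perm α)), ∀ x ∈ F, g x ∈ F := by
    intro g hg x hx
    rw [hF] at hx ⊢
    intro q hq
    have h1 := hx _ (conj_mem_of_normalizer (Subgroup.inv_mem _ hg) hq)
    have h2 : g⁻¹ * q * g⁻¹⁻¹ = g⁻¹ * q * g := by simp
    rw [h2] at h1
    have h3 : g (g⁻¹ (q (g x))) = g x := congrArg g h1
    simpa using h3
  refine ⟨fun h => ?_, key g hg x⟩
  have := key g⁻¹ (Subgroup.inv_mem _ hg) _ h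
  simpa using this

theorem orb_notMem (hF : ∀ x, x ∈ F ↔ ∀ q ∈ Q, q x = x) {x y : α} (hx : x ∉ F)
    (hy : y ∈ orbF Q x) : y ∉ F := by
  obtain ⟨q, hq, rfl⟩ := mem_orbF.1 hy
  intro h
  apply hx
  have h1 := (hF _).1 h _ (Q.inv_mem hq)
  have h2 : x = q x := by simpa using h1
  rw [h2]
  exact h

/-- Elements of `G` normalizing `Q` and stabilizing every `Q`-orbit outside `F`. -/
def N0 (G Q : Subgroup (Perm α)) (F : Finset α) (hF : ∀ x, x ∈ F ↔ ∀ q ∈ Q, q x = x) :
    Subgroup (Perm α) where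
  carrier := {g | g ∈ G ∧ g ∈ Subgroup.normalizer (Q : Set (Perm α)) ∧ ∀ x, x ∉ F → ∃ q ∈ Q, g x = q x}
  mul_mem' := by
    rintro a b ⟨ha, han, ha'⟩ ⟨hb, hbn, hb'⟩
    refine ⟨G.mul_mem ha hb, Subgroup.mul_mem _ han hbn, fun x hx => ?_⟩
    obtain ⟨q, hq, hqx⟩ := hb' x hx
    have h1 : b x ∉ F := fun h => hx ((fixSet_iff hF hbn x).1 h)
    obtain ⟨q', hq', hqx'⟩ := ha' _ h1
    refine ⟨q' * q, Q.mul_mem hq' hq, ?_⟩
    rw [Perm.mul_apply, hqx', hqx, Perm.mul_apply]
  one_mem' := ⟨G.one_mem, Subgroup.one_mem _, fun x _ => ⟨1, Q.one_mem, rfl⟩⟩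
  inv_mem' := by
    rintro a ⟨ha, han, ha'⟩
    refine ⟨G.inv_mem ha, Subgroup.inv_mem _ han, fun x hx => ?_⟩
    have h1 : a⁻¹ x ∉ F := fun h => hx (by
      have := (fixSet_iff hF han _).2 h
      simpa using this)
    obtain ⟨q, hq, hqx⟩ := ha' _ h1
    refine ⟨q⁻¹, Q.inv_mem hq, ?_⟩
    have h2 : x = q (a⁻¹ x) := by
      rw [← hqx]
      simp
    rw [Perm.eq_inv_iff_eq, ← h2]

/-- Partition of an invariant set into orbits of size `p`. -/
theorem card_eq_image_mul (T : Finset α) {p : ℕ} (hinv : ∀ x ∈ T, orbF Q x ⊆ T)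
    (hsz : ∀ x ∈ T, (orbF Q x).card = p) : T.card = (T.image (orbF Q)).card * p := by
  rw [Finset.card_eq_sum_card_image (orbF Q) T]
  rw [Finset.sum_const_nat (m := p)]
  intro O hO
  obtain ⟨x, hx, rfl⟩ := Finset.mem_image.1 hO
  rw [← hsz x hx]
  congr 1
  ext y
  simp only [Finset.mem_filter]
  constructor
  · rintro ⟨_, hy⟩
    rw [← hy]
    exact self_mem_orbF Q y
  · intro hy
    exact ⟨hinv x hx hy, orbF_eq_of_mem hy⟩

/-- The image of an orbit under an element of the normalizer is an orbit. -/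
theorem image_orbF {g : Perm α} (hg : g ∈ Subgroup.normalizer (Q : Set (Perm α))) (x : α) :
    (orbF Q x).image g = orbF Q (g x) := by
  ext y
  simp only [Finset.mem_image, mem_orbF]
  constructor
  · rintro ⟨_, ⟨q, hq, rfl⟩, rfl⟩
    refine ⟨g * q * g⁻¹, conj_mem_of_normalizer hg hq, ?_⟩
    simp
  · rintro ⟨q, hq, rfl⟩
    refine ⟨(g⁻¹ * q * g) x, ⟨g⁻¹ * q * g, ?_, rfl⟩, ?_⟩
    · have := conj_mem_of_normalizer (Subgroup.inv_mem _ hg) hq
      simpa using this
    · simp

/-- Pigeonhole: many elements of a subgroup `M` inducing different permutations of `F`. -/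
theorem pigeon (M : Subgroup (Perm α)) (hF : ∀ x, x ∈ F ↔ ∀ q ∈ Q, q x = x) {p : ℕ} (hp : 0 < p)
    (horb : ∀ x, x ∉ F → (orbF Q x).card = p) {k' : ℕ} (hk' : Fᶜ.card ≤ k' * p)
    (W : Finset (Perm F)) (hW : k'.factorial < W.card)
    (hlift : ∀ w ∈ W, ∃ n ∈ M, n ∈ Subgroup.normalizer (Q : Set (Perm α)) ∧ ∀ y : F, n y = w y) :
    ∃ w ∈ W, ∃ w' ∈ W, w ≠ w' ∧ ∃ c ∈ M, c ∈ Subgroup.normalizer (Q : Set (Perm α)) ∧
      (∀ y : F, c y = (w⁻¹ * w') y) ∧ ∀ x, x ∉ F → ∃ q ∈ Q, c x = q x := by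
  classical
  set X : Finset (Finset α) := Fᶜ.image (orbF Q) with hX
  have hcard : Fᶜ.card = X.card * p := by
    apply card_eq_image_mul
    · intro x hx y hy
      rw [Finset.mem_compl] at hx ⊢
      exact orb_notMem hF hx hy
    · intro x hx
      exact horb x (Finset.mem_compl.1 hx)
  have hXle : X.card ≤ k' := by
    rw [hcard] at hk'
    exact Nat.le_of_mul_le_mul_right hk' hp
  have hmaps : ∀ g ∈ Subgroup.normalizer (Q : Set (Perm α)), ∀ O ∈ X, O.image g ∈ X := by
    intro g hg O hO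
    obtain ⟨x, hx, rfl⟩ := Finset.mem_image.1 hO
    rw [image_orbF hg]
    refine Finset.mem_image.2 ⟨g x, ?_, rfl⟩
    rw [Finset.mem_compl] at hx ⊢
    exact fun h => hx ((fixSet_iff hF hg x).1 h)
  choose! n hnM hnN hny using hlift
  let τ : W → (X ↪ X) := fun w =>
    ⟨fun O => ⟨O.1.image (n w.1), hmaps _ (hnN w.1 w.2) _ O.2⟩, by
      intro O O' h
      have h1 : O.1.image (n w.1) = O'.1.image (n w.1) := congrArg Subtype.val h
      exact Subtype.ext (Finset.image_injective (n w.1).injective h1)⟩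
  have hlt : Fintype.card (X ↪ X) < Fintype.card W := by
    rw [Fintype.card_embedding_eq, Nat.descFactorial_self, Fintype.card_coe, Fintype.card_coe]
    exact lt_of_le_of_lt (Nat.factorial_le hXle) hW
  obtain ⟨w, w', hne, hτ⟩ := Fintype.exists_ne_map_eq_of_card_lt τ hlt
  have hne' : w.1 ≠ w'.1 := fun h => hne (Subtype.ext h)
  refine ⟨w.1, w.2, w'.1, w'.2, hne', (n w.1)⁻¹ * n w'.1,
    M.mul_mem (M.inv_mem (hnM _ w.2)) (hnM _ w'.2),
    Subgroup.mul_mem _ (Subgroup.inv_mem _ (hnN _ w.2)) (hnN _ w'.2), ?_, ?_⟩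
  · intro y
    rw [Perm.mul_apply, hny _ w'.2, Perm.inv_eq_iff_eq, hny _ w.2]
    simp
  · intro x hx
    have hO : orbF Q x ∈ X := Finset.mem_image.2 ⟨x, Finset.mem_compl.2 hx, rfl⟩
    have h1 := congrArg (fun f : X ↪ X => (f ⟨orbF Q x, hO⟩ : Finset α)) hτ
    have h2 : (orbF Q x).image (n w.1) = (orbF Q x).image (n w'.1) := h1
    have h3 : n w'.1 x ∈ (orbF Q x).image (n w.1) := by
      rw [h2]
      exact Finset.mem_image_of_mem _ (self_mem_orbF Q x)
    obtain ⟨y, hy, hy'⟩ := Finset.mem_image.1 h3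
    obtain ⟨q, hq, rfl⟩ := mem_orbF.1 hy
    refine ⟨q, hq, ?_⟩
    rw [Perm.mul_apply, ← hy']
    simp

theorem exists_small (hQG : Q ≤ G) (hF : ∀ x, x ∈ F ↔ ∀ q ∈ Q, q x = x) {p : ℕ} [hp : Fact p.Prime]
    (hQp : IsPGroup p Q) (horb : ∀ x, x ∉ F → (orbF Q x).card = p) {k' : ℕ}
    (hk' : Fᶜ.card ≤ k' * p) (h5 : 5 ≤ F.card) (hlarge : 2 * k'.factorial < F.card.factorial)
    (hA : ∀ σ : Perm F, σ ∈ alternatingGroup F →
      ∃ g ∈ G, g ∈ Subgroup.normalizer (Q : Set (Perm α)) ∧ ∀ y : F, g y = σ y) :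
    ∃ g ∈ G, g ≠ 1 ∧ g.support.card ≤ 3 := by
  classical
  set N := N0 G Q F hF with hN
  have hSF : ∀ h ∈ N, ∀ x, h x ∈ F ↔ x ∈ F := fun h hh x => fixSet_iff hF hh.2.1 x
  set ψ := resHom N F hSF with hψ
  have hcardF : Nat.card F = F.card := by simp
  -- Step 1: the alternating group is induced by `N`
  have step1 : alternatingGroup F ≤ ψ.range := by
    let H : Subgroup (alternatingGroup F) := ψ.range.subgroupOf (alternatingGroup F)
    have hsimple : IsSimpleGroup (alternatingGroup F) :=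
      alternatingGroup.isSimpleGroup (by rw [hcardF]; exact h5)
    have hHn : H.Normal := by
      refine ⟨fun b hb a => ?_⟩
      obtain ⟨g, hg⟩ := Subgroup.mem_subgroupOf.1 hb
      obtain ⟨n, hnG, hnN, hny⟩ := hA a a.2
      have hmem : n * (g : Perm α) * n⁻¹ ∈ N := by
        refine ⟨G.mul_mem (G.mul_mem hnG g.2.1) (G.inv_mem hnG),
          Subgroup.mul_mem _ (Subgroup.mul_mem _ hnN g.2.2.1) (Subgroup.inv_mem _ hnN), fun x hx => ?_⟩
        have h1 : n⁻¹ x ∉ F := fun h => hx (by
          have := (fixSet_iff hF hnN _).2 h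
          simpa using this)
        obtain ⟨q, hq, hqx⟩ := g.2.2.2 _ h1
        refine ⟨n * q * n⁻¹, conj_mem_of_normalizer hnN hq, ?_⟩
        simp only [Perm.mul_apply]
        rw [hqx]
      rw [Subgroup.mem_subgroupOf]
      refine ⟨⟨_, hmem⟩, ?_⟩
      ext y
      have hinv : n⁻¹ (y : α) = ((a : Perm F)⁻¹ y : F) := by
        rw [Perm.inv_eq_iff_eq, hny]
        simp
      have h2 : ((ψ g) ((a : Perm F)⁻¹ y) : α) = (g : Perm α) (((a : Perm F)⁻¹ y : F) : α) := rfl
      have h3 : (((a : Perm F) * (ψ g) * (a : Perm F)⁻¹) y : α)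
          = n ((g : Perm α) (((a : Perm F)⁻¹ y : F) : α)) := by
        rw [← h2, hny]
        rfl
      have h4 : (((a * b * a⁻¹ : alternatingGroup F) : Perm F) y : α)
          = (((a : Perm F) * (ψ g) * (a : Perm F)⁻¹) y : α) := by
        rw [hg]
        rfl
      rw [h4, h3, ← hinv]
      rfl
    rcases hsimple.eq_bot_or_eq_top_of_normal H hHn with h | h
    · exfalso
      have hnt : Nontrivial F := by
        rw [← Fintype.one_lt_card_iff_nontrivial, Fintype.card_coe]
        omega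
      let W : Finset (Perm F) := univ.filter (· ∈ alternatingGroup F)
      have hWcard : 2 * W.card = F.card.factorial := by
        have h1 := two_mul_card_alternatingGroup (α := F)
        rw [Fintype.card_perm, Fintype.card_coe] at h1
        rw [← h1]
        congr 1
        exact (Fintype.card_subtype _).symm
      have hW : k'.factorial < W.card := by omega
      obtain ⟨w, hw, w', hw', hne, c, hcG, hcN, hcy, hcx⟩ := pigeon G hF hp.out.pos horb hk' W hW
        (fun w hw => hA w (Finset.mem_filter.1 hw).2)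
      have hcN0 : c ∈ N := ⟨hcG, hcN, hcx⟩
      have hw1 : w ∈ alternatingGroup F := (Finset.mem_filter.1 hw).2
      have hw2 : w' ∈ alternatingGroup F := (Finset.mem_filter.1 hw').2
      have hmem : (⟨w⁻¹ * w', Subgroup.mul_mem _ (Subgroup.inv_mem _ hw1) hw2⟩ :
          alternatingGroup F) ∈ H := by
        rw [Subgroup.mem_subgroupOf]
        refine ⟨⟨c, hcN0⟩, ?_⟩
        ext y
        exact congrArg Subtype.val (show (⟨c y, _⟩ : F) = _ from Subtype.ext (hcy y))
      rw [h, Subgroup.mem_bot] at hmem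
      have h3 : w⁻¹ * w' = 1 := congrArg Subtype.val hmem
      apply hne
      exact (inv_mul_eq_one.1 h3)
    · intro σ hσ
      have : (⟨σ, hσ⟩ : alternatingGroup F) ∈ H := by
        rw [h]
        trivial
      exact this
  -- Step 2: the second derived subgroup of `N` acts trivially outside `F`
  let T : Subgroup N := ⊤
  let N1 : Subgroup N := ⁅T, T⁆
  let N2 : Subgroup N := ⁅N1, N1⁆
  have hA5 : 5 ≤ Nat.card F := by rw [hcardF]; exact h5
  have hperf : ⁅alternatingGroup F, alternatingGroup F⁆ = alternatingGroup F :=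
    commutator_alternatingGroup_eq_self hA5
  have hψ1 : alternatingGroup F ≤ N1.map ψ := by
    rw [Subgroup.map_commutator]
    have h : T.map ψ = ψ.range := (MonoidHom.range_eq_map ψ).symm
    rw [h]
    calc alternatingGroup F = ⁅alternatingGroup F, alternatingGroup F⁆ := hperf.symm
      _ ≤ ⁅ψ.range, ψ.range⁆ := Subgroup.commutator_mono step1 step1
  have hψ2 : alternatingGroup F ≤ N2.map ψ := by
    rw [Subgroup.map_commutator]
    calc alternatingGroup F = ⁅alternatingGroup F, alternatingGroup F⁆ := hperf.symm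
      _ ≤ ⁅N1.map ψ, N1.map ψ⁆ := Subgroup.commutator_mono hψ1 hψ1
  have hQN : Q ≤ N := fun q hq => ⟨hQG hq, Subgroup.le_normalizer hq, fun x _ => ⟨q, hq, rfl⟩⟩
  have htriv : ∀ g ∈ N2, ∀ x, x ∉ F → (g : Perm α) x = x := by
    intro g hg x hx
    set S := orbF Q x with hS
    have hSfwd : ∀ h ∈ N, ∀ y, y ∈ S → h y ∈ S := by
      intro h hh y hy
      have hyF : y ∉ F := orb_notMem hF hx hy
      obtain ⟨q, hq, hqy⟩ := hh.2.2 y hyF
      rw [hqy]
      obtain ⟨r, hr, rfl⟩ := mem_orbF.1 hy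
      exact mem_orbF.2 ⟨q * r, Q.mul_mem hq hr, rfl⟩
    have hSS : ∀ h ∈ N, ∀ y, h y ∈ S ↔ y ∈ S := by
      intro h hh y
      refine ⟨fun h1 => ?_, hSfwd h hh y⟩
      have := hSfwd h⁻¹ (N.inv_mem hh) _ h1
      simpa using this
    let ρ := resHom N S hSS
    let A : Subgroup (Perm S) := (Q.subgroupOf N).map ρ
    have hx0 : x ∈ S := self_mem_orbF Q x
    have hAmem : ∀ q, (hq : q ∈ Q) → ρ ⟨q, hQN hq⟩ ∈ A := fun q hq =>
      Subgroup.mem_map.2 ⟨⟨q, hQN hq⟩, hq, rfl⟩
    have hAtr : ∀ a b : S, ∃ s ∈ A, s a = b := by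
      intro a b
      obtain ⟨q1, hq1, h1⟩ := mem_orbF.1 a.2
      obtain ⟨q2, hq2, h2⟩ := mem_orbF.1 b.2
      refine ⟨_, hAmem (q2 * q1⁻¹) (Q.mul_mem hq2 (Q.inv_mem hq1)), ?_⟩
      apply Subtype.ext
      change (q2 * q1⁻¹) (a : α) = b
      rw [← h1, ← h2]
      simp
    have hAcard : Nat.card A = p := by
      let f : A → S := fun s => (s : Perm S) ⟨x, hx0⟩
      have hinj : Function.Injective f := by
        rintro ⟨s, hs⟩ ⟨s', hs'⟩ hff
        obtain ⟨⟨q, hqN⟩, hq, rfl⟩ := Subgroup.mem_map.1 hs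
        obtain ⟨⟨q', hqN'⟩, hq', rfl⟩ := Subgroup.mem_map.1 hs'
        have hq0 : q ∈ Q := hq
        have hq0' : q' ∈ Q := hq'
        have h1 : q x = q' x := congrArg Subtype.val hff
        apply Subtype.ext
        ext y
        have h2 : (q'⁻¹ * q) x = x := by
          rw [Perm.mul_apply, h1]
          simp
        have h3 := fix_all hQp (horb x hx) (Q.mul_mem (Q.inv_mem hq0') hq0) hx0 y.2 h2
        have h4 : q (y : α) = q' y := by
          rw [Perm.mul_apply, Perm.inv_eq_iff_eq] at h3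
          exact h3
        exact h4
      have hsurj : Function.Surjective f := by
        intro b
        obtain ⟨s, hs, hsb⟩ := hAtr ⟨x, hx0⟩ b
        exact ⟨⟨s, hs⟩, hsb⟩
      rw [Nat.card_congr (Equiv.ofBijective f ⟨hinj, hsurj⟩), Nat.card_eq_fintype_card,
        Fintype.card_coe]
      exact horb x hx
    haveI : IsCyclic A := isCyclic_of_prime_card hAcard
    have hfwd : ∀ g : N, ∀ s ∈ A, ρ g * s * (ρ g)⁻¹ ∈ A := by
      intro g s hs
      obtain ⟨⟨q, hqN⟩, hq, rfl⟩ := Subgroup.mem_map.1 hs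
      have hq0 : q ∈ Q := hq
      have h1 : (g : Perm α) * q * (g : Perm α)⁻¹ ∈ Q := conj_mem_of_normalizer g.2.2.1 hq0
      have h2 := hAmem _ h1
      have h3 : ρ ⟨(g : Perm α) * q * (g : Perm α)⁻¹, hQN h1⟩ = ρ g * ρ ⟨q, hqN⟩ * (ρ g)⁻¹ := by
        rw [← map_inv, ← map_mul, ← map_mul]
        rfl
      rwa [h3] at h2
    have hnorm : ∀ g : N, ρ g ∈ Subgroup.normalizer (A : Set (Perm S)) := by
      intro g
      rw [Subgroup.mem_normalizer_iff]
      intro s
      refine ⟨hfwd g s, fun hs => ?_⟩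
      have h1 := hfwd g⁻¹ _ hs
      have h2 : ρ g⁻¹ * (ρ g * s * (ρ g)⁻¹) * (ρ g⁻¹)⁻¹ = s := by
        rw [map_inv]
        group
      rwa [h2] at h1
    have h1 : N1.map ρ ≤ A := by
      rw [Subgroup.map_commutator, Subgroup.commutator_le]
      intro u hu v hv
      obtain ⟨g1, _, rfl⟩ := Subgroup.mem_map.1 hu
      obtain ⟨g2, _, rfl⟩ := Subgroup.mem_map.1 hv
      exact commutator_mem_of_trans A hAtr (hnorm g1) (hnorm g2)
    have h2 : N2.map ρ ≤ ⊥ := by
      rw [Subgroup.map_commutator, Subgroup.commutator_le]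
      intro u hu v hv
      have hu' := h1 hu
      have hv' := h1 hv
      have hc : u * v = v * u := by
        have := (IsCyclic.commGroup (α := A)).mul_comm ⟨u, hu'⟩ ⟨v, hv'⟩
        exact congrArg Subtype.val this
      rw [Subgroup.mem_bot, commutatorElement_eq_one_iff_mul_comm]
      exact hc
    have h3 : ρ g = 1 := h2 (Subgroup.mem_map_of_mem ρ hg)
    have h4 := congrArg (fun f : Perm S => ((f ⟨x, hx0⟩ : S) : α)) h3
    exact h4
  -- Step 3: a three-cycle
  obtain ⟨a, ha, b, hb, c, hc, hab, hac, hbc⟩ := Finset.two_lt_card.1 (by omega : 2 < F.card)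
  let a' : F := ⟨a, ha⟩
  let b' : F := ⟨b, hb⟩
  let c' : F := ⟨c, hc⟩
  have hab' : a' ≠ b' := fun h => hab (congrArg Subtype.val h)
  have hac' : a' ≠ c' := fun h => hac (congrArg Subtype.val h)
  have hbc' : b' ≠ c' := fun h => hbc (congrArg Subtype.val h)
  have h3c : IsThreeCycle (swap a' b' * swap a' c') := isThreeCycle_swap_mul_swap_same hab' hac' hbc'
  obtain ⟨g, hg, hgσ⟩ := Subgroup.mem_map.1 (hψ2 h3c.mem_alternatingGroup)
  have hg' : (g : Perm α) = Perm.ofSubtype (swap a' b' * swap a' c') := by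
    ext x
    by_cases hx : x ∈ F
    · rw [Perm.ofSubtype_apply_of_mem _ hx, ← hgσ]
      rfl
    · rw [Perm.ofSubtype_apply_of_not_mem _ hx]
      exact htriv g hg x hx
  have hsupp : (g : Perm α).support.card = 3 := by
    rw [hg', Perm.support_ofSubtype, Finset.card_map]
    convert h3c.card_support
  refine ⟨g, g.2.1, ?_, by omega⟩
  intro h1
  rw [h1] at hsupp
  simp at hsupp

/-- Pointwise stabilizer in `G` of a finset. -/
def fixer (G : Subgroup (Perm α)) (Γ : Finset α) : Subgroup (Perm α) where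
  carrier := {g | g ∈ G ∧ ∀ a ∈ Γ, g a = a}
  mul_mem' := by
    rintro a b ⟨ha, ha'⟩ ⟨hb, hb'⟩
    exact ⟨G.mul_mem ha hb, fun x hx => by rw [Perm.mul_apply, hb' x hx, ha' x hx]⟩
  one_mem' := ⟨G.one_mem, fun _ _ => rfl⟩
  inv_mem' := by
    rintro a ⟨ha, ha'⟩
    exact ⟨G.inv_mem ha, fun x hx => by rw [Perm.inv_eq_iff_eq, ha' x hx]⟩

/-- `G` realizes any permutation on any set of at most `t` points. -/
def Agree (G : Subgroup (Perm α)) (t : ℕ) : Prop :=
  ∀ A : Finset α, A.card ≤ t → ∀ σ : Perm α, ∃ y ∈ G, ∀ a ∈ A, y a = σ a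

theorem card_fixer_eq {t : ℕ} (hag : Agree G t) {Γ Γ' : Finset α} (hc : Γ.card = Γ'.card)
    (h : Γ.card ≤ t) : Nat.card (fixer G Γ) = Nat.card (fixer G Γ') := by
  classical
  let e : Γ ≃ Γ' := Finset.equivOfCardEq hc
  let τ : Perm α := Equiv.extendSubtype e
  obtain ⟨y, hy, hya⟩ := hag Γ h τ
  have hymem : ∀ a ∈ Γ, y a ∈ Γ' := by
    intro a ha
    rw [hya a ha]
    exact Equiv.extendSubtype_mem e a ha
  have hysurj : ∀ b ∈ Γ', ∃ a ∈ Γ, y a = b := by
    intro b hb
    have hinj : Set.InjOn y Γ := fun u _ v _ h => y.injective h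
    have himg : Γ.image y = Γ' := by
      apply Finset.eq_of_subset_of_card_le
      · intro b hb
        obtain ⟨a, ha, rfl⟩ := Finset.mem_image.1 hb
        exact hymem a ha
      · rw [Finset.card_image_of_injective _ y.injective, hc]
    rw [← himg] at hb
    obtain ⟨a, ha, rfl⟩ := Finset.mem_image.1 hb
    exact ⟨a, ha, rfl⟩
  have hmap : (fixer G Γ).map (MulAut.conj y).toMonoidHom = fixer G Γ' := by
    ext g
    rw [mem_map_conj_iff]
    constructor
    · rintro ⟨h1, h2⟩
      refine ⟨?_, fun b hb => ?_⟩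
      · have := G.mul_mem (G.mul_mem hy h1) (G.inv_mem hy)
        simpa [mul_assoc] using this
      · obtain ⟨a, ha, rfl⟩ := hysurj b hb
        have := h2 a ha
        simp only [Perm.mul_apply] at this
        rw [Perm.inv_eq_iff_eq] at this
        exact this
    · rintro ⟨h1, h2⟩
      refine ⟨G.mul_mem (G.mul_mem (G.inv_mem hy) h1) hy, fun a ha => ?_⟩
      simp only [Perm.mul_apply]
      rw [h2 _ (hymem a ha)]
      simp
  rw [← hmap, card_map_conj]

/-- **Witt's lemma**: `N_G(Q)` realizes partial maps on the fixed points of `Q`. -/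
theorem witt_ext {p t : ℕ} [Fact p.Prime] (hag : Agree G t) {Γ₀ : Finset α}
    (hsyl : IsSylowIn p Q (fixer G Γ₀)) (hΓ₀ : Γ₀.card ≤ t)
    (hF : ∀ x, x ∈ F ↔ ∀ q ∈ Q, q x = x) {Γ : Finset α} (hΓF : Γ ⊆ F) (hcard : Γ.card = Γ₀.card)
    (σ : Perm α) (hσ : ∀ a ∈ Γ, σ a ∈ F) :
    ∃ g ∈ G, g ∈ Subgroup.normalizer (Q : Set (Perm α)) ∧ ∀ a ∈ Γ, g a = σ a := by
  classical
  set Γ' := Γ.image σ with hΓ'
  have hΓ'card : Γ'.card = Γ₀.card := by
    rw [hΓ', Finset.card_image_of_injective _ σ.injective, hcard]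
  have hQG : Q ≤ G := fun q hq => (hsyl.le hq).1
  have hQle : Q ≤ fixer G Γ' := by
    intro q hq
    refine ⟨hQG hq, fun b hb => ?_⟩
    obtain ⟨a, ha, rfl⟩ := Finset.mem_image.1 hb
    exact (hF _).1 (hσ a ha) q hq
  have hsyl' : IsSylowIn p Q (fixer G Γ') :=
    hsyl.of_card hQle hsyl.isPGroup rfl (card_fixer_eq hag hΓ'card (by omega))
  obtain ⟨y, hy, hya⟩ := hag Γ (by omega) σ
  have hconj : ∀ q ∈ Q, y * q * y⁻¹ ∈ fixer G Γ' := by
    intro q hq
    refine ⟨G.mul_mem (G.mul_mem hy (hQG hq)) (G.inv_mem hy), fun b hb => ?_⟩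
    obtain ⟨a, ha, rfl⟩ := Finset.mem_image.1 hb
    rw [← hya a ha]
    have hyy : y⁻¹ (y a) = a := by simp
    simp only [Perm.mul_apply]
    rw [hyy, (hF a).1 (hΓF ha) q hq]
  obtain ⟨h, hh, hhy⟩ := hsyl'.exists_mem_mul_mem_normalizer y hconj
  refine ⟨h * y, G.mul_mem hh.1 hy, hhy, fun a ha => ?_⟩
  rw [Perm.mul_apply, hya a ha]
  exact hh.2 _ (Finset.mem_image_of_mem _ ha)

/-- Three-cycles are commutators, so the alternating group lies in the commutator subgroup. -/
theorem alternating_le_commutator {β : Type*} [Fintype β] [DecidableEq β] :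
    alternatingGroup β ≤ commutator (Perm β) := by
  rw [← closure_three_cycles_eq_alternating, Subgroup.closure_le]
  intro g hg
  have hg' : IsThreeCycle g := hg
  rw [commutator_eq_closure]
  apply Subgroup.subset_closure
  apply mem_commutatorSet_of_isConj_sq
  rw [isConj_iff_cycleType_eq, hg'.cycleType]
  have := hg'.isThreeCycle_sq
  rw [sq, this.cycleType]

/-- Lifting even permutations of the fixed points of a cyclic group to its centralizer. -/
theorem lift_centralizing [IsCyclic Q] (hF : ∀ x, x ∈ F ↔ ∀ q ∈ Q, q x = x)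
    (hA : ∀ σ : Perm F, ∃ g ∈ G, g ∈ Subgroup.normalizer (Q : Set (Perm α)) ∧ ∀ y : F, g y = σ y)
    {σ : Perm F} (hσ : σ ∈ alternatingGroup F) :
    ∃ c ∈ G, c ∈ Subgroup.normalizer (Q : Set (Perm α)) ∧ (∀ q ∈ Q, c * q = q * c) ∧
      ∀ y : F, c y = σ y := by
  classical
  let N : Subgroup (Perm α) := G ⊓ Subgroup.normalizer (Q : Set (Perm α))
  have hS : ∀ h ∈ N, ∀ x, h x ∈ F ↔ x ∈ F := fun h hh x => fixSet_iff hF hh.2 x
  let ψ := resHom N F hS
  have hsurj : ψ.range = ⊤ := by
    rw [eq_top_iff]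
    intro s _
    obtain ⟨g, hg, hgn, hgy⟩ := hA s
    refine ⟨⟨g, hg, hgn⟩, ?_⟩
    ext y
    exact hgy y
  have hmap : (commutator N).map ψ = commutator (Perm F) := by
    rw [commutator_def, Subgroup.map_commutator, ← MonoidHom.range_eq_map, hsurj, commutator_def]
  have h1 : σ ∈ (commutator N).map ψ := by
    rw [hmap]
    exact alternating_le_commutator hσ
  obtain ⟨g, hg, hgσ⟩ := Subgroup.mem_map.1 h1
  have hC : commutator N ≤ (Subgroup.centralizer (Q : Set (Perm α))).comap N.subtype := by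
    rw [commutator_def, Subgroup.commutator_le]
    intro s _ t _
    rw [Subgroup.mem_comap, Subgroup.mem_centralizer_iff, map_commutatorElement]
    intro q hq
    exact (commutator_conj_eq Q s.2.2 t.2.2 hq).symm
  have h2 := hC hg
  rw [Subgroup.mem_comap, Subgroup.mem_centralizer_iff] at h2
  refine ⟨g, g.2.1, g.2.2, fun q hq => (h2 q hq).symm, fun y => ?_⟩
  rw [← hgσ]
  rfl

/-- An element of `G` stabilizing `R` normalizes the pointwise stabilizer of `R`. -/
theorem normalizes_fixer {R : Finset α} {g : Perm α} (hg : g ∈ G) (hgR : ∀ y ∈ R, g y ∈ R) :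
    g ∈ Subgroup.normalizer (fixer G R : Set (Perm α)) := by
  classical
  have himg : R.image g = R := by
    apply Finset.eq_of_subset_of_card_le
    · intro b hb
      obtain ⟨a, ha, rfl⟩ := Finset.mem_image.1 hb
      exact hgR a ha
    · rw [Finset.card_image_of_injective _ g.injective]
  have hinvR : ∀ y ∈ R, g⁻¹ y ∈ R := by
    intro y hy
    rw [← himg] at hy
    obtain ⟨a, ha, rfl⟩ := Finset.mem_image.1 hy
    simpa using ha
  rw [Subgroup.mem_normalizer_iff]
  intro q
  constructor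
  · rintro ⟨h1, h2⟩
    refine ⟨G.mul_mem (G.mul_mem hg h1) (G.inv_mem hg), fun y hy => ?_⟩
    simp only [Perm.mul_apply]
    rw [h2 _ (hinvR y hy)]
    simp
  · rintro ⟨h1, h2⟩
    refine ⟨?_, fun y hy => ?_⟩
    · have := G.mul_mem (G.mul_mem (G.inv_mem hg) h1) hg
      simpa [mul_assoc] using this
    · have := h2 _ (hgR y hy)
      simp only [Perm.mul_apply] at this
      have h3 : g⁻¹ (g y) = y := by simp
      rw [h3] at this
      exact g.injective this

theorem fixer_le (G : Subgroup (Perm α)) (Γ : Finset α) : fixer G Γ ≤ G := fun _ h => h.1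

/-- `G` is `(r+1)`-transitive of degree `r + 6`, with `r ≥ 3`. -/
theorem six {r : ℕ} (hr : 3 ≤ r) (hn : Fintype.card α = r + 6)
    (hG : IsMultiplyPretransitive G α (r + 1)) : alternatingGroup α ≤ G := by
  classical
  have hag : Agree G (r + 1) := fun A hA σ =>
    Cfsg.Agent.S0711.exists_agree G (by omega) hG A hA σ
  have small : ∀ g ∈ G, g ≠ 1 → g.support.card < 2 * r → alternatingGroup α ≤ G :=
    fun g hg hg1 hs =>
      (Cfsg.Agent.S0711.result G (k := r + 1) (by omega) (by omega) hG g hg hg1 (by omega)).2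
  obtain ⟨R, -, hRcard⟩ := Finset.exists_subset_card_eq (s := (univ : Finset α)) (n := r)
    (by rw [Finset.card_univ]; omega)
  set L := fixer G R with hL
  have hRc : Rᶜ.card = 6 := by
    rw [Finset.card_compl, hn, hRcard]
    omega
  have htr : ∀ a b, a ∉ R → b ∉ R → ∃ l ∈ L, l a = b := by
    intro a b ha hb
    obtain ⟨y, hy, hya⟩ := hag (insert a R) (by rw [Finset.card_insert_of_notMem ha]; omega)
      (swap a b)
    refine ⟨y, ⟨hy, fun c hc => ?_⟩, ?_⟩
    · rw [hya c (Finset.mem_insert_of_mem hc)]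
      exact swap_apply_of_ne_of_ne (ne_of_mem_of_not_mem hc ha) (ne_of_mem_of_not_mem hc hb)
    · rw [hya a (Finset.mem_insert_self _ _)]
      exact swap_apply_left a b
  by_cases hreg : ∀ l ∈ L, ∀ a, a ∉ R → l a = a → l = 1
  swap
  · push Not at hreg
    obtain ⟨l, hl, a, ha, hla, hl1⟩ := hreg
    apply small l hl.1 hl1
    have hsub : l.support ⊆ Rᶜ.erase a := by
      intro x hx
      rw [Perm.mem_support] at hx
      rw [Finset.mem_erase, Finset.mem_compl]
      refine ⟨fun h => hx (by rw [h]; exact hla), fun h => hx (hl.2 x h)⟩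
    have h1 := Finset.card_le_card hsub
    rw [Finset.card_erase_of_mem (Finset.mem_compl.2 ha), hRc] at h1
    omega
  -- `L` is regular on the complement of `R`
  obtain ⟨a₀, ha₀⟩ : ∃ a, a ∈ Rᶜ := Finset.card_pos.1 (by omega)
  have ha₀' : a₀ ∉ R := Finset.mem_compl.1 ha₀
  have horbL : orbF L a₀ = Rᶜ := by
    ext x
    rw [mem_orbF, Finset.mem_compl]
    constructor
    · rintro ⟨l, hl, rfl⟩ h
      have h1 := hl.2 _ h
      have h2 := l.injective h1
      exact ha₀' (h2 ▸ h)
    · intro hx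
      exact htr a₀ x ha₀' hx
  have hLcard : Nat.card L = 6 := by
    have h1 := card_eq_stab_mul L a₀
    have h2 : (L ⊓ stabilizer (Perm α) a₀ : Subgroup (Perm α)) = ⊥ := by
      rw [eq_bot_iff]
      rintro l ⟨hl, hla⟩
      exact hreg l hl a₀ ha₀' hla
    rw [h2, horbL, hRc, Subgroup.card_bot, one_mul] at h1
    exact h1
  -- an auxiliary point of `R`
  obtain ⟨b, hb⟩ : ∃ b, b ∈ R := Finset.card_pos.1 (by omega)
  set Γ := R.erase b with hΓ
  have hΓcard : Γ.card + 1 = r := by
    rw [hΓ, Finset.card_erase_of_mem hb]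
    omega
  set H := fixer G Γ with hH
  have hΓc : Γᶜ.card = 7 := by
    rw [Finset.card_compl, hn]
    omega
  have hbΓ : b ∉ Γ := Finset.notMem_erase b R
  have htrH : ∀ u v, u ∉ Γ → v ∉ Γ → ∃ h ∈ H, h u = v := by
    intro u v hu hv
    obtain ⟨y, hy, hya⟩ := hag (insert u Γ) (by rw [Finset.card_insert_of_notMem hu]; omega)
      (swap u v)
    refine ⟨y, ⟨hy, fun c hc => ?_⟩, ?_⟩
    · rw [hya c (Finset.mem_insert_of_mem hc)]
      exact swap_apply_of_ne_of_ne (ne_of_mem_of_not_mem hc hu) (ne_of_mem_of_not_mem hc hv)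
    · rw [hya u (Finset.mem_insert_self _ _)]
      exact swap_apply_left u v
  have hstabH : (H ⊓ stabilizer (Perm α) b : Subgroup (Perm α)) = L := by
    ext g
    constructor
    · rintro ⟨⟨h1, h2⟩, h3⟩
      refine ⟨h1, fun c hc => ?_⟩
      by_cases hcb : c = b
      · rw [hcb]
        exact h3
      · exact h2 c (Finset.mem_erase.2 ⟨hcb, hc⟩)
    · rintro ⟨h1, h2⟩
      exact ⟨⟨h1, fun c hc => h2 c (Finset.mem_of_mem_erase hc)⟩, h2 b hb⟩
  have horbH : orbF H b = Γᶜ := by
    ext x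
    rw [mem_orbF, Finset.mem_compl]
    constructor
    · rintro ⟨l, hl, rfl⟩ h
      have h1 := hl.2 _ h
      have h2 := l.injective h1
      exact hbΓ (h2 ▸ h)
    · intro hx
      exact htrH b x hbΓ hx
  have hHcard : Nat.card H = 42 := by
    have h1 := card_eq_stab_mul H b
    rw [hstabH, horbH, hΓc, hLcard] at h1
    exact h1
  haveI h7 : Fact (Nat.Prime 7) := ⟨by norm_num⟩
  obtain ⟨Z, hZ⟩ := exists_isSylowIn 7 H
  have hZcard : Nat.card Z = 7 := by
    obtain ⟨i, hi⟩ := (IsPGroup.iff_card (p := 7)).1 hZ.isPGroup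
    have h1 := card_mul_relIndex hZ.le
    rw [hi, hHcard] at h1
    have h2 := hZ.not_dvd
    have hi2 : i < 2 := by
      by_contra hcon
      have : 7 ^ 2 ∣ 7 ^ i * Z.relIndex H := Dvd.dvd.mul_right (pow_dvd_pow 7 (by omega)) _
      rw [h1] at this
      omega
    interval_cases i
    · exfalso
      apply h2
      simp at h1
      rw [h1]
      norm_num
    · simpa using hi
  haveI hZcyc : IsCyclic Z := isCyclic_of_prime_card hZcard
  -- `Z` is normal in `H`
  have hZnorm : ∀ l ∈ H, l ∈ Subgroup.normalizer (Z : Set (Perm α)) := by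
    have hsubs : Subsingleton (Sylow 7 H) := by
      have h1 : Nat.card (Sylow 7 H) ≡ 1 [MOD 7] := card_sylow_modEq_one 7 H
      have h2 := Sylow.card_dvd_index hZ.toSylow
      have h3 : (hZ.toSylow : Subgroup H).index ∣ 6 := by
        have h4 := (hZ.toSylow : Subgroup H).card_mul_index
        rw [hHcard] at h4
        have h5 : ¬ 7 ∣ (hZ.toSylow : Subgroup H).index := hZ.toSylow.not_dvd_index
        have h6 : Nat.Coprime (hZ.toSylow : Subgroup H).index 7 :=
          ((Nat.Prime.coprime_iff_not_dvd (by norm_num)).2 h5).symm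
        have h7' : (hZ.toSylow : Subgroup H).index ∣ 6 * 7 := by
          rw [show 6 * 7 = 42 by norm_num, ← h4]
          exact Dvd.intro_left _ rfl
        exact h6.dvd_of_dvd_mul_right h7'
      have h8 := h2.trans h3
      have h9 : Nat.card (Sylow 7 H) ≤ 6 := Nat.le_of_dvd (by norm_num) h8
      have h10 : Nat.card (Sylow 7 H) = 1 := by
        have h11 : 0 < Nat.card (Sylow 7 H) := Nat.card_pos
        interval_cases hc : Nat.card (Sylow 7 H)
        · rfl
        all_goals first | (exfalso; revert h1; decide) | (exfalso; revert h8; decide)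
      exact (Nat.card_eq_one_iff_unique.1 h10).1
    have hnormal : (hZ.toSylow : Subgroup H).Normal := Sylow.normal_of_subsingleton _
    have hfwd : ∀ l ∈ H, ∀ q ∈ Z, l * q * l⁻¹ ∈ Z := by
      intro l hl q hq
      have h1 : (⟨q, hZ.le hq⟩ : H) ∈ hZ.toSylow := (hZ.mem_toSylow _).2 hq
      have h2 := hnormal.conj_mem _ h1 ⟨l, hl⟩
      exact (hZ.mem_toSylow _).1 h2
    intro l hl
    rw [Subgroup.mem_normalizer_iff]
    intro q
    refine ⟨hfwd l hl q, fun hq => ?_⟩
    have := hfwd l⁻¹ (H.inv_mem hl) _ hq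
    simpa [mul_assoc] using this
  -- `Z` is transitive on the complement of `Γ`
  have horbZ : orbF Z b = Γᶜ := by
    apply Finset.eq_of_subset_of_card_le
    · intro x hx
      obtain ⟨q, hq, rfl⟩ := mem_orbF.1 hx
      have hqH := hZ.le hq
      rw [← horbH]
      exact mem_orbF.2 ⟨q, hqH, rfl⟩
    · rw [hΓc]
      have h1 := card_eq_stab_mul Z b
      rw [hZcard] at h1
      have h2 : Nat.card (Z ⊓ stabilizer (Perm α) b : Subgroup (Perm α)) ∣ 7 := by
        rw [← hZcard]
        exact Subgroup.card_dvd_of_le inf_le_left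
      have h3 : Nat.card (Z ⊓ stabilizer (Perm α) b : Subgroup (Perm α)) ∣ 6 := by
        rw [← hLcard, ← hstabH]
        exact Subgroup.card_dvd_of_le (inf_le_inf_right _ hZ.le)
      have h4 : Nat.card (Z ⊓ stabilizer (Perm α) b : Subgroup (Perm α)) = 1 :=
        Nat.eq_one_of_dvd_coprimes (by norm_num : Nat.Coprime 7 6) h2 h3
      rw [h4, one_mul] at h1
      omega
  -- `L` is abelian
  have hLH : L ≤ H := by
    rw [← hstabH]
    exact inf_le_left
  have hLcomm : ∀ l ∈ L, ∀ l' ∈ L, l * l' = l' * l := by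
    intro l hl l' hl'
    have hc : ⁅l, l'⁆ = 1 := by
      have hcL : ⁅l, l'⁆ ∈ L := by
        rw [commutatorElement_def]
        exact L.mul_mem (L.mul_mem (L.mul_mem hl hl') (L.inv_mem hl)) (L.inv_mem hl')
      ext d
      by_cases hd : d ∈ Γ
      · exact (hLH hcL).2 d hd
      · have hd' : d ∈ orbF Z b := by
          rw [horbZ]
          exact Finset.mem_compl.2 hd
        obtain ⟨z, hz, rfl⟩ := mem_orbF.1 hd'
        have h1 := commutator_conj_eq Z (hZnorm l (hLH hl)) (hZnorm l' (hLH hl')) hz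
        have h2 := DFunLike.congr_fun h1 b
        simp only [Perm.mul_apply] at h2
        rw [h2, hcL.2 b hb]
        rfl
    exact commutatorElement_eq_one_iff_mul_comm.1 hc
  -- `L` is cyclic
  haveI hLcyc : IsCyclic L := by
    haveI : Fact (Nat.Prime 2) := ⟨by norm_num⟩
    haveI : Fact (Nat.Prime 3) := ⟨by norm_num⟩
    obtain ⟨t, ht⟩ := exists_prime_orderOf_dvd_card' (G := L) 2 (by rw [hLcard]; norm_num)
    obtain ⟨s, hs⟩ := exists_prime_orderOf_dvd_card' (G := L) 3 (by rw [hLcard]; norm_num)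
    have hcomm : Commute t s := Subtype.ext (hLcomm t t.2 s s.2)
    have h1 := hcomm.orderOf_mul_eq_mul_orderOf_of_coprime (by rw [ht, hs]; norm_num)
    apply isCyclic_of_orderOf_eq_card (t * s)
    rw [h1, ht, hs, hLcard]
  -- fixed points of `L`
  have hF : ∀ x, x ∈ R ↔ ∀ q ∈ L, q x = x := by
    intro x
    refine ⟨fun hx q hq => hq.2 x hx, fun h => ?_⟩
    by_contra hx
    obtain ⟨x', hx', hne⟩ : ∃ x', x' ∈ Rᶜ ∧ x' ≠ x := by
      by_contra hcon
      push Not at hcon
      have : Rᶜ ⊆ {x} := fun u hu => Finset.mem_singleton.2 (hcon u hu)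
      have := Finset.card_le_card this
      rw [hRc] at this
      simp at this
    obtain ⟨l, hl, hlx⟩ := htr x x' hx (Finset.mem_compl.1 hx')
    exact hne (hlx.symm.trans (h l hl))
  have hA : ∀ σ : Perm R, ∃ g ∈ G, g ∈ Subgroup.normalizer (L : Set (Perm α)) ∧ ∀ y : R, g y = σ y := by
    intro σ
    obtain ⟨g, hg, hgy⟩ := hag R (by omega) (Perm.ofSubtype σ)
    have hgy' : ∀ y : R, g y = σ y := by
      intro y
      rw [hgy y y.2]
      exact Perm.ofSubtype_apply_coe σ y
    refine ⟨g, hg, normalizes_fixer hg (fun y hy => ?_), hgy'⟩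
    rw [hgy' ⟨y, hy⟩]
    exact (σ ⟨y, hy⟩).2
  -- a three-cycle on `R`
  obtain ⟨u, hu, v, hv, w, hw, huv, huw, hvw⟩ := Finset.two_lt_card.1 (by omega : 2 < R.card)
  let u' : R := ⟨u, hu⟩
  let v' : R := ⟨v, hv⟩
  let w' : R := ⟨w, hw⟩
  have huv' : u' ≠ v' := fun h => huv (congrArg Subtype.val h)
  have huw' : u' ≠ w' := fun h => huw (congrArg Subtype.val h)
  have hvw' : v' ≠ w' := fun h => hvw (congrArg Subtype.val h)
  have h3c : IsThreeCycle (swap u' v' * swap u' w') := isThreeCycle_swap_mul_swap_same huv' huw' hvw'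
  obtain ⟨c, hcG, hcN, hcc, hcy⟩ := lift_centralizing hF hA h3c.mem_alternatingGroup
  have hca : c a₀ ∉ R := fun h => ha₀' ((fixSet_iff hF hcN a₀).1 h)
  obtain ⟨l, hl, hla⟩ := htr a₀ (c a₀) ha₀' hca
  have hfixc : ∀ d, d ∉ R → (l⁻¹ * c) d = d := by
    intro d hd
    obtain ⟨l', hl', rfl⟩ := htr a₀ d ha₀' hd
    have h1 := DFunLike.congr_fun (hcc l' hl') a₀
    simp only [Perm.mul_apply] at h1 ⊢
    rw [h1, ← hla]
    have h2 := DFunLike.congr_fun (hLcomm l hl l' hl') a₀
    simp only [Perm.mul_apply] at h2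
    rw [← h2]
    simp
  have hfixR : ∀ y : R, (l⁻¹ * c) y = (swap u' v' * swap u' w') y := by
    intro y
    rw [Perm.mul_apply, hcy y, Perm.inv_eq_iff_eq]
    exact (hl.2 _ (Subtype.coe_prop _)).symm
  apply small (l⁻¹ * c) (G.mul_mem (G.inv_mem hl.1) hcG)
  · intro h1
    have h2 : (swap u' v' * swap u' w') = 1 := by
      ext y
      have := hfixR y
      rw [h1] at this
      exact this.symm
    have := h3c.card_support
    rw [h2] at this
    simp at this
  · have hsub : (l⁻¹ * c).support ⊆ R := by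
      intro x hx
      rw [Perm.mem_support] at hx
      by_contra hxR
      exact hx (hfixc x hxR)
    have := Finset.card_le_card hsub
    omega

theorem orbF_fixer_eq {t : ℕ} {R : Finset α} (hag : Agree G t) (hRt : R.card + 1 ≤ t) {a : α}
    (ha : a ∉ R) : orbF (fixer G R) a = Rᶜ := by
  ext x
  rw [mem_orbF, Finset.mem_compl]
  constructor
  · rintro ⟨l, hl, rfl⟩ h
    have h1 := hl.2 _ h
    have h2 := l.injective h1
    exact ha (h2 ▸ h)
  · intro hx
    obtain ⟨y, hy, hya⟩ := hag (insert a R) (by rw [Finset.card_insert_of_notMem ha]; omega)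
      (swap a x)
    refine ⟨y, ⟨hy, fun c hc => ?_⟩, ?_⟩
    · rw [hya c (Finset.mem_insert_of_mem hc)]
      exact swap_apply_of_ne_of_ne (ne_of_mem_of_not_mem hc ha) (ne_of_mem_of_not_mem hc hx)
    · rw [hya a (Finset.mem_insert_self _ _)]
      exact swap_apply_left a x

/-- Orbits of a Sylow `p`-subgroup of the stabilizer of `R`. -/
theorem orbit_facts {p k r : ℕ} [hp : Fact p.Prime] (hkp : k < p) (hag : Agree G (r + 1))
    {R : Finset α} (hRcard : R.card = r) (hRc : Rᶜ.card = k * p) {P : Subgroup (Perm α)}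
    (hP : IsSylowIn p P (fixer G R)) {a : α} (ha : a ∉ R) :
    (orbF P a).card = p ∧
      IsSylowIn p (P ⊓ stabilizer (Perm α) a) (fixer G (insert a R)) := by
  classical
  have hp' := hp.out
  have hstabL : (fixer G R ⊓ stabilizer (Perm α) a : Subgroup (Perm α)) = fixer G (insert a R) := by
    ext g
    constructor
    · rintro ⟨⟨h1, h2⟩, h3⟩
      refine ⟨h1, fun c hc => ?_⟩
      rcases Finset.mem_insert.1 hc with rfl | hc
      · exact h3
      · exact h2 c hc
    · rintro ⟨h1, h2⟩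
      exact ⟨⟨h1, fun c hc => h2 c (Finset.mem_insert_of_mem hc)⟩, h2 a (Finset.mem_insert_self _ _)⟩
  have hLc := card_eq_stab_mul (fixer G R) a
  rw [hstabL, orbF_fixer_eq hag (by omega) ha, hRc] at hLc
  have hle : (P ⊓ stabilizer (Perm α) a : Subgroup (Perm α)) ≤ fixer G (insert a R) := by
    rw [← hstabL]
    exact inf_le_inf_right _ hP.le
  have e1 := card_eq_stab_mul P a
  have e2 := card_mul_relIndex hP.le
  have e3 := card_mul_relIndex hle
  set m := P.relIndex (fixer G R) with hm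
  set m' := (P ⊓ stabilizer (Perm α) a : Subgroup (Perm α)).relIndex (fixer G (insert a R)) with hm'
  set O := (orbF P a).card with hO
  set A := Nat.card (P ⊓ stabilizer (Perm α) a : Subgroup (Perm α)) with hA
  have hApos : 0 < A := Nat.card_pos
  have hkey : O * m = m' * (k * p) := by
    apply Nat.eq_of_mul_eq_mul_left hApos
    calc A * (O * m) = (A * O) * m := by ring
      _ = Nat.card (fixer G R) := by rw [← e1, e2]
      _ = Nat.card (fixer G (insert a R)) * (k * p) := hLc
      _ = (A * m') * (k * p) := by rw [e3]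
      _ = A * (m' * (k * p)) := by ring
  have hdvd : p ∣ O := by
    have h1 : p ∣ O * m := by
      rw [hkey]
      exact ⟨m' * k, by ring⟩
    exact (hp'.dvd_mul.1 h1).resolve_right hP.not_dvd
  obtain ⟨n, hn⟩ := card_orbF_pow hP.isPGroup a
  have hsub : orbF P a ⊆ Rᶜ := by
    rw [← orbF_fixer_eq hag (t := r + 1) (by omega) ha]
    intro x hx
    obtain ⟨q, hq, rfl⟩ := mem_orbF.1 hx
    exact mem_orbF.2 ⟨q, hP.le hq, rfl⟩
  have hOle : O ≤ k * p := by
    rw [← hRc]
    exact Finset.card_le_card hsub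
  have hn1 : n = 1 := by
    rcases n with _ | _ | n
    · simp [hO, hn] at hdvd
      exact absurd hdvd hp'.one_lt.ne'
    · rfl
    · exfalso
      have h1 : p * p ∣ O := by
        rw [hO, hn, pow_succ, pow_succ]
        exact ⟨p ^ n, by ring⟩
      have h2 : p * p ≤ O := Nat.le_of_dvd (by rw [hO, hn]; exact pow_pos hp'.pos _) h1
      have h3 : k * p < p * p := Nat.mul_lt_mul_of_pos_right hkp hp'.pos
      omega
  have hOp : O = p := by rw [hO, hn, hn1, pow_one]
  refine ⟨hOp, hle, hP.isPGroup.to_le inf_le_left, ?_⟩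
  rw [hOp] at hkey
  have h5 : m = m' * k := by
    apply Nat.eq_of_mul_eq_mul_left hp'.pos
    rw [hkey]
    ring
  intro h6
  apply hP.not_dvd
  rw [← hm, h5]
  exact Dvd.dvd.mul_right h6 _

theorem main_aux (k : ℕ) : ∀ {α : Type u} [Fintype α] [DecidableEq α] (G : Subgroup (Perm α))
    {p r : ℕ}, p.Prime → Fintype.card α = k * p + r → 1 ≤ k → k < p → k < r → ¬ (k = 1 ∧ r = 2) →
    IsMultiplyPretransitive G α (r + 1) → alternatingGroup α ≤ G := by
  induction k using Nat.strong_induction_on with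
  | _ k IH =>
  intro α _ _ G p r hp hn hk hpk hrk hex hG
  classical
  haveI hpf : Fact p.Prime := ⟨hp⟩
  have hmulpos : 0 < k * p := Nat.mul_pos hk hp.pos
  have hag : Agree G (r + 1) := fun A hA σ =>
    Cfsg.Agent.S0711.exists_agree G (by omega) hG A hA σ
  have small : ∀ g ∈ G, g ≠ 1 → g.support.card < 2 * r → alternatingGroup α ≤ G :=
    fun g hg hg1 hs =>
      (Cfsg.Agent.S0711.result G (k := r + 1) (by omega) (by omega) hG g hg hg1 (by omega)).2
  by_cases h23 : k = 2 ∧ p = 3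
  · obtain ⟨rfl, rfl⟩ := h23
    exact six (by omega) (by omega) hG
  obtain ⟨R, -, hRcard⟩ := Finset.exists_subset_card_eq (s := (univ : Finset α)) (n := r)
    (by rw [Finset.card_univ]; omega)
  have hRc : Rᶜ.card = k * p := by
    rw [Finset.card_compl, hn, hRcard]
    omega
  obtain ⟨P, hP⟩ := exists_isSylowIn p (fixer G R)
  have facts := fun (a : α) (ha : a ∉ R) => orbit_facts hpk hag hRcard hRc hP ha
  have horb : ∀ x, x ∉ R → (orbF P x).card = p := fun x hx => (facts x hx).1
  have hPG : P ≤ G := fun q hq => (hP.le hq).1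
  have hPfix : ∀ x, x ∈ R ↔ ∀ q ∈ P, q x = x := by
    intro x
    refine ⟨fun hx q hq => (hP.le hq).2 x hx, fun h => ?_⟩
    by_contra hx
    have h1 := horb x hx
    have h2 : orbF P x ⊆ {x} := by
      intro y hy
      obtain ⟨q, hq, rfl⟩ := mem_orbF.1 hy
      rw [h q hq]
      exact Finset.mem_singleton_self x
    have h3 := Finset.card_le_card h2
    rw [h1, Finset.card_singleton] at h3
    have := hp.two_le
    omega
  have hA' : ∀ σ : Perm R, ∃ g ∈ G, g ∈ Subgroup.normalizer (P : Set (Perm α)) ∧ ∀ y : R, g y = σ y := by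
    intro σ
    obtain ⟨g, hg, hgn, hgy⟩ := witt_ext (t := r + 1) (F := R) hag hP (by omega) hPfix
      (Finset.Subset.refl R) rfl (Perm.ofSubtype σ) (fun a ha => by
        rw [Perm.ofSubtype_apply_of_mem σ ha]
        exact (σ ⟨a, ha⟩).2)
    refine ⟨g, hg, hgn, fun y => ?_⟩
    rw [hgy y y.2]
    exact Perm.ofSubtype_apply_coe σ y
  -- large `r`
  by_cases hr5 : 5 ≤ r
  · have hlarge : 2 * k.factorial < R.card.factorial := by
      rw [hRcard]
      obtain ⟨s, rfl⟩ : ∃ s, r = s + 1 := ⟨r - 1, by omega⟩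
      have h1 : k.factorial ≤ s.factorial := Nat.factorial_le (by omega)
      have h2 := Nat.factorial_pos s
      rw [Nat.factorial_succ]
      nlinarith
    obtain ⟨g, hg, hg1, hs⟩ := exists_small hPG hPfix hP.isPGroup horb (k' := k) hRc.le
      (by omega) hlarge (fun σ _ => hA' σ)
    exact small g hg hg1 (by omega)
  -- `k = 1`: a `p`-cycle
  by_cases hk1 : k = 1
  · subst hk1
    have hr3 : 3 ≤ r := by
      have : r ≠ 2 := fun h => hex ⟨rfl, h⟩
      omega
    have hpos : 0 < Rᶜ.card := by omega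
    obtain ⟨a, ha'⟩ := Finset.card_pos.1 hpos
    have ha : a ∉ R := Finset.mem_compl.1 ha'
    have horba := horb a ha
    have haorb := self_mem_orbF P a
    have horbeq : orbF P a = Rᶜ := by
      apply Finset.eq_of_subset_of_card_le
      · intro y hy
        obtain ⟨q, hq, rfl⟩ := mem_orbF.1 hy
        rw [Finset.mem_compl]
        intro h
        have h1 := (hPfix _).1 h q hq
        have h2 := q.injective h1
        exact ha (h2 ▸ h)
      · rw [horba, hRc]
        omega
    obtain ⟨x, hx, hxa⟩ : ∃ x ∈ P, x a ≠ a := by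
      by_contra hcon
      push Not at hcon
      exact ha ((hPfix a).2 hcon)
    have hfree : ∀ u, u ∉ R → x u ≠ u := by
      intro u hu hxu
      have hu' : u ∈ orbF P a := by
        rw [horbeq]
        exact Finset.mem_compl.2 hu
      exact hxa (fix_all hP.isPGroup horba hx hu' haorb hxu)
    have hsupp : x.support = Rᶜ := by
      ext u
      rw [Perm.mem_support, Finset.mem_compl]
      constructor
      · intro h hu
        exact h ((hPfix u).1 hu x hx)
      · exact hfree u
    have hPcard : Nat.card P = p := by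
      have h1 := card_eq_stab_mul P a
      have h2 : (P ⊓ stabilizer (Perm α) a : Subgroup (Perm α)) = ⊥ := by
        rw [eq_bot_iff]
        rintro q ⟨hq, hqa⟩
        rw [Subgroup.mem_bot]
        ext u
        by_cases hu : u ∈ R
        · exact (hPfix u).1 hu q hq
        · have hu' : u ∈ orbF P a := by
            rw [horbeq]
            exact Finset.mem_compl.2 hu
          exact fix_all hP.isPGroup horba hq haorb hu' hqa
      rw [h2, horba, Subgroup.card_bot, one_mul] at h1
      exact h1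
    have hx1 : x ≠ 1 := by
      rintro rfl
      exact hxa rfl
    have hord : orderOf x = p := by
      have h1 : orderOf (⟨x, hx⟩ : P) ∣ p := by
        rw [← hPcard]
        exact orderOf_dvd_natCard _
      rw [Subgroup.orderOf_mk] at h1
      rcases (Nat.dvd_prime hp).1 h1 with h | h
      · exact absurd (orderOf_eq_one_iff.1 h) hx1
      · exact h
    obtain ⟨m, hm⟩ := cycleType_prime_order (σ := x) (by rw [hord]; exact hp)
    have hsum := sum_cycleType x
    rw [hm, Multiset.sum_replicate, hord, hsupp, hRc] at hsum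
    have hm0 : m = 0 := by
      have h3 : (m + 1) * p = 1 * p := by
        simpa using hsum
      have := Nat.eq_of_mul_eq_mul_right hp.pos h3
      omega
    have hcyc : x.IsCycle := by
      rw [← card_cycleType_eq_one, hm, hm0]
      simp
    have hprim : IsPreprimitive G α :=
      isPreprimitive_of_is_two_pretransitive
        (isMultiplyPretransitive_of_le (n := r + 1) (by omega)
          (by rw [Nat.card_eq_fintype_card]; omega))
    refine Cfsg.Agent.S0713.result G hprim hp (by have := hp.two_le; omega) (by omega) hcyc ?_ (hPG hx)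
    rw [hsupp, hRc]
    omega
  have hk2 : 2 ≤ k := by omega
  have hp5 : 5 ≤ p := by
    by_contra hcon
    have h1 : p < 5 := by omega
    interval_cases p
    all_goals first
      | omega
      | (exfalso; revert hp; decide)
  by_cases hsemi : ∀ a, a ∉ R → ∀ x ∈ P, x a = a → x = 1
  · have hpos : 0 < Rᶜ.card := by omega
    obtain ⟨a₀, ha'⟩ := Finset.card_pos.1 hpos
    have ha₀ : a₀ ∉ R := Finset.mem_compl.1 ha'
    have hPcard : Nat.card P = p := by
      have h1 := card_eq_stab_mul P a₀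
      have h2 : (P ⊓ stabilizer (Perm α) a₀ : Subgroup (Perm α)) = ⊥ := by
        rw [eq_bot_iff]
        rintro q ⟨hq, hqa⟩
        exact hsemi a₀ ha₀ q hq hqa
      rw [h2, horb a₀ ha₀, Subgroup.card_bot, one_mul] at h1
      exact h1
    haveI hPcyc : IsCyclic P := isCyclic_of_prime_card hPcard
    have hnt : Nontrivial R := by
      rw [← Fintype.one_lt_card_iff_nontrivial, Fintype.card_coe]
      omega
    let W : Finset (Perm R) := univ.filter (· ∈ alternatingGroup R)
    have hWcard : 2 * W.card = r.factorial := by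
      have h1 := two_mul_card_alternatingGroup (α := R)
      rw [Fintype.card_perm, Fintype.card_coe, hRcard] at h1
      rw [← h1]
      congr 1
      exact (Fintype.card_subtype _).symm
    have hW : k.factorial < W.card := by
      obtain ⟨s, rfl⟩ : ∃ s, r = s + 1 := ⟨r - 1, by omega⟩
      have h1 : k.factorial ≤ s.factorial := Nat.factorial_le (by omega)
      have h2 := Nat.factorial_pos s
      rw [Nat.factorial_succ] at hWcard
      nlinarith
    let M : Subgroup (Perm α) := G ⊓ Subgroup.centralizer (P : Set (Perm α))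
    obtain ⟨w, hw, w', hw', hne, c, hcM, hcN, hcy, hcx⟩ := pigeon M hPfix hp.pos horb (k' := k) hRc.le
      W hW (fun w hw => by
        obtain ⟨c, hc, hcn, hcc, hcy⟩ := lift_centralizing hPfix hA' (Finset.mem_filter.1 hw).2
        exact ⟨c, ⟨hc, Subgroup.mem_centralizer_iff.2 (fun q hq => (hcc q hq).symm)⟩, hcn, hcy⟩)
    have hcomm : ∀ q ∈ P, q * c = c * q := Subgroup.mem_centralizer_iff.1 hcM.2
    set v := w⁻¹ * w' with hv
    have hv1 : v ≠ 1 := by
      intro h
      exact hne (inv_mul_eq_one.1 h)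
    have hvp : v ^ p ≠ 1 := by
      intro h
      have h1 : orderOf v ∣ p := orderOf_dvd_of_pow_eq_one h
      have h2 : orderOf v ∣ r.factorial := by
        have h3 := orderOf_dvd_natCard v
        rw [Nat.card_eq_fintype_card, Fintype.card_perm, Fintype.card_coe, hRcard] at h3
        exact h3
      have h3 : Nat.Coprime p r.factorial := by
        rw [Nat.Prime.coprime_iff_not_dvd hp, hp.dvd_factorial]
        omega
      have h4 : orderOf v = 1 := Nat.eq_one_of_dvd_coprimes h3 h1 h2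
      exact hv1 (orderOf_eq_one_iff.1 h4)
    have hiter : ∀ j : ℕ, ∀ y : R, (c ^ j) y = (v ^ j) y := by
      intro j
      induction j with
      | zero => intro y; rfl
      | succ j ih =>
        intro y
        rw [pow_succ, pow_succ, Perm.mul_apply, hcy y, ih (v y)]
        rfl
    have hoff : ∀ x, x ∉ R → (c ^ p) x = x := by
      intro x hx
      obtain ⟨q, hq, hqx⟩ := hcx x hx
      have h1 : ∀ j : ℕ, (c ^ j) x = (q ^ j) x := by
        intro j
        induction j with
        | zero => rfl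
        | succ j ih =>
          have hcq : c * q ^ j = q ^ j * c := by
            have : Commute q c := hcomm q hq
            exact (this.pow_left j).symm.eq
          rw [pow_succ', Perm.mul_apply, ih, ← Perm.mul_apply, hcq, Perm.mul_apply, hqx, pow_succ,
            Perm.mul_apply]
      have h2 : q ^ p = 1 := by
        have h3 : (⟨q, hq⟩ : P) ^ Nat.card P = 1 := pow_card_eq_one'
        rw [hPcard] at h3
        exact congrArg Subtype.val h3
      rw [h1 p, h2]
      rfl
    apply small (c ^ p) (G.pow_mem hcM.1 p)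
    · intro h1
      apply hvp
      ext y
      have := hiter p y
      rw [h1] at this
      exact this.symm
    · have hsub : (c ^ p).support ⊆ R := by
        intro x hx
        rw [Perm.mem_support] at hx
        by_contra hxR
        exact hx (hoff x hxR)
      have := Finset.card_le_card hsub
      omega
  · push Not at hsemi
    obtain ⟨a, ha, x, hx, hxa, hx1⟩ := hsemi
    set Q : Subgroup (Perm α) := P ⊓ stabilizer (Perm α) a with hQ
    have hQsyl := (facts a ha).2
    have hQP : Q ≤ P := inf_le_left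
    have hQp : IsPGroup p Q := hQsyl.isPGroup
    have hxQ : x ∈ Q := ⟨hx, hxa⟩
    let F : Finset α := univ.filter (fun u => ∀ q ∈ Q, q u = u)
    have hF : ∀ u, u ∈ F ↔ ∀ q ∈ Q, q u = u := by simp [F]
    have hRF : R ⊆ F := fun u hu => (hF u).2 (fun q hq => (hPfix u).1 hu q (hQP hq))
    have horba := horb a ha
    have haorb := self_mem_orbF P a
    have hQorb : ∀ q ∈ Q, ∀ u ∈ orbF P a, q u = u := fun q hq u hu =>
      fix_all hP.isPGroup horba (hQP hq) haorb hu hq.2
    have haF : a ∈ F := (hF a).2 (fun q hq => hq.2)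
    have hconj : ∀ q ∈ Q, ∀ q' ∈ P, q'⁻¹ * q * q' ∈ Q := by
      intro q hq q' hq'
      refine ⟨P.mul_mem (P.mul_mem (P.inv_mem hq') (hQP hq)) hq', ?_⟩
      change (q'⁻¹ * q * q') a = a
      simp only [Perm.mul_apply]
      rw [hQorb q hq _ (mem_orbF.2 ⟨q', hq', rfl⟩)]
      simp
    let T : Finset α := F \ R
    have hTinv : ∀ u ∈ T, orbF P u ⊆ T := by
      intro u hu v hv
      obtain ⟨q', hq', rfl⟩ := mem_orbF.1 hv
      rw [Finset.mem_sdiff] at hu ⊢
      refine ⟨(hF _).2 fun q hq => ?_, fun h => hu.2 ?_⟩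
      · have h1 := (hF u).1 hu.1 _ (hconj q hq q' hq')
        simp only [Perm.mul_apply] at h1
        rw [Perm.inv_eq_iff_eq] at h1
        exact h1
      · have h2 := (hPfix _).1 h _ hq'
        have h3 := q'.injective h2
        exact h3 ▸ h
    have hTcard := card_eq_image_mul T hTinv (fun u hu => horb u (Finset.mem_sdiff.1 hu).2)
    set s := (T.image (orbF P)).card with hs
    have haT : a ∈ T := Finset.mem_sdiff.2 ⟨haF, ha⟩
    have hs1 : 1 ≤ s := Finset.card_pos.2 ⟨_, Finset.mem_image_of_mem _ haT⟩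
    have hTlt : T.card < k * p := by
      rw [← hRc]
      apply Finset.card_lt_card
      rw [Finset.ssubset_iff_of_subset (fun u hu => Finset.mem_compl.2 (Finset.mem_sdiff.1 hu).2)]
      obtain ⟨u, hu⟩ : ∃ u, x u ≠ u := by
        by_contra hcon
        push Not at hcon
        exact hx1 (Perm.ext hcon)
      refine ⟨u, Finset.mem_compl.2 (fun h => hu ((hPfix u).1 h x hx)), fun h => ?_⟩
      exact hu ((hF u).1 (Finset.mem_sdiff.1 h).1 x hxQ)
    have hslt : s < k := by
      rw [hTcard] at hTlt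
      exact Nat.lt_of_mul_lt_mul_right hTlt
    have hFcard : F.card = r + s * p := by
      have h1 := Finset.card_sdiff_add_card_eq_card hRF
      have h2 : (F \ R).card = s * p := hTcard
      rw [h2, hRcard] at h1
      omega
    let N : Subgroup (Perm α) := G ⊓ Subgroup.normalizer (Q : Set (Perm α))
    have hSN : ∀ h ∈ N, ∀ u, h u ∈ F ↔ u ∈ F := fun h hh u => fixSet_iff hF hh.2 u
    let ψ := resHom N F hSN
    have htrans : IsMultiplyPretransitive ψ.range F (r + 1) := by
      refine ⟨fun u v => ?_⟩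
      let u' : Fin (r + 1) ↪ α := u.trans (Function.Embedding.subtype _)
      let v' : Fin (r + 1) ↪ α := v.trans (Function.Embedding.subtype _)
      obtain ⟨σ, hσ⟩ := (Equiv.Perm.isMultiplyPretransitive α (r + 1)).exists_smul_eq u' v'
      have hσ' : ∀ i, σ (u' i) = v' i := fun i => DFunLike.congr_fun hσ i
      let Γ : Finset α := univ.map u'
      have hΓcard : Γ.card = (insert a R).card := by
        rw [Finset.card_insert_of_notMem ha, hRcard, Finset.card_map, Finset.card_univ,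
          Fintype.card_fin]
      have hΓF : Γ ⊆ F := by
        intro b hb
        obtain ⟨i, _, rfl⟩ := Finset.mem_map.1 hb
        exact (u i).2
      have hσF : ∀ b ∈ Γ, σ b ∈ F := by
        intro b hb
        obtain ⟨i, _, rfl⟩ := Finset.mem_map.1 hb
        rw [hσ']
        exact (v i).2
      obtain ⟨g, hgG, hgn, hgy⟩ := witt_ext (t := r + 1) hag hQsyl
        (by rw [Finset.card_insert_of_notMem ha, hRcard]) hF hΓF hΓcard σ hσF
      refine ⟨⟨ψ ⟨g, hgG, hgn⟩, ⟨_, rfl⟩⟩, ?_⟩
      apply Function.Embedding.ext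
      intro i
      apply Subtype.ext
      change g (u i) = v i
      have hmem : ((u i : F) : α) ∈ Γ := Finset.mem_map.2 ⟨i, Finset.mem_univ _, rfl⟩
      rw [hgy _ hmem]
      exact hσ' i
    have hIH : alternatingGroup F ≤ ψ.range := IH s hslt ψ.range hp
      (by rw [Fintype.card_coe, hFcard]; ring) hs1 (by omega) (by omega) (fun h => by omega) htrans
    have horbQ : ∀ u, u ∉ F → (orbF Q u).card = p := by
      intro u hu
      have huR : u ∉ R := fun h => hu (hRF h)
      obtain ⟨n, hn'⟩ := card_orbF_pow hQp u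
      have hsub : orbF Q u ⊆ orbF P u := by
        intro y hy
        obtain ⟨q, hq, rfl⟩ := mem_orbF.1 hy
        exact mem_orbF.2 ⟨q, hQP hq, rfl⟩
      have h1 := Finset.card_le_card hsub
      rw [horb u huR, hn'] at h1
      obtain ⟨q, hq, hqu⟩ : ∃ q ∈ Q, q u ≠ u := by
        by_contra hcon
        push Not at hcon
        exact hu ((hF u).2 hcon)
      have h2 : 1 < (orbF Q u).card := by
        rw [Finset.one_lt_card]
        exact ⟨u, self_mem_orbF Q u, q u, mem_orbF.2 ⟨q, hq, rfl⟩, hqu.symm⟩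
      rw [hn'] at h2 ⊢
      have hn1 : n = 1 := by
        rcases n with _ | _ | n
        · simp at h2
        · rfl
        · exfalso
          have h3 : p ^ (n + 1 + 1) = p ^ n * p * p := by ring
          have h4 : p * p ≤ p ^ (n + 1 + 1) := by
            rw [h3]
            exact Nat.mul_le_mul_right _ (Nat.le_mul_of_pos_left _ (pow_pos hp.pos _))
          have h5 : p < p * p := by nlinarith
          omega
      rw [hn1, pow_one]
    have hk' : Fᶜ.card ≤ (k - s) * p := by
      rw [Finset.card_compl, hn, hFcard, Nat.sub_mul]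
      omega
    have hsp : p ≤ s * p := Nat.le_mul_of_pos_left _ hs1
    have h5 : 5 ≤ F.card := by omega
    have hlarge : 2 * (k - s).factorial < F.card.factorial := by
      have h1 : k + 2 ≤ F.card := by omega
      have h2 : (k + 2).factorial ≤ F.card.factorial := Nat.factorial_le h1
      have h3 : (k - s).factorial ≤ k.factorial := Nat.factorial_le (by omega)
      have h4 : (k + 2).factorial = (k + 2) * ((k + 1) * k.factorial) := by
        rw [Nat.factorial_succ, Nat.factorial_succ]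
      have h6 := Nat.factorial_pos k
      have h7 : 6 * k.factorial ≤ (k + 2) * ((k + 1) * k.factorial) := by
        have : 6 ≤ (k + 2) * (k + 1) := by nlinarith
        calc 6 * k.factorial ≤ ((k + 2) * (k + 1)) * k.factorial := Nat.mul_le_mul_right _ this
          _ = _ := by ring
      omega
    obtain ⟨g, hg, hg1, hs'⟩ := exists_small (G := G) (Q := Q) (F := F)
      (fun q hq => hPG (hQP hq)) hF hQp horbQ (k' := k - s) hk' h5 hlarge (fun σ hσ => by
        obtain ⟨⟨g, hgG, hgn⟩, rfl⟩ := hIH hσ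
        exact ⟨g, hgG, hgn, fun y => rfl⟩)
    exact small g hg hg1 (by omega)

/-- Let `n = kp + r` with `p` prime, `1 ≤ k < p` and `r > k`, excluding the case `k = 1, r = 2`. Then a permutation group of degree `n` that is `(r + 1)`-fold transitive contains the alternating group. -/
theorem result {α : Type*} [Fintype α] [DecidableEq α] (G : Subgroup (Equiv.Perm α)) {k p r : ℕ} (hp : p.Prime) (hn : Fintype.card α = k * p + r) (hk : 1 ≤ k) (hpk : k < p) (hrk : k < r) (hex : ¬ (k = 1 ∧ r = 2)) (hG : MulAction.IsMultiplyPretransitive G α (r + 1)) : alternatingGroup α ≤ G :=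
  main_aux k G hp hn hk hpk hrk hex hG

end Cfsg.Agent.S4220
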