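import Cfsg.Statements.S4222
import Mathlib
-- import your own Cfsg.Agent.* helpers here

set_option autoImplicit false
open Cfsg

namespace Cfsg.Agent.S4222

/-- If a normal subgroup `N` of a finite group is complete (its centre is trivial and every automorphism of `N` is inner), then the group is the internal direct product of `N` and the centralizer of `N`: the centralizer is a complement to `N`. -/
theorem result {T : Type*} [Group T] [Finite T] (N : Subgroup T) [N.Normal] (hz : Subgroup.center ↥N = ⊥) (ha : Function.Surjective (MulAut.conj : ↥N →* MulAut ↥N)) : (Subgroup.centralizer (N : Set T)).IsComplement' N := by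
  classical
  apply Subgroup.isComplement'_of_disjoint_and_mul_eq_univ
  · rw [Subgroup.disjoint_def]
    intro x hx hxN
    have : (⟨x, hxN⟩ : N) ∈ Subgroup.center ↥N := by
      rw [Subgroup.mem_center_iff]
      intro m
      apply Subtype.ext
      exact (Subgroup.mem_centralizer_iff.mp hx m.1 m.2)
    rw [hz, Subgroup.mem_bot] at this
    exact congrArg Subtype.val this
  · rw [Set.eq_univ_iff_forall]
    intro t
    obtain ⟨n, hn⟩ := ha (MulAut.conjNormal t)
    refine Set.mem_mul.mpr ⟨t * (n : T)⁻¹, ?_, n, n.2, by group⟩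
    rw [SetLike.mem_coe, Subgroup.mem_centralizer_iff]
    intro m hm
    -- conj n (n⁻¹ m n) = t (n⁻¹ m n) t⁻¹
    have h1 := DFunLike.congr_fun hn ((n⁻¹ : N) * ⟨m, hm⟩ * n)
    have h2 := congrArg Subtype.val h1
    simp only [MulAut.conj_apply, MulAut.conjNormal_apply, Subgroup.coe_mul, Subgroup.coe_inv] at h2
    have h3 : (n : T) * ((n : T)⁻¹ * m * n) * (n : T)⁻¹ = m := by group
    rw [h3] at h2
    rw [eq_comm] at h2
    calc m * (t * (n : T)⁻¹) = t * ((n : T)⁻¹ * m * n) * t⁻¹ * (t * (n : T)⁻¹) := by rw [h2]
      _ = t * (n : T)⁻¹ * m := by group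

end Cfsg.Agent.S4222
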