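import Cfsg.Statements.S4223
import Mathlib
-- import your own Cfsg.Agent.* helpers here

set_option autoImplicit false
open Cfsg

namespace Cfsg.Agent.S4223


open Function

/-- normal endomorphism -/
def IsNE {A : Type*} [Group A] (f : A →* A) : Prop := ∀ a x, f (a * x * a⁻¹) = a * f x * a⁻¹

/-- indecomposable -/
def Ind (A : Type*) [Group A] : Prop :=
  Nontrivial A ∧ ∀ H K : Subgroup A, H.Normal → K.Normal → H ⊓ K = ⊥ → H ⊔ K = ⊤ → H = ⊥ ∨ K = ⊥

/-- iterate -/
def it {A : Type*} [Group A] (f : A →* A) : ℕ → (A →* A)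
  | 0 => MonoidHom.id A
  | n + 1 => (it f n).comp f

lemma it_add {A : Type*} [Group A] (f : A →* A) (m n : ℕ) (x : A) : it f (m + n) x = it f m (it f n x) := by
  induction n generalizing x with
  | zero => simp [it]
  | succ n ih =>
    rw [← add_assoc]
    simp only [it, MonoidHom.comp_apply]
    rw [ih]

lemma it_succ' {A : Type*} [Group A] (f : A →* A) (n : ℕ) (x : A) : it f (n + 1) x = it f n (f x) := rfl

lemma IsNE.comp {A : Type*} [Group A] {f g : A →* A} (hf : IsNE f) (hg : IsNE g) : IsNE (f.comp g) := by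
  intro a x; simp [hg a x, hf a]

lemma IsNE.it {A : Type*} [Group A] {f : A →* A} (hf : IsNE f) (n : ℕ) : IsNE (it f n) := by
  induction n with
  | zero => intro a x; simp [Cfsg.Agent.S4223.it]
  | succ n ih => exact IsNE.comp ih hf

lemma exists_idem {A : Type*} [Group A] [Finite A] (f : A →* A) : ∃ N : ℕ, 0 < N ∧ ∀ x, it f N (it f N x) = it f N x := by
  haveI : Finite (A →* A) := DFunLike.finite _
  obtain ⟨i, j, hij, h⟩ := Finite.exists_ne_map_eq_of_infinite (fun n : ℕ => it f n)
  wlog hlt : i < j generalizing i j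
  · exact this j i hij.symm h.symm (lt_of_le_of_ne (not_lt.mp hlt) hij.symm)
  set d := j - i with hd
  have hd0 : 0 < d := by omega
  have h1 : ∀ n, i ≤ n → ∀ x, it f (n + d) x = it f n x := by
    intro n hn x
    have e1 : n + d = (n - i) + j := by omega
    have e2 : n = (n - i) + i := by omega
    rw [e1, it_add]
    conv_rhs => rw [e2, it_add]
    have := DFunLike.congr_fun h x
    rw [this]
  have h2 : ∀ k n, i ≤ n → ∀ x, it f (n + k * d) x = it f n x := by
    intro k
    induction k with
    | zero => intro n _ x; simp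
    | succ k ih =>
      intro n hn x
      have e : n + (k + 1) * d = (n + k * d) + d := by ring
      rw [e, h1 _ (by omega), ih n hn]
  refine ⟨(i + 1) * d, by positivity, fun x => ?_⟩
  rw [← it_add]
  apply h2 (i + 1) _ _
  nlinarith

lemma fitting {A : Type*} [Group A] [Finite A] (hA : Ind A) (f : A →* A) (hf : IsNE f) :
    Bijective f ∨ ∃ N : ℕ, ∀ x, it f N x = 1 := by
  classical
  obtain ⟨N, hN0, hEE⟩ := exists_idem f
  set E : A →* A := it f N with hE
  have hEN : IsNE E := hf.it N
  have hran : (E.range).Normal := by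
    refine ⟨?_⟩
    rintro _ ⟨x, rfl⟩ g
    exact ⟨g * x * g⁻¹, hEN g x⟩
  have hinf : E.ker ⊓ E.range = ⊥ := by
    rw [eq_bot_iff]
    rintro y ⟨hy1, ⟨x, rfl⟩⟩
    have : E (E x) = 1 := hy1
    rw [hEE] at this
    exact this
  have hsup : E.ker ⊔ E.range = ⊤ := by
    rw [eq_top_iff]
    intro x _
    have h1 : x * (E x)⁻¹ ∈ E.ker := by
      rw [MonoidHom.mem_ker, map_mul, map_inv, hEE]; simp
    have h2 : E x ∈ E.range := ⟨x, rfl⟩
    have := Subgroup.mul_mem_sup h1 h2
    simpa using this
  rcases hA.2 _ _ (MonoidHom.normal_ker _) hran hinf hsup with h | h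
  · left
    have hinj : Injective f := by
      intro x y hxy
      have : E x = E y := by
        rw [hE]
        obtain ⟨M, hM⟩ : ∃ M, N = M + 1 := ⟨N - 1, by omega⟩
        rw [hM, it_succ', it_succ', hxy]
      exact (MonoidHom.ker_eq_bot_iff _).mp h this
    exact ⟨hinj, Finite.surjective_of_injective hinj⟩
  · right
    refine ⟨N, fun x => ?_⟩
    have : E x ∈ E.range := ⟨x, rfl⟩
    rw [h] at this
    exact this

lemma not_bij_nil {A : Type*} [Group A] [Finite A] (hA : Ind A) (f : A →* A) (hf : IsNE f) (h : ¬ Bijective f) :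
    ∃ N : ℕ, ∀ x, it f N x = 1 := (fitting hA f hf).resolve_left h

lemma sum_lemma {A : Type*} [Group A] [Finite A] (hA : Ind A) (f g h : A →* A)
    (hf : IsNE f) (hg : IsNE g) (hh : ∀ x, h x = f x * g x) (hb : Bijective h) :
    Bijective f ∨ Bijective g := by
  by_contra hcon
  push Not at hcon
  obtain ⟨hf', hg'⟩ := hcon
  let H : A ≃* A := MulEquiv.ofBijective h hb
  have hH : ∀ x, h (H.symm x) = x := fun x => H.apply_symm_apply x
  have hhN : IsNE h := by
    intro a x
    rw [hh, hf a, hg a, hh]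
    -- commuting issue: normal product
    group
  have hHN : IsNE (H.symm : A →* A) := by
    intro a x
    apply H.injective
    show h _ = h _
    show h (H.symm _) = h _
    rw [hH]
    show _ = h (a * H.symm x * a⁻¹)
    rw [hhN, hH]
  -- compose
  let f' : A →* A := f.comp (H.symm : A →* A)
  let g' : A →* A := g.comp (H.symm : A →* A)
  have hf'N : IsNE f' := hf.comp hHN
  have hg'N : IsNE g' := hg.comp hHN
  have hsum : ∀ x, f' x * g' x = x := by
    intro x
    show f (H.symm x) * g (H.symm x) = x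
    rw [← hh, hH]
  have hfnb : ¬ Bijective f' := by
    intro hb'
    apply hf'
    have : (f : A → A) = f' ∘ h := by
      ext x
      show f x = f (H.symm (h x))
      congr 1
      exact (H.symm_apply_apply x).symm
    rw [this]
    exact hb'.comp hb
  have hgnb : ¬ Bijective g' := by
    intro hb'
    apply hg'
    have : (g : A → A) = g' ∘ h := by
      ext x
      show g x = g (H.symm (h x))
      congr 1
      exact (H.symm_apply_apply x).symm
    rw [this]
    exact hb'.comp hb
  obtain ⟨N, hN⟩ := not_bij_nil hA f' hf'N hfnb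
  apply hgnb
  have hinj : Injective g' := by
    rw [injective_iff_map_eq_one]
    intro x hx
    have hfx : f' x = x := by
      have := hsum x
      rwa [hx, mul_one] at this
    have : ∀ n, it f' n x = x := by
      intro n
      induction n with
      | zero => rfl
      | succ n ih => rw [it_succ', hfx, ih]
    rw [← this N, hN]
  exact ⟨hinj, Finite.surjective_of_injective hinj⟩


universe u v

section main

variable {ι κ : Type} [Fintype ι] [Fintype κ] [DecidableEq ι] [DecidableEq κ]

/-- restriction to a set of coordinates -/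
def R {κ : Type} [DecidableEq κ] (B : κ → Type v) [∀ j, Group (B j)] (S : Finset κ) : ((j : κ) → B j) →* ((j : κ) → B j) where
  toFun x := fun j => if j ∈ S then x j else 1
  map_one' := by ext j; by_cases h : j ∈ S <;> simp [h]
  map_mul' x y := by ext j; by_cases h : j ∈ S <;> simp [h]

/-- conjugated coordinate restriction -/
def Phi {ι κ : Type} [DecidableEq κ] {A : ι → Type u} {B : κ → Type v} [∀ i, Group (A i)] [∀ j, Group (B j)]
    (e : ((i : ι) → A i) ≃* ((j : κ) → B j)) (S : Finset κ) : ((i : ι) → A i) →* ((i : ι) → A i) :=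
  (e.symm.toMonoidHom).comp ((R B S).comp e.toMonoidHom)

/-- cut down to a coordinate -/
def cut {ι : Type} [DecidableEq ι] {A : ι → Type u} [∀ i, Group (A i)] (i₀ : ι) (Φ : ((i : ι) → A i) →* ((i : ι) → A i)) : A i₀ →* A i₀ :=
  (Pi.evalMonoidHom A i₀).comp (Φ.comp (MonoidHom.mulSingle A i₀))

lemma cut_apply {ι : Type} [DecidableEq ι] {A : ι → Type u} [∀ i, Group (A i)] (i₀ : ι) (Φ : ((i : ι) → A i) →* ((i : ι) → A i)) (x : A i₀) :
    cut i₀ Φ x = Φ (Pi.mulSingle i₀ x) i₀ := rfl

lemma cut_isNE {ι : Type} [DecidableEq ι] {A : ι → Type u} [∀ i, Group (A i)] (i₀ : ι) (Φ : ((i : ι) → A i) →* ((i : ι) → A i))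
    (hΦ : IsNE Φ) : IsNE (cut i₀ Φ) := by
  intro a x
  rw [cut_apply, cut_apply, Pi.mulSingle_mul, Pi.mulSingle_mul, Pi.mulSingle_inv, hΦ]
  simp

lemma Phi_isNE {ι κ : Type} [DecidableEq κ] {A : ι → Type u} {B : κ → Type v} [∀ i, Group (A i)] [∀ j, Group (B j)]
    (e : ((i : ι) → A i) ≃* ((j : κ) → B j)) (S : Finset κ) : IsNE (Phi e S) := by
  intro a x
  have hR : ∀ (g y : (j : κ) → B j), R B S (g * y * g⁻¹) = g * R B S y * g⁻¹ := by
    intro g y
    ext j
    by_cases h : j ∈ S <;> simp [R, h]
  show e.symm (R B S (e (a * x * a⁻¹))) = a * e.symm (R B S (e x)) * a⁻¹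
  have h1 : e (a * x * a⁻¹) = e a * e x * (e a)⁻¹ := by simp
  rw [h1, hR]
  simp

lemma Phi_cut_univ {ι κ : Type} [Fintype κ] [DecidableEq ι] [DecidableEq κ] {A : ι → Type u} {B : κ → Type v} [∀ i, Group (A i)] [∀ j, Group (B j)]
    (e : ((i : ι) → A i) ≃* ((j : κ) → B j)) (i₀ : ι) (x : A i₀) : cut i₀ (Phi e Finset.univ) x = x := by
  rw [cut_apply]
  have : R B Finset.univ (e (Pi.mulSingle i₀ x)) = e (Pi.mulSingle i₀ x) := by
    ext j; simp [R]
  show e.symm (R B Finset.univ (e (Pi.mulSingle i₀ x))) i₀ = x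
  rw [this]; simp

lemma Phi_cut_empty {ι κ : Type} [DecidableEq ι] [DecidableEq κ] {A : ι → Type u} {B : κ → Type v} [∀ i, Group (A i)] [∀ j, Group (B j)]
    (e : ((i : ι) → A i) ≃* ((j : κ) → B j)) (i₀ : ι) (x : A i₀) : cut i₀ (Phi e ∅) x = 1 := by
  rw [cut_apply]
  have : R B ∅ (e (Pi.mulSingle i₀ x)) = 1 := by
    ext j; simp [R]
  show e.symm (R B ∅ (e (Pi.mulSingle i₀ x))) i₀ = 1
  rw [this]; simp

lemma Phi_cut_insert {ι κ : Type} [DecidableEq ι] [DecidableEq κ] {A : ι → Type u} {B : κ → Type v} [∀ i, Group (A i)] [∀ j, Group (B j)]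
    (e : ((i : ι) → A i) ≃* ((j : κ) → B j)) (i₀ : ι) (j : κ) (S : Finset κ) (hj : j ∉ S) (x : A i₀) :
    cut i₀ (Phi e (insert j S)) x = cut i₀ (Phi e S) x * cut i₀ (Phi e {j}) x := by
  simp only [cut_apply]
  have : ∀ y, R B (insert j S) y = R B S y * R B {j} y := by
    intro y
    ext k
    by_cases h1 : k = j
    · subst h1; simp [R, hj]
    · by_cases h2 : k ∈ S <;> simp [R, h1, h2]
  show e.symm (R B (insert j S) (e (Pi.mulSingle i₀ x))) i₀ = e.symm (R B S (e (Pi.mulSingle i₀ x))) i₀ * e.symm (R B {j} (e (Pi.mulSingle i₀ x))) i₀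
  rw [this, map_mul]
  rfl

lemma exists_bij {ι κ : Type} [Fintype κ] [DecidableEq ι] [DecidableEq κ] {A : ι → Type u} {B : κ → Type v} [∀ i, Group (A i)] [∀ j, Group (B j)]
    [∀ i, Finite (A i)] (e : ((i : ι) → A i) ≃* ((j : κ) → B j)) (i₀ : ι) (hA : Ind (A i₀)) :
    ∃ j, Bijective (cut i₀ (Phi e {j})) := by
  have key : ∀ S : Finset κ, Bijective (cut i₀ (Phi e S)) → ∃ j, Bijective (cut i₀ (Phi e {j})) := by
    intro S
    induction S using Finset.induction_on with
    | empty =>
      intro h
      exfalso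
      haveI := hA.1
      obtain ⟨a, ha⟩ := exists_ne (1 : A i₀)
      apply ha
      apply h.1
      rw [Phi_cut_empty, map_one]
    | insert j S hj ih =>
      intro h
      rcases sum_lemma hA _ _ _ (cut_isNE i₀ _ (Phi_isNE e S)) (cut_isNE i₀ _ (Phi_isNE e {j})) (Phi_cut_insert e i₀ j S hj) h with h1 | h1
      · exact ih h1
      · exact ⟨j, h1⟩
  apply key Finset.univ
  have : (cut i₀ (Phi e Finset.univ) : A i₀ → A i₀) = id := by
    ext x; exact Phi_cut_univ e i₀ x
  rw [this]
  exact bijective_id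

/-- the exchange step -/
lemma exchange {ι κ : Type} [DecidableEq ι] [DecidableEq κ] {A : ι → Type u} {B : κ → Type v} [∀ i, Group (A i)] [∀ j, Group (B j)]
    [∀ i, Finite (A i)] [∀ j, Finite (B j)] (e : ((i : ι) → A i) ≃* ((j : κ) → B j)) (i₀ : ι) (j : κ)
    (hA : Ind (A i₀)) (hB : Ind (B j)) (h : Bijective (cut i₀ (Phi e {j}))) :
    Bijective (fun b : B j => (e.symm (Pi.mulSingle j b)) i₀) := by
  -- u, v
  let u : A i₀ →* B j := (Pi.evalMonoidHom B j).comp (e.toMonoidHom.comp (MonoidHom.mulSingle A i₀))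
  let v : B j →* A i₀ := (Pi.evalMonoidHom A i₀).comp (e.symm.toMonoidHom.comp (MonoidHom.mulSingle B j))
  have hRj : ∀ y : (k : κ) → B k, R B {j} y = Pi.mulSingle j (y j) := by
    intro y
    ext k
    by_cases hk : k = j
    · subst hk; simp [R]
    · simp [R, hk]
  have hvu : ∀ x, v (u x) = cut i₀ (Phi e {j}) x := by
    intro x
    rw [cut_apply]
    show e.symm (Pi.mulSingle j (e (Pi.mulSingle i₀ x) j)) i₀ = e.symm (R B {j} (e (Pi.mulSingle i₀ x))) i₀
    rw [hRj]
  have hRi : ∀ y : (i : ι) → A i, R A {i₀} y = Pi.mulSingle i₀ (y i₀) := by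
    intro y
    ext k
    by_cases hk : k = i₀
    · subst hk; simp [R]
    · simp [R, hk]
  have huv : ∀ b, u (v b) = cut j (Phi e.symm {i₀}) b := by
    intro b
    rw [cut_apply]
    show e (Pi.mulSingle i₀ (e.symm (Pi.mulSingle j b) i₀)) j = e.symm.symm (R A {i₀} (e.symm (Pi.mulSingle j b))) j
    rw [hRi]; rfl
  have huinj : Injective u := by
    intro x y hxy
    apply h.1
    rw [← hvu, ← hvu, hxy]
  have hvsurj : Surjective v := by
    intro a
    obtain ⟨x, hx⟩ := h.2 a
    exact ⟨u x, by rw [hvu, hx]⟩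
  have hNE : IsNE (u.comp v) := by
    have : u.comp v = cut j (Phi e.symm {i₀}) := by
      ext b; exact huv b
    rw [this]
    exact cut_isNE _ _ (Phi_isNE _ _)
  have hit : ∀ (n : ℕ) (a : A i₀), it (u.comp v) n (u a) = u (it (v.comp u) n a) := by
    intro n
    induction n with
    | zero => intro a; rfl
    | succ n ih =>
      intro a
      rw [it_succ', it_succ']
      have e1 : (u.comp v) (u a) = u ((v.comp u) a) := rfl
      rw [e1, ih]
  have hitinj : ∀ (n : ℕ) (a : A i₀), a ≠ 1 → it (v.comp u) n a ≠ 1 := by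
    intro n
    induction n with
    | zero => intro a ha; exact ha
    | succ n ih =>
      intro a ha
      rw [it_succ']
      apply ih
      intro h0
      apply ha
      apply h.1
      rw [← hvu, map_one]
      exact h0
  rcases fitting hB _ hNE with hb | ⟨N, hN⟩
  · have hvinj : Injective v := by
      intro x y hxy
      apply hb.1
      simp [hxy]
    exact ⟨hvinj, hvsurj⟩
  · exfalso
    haveI := hA.1
    obtain ⟨a, ha⟩ := exists_ne (1 : A i₀)
    have h1 := hN (u a)
    rw [hit] at h1
    have h2 : u (it (v.comp u) N a) = u 1 := by rw [h1, map_one]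
    exact hitinj N a ha (huinj h2)

lemma core (c : ℕ) : ∀ (ι κ : Type) [Fintype ι] [Fintype κ] [DecidableEq ι] [DecidableEq κ]
    (A : ι → Type u) (B : κ → Type v) [∀ i, Group (A i)] [∀ j, Group (B j)]
    [∀ i, Finite (A i)] [∀ j, Finite (B j)], Fintype.card ι = c → (∀ i, Ind (A i)) → (∀ j, Ind (B j)) →
    (((i : ι) → A i) ≃* ((j : κ) → B j)) → ∃ σ : ι ≃ κ, ∀ i, Nonempty (A i ≃* B (σ i)) := by
  induction c with
  | zero =>
    intro ι κ _ _ _ _ A B _ _ _ _ hc hA hB e
    haveI : IsEmpty ι := Fintype.card_eq_zero_iff.mp hc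
    have hκ : IsEmpty κ := by
      refine ⟨fun j => ?_⟩
      haveI := (hB j).1
      obtain ⟨b, hb⟩ := exists_ne (1 : B j)
      have h1 : (Pi.mulSingle j b : (j : κ) → B j) = 1 := by
        apply e.symm.injective
        rw [map_one]
        ext i
        exact isEmptyElim i
      have := congr_fun h1 j
      simp at this
      exact hb this
    exact ⟨Equiv.equivOfIsEmpty _ _, fun i => isEmptyElim i⟩
  | succ c ih =>
    intro ι κ _ _ _ _ A B _ _ _ _ hc hA hB e
    have hne : Nonempty ι := Fintype.card_pos_iff.mp (by omega)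
    obtain ⟨i₀⟩ := hne
    obtain ⟨j, hj⟩ := exists_bij e i₀ (hA i₀)
    have hv := exchange e i₀ j (hA i₀) (hB j) hj
    -- the isomorphism
    let v : B j →* A i₀ := (Pi.evalMonoidHom A i₀).comp (e.symm.toMonoidHom.comp (MonoidHom.mulSingle B j))
    have hv' : Bijective v := hv
    let V : B j ≃* A i₀ := MulEquiv.ofBijective v hv'
    -- deleted groups
    let ext' : ((i : {i // i ≠ i₀}) → A i.1) →* ((i : ι) → A i) :=
      { toFun := fun x i => if h : i = i₀ then 1 else x ⟨i, h⟩
        map_one' := by ext i; by_cases h : i = i₀ <;> simp [h]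
        map_mul' := fun x y => by ext i; by_cases h : i = i₀ <;> simp [h] }
    let res : ((k : κ) → B k) →* ((k : {k // k ≠ j}) → B k.1) :=
      { toFun := fun y k => y k.1
        map_one' := rfl
        map_mul' := fun _ _ => rfl }
    let φ : ((i : {i // i ≠ i₀}) → A i.1) →* ((k : {k // k ≠ j}) → B k.1) :=
      res.comp (e.toMonoidHom.comp ext')
    have hφinj : Injective φ := by
      rw [injective_iff_map_eq_one]
      intro x hx
      -- e (ext x) = single j b
      set y := e (ext' x) with hy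
      have hy1 : ∀ k, k ≠ j → y k = 1 := fun k hk => congr_fun hx ⟨k, hk⟩
      have hy2 : y = Pi.mulSingle j (y j) := by
        ext k
        by_cases hk : k = j
        · subst hk; simp
        · simp [hk, hy1 k hk]
      have hext : ext' x = e.symm (Pi.mulSingle j (y j)) := by
        rw [← hy2, hy]; simp
      have hvb : v (y j) = 1 := by
        show e.symm (Pi.mulSingle j (y j)) i₀ = 1
        rw [← hext]
        simp [ext']
      have hb : y j = 1 := hv'.1 (by rw [hvb, map_one])
      have hext1 : ext' x = 1 := by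
        rw [hext, hb]; simp
      ext i
      have := congr_fun hext1 i.1
      simpa [ext', i.2] using this
    have hcardA : Nat.card ((i : ι) → A i) = Nat.card (A i₀) * Nat.card ((i : {i // i ≠ i₀}) → A i.1) := by
      rw [Nat.card_congr (Equiv.piSplitAt i₀ A), Nat.card_prod]
    have hcardB : Nat.card ((k : κ) → B k) = Nat.card (B j) * Nat.card ((k : {k // k ≠ j}) → B k.1) := by
      rw [Nat.card_congr (Equiv.piSplitAt j B), Nat.card_prod]
    have hcard : Nat.card ((i : {i // i ≠ i₀}) → A i.1) = Nat.card ((k : {k // k ≠ j}) → B k.1) := by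
      have h1 := Nat.card_congr e.toEquiv
      have h2 : Nat.card (A i₀) = Nat.card (B j) := (Nat.card_congr V.toEquiv).symm
      rw [hcardA, hcardB, h2] at h1
      exact Nat.eq_of_mul_eq_mul_left Nat.card_pos h1
    have hφ : Bijective φ := (Nat.bijective_iff_injective_and_card _).mpr ⟨hφinj, hcard⟩
    let e' := MulEquiv.ofBijective φ hφ
    have hc' : Fintype.card {i // i ≠ i₀} = c := by
      rw [Fintype.card_subtype_compl, Fintype.card_subtype_eq]
      omega
    obtain ⟨σ', hσ'⟩ := ih {i // i ≠ i₀} {k // k ≠ j} (fun i => A i.1) (fun k => B k.1) hc'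
      (fun i => hA i.1) (fun k => hB k.1) e'
    let σ : ι ≃ κ :=
      { toFun := fun i => if h : i = i₀ then j else (σ' ⟨i, h⟩).1
        invFun := fun k => if h : k = j then i₀ else (σ'.symm ⟨k, h⟩).1
        left_inv := by
          intro i
          by_cases h : i = i₀
          · simp [h]
          · simp [h, (σ' ⟨i, h⟩).2]
        right_inv := by
          intro k
          by_cases h : k = j
          · simp [h]
          · simp [h, (σ'.symm ⟨k, h⟩).2] }
    refine ⟨σ, fun i => ?_⟩
    by_cases h : i = i₀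
    · subst h
      have : σ i = j := by simp [σ]
      rw [this]
      exact ⟨V.symm⟩
    · have : σ i = (σ' ⟨i, h⟩).1 := by simp [σ, h]
      rw [this]
      exact hσ' ⟨i, h⟩

end main


/-- If a finite group is isomorphic both to a direct product of `m` directly indecomposable nontrivial groups and to a direct product of `n` such groups (a group is directly indecomposable when it is not the internal direct product of two nontrivial normal subgroups), then `m = n` and the factors are isomorphic in pairs after a suitable matching. -/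
theorem result {m n : ℕ} {A : Fin m → Type*} {B : Fin n → Type*} [∀ i, Group (A i)] [∀ j, Group (B j)] [∀ i, Finite (A i)] [∀ j, Finite (B j)] (hA : ∀ i, Nontrivial (A i) ∧ ∀ H K : Subgroup (A i), H.Normal → K.Normal → H ⊓ K = ⊥ → H ⊔ K = ⊤ → H = ⊥ ∨ K = ⊥) (hB : ∀ j, Nontrivial (B j) ∧ ∀ H K : Subgroup (B j), H.Normal → K.Normal → H ⊓ K = ⊥ → H ⊔ K = ⊤ → H = ⊥ ∨ K = ⊥) (e : ((i : Fin m) → A i) ≃* ((j : Fin n) → B j)) : ∃ σ : Fin m ≃ Fin n, ∀ i, Nonempty (A i ≃* B (σ i)) := by
  exact core m (Fin m) (Fin n) A B (by simp) (fun i => hA i) (fun j => hB j) e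

end Cfsg.Agent.S4223
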