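import Cfsg.Statements.S4226
import Cfsg.Agent.Lib.Transfer.Monomial

set_option autoImplicit false
open Cfsg

namespace Cfsg.Agent.S4226

open scoped commutatorElement in
theorem key {G : Type*} [Group G] (P : Subgroup G) (z u : G) (hz : z ∈ P) (hu : u ∈ P) (k : ℕ) :
    (fun y : G => y⁻¹ * z⁻¹ * y * z)^[k] u ∈ P.lowerCentralSeries k := by
  induction k with
  | zero => exact hu
  | succ k ih =>
    rw [Function.iterate_succ_apply']
    have e : (((fun y : G => y⁻¹ * z⁻¹ * y * z)^[k] u)⁻¹ * z⁻¹ * ((fun y : G => y⁻¹ * z⁻¹ * y * z)^[k] u) * z)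
        = ⁅((fun y : G => y⁻¹ * z⁻¹ * y * z)^[k] u)⁻¹, z⁻¹⁆ := by
      rw [commutatorElement_def]; group
    show (((fun y : G => y⁻¹ * z⁻¹ * y * z)^[k] u)⁻¹ * z⁻¹ * ((fun y : G => y⁻¹ * z⁻¹ * y * z)^[k] u) * z) ∈ _
    rw [e, Subgroup.lowerCentralSeries_succ]
    exact Subgroup.commutator_mem_commutator (Subgroup.inv_mem _ ih) (P.inv_mem hz)

/-- Let `P` be a Sylow `p`-subgroup of the finite group `G` with nilpotency class less than `p` (the term of index `p - 1` of the lower central series of `P`, indexed from `0`, is trivial), and let `N` be its normalizer. Then `O^p(N) = O^p(G) ∩ N`, where `O^p` denotes the subgroup generated by the elements of order prime to `p`; so the largest `p`-factor groups of `G` and of `N` are isomorphic. -/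
theorem result {G : Type*} [Group G] [Finite G] {p : ℕ} [Fact p.Prime] (P : Sylow p G) (hcl : (P : Subgroup G).lowerCentralSeries (p - 1) = ⊥) : Cfsg.pResidualOf p (Subgroup.normalizer ((P : Subgroup G) : Set G)) = Cfsg.pResidual p G ⊓ Subgroup.normalizer ((P : Subgroup G) : Set G) := by
  have hQ : Cfsg.IsWeaklyClosed (P : Subgroup G) (P : Subgroup G) := by
    refine ⟨le_rfl, fun g hg => ?_⟩
    refine Subgroup.eq_of_le_of_card_ge hg ?_
    rw [Subgroup.card_map_of_injective (MulEquiv.injective _)]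
  refine Cfsg.Agent.Lib.Transfer.Monomial.residual_eq_of_vanish P (P : Subgroup G) hQ ?_
  intro U M hUP hQU hMU hidx hn z hz hzM ν u hu
  have hzinv : ∀ m ∈ M, z⁻¹ * m * z ∈ M := by
    intro m hm
    have := hn z⁻¹ (U.inv_mem (hQU hz)) m hm
    simpa using this
  rw [Cfsg.Agent.Lib.Transfer.Monomial.norm_eq_iter Cfsg.Agent.Lib.Transfer.Monomial.hA_zmod M ν z
    hzinv u hu]
  have h0 := key (P : Subgroup G) z u (hUP (hQU hz)) (hUP (hMU hu)) (p - 1)
  rw [hcl, Subgroup.mem_bot] at h0
  rw [h0]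
  exact Cfsg.Agent.Lib.Transfer.EngelCore.ext_one ν

end Cfsg.Agent.S4226
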