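import Cfsg.Statements.S4227
import Mathlib
import Cfsg.Agent.Lib.HallHigman.Layer
import Cfsg.Agent.Lib.Char.Burnside2
import Cfsg.Agent.Lib.Basic.SylowUtil
-- import your own Cfsg.Agent.* helpers here

set_option autoImplicit false
open Cfsg

namespace Cfsg.Agent.S4227

/-- A finite group in which every element has order dividing `6` has `2`-length at most `1` and `3`-length at most `1`. -/
theorem result {G : Type*} [Group G] [Finite G] (h : ∀ x : G, x ^ 6 = 1) : Cfsg.PLengthLE 2 1 G ∧ Cfsg.PLengthLE 3 1 G := by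
  classical
  have hsolv : Group.IsSolvable G := by
    -- the order is `2 ^ a * 3 ^ b`
    have hprimes : ∀ r : ℕ, r.Prime → r ∣ Nat.card G → r = 2 ∨ r = 3 := by
      intro r hr hd
      haveI : Fact r.Prime := ⟨hr⟩
      obtain ⟨x, hx⟩ := exists_prime_orderOf_dvd_card' r hd
      have h1 : r ∣ 6 := by rw [← hx]; exact orderOf_dvd_of_pow_eq_one (h x)
      have h2 : r ∣ 2 * 3 := h1
      rcases (Nat.Prime.dvd_mul hr).1 h2 with h3 | h3
      · left; exact (Nat.prime_dvd_prime_iff_eq hr Nat.prime_two).1 h3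
      · right; exact (Nat.prime_dvd_prime_iff_eq hr Nat.prime_three).1 h3
    have hcard : Nat.card G = 2 ^ (Nat.card G).factorization 2 * 3 ^ (Nat.card G).factorization 3 := by
      have hpos : Nat.card G ≠ 0 := Nat.card_pos.ne'
      conv_lhs => rw [← Nat.prod_factorization_pow_eq_self hpos]
      have hsub : (Nat.card G).factorization.support ⊆ {2, 3} := by
        intro r hr
        have h1 := Nat.prime_of_mem_primeFactors (by simpa using hr)
        have h2 := Nat.dvd_of_mem_primeFactors (by simpa using hr)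
        simpa using hprimes r h1 h2
      rw [Finsupp.prod_of_support_subset _ hsub _ (by simp)]
      simp
    exact Cfsg.Agent.Lib.Char.Burnside2.isSolvable_of_card_eq Nat.prime_two Nat.prime_three _ G _ _ rfl hcard
  have hsol : ∀ (p : ℕ) [Fact p.Prime], Cfsg.IsPSolvable p G := fun p _ =>
    Cfsg.Agent.Lib.Solvable.PSeries.isPSolvable_of_solvable
  constructor
  · haveI : Fact (Nat.Prime 2) := ⟨Nat.prime_two⟩
    apply Cfsg.Agent.Lib.HallHigman.Layer.plength_of_exp 1 G (hsol 2)
    · intro n₀ q m h1 h2 h3 h4 h5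
      have h6 : n₀ = 1 := by omega
      subst h6
      have h7 : 2 ≤ q ^ m := le_trans h3.two_le (Nat.le_self_pow (by omega) q)
      norm_num at h5
      omega
    · rintro x ⟨k, hk⟩
      -- `x` has order dividing both `6` and `2 ^ k`, hence `2`
      have h1 : orderOf x ∣ 6 := orderOf_dvd_of_pow_eq_one (h x)
      have h2 : orderOf x ∣ 2 ^ k := orderOf_dvd_of_pow_eq_one hk
      have h3 : orderOf x ∣ Nat.gcd 6 (2 ^ k) := Nat.dvd_gcd h1 h2
      have h4 : Nat.gcd 6 (2 ^ k) ∣ 2 := by
        have : Nat.Coprime 3 (2 ^ k) := Nat.Coprime.pow_right k (by norm_num)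
        have e : (6 : ℕ) = 3 * 2 := by norm_num
        rw [e, Nat.Coprime.gcd_mul_left_cancel _ this]
        exact Nat.gcd_dvd_left _ _
      rw [pow_one]
      exact orderOf_dvd_iff_pow_eq_one.1 (h3.trans h4)
  · haveI : Fact (Nat.Prime 3) := ⟨Nat.prime_three⟩
    have hpow : ∀ x : G, (∃ k, x ^ 3 ^ k = 1) → x ^ 3 = 1 := by
      rintro x ⟨k, hk⟩
      have h1 : orderOf x ∣ 6 := orderOf_dvd_of_pow_eq_one (h x)
      have h2 : orderOf x ∣ 3 ^ k := orderOf_dvd_of_pow_eq_one hk
      have h3 : orderOf x ∣ Nat.gcd 6 (3 ^ k) := Nat.dvd_gcd h1 h2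
      have h4 : Nat.gcd 6 (3 ^ k) ∣ 3 := by
        have : Nat.Coprime 2 (3 ^ k) := Nat.Coprime.pow_right k (by norm_num)
        have e : (6 : ℕ) = 2 * 3 := by norm_num
        rw [e, Nat.Coprime.gcd_mul_left_cancel _ this]
        exact Nat.gcd_dvd_left _ _
      exact orderOf_dvd_iff_pow_eq_one.1 (h3.trans h4)
    apply Cfsg.Agent.Lib.HallHigman.Layer.plength_of_exp 1 G (hsol 3)
    · intro n₀ q m h1 h2 h3 h4 h5 Q
      have h6 : n₀ = 1 := by omega
      subst h6
      have h7 : q ^ m = 2 := by
        norm_num at h5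
        omega
      have h8 : q = 2 := by
        have h9 : q ∣ 2 := by rw [← h7]; exact dvd_pow_self q (by omega)
        exact (Nat.prime_dvd_prime_iff_eq h3 Nat.prime_two).1 h9
      subst h8
      -- elements of a Sylow `2`-subgroup are involutions
      have hinv : ∀ x ∈ (Q : Subgroup G), x ^ 2 = 1 := by
        intro x hx
        obtain ⟨k, hk⟩ := Cfsg.Agent.Lib.Basic.SylowUtil.orderOf_eq_pow_of_mem Q hx
        have h1 : orderOf x ∣ 6 := orderOf_dvd_of_pow_eq_one (h x)
        have h3 : orderOf x ∣ Nat.gcd 6 (2 ^ k) := Nat.dvd_gcd h1 (by rw [hk])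
        have h4 : Nat.gcd 6 (2 ^ k) ∣ 2 := by
          have : Nat.Coprime 3 (2 ^ k) := Nat.Coprime.pow_right k (by norm_num)
          have e : (6 : ℕ) = 3 * 2 := by norm_num
          rw [e, Nat.Coprime.gcd_mul_left_cancel _ this]
          exact Nat.gcd_dvd_left _ _
        exact orderOf_dvd_iff_pow_eq_one.1 (h3.trans h4)
      refine ⟨⟨fun a b => ?_⟩⟩
      apply Subtype.ext
      have hab := hinv _ ((Q : Subgroup G).mul_mem a.2 b.2)
      have ha := hinv _ a.2
      have hb := hinv _ b.2
      show (a : G) * b = b * a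
      have h10 : (a : G) * b * (a * b) = 1 := by rw [← pow_two]; exact hab
      calc (a : G) * b = a * b * (b * a * (b * a)) := by
            have : (b : G) * a * (b * a) = 1 := by
              rw [← pow_two]; exact hinv _ ((Q : Subgroup G).mul_mem b.2 a.2)
            rw [this, mul_one]
        _ = (a : G) * (b * b) * a * (b * a) := by group
        _ = (b : G) * a := by
            rw [← pow_two (b : G), hb, mul_one, ← pow_two (a : G)]
            rw [ha, one_mul]
    · intro x hx
      rw [pow_one]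
      exact hpow x hx

end Cfsg.Agent.S4227
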