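import Cfsg.Statements.S4275

set_option autoImplicit false
open Cfsg

namespace Cfsg.Agent.S4275

open Subgroup

/-- Let G be a transitive group of permutations of a finite set Ω, let o ∈ Ω, and let α be an automorphism of G. Then α is induced by conjugation by a permutation of Ω normalizing G if and only if the image under α of the stabilizer of o fixes some point of Ω. -/
theorem result {Ω : Type*} [Fintype Ω] (G : Subgroup (Equiv.Perm Ω)) (htr : MulAction.IsPretransitive G Ω) (o : Ω) (α : G ≃* G) : (∃ σ : Equiv.Perm Ω, σ ∈ Subgroup.normalizer (G : Set (Equiv.Perm Ω)) ∧ ∀ g : G, ((α g : G) : Equiv.Perm Ω) = σ * (g : Equiv.Perm Ω) * σ⁻¹) ↔ ∃ ω : Ω, ∀ g ∈ (MulAction.stabilizer G o).map α.toMonoidHom, g • ω = ω := by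
  classical
  constructor
  · rintro ⟨σ, hσ, hα⟩
    refine ⟨σ o, ?_⟩
    rintro g ⟨h, hh, rfl⟩
    show ((α h : G) : Equiv.Perm Ω) (σ o) = σ o
    rw [hα h]
    have hh' : (h : Equiv.Perm Ω) o = o := hh
    simp [hh']
  · rintro ⟨ω, hω⟩
    have hαfix : ∀ g : G, g • o = o → (α g) • ω = ω := by
      intro g hg
      exact hω _ ⟨g, hg, rfl⟩
    -- choose representatives
    have hc : ∀ x : Ω, ∃ c : G, c • o = x := fun x => MulAction.exists_smul_eq G o x
    choose c hc using hc
    let s : Ω → Ω := fun x => (α (c x)) • ω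
    have hs : ∀ g : G, s (g • o) = (α g) • ω := by
      intro g
      have h1 : (g⁻¹ * c (g • o)) • o = o := by
        rw [mul_smul, hc, inv_smul_smul]
      have h2 := hαfix _ h1
      rw [map_mul, mul_smul, map_inv, inv_smul_eq_iff] at h2
      exact h2
    have hsurj : Function.Surjective s := by
      intro y
      obtain ⟨g, hg⟩ := MulAction.exists_smul_eq G ω y
      refine ⟨(α.symm g) • o, ?_⟩
      rw [hs]
      simpa using hg
    have hbij : Function.Bijective s := ⟨Finite.injective_iff_surjective.mpr hsurj, hsurj⟩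
    let σ : Equiv.Perm Ω := Equiv.ofBijective s hbij
    have hσs : ∀ x, σ x = s x := fun _ => rfl
    have hconj : ∀ g : G, ((α g : G) : Equiv.Perm Ω) = σ * (g : Equiv.Perm Ω) * σ⁻¹ := by
      intro g
      rw [eq_mul_inv_iff_mul_eq]
      ext x
      obtain ⟨k, rfl⟩ := MulAction.exists_smul_eq G o x
      show ((α g : G) : Equiv.Perm Ω) (σ (k • o)) = σ ((g : Equiv.Perm Ω) (k • o))
      have h1 : (g : Equiv.Perm Ω) (k • o) = (g * k) • o := by
        rw [mul_smul]; rfl
      rw [h1, hσs, hσs, hs, hs, map_mul, mul_smul]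
      rfl
    refine ⟨σ, ?_, hconj⟩
    rw [Subgroup.mem_normalizer_iff]
    intro τ
    constructor
    · intro hτ
      have := hconj ⟨τ, hτ⟩
      simp only at this
      rw [← this]
      exact (α ⟨τ, hτ⟩).2
    · intro hτ
      set g := α.symm ⟨σ * τ * σ⁻¹, hτ⟩ with hg
      have h1 := hconj g
      rw [hg, MulEquiv.apply_symm_apply, ← hg] at h1
      simp only at h1
      have h2 : τ = (g : Equiv.Perm Ω) := by
        have h3 : σ * τ * σ⁻¹ = σ * (g : Equiv.Perm Ω) * σ⁻¹ := h1
        have h4 := mul_right_cancel h3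
        exact mul_left_cancel h4
      rw [h2]
      exact g.2

end Cfsg.Agent.S4275
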