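import Cfsg.Statements.S4276
import Mathlib
-- import your own Cfsg.Agent.* helpers here

set_option autoImplicit false
open Cfsg

namespace Cfsg.Agent.S4276

/-- `c ^ m` a square with `m` odd and `c > 0` forces `c` square. -/
theorem exists_sq_of_pow_odd (c a : ℤ) (m : ℕ) (hc : 0 < c) (hm : Odd m) (h : a ^ 2 = c ^ m) :
    ∃ s : ℤ, 0 < s ∧ c = s ^ 2 := by
  obtain ⟨j, rfl⟩ := hm
  have hne : c ^ j ≠ 0 := (pow_pos hc j).ne'
  have hdvd : (c ^ j) ^ 2 ∣ a ^ 2 := by
    rw [h]; exact ⟨c, by ring⟩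
  have hdvd' : c ^ j ∣ a := (Int.pow_dvd_pow_iff (by norm_num)).1 hdvd
  obtain ⟨s, rfl⟩ := hdvd'
  have hs2 : c = s ^ 2 := by
    have h' : (c ^ j) ^ 2 * s ^ 2 = (c ^ j) ^ 2 * c := by
      rw [← mul_pow, h]; ring
    exact (mul_left_cancel₀ (pow_ne_zero 2 hne) h').symm
  rcases lt_trichotomy s 0 with hs | hs | hs
  · exact ⟨-s, by omega, by rw [hs2]; ring⟩
  · subst hs; rw [hs2] at hc; simp at hc
  · exact ⟨s, hs, hs2⟩

/-- Arithmetic core: the design parameters force `k = 1` or `k = n - 1`. -/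
theorem arith_core (n k l a b : ℤ) (m : ℕ) (hk1 : 1 ≤ k) (hkn : k < n) (hm : Odd m)
    (hl : l * (n - 1) = k * (k - 1)) (ha : a ^ 2 = (k - l) ^ m)
    (hb : a + b * n = k ^ m) (hcop : IsCoprime k n) : k = 1 ∨ k = n - 1 := by
  have hn1 : 0 < n - 1 := by omega
  have hl0 : 0 ≤ l := by
    by_contra hneg
    push Not at hneg
    have h1 : l * (n - 1) < 0 := mul_neg_of_neg_of_pos hneg hn1
    have h2 : 0 ≤ k * (k - 1) := mul_nonneg (by omega) (by omega)
    omega
  have hc_eq : (k - l) * (n - 1) = k * (n - k) := by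
    have : (k - l) * (n - 1) = k * (n - 1) - l * (n - 1) := by ring
    rw [this, hl]; ring
  have hc : 0 < k - l := by
    have h1 : 0 < k * (n - k) := mul_pos (by omega) (by omega)
    rw [← hc_eq] at h1
    exact (mul_pos_iff_of_pos_right hn1).1 h1
  obtain ⟨s, hs0, hs⟩ := exists_sq_of_pow_odd (k - l) a m hc hm ha
  -- congruence c ≡ k² mod n
  have hcong : n ∣ s ^ 2 - k ^ 2 := by
    refine ⟨-l, ?_⟩
    have : s ^ 2 = k - l := hs.symm
    have h2 : l * n - l = k ^ 2 - k := by linarith [hl]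
    rw [this]; linear_combination h2
  have hcopk2 : IsCoprime (k ^ 2) n := hcop.pow_left
  -- a = ± s^m
  have ha2 : a ^ 2 = (s ^ m) ^ 2 := by
    rw [ha, hs, ← pow_mul, ← pow_mul, mul_comm]
  obtain ⟨j, rfl⟩ := hm
  -- powers congruence
  have hpow : n ∣ (s ^ 2) ^ j - (k ^ 2) ^ j := by
    exact hcong.trans (sub_dvd_pow_sub_pow (s ^ 2) (k ^ 2) j)
  have hs_le : s ≤ k - l := by
    rw [hs]; nlinarith
  have hsk : s ≤ k := by omega
  rcases sq_eq_sq_iff_eq_or_eq_neg.1 ha2 with hA | hA
  · -- a = s^m: k ≡ s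
    left
    have hd : n ∣ k ^ (2 * j + 1) - s ^ (2 * j + 1) := by
      have : k ^ (2 * j + 1) - s ^ (2 * j + 1) = b * n := by
        rw [← hb, hA]; ring
      rw [this]; exact dvd_mul_left _ _
    have hd2 : n ∣ (k ^ 2) ^ j * (k - s) := by
      have e : (k ^ 2) ^ j * (k - s) =
          (k ^ (2 * j + 1) - s ^ (2 * j + 1)) + s * ((s ^ 2) ^ j - (k ^ 2) ^ j) := by
        ring
      rw [e]; exact dvd_add hd (Dvd.dvd.mul_left hpow _)
    have hd3 : n ∣ k - s := (hcopk2.pow_left.symm).dvd_of_dvd_mul_left hd2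
    have hzero : k - s = 0 := by
      apply Int.eq_zero_of_abs_lt_dvd hd3
      rw [abs_lt]; constructor <;> omega
    have hks : k = s := by omega
    subst hks
    have : k ^ 2 ≤ k := by rw [← hs]; omega
    nlinarith
  · -- a = -s^m: k ≡ -s
    right
    have hd : n ∣ k ^ (2 * j + 1) + s ^ (2 * j + 1) := by
      have : k ^ (2 * j + 1) + s ^ (2 * j + 1) = b * n := by
        rw [← hb, hA]; ring
      rw [this]; exact dvd_mul_left _ _
    have hd2 : n ∣ (k ^ 2) ^ j * (k + s) := by
      have e : (k ^ 2) ^ j * (k + s) =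
          (k ^ (2 * j + 1) + s ^ (2 * j + 1)) - s * ((s ^ 2) ^ j - (k ^ 2) ^ j) := by
        ring
      rw [e]; exact dvd_sub hd (Dvd.dvd.mul_left hpow _)
    have hd3 : n ∣ k + s := (hcopk2.pow_left.symm).dvd_of_dvd_mul_left hd2
    obtain ⟨t, ht⟩ := hd3
    have hn0 : 0 < n := by omega
    have ht1 : t = 1 := by
      have h1 : 0 < n * t := by rw [← ht]; omega
      have h2 : n * t < n * 2 := by rw [← ht]; omega
      have h3 : 0 < t := (mul_pos_iff_of_pos_left hn0).1 h1
      have h4 : t < 2 := lt_of_mul_lt_mul_left h2 hn0.le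
      omega
    subst ht1
    have hn : n = k + s := by linarith
    -- s² (n-1) = k s
    have h5 : s ^ 2 * (n - 1) = k * s := by
      rw [← hs, hc_eq, hn]; ring
    have h6 : s * (n - 1) = k := by
      have : s * (s * (n - 1)) = s * k := by linear_combination h5
      exact mul_left_cancel₀ hs0.ne' this
    have h7 : s * n = n := by rw [hn] at h6 ⊢; nlinarith
    have h8 : s = 1 := by
      have : (s - 1) * n = 0 := by linarith
      rcases mul_eq_zero.1 this with h | h <;> omega
    omega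


open Matrix in
/-- Design-theoretic core: an incidence matrix equivariant under `α`, of an odd order automorphism
of a doubly transitive group, has block size `1` or `n - 1` when the block size is coprime to `n`. -/
theorem design_core {G Ω : Type*} [Group G] [Fintype Ω] [DecidableEq Ω] [MulAction G Ω]
    (α : G ≃* G) (m : ℕ) (hm : Odd m) (hαm : ∀ g : G, (α^[m]) g = g)
    (h2 : ∀ {a b c d : Ω}, a ≠ b → c ≠ d → ∃ g : G, g • a = c ∧ g • b = d)
    (htrans : ∀ a b : Ω, ∃ g : G, g • a = b)
    (y0 z0 : Ω) (hyz : y0 ≠ z0)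
    (A : Matrix Ω Ω ℤ) (h01 : ∀ y x, A y x = 0 ∨ A y x = 1)
    (hinv : ∀ (g : G) y x, A (α g • y) (g • x) = A y x) (k : ℤ) (o : Ω)
    (hcol : ∑ y, A y o = k)
    (hk1 : 1 ≤ k) (hkn : k < (Fintype.card Ω : ℤ)) (hcop : IsCoprime k (Fintype.card Ω : ℤ)) :
    k = 1 ∨ k = (Fintype.card Ω : ℤ) - 1 := by
  classical
  set n : ℤ := (Fintype.card Ω : ℤ) with hn
  have hnpos : 0 < n := by omega
  -- column sums
  have hcolall : ∀ x, ∑ y, A y x = k := by
    intro x
    obtain ⟨g, rfl⟩ := htrans o x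
    rw [← hcol, ← Equiv.sum_comp (MulAction.toPerm (α g))]
    exact Finset.sum_congr rfl fun y _ => hinv g y o
  -- row sums are invariant
  have hrowinv : ∀ (g : G) y, ∑ x, A (α g • y) x = ∑ x, A y x := by
    intro g y
    rw [← Equiv.sum_comp (MulAction.toPerm g)]
    exact Finset.sum_congr rfl fun x _ => hinv g y x
  have hrowconst : ∀ y y', ∑ x, A y x = ∑ x, A y' x := by
    intro y y'
    obtain ⟨h, rfl⟩ := htrans y y'
    have := hrowinv (α.symm h) y
    simpa using this.symm
  have hrow : ∀ y, ∑ x, A y x = k := by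
    intro y
    have h1 : ∑ y', ∑ x, A y' x = ∑ _y' : Ω, ∑ x, A y x :=
      Finset.sum_congr rfl fun y' _ => hrowconst y' y
    have h3 : ∑ y', ∑ x, A y' x = ∑ x, ∑ y', A y' x := Finset.sum_comm
    have h4 : ∑ x, ∑ y', A y' x = n * k := by
      rw [Finset.sum_congr rfl fun x _ => hcolall x]
      simp [hn]
    have h5 : ∑ _y' : Ω, ∑ x, A y x = n * ∑ x, A y x := by simp [hn]
    have h6 : n * ∑ x, A y x = n * k := by rw [← h5, ← h1, h3, h4]
    exact mul_left_cancel₀ hnpos.ne' h6
  -- powers are twisted-invariant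
  have hpowinv : ∀ (i : ℕ) (g : G) y z, (A ^ i) ((α^[i] g) • y) (g • z) = (A ^ i) y z := by
    intro i
    induction i with
    | zero =>
      intro g y z
      simp only [pow_zero, Function.iterate_zero, id_eq, Matrix.one_apply]
      by_cases h : y = z
      · simp [h]
      · have : g • y ≠ g • z := fun e => h (MulAction.injective g e)
        simp [h, this]
    | succ i ih =>
      intro g y z
      rw [pow_succ, Matrix.mul_apply, Matrix.mul_apply,
        ← Equiv.sum_comp (MulAction.toPerm (α g))]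
      refine Finset.sum_congr rfl fun w _ => ?_
      simp only [MulAction.toPerm_apply]
      rw [hinv g w z, Function.iterate_succ_apply, ih (α g) y w]
  -- row sums of powers
  have hpowrow : ∀ (i : ℕ) y, ∑ z, (A ^ i) y z = k ^ i := by
    intro i
    induction i with
    | zero =>
      intro y
      simp [Matrix.one_apply]
    | succ i ih =>
      intro y
      calc ∑ z, (A ^ (i + 1)) y z = ∑ z, ∑ w, (A ^ i) y w * A w z := by
            simp only [pow_succ, Matrix.mul_apply]
        _ = ∑ w, ∑ z, (A ^ i) y w * A w z := Finset.sum_comm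
        _ = ∑ w, (A ^ i) y w * k := by
            refine Finset.sum_congr rfl fun w _ => ?_
            rw [← Finset.mul_sum, hrow w]
        _ = k ^ (i + 1) := by rw [← Finset.sum_mul, ih y, pow_succ]
  -- the matrix J
  let J : Matrix Ω Ω ℤ := Matrix.of fun _ _ => 1
  have hJ : ∀ y z, J y z = 1 := fun _ _ => rfl
  have hAJ : A * J = k • J := by
    ext y z
    simp only [Matrix.mul_apply, hJ, mul_one, hrow y, Matrix.smul_apply, smul_eq_mul]
  have hJAT : J * Aᵀ = k • J := by
    ext y z
    simp only [Matrix.mul_apply, hJ, one_mul, Matrix.transpose_apply, hrow z, Matrix.smul_apply,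
      smul_eq_mul, mul_one]
  have hJJ : J * J = n • J := by
    ext y z
    simp [Matrix.mul_apply, hJ, hn]
  -- the matrix C = A Aᵀ
  set C : Matrix Ω Ω ℤ := A * Aᵀ with hC
  have hCapply : ∀ y z, C y z = ∑ x, A y x * A z x := fun y z => by
    simp [hC, Matrix.mul_apply]
  have hCinv : ∀ (h : G) y z, C (h • y) (h • z) = C y z := by
    intro h y z
    obtain ⟨g, rfl⟩ : ∃ g, h = α g := ⟨α.symm h, by simp⟩
    rw [hCapply, hCapply, ← Equiv.sum_comp (MulAction.toPerm g)]
    refine Finset.sum_congr rfl fun x _ => ?_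
    simp only [MulAction.toPerm_apply]
    rw [hinv, hinv]
  have hCdiag : ∀ y, C y y = k := by
    intro y
    rw [hCapply, ← hrow y]
    refine Finset.sum_congr rfl fun x _ => ?_
    rcases h01 y x with h | h <;> simp [h]
  set l : ℤ := C y0 z0 with hl
  have hCoff : ∀ y z, y ≠ z → C y z = l := by
    intro y z hne
    obtain ⟨g, rfl, rfl⟩ := h2 hyz hne
    exact hCinv g y0 z0
  have hCform : C = (k - l) • (1 : Matrix Ω Ω ℤ) + l • J := by
    ext y z
    simp only [Matrix.add_apply, Matrix.smul_apply, smul_eq_mul, Matrix.one_apply, hJ, mul_one]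
    by_cases h : y = z
    · subst h; simp [hCdiag]
    · simp [h, hCoff y z h]
  have hCsum : ∀ y, ∑ z, C y z = k * k := by
    intro y
    calc ∑ z, C y z = ∑ z, ∑ x, A y x * A z x := by simp only [hCapply]
      _ = ∑ x, ∑ z, A y x * A z x := Finset.sum_comm
      _ = ∑ x, A y x * k := by
          refine Finset.sum_congr rfl fun x _ => ?_
          rw [← Finset.mul_sum, hcolall x]
      _ = k * k := by rw [← Finset.sum_mul, hrow y]
  have hleq : l * (n - 1) = k * (k - 1) := by
    have h1 := hCsum y0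
    rw [hCform] at h1
    simp only [Matrix.add_apply, Matrix.smul_apply, smul_eq_mul, Matrix.one_apply, hJ, mul_one,
      Finset.sum_add_distrib, ← Finset.mul_sum] at h1
    simp at h1
    linear_combination h1
  -- the powers of A times the powers of Aᵀ
  set c : ℤ := k - l with hc
  have hprod : ∀ i : ℕ, ∃ μ : ℤ, A ^ i * Aᵀ ^ i = c ^ i • (1 : Matrix Ω Ω ℤ) + μ • J := by
    intro i
    induction i with
    | zero => exact ⟨0, by simp⟩
    | succ i ih =>
      obtain ⟨μ, hμ⟩ := ih
      refine ⟨c ^ i * l + μ * (k * k), ?_⟩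
      have e1 : A ^ (i + 1) * Aᵀ ^ (i + 1) = A * (A ^ i * Aᵀ ^ i) * Aᵀ := by
        rw [pow_succ' A, pow_succ Aᵀ]; simp only [Matrix.mul_assoc]
      rw [e1, hμ]
      have e2 : A * (c ^ i • (1 : Matrix Ω Ω ℤ) + μ • J) * Aᵀ =
          c ^ i • (A * Aᵀ) + μ • (A * J * Aᵀ) := by
        simp only [Matrix.mul_add, Matrix.add_mul, Matrix.mul_smul, Matrix.smul_mul, Matrix.mul_one]
      rw [e2, ← hC, hCform, hAJ, Matrix.smul_mul, hJAT, pow_succ]
      simp only [smul_add, smul_smul]
      rw [add_assoc, ← add_smul]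
  -- P
  set P : Matrix Ω Ω ℤ := A ^ m with hP
  have hPinv : ∀ (g : G) y z, P (g • y) (g • z) = P y z := by
    intro g y z
    have := hpowinv m g y z
    rwa [hαm g] at this
  set b0 : ℤ := P y0 z0 with hb0
  set a0 : ℤ := P y0 y0 with ha0
  have hPdiag : ∀ y, P y y = a0 := by
    intro y
    obtain ⟨g, rfl⟩ := htrans y0 y
    exact hPinv g y0 y0
  have hPoff : ∀ y z, y ≠ z → P y z = b0 := by
    intro y z hne
    obtain ⟨g, rfl, rfl⟩ := h2 hyz hne
    exact hPinv g y0 z0
  have hPform : P = (a0 - b0) • (1 : Matrix Ω Ω ℤ) + b0 • J := by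
    ext y z
    simp only [Matrix.add_apply, Matrix.smul_apply, smul_eq_mul, Matrix.one_apply, hJ, mul_one]
    by_cases h : y = z
    · subst h; simp [hPdiag]
    · simp [h, hPoff y z h]
  have hPT : Pᵀ = P := by
    rw [hPform]
    ext y z
    simp only [Matrix.transpose_apply, Matrix.add_apply, Matrix.smul_apply, smul_eq_mul,
      Matrix.one_apply, hJ, mul_one]
    simp only [eq_comm]
  obtain ⟨μ, hμ⟩ := hprod m
  have hPP : P * P = (a0 - b0) ^ 2 • (1 : Matrix Ω Ω ℤ) + (2 * (a0 - b0) * b0 + b0 ^ 2 * n) • J := by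
    conv_lhs => rw [hPform]
    simp only [Matrix.mul_add, Matrix.add_mul, Matrix.mul_smul, Matrix.smul_mul, Matrix.mul_one,
      Matrix.one_mul, hJJ, smul_add, smul_smul]
    rw [add_assoc, ← add_assoc (_ • J), ← add_smul, ← add_smul]
    congr 2
    · ring
    · ring
  have hμ' : P * P = c ^ m • (1 : Matrix Ω Ω ℤ) + μ • J := by
    have : P * Pᵀ = A ^ m * Aᵀ ^ m := by
      rw [Matrix.transpose_pow]
    rw [hPT] at this
    rw [this, hμ]
  have hsq : (a0 - b0) ^ 2 = c ^ m := by
    have hE : (a0 - b0) ^ 2 • (1 : Matrix Ω Ω ℤ) + (2 * (a0 - b0) * b0 + b0 ^ 2 * n) • J =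
        c ^ m • (1 : Matrix Ω Ω ℤ) + μ • J := by rw [← hPP, hμ']
    have h1 := congrFun (congrFun hE y0) y0
    have h2' := congrFun (congrFun hE y0) z0
    simp only [Matrix.add_apply, Matrix.smul_apply, smul_eq_mul, Matrix.one_apply, hJ, mul_one,
      if_true, if_neg hyz, mul_zero, zero_add] at h1 h2'
    linarith
  have hsum : (a0 - b0) + b0 * n = k ^ m := by
    have h1 := hpowrow m y0
    rw [← hP, hPform] at h1
    simp only [Matrix.add_apply, Matrix.smul_apply, smul_eq_mul, Matrix.one_apply, hJ, mul_one,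
      Finset.sum_add_distrib, ← Finset.mul_sum] at h1
    simpa [hn, mul_comm] using h1
  exact arith_core n k l (a0 - b0) b0 m hk1 hkn hm hleq hsq hsum hcop

theorem result {Ω : Type*} [Fintype Ω] (G : Subgroup (Equiv.Perm Ω)) (h2 : MulAction.IsMultiplyPretransitive G Ω 2) (o : Ω) (α : MulAut G) (hα : Odd (orderOf α)) (ω : Ω) (hk : (Nat.card (MulAction.orbit ((MulAction.stabilizer G o).map α.toMonoidHom) ω)).Coprime (Fintype.card Ω)) : (∃ σ : Equiv.Perm Ω, σ ∈ Subgroup.normalizer (G : Set (Equiv.Perm Ω)) ∧ ∀ g : G, ((α g : G) : Equiv.Perm Ω) = σ * (g : Equiv.Perm Ω) * σ⁻¹) ∧ (Nat.card (MulAction.orbit ((MulAction.stabilizer G o).map α.toMonoidHom) ω) = 1 ∨ Nat.card (MulAction.orbit ((MulAction.stabilizer G o).map α.toMonoidHom) ω) = Fintype.card Ω - 1) := by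
  classical
  set H' := (MulAction.stabilizer G o).map α.toMonoidHom with hH'
  set B : Set Ω := MulAction.orbit H' ω with hB
  set k : ℕ := Nat.card B with hkdef
  have h2' : ∀ {a b c d : Ω}, a ≠ b → c ≠ d → ∃ g : G, g • a = c ∧ g • b = d :=
    MulAction.is_two_pretransitive_iff.1 h2
  have htrans : ∀ a b : Ω, ∃ g : G, g • a = b := by
    intro a b
    by_cases h : a = b
    · exact ⟨1, by simp [h]⟩
    · obtain ⟨g, hg, _⟩ := h2' h (Ne.symm h)
      exact ⟨g, hg⟩
  have hmemB : ∀ y, y ∈ B ↔ ∃ g : G, α g • ω = y ∧ g • o = o := by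
    intro y
    simp only [hB, MulAction.mem_orbit_iff]
    constructor
    · rintro ⟨⟨h, hh⟩, rfl⟩
      obtain ⟨g, hg, rfl⟩ := Subgroup.mem_map.1 hh
      exact ⟨g, rfl, hg⟩
    · rintro ⟨g, rfl, hg⟩
      exact ⟨⟨α g, Subgroup.mem_map.2 ⟨g, hg, rfl⟩⟩, rfl⟩
  have hωB : ω ∈ B := MulAction.mem_orbit_self ω
  have hk1 : 1 ≤ k := by
    have : 0 < Nat.card B := Nat.card_pos_iff.2 ⟨⟨ω, hωB⟩, inferInstance⟩
    exact this
  -- an element of `B` moved by the stabilizer image stays in `B`
  have hBmem : ∀ g : G, g • o = o → ∀ y ∈ B, α g • y ∈ B := by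
    intro g hg y hy
    obtain ⟨g', rfl, hg'⟩ := (hmemB y).1 hy
    refine (hmemB _).2 ⟨g * g', ?_, ?_⟩
    · rw [map_mul, mul_smul]
    · rw [mul_smul, hg', hg]
  -- the conclusion, given a point fixed by the image of the stabilizer
  have key : ∀ w : Ω, (∀ g : G, g • o = o → α g • w = w) →
      ∃ σ : Equiv.Perm Ω, σ ∈ Subgroup.normalizer (G : Set (Equiv.Perm Ω)) ∧
        ∀ g : G, ((α g : G) : Equiv.Perm Ω) = σ * (g : Equiv.Perm Ω) * σ⁻¹ := by
    intro w hw
    choose c hc using htrans o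
    let f : Ω → Ω := fun x => α (c x) • w
    have hf : ∀ g : G, f (g • o) = α g • w := by
      intro g
      have h1 : (g⁻¹ * c (g • o)) • o = o := by
        rw [mul_smul, hc, inv_smul_smul]
      have h2 := hw _ h1
      rw [map_mul, mul_smul, map_inv, inv_smul_eq_iff] at h2
      exact h2
    have hsurj : Function.Surjective f := by
      intro y
      obtain ⟨h, rfl⟩ := htrans w y
      refine ⟨(α.symm h) • o, ?_⟩
      rw [hf]; simp
    have hbij : Function.Bijective f := ⟨Finite.injective_iff_surjective.2 hsurj, hsurj⟩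
    let σ : Equiv.Perm Ω := Equiv.ofBijective f hbij
    have hσ : ∀ (g : G) x, σ (g • x) = α g • σ x := by
      intro g x
      obtain ⟨h, rfl⟩ := htrans o x
      change f _ = α g • f _
      rw [← mul_smul, hf, hf, map_mul, mul_smul]
    have hconj : ∀ g : G, ((α g : G) : Equiv.Perm Ω) = σ * (g : Equiv.Perm Ω) * σ⁻¹ := by
      intro g
      ext y
      have h1 := hσ g (σ⁻¹ y)
      have h2 : σ (σ⁻¹ y) = y := by simp
      rw [h2] at h1
      exact h1.symm
    refine ⟨σ, ?_, hconj⟩
    rw [Subgroup.mem_set_normalizer_iff]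
    intro h
    constructor
    · intro hh
      have := hconj ⟨h, hh⟩
      change ((α ⟨h, hh⟩ : G) : Equiv.Perm Ω) = σ * h * σ⁻¹ at this
      rw [← this]
      exact (α ⟨h, hh⟩).2
    · intro hh
      have h3 := hconj (α.symm ⟨σ * h * σ⁻¹, hh⟩)
      simp only [MulEquiv.apply_symm_apply] at h3
      have h4 : h = ((α.symm ⟨σ * h * σ⁻¹, hh⟩ : G) : Equiv.Perm Ω) := by
        have h5 := mul_left_cancel (mul_right_cancel h3)
        exact h5
      rw [h4]
      exact (α.symm ⟨σ * h * σ⁻¹, hh⟩).2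
  by_cases hsub : ∃ y0 z0 : Ω, y0 ≠ z0
  · obtain ⟨y0, z0, hyz⟩ := hsub
    have hn2 : 2 ≤ Fintype.card Ω := by
      have : 1 < Fintype.card Ω := Fintype.one_lt_card_iff.2 ⟨y0, z0, hyz⟩
      exact this
    -- the incidence matrix
    let R : Ω → Ω → Prop := fun y x => ∃ g : G, α g • ω = y ∧ g • o = x
    let A : Matrix Ω Ω ℤ := Matrix.of fun y x => if R y x then 1 else 0
    have hRinv : ∀ (g : G) y x, R (α g • y) (g • x) ↔ R y x := by
      intro g y x
      constructor
      · rintro ⟨g', h1, h3⟩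
        refine ⟨g⁻¹ * g', ?_, ?_⟩
        · rw [map_mul, mul_smul, map_inv, inv_smul_eq_iff, h1]
        · rw [mul_smul, inv_smul_eq_iff, h3]
      · rintro ⟨g', rfl, rfl⟩
        exact ⟨g * g', by rw [map_mul, mul_smul], by rw [mul_smul]⟩
    have h01 : ∀ y x, A y x = 0 ∨ A y x = 1 := by
      intro y x
      by_cases h : R y x
      · right; simp [A, h]
      · left; simp [A, h]
    have hinv : ∀ (g : G) y x, A (α g • y) (g • x) = A y x := by
      intro g y x
      simp only [A, Matrix.of_apply, hRinv]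
    have hcol : ∑ y, A y o = (k : ℤ) := by
      have h1 : ∑ y, A y o = ((Finset.univ.filter fun y => R y o).card : ℤ) := by
        simp only [A, Matrix.of_apply]
        rw [Finset.sum_boole]
      rw [h1]
      congr 1
      have h3 : k = Nat.card {y // y ∈ B} := rfl
      rw [h3]
      symm
      apply Nat.subtype_card
      intro y
      simp only [Finset.mem_filter, Finset.mem_univ, true_and]
      rw [hmemB]
    have hkle : k ≤ Fintype.card Ω := by
      rw [hkdef, Nat.card_eq_fintype_card]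
      exact Fintype.card_subtype_le _
    have hkne : k ≠ Fintype.card Ω := by
      intro h
      rw [h, Nat.coprime_self] at hk
      omega
    have hklt : k < Fintype.card Ω := lt_of_le_of_ne hkle hkne
    let m := orderOf α
    have hpow : ∀ (i : ℕ) (g : G), (α ^ i) g = (α^[i]) g := by
      intro i g
      induction i with
      | zero => simp
      | succ i ih =>
        rw [pow_succ', MulAut.mul_apply, ih, Function.iterate_succ_apply']
    have hαm : ∀ g : G, (α^[m]) g = g := by
      intro g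
      rw [← hpow, pow_orderOf_eq_one]
      rfl
    have hcop : IsCoprime (k : ℤ) (Fintype.card Ω : ℤ) := Nat.isCoprime_iff_coprime.2 hk
    have hcase := design_core (G := G) (Ω := Ω) α m hα hαm h2' htrans y0 z0 hyz A h01 hinv (k : ℤ) o
      hcol (by exact_mod_cast hk1) (by exact_mod_cast hklt) hcop
    have hcase' : k = 1 ∨ k = Fintype.card Ω - 1 := by omega
    refine ⟨?_, hcase'⟩
    rcases hcase' with h1 | h1
    · -- `B` is a point
      have hsing : ∀ y ∈ B, y = ω := by
        intro y hy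
        have : Subsingleton B := (Nat.card_eq_one_iff_unique.1 h1).1
        have := Subsingleton.elim (⟨y, hy⟩ : B) ⟨ω, hωB⟩
        exact congrArg Subtype.val this
      exact key ω fun g hg => hsing _ (hBmem g hg ω hωB)
    · -- complement of `B` is a point
      have hcompl : Nat.card {y // y ∉ B} = 1 := by
        have h3 : Nat.card {y // y ∉ B} = Fintype.card Ω - k := by
          rw [Nat.card_eq_fintype_card, hkdef, Nat.card_eq_fintype_card]
          exact Fintype.card_subtype_compl _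
        omega
      obtain ⟨hsubs, ⟨⟨w, hw⟩⟩⟩ := Nat.card_eq_one_iff_unique.1 hcompl
      refine key w fun g hg => ?_
      have hw' : α g • w ∉ B := by
        intro hmem
        apply hw
        have := hBmem g⁻¹ (by rw [inv_smul_eq_iff, hg]) _ hmem
        rwa [map_inv, inv_smul_smul] at this
      exact congrArg Subtype.val (Subsingleton.elim (⟨α g • w, hw'⟩ : {y // y ∉ B}) ⟨w, hw⟩)
  · push Not at hsub
    have hk1' : k = 1 := by
      have h3 : Subsingleton B := ⟨fun a b => Subtype.ext (hsub _ _)⟩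
      exact Nat.card_eq_one_iff_unique.2 ⟨h3, ⟨⟨ω, hωB⟩⟩⟩
    exact ⟨key ω fun g _ => hsub _ _, Or.inl hk1'⟩

end Cfsg.Agent.S4276
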