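import Cfsg.Statements.S4277
import Mathlib
import Cfsg.Agent.S0675
import Cfsg.Agent.Lib.Basic.SylowCount

set_option autoImplicit false
set_option linter.style.haveILetI false
set_option linter.unusedSectionVars false
set_option linter.unusedVariables false
open Cfsg
open scoped Nat

namespace Cfsg.Agent.S4277

section Chain

open Finset

/-- The group algebra computation: a family of permutations intertwined along a circulant relation. -/
theorem chain_core {K Γ : Type*} [CommGroup K] [Fintype K] {l : ℕ} [hl : Fact l.Prime]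
    (hinj : Function.Injective fun t : K => t ^ l)
    (π : ℕ → Γ → Equiv.Perm K) (D : Set K)
    (hrel : ∀ n g a b, (a⁻¹ * b ∈ D) ↔ ((π n g a)⁻¹ * π (n + 1) g b ∈ D))
    (hper : π l = π 0)
    (h2 : ∀ z z' : K, z ≠ 1 → z' ≠ 1 → ∃ g, π 0 g 1 = 1 ∧ π 0 g z = z')
    (h1 : (1 : K) ∈ D) : (∀ z ∈ D, z = 1) ∨ ∀ z, z ∈ D := by
  classical
  let A : MonoidAlgebra (ZMod l) K := ∑ t ∈ univ.filter (· ∈ D), MonoidAlgebra.single t 1
  have hAc : ∀ x, A.coeff x = if x ∈ D then 1 else 0 := by
    intro x
    simp only [A, MonoidAlgebra.coeff_sum, Finsupp.coe_finsetSum, Finset.sum_apply,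
      MonoidAlgebra.coeff_single, Finsupp.single_apply]
    simp [Finset.sum_ite_eq']
  have hinv : ∀ n g a b, (A ^ n).coeff (a⁻¹ * b) = (A ^ n).coeff ((π 0 g a)⁻¹ * π n g b) := by
    intro n
    induction n with
    | zero =>
      intro g a b
      simp only [pow_zero, MonoidAlgebra.one_def, MonoidAlgebra.coeff_single, Finsupp.single_apply]
      have : ((1 : K) = a⁻¹ * b) ↔ (1 = (π 0 g a)⁻¹ * π 0 g b) := by
        rw [eq_comm, inv_mul_eq_one, eq_comm (a := (1 : K)), inv_mul_eq_one]
        exact ⟨fun h => by rw [h], fun h => (π 0 g).injective h⟩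
      simp only [this]
    | succ n ih =>
      intro g a b
      rw [pow_succ, MonoidAlgebra.coeff_mul_apply_left, MonoidAlgebra.coeff_mul_apply_left,
        Finsupp.sum_fintype _ _ (fun _ => zero_mul _), Finsupp.sum_fintype _ _ (fun _ => zero_mul _)]
      let e : K ≃ K := (Equiv.mulLeft a).trans ((π n g).trans (Equiv.mulLeft (π 0 g a)⁻¹))
      refine Fintype.sum_equiv e _ _ ?_
      intro c
      have he : e c = (π 0 g a)⁻¹ * π n g (a * c) := rfl
      have h3 := ih g a (a * c)
      rw [inv_mul_cancel_left] at h3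
      rw [h3, he]
      congr 1
      simp only [hAc]
      have h4 := hrel n g (a * c) b
      have e1 : c⁻¹ * (a⁻¹ * b) = (a * c)⁻¹ * b := by
        rw [mul_inv_rev, mul_assoc]
      have e2 : ((π 0 g a)⁻¹ * π n g (a * c))⁻¹ * ((π 0 g a)⁻¹ * π (n + 1) g b)
          = (π n g (a * c))⁻¹ * π (n + 1) g b := by
        rw [mul_inv_rev, inv_inv, mul_assoc, mul_inv_cancel_left]
      rw [e1, e2]
      simp only [h4]
  have : CharP (MonoidAlgebra (ZMod l) K) l :=
    charP_of_injective_ringHom (f := MonoidAlgebra.singleOneRingHom)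
      (fun a b hab => by
        have := congrArg (fun z => MonoidAlgebra.coeff z 1) hab
        simpa [MonoidAlgebra.singleOneRingHom] using this) l
  have hP : A ^ l = ∑ t ∈ univ.filter (· ∈ D), MonoidAlgebra.single (t ^ l) 1 := by
    simp only [A]
    rw [sum_pow_char]
    simp [MonoidAlgebra.single_pow]
  have hPc : ∀ x, (A ^ l).coeff x = (((univ.filter fun t => t ∈ D ∧ t ^ l = x).card : ℕ) : ZMod l) := by
    intro x
    rw [hP]
    simp only [MonoidAlgebra.coeff_sum, Finsupp.coe_finsetSum, Finset.sum_apply,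
      MonoidAlgebra.coeff_single, Finsupp.single_apply]
    rw [Finset.sum_ite, Finset.sum_const_zero, add_zero, Finset.sum_const, nsmul_eq_mul, mul_one,
      Finset.filter_filter]
  have hconst : ∀ z z' : K, z ≠ 1 → z' ≠ 1 → (A ^ l).coeff z = (A ^ l).coeff z' := by
    intro z z' hz hz'
    obtain ⟨g, hg1, hg2⟩ := h2 z z' hz hz'
    have := hinv l g 1 z
    rw [hper, inv_one, one_mul, hg1, inv_one, one_mul, hg2] at this
    exact this
  by_contra hcon
  push Not at hcon
  obtain ⟨⟨d, hd, hd1⟩, u, hu⟩ := hcon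
  have hu1 : u ≠ 1 := fun h => hu (h ▸ h1)
  have hz : d ^ l ≠ 1 := fun h => hd1 (hinj (by simpa using h))
  have hz' : u ^ l ≠ 1 := fun h => hu1 (hinj (by simpa using h))
  have hk := hconst _ _ hz hz'
  rw [hPc, hPc] at hk
  have c1 : (univ.filter fun t => t ∈ D ∧ t ^ l = d ^ l) = {d} := by
    ext t
    simp only [mem_filter, mem_univ, true_and, mem_singleton]
    exact ⟨fun h => hinj h.2, fun h => by rw [h]; exact ⟨hd, rfl⟩⟩
  have c2 : (univ.filter fun t => t ∈ D ∧ t ^ l = u ^ l) = ∅ := by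
    ext t
    simp only [mem_filter, mem_univ, true_and, notMem_empty, iff_false]
    rintro ⟨h5, h6⟩
    exact hu (hinj h6 ▸ h5)
  rw [c1, c2] at hk
  simp at hk

end Chain

section Act

variable {G K : Type*} [Group G] [CommGroup K] {ι : K →* G} {H : Subgroup G}

local notation "oo" => ((1 : G) : G ⧸ H)

/-- Coordinates on the cosets, by the regular subgroup. -/
noncomputable def psi (hbij : Function.Bijective fun k : K => ι k • ((1 : G) : G ⧸ H)) (w : G) : K :=
  (Equiv.ofBijective _ hbij).symm (w • ((1 : G) : G ⧸ H))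

theorem psi_spec (hbij : Function.Bijective fun k : K => ι k • ((1 : G) : G ⧸ H)) (w : G) :
    ι (psi hbij w) • ((1 : G) : G ⧸ H) = w • ((1 : G) : G ⧸ H) :=
  (Equiv.ofBijective _ hbij).apply_symm_apply _

theorem psi_eq_iff (hbij : Function.Bijective fun k : K => ι k • ((1 : G) : G ⧸ H)) {w w' : G} :
    psi hbij w = psi hbij w' ↔ w • ((1 : G) : G ⧸ H) = w' • ((1 : G) : G ⧸ H) := by
  constructor
  · intro h
    rw [← psi_spec hbij w, ← psi_spec hbij w', h]
  · intro h
    apply hbij.1
    show ι _ • _ = ι _ • _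
    rw [psi_spec, psi_spec, h]

theorem psi_iota (hbij : Function.Bijective fun k : K => ι k • ((1 : G) : G ⧸ H)) (k : K) :
    psi hbij (ι k) = k := by
  apply hbij.1
  show ι _ • _ = ι _ • _
  rw [psi_spec]

theorem psi_mul (hbij : Function.Bijective fun k : K => ι k • ((1 : G) : G ⧸ H)) (k : K) (w : G) :
    psi hbij (ι k * w) = k * psi hbij w := by
  apply hbij.1
  show ι _ • _ = ι _ • _
  rw [psi_spec, map_mul, mul_smul, mul_smul, psi_spec]

theorem psi_congr (hbij : Function.Bijective fun k : K => ι k • ((1 : G) : G ⧸ H)) (g : G) {w w' : G}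
    (h : psi hbij w = psi hbij w') : psi hbij (g * w) = psi hbij (g * w') := by
  rw [psi_eq_iff] at h ⊢
  rw [mul_smul, mul_smul, h]

theorem psi_key (hbij : Function.Bijective fun k : K => ι k • ((1 : G) : G ⧸ H)) (α : MulAut G)
    (hα : ∀ k, α (ι k) = ι k) (g w : G) :
    psi hbij (α (g * ι (psi hbij (α w)))) = psi hbij (α (g * w)) := by
  rw [map_mul, map_mul, hα]
  apply psi_congr
  rw [psi_iota]

/-- The twisted coset action, on coordinates. -/
noncomputable def permA (hbij : Function.Bijective fun k : K => ι k • ((1 : G) : G ⧸ H)) (α : MulAut G)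
    (hα : ∀ k, α (ι k) = ι k) (g : G) : Equiv.Perm K where
  toFun a := psi hbij (α (g * ι a))
  invFun b := psi hbij (α (g⁻¹ * ι b))
  left_inv a := by
    show psi hbij (α (g⁻¹ * ι (psi hbij (α (g * ι a))))) = a
    rw [psi_key hbij α hα, inv_mul_cancel_left, hα, psi_iota]
  right_inv a := by
    show psi hbij (α (g * ι (psi hbij (α (g⁻¹ * ι a))))) = a
    rw [psi_key hbij α hα, mul_inv_cancel_left, hα, psi_iota]

theorem permA_psi (hbij : Function.Bijective fun k : K => ι k • ((1 : G) : G ⧸ H)) (α : MulAut G)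
    (hα : ∀ k, α (ι k) = ι k) (g w : G) :
    permA hbij α hα g (psi hbij (α w)) = psi hbij (α (g * w)) :=
  psi_key hbij α hα g w

theorem inv_fix {y : MulAut G} (hy : ∀ k, y (ι k) = ι k) (k : K) : y⁻¹ (ι k) = ι k := by
  conv_lhs => rw [← hy k]
  exact y.symm_apply_apply _

theorem pow_fix {y : MulAut G} (hy : ∀ k, y (ι k) = ι k) (n : ℕ) (k : K) : (y ^ n) (ι k) = ι k := by
  induction n with
  | zero => rfl
  | succ n ih =>
    rw [pow_succ, MulAut.mul_apply, hy, ih]

/-- An automorphism of prime order `l` fixing the regular subgroup pointwise is trivial, provided `H`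
is not transitive on the cosets of its image. -/
theorem key_core [Fintype K] {l : ℕ} [hl : Fact l.Prime]
    (hbij : Function.Bijective fun k : K => ι k • ((1 : G) : G ⧸ H))
    (hinj : Function.Injective fun t : K => t ^ l)
    (y : MulAut G) (hy : ∀ k, y (ι k) = ι k) (hyl : y ^ l = 1)
    (h2T : ∀ a b c d : G ⧸ H, a ≠ b → c ≠ d → ∃ g : G, g • a = c ∧ g • b = d)
    (hfaith : ∀ u v : G, (∀ q : G ⧸ H, u • q = v • q) → u = v)
    (hnot : ¬ ∀ u : K, ∃ h ∈ H, psi hbij (y⁻¹ h) = u) : y = 1 := by
  classical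
  have hαfix : ∀ n : ℕ, ∀ k, ((y⁻¹) ^ n) (ι k) = ι k := fun n => pow_fix (inv_fix hy) n
  let π : ℕ → G → Equiv.Perm K := fun n g => permA hbij ((y⁻¹) ^ n) (hαfix n) g
  let D : Set K := {u | ∃ w, (psi hbij w)⁻¹ * psi hbij (y⁻¹ w) = u}
  have h1 : (1 : K) ∈ D := ⟨1, by simp⟩
  have hDn : ∀ (n : ℕ) (u : K), u ∈ D ↔
      ∃ w, (psi hbij (((y⁻¹) ^ n) w))⁻¹ * psi hbij (((y⁻¹) ^ (n + 1)) w) = u := by
    intro n u
    constructor
    · rintro ⟨w, rfl⟩
      refine ⟨(((y⁻¹) ^ n)⁻¹) w, ?_⟩
      have e1 : ((y⁻¹) ^ n) ((((y⁻¹) ^ n)⁻¹) w) = w := by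
        rw [← MulAut.mul_apply, mul_inv_cancel]; rfl
      have e2 : ((y⁻¹) ^ (n + 1)) ((((y⁻¹) ^ n)⁻¹) w) = y⁻¹ w := by
        rw [pow_succ', MulAut.mul_apply, e1]
      rw [e1, e2]
    · rintro ⟨w, rfl⟩
      refine ⟨((y⁻¹) ^ n) w, ?_⟩
      rw [pow_succ', MulAut.mul_apply]
  have hf : ∀ n g a b, (a⁻¹ * b ∈ D) → ((π n g a)⁻¹ * π (n + 1) g b ∈ D) := by
    intro n g a b hab
    obtain ⟨w, hw⟩ := (hDn n _).1 hab
    let k := a * (psi hbij (((y⁻¹) ^ n) w))⁻¹
    let w' := ι k * w
    have ha : psi hbij (((y⁻¹) ^ n) w') = a := by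
      have e0 : ((y⁻¹) ^ n) w' = ι k * ((y⁻¹) ^ n) w := by
        show ((y⁻¹) ^ n) (ι k * w) = _
        rw [map_mul, hαfix]
      rw [e0, psi_mul]
      show a * (psi hbij (((y⁻¹) ^ n) w))⁻¹ * _ = a
      rw [inv_mul_cancel_right]
    have hb : psi hbij (((y⁻¹) ^ (n + 1)) w') = b := by
      have e0 : ((y⁻¹) ^ (n + 1)) w' = ι k * ((y⁻¹) ^ (n + 1)) w := by
        show ((y⁻¹) ^ (n + 1)) (ι k * w) = _
        rw [map_mul, hαfix]
      rw [e0, psi_mul]
      calc k * psi hbij (((y⁻¹) ^ (n + 1)) w) =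
            a * ((psi hbij (((y⁻¹) ^ n) w))⁻¹ * psi hbij (((y⁻¹) ^ (n + 1)) w)) := by
              simp only [k, mul_assoc]
        _ = b := by rw [hw, mul_inv_cancel_left]
    have e1 : π n g a = psi hbij (((y⁻¹) ^ n) (g * w')) := by
      conv_lhs => rw [← ha]
      exact permA_psi hbij _ _ g w'
    have e2 : π (n + 1) g b = psi hbij (((y⁻¹) ^ (n + 1)) (g * w')) := by
      conv_lhs => rw [← hb]
      exact permA_psi hbij _ _ g w'
    rw [e1, e2]
    exact (hDn n _).2 ⟨g * w', rfl⟩
  have hinvπ : ∀ n g a, π n g⁻¹ (π n g a) = a := by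
    intro n g a
    have e1 : π n g a = psi hbij (((y⁻¹) ^ n) (g * ι a)) := rfl
    rw [e1]
    have := permA_psi hbij _ (hαfix n) g⁻¹ (g * ι a)
    rw [inv_mul_cancel_left, hαfix, psi_iota] at this
    exact this
  have hrel : ∀ n g a b, (a⁻¹ * b ∈ D) ↔ ((π n g a)⁻¹ * π (n + 1) g b ∈ D) := by
    intro n g a b
    refine ⟨hf n g a b, fun h => ?_⟩
    have := hf n g⁻¹ _ _ h
    rwa [hinvπ, hinvπ] at this
  have hαl : (y⁻¹) ^ l = 1 := by rw [inv_pow, hyl, inv_one]
  have hper : π l = π 0 := by
    funext g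
    refine Equiv.ext fun a => ?_
    show psi hbij (((y⁻¹) ^ l) (g * ι a)) = psi hbij (((y⁻¹) ^ 0) (g * ι a))
    rw [hαl, pow_zero]
  have h2 : ∀ z z' : K, z ≠ 1 → z' ≠ 1 → ∃ g, π 0 g 1 = 1 ∧ π 0 g z = z' := by
    intro z z' hz hz'
    have ne1 : ∀ u : K, u ≠ 1 → ((1 : G) : G ⧸ H) ≠ ι u • ((1 : G) : G ⧸ H) := by
      intro u hu h
      apply hu
      apply hbij.1
      show ι u • _ = ι 1 • _
      rw [map_one, one_smul]
      exact h.symm
    obtain ⟨g, hg1, hg2⟩ := h2T _ _ _ _ (ne1 z hz) (ne1 z' hz')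
    refine ⟨g, ?_, ?_⟩
    · show psi hbij (((y⁻¹) ^ 0) (g * ι 1)) = 1
      rw [pow_zero, map_one, mul_one]
      show psi hbij g = 1
      have : psi hbij g = psi hbij (ι 1) := by
        rw [psi_eq_iff, map_one, one_smul]
        exact hg1
      rw [this, psi_iota]
    · show psi hbij (((y⁻¹) ^ 0) (g * ι z)) = z'
      rw [pow_zero]
      show psi hbij (g * ι z) = z'
      have : psi hbij (g * ι z) = psi hbij (ι z') := by
        rw [psi_eq_iff, mul_smul]
        exact hg2
      rw [this, psi_iota]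
  rcases chain_core hinj π D hrel hper h2 h1 with hD | hD
  · have hw : ∀ w, psi hbij (y⁻¹ w) = psi hbij w := by
      intro w
      have := hD _ ⟨w, rfl⟩
      rw [inv_mul_eq_one] at this
      exact this.symm
    have hg : ∀ g : G, y⁻¹ g = g := by
      intro g
      apply hfaith
      intro q
      obtain ⟨a, rfl⟩ := hbij.2 q
      have := (psi_eq_iff hbij).1 (hw (g * ι a))
      rw [map_mul, inv_fix hy, mul_smul, mul_smul] at this
      exact this
    have : y⁻¹ = 1 := MulEquiv.ext hg
    exact inv_eq_one.1 this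
  · exfalso
    apply hnot
    intro u
    obtain ⟨w, hw⟩ := hD u
    refine ⟨ι (psi hbij w)⁻¹ * w, ?_, ?_⟩
    · have : psi hbij (ι (psi hbij w)⁻¹ * w) = psi hbij 1 := by
        rw [psi_mul, inv_mul_cancel]
        conv_rhs => rw [show (1 : G) = ι 1 from (map_one ι).symm, psi_iota]
      have h4 := (psi_eq_iff hbij).1 this
      rw [one_smul] at h4
      have h5 : ((ι (psi hbij w)⁻¹ * w : G) : G ⧸ H) = ((1 : G) : G ⧸ H) := by
        rw [← h4]
        simp
      have h6 := QuotientGroup.eq.1 h5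
      rw [mul_one] at h6
      exact H.inv_mem_iff.1 h6
    · rw [map_mul, inv_fix hy, psi_mul]
      exact hw

end Act

theorem not_trans {G K : Type*} [Group G] [CommGroup K] {ι : K →* G} {H : Subgroup G} [Finite G]
    (hbij : Function.Bijective fun k : K => ι k • ((1 : G) : G ⧸ H)) (y : MulAut G)
    (hcop : Nat.Coprime (Nat.card K) (Nat.card H)) (hK : Nat.card K ≠ 1) :
    ¬ ∀ u : K, ∃ h ∈ H, psi hbij (y⁻¹ h) = u := by
  intro hall
  classical
  let f : H → K := fun h => psi hbij (y⁻¹ (h : G))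
  let S : Subgroup H := (H.comap (y⁻¹ : MulAut G).toMonoidHom).subgroupOf H
  have hfS : ∀ a b : H, f a = f b ↔ a⁻¹ * b ∈ S := by
    intro a b
    show psi hbij _ = psi hbij _ ↔ _
    rw [psi_eq_iff]
    have e1 : ∀ w : G, w • ((1 : G) : G ⧸ H) = (w : G ⧸ H) := fun w => by simp
    rw [e1, e1, QuotientGroup.eq, Subgroup.mem_subgroupOf, Subgroup.mem_comap]
    have e2 : (y⁻¹ : MulAut G).toMonoidHom ((a⁻¹ * b : H) : G) = (y⁻¹ (a : G))⁻¹ * y⁻¹ (b : G) := by
      show y⁻¹ ((a⁻¹ * b : H) : G) = _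
      simp [map_mul, map_inv]
    rw [e2]
  have hΦ : Function.Bijective (fun q : H ⧸ S => f q.out) := by
    constructor
    · intro q q' h
      have h2 := (hfS _ _).1 h
      have h3 : ((q.out : H) : H ⧸ S) = ((q'.out : H) : H ⧸ S) := QuotientGroup.eq.2 h2
      rwa [QuotientGroup.out_eq', QuotientGroup.out_eq'] at h3
    · intro u
      obtain ⟨h, hh, hu⟩ := hall u
      refine ⟨((⟨h, hh⟩ : H) : H ⧸ S), ?_⟩
      have h3 : (((⟨h, hh⟩ : H) : H ⧸ S).out : H ⧸ S) = ((⟨h, hh⟩ : H) : H ⧸ S) :=
        QuotientGroup.out_eq' _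
      have h4 := QuotientGroup.eq.1 h3
      exact ((hfS _ _).2 h4).trans hu
  have h5 : S.index = Nat.card K := Nat.card_eq_of_bijective _ hΦ
  have h6 : Nat.card K ∣ Nat.card H := h5 ▸ S.index_dvd_card
  exact hK (Nat.Coprime.eq_one_of_dvd hcop h6)


section Main

variable {G : Type*} [Group G] [Finite G] [IsSimpleGroup G]

theorem faith_quot {H : Subgroup G} (hH : H ≠ ⊤) (u v : G) (h : ∀ q : G ⧸ H, u • q = v • q) :
    u = v := by
  let ρ := MulAction.toPermHom G (G ⧸ H)
  have hker : ρ.ker = ⊥ := by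
    rcases ρ.normal_ker.eq_bot_or_eq_top with h0 | h0
    · exact h0
    · exfalso
      apply hH
      refine top_le_iff.1 fun g _ => ?_
      have hg : g ∈ ρ.ker := h0 ▸ Subgroup.mem_top g
      have h1 : ρ g ((1 : G) : G ⧸ H) = ((1 : G) : G ⧸ H) := by
        rw [MonoidHom.mem_ker.1 hg]; rfl
      have h2 : ((g : G) : G ⧸ H) = ((1 : G) : G ⧸ H) := by
        have : g • ((1 : G) : G ⧸ H) = ((1 : G) : G ⧸ H) := h1
        simpa using this
      have h3 := QuotientGroup.eq.1 h2
      rw [mul_one] at h3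
      exact H.inv_mem_iff.1 h3
  have hinj : Function.Injective ρ := (MonoidHom.ker_eq_bot_iff ρ).1 hker
  apply hinj
  ext q
  exact h q

theorem not_dvd_card {H : Subgroup G} {p : ℕ} (hp : p.Prime) (hH : H.index = p) :
    ¬ p ∣ Nat.card H := by
  intro hd
  have hne : H ≠ ⊤ := by
    rintro rfl
    rw [Subgroup.index_top] at hH
    exact hp.one_lt.ne hH
  have hinj : Function.Injective (MulAction.toPermHom G (G ⧸ H)) := by
    intro u v h
    exact faith_quot hne u v fun q => DFunLike.congr_fun h q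
  have h1 : Nat.card G ∣ Nat.card (Equiv.Perm (G ⧸ H)) := Subgroup.card_dvd_of_injective _ hinj
  haveI : Fintype (G ⧸ H) := Fintype.ofFinite _
  have h2 : Nat.card (Equiv.Perm (G ⧸ H)) = p ! := by
    classical
    rw [Nat.card_eq_fintype_card, Fintype.card_perm, ← Nat.card_eq_fintype_card, ← hH]
    rfl
  rw [h2, ← H.card_mul_index, hH] at h1
  obtain ⟨c, hc⟩ := hd
  have h3 : p * p ∣ p ! := by
    rw [hc] at h1
    exact Dvd.dvd.trans ⟨c, by ring⟩ h1
  have h4 : p ! = p * (p - 1)! := (Nat.mul_factorial_pred hp.ne_zero).symm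
  rw [h4] at h3
  have h5 := Nat.dvd_of_mul_dvd_mul_left hp.pos h3
  have h6 := (hp.dvd_factorial).1 h5
  have := hp.pos
  omega

theorem two_trans_quot {H : Subgroup G} {p : ℕ} (hp : p.Prime) (hH : H.index = p)
    (hna : ¬ ∀ a b : G, a * b = b * a) :
    ∀ a b c d : G ⧸ H, a ≠ b → c ≠ d → ∃ g : G, g • a = c ∧ g • b = d := by
  classical
  haveI : Fintype (G ⧸ H) := Fintype.ofFinite _
  have hc : (Fintype.card (G ⧸ H)).Prime := by
    rw [← Nat.card_eq_fintype_card]
    show H.index.Prime
    rw [hH]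
    exact hp
  have hne : H ≠ ⊤ := by
    rintro rfl
    rw [Subgroup.index_top] at hH
    exact hp.one_lt.ne hH
  let ρ := MulAction.toPermHom G (G ⧸ H)
  have hinj : Function.Injective ρ := by
    intro u v h
    exact faith_quot hne u v fun q => DFunLike.congr_fun h q
  let R : Subgroup (Equiv.Perm (G ⧸ H)) := ρ.range
  haveI : MulAction.IsPretransitive R (G ⧸ H) := ⟨fun a b => by
    obtain ⟨g, hg⟩ := MulAction.exists_smul_eq G a b
    exact ⟨⟨ρ g, ⟨g, rfl⟩⟩, hg⟩⟩
  rcases Cfsg.Agent.S0675.result hc R with hs | h2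
  · exfalso
    apply hna
    rw [IsSimpleGroup.comm_iff_isSolvable]
    exact Group.isSolvable_of_isSolvable_injective (f := ρ.rangeRestrict)
      (fun u v h => hinj (congrArg Subtype.val h))
  · intro a b c d hab hcd
    obtain ⟨g, h3, h4⟩ := MulAction.is_two_pretransitive_iff.1 h2 hab hcd
    obtain ⟨g₀, hg₀⟩ := g.2
    refine ⟨g₀, ?_, ?_⟩
    · rw [← h3]
      show ρ g₀ a = (g : Equiv.Perm (G ⧸ H)) a
      rw [hg₀]
    · rw [← h4]
      show ρ g₀ b = (g : Equiv.Perm (G ⧸ H)) b
      rw [hg₀]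

theorem key_mid {K : Type*} [CommGroup K] [Finite K] {ι : K →* G} (hι : Function.Injective ι)
    {H : Subgroup G} {p l : ℕ} [hp : Fact p.Prime] [hl : Fact l.Prime] (hH : H.index = p)
    (hna : ¬ ∀ a b : G, a * b = b * a) (hne : l ≠ p) (hcard : Nat.card K = p) (y : MulAut G)
    (hy : ∀ k : K, y (ι k) = ι k) (hyl : y ^ l = 1) : y = 1 := by
  classical
  have hHne : H ≠ ⊤ := by
    rintro rfl
    rw [Subgroup.index_top] at hH
    exact hp.out.one_lt.ne hH
  have hnd := not_dvd_card hp.out hH
  haveI : Fintype K := Fintype.ofFinite _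
  have hord : ∀ u : K, u ≠ 1 → orderOf u = p := by
    intro u hu
    have h1 : orderOf u ∣ p := by
      have : orderOf u ∣ Nat.card K := orderOf_dvd_natCard u
      rwa [hcard] at this
    rcases (Nat.dvd_prime hp.out).1 h1 with h2 | h2
    · exfalso
      rw [orderOf_eq_one_iff] at h2
      exact hu h2
    · exact h2
  have hbij : Function.Bijective fun k : K => ι k • ((1 : G) : G ⧸ H) := by
    have hi : Function.Injective fun k : K => ι k • ((1 : G) : G ⧸ H) := by
      intro k k' h
      have h1 : ((ι k : G) : G ⧸ H) = ((ι k' : G) : G ⧸ H) := by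
        simpa using h
      have h2 := QuotientGroup.eq.1 h1
      by_contra hkk
      have h3 : k⁻¹ * k' ≠ 1 := by
        intro h4
        exact hkk (inv_mul_eq_one.1 h4)
      have h4 := hord _ h3
      have h5 : orderOf (⟨_, h2⟩ : H) ∣ Nat.card H := orderOf_dvd_natCard _
      rw [Subgroup.orderOf_mk] at h5
      have h6 : orderOf (k⁻¹ * k') ∣ Nat.card H := by
        have : (ι k)⁻¹ * ι k' = ι (k⁻¹ * k') := by rw [map_mul, map_inv]
        rwa [this, orderOf_injective ι hι] at h5
      rw [h4] at h6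
      exact hnd h6
    refine (Nat.bijective_iff_injective_and_card _).2 ⟨hi, ?_⟩
    rw [hcard]
    exact hH.symm
  have hinj : Function.Injective fun t : K => t ^ l := by
    intro t s h
    have h1 : (t⁻¹ * s) ^ l = 1 := by
      rw [mul_pow, inv_pow]
      exact inv_mul_eq_one.2 h
    by_contra hts
    have h3 : t⁻¹ * s ≠ 1 := fun h4 => hts (inv_mul_eq_one.1 h4)
    have h4 := hord _ h3
    have h5 : orderOf (t⁻¹ * s) ∣ l := orderOf_dvd_of_pow_eq_one h1
    rw [h4] at h5
    exact hne ((Nat.prime_dvd_prime_iff_eq hp.out hl.out).1 h5).symm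
  have hcop : Nat.Coprime (Nat.card K) (Nat.card H) := by
    rw [hcard]
    exact (Nat.Prime.coprime_iff_not_dvd hp.out).2 hnd
  exact key_core hbij hinj y hy hyl (two_trans_quot hp.out hH hna) (faith_quot hHne)
    (not_trans hbij y hcop (by rw [hcard]; exact hp.out.one_lt.ne'))

theorem key_simple {H : Subgroup G} {p l : ℕ} [hp : Fact p.Prime] [hl : Fact l.Prime] (hH : H.index = p)
    (hna : ¬ ∀ a b : G, a * b = b * a) (hne : l ≠ p) (x : G) (hx : orderOf x = p) (y : MulAut G)
    (hyx : y x = x) (hyl : y ^ l = 1) : y = 1 := by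
  letI : CommGroup (Subgroup.zpowers x) := IsCyclic.commGroup
  refine key_mid (K := Subgroup.zpowers x) (ι := (Subgroup.zpowers x).subtype) Subtype.val_injective hH
    hna hne (by rw [Nat.card_zpowers, hx]) y ?_ hyl
  rintro ⟨k, n, rfl⟩
  show y (x ^ n) = x ^ n
  rw [map_zpow, hyx]

end Main

/-- A case of the Schreier conjecture: if a finite simple group G has a subgroup of prime index, then the outer automorphism group of G is solvable. -/
theorem result {G : Type*} [Group G] [Finite G] [IsSimpleGroup G] (H : Subgroup G) (hH : H.index.Prime) : Group.IsSolvable (Cfsg.Out G) := by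
  classical
  by_cases hcomm : ∀ a b : G, a * b = b * a
  · letI : CommGroup G := { (inferInstance : Group G) with mul_comm := hcomm }
    haveI : IsCyclic G := IsSimpleGroup.isCyclic
    let e := IsCyclic.mulAutMulEquiv G
    have h1 : ∀ a b : MulAut G, a * b = b * a := fun a b =>
      e.injective (by rw [map_mul, map_mul, mul_comm])
    haveI := Group.isSolvable_of_comm h1
    infer_instance
  · set p := H.index with hpdef
    haveI hpF : Fact p.Prime := ⟨hH⟩
    have hnd := not_dvd_card hpF.out hpdef.symm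
    have hZ : Function.Injective (MulAut.conj : G →* MulAut G) := by
      rw [injective_iff_map_eq_one]
      intro g hg
      have hc : g ∈ Subgroup.center G := by
        rw [Subgroup.mem_center_iff]
        intro h
        have := DFunLike.congr_fun hg h
        simp only [MulAut.conj_apply, MulAut.one_apply] at this
        exact (mul_inv_eq_iff_eq_mul.1 this).symm
      rcases (inferInstance : (Subgroup.center G).Normal).eq_bot_or_eq_top with h0 | h0
      · rw [h0] at hc
        exact hc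
      · exfalso
        apply hcomm
        intro a b
        have : b ∈ Subgroup.center G := h0 ▸ Subgroup.mem_top b
        exact (Subgroup.mem_center_iff.1 this a)
    -- the Sylow subgroup of the inner automorphisms
    have hcardN : Nat.card (Inn G) = Nat.card G :=
      (Nat.card_congr (MonoidHom.ofInjective hZ).toEquiv).symm
    have hcardG : Nat.card G = Nat.card H * p := (H.card_mul_index).symm
    have h1N : p ∣ Nat.card (Inn G) := by
      rw [hcardN, hcardG]
      exact dvd_mul_left _ _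
    have h2N : ¬ p ^ 2 ∣ Nat.card (Inn G) := by
      rw [hcardN, hcardG, pow_two]
      intro hd
      exact hnd (Nat.dvd_of_mul_dvd_mul_right hpF.out.pos hd)
    obtain ⟨S⟩ : Nonempty (Sylow p (Inn G)) := inferInstance
    have hS := Cfsg.Agent.Lib.Basic.SylowCount.card_sylow_eq_prime h1N h2N S
    let Q : Subgroup (MulAut G) := (S : Subgroup (Inn G)).map (Inn G).subtype
    have hQcard : Nat.card Q = p := by
      have : Nat.card Q = Nat.card (S : Subgroup (Inn G)) :=
        (Nat.card_congr (Subgroup.equivMapOfInjective _ _ Subtype.val_injective).toEquiv).symm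
      rw [this, hS]
    have hQne : Q ≠ ⊥ := by
      intro h0
      rw [h0, Subgroup.card_bot] at hQcard
      exact hpF.out.one_lt.ne hQcard
    obtain ⟨⟨X, hXQ⟩, hX1⟩ := Subgroup.ne_bot_iff_exists_ne_one.1 hQne
    have hX1' : X ≠ 1 := fun h => hX1 (Subtype.ext h)
    have hXN : X ∈ Inn G := by
      obtain ⟨s, -, rfl⟩ := hXQ
      exact s.2
    obtain ⟨x, hx⟩ := hXN
    have hXord : orderOf X = p := by
      have h1 : orderOf (⟨X, hXQ⟩ : Q) ∣ Nat.card Q := orderOf_dvd_natCard _
      rw [Subgroup.orderOf_mk, hQcard] at h1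
      rcases (Nat.dvd_prime hpF.out).1 h1 with h2 | h2
      · rw [orderOf_eq_one_iff] at h2
        exact absurd h2 hX1'
      · exact h2
    have hxord : orderOf x = p := by
      rw [← hXord, ← hx, orderOf_injective _ hZ]
    have hyx : ∀ y ∈ Subgroup.centralizer (Q : Set (MulAut G)), y x = x := by
      intro y hy
      have h1 : X * y = y * X := Subgroup.mem_centralizer_iff.1 hy X hXQ
      apply hZ
      have h2 : MulAut.conj (y x) = y * MulAut.conj x * y⁻¹ := by
        ext g
        simp only [MulAut.conj_apply, MulAut.mul_apply, map_mul, map_inv]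
        rw [show y (y⁻¹ g) = g from y.apply_symm_apply g]
      rw [h2, hx, ← h1, mul_inv_cancel_right]
    -- the normalizer is solvable
    let f := Q.normalizerMonoidHom
    have hkerC : ∀ z ∈ f.ker, ((z : Subgroup.normalizer (Q : Set (MulAut G))) : MulAut G) ∈
        Subgroup.centralizer (Q : Set (MulAut G)) := by
      intro z hz
      have h1 : f.ker = (Subgroup.centralizer (Q : Set (MulAut G))).subgroupOf
          (Subgroup.normalizer (Q : Set (MulAut G))) := Subgroup.normalizerMonoidHom_ker Q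
      rw [h1] at hz
      exact Subgroup.mem_subgroupOf.1 hz
    have hP : IsPGroup p f.ker := by
      rw [IsPGroup.iff_card]
      refine ⟨_, Nat.eq_prime_pow_of_unique_prime_dvd Nat.card_pos.ne' ?_⟩
      intro d hd hdvd
      by_contra hne
      haveI : Fact d.Prime := ⟨hd⟩
      obtain ⟨z, hz⟩ := exists_prime_orderOf_dvd_card' d hdvd
      have hzz : ((z : Subgroup.normalizer (Q : Set (MulAut G))) : MulAut G) ^ d = 1 := by
        have h1 : z ^ d = 1 := by rw [← hz, pow_orderOf_eq_one]
        have := congrArg (fun u : f.ker => ((u : Subgroup.normalizer (Q : Set (MulAut G))) : MulAut G)) h1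
        simpa using this
      have h2 := key_simple hpdef.symm hcomm hne x hxord _ (hyx _ (hkerC z z.2)) hzz
      have h3 : z = 1 := Subtype.ext (Subtype.ext h2)
      rw [h3, orderOf_one] at hz
      exact hd.one_lt.ne hz
    haveI : Group.IsNilpotent f.ker := hP.isNilpotent
    haveI : IsCyclic Q := isCyclic_of_prime_card hQcard
    have hAutQ : ∀ a b : MulAut Q, a * b = b * a := by
      let e := IsCyclic.mulAutMulEquiv Q
      exact fun a b => e.injective (by rw [map_mul, map_mul, mul_comm])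
    haveI : Group.IsSolvable (MulAut Q) := Group.isSolvable_of_comm hAutQ
    haveI hNs : Group.IsSolvable (Subgroup.normalizer (Q : Set (MulAut G))) :=
      Group.isSolvable_of_ker_le_range f.ker.subtype f (by simp)
    -- Frattini
    have hsup := Sylow.normalizer_sup_eq_top S
    have hsurj : Function.Surjective ((QuotientGroup.mk' (Inn G)).comp
        (Subgroup.normalizer (Q : Set (MulAut G))).subtype) := by
      intro q
      obtain ⟨α, rfl⟩ := QuotientGroup.mk'_surjective _ q
      have hα : α ∈ Subgroup.normalizer (((S : Subgroup (Inn G)).map (Inn G).subtype : Subgroup (MulAut G)) : Set (MulAut G)) ⊔ Inn G := by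
        rw [show _ ⊔ Inn G = ⊤ from hsup]
        trivial
      rw [Subgroup.mem_sup_of_normal_right] at hα
      obtain ⟨n, hn, i, hi, rfl⟩ := hα
      refine ⟨⟨n, hn⟩, ?_⟩
      show ((n : MulAut G) : Cfsg.Out G) = ((n * i : MulAut G) : Cfsg.Out G)
      exact (QuotientGroup.mk_mul_of_mem n hi).symm
    exact Group.isSolvable_of_surjective hsurj

end Cfsg.Agent.S4277
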