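import Cfsg.Statements.S4278
import Cfsg.Agent.Lib.ChevOdd.Data.G2

set_option autoImplicit false
open Cfsg

namespace Cfsg.Agent.S4278

open Cfsg.Lie Cfsg.Agent.Lib.ChevOdd.OddCert Cfsg.Agent.Lib.ChevOdd.Data.G2

/-- In the Chevalley group of type G₂ over a finite field of odd order, any two involutions are conjugate. -/
theorem result {F : Type*} [Field F] [Fintype F] (hF : Odd (Fintype.card F)) (s t : ↥(Cfsg.Lie.chevG2.group F)) (hs : orderOf s = 2) (ht : orderOf t = 2) : IsConj s t := by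
  have hq : Odd (Nat.card F) := by rwa [Nat.card_eq_fintype_card]
  have hR := Cfsg.Agent.Lib.Chevalley.Tbl.G2.sys (F := F)
  obtain ⟨r, hr, h1⟩ := conj_elt hR data (fun K _ => Cfsg.Agent.Lib.Chevalley.Tbl.G2.sys) hq hs
  obtain ⟨r', hr', h2⟩ := conj_elt hR data (fun K _ => Cfsg.Agent.Lib.Chevalley.Tbl.G2.sys) hq ht
  simp only [reps, List.mem_cons, List.not_mem_nil, or_false] at hr hr'
  subst hr
  subst hr'
  exact h1.trans h2.symm

end Cfsg.Agent.S4278
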