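import Cfsg.Statements.S4279
import Cfsg.Agent.Lib.ChevOdd.Data.G2
import Cfsg.Agent.Lib.ChevOdd.RootSL2

set_option autoImplicit false
open Cfsg

namespace Cfsg.Agent.S4279

open Cfsg.Lie Cfsg.Agent.Lib.ChevOdd.OddCert Cfsg.Agent.Lib.ChevOdd.Data.G2
open Cfsg.Agent.Lib.ChevOrder.Chain Cfsg.Agent.Lib.ChevBN.Table Cfsg.Agent.Lib.ChevBN.Rel
open Cfsg.Agent.Lib.ChevBN.Elem Cfsg.Agent.Lib.ChevBN.Torus Cfsg.Agent.Lib.ChevBN.Pair
open Cfsg.Agent.Lib.ChevBN.Monomial Cfsg.Agent.Lib.ChevOrder.Chev Cfsg.Agent.Lib.ChevOrder.BNCount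
open Cfsg.Agent.Lib.ChevOdd.RootSL2 Cfsg.Agent.Lib.ChevOdd.SL2Pair
open Cfsg.Agent.Lib.BNPair.CoxeterExchange Cfsg.Agent.Lib.BNPair.Basic Cfsg.Agent.Lib.BNPair.Parabolic

section

variable {F : Type*} [Field F]
variable {η : ℕ → ℕ → ℤ} (hR : Sys chevG2 F η) (hT : Tbl chevG2)
include hR hT

/-- Commutation of root elements is transported along a word. -/
theorem comm_word {l : List ℕ} (hl : ∀ i ∈ l, i < chevG2.rank) {u v a b : ℕ} (hu : u < chevG2.nroots)
    (hv : v < chevG2.nroots) (h1 : wordAct chevG2 l u = a) (h2 : wordAct chevG2 l v = b)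
    (hC : ∀ s t : F, X hR.toAddRel a s * X hR.toAddRel b t = X hR.toAddRel b t * X hR.toAddRel a s)
    (s t : F) : X hR.toAddRel u s * X hR.toAddRel v t = X hR.toAddRel v t * X hR.toAddRel u s := by
  refine comm_transport hR hT hu hv (pr (fN hR hT) l) ?_ ?_ hC s t
  · rw [sigma_prN hR hT hl]
    exact h1
  · rw [sigma_prN hR hT hl]
    exact h2

/-- The two long roots commute. -/
theorem comm_all : ∀ u ∈ [7, chevG2.neg 7], ∀ v ∈ [11, chevG2.neg 11], ∀ s t : F,
    X hR.toAddRel u s * X hR.toAddRel v t = X hR.toAddRel v t * X hR.toAddRel u s := by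
  have hbase : ∀ s t : F, X hR.toAddRel 7 s * X hR.toAddRel 11 t = X hR.toAddRel 11 t * X hR.toAddRel 7 s := by
    intro s t
    have := comm_pos hR hT (r := 11) (s := 7) (by decide +kernel) (by decide +kernel) (by decide)
      (by decide +kernel) t s
    exact this
  intro u hu v hv
  have e1 : chevG2.neg 7 = 4 := by decide +kernel
  have e2 : chevG2.neg 11 = 0 := by decide +kernel
  rw [e1] at hu
  rw [e2] at hv
  simp only [List.mem_cons, List.not_mem_nil, or_false] at hu hv
  rcases hu with rfl | rfl <;> rcases hv with rfl | rfl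
  · exact hbase
  · exact comm_word hR hT (l := [1, 0, 1, 0, 1]) (by decide +kernel) (by decide +kernel) (by decide +kernel)
      (by decide +kernel) (by decide +kernel) hbase
  · exact comm_word hR hT (l := [0]) (by decide +kernel) (by decide +kernel) (by decide +kernel)
      (by decide +kernel) (by decide +kernel) hbase
  · exact comm_word hR hT (l := [0, 1, 0, 1, 0, 1]) (by decide +kernel) (by decide +kernel) (by decide +kernel)
      (by decide +kernel) (by decide +kernel) hbase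

end

/-- In the Chevalley group G of type G₂ over a finite field F of odd order q, the centralizer of an involution t has order q²(q² − 1)² and contains two elementwise commuting subgroups, each isomorphic to SL(2, F), which meet exactly in the subgroup generated by t and whose join has index 2 in the centralizer. -/
theorem result {F : Type*} [Field F] [Fintype F] (hF : Odd (Fintype.card F)) (t : ↥(Cfsg.Lie.chevG2.group F)) (ht : orderOf t = 2) : Nat.card (Subgroup.centralizer ({t} : Set ↥(Cfsg.Lie.chevG2.group F))) = Fintype.card F ^ 2 * (Fintype.card F ^ 2 - 1) ^ 2 ∧ ∃ L₁ L₂ : Subgroup ↥(Cfsg.Lie.chevG2.group F), Nonempty (L₁ ≃* Matrix.SpecialLinearGroup (Fin 2) F) ∧ Nonempty (L₂ ≃* Matrix.SpecialLinearGroup (Fin 2) F) ∧ (∀ x ∈ L₁, ∀ y ∈ L₂, x * y = y * x) ∧ L₁ ⊓ L₂ = Subgroup.zpowers t ∧ L₁ ⊔ L₂ ≤ Subgroup.centralizer ({t} : Set ↥(Cfsg.Lie.chevG2.group F)) ∧ (L₁ ⊔ L₂).relIndex (Subgroup.centralizer ({t} : Set ↥(Cfsg.Lie.chevG2.group F))) = 2 := by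
  have hq : Odd (Nat.card F) := by rwa [Nat.card_eq_fintype_card]
  have hcard : Nat.card F = Fintype.card F := Nat.card_eq_fintype_card
  have hR := Cfsg.Agent.Lib.Chevalley.Tbl.G2.sys (F := F)
  have hT := data.hT
  have h2 : (2 : F) ≠ 0 := two_ne_of_odd hq
  have hH : Nat.card (Cfsg.Lie.chevG2.diagonalSubgroup F) = (Nat.card F - 1) ^ Cfsg.Lie.chevG2.rank := by
    have := Cfsg.Agent.Lib.ChevOrder.Cert.G2.cardH hT hR
    rw [one_mul] at this
    exact this
  obtain ⟨r, hr, h1⟩ := conj_elt hR data (fun K _ => Cfsg.Agent.Lib.Chevalley.Tbl.G2.sys) hq ht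
  simp only [reps, List.mem_cons, List.not_mem_nil, or_false] at hr
  subst hr
  have hc1 := card_centralizer_elt hR hT data.hC data.hCI hq data.hfull data.hfall repA rfl hH
  rw [posLenA, hcard] at hc1
  simp only [prodSub, List.map_cons, List.map_nil, List.prod_cons, List.prod_nil, mul_one] at hc1
  have hct : Nat.card (Subgroup.centralizer ({t} : Set ↥(Cfsg.Lie.chevG2.group F))) =
      Fintype.card F ^ 2 * (Fintype.card F ^ 2 - 1) ^ 2 := by
    rw [card_centralizer_conj h1, hc1]
    ring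
  refine ⟨hct, ?_⟩
  have hc := data.hO.two
  have hη := data.hη
  have hp7 : chevG2.IsPosRoot 7 := by decide +kernel
  have hp11 : chevG2.IsPosRoot 11 := by decide +kernel
  obtain ⟨c, hc'⟩ := isConj_iff.1 h1
  -- the homomorphisms to the group
  let ψ : ∀ {r : ℕ}, chevG2.IsPosRoot r → Matrix.SpecialLinearGroup (Fin 2) F →* ↥(chevG2.group F) :=
    fun {r} h => (φr hR hT hc hη h.1).codRestrict (chevG2.group F) (φr_mem_G hR hT hc hη h.1)
  let κ : ↥(chevG2.group F) →* ↥(chevG2.group F) := (MulAut.conj c⁻¹).toMonoidHom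
  have hκ : Function.Injective κ := (MulAut.conj c⁻¹).injective
  have hψinj : ∀ {r : ℕ} (h : chevG2.IsPosRoot r), (∃ s < chevG2.nroots, Ad chevG2 (cr chevG2 r) s = 1) →
      Function.Injective (ψ h) := by
    intro r h hs a b hab
    exact φr_inj hR hT hc hη h hs (congrArg Subtype.val hab)
  have hm1 : ∀ {r : ℕ} (h : chevG2.IsPosRoot r),
      (∀ j < 2, (-1 : F) ^ cr chevG2 r j = cE F 1 j) → κ (ψ h (m1 F)) = t := by
    intro r h hj
    have e1 : ψ h (m1 F) = elt hR hT 1 := by
      apply Subtype.ext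
      show φr hR hT hc hη h.1 (m1 F) = hP hR (cE F 1)
      rw [φr_m1, hG_eq_hP hR hT h.1 (neg_ne_zero.2 one_ne_zero)]
      apply Cfsg.Agent.Lib.ChevOdd.GoodRoot.hP_congr hR hT
      exact hj
    rw [e1, ← hc']
    show c⁻¹ * (c * t * c⁻¹) * (c⁻¹)⁻¹ = t
    group
  have hb1 : (1 : ℕ).testBit 0 = true := by decide
  have hb2 : (1 : ℕ).testBit 1 = false := by decide
  have hj7 : ∀ j < 2, (-1 : F) ^ cr chevG2 7 j = cE F 1 j := by
    intro j hj
    interval_cases j
    · have e : cr chevG2 7 0 = 1 := by decide +kernel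
      rw [e]
      simp [cE, hb1]
    · have e : cr chevG2 7 1 = 0 := by decide +kernel
      rw [e]
      simp [cE, hb2]
  have hj11 : ∀ j < 2, (-1 : F) ^ cr chevG2 11 j = cE F 1 j := by
    intro j hj
    interval_cases j
    · have e : cr chevG2 11 0 = 1 := by decide +kernel
      rw [e]
      simp [cE, hb1]
    · have e : cr chevG2 11 1 = 2 := by decide +kernel
      rw [e]
      simp [cE, hb2]
  have hcomm := comm_all hR hT
  have := sl2_pair h2 (κ.comp (ψ hp7)) (κ.comp (ψ hp11))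
    (hκ.comp (hψinj hp7 ⟨3, by decide +kernel, by decide +kernel⟩))
    (hκ.comp (hψinj hp11 ⟨6, by decide +kernel, by decide +kernel⟩))
    (by
      intro a b
      show κ (ψ hp7 a) * κ (ψ hp11 b) = κ (ψ hp11 b) * κ (ψ hp7 a)
      rw [← map_mul, ← map_mul]
      congr 1
      apply Subtype.ext
      exact φr_comm hR hT hc hη hp7.1 hp11.1 hcomm a b)
    (hm1 hp7 hj7) (hm1 hp11 hj11) hct
  exact this

end Cfsg.Agent.S4279
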