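import Cfsg.Statements.S4280
import Cfsg.Agent.Lib.ChevOdd.Data.F4

set_option autoImplicit false
open Cfsg

namespace Cfsg.Agent.S4280

open Cfsg.Lie Cfsg.Agent.Lib.ChevOdd.OddCert Cfsg.Agent.Lib.ChevOdd.Data.F4
open Cfsg.Agent.Lib.ChevOrder.Chain

theorem arith {q : ℕ} (hq : 3 ≤ q) :
    q ^ 16 * (q ^ 2 - 1) * (q ^ 4 - 1) * (q ^ 6 - 1) * (q ^ 8 - 1) ≠
      q ^ 10 * (q ^ 2 - 1) ^ 2 * (q ^ 4 - 1) * (q ^ 6 - 1) := by
  intro h
  have h2 : 0 < q ^ 2 - 1 := by
    have : 9 ≤ q ^ 2 := by nlinarith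
    omega
  have h4 : 0 < q ^ 4 - 1 := by
    have : 1 < q ^ 4 := Nat.one_lt_pow (by norm_num) (by omega)
    omega
  have h6 : 0 < q ^ 6 - 1 := by
    have : 1 < q ^ 6 := Nat.one_lt_pow (by norm_num) (by omega)
    omega
  have hq0 : 0 < q := by omega
  have hc : 0 < q ^ 10 * (q ^ 2 - 1) * (q ^ 4 - 1) * (q ^ 6 - 1) := by positivity
  have e : q ^ 6 * (q ^ 8 - 1) = q ^ 2 - 1 := by
    apply Nat.eq_of_mul_eq_mul_left hc
    calc _ = q ^ 16 * (q ^ 2 - 1) * (q ^ 4 - 1) * (q ^ 6 - 1) * (q ^ 8 - 1) := by ring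
      _ = _ := by rw [h]; ring
  have h8 : q ^ 2 - 1 < q ^ 8 - 1 := by
    have h3 : q ^ 2 < q ^ 8 := Nat.pow_lt_pow_right (by omega) (by norm_num)
    omega
  have h9 : 1 ≤ q ^ 6 := Nat.one_le_pow _ _ hq0
  nlinarith

/-- In the Chevalley group of type F₄ over a finite field of odd order q there are exactly two conjugacy classes of involutions; the centralizer of an involution in one class has order q¹⁶(q² − 1)(q⁴ − 1)(q⁶ − 1)(q⁸ − 1), and in the other class q¹⁰(q² − 1)²(q⁴ − 1)(q⁶ − 1). -/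
theorem result {F : Type*} [Field F] [Fintype F] (hF : Odd (Fintype.card F)) : ∃ s t : ↥(Cfsg.Lie.chevF4.group F), orderOf s = 2 ∧ orderOf t = 2 ∧ ¬ IsConj s t ∧ (∀ u : ↥(Cfsg.Lie.chevF4.group F), orderOf u = 2 → IsConj u s ∨ IsConj u t) ∧ Nat.card (Subgroup.centralizer ({s} : Set ↥(Cfsg.Lie.chevF4.group F))) = Fintype.card F ^ 16 * (Fintype.card F ^ 2 - 1) * (Fintype.card F ^ 4 - 1) * (Fintype.card F ^ 6 - 1) * (Fintype.card F ^ 8 - 1) ∧ Nat.card (Subgroup.centralizer ({t} : Set ↥(Cfsg.Lie.chevF4.group F))) = Fintype.card F ^ 10 * (Fintype.card F ^ 2 - 1) ^ 2 * (Fintype.card F ^ 4 - 1) * (Fintype.card F ^ 6 - 1) := by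
  have hq : Odd (Nat.card F) := by rwa [Nat.card_eq_fintype_card]
  have hcard : Nat.card F = Fintype.card F := Nat.card_eq_fintype_card
  have hR := Cfsg.Agent.Lib.Chevalley.Tbl.F4.sys (F := F)
  have hT := data.hT
  have h2 : (2 : F) ≠ 0 := two_ne_of_odd hq
  have hH : Nat.card (Cfsg.Lie.chevF4.diagonalSubgroup F) = (Nat.card F - 1) ^ Cfsg.Lie.chevF4.rank := by
    have := Cfsg.Agent.Lib.ChevOrder.Cert.F4.cardH hT hR
    rw [one_mul] at this
    exact this
  have hq3 : 3 ≤ Fintype.card F := by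
    have h1 : 1 < Fintype.card F := Fintype.one_lt_card
    obtain ⟨m, hm⟩ := hF
    omega
  have hc1 := card_centralizer_elt hR hT data.hC data.hCI hq data.hfull data.hfall repA rfl hH
  have hc2 := card_centralizer_elt hR hT data.hC data.hCI hq data.hfull data.hfall repB rfl hH
  rw [posLenA, hcard] at hc1
  rw [posLenB, hcard] at hc2
  simp only [prodSub, List.map_cons, List.map_nil, List.prod_cons, List.prod_nil, mul_one] at hc1 hc2
  refine ⟨elt hR hT 1, elt hR hT 4, orderOf_elt hR hT data.hCI h2 (by decide +kernel) (by norm_num),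
    orderOf_elt hR hT data.hCI h2 (by decide +kernel) (by norm_num), ?_, ?_, ?_, ?_⟩
  · intro h
    have h3 := card_centralizer_conj h
    rw [hc1, hc2] at h3
    apply arith hq3
    exact Eq.trans (by ring) (h3.trans (by ring))
  · intro u hu
    obtain ⟨r, hr, h3⟩ := conj_elt hR data (fun K _ => Cfsg.Agent.Lib.Chevalley.Tbl.F4.sys) hq hu
    simp only [reps, List.mem_cons, List.not_mem_nil, or_false] at hr
    rcases hr with rfl | rfl
    · exact Or.inl h3
    · exact Or.inr h3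
  · rw [hc1]
    ring
  · rw [hc2]
    ring

end Cfsg.Agent.S4280
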