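import Cfsg.Statements.S4281
import Cfsg.Agent.Lib.ChevOdd.Data.E8

set_option autoImplicit false
open Cfsg
open scoped BigOperators

namespace Cfsg.Agent.S4281

open Cfsg.Lie Cfsg.Agent.Lib.ChevOdd.OddCert Cfsg.Agent.Lib.ChevOdd.Data.E8
open Cfsg.Agent.Lib.ChevOrder.Chain

theorem prod_icc (q : ℕ) : ∏ i ∈ Finset.Icc 1 7, (q ^ (2 * i) - 1) =
    (q ^ 2 - 1) * (q ^ 4 - 1) * (q ^ 6 - 1) * (q ^ 8 - 1) * (q ^ 10 - 1) * (q ^ 12 - 1) * (q ^ 14 - 1) := by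
  have h : Finset.Icc 1 7 = ({1, 2, 3, 4, 5, 6, 7} : Finset ℕ) := by decide
  rw [h]
  simp only [Finset.mem_insert, Finset.mem_singleton, Finset.prod_insert, Finset.prod_singleton,
    OfNat.one_ne_ofNat, OfNat.ofNat_ne_one, Nat.reduceEqDiff, or_self, not_false_eq_true, mul_one,
    Nat.reduceMul]
  ring

theorem arith {q : ℕ} (hq : 3 ≤ q) :
    q ^ 56 * (q ^ 8 - 1) * ((q ^ 2 - 1) * (q ^ 4 - 1) * (q ^ 6 - 1) * (q ^ 8 - 1) * (q ^ 10 - 1) * (q ^ 12 - 1) * (q ^ 14 - 1)) ≠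
      q ^ 64 * (q ^ 2 - 1) ^ 2 * (q ^ 6 - 1) * (q ^ 8 - 1) * (q ^ 10 - 1) * (q ^ 12 - 1) * (q ^ 14 - 1) * (q ^ 18 - 1) := by
  intro h
  have hp : ∀ k : ℕ, k ≠ 0 → 0 < q ^ k - 1 := by
    intro k hk
    have : 1 < q ^ k := Nat.one_lt_pow hk (by omega)
    omega
  have hq0 : 0 < q := by omega
  have hc : 0 < q ^ 56 * ((q ^ 2 - 1) * (q ^ 6 - 1) * (q ^ 8 - 1) * (q ^ 10 - 1) * (q ^ 12 - 1) * (q ^ 14 - 1)) := by
    have h2 := hp 2 (by norm_num)
    have h6 := hp 6 (by norm_num)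
    have h8 := hp 8 (by norm_num)
    have h10 := hp 10 (by norm_num)
    have h12 := hp 12 (by norm_num)
    have h14 := hp 14 (by norm_num)
    positivity
  have e : (q ^ 8 - 1) * (q ^ 4 - 1) = q ^ 8 * ((q ^ 2 - 1) * (q ^ 18 - 1)) := by
    apply Nat.eq_of_mul_eq_mul_left hc
    calc _ = q ^ 56 * (q ^ 8 - 1) * ((q ^ 2 - 1) * (q ^ 4 - 1) * (q ^ 6 - 1) * (q ^ 8 - 1) * (q ^ 10 - 1) * (q ^ 12 - 1) * (q ^ 14 - 1)) := by ring
      _ = _ := by rw [h]; ring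
  have h1 : (q ^ 8 - 1) * (q ^ 4 - 1) < q ^ 8 * q ^ 4 := by
    have h3 : q ^ 8 - 1 < q ^ 8 := Nat.sub_lt (by positivity) (by norm_num)
    have h4 : q ^ 4 - 1 ≤ q ^ 4 := Nat.sub_le _ _
    calc (q ^ 8 - 1) * (q ^ 4 - 1) ≤ (q ^ 8 - 1) * q ^ 4 := Nat.mul_le_mul_left _ h4
      _ < q ^ 8 * q ^ 4 := Nat.mul_lt_mul_of_pos_right h3 (by positivity)
  have h3 : q ^ 4 ≤ (q ^ 2 - 1) * (q ^ 18 - 1) := by
    have h5 : 1 ≤ q ^ 2 - 1 := hp 2 (by norm_num)
    have h6 : q ^ 4 ≤ q ^ 18 - 1 := by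
      have h7 : q ^ 4 < q ^ 18 := Nat.pow_lt_pow_right (by omega) (by norm_num)
      omega
    calc q ^ 4 = 1 * q ^ 4 := (one_mul _).symm
      _ ≤ _ := Nat.mul_le_mul h5 h6
  have h4 : q ^ 8 * q ^ 4 ≤ q ^ 8 * ((q ^ 2 - 1) * (q ^ 18 - 1)) := Nat.mul_le_mul_left _ h3
  omega

/-- In the Chevalley group of type E₈ over a finite field of odd order q there are exactly two conjugacy classes of involutions; the centralizer of an involution in one class has order q⁵⁶(q⁸ − 1)·∏_{i=1}^{7}(q^{2i} − 1), and in the other class q⁶⁴(q² − 1)²(q⁶ − 1)(q⁸ − 1)(q¹⁰ − 1)(q¹² − 1)(q¹⁴ − 1)(q¹⁸ − 1). -/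
theorem result {F : Type*} [Field F] [Fintype F] (hF : Odd (Fintype.card F)) : ∃ s t : ↥(Cfsg.Lie.chevE8.group F), orderOf s = 2 ∧ orderOf t = 2 ∧ ¬ IsConj s t ∧ (∀ u : ↥(Cfsg.Lie.chevE8.group F), orderOf u = 2 → IsConj u s ∨ IsConj u t) ∧ Nat.card (Subgroup.centralizer ({s} : Set ↥(Cfsg.Lie.chevE8.group F))) = Fintype.card F ^ 56 * (Fintype.card F ^ 8 - 1) * ∏ i ∈ Finset.Icc 1 7, (Fintype.card F ^ (2 * i) - 1) ∧ Nat.card (Subgroup.centralizer ({t} : Set ↥(Cfsg.Lie.chevE8.group F))) = Fintype.card F ^ 64 * (Fintype.card F ^ 2 - 1) ^ 2 * (Fintype.card F ^ 6 - 1) * (Fintype.card F ^ 8 - 1) * (Fintype.card F ^ 10 - 1) * (Fintype.card F ^ 12 - 1) * (Fintype.card F ^ 14 - 1) * (Fintype.card F ^ 18 - 1) := by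
  have hq : Odd (Nat.card F) := by rwa [Nat.card_eq_fintype_card]
  have hcard : Nat.card F = Fintype.card F := Nat.card_eq_fintype_card
  have hR := Cfsg.Agent.Lib.Chevalley.Tbl.E8.sys (F := F)
  have hT := data.hT
  have h2 : (2 : F) ≠ 0 := two_ne_of_odd hq
  have hH : Nat.card (Cfsg.Lie.chevE8.diagonalSubgroup F) = (Nat.card F - 1) ^ Cfsg.Lie.chevE8.rank := by
    have := Cfsg.Agent.Lib.ChevOrder.Cert.E8.cardH hT hR
    rw [one_mul] at this
    exact this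
  have hq3 : 3 ≤ Fintype.card F := by
    have h1 : 1 < Fintype.card F := Fintype.one_lt_card
    obtain ⟨m, hm⟩ := hF
    omega
  -- code `3` has the centraliser of order `q ^ 56 ...`, code `1` that of order `q ^ 64 ...`
  have hc1 := card_centralizer_elt hR hT data.hC data.hCI hq data.hfull data.hfall repB rfl hH
  have hc2 := card_centralizer_elt hR hT data.hC data.hCI hq data.hfull data.hfall repA rfl hH
  rw [posLenB, hcard] at hc1
  rw [posLenA, hcard] at hc2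
  simp only [prodSub, List.map_cons, List.map_nil, List.prod_cons, List.prod_nil, mul_one] at hc1 hc2
  refine ⟨elt hR hT 3, elt hR hT 1, orderOf_elt hR hT data.hCI h2 (by decide +kernel) (by norm_num),
    orderOf_elt hR hT data.hCI h2 (by decide +kernel) (by norm_num), ?_, ?_, ?_, ?_⟩
  · intro h
    have h3 := card_centralizer_conj h
    rw [hc1, hc2] at h3
    apply arith hq3
    calc _ = _ := by ring
      _ = _ := h3
      _ = _ := by ring
  · intro u hu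
    obtain ⟨r, hr, h3⟩ := conj_elt hR data (fun K _ => Cfsg.Agent.Lib.Chevalley.Tbl.E8.sys) hq hu
    simp only [reps, List.mem_cons, List.not_mem_nil, or_false] at hr
    rcases hr with rfl | rfl
    · exact Or.inr h3
    · exact Or.inl h3
  · rw [hc1, prod_icc]
    ring
  · rw [hc2]
    ring

end Cfsg.Agent.S4281
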