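import Cfsg.Statements.S4282
import Mathlib
import Cfsg.Agent.Lib.HallHigman.Reduce
-- import your own Cfsg.Agent.* helpers here

set_option autoImplicit false
open Cfsg
open Module Cfsg.Agent.Lib.OddOrder.HHCore Cfsg.Agent.Lib.OddOrder.HHGroup
open Cfsg.Agent.Lib.HallHigman.Level Cfsg.Agent.Lib.HallHigman.MinGroup Cfsg.Agent.Lib.HallHigman.Reduce

namespace Cfsg.Agent.S4282

/-- A critical case behind the Hall–Higman theorem. Let p ≠ q be primes and G a finite group generated by a normal q-subgroup Q and a cyclic p-subgroup generated by x, such that the centralizer of every non-identity element of that cyclic subgroup is its product with the centre of G. Let K be an algebraically closed field of characteristic p and ρ a faithful representation of G on a nonzero finite-dimensional K-space whose restriction to Q is irreducible. If s is the least exponent with (ρ(x) − 1)^s = 0, then |⟨x⟩| − 1 ≤ s ≤ |⟨x⟩|; and if s = |⟨x⟩| − 1 then |⟨x⟩| − 1 is a power of q and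 Q is non-abelian. -/
theorem result {G : Type*} [Group G] [Finite G] (p q : ℕ) [Fact p.Prime] [Fact q.Prime] (hpq : p ≠ q) (Q : Subgroup G) [Q.Normal] (hQ : IsPGroup q Q) (x : G) (hx : IsPGroup p (Subgroup.zpowers x)) (hgen : Q ⊔ Subgroup.zpowers x = ⊤) (hC : ∀ y ∈ Subgroup.zpowers x, y ≠ 1 → Subgroup.centralizer ({y} : Set G) = Subgroup.zpowers x ⊔ Subgroup.center G) {K : Type*} [Field K] [IsAlgClosed K] [CharP K p] {V : Type*} [AddCommGroup V] [Module K V] [FiniteDimensional K V] [Nontrivial V] (ρ : Representation K G V) (hfaith : Function.Injective ρ) (hirr : ∀ W : Submodule K V, (∀ g ∈ Q, Submodule.map (ρ g) W ≤ W) → W = ⊥ ∨ W = ⊤) (s : ℕ) (hs : (ρ x - 1) ^ s = 0) (hmin : ∀ k < s, (ρ x - 1) ^ k ≠ 0) : Nat.card (Subgroup.zpowers x) - 1 ≤ s ∧ s ≤ Nat.card (Subgroup.zpowers x) ∧ (s = Nat.card (Subgroup.zpowers x) - 1 → (∃ b : ℕ, Nat.card (Subgroup.zpowers x) - 1 = q ^ b) ∧ ¬ IsMulCommutative Q) := by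
  classical
  haveI hp : Fact p.Prime := inferInstance
  haveI hq : Fact q.Prime := inferInstance
  haveI : Fintype Q := Fintype.ofFinite _
  obtain ⟨n, hn⟩ := IsPGroup.iff_card.mp hx
  have hxo : orderOf x = p ^ n := by rw [← Nat.card_zpowers, hn]
  rw [hn]
  have hA : 0 < p ^ n := pow_pos hp.out.pos n
  have hxpow : x ^ p ^ n = 1 := by rw [← hxo]; exact pow_orderOf_eq_one x
  -- the upper bound
  have hzero : (ρ x - 1) ^ p ^ n = 0 := by
    rw [Cfsg.Agent.Lib.HallHigman.Block.sub_one_pow_char_pow (p := p) (ρ x) n, ← map_pow, hxpow, map_one,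
      sub_self]
  have hle : s ≤ p ^ n := by
    by_contra hcon
    exact hmin _ (by omega) hzero
  have hs0 : s ≠ 0 := by
    rintro rfl
    rw [pow_zero] at hs
    exact one_ne_zero hs
  refine (?_ : p ^ n - 1 ≤ s ∧ s ≤ p ^ n ∧ (s = p ^ n - 1 → (∃ b : ℕ, p ^ n - 1 = q ^ b) ∧ ¬ IsMulCommutative Q))
  rcases Nat.eq_zero_or_pos n with rfl | hnpos
  · simp only [pow_zero, Nat.sub_self]
    refine ⟨Nat.zero_le _, by simpa using hle, ?_⟩
    intro h
    exact absurd h hs0
  -- Schur
  have hsimple : IsSimpleRep (ρ.comp Q.subtype) := by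
    intro U hU hne
    rcases hirr U (fun g hg => by
      rintro _ ⟨v, hv, rfl⟩
      exact hU ⟨g, hg⟩ v hv) with h | h
    · exact absurd h hne
    · exact h
  have hcentral1 : ∀ w : G, w ∈ Subgroup.center G → ∀ j : ℕ, w ^ p ^ j = 1 → w = 1 := by
    intro w hw j hwj
    obtain ⟨t, ht⟩ := schur hsimple (ρ w) (fun g => by
      have h1 : w * (g : G) = g * w := (Subgroup.mem_center_iff.mp hw g).symm
      change ρ w * ρ g = ρ g * ρ w
      rw [← map_mul, ← map_mul, h1])
    have h1 : (ρ w) ^ p ^ j = 1 := by rw [← map_pow, hwj, map_one]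
    rw [ht, smul_pow, one_pow] at h1
    have h2 : t ^ p ^ j = 1 := by
      have h3 : (t ^ p ^ j - 1) • (1 : End K V) = 0 := by
        rw [sub_smul, one_smul, h1, sub_self]
      have h4 := (smul_eq_zero.mp h3).resolve_right one_ne_zero
      exact sub_eq_zero.mp h4
    have h3 : t = 1 := by
      have h4 : (t - 1) ^ p ^ j = 0 := by
        rw [sub_pow_char_pow, h2, one_pow, sub_self]
      exact sub_eq_zero.mp (pow_eq_zero_iff (pow_ne_zero j hp.out.ne_zero) |>.mp h4)
    apply hfaith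
    rw [ht, h3, one_smul, map_one]
  set y := x ^ p ^ (n - 1) with hy
  have hn' : n - 1 + 1 = n := by omega
  have hyp : y ^ p = 1 := by
    rw [hy, ← pow_mul, ← pow_succ, hn', hxpow]
  have hy1 : y ≠ 1 := by
    intro h1
    have h2 : orderOf x ∣ p ^ (n - 1) := orderOf_dvd_of_pow_eq_one h1
    rw [hxo] at h2
    have h3 := (Nat.pow_dvd_pow_iff_le_right hp.out.one_lt).mp h2
    omega
  have hyp' : y ^ p ^ 1 = 1 := by rwa [pow_one]
  have hxy : x * y = y * x := ((Commute.refl x).pow_right _).eq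
  have hxQ : ∀ g ∈ Q, x * g * x⁻¹ ∈ Q := fun g hg => (inferInstance : Q.Normal).conj_mem g hg x
  -- `y` moves `Q`
  have hyQ : ∃ g ∈ Q, y * g * y⁻¹ ≠ g := by
    by_contra hcon
    push Not at hcon
    apply hy1
    apply hcentral1 y _ 1 hyp'
    have hle' : Q ⊔ Subgroup.zpowers x ≤ Subgroup.centralizer ({y} : Set G) := by
      apply sup_le
      · intro g hg
        rw [Subgroup.mem_centralizer_singleton_iff]
        have := hcon g hg
        calc g * y = (y * g * y⁻¹) * y := by rw [this]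
          _ = y * g := by group
      · rw [Subgroup.zpowers_le, Subgroup.mem_centralizer_singleton_iff]
        exact hxy
    rw [hgen] at hle'
    rw [Subgroup.mem_center_iff]
    intro g
    have := hle' (Subgroup.mem_top g)
    rw [Subgroup.mem_centralizer_singleton_iff] at this
    exact this
  obtain ⟨Q₁, hQ₁Q, hminQ⟩ := exists_isMinFor x y Q hxQ hyQ
  have hQ₁ : IsPGroup q Q₁ := hQ.to_le hQ₁Q
  have hpq' : p.Coprime q := (Nat.coprime_primes hp.out hq.out).mpr hpq
  have hQ₁K : (Nat.card Q₁ : K) ≠ 0 := by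
    obtain ⟨k, hk⟩ := IsPGroup.iff_card.mp hQ₁
    rw [hk, Nat.cast_pow]
    apply pow_ne_zero
    intro h0
    have := (CharP.cast_eq_zero_iff K p q).mp h0
    exact hpq ((Nat.prime_dvd_prime_iff_eq hp.out hq.out).mp this)
  by_cases hQc : ∀ a ∈ Q₁, ∀ b ∈ Q₁, a * b = b * a
  · -- the abelian case
    have h1 := abelian_case hpq' ρ hfaith x hnpos hxo Q₁ hQ₁ hQ₁K hminQ hQc s hs
    have h2 : s = p ^ n := le_antisymm hle h1
    refine ⟨by omega, hle, fun h => ?_⟩
    omega
  -- the nonabelian case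
  have hyQ₁ : ∀ g ∈ Q₁, y * g * y⁻¹ ∈ Q₁ := conj_pow_mem hminQ.hx _
  -- fixed points are central in `G`
  have hfixcenter : ∀ c ∈ Q₁, y * c * y⁻¹ = c → c ∈ Subgroup.center G := by
    intro c hc hcy
    have h1 : c ∈ Subgroup.centralizer ({y} : Set G) := by
      rw [Subgroup.mem_centralizer_singleton_iff]
      calc c * y = (y * c * y⁻¹) * y := by rw [hcy]
        _ = y * c := by group
    rw [hC y (pow_mem (Subgroup.mem_zpowers x) _) hy1] at h1
    obtain ⟨u, hu, z, hz, rfl⟩ := Subgroup.mem_sup_of_normal_right.mp h1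
    obtain ⟨k, hk⟩ := hQ₁ ⟨u * z, hc⟩
    have hk' : (u * z) ^ q ^ k = 1 := by
      have := congrArg Subtype.val hk
      simpa using this
    have hcomm : Commute u z := Subgroup.mem_center_iff.mp hz u
    rw [hcomm.mul_pow] at hk'
    have hup : u ^ p ^ n = 1 := by
      obtain ⟨i, rfl⟩ := Subgroup.mem_zpowers_iff.mp hu
      rw [← zpow_natCast, zpow_comm, zpow_natCast, hxpow, one_zpow]
    have hw : (z ^ q ^ k) ^ p ^ n = 1 := by
      have h2 : z ^ q ^ k = (u ^ q ^ k)⁻¹ := eq_inv_of_mul_eq_one_right hk'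
      rw [h2, inv_pow, ← pow_mul, mul_comm, pow_mul, hup, one_pow, inv_one]
    have hw1 : z ^ q ^ k = 1 := hcentral1 _ (pow_mem hz _) n hw
    have hu1 : u ^ q ^ k = 1 := by
      rw [hw1, mul_one] at hk'
      exact hk'
    have h3 : orderOf u ∣ p ^ n := orderOf_dvd_of_pow_eq_one hup
    have h4 : orderOf u ∣ q ^ k := orderOf_dvd_of_pow_eq_one hu1
    have h5 : orderOf u = 1 := Nat.eq_one_of_dvd_coprimes (Nat.Coprime.pow n k hpq') h3 h4
    rw [orderOf_eq_one_iff.mp h5, one_mul]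
    exact hz
  -- scalars
  have hscalar : ∀ c ∈ Subgroup.center G, ∃ t : K, ρ c = t • 1 := by
    intro c hc
    exact schur hsimple (ρ c) (fun g => by
      have h1 : c * (g : G) = g * c := (Subgroup.mem_center_iff.mp hc g).symm
      change ρ c * ρ g = ρ g * ρ c
      rw [← map_mul, ← map_mul, h1])
  let C : Subgroup Q₁ := (Subgroup.centralizer ({y} : Set G)).subgroupOf Q₁
  have memC : ∀ c : Q₁, c ∈ C ↔ y * c * y⁻¹ = c := by
    intro c
    change (c : G) ∈ Subgroup.centralizer ({y} : Set G) ↔ _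
    rw [Subgroup.mem_centralizer_singleton_iff]
    constructor
    · intro h1
      rw [← h1]
      group
    · intro h1
      calc (c : G) * y = (y * c * y⁻¹) * y := by rw [h1]
        _ = y * c := by group
  have hUQ : ∀ g ∈ Q₁, ∀ v ∈ (⊤ : Submodule K V), ρ g v ∈ (⊤ : Submodule K V) := fun _ _ _ _ => trivial
  have hH : IsHeis (qRep ρ Q₁ ⊤ hUQ) C := by
    refine ⟨?_, ?_, ?_⟩
    · intro c hc
      obtain ⟨t, ht⟩ := hscalar c (hfixcenter c c.2 ((memC c).mp hc))
      refine ⟨t, ?_⟩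
      ext v
      simp [ht]
    · intro u g
      rw [memC]
      exact comm_fixed hminQ hQ₁ u.2 g.2
    · intro g hg
      by_contra hcon
      push Not at hcon
      apply hg
      rw [memC]
      -- `g` is central in `Q₁`
      have hgc : ∀ u ∈ Q₁, u * g = g * u := by
        intro u hu
        have h1 := hcon ⟨u, hu⟩
        have h2 : ρ (u * (g : G) * u⁻¹ * (g : G)⁻¹) = 1 := by
          ext v
          have := congrArg (fun f : End K (⊤ : Submodule K V) => ((f ⟨v, trivial⟩ : (⊤ : Submodule K V)) : V)) h1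
          simpa using this
        have h3 : u * (g : G) * u⁻¹ * (g : G)⁻¹ = 1 := hfaith (by rw [h2, map_one])
        have h4 : u * (g : G) * u⁻¹ = g := eq_of_mul_inv_eq_one h3
        calc u * (g : G) = u * g * u⁻¹ * u := by group
          _ = g * u := by rw [h4]
      let Z₁ : Subgroup G := Q₁ ⊓ Subgroup.centralizer (Q₁ : Set G)
      have hZ₁ : Z₁ ≠ Q₁ := by
        intro heq
        apply hQc
        intro a ha b hb
        have h1 : a ∈ Z₁ := by rw [heq]; exact ha
        exact (Subgroup.mem_centralizer_iff.mp (Subgroup.mem_inf.mp h1).2 b hb).symm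
      have hZ₁x : ∀ c ∈ Z₁, x * c * x⁻¹ ∈ Z₁ := by
        intro c hc
        obtain ⟨h1, h2⟩ := Subgroup.mem_inf.mp hc
        refine Subgroup.mem_inf.mpr ⟨hminQ.hx c h1, ?_⟩
        rw [Subgroup.mem_centralizer_iff]
        intro h hh
        have h3 : x⁻¹ * h * x ∈ Q₁ := conj_inv_mem hminQ.hx h hh
        have h4 := Subgroup.mem_centralizer_iff.mp h2 _ h3
        calc h * (x * c * x⁻¹) = x * ((x⁻¹ * h * x) * c) * x⁻¹ := by group
          _ = x * (c * (x⁻¹ * h * x)) * x⁻¹ := by rw [h4]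
          _ = _ := by group
      refine hminQ.min Z₁ inf_le_left hZ₁ hZ₁x g (Subgroup.mem_inf.mpr ⟨g.2, ?_⟩)
      rw [Subgroup.mem_centralizer_iff]
      intro h hh
      exact hgc h hh
  have hCtop : C ≠ ⊤ := by
    intro htop
    obtain ⟨g, hg, hgy⟩ := hminQ.ne
    have h1 : (⟨g, hg⟩ : Q₁) ∈ C := by rw [htop]; trivial
    exact hgy ((memC _).mp h1)
  have hinvC : ∀ c' : Q₁, conjAutOf Q₁ x hminQ.hx c' ∈ C ↔ c' ∈ C := by
    intro c'
    rw [memC, memC, conjAutOf_coe]
    have e : y * (x * (c' : G) * x⁻¹) * y⁻¹ = x * (y * c' * y⁻¹) * x⁻¹ := by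
      have : y = x * y * x⁻¹ := by rw [hxy]; group
      calc y * (x * (c' : G) * x⁻¹) * y⁻¹ = (x * y * x⁻¹) * (x * c' * x⁻¹) * (x * y * x⁻¹)⁻¹ := by
            rw [← this]
        _ = _ := by group
    rw [e]
    constructor
    · intro h1
      exact mul_left_cancel (mul_right_cancel h1)
    · intro h1
      rw [h1]
  have hCy : ∀ c' : Q₁, (x ^ p ^ (n - 1)) * (c' : G) * (x ^ p ^ (n - 1))⁻¹ = c' → c' ∈ C :=
    fun c' h1 => (memC c').mpr h1
  have hU0 : (⊤ : Submodule K V) ≠ ⊥ := top_ne_bot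
  rcases level3 ρ x hnpos hxo Q₁ hQ₁K hminQ.hx ⊤ hU0 (fun _ _ => trivial) hUQ C hH hCtop hinvC hCy s
      (fun v _ => by rw [hs]; rfl) with h1 | ⟨h1, D, hD1, hD2, hD3⟩
  · have h2 : s = p ^ n := le_antisymm hle h1
    refine ⟨by omega, hle, fun h => ?_⟩
    omega
  · refine ⟨h1, hle, fun _ => ⟨?_, ?_⟩⟩
    · obtain ⟨k, hk⟩ := IsPGroup.iff_card.mp hQ₁
      have h4 : D * D ∣ q ^ k := by
        rw [hD2, ← hk]
        exact Subgroup.card_quotient_dvd_card C
      have h7 : D ∣ q ^ k := dvd_trans (Dvd.intro _ rfl) h4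
      obtain ⟨m, _, hm⟩ := (Nat.dvd_prime_pow hq.out).mp h7
      exact ⟨m, by rw [← hD1, hm]⟩
    · intro hcomm
      apply hQc
      intro a ha b hb
      have := hcomm.is_comm.comm (⟨a, hQ₁Q ha⟩ : Q) ⟨b, hQ₁Q hb⟩
      exact congrArg Subtype.val this

end Cfsg.Agent.S4282
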