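import Cfsg.Statements.S4283
import Mathlib
import Cfsg.Agent.Lib.Frobenius.Basic

set_option autoImplicit false
open Cfsg

namespace Cfsg.Agent.S4283

open Cfsg.Agent.Lib.Frobenius.Basic

/-- Let G be a finite group with centre Z and let K, H be abelian subgroups of G containing Z such that G/Z is a Frobenius group with complement H/Z and kernel K/Z. Then the conjugacy class sizes of G are exactly 1, [G : K] and [G : H], and these two indices are coprime. (This is the converse half of the characterization of finite groups whose conjugacy class sizes are exactly 1, m and n with m and n coprime.) -/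
theorem result {G : Type*} [Group G] [Finite G] (K H : Subgroup G) (hZK : Subgroup.center G ≤ K) (hZH : Subgroup.center G ≤ H) (hK : IsMulCommutative K) (hH : IsMulCommutative H) (hFrob : Cfsg.IsFrobeniusComplement (H.map (QuotientGroup.mk' (Subgroup.center G)))) (hker : Cfsg.frobeniusKernel (H.map (QuotientGroup.mk' (Subgroup.center G))) = (K.map (QuotientGroup.mk' (Subgroup.center G)) : Set (G ⧸ Subgroup.center G))) : Set.range (fun x : G => (Subgroup.centralizer ({x} : Set G)).index) = ({1, K.index, H.index} : Set ℕ) ∧ K.index.Coprime H.index := by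
  classical
  set π := QuotientGroup.mk' (Subgroup.center G) with hπ
  set Hb := H.map π with hHb
  set Kb := K.map π with hKb
  have hker' : (Kb : Set (G ⧸ Subgroup.center G)) = frobeniusKernel Hb := hker.symm
  have hπker : π.ker = Subgroup.center G := QuotientGroup.ker_mk' _
  have hπ1 : ∀ x, π x = 1 ↔ x ∈ Subgroup.center G := by
    intro x
    exact QuotientGroup.eq_one_iff x
  have hsurj : Function.Surjective π := QuotientGroup.mk'_surjective _
  have hcomm : ∀ {x y : G}, x * y = y * x → π x * π y = π y * π x := by
    intro x y h
    rw [← map_mul, ← map_mul, h]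
  have hlift : ∀ (A : Subgroup G), Subgroup.center G ≤ A → ∀ x, π x ∈ A.map π → x ∈ A := by
    rintro A hA x ⟨a, ha, hax⟩
    have h1 : π (a⁻¹ * x) = 1 := by
      rw [map_mul, map_inv, hax, inv_mul_cancel]
    have h2 := hA ((hπ1 _).mp h1)
    have h3 : x = a * (a⁻¹ * x) := by group
    rw [h3]
    exact A.mul_mem ha h2
  have hindex : ∀ (A : Subgroup G), Subgroup.center G ≤ A → (A.map π).index = A.index := by
    intro A hA
    rw [Subgroup.index_map, hπker, sup_eq_left.mpr hA, MonoidHom.range_eq_top.mpr hsurj,
      Subgroup.index_top, mul_one]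
  have hKi : Kb.index = K.index := hindex K hZK
  have hHi : Hb.index = H.index := hindex H hZH
  have hcompl : Kb.IsComplement' Hb := kernel_isComplement' hFrob hker'
  have hcopr : K.index.Coprime H.index := by
    rw [← hKi, ← hHi, hcompl.symm.index_eq_card]
    exact (coprime_index_card hFrob).symm
  have hCK : ∀ x, x ∈ K → x ∉ Subgroup.center G → Subgroup.centralizer ({x} : Set G) = K := by
    intro x hx hxZ
    have hx1 : π x ≠ 1 := fun h => hxZ ((hπ1 x).mp h)
    have hxker : π x ∈ frobeniusKernel Hb := by
      rw [← hker']
      exact ⟨x, hx, rfl⟩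
    apply le_antisymm
    · intro y hy
      have hxy : y * x = x * y := Subgroup.mem_centralizer_iff.mp hy x rfl |>.symm
      apply hlift K hZK
      by_contra hyK
      have hyker : π y ∉ frobeniusKernel Hb := by
        rw [← hker']
        exact hyK
      simp only [frobeniusKernel, Set.mem_ofPred_eq, not_or, not_forall, not_not] at hyker
      obtain ⟨hy1, g, hg⟩ := hyker
      rw [mem_conj_smul_iff] at hg
      have h1 : g⁻¹ * π x * g ∈ frobeniusKernel Hb := by
        simpa using conj_mem_frobeniusKernel hxker g⁻¹
      have h2 : (g⁻¹ * π y * g) * (g⁻¹ * π x * g) = (g⁻¹ * π x * g) * (g⁻¹ * π y * g) := by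
        have := hcomm hxy
        calc (g⁻¹ * π y * g) * (g⁻¹ * π x * g) = g⁻¹ * (π y * π x) * g := by group
          _ = g⁻¹ * (π x * π y) * g := by rw [this]
          _ = _ := by group
      rcases eq_one_of_commute_of_mem_kernel hFrob h1 hg h2 with h3 | h3
      · apply hy1
        have := conj_eq_one_iff.mp (by simpa using h3 : g⁻¹ * π y * g⁻¹⁻¹ = 1)
        exact this
      · apply hx1
        have := conj_eq_one_iff.mp (by simpa using h3 : g⁻¹ * π x * g⁻¹⁻¹ = 1)
        exact this
    · intro y hy
      rw [Subgroup.mem_centralizer_iff]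
      intro z hz
      rw [Set.mem_singleton_iff.mp hz]
      have := hK.is_comm.comm (⟨x, hx⟩ : K) ⟨y, hy⟩
      exact congrArg Subtype.val this
  have hCH : ∀ x, x ∈ H → x ∉ Subgroup.center G → Subgroup.centralizer ({x} : Set G) = H := by
    intro x hx hxZ
    have hx1 : π x ≠ 1 := fun h => hxZ ((hπ1 x).mp h)
    have hxb : π x ∈ Hb := ⟨x, hx, rfl⟩
    apply le_antisymm
    · intro y hy
      have hxy : y * x = x * y := Subgroup.mem_centralizer_iff.mp hy x rfl |>.symm
      apply hlift H hZH
      apply IsFrobeniusComplement.mem_of_conj hFrob hxb hx1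
      have : (π y)⁻¹ * π x * π y = π x := by
        calc (π y)⁻¹ * π x * π y = (π y)⁻¹ * (π x * π y) := by group
          _ = (π y)⁻¹ * (π y * π x) := by rw [hcomm hxy]
          _ = π x := by group
      rw [this]
      exact hxb
    · intro y hy
      rw [Subgroup.mem_centralizer_iff]
      intro z hz
      rw [Set.mem_singleton_iff.mp hz]
      have := hH.is_comm.comm (⟨x, hx⟩ : H) ⟨y, hy⟩
      exact congrArg Subtype.val this
  refine ⟨?_, hcopr⟩
  ext n
  simp only [Set.mem_range, Set.mem_insert_iff, Set.mem_singleton_iff]
  constructor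
  · rintro ⟨x, rfl⟩
    by_cases hxZ : x ∈ Subgroup.center G
    · left
      have : Subgroup.centralizer ({x} : Set G) = ⊤ := by
        rw [eq_top_iff]
        intro y _
        rw [Subgroup.mem_centralizer_iff]
        intro z hz
        rw [Set.mem_singleton_iff.mp hz]
        exact (Subgroup.mem_center_iff.mp hxZ y).symm
      rw [this, Subgroup.index_top]
    by_cases hxK : π x ∈ Kb
    · right; left
      rw [hCK x (hlift K hZK x hxK) hxZ]
    · right; right
      have hx1 : π x ∉ frobeniusKernel Hb := by
        rw [← hker']
        exact hxK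
      simp only [frobeniusKernel, Set.mem_ofPred_eq, not_or, not_forall, not_not] at hx1
      obtain ⟨hx1, g, hg⟩ := hx1
      rw [mem_conj_smul_iff] at hg
      obtain ⟨g, rfl⟩ := hsurj g
      have hx' : g⁻¹ * x * g ∈ H := by
        apply hlift H hZH
        rw [map_mul, map_mul, map_inv]
        exact hg
      have hxZ' : g⁻¹ * x * g ∉ Subgroup.center G := by
        intro h
        apply hx1
        have h2 := (hπ1 _).mpr h
        simp only [map_mul, map_inv] at h2
        exact conj_eq_one_iff.mp (by simpa using h2 : (π g)⁻¹ * π x * (π g)⁻¹⁻¹ = 1)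
      rw [← hCH _ hx' hxZ']
      have hmap : (Subgroup.centralizer ({g⁻¹ * x * g} : Set G)).map
          (MulAut.conj g : G ≃* G).toMonoidHom = Subgroup.centralizer ({x} : Set G) := by
        ext y
        constructor
        · rintro ⟨w, hw, rfl⟩
          rw [Subgroup.mem_centralizer_iff]
          intro z hz
          rw [Set.mem_singleton_iff.mp hz]
          have h1 := Subgroup.mem_centralizer_iff.mp hw _ rfl
          show x * (g * w * g⁻¹) = (g * w * g⁻¹) * x
          calc x * (g * w * g⁻¹) = g * ((g⁻¹ * x * g) * w) * g⁻¹ := by group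
            _ = g * (w * (g⁻¹ * x * g)) * g⁻¹ := by rw [h1]
            _ = _ := by group
        · intro hy
          refine ⟨g⁻¹ * y * g, ?_, ?_⟩
          · rw [SetLike.mem_coe, Subgroup.mem_centralizer_iff]
            intro z hz
            rw [Set.mem_singleton_iff.mp hz]
            have h1 := Subgroup.mem_centralizer_iff.mp hy _ rfl
            calc g⁻¹ * x * g * (g⁻¹ * y * g) = g⁻¹ * (x * y) * g := by group
              _ = g⁻¹ * (y * x) * g := by rw [h1]
              _ = _ := by group
          · show g * (g⁻¹ * y * g) * g⁻¹ = y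
            group
      rw [← hmap]
      exact Subgroup.index_map_equiv _ (MulAut.conj g)
  · rintro (rfl | rfl | rfl)
    · refine ⟨1, ?_⟩
      have : Subgroup.centralizer ({1} : Set G) = ⊤ := by
        rw [eq_top_iff]
        intro y _
        rw [Subgroup.mem_centralizer_iff]
        intro z hz
        rw [Set.mem_singleton_iff.mp hz]
        simp
      simp only [this, Subgroup.index_top]
    · -- an element of `K` outside the centre
      have hne : ∃ x ∈ K, x ∉ Subgroup.center G := by
        by_contra hno
        push Not at hno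
        have hbot : Kb = ⊥ := by
          rw [eq_bot_iff]
          rintro _ ⟨x, hx, rfl⟩
          exact (hπ1 x).mpr (hno x hx)
        have h1 : Hb.index = 1 := by
          rw [hcompl.index_eq_card, hbot, Subgroup.card_bot]
        exact hFrob.2.1 (Subgroup.index_eq_one.mp h1)
      obtain ⟨x, hx, hxZ⟩ := hne
      exact ⟨x, by simp only [hCK x hx hxZ]⟩
    · have hne : ∃ x ∈ H, x ∉ Subgroup.center G := by
        by_contra hno
        push Not at hno
        have hbot : Hb = ⊥ := by
          rw [eq_bot_iff]
          rintro _ ⟨x, hx, rfl⟩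
          exact (hπ1 x).mpr (hno x hx)
        exact hFrob.1 hbot
      obtain ⟨x, hx, hxZ⟩ := hne
      exact ⟨x, by simp only [hCH x hx hxZ]⟩

end Cfsg.Agent.S4283
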