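import Cfsg.Statements.S4284
import Cfsg.Agent.Lib.Nilpotent.OneMMN.PartC3
import Cfsg.Agent.Lib.Nilpotent.OneMMN.PartD2

set_option autoImplicit false
open Cfsg

namespace Cfsg.Agent.S4284

/-- Let G be a finite group with no nontrivial abelian direct factor whose conjugacy class sizes are exactly 1, m and m·n with m, n > 1 coprime. Then m is a prime p dividing n − 1; the elements whose class has size 1 or p form an abelian normal subgroup of index p; G has a normal p-complement; and the commutator subgroup of a Sylow p-subgroup of G has order p. -/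
theorem result {G : Type*} [Group G] [Finite G] (hnodf : ∀ A B : Subgroup G, A.Normal → B.Normal → A ⊓ B = ⊥ → A ⊔ B = ⊤ → IsMulCommutative A → A = ⊥) (m n : ℕ) (hm : 1 < m) (hn : 1 < n) (hcop : m.Coprime n) (h : Set.range (fun x : G => (Subgroup.centralizer ({x} : Set G)).index) = ({1, m, m * n} : Set ℕ)) : m.Prime ∧ m ∣ n - 1 ∧ (∃ M : Subgroup G, M.Normal ∧ (M : Set G) = {x : G | (Subgroup.centralizer ({x} : Set G)).index = 1 ∨ (Subgroup.centralizer ({x} : Set G)).index = m} ∧ M.index = m ∧ IsMulCommutative M) ∧ (∃ N : Subgroup G, N.Normal ∧ (Nat.card N).Coprime m ∧ ∃ a : ℕ, N.index = m ^ a) ∧ ∀ P : Sylow m G, Nat.card (commutator (P : Subgroup G)) = m := by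
  have H : Cfsg.Agent.Lib.Nilpotent.OneMMN.Hyp G m n :=
    { hm := hm
      hn := hn
      cop := hcop
      size := fun x => by
        have h1 : (Subgroup.centralizer ({x} : Set G)).index ∈
            Set.range (fun x : G => (Subgroup.centralizer ({x} : Set G)).index) := ⟨x, rfl⟩
        rw [h] at h1
        simpa using h1
      exm := by
        have h1 : m ∈ ({1, m, m * n} : Set ℕ) := by simp
        rw [← h] at h1
        obtain ⟨x, hx⟩ := h1
        exact ⟨x, hx⟩
      exmn := by
        have h1 : m * n ∈ ({1, m, m * n} : Set ℕ) := by simp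
        rw [← h] at h1
        obtain ⟨x, hx⟩ := h1
        exact ⟨x, hx⟩ }
  obtain ⟨p, a, hp, hma⟩ := H.exists_prime_pow_m
  rcases H.dichotomy with ⟨y₀, hy₀, hT⟩ | ⟨r, e, hr, hne, hS2⟩
  · exact Cfsg.Agent.Lib.Nilpotent.OneMMN.S1Ctx.main
      (⟨hp, hma, hy₀, hT⟩ : Cfsg.Agent.Lib.Nilpotent.OneMMN.S1Ctx H p a y₀)
  · exfalso
    have ha0 : a ≠ 0 := by
      rintro rfl
      rw [pow_zero] at hma
      omega
    have he0 : e ≠ 0 := by
      rintro rfl
      rw [pow_zero] at hne
      omega
    have hqr : p ≠ r := by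
      rintro rfl
      exact H.not_dvd_n hp (hma ▸ dvd_pow_self p ha0) (hne ▸ dvd_pow_self p he0)
    haveI : Fact p.Prime := ⟨hp⟩
    haveI : Fact r.Prime := ⟨hr⟩
    exact Cfsg.Agent.Lib.Nilpotent.OneMMN.S2Ctx.false'
      (⟨hp, hr, hqr, hma, hne, hS2⟩ : Cfsg.Agent.Lib.Nilpotent.OneMMN.S2Ctx H p r a e)

end Cfsg.Agent.S4284
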