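import Cfsg.Statements.S4293
import Mathlib
import Cfsg.Agent.Lib.Frobenius.Construct

set_option autoImplicit false
set_option linter.style.haveILetI false
open Cfsg

namespace Cfsg.Agent.S4293

variable {D : Type*} [DivisionRing D] (H : Subgroup Dˣ)

/-- The additive span of `H` inside `D`. -/
abbrev Lam : Submodule ℤ D := Submodule.span ℤ ((fun h : H => (((h : Dˣ) : D))) '' Set.univ)

theorem mem_mulLeft (h : H) (x : D) (hx : x ∈ Lam H) : ((h : Dˣ) : D) * x ∈ Lam H := by
  induction hx using Submodule.span_induction with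
  | mem y hy =>
    obtain ⟨k, -, rfl⟩ := hy
    apply Submodule.subset_span
    refine ⟨h * k, trivial, ?_⟩
    simp
  | zero => simp
  | add a b _ _ ha hb =>
    rw [mul_add]
    exact Submodule.add_mem _ ha hb
  | smul n a _ ha =>
    rw [mul_smul_comm]
    exact Submodule.smul_mem _ _ ha

/-- The representation of `H` on its span. -/
def lamRep : Representation ℤ H (Lam H) where
  toFun h := (LinearMap.mulLeft ℤ ((h : Dˣ) : D)).restrict (fun x hx => mem_mulLeft H h x hx)
  map_one' := by
    ext x
    simp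
  map_mul' a b := by
    ext x
    show (((a * b : H) : Dˣ) : D) * (x : D) = ((a : Dˣ) : D) * (((b : Dˣ) : D) * (x : D))
    simp [mul_assoc]

theorem lamRep_apply (h : H) (x : Lam H) : ((lamRep H h x : Lam H) : D) = ((h : Dˣ) : D) * x := rfl

/-- Key identity. -/
theorem key_identity {u : D} {n : ℕ} (hu1 : u ≠ 1) (hun : u ^ n = 1) :
    (∑ i ∈ Finset.range n, ∑ j ∈ Finset.range i, u ^ j) * (u - 1) = -(n : D) := by
  have h1 : (∑ i ∈ Finset.range n, u ^ i) * (u - 1) = 0 := by
    rw [geom_sum_mul, hun, sub_self]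
  have h2 : ∑ i ∈ Finset.range n, u ^ i = 0 := by
    rcases mul_eq_zero.mp h1 with h | h
    · exact h
    · exact absurd (sub_eq_zero.mp h) hu1
  rw [Finset.sum_mul]
  have h3 : ∀ i ∈ Finset.range n, (∑ j ∈ Finset.range i, u ^ j) * (u - 1) = u ^ i - 1 :=
    fun i _ => geom_sum_mul u i
  rw [Finset.sum_congr rfl h3, Finset.sum_sub_distrib, h2]
  simp

theorem one_mem_lam : (1 : D) ∈ Lam H := by
  apply Submodule.subset_span
  exact ⟨1, trivial, by simp⟩

/-- A nontrivial finite subgroup of the multiplicative group of a division ring occurs as a Frobenius complement of some finite Frobenius group. -/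
theorem result {D : Type*} [DivisionRing D] (H : Subgroup Dˣ) [Finite H] (hH : H ≠ ⊥) :
    ∃ (L : Type) (_ : Group L) (_ : Finite L) (C : Subgroup L), Cfsg.IsFrobeniusComplement C ∧ Nonempty (H ≃* C) := by
  classical
  haveI : Nontrivial H := by
    obtain ⟨h, hh⟩ := Subgroup.ne_bot_iff_exists_ne_one.mp hH
    exact ⟨⟨h, 1, hh⟩⟩
  haveI hfin : Module.Finite ℤ (Lam H) :=
    Module.Finite.span_of_finite ℤ (Set.toFinite _)
  have hne : ∀ h : H, h ≠ 1 → ((h : Dˣ) : D) - 1 ≠ 0 := by
    intro h hh h0
    apply hh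
    apply Subtype.ext
    apply Units.ext
    simpa [sub_eq_zero] using h0
  rcases CharP.exists D with ⟨q, hq⟩
  rcases CharP.char_is_prime_or_zero D q with hqp | rfl
  · -- characteristic `q`
    haveI : Fact q.Prime := ⟨hqp⟩
    haveI : Nontrivial (Lam H) := ⟨⟨⟨1, one_mem_lam H⟩, 0, fun h => one_ne_zero (congrArg Subtype.val h)⟩⟩
    haveI : Finite (Lam H) := by
      apply Module.finite_of_fg_torsion
      intro x
      refine ⟨⟨(q : ℤ), mem_nonZeroDivisors_of_ne_zero (by exact_mod_cast hqp.ne_zero)⟩, ?_⟩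
      apply Subtype.ext
      show (q : ℤ) • (x : D) = 0
      rw [zsmul_eq_mul]
      simp
    apply Lib.Frobenius.Construct.exists_frobenius_of_rep (lamRep H)
    intro c hc v hv
    have h1 : ((c : Dˣ) : D) * (v : D) = v := congrArg Subtype.val hv
    have h2 : (((c : Dˣ) : D) - 1) * (v : D) = 0 := by
      rw [sub_mul, h1, one_mul, sub_self]
    have h3 := (mul_eq_zero.mp h2).resolve_left (hne c hc)
    exact Subtype.ext h3
  · -- characteristic zero
    haveI : CharZero D := CharP.charP_to_charZero D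
    obtain ⟨p, hpgt, hp⟩ := Nat.exists_infinite_primes (Nat.card H + 1)
    haveI : Fact p.Prime := ⟨hp⟩
    have hpcop : (Nat.card H).Coprime p := by
      apply Nat.Coprime.symm
      apply (Nat.Prime.coprime_iff_not_dvd hp).mpr
      intro hdvd
      have := Nat.le_of_dvd Nat.card_pos hdvd
      omega
    let W : Submodule ℤ (Lam H) := LinearMap.range ((p : ℤ) • (LinearMap.id : Lam H →ₗ[ℤ] Lam H))
    have hW : ∀ x : Lam H, x ∈ W ↔ ∃ y : Lam H, (p : ℤ) • y = x := by
      intro x
      simp [W, LinearMap.mem_range]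
    have hle : ∀ g : H, W ≤ W.comap (lamRep H g) := by
      intro g x hx
      obtain ⟨y, rfl⟩ := (hW x).mp hx
      rw [Submodule.mem_comap, hW]
      exact ⟨lamRep H g y, (map_zsmul (lamRep H g) _ y).symm⟩
    haveI : Nontrivial (Lam H) := ⟨⟨⟨1, one_mem_lam H⟩, 0, fun h => one_ne_zero (congrArg Subtype.val h)⟩⟩
    have hWtop : W ≠ ⊤ := by
      intro htop
      let b := Module.Free.chooseBasis ℤ (Lam H)
      obtain ⟨i0⟩ : Nonempty (Module.Free.ChooseBasisIndex ℤ (Lam H)) := inferInstance
      have h1 : b i0 ∈ W := by rw [htop]; trivial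
      obtain ⟨y, hy⟩ := (hW _).mp h1
      have h2 : b.repr (b i0) i0 = 1 := by simp
      rw [← hy] at h2
      have h3 : (p : ℤ) * b.repr y i0 = 1 := by simpa using h2
      have h4 : (p : ℤ) ∣ 1 := ⟨_, h3.symm⟩
      have h5 : p ∣ 1 := by exact_mod_cast h4
      exact hp.one_lt.ne' (Nat.dvd_one.mp h5)
    haveI : Nontrivial (Lam H ⧸ W) := Submodule.Quotient.nontrivial_iff.mpr hWtop
    haveI : Finite (Lam H ⧸ W) := by
      apply Module.finite_of_fg_torsion
      intro x
      refine ⟨⟨(p : ℤ), mem_nonZeroDivisors_of_ne_zero (by exact_mod_cast hp.ne_zero)⟩, ?_⟩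
      obtain ⟨v, rfl⟩ := Submodule.Quotient.mk_surjective W x
      show (p : ℤ) • (Submodule.Quotient.mk v : Lam H ⧸ W) = 0
      rw [← Submodule.Quotient.mk_smul, Submodule.Quotient.mk_eq_zero, hW]
      exact ⟨v, rfl⟩
    apply Lib.Frobenius.Construct.exists_frobenius_of_rep ((lamRep H).quotient W hle)
    intro c hc x hx
    obtain ⟨v, rfl⟩ := Submodule.Quotient.mk_surjective W x
    have h1 : (Submodule.Quotient.mk (lamRep H c v) : Lam H ⧸ W) = Submodule.Quotient.mk v := hx
    rw [Submodule.Quotient.eq, hW] at h1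
    obtain ⟨y, hy⟩ := h1
    have hy' : (p : D) * (y : D) = (((c : Dˣ) : D) - 1) * (v : D) := by
      have := congrArg (Subtype.val) hy
      simp only [Submodule.coe_sub, lamRep_apply, SetLike.val_smul, zsmul_eq_mul, Int.cast_natCast] at this
      rw [this, sub_mul, one_mul]
    have hcn : ((c : Dˣ) : D) ^ Nat.card H = 1 := by
      have : c ^ Nat.card H = 1 := pow_card_eq_one'
      have h2 : ((c : Dˣ)) ^ Nat.card H = 1 := by
        have h8 := congrArg (Subtype.val) this
        simpa only [Subgroup.coe_pow, Subgroup.coe_one] using h8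
      have h3 := congrArg (Units.val) h2
      simpa only [Units.val_pow_eq_pow_val, Units.val_one] using h3
    have hc1 : ((c : Dˣ) : D) ≠ 1 := fun h0 => hne c hc (by rw [h0, sub_self])
    have hkey := key_identity hc1 hcn
    set u : D := ((c : Dˣ) : D) with hu
    set w : D := ∑ i ∈ Finset.range (Nat.card H), ∑ j ∈ Finset.range i, u ^ j with hw
    -- `w * y ∈ Λ`
    have hwy : w * (y : D) ∈ Lam H := by
      rw [hw, Finset.sum_mul]
      refine Submodule.sum_mem _ fun i _ => ?_
      rw [Finset.sum_mul]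
      refine Submodule.sum_mem _ fun j _ => ?_
      have := mem_mulLeft H (c ^ j) y y.2
      simpa [hu] using this
    have h3 : (Nat.card H : D) * (v : D) = (p : D) * (-(w * (y : D))) := by
      have h4 : w * ((u - 1) * (v : D)) = -(Nat.card H : D) * (v : D) := by
        rw [← mul_assoc, hkey]
      rw [← hy'] at h4
      have h5 : w * ((p : D) * (y : D)) = (p : D) * (w * (y : D)) := by
        rw [← mul_assoc, ← mul_assoc, (Nat.cast_commute p w).eq]
      rw [h5] at h4
      rw [mul_neg, h4]
      simp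
    -- Bezout
    have hbez : (Nat.gcd (Nat.card H) p : ℤ) = (Nat.card H : ℤ) * Nat.gcdA (Nat.card H) p
        + (p : ℤ) * Nat.gcdB (Nat.card H) p := Nat.gcd_eq_gcd_ab _ _
    rw [Nat.Coprime.gcd_eq_one hpcop] at hbez
    set a := Nat.gcdA (Nat.card H) p
    set b := Nat.gcdB (Nat.card H) p
    have h6 : (v : D) = (p : D) * ((a : D) * (-(w * (y : D))) + (b : D) * (v : D)) := by
      have h7 : ((Nat.card H : D) * (a : D) + (p : D) * (b : D)) = 1 := by
        have := congrArg (fun z : ℤ => (z : D)) hbez
        simpa using this.symm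
      calc (v : D) = ((Nat.card H : D) * (a : D) + (p : D) * (b : D)) * (v : D) := by
            rw [h7, one_mul]
        _ = (a : D) * ((Nat.card H : D) * (v : D)) + (p : D) * ((b : D) * (v : D)) := by
            rw [add_mul, mul_assoc (p : D)]
            congr 1
            rw [← mul_assoc, Int.cast_comm a]
        _ = _ := by
            rw [h3, ← mul_assoc (a : D), Int.cast_comm a (p : D), mul_assoc, ← mul_add]
    have hmem : (v : Lam H) ∈ W := by
      rw [hW]
      refine ⟨⟨(a : D) * (-(w * (y : D))) + (b : D) * (v : D), ?_⟩, ?_⟩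
      · apply Submodule.add_mem
        · rw [← zsmul_eq_mul]
          exact Submodule.smul_mem _ _ (Submodule.neg_mem _ hwy)
        · rw [← zsmul_eq_mul]
          exact Submodule.smul_mem _ _ v.2
      · apply Subtype.ext
        show (p : ℤ) • ((a : D) * (-(w * (y : D))) + (b : D) * (v : D)) = v
        rw [zsmul_eq_mul, Int.cast_natCast]
        exact h6.symm
    exact (Submodule.Quotient.mk_eq_zero W).mpr hmem

end Cfsg.Agent.S4293
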