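import Cfsg.Statements.S4294
import Mathlib
import Cfsg.Agent.Lib.Amitsur.Main

set_option autoImplicit false
open Cfsg

namespace Cfsg.Agent.S4294

/-- A finite non-solvable subgroup of the multiplicative group of a division ring is isomorphic to the binary icosahedral group SL(2,5). -/
theorem result {D : Type*} [DivisionRing D] (H : Subgroup Dˣ) [Finite H] (hH : ¬ Group.IsSolvable H) :
    Nonempty (H ≃* Matrix.SpecialLinearGroup (Fin 2) (ZMod 5)) := by
  classical
  obtain ⟨ℓ, hℓ⟩ := CharP.exists D
  by_cases h0 : ℓ = 0
  · subst h0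
    haveI : CharZero D := CharP.charP_to_charZero D
    exact Cfsg.Agent.Lib.Amitsur.amitsur_char_zero H hH
  · exact (hH (Group.isSolvable_of_comm (Cfsg.Agent.Lib.Amitsur.comm_of_char H h0))).elim

end Cfsg.Agent.S4294
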