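import Cfsg.Statements.S4295
import Mathlib
import Cfsg.Agent.Lib.Frobenius.Q8Module
import Cfsg.Agent.Lib.Frobenius.QuatComplement

set_option autoImplicit false
open Cfsg

namespace Cfsg.Agent.S4295

open Cfsg.Agent.Lib.Frobenius.Basic Cfsg.Agent.Lib.Frobenius.QuatComplement
  Cfsg.Agent.Lib.Frobenius.Q8Module

/-- For a natural number m the following are equivalent: (a) some finite group has a Frobenius complement isomorphic to the quaternion group of order 8 whose Frobenius kernel (the identity together with the elements lying in no conjugate of the complement) has exactly m elements; (b) m is an odd perfect square greater than 1. -/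
theorem result (m : ℕ) :
    (∃ (L : Type) (_ : Group L) (_ : Finite L) (H : Subgroup L), Cfsg.IsFrobeniusComplement H ∧
        Nonempty (H ≃* QuaternionGroup 2) ∧ Nat.card (Cfsg.frobeniusKernel H) = m) ↔
    (Odd m ∧ IsSquare m ∧ 1 < m) := by
  constructor
  · rintro ⟨L, i1, i2, H, hF, ⟨e⟩, rfl⟩
    obtain ⟨i, j, hi1, hij, hi4, hrel⟩ := exists_quat_elements 2 (dvd_refl 2) (by norm_num)
    let g : QuaternionGroup 2 →* L := H.subtype.comp e.symm.toMonoidHom
    have hg : Function.Injective g := H.subtype_injective.comp e.symm.injective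
    have hgH : ∀ x, g x ∈ H := fun x => (e.symm x).2
    obtain ⟨h1, h2⟩ := kernel_odd_isSquare_of_elements hF (hgH i) (hgH j) (i := g i) (j := g j)
      (by
        rw [← map_mul]
        intro h
        exact hi1 (hg (by rw [h, map_one])))
      (by rw [← map_mul, ← map_mul, hij])
      (by rw [← map_mul, ← map_mul, hi4, map_one])
      (by rw [← map_inv, ← map_inv, ← map_mul, ← map_mul, hrel])
    refine ⟨h1, h2, ?_⟩
    rw [card_frobeniusKernel hF]
    have h3 : H.index ≠ 1 := fun h => hF.2.1 (Subgroup.index_eq_one.mp h)
    have h4 : H.index ≠ 0 := Subgroup.index_ne_zero_of_finite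
    omega
  · rintro ⟨hodd, ⟨s, rfl⟩, h1⟩
    have hs : Odd s := (Nat.odd_mul.mp hodd).1
    have hs1 : 1 < s := by
      by_contra h
      have h2 : s ≤ 1 := by omega
      have : s * s ≤ 1 * 1 := Nat.mul_le_mul h2 h2
      omega
    exact exists_q8_frobenius s hs hs1

end Cfsg.Agent.S4295
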