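import Cfsg.Statements.S4297
import Mathlib
import Cfsg.Agent.Lib.Frobenius.Construct

set_option autoImplicit false
open Cfsg

namespace Cfsg.Agent.S4297

section
variable {F : Type*} [Field F] (n : ℕ) (χ : ZMod (2 * n) → Fˣ)

/-- The two-dimensional representation of the dicyclic group attached to `χ`. -/
noncomputable def repFun (q : QuaternionGroup n) : (F × F) →ₗ[F] (F × F) :=
  match q with
  | QuaternionGroup.a i =>
    { toFun := fun v => ((χ i : F) * v.1, ((χ i)⁻¹ : Fˣ) * v.2)
      map_add' := fun v w => by ext <;> simp <;> ring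
      map_smul' := fun c v => by ext <;> simp <;> ring }
  | QuaternionGroup.xa i =>
    { toFun := fun v => (((χ i)⁻¹ : Fˣ) * v.2, -((χ i : F) * v.1))
      map_add' := fun v w => by ext <;> simp <;> ring
      map_smul' := fun c v => by ext <;> simp <;> ring }

variable {n χ}

theorem hchi_one (hadd : ∀ i j, χ (i + j) = χ i * χ j) : χ 0 = 1 := by
  have := hadd 0 0
  rw [add_zero] at this
  exact (mul_eq_left.mp this.symm)

theorem hchi_neg (hadd : ∀ i j, χ (i + j) = χ i * χ j) (i : ZMod (2 * n)) : χ (-i) = (χ i)⁻¹ := by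
  have := hadd i (-i)
  rw [add_neg_cancel, hchi_one hadd] at this
  exact eq_inv_of_mul_eq_one_right this.symm

/-- The representation. -/
noncomputable def rep (hadd : ∀ i j, χ (i + j) = χ i * χ j) (hn : χ (n : ZMod (2 * n)) = -1) :
    Representation F (QuaternionGroup n) (F × F) where
  toFun := repFun n χ
  map_one' := by
    rw [QuaternionGroup.one_def]
    ext <;> simp [repFun, hchi_one hadd, -QuaternionGroup.a_zero]
  map_mul' := by
    have hsub : ∀ i j, χ (j - i) = χ j * (χ i)⁻¹ := fun i j => by
      rw [sub_eq_add_neg, hadd, hchi_neg hadd]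
    have hsub2 : ∀ i j : ZMod (2 * n), χ ((n : ZMod (2 * n)) + j - i) = - (χ j * (χ i)⁻¹) := fun i j => by
      rw [sub_eq_add_neg, add_assoc, hadd, hn, hadd, hchi_neg hadd, neg_one_mul]
    rintro (i | i) (j | j)
    · ext <;> simp [repFun, hadd] <;> ring
    · ext <;> simp [repFun, hsub] <;> ring
    · ext <;> simp [repFun, hadd] <;> ring
    · ext <;> simp [repFun, hsub2] <;> ring

end

/-- For every n ≥ 2 the dicyclic group of order 4n (generated by an element a of order 2n and an element x with x² = aⁿ and x a x⁻¹ = a⁻¹) occurs as a Frobenius complement of some finite Frobenius group. -/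
theorem result (n : ℕ) (hn : 2 ≤ n) :
    ∃ (L : Type) (_ : Group L) (_ : Finite L) (H : Subgroup L), Cfsg.IsFrobeniusComplement H ∧ Nonempty (H ≃* QuaternionGroup n) := by
  classical
  haveI : NeZero n := ⟨by omega⟩
  haveI : NeZero (2 * n) := ⟨by omega⟩
  obtain ⟨p, hp, hp2, ζ, hζ⟩ := Lib.Frobenius.Construct.exists_prime_unit_order (2 * n) (by omega)
  haveI : Fact p.Prime := ⟨hp⟩
  let χ : ZMod (2 * n) → (ZMod p)ˣ := fun i => ζ ^ i.val
  have hmod : ∀ m : ℕ, ζ ^ (m % (2 * n)) = ζ ^ m := by
    intro m
    rw [← hζ, pow_mod_orderOf]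
  have hadd : ∀ i j, χ (i + j) = χ i * χ j := by
    intro i j
    simp only [χ]
    rw [ZMod.val_add, ← pow_add, hmod]
  have hval : ((n : ℕ) : ZMod (2 * n)).val = n := ZMod.val_natCast_of_lt (by omega)
  have hn1 : χ (n : ZMod (2 * n)) = -1 := by
    simp only [χ, hval]
    have h1 : (ζ ^ n) * (ζ ^ n) = 1 := by
      rw [← pow_add, ← two_mul, ← hζ, pow_orderOf_eq_one]
    have h2 : ζ ^ n ≠ 1 := by
      intro h
      have := orderOf_dvd_of_pow_eq_one h
      rw [hζ] at this
      have := Nat.le_of_dvd (by omega) this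
      omega
    have h3 : ((ζ ^ n : (ZMod p)ˣ) : ZMod p) * ((ζ ^ n : (ZMod p)ˣ) : ZMod p) = 1 := by
      rw [← Units.val_mul, h1, Units.val_one]
    rcases mul_self_eq_one_iff.mp h3 with h4 | h4
    · exact absurd (Units.ext h4) h2
    · exact Units.ext (by simpa using h4)
  have hinj : Function.Injective χ := by
    intro i j hij
    have h1 := pow_injOn_Iio_orderOf (x := ζ)
    have h2 : i.val = j.val := by
      apply h1
      · rw [hζ]; exact ZMod.val_lt i
      · rw [hζ]; exact ZMod.val_lt j
      · exact hij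
    exact ZMod.val_injective _ h2
  have h20 : (2 : ZMod p) ≠ 0 := by
    intro h
    have h1 : ((2 : ℕ) : ZMod p) = 0 := by exact_mod_cast h
    rw [ZMod.natCast_eq_zero_iff] at h1
    have := Nat.le_of_dvd (by omega) h1
    omega
  let ρ := rep (F := ZMod p) (n := n) (χ := χ) hadd hn1
  have hfpf : ∀ c : QuaternionGroup n, c ≠ 1 → ∀ v : ZMod p × ZMod p, ρ c v = v → v = 0 := by
    rintro (i | i) hc ⟨v, w⟩ hv
    · have hi : χ i ≠ 1 := by
        intro h
        apply hc
        have : i = 0 := hinj (by rw [h, hchi_one hadd])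
        rw [this, QuaternionGroup.a_zero]
      have hi' : (χ i : ZMod p) - 1 ≠ 0 := by
        intro h0
        apply hi
        apply Units.ext
        simpa [sub_eq_zero] using h0
      have h1 : (χ i : ZMod p) * v = v := congrArg Prod.fst hv
      have h2 : (((χ i)⁻¹ : (ZMod p)ˣ) : ZMod p) * w = w := congrArg Prod.snd hv
      have h3 : (χ i : ZMod p) * w = w := by
        have := congrArg (fun x => (χ i : ZMod p) * x) h2
        simp only [Units.mul_inv_cancel_left] at this
        exact this.symm
      have hv0 : v = 0 := by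
        have : ((χ i : ZMod p) - 1) * v = 0 := by rw [sub_mul, h1, one_mul, sub_self]
        exact (mul_eq_zero.mp this).resolve_left hi'
      have hw0 : w = 0 := by
        have : ((χ i : ZMod p) - 1) * w = 0 := by rw [sub_mul, h3, one_mul, sub_self]
        exact (mul_eq_zero.mp this).resolve_left hi'
      simp [hv0, hw0]
    · have h1 : (((χ i)⁻¹ : (ZMod p)ˣ) : ZMod p) * w = v := congrArg Prod.fst hv
      have h2 : -((χ i : ZMod p) * v) = w := congrArg Prod.snd hv
      have h3 : v = -v := by
        rw [← h2] at h1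
        have : (((χ i)⁻¹ : (ZMod p)ˣ) : ZMod p) * (-((χ i : ZMod p) * v)) = -v := by
          rw [mul_neg, Units.inv_mul_cancel_left]
        exact h1.symm.trans this
      have hv0 : v = 0 := by
        have : (2 : ZMod p) * v = 0 := by
          rw [two_mul]
          nth_rewrite 1 [h3]
          ring
        exact (mul_eq_zero.mp this).resolve_left h20
      have hw0 : w = 0 := by
        rw [← h2, hv0]; simp
      simp [hv0, hw0]
  obtain ⟨L, i1, i2, H, hH, ⟨e⟩⟩ := Lib.Frobenius.Construct.exists_frobenius_of_rep ρ hfpf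
  exact ⟨L, i1, i2, H, hH, ⟨e.symm⟩⟩

end Cfsg.Agent.S4297
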