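import Cfsg.Statements.S4299
import Mathlib
import Cfsg.Agent.Lib.Frobenius.Construct

set_option autoImplicit false
open Cfsg

namespace Cfsg.Agent.S4299

/-- Every nontrivial finite cyclic group occurs as a Frobenius complement of some finite Frobenius group. -/
theorem result {C : Type*} [Group C] [Finite C] [IsCyclic C] [Nontrivial C] :
    ∃ (L : Type) (_ : Group L) (_ : Finite L) (H : Subgroup L), Cfsg.IsFrobeniusComplement H ∧ Nonempty (C ≃* H) := by
  classical
  obtain ⟨p, hp, hp2, ζ, hζ⟩ := Lib.Frobenius.Construct.exists_prime_unit_order (Nat.card C) Nat.card_pos.ne'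
  haveI : Fact p.Prime := ⟨hp⟩
  let U : Subgroup (ZMod p)ˣ := Subgroup.zpowers ζ
  have hU : Nat.card U = Nat.card C := by
    rw [Nat.card_zpowers, hζ]
  have e : C ≃* U := mulEquivOfCyclicCardEq hU.symm
  haveI : Nontrivial U := by
    rw [← Finite.one_lt_card_iff_nontrivial, hU, Finite.one_lt_card_iff_nontrivial]
    infer_instance
  have hfpf : ∀ c : U, c ≠ 1 → ∀ v : ZMod p, c • v = v → v = 0 := by
    intro c hc v hv
    have h1 : ((c : (ZMod p)ˣ) : ZMod p) * v = v := hv
    have h2 : (((c : (ZMod p)ˣ) : ZMod p) - 1) * v = 0 := by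
      rw [sub_mul, h1, one_mul, sub_self]
    have h3 : ((c : (ZMod p)ˣ) : ZMod p) - 1 ≠ 0 := by
      intro h0
      apply hc
      apply Subtype.ext
      apply Units.ext
      simpa [sub_eq_zero] using h0
    exact (mul_eq_zero.mp h2).resolve_left h3
  obtain ⟨L, i1, i2, H, hH, ⟨e2⟩⟩ := Lib.Frobenius.Construct.exists_frobenius_of_fpf_add hfpf
  exact ⟨L, i1, i2, H, hH, ⟨e.trans e2⟩⟩

end Cfsg.Agent.S4299
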