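import Cfsg.Statements.S4300
import Mathlib

set_option autoImplicit false
open Cfsg

namespace Cfsg.Agent.S4300

/-- Let G act faithfully and primitively on a set X, and suppose the stabilizer of some point is a simple group. Then either G is simple, or G has a normal subgroup, neither trivial nor the whole group, that acts regularly on X (transitively with trivial point stabilizers). -/
theorem result {G : Type*} [Group G] {X : Type*} [MulAction G X] [FaithfulSMul G X]
    (hprim : MulAction.IsPreprimitive G X) (x : X) (hsimple : IsSimpleGroup (MulAction.stabilizer G x)) :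
    IsSimpleGroup G ∨ ∃ N : Subgroup G, N.Normal ∧ N ≠ ⊥ ∧ N ≠ ⊤ ∧
      MulAction.IsPretransitive N X ∧ ∀ y : X, MulAction.stabilizer N y = ⊥ := by
  classical
  by_cases hG : IsSimpleGroup G
  · exact Or.inl hG
  right
  have hnt : Nontrivial G := by
    obtain ⟨a, b, hab⟩ := hsimple.toNontrivial.exists_pair_ne
    exact ⟨⟨a, b, fun h => hab (Subtype.ext h)⟩⟩
  have : ∃ N : Subgroup G, N.Normal ∧ N ≠ ⊥ ∧ N ≠ ⊤ := by
    by_contra hcon
    push Not at hcon
    apply hG
    refine ⟨fun N hN => ?_⟩
    by_cases hb : N = ⊥
    · exact Or.inl hb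
    · exact Or.inr (hcon N hN hb)
  obtain ⟨N, hN, hbot, htop⟩ := this
  refine ⟨N, hN, hbot, htop, ?_⟩
  have htrans : MulAction.IsPretransitive N X := by
    have hq : MulAction.IsQuasiPreprimitive G X := inferInstance
    apply hq.isPretransitive_of_normal
    intro hfix
    apply hbot
    rw [eq_bot_iff]
    intro n hn
    rw [Subgroup.mem_bot]
    apply FaithfulSMul.eq_of_smul_eq_smul (α := X)
    intro y
    have : y ∈ MulAction.fixedPoints N X := by rw [hfix]; trivial
    have := this ⟨n, hn⟩
    simpa using this
  refine ⟨htrans, ?_⟩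
  -- `N ∩ G_x` is normal in the simple group `G_x`
  let S := MulAction.stabilizer G x
  have hnorm : (N.subgroupOf S).Normal := by infer_instance
  have hstab : MulAction.stabilizer N x = ⊥ := by
    rcases hsimple.eq_bot_or_eq_top_of_normal _ hnorm with h | h
    · rw [eq_bot_iff]
      rintro ⟨n, hn⟩ hnx
      rw [Subgroup.mem_bot]
      have hnS : n ∈ S := MulAction.mem_stabilizer_iff.mpr (by simpa using hnx)
      have : (⟨n, hnS⟩ : S) ∈ N.subgroupOf S := by simpa [Subgroup.mem_subgroupOf] using hn
      rw [h, Subgroup.mem_bot] at this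
      apply Subtype.ext
      simpa using congrArg Subtype.val this
    · exfalso
      apply htop
      rw [eq_top_iff]
      intro g _
      -- write `g = n s` with `n ∈ N` and `s ∈ G_x`
      obtain ⟨n, hn⟩ := MulAction.exists_smul_eq N x (g • x)
      have hs : (n : G)⁻¹ * g ∈ S := by
        have : (n : G) • x = g • x := hn
        rw [MulAction.mem_stabilizer_iff, mul_smul, ← this, ← mul_smul]
        simp
      have : (⟨_, hs⟩ : S) ∈ N.subgroupOf S := by rw [h]; trivial
      have h2 : (n : G)⁻¹ * g ∈ N := by simpa [Subgroup.mem_subgroupOf] using this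
      have := N.mul_mem n.2 h2
      simpa using this
  intro y
  obtain ⟨m, rfl⟩ := MulAction.exists_smul_eq N x y
  rw [MulAction.stabilizer_smul_eq_stabilizer_map_conj, hstab]
  simp
 
end Cfsg.Agent.S4300
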