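import Cfsg.Statements.S4301
import Mathlib

set_option autoImplicit false
open Cfsg

namespace Cfsg.Agent.S4301

open Equiv

variable {X : Type*}

lemma exists_emb_one {k : ℕ} (hk : 2 ≤ k) (e : Fin k ↪ X) (w : X) :
    ∃ e' : Fin k ↪ X, e' ⟨0, by omega⟩ = w := by
  classical
  refine ⟨e.trans (Equiv.swap (e ⟨0, by omega⟩) w).toEmbedding, ?_⟩
  simp

lemma exists_emb_two {k : ℕ} (hk : 2 ≤ k) (e : Fin k ↪ X) (w0 w1 : X) (hw : w0 ≠ w1) :
    ∃ e' : Fin k ↪ X, e' ⟨0, by omega⟩ = w0 ∧ e' ⟨1, by omega⟩ = w1 := by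
  classical
  have h01 : e ⟨0, by omega⟩ ≠ e ⟨1, by omega⟩ := by
    intro h
    have := e.injective h
    simp [Fin.ext_iff] at this
  set τ1 := Equiv.swap (e ⟨0, by omega⟩) w0 with hτ1
  set τ2 := Equiv.swap (τ1 (e ⟨1, by omega⟩)) w1 with hτ2
  have h1 : τ1 (e ⟨0, by omega⟩) = w0 := by simp [hτ1]
  have hne : w0 ≠ τ1 (e ⟨1, by omega⟩) := by
    intro h
    rw [← h1] at h
    exact h01 (τ1.injective h)
  refine ⟨(e.trans τ1.toEmbedding).trans τ2.toEmbedding, ?_, ?_⟩
  · show τ2 (τ1 (e ⟨0, by omega⟩)) = w0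
    rw [h1, hτ2]
    exact Equiv.swap_apply_of_ne_of_ne hne hw
  · show τ2 (τ1 (e ⟨1, by omega⟩)) = w1
    rw [hτ2]
    exact Equiv.swap_apply_left _ _

/-- One-point extension of a multiply transitive group. Let X be a set and G a group of permutations of Option X (the set X with one extra point ∗ = none) all of whose elements fix ∗, such that G is k-transitive on the points of X for some k ≥ 2, X having at least k points. Suppose a permutation h of Option X and an element g of G satisfy: h interchanges ∗ with a point x of X and fixes a point y of X; g interchanges x and y; (g h)³ and h² lie in G; and for every f in G fixing x, the product h f h lies in G and fixes x. Then an element of the group generated by G and h fixes ∗ exactly when it lies in G, and that group acts (k+1)-transitively on Option X. -/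
theorem result {X : Type*} (G : Subgroup (Equiv.Perm (Option X))) (hfix : ∀ f ∈ G, f none = none)
    (k : ℕ) (hk : 2 ≤ k) (hkX : Nonempty (Fin k ↪ X))
    (htrans : ∀ a b : Fin k ↪ X, ∃ f ∈ G, ∀ i, f (some (a i)) = some (b i))
    (h g : Equiv.Perm (Option X)) (hg : g ∈ G) (x y : X)
    (h1 : h none = some x) (h2 : h (some x) = none) (h3 : h (some y) = some y)
    (h4 : g (some x) = some y) (h5 : g (some y) = some x)
    (h6 : (g * h) ^ 3 ∈ G) (h7 : h ^ 2 ∈ G)
    (h8 : ∀ f ∈ G, f (some x) = some x → h * f * h ∈ G ∧ (h * f * h) (some x) = some x) :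
    (∀ f ∈ Subgroup.closure ((G : Set (Equiv.Perm (Option X))) ∪ {h}), f none = none ↔ f ∈ G) ∧
      MulAction.IsMultiplyPretransitive (Subgroup.closure ((G : Set (Equiv.Perm (Option X))) ∪ {h})) (Option X) (k + 1) := by
  classical
  -- generalities on G
  have hfixi : ∀ f ∈ G, ∀ w : X, ∃ w' : X, f (some w) = some w' := by
    intro f hf w
    have hne : f (some w) ≠ none := by
      intro h
      have h2 := hfix f hf
      have : f (some w) = f none := by rw [h, h2]
      exact absurd (f.injective this) (by simp)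
    exact Option.ne_none_iff_exists'.mp hne
  obtain ⟨e0⟩ := hkX
  have hxy : x ≠ y := by
    intro hh
    rw [hh, h3] at h2
    exact absurd h2 (by simp)
  have h2t : ∀ w : X, w ≠ x → ∃ u ∈ G, u (some x) = some x ∧ u (some y) = some w := by
    intro w hw
    obtain ⟨a, ha0, ha1⟩ := exists_emb_two (by omega) e0 x y hxy
    obtain ⟨b, hb0, hb1⟩ := exists_emb_two (by omega) e0 x w hw.symm
    obtain ⟨u, hu, hua⟩ := htrans a b
    refine ⟨u, hu, ?_, ?_⟩
    · have := hua ⟨0, by omega⟩
      rwa [ha0, hb0] at this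
    · have := hua ⟨1, by omega⟩
      rwa [ha1, hb1] at this
  have ht1 : ∀ w w' : X, ∃ u ∈ G, u (some w) = some w' := by
    intro w w'
    obtain ⟨a, ha0⟩ := exists_emb_one (by omega) e0 w
    obtain ⟨b, hb0⟩ := exists_emb_one (by omega) e0 w'
    obtain ⟨u, hu, hua⟩ := htrans a b
    refine ⟨u, hu, ?_⟩
    have := hua ⟨0, by omega⟩
    rwa [ha0, hb0] at this
  set h2' := h ^ 2 with hh2
  have hinv : h⁻¹ = h2'⁻¹ * h := by
    rw [hh2, pow_two]; group
  have hGh : ∀ f ∈ G, h * f * h ∈ G ∨ ∃ a ∈ G, ∃ b ∈ G, h * f * h = a * h * b := by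
    intro f hf
    obtain ⟨w, hw⟩ := hfixi f hf x
    by_cases hwx : w = x
    · left
      subst hwx
      exact (h8 f hf hw).1
    · right
      obtain ⟨u, hu, hu0, hu1⟩ := h2t w hwx
      -- v := g⁻¹ u⁻¹ f fixes x
      set v := g⁻¹ * u⁻¹ * f with hv
      have hvG : v ∈ G := G.mul_mem (G.mul_mem (G.inv_mem hg) (G.inv_mem hu)) hf
      have hvx : v (some x) = some x := by
        rw [hv, Perm.mul_apply, Perm.mul_apply, hw]
        rw [Perm.inv_eq_iff_eq.mpr hu1.symm, Perm.inv_eq_iff_eq.mpr h4.symm]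
      have hfe : f = u * g * v := by rw [hv]; group
      have hA : h * u * h⁻¹ ∈ G := by
        have : h * u * h⁻¹ = (h * u * h) * h2'⁻¹ := by
          rw [hinv]
          have e : h * u * (h2'⁻¹ * h) = h * u * (h2'⁻¹ * h) := rfl
          have hc : h2'⁻¹ * h = h * h2'⁻¹ := by rw [hh2, pow_two]; group
          rw [hc]; group
        rw [this]
        exact G.mul_mem (h8 u hu hu0).1 (G.inv_mem h7)
      have hB : h⁻¹ * v * h ∈ G := by
        have : h⁻¹ * v * h = h2'⁻¹ * (h * v * h) := by
          rw [hinv]; group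
        rw [this]
        exact G.mul_mem (G.inv_mem h7) (h8 v hvG hvx).1
      have hC : h * g * h = g⁻¹ * (g * h) ^ 3 * h2'⁻¹ * h * g⁻¹ := by
        have e : (g * h) ^ 3 = g * (h * g * h) * g * h := by
          rw [pow_succ, pow_two]; group
        rw [e, hh2, pow_two]; group
      refine ⟨(h * u * h⁻¹) * (g⁻¹ * (g * h) ^ 3 * h2'⁻¹), G.mul_mem hA (G.mul_mem (G.mul_mem (G.inv_mem hg) h6) (G.inv_mem h7)),
        g⁻¹ * (h⁻¹ * v * h), G.mul_mem (G.inv_mem hg) hB, ?_⟩
      calc h * f * h = (h * u * h⁻¹) * (h * g * h) * (h⁻¹ * v * h) := by rw [hfe]; group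
        _ = _ := by rw [hC]; group
  -- the double coset description
  have hS : ∀ u ∈ Subgroup.closure ((G : Set (Equiv.Perm (Option X))) ∪ {h}),
      u ∈ G ∨ ∃ a ∈ G, ∃ b ∈ G, u = a * h * b := by
    intro u hu
    induction hu using Subgroup.closure_induction with
    | mem u hu =>
      rcases hu with hu | hu
      · left; exact hu
      · right
        refine ⟨1, G.one_mem, 1, G.one_mem, ?_⟩
        rw [Set.mem_singleton_iff] at hu
        rw [hu]; group
    | one => left; exact G.one_mem
    | mul u v _ _ hu hv =>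
      rcases hu with hu | ⟨a, ha, b, hb, rfl⟩ <;> rcases hv with hv | ⟨c, hc, d, hd, rfl⟩
      · left; exact G.mul_mem hu hv
      · right
        exact ⟨u * c, G.mul_mem hu hc, d, hd, by group⟩
      · right
        exact ⟨a, ha, b * v, G.mul_mem hb hv, by group⟩
      · rcases hGh (b * c) (G.mul_mem hb hc) with h' | ⟨a', ha', b', hb', e⟩
        · left
          have : a * h * b * (c * h * d) = a * (h * (b * c) * h) * d := by group
          rw [this]
          exact G.mul_mem (G.mul_mem ha h') hd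
        · right
          refine ⟨a * a', G.mul_mem ha ha', b' * d, G.mul_mem hb' hd, ?_⟩
          have : a * h * b * (c * h * d) = a * (h * (b * c) * h) * d := by group
          rw [this, e]; group
    | inv u _ hu =>
      rcases hu with hu | ⟨a, ha, b, hb, rfl⟩
      · left; exact G.inv_mem hu
      · right
        refine ⟨b⁻¹ * h2'⁻¹, G.mul_mem (G.inv_mem hb) (G.inv_mem h7), a⁻¹, G.inv_mem ha, ?_⟩
        have : (a * h * b)⁻¹ = b⁻¹ * h⁻¹ * a⁻¹ := by group
        rw [this, hinv]; group
  set L := Subgroup.closure ((G : Set (Equiv.Perm (Option X))) ∪ {h}) with hL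
  have hGL : G ≤ L := fun f hf => Subgroup.subset_closure (Or.inl hf)
  have hhL : h ∈ L := Subgroup.subset_closure (Or.inr rfl)
  have hstab : ∀ f ∈ L, f none = none ↔ f ∈ G := by
    intro f hf
    refine ⟨fun hn => ?_, fun hg => hfix f hg⟩
    rcases hS f hf with h' | ⟨a, ha, b, hb, rfl⟩
    · exact h'
    · exfalso
      have e : (a * h * b) none = a (some x) := by
        rw [Perm.mul_apply, hfix b hb, Perm.mul_apply, h1]
      rw [e] at hn
      obtain ⟨w, hw⟩ := hfixi a ha x
      rw [hw] at hn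
      exact absurd hn (by simp)
  refine ⟨hstab, ?_⟩
  -- moving any point to none
  have hmove : ∀ w : Option X, ∃ ℓ ∈ L, ℓ w = none := by
    intro w
    cases w with
    | none => exact ⟨1, L.one_mem, rfl⟩
    | some w =>
      obtain ⟨u, hu, hux⟩ := ht1 w x
      refine ⟨h * u, L.mul_mem hhL (hGL hu), ?_⟩
      rw [Perm.mul_apply, hux, h2]
  -- tuples starting at none
  have hnone : ∀ a b : Fin (k + 1) ↪ Option X, a 0 = none → b 0 = none →
      ∃ f ∈ G, ∀ i, f (a i) = b i := by
    intro a b ha hb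
    have hax : ∀ i : Fin k, a i.succ ≠ none := by
      intro i hi
      rw [← ha] at hi
      exact absurd (a.injective hi) (Fin.succ_ne_zero i)
    have hbx : ∀ i : Fin k, b i.succ ≠ none := by
      intro i hi
      rw [← hb] at hi
      exact absurd (b.injective hi) (Fin.succ_ne_zero i)
    choose a' ha' using fun i => Option.ne_none_iff_exists'.mp (hax i)
    choose b' hb' using fun i => Option.ne_none_iff_exists'.mp (hbx i)
    have hai : Function.Injective a' := by
      intro i j hij
      have : a i.succ = a j.succ := by rw [ha', ha', hij]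
      exact Fin.succ_injective _ (a.injective this)
    have hbi : Function.Injective b' := by
      intro i j hij
      have : b i.succ = b j.succ := by rw [hb', hb', hij]
      exact Fin.succ_injective _ (b.injective this)
    obtain ⟨f, hf, hfa⟩ := htrans ⟨a', hai⟩ ⟨b', hbi⟩
    refine ⟨f, hf, ?_⟩
    intro i
    refine Fin.cases ?_ (fun j => ?_) i
    · rw [ha, hb]; exact hfix f hf
    · rw [ha', hb']
      exact hfa j
  refine ⟨fun a b => ?_⟩
  obtain ⟨ℓa, hℓa, hℓa0⟩ := hmove (a 0)
  obtain ⟨ℓb, hℓb, hℓb0⟩ := hmove (b 0)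
  have hA : ((⟨ℓa, hℓa⟩ : L) • a) 0 = none := hℓa0
  have hB : ((⟨ℓb, hℓb⟩ : L) • b) 0 = none := hℓb0
  obtain ⟨f, hf, hfi⟩ := hnone _ _ hA hB
  refine ⟨⟨ℓb⁻¹ * f * ℓa, L.mul_mem (L.mul_mem (L.inv_mem hℓb) (hGL hf)) hℓa⟩, ?_⟩
  ext1 i
  show (ℓb⁻¹ * f * ℓa) (a i) = b i
  have h9 : f (ℓa (a i)) = ℓb (b i) := hfi i
  rw [Perm.mul_apply, Perm.mul_apply, h9]
  simp

end Cfsg.Agent.S4301
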