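import Cfsg.Statements.S4302
import Cfsg.Agent.S0617
import Cfsg.Agent.Lib.PGroup.FFTrans
import Cfsg.Agent.Lib.Compute.SmallField
import Cfsg.Agent.Lib.Components.Fitting
import Cfsg.Agent.Lib.Basic.SylowUtil
import Mathlib
-- import your own Cfsg.Agent.* helpers here

set_option autoImplicit false
set_option linter.unusedSectionVars false
set_option linter.style.haveILetI false
open Cfsg
open scoped commutatorElement

namespace Cfsg.Agent.S4302

open Cfsg.Agent.Lib.PGroup.Timmesfeld Cfsg.Agent.Lib.PGroup.FFPair Cfsg.Agent.Lib.PGroup.FFTv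
  Cfsg.Agent.Lib.PGroup.FFDuo Cfsg.Agent.Lib.PGroup.FFDich Cfsg.Agent.Lib.PGroup.FFStruct
  Cfsg.Agent.Lib.PGroup.FFTrans
open Cfsg.Agent.Lib.Coprime.Three (mem_normalizer_of_conj_mem)

section GBO

variable {G : Type*} [Group G] [Finite G] {V H : Subgroup G}

/-- Abelian `2`-subgroups maximizing `|B| |C_V(B)|` among their subgroups. -/
structure IsGBO (V A : Subgroup G) : Prop where
  comm : ∀ x ∈ A, ∀ y ∈ A, x * y = y * x
  pg : IsPGroup 2 A
  max : ∀ B : Subgroup G, B ≤ A → mval V B ≤ mval V A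

theorem IsGBO.commutator_le {A : Subgroup G} (hA : IsGBO V A) :
    ⁅A, A⁆ ≤ Subgroup.centralizer (V : Set G) := by
  rw [Subgroup.commutator_le]
  intro a ha b hb
  rw [commutatorElement_eq_one_iff_mul_comm.mpr (hA.comm a ha b hb)]
  exact Subgroup.one_mem _

/-- A subgroup of `V` with `X ≤ [X, A]`, for a `2`-group `A`, is trivial. -/
theorem eq_bot_of_le_comm {A X : Subgroup G} (hVp : IsPGroup 2 V) (hAp : IsPGroup 2 A)
    (hAV : A ≤ Subgroup.normalizer (V : Set G)) (hXV : X ≤ V) (hX : X ≤ ⁅X, A⁆) : X = ⊥ := by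
  have hY : IsPGroup 2 ↥(A ⊔ V) := hAp.to_sup_of_normal_right' hVp hAV
  set Y : Subgroup G := A ⊔ V with hYdef
  have hXY : X ≤ Y := hXV.trans le_sup_right
  have hcomm : ⁅X, A⁆ ≤ ⁅X, Y⁆ := Subgroup.commutator_mono le_rfl le_sup_left
  have hX2 : X ≤ ⁅X, Y⁆ := hX.trans hcomm
  have hnil : Group.IsNilpotent ↥Y := hY.isNilpotent
  obtain ⟨n, hn⟩ := (Subgroup.isNilpotent_iff_lowerCentralSeries Y).1 hnil
  have hser : ∀ m : ℕ, X ≤ Y.lowerCentralSeries m := by
    intro m
    induction m with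
    | zero => exact hXY
    | succ m ih =>
      rw [Subgroup.lowerCentralSeries_succ]
      exact hX2.trans (Subgroup.commutator_mono ih le_rfl)
  have := hser n
  rw [hn] at this
  exact le_bot_iff.1 this

theorem comm_ne_bot (S : Setup 2 V H) {A : Subgroup G} (hAH : A ≤ H) (hne : A ≠ ⊥) : ⁅V, A⁆ ≠ ⊥ := by
  intro hbot
  apply hne
  rw [eq_bot_iff]
  intro a ha
  have h4 : a ∈ H ⊓ Subgroup.centralizer (V : Set G) := by
    refine Subgroup.mem_inf.2 ⟨hAH ha, Subgroup.mem_centralizer_iff.2 fun v hv => ?_⟩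
    have : ⁅v, a⁆ ∈ ⁅V, A⁆ := Subgroup.commutator_mem_commutator hv ha
    rw [hbot] at this
    exact (commutatorElement_eq_one_iff_mul_comm.mp this)
  rw [S.hf] at h4
  exact h4

theorem gbo_star (S : Setup 2 V H) {A : Subgroup G} (hAH : A ≤ H) (hA : IsGBO V A) (hne : A ≠ ⊥) :
    A ⊓ Subgroup.centralizer ((⁅V, A⁆ : Subgroup G) : Set G) ≠ ⊥ ∧
    IsGBO V (A ⊓ Subgroup.centralizer ((⁅V, A⁆ : Subgroup G) : Set G)) := by
  have hVc : ∀ x ∈ V, ∀ y ∈ V, x * y = y * x := fun x hx y hy => comm S hx hy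
  have hAV : A ≤ Subgroup.normalizer (V : Set G) := hAH.trans S.hHV
  obtain ⟨hWV, h2, h3⟩ := Q_commutator hVc hAV hA.commutator_le hA.max (le_refl V)
  refine ⟨?_, ⟨fun x hx y hy => hA.comm x hx.1 y hy.1, hA.pg.to_le inf_le_left, fun B hB => ?_⟩⟩
  · intro hB
    have hVp : IsPGroup 2 V := isPGroup_of_isEA S.hV
    have hV1 : ∀ v ∈ V, v ∈ ⁅V, A⁆ ⊔ (V ⊓ Subgroup.centralizer (A : Set G)) := by
      intro v hv
      rw [← h3, hB]
      refine Subgroup.mem_inf.2 ⟨hv, Subgroup.mem_centralizer_iff.2 ?_⟩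
      intro h hh
      have : h = 1 := hh
      rw [this]; group
    have hsub : ⁅V, A⁆ ≤ ⁅⁅V, A⁆, A⁆ := by
      rw [Subgroup.commutator_le]
      intro v hv a ha
      obtain ⟨u, hu, z, hz, rfl⟩ := Cfsg.Agent.Lib.Components.LayerProduct.mem_sup_of_commute
        (fun x hx y hy => hVc x (hWV hx) y (Subgroup.mem_inf.1 hy).1) (hV1 v hv)
      have hza : a * z = z * a := Subgroup.mem_centralizer_iff.1 hz.2 a ha
      have : ⁅u * z, a⁆ = ⁅u, a⁆ := by
        rw [commutatorElement_def, commutatorElement_def]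
        have e : u * z * a * (u * z)⁻¹ * a⁻¹ = u * (z * a * z⁻¹) * u⁻¹ * a⁻¹ := by group
        rw [e, ← hza]; group
      rw [this]
      exact Subgroup.commutator_mem_commutator hu ha
    exact comm_ne_bot S hAH hne (eq_bot_of_le_comm hVp hA.pg hAV hWV hsub)
  · exact (hA.max B (hB.trans inf_le_left)).trans h2.symm.le

/-- Every nontrivial `IsGBO` contains a transvection element. -/
theorem exists_tv (S : Setup 2 V H) (A : Subgroup G) :
    A ≤ H → IsGBO V A → A ≠ ⊥ → ∃ t ∈ A, IsTv 2 V H t := by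
  induction A using WellFoundedLT.induction with
  | _ A ih =>
    intro hAH hA hne
    obtain ⟨hB, hBG⟩ := gbo_star S hAH hA hne
    by_cases hle : A ≤ Subgroup.centralizer ((⁅V, A⁆ : Subgroup G) : Set G)
    · have hsq : ∀ a ∈ A, a ^ 2 ∈ Subgroup.centralizer (V : Set G) := by
        intro a ha
        rw [Subgroup.mem_centralizer_iff]
        intro v hv
        obtain ⟨c, hc, hcv⟩ := exists_conj (a := a) hv
        have hcA : c ∈ ⁅V, A⁆ := Subgroup.commutator_mono le_rfl ((Subgroup.zpowers_le).2 ha) hc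
        have hac : c * a = a * c := Subgroup.mem_centralizer_iff.1 (hle ha) c hcA
        have hcV : c ∈ V := cen_le S (hAH ha) hc
        have hcc : c ^ 2 = 1 := pow_V S hcV
        have h1 : a ^ 2 * v * (a ^ 2)⁻¹ = v := by
          calc a ^ 2 * v * (a ^ 2)⁻¹ = a * (a * v * a⁻¹) * a⁻¹ := by rw [pow_two]; group
            _ = a * (c * v) * a⁻¹ := by rw [hcv]
            _ = (a * c) * v * a⁻¹ := by group
            _ = (c * a) * v * a⁻¹ := by rw [hac]
            _ = c * (a * v * a⁻¹) := by group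
            _ = c * (c * v) := by rw [hcv]
            _ = c ^ 2 * v := by rw [pow_two]; group
            _ = v := by rw [hcc, one_mul]
        exact (mul_inv_eq_iff_eq_mul.mp h1).symm
      have hBO : Cfsg.IsBestOffenderOn 2 V A := ⟨hA.max, hA.commutator_le, hsq⟩
      have hAV := comm_ne_bot S hAH hne
      by_cases hmin : ∀ B : Subgroup G, B ≤ A → Cfsg.IsBestOffenderOn 2 V B → ⁅V, B⁆ ≠ ⊥ → B = A
      · obtain ⟨t, rfl, ht⟩ := isTv_of_minimal S hAH hBO hAV hmin
        exact ⟨t, Subgroup.mem_zpowers t, ht⟩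
      · push Not at hmin
        obtain ⟨B, hBA, hBO', hBV, hne'⟩ := hmin
        have hB0 : B ≠ ⊥ := by
          rintro rfl
          exact hBV (Subgroup.commutator_bot_right _)
        obtain ⟨t, ht, h⟩ := ih B (lt_of_le_of_ne hBA hne') (hBA.trans hAH)
          ⟨fun x hx y hy => hA.comm x (hBA hx) y (hBA hy), hA.pg.to_le hBA, hBO'.1⟩ hB0
        exact ⟨t, hBA ht, h⟩
    · have hlt : A ⊓ Subgroup.centralizer ((⁅V, A⁆ : Subgroup G) : Set G) < A :=
        lt_of_le_of_ne inf_le_left (fun h => hle (inf_eq_left.mp h))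
      obtain ⟨t, ht, h⟩ := ih _ hlt (inf_le_left.trans hAH) hBG hB
      exact ⟨t, ht.1, h⟩

theorem card_half (S : Setup 2 V H) {t : G} (ht : IsTv 2 V H t) {M : Subgroup G} (hMV : M ≤ V)
    (hMt : t ∈ Subgroup.normalizer (M : Set G)) {w : G} (hwM : w ∈ M) (hw : t * w ≠ w * t) :
    2 * Nat.card ↥(M ⊓ Subgroup.centralizer ({t} : Set G)) = Nat.card M := by
  have hVc : ∀ x ∈ M, ∀ y ∈ M, x * y = y * x := fun x hx y hy => comm S (hMV hx) (hMV hy)
  have h1 := card_commutator_zpowers hVc t hMt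
  have hle : ⁅M, Subgroup.zpowers t⁆ ≤ cen V t := Subgroup.commutator_mono hMV le_rfl
  have hdvd : Nat.card ↥⁅M, Subgroup.zpowers t⁆ ∣ 2 := by
    rw [← ht.card]; exact Subgroup.card_dvd_of_le hle
  have hne : Nat.card ↥⁅M, Subgroup.zpowers t⁆ ≠ 1 := by
    intro h
    have hb : ⁅M, Subgroup.zpowers t⁆ = ⊥ := Subgroup.eq_bot_of_card_eq _ h
    have : ⁅w, t⁆ ∈ ⁅M, Subgroup.zpowers t⁆ :=
      Subgroup.commutator_mem_commutator hwM (Subgroup.mem_zpowers t)
    rw [hb] at this
    exact hw (commutatorElement_eq_one_iff_mul_comm.mp this).symm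
  have h2 : Nat.card ↥⁅M, Subgroup.zpowers t⁆ = 2 := by
    rcases (Nat.dvd_prime Nat.prime_two).1 hdvd with h | h
    · exact absurd h hne
    · exact h
  rw [h2] at h1
  exact h1

/-- Splitting off a transvection element. -/
theorem exists_complement (S : Setup 2 V H) {A : Subgroup G} (hAH : A ≤ H) (hA : IsGBO V A) {t : G}
    (htA : t ∈ A) (ht : IsTv 2 V H t) :
    ∃ K : Subgroup G, K ≤ A ∧ t ∉ K ∧ IsGBO V K ∧ ∀ a ∈ A, a ∈ K ∨ a * t ∈ K := by
  obtain ⟨x, hx, D⟩ := exists_duo S ht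
  set b := x * t * x⁻¹ with hb
  set W := WW V t b with hW
  have hWV : W ≤ V := WW_le S D
  have hcard : Nat.card W = 2 ^ 2 := card_W S D
  have hcenW : cen V t ≤ W := le_sup_left
  obtain ⟨w, hw, htw⟩ : ∃ w ∈ W, t * w ≠ w * t := by
    by_contra hno
    push Not at hno
    have h1 : t ∈ EE t b ⊓ Subgroup.centralizer ((W : Subgroup G) : Set G) :=
      Subgroup.mem_inf.2 ⟨a_mem_E, Subgroup.mem_centralizer_iff.2 fun w hw => (hno w hw).symm⟩
    rw [E_inf_centralizer S D] at h1
    exact ne_one_of_isTv ht h1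
  obtain ⟨d, hd⟩ : ∃ d, d = t * w * t⁻¹ * w⁻¹ := ⟨_, rfl⟩
  have hdc : d ∈ cen V t := hd ▸ comm'_mem_cen (hWV hw)
  have hd1 : d ≠ 1 := by
    intro h
    apply htw
    rw [h] at hd
    calc t * w = (t * w * t⁻¹ * w⁻¹) * (w * t) := by group
      _ = w * t := by rw [← hd, one_mul]
  have hdV : d ∈ V := cen_le S ht.mem hdc
  have hdd : d ^ 2 = 1 := pow_V S hdV
  have hdd' : d ^ (2 : ℤ) = 1 := by exact_mod_cast hdd
  have htfix : ∀ y ∈ cen V t, t * y = y * t := fix_cen S ht
  have hcen2 : ∀ y ∈ cen V t, y = 1 ∨ y = d := by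
    intro y hy
    rw [cen_eq_zpowers S ht hdc hd1] at hy
    obtain ⟨k, rfl⟩ := Subgroup.mem_zpowers_iff.1 hy
    rcases Int.even_or_odd' k with ⟨m, rfl | rfl⟩
    · left; rw [zpow_mul, hdd', one_zpow]
    · right; rw [zpow_add, zpow_mul, hdd', one_zpow, one_mul, zpow_one]
  have hWnorm : t ∈ Subgroup.normalizer (W : Set G) :=
    mem_normalizer_of_conj_mem fun v hv => E_conj_W S D a_mem_E hv
  have hhalf := card_half S ht hWV hWnorm hw htw
  have hWC : W ⊓ Subgroup.centralizer ({t} : Set G) = cen V t := by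
    symm
    apply Subgroup.eq_of_le_of_card_ge
    · refine le_inf hcenW fun y hy => ?_
      exact Subgroup.mem_centralizer_singleton_iff.2 (htfix y hy).symm
    · rw [ht.card]
      omega
  have hfixW : ∀ y ∈ W, t * y = y * t → y = 1 ∨ y = d := by
    intro y hy h
    apply hcen2
    rw [← hWC]
    exact Subgroup.mem_inf.2 ⟨hy, Subgroup.mem_centralizer_singleton_iff.2 h.symm⟩
  have hmoved : ∀ y ∈ V, t * y ≠ y * t → t * y * t⁻¹ = d * y := by
    intro y hy hne
    have h1 : t * y * t⁻¹ * y⁻¹ ∈ cen V t := comm'_mem_cen hy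
    rcases hcen2 _ h1 with h | h
    · exfalso
      apply hne
      calc t * y = (t * y * t⁻¹ * y⁻¹) * (y * t) := by group
        _ = y * t := by rw [h, one_mul]
    · rw [← h]; group
  have h2w := hmoved w (hWV hw) htw
  have hWelts : ∀ y ∈ W, y = 1 ∨ y = d ∨ y = w ∨ y = d * w := by
    intro y hy
    by_cases hty : t * y = y * t
    · rcases hfixW y hy hty with h | h
      · exact Or.inl h
      · exact Or.inr (Or.inl h)
    · have h1 := hmoved y (hWV hy) hty
      have hu : y * w⁻¹ ∈ W := W.mul_mem hy (W.inv_mem hw)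
      have htu : t * (y * w⁻¹) = (y * w⁻¹) * t := by
        have h3 : t * (y * w⁻¹) * t⁻¹ = y * w⁻¹ := by
          have e : t * (y * w⁻¹) * t⁻¹ = (t * y * t⁻¹) * (t * w * t⁻¹)⁻¹ := by group
          rw [e, h1, h2w]
          have hc := comm S hdV (V.mul_mem (hWV hy) (V.inv_mem (hWV hw)))
          calc d * y * (d * w)⁻¹ = (d * (y * w⁻¹)) * d⁻¹ := by group
            _ = (y * w⁻¹ * d) * d⁻¹ := by rw [hc]
            _ = y * w⁻¹ := by group
        exact mul_inv_eq_iff_eq_mul.mp h3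
      rcases hfixW _ hu htu with h | h
      · right; right; left; exact mul_inv_eq_one.mp h
      · right; right; right
        calc y = (y * w⁻¹) * w := by group
          _ = d * w := by rw [h]
  -- a centralizing criterion
  have hcrit : ∀ c : G, c * d * c⁻¹ = d → c * w * c⁻¹ = w → c ∈ Subgroup.centralizer (W : Set G) := by
    intro c h1 h2
    apply Subgroup.mem_centralizer_iff.2
    intro y hy
    suffices c * y * c⁻¹ = y from (mul_inv_eq_iff_eq_mul.mp this).symm
    rcases hWelts y hy with rfl | rfl | rfl | rfl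
    · group
    · exact h1
    · exact h2
    · calc c * (d * w) * c⁻¹ = (c * d * c⁻¹) * (c * w * c⁻¹) := by group
        _ = d * w := by rw [h1, h2]
  have hact : ∀ a ∈ A, a ∈ Subgroup.centralizer (W : Set G) ∨
      a * t ∈ Subgroup.centralizer (W : Set G) := by
    intro a ha
    have haH := hAH ha
    have hat : a * t = t * a := hA.comm a ha t htA
    have hata : a * t * a⁻¹ = t := by rw [hat]; group
    have hdfix : a * d * a⁻¹ = d := by
      have h1 : a * d * a⁻¹ ∈ cen V t := by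
        have := conj_mem_cen (a := t) (S.hHV haH) hdc
        rwa [hata] at this
      rcases hcen2 _ h1 with h | h
      · exfalso
        apply hd1
        calc d = a⁻¹ * (a * d * a⁻¹) * a := by group
          _ = 1 := by rw [h]; group
      · exact h
    obtain ⟨x', hx'⟩ : ∃ x', x' = a * x * a⁻¹ := ⟨_, rfl⟩
    have hx'core : x' ∈ core 2 H := hx' ▸ core_conj haH hx
    have hb' : a * b * a⁻¹ = x' * t * x'⁻¹ := by
      rw [hb, hx']
      have e : a * x * a⁻¹ * t * (a * x * a⁻¹)⁻¹ = a * x * (a⁻¹ * (t * a)) * x⁻¹ * a⁻¹ := by group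
      rw [e, ← hat]
      group
    have hne' : x' * t ≠ t * x' := by
      intro h
      apply D.hne
      have h1 : x' * t * x'⁻¹ = t := by rw [h]; group
      rw [h1] at hb'
      rw [← hata] at hb'
      exact (mul_left_cancel (mul_right_cancel hb')).symm
    have D' : Duo 2 V H t (x' * t * x'⁻¹) := duo_of_not_comm S ht hx'core hne'
    have hWeq : WW V t b = WW V t (x' * t * x'⁻¹) := by
      apply W_eq_of_inf_ne S D D'
      intro h
      have h5 : d ∈ WW V t b ⊓ WW V t (x' * t * x'⁻¹) :=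
        Subgroup.mem_inf.2 ⟨hcenW hdc, (le_sup_left : cen V t ≤ _) hdc⟩
      rw [h] at h5
      exact hd1 h5
    have hstab : ∀ y ∈ W, a * y * a⁻¹ ∈ W := by
      intro y hy
      have h1 : (WW V t b).map (MulAut.conj a).toMonoidHom = WW V (a * t * a⁻¹) (a * b * a⁻¹) := by
        rw [Subgroup.map_sup, ← cen_conj_eq S haH, ← cen_conj_eq S haH]
      have h2 : a * y * a⁻¹ ∈ (WW V t b).map (MulAut.conj a).toMonoidHom := ⟨y, hy, rfl⟩
      rw [h1, hata, hb', ← hWeq] at h2
      exact h2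
    have hw' := hstab w hw
    have hu : a * w * a⁻¹ * w⁻¹ ∈ W := W.mul_mem hw' (W.inv_mem hw)
    have hta : t * (a * w * a⁻¹) * t⁻¹ = d * (a * w * a⁻¹) := by
      have e : t * (a * w * a⁻¹) * t⁻¹ = a * (t * w * t⁻¹) * a⁻¹ := by
        calc t * (a * w * a⁻¹) * t⁻¹ = (t * a) * w * (t * a)⁻¹ := by group
          _ = (a * t) * w * (a * t)⁻¹ := by rw [hat]
          _ = _ := by group
      rw [e, h2w]
      calc a * (d * w) * a⁻¹ = (a * d * a⁻¹) * (a * w * a⁻¹) := by group
        _ = _ := by rw [hdfix]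
    have htu : t * (a * w * a⁻¹ * w⁻¹) = (a * w * a⁻¹ * w⁻¹) * t := by
      have h3 : t * (a * w * a⁻¹ * w⁻¹) * t⁻¹ = a * w * a⁻¹ * w⁻¹ := by
        have e : t * (a * w * a⁻¹ * w⁻¹) * t⁻¹ = (t * (a * w * a⁻¹) * t⁻¹) * (t * w * t⁻¹)⁻¹ := by group
        rw [e, hta, h2w]
        have hc := comm S hdV (V.mul_mem (hWV hw') (V.inv_mem (hWV hw)))
        calc d * (a * w * a⁻¹) * (d * w)⁻¹ = (d * (a * w * a⁻¹ * w⁻¹)) * d⁻¹ := by group
          _ = (a * w * a⁻¹ * w⁻¹ * d) * d⁻¹ := by rw [hc]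
          _ = a * w * a⁻¹ * w⁻¹ := by group
      exact mul_inv_eq_iff_eq_mul.mp h3
    rcases hfixW _ hu htu with h | h
    · left
      exact hcrit a hdfix (mul_inv_eq_one.mp h)
    · right
      have haw : a * w * a⁻¹ = d * w := by
        calc a * w * a⁻¹ = (a * w * a⁻¹ * w⁻¹) * w := by group
          _ = d * w := by rw [h]
      have hd2 : d * d = 1 := by rw [← pow_two]; exact hdd
      refine hcrit _ ?_ ?_
      · have h4 : t * d * t⁻¹ = d := by
          rw [htfix d hdc]; group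
        calc a * t * d * (a * t)⁻¹ = a * (t * d * t⁻¹) * a⁻¹ := by group
          _ = d := by rw [h4, hdfix]
      · calc a * t * w * (a * t)⁻¹ = a * (t * w * t⁻¹) * a⁻¹ := by group
          _ = a * (d * w) * a⁻¹ := by rw [h2w]
          _ = (a * d * a⁻¹) * (a * w * a⁻¹) := by group
          _ = d * (d * w) := by rw [hdfix, haw]
          _ = (d * d) * w := by group
          _ = w := by rw [hd2, one_mul]
  -- the complement
  refine ⟨A ⊓ Subgroup.centralizer (W : Set G), inf_le_left, ?_, ?_, ?_⟩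
  · intro h
    exact htw (Subgroup.mem_centralizer_iff.1 h.2 w hw).symm
  · have htK : t ∉ A ⊓ Subgroup.centralizer (W : Set G) := fun h =>
      htw (Subgroup.mem_centralizer_iff.1 h.2 w hw).symm
    have hord : orderOf t = 2 := orderOf_eq_prime ht.pow (ne_one_of_isTv ht)
    have htt' : t ^ (2 : ℤ) = 1 := by exact_mod_cast ht.pow
    have key : ∀ B : Subgroup G, B ≤ A ⊓ Subgroup.centralizer (W : Set G) →
        mval V (B ⊔ Subgroup.zpowers t) = mval V B := by
      intro B hB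
      have hBt : ∀ y ∈ B, y * t = t * y := fun y hy => hA.comm y (hB hy).1 t htA
      have hn : B ≤ Subgroup.normalizer ((Subgroup.zpowers t : Subgroup G) : Set G) := by
        intro y hy
        apply mem_normalizer_of_conj_mem
        rintro _ ⟨k, rfl⟩
        have hc : Commute y t := hBt y hy
        have h3 : y * t ^ k * y⁻¹ = t ^ k := by
          rw [(hc.zpow_right k).eq]; group
        dsimp only
        rw [h3]
        exact ⟨k, rfl⟩
      have hc := card_sup_mul_card_inf_of_le_normalizer B (Subgroup.zpowers t) hn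
      have hbot : B ⊓ Subgroup.zpowers t = ⊥ := by
        rw [eq_bot_iff]
        intro y hy
        obtain ⟨hy1, hy2⟩ := Subgroup.mem_inf.1 hy
        obtain ⟨k, rfl⟩ := Subgroup.mem_zpowers_iff.1 hy2
        rcases Int.even_or_odd' k with ⟨m, rfl | rfl⟩
        · rw [zpow_mul, htt', one_zpow]
          exact Subgroup.one_mem _
        · exfalso
          rw [zpow_add, zpow_mul, htt', one_zpow, one_mul, zpow_one] at hy1
          exact htK (hB hy1)
      rw [hbot, Subgroup.card_bot, mul_one, Nat.card_zpowers, hord] at hc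
      have hwM : w ∈ V ⊓ Subgroup.centralizer (B : Set G) := by
        refine Subgroup.mem_inf.2 ⟨hWV hw, Subgroup.mem_centralizer_iff.2 fun y hy => ?_⟩
        exact (Subgroup.mem_centralizer_iff.1 (hB hy).2 w hw).symm
      have htM : t ∈ Subgroup.normalizer ((V ⊓ Subgroup.centralizer (B : Set G) : Subgroup G) : Set G) := by
        apply mem_normalizer_of_conj_mem
        intro m hm
        obtain ⟨hm1, hm2⟩ := Subgroup.mem_inf.1 hm
        refine Subgroup.mem_inf.2 ⟨conj_mem S ht.mem hm1, Subgroup.mem_centralizer_iff.2 fun y hy => ?_⟩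
        have h5 : y * m = m * y := Subgroup.mem_centralizer_iff.1 hm2 y hy
        have h6 : t⁻¹ * y = y * t⁻¹ := by
          calc t⁻¹ * y = t⁻¹ * (y * t) * t⁻¹ := by group
            _ = t⁻¹ * (t * y) * t⁻¹ := by rw [hBt y hy]
            _ = y * t⁻¹ := by group
        calc y * (t * m * t⁻¹) = (y * t) * m * t⁻¹ := by group
          _ = (t * y) * m * t⁻¹ := by rw [hBt y hy]
          _ = t * (y * m) * t⁻¹ := by group
          _ = t * (m * y) * t⁻¹ := by rw [h5]
          _ = t * m * (y * t⁻¹) := by group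
          _ = t * m * (t⁻¹ * y) := by rw [h6]
          _ = t * m * t⁻¹ * y := by group
      have hh := card_half S ht inf_le_left htM hwM htw
      have hceq : V ⊓ Subgroup.centralizer ((B ⊔ Subgroup.zpowers t : Subgroup G) : Set G) =
          (V ⊓ Subgroup.centralizer (B : Set G)) ⊓ Subgroup.centralizer ({t} : Set G) := by
        rw [centralizer_sup_eq, centralizer_zpowers_eq, inf_assoc]
      simp only [mval]
      rw [hc, hceq, ← hh]
      ring
    refine ⟨fun x hx y hy => hA.comm x hx.1 y hy.1, hA.pg.to_le inf_le_left, fun B hB => ?_⟩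
    have hKt : (A ⊓ Subgroup.centralizer (W : Set G)) ⊔ Subgroup.zpowers t = A := by
      apply le_antisymm
      · exact sup_le inf_le_left ((Subgroup.zpowers_le).2 htA)
      · intro a ha
        rcases hact a ha with h | h
        · exact (le_sup_left : A ⊓ Subgroup.centralizer (W : Set G) ≤ _) (Subgroup.mem_inf.2 ⟨ha, h⟩)
        · have h7 : a = (a * t) * t⁻¹ := by group
          rw [h7]
          refine Subgroup.mul_mem _ ((le_sup_left : A ⊓ Subgroup.centralizer (W : Set G) ≤ _)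
            (Subgroup.mem_inf.2 ⟨A.mul_mem ha htA, h⟩)) ?_
          exact (le_sup_right : Subgroup.zpowers t ≤ _) (Subgroup.inv_mem _ (Subgroup.mem_zpowers t))
    calc mval V B = mval V (B ⊔ Subgroup.zpowers t) := (key B hB).symm
      _ ≤ mval V A := hA.max _ (sup_le (hB.trans inf_le_left) ((Subgroup.zpowers_le).2 htA))
      _ = mval V ((A ⊓ Subgroup.centralizer (W : Set G)) ⊔ Subgroup.zpowers t) := by rw [hKt]
      _ = mval V (A ⊓ Subgroup.centralizer (W : Set G)) := key _ le_rfl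
  · intro a ha
    rcases hact a ha with h | h
    · exact Or.inl (Subgroup.mem_inf.2 ⟨ha, h⟩)
    · exact Or.inr (Subgroup.mem_inf.2 ⟨A.mul_mem ha htA, h⟩)

/-- **Abelian offenders are elementary abelian.** -/
theorem gbo_sq (S : Setup 2 V H) (A : Subgroup G) : A ≤ H → IsGBO V A → ∀ a ∈ A, a ^ 2 = 1 := by
  induction A using WellFoundedLT.induction with
  | _ A ih =>
    intro hAH hA a ha
    by_cases hne : A = ⊥
    · subst hne
      rw [Subgroup.mem_bot] at ha
      rw [ha]; simp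
    obtain ⟨t, htA, ht⟩ := exists_tv S A hAH hA hne
    obtain ⟨K, hKA, htK, hKG, hdec⟩ := exists_complement S hAH hA htA ht
    have hlt : K < A := lt_of_le_of_ne hKA (fun h => htK (h ▸ htA))
    have hK := ih K hlt (hKA.trans hAH) hKG
    rcases hdec a ha with h | h
    · exact hK a h
    · have h1 := hK _ h
      have hc : Commute a t := hA.comm a ha t htA
      rw [hc.mul_pow, ht.pow, mul_one] at h1
      exact h1

end GBO

section Internal

/-- An internal direct product of copies of `SL₂(2)`. -/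
theorem iso_pi {G : Type*} [Group G] [Finite G] {ι : Type*} [Finite ι] (H : Subgroup G)
    (E : ι → Subgroup G)
    (hN : ∀ i, H ≤ Subgroup.normalizer (E i : Set G)) (hind : iSupIndep E) (hsup : ⨆ i, E i = H)
    (hiso : ∀ i, Nonempty (E i ≃* Matrix.SpecialLinearGroup (Fin 2) (ZMod 2))) :
    Nonempty (H ≃* (Fin (Nat.card ι) → Equiv.Perm (Fin 3))) := by
  classical
  cases nonempty_fintype ι
  have hle : ∀ i, E i ≤ H := fun i => hsup ▸ le_iSup E i
  have hcomm : Pairwise fun i j : ι => ∀ x y : G, x ∈ E i → y ∈ E j → Commute x y := by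
    intro i j hij x y hx hy
    have h1 : x * y * x⁻¹ * y⁻¹ ∈ E i ⊓ E j := by
      refine Subgroup.mem_inf.2 ⟨?_, ?_⟩
      · have h3 := (Subgroup.mem_normalizer_iff.1 (hN i (hle j hy)) x⁻¹).1 ((E i).inv_mem hx)
        have h2 := (E i).mul_mem hx h3
        have e : x * (y * x⁻¹ * y⁻¹) = x * y * x⁻¹ * y⁻¹ := by group
        rwa [e] at h2
      · have h3 := (Subgroup.mem_normalizer_iff.1 (hN j (hle i hx)) y).1 hy
        have h2 := (E j).mul_mem h3 ((E j).inv_mem hy)
        exact h2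
    have hdisj : Disjoint (E i) (E j) := hind.pairwiseDisjoint hij
    have h3 : x * y * x⁻¹ * y⁻¹ = 1 := by
      have := hdisj.le_bot h1
      exact this
    show x * y = y * x
    calc x * y = (x * y * x⁻¹ * y⁻¹) * (y * x) := by group
      _ = y * x := by rw [h3, one_mul]
  have hinj := Subgroup.injective_noncommPiCoprod_of_iSupIndep (hcomm := hcomm) hind
  have hrange := Subgroup.noncommPiCoprod_range (hcomm := hcomm)
  obtain ⟨e4⟩ := Cfsg.Agent.Lib.Compute.SmallField.sl2_card2 (F := ZMod 2) (ZMod.card 2)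
  let e1 := MonoidHom.ofInjective hinj
  let e2 := MulEquiv.subgroupCongr (hrange.trans hsup)
  let e3 : (∀ i, E i) ≃* (ι → Matrix.SpecialLinearGroup (Fin 2) (ZMod 2)) :=
    MulEquiv.piCongrRight fun i => Classical.choice (hiso i)
  let e5 : (ι → Matrix.SpecialLinearGroup (Fin 2) (ZMod 2)) ≃* (Fin (Nat.card ι) → Equiv.Perm (Fin 3)) :=
    MulEquiv.arrowCongr (Finite.equivFin ι) e4
  exact ⟨e2.symm.trans (e1.symm.trans (e3.trans e5))⟩

theorem final_iso {G : Type*} [Group G] [Finite G] (V H : Subgroup G) (hV : Cfsg.IsElementaryAbelian 2 V)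
    (hHV : H ≤ Subgroup.normalizer (V : Set G)) (hf : H ⊓ Subgroup.centralizer (V : Set G) = ⊥)
    (hS1 : Subgroup.centralizer (Cfsg.pPrimeCore 2 ↥H : Set ↥H) ≤ Cfsg.pPrimeCore 2 ↥H)
    (hS3 : H = ⨆ A : {A : Subgroup G // A ≤ H ∧ Cfsg.IsBestOffenderOn 2 V A}, (A : Subgroup G)) (hH1 : H ≠ ⊥) :
    ∃ n : ℕ, 1 ≤ n ∧ Nonempty (H ≃* (Fin n → Equiv.Perm (Fin 3))) := by
  have hres := Cfsg.Agent.S0617.result V H hV hHV hf hS1 hS3 hH1
  have hall := hres.2.1
  have hind := hres.2.2.1
  have hsup := hres.2.2.2.1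
  haveI hfin : Finite (Idx 2 V H) := Subtype.finite
  have hiso := iso_pi (ι := Idx 2 V H) H (fun E => E.1) (fun E => (hall E).1) hind hsup (fun E => (hall E).2.1)
  refine ⟨Nat.card (Idx 2 V H), ?_, hiso⟩
  rw [Nat.succ_le_iff, Nat.card_pos_iff]
  refine ⟨?_, hfin⟩
  by_contra h
  rw [not_nonempty_iff] at h
  apply hH1
  rw [← hsup]
  exact iSup_of_empty _

end Internal

section Group

variable {X : Type*} [Group X] [Finite X]

/-- Abelian subgroups of `P` of largest order. -/
structure IsMaxAb (P A : Subgroup X) : Prop where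
  le : A ≤ P
  comm : ∀ x ∈ A, ∀ y ∈ A, x * y = y * x
  max : ∀ B : Subgroup X, B ≤ P → (∀ x ∈ B, ∀ y ∈ B, x * y = y * x) → Nat.card B ≤ Nat.card A

theorem isMaxAb_map {P : Subgroup X} {A : Subgroup P} (h : A ∈ Cfsg.maxAbelianSubgroups ↥P) :
    IsMaxAb P (A.map P.subtype) := by
  obtain ⟨h1, h2⟩ := h
  refine ⟨?_, ?_, ?_⟩
  · rintro _ ⟨a, -, rfl⟩
    exact a.2
  · rintro _ ⟨a, ha, rfl⟩ _ ⟨b, hb, rfl⟩
    have := h1.is_comm.comm (⟨a, ha⟩ : A) ⟨b, hb⟩
    exact congrArg (fun z : A => ((z : P) : X)) this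
  · intro B hB hc
    have hcB : IsMulCommutative (B.subgroupOf P) := ⟨⟨by
      rintro ⟨a, ha⟩ ⟨b, hb⟩
      apply Subtype.ext
      apply Subtype.ext
      exact hc _ ha _ hb⟩⟩
    have h3 := h2 _ hcB
    have h4 : Nat.card (B.subgroupOf P) = Nat.card B := by
      rw [card_inf_eq, inf_eq_right.mpr hB]
    rw [Subgroup.card_map_of_injective P.subtype_injective, ← h4]
    exact h3

theorem IsMaxAb.le_thompson {P A : Subgroup X} (h : IsMaxAb P A) : A ≤ Cfsg.thompsonSubgroupAOf P := by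
  have hmem : A.subgroupOf P ∈ Cfsg.maxAbelianSubgroups ↥P := by
    refine ⟨⟨⟨?_⟩⟩, ?_⟩
    · rintro ⟨⟨a, ha⟩, ha'⟩ ⟨⟨b, hb⟩, hb'⟩
      apply Subtype.ext
      apply Subtype.ext
      exact h.comm a ha' b hb'
    · intro B hB
      have h1 : Nat.card B = Nat.card (B.map P.subtype) :=
        (Subgroup.card_map_of_injective P.subtype_injective).symm
      have h2 : Nat.card (A.subgroupOf P) = Nat.card A := by
        rw [card_inf_eq, inf_eq_right.mpr h.le]
      rw [h1, h2]
      refine h.max _ ?_ ?_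
      · rintro _ ⟨a, -, rfl⟩
        exact a.2
      · rintro _ ⟨a, ha, rfl⟩ _ ⟨b, hb, rfl⟩
        have := hB.is_comm.comm (⟨a, ha⟩ : B) ⟨b, hb⟩
        exact congrArg (fun z : B => ((z : P) : X)) this
  have h3 : (A.subgroupOf P).map P.subtype = A := Subgroup.map_subgroupOf_eq_of_le h.le
  rw [← h3]
  exact Subgroup.map_mono (le_sSup hmem)

theorem IsMaxAb.of_conj {P A : Subgroup X} (h : IsMaxAb P A) (g : X)
    (hle : A.map (MulAut.conj g).toMonoidHom ≤ P) : IsMaxAb P (A.map (MulAut.conj g).toMonoidHom) := by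
  refine ⟨hle, ?_, ?_⟩
  · rintro _ ⟨a, ha, rfl⟩ _ ⟨b, hb, rfl⟩
    simp only [MulEquiv.coe_toMonoidHom, ← map_mul]
    rw [h.comm a ha b hb]
  · intro B hB hc
    rw [Subgroup.card_map_of_injective (MulAut.conj g).injective]
    exact h.max B hB hc

theorem IsMaxAb.conj {P A : Subgroup X} (h : IsMaxAb P A) (g : X) :
    IsMaxAb (P.map (MulAut.conj g).toMonoidHom) (A.map (MulAut.conj g).toMonoidHom) := by
  refine ⟨Subgroup.map_mono h.le, ?_, ?_⟩
  · rintro _ ⟨a, ha, rfl⟩ _ ⟨b, hb, rfl⟩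
    simp only [MulEquiv.coe_toMonoidHom, ← map_mul]
    rw [h.comm a ha b hb]
  · intro B hB hc
    rw [Subgroup.card_map_of_injective (MulAut.conj g).injective]
    have h1 : Nat.card (B.map (MulAut.conj g⁻¹).toMonoidHom) = Nat.card B :=
      Subgroup.card_map_of_injective (MulAut.conj g⁻¹).injective
    rw [← h1]
    refine h.max _ ?_ ?_
    · rintro _ ⟨b, hb, rfl⟩
      obtain ⟨p, hp, rfl⟩ := hB hb
      have e : (MulAut.conj g⁻¹).toMonoidHom ((MulAut.conj g).toMonoidHom p) = p := by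
        simp only [MulEquiv.coe_toMonoidHom, MulAut.conj_apply]
        group
      rw [e]
      exact hp
    · rintro _ ⟨a, ha, rfl⟩ _ ⟨b, hb, rfl⟩
      simp only [MulEquiv.coe_toMonoidHom, ← map_mul]
      rw [hc a ha b hb]

/-- The inequality for abelian subgroups of largest order. -/
theorem mval_le {P A V : Subgroup X} (hVP : V ≤ P) (hVc : ∀ x ∈ V, ∀ y ∈ V, x * y = y * x)
    (h : IsMaxAb P A) : ∀ B : Subgroup X, B ≤ A → mval V B ≤ mval V A := by
  intro B hB
  obtain ⟨U, hU⟩ : ∃ U, U = V ⊓ Subgroup.centralizer (B : Set X) := ⟨_, rfl⟩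
  obtain ⟨A₁, hA₁⟩ : ∃ A₁, A₁ = A ⊓ Subgroup.centralizer (U : Set X) := ⟨_, rfl⟩
  have hUV : ∀ u ∈ U, u ∈ V := fun u hu => by
    rw [hU] at hu
    exact (Subgroup.mem_inf.1 hu).1
  have hA₁A : ∀ a ∈ A₁, a ∈ A := fun a ha => by
    rw [hA₁] at ha
    exact (Subgroup.mem_inf.1 ha).1
  have hBA₁ : B ≤ A₁ := by
    rw [hA₁]
    refine le_inf hB fun b hb => Subgroup.mem_centralizer_iff.2 fun u hu => ?_
    rw [hU] at hu
    exact (Subgroup.mem_centralizer_iff.1 (Subgroup.mem_inf.1 hu).2 b hb).symm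
  have hcomm : ∀ u ∈ U, ∀ a ∈ A₁, u * a = a * u := by
    intro u hu a ha
    rw [hA₁] at ha
    exact Subgroup.mem_centralizer_iff.1 (Subgroup.mem_inf.1 ha).2 u hu
  have hD : ∀ x ∈ U ⊔ A₁, ∀ y ∈ U ⊔ A₁, x * y = y * x := by
    intro x hx y hy
    obtain ⟨u, hu, a, ha, rfl⟩ := Cfsg.Agent.Lib.Components.LayerProduct.mem_sup_of_commute hcomm hx
    obtain ⟨u', hu', a', ha', rfl⟩ := Cfsg.Agent.Lib.Components.LayerProduct.mem_sup_of_commute hcomm hy
    calc u * a * (u' * a') = u * (a * u') * a' := by group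
      _ = u * (u' * a) * a' := by rw [hcomm u' hu' a ha]
      _ = (u * u') * (a * a') := by group
      _ = (u' * u) * (a' * a) := by rw [hVc u (hUV u hu) u' (hUV u' hu'), h.comm a (hA₁A a ha) a' (hA₁A a' ha')]
      _ = u' * (u * a') * a := by group
      _ = u' * (a' * u) * a := by rw [hcomm u hu a' ha']
      _ = u' * a' * (u * a) := by group
  have hDP : U ⊔ A₁ ≤ P := sup_le (fun u hu => hVP (hUV u hu)) (fun a ha => h.le (hA₁A a ha))
  have hDc := h.max _ hDP hD
  have hn : U ≤ Subgroup.normalizer (A₁ : Set X) := by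
    intro u hu
    apply mem_normalizer_of_conj_mem
    intro a ha
    rw [hcomm u hu a ha]
    simpa using ha
  have e := card_sup_mul_card_inf_of_le_normalizer U A₁ hn
  have hinf : U ⊓ A₁ ≤ V ⊓ Subgroup.centralizer (A : Set X) := by
    intro x hx
    obtain ⟨hx1, hx2⟩ := Subgroup.mem_inf.1 hx
    exact Subgroup.mem_inf.2 ⟨hUV x hx1, Subgroup.mem_centralizer_iff.2 fun a ha => h.comm a ha x (hA₁A x hx2)⟩
  have c1 := Subgroup.card_le_of_le hBA₁
  have c2 := Subgroup.card_le_of_le hinf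
  simp only [mval]
  rw [← hU]
  calc Nat.card B * Nat.card U ≤ Nat.card A₁ * Nat.card U := Nat.mul_le_mul_right _ c1
    _ = Nat.card U * Nat.card A₁ := mul_comm _ _
    _ = Nat.card ↥(U ⊔ A₁) * Nat.card ↥(U ⊓ A₁) := e.symm
    _ ≤ _ := Nat.mul_le_mul hDc c2

/-- Transport of the inequality to the ambient group. -/
theorem mval_map {V A : Subgroup X} [V.Normal] (h1 : ∀ B : Subgroup X, B ≤ A → mval V B ≤ mval V A) :
    ∀ B : Subgroup (TT V), B ≤ A.map (pi V) → mval (V0 V) B ≤ mval (V0 V) (A.map (pi V)) := by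
  intro B hB
  set B₀ : Subgroup X := A ⊓ B.comap (pi V) with hB₀
  have hmap : B₀.map (pi V) = B := by
    apply le_antisymm
    · rintro _ ⟨x, hx, rfl⟩
      exact hx.2
    · intro b hb
      obtain ⟨a, ha, rfl⟩ := hB hb
      exact ⟨a, Subgroup.mem_inf.mpr ⟨ha, hb⟩, rfl⟩
  have hinf : B₀ ⊓ Subgroup.centralizer (V : Set X) = A ⊓ Subgroup.centralizer (V : Set X) := by
    apply le_antisymm
    · exact inf_le_inf_right _ inf_le_left
    · intro x hx
      refine Subgroup.mem_inf.mpr ⟨Subgroup.mem_inf.mpr ⟨hx.1, ?_⟩, hx.2⟩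
      rw [Subgroup.mem_comap, (pi_eq_one_iff x).mpr hx.2]
      exact B.one_mem
  have h4 := h1 B₀ inf_le_left
  have h5 := card_map_pi (V := V) B₀
  have h6 := card_map_pi (V := V) A
  rw [hmap, hinf] at h5
  simp only [mval] at h4 ⊢
  rw [← hmap, card_inf_centralizer_up, card_inf_centralizer_up, hmap]
  rw [← h5, ← h6] at h4
  have hpos : 0 < Nat.card ↥(A ⊓ Subgroup.centralizer (V : Set X)) := Nat.card_pos
  have h7 : Nat.card ↥(A ⊓ Subgroup.centralizer (V : Set X)) * (Nat.card B * Nat.card ↥(V ⊓ Subgroup.centralizer (B₀ : Set X))) ≤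
      Nat.card ↥(A ⊓ Subgroup.centralizer (V : Set X)) * (Nat.card (A.map (pi V)) * Nat.card ↥(V ⊓ Subgroup.centralizer (A : Set X))) := by
    calc _ = Nat.card B * Nat.card ↥(A ⊓ Subgroup.centralizer (V : Set X)) * Nat.card ↥(V ⊓ Subgroup.centralizer (B₀ : Set X)) := by ring
      _ ≤ _ := h4
      _ = _ := by ring
  exact Nat.le_of_mul_le_mul_left h7 hpos

/-- The Frattini part. -/
theorem frattini (T : Sylow 2 X) (C : Subgroup X) [hC : C.Normal] :
    C ⊔ Subgroup.normalClosure (Cfsg.thompsonSubgroupAOf (T : Subgroup X) : Set X) ⊔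
      Subgroup.normalizer (Cfsg.thompsonSubgroupAOf (T : Subgroup X) : Set X) = ⊤ := by
  set J := Cfsg.thompsonSubgroupAOf (T : Subgroup X) with hJ
  set M := C ⊔ Subgroup.normalClosure (J : Set X) with hM
  haveI hMn : M.Normal := Subgroup.sup_normal _ _
  obtain ⟨Q, hQ⟩ := Cfsg.Agent.Lib.Basic.SylowUtil.exists_sylow_inf_normal T M
  rw [eq_top_iff]
  intro g _
  obtain ⟨n, hn, h, hh, hg⟩ := Cfsg.Agent.Lib.Basic.SylowUtil.frattini_argument' Q g
  rw [hQ] at hh
  rw [hg]
  refine Subgroup.mul_mem _ ((le_sup_left : M ≤ _) hn) ((le_sup_right : Subgroup.normalizer _ ≤ _) ?_)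
  apply mem_normalizer_of_conj_mem
  have hgen : ∀ A' ∈ Cfsg.maxAbelianSubgroups ↥(T : Subgroup X), ∀ a ∈ A'.map (T : Subgroup X).subtype,
      h * a * h⁻¹ ∈ J := by
    intro A' hA' a ha
    have hA := isMaxAb_map hA'
    have hAJ := hA.le_thompson
    have hAM : A'.map (T : Subgroup X).subtype ≤ (T : Subgroup X) ⊓ M :=
      le_inf hA.le (hAJ.trans (Subgroup.le_normalClosure.trans le_sup_right))
    have hconj : (A'.map (T : Subgroup X).subtype).map (MulAut.conj h).toMonoidHom ≤ (T : Subgroup X) := by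
      rintro _ ⟨b, hb, rfl⟩
      exact (Subgroup.mem_inf.1 ((Subgroup.mem_normalizer_iff.1 hh b).1 (hAM hb))).1
    exact (hA.of_conj h hconj).le_thompson ⟨a, ha, rfl⟩
  have hle : sSup (Cfsg.maxAbelianSubgroups ↥(T : Subgroup X)) ≤
      (J.comap (MulAut.conj h).toMonoidHom).comap (T : Subgroup X).subtype := by
    refine sSup_le fun A' hA' => ?_
    rw [← Subgroup.map_le_iff_le_comap]
    exact fun a ha => hgen A' hA' a ha
  intro v hv
  have hv' : v ∈ (Cfsg.thompsonSubgroupA ↥(T : Subgroup X)).map (T : Subgroup X).subtype := hv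
  obtain ⟨w, hw, rfl⟩ := hv'
  exact hle hw

theorem setup_top {V : Subgroup X} [V.Normal] (hEA : Cfsg.IsElementaryAbelian 2 V)
    (hsep : Cfsg.IsPSolvable 2 X)
    (hOC : ∀ D : Subgroup X, D.Normal → Subgroup.centralizer (V : Set X) ≤ D →
      (∃ k : ℕ, (Subgroup.centralizer (V : Set X)).relIndex D = 2 ^ k) →
      D = Subgroup.centralizer (V : Set X)) :
    Setup 2 (V0 V) ((⊤ : Subgroup X).map (pi V)) := by
  refine ⟨isEA_V0 hEA, map_le_normalizer_V0 ⊤, map_inf_centralizer_eq_bot ⊤, ?_⟩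
  apply Cfsg.Agent.Lib.Solvable.Stability.centralizer_pPrimeCore_le
  · have h1 : Cfsg.IsPSolvable 2 ↥(⊤ : Subgroup X) :=
      Cfsg.Agent.Lib.Coprime.PSolvable.isPSolvable_subgroup Nat.prime_two ⊤ hsep
    exact Cfsg.Agent.Lib.Coprime.PSolvable.isPSolvable_of_surjective Nat.prime_two
      ((pi V).subgroupMap ⊤) ((pi V).subgroupMap_surjective ⊤) h1
  · exact pCore_map_eq_bot hOC ⊤

theorem bo_of_maxAb {V : Subgroup X} [V.Normal] (S : Setup 2 (V0 V) ((⊤ : Subgroup X).map (pi V)))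
    (hEA : Cfsg.IsElementaryAbelian 2 V) {P A : Subgroup X} (hPp : IsPGroup 2 P) (hVP : V ≤ P)
    (h : IsMaxAb P A) : Cfsg.IsBestOffenderOn 2 V A := by
  have hVc : ∀ x ∈ V, ∀ y ∈ V, x * y = y * x := fun x hx y hy =>
    congrArg Subtype.val (hEA.1.is_comm.comm ⟨x, hx⟩ ⟨y, hy⟩)
  have h1 := mval_le hVP hVc h
  have hG : IsGBO (V0 V) (A.map (pi V)) := by
    refine ⟨?_, (hPp.to_le h.le).map (pi V), mval_map h1⟩
    rintro _ ⟨a, ha, rfl⟩ _ ⟨b, hb, rfl⟩
    rw [← map_mul, ← map_mul, h.comm a ha b hb]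
  have hsq := gbo_sq S (A.map (pi V)) (Subgroup.map_mono le_top) hG
  refine ⟨h1, ?_, ?_⟩
  · rw [Subgroup.commutator_le]
    intro a ha b hb
    rw [commutatorElement_eq_one_iff_mul_comm.mpr (h.comm a ha b hb)]
    exact Subgroup.one_mem _
  · intro a ha
    have h2 : (pi V a) ^ 2 = 1 := hsq _ ⟨a, ha, rfl⟩
    rw [← map_pow] at h2
    exact (pi_eq_one_iff _).1 h2

theorem mainB {V : Subgroup X} [hVn : V.Normal] (T : Sylow 2 X) (hEA : Cfsg.IsElementaryAbelian 2 V)
    (hsep : Cfsg.IsPSolvable 2 X)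
    (hOC : ∀ D : Subgroup X, D.Normal → Subgroup.centralizer (V : Set X) ≤ D →
      (∃ k : ℕ, (Subgroup.centralizer (V : Set X)).relIndex D = 2 ^ k) →
      D = Subgroup.centralizer (V : Set X)) :
    Subgroup.normalClosure (Cfsg.thompsonSubgroupAOf (T : Subgroup X) : Set X) ≤ Subgroup.centralizer (V : Set X) ∨
    ∃ n : ℕ, 1 ≤ n ∧ Nonempty (↥((Subgroup.normalClosure (Cfsg.thompsonSubgroupAOf (T : Subgroup X) : Set X)).map (pi V)) ≃*
      (Fin n → Equiv.Perm (Fin 3))) := by
  classical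
  have S := setup_top hEA hsep hOC
  set Y := Subgroup.normalClosure (Cfsg.thompsonSubgroupAOf (T : Subgroup X) : Set X) with hY
  haveI hYn : Y.Normal := Subgroup.normalClosure_normal
  by_cases hle : Y ≤ Subgroup.centralizer (V : Set X)
  · exact Or.inl hle
  right
  have hVp : IsPGroup 2 V := isPGroup_of_isEA hEA
  have hVT : V ≤ T := (Cfsg.Agent.Lib.Basic.PCore.le_pCore hVn hVp).trans (Cfsg.Agent.Lib.Basic.PCore.pCore_le_sylow T)
  have hconjV : ∀ g : X, V ≤ (T : Subgroup X).map (MulAut.conj g).toMonoidHom := by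
    intro g v hv
    refine ⟨g⁻¹ * v * g, hVT ?_, by simp [mul_assoc]⟩
    have h1 := hVn.conj_mem v hv g⁻¹
    simpa using h1
  let 𝒜 : Set (Subgroup X) := {B | ∃ A' ∈ Cfsg.maxAbelianSubgroups ↥(T : Subgroup X), ∃ g : X,
    B = (A'.map (T : Subgroup X).subtype).map (MulAut.conj g).toMonoidHom}
  have hA : ∀ B ∈ 𝒜, Cfsg.IsBestOffenderOn 2 V B := by
    rintro _ ⟨A', hA', g, rfl⟩
    exact bo_of_maxAb S hEA (T.2.map _) (hconjV g) ((isMaxAb_map hA').conj g)
  have hLA : Y = sSup 𝒜 := by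
    apply le_antisymm
    · haveI hN : (sSup 𝒜).Normal := by
        constructor
        intro x hx g
        have hle2 : sSup 𝒜 ≤ (sSup 𝒜).comap (MulAut.conj g).toMonoidHom := by
          refine sSup_le ?_
          rintro _ ⟨A', hA', h, rfl⟩
          rw [← Subgroup.map_le_iff_le_comap]
          apply le_sSup
          refine ⟨A', hA', g * h, ?_⟩
          have e : (MulAut.conj g).toMonoidHom.comp (MulAut.conj h).toMonoidHom = (MulAut.conj (g * h)).toMonoidHom := by
            ext z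
            simp [mul_assoc]
          rw [Subgroup.map_map, e]
        exact hle2 hx
      apply Subgroup.normalClosure_le_normal
      rintro _ ⟨w, hw, rfl⟩
      have hle3 : sSup (Cfsg.maxAbelianSubgroups ↥(T : Subgroup X)) ≤ (sSup 𝒜).comap (T : Subgroup X).subtype := by
        refine sSup_le fun A' hA' => ?_
        rw [← Subgroup.map_le_iff_le_comap]
        apply le_sSup
        refine ⟨A', hA', 1, ?_⟩
        rw [map_one]
        ext z
        simp
      exact hle3 hw
    · refine sSup_le ?_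
      rintro _ ⟨A', hA', g, rfl⟩
      rintro _ ⟨_, ⟨a, ha, rfl⟩, rfl⟩
      exact hYn.conj_mem _ (Subgroup.le_normalClosure ((isMaxAb_map hA').le_thompson ⟨a, ha, rfl⟩)) g
  obtain ⟨hE, hHV, hf, hS1, hS3⟩ := setup_map hEA hsep hOC Y 𝒜 hLA hA
  have hH1 : Y.map (pi V) ≠ ⊥ := by
    intro h
    apply hle
    intro y hy
    have h1 : pi V y ∈ Y.map (pi V) := ⟨y, hy, rfl⟩
    rw [h] at h1
    exact (pi_eq_one_iff y).1 h1
  exact final_iso (V0 V) (Y.map (pi V)) hE hHV hf hS1 hS3 hH1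

/-- The elements of order at most two of an abelian subgroup. -/
def omegaW (W : Subgroup X) (hWc : ∀ x ∈ W, ∀ y ∈ W, x * y = y * x) : Subgroup X where
  carrier := {x | x ∈ W ∧ x ^ 2 = 1}
  mul_mem' := by
    rintro a b ⟨ha, ha2⟩ ⟨hb, hb2⟩
    refine ⟨W.mul_mem ha hb, ?_⟩
    have hc : Commute a b := hWc a ha b hb
    rw [hc.mul_pow, ha2, hb2, one_mul]
  one_mem' := ⟨W.one_mem, one_pow 2⟩
  inv_mem' := by
    rintro a ⟨ha, ha2⟩
    exact ⟨W.inv_mem ha, by rw [inv_pow, ha2, inv_one]⟩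

/-- An element of odd order centralizing the elements of order two of an abelian `2`-group centralizes it. -/
theorem odd_fix {W : Subgroup X} (hWc : ∀ x ∈ W, ∀ y ∈ W, x * y = y * x) (hW2 : IsPGroup 2 W) {g : X}
    (hg : Odd (orderOf g)) (hgW : ∀ w ∈ W, g * w * g⁻¹ ∈ W)
    (hV : ∀ w ∈ W, w ^ 2 = 1 → g * w = w * g) : ∀ w ∈ W, g * w = w * g := by
  have key : ∀ k : ℕ, ∀ w ∈ W, w ^ (2 ^ k) = 1 → g * w = w * g := by
    intro k
    induction k with
    | zero =>
      intro w _ h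
      rw [pow_zero, pow_one] at h
      rw [h]; group
    | succ k ih =>
      intro w hw h
      have h2 : g * w ^ 2 = w ^ 2 * g := ih (w ^ 2) (W.pow_mem hw 2) (by
        rw [← pow_mul, ← pow_succ']; exact h)
      obtain ⟨u, hu⟩ : ∃ u, u = g * w * g⁻¹ * w⁻¹ := ⟨_, rfl⟩
      have hw' := hgW w hw
      have huW : u ∈ W := hu ▸ W.mul_mem hw' (W.inv_mem hw)
      have hu2 : u ^ 2 = 1 := by
        have hc : Commute (g * w * g⁻¹) w⁻¹ := hWc _ hw' _ (W.inv_mem hw)
        rw [hu, hc.mul_pow, conj_pow, inv_pow, h2]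
        group
      have hgu : g * u = u * g := hV u huW hu2
      have hconj : g * w * g⁻¹ = u * w := by rw [hu]; group
      have h3 := Cfsg.Agent.Lib.PGroup.FFDuo.conj_pow_eq hgu hconj (orderOf g)
      rw [pow_orderOf_eq_one] at h3
      simp only [one_mul, inv_one, mul_one] at h3
      have h4 : u ^ orderOf g = 1 := by
        have h5 : u ^ orderOf g * w = 1 * w := by rw [← h3, one_mul]
        exact mul_right_cancel h5
      obtain ⟨m, hm⟩ := hg
      rw [hm, pow_succ, pow_mul, hu2, one_pow, one_mul] at h4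
      rw [h4, one_mul] at hconj
      exact mul_inv_eq_iff_eq_mul.mp hconj
  intro w hw
  obtain ⟨k, hk⟩ := hW2 ⟨w, hw⟩
  exact key k w hw (by simpa using congrArg Subtype.val hk)

/-- The centre of a Sylow subgroup. -/
abbrev Zc (T : Sylow 2 X) : Subgroup X := (T : Subgroup X) ⊓ Subgroup.centralizer ((T : Subgroup X) : Set X)

/-- The kernel. -/
abbrev Cc (T : Sylow 2 X) : Subgroup X := (Subgroup.centralizer ((Zc T : Subgroup X) : Set X)).normalCore

theorem le_core (T : Sylow 2 X) (D : Subgroup X) (hD : D.Normal) (h : ∀ g ∈ D, ∃ k : ℕ, g ^ (2 ^ k) ∈ Cc T) :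
    D ≤ Cc T := by
  haveI hCn : (Cc T).Normal := Subgroup.normalCore_normal _
  let π := QuotientGroup.mk' (Cc T)
  have hπ : Function.Surjective π := QuotientGroup.mk'_surjective (Cc T)
  have hDn : (D.map π).Normal := hD.map π hπ
  have hDp : IsPGroup 2 (D.map π) := by
    rintro ⟨_, g, hg, rfl⟩
    obtain ⟨k, hk⟩ := h g hg
    refine ⟨k, Subtype.ext ?_⟩
    show (π g) ^ 2 ^ k = 1
    rw [← map_pow]
    exact (QuotientGroup.eq_one_iff _).2 hk
  have hle : D.map π ≤ ((Sylow.mapSurjective hπ T : Sylow 2 (X ⧸ Cc T)) : Subgroup (X ⧸ Cc T)) :=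
    (Cfsg.Agent.Lib.Basic.PCore.le_pCore hDn hDp).trans (Cfsg.Agent.Lib.Basic.PCore.pCore_le_sylow _)
  refine (Subgroup.normal_le_normalCore).2 fun g hg => ?_
  have h1 := hle (Subgroup.mem_map_of_mem π hg)
  rw [Sylow.coe_mapSurjective] at h1
  obtain ⟨t, ht, hte⟩ := h1
  have hc : t⁻¹ * g ∈ Cc T := QuotientGroup.eq.1 hte
  have hc2 : t⁻¹ * g ∈ Subgroup.centralizer ((Zc T : Subgroup X) : Set X) := Subgroup.normalCore_le _ hc
  rw [Subgroup.mem_centralizer_iff]
  intro z hz
  have hzT : t * z = z * t := Subgroup.mem_centralizer_iff.1 (Subgroup.mem_inf.1 hz).2 t ht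
  have hz2 : z * (t⁻¹ * g) = (t⁻¹ * g) * z := Subgroup.mem_centralizer_iff.1 hc2 z hz
  calc z * g = z * t * (t⁻¹ * g) := by group
    _ = t * (z * (t⁻¹ * g)) := by rw [← hzT]; group
    _ = t * ((t⁻¹ * g) * z) := by rw [hz2]
    _ = g * z := by group

theorem exists_V [Group.IsSolvable X] (hF : Cfsg.fittingSubgroup X = Cfsg.pCore 2 X) (T : Sylow 2 X) :
    ∃ V : Subgroup X, V.Normal ∧ Cfsg.IsElementaryAbelian 2 V ∧ Subgroup.centralizer (V : Set X) = Cc T ∧
    ∀ D : Subgroup X, D.Normal → Subgroup.centralizer (V : Set X) ≤ D →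
      (∃ k : ℕ, (Subgroup.centralizer (V : Set X)).relIndex D = 2 ^ k) →
      D = Subgroup.centralizer (V : Set X) := by
  classical
  haveI hO : (Cfsg.pCore 2 X).Normal := Cfsg.Agent.Lib.Basic.PCore.pCore_normal 2 X
  have hOT : Cfsg.pCore 2 X ≤ T := Cfsg.Agent.Lib.Basic.PCore.pCore_le_sylow T
  have hCF : Subgroup.centralizer (Cfsg.pCore 2 X : Set X) ≤ Cfsg.pCore 2 X := by
    have h1 := Cfsg.Agent.Lib.Components.Fitting.le_fitting_of_solvable_of_le_centralizer
      (Subgroup.centralizer (Cfsg.fittingSubgroup X : Set X)) le_rfl Subgroup.le_normalizer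
      (Group.isSolvable_of_isSolvable_injective (Subgroup.subtype_injective _))
    rw [hF] at h1
    exact h1
  have hZO : Zc T ≤ Cfsg.pCore 2 X ⊓ Subgroup.centralizer (Cfsg.pCore 2 X : Set X) := by
    intro z hz
    have hzC : z ∈ Subgroup.centralizer (Cfsg.pCore 2 X : Set X) :=
      Subgroup.centralizer_le (by exact_mod_cast hOT) (Subgroup.mem_inf.1 hz).2
    exact Subgroup.mem_inf.2 ⟨hCF hzC, hzC⟩
  haveI hZOn : (Cfsg.pCore 2 X ⊓ Subgroup.centralizer (Cfsg.pCore 2 X : Set X)).Normal := inferInstance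
  obtain ⟨W, hW⟩ : ∃ W, W = Subgroup.normalClosure (Zc T : Set X) := ⟨_, rfl⟩
  have hWZO : W ≤ Cfsg.pCore 2 X ⊓ Subgroup.centralizer (Cfsg.pCore 2 X : Set X) := by
    rw [hW]
    exact Subgroup.normalClosure_le_normal hZO
  have hWc : ∀ x ∈ W, ∀ y ∈ W, x * y = y * x := fun x hx y hy =>
    Subgroup.mem_centralizer_iff.1 (Subgroup.mem_inf.1 (hWZO hy)).2 x (Subgroup.mem_inf.1 (hWZO hx)).1
  have hWp : IsPGroup 2 W := (Cfsg.Agent.Lib.Basic.PCore.pCore_isPGroup 2).to_le (hWZO.trans inf_le_left)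
  haveI hWn : W.Normal := by
    rw [hW]
    exact Subgroup.normalClosure_normal
  have hZW : Zc T ≤ W := by
    rw [hW]
    exact Subgroup.le_normalClosure
  have hVW : omegaW W hWc ≤ W := fun x hx => hx.1
  have hVn : (omegaW W hWc).Normal :=
    ⟨fun x hx g => ⟨hWn.conj_mem x hx.1 g, by rw [conj_pow, hx.2]; group⟩⟩
  have hEA : Cfsg.IsElementaryAbelian 2 (omegaW W hWc) :=
    ⟨⟨⟨by
      rintro ⟨a, ha⟩ ⟨b, hb⟩
      exact Subtype.ext (hWc a ha.1 b hb.1)⟩⟩, fun a ha => ha.2⟩
  have hCW : Cc T = Subgroup.centralizer (W : Set X) := by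
    haveI hCn : (Cc T).Normal := Subgroup.normalCore_normal _
    apply le_antisymm
    · have h1 : W ≤ Subgroup.centralizer ((Cc T : Subgroup X) : Set X) := by
        rw [hW]
        apply Subgroup.normalClosure_le_normal
        intro z hz
        exact Subgroup.mem_centralizer_iff.2 fun c hc =>
          (Subgroup.mem_centralizer_iff.1 (Subgroup.normalCore_le _ hc) z hz).symm
      exact Subgroup.le_centralizer_iff.1 h1
    · apply (Subgroup.normal_le_normalCore).2
      exact Subgroup.centralizer_le (by exact_mod_cast hZW)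
  have hCV : Subgroup.centralizer ((omegaW W hWc : Subgroup X) : Set X) = Cc T := by
    haveI := hVn
    apply le_antisymm
    · apply le_core T _ inferInstance
      intro g hg
      obtain ⟨k, m, hm, hk⟩ := Nat.exists_eq_two_pow_mul_odd (orderOf_pos g).ne'
      refine ⟨k, ?_⟩
      rw [hCW, Subgroup.mem_centralizer_iff]
      intro w hw
      have hord : Odd (orderOf (g ^ (2 ^ k))) := by
        have hdvd : orderOf (g ^ (2 ^ k)) ∣ m :=
          orderOf_dvd_of_pow_eq_one (by rw [← pow_mul, ← hk, pow_orderOf_eq_one])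
        exact Odd.of_dvd_nat hm hdvd
      have hgk : g ^ (2 ^ k) ∈ Subgroup.centralizer ((omegaW W hWc : Subgroup X) : Set X) :=
        Subgroup.pow_mem _ hg _
      have h3 := odd_fix hWc hWp hord (fun w hw => hWn.conj_mem w hw _)
        (fun w hw hw2 => (Subgroup.mem_centralizer_iff.1 hgk w ⟨hw, hw2⟩).symm) w hw
      exact h3.symm
    · rw [hCW]
      exact Subgroup.centralizer_le (by exact_mod_cast hVW)
  refine ⟨omegaW W hWc, hVn, hEA, hCV, ?_⟩
  rintro D hD hCD ⟨k, hk⟩
  apply le_antisymm _ hCD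
  rw [hCV]
  apply le_core T D hD
  intro g hg
  refine ⟨k, ?_⟩
  rw [← hCV]
  haveI := hVn
  have h1 := Subgroup.pow_index_mem ((Subgroup.centralizer ((omegaW W hWc : Subgroup X) : Set X)).subgroupOf D)
    (⟨g, hg⟩ : D)
  rw [← Subgroup.relIndex, hk] at h1
  exact Subgroup.mem_subgroupOf.1 h1

end Group

/-- Let `X` be a finite solvable group whose Fitting subgroup is a 2-group (equivalently `F(X) = O₂(X)`), `T` a Sylow 2-subgroup of `X`, `J(T)` the subgroup generated by the abelian subgroups of `T` of largest order, `C` the largest normal subgroup of `X` centralizing the centre `Z(T)`, and `Y` the normal closure of `J(T)` in `X`. Then `X = C · Y · N_X(J(T))`, and either `Y ≤ C`, or `CY/C` is isomorphic to a direct product of at least one copy of the symmetric group of degree 3. -/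
theorem result {X : Type*} [Group X] [Finite X]
    [Group.IsSolvable X] (hF : Cfsg.fittingSubgroup X = Cfsg.pCore 2 X) (T : Sylow 2 X) :
    ((Subgroup.centralizer (((T : Subgroup X) ⊓ Subgroup.centralizer ((T : Subgroup X) : Set X) : Subgroup X) : Set X)).normalCore
        ⊔ Subgroup.normalClosure (Cfsg.thompsonSubgroupAOf (T : Subgroup X) : Set X)
        ⊔ Subgroup.normalizer (Cfsg.thompsonSubgroupAOf (T : Subgroup X) : Set X) = ⊤) ∧
    (Subgroup.normalClosure (Cfsg.thompsonSubgroupAOf (T : Subgroup X) : Set X)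
        ≤ (Subgroup.centralizer (((T : Subgroup X) ⊓ Subgroup.centralizer ((T : Subgroup X) : Set X) : Subgroup X) : Set X)).normalCore
      ∨ ∃ n : ℕ, 1 ≤ n ∧
        Nonempty (↥(Subgroup.normalClosure (Cfsg.thompsonSubgroupAOf (T : Subgroup X) : Set X)) ⧸
            ((Subgroup.centralizer (((T : Subgroup X) ⊓ Subgroup.centralizer ((T : Subgroup X) : Set X) : Subgroup X) : Set X)).normalCore).subgroupOf
              (Subgroup.normalClosure (Cfsg.thompsonSubgroupAOf (T : Subgroup X) : Set X))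
          ≃* (Fin n → Equiv.Perm (Fin 3)))) := by
  classical
  refine ⟨frattini T _, ?_⟩
  haveI hCn : (Cc T).Normal := Subgroup.normalCore_normal _
  obtain ⟨V, hVn, hEA, hCV, hOC⟩ := exists_V hF T
  haveI := hVn
  have hsep := Cfsg.Agent.Lib.Coprime.PSolvable.isPSolvable_of_isSolvable (G := X) Nat.prime_two inferInstance
  rcases mainB T hEA hsep hOC with h | ⟨n, hn, ⟨e⟩⟩
  · left
    show _ ≤ Cc T
    rw [← hCV]
    exact h
  · right
    refine ⟨n, hn, ⟨?_⟩⟩
    set Y := Subgroup.normalClosure (Cfsg.thompsonSubgroupAOf (T : Subgroup X) : Set X) with hY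
    let f : ↥Y →* TT V := (pi V).comp Y.subtype
    have hker : f.ker = (Cc T).subgroupOf Y := by
      ext y
      simp only [MonoidHom.mem_ker, f, MonoidHom.comp_apply, Subgroup.subtype_apply, Subgroup.mem_subgroupOf]
      rw [pi_eq_one_iff, hCV]
    have hrange : f.range = Y.map (pi V) := by
      rw [MonoidHom.range_comp, Subgroup.range_subtype]
    exact (QuotientGroup.quotientMulEquivOfEq hker.symm).trans
      ((QuotientGroup.quotientKerEquivRange f).trans ((MulEquiv.subgroupCongr hrange).trans e))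

end Cfsg.Agent.S4302
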