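import Mathlib
import Cfsg.Agent.Lib.Basic.SylowUtil
import Cfsg.Agent.Lib.Coprime.InvSylow

set_option autoImplicit false
universe u

namespace Cfsg.Agent.S4303

open Subgroup
open Cfsg.Agent.Lib.Basic.SylowUtil

section Good

/-- The good numbers. -/
def Good (p n : ℕ) : Prop :=
  ∃ l : List ℕ, l.prod = n ∧ ∀ m ∈ l, (IsPrimePow m ∧ m % p = 1) ∨
    ∃ (S : Type u) (_ : Group S) (_ : Finite S), IsSimpleGroup S ∧ m = Nat.card (Sylow p S)

theorem Good.one (p : ℕ) : Good.{u} p 1 := ⟨[], by simp, by simp⟩

theorem Good.mul {p a b : ℕ} (ha : Good.{u} p a) (hb : Good.{u} p b) : Good.{u} p (a * b) := by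
  obtain ⟨l, rfl, hl⟩ := ha
  obtain ⟨r, rfl, hr⟩ := hb
  refine ⟨l ++ r, by simp, ?_⟩
  intro m hm
  rcases List.mem_append.mp hm with h | h
  · exact hl m h
  · exact hr m h

theorem Good.of_primePow {p m : ℕ} (h : IsPrimePow m) (h' : m % p = 1) : Good.{u} p m :=
  ⟨[m], by simp, by simp only [List.mem_singleton]; rintro _ rfl; exact Or.inl ⟨h, h'⟩⟩

theorem Good.of_simple {p : ℕ} (S : Type u) [Group S] [Finite S] (h : IsSimpleGroup S) :
    Good.{u} p (Nat.card (Sylow p S)) :=
  ⟨[Nat.card (Sylow p S)], by simp, by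
    simp only [List.mem_singleton]; rintro _ rfl; exact Or.inr ⟨S, inferInstance, inferInstance, h, rfl⟩⟩

end Good

variable {G : Type u} [Group G] [Finite G] {p : ℕ} [Fact p.Prime]

omit [Finite G] in
theorem relIndex_mul_card' (H K : Subgroup G) (h : H ≤ K) :
    H.relIndex K * Nat.card H = Nat.card K := by
  have h1 : Nat.card (H.subgroupOf K) * (H.subgroupOf K).index = Nat.card K :=
    card_mul_index _
  have h2 : Nat.card (H.subgroupOf K) = Nat.card H :=
    Nat.card_congr (subgroupOfEquivOfLe h).toEquiv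
  rw [← h1, h2, relIndex, mul_comm]

/-- `|HN : H| = |N : H ∩ N|` for `N` normal. -/
theorem relIndex_sup_normal (H N : Subgroup G) [N.Normal] :
    H.relIndex (H ⊔ N) = H.relIndex N := by
  have hpos1 : 0 < Nat.card H := Nat.card_pos
  have hpos2 : 0 < Nat.card (H ⊓ N : Subgroup G) := Nat.card_pos
  have h1 : H.relIndex (H ⊔ N) * Nat.card H = Nat.card (H ⊔ N : Subgroup G) :=
    relIndex_mul_card' H (H ⊔ N) le_sup_left
  have h2 : N.relIndex (H ⊔ N) * Nat.card N = Nat.card (H ⊔ N : Subgroup G) :=
    relIndex_mul_card' N (H ⊔ N) le_sup_right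
  have h3 : N.relIndex (H ⊔ N) = N.relIndex H := relIndex_sup_right H N
  have h4 : (H ⊓ N).relIndex H * Nat.card (H ⊓ N : Subgroup G) = Nat.card H :=
    relIndex_mul_card' (H ⊓ N) H inf_le_left
  have h5 : (H ⊓ N).relIndex N * Nat.card (H ⊓ N : Subgroup G) = Nat.card N :=
    relIndex_mul_card' (H ⊓ N) N inf_le_right
  have h6 : (H ⊓ N).relIndex H = N.relIndex H := by
    rw [inf_comm]; exact inf_relIndex_right N H
  have h7 : (H ⊓ N).relIndex N = H.relIndex N := inf_relIndex_right H N
  rw [h7] at h5
  rw [h6] at h4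
  rw [h3] at h2
  -- `d * |H| = a * |N|`, `|H| = a * c`, `|N| = e * c`
  have ha : 0 < N.relIndex H := by
    apply Nat.pos_of_ne_zero
    intro h
    rw [h] at h4
    simp at h4
    omega
  rw [← h2, ← h4, ← h5] at h1
  have : H.relIndex (H ⊔ N) * (N.relIndex H * Nat.card (H ⊓ N : Subgroup G))
      = (H.relIndex N * Nat.card (H ⊓ N : Subgroup G)) * N.relIndex H := by
    rw [h1]; ring
  have h8 : H.relIndex (H ⊔ N) * (N.relIndex H * Nat.card (H ⊓ N : Subgroup G))
      = H.relIndex N * (N.relIndex H * Nat.card (H ⊓ N : Subgroup G)) := by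
    rw [this]; ring
  exact Nat.eq_of_mul_eq_mul_right (Nat.mul_pos ha hpos2) h8

open Cfsg.Agent.Lib.Coprime.InvSylow
open scoped Pointwise

theorem card_sylow_index (P : Sylow p G) :
    Nat.card (Sylow p G) = (normalizer ((P : Subgroup G) : Set G)).index :=
  P.card_eq_index_normalizer

/-- `n_p(G) = n_p(N) * n_p(N_G(P ∩ N))`. -/
theorem card_sylow_eq_mul (P : Sylow p G) (N : Subgroup G) [hN : N.Normal] :
    Nat.card (Sylow p G) =
      Nat.card (Sylow p N) * Nat.card (Sylow p (normalizer (((P : Subgroup G) ⊓ N : Subgroup G) : Set G))) := by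
  classical
  obtain ⟨Q, hQ⟩ := exists_sylow_inf_normal P N
  set P₀ : Subgroup G := (P : Subgroup G) ⊓ N with hP₀
  set H : Subgroup G := normalizer ((P₀ : Subgroup G) : Set G) with hH
  have hle : normalizer ((P : Subgroup G) : Set G) ≤ H := by
    intro g hg
    rw [hH, mem_normalizer_iff]
    intro x
    rw [mem_normalizer_iff] at hg
    have h2 := hN.conj_mem
    constructor
    · rintro ⟨h3, h4⟩
      exact ⟨(hg x).1 h3, h2 x h4 g⟩
    · rintro ⟨h3, h4⟩
      refine ⟨(hg x).2 h3, ?_⟩
      have := h2 _ h4 g⁻¹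
      simpa [mul_assoc] using this
  have hPH : (P : Subgroup G) ≤ normalizer ((P : Subgroup G) : Set G) := le_normalizer
  have hQ' : (Q : Subgroup N) = P₀.subgroupOf N := by
    rw [← hQ]
    ext x
    simp [Subgroup.mem_subgroupOf]
  -- top of the tower
  have h1 : H.index = Nat.card (Sylow p N) := by
    have hF : H ⊔ N = ⊤ := by
      have := Q.normalizer_sup_eq_top
      rw [hQ] at this
      exact this
    have : H.relIndex (H ⊔ N) = H.index := by rw [hF, relIndex_top_right]
    rw [← this, relIndex_sup_normal, card_sylow_index Q, relIndex, hQ', hH,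
      subgroupOf_normalizer_eq inf_le_right]
  have h2 : (normalizer ((P : Subgroup G) : Set G)).relIndex H = Nat.card (Sylow p H) := by
    have hPH' : (P : Subgroup G) ≤ H := hPH.trans hle
    rw [card_sylow_index (P.subtype hPH'), P.coe_subtype, relIndex,
      subgroupOf_normalizer_eq hPH']
  rw [card_sylow_index P, ← relIndex_mul_index hle, h1, h2, mul_comm]

theorem mem_normalizer_of_forall {Q : Subgroup G} {g : G}
    (h : ∀ x ∈ Q, g * x * g⁻¹ ∈ Q) : g ∈ normalizer ((Q : Subgroup G) : Set G) := by
  apply mem_normalizer_of_map_conj_eq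
  apply Subgroup.eq_of_le_of_card_ge
  · rintro _ ⟨x, hx, rfl⟩
    exact h x hx
  · exact le_of_eq (Nat.card_congr (Q.equivMapOfInjective _ (MulAut.conj g).injective).toEquiv)

/-- `n_p(G) = n_p(G/N) * |N : N ∩ N_G(P)|`. -/
theorem card_sylow_eq_mul_quotient (P : Sylow p G) (N : Subgroup G) [hN : N.Normal] :
    Nat.card (Sylow p G) =
      Nat.card (Sylow p (G ⧸ N)) * (normalizer ((P : Subgroup G) : Set G)).relIndex N := by
  classical
  set π : G →* G ⧸ N := QuotientGroup.mk' N with hπ
  have hsurj : Function.Surjective π := QuotientGroup.mk'_surjective N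
  set Pb : Sylow p (G ⧸ N) := P.mapSurjective hsurj with hPb
  set J : Subgroup G := (normalizer ((Pb : Subgroup (G ⧸ N)) : Set (G ⧸ N))).comap π with hJ
  have hPbcoe : (Pb : Subgroup (G ⧸ N)) = (P : Subgroup G).map π := P.coe_mapSurjective hsurj
  have hker : π.ker = N := QuotientGroup.ker_mk' N
  have hPH : (P : Subgroup G) ≤ normalizer ((P : Subgroup G) : Set G) := le_normalizer
  have hJeq : J = normalizer ((P : Subgroup G) : Set G) ⊔ N := by
    apply le_antisymm
    · intro g hg
      -- `P' = g • P` lies in `K = P ⊔ N`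
      set K : Subgroup G := (P : Subgroup G) ⊔ N with hK
      have hcomap : ((P : Subgroup G).map π).comap π = K := by
        rw [comap_map_eq, hker]
      have hgn : π g ∈ normalizer ((Pb : Subgroup (G ⧸ N)) : Set (G ⧸ N)) := hg
      rw [mem_normalizer_iff] at hgn
      have hPK : (P : Subgroup G) ≤ K := le_sup_left
      set P' : Sylow p G := g • P with hP'
      have hP'coe : (P' : Subgroup G) = MulAut.conj g • (P : Subgroup G) :=
        Sylow.coe_subgroup_smul
      have hP'K : (P' : Subgroup G) ≤ K := by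
        rw [hP'coe, ← hcomap]
        intro z hz
        obtain ⟨y, hy, rfl⟩ := hz
        rw [mem_comap, ← hPbcoe]
        have hyb : π y ∈ (Pb : Subgroup (G ⧸ N)) := by rw [hPbcoe]; exact ⟨y, hy, rfl⟩
        have := (hgn (π y)).1 hyb
        simpa [map_mul] using this
      obtain ⟨k, hk⟩ := MulAction.exists_smul_eq K (P'.subtype hP'K) (P.subtype hPK)
      have hk' : ∀ z ∈ (P' : Subgroup G), (k : G) * z * (k : G)⁻¹ ∈ (P : Subgroup G) := by
        intro z hz
        have hzK : z ∈ K := hP'K hz
        have h3 : (⟨z, hzK⟩ : K) ∈ ((P'.subtype hP'K : Sylow p K) : Subgroup K) := by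
          rw [P'.coe_subtype]; exact hz
        have h4 : k * ⟨z, hzK⟩ * k⁻¹ ∈ ((k • P'.subtype hP'K : Sylow p K) : Subgroup K) := by
          rw [Sylow.coe_subgroup_smul]
          exact ⟨_, h3, rfl⟩
        rw [hk, P.coe_subtype] at h4
        exact h4
      have hkg : (k : G) * g ∈ normalizer ((P : Subgroup G) : Set G) := by
        apply mem_normalizer_of_forall
        intro y hy
        have hz : g * y * g⁻¹ ∈ (P' : Subgroup G) := by
          rw [hP'coe]; exact ⟨y, hy, rfl⟩
        have := hk' _ hz
        simpa [mul_assoc] using this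
      have hkmem : (k : G) ∈ ((P : Subgroup G) ⊔ N : Subgroup G) := k.2
      rw [← SetLike.mem_coe, Subgroup.mul_normal] at hkmem
      obtain ⟨x, hx, n, hn, hxn⟩ := Set.mem_mul.mp hkmem
      have hng : n * g ∈ normalizer ((P : Subgroup G) : Set G) := by
        have h6 : x⁻¹ * ((k : G) * g) = n * g := by rw [← hxn]; group
        rw [← h6]
        exact mul_mem (inv_mem (hPH hx)) hkg
      have : g = n⁻¹ * (n * g) := by group
      rw [this, sup_comm]
      exact mul_mem (mem_sup_left (inv_mem hn)) (mem_sup_right hng)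
    · apply sup_le
      · intro g hg
        rw [hJ, mem_comap, hPbcoe]
        rw [mem_normalizer_iff] at hg
        apply mem_normalizer_of_forall
        rintro _ ⟨y, hy, rfl⟩
        refine ⟨g * y * g⁻¹, (hg y).1 hy, ?_⟩
        simp [map_mul]
      · intro g hg
        have : π g = 1 := by rw [← MonoidHom.mem_ker, hker]; exact hg
        rw [hJ, mem_comap, this]
        exact one_mem _
  have h1 : J.index = Nat.card (Sylow p (G ⧸ N)) := by
    rw [card_sylow_index Pb, hJ, index_comap_of_surjective _ hsurj]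
  have hle : normalizer ((P : Subgroup G) : Set G) ≤ J := hJeq ▸ le_sup_left
  rw [card_sylow_index P, ← relIndex_mul_index hle, h1, mul_comm, hJeq, relIndex_sup_normal]


theorem card_modEq_centralizer {P Q : Subgroup G} (hP : IsPGroup p P)
    (hPQ : P ≤ normalizer ((Q : Subgroup G) : Set G)) :
    Nat.card Q ≡ Nat.card (Q ⊓ centralizer (P : Set G) : Subgroup G) [MOD p] := by
  classical
  let _ : MulAction P Q :=
    MulAction.compHom Q ((normalizerMonoidHom Q).comp (Subgroup.inclusion hPQ))
  have hsmul : ∀ (x : P) (y : Q), ((x • y : Q) : G) = (x : G) * y * (x : G)⁻¹ := fun _ _ => rfl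
  have h := hP.card_modEq_card_fixedPoints Q
  have h2 : Nat.card (MulAction.fixedPoints P Q) =
      Nat.card (Q ⊓ centralizer (P : Set G) : Subgroup G) := by
    apply Nat.card_congr
    refine ⟨fun x => ⟨x.1.1, x.1.2, ?_⟩, fun x => ⟨⟨x.1, x.2.1⟩, ?_⟩, ?_, ?_⟩
    · change (x.1.1 : G) ∈ centralizer (P : Set G)
      rw [mem_centralizer_iff]
      intro a ha
      have h3 := x.2 ⟨a, ha⟩
      have h4 := congrArg (Subtype.val) h3
      rw [hsmul] at h4
      simp only at h4
      rw [mul_inv_eq_iff_eq_mul] at h4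
      exact h4
    · intro a
      apply Subtype.ext
      rw [hsmul]
      have h3 := mem_centralizer_iff.mp x.2.2 a a.2
      simp only
      rw [mul_inv_eq_iff_eq_mul]
      exact h3
    · intro x; rfl
    · intro x; rfl
  rwa [h2] at h

/-- The prime-power part of `|N : C_N(P)|` is `≡ 1 mod p`. -/
theorem primePart_modEq (P : Sylow p G) (N : Subgroup G) [hN : N.Normal]
    (hpN : ¬ p ∣ Nat.card N) (q : ℕ) [hq : Fact q.Prime]
    (hqN : q ∣ Nat.card N) :
    (q ^ ((normalizer ((P : Subgroup G) : Set G)).relIndex N).factorization q) ≡ 1 [MOD p] := by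
  classical
  have hp : p.Prime := Fact.out
  have hpq : Nat.Coprime p q := by
    rw [Nat.coprime_primes hp hq.out]
    rintro rfl
    exact hpN hqN
  have hcop : Nat.Coprime (Nat.card P) (Nat.card N) := by
    obtain ⟨k, hk⟩ := IsPGroup.iff_card.mp P.2
    rw [hk]
    exact Nat.Coprime.pow_left k ((Nat.Prime.coprime_iff_not_dvd hp).2 hpN)
  have hdisj : (P : Subgroup G) ⊓ N = ⊥ := (Subgroup.disjoint_of_coprime_natCard hcop).eq_bot
  set C : Subgroup G := normalizer ((P : Subgroup G) : Set G) ⊓ N with hC
  have hd : C.relIndex N = (normalizer ((P : Subgroup G) : Set G)).relIndex N :=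
    inf_relIndex_right _ _
  -- `P` centralizes `C`
  have hPC : ∀ c ∈ C, c ∈ centralizer ((P : Subgroup G) : Set G) := by
    intro c hc
    rw [mem_centralizer_iff]
    intro x hx
    have h1 : c * x * c⁻¹ ∈ (P : Subgroup G) := (mem_normalizer_iff.mp hc.1 x).1 hx
    have h2 : c * x * c⁻¹ * x⁻¹ ∈ (P : Subgroup G) := mul_mem h1 (inv_mem hx)
    have h3 : c * x * c⁻¹ * x⁻¹ ∈ N := by
      have : c * x * c⁻¹ * x⁻¹ = c * (x * c⁻¹ * x⁻¹) := by group
      rw [this]
      exact mul_mem hc.2 (hN.conj_mem _ (inv_mem hc.2) x)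
    have h4 : c * x * c⁻¹ * x⁻¹ ∈ ((P : Subgroup G) ⊓ N : Subgroup G) := ⟨h2, h3⟩
    rw [hdisj, mem_bot] at h4
    rw [mul_inv_eq_one, mul_inv_eq_iff_eq_mul] at h4
    exact h4.symm
  obtain ⟨U⟩ : Nonempty (Sylow q C) := inferInstance
  set UG : Subgroup G := (U : Subgroup C).map C.subtype with hUG
  have hUGC : UG ≤ C := Subgroup.map_subtype_le _
  have hUq : IsPGroup q UG := U.2.map C.subtype
  have hPU : (P : Subgroup G) ≤ normalizer ((UG : Subgroup G) : Set G) := by
    apply le_normalizer_of_forall_conj_mem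
    intro a ha x hx
    have h1 := mem_centralizer_iff.mp (hPC x (hUGC hx)) a ha
    rw [h1, mul_inv_cancel_right]
    exact hx
  have hPnorm : (P : Subgroup G) ≤ normalizer ((N : Subgroup G) : Set G) := by
    intro a _
    rw [mem_normalizer_iff]
    intro x
    constructor
    · intro hx
      exact hN.conj_mem x hx a
    · intro hx
      have := hN.conj_mem _ hx a⁻¹
      simpa [mul_assoc] using this
  have hsolv : Group.IsSolvable (P : Subgroup G) ∨ Group.IsSolvable N := by
    left
    have := P.2.isNilpotent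
    infer_instance
  obtain ⟨Q, hUQ, hPQ⟩ := exists_invariant_sylow_ge hPnorm hcop hsolv q UG
    (hUGC.trans inf_le_right) hUq hPU
  set QG : Subgroup G := (Q : Subgroup N).map N.subtype with hQG
  have hQq : IsPGroup q QG := Q.2.map N.subtype
  have h1 := card_modEq_centralizer (p := p) P.2 hPQ
  have hW : QG ⊓ centralizer ((P : Subgroup G) : Set G) = UG := by
    apply le_antisymm
    · -- maximality
      have hWC : QG ⊓ centralizer ((P : Subgroup G) : Set G) ≤ C := by
        rintro x ⟨hx1, hx2⟩
        refine ⟨centralizer_le_normalizer _ hx2, ?_⟩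
        exact (Subgroup.map_subtype_le _) hx1
      have hWq : IsPGroup q ((QG ⊓ centralizer ((P : Subgroup G) : Set G)).subgroupOf C) :=
        (hQq.to_le inf_le_left).comap_subtype
      have hle : (U : Subgroup C) ≤ (QG ⊓ centralizer ((P : Subgroup G) : Set G)).subgroupOf C := by
        intro x hx
        rw [mem_subgroupOf]
        have hxU : (x : G) ∈ UG := ⟨x, hx, rfl⟩
        exact ⟨hUQ hxU, hPC _ x.2⟩
      have heq := U.is_maximal' hWq hle
      intro x hx
      have hx' : (⟨x, hWC hx⟩ : C) ∈ (QG ⊓ centralizer ((P : Subgroup G) : Set G)).subgroupOf C := by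
        rw [mem_subgroupOf]; exact hx
      rw [heq] at hx'
      exact ⟨_, hx', rfl⟩
    · exact le_inf hUQ (fun x hx => hPC x (hUGC hx))
  rw [hW] at h1
  have hcQ : Nat.card QG = q ^ (Nat.card N).factorization q := by
    rw [hQG, Nat.card_congr ((Q : Subgroup N).equivMapOfInjective _ N.subtype_injective).toEquiv.symm]
    exact Sylow.card_eq_multiplicity Q
  have hcU : Nat.card UG = q ^ (Nat.card C).factorization q := by
    rw [hUG, Nat.card_congr ((U : Subgroup C).equivMapOfInjective _ C.subtype_injective).toEquiv.symm]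
    exact Sylow.card_eq_multiplicity U
  have hmul : C.relIndex N * Nat.card C = Nat.card N := relIndex_mul_card' C N inf_le_right
  have hne1 : C.relIndex N ≠ 0 := by
    intro h
    rw [h] at hmul
    have : 0 < Nat.card N := Nat.card_pos
    omega
  have hne2 : Nat.card C ≠ 0 := Nat.card_pos.ne'
  rw [hcQ, hcU, ← hmul, Nat.factorization_mul hne1 hne2, Finsupp.add_apply, pow_add, hd] at h1
  have h2 : q ^ ((normalizer ((P : Subgroup G) : Set G)).relIndex N).factorization q *
      q ^ (Nat.card C).factorization q ≡ 1 * q ^ (Nat.card C).factorization q [MOD p] := by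
    rw [one_mul]; exact h1
  exact Nat.ModEq.cancel_right_of_coprime (Nat.Coprime.pow_right _ hpq) h2

/-- Part L4. -/
theorem good_relIndex (P : Sylow p G) (N : Subgroup G) [hN : N.Normal]
    (hpN : ¬ p ∣ Nat.card N) :
    Good.{u} p ((normalizer ((P : Subgroup G) : Set G)).relIndex N) := by
  classical
  have hp : p.Prime := Fact.out
  set d := (normalizer ((P : Subgroup G) : Set G)).relIndex N with hd
  have hmul : d * Nat.card (normalizer ((P : Subgroup G) : Set G) ⊓ N : Subgroup G) = Nat.card N := by
    rw [hd, ← inf_relIndex_right]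
    exact relIndex_mul_card' _ N inf_le_right
  have hd0 : d ≠ 0 := by
    intro h
    rw [h] at hmul
    have : 0 < Nat.card N := Nat.card_pos
    omega
  rw [← Nat.prod_factorization_pow_eq_self hd0]
  apply Finset.prod_induction _ (Good.{u} p)
  · intro a b ha hb
    exact ha.mul hb
  · exact Good.one p
  · intro q hq
    have hqp : q.Prime := Nat.prime_of_mem_primeFactors hq
    have : Fact q.Prime := ⟨hqp⟩
    have hqd : q ∣ d := Nat.dvd_of_mem_primeFactors hq
    have hqN : q ∣ Nat.card N := hqd.trans (Dvd.intro _ hmul)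
    have hm := primePart_modEq P N hpN q hqN
    apply Good.of_primePow
    · apply IsPrimePow.pow hqp.isPrimePow
      exact (hqp.factorization_pos_of_dvd hd0 hqd).ne'
    · have : (q ^ d.factorization q) % p = 1 % p := hm
      rw [this, Nat.mod_eq_of_lt hp.one_lt]

theorem card_sylow_trivial [Subsingleton G] : Nat.card (Sylow p G) = 1 := by
  obtain ⟨P⟩ : Nonempty (Sylow p G) := inferInstance
  rw [card_sylow_index P, index_eq_one]
  exact Subsingleton.elim _ _

theorem main : ∀ (n : ℕ) (G : Type u) [Group G] [Finite G], Nat.card G = n →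
    Good.{u} p (Nat.card (Sylow p G)) := by
  intro n
  induction n using Nat.strong_induction_on with
  | _ n ih =>
    intro G _ _ hn
    by_cases hsub : Subsingleton G
    · rw [card_sylow_trivial]
      exact Good.one p
    rw [not_subsingleton_iff_nontrivial] at hsub
    by_cases hN : ∃ N : Subgroup G, N.Normal ∧ N ≠ ⊥ ∧ N ≠ ⊤
    · obtain ⟨N, hNn, hNb, hNt⟩ := hN
      obtain ⟨P⟩ : Nonempty (Sylow p G) := inferInstance
      have hcardlt : ∀ H : Subgroup G, H ≠ ⊤ → Nat.card H < n := by
        intro H hH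
        rw [← hn]
        have h1 := card_mul_index H
        have h2 : H.index ≠ 1 := fun h => hH (index_eq_one.mp h)
        have h3 : H.index ≠ 0 := index_ne_zero_of_finite
        have h4 : 0 < Nat.card H := Nat.card_pos
        have h5 : 2 ≤ H.index := by omega
        nlinarith
      have hquotlt : ∀ (K : Subgroup G) [K.Normal], K ≠ ⊥ → Nat.card (G ⧸ K) < n := by
        intro K _ hK
        rw [← hn]
        have h1 := card_mul_index K
        rw [index_eq_card] at h1
        have h2 : Nat.card K ≠ 1 := fun h => hK ((eq_bot_iff_card K).mpr h)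
        have h3 : 0 < Nat.card K := Nat.card_pos
        have h4 : 0 < Nat.card (G ⧸ K) := Nat.card_pos
        have h5 : 2 ≤ Nat.card K := by omega
        nlinarith
      by_cases hP₀ : (P : Subgroup G) ⊓ N = ⊥
      · have hpN : ¬ p ∣ Nat.card N := by
          intro hdvd
          obtain ⟨Q, hQ⟩ := exists_sylow_inf_normal P N
          rw [hP₀] at hQ
          have := Q.ne_bot_of_dvd_card hdvd
          apply this
          exact (map_eq_bot_iff_of_injective _ N.subtype_injective).mp hQ
        rw [card_sylow_eq_mul_quotient P N]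
        exact (ih _ (hquotlt N hNb) (G ⧸ N) rfl).mul (good_relIndex P N hpN)
      · by_cases hH : normalizer (((P : Subgroup G) ⊓ N : Subgroup G) : Set G) = ⊤
        · have hnorm : ((P : Subgroup G) ⊓ N : Subgroup G).Normal := normalizer_eq_top_iff.mp hH
          rw [card_sylow_eq_mul_quotient P ((P : Subgroup G) ⊓ N)]
          have h1 : (normalizer ((P : Subgroup G) : Set G)).relIndex ((P : Subgroup G) ⊓ N) = 1 := by
            rw [relIndex_eq_one]
            exact inf_le_left.trans le_normalizer
          rw [h1, mul_one]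
          exact ih _ (hquotlt _ hP₀) _ rfl
        · rw [card_sylow_eq_mul P N]
          exact (ih _ (hcardlt N hNt) N rfl).mul (ih _ (hcardlt _ hH) _ rfl)
    · refine Good.of_simple G ⟨?_⟩
      intro N hNn
      by_contra hcon
      rw [not_or] at hcon
      exact hN ⟨N, hNn, hcon.1, hcon.2⟩

/-- Result -/
theorem result {G : Type u} [Group G] [Finite G]
    (p : ℕ) [Fact p.Prime] :
    ∃ l : List ℕ, l.prod = Nat.card (Sylow p G) ∧
      ∀ m ∈ l, (IsPrimePow m ∧ m % p = 1) ∨
        ∃ (S : Type u) (_ : Group S) (_ : Finite S), IsSimpleGroup S ∧ m = Nat.card (Sylow p S) :=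
  main _ G rfl

end Cfsg.Agent.S4303
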