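import Cfsg.Statements.S4304
import Mathlib
-- import your own Cfsg.Agent.* helpers here

set_option autoImplicit false
open Cfsg

namespace Cfsg.Agent.S4304

open MulAction

set_option linter.unusedSectionVars false

instance fact_seven : Fact (Nat.Prime 7) := ⟨by norm_num⟩
instance fact_five : Fact (Nat.Prime 5) := ⟨by norm_num⟩

universe u

section aux
variable {G : Type u} [Group G] [Finite G]

theorem eq_of_fixed (P y : Sylow 7 G) (h : ∀ u ∈ (P : Subgroup G), u • y = y) : y = P := by
  have hle : (P : Subgroup G) ≤ (y : Subgroup G) := by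
    intro u hu
    have hn : u ∈ Subgroup.normalizer ((y : Subgroup G) : Set G) :=
      Sylow.smul_eq_iff_mem_normalizer.mp (h u hu)
    exact ((P.isPGroup'.inf_normalizer_sylow y).le ⟨hu, hn⟩).2
  exact Sylow.ext (P.is_maximal' y.isPGroup' hle)

theorem card_sylow_quotient (K : Subgroup G) [K.Normal]
    (hK : ∀ g ∈ K, ∀ P : Sylow 7 G, g • P = P) :
    Nat.card (Sylow 7 (G ⧸ K)) = Nat.card (Sylow 7 G) := by
  have hf : Function.Surjective (QuotientGroup.mk' K) := QuotientGroup.mk'_surjective K
  refine (Nat.card_congr (Equiv.ofBijective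
    (Sylow.mapSurjective hf : Sylow 7 G → Sylow 7 (G ⧸ K))
      ⟨?_, Sylow.mapSurjective_surjective hf 7⟩)).symm
  intro P Q hPQ
  have hle : (Q : Subgroup G) ≤ (P : Subgroup G) ⊔ K := by
    intro x hx
    have h1 : QuotientGroup.mk' K x ∈
        ((Q.mapSurjective hf : Sylow 7 (G ⧸ K)) : Subgroup (G ⧸ K)) := ⟨x, hx, rfl⟩
    rw [← hPQ] at h1
    obtain ⟨y, hy, hyx⟩ := h1
    have h2 : y⁻¹ * x ∈ K := QuotientGroup.eq.mp hyx
    have h3 : x = y * (y⁻¹ * x) := by group
    rw [h3]
    exact mul_mem (Subgroup.mem_sup_left hy) (Subgroup.mem_sup_right h2)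
  obtain ⟨h, hh⟩ := MulAction.exists_smul_eq (↥((P : Subgroup G) ⊔ K))
    (P.subtype (le_sup_left)) (Q.subtype hle)
  rw [Sylow.smul_subtype le_sup_left h] at hh
  have hu := Sylow.subtype_injective hh
  obtain ⟨y, hy, z, hz, hyz⟩ := Subgroup.mem_sup_of_normal_right.mp h.2
  have hu' : (h : G) • P = Q := hu
  rw [← hyz, mul_smul, hK z hz, Sylow.smul_eq_iff_mem_normalizer.mpr (P.le_normalizer hy)] at hu'
  exact hu'

theorem sylow_le_of_normal (K : Subgroup G) [K.Normal] (hK : ¬ 7 ∣ K.index) (P : Sylow 7 G) :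
    (P : Subgroup G) ≤ K := by
  intro x hx
  obtain ⟨k, hk⟩ := IsPGroup.iff_orderOf.mp P.isPGroup' ⟨x, hx⟩
  have hk' : orderOf x = 7 ^ k := by rw [← hk, Subgroup.orderOf_mk]
  have hcop : Nat.Coprime K.index (orderOf x) := by
    rw [hk']
    exact Nat.Coprime.pow_right _ ((Nat.Prime.coprime_iff_not_dvd (by norm_num)).mpr hK).symm
  obtain ⟨m, hm⟩ := exists_pow_eq_self_of_coprime hcop
  rw [← hm]
  exact pow_mem (Subgroup.pow_index_mem K x) m

theorem card_sylow_normal (K : Subgroup G) [K.Normal] (hK : ¬ 7 ∣ K.index) :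
    Nat.card (Sylow 7 K) = Nat.card (Sylow 7 G) := by
  refine (Nat.card_congr (Equiv.ofBijective
    (fun P : Sylow 7 G => P.subtype (sylow_le_of_normal K hK P)) ⟨?_, ?_⟩)).symm
  · intro P Q h
    exact Sylow.subtype_injective h
  · intro Q
    have hpg : IsPGroup 7 ((Q : Subgroup K).map K.subtype) := Q.isPGroup'.map _
    obtain ⟨P, hP⟩ := hpg.exists_le_sylow
    refine ⟨P, ?_⟩
    have hle : (Q : Subgroup K) ≤
        ((P.subtype (sylow_le_of_normal K hK P) : Sylow 7 K) : Subgroup K) := by
      intro x hx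
      rw [Sylow.coe_subtype, Subgroup.mem_subgroupOf]
      exact hP ⟨x, hx, rfl⟩
    exact Sylow.ext (Q.is_maximal' (Sylow.isPGroup' _) hle)

/-- Fixed points of a `q`-element. -/
theorem card_fix_modEq {α : Type*} [Finite α] [MulAction G α] (q : ℕ) [Fact q.Prime] (g : G) (k : ℕ)
    (hg : orderOf g = q ^ k) :
    Nat.card α ≡ ({y : α | g • y = y} : Set α).ncard [MOD q] := by
  have hpg : IsPGroup q (Subgroup.zpowers g) :=
    IsPGroup.of_card (n := k) (by rw [Nat.card_zpowers, hg])
  have h1 := hpg.card_modEq_card_fixedPoints α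
  have h2 : fixedPoints (Subgroup.zpowers g) α = {y : α | g • y = y} := by
    ext y
    rw [mem_fixedPoints, Set.mem_ofPred_eq]
    constructor
    · intro h
      exact h ⟨g, Subgroup.mem_zpowers g⟩
    · intro h m
      have hle : Subgroup.zpowers g ≤ stabilizer G y := by
        rw [Subgroup.zpowers_le]; exact h
      exact hle m.2
  rw [h2, Nat.card_coe_set_eq] at h1
  exact h1

/-- Fixed points of an element commuting with a Sylow `7`-subgroup. -/
theorem card_fix_modEq_seven (P : Sylow 7 G) (g : G)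
    (hg : ∀ u ∈ (P : Subgroup G), g * u = u * g) :
    ({y : Sylow 7 G | g • y = y} : Set (Sylow 7 G)).ncard ≡ 1 [MOD 7] := by
  let S : SubMulAction (P : Subgroup G) (Sylow 7 G) :=
    { carrier := {y | g • y = y}
      smul_mem' := by
        intro u y hy
        have hy' : g • y = y := hy
        change g • (u • y) = u • y
        have h1 : g • ((u : G) • y) = (u : G) • y := by
          rw [← mul_smul, hg u u.2, mul_smul, hy']
        exact h1 }
  have h1 := (P.isPGroup').card_modEq_card_fixedPoints S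
  have hPS : P ∈ S := by
    change g • P = P
    rw [Sylow.smul_eq_iff_mem_normalizer]
    change g ∈ Subgroup.normalizer (((P : Subgroup G)) : Set G)
    rw [Subgroup.mem_normalizer_iff]
    intro h
    constructor
    · intro hh
      have h3 : g * h * g⁻¹ = h := by rw [hg h hh]; group
      rw [h3]; exact hh
    · intro hh
      have h2 := hg _ hh
      have h3 : g * h * g⁻¹ = h := by simpa using h2
      rw [h3] at hh; exact hh
  have h2 : Nat.card (fixedPoints (P : Subgroup G) S) = 1 := by
    rw [Nat.card_eq_one_iff_unique]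
    refine ⟨⟨?_⟩, ⟨⟨⟨P, hPS⟩, ?_⟩⟩⟩
    · rintro ⟨⟨a, ha⟩, ha'⟩ ⟨⟨b, hb⟩, hb'⟩
      have ha2 : a = P := eq_of_fixed P a (fun u hu => by
        have := congrArg Subtype.val (ha' ⟨u, hu⟩)
        exact this)
      have hb2 : b = P := eq_of_fixed P b (fun u hu => by
        have := congrArg Subtype.val (hb' ⟨u, hu⟩)
        exact this)
      subst ha2; subst hb2; rfl
    · intro u
      apply Subtype.ext
      change (u : G) • P = P
      rw [Sylow.smul_eq_iff_mem_normalizer]
      exact P.le_normalizer u.2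
  rw [h2] at h1
  have h3 : Nat.card S = ({y : Sylow 7 G | g • y = y} : Set (Sylow 7 G)).ncard :=
    Nat.card_coe_set_eq _
  rw [← h3]
  exact h1

end aux

section core
open scoped Pointwise
variable {G : Type u} [Group G] [Finite G]

/-- Orbits of a Sylow subgroup on the other Sylow subgroups have size `7`. -/
theorem card_orbit_eq_seven (hX : Nat.card (Sylow 7 G) = 15) (P y : Sylow 7 G) (hy : y ≠ P) :
    Nat.card (orbit (P : Subgroup G) y) = 7 := by
  obtain ⟨n, hn⟩ := P.isPGroup'.card_orbit y
  have hn0 : n ≠ 0 := by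
    rintro rfl
    apply hy
    have h1 : Nat.card (orbit (P : Subgroup G) y) = 1 := by simpa using hn
    apply eq_of_fixed P y
    intro u hu
    have hsub : Subsingleton (orbit (P : Subgroup G) y) := (Nat.card_eq_one_iff_unique.mp h1).1
    have h2 : (⟨u, hu⟩ : (P : Subgroup G)) • y ∈ orbit (P : Subgroup G) y := mem_orbit _ _
    have h3 := congrArg Subtype.val (Subsingleton.elim (⟨_, h2⟩ : orbit (P : Subgroup G) y)
      ⟨y, mem_orbit_self y⟩)
    exact h3
  have hle : Nat.card (orbit (P : Subgroup G) y) ≤ 14 := by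
    have hsub : orbit (P : Subgroup G) y ⊆ ({P} : Set (Sylow 7 G))ᶜ := by
      rintro _ ⟨u, rfl⟩ h
      apply hy
      rw [Set.mem_singleton_iff] at h
      have h1 : (u : G) • y = P := h
      rw [← inv_smul_smul (u : G) y, h1, Sylow.smul_eq_iff_mem_normalizer.mpr
        (P.le_normalizer (inv_mem u.2))]
    rw [Nat.card_coe_set_eq]
    have h1 := Set.ncard_le_ncard hsub (Set.toFinite _)
    have h2 := Set.ncard_add_ncard_compl ({P} : Set (Sylow 7 G))
    rw [Set.ncard_singleton, hX] at h2
    omega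
  rw [hn] at hle ⊢
  have hn1 : n = 1 := by
    by_contra hne
    have h2 : 2 ≤ n := by omega
    have : 7 ^ 2 ≤ 7 ^ n := Nat.pow_le_pow_right (by norm_num) h2
    omega
  rw [hn1]; norm_num

/-- The image of the action. -/
noncomputable abbrev img (G : Type u) [Group G] [Finite G] : Subgroup (Equiv.Perm (Sylow 7 G)) :=
  (toPermHom G (Sylow 7 G)).range

theorem img_pretransitive : IsPretransitive (img G) (Sylow 7 G) := by
  refine ⟨fun x y => ?_⟩
  obtain ⟨g, hg⟩ := MulAction.exists_smul_eq G x y
  exact ⟨⟨toPermHom G (Sylow 7 G) g, ⟨g, rfl⟩⟩, hg⟩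

theorem img_primitive (hX : Nat.card (Sylow 7 G) = 15) : IsPreprimitive (img G) (Sylow 7 G) := by
  have := img_pretransitive (G := G)
  obtain ⟨P⟩ : Nonempty (Sylow 7 G) := inferInstance
  refine IsPreprimitive.of_isTrivialBlock_base P ?_
  intro B hPB hB
  by_cases hsub : B.Subsingleton
  · exact Or.inl hsub
  right
  obtain ⟨y, hyB, hyP⟩ := (Set.not_subsingleton_iff.mp hsub).exists_ne P
  have horb : orbit (P : Subgroup G) y ⊆ B := by
    rintro _ ⟨u, rfl⟩
    have h0 : (u : G) • P = P := Sylow.smul_eq_iff_mem_normalizer.mpr (P.le_normalizer u.2)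
    have h1 : (⟨toPermHom G (Sylow 7 G) u, ⟨u, rfl⟩⟩ : img G) • B = B :=
      isBlock_iff_smul_eq_of_mem.mp hB hPB (by
        change (u : G) • P ∈ B
        rw [h0]; exact hPB)
    rw [← h1]
    exact ⟨y, hyB, rfl⟩
  have hc7 := card_orbit_eq_seven hX P y hyP
  rw [Nat.card_coe_set_eq] at hc7
  have hge : 7 ≤ B.ncard := by
    have h7 := Set.ncard_le_ncard horb (Set.toFinite _)
    rwa [hc7] at h7
  have hdvd : B.ncard ∣ 15 := hX ▸ hB.ncard_dvd_card ⟨P, hPB⟩
  have hle : B.ncard ≤ 15 := Nat.le_of_dvd (by norm_num) hdvd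
  have h15 : B.ncard = 15 := by
    interval_cases h : B.ncard <;> first | rfl | (exfalso; revert hdvd; decide)
  rw [Set.eq_univ_iff_ncard, h15, hX]

end core

section caseA
open scoped Pointwise
variable {G : Type u} [Group G] [Finite G]

theorem not_mem_orbit (P y : Sylow 7 G) (hy : y ≠ P) : P ∉ orbit (P : Subgroup G) y := by
  rintro ⟨u, h⟩
  apply hy
  have h1 : (u : G) • y = P := h
  rw [← inv_smul_smul (u : G) y, h1, Sylow.smul_eq_iff_mem_normalizer.mpr
    (P.le_normalizer (inv_mem u.2))]

theorem caseA (hX : Nat.card (Sylow 7 G) = 15)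
    (hfaith : Function.Injective (toPermHom G (Sylow 7 G))) (c : G) (k : ℕ)
    (hk : orderOf c = 7 ^ k) (h8 : ({y : Sylow 7 G | c • y = y} : Set (Sylow 7 G)).ncard = 8) :
    False := by
  classical
  haveI : Fintype (Sylow 7 G) := Fintype.ofFinite _
  let σ := toPermHom G (Sylow 7 G) c
  have hsuppset : (σ.support : Set (Sylow 7 G)) = ({y : Sylow 7 G | c • y = y} : Set (Sylow 7 G))ᶜ := by
    ext y
    simp only [Finset.mem_coe, Equiv.Perm.mem_support, Set.mem_compl_iff, Set.mem_ofPred_eq]
    exact Iff.rfl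
  have hsupp : σ.support.card = 7 := by
    have h1 := Set.ncard_add_ncard_compl ({y : Sylow 7 G | c • y = y} : Set (Sylow 7 G))
    rw [h8, hX, ← hsuppset, Set.ncard_coe_finset] at h1
    omega
  have hord : orderOf σ = 7 ^ k := by
    rw [orderOf_injective _ hfaith c, hk]
  have hcyc : σ.IsCycle := by
    rw [← Equiv.Perm.card_cycleType_eq_one]
    have hge : ∀ n ∈ σ.cycleType, 7 ≤ n := by
      intro n hn
      have h1 := Equiv.Perm.dvd_of_mem_cycleType hn
      rw [hord] at h1
      obtain ⟨j, -, rfl⟩ := (Nat.dvd_prime_pow (by norm_num)).mp h1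
      have h2 := Equiv.Perm.two_le_of_mem_cycleType hn
      cases j with
      | zero => simp at h2
      | succ j =>
        have : 7 ^ 1 ≤ 7 ^ (j + 1) := Nat.pow_le_pow_right (by norm_num) (by omega)
        simpa using this
    have hsum : σ.cycleType.sum = 7 := by rw [Equiv.Perm.sum_cycleType, hsupp]
    have h1 := Multiset.card_nsmul_le_sum hge
    rw [hsum] at h1
    have hne : Multiset.card σ.cycleType ≠ 0 := by
      intro h0
      rw [Multiset.card_eq_zero] at h0
      rw [h0] at hsum
      simp at hsum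
    simp only [smul_eq_mul] at h1
    omega
  let s : Set (Sylow 7 G) := (σ.support : Set (Sylow 7 G))ᶜ
  have hs : s.ncard = 7 + 1 := by
    have h1 : s = {y : Sylow 7 G | c • y = y} := by
      rw [show s = (σ.support : Set (Sylow 7 G))ᶜ from rfl, hsuppset, compl_compl]
    rw [h1, h8]
  have hσ : σ ∈ img G := ⟨c, rfl⟩
  have htrans := Equiv.Perm.isPretransitive_of_isCycle_mem (G := img G) hcyc hσ
  have hprim' : IsPreprimitive (fixingSubgroup (img G) s) (SubMulAction.ofFixingSubgroup (img G) s) := by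
    apply IsPreprimitive.of_prime_card
    have hc : Nat.card (SubMulAction.ofFixingSubgroup (img G) s) = 7 := by
      rw [Nat.card_eq_fintype_card, Fintype.card_subtype]
      refine Eq.trans ?_ hsupp
      apply congr_arg
      ext x
      simp [SubMulAction.mem_ofFixingSubgroup_iff, s]
    rw [hc]; norm_num
  have hmp := (img_primitive hX).isMultiplyPreprimitive (s := s) (n := 7) hs
    (by rw [hX]; norm_num) hprim'
  have h9 : IsMultiplyPretransitive (img G) (Sylow 7 G) 9 :=
    IsMultiplyPreprimitive.isMultiplyPretransitive ..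
  have h3 : IsMultiplyPretransitive (img G) (Sylow 7 G) 3 :=
    isMultiplyPretransitive_of_le (n := 9) (by norm_num) (by rw [hX]; norm_num)
  -- points
  obtain ⟨P⟩ : Nonempty (Sylow 7 G) := inferInstance
  have hnt : 1 < Nat.card (Sylow 7 G) := by rw [hX]; norm_num
  have : Nontrivial (Sylow 7 G) := Finite.one_lt_card_iff_nontrivial.mp hnt
  obtain ⟨y, hy⟩ := exists_ne P
  have hO := card_orbit_eq_seven hX P y hy
  rw [Nat.card_coe_set_eq] at hO
  obtain ⟨z, hzO, hzy⟩ : ∃ z, z ∈ orbit (P : Subgroup G) y ∧ z ∉ ({y} : Set (Sylow 7 G)) :=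
    Set.exists_mem_notMem_of_ncard_lt_ncard (by rw [hO, Set.ncard_singleton]; norm_num)
      (Set.toFinite _)
  obtain ⟨z', -, hz'⟩ : ∃ z', z' ∈ (Set.univ : Set (Sylow 7 G)) ∧
      z' ∉ insert P (orbit (P : Subgroup G) y) := by
    apply Set.exists_mem_notMem_of_ncard_lt_ncard _ (Set.toFinite _)
    have h1 := Set.ncard_insert_le P (orbit (P : Subgroup G) y)
    rw [hO] at h1
    rw [Set.ncard_univ, hX]
    omega
  have hPO := not_mem_orbit P y hy
  have hyO : y ∈ orbit (P : Subgroup G) y := mem_orbit_self y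
  have hzP : z ≠ P := fun h => hPO (h ▸ hzO)
  have hzy' : z ≠ y := fun h => hzy (Set.mem_singleton_iff.mpr h)
  have hz'P : z' ≠ P := fun h => hz' (Set.mem_insert_iff.mpr (Or.inl h))
  have hz'O : z' ∉ orbit (P : Subgroup G) y := fun h => hz' (Set.mem_insert_iff.mpr (Or.inr h))
  have hz'y : z' ≠ y := fun h => hz'O (h ▸ hyO)
  let e₁ : Fin 3 ↪ Sylow 7 G := ⟨![P, y, z], by
    intro i j hij
    fin_cases i <;> fin_cases j <;> simp_all [Ne.symm hy, Ne.symm hzP, Ne.symm hzy']⟩
  let e₂ : Fin 3 ↪ Sylow 7 G := ⟨![P, y, z'], by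
    intro i j hij
    fin_cases i <;> fin_cases j <;> simp_all [Ne.symm hy, Ne.symm hz'P, Ne.symm hz'y]⟩
  obtain ⟨⟨_, ⟨h, rfl⟩⟩, hg⟩ := MulAction.exists_smul_eq (img G) e₁ e₂
  have hgi : ∀ i, h • e₁ i = e₂ i := fun i => congrArg (fun e : Fin 3 ↪ Sylow 7 G => e i) hg
  have hP : h • P = P := hgi 0
  have hyy : h • y = y := hgi 1
  have hzz : h • z = z' := hgi 2
  apply hz'O
  obtain ⟨u, rfl⟩ := hzO
  have hnorm : h ∈ Subgroup.normalizer (((P : Subgroup G)) : Set G) :=
    Sylow.smul_eq_iff_mem_normalizer.mp hP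
  have hconj : h * (u : G) * h⁻¹ ∈ (P : Subgroup G) :=
    (Subgroup.mem_normalizer_iff.mp hnorm _).mp u.2
  refine ⟨⟨_, hconj⟩, ?_⟩
  rw [← hzz]
  change (h * (u : G) * h⁻¹) • y = h • ((u : G) • y)
  have hy' : h⁻¹ • y = y := by rw [inv_smul_eq_iff]; exact hyy.symm
  rw [mul_smul, mul_smul, hy']

end caseA

section caseB
variable {G : Type u} [Group G] [Finite G]

theorem fix_ne_all (hX : Nat.card (Sylow 7 G) = 15)
    (hfaith : Function.Injective (toPermHom G (Sylow 7 G))) (g : G) (hg : g ≠ 1) :
    ({y : Sylow 7 G | g • y = y} : Set (Sylow 7 G)).ncard ≠ 15 := by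
  intro h
  apply hg
  apply hfaith
  rw [map_one]
  refine Equiv.ext fun y => ?_
  have h1 : ({y : Sylow 7 G | g • y = y} : Set (Sylow 7 G)) = Set.univ := by
    rw [Set.eq_univ_iff_ncard, h, hX]
  have h2 : y ∈ ({y : Sylow 7 G | g • y = y} : Set (Sylow 7 G)) := by rw [h1]; trivial
  exact h2

theorem fix_le (g : G) (hX : Nat.card (Sylow 7 G) = 15) :
    ({y : Sylow 7 G | g • y = y} : Set (Sylow 7 G)).ncard ≤ 15 := by
  have h1 := Set.ncard_le_ncard (Set.subset_univ ({y : Sylow 7 G | g • y = y} : Set (Sylow 7 G)))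
    (Set.toFinite _)
  rwa [Set.ncard_univ, hX] at h1

/-- In case B, Sylow subgroups have order `7`. -/
theorem card_sylow_eq_seven (hX : Nat.card (Sylow 7 G) = 15)
    (hB : ∀ (c : G) (k : ℕ), orderOf c = 7 ^ k → c ≠ 1 →
      ({y : Sylow 7 G | c • y = y} : Set (Sylow 7 G)).ncard = 1) (P : Sylow 7 G) :
    Nat.card (P : Subgroup G) = 7 := by
  have hnt : 1 < Nat.card (Sylow 7 G) := by rw [hX]; norm_num
  have : Nontrivial (Sylow 7 G) := Finite.one_lt_card_iff_nontrivial.mp hnt
  obtain ⟨y, hy⟩ := exists_ne P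
  have h7 := card_orbit_eq_seven hX P y hy
  have hst : Nat.card (stabilizer (P : Subgroup G) y) = 1 := by
    rw [Nat.card_eq_one_iff_unique]
    refine ⟨⟨?_⟩, ⟨1⟩⟩
    have key : ∀ u : stabilizer (P : Subgroup G) y, u = 1 := by
      intro u
      by_contra hu
      have hu1 : ((u : (P : Subgroup G)) : G) ≠ 1 := by
        intro h
        apply hu
        exact Subtype.ext (Subtype.ext h)
      obtain ⟨k, hk⟩ := IsPGroup.iff_orderOf.mp P.isPGroup' (u : (P : Subgroup G))
      have hk' : orderOf ((u : (P : Subgroup G)) : G) = 7 ^ k := by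
        rw [← hk, Subgroup.orderOf_coe]
      have h1 := hB _ k hk' hu1
      have hy1 : ((u : (P : Subgroup G)) : G) • y = y := u.2
      have hP1 : ((u : (P : Subgroup G)) : G) • P = P :=
        Sylow.smul_eq_iff_mem_normalizer.mpr (P.le_normalizer (u : (P : Subgroup G)).2)
      have h2 := (Set.ncard_eq_one.mp h1)
      obtain ⟨a, ha⟩ := h2
      have h3 : y ∈ ({y : Sylow 7 G | ((u : (P : Subgroup G)) : G) • y = y} : Set (Sylow 7 G)) := hy1
      have h4 : P ∈ ({y : Sylow 7 G | ((u : (P : Subgroup G)) : G) • y = y} : Set (Sylow 7 G)) := hP1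
      rw [ha, Set.mem_singleton_iff] at h3 h4
      exact hy (h3.trans h4.symm)
    intro a b
    rw [key a, key b]
  have h := Nat.card_congr (orbitProdStabilizerEquivGroup (P : Subgroup G) y)
  rw [Nat.card_prod, h7, hst, mul_one] at h
  exact h.symm

/-- An element of order `2` with a unique fixed point gives an odd permutation. -/
theorem sign_neg_one (hX : Nat.card (Sylow 7 G) = 15)
    (hfaith : Function.Injective (toPermHom G (Sylow 7 G))) (g : G) (hg : orderOf g = 2)
    (h1 : ({y : Sylow 7 G | g • y = y} : Set (Sylow 7 G)).ncard = 1)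
    (hno : ∀ K : Subgroup G, K.Normal → ¬ 7 ∣ K.index → K = ⊤) : False := by
  classical
  haveI : Fintype (Sylow 7 G) := Fintype.ofFinite _
  let σ := toPermHom G (Sylow 7 G) g
  have hsuppset : (σ.support : Set (Sylow 7 G)) = ({y : Sylow 7 G | g • y = y} : Set (Sylow 7 G))ᶜ := by
    ext y
    simp only [Finset.mem_coe, Equiv.Perm.mem_support, Set.mem_compl_iff, Set.mem_ofPred_eq]
    exact Iff.rfl
  have hsupp : σ.support.card = 14 := by
    have h2 := Set.ncard_add_ncard_compl ({y : Sylow 7 G | g • y = y} : Set (Sylow 7 G))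
    rw [h1, hX, ← hsuppset, Set.ncard_coe_finset] at h2
    omega
  have hord : orderOf σ = 2 := by
    rw [orderOf_injective _ hfaith g, hg]
  have hsign : Equiv.Perm.sign σ = -1 := by
    obtain ⟨k, hk⟩ := Equiv.Perm.cycleType_prime_order (σ := σ) (by rw [hord]; norm_num)
    have hsum := Equiv.Perm.sum_cycleType σ
    rw [hk, hsupp, hord, Multiset.sum_replicate, smul_eq_mul] at hsum
    have hk6 : k = 6 := by omega
    rw [Equiv.Perm.sign_of_cycleType, hk, hord, hk6]
    simp
    exact Odd.neg_one_pow (by decide)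
  let f : G →* ℤˣ := Equiv.Perm.sign.comp (toPermHom G (Sylow 7 G))
  have hK := hno f.ker (MonoidHom.normal_ker f) (by
    rw [Subgroup.index_ker]
    intro hd
    have h2 : Nat.card f.range ∣ Nat.card ℤˣ := Subgroup.card_subgroup_dvd_card _
    have h3 : Nat.card ℤˣ = 2 := by rw [Nat.card_eq_fintype_card, Fintype.card_units_int]
    rw [h3] at h2
    have := hd.trans h2
    omega)
  have hg1 : g ∈ f.ker := by rw [hK]; trivial
  have h4 : f g = 1 := hg1
  have h5 : f g = -1 := hsign
  rw [h4] at h5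
  exact absurd h5 (by decide)

theorem card_centralizer (hX : Nat.card (Sylow 7 G) = 15)
    (hfaith : Function.Injective (toPermHom G (Sylow 7 G)))
    (hno : ∀ K : Subgroup G, K.Normal → ¬ 7 ∣ K.index → K = ⊤)
    (P : Sylow 7 G) (hP7 : Nat.card (P : Subgroup G) = 7) :
    Nat.card (Subgroup.centralizer (((P : Subgroup G)) : Set G)) = 7 := by
  have hcyc : IsCyclic (P : Subgroup G) := isCyclic_of_prime_card (p := 7) hP7
  have hPC : (P : Subgroup G) ≤ Subgroup.centralizer (((P : Subgroup G)) : Set G) :=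
    Subgroup.le_centralizer _
  have hdvd : 7 ∣ Nat.card (Subgroup.centralizer (((P : Subgroup G)) : Set G)) := by
    have h0 := Subgroup.card_dvd_of_le hPC
    rwa [hP7] at h0
  obtain ⟨m, hm⟩ := hdvd
  by_contra hne
  have hm1 : m ≠ 1 := by
    rintro rfl
    exact hne (by rw [hm])
  have hq := Nat.minFac_prime hm1
  have : Fact (m.minFac).Prime := ⟨hq⟩
  have hqdvd : m.minFac ∣ Nat.card (Subgroup.centralizer (((P : Subgroup G)) : Set G)) :=
    hm ▸ Dvd.dvd.mul_left (Nat.minFac_dvd m) 7
  have hq7 : m.minFac ≠ 7 := by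
    intro h7
    have h1 : 7 ^ 2 ∣ Nat.card G := by
      have h2 : 7 ^ 2 ∣ Nat.card (Subgroup.centralizer (((P : Subgroup G)) : Set G)) := by
        rw [hm, pow_two]
        exact Nat.mul_dvd_mul_left 7 (h7 ▸ Nat.minFac_dvd m)
      exact h2.trans (Subgroup.card_subgroup_dvd_card _)
    have h3 := P.pow_dvd_card_of_pow_dvd_card h1
    rw [hP7] at h3
    omega
  obtain ⟨g, hg⟩ := exists_prime_orderOf_dvd_card' m.minFac hqdvd
  have hg' : orderOf (g : G) = m.minFac := by rw [Subgroup.orderOf_coe, hg]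
  have hcomm : ∀ u ∈ (P : Subgroup G), (g : G) * u = u * (g : G) := fun u hu =>
    (Subgroup.mem_centralizer_iff.mp g.2 u hu).symm
  have hg1 : (g : G) ≠ 1 := by
    intro h
    rw [h, orderOf_one] at hg'
    exact hq.one_lt.ne hg'
  have h1 := card_fix_modEq_seven P (g : G) hcomm
  have h2 := card_fix_modEq (α := Sylow 7 G) m.minFac (g : G) 1 (by rw [hg', pow_one])
  have h3 := fix_ne_all hX hfaith (g : G) hg1
  have h4 := fix_le (g : G) hX
  rw [hX] at h2
  set n := ({y : Sylow 7 G | (g : G) • y = y} : Set (Sylow 7 G)).ncard with hn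
  have hn18 : n = 1 ∨ n = 8 := by
    have h5 : n % 7 = 1 % 7 := h1
    omega
  rcases hn18 with h18 | h18
  · -- n = 1: q divides 14, so q = 2
    rw [h18] at h2
    have h5 : m.minFac ∣ 15 - 1 := (Nat.modEq_iff_dvd' (by norm_num)).mp h2.symm
    have h6 : m.minFac ∣ 2 * 7 := h5
    have hq2 : m.minFac = 2 := by
      rcases (Nat.Prime.dvd_mul hq).mp h6 with h7 | h7
      · exact (Nat.prime_dvd_prime_iff_eq hq (by norm_num)).mp h7
      · exact absurd ((Nat.prime_dvd_prime_iff_eq hq (by norm_num)).mp h7) hq7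
    exact sign_neg_one hX hfaith (g : G) (by rw [hg', hq2]) h18 hno
  · rw [h18] at h2
    have h5 : m.minFac ∣ 15 - 8 := (Nat.modEq_iff_dvd' (by norm_num)).mp h2.symm
    have h6 : m.minFac ∣ 7 := h5
    exact hq7 ((Nat.prime_dvd_prime_iff_eq hq (by norm_num)).mp h6)

/-- A group whose order is exactly once divisible by `2` has a normal subgroup of index `2`. -/
theorem exists_index_two (h2 : 2 ∣ Nat.card G) (h4 : ¬ 4 ∣ Nat.card G) :
    ∃ K : Subgroup G, K.Normal ∧ K.index = 2 := by
  obtain ⟨S⟩ : Nonempty (Sylow 2 G) := inferInstance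
  obtain ⟨j, hj⟩ := IsPGroup.exists_card_eq S.isPGroup'
  have h1 : 2 ∣ Nat.card (S : Subgroup G) := S.dvd_card_of_dvd_card h2
  have hj1 : j = 1 := by
    rcases j with _ | _ | j
    · simp [hj] at h1
    · rfl
    · exfalso
      apply h4
      have h3 : 4 ∣ Nat.card (S : Subgroup G) := by
        rw [hj, pow_succ, pow_succ]
        exact ⟨2 ^ j, by ring⟩
      exact h3.trans (Subgroup.card_subgroup_dvd_card _)
  have hS2 : Nat.card (S : Subgroup G) = 2 := by rw [hj, hj1, pow_one]
  have hcyc : IsCyclic (S : Subgroup G) := isCyclic_of_prime_card (p := 2) hS2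
  have hp : (Nat.card G).minFac = 2 := (Nat.minFac_eq_two_iff _).mpr h2
  have hc := IsCyclic.isComplement' hp hcyc
  refine ⟨(MonoidHom.transferSylow S (hcyc.normalizer_le_centralizer hp)).ker,
    MonoidHom.normal_ker _, ?_⟩
  rw [hc.symm.index_eq_card, hS2]

/-- A group of odd order, exactly once divisible by `5`, has a normal subgroup of index `5`. -/
theorem exists_index_five (h1 : Odd (Nat.card G)) (h5 : 5 ∣ Nat.card G) (h25 : ¬ 25 ∣ Nat.card G) :
    ∃ K : Subgroup G, K.Normal ∧ K.index = 5 := by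
  obtain ⟨S⟩ : Nonempty (Sylow 5 G) := inferInstance
  obtain ⟨j, hj⟩ := IsPGroup.exists_card_eq S.isPGroup'
  have h1' : 5 ∣ Nat.card (S : Subgroup G) := S.dvd_card_of_dvd_card h5
  have hj1 : j = 1 := by
    rcases j with _ | _ | j
    · simp [hj] at h1'
    · rfl
    · exfalso
      apply h25
      have h3 : 25 ∣ Nat.card (S : Subgroup G) := by
        rw [hj, pow_succ, pow_succ]
        exact ⟨5 ^ j, by ring⟩
      exact h3.trans (Subgroup.card_subgroup_dvd_card _)
  have hS5 : Nat.card (S : Subgroup G) = 5 := by rw [hj, hj1, pow_one]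
  have hcyc : IsCyclic (S : Subgroup G) := isCyclic_of_prime_card (p := 5) hS5
  have hnc : Subgroup.normalizer ((S : Subgroup G) : Set G) ≤
      Subgroup.centralizer ((S : Subgroup G) : Set G) := by
    have key := Subgroup.card_dvd_of_injective _
      (QuotientGroup.kerLift_injective (S : Subgroup G).normalizerMonoidHom)
    rw [Subgroup.normalizerMonoidHom_ker, ← Subgroup.index, ← Subgroup.relIndex,
      hcyc.card_mulAut, hS5] at key
    have h4 : Nat.totient 5 = 4 := by decide
    rw [h4] at key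
    have h6 : (Subgroup.centralizer ((S : Subgroup G) : Set G)).relIndex
        (Subgroup.normalizer ((S : Subgroup G) : Set G)) ∣ Nat.card G :=
      (Subgroup.relIndex_dvd_card _ _).trans (Subgroup.card_subgroup_dvd_card _)
    have h7 : Nat.Coprime 4 (Nat.card G) := by
      have : Nat.Coprime 2 (Nat.card G) := Nat.coprime_two_left.mpr h1
      exact Nat.Coprime.pow_left 2 this
    exact Subgroup.relIndex_eq_one.mp (Nat.eq_one_of_dvd_coprimes h7 key h6)
  have hc := MonoidHom.ker_transferSylow_isComplement' S hnc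
  refine ⟨(MonoidHom.transferSylow S hnc).ker, MonoidHom.normal_ker _, ?_⟩
  rw [hc.symm.index_eq_card, hS5]

theorem caseB (hX : Nat.card (Sylow 7 G) = 15)
    (hfaith : Function.Injective (toPermHom G (Sylow 7 G)))
    (hno : ∀ K : Subgroup G, K.Normal → ¬ 7 ∣ K.index → K = ⊤)
    (hB : ∀ (c : G) (k : ℕ), orderOf c = 7 ^ k → c ≠ 1 →
      ({y : Sylow 7 G | c • y = y} : Set (Sylow 7 G)).ncard = 1) : False := by
  obtain ⟨P⟩ : Nonempty (Sylow 7 G) := inferInstance
  have hP7 := card_sylow_eq_seven hX hB P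
  have hC := card_centralizer hX hfaith hno P hP7
  have hcyc : IsCyclic (P : Subgroup G) := isCyclic_of_prime_card (p := 7) hP7
  have hCN : Subgroup.centralizer (((P : Subgroup G)) : Set G) ≤
      Subgroup.normalizer (((P : Subgroup G)) : Set G) := by
    intro g hg
    rw [Subgroup.mem_normalizer_iff]
    have hcomm : ∀ u ∈ (P : Subgroup G), g * u * g⁻¹ = u := fun u hu => by
      rw [← Subgroup.mem_centralizer_iff.mp hg u hu]; group
    intro h
    constructor
    · intro hh
      rw [hcomm h hh]; exact hh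
    · intro hh
      have h2 := hcomm _ hh
      have h3 : g * h * g⁻¹ = h := by
        have h4 : g * (g * h * g⁻¹) * g⁻¹ = g * h * g⁻¹ := h2
        have h5 : g * (g * h * g⁻¹) = g * h := by
          have := congrArg (fun w => w * g) h4
          simpa [mul_assoc] using this
        exact mul_left_cancel h5
      rw [h3] at hh; exact hh
  have key := Subgroup.card_dvd_of_injective _
    (QuotientGroup.kerLift_injective (P : Subgroup G).normalizerMonoidHom)
  rw [Subgroup.normalizerMonoidHom_ker, ← Subgroup.index, ← Subgroup.relIndex,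
    hcyc.card_mulAut, hP7] at key
  have h6 : Nat.totient 7 = 6 := by decide
  rw [h6] at key
  have hNidx : (Subgroup.normalizer (((P : Subgroup G)) : Set G)).index = 15 := by
    rw [← hX]
    exact (Sylow.card_eq_index_normalizer P).symm
  have h1 := Subgroup.relIndex_mul_index hCN
  have h2 := Subgroup.card_mul_index (Subgroup.centralizer (((P : Subgroup G)) : Set G))
  rw [hNidx] at h1
  rw [hC, ← h1] at h2
  have hd6 := Nat.le_of_dvd (by norm_num) key
  have hcontr2 : (∃ K : Subgroup G, K.Normal ∧ K.index = 2) → False := by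
    rintro ⟨K, hKn, hK2⟩
    have := hno K hKn (by rw [hK2]; norm_num)
    rw [this, Subgroup.index_top] at hK2
    omega
  have hcontr5 : (∃ K : Subgroup G, K.Normal ∧ K.index = 5) → False := by
    rintro ⟨K, hKn, hK5⟩
    have := hno K hKn (by rw [hK5]; norm_num)
    rw [this, Subgroup.index_top] at hK5
    omega
  generalize (Subgroup.centralizer (((P : Subgroup G)) : Set G)).relIndex
    (Subgroup.normalizer (((P : Subgroup G)) : Set G)) = d at *
  have hG : Nat.card G = 105 * d := by omega
  interval_cases d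
  · omega
  · exact hcontr5 (exists_index_five (by rw [hG]; decide) (by rw [hG]; decide) (by rw [hG]; decide))
  · exact hcontr2 (exists_index_two (by rw [hG]; decide) (by rw [hG]; decide))
  · exact hcontr5 (exists_index_five (by rw [hG]; decide) (by rw [hG]; decide) (by rw [hG]; decide))
  · revert key; decide
  · revert key; decide
  · exact hcontr2 (exists_index_two (by rw [hG]; decide) (by rw [hG]; decide))

theorem core (hX : Nat.card (Sylow 7 G) = 15)
    (hfaith : Function.Injective (toPermHom G (Sylow 7 G)))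
    (hno : ∀ K : Subgroup G, K.Normal → ¬ 7 ∣ K.index → K = ⊤) : False := by
  by_cases hA : ∃ (c : G) (k : ℕ), orderOf c = 7 ^ k ∧ c ≠ 1 ∧
      ({y : Sylow 7 G | c • y = y} : Set (Sylow 7 G)).ncard = 8
  · obtain ⟨c, k, hk, -, h8⟩ := hA
    exact caseA hX hfaith c k hk h8
  · apply caseB hX hfaith hno
    intro c k hk hc
    have h1 := card_fix_modEq (α := Sylow 7 G) 7 c k hk
    have h3 := fix_ne_all hX hfaith c hc
    have h4 := fix_le c hX
    rw [hX] at h1
    have h5 : ({y : Sylow 7 G | c • y = y} : Set (Sylow 7 G)).ncard ≠ 8 := fun h => hA ⟨c, k, hk, hc, h⟩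
    have h6 : 15 % 7 = ({y : Sylow 7 G | c • y = y} : Set (Sylow 7 G)).ncard % 7 := h1
    omega

end caseB

theorem main (n : ℕ) : ∀ (G : Type u) [Group G] [Finite G], Nat.card G = n →
    Nat.card (Sylow 7 G) ≠ 15 := by
  induction n using Nat.strong_induction_on with
  | _ n ih =>
    intro G _ _ hn hX
    have hpos : 0 < Nat.card G := Nat.card_pos
    have hfaith : Function.Injective (toPermHom G (Sylow 7 G)) := by
      by_contra hni
      rw [← MonoidHom.ker_eq_bot_iff] at hni
      let K := (toPermHom G (Sylow 7 G)).ker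
      have hK : ∀ g ∈ K, ∀ P : Sylow 7 G, g • P = P := by
        intro g hg P
        have := MonoidHom.mem_ker.mp hg
        exact congrArg (fun e : Equiv.Perm (Sylow 7 G) => e P) this
      have hcard := card_sylow_quotient K hK
      have hlt : Nat.card (G ⧸ K) < n := by
        rw [← hn, ← Subgroup.index_eq_card]
        have h1 := Subgroup.card_mul_index K
        have h2 : 1 < Nat.card K := by
          have : Nontrivial K := (Subgroup.nontrivial_iff_ne_bot K).mpr hni
          exact Finite.one_lt_card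
        nlinarith
      exact ih _ hlt (G ⧸ K) rfl (hcard.trans hX)
    have hno : ∀ K : Subgroup G, K.Normal → ¬ 7 ∣ K.index → K = ⊤ := by
      intro K hKn h7
      by_contra hne
      have hcard := card_sylow_normal K h7
      have hlt : Nat.card K < n := by
        rw [← hn]
        have h1 := Subgroup.card_mul_index K
        have h2 : K.index ≠ 1 := fun h => hne (Subgroup.index_eq_one.mp h)
        have h3 : K.index ≠ 0 := Subgroup.index_ne_zero_of_finite
        have h4 : 0 < Nat.card K := Nat.card_pos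
        have h5 : 2 ≤ K.index := by omega
        nlinarith
      exact ih _ hlt K rfl (hcard.trans hX)
    exact core hX hfaith hno


/-- No finite group has exactly 15 Sylow 7-subgroups. -/
theorem result {G : Type*} [Group G] [Finite G] : Nat.card (Sylow 7 G) ≠ 15 := by
  exact main _ G rfl

end Cfsg.Agent.S4304
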