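import Cfsg.Statements.S4305
import Mathlib
import Cfsg.Agent.Lib.S3Fpf.Final

set_option autoImplicit false

open Cfsg

namespace Cfsg.Agent.S4305

theorem result {G : Type*} [Group G] [Finite G] [Group.IsSolvable G]
    [MulDistribMulAction (Equiv.Perm (Fin 3)) G] (hcop : (Nat.card G).Coprime 6)
    (hfpf : ∀ g : G, (∀ a : Equiv.Perm (Fin 3), a • g = g) → g = 1) :
    Group.IsNilpotent ↥(commutator G) := by
  open Cfsg.Agent.Lib.S3Fpf in
  refine commutator_isNilpotent (MulDistribMulAction.toMulAut (Equiv.Perm (Fin 3)) G) hcop ?_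
  intro g h1 h2
  refine hfpf g ?_
  intro a
  have h1' : sigma0 • g = g := h1
  have h2' : tau0 • g = g := h2
  have hpow : ∀ (b : Equiv.Perm (Fin 3)), b • g = g → ∀ k : ℕ, (b ^ k) • g = g := by
    intro b hb k
    induction k with
    | zero => simp
    | succ k ih => rw [pow_succ, mul_smul, hb, ih]
  obtain ⟨i, -, j, -, rfl⟩ := perm_gen a
  rw [mul_smul, hpow _ h2', hpow _ h1']

end Cfsg.Agent.S4305
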