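import Cfsg.Statements.S4321
import Mathlib
import Cfsg.Agent.Lib.ClassSize.Coprime
import Cfsg.Agent.Lib.Perm.Derange
import Cfsg.Agent.Lib.Transfer.Basic
import Cfsg.Agent.Lib.Coprime.FrattiniAct
import Cfsg.Agent.Lib.PGroup.Basic

set_option autoImplicit false
open Cfsg

namespace Cfsg.Agent.S4321

open Cfsg.Agent.Lib.ClassSize.Basic Cfsg.Agent.Lib.ClassSize.Coprime
open scoped Pointwise commutatorElement

/-- The averaging lemma: coprime action, a factorization `H = A B`. -/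
theorem fix_key {F V H : Type*} [Field F] [AddCommGroup V] [Module F V] [Group H] [Finite H]
    (ρ : H →* (V →ₗ[F] V)) (hcard : (Nat.card H : F) ≠ 0)
    (A B : Subgroup H) (hAB : ∀ h, ∃ x ∈ A, ∃ y ∈ B, h = x * y)
    (a b : V) (ha : ∀ x ∈ A, ρ x a = a) (hb : ∀ y ∈ B, ρ y b = b)
    (g : H) (hg : ρ g (a + b) = a + b) : ρ g a = a := by
  classical
  haveI := Fintype.ofFinite H
  haveI : Fintype A := Fintype.ofFinite A
  have hA0 : ((Nat.card A : ℕ) : F) ≠ 0 := by
    intro h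
    apply hcard
    obtain ⟨k, hk⟩ := Subgroup.card_subgroup_dvd_card A
    rw [hk, Nat.cast_mul, h, zero_mul]
  have hmul : ∀ (x y : H) (v : V), ρ (x * y) v = ρ x (ρ y v) := by
    intro x y v
    rw [map_mul]
    rfl
  have hone : ∀ v : V, ρ 1 v = v := by
    intro v
    rw [map_one]
    rfl
  have hinvl : ∀ (x : H) (v : V), ρ x⁻¹ (ρ x v) = v := by
    intro x v
    rw [← hmul, inv_mul_cancel, hone]
  have hinvr : ∀ (x : H) (v : V), ρ x (ρ x⁻¹ v) = v := by
    intro x v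
    rw [← hmul, mul_inv_cancel, hone]
  -- the submodule generated by the orbit of `b`
  set K : Submodule F V := Submodule.span F (Set.range fun h : H => ρ h b) with hK
  have hbK : b ∈ K := Submodule.subset_span ⟨1, hone b⟩
  have hKinv : ∀ h : H, ∀ v ∈ K, ρ h v ∈ K := by
    intro h v hv
    induction hv using Submodule.span_induction with
    | mem x hx =>
      obtain ⟨k, rfl⟩ := hx
      apply Submodule.subset_span
      exact ⟨h * k, hmul h k b⟩
    | zero => simp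
    | add x y _ _ hx hy =>
      rw [map_add]
      exact K.add_mem hx hy
    | smul c x _ hx =>
      rw [map_smul]
      exact K.smul_mem c hx
  -- a linear projection onto `K`
  obtain ⟨K', hK'⟩ := Submodule.exists_isCompl K
  let π₀ : V →ₗ[F] V := K.subtype ∘ₗ K.projectionOnto K' hK'
  have hπ₀K : ∀ v, π₀ v ∈ K := fun v => (K.projectionOnto K' hK' v).2
  have hπ₀id : ∀ v ∈ K, π₀ v = v := by
    intro v hv
    have := Submodule.projectionOnto_apply_left hK' ⟨v, hv⟩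
    show ((K.projectionOnto K' hK' v : K) : V) = v
    exact congrArg Subtype.val this
  -- the average
  let n : F := (Nat.card H : F)
  let π : V →ₗ[F] V := n⁻¹ • ∑ h : H, ρ h ∘ₗ π₀ ∘ₗ ρ h⁻¹
  have hπapp : ∀ v, π v = n⁻¹ • ∑ h : H, ρ h (π₀ (ρ h⁻¹ v)) := by
    intro v
    simp [π, LinearMap.sum_apply]
  have hπK : ∀ v, π v ∈ K := by
    intro v
    rw [hπapp]
    exact K.smul_mem _ (K.sum_mem fun h _ => hKinv h _ (hπ₀K _))
  have hπid : ∀ v ∈ K, π v = v := by
    intro v hv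
    rw [hπapp]
    have h1 : ∀ h : H, ρ h (π₀ (ρ h⁻¹ v)) = v := by
      intro h
      rw [hπ₀id _ (hKinv _ _ hv), hinvr]
    simp only [h1]
    rw [Finset.sum_const, Finset.card_univ, ← Nat.card_eq_fintype_card, ← Nat.cast_smul_eq_nsmul F,
      smul_smul, inv_mul_cancel₀ hcard, one_smul]
  have hπeq : ∀ (g : H) (v : V), π (ρ g v) = ρ g (π v) := by
    intro g v
    rw [hπapp, hπapp, map_smul, map_sum]
    congr 1
    refine Fintype.sum_equiv (Equiv.mulLeft g⁻¹) _ _ fun h => ?_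
    show ρ h (π₀ (ρ h⁻¹ (ρ g v))) = ρ g (ρ (g⁻¹ * h) (π₀ (ρ (g⁻¹ * h)⁻¹ v)))
    have e1 : (g⁻¹ * h)⁻¹ = h⁻¹ * g := by group
    rw [e1, hmul h⁻¹ g v, hmul g⁻¹ h, hinvr]
  -- the sum over `A`
  let S : V →ₗ[F] V := ∑ x : A, ρ (x : H)
  have hSapp : ∀ v, S v = ∑ x : A, ρ (x : H) v := by
    intro v
    simp [S, LinearMap.sum_apply]
  set s₀ : V := S b with hs₀
  have hSorb : ∀ h : H, S (ρ h b) = s₀ := by
    intro h
    obtain ⟨x₀, hx₀, y₀, hy₀, rfl⟩ := hAB h
    rw [hmul, hb y₀ hy₀, hs₀, hSapp, hSapp]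
    refine Fintype.sum_equiv (Equiv.mulRight (⟨x₀, hx₀⟩ : A)) _ _ fun x => ?_
    show ρ (x : H) (ρ x₀ b) = ρ (x * x₀) b
    rw [hmul]
  set τ : V := ∑ h : H, ρ h b with hτ
  have hτfix : ∀ g : H, ρ g τ = τ := by
    intro g
    rw [hτ, map_sum]
    refine Fintype.sum_equiv (Equiv.mulLeft g) _ _ fun h => ?_
    show ρ g (ρ h b) = ρ (g * h) b
    rw [hmul]
  have hsum : (Nat.card H : F) • s₀ = (Nat.card A : F) • τ := by
    have h1 : S τ = (Nat.card H : F) • s₀ := by
      rw [hτ, map_sum]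
      simp only [hSorb]
      rw [Finset.sum_const, Finset.card_univ, ← Nat.card_eq_fintype_card, ← Nat.cast_smul_eq_nsmul F]
    rw [← h1, hSapp]
    simp only [hτfix]
    rw [Finset.sum_const, Finset.card_univ, ← Nat.card_eq_fintype_card, ← Nat.cast_smul_eq_nsmul F]
  have hs₀fix : ∀ g : H, ρ g s₀ = s₀ := by
    intro g
    have h1 : s₀ = (n⁻¹ * (Nat.card A : F)) • τ := by
      rw [mul_smul, ← hsum, smul_smul, inv_mul_cancel₀ hcard, one_smul]
    rw [h1, map_smul, hτfix]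
  have hSK : ∀ v ∈ K, ∃ c : F, S v = c • s₀ := by
    intro v hv
    induction hv using Submodule.span_induction with
    | mem x hx =>
      obtain ⟨k, rfl⟩ := hx
      exact ⟨1, by rw [one_smul]; exact hSorb k⟩
    | zero => exact ⟨0, by simp⟩
    | add x y _ _ hx hy =>
      obtain ⟨c, hc⟩ := hx
      obtain ⟨d, hd⟩ := hy
      exact ⟨c + d, by rw [map_add, hc, hd, add_smul]⟩
    | smul c x _ hx =>
      obtain ⟨d, hd⟩ := hx
      exact ⟨c * d, by rw [map_smul, hd, smul_smul]⟩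
  have hfix : ∀ v ∈ K, (∀ x ∈ A, ρ x v = v) → ∀ g : H, ρ g v = v := by
    intro v hv hvA g
    obtain ⟨c, hc⟩ := hSK v hv
    have h1 : S v = (Nat.card A : F) • v := by
      rw [hSapp]
      have : ∀ x : A, ρ (x : H) v = v := fun x => hvA x x.2
      simp only [this]
      rw [Finset.sum_const, Finset.card_univ, ← Nat.card_eq_fintype_card, ← Nat.cast_smul_eq_nsmul F]
    have h2 : v = ((Nat.card A : F)⁻¹ * c) • s₀ := by
      rw [mul_smul, ← hc, h1, smul_smul, inv_mul_cancel₀ hA0, one_smul]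
    rw [h2, map_smul, hs₀fix]
  have hwfix : ∀ g : H, ρ g (π a) = π a := by
    apply hfix _ (hπK a)
    intro x hx
    rw [← hπeq, ha x hx]
  have hc : ρ g a - a ∈ K := by
    have h1 : ρ g a - a = b - ρ g b := by
      rw [map_add] at hg
      rw [sub_eq_sub_iff_add_eq_add, hg, add_comm]
    rw [h1]
    exact K.sub_mem hbK (hKinv g b hbK)
  have h0 : π (ρ g a - a) = 0 := by
    rw [map_sub, hπeq, hwfix, sub_self]
  rw [hπid _ hc, sub_eq_zero] at h0
  exact h0

/-- The multiplicative version of the averaging lemma, with the module structure given. -/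
theorem fix_key_mul₀ {p : ℕ} [Fact p.Prime] {V H : Type*} [CommGroup V] [Group H] [Finite H]
    [Module (ZMod p) (Additive V)]
    (ρ : H →* MulAut V) (hcard : ¬ p ∣ Nat.card H)
    (A B : Subgroup H) (hAB : ∀ h, ∃ x ∈ A, ∃ y ∈ B, h = x * y)
    (a b : V) (ha : ∀ x ∈ A, ρ x a = a) (hb : ∀ y ∈ B, ρ y b = b)
    (g : H) (hg : ρ g (a * b) = a * b) : ρ g a = a := by
  let L : MulAut V → (Additive V →ₗ[ZMod p] Additive V) := fun φ =>
    AddMonoidHom.toZModLinearMap p (AddMonoidHom.mk' (fun v => Additive.ofMul (φ (Additive.toMul v)))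
      (fun v w => by
        show Additive.ofMul (φ (Additive.toMul v * Additive.toMul w)) = _
        rw [map_mul]
        rfl))
  have hL : ∀ (φ : MulAut V) (v : Additive V), L φ v = Additive.ofMul (φ (Additive.toMul v)) :=
    fun _ _ => rfl
  let ρ' : H →* (Additive V →ₗ[ZMod p] Additive V) :=
    { toFun := fun h => L (ρ h)
      map_one' := LinearMap.ext fun v => by
        show L (ρ 1) v = v
        rw [hL, map_one]
        rfl
      map_mul' := fun x y => LinearMap.ext fun v => by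
        show L (ρ (x * y)) v = L (ρ x) (L (ρ y) v)
        rw [hL, hL, hL, map_mul]
        rfl }
  have hcard' : ((Nat.card H : ℕ) : ZMod p) ≠ 0 := by
    rw [Ne, ZMod.natCast_eq_zero_iff]
    exact hcard
  have this : ρ' g (Additive.ofMul a) = Additive.ofMul a := by
    refine fix_key ρ' hcard' A B hAB (Additive.ofMul a) (Additive.ofMul b) ?_ ?_ g ?_
    · intro x hx
      exact congrArg Additive.ofMul (ha x hx)
    · intro y hy
      exact congrArg Additive.ofMul (hb y hy)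
    · exact congrArg Additive.ofMul hg
  exact Additive.ofMul.injective this

/-- The multiplicative version of the averaging lemma. -/
theorem fix_key_mul {p : ℕ} [Fact p.Prime] {V H : Type*} [Group V] [Group H] [Finite H]
    (hcomm : ∀ v w : V, v * w = w * v) (hexp : ∀ v : V, v ^ p = 1)
    (ρ : H →* MulAut V) (hcard : ¬ p ∣ Nat.card H)
    (A B : Subgroup H) (hAB : ∀ h, ∃ x ∈ A, ∃ y ∈ B, h = x * y)
    (a b : V) (ha : ∀ x ∈ A, ρ x a = a) (hb : ∀ y ∈ B, ρ y b = b)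
    (g : H) (hg : ρ g (a * b) = a * b) : ρ g a = a := by
  classical
  letI : CommGroup V := { (inferInstance : Group V) with mul_comm := hcomm }
  have hx : ∀ x : Additive V, (p : ℕ) • x = 0 := by
    intro x
    exact congrArg Additive.ofMul (hexp (Additive.toMul x))
  letI : Module (ZMod p) (Additive V) := AddCommGroup.zmodModule hx
  exact fix_key_mul₀ ρ hcard A B hAB a b ha hb g hg

section Basic

variable {G : Type*} [Group G] [Finite G] {p : ℕ} [hp : Fact p.Prime]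

/-- `p`-elements. -/
def Pel (p : ℕ) (x : G) : Prop := ∃ k : ℕ, x ^ p ^ k = 1

lemma Pel.conj {x : G} (h : Pel p x) (g : G) : Pel p (g * x * g⁻¹) := by
  obtain ⟨k, hk⟩ := h
  refine ⟨k, ?_⟩
  rw [conj_pow, hk]
  group

lemma Pel.mul {x y : G} (h : Pel p x) (h' : Pel p y) (hc : Commute x y) : Pel p (x * y) := by
  obtain ⟨k, hk⟩ := h
  obtain ⟨l, hl⟩ := h'
  refine ⟨k + l, ?_⟩
  rw [hc.mul_pow, pow_add, pow_mul x, hk, one_pow, mul_comm (p ^ k), pow_mul y, hl, one_pow, one_mul]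

lemma Pel.inv {x : G} (h : Pel p x) : Pel p x⁻¹ := by
  obtain ⟨k, hk⟩ := h
  exact ⟨k, by rw [inv_pow, hk, inv_one]⟩

lemma Pel.orderOf_eq {x : G} (h : Pel p x) : ∃ k, orderOf x = p ^ k := by
  obtain ⟨k, hk⟩ := h
  obtain ⟨j, -, hj⟩ := (Nat.dvd_prime_pow hp.out).1 (orderOf_dvd_of_pow_eq_one hk)
  exact ⟨j, hj⟩

lemma Pel.dvd_orderOf {x : G} (h : Pel p x) (hx : x ≠ 1) : p ∣ orderOf x := by
  obtain ⟨k, hk⟩ := h.orderOf_eq
  rw [hk]
  cases k with
  | zero =>
    rw [pow_zero, orderOf_eq_one_iff] at hk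
    exact absurd hk hx
  | succ k => exact dvd_pow_self p (Nat.succ_ne_zero k)

lemma Pel.of_orderOf {x : G} {k : ℕ} (h : orderOf x = p ^ k) : Pel p x :=
  ⟨k, by rw [← h]; exact pow_orderOf_eq_one x⟩

lemma Pel.exists_sylow {x : G} (h : Pel p x) : ∃ P : Sylow p G, x ∈ P := by
  obtain ⟨k, hk⟩ := h.orderOf_eq
  exact Cfsg.Agent.Lib.Basic.SylowUtil.exists_sylow_of_orderOf hk

lemma pel_of_mem (P : Sylow p G) {x : G} (hx : x ∈ P) : Pel p x := by
  obtain ⟨k, hk⟩ := Cfsg.Agent.Lib.Basic.SylowUtil.orderOf_eq_pow_of_mem P hx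
  exact Pel.of_orderOf hk

lemma comm_conj {a b : G} (h : Commute a b) (l : G) : Commute (l * a * l⁻¹) (l * b * l⁻¹) := by
  have h1 : a * b = b * a := h
  show l * a * l⁻¹ * (l * b * l⁻¹) = l * b * l⁻¹ * (l * a * l⁻¹)
  calc l * a * l⁻¹ * (l * b * l⁻¹) = l * (a * b) * l⁻¹ := by group
    _ = l * (b * a) * l⁻¹ := by rw [h1]
    _ = _ := by group

lemma mem_of_sylow_le_cent {x : G} (h : Pel p x) (P : Sylow p G) (hP : (P : Subgroup G) ≤ cent x) :
    x ∈ P := by
  obtain ⟨k, hk⟩ := h.orderOf_eq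
  have hZ : IsPGroup p (Subgroup.zpowers x) := by
    rw [IsPGroup.iff_card, Nat.card_zpowers]
    exact ⟨k, hk⟩
  have hc : ∀ s ∈ (P : Subgroup G), x * s = s * x := fun s hs => mem_cent_iff.1 (hP hs)
  have hN : x ∈ Subgroup.normalizer ((P : Subgroup G) : Set G) := by
    rw [Subgroup.mem_normalizer_iff]
    intro s
    constructor
    · intro hs
      show x * s * x⁻¹ ∈ (P : Subgroup G)
      rw [hc s hs]
      simpa using hs
    · intro hs
      have hs' : x * s * x⁻¹ ∈ (P : Subgroup G) := hs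
      have h2 := hc _ hs'
      have h3 : s = x⁻¹ * (x * s * x⁻¹) * x := by group
      have h4 : x⁻¹ * (x * s * x⁻¹) * x = x * s * x⁻¹ := by
        rw [mul_assoc, ← h2]
        group
      rw [h3, h4]
      exact hs'
  have h2 : x ∈ Subgroup.zpowers x ⊓ Subgroup.normalizer ((P : Subgroup G) : Set G) :=
    ⟨Subgroup.mem_zpowers x, hN⟩
  exact ((SetLike.ext_iff.1 (hZ.inf_normalizer_sylow P) x).1 h2).2

theorem commute_conj_aux {y w : G} (hy : Pel p y) (hc : (cs y).Coprime (cs w)) (hpw : ¬ p ∣ cs w)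
    (g h : G) : Commute (g * y * g⁻¹) (h * w * h⁻¹) := by
  obtain ⟨P₀, hP₀⟩ := exists_sylow_le_cent hpw
  obtain ⟨P₁, hy₁⟩ := hy.exists_sylow
  obtain ⟨k, hk⟩ := MulAction.exists_smul_eq G P₀ P₁
  have hmem : k⁻¹ * y * k ∈ (P₀ : Subgroup G) := by
    rw [← hk] at hy₁
    have h1 : y ∈ MulAut.conj k • (P₀ : Subgroup G) := hy₁
    rw [Subgroup.mem_pointwise_smul_iff_inv_smul_mem] at h1
    simpa using h1
  set w₁ := k * w * k⁻¹ with hw₁
  have hyw₁ : Commute y w₁ := by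
    have h1 : k⁻¹ * y * k * w = w * (k⁻¹ * y * k) := (mem_cent_iff.1 (hP₀ hmem)).symm
    have h2 := comm_conj (a := k⁻¹ * y * k) (b := w) h1 k
    have h3 : k * (k⁻¹ * y * k) * k⁻¹ = y := by group
    rwa [h3] at h2
  have hc₁ : (cs w₁).Coprime (cs y) := by
    rw [hw₁, cs_conj]
    exact hc.symm
  have key : ∀ g' : G, Commute (g' * y * g'⁻¹) w₁ := by
    intro g'
    obtain ⟨c, hcm, hcc⟩ := exists_conj_eq hc₁ g'
    rw [hcc]
    have h1 : c * w₁ * c⁻¹ = w₁ := by
      have := mem_cent_iff.1 hcm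
      rw [← this]
      group
    have h2 := comm_conj hyw₁ c
    rwa [h1] at h2
  set l := h * k⁻¹ with hl
  have e1 : h * w * h⁻¹ = l * w₁ * l⁻¹ := by
    rw [hl, hw₁]
    group
  have h2 := comm_conj (key (l⁻¹ * g)) l
  have e2 : l * (l⁻¹ * g * y * (l⁻¹ * g)⁻¹) * l⁻¹ = g * y * g⁻¹ := by group
  rw [e2] at h2
  rw [e1]
  exact h2

/-- Coprime class sizes of `p`-elements: all conjugates commute. -/
theorem commute_conj {y w : G} (hy : Pel p y) (hw : Pel p w) (hc : (cs y).Coprime (cs w))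
    (g h : G) : Commute (g * y * g⁻¹) (h * w * h⁻¹) := by
  by_cases hpw : p ∣ cs w
  · have hpy : ¬ p ∣ cs y := fun hpy => by
      have h1 := Nat.dvd_gcd hpy hpw
      rw [hc.gcd_eq_one] at h1
      exact hp.out.one_lt.ne' (Nat.dvd_one.1 h1)
    exact (commute_conj_aux hw hc.symm hpy h g).symm
  · exact commute_conj_aux hy hc hpw g h

lemma exists_conj_sylow (F : Subgroup G) (P R : Sylow p G) (hP : (P : Subgroup G) ≤ F)
    (hR : (R : Subgroup G) ≤ F) : ∃ f ∈ F, f • R = P := by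
  obtain ⟨f, hf⟩ := MulAction.exists_smul_eq F (R.subtype hR) (P.subtype hP)
  rw [Sylow.smul_subtype hR f] at hf
  exact ⟨f, f.2, Sylow.subtype_injective hf⟩

end Basic

/-- If every `p'`-element centralizes a Sylow `p`-subgroup, the Sylow `p`-subgroup is normal. -/
theorem normal_sylow_of_PC {M : Type*} [Group M] [Finite M] {p : ℕ} [hp : Fact p.Prime]
    (h : ∀ x : M, (orderOf x).Coprime p → ∃ S : Sylow p M, ∀ s ∈ S, Commute s x) :
    Subsingleton (Sylow p M) := by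
  classical
  refine ⟨fun P Q => ?_⟩
  by_contra hne
  obtain ⟨t, ht⟩ := Cfsg.Agent.Lib.Perm.Derange.exists_derangement (G := M) hne
  obtain ⟨a, b, rfl, hab, -, -, ⟨k, hk⟩, hb⟩ :=
    Cfsg.Agent.Lib.Transfer.Basic.exists_pPart_decomp (p := p) t
  obtain ⟨S, hS⟩ := h b hb
  have hSC : (S : Subgroup M) ≤ cent b := fun s hs => mem_cent_iff.2 (hS s hs).symm
  have ha : a ∈ cent b := mem_cent_iff.2 hab.symm
  have hord : orderOf (⟨a, ha⟩ : cent b) = p ^ k := by
    rw [← hk]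
    exact Subgroup.orderOf_mk a ha
  obtain ⟨R, hR⟩ := Cfsg.Agent.Lib.Basic.SylowUtil.exists_sylow_of_orderOf hord
  obtain ⟨c, hc⟩ := MulAction.exists_smul_eq (cent b) (S.subtype hSC) R
  rw [Sylow.smul_subtype hSC c] at hc
  rw [← hc] at hR
  set Q' : Sylow p M := c • S with hQ'
  have hQ'C : (Q' : Subgroup M) ≤ cent b := Sylow.smul_le hSC c
  have haQ : a ∈ (Q' : Subgroup M) := by
    have : (⟨a, ha⟩ : cent b) ∈ (((Q'.subtype hQ'C : Sylow p (cent b)) : Subgroup (cent b))) := hR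
    rw [Sylow.coe_subtype] at this
    exact this
  apply ht Q'
  rw [Sylow.smul_eq_iff_mem_normalizer]
  refine Subgroup.mul_mem _ (Subgroup.le_normalizer haQ) ?_
  show b ∈ Subgroup.normalizer (((Q' : Sylow p M) : Subgroup M) : Set M)
  rw [Subgroup.mem_normalizer_iff]
  intro s
  constructor
  · intro hs
    have hsb : b * s = s * b := mem_cent_iff.1 (hQ'C hs)
    show b * s * b⁻¹ ∈ (Q' : Subgroup M)
    rw [hsb]
    simpa using hs
  · intro hs
    have hs' : b * s * b⁻¹ ∈ (Q' : Subgroup M) := hs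
    have hsb := mem_cent_iff.1 (hQ'C hs')
    have h3 : s = b⁻¹ * (b * s * b⁻¹) * b := by group
    have h4 : b⁻¹ * (b * s * b⁻¹) * b = b * s * b⁻¹ := by
      rw [mul_assoc, ← hsb]
      group
    rw [h3, h4]
    exact hs'

section Main

variable {G : Type*} [Group G] [Finite G] {p : ℕ} [hp : Fact p.Prime]

/-- The standing hypotheses of the argument. -/
structure Hyp (p : ℕ) (A B : Set ℕ) (a b : G) : Prop where
  H : ∀ t : G, p ∣ orderOf t → ∀ u ∈ A, ∀ v ∈ B, u ∣ cs t → v ∣ cs t → False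
  ha : orderOf a = p
  hb : orderOf b = p
  hA : Supp A a
  hB : Supp B b

variable {A B : Set ℕ} {a b : G}

lemma Hyp.symm (h : Hyp p A B a b) : Hyp p B A b a :=
  ⟨fun t ht u hu v hv h1 h2 => h.H t ht v hv u hu h2 h1, h.hb, h.ha, h.hB, h.hA⟩

lemma Hyp.coprime (h : Hyp p A B a b) : (cs a).Coprime (cs b) :=
  Nat.coprime_of_dvd fun l hl h1 h2 =>
    h.H a (by rw [h.ha]) l (h.hA l hl h1) l (h.hB l hl h2) h1 h1

lemma Hyp.pela (h : Hyp p A B a b) : Pel p a := Pel.of_orderOf (k := 1) (by rw [h.ha, pow_one])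

lemma Hyp.pelb (h : Hyp p A B a b) : Pel p b := h.symm.pela

lemma exists_prime_dvd_cs (hZ : ¬ p ∣ Nat.card (Subgroup.center G)) {a : G} (ha : orderOf a = p) :
    ∃ u, u.Prime ∧ u ∣ cs a := by
  apply Nat.exists_prime_and_dvd
  intro h1
  have h2 : a ∈ Subgroup.center G := index_cent_eq_one_iff.1 h1
  apply hZ
  have h3 : orderOf (⟨a, h2⟩ : Subgroup.center G) = p := by
    rw [← ha]
    exact Subgroup.orderOf_mk a h2
  rw [← h3]
  exact orderOf_dvd_natCard _

lemma Hyp.key1 (h : Hyp p A B a b) {y : G} (hy : Pel p y) {g : G}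
    (hn : ¬ Commute y (g * a * g⁻¹)) : p ∣ orderOf y ∧ ∃ u ∈ A, u ∣ cs y := by
  have hy1 : y ≠ 1 := by
    rintro rfl
    exact hn (Commute.one_left _)
  refine ⟨hy.dvd_orderOf hy1, ?_⟩
  by_contra hno
  push Not at hno
  apply hn
  have hc : (cs y).Coprime (cs a) := Nat.coprime_of_dvd fun l hl h1 h2 =>
    hno l (h.hA l hl h2) h1
  have := commute_conj hy h.pela hc 1 g
  simpa using this

lemma comm_closure {S : Set G} (hS : ∀ x ∈ S, ∀ y ∈ S, x * y = y * x) :
    ∀ x ∈ Subgroup.closure S, ∀ y ∈ Subgroup.closure S, x * y = y * x := by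
  intro x hx y hy
  have := (Subgroup.isMulCommutative_closure hS).is_comm.comm ⟨x, hx⟩ ⟨y, hy⟩
  exact congrArg Subtype.val this

/-- All `p`-elements centralize the class of `a`, when `p` divides the class size of `b`. -/
theorem Hyp.claimD (h : Hyp p A B a b) (hpb : p ∣ cs b) {y : G} (hy : Pel p y) (g : G) :
    Commute y (g * a * g⁻¹) := by
  classical
  have hpB : p ∈ B := h.hB p hp.out hpb
  have hmiss : ∀ y : G, Pel p y → ∀ g : G, ¬ Commute y (g * a * g⁻¹) →
      ¬ p ∣ cs y ∧ (cs y).Coprime (cs b) := by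
    intro y hy g hn
    obtain ⟨hpy, u, huA, hu⟩ := h.key1 hy hn
    refine ⟨fun hd => h.H y hpy u huA p hpB hu hd, Nat.coprime_of_dvd fun l hl h1 h2 => ?_⟩
    exact h.H y hpy u huA l (h.hB l hl h2) hu h1
  have hbD : ∀ g : G, Commute b (g * a * g⁻¹) := by
    intro g
    have := commute_conj h.pelb h.pela h.coprime.symm 1 g
    simpa using this
  by_contra hn
  obtain ⟨-, hcy⟩ := hmiss y hy g hn
  have hyb : Commute y b := by
    have := commute_conj hy h.pelb hcy 1 1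
    simpa using this
  set z := y * b with hz
  have hzP : Pel p z := hy.mul h.pelb hyb
  have hzn : ¬ Commute z (g * a * g⁻¹) := by
    intro hz'
    apply hn
    have e : y = z * b⁻¹ := by rw [hz]; group
    rw [e]
    exact hz'.mul_left (hbD g).inv_left
  obtain ⟨-, hcz⟩ := hmiss z hzP g hzn
  have hbb : ∀ k : G, Commute b (k * b * k⁻¹) := by
    intro k
    obtain ⟨c, hc, hck⟩ := exists_conj_eq hcz.symm k
    have hcb : c * b * c⁻¹ = b := by
      have := mem_cent_iff.1 hc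
      rw [← this]
      group
    have e : k * b * k⁻¹ = (k * y * k⁻¹)⁻¹ * (c * y * c⁻¹) * b := by
      have e1 : k * z * k⁻¹ = (k * y * k⁻¹) * (k * b * k⁻¹) := by rw [hz]; group
      have e2 : c * z * c⁻¹ = (c * y * c⁻¹) * (c * b * c⁻¹) := by rw [hz]; group
      rw [hcb] at e2
      have e3 : (k * y * k⁻¹)⁻¹ * (c * y * c⁻¹) * b = k * b * k⁻¹ := by
        rw [mul_assoc, ← e2, ← hck, e1, inv_mul_cancel_left]
      exact e3.symm
    rw [e]
    have h1 : Commute b (k * y * k⁻¹) := by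
      have := commute_conj hy h.pelb hcy k 1
      simpa using this.symm
    have h2 : Commute b (c * y * c⁻¹) := by
      have := commute_conj hy h.pelb hcy c 1
      simpa using this.symm
    exact (h1.inv_right.mul_right h2).mul_right (Commute.refl b)
  have hall : ∀ k l : G, Commute (k * b * k⁻¹) (l * b * l⁻¹) := by
    intro k l
    have := comm_conj (hbb (k⁻¹ * l)) k
    have e : k * (k⁻¹ * l * b * (k⁻¹ * l)⁻¹) * k⁻¹ = l * b * l⁻¹ := by group
    rwa [e] at this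
  -- `b` lies in every Sylow subgroup
  have hbP : ∀ P : Sylow p G, b ∈ P := by
    intro P
    let N : Subgroup G := Subgroup.normalClosure {b}
    have hab : ∀ x ∈ N, ∀ y ∈ N, x * y = y * x := by
      apply comm_closure
      intro x hx y hy
      obtain ⟨b', hb', hx'⟩ := Group.mem_conjugatesOfSet_iff.1 hx
      obtain ⟨b'', hb'', hy'⟩ := Group.mem_conjugatesOfSet_iff.1 hy
      rw [Set.mem_singleton_iff] at hb' hb''
      subst hb' hb''
      obtain ⟨k, rfl⟩ := isConj_iff.1 hx'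
      obtain ⟨l, rfl⟩ := isConj_iff.1 hy'
      exact hall k l
    haveI : N.Normal := Subgroup.normalClosure_normal
    exact mem_sylow_of_abelian_normal hab (Subgroup.subset_normalClosure rfl)
      (e := 1) (by rw [h.hb, pow_one]) P
  obtain ⟨P, hyP⟩ := hy.exists_sylow
  have hx : ∃ x ∈ (P : Subgroup G), ¬ Commute x b := by
    by_contra hno
    push Not at hno
    apply not_dvd_cs_of_sylow_le P _ hpb
    intro s hs
    exact mem_cent_iff.2 (hno s hs).symm
  have hq : ∀ q ∈ (P : Subgroup G), ¬ Commute q b → ∀ k : G, Commute q (k * a * k⁻¹) := by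
    intro q hq hqb k
    by_contra hn'
    obtain ⟨hnp, -⟩ := hmiss q (pel_of_mem P hq) k hn'
    obtain ⟨P₀, hP₀⟩ := exists_sylow_le_cent hnp
    have := mem_cent_iff.1 (hP₀ (hbP P₀))
    exact hqb this
  obtain ⟨x, hxP, hxb⟩ := hx
  have hxD := hq x hxP hxb
  have hxy : ¬ Commute (x * y) b := by
    intro hc
    apply hxb
    have e : x = x * y * y⁻¹ := by group
    rw [e]
    exact hc.mul_left hyb.inv_left
  have hxyD := hq (x * y) (Subgroup.mul_mem _ hxP hyP) hxy g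
  apply hn
  have e : y = x⁻¹ * (x * y) := by group
  rw [e]
  exact (hxD g).inv_left.mul_left hxyD

/-- The `p'`-elements of the centralizer of `a` centralize a Sylow subgroup. -/
theorem Hyp.PC (hZ : ¬ p ∣ Nat.card (Subgroup.center G)) (h : Hyp p A B a b) (hpb : p ∣ cs b)
    (x : cent a) (hx : (orderOf x).Coprime p) : ∃ S : Sylow p (cent a), ∀ s ∈ S, Commute s x := by
  have hpB : p ∈ B := h.hB p hp.out hpb
  obtain ⟨u, huP, hua⟩ := exists_prime_dvd_cs hZ h.ha
  have huA := h.hA u huP hua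
  set g : G := x.1 with hg
  have hgo : orderOf g = orderOf x := Subgroup.orderOf_coe x
  have hag : Commute a g := mem_cent_iff.1 x.2
  set t := a * g with ht
  have hot : orderOf t = p * orderOf g := by
    rw [ht, hag.orderOf_mul_eq_mul_orderOf_of_coprime, h.ha]
    rw [h.ha, hgo]
    exact hx.symm
  have hpt : p ∣ orderOf t := by
    rw [hot]
    exact dvd_mul_right _ _
  have hta : cent t ≤ cent a := by
    have hco : (orderOf g).Coprime p := by rw [hgo]; exact hx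
    obtain ⟨c, -, hc⟩ := Nat.exists_mul_mod_eq_one_of_coprime hco hp.out.one_lt
    have e : t ^ (orderOf g * c) = a := by
      rw [ht, hag.mul_pow, pow_mul g, pow_orderOf_eq_one, one_pow, mul_one]
      rw [← pow_mod_orderOf, h.ha, hc, pow_one]
    have := cent_le_of_pow t (orderOf g * c)
    rwa [e] at this
  have hcsa : cs a ∣ cs t := Subgroup.index_dvd_of_le hta
  have hnp : ¬ p ∣ cs t := fun hd => h.H t hpt u huA p hpB (hua.trans hcsa) hd
  obtain ⟨P₁, hP₁⟩ := exists_sylow_le_cent hnp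
  have hP₁a : (P₁ : Subgroup G) ≤ cent a := hP₁.trans hta
  refine ⟨P₁.subtype hP₁a, ?_⟩
  intro s hs
  have hs' : (s : G) ∈ (P₁ : Subgroup G) := hs
  have h1 : t * (s : G) = (s : G) * t := mem_cent_iff.1 (hP₁ hs')
  have h2 : a * (s : G) = (s : G) * a := mem_cent_iff.1 s.2
  apply Subtype.ext
  show (s : G) * g = g * (s : G)
  have h3 : g = a⁻¹ * t := by rw [ht]; group
  rw [h3]
  calc (s : G) * (a⁻¹ * t) = (s : G) * a⁻¹ * t := (mul_assoc _ _ _).symm
    _ = a⁻¹ * (s : G) * t := by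
        congr 1
        have : a⁻¹ * (a * (s : G)) * a⁻¹ = a⁻¹ * ((s : G) * a) * a⁻¹ := by rw [h2]
        simpa [mul_assoc] using this
    _ = a⁻¹ * ((s : G) * t) := mul_assoc _ _ _
    _ = a⁻¹ * (t * (s : G)) := by rw [h1]
    _ = _ := (mul_assoc _ _ _).symm

/-- Step 1: `p` cannot divide the class size of `b`. -/
theorem Hyp.step1 (hZ : ¬ p ∣ Nat.card (Subgroup.center G)) (h : Hyp p A B a b) (hpb : p ∣ cs b) :
    False := by
  classical
  have hpB : p ∈ B := h.hB p hp.out hpb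
  have hD : ∀ y : G, Pel p y → ∀ g : G, Commute y (g * a * g⁻¹) :=
    fun y hy g => h.claimD hpb hy g
  have hD1 : ∀ y : G, Pel p y → Commute y a := fun y hy => by
    have := hD y hy 1
    simpa using this
  have hle : ∀ Q : Sylow p G, (Q : Subgroup G) ≤ cent a := fun Q q hq =>
    mem_cent_iff.2 (hD1 q (pel_of_mem Q hq)).symm
  haveI hsub : Subsingleton (Sylow p (cent a)) :=
    normal_sylow_of_PC (fun x hx => h.PC hZ hpb x hx)
  obtain ⟨P₀⟩ : Nonempty (Sylow p G) := inferInstance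
  have huniq : ∀ Q : Sylow p G, Q = P₀ := fun Q =>
    Sylow.subtype_injective (hP := hle Q) (hQ := hle P₀) (Subsingleton.elim _ _)
  haveI hsubG : Subsingleton (Sylow p G) := ⟨fun Q R => (huniq Q).trans (huniq R).symm⟩
  have hnorm : (P₀ : Subgroup G).Normal := Sylow.normal_of_subsingleton P₀
  have hpall : ∀ x : G, Pel p x → x ∈ (P₀ : Subgroup G) := by
    intro x hx
    obtain ⟨Q, hQ⟩ := hx.exists_sylow
    rwa [huniq Q] at hQ
  have hp'comm : ∀ g : G, g ∈ cent a → (orderOf g).Coprime p →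
      ∀ s ∈ (P₀ : Subgroup G), Commute s g := by
    intro g hg hgo s hs
    have hgo' : (orderOf (⟨g, hg⟩ : cent a)).Coprime p := by
      rw [Subgroup.orderOf_mk]
      exact hgo
    obtain ⟨S, hS⟩ := h.PC hZ hpb ⟨g, hg⟩ hgo'
    have hSe : S = P₀.subtype (hle P₀) := Subsingleton.elim _ _
    have hs' : (⟨s, hle P₀ hs⟩ : cent a) ∈ S := by
      rw [hSe]
      exact hs
    have := hS _ hs'
    exact congrArg Subtype.val this
  have hbmem : b ∈ (P₀ : Subgroup G) := hpall b h.pelb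
  have hbnc : ∃ s ∈ (P₀ : Subgroup G), ¬ Commute b s := by
    by_contra hno
    push Not at hno
    apply not_dvd_cs_of_sylow_le P₀ _ hpb
    intro s hs
    exact mem_cent_iff.2 (hno s hs)
  -- the commutator subgroup of `P₀`, inside `G`
  set Pc : Subgroup G := (commutator (P₀ : Subgroup G)).map (P₀ : Subgroup G).subtype with hPc
  have hPcmem : ∀ x ∈ (P₀ : Subgroup G), ∀ y ∈ (P₀ : Subgroup G), x * y * x⁻¹ * y⁻¹ ∈ Pc := by
    intro x hx y hy
    refine ⟨⁅(⟨x, hx⟩ : (P₀ : Subgroup G)), (⟨y, hy⟩ : (P₀ : Subgroup G))⁆, ?_, rfl⟩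
    rw [commutator_def]
    exact Subgroup.commutator_mem_commutator (Subgroup.mem_top _) (Subgroup.mem_top _)
  have hPcconj : ∀ x ∈ Pc, ∀ s ∈ (P₀ : Subgroup G), s * x * s⁻¹ ∈ Pc := by
    rintro _ ⟨x, hx, rfl⟩ s hs
    have hn : (commutator (P₀ : Subgroup G)).Normal := inferInstance
    exact ⟨_, hn.conj_mem x hx ⟨s, hs⟩, rfl⟩
  have hconj : ∀ y ∈ (P₀ : Subgroup G), (∃ s ∈ (P₀ : Subgroup G), ¬ Commute y s) →
      ∀ k : G, y⁻¹ * (k * y * k⁻¹) ∈ Pc := by
    intro y hy ⟨s, hs, hys⟩ k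
    have hy1 : y ≠ 1 := by
      rintro rfl
      exact hys (Commute.one_left _)
    have hpy : p ∣ orderOf y := (pel_of_mem P₀ hy).dvd_orderOf hy1
    have hpcs : p ∣ cs y := by
      by_contra hnd
      obtain ⟨Q, hQ⟩ := exists_sylow_le_cent hnd
      rw [huniq Q] at hQ
      exact hys (mem_cent_iff.1 (hQ hs))
    have hcoy : (cs a).Coprime (cs y) := Nat.coprime_of_dvd fun l hl h1 h2 =>
      h.H y hpy l (h.hA l hl h1) p hpB h2 hpcs
    obtain ⟨m, hm, hkm⟩ := exists_conj_eq hcoy k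
    obtain ⟨m₁, m₂, rfl, hcomm, hm₁, hm₂, ⟨e, he⟩, ho⟩ :=
      Cfsg.Agent.Lib.Transfer.Basic.exists_pPart_decomp (p := p) m
    have hm₂a : m₂ ∈ cent a := (Subgroup.zpowers_le.2 hm) hm₂
    have hm₁P : m₁ ∈ (P₀ : Subgroup G) := hpall m₁ (Pel.of_orderOf he)
    have hcy : y * m₂ = m₂ * y := hp'comm m₂ hm₂a ho y hy
    have e1 : k * y * k⁻¹ = m₁ * y * m₁⁻¹ := by
      rw [hkm]
      calc m₁ * m₂ * y * (m₁ * m₂)⁻¹ = m₁ * (m₂ * y) * m₂⁻¹ * m₁⁻¹ := by group
        _ = m₁ * (y * m₂) * m₂⁻¹ * m₁⁻¹ := by rw [hcy]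
        _ = _ := by group
    rw [e1]
    have := hPcmem y⁻¹ (Subgroup.inv_mem _ hy) m₁ hm₁P
    have e2 : y⁻¹ * m₁ * y⁻¹⁻¹ * m₁⁻¹ = y⁻¹ * (m₁ * y * m₁⁻¹) := by group
    rwa [e2] at this
  have hconj_all : ∀ y ∈ (P₀ : Subgroup G), ∀ k : G, y⁻¹ * (k * y * k⁻¹) ∈ Pc := by
    intro y hy k
    by_cases hnc : ∃ s ∈ (P₀ : Subgroup G), ¬ Commute y s
    · exact hconj y hy hnc k
    push Not at hnc
    have hyb : y * b ∈ (P₀ : Subgroup G) := Subgroup.mul_mem _ hy hbmem
    have hybn : ∃ s ∈ (P₀ : Subgroup G), ¬ Commute (y * b) s := by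
      obtain ⟨s, hs, hbs⟩ := hbnc
      refine ⟨s, hs, fun hc => hbs ?_⟩
      have e : b = y⁻¹ * (y * b) := by group
      rw [e]
      exact (hnc s hs).inv_left.mul_left hc
    have h1 := hconj _ hyb hybn k
    have h2 := hconj b hbmem ⟨_, (hbnc.choose_spec).1, (hbnc.choose_spec).2⟩ k
    have h3 : b⁻¹ * (y⁻¹ * (k * y * k⁻¹)) * b = (y * b)⁻¹ * (k * (y * b) * k⁻¹) * (b⁻¹ * (k * b * k⁻¹))⁻¹ := by
      group
    have h4 : b⁻¹ * (y⁻¹ * (k * y * k⁻¹)) * b ∈ Pc := by
      rw [h3]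
      exact Subgroup.mul_mem _ h1 (Subgroup.inv_mem _ h2)
    have h5 := hPcconj _ h4 b hbmem
    have h6 : b * (b⁻¹ * (y⁻¹ * (k * y * k⁻¹)) * b) * b⁻¹ = y⁻¹ * (k * y * k⁻¹) := by group
    rwa [h6] at h5
  -- `p'`-elements centralize `P₀`
  have hp'cent : ∀ g : G, (orderOf g).Coprime p → Commute a g := by
    intro g hg
    have hA : Subgroup.zpowers g ≤ Subgroup.normalizer ((P₀ : Subgroup G) : Set G) := by
      rw [Subgroup.normalizer_eq_top_iff.2 hnorm]
      exact le_top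
    have hc : (Nat.card (Subgroup.zpowers g)).Coprime p := by
      rw [Nat.card_zpowers]
      exact hg
    have hle' := Cfsg.Agent.Lib.Coprime.FrattiniAct.le_centralizer_of_frattini
      (T := (P₀ : Subgroup G)) (A := Subgroup.zpowers g) (p := p) P₀.2 hA hc (by
        intro t ht x _
        have hF : commutator (P₀ : Subgroup G) ≤ frattini (P₀ : Subgroup G) :=
          Cfsg.Agent.Lib.PGroup.Basic.commutator_le_frattini P₀.2
        exact Subgroup.map_mono hF (hconj_all t ht x))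
    have hgm := hle' (Subgroup.mem_zpowers g)
    rw [Subgroup.mem_centralizer_iff] at hgm
    exact hgm a (hpall a h.pela)
  have hcen : a ∈ Subgroup.center G := by
    rw [Subgroup.mem_center_iff]
    intro x
    obtain ⟨x₁, x₂, rfl, -, -, -, ⟨e, he⟩, ho⟩ :=
      Cfsg.Agent.Lib.Transfer.Basic.exists_pPart_decomp (p := p) x
    have h1 : Commute x₁ a := hD1 x₁ (Pel.of_orderOf he)
    have h2 : Commute x₂ a := (hp'cent x₂ ho).symm
    exact h1.mul_left h2
  apply hZ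
  have h3 : orderOf (⟨a, hcen⟩ : Subgroup.center G) = p := by
    rw [← h.ha]
    exact Subgroup.orderOf_mk a hcen
  rw [← h3]
  exact orderOf_dvd_natCard _

/-- The factorization of the normalizer. -/
lemma Hyp.fact_normalizer (h : Hyp p A B a b)
    (hD : ∀ y : G, Pel p y → ∀ g : G, Commute y (g * a * g⁻¹))
    (P : Sylow p G) (hPb : (P : Subgroup G) ≤ cent b) {n : G}
    (hn : n ∈ Subgroup.normalizer ((P : Subgroup G) : Set G)) :
    ∃ x w : G, x ∈ Subgroup.normalizer ((P : Subgroup G) : Set G) ∧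
      w ∈ Subgroup.normalizer ((P : Subgroup G) : Set G) ∧ n = x * w ∧ x ∈ cent a ∧ w ∈ cent b := by
  have hle : ∀ Q : Sylow p G, (Q : Subgroup G) ≤ cent a := fun Q q hq => by
    have := hD q (pel_of_mem Q hq) 1
    have h1 : Commute q a := by simpa using this
    exact mem_cent_iff.2 h1.symm
  obtain ⟨c, hc, d, hd, rfl⟩ := exists_mul_of_coprime h.coprime n
  set R : Sylow p G := d • P with hR
  have hRb : (R : Subgroup G) ≤ cent b := Sylow.smul_le hPb (⟨d, hd⟩ : cent b)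
  obtain ⟨f, ⟨hfa, hfb⟩, hf⟩ := exists_conj_sylow (cent a ⊓ cent b) P R
    (le_inf (hle P) hPb) (le_inf (hle R) hRb)
  have hw : (f * d) • P = P := by
    rw [mul_smul]
    exact hf
  have hwN : f * d ∈ Subgroup.normalizer ((P : Subgroup G) : Set G) :=
    Sylow.smul_eq_iff_mem_normalizer.1 hw
  refine ⟨c * f⁻¹, f * d, ?_, hwN, by group, Subgroup.mul_mem _ hc (Subgroup.inv_mem _ hfa),
    Subgroup.mul_mem _ hfb hd⟩
  have e : c * f⁻¹ = c * d * (f * d)⁻¹ := by group
  rw [e]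
  exact Subgroup.mul_mem _ hn (Subgroup.inv_mem _ hwN)

/-- The action on the central elements of order `p`. -/
def OmegaN (p : ℕ) (P : Subgroup G) : Subgroup (Subgroup.normalizer (P : Set G)) where
  carrier := {x | (x : G) ∈ P ∧ (∀ s ∈ P, Commute (x : G) s) ∧ (x : G) ^ p = 1}
  mul_mem' := by
    rintro x y ⟨hx1, hx2, hx3⟩ ⟨hy1, hy2, hy3⟩
    refine ⟨P.mul_mem hx1 hy1, fun s hs => (hx2 s hs).mul_left (hy2 s hs), ?_⟩
    show ((x : G) * (y : G)) ^ p = 1
    rw [(hx2 _ hy1).mul_pow, hx3, hy3, one_mul]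
  one_mem' := ⟨P.one_mem, fun s _ => Commute.one_left s, one_pow p⟩
  inv_mem' := by
    rintro x ⟨hx1, hx2, hx3⟩
    refine ⟨P.inv_mem hx1, fun s hs => (hx2 s hs).inv_left, ?_⟩
    show ((x : G)⁻¹) ^ p = 1
    rw [inv_pow, hx3, inv_one]

instance OmegaN_normal (p : ℕ) (P : Subgroup G) : (OmegaN p P).Normal := by
  constructor
  rintro x ⟨hx1, hx2, hx3⟩ n
  have hnP := Subgroup.mem_normalizer_iff.1 n.2
  have hnP' : ∀ s, s ∈ P → (n : G)⁻¹ * s * (n : G) ∈ P := by
    intro s hs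
    have h1 := hnP ((n : G)⁻¹ * s * (n : G))
    apply h1.2
    have e : (n : G) * ((n : G)⁻¹ * s * (n : G)) * (n : G)⁻¹ = s := by group
    rw [e]
    exact hs
  refine ⟨?_, ?_, ?_⟩
  · exact (hnP _).1 hx1
  · intro s hs
    have h2 := hx2 _ (hnP' s hs)
    have h3 := comm_conj h2 (n : G)
    have e : (n : G) * ((n : G)⁻¹ * s * (n : G)) * (n : G)⁻¹ = s := by group
    rw [e] at h3
    exact h3
  · show ((n : G) * (x : G) * (n : G)⁻¹) ^ p = 1
    rw [conj_pow, hx3]
    group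

/-- Elements of the normalizer centralizing `a b` centralize `a`. -/
theorem Hyp.norm_key (h : Hyp p A B a b)
    (hD : ∀ y : G, Pel p y → ∀ g : G, Commute y (g * a * g⁻¹))
    (P : Sylow p G) (hPb : (P : Subgroup G) ≤ cent b) (hPa : (P : Subgroup G) ≤ cent a)
    (haP : a ∈ (P : Subgroup G)) (hbP : b ∈ (P : Subgroup G)) {n : G}
    (hn : n ∈ Subgroup.normalizer ((P : Subgroup G) : Set G))
    (hnz : n * (a * b) * n⁻¹ = a * b) : n * a * n⁻¹ = a := by
  classical
  let N : Subgroup G := Subgroup.normalizer ((P : Subgroup G) : Set G)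
  let Pn : Subgroup N := (P : Subgroup G).subgroupOf N
  haveI : Pn.Normal := Subgroup.normal_in_normalizer
  let Ω : Subgroup N := OmegaN p (P : Subgroup G)
  haveI : Ω.Normal := OmegaN_normal p (P : Subgroup G)
  let ρ₀ : N →* MulAut Ω := MulAut.conjNormal
  have hρ₀ : ∀ (x : N) (v : Ω), (((ρ₀ x v : Ω) : N) : G) = (x : G) * ((v : N) : G) * (x : G)⁻¹ := by
    intro x v
    have := MulAut.conjNormal_apply x v
    exact congrArg Subtype.val this
  have hker : Pn ≤ ρ₀.ker := by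
    intro x hx
    rw [MonoidHom.mem_ker]
    apply MulEquiv.ext
    intro v
    apply Subtype.ext
    apply Subtype.ext
    rw [hρ₀]
    have h1 : ((v : N) : G) * (x : G) = (x : G) * ((v : N) : G) := v.2.2.1 (x : G) hx
    show (x : G) * ((v : N) : G) * (x : G)⁻¹ = ((v : N) : G)
    rw [← h1]
    group
  let ρ : (N ⧸ Pn) →* MulAut Ω := QuotientGroup.lift Pn ρ₀ hker
  have hρ : ∀ x : N, ρ (QuotientGroup.mk' Pn x) = ρ₀ x := fun x => rfl
  have hcard : ¬ p ∣ Nat.card (N ⧸ Pn) := by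
    have hS := (P.subtype (N := N) Subgroup.le_normalizer).not_dvd_index
    rw [Sylow.coe_subtype] at hS
    exact hS
  let a₀ : Ω := ⟨⟨a, Subgroup.le_normalizer haP⟩, haP,
    fun s hs => (mem_cent_iff.1 (hPa hs)), by
      show a ^ p = 1
      rw [← h.ha]
      exact pow_orderOf_eq_one a⟩
  let b₀ : Ω := ⟨⟨b, Subgroup.le_normalizer hbP⟩, hbP,
    fun s hs => (mem_cent_iff.1 (hPb hs)), by
      show b ^ p = 1
      rw [← h.hb]
      exact pow_orderOf_eq_one b⟩
  have key := fix_key_mul (p := p) (V := Ω) (H := N ⧸ Pn)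
    (fun v w => Subtype.ext (Subtype.ext (v.2.2.1 _ w.2.1)))
    (fun v => Subtype.ext (Subtype.ext v.2.2.2))
    ρ hcard
    (Subgroup.map (QuotientGroup.mk' Pn) ((cent a).subgroupOf N))
    (Subgroup.map (QuotientGroup.mk' Pn) ((cent b).subgroupOf N))
    (by
      intro x
      obtain ⟨n', rfl⟩ := QuotientGroup.mk'_surjective Pn x
      obtain ⟨x', w', hx', hw', he, hxa, hwb⟩ := h.fact_normalizer hD P hPb n'.2
      refine ⟨QuotientGroup.mk' Pn ⟨x', hx'⟩, ⟨⟨x', hx'⟩, hxa, rfl⟩, QuotientGroup.mk' Pn ⟨w', hw'⟩,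
        ⟨⟨w', hw'⟩, hwb, rfl⟩, ?_⟩
      rw [← map_mul]
      congr 1
      exact Subtype.ext he)
    a₀ b₀
    (by
      rintro _ ⟨n', hn', rfl⟩
      apply Subtype.ext
      apply Subtype.ext
      rw [hρ, hρ₀]
      have h1 : a * (n' : G) = (n' : G) * a := mem_cent_iff.1 hn'
      show (n' : G) * a * (n' : G)⁻¹ = a
      rw [← h1]
      group)
    (by
      rintro _ ⟨n', hn', rfl⟩
      apply Subtype.ext
      apply Subtype.ext
      rw [hρ, hρ₀]
      have h1 : b * (n' : G) = (n' : G) * b := mem_cent_iff.1 hn'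
      show (n' : G) * b * (n' : G)⁻¹ = b
      rw [← h1]
      group)
    (QuotientGroup.mk' Pn ⟨n, hn⟩)
    (by
      apply Subtype.ext
      apply Subtype.ext
      rw [hρ, hρ₀]
      exact hnz)
  have h2 := congrArg (fun v : Ω => ((v : N) : G)) key
  simp only [hρ, hρ₀] at h2
  exact h2

/-- Step 2. -/
theorem Hyp.step2 (hZ : ¬ p ∣ Nat.card (Subgroup.center G)) (h : Hyp p A B a b) (hpb : ¬ p ∣ cs b)
    (hD : ∀ y : G, Pel p y → ∀ g : G, Commute y (g * a * g⁻¹)) : False := by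
  classical
  obtain ⟨P, hPb⟩ := exists_sylow_le_cent hpb
  have hle : ∀ Q : Sylow p G, (Q : Subgroup G) ≤ cent a := fun Q q hq => by
    have := hD q (pel_of_mem Q hq) 1
    have h1 : Commute q a := by simpa using this
    exact mem_cent_iff.2 h1.symm
  have hPa := hle P
  have haP : a ∈ (P : Subgroup G) := mem_of_sylow_le_cent h.pela P hPa
  have hbP : b ∈ (P : Subgroup G) := mem_of_sylow_le_cent h.pelb P hPb
  have hcab : Commute a b := mem_cent_iff.1 (hPb haP) |>.symm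
  set z := a * b with hz
  have hPz : (P : Subgroup G) ≤ cent z := by
    intro s hs
    rw [mem_cent_iff]
    have h1 : a * s = s * a := mem_cent_iff.1 (hPa hs)
    have h2 : b * s = s * b := mem_cent_iff.1 (hPb hs)
    rw [hz, mul_assoc, h2, ← mul_assoc, h1, mul_assoc]
  have hCz : cent z ≤ cent a := by
    intro g hg
    set R : Sylow p G := g • P with hR
    have hRz : (R : Subgroup G) ≤ cent z := Sylow.smul_le hPz (⟨g, hg⟩ : cent z)
    obtain ⟨f, ⟨hfa, hfz⟩, hf⟩ := exists_conj_sylow (cent a ⊓ cent z) P R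
      (le_inf hPa hPz) (le_inf (hle R) hRz)
    have hw : (f * g) • P = P := by
      rw [mul_smul]
      exact hf
    have hwN : f * g ∈ Subgroup.normalizer ((P : Subgroup G) : Set G) :=
      Sylow.smul_eq_iff_mem_normalizer.1 hw
    have hwz : (f * g) * z * (f * g)⁻¹ = z := by
      have h1 : f * g ∈ cent z := Subgroup.mul_mem _ hfz hg
      have h2 := mem_cent_iff.1 h1
      rw [← h2]
      group
    have h3 := h.norm_key hD P hPb hPa haP hbP hwN hwz
    have h4 : a * f = f * a := mem_cent_iff.1 hfa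
    rw [mem_cent_iff]
    have h5 : (f * g) * a = a * (f * g) := by
      calc (f * g) * a = ((f * g) * a * (f * g)⁻¹) * (f * g) := by group
        _ = a * (f * g) := by rw [h3]
    have h6 : f * (g * a) = f * (a * g) := by
      rw [← mul_assoc, h5, ← mul_assoc, h4, mul_assoc]
    exact (mul_left_cancel h6).symm
  have hCzb : cent z ≤ cent b := by
    intro g hg
    rw [mem_cent_iff]
    have h1 := mem_cent_iff.1 hg
    have h2 := mem_cent_iff.1 (hCz hg)
    have h3 : a * b * g = g * a * b := by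
      have : z * g = g * z := h1
      rw [hz] at this
      rw [this, mul_assoc]
    have h4 : a * b * g = a * (b * g) := mul_assoc _ _ _
    have h5 : g * a * b = a * (g * b) := by rw [← h2]; group
    rw [h4, h5] at h3
    exact mul_left_cancel h3
  obtain ⟨u, huP, hua⟩ := exists_prime_dvd_cs hZ h.ha
  obtain ⟨v, hvP, hvb⟩ := exists_prime_dvd_cs hZ h.hb
  have h1 : u ∣ cs z := hua.trans (Subgroup.index_dvd_of_le hCz)
  have h2 : v ∣ cs z := hvb.trans (Subgroup.index_dvd_of_le hCzb)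
  have hz1 : z ≠ 1 := by
    intro hz1
    rw [hz1, cs_one] at h1
    exact huP.one_lt.ne' (Nat.dvd_one.1 h1)
  have hzP : Pel p z := h.pela.mul h.pelb hcab
  exact h.H z (hzP.dvd_orderOf hz1) u (h.hA u huP hua) v (h.hB v hvP hvb) h1 h2

/-- The main theorem in the form of a contradiction. -/
theorem Hyp.main (hZ : ¬ p ∣ Nat.card (Subgroup.center G)) (h : Hyp p A B a b) : False := by
  by_cases hpb : p ∣ cs b
  · exact h.step1 hZ hpb
  by_cases hpa : p ∣ cs a
  · exact h.symm.step1 hZ hpa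
  by_cases hDa : ∀ y : G, Pel p y → ∀ g : G, Commute y (g * a * g⁻¹)
  · exact h.step2 hZ hpb hDa
  by_cases hDb : ∀ y : G, Pel p y → ∀ g : G, Commute y (g * b * g⁻¹)
  · exact h.symm.step2 hZ hpa hDb
  push Not at hDa hDb
  obtain ⟨y₁, hy₁, g₁, hn₁⟩ := hDa
  obtain ⟨y₂, hy₂, g₂, hn₂⟩ := hDb
  obtain ⟨P, hP₁⟩ := hy₁.exists_sylow
  obtain ⟨Q, hQ₂⟩ := hy₂.exists_sylow
  obtain ⟨k, hk⟩ := MulAction.exists_smul_eq G Q P
  set y₃ := k * y₂ * k⁻¹ with hy₃
  have hP₃ : y₃ ∈ (P : Subgroup G) := by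
    rw [← hk]
    exact ⟨y₂, hQ₂, rfl⟩
  have hn₃ : ¬ Commute y₃ ((k * g₂) * b * (k * g₂)⁻¹) := by
    intro hc
    apply hn₂
    have := comm_conj hc k⁻¹
    have e1 : k⁻¹ * y₃ * k⁻¹⁻¹ = y₂ := by rw [hy₃]; group
    have e2 : k⁻¹ * ((k * g₂) * b * (k * g₂)⁻¹) * k⁻¹⁻¹ = g₂ * b * g₂⁻¹ := by group
    rwa [e1, e2] at this
  have hboth : ∀ q ∈ (P : Subgroup G), (∀ g, Commute q (g * a * g⁻¹)) ∨ (∀ g, Commute q (g * b * g⁻¹)) := by
    intro q hq
    by_contra hno
    push Not at hno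
    obtain ⟨⟨g, hg⟩, ⟨g', hg'⟩⟩ := hno
    have hq' := pel_of_mem P hq
    obtain ⟨hpq, u, huA, hu⟩ := h.key1 hq' hg
    obtain ⟨-, v, hvB, hv⟩ := h.symm.key1 hq' hg'
    exact h.H q hpq u huA v hvB hu hv
  have h1 : ∀ g, Commute y₁ (g * b * g⁻¹) := by
    rcases hboth y₁ hP₁ with h2 | h2
    · exact absurd (h2 g₁) hn₁
    · exact h2
  have h3 : ∀ g, Commute y₃ (g * a * g⁻¹) := by
    rcases hboth y₃ hP₃ with h2 | h2
    · exact h2
    · exact absurd (h2 _) hn₃
  rcases hboth (y₁ * y₃) (Subgroup.mul_mem _ hP₁ hP₃) with h2 | h2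
  · apply hn₁
    have e : y₁ = y₁ * y₃ * y₃⁻¹ := by group
    rw [e]
    exact (h2 g₁).mul_left (h3 g₁).inv_left
  · apply hn₃
    have e : y₃ = y₁⁻¹ * (y₁ * y₃) := by group
    rw [e]
    exact (h1 _).inv_left.mul_left (h2 _)

end Main


/-- Let `G` be a finite group and `p` a prime not dividing the order of the centre of `G`. Consider the primes dividing the size of some conjugacy class of a `p`-singular element (an element of order divisible by `p`), two of them adjacent when their product divides such a class size. Then any two distinct such primes are joined by a path with at most 3 edges (the graph is connected of diameter at most 3). -/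
theorem result {G : Type*} [Group G] [Finite G] (p : ℕ) [Fact p.Prime]
    (hZ : ¬ p ∣ Nat.card ↥(Subgroup.center G)) (r s : ℕ) (hr : (r.Prime ∧ ∃ x : G, p ∣ orderOf x ∧ r ∣ (Subgroup.centralizer ({x} : Set G)).index)) (hs : (s.Prime ∧ ∃ x : G, p ∣ orderOf x ∧ s ∣ (Subgroup.centralizer ({x} : Set G)).index)) (hrs : r ≠ s) :
    (∃ x : G, p ∣ orderOf x ∧ r * s ∣ (Subgroup.centralizer ({x} : Set G)).index) ∨ (∃ t : ℕ, (t.Prime ∧ ∃ x : G, p ∣ orderOf x ∧ t ∣ (Subgroup.centralizer ({x} : Set G)).index) ∧ t ≠ r ∧ t ≠ s ∧ (∃ x : G, p ∣ orderOf x ∧ r * t ∣ (Subgroup.centralizer ({x} : Set G)).index) ∧ (∃ x : G, p ∣ orderOf x ∧ t * s ∣ (Subgroup.centralizer ({x} : Set G)).index)) ∨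
      (∃ t u : ℕ, (t.Prime ∧ ∃ x : G, p ∣ orderOf x ∧ t ∣ (Subgroup.centralizer ({x} : Set G)).index) ∧ (u.Prime ∧ ∃ x : G, p ∣ orderOf x ∧ u ∣ (Subgroup.centralizer ({x} : Set G)).index) ∧ t ≠ r ∧ u ≠ s ∧ t ≠ u ∧ (∃ x : G, p ∣ orderOf x ∧ r * t ∣ (Subgroup.centralizer ({x} : Set G)).index) ∧ (∃ x : G, p ∣ orderOf x ∧ t * u ∣ (Subgroup.centralizer ({x} : Set G)).index) ∧ (∃ x : G, p ∣ orderOf x ∧ u * s ∣ (Subgroup.centralizer ({x} : Set G)).index)) := by
  classical
  by_contra hcon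
  have hi : ∀ x : G, p ∣ orderOf x → ¬ r * s ∣ cs x := fun x h1 h2 => hcon (Or.inl ⟨x, h1, h2⟩)
  have hii : ∀ t : ℕ, t.Prime → (∃ x : G, p ∣ orderOf x ∧ t ∣ cs x) → t ≠ r → t ≠ s →
      (∃ x : G, p ∣ orderOf x ∧ r * t ∣ cs x) → (∃ x : G, p ∣ orderOf x ∧ t * s ∣ cs x) → False :=
    fun t h1 h2 h3 h4 h5 h6 => hcon (Or.inr (Or.inl ⟨t, ⟨h1, h2⟩, h3, h4, h5, h6⟩))
  have hiii : ∀ t u : ℕ, t.Prime → (∃ x : G, p ∣ orderOf x ∧ t ∣ cs x) → u.Prime →
      (∃ x : G, p ∣ orderOf x ∧ u ∣ cs x) → t ≠ r → u ≠ s → t ≠ u →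
      (∃ x : G, p ∣ orderOf x ∧ r * t ∣ cs x) → (∃ x : G, p ∣ orderOf x ∧ t * u ∣ cs x) →
      (∃ x : G, p ∣ orderOf x ∧ u * s ∣ cs x) → False :=
    fun t u h1 h2 h3 h4 h5 h6 h7 h8 h9 h10 =>
      hcon (Or.inr (Or.inr ⟨t, u, ⟨h1, h2⟩, ⟨h3, h4⟩, h5, h6, h7, h8, h9, h10⟩))
  obtain ⟨hrP, x, hpx, hrx⟩ := hr
  obtain ⟨hsP, y, hpy, hsy⟩ := hs
  let A : Set ℕ := {t | t = r ∨ (t.Prime ∧ ∃ x : G, p ∣ orderOf x ∧ r * t ∣ cs x)}
  let B : Set ℕ := {t | t = s ∨ (t.Prime ∧ ∃ x : G, p ∣ orderOf x ∧ t * s ∣ cs x)}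
  have hAp : ∀ t ∈ A, t.Prime := by
    rintro t (rfl | ⟨ht, -⟩)
    · exact hrP
    · exact ht
  have hBp : ∀ t ∈ B, t.Prime := by
    rintro t (rfl | ⟨ht, -⟩)
    · exact hsP
    · exact ht
  have H : ∀ t : G, p ∣ orderOf t → ∀ u ∈ A, ∀ v ∈ B, u ∣ cs t → v ∣ cs t → False := by
    intro t ht u hu v hv hut hvt
    have up := hAp u hu
    have vp := hBp v hv
    by_cases huv : u = v
    · subst huv
      rcases hu with rfl | ⟨_, x₁, hx₁, h₁⟩
      · rcases hv with h0 | ⟨_, x₂, hx₂, h₂⟩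
        · exact hrs h0
        · exact hi x₂ hx₂ h₂
      · rcases hv with rfl | ⟨_, x₂, hx₂, h₂⟩
        · exact hi x₁ hx₁ h₁
        · by_cases h0 : u = r
          · subst h0
            exact hi x₂ hx₂ h₂
          by_cases h0' : u = s
          · subst h0'
            exact hi x₁ hx₁ h₁
          exact hii u up ⟨x₁, hx₁, (dvd_mul_left u r).trans h₁⟩ h0 h0' ⟨x₁, hx₁, h₁⟩ ⟨x₂, hx₂, h₂⟩
    · have huv' : u * v ∣ cs t :=
        Nat.Coprime.mul_dvd_of_dvd_of_dvd ((Nat.coprime_primes up vp).2 huv) hut hvt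
      by_cases hur : u = r
      · subst hur
        by_cases hvs : v = s
        · subst hvs
          exact hi t ht huv'
        · rcases hv with h0 | ⟨_, x₂, hx₂, h₂⟩
          · exact hvs h0
          · exact hii v vp ⟨t, ht, hvt⟩ (Ne.symm huv) hvs ⟨t, ht, huv'⟩ ⟨x₂, hx₂, h₂⟩
      · rcases hu with h0 | ⟨_, x₁, hx₁, h₁⟩
        · exact hur h0
        · by_cases hvs : v = s
          · subst hvs
            exact hii u up ⟨t, ht, hut⟩ hur huv ⟨x₁, hx₁, h₁⟩ ⟨t, ht, huv'⟩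
          · rcases hv with h0 | ⟨_, x₂, hx₂, h₂⟩
            · exact hvs h0
            · exact hiii u v up ⟨t, ht, hut⟩ vp ⟨t, ht, hvt⟩ hur hvs huv ⟨x₁, hx₁, h₁⟩ ⟨t, ht, huv'⟩ ⟨x₂, hx₂, h₂⟩
  have ha : orderOf (x ^ (orderOf x / p)) = p := orderOf_pow_orderOf_div (orderOf_pos x).ne' hpx
  have hb : orderOf (y ^ (orderOf y / p)) = p := orderOf_pow_orderOf_div (orderOf_pos y).ne' hpy
  have hSA : Supp A (x ^ (orderOf x / p)) := by
    intro l hl hd
    have hd' : l ∣ cs x := hd.trans (cs_dvd_of_pow x _)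
    by_cases h0 : l = r
    · exact Or.inl h0
    · exact Or.inr ⟨hl, x, hpx, Nat.Coprime.mul_dvd_of_dvd_of_dvd
        ((Nat.coprime_primes hrP hl).2 (Ne.symm h0)) hrx hd'⟩
  have hSB : Supp B (y ^ (orderOf y / p)) := by
    intro l hl hd
    have hd' : l ∣ cs y := hd.trans (cs_dvd_of_pow y _)
    by_cases h0 : l = s
    · exact Or.inl h0
    · exact Or.inr ⟨hl, y, hpy, Nat.Coprime.mul_dvd_of_dvd_of_dvd
        ((Nat.coprime_primes hl hsP).2 h0) hd' hsy⟩
  exact Hyp.main hZ ⟨H, ha, hb, hSA, hSB⟩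

end Cfsg.Agent.S4321
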