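import Cfsg.Statements.S4416
import Mathlib
import Cfsg.Agent.Lib.PGroup.ExtraClass
-- import your own Cfsg.Agent.* helpers here

set_option autoImplicit false
open Cfsg

namespace Cfsg.Agent.S4416

open Cfsg.Agent.Lib.PGroup.ExtraQuad Cfsg.Agent.Lib.PGroup.ExtraClass

lemma two_mul_card {E : Type*} [Group E] [Finite E] :
    2 * ((Nat.card {x : E // x ^ 2 = 1} : ℕ) : ℤ) = (Nat.card E : ℤ) + gaussT E := by
  letI : Fintype E := Fintype.ofFinite E
  rw [gaussT_eq, Nat.card_eq_fintype_card (α := E)]
  exact QuadPair.two_mul_card_sq_eq_one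

/-- Classification of extraspecial 2-groups in intrinsic form. An extraspecial 2-group has order 2^(2m+1) for some m ≥ 1, and the number of its elements squaring to the identity is either 2^(2m) + 2^m or 2^(2m) − 2^m; two extraspecial 2-groups of the same order with the same number of such elements are isomorphic. (The two cases are the central products of m dihedral groups of order 8, and of m − 1 dihedral groups with one quaternion group.) -/
theorem result (E : Type*) [Group E] [Finite E] (hE : Cfsg.IsExtraspecial 2 E) :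
    (∃ m : ℕ, 1 ≤ m ∧ Nat.card E = 2 ^ (2 * m + 1) ∧
      (Nat.card {x : E // x ^ 2 = 1} = 2 ^ (2 * m) + 2 ^ m ∨ Nat.card {x : E // x ^ 2 = 1} = 2 ^ (2 * m) - 2 ^ m)) ∧
    ∀ (E' : Type*) [Group E'] [Finite E'], Cfsg.IsExtraspecial 2 E' → Nat.card E' = Nat.card E →
      Nat.card {x : E' // x ^ 2 = 1} = Nat.card {x : E // x ^ 2 = 1} → Nonempty (E ≃* E') := by
  have h := quadPair_of_extraspecial hE
  obtain ⟨m, hm1, hcard, hT⟩ := extraspecial_card hE
  refine ⟨⟨m, hm1, hcard, ?_⟩, ?_⟩
  · have h2 := two_mul_card (E := E)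
    rw [hcard] at h2
    push_cast at h2
    have h3 : (2:ℤ) ^ (2 * m + 1) = 2 * 2 ^ (2 * m) := by ring
    have h4 : (2:ℤ) ^ (m + 1) = 2 * 2 ^ m := by ring
    rw [h3] at h2
    rcases hT with hT | hT
    · left
      rw [hT, h4] at h2
      have : ((Nat.card {x : E // x ^ 2 = 1} : ℕ) : ℤ) = 2 ^ (2 * m) + 2 ^ m := by linarith
      exact_mod_cast this
    · right
      rw [hT, h4] at h2
      have h5 : ((Nat.card {x : E // x ^ 2 = 1} : ℕ) : ℤ) = 2 ^ (2 * m) - 2 ^ m := by linarith
      have hle : 2 ^ m ≤ 2 ^ (2 * m) := Nat.pow_le_pow_right (by norm_num) (by omega)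
      zify [hle]
      exact h5
  · intro E' _ _ hE' hc hj
    have h' := quadPair_of_extraspecial hE'
    refine iso_of_same_gauss h h' m hcard (hc.trans hcard) ?_
    have h2 := two_mul_card (E := E)
    have h3 := two_mul_card (E := E')
    rw [hj, hc] at h3
    have : gaussT E = gaussT E' := by linarith
    rw [this]

end Cfsg.Agent.S4416
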