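import Cfsg.Statements.S4421
import Mathlib
-- import your own Cfsg.Agent.* helpers here

set_option autoImplicit false
open Cfsg

namespace Cfsg.Agent.S4421

/-- A factorization of a normalizer from two-step control of fusion. Let `G` be a finite group and `A ≤ S ≤ H` subgroups of `G` such that: (i) `S` controls the `G`-fusion of `A` in the sense that every `G`-conjugate of `A` lying in `S` is an `S`-conjugate of `A`; (ii) `H` controls the `G`-fusion of `S` in the same sense; (iii) every conjugate of `S` by an element of the normalizer of `A` lies in `H`. Then `N_G(A) = N_H(A) · (N_G(S) ∩ N_G(A))`: every element of the normalizer of `A` is a product of an element of `H` normalizing `A` and an element normalizing both `S` and `A`. -/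
theorem result {G : Type*} [Group G] [Finite G] (A S H : Subgroup G)
    (hAS : A ≤ S) (hSH : S ≤ H)
    (h1 : ∀ g : G, A.map (MulAut.conj g).toMonoidHom ≤ S → ∃ s ∈ S, A.map (MulAut.conj g).toMonoidHom = A.map (MulAut.conj s).toMonoidHom)
    (h2 : ∀ g : G, S.map (MulAut.conj g).toMonoidHom ≤ H → ∃ y ∈ H, S.map (MulAut.conj g).toMonoidHom = S.map (MulAut.conj y).toMonoidHom)
    (h3 : ∀ x ∈ Subgroup.normalizer (A : Set G), S.map (MulAut.conj x).toMonoidHom ≤ H) :
    ∀ x ∈ Subgroup.normalizer (A : Set G), ∃ y ∈ H ⊓ Subgroup.normalizer (A : Set G),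
      ∃ z ∈ Subgroup.normalizer (S : Set G) ⊓ Subgroup.normalizer (A : Set G), x = y * z := by
  intro x hx
  obtain ⟨y, hy, hxy⟩ := h2 x (h3 x hx)
  -- A = x A x⁻¹ ≤ x S x⁻¹ = y S y⁻¹
  have hmapconj : ∀ (K : Subgroup G) (g z : G), z ∈ K.map (MulAut.conj g).toMonoidHom ↔ g⁻¹ * z * g ∈ K := by
    intro K g z
    simp only [Subgroup.mem_map]
    constructor
    · rintro ⟨w, hw, rfl⟩
      simpa [MulAut.conj_apply, mul_assoc] using hw
    · intro h
      exact ⟨_, h, by simp [MulAut.conj_apply, mul_assoc]⟩
  have hAle : A.map (MulAut.conj y⁻¹).toMonoidHom ≤ S := by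
    intro a ha
    rw [hmapconj] at ha
    simp only [inv_inv] at ha
    -- y a y⁻¹ ∈ A ⇒ ∈ x S x⁻¹ = y S y⁻¹
    have h1 : (y * a * y⁻¹) ∈ A := by simpa [mul_assoc] using ha
    have h2' : x⁻¹ * (y * a * y⁻¹) * x ∈ A := by
      have := (Subgroup.mem_normalizer_iff.mp (inv_mem hx) (y * a * y⁻¹)).mp h1
      simpa using this
    have h3' : (y * a * y⁻¹) ∈ S.map (MulAut.conj x).toMonoidHom := by
      rw [hmapconj]
      exact hAS h2'
    rw [hxy, hmapconj] at h3'
    simpa [mul_assoc] using h3'
  obtain ⟨s, hs, hst⟩ := h1 y⁻¹ hAle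
  have hsN : s ∈ Subgroup.normalizer (S : Set G) := Subgroup.le_normalizer hs
  have hysA : y * s ∈ Subgroup.normalizer (A : Set G) := by
    rw [Subgroup.mem_normalizer_iff]
    intro a
    constructor
    · intro ha
      have : s * a * s⁻¹ ∈ A.map (MulAut.conj y⁻¹).toMonoidHom := by
        rw [hst, hmapconj]
        simpa [mul_assoc] using ha
      rw [hmapconj] at this
      simpa [mul_assoc] using this
    · intro ha
      have h5 : (s⁻¹ * (y⁻¹ * ((y * s) * a * (y * s)⁻¹) * y) * s) ∈ A := by
        have : y⁻¹ * ((y * s) * a * (y * s)⁻¹) * y ∈ A.map (MulAut.conj s).toMonoidHom := by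
          rw [← hst, hmapconj]
          simpa [mul_assoc] using ha
        rw [hmapconj] at this
        exact this
      simpa [mul_assoc] using h5
  refine ⟨y * s, ⟨H.mul_mem hy (hSH hs), hysA⟩, s⁻¹ * y⁻¹ * x, ⟨?_, ?_⟩, by simp [mul_assoc]⟩
  · have hyx : y⁻¹ * x ∈ Subgroup.normalizer (S : Set G) := by
      rw [Subgroup.mem_normalizer_iff]
      intro a
      constructor
      · intro ha
        have : x * a * x⁻¹ ∈ S.map (MulAut.conj x).toMonoidHom := by
          rw [hmapconj]
          simpa [mul_assoc] using ha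
        rw [hxy, hmapconj] at this
        simpa [mul_assoc] using this
      · intro ha
        have : x * a * x⁻¹ ∈ S.map (MulAut.conj y).toMonoidHom := by
          rw [hmapconj]
          simpa [mul_assoc] using ha
        rw [← hxy, hmapconj] at this
        simpa [mul_assoc] using this
    have := mul_mem (inv_mem hsN) hyx
    simpa [mul_assoc] using this
  · have := mul_mem (inv_mem hysA) hx
    simpa [mul_assoc] using this

end Cfsg.Agent.S4421
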