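import Cfsg.Statements.S4422
import Mathlib

set_option autoImplicit false
open Cfsg

namespace Cfsg.Agent.S4422

theorem mod_of_prime_factors (e : ℕ) : ∀ m : ℕ, m ≠ 0 →
    (∀ r : ℕ, r.Prime → r ∣ m → r % e = 1 % e) → m % e = 1 % e := by
  intro m
  induction m using Nat.recOnMul with
  | zero => intro h; exact absurd rfl h
  | one => intro _ _; rfl
  | prime p hp => intro _ h; exact h p hp (dvd_refl p)
  | mul a b ha hb =>
    intro hab h
    have ha0 : a ≠ 0 := left_ne_zero_of_mul hab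
    have hb0 : b ≠ 0 := right_ne_zero_of_mul hab
    have h1 := ha ha0 (fun r hr hd => h r hr (Dvd.dvd.mul_right hd b))
    have h2 := hb hb0 (fun r hr hd => h r hr (Dvd.dvd.mul_left hd a))
    rw [Nat.mul_mod, h1, h2, ← Nat.mul_mod]

/-- Primitive divisors of `q^e - 1` are congruent to 1 modulo `e`. Let `q ≥ 2` and `e ≥ 1` be natural numbers and let `m` be a divisor of `q^e - 1` that is coprime to `q^i - 1` for every `1 ≤ i < e` (so `m` divides the primitive part of `q^e - 1`, the largest such divisor). Then `m ≡ 1 (mod e)`. -/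
theorem result (q e m : ℕ) (hq : 2 ≤ q) (he : 1 ≤ e)
    (hm : m ∣ q ^ e - 1) (hcop : ∀ i : ℕ, 1 ≤ i → i < e → Nat.Coprime m (q ^ i - 1)) :
    m % e = 1 % e := by
  have hqe : 1 < q ^ e := Nat.one_lt_pow (by omega) (by omega)
  have hm0 : m ≠ 0 := by
    rintro rfl
    have := Nat.eq_zero_of_zero_dvd hm
    omega
  apply mod_of_prime_factors e m hm0
  intro r hr hrm
  haveI : Fact r.Prime := ⟨hr⟩
  have hre : r ∣ q ^ e - 1 := hrm.trans hm
  have h1 : ((q : ZMod r)) ^ e = 1 := by
    have h2 : ((q ^ e - 1 : ℕ) : ZMod r) = 0 := (ZMod.natCast_eq_zero_iff _ _).mpr hre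
    rw [Nat.cast_sub (by omega)] at h2
    simp only [Nat.cast_pow, Nat.cast_one] at h2
    exact sub_eq_zero.mp h2
  have hq0 : (q : ZMod r) ≠ 0 := by
    intro h
    rw [h, zero_pow (by omega)] at h1
    exact zero_ne_one h1
  set d := orderOf (q : ZMod r) with hd
  have hde : d ∣ e := orderOf_dvd_of_pow_eq_one h1
  have hd0 : 0 < d := Nat.pos_of_dvd_of_pos hde (by omega)
  have hdeq : d = e := by
    by_contra hne
    have hlt : d < e := lt_of_le_of_ne (Nat.le_of_dvd (by omega) hde) hne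
    have hc := hcop d hd0 hlt
    have hqd : 1 < q ^ d := Nat.one_lt_pow (by omega) (by omega)
    have hrd : r ∣ q ^ d - 1 := by
      rw [← ZMod.natCast_eq_zero_iff, Nat.cast_sub (by omega)]
      simp only [Nat.cast_pow, Nat.cast_one]
      rw [hd, pow_orderOf_eq_one, sub_self]
    have := Nat.dvd_gcd hrm hrd
    rw [hc] at this
    exact hr.one_lt.ne' (Nat.dvd_one.mp this)
  have hdiv : e ∣ r - 1 := by
    rw [← hdeq]
    exact ZMod.orderOf_dvd_card_sub_one hq0
  obtain ⟨k, hk⟩ := hdiv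
  have hr1 : r = e * k + 1 := by
    have := hr.one_lt
    omega
  rw [hr1, Nat.mul_add_mod]

end Cfsg.Agent.S4422
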