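import Mathlib
import Cfsg.Prelude.Def_Blocks
import Cfsg.Agent.Lib.Blocks.RegInt
set_option autoImplicit false
namespace Cfsg.Agent.S4424

open Cfsg Cfsg.Agent.Lib.Blocks.Regular Cfsg.Agent.Lib.Blocks.RegInt Cfsg.Agent.Lib.Blocks.Osima

/-- Let χ be an irreducible character of the finite group G lying in the p-block B (relative to a maximal ideal M of the algebraic integers containing p), and let p^a be the p-part of the order of G. Then the class function that equals p^a · χ on the p-regular elements and vanishes on the p-singular elements is an integer combination of the irreducible characters in B: there are integers a_ψ, zero for ψ outside B, with that function equal to Σ a_ψ ψ. -/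
theorem result {G : Type*} [Group G] [Finite G] (p : ℕ) [Fact p.Prime] (M : Ideal Cfsg.AlgInt) (hM : Cfsg.IsPModular p M) (B : Set (Cfsg.IrrCharacter G)) (hB : Cfsg.IsPBlock M B) (χ : Cfsg.IrrCharacter G) (hχ : χ ∈ B) : ∃ a : Cfsg.IrrCharacter G → ℤ, (∀ ψ, ψ ∉ B → a ψ = 0) ∧ (fun x : G => if p ∣ orderOf x then (0 : ℂ) else ((p ^ (Nat.card G).factorization p : ℕ) : ℂ) * (χ : G → ℂ) x) = fun x => ∑ᶠ ψ : Cfsg.IrrCharacter G, (a ψ : ℂ) * (ψ : G → ℂ) x := by
  classical
  haveI : M.IsPrime := hM.2.1.isPrime
  haveI := Fintype.ofFinite G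
  haveI : Finite (IrrCharacter G) := Cfsg.Agent.Lib.Char.Complete.finite_irr
  haveI := Fintype.ofFinite (IrrCharacter G)
  obtain ⟨χ₀, rfl⟩ := hB
  have hBχ := blockOf_eq_of_mem hχ
  refine ⟨fun ψ => regN p χ ψ, ?_, ?_⟩
  · intro ψ hψ
    have h1 : ¬ SameBlock M (χ : G → ℂ) (ψ : G → ℂ) := by
      intro h
      rw [← hBχ] at hψ
      exact hψ h
    have h2 := classInner_reg_eq_zero hM h1
    have h3 := regI_eq_regN (p := p) χ ψ
    rw [regI, h2, mul_zero] at h3
    exact_mod_cast h3.symm
  · set f : G → ℂ := (fun x : G => if p ∣ orderOf x then (0 : ℂ) else ((p ^ (Nat.card G).factorization p : ℕ) : ℂ) * (χ : G → ℂ) x) with hf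
    have hfc : IsClassFunction G f := by
      rw [hf, ite_eq_smul_reg]
      exact isClassFunction_smul_reg (Cfsg.Agent.Lib.Blocks.Central.isClassFunction_of_irr χ.2) _
    have h1 := Cfsg.Agent.Lib.Char.Complete.eq_sum_classInner f hfc
    funext x
    rw [finsum_eq_sum_of_fintype]
    have h2 := congrFun h1 x
    rw [h2, Finset.sum_apply]
    refine Finset.sum_congr rfl fun ψ _ => ?_
    rw [Pi.smul_apply, smul_eq_mul, hf, classInner_ite_eq]

end Cfsg.Agent.S4424
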