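import Mathlib
import Cfsg.Prelude.Def_Blocks
import Cfsg.Agent.Lib.Blocks.RegInt
import Cfsg.Agent.Lib.Blocks.HeightZero
import Cfsg.Agent.Lib.Char.Kazarin
set_option autoImplicit false
namespace Cfsg.Agent.S4425

open Cfsg Cfsg.Agent.Lib.Blocks.Regular Cfsg.Agent.Lib.Blocks.RegInt Cfsg.Agent.Lib.Blocks.Osima

/-- Let χ be an irreducible character of the finite group G, p a prime, p^a the p-part of the order of G and p^b the p-part of the degree χ(1). Let χ̃ be the class function equal to p^a · χ on p-regular elements and zero on p-singular elements. Then p^(−b) · χ̃ is a generalized character of G, while p^(−(b+1)) · χ̃ is not. -/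
theorem result {G : Type*} [Group G] [Finite G] (p : ℕ) [Fact p.Prime] (χ : Cfsg.IrrCharacter G) : Cfsg.IsGeneralizedCharacter G (fun x : G => if p ∣ orderOf x then (0 : ℂ) else ((p ^ ((Nat.card G).factorization p - (Cfsg.charDegree (χ : G → ℂ)).factorization p) : ℕ) : ℂ) * (χ : G → ℂ) x) ∧ ¬ Cfsg.IsGeneralizedCharacter G (fun x : G => if p ∣ orderOf x then (0 : ℂ) else ((p ^ (Nat.card G).factorization p : ℕ) : ℂ) / ((p ^ ((Cfsg.charDegree (χ : G → ℂ)).factorization p + 1) : ℕ) : ℂ) * (χ : G → ℂ) x) := by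
  classical
  haveI := Fintype.ofFinite G
  have hp : p.Prime := Fact.out
  -- a maximal ideal over `p`
  obtain ⟨M, hM⟩ := Cfsg.Agent.Lib.Char.Kazarin.exists_modular p hp
  haveI : M.IsPrime := hM.2.1.isPrime
  have hcl := Cfsg.Agent.Lib.Blocks.Central.isClassFunction_of_irr χ.2
  set a := (Nat.card G).factorization p with ha
  set d := charDegree (χ : G → ℂ) with hd
  set b := d.factorization p with hb
  have hba : b ≤ a := by
    have := Cfsg.Agent.Lib.Blocks.HeightZero.charDegree_dvd_card χ.2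
    exact (Nat.factorization_le_iff_dvd (charDegree_ne_zero χ) Nat.card_pos.ne').2 this p
  have hpb : ((p ^ b : ℕ) : ℂ) ≠ 0 := by exact_mod_cast (pow_pos hp.pos _).ne'
  constructor
  · rw [ite_eq_smul_reg]
    refine isGeneralized_of_forall_int (isClassFunction_smul_reg hcl _) fun ξ => ?_
    obtain ⟨k, hk, -⟩ := regN_eq_pow_mul hM χ ξ
    refine ⟨k, ?_⟩
    rw [Cfsg.Agent.Lib.Char.Ortho.classInner_smul_left]
    have h1 := regI_eq_regN (p := p) χ ξ
    rw [regI, hk] at h1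
    apply mul_left_cancel₀ hpb
    push_cast at h1 ⊢
    rw [← mul_assoc, ← pow_add, Nat.add_sub_cancel' hba]
    exact h1
  · intro hgen
    have hv : ∀ y : G, p ∣ orderOf y → (fun x : G => if p ∣ orderOf x then (0 : ℂ) else ((p ^ (Nat.card G).factorization p : ℕ) : ℂ) / ((p ^ ((Cfsg.charDegree (χ : G → ℂ)).factorization p + 1) : ℕ) : ℂ) * (χ : G → ℂ) x) y = 0 := by
      intro y hy
      simp [hy]
    obtain ⟨n, hn⟩ := exists_int_of_vanish hgen hv
    simp only [orderOf_one, Nat.dvd_one, hp.ne_one, if_false] at hn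
    have hd1 : (χ : G → ℂ) 1 = ((p ^ b : ℕ) : ℂ) * (ordCompl[p] d : ℕ) := by
      rw [← Nat.cast_mul, Nat.ordProj_mul_ordCompl_eq_self]
      exact (charDegree_cast χ).symm
    rw [hd1] at hn
    have hpa : ((p ^ a : ℕ) : ℂ) ≠ 0 := by exact_mod_cast (pow_pos hp.pos _).ne'
    have hp0 : (p : ℂ) ≠ 0 := by exact_mod_cast hp.ne_zero
    have h1 : ((ordCompl[p] d : ℕ) : ℂ) = p * n := by
      push_cast at hn hpb hpa ⊢
      have : (p : ℂ) ^ a / (p : ℂ) ^ (b + 1) * ((p : ℂ) ^ b * ((d / p ^ b : ℕ) : ℂ)) = (p : ℂ) ^ a / p * ((d / p ^ b : ℕ) : ℂ) := by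
        rw [pow_succ]
        field_simp
      rw [this] at hn
      calc ((d / p ^ b : ℕ) : ℂ) = (p : ℂ) * ((p : ℂ) ^ a)⁻¹ * ((p : ℂ) ^ a / p * ((d / p ^ b : ℕ) : ℂ)) := by
            field_simp
        _ = (p : ℂ) * ((p : ℂ) ^ a)⁻¹ * ((p : ℂ) ^ a * (n : ℂ)) := by rw [hn]
        _ = (p : ℂ) * n := by field_simp
    have h2 : ((ordCompl[p] d : ℕ) : ℤ) = (p : ℤ) * n := by
      have h4 : (((ordCompl[p] d : ℕ) : ℤ) : ℂ) = (((p : ℤ) * n : ℤ) : ℂ) := by
        rw [Int.cast_natCast, Int.cast_mul, Int.cast_natCast]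
        exact h1
      exact Int.cast_injective h4
    have h3 : (p : ℤ) ∣ ((ordCompl[p] d : ℕ) : ℤ) := ⟨n, h2⟩
    exact Nat.not_dvd_ordCompl hp (charDegree_ne_zero χ) (Int.natCast_dvd_natCast.1 h3)

end Cfsg.Agent.S4425
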