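import Mathlib
import Cfsg.Prelude.Def_Blocks
import Cfsg.Agent.Lib.Blocks.RegInt
import Mathlib.NumberTheory.Padics.PadicVal.Basic
set_option autoImplicit false
namespace Cfsg.Agent.S4426

open Cfsg Cfsg.Agent.Lib.Blocks.Local Cfsg.Agent.Lib.Blocks.Central Cfsg.Agent.Lib.Blocks.Regular Cfsg.Agent.Lib.Blocks.RegInt Cfsg.Agent.Lib.Blocks.RegNorm Cfsg.Agent.Lib.Blocks.Osima

variable {G : Type*} [Group G] [Fintype G] {p : ℕ} [hp : Fact p.Prime] {M : Ideal Cfsg.AlgInt} [hMp : M.IsPrime]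

/-- The valuation criterion. -/
lemma padicValInt_of_eq {n k : ℤ} {b : ℕ} (hn : n = ((p ^ b : ℕ) : ℤ) * k) (hk : ¬ (p : ℤ) ∣ k) :
    n ≠ 0 ∧ padicValInt p n = b := by
  have hk0 : k ≠ 0 := by
    rintro rfl
    exact hk (dvd_zero _)
  have hpb : ((p ^ b : ℕ) : ℤ) ≠ 0 := by exact_mod_cast (pow_pos hp.out.pos _).ne'
  subst hn
  refine ⟨mul_ne_zero hpb hk0, ?_⟩
  rw [padicValInt.mul hpb hk0]
  have h1 : padicValInt p k = 0 := padicValInt.eq_zero_of_not_dvd hk
  rw [h1, add_zero]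
  rw [padicValInt.of_nat, padicValNat.prime_pow]

lemma not_dvd_of_padicValInt {n k : ℤ} {b : ℕ} (hn : n = ((p ^ b : ℕ) : ℤ) * k) (h0 : n ≠ 0)
    (hv : padicValInt p n = b) : ¬ (p : ℤ) ∣ k := by
  intro hd
  have hpb : ((p ^ b : ℕ) : ℤ) ≠ 0 := by exact_mod_cast (pow_pos hp.out.pos _).ne'
  have hk0 : k ≠ 0 := by
    rintro rfl
    simp at hn
    exact h0 hn
  subst hn
  rw [padicValInt.mul hpb hk0] at hv
  rw [padicValInt.of_nat, padicValNat.prime_pow] at hv
  have h3 : padicValInt p k = 0 := by omega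
  have h4 : 1 ≤ padicValNat p k.natAbs :=
    one_le_padicValNat_of_dvd (Int.natAbs_ne_zero.2 hk0) (Int.natCast_dvd.1 hd)
  rw [padicValInt] at h3
  omega

/-- Let χ be an irreducible character in the p-block B of the finite group G (relative to a maximal ideal M of the algebraic integers containing p), let p^a be the p-part of the order of G, and let χ̃ be the class function equal to p^a · χ on p-regular elements and zero elsewhere. For ξ ∈ B the inner product [χ̃, ξ] is an integer. The following are equivalent: (a) χ has height zero in B; (b) for some ξ ∈ B the integer [χ̃, ξ] is nonzero and the exact power of p dividing it equals the exact power of p dividing ξ(1); (c) the same holds for every ξ ∈ B. -/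
theorem result {G : Type*} [Group G] [Fintype G] (p : ℕ) [Fact p.Prime] (M : Ideal Cfsg.AlgInt) (hM : Cfsg.IsPModular p M) (B : Set (Cfsg.IrrCharacter G)) (hB : Cfsg.IsPBlock M B) (χ : Cfsg.IrrCharacter G) (hχ : χ ∈ B) : (Cfsg.blockHeight p B (χ : G → ℂ) = 0 ↔ ∃ ξ ∈ B, ∃ n : ℤ, Cfsg.classInner (fun x : G => if p ∣ orderOf x then (0 : ℂ) else ((p ^ (Nat.card G).factorization p : ℕ) : ℂ) * (χ : G → ℂ) x) (ξ : G → ℂ) = (n : ℂ) ∧ n ≠ 0 ∧ padicValInt p n = (Cfsg.charDegree (ξ : G → ℂ)).factorization p) ∧ (Cfsg.blockHeight p B (χ : G → ℂ) = 0 ↔ ∀ ξ ∈ B, ∃ n : ℤ, Cfsg.classInner (fun x : G => if p ∣ orderOf x then (0 : ℂ) else ((p ^ (Nat.card G).factorization p : ℕ) : ℂ) * (χ : G → ℂ) x) (ξ : G → ℂ) = (n : ℂ) ∧ n ≠ 0 ∧ padicValInt p n = (Cfsg.charDegree (ξ : G → ℂ)).factorization p) := by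
  classical
  haveI : M.IsPrime := hM.2.1.isPrime
  have hBχ : B = blockOf M (χ : G → ℂ) := by
    obtain ⟨χ₂, rfl⟩ := hB
    exact (blockOf_eq_of_mem hχ).symm
  have hsame : ∀ ξ ∈ B, SameBlock M (ξ : G → ℂ) (χ : G → ℂ) := by
    intro ξ hξ
    rw [hBχ] at hξ
    exact sameBlock_symm hξ
  -- a) ⟹ c)
  have hac : blockHeight p B (χ : G → ℂ) = 0 → ∀ ξ ∈ B, ∃ n : ℤ, Cfsg.classInner (fun x : G => if p ∣ orderOf x then (0 : ℂ) else ((p ^ (Nat.card G).factorization p : ℕ) : ℂ) * (χ : G → ℂ) x) (ξ : G → ℂ) = (n : ℂ) ∧ n ≠ 0 ∧ padicValInt p n = (Cfsg.charDegree (ξ : G → ℂ)).factorization p := by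
    intro h0 ξ hξ
    refine ⟨regN p χ ξ, classInner_ite_eq χ ξ, ?_⟩
    have hu := not_memLocalIdeal_omega_zElt_self hM hB hχ h0
    obtain ⟨k, hk1, hk2⟩ := regN_eq_pow_mul hM ξ χ
    have hk3 : ¬ (p : ℤ) ∣ k := by
      rw [dvd_iff_memLocalIdeal hM hk2]
      intro hc
      apply hu
      have h1 := memLocalIdeal_omega_sub ξ.2 χ.2 (hsame ξ hξ) (zElt_mem_localCenter (M := M) (p := p) χ.2)
      have h2 := memLocalIdeal_sub hc h1
      simpa using h2
    rw [regN_comm]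
    exact padicValInt_of_eq hk1 hk3
  have hba : (∃ ξ ∈ B, ∃ n : ℤ, Cfsg.classInner (fun x : G => if p ∣ orderOf x then (0 : ℂ) else ((p ^ (Nat.card G).factorization p : ℕ) : ℂ) * (χ : G → ℂ) x) (ξ : G → ℂ) = (n : ℂ) ∧ n ≠ 0 ∧ padicValInt p n = (Cfsg.charDegree (ξ : G → ℂ)).factorization p) → blockHeight p B (χ : G → ℂ) = 0 := by
    rintro ⟨ξ, hξ, n, hn, hn0, hnv⟩
    rw [classInner_ite_eq] at hn
    have hn' : regN p χ ξ = n := by exact_mod_cast hn
    rw [regN_comm] at hn'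
    obtain ⟨k, hk1, hk2⟩ := regN_eq_pow_mul hM ξ χ
    rw [hn'] at hk1
    have hk3 := not_dvd_of_padicValInt hk1 hn0 hnv
    rw [dvd_iff_memLocalIdeal hM hk2] at hk3
    by_contra hne
    -- a character of smaller height
    have hnon : ((fun χ : IrrCharacter G => (charDegree (χ : G → ℂ)).factorization p) '' B).Nonempty :=
      ⟨_, χ, hχ, rfl⟩
    obtain ⟨χ', hχ', hχ'eq⟩ := Nat.sInf_mem hnon
    have hlt : (charDegree (χ' : G → ℂ)).factorization p < (charDegree (χ : G → ℂ)).factorization p := by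
      simp only at hχ'eq
      rw [blockHeight, ← hχ'eq] at hne
      omega
    have h1 := memLocalIdeal_omega_zElt_of_lt (M := M) hM hlt
    apply hk3
    have h2 := memLocalIdeal_omega_sub ξ.2 χ'.2 (sameBlock_trans (hsame ξ hξ) (sameBlock_symm (hsame χ' hχ')))
      (zElt_mem_localCenter (M := M) (p := p) χ.2)
    have h3 := memLocalIdeal_add h2 h1
    simpa using h3
  refine ⟨⟨fun h0 => ⟨χ, hχ, ?_⟩, hba⟩, ⟨hac, fun hall => hba ⟨χ, hχ, hall χ hχ⟩⟩⟩
  exact hac h0 χ hχ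

end Cfsg.Agent.S4426
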