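import Cfsg.Statements.S4428
import Mathlib
import Cfsg.Agent.S0937
-- import your own Cfsg.Agent.* helpers here

set_option autoImplicit false
open Cfsg

namespace Cfsg.Agent.S4428

open Cfsg.Agent.Lib.Blocks.Local Cfsg.Agent.Lib.Blocks.Central Cfsg.Agent.Lib.Blocks.Osima
  Cfsg.Agent.Lib.Blocks.Regular Cfsg.Agent.Lib.Blocks.RegNorm Cfsg.Agent.Lib.Blocks.SecondMain
  Cfsg.Agent.Lib.Blocks.HeightZero Cfsg.Agent.Lib.Blocks.Laradji Cfsg.Agent.Lib.Blocks.Sections
open scoped ComplexConjugate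

/-- A `p`-power root of unity is `1` modulo the local ideal. -/
lemma memLocalIdeal_sub_one_of_pow {p : ℕ} [Fact p.Prime] {M : Ideal Cfsg.AlgInt} [M.IsPrime]
    (hM : Cfsg.IsPModular p M) {z : ℂ} {k : ℕ} (hz : z ^ (p ^ k) = 1) : Cfsg.MemLocalIdeal M (z - 1) := by
  haveI hchar : CharP (localRing M ⧸ localIdeal M) p := Cfsg.Agent.Lib.Blocks.BlockHom.charP_residue hM
  have hp0 : 0 < p ^ k := pow_pos (Fact.out : p.Prime).pos k
  have hint : IsIntegral ℤ z := IsIntegral.of_pow hp0 (by rw [hz]; exact isIntegral_one)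
  have hloc : Cfsg.MemLocalRing M z := memLocalRing_of_isIntegral hint
  have h1 : residue M (⟨z, hloc⟩ : localRing M) = 1 := by
    have h2 : residue M (⟨z, hloc⟩ : localRing M) ^ (p ^ k) = 1 := by
      rw [← map_pow]
      have : (⟨z, hloc⟩ : localRing M) ^ (p ^ k) = 1 := Subtype.ext hz
      rw [this, map_one]
    have h3 : (residue M (⟨z, hloc⟩ : localRing M) - 1) ^ (p ^ k) = 0 := by
      rw [sub_pow_char_pow, h2, one_pow, sub_self]
    exact sub_eq_zero.mp (pow_eq_zero_iff hp0.ne' |>.mp h3)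
  have h2 := (residue_eq_iff (x := (⟨z, hloc⟩ : localRing M)) (y := 1)).mp (by rw [h1, map_one])
  simpa using h2

/-- Let χ be an irreducible character of height zero in the p-block B of the finite group G (relative to a maximal ideal M of the algebraic integers containing p). Let x be a p-element of G with centralizer C, and let b be a block of C that induces B. Form the class function ϑ(c) = χ(x c) on C and its b-part (the sum over ψ ∈ b of the inner product of ϑ with ψ, times ψ). Then the b-part of ϑ does not vanish identically on the p-regular elements of C. (Compare the second main Theorem, which gives vanishing when b does not induce B.) -/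
theorem result {G : Type*} [Group G] [Finite G] (p : ℕ) [Fact p.Prime] (M : Ideal Cfsg.AlgInt) (hM : Cfsg.IsPModular p M) (B : Set (Cfsg.IrrCharacter G)) (hB : Cfsg.IsPBlock M B) (χ : Cfsg.IrrCharacter G) (hχ : χ ∈ B) (h0 : Cfsg.blockHeight p B (χ : G → ℂ) = 0) (x : G) (hx : ∃ k : ℕ, orderOf x = p ^ k) (b : Set (Cfsg.IrrCharacter (Subgroup.centralizer ({x} : Set G)))) (hb : Cfsg.IsInducedBlock M (Subgroup.centralizer ({x} : Set G)) b B) : ∃ y : Subgroup.centralizer ({x} : Set G), ¬ p ∣ orderOf y ∧ Cfsg.blockPart b (fun c : Subgroup.centralizer ({x} : Set G) => (χ : G → ℂ) (x * (c : G))) y ≠ 0 := by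
  classical
  letI := Fintype.ofFinite G
  haveI := isPrime_of_isPModular hM
  letI : Fintype (Cen x) := Fintype.ofFinite _
  obtain ⟨hb', -, hbB⟩ := id hb
  obtain ⟨ξ, hξ⟩ := nonempty_of_isPBlock hb'
  have hxC : x ∈ (Cen x) := by
    exact mem_Cen_self x
  set x' : (Cen x) := ⟨x, hxC⟩ with hx'
  have hx'Z : x' ∈ Subgroup.center (Cen x) := by
    rw [Subgroup.mem_center_iff]
    intro c
    apply Subtype.ext
    exact (Subgroup.mem_centralizer_iff.mp c.2 x rfl).symm
  obtain ⟨k, hk⟩ := hx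
  have hx'pow : x' ^ (p ^ k) = 1 := by
    apply Subtype.ext
    rw [← hk]
    simp [hx', pow_orderOf_eq_one]
  -- the multiplicities
  have hchar := Cfsg.Agent.Lib.Char.Basic.isCharacter_of_isIrrCharacter χ.2
  have hres := Cfsg.Agent.Lib.Char.Basic.isCharacter_restrict hchar (Cen x)
  set a : Cfsg.IrrCharacter (Cen x) → ℂ := fun ξ' => Cfsg.classInner (fun h : (Cen x) => (χ : G → ℂ) h) (ξ' : (Cen x) → ℂ) with ha
  have hval : ∀ k : (Cen x), (χ : G → ℂ) k = ∑ ξ' : Cfsg.IrrCharacter (Cen x), a ξ' * (ξ' : (Cen x) → ℂ) k := by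
    intro k
    have := congrFun (Cfsg.Agent.Lib.Char.Ortho.decomp_eq_sum_classInner hres) k
    simpa [Finset.sum_apply] using this
  have hanat : ∀ ξ', conj (a ξ') = a ξ' := by
    intro ξ'
    obtain ⟨n, hn⟩ := Cfsg.Agent.Lib.Char.Ortho.exists_nat_classInner hres ξ'
    rw [ha]
    simp only
    rw [hn]
    exact Complex.conj_natCast n
  have haloc : ∀ ξ', Cfsg.MemLocalRing M (a ξ') := by
    intro ξ'
    obtain ⟨n, hn⟩ := Cfsg.Agent.Lib.Char.Ortho.exists_nat_classInner hres ξ'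
    rw [ha]
    simp only
    rw [hn]
    exact memLocalRing_natCast n
  set A : Cfsg.IrrCharacter (Cen x) → ℂ := fun ξ' => a ξ' * lam (ξ' : (Cen x) → ℂ) x' with hA
  -- the class function
  set ϑ : (Cen x) → ℂ := fun c => (χ : G → ℂ) (x * (c : G)) with hϑ
  have hϑval : ϑ = ∑ ξ' : Cfsg.IrrCharacter (Cen x), A ξ' • (ξ' : (Cen x) → ℂ) := by
    funext c
    have h1 : (χ : G → ℂ) (x * (c : G)) = (χ : G → ℂ) ((x' * c : (Cen x)) : G) := rfl
    simp only [hϑ]
    rw [h1, hval, Finset.sum_apply]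
    refine Finset.sum_congr rfl fun ξ' _ => ?_
    rw [irr_mul_central ξ'.2 hx'Z, Pi.smul_apply, smul_eq_mul, hA]
    ring
  have hϑinner : ∀ ξ' : Cfsg.IrrCharacter (Cen x), Cfsg.classInner ϑ (ξ' : (Cen x) → ℂ) = A ξ' := by
    intro ξ'
    rw [hϑval]
    exact Cfsg.Agent.Lib.Char.Ortho.classInner_sum_irr _ ξ'
  by_contra hcon
  push Not at hcon
  -- the expansion of the regular sum
  set F := Finset.univ.filter (· ∈ b) with hF
  have hpart : ∀ u, Cfsg.blockPart b ϑ u = ∑ ξ' ∈ F, A ξ' * (ξ' : (Cen x) → ℂ) u := by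
    intro u
    rw [blockPart_eq_sum]
    exact Finset.sum_congr rfl fun ξ' _ => by rw [hϑinner]
  have hS : ∑ ξ' ∈ F, conj (A ξ') * omega (ξ : (Cen x) → ℂ) (zElt p (ξ' : (Cen x) → ℂ)) = 0 := by
    have h1 : ∀ ξ' ∈ F, conj (A ξ') * omega (ξ : (Cen x) → ℂ) (zElt p (ξ' : (Cen x) → ℂ)) =
        (∑ y : (Cen x), conj (A ξ') * (reg p (fun u => conj ((ξ' : (Cen x) → ℂ) u)) y * (ξ : (Cen x) → ℂ) y)) / (ξ : (Cen x) → ℂ) 1 := by
      intro ξ' _
      rw [omega_zElt, regSum, ← Finset.mul_sum, mul_div_assoc]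
    rw [Finset.sum_congr rfl h1, ← Finset.sum_div, Finset.sum_comm]
    have h2 : ∀ y : (Cen x), ∑ ξ' ∈ F, conj (A ξ') * (reg p (fun u => conj ((ξ' : (Cen x) → ℂ) u)) y * (ξ : (Cen x) → ℂ) y) = 0 := by
      intro y
      by_cases hy : p ∣ orderOf y
      · apply Finset.sum_eq_zero
        intro ξ' _
        rw [reg_of_dvd _ hy, zero_mul, mul_zero]
      · have h3 := hcon y hy
        rw [hpart] at h3
        have h4 := congrArg (fun t => conj t * (ξ : (Cen x) → ℂ) y) h3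
        simp only [map_sum, map_mul, map_zero, zero_mul, Finset.sum_mul] at h4
        rw [← h4]
        refine Finset.sum_congr rfl fun ξ' _ => ?_
        rw [reg_of_not_dvd _ hy, map_mul]
        ring
    rw [Finset.sum_eq_zero fun y _ => h2 y, zero_div]
  -- the contradiction
  have hAz := not_memLocalIdeal_omega_zElt_self hM hB hχ h0
  have hcong := memLocalIdeal_omega_restr_sub (H := (Cen x)) (ξ := (ξ : (Cen x) → ℂ)) (isClassFunction_of_irr χ.2)
    (zElt_mem_localCenter (M := M) (p := p) χ.2) (hbB ξ hξ χ hχ)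
  have h1 : ¬ Cfsg.MemLocalIdeal M (omega (ξ : (Cen x) → ℂ) (restr (Cen x) (zElt p (χ : G → ℂ)))) := by
    intro h2
    apply hAz
    have := memLocalIdeal_sub h2 hcong
    convert this using 1
    ring
  apply h1
  rw [Cfsg.Agent.S0937.omega_restr_zElt]
  -- restrict to `b`
  have hbξ : b = Cfsg.blockOf M (ξ : (Cen x) → ℂ) := by
    obtain ⟨χ₂, rfl⟩ := hb'
    exact (blockOf_eq_of_mem hξ).symm
  have h2 : ∑ ξ' : Cfsg.IrrCharacter (Cen x), a ξ' * omega (ξ : (Cen x) → ℂ) (zElt p (ξ' : (Cen x) → ℂ)) =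
      ∑ ξ' ∈ F, a ξ' * omega (ξ : (Cen x) → ℂ) (zElt p (ξ' : (Cen x) → ℂ)) := by
    symm
    apply Finset.sum_subset (Finset.subset_univ _)
    intro ξ' _ hξ'
    have hne : ¬ Cfsg.SameBlock M (ξ : (Cen x) → ℂ) (ξ' : (Cen x) → ℂ) := by
      intro hs
      apply hξ'
      rw [hF, Finset.mem_filter]
      refine ⟨Finset.mem_univ _, ?_⟩
      rw [hbξ]
      exact hs
    rw [omega_zElt_eq_zero hM hne, mul_zero]
  rw [h2]
  have h3 : ∑ ξ' ∈ F, a ξ' * omega (ξ : (Cen x) → ℂ) (zElt p (ξ' : (Cen x) → ℂ)) =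
      ∑ ξ' ∈ F, a ξ' * (1 - conj (lam (ξ' : (Cen x) → ℂ) x')) * omega (ξ : (Cen x) → ℂ) (zElt p (ξ' : (Cen x) → ℂ)) := by
    have h4 : ∑ ξ' ∈ F, a ξ' * conj (lam (ξ' : (Cen x) → ℂ) x') * omega (ξ : (Cen x) → ℂ) (zElt p (ξ' : (Cen x) → ℂ)) = 0 := by
      rw [← hS]
      refine Finset.sum_congr rfl fun ξ' _ => ?_
      rw [hA]
      simp only [map_mul, hanat]
    rw [← sub_zero (∑ ξ' ∈ F, a ξ' * omega (ξ : (Cen x) → ℂ) (zElt p (ξ' : (Cen x) → ℂ))), ← h4, ← Finset.sum_sub_distrib]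
    refine Finset.sum_congr rfl fun ξ' _ => ?_
    ring
  rw [h3]
  apply memLocalIdeal_sum
  intro ξ' _
  refine memLocalIdeal_mul_right (memLocalIdeal_mul_left (haloc ξ') ?_) (memLocalRing_omega ξ.2 (zElt_mem_localCenter ξ'.2))
  have h5 : (conj (lam (ξ' : (Cen x) → ℂ) x')) ^ (p ^ k) = 1 := by
    rw [← map_pow, ← lam_pow ξ'.2 hx'Z, hx'pow, lam_one ξ'.2, map_one]
  have h6 := memLocalIdeal_sub_one_of_pow hM h5
  have h7 := memLocalIdeal_neg h6
  convert h7 using 1
  ring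

end Cfsg.Agent.S4428
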