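import Cfsg.Statements.S4430
import Mathlib
import Cfsg.Agent.Lib.Blocks.RegNorm
import Cfsg.Agent.Lib.Blocks.SecondMain
import Cfsg.Agent.Lib.Blocks.Sections
import Cfsg.Agent.Lib.Char.IndRep
-- import your own Cfsg.Agent.* helpers here

set_option autoImplicit false
open Cfsg

namespace Cfsg.Agent.S4430

section Helpers

open Cfsg.Agent.Lib.Blocks.Local Cfsg.Agent.Lib.Blocks.Central Cfsg.Agent.Lib.Blocks.Osima
  Cfsg.Agent.Lib.Blocks.Regular Cfsg.Agent.Lib.Blocks.RegNorm Cfsg.Agent.Lib.Blocks.SecondMain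
  Cfsg.Agent.Lib.Blocks.HeightZero Cfsg.Agent.Lib.Blocks.Sections Cfsg.Agent.Lib.Blocks.Laradji

variable {G : Type*} [Group G] [Fintype G]

/-- Pairing a central element with an induced function. -/
theorem sum_coeff_mul_indFun (H : Subgroup G) [Fintype H] {a : MonoidAlgebra ℂ G}
    (ha : Cfsg.IsClassFunction G a.coeff) (ξ : H → ℂ) :
    ∑ g, a.coeff g * Cfsg.indFun H ξ g =
      ((Nat.card G : ℂ) / (Nat.card H : ℂ)) * ∑ h : H, a.coeff h * ξ h := by
  classical
  have h1 : ∀ x : G, ∑ g, a.coeff g * Cfsg.extendByZero H ξ (x⁻¹ * g * x) =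
      ∑ h : H, a.coeff h * ξ h := by
    intro x
    have h2 : ∑ g, a.coeff g * Cfsg.extendByZero H ξ (x⁻¹ * g * x) =
        ∑ g, a.coeff g * Cfsg.extendByZero H ξ g := by
      refine Fintype.sum_equiv (MulAut.conj x⁻¹).toEquiv _ _ fun g => ?_
      have h3 := ha g x⁻¹
      simp only [MulEquiv.toEquiv_eq_coe, MulEquiv.coe_toEquiv, MulAut.conj_apply, inv_inv] at h3 ⊢
      rw [h3]
    rw [h2, Cfsg.Agent.Lib.Blocks.SecondMain.sum_eq_sum_subgroup (H := H)]
    · refine Finset.sum_congr rfl fun h _ => ?_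
      rw [Cfsg.extendByZero, Subtype.val_injective.extend_apply]
    · intro g hg
      rw [Cfsg.extendByZero, Function.extend_apply' _ _ _ (by rintro ⟨k, rfl⟩; exact hg k.2)]
      simp
  have h3 : ∑ g, a.coeff g * Cfsg.indFun H ξ g =
      (Nat.card H : ℂ)⁻¹ * ∑ x : G, ∑ g, a.coeff g * Cfsg.extendByZero H ξ (x⁻¹ * g * x) := by
    simp only [Cfsg.indFun]
    simp only [Finset.mul_sum]
    rw [Finset.sum_comm]
    refine Finset.sum_congr rfl fun g _ => Finset.sum_congr rfl fun x _ => ?_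
    ring
  rw [h3, Finset.sum_congr rfl fun x _ => h1 x, Finset.sum_const, Finset.card_univ, nsmul_eq_mul,
    ← Nat.card_eq_fintype_card]
  ring

theorem indFun_one_eq (H : Subgroup G) [Fintype H] (ξ : H → ℂ) :
    Cfsg.indFun H ξ 1 = ((Nat.card G : ℂ) / (Nat.card H : ℂ)) * ξ 1 := by
  classical
  simp only [Cfsg.indFun]
  have h1 : ∀ x : G, Cfsg.extendByZero H ξ (x⁻¹ * 1 * x) = ξ 1 := by
    intro x
    have : x⁻¹ * 1 * x = ((1 : H) : G) := by simp
    rw [this, Cfsg.extendByZero, Subtype.val_injective.extend_apply]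
  rw [Finset.sum_congr rfl fun x _ => h1 x, Finset.sum_const, Finset.card_univ, nsmul_eq_mul,
    ← Nat.card_eq_fintype_card]
  ring

/-- The value at `1` of the block part of an induced character. -/
theorem blockPart_indFun_one (H : Subgroup G) [Fintype H] (B : Set (Cfsg.IrrCharacter G))
    (ξ : Cfsg.IrrCharacter H) :
    Cfsg.blockPart B (Cfsg.indFun H (ξ : H → ℂ)) 1 =
      Cfsg.indFun H (ξ : H → ℂ) 1 * omega (ξ : H → ℂ) (restr H (blockElt B)) := by
  classical
  have hψ : Cfsg.IsCharacter G (Cfsg.indFun H (ξ : H → ℂ)) :=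
    Cfsg.Agent.Lib.Char.IndRep.isCharacter_indFun H
      (Cfsg.Agent.Lib.Char.Basic.isCharacter_of_isIrrCharacter ξ.2)
  have hξ0 := Cfsg.Agent.Lib.Char.Ortho.irr_apply_one_ne_zero ξ.2
  have hcl := Cfsg.Agent.Lib.Char.Basic.isClassFunction_of_isCharacter hψ
  rw [blockPart_eq_twTrace B hcl, Cfsg.Agent.Lib.Blocks.Twisted.twTrace, indFun_one_eq, omega]
  simp only [mul_one]
  rw [sum_coeff_mul_indFun H (isClassFunction_blockElt B)]
  simp only [coeff_restr]
  field_simp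

/-- The value at `1` of the block part of a character is a natural number. -/
theorem exists_nat_blockPart_one {ϑ : G → ℂ} (hϑ : Cfsg.IsCharacter G ϑ) (B : Set (Cfsg.IrrCharacter G)) :
    ∃ n : ℕ, Cfsg.blockPart B ϑ 1 = (n : ℂ) := by
  classical
  choose f hf using fun τ : Cfsg.IrrCharacter G => Cfsg.Agent.Lib.Char.Ortho.exists_nat_classInner hϑ τ
  refine ⟨∑ τ ∈ Finset.univ.filter (· ∈ B), f τ * Cfsg.charDegree (τ : G → ℂ), ?_⟩
  rw [blockPart_eq_sum]
  push_cast
  refine Finset.sum_congr rfl fun τ _ => ?_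
  rw [hf, Cfsg.Agent.Lib.Char.Values.IsCharacter.charDegree_cast
    (Cfsg.Agent.Lib.Char.Values.IsIrrCharacter.isCharacter τ.2)]

end Helpers

section Val

open Cfsg.Agent.Lib.Blocks.Local Cfsg.Agent.Lib.Blocks.Laradji

variable {p : ℕ} [hp : Fact p.Prime] {M : Ideal Cfsg.AlgInt}

/-- If `n = N w` for a unit `w` then `n`, `N` have the same `p`-adic valuation. -/
theorem factorization_eq_of_unit (hM : Cfsg.IsPModular p M) [M.IsPrime] {n N : ℕ} (hN : N ≠ 0) {w : ℂ}
    (hw : Cfsg.MemLocalRing M w) (hw' : ¬ Cfsg.MemLocalIdeal M w)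
    (h : (n : ℂ) = (N : ℂ) * w) : n ≠ 0 ∧ n.factorization p = N.factorization p := by
  have hN0 : (N : ℂ) ≠ 0 := by exact_mod_cast hN
  have hw0 : w ≠ 0 := fun h0 => hw' (by rw [h0]; exact memLocalIdeal_zero)
  have hn0 : n ≠ 0 := by
    intro h0
    rw [h0, Nat.cast_zero] at h
    exact (mul_ne_zero hN0 hw0) h.symm
  refine ⟨hn0, ?_⟩
  have hn0' : (n : ℂ) ≠ 0 := by exact_mod_cast hn0
  have hdiv : (n : ℂ) / (N : ℂ) = w := by rw [h]; field_simp
  rcases lt_trichotomy (n.factorization p) (N.factorization p) with hlt | heq | hgt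
  · exfalso
    have h1 := memLocalIdeal_natCast_div (M := M) hM hn0 hN hlt
    have h2 := memLocalIdeal_mul_left hw h1
    have h3 : w * ((N : ℂ) / (n : ℂ)) = 1 := by rw [← hdiv]; field_simp
    rw [h3] at h2
    exact not_memLocalIdeal_one h2
  · exact heq
  · exfalso
    apply hw'
    rw [← hdiv]
    exact memLocalIdeal_natCast_div (M := M) hM hN hn0 hgt

/-- If `n = N w` with `w` in the local ideal then `n = 0` or `n` has larger valuation. -/
theorem factorization_lt_of_ideal (hM : Cfsg.IsPModular p M) [M.IsPrime] {n N : ℕ} (hN : N ≠ 0) {w : ℂ}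
    (hw' : Cfsg.MemLocalIdeal M w)
    (h : (n : ℂ) = (N : ℂ) * w) : n = 0 ∨ N.factorization p < n.factorization p := by
  by_cases hn0 : n = 0
  · exact Or.inl hn0
  right
  by_contra hle
  have hle' : n.factorization p ≤ N.factorization p := not_lt.mp hle
  have hn0' : (n : ℂ) ≠ 0 := by exact_mod_cast hn0
  have hN0 : (N : ℂ) ≠ 0 := by exact_mod_cast hN
  have h1 := memLocalRing_natCast_div (M := M) hM hn0 hN hle'
  have h2 := memLocalIdeal_mul_left h1 hw'
  have hw0 : w ≠ 0 := by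
    intro h0
    rw [h0, mul_zero] at h
    exact hn0' h
  have h3 : (N : ℂ) / (n : ℂ) * w = 1 := by rw [h]; field_simp
  rw [h3] at h2
  exact not_memLocalIdeal_one h2

end Val

/-- Let H be a subgroup of the finite group G, b a block of H whose induced block B₀ in G is defined (relative to a maximal ideal M of the algebraic integers containing p), and ξ ∈ b. For a block B of G let n_B be the value at 1 of the B-part of the induced character ξ^G (a natural number: the sum over χ ∈ B of the multiplicity of χ in ξ^G times χ(1)). Then for B = B₀ the exact power of p dividing n_B equals the exact power of p dividing ξ^G(1), while for every other block B either n_B = 0 or n_B is divisible by a strictly higher power of p than ξ^G(1). -/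
theorem result {G : Type*} [Group G] [Fintype G] (p : ℕ) [Fact p.Prime] (M : Ideal Cfsg.AlgInt) (hM : Cfsg.IsPModular p M) (H : Subgroup G) [Fintype H] (b : Set (Cfsg.IrrCharacter H)) (B₀ : Set (Cfsg.IrrCharacter G)) (hind : Cfsg.IsInducedBlock M H b B₀) (ξ : Cfsg.IrrCharacter H) (hξ : ξ ∈ b) : (∃ n : ℕ, Cfsg.blockPart B₀ (Cfsg.indFun H (ξ : H → ℂ)) 1 = (n : ℂ) ∧ n ≠ 0 ∧ n.factorization p = (Cfsg.charDegree (Cfsg.indFun H (ξ : H → ℂ))).factorization p) ∧ ∀ B : Set (Cfsg.IrrCharacter G), Cfsg.IsPBlock M B → B ≠ B₀ → ∃ n : ℕ, Cfsg.blockPart B (Cfsg.indFun H (ξ : H → ℂ)) 1 = (n : ℂ) ∧ (n = 0 ∨ (Cfsg.charDegree (Cfsg.indFun H (ξ : H → ℂ))).factorization p < n.factorization p) := by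
  classical
  haveI := Cfsg.Agent.Lib.Blocks.Local.isPrime_of_isPModular hM
  have hψ : Cfsg.IsCharacter G (Cfsg.indFun H (ξ : H → ℂ)) :=
    Cfsg.Agent.Lib.Char.IndRep.isCharacter_indFun H
      (Cfsg.Agent.Lib.Char.Basic.isCharacter_of_isIrrCharacter ξ.2)
  have hN := Cfsg.Agent.Lib.Char.Values.IsCharacter.charDegree_cast hψ
  have hN0 : Cfsg.charDegree (Cfsg.indFun H (ξ : H → ℂ)) ≠ 0 := by
    intro h0
    rw [h0, Nat.cast_zero, indFun_one_eq] at hN
    have h1 := Cfsg.Agent.Lib.Char.Ortho.irr_apply_one_ne_zero ξ.2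
    have h2 : (Nat.card G : ℂ) ≠ 0 := Nat.cast_ne_zero.2 Nat.card_pos.ne'
    have h3 : (Nat.card H : ℂ) ≠ 0 := Nat.cast_ne_zero.2 Nat.card_pos.ne'
    exact mul_ne_zero (div_ne_zero h2 h3) h1 hN.symm
  obtain ⟨χ₀, rfl⟩ := id hind.2.1
  have hχ₀ := Cfsg.Agent.Lib.Blocks.Osima.mem_blockOf_self (M := M) χ₀
  have hloc := fun (B : Set (Cfsg.IrrCharacter G)) (hB : Cfsg.IsPBlock M B) =>
    Cfsg.Agent.Lib.Blocks.SecondMain.memLocalIdeal_omega_restr_sub (H := H) (ξ := (ξ : H → ℂ))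
      (Cfsg.Agent.Lib.Blocks.Central.isClassFunction_of_irr χ₀.2)
      (Cfsg.Agent.Lib.Blocks.Osima.blockElt_mem_localCenter hB) (hind.2.2 ξ hξ χ₀ hχ₀)
  have hval := fun (B : Set (Cfsg.IrrCharacter G)) (hB : Cfsg.IsPBlock M B) =>
    Cfsg.Agent.Lib.Blocks.SecondMain.restr_mem_localCenter (H := H)
      (Cfsg.Agent.Lib.Blocks.Osima.blockElt_mem_localCenter hB)
  constructor
  · obtain ⟨n, hn⟩ := exists_nat_blockPart_one hψ (Cfsg.blockOf M (χ₀ : G → ℂ))
    have h1 := hloc _ hind.2.1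
    rw [Cfsg.Agent.Lib.Blocks.Osima.omega_blockElt_of_mem hχ₀] at h1
    refine ⟨n, hn, ?_⟩
    have hw : Cfsg.MemLocalRing M (Cfsg.Agent.Lib.Blocks.Central.omega (ξ : H → ℂ)
        (Cfsg.Agent.Lib.Blocks.SecondMain.restr H (Cfsg.Agent.Lib.Blocks.Osima.blockElt (Cfsg.blockOf M (χ₀ : G → ℂ))))) :=
      Cfsg.Agent.Lib.Blocks.Central.memLocalRing_omega ξ.2 (hval _ hind.2.1)
    have hw' : ¬ Cfsg.MemLocalIdeal M (Cfsg.Agent.Lib.Blocks.Central.omega (ξ : H → ℂ)
        (Cfsg.Agent.Lib.Blocks.SecondMain.restr H (Cfsg.Agent.Lib.Blocks.Osima.blockElt (Cfsg.blockOf M (χ₀ : G → ℂ))))) := by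
      intro h2
      have h3 := Cfsg.Agent.Lib.Blocks.Local.memLocalIdeal_sub h2 h1
      rw [sub_sub_cancel] at h3
      exact Cfsg.Agent.Lib.Blocks.Local.not_memLocalIdeal_one h3
    refine factorization_eq_of_unit hM hN0 hw hw' ?_
    rw [← hn, blockPart_indFun_one, hN]
  · intro B hB hne
    obtain ⟨n, hn⟩ := exists_nat_blockPart_one hψ B
    refine ⟨n, hn, ?_⟩
    have h1 := hloc B hB
    have hχ₀B : χ₀ ∉ B := by
      intro hmem
      apply hne
      obtain ⟨χ₁, rfl⟩ := id hB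
      rw [Cfsg.Agent.Lib.Blocks.Osima.blockOf_eq_of_mem hmem]
    rw [Cfsg.Agent.Lib.Blocks.Osima.omega_blockElt_of_notMem hχ₀B, sub_zero] at h1
    refine factorization_lt_of_ideal hM hN0 h1 ?_
    rw [← hn, blockPart_indFun_one, hN]

end Cfsg.Agent.S4430
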