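import Cfsg.Statements.S4432
import Mathlib
import Cfsg.Agent.Lib.Blocks.Knorr4
-- import your own Cfsg.Agent.* helpers here

set_option autoImplicit false
open Cfsg

set_option linter.style.haveILetI false

namespace Cfsg.Agent.S4432

open Cfsg.Agent.Lib.Blocks.Local Cfsg.Agent.Lib.Blocks.Central Cfsg.Agent.Lib.Blocks.Osima
  Cfsg.Agent.Lib.Blocks.Covering Cfsg.Agent.Lib.Blocks.Knorr Cfsg.Agent.Lib.Blocks.Twisted

/-- Let N be a normal subgroup of the finite group G, b a block of N and B a block of G (relative to a maximal ideal M of the algebraic integers containing p) such that B covers b: some member of B has a constituent in b on restriction to N. Then every θ ∈ b is a constituent of the restriction of some χ ∈ B. -/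
theorem result {G : Type*} [Group G] [Fintype G] (p : ℕ) [Fact p.Prime] (M : Ideal Cfsg.AlgInt) (hM : Cfsg.IsPModular p M) (N : Subgroup G) [hN : N.Normal] [Fintype N] (B : Set (Cfsg.IrrCharacter G)) (hB : Cfsg.IsPBlock M B) (b : Set (Cfsg.IrrCharacter N)) (hb : Cfsg.IsPBlock M b) (hcov : (∃ χ ∈ B, ∃ θ ∈ b, Cfsg.classInner (fun n : N => (χ : G → ℂ) n) (θ : N → ℂ) ≠ 0)) (θ : Cfsg.IrrCharacter N) (hθ : θ ∈ b) : ∃ χ ∈ B, Cfsg.classInner (fun n : N => (χ : G → ℂ) n) (θ : N → ℂ) ≠ 0 := by
  classical
  haveI hMp := isPrime_of_isPModular hM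
  by_contra hno
  push Not at hno
  obtain ⟨χ, hχ, θ₂, hθ₂, hcon⟩ := hcov
  refine false_of_closed_words hM hB hb hχ hθ₂ hcon ?_
  intro c v hvl hvh hvi ξ hξ
  obtain ⟨g, ξ₀, hξ₀, rfl⟩ := hξ
  -- the orbit of `θ`
  have hA := isConjStable_conjOrbit (G := G) ({θ} : Set (IrrCharacter N))
  set A := conjOrbit (G := G) ({θ} : Set (IrrCharacter N)) with hAdef
  set Ê := blockElt A with hÊ
  set e := blockElt B with he
  have heZ : e ∈ localCenter G M := blockElt_mem_localCenter hB
  have hclE : IsClassFunction G (push N Ê).coeff := isClassFunction_pushBlock hA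
  have hEe : push N Ê * e = 0 := by
    refine eq_of_omega_eq' (isClassFunction_mul hclE heZ.1) (localCenter G M).zero_mem.1 fun χ' => ?_
    rw [omega_mul χ'.2 hclE, omega_zero]
    by_cases hχ' : χ' ∈ B
    · obtain ⟨θ', hθ'⟩ := exists_constituent (N := N) χ'.2
      have hθ'A : θ' ∉ A := by
        rintro ⟨s, θ₃, hθ₃, rfl⟩
        rw [classInner_conjIrr (isClassFunction_of_irr χ'.2)] at hθ'
        rw [Set.mem_singleton_iff] at hθ₃
        rw [hθ₃] at hθ'
        exact hθ' (hno χ' hχ')
      have h0 := omega_pushBlock_of_notMem hA χ'.2 hθ' hθ'A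
      rw [pushBlock] at h0
      rw [h0, zero_mul]
    · rw [he, omega_blockElt_of_notMem hχ', mul_zero]
  -- the components
  have hEc : push N Ê * comp e c = 0 := by
    haveI : Fintype (G ⧸ N) := Fintype.ofFinite _
    apply ext_coeff
    intro x
    have hE1 : Hom (1 : G ⧸ N) (push N Ê) := by
      intro y hy
      apply coeff_push_of_notMem
      intro hyN
      exact hy ((QuotientGroup.eq_one_iff y).2 hyN)
    have hgrad : ∀ c' : G ⧸ N, Hom c' (push N Ê * comp e c') := by
      intro c'
      have := hE1.mul (hom_comp (N := N) e c')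
      rwa [one_mul] at this
    by_cases hx : (x : G ⧸ N) = c
    · have h1 : (push N Ê * e).coeff x = (push N Ê * comp e c).coeff x := by
        conv_lhs => rw [← sum_comp (N := N) e, Finset.mul_sum]
        rw [MonoidAlgebra.coeff_sum, Finsupp.finsetSum_apply, Finset.sum_eq_single c]
        · intro c' _ hc'
          apply hgrad c' x
          rw [hx]
          exact fun h => hc' h.symm
        · intro h
          exact absurd (Finset.mem_univ c) h
      rw [← h1, hEe]
    · rw [hgrad c x hx]
      rfl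
  -- the closed word
  set w := res N (comp e c * v) with hw
  have hwi : NInv N (comp e c * v) := (nInv_comp heZ.1 c).mul hvi
  have hwl : CoeffIn (⊤ : Ideal (localRing M)) (comp e c * v) :=
    (coeffIn_top_comp (coeffIn_top_iff.mpr heZ.2) c).mul_left hvl
  have hwZ : w ∈ localCenter N M := res_mem_localCenter hwi hwl
  have hw1 : Hom (1 : G ⧸ N) (comp e c * v) := by
    have := (hom_comp (N := N) e c).mul hvh
    rwa [mul_inv_cancel] at this
  have hwp : push N w = comp e c * v := push_res_of_hom hw1
  have hEw : Ê * w = 0 := by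
    have h1 : push N (Ê * w) = 0 := by
      rw [push_mul, hwp, ← mul_assoc, hEc, zero_mul]
    have h2 := res_push N (Ê * w)
    rw [h1] at h2
    rw [← h2]
    apply ext_coeff
    intro n
    simp
  have hclEN : IsClassFunction N Ê.coeff := isClassFunction_of_push hclE
  have hθ₁ : conjIrr g θ ∈ A := ⟨g, θ, Set.mem_singleton θ, rfl⟩
  have hω0 : omega (conjIrr g θ : N → ℂ) w = 0 := by
    have h1 := omega_mul (conjIrr g θ).2 hclEN (b := w)
    rw [hEw, omega_zero, hÊ, omega_blockElt_of_mem hθ₁, one_mul] at h1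
    exact h1.symm
  have hsame : SameBlock M (conjIrr g ξ₀ : N → ℂ) (conjIrr g θ : N → ℂ) := by
    obtain ⟨θ₃, rfl⟩ := id hb
    exact sameBlock_conjIrr g (sameBlock_trans (sameBlock_symm hξ₀) hθ)
  have h1 := memLocalIdeal_omega_sub (conjIrr g ξ₀).2 (conjIrr g θ).2 hsame hwZ
  rwa [hω0, sub_zero] at h1

end Cfsg.Agent.S4432
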