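import Cfsg.Statements.S4437
import Mathlib
import Cfsg.Agent.Lib.Blocks.ReyDefect
import Cfsg.Agent.S0973
import Cfsg.Agent.S0918

set_option autoImplicit false
set_option linter.style.haveILetI false
open Cfsg

namespace Cfsg.Agent.S4437

open Cfsg.Agent.Lib.Blocks.Local Cfsg.Agent.Lib.Blocks.Central Cfsg.Agent.Lib.Blocks.Osima
  Cfsg.Agent.Lib.Blocks.FirstMain Cfsg.Agent.Lib.Blocks.FirstMain2 Cfsg.Agent.Lib.Blocks.Transport
  Cfsg.Agent.Lib.Blocks.BrauerMap Cfsg.Agent.Lib.Blocks.Covering Cfsg.Agent.Lib.Blocks.Knorr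
  Cfsg.Agent.Lib.Blocks.FongReynolds Cfsg.Agent.Lib.Blocks.ReyDefect

/-- Let P be a p-subgroup of the finite group G, H = P·C_G(P), and b a block of H (relative to a maximal ideal M of the algebraic integers containing p) having P as a defect group; let B be the block of G induced by b. Let T be the stabilizer of b in N_G(P): the elements g of N_G(P) such that the g-conjugate of every member of b is again a member of b. Then B has defect group P if and only if p does not divide the index of H in T. -/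
theorem result {G : Type*} [Group G] [Fintype G] (p : ℕ) [Fact p.Prime] (M : Ideal Cfsg.AlgInt) (hM : Cfsg.IsPModular p M) (P : Subgroup G) (hP : IsPGroup p P) (H : Subgroup G) [Fintype H] (hH : H = P ⊔ Subgroup.centralizer (P : Set G)) (b : Set (Cfsg.IrrCharacter H)) (hb : Cfsg.IsPBlock M b) (hbP : Cfsg.IsDefectGroup p M b (P.subgroupOf H)) (B : Set (Cfsg.IrrCharacter G)) (hind : Cfsg.IsInducedBlock M H b B) (T : Subgroup G) (hT : ∀ g : G, g ∈ T ↔ (g ∈ Subgroup.normalizer (P : Set G) ∧ ∀ θ ∈ b, ∀ θ' : Cfsg.IrrCharacter H, (∀ h h' : H, (h' : G) = g * h * g⁻¹ → (θ' : H → ℂ) h' = (θ : H → ℂ) h) → θ' ∈ b)) : Cfsg.IsDefectGroup p M B P ↔ ¬ p ∣ H.relIndex T := by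
  classical
  have hpp : p.Prime := Fact.out
  haveI hMp := isPrime_of_isPModular hM
  have hB : IsPBlock M B := hind.2.1
  set N := Subgroup.normalizer (P : Set G) with hN
  have hPL : P ≤ H := by rw [hH]; exact le_sup_left
  have hCL : Subgroup.centralizer (P : Set G) ≤ H := by rw [hH]; exact le_sup_right
  have hPN : P ≤ N := le_normalizer' P
  have hCN : Subgroup.centralizer (P : Set G) ≤ N := centralizer_le_normalizer' P
  have hLN : H ≤ N := by rw [hH]; exact sup_le hPN hCN
  have hTN : T ≤ N := fun g hg => ((hT g).1 hg).1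
  haveI : Fintype N := Fintype.ofFinite _
  haveI : Fintype (H.subgroupOf N) := Fintype.ofFinite _
  haveI hnP : (P.subgroupOf N).Normal := (Subgroup.normal_subgroupOf_iff_le_normalizer hPN).mpr le_rfl
  haveI hnC : ((Subgroup.centralizer (P : Set G)).subgroupOf N).Normal :=
    ⟨fun x hx y => by
      rw [Subgroup.mem_subgroupOf] at hx ⊢
      have h2 : (((y * x * y⁻¹ : N)) : G) = (y : G) * x * (y : G)⁻¹ := by simp
      rw [h2]
      exact (Cfsg.Agent.Lib.Blocks.BrauerMap.conj_mem_centralizer_iff' y.2).2 hx⟩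
  haveI hnL : (H.subgroupOf N).Normal := by
    have : H.subgroupOf N = P.subgroupOf N ⊔ (Subgroup.centralizer (P : Set G)).subgroupOf N := by
      conv_lhs => rw [hH]
      rw [Subgroup.subgroupOf_sup hPN hCN]
    rw [this]
    infer_instance
  set φ := Subgroup.subgroupOfEquivOfLe hLN with hφ
  set c := blockMap φ b with hc
  have hcb : IsPBlock M c := isPBlock_blockMap φ hb
  -- the stabilizer
  have hconj : ∀ (g : N) (θ : IrrCharacter H) (x : H),
      (irrComap φ.symm (conjIrr g⁻¹ (irrComap φ θ)) : H → ℂ) x =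
        (θ : H → ℂ) (φ (MulAut.conjNormal g⁻¹ (φ.symm x))) := fun _ _ _ => rfl
  have hform : ∀ (g : N) (θ θ' : IrrCharacter H),
      (∀ h h' : H, (h' : G) = (g : G) * h * (g : G)⁻¹ → (θ' : H → ℂ) h' = (θ : H → ℂ) h) ↔
        θ' = irrComap φ.symm (conjIrr g⁻¹ (irrComap φ θ)) := by
    intro g θ θ'
    constructor
    · intro h
      apply Subtype.ext
      funext x
      rw [hconj g θ x]
      apply h
      simp [hφ, Subgroup.subgroupOfEquivOfLe]
      group
    · rintro rfl h h' hh'
      rw [hconj g θ h']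
      apply congrArg
      apply Subtype.ext
      simp [hφ, Subgroup.subgroupOfEquivOfLe, hh']
      group
  set T' : Subgroup N := T.subgroupOf N with hT'
  have hS : IsStabilizer c T' := by
    have hkey : ∀ g : N, (g : G) ∈ T ↔ g⁻¹ ∈ blockStabilizer (G := N) c hcb := by
      intro g
      rw [hT]
      constructor
      · rintro ⟨-, h⟩ θ hθ
        obtain ⟨θ₀, hθ₀, rfl⟩ := hθ
        rw [hc, mem_blockMap_iff]
        exact h θ₀ hθ₀ _ ((hform g θ₀ _).2 rfl)
      · intro h
        refine ⟨g.2, fun θ hθ θ' hθ' => ?_⟩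
        rw [(hform g θ θ').1 hθ']
        exact (mem_blockMap_iff φ).1 (h _ (irrComap_mem_blockMap φ hθ))
    intro g
    rw [hT', Subgroup.mem_subgroupOf, hkey]
    exact (blockStabilizer (G := N) c hcb).inv_mem_iff
  have hLT' : H.subgroupOf N ≤ T' := by
    intro x hx
    have : x ∈ blockStabilizer (G := N) c hcb := le_blockStabilizer (G := N) hcb hx
    exact (hS x).2 this
  have hLT : H ≤ T := fun x hx => by
    have := hLT' (x := ⟨x, hLN hx⟩) (Subgroup.mem_subgroupOf.2 hx)
    exact Subgroup.mem_subgroupOf.1 this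
  have hrel : (H.subgroupOf N).relIndex T' = H.relIndex T := by
    rw [Subgroup.subgroupOf, Subgroup.relIndex_comap, hT', Subgroup.subgroupOf_map_subtype,
      inf_eq_left.2 hTN]
  -- a block of `N` over `c`
  obtain ⟨θ₁, hθ₁⟩ : ∃ θ, θ ∈ b := by
    obtain ⟨θ, rfl⟩ := id hb
    exact ⟨θ, mem_blockOf_self θ⟩
  have hθ₁c : irrComap φ θ₁ ∈ c := irrComap_mem_blockMap φ hθ₁
  obtain ⟨η, hη⟩ := exists_irr_of_constituent (G := N) (N := H.subgroupOf N) (irrComap φ θ₁).2
  set B₀ := blockOf M (η : N → ℂ) with hB₀def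
  have hB₀ : IsPBlock M B₀ := ⟨η, rfl⟩
  have hηB₀ : η ∈ B₀ := mem_blockOf_self η
  -- `B₀` induces `B`
  have hS0918L := Cfsg.Agent.S0918.result p M hM P H hP hPL hCL hLN
  have hS0918N := Cfsg.Agent.S0918.result p M hM P N hP hPN hCN le_rfl
  have hind₀ : IsInducedBlock M N B₀ B := by
    refine (hS0918N _ hB₀ B hB).2 fun ξ hξ χ hχ g => ?_
    have h1 : MemLocalIdeal M (brauerCentralChar P N (ξ : N → ℂ) g - brauerCentralChar P N (η : N → ℂ) g) := by
      rw [brauerCentralChar_eq_omega, brauerCentralChar_eq_omega]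
      exact memLocalIdeal_omega_sub ξ.2 η.2 (sameBlock_symm hξ)
        (brauer_mem_localCenter le_rfl (classSum_mem_localCenter g))
    have h2 := (hS0918L b hb B hB).1 hind θ₁ hθ₁ χ hχ g
    rw [← Cfsg.Agent.S0973.brauerCentralChar_eq_of_constituent hCL hLN le_rfl (P := P) η.2 θ₁ hη] at h2
    have h3 := memLocalIdeal_add h1 h2
    convert h3 using 1
    ring
  -- the defect formula
  have hPsub : IsPGroup p (P.subgroupOf N) := hP.comap_of_injective _ (Subgroup.subtype_injective N)
  have hPL' : P.subgroupOf N ≤ H.subgroupOf N := fun x hx =>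
    Subgroup.mem_subgroupOf.2 (hPL (Subgroup.mem_subgroupOf.1 hx))
  have hCL' : Subgroup.centralizer ((P.subgroupOf N : Subgroup N) : Set N) ≤ H.subgroupOf N := by
    intro x hx
    rw [Subgroup.mem_subgroupOf]
    apply hCL
    rw [Subgroup.mem_centralizer_iff] at hx ⊢
    intro q hq
    exact congrArg Subtype.val (hx ⟨q, hPN hq⟩ (Subgroup.mem_subgroupOf.2 hq))
  have hdef := blockDefect_eq (P.subgroupOf N) hPsub hPL' hCL' hM hcb hS hLT' hB₀ hηB₀ hθ₁c hη
  rw [hrel] at hdef
  -- the defect groups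
  have hdgc : IsDefectGroup p M c ((P.subgroupOf H).comap φ.toMonoidHom) := isDefectGroup_blockMap φ hbP
  have hcardb := Cfsg.Agent.S0908.result p M hM b hb _ hbP
  have hcardc := Cfsg.Agent.S0908.result p M hM c hcb _ hdgc
  rw [card_comap, hcardb] at hcardc
  have hdcb : blockDefect p b = blockDefect p c := Nat.pow_right_injective hpp.two_le hcardc
  have hcardP : Nat.card (P.subgroupOf H) = Nat.card (P.subgroupOf N) :=
    (Nat.card_congr (Subgroup.subgroupOfEquivOfLe hPL).toEquiv).trans
      (Nat.card_congr (Subgroup.subgroupOfEquivOfLe hPN).toEquiv).symm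
  have hrel0 : H.relIndex T ≠ 0 := (Subgroup.index_ne_zero_of_finite : (H.subgroupOf T).index ≠ 0)
  constructor
  · intro hdG
    obtain ⟨b₁, hb₁, hdb₁, hind₁⟩ := exists_isInducedBlock_of_isDefectGroup hM hP hB hdG
    have hbb : b₁ = B₀ := eq_of_isInducedBlock hM hP hB hb₁ hB₀ hdb₁ hind₁ hind₀
    rw [hbb] at hdb₁
    have h1 := Cfsg.Agent.S0908.result p M hM B₀ hB₀ _ hdb₁
    rw [← hcardP, hcardb] at h1
    have h2 : blockDefect p b = blockDefect p B₀ := Nat.pow_right_injective hpp.two_le h1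
    intro hdvd
    have h3 := hpp.factorization_pos_of_dvd hrel0 hdvd
    omega
  · intro hnd
    have h0 : (H.relIndex T).factorization p = 0 := Nat.factorization_eq_zero_of_not_dvd hnd
    obtain ⟨D, hD, hDinf⟩ := exists_defect_inf_eq hM hB₀ hcb hdgc hηB₀ hθ₁c hη
    have hle : P.subgroupOf N ≤ D := by
      have h1 : ((P.subgroupOf H).comap φ.toMonoidHom).map (H.subgroupOf N).subtype = P.subgroupOf N := by
        ext x
        constructor
        · rintro ⟨y, hy, rfl⟩
          exact Subgroup.mem_subgroupOf.2 (Subgroup.mem_subgroupOf.1 hy)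
        · intro hx
          refine ⟨⟨x, hPL' hx⟩, ?_, rfl⟩
          exact Subgroup.mem_subgroupOf.2 (Subgroup.mem_subgroupOf.1 hx)
      rw [h1] at hDinf
      rw [← hDinf]
      exact inf_le_left
    have hcardD := Cfsg.Agent.S0908.result p M hM B₀ hB₀ D hD
    have hDeq : P.subgroupOf N = D := by
      apply Subgroup.eq_of_le_of_card_ge hle
      rw [hcardD, ← hcardP, hcardb]
      apply le_of_eq
      congr 1
      omega
    rw [← hDeq] at hD
    exact isDefectGroup_of_induced hM hP hB₀ hB hind₀ hD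

end Cfsg.Agent.S4437
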