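import Cfsg.Statements.S4440
import Mathlib
import Cfsg.Agent.Lib.Blocks.KOInvariant
import Cfsg.Agent.Lib.Blocks.FongReynolds
import Cfsg.Agent.Lib.Components.PComponent

set_option autoImplicit false
set_option linter.style.haveILetI false

open Cfsg

namespace Cfsg.Agent.S4440

open Cfsg.Agent.Lib.Blocks.Local Cfsg.Agent.Lib.Blocks.Central Cfsg.Agent.Lib.Blocks.Osima
  Cfsg.Agent.Lib.Blocks.Covering Cfsg.Agent.Lib.Blocks.FongReynolds Cfsg.Agent.Lib.Blocks.KOCentral
  Cfsg.Agent.Lib.Blocks.KOInvariant
open Cfsg.Agent.Lib.Char.DegreeDvd Cfsg.Agent.Lib.Char.Induced Cfsg.Agent.Lib.Char.Basic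
  Cfsg.Agent.Lib.Char.Ortho

universe u

variable {p : ℕ} [hp : Fact p.Prime]

/-- The irreducible characters of a `p'`-group are singleton blocks. -/
theorem isPBlock_singleton {N : Type*} [Group N] [Fintype N] {M : Ideal AlgInt} [M.IsPrime]
    (hM : IsPModular p M) (hNp : ¬ p ∣ Nat.card N) (θ : IrrCharacter N) : IsPBlock M ({θ} : Set (IrrCharacter N)) := by
  refine ⟨θ, ?_⟩
  ext θ'
  rw [Set.mem_singleton_iff]
  constructor
  · rintro rfl
    exact sameBlock_refl _
  · intro h
    by_contra hne
    have h1 := memLocalIdeal_omega_sub θ.2 θ'.2 h (blockElt_mem_localCenter_of_not_dvd hM hNp {θ})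
    rw [omega_blockElt, omega_blockElt, if_pos (Set.mem_singleton θ), if_neg (by simpa using hne), sub_zero] at h1
    exact not_memLocalIdeal_one h1

/-- A `p`-singular element stays `p`-singular in the quotient by a normal `p'`-subgroup. -/
theorem dvd_orderOf_mul {G : Type*} [Group G] [Finite G] {N : Subgroup G} [N.Normal]
    (hNp : ¬ p ∣ Nat.card N) {x : G} (hx : p ∣ orderOf x) (n : N) : p ∣ orderOf ((n : G) * x) := by
  have hp' : ∀ z ∈ (QuotientGroup.mk' N).ker, (∃ k : ℕ, z ^ (p ^ k) = 1) → z = 1 := by
    intro z hz ⟨k, hk⟩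
    rw [QuotientGroup.ker_mk'] at hz
    have h1 := orderOf_dvd_of_pow_eq_one hk
    obtain ⟨i, -, hi⟩ := (Nat.dvd_prime_pow hp.out).mp h1
    rcases i with _ | i
    · simpa using hi
    · have h2 : p ∣ orderOf z := hi ▸ dvd_pow_self p (Nat.succ_ne_zero i)
      exact absurd (h2.trans (Subgroup.orderOf_dvd_natCard N hz)) hNp
  have h1 := dvd_orderOf_map (QuotientGroup.mk' N) hp' hx
  have h2 : QuotientGroup.mk' N x = QuotientGroup.mk' N ((n : G) * x) := by
    have h0 : QuotientGroup.mk' N (n : G) = 1 := (QuotientGroup.eq_one_iff (n : G)).mpr n.2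
    rw [map_mul, h0, one_mul]
  rw [h2] at h1
  exact h1.trans (orderOf_map_dvd _ _)

/-- The stabilizer of a character of a normal subgroup. -/
def stab {G : Type*} [Group G] {N : Subgroup G} [N.Normal] (θ : N → ℂ) : Subgroup G where
  carrier := {g | ∀ n : N, θ (cn g n) = θ n}
  one_mem' := fun n => by rw [cn_one]
  mul_mem' := fun {a b} ha hb n => by rw [cn_mul, ha, hb]
  inv_mem' := fun {a} ha n => by
    rw [← ha (cn a⁻¹ n), cn_inv_cn]

theorem main {M : Ideal AlgInt} [M.IsPrime] (hM : IsPModular p M) : ∀ (n : ℕ) (G : Type u) [Group G] [Fintype G],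
    Nat.card G = n → IsPSolvable p G → ∀ U : Set (IrrCharacter G),
    (∀ x, p ∣ orderOf x → fS U x = 0) → ∀ χ ∈ U, ∀ ψ : IrrCharacter G,
    SameBlock M (χ : G → ℂ) (ψ : G → ℂ) → ψ ∈ U := by
  intro n
  induction n using Nat.strong_induction_on with
  | _ n ih =>
    intro G _ _ hn hsolv U hU χ hχ ψ hsame
    classical
    set N : Subgroup G := pPrimeCore p G with hNdef
    haveI hNn : N.Normal := pPrimeCore_normal p G
    haveI : Fintype N := Fintype.ofFinite N
    have hNp : ¬ p ∣ Nat.card N := by
      intro h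
      have h1 : (Nat.card N).Coprime p := Cfsg.Agent.Lib.Solvable.PSeries.pPrimeCore_coprime p
      have h2 := Nat.Coprime.eq_one_of_dvd h1.symm h
      exact hp.out.one_lt.ne' h2
    have hsolv' : IsPSolvable p (G ⧸ N) := Cfsg.Agent.Lib.Solvable.PSeries.isPSolvable_quotient hsolv N
    have hcore : pPrimeCore p (G ⧸ N) = ⊥ :=
      Cfsg.Agent.Lib.Components.PComponent.pPrimeCore_quotient_eq_bot p
    -- a common constituent
    obtain ⟨θ₀, hθ₀⟩ := exists_constituent (N := N) χ.2
    obtain ⟨θ, hθψ⟩ := exists_constituent (N := N) ψ.2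
    obtain ⟨g, hg⟩ := exists_conj_of_sameBlock hM hNp hsame hθ₀ hθψ
    have hθχ : classInner (fun n : N => (χ : G → ℂ) n) (θ : N → ℂ) ≠ 0 := by
      rw [hg, classInner_conjIrr (isClassFunction_of_irr χ.2)]
      exact hθ₀
    have hb : IsPBlock M ({θ} : Set (IrrCharacter N)) := isPBlock_singleton hM hNp θ
    by_cases hT : ∀ (g : G) (n : N), (θ : N → ℂ) (cn g n) = (θ : N → ℂ) n
    · -- the invariant case
      set U' : Set (IrrCharacter G) :=
        {ξ | ξ ∈ U ∧ classInner (fun n : N => (ξ : G → ℂ) n) (θ : N → ℂ) ≠ 0} with hU'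
      have hconj : ∀ g : G, conjIrr g θ = θ := fun g =>
        Subtype.ext (funext fun n => by rw [conjIrr_apply]; exact hT g n)
      have hval : ∀ (ξ : IrrCharacter G) (x : G), ∑ n : N, blockCoeff ({θ} : Set (IrrCharacter N)) n *
          (ξ : G → ℂ) ((n : G) * x) =
          if classInner (fun n : N => (ξ : G → ℂ) n) (θ : N → ℂ) ≠ 0 then (ξ : G → ℂ) x else 0 := by
        intro ξ x
        split_ifs with h
        · refine sum_blockCoeff_mul_eq_self N.subtype (isCharacter_of_isIrrCharacter ξ.2) {θ}
            (fun θ₁ hθ₁ => ?_) x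
          by_contra hne
          obtain ⟨g, hg⟩ := exists_conj_of_sameBlock hM hNp (sameBlock_refl (ξ : G → ℂ)) h hne
          rw [hconj] at hg
          exact hθ₁ hg
        · refine sum_blockCoeff_mul_eq_zero N.subtype (isCharacter_of_isIrrCharacter ξ.2) {θ}
            (fun θ₁ hθ₁ => ?_) x
          rw [Set.mem_singleton_iff.mp hθ₁]
          push Not at h
          exact h
      have hU0 : ∀ x, p ∣ orderOf x → fS U' x = 0 := by
        intro x hx
        have h1 : fS U' x = ∑ n : N, blockCoeff ({θ} : Set (IrrCharacter N)) n * fS U ((n : G) * x) := by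
          simp only [fS, Finset.mul_sum]
          rw [Finset.sum_comm]
          refine Finset.sum_congr rfl fun ξ _ => ?_
          have h2 := hval ξ x
          by_cases hξ : ξ ∈ U
          · have h3 : ∑ n : N, blockCoeff ({θ} : Set (IrrCharacter N)) n * ((ξ : G → ℂ) 1 * (ξ : G → ℂ) ((n : G) * x)) =
                (ξ : G → ℂ) 1 * ∑ n : N, blockCoeff ({θ} : Set (IrrCharacter N)) n * (ξ : G → ℂ) ((n : G) * x) := by
              rw [Finset.mul_sum]
              refine Finset.sum_congr rfl fun n _ => ?_
              ring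
            simp only [if_pos hξ]
            rw [h3, h2]
            by_cases h4 : classInner (fun n : N => (ξ : G → ℂ) n) (θ : N → ℂ) ≠ 0
            · rw [if_pos h4, if_pos (show ξ ∈ U' from ⟨hξ, h4⟩)]
            · rw [if_neg h4, if_neg (show ξ ∉ U' from fun h => h4 h.2), mul_zero]
          · simp only [if_neg hξ, mul_zero, Finset.sum_const_zero]
            rw [if_neg (show ξ ∉ U' from fun h => hξ h.1)]
        rw [h1]
        refine Finset.sum_eq_zero fun n _ => ?_
        rw [hU _ (dvd_orderOf_mul hNp hx n), mul_zero]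
      exact (invariant_case hNp hsolv' hcore θ.2 hT (U := U') (fun ξ hξ => hξ.2) hU0 ⟨hχ, hθχ⟩ hθψ).1
    · -- the stabilizer is proper
      set T : Subgroup G := stab (θ : N → ℂ) with hTdef
      haveI : Fintype T := Fintype.ofFinite T
      have hNT : N ≤ T := by
        intro n₀ hn₀ n
        have h1 := isClassFunction_of_irr θ.2 n (⟨n₀, hn₀⟩ : N)
        exact h1
      have hS : IsStabilizer ({θ} : Set (IrrCharacter N)) T := by
        intro g
        constructor
        · intro hg θ₁ hθ₁
          rw [Set.mem_singleton_iff] at hθ₁ ⊢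
          subst hθ₁
          exact Subtype.ext (funext fun n => by rw [conjIrr_apply]; exact hg n)
        · intro h n
          have h1 := h θ rfl
          rw [Set.mem_singleton_iff] at h1
          have h2 := congrArg (fun θ' : IrrCharacter N => (θ' : N → ℂ) n) h1
          simp only [conjIrr_apply] at h2
          exact h2
      have hTlt : Nat.card T < Nat.card G := by
        refine lt_of_le_of_ne (Subgroup.card_le_card_group T) (fun h => hT ?_)
        have h1 := Subgroup.eq_top_of_card_eq T h
        intro g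
        have h2 : g ∈ T := by
          rw [h1]
          exact Subgroup.mem_top g
        exact h2
      have hall : ∀ η : IrrCharacter T,
          classInner (fun n : N => (η : T → ℂ) (Subgroup.inclusion hNT n)) (θ : N → ℂ) ≠ 0 →
          AllIn hNT ({θ} : Set (IrrCharacter N)) (η : T → ℂ) := fun η hη =>
        allIn_of_sameBlock hNT hb hS η.2 η.2 (sameBlock_refl (M := M) _) (Set.mem_singleton θ) hη
      set UT : Set (IrrCharacter T) :=
        {η | classInner (fun n : N => (η : T → ℂ) (Subgroup.inclusion hNT n)) (θ : N → ℂ) ≠ 0 ∧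
          ∃ ξ ∈ U, (ξ : G → ℂ) = indFun T (η : T → ℂ)} with hUT
      have hvan : ∀ t : T, p ∣ orderOf t → fS UT t = 0 := by
        intro t ht
        have htG : p ∣ orderOf (t : G) := by
          rwa [Subgroup.orderOf_coe]
        have h1 : (T.index : ℂ) * fS UT t =
            ∑ n : N, blockCoeff ({θ} : Set (IrrCharacter N)) n * fS U ((n : G) * (t : G)) := by
          have h3 : ∑ n : N, blockCoeff ({θ} : Set (IrrCharacter N)) n * fS U ((n : G) * (t : G)) =
              ∑ ξ ∈ Finset.univ.filter (fun ξ : IrrCharacter G => ξ ∈ U ∧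
                classInner (fun n : N => (ξ : G → ℂ) n) (θ : N → ℂ) ≠ 0),
                (ξ : G → ℂ) 1 * ∑ n : N, blockCoeff ({θ} : Set (IrrCharacter N)) n *
                  (ξ : G → ℂ) ((n : G) * (t : G)) := by
            simp only [fS, Finset.mul_sum]
            rw [Finset.sum_comm, Finset.sum_filter]
            refine Finset.sum_congr rfl fun ξ _ => ?_
            by_cases hξ : ξ ∈ U
            · simp only [if_pos hξ]
              by_cases h4 : classInner (fun n : N => (ξ : G → ℂ) n) (θ : N → ℂ) ≠ 0
              · rw [if_pos ⟨hξ, h4⟩]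
                refine Finset.sum_congr rfl fun n _ => ?_
                ring
              · rw [if_neg (fun h => h4 h.2)]
                have h5 := sum_blockCoeff_mul_eq_zero N.subtype (isCharacter_of_isIrrCharacter ξ.2)
                  ({θ} : Set (IrrCharacter N)) (fun θ₁ hθ₁ => by
                    rw [Set.mem_singleton_iff.mp hθ₁]
                    push Not at h4
                    exact h4) (t : G)
                calc _ = (ξ : G → ℂ) 1 * ∑ n : N, blockCoeff ({θ} : Set (IrrCharacter N)) n *
                      (ξ : G → ℂ) ((n : G) * (t : G)) := by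
                      rw [Finset.mul_sum]
                      refine Finset.sum_congr rfl fun n _ => ?_
                      ring
                  _ = 0 := by
                      have h6 : ∑ n : N, blockCoeff ({θ} : Set (IrrCharacter N)) n *
                          (ξ : G → ℂ) ((n : G) * (t : G)) = 0 := h5
                      rw [h6, mul_zero]
            · simp only [if_neg hξ, mul_zero, Finset.sum_const_zero]
              rw [if_neg (fun h => hξ h.1)]
          have h4 : (T.index : ℂ) * fS UT t = ∑ η ∈ Finset.univ.filter (fun η : IrrCharacter T => η ∈ UT),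
              (T.index : ℂ) * ((η : T → ℂ) 1 * (η : T → ℂ) t) := by
            rw [fS, Finset.mul_sum, Finset.sum_filter]
            refine Finset.sum_congr rfl fun η _ => ?_
            split_ifs
            · rfl
            · rw [mul_zero]
          rw [h3, h4]
          refine Finset.sum_bij (fun η hη => ⟨indFun T (η : T → ℂ), isIrr_indFun hNT hb hS η.2
            (hall η (Finset.mem_filter.mp hη).2.1)⟩) ?_ ?_ ?_ ?_
          · intro η hη
            obtain ⟨h5, ξ, hξ, he⟩ := (Finset.mem_filter.mp hη).2
            apply Finset.mem_filter.mpr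
            refine ⟨Finset.mem_univ _, ?_, ?_⟩
            · have h6 : (⟨indFun T (η : T → ℂ), isIrr_indFun hNT hb hS η.2 (hall η h5)⟩ : IrrCharacter G) = ξ :=
                Subtype.ext he.symm
              rw [h6]
              exact hξ
            · obtain ⟨θ', hθ', h6⟩ := exists_constituent_indFun hNT hb hS η.2 (hall η h5)
              rw [Set.mem_singleton_iff.mp hθ'] at h6
              exact h6
          · intro η₁ hη₁ η₂ hη₂ he
            have h5 := (Finset.mem_filter.mp hη₁).2.1
            have h6 := (Finset.mem_filter.mp hη₂).2.1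
            have h7 : indFun T (η₁ : T → ℂ) = indFun T (η₂ : T → ℂ) := congrArg Subtype.val he
            exact Subtype.ext (eq_of_indFun_eq hb hS hNT (isCharacter_of_isIrrCharacter η₁.2)
              (isCharacter_of_isIrrCharacter η₂.2) (hall η₁ h5) (hall η₂ h6) h7)
          · intro ξ hξ
            obtain ⟨hξU, hξo⟩ := (Finset.mem_filter.mp hξ).2
            obtain ⟨η, hη, he⟩ := exists_eq_indFun hNT hb hS ξ.2 (Set.mem_singleton θ) hξo
            refine ⟨η, Finset.mem_filter.mpr ⟨Finset.mem_univ _, hη, ξ, hξU, he⟩, ?_⟩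
            exact Subtype.ext he.symm
          · intro η hη
            have h5 := (Finset.mem_filter.mp hη).2.1
            show _ = (indFun T (η : T → ℂ)) 1 * ∑ n : N, blockCoeff ({θ} : Set (IrrCharacter N)) n *
              (indFun T (η : T → ℂ)) ((n : G) * (t : G))
            rw [sum_blockCoeff_indFun hb hS hNT (isCharacter_of_isIrrCharacter η.2) (hall η h5) t,
              indFun_one]
            ring
        have h2 : (T.index : ℂ) * fS UT t = 0 := by
          rw [h1]
          refine Finset.sum_eq_zero fun n _ => ?_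
          rw [hU _ (dvd_orderOf_mul hNp htG n), mul_zero]
        exact (mul_eq_zero.mp h2).resolve_left (Nat.cast_ne_zero.mpr Subgroup.index_ne_zero_of_finite)
      obtain ⟨ηχ, hηχo, hηχe⟩ := exists_eq_indFun hNT hb hS χ.2 (Set.mem_singleton θ) hθχ
      obtain ⟨ηψ, hηψo, hηψe⟩ := exists_eq_indFun hNT hb hS ψ.2 (Set.mem_singleton θ) hθψ
      have hsameT : SameBlock M (ηχ : T → ℂ) (ηψ : T → ℂ) :=
        sameBlock_of_sameBlock_indFun hNT hb hS ηχ.2 ηψ.2 (hall _ hηχo) (hall _ hηψo)
          (by rw [← hηχe, ← hηψe]; exact hsame)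
      have hmem := ih (Nat.card T) (by rw [← hn]; exact hTlt) T rfl
        (Cfsg.Agent.Lib.Solvable.PSeries.isPSolvable_subgroup hsolv T) UT hvan ηχ ⟨hηχo, χ, hχ, hηχe⟩ ηψ hsameT
      obtain ⟨-, ξ, hξ, he⟩ := hmem
      have hξψ : ξ = ψ := Subtype.ext (by rw [he, hηψe])
      rw [← hξψ]
      exact hξ

theorem result {G : Type*} [Group G] [Finite G] (p : ℕ) [Fact p.Prime] (M : Ideal Cfsg.AlgInt) (hM : Cfsg.IsPModular p M) (hsolv : Cfsg.IsPSolvable p G) (U : Set (Cfsg.IrrCharacter G)) (hU : ∀ x : G, p ∣ orderOf x → ∑ᶠ χ ∈ U, (χ : G → ℂ) 1 * (χ : G → ℂ) x = 0) (χ : Cfsg.IrrCharacter G) (hχ : χ ∈ U) (ψ : Cfsg.IrrCharacter G) (hψ : Cfsg.SameBlock M (χ : G → ℂ) (ψ : G → ℂ)) : ψ ∈ U := by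
  classical
  cases nonempty_fintype G
  haveI : M.IsPrime := hM.2.1.isPrime
  refine main hM _ G rfl hsolv U (fun x hx => ?_) χ hχ ψ hψ
  have h1 := hU x hx
  rw [Cfsg.Agent.Lib.Blocks.Osima.finsum_mem_eq_sum_filter, Finset.sum_filter] at h1
  rw [fS]
  convert h1

end Cfsg.Agent.S4440
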