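import Mathlib
import Cfsg.Statements.S4443
import Cfsg.Agent.Lib.Blocks.DefectSupport
import Cfsg.Agent.Lib.Blocks.Green
import Cfsg.Agent.Lib.Blocks.WeakOrth
import Cfsg.Agent.S0907
import Cfsg.Agent.Lib.Char.CompleteCor
import Cfsg.Agent.Lib.Char.ClassPair
import Cfsg.Agent.Lib.Blocks.Principal
import Cfsg.Agent.Lib.Char.Values2

set_option autoImplicit false
set_option linter.style.haveILetI false
open Cfsg

namespace Cfsg.Agent.S4443

open Cfsg.Agent.Lib.Blocks.Local Cfsg.Agent.Lib.Blocks.Central Cfsg.Agent.Lib.Blocks.Osima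
  Cfsg.Agent.Lib.Blocks.Defect Cfsg.Agent.Lib.Blocks.WeakOrth Cfsg.Agent.Lib.Char.CompleteCor
open scoped ComplexConjugate

universe u


theorem rank_map_eq {K L : Type*} [Field K] [Field L] (φ : K →+* L) {n : Type*} [Fintype n] [DecidableEq n]
    (A : Matrix n n K) : (A.map φ).rank = A.rank := by
  classical
  obtain ⟨V, U, e, hV, hU, h⟩ := A.exists_rank_normal_form
  have hV' : IsUnit (V.map φ) := hV.map (φ.mapMatrix (m := n))
  have hU' : IsUnit (U.map φ) := hU.map (φ.mapMatrix (m := n))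
  have h1 : (V.map φ) * (A.map φ) * (U.map φ) =
      (Matrix.fromBlocks (1 : Matrix (Fin A.rank) (Fin A.rank) L) 0 0 0).submatrix e e := by
    have h2 := congrArg (φ.mapMatrix (m := n)) h
    simp only [map_mul] at h2
    rw [RingHom.mapMatrix_apply, RingHom.mapMatrix_apply, RingHom.mapMatrix_apply] at h2
    rw [h2]
    ext i j
    rcases hi : e i with a | a <;> rcases hj : e j with b | b <;>
      simp [Matrix.submatrix_apply, hi, hj, Matrix.one_apply, apply_ite φ]
  have h3 : (A.map φ).rank = ((V.map φ) * (A.map φ) * (U.map φ)).rank := by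
    rw [Matrix.rank_mul_eq_left_of_isUnit_det _ _ ((Matrix.isUnit_iff_isUnit_det _).1 hU'),
      Matrix.rank_mul_eq_right_of_isUnit_det _ _ ((Matrix.isUnit_iff_isUnit_det _).1 hV')]
  rw [h3, h1, Matrix.rank_submatrix]
  have h4 : Matrix.fromBlocks (1 : Matrix (Fin A.rank) (Fin A.rank) L) 0
      (0 : Matrix (Fin (Fintype.card n - A.rank)) (Fin A.rank) L) 0 =
      Matrix.diagonal (Sum.elim (fun _ => (1 : L)) (fun _ => (0 : L))) := by
    rw [← Matrix.diagonal_one, ← Matrix.diagonal_zero, Matrix.fromBlocks_diagonal]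
  rw [h4, Matrix.rank_diagonal]
  have h5 : Fintype.card (Fin A.rank) = Fintype.card
      {i : Fin A.rank ⊕ Fin (Fintype.card n - A.rank) //
        Sum.elim (fun _ => (1 : L)) (fun _ => (0 : L)) i ≠ 0} := by
    refine Fintype.card_of_bijective (f := fun a => ⟨Sum.inl a, by simp⟩) ⟨?_, ?_⟩
    · intro a b hab
      exact Sum.inl_injective (Subtype.ext_iff.1 hab)
    · rintro ⟨a | a, ha⟩
      · exact ⟨a, rfl⟩
      · simp at ha
  rw [← h5]
  simp

section Count

variable {G : Type u} [Group G] [Fintype G] [Fintype (IrrCharacter G)]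

/-- The multiplicity of `χ` in the permutation character on the cosets of `S`. -/
noncomputable def mS (S : Subgroup G) [Fintype S] (χ : IrrCharacter G) : ℂ :=
  (Nat.card S : ℂ)⁻¹ * ∑ s : S, conj ((χ : G → ℂ) s)

omit [Fintype (IrrCharacter G)] in
lemma exists_nat_mS (S : Subgroup G) [Fintype S] (χ : IrrCharacter G) : ∃ n : ℕ, mS S χ = n := by
  have hres := Cfsg.Agent.Lib.Char.Basic.isCharacter_restrict
      (Cfsg.Agent.Lib.Char.Basic.isCharacter_of_isIrrCharacter χ.2) S
  obtain ⟨n, hn⟩ := Cfsg.Agent.Lib.Char.Ortho.exists_nat_classInner hres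
      (⟨fun _ => 1, Cfsg.Agent.Lib.Char.Burnside2.isIrrCharacter_one⟩ : IrrCharacter S)
  refine ⟨n, ?_⟩
  unfold classInner at hn
  simp only [map_one, mul_one] at hn
  have h2 := congrArg conj hn
  rw [map_mul, map_sum, map_inv₀, Complex.conj_natCast, Complex.conj_natCast] at h2
  exact h2

lemma sum_mS_mul (S : Subgroup G) [Fintype S] [DecidablePred (· ∈ S)] (g : G) :
    ∑ χ : IrrCharacter G, mS S χ * (χ : G → ℂ) g =
      (Nat.card S : ℂ)⁻¹ * ∑ k : G, (if k * g * k⁻¹ ∈ S then (1 : ℂ) else 0) := by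
  classical
  unfold mS
  simp only [Finset.mul_sum, Finset.sum_mul]
  rw [Finset.sum_comm]
  have h1 : ∀ s : S, ∑ χ : IrrCharacter G, (Nat.card S : ℂ)⁻¹ * conj ((χ : G → ℂ) s) * (χ : G → ℂ) g =
      (Nat.card S : ℂ)⁻¹ * conjCount (s : G) g := by
    intro s
    rw [conjCount_eq_sum, Finset.mul_sum]
    refine Finset.sum_congr rfl fun χ _ => ?_
    ring
  simp only [h1]
  unfold conjCount
  simp only [Finset.mul_sum]
  rw [Finset.sum_comm]
  refine Finset.sum_congr rfl fun k _ => ?_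
  rw [← Finset.mul_sum]
  congr 1
  by_cases hk : k * g * k⁻¹ ∈ S
  · rw [if_pos hk]
    exact (Finset.sum_eq_single (⟨k * g * k⁻¹, hk⟩ : S)
      (fun b _ hb => if_neg (fun h => hb (Subtype.ext h.symm))) (by simp)).trans (by simp)
  · rw [if_neg hk]
    exact Finset.sum_eq_zero fun s _ => if_neg (fun (h : k * g * k⁻¹ = (s : G)) => hk (by rw [h]; exact s.2))

/-- The basic identity relating the count of pairs to characters. -/
theorem sum_mS_centralChar (S : Subgroup G) [Fintype S] (zi zj : G) :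
    ∑ χ : IrrCharacter G, mS S χ * centralChar (χ : G → ℂ) zj * (χ : G → ℂ) zi⁻¹ =
      (Nat.card S : ℂ)⁻¹ * (Nat.card (Subgroup.centralizer ({zi} : Set G)) : ℂ) *
        (Nat.card {yz : G × G // IsConj zi yz.1 ∧ IsConj zj yz.2 ∧ yz.2 * yz.1⁻¹ ∈ S} : ℂ) := by
  classical
  -- the right side as a sum
  have hN : (Nat.card {yz : G × G // IsConj zi yz.1 ∧ IsConj zj yz.2 ∧ yz.2 * yz.1⁻¹ ∈ S} : ℂ) =
      ∑ y : G, if IsConj zi y then
        (∑ z : G, if IsConj zj z ∧ z * y⁻¹ ∈ S then (1 : ℂ) else 0) else 0 := by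
    rw [Nat.card_eq_fintype_card, Fintype.card_subtype, Finset.card_filter]
    push_cast
    rw [Fintype.sum_prod_type]
    refine Finset.sum_congr rfl fun y _ => ?_
    by_cases hy : IsConj zi y
    · rw [if_pos hy]
      refine Finset.sum_congr rfl fun z _ => ?_
      simp only [hy, true_and]
    · rw [if_neg hy]
      refine Finset.sum_eq_zero fun z _ => ?_
      simp only [hy, false_and, if_false]
  have h1 : ∀ χ : IrrCharacter G, mS S χ * centralChar (χ : G → ℂ) zj * (χ : G → ℂ) zi⁻¹ =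
      ∑ h : G, if IsConj zj h then mS S χ * (χ : G → ℂ) (h * zi⁻¹) else 0 := by
    intro χ
    rw [mul_assoc, ← sum_isConj_mul χ.2 zj zi⁻¹, Finset.mul_sum]
    refine Finset.sum_congr rfl fun h _ => ?_
    split_ifs <;> simp
  simp only [h1]
  rw [Finset.sum_comm]
  have h2 : ∀ h : G, (∑ χ : IrrCharacter G, if IsConj zj h then mS S χ * (χ : G → ℂ) (h * zi⁻¹) else 0) =
      (Nat.card S : ℂ)⁻¹ * ∑ k : G, if IsConj zj h ∧ k * (h * zi⁻¹) * k⁻¹ ∈ S then (1 : ℂ) else 0 := by
    intro h
    by_cases hh : IsConj zj h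
    · simp only [hh, true_and]
      exact sum_mS_mul S _
    · simp only [hh, false_and, if_false, Finset.sum_const_zero, mul_zero]
  simp only [h2]
  rw [← Finset.mul_sum, Finset.sum_comm]
  -- substitute
  have h4 : ∀ k : G, (∑ h : G, if IsConj zj h ∧ k * (h * zi⁻¹) * k⁻¹ ∈ S then (1 : ℂ) else 0) =
      ∑ z : G, if IsConj zj z ∧ z * (k * zi * k⁻¹)⁻¹ ∈ S then (1 : ℂ) else 0 := by
    intro k
    rw [← Equiv.sum_comp (MulAut.conj k).toEquiv
      (fun z => if IsConj zj z ∧ z * (k * zi * k⁻¹)⁻¹ ∈ S then (1 : ℂ) else 0)]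
    refine Finset.sum_congr rfl fun h _ => ?_
    have e1 : (MulAut.conj k).toEquiv h = k * h * k⁻¹ := rfl
    have e2 : k * h * k⁻¹ * (k * zi * k⁻¹)⁻¹ = k * (h * zi⁻¹) * k⁻¹ := by group
    have e3 : IsConj zj (k * h * k⁻¹) ↔ IsConj zj h :=
      ⟨fun c => c.trans (isConj_iff.2 ⟨k⁻¹, by group⟩), fun c => c.trans (isConj_iff.2 ⟨k, rfl⟩)⟩
    rw [e1, e2]
    simp only [e3]
  simp only [h4]
  -- collect the conjugates of `zi`
  have h5 : ∀ k : G, (∑ z : G, if IsConj zj z ∧ z * (k * zi * k⁻¹)⁻¹ ∈ S then (1 : ℂ) else 0) =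
      ∑ y : G, (if k * zi * k⁻¹ = y then 1 else 0) *
        ∑ z : G, if IsConj zj z ∧ z * y⁻¹ ∈ S then (1 : ℂ) else 0 := by
    intro k
    symm
    rw [Finset.sum_eq_single (k * zi * k⁻¹)]
    · rw [if_pos rfl, one_mul]
    · intro b _ hb
      rw [if_neg (Ne.symm hb), zero_mul]
    · intro hn
      exact absurd (Finset.mem_univ _) hn
  simp only [h5]
  rw [Finset.sum_comm]
  have h6 : ∀ y : G, (∑ k : G, (if k * zi * k⁻¹ = y then (1 : ℂ) else 0) *
        ∑ z : G, if IsConj zj z ∧ z * y⁻¹ ∈ S then (1 : ℂ) else 0) =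
      (Nat.card (Subgroup.centralizer ({zi} : Set G)) : ℂ) *
        (if IsConj zi y then (∑ z : G, if IsConj zj z ∧ z * y⁻¹ ∈ S then (1 : ℂ) else 0) else 0) := by
    intro y
    rw [← Finset.sum_mul]
    have h7 : (∑ k : G, (if k * zi * k⁻¹ = y then (1 : ℂ) else 0)) = conjCount y zi := by
      unfold conjCount
      refine Finset.sum_congr rfl fun k _ => ?_
      congr
    rw [h7]
    by_cases hy : IsConj zi y
    · rw [if_pos hy, conjCount_of_isConj hy]
    · rw [if_neg hy, conjCount_of_not_isConj hy, zero_mul, mul_zero]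
  simp only [h6]
  rw [← Finset.mul_sum, hN, mul_assoc]

end Count

section Blocks

variable {G : Type u} [Group G] [Fintype G] {p : ℕ} [hp : Fact p.Prime] {M : Ideal AlgInt} [hMp : M.IsPrime]

/-- Conjugates of a normal subgroup. -/
lemma conj_mem_of_mem_map {D : Subgroup G} [hD : D.Normal] {Q : Subgroup G} {x : G}
    (h : D ≤ Q.map (MulAut.conj x).toMonoidHom) : D ≤ Q := by
  intro a ha
  obtain ⟨b, hb, hb'⟩ := h (hD.conj_mem a ha x)
  have hb2 : x * b * x⁻¹ = x * a * x⁻¹ := hb'
  have : b = a := mul_left_cancel (mul_right_cancel hb2)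
  exact this ▸ hb

lemma map_conj_eq_of_normal (D : Subgroup G) [hD : D.Normal] (x : G) :
    D.map (MulAut.conj x).toMonoidHom = D := by
  refine le_antisymm ?_ ?_
  · rintro _ ⟨a, ha, rfl⟩
    exact hD.conj_mem a ha x
  · intro a ha
    refine ⟨x⁻¹ * a * x, ?_, ?_⟩
    · have := hD.conj_mem a ha x⁻¹
      simpa using this
    · show x * (x⁻¹ * a * x) * x⁻¹ = a
      group

lemma le_of_map_conj_le {D : Subgroup G} [hD : D.Normal] {Q : Subgroup G} {x : G}
    (h : Q.map (MulAut.conj x).toMonoidHom ≤ D) : Q ≤ D := by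
  intro a ha
  have h1 : x * a * x⁻¹ ∈ D := h ⟨a, ha, rfl⟩
  have h2 := hD.conj_mem _ h1 x⁻¹
  have h3 : x⁻¹ * (x * a * x⁻¹) * x⁻¹⁻¹ = a := by group
  rwa [h3] at h2

lemma card_sylow_map {g : G} (Q : Sylow p (Subgroup.centralizer ({g} : Set G))) :
    Nat.card ((Q : Subgroup (Subgroup.centralizer ({g} : Set G))).map
      (Subgroup.centralizer ({g} : Set G)).subtype) =
      p ^ (Nat.card (Subgroup.centralizer ({g} : Set G))).factorization p := by
  rw [← Sylow.card_eq_multiplicity Q]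
  exact Nat.card_congr (Subgroup.equivMapOfInjective _ _ Subtype.val_injective).toEquiv.symm

/-- Equality of two Sylow images given one is normal in `G`. -/
lemma sylow_map_eq_of_normal {D : Subgroup G} [hD : D.Normal] {z : G}
    (Q Q' : Sylow p (Subgroup.centralizer ({z} : Set G)))
    (hQ : (Q : Subgroup (Subgroup.centralizer ({z} : Set G))).map
      (Subgroup.centralizer ({z} : Set G)).subtype = D) :
    (Q' : Subgroup (Subgroup.centralizer ({z} : Set G))).map
      (Subgroup.centralizer ({z} : Set G)).subtype = D := by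
  have h1 : IsPGroup p D := hQ ▸ isPGroup_sylow_map Q
  have h2 : D ≤ Subgroup.centralizer ({z} : Set G) := hQ ▸ sylow_map_le Q
  obtain ⟨x, hx⟩ := exists_le_map_conj Q' h1 h2
  have h3 := conj_mem_of_mem_map hx
  refine (Subgroup.eq_of_le_of_card_ge h3 ?_).symm
  rw [card_sylow_map Q', ← hQ, card_sylow_map Q]

/-- A block with a central character outside the local ideal at a class with Sylow `D` has `D` as
defect group. -/
theorem isDefectGroup_of_centralChar (hM : IsPModular p M) {D : Subgroup G} [hD : D.Normal]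
    (hDp : IsPGroup p D) {z : G} (Q : Sylow p (Subgroup.centralizer ({z} : Set G)))
    (hQ : (Q : Subgroup (Subgroup.centralizer ({z} : Set G))).map
      (Subgroup.centralizer ({z} : Set G)).subtype = D) {χ : IrrCharacter G}
    (hχ : ¬ MemLocalIdeal M (centralChar (χ : G → ℂ) z)) :
    IsDefectGroup p M (blockOf M (χ : G → ℂ)) D := by
  have hB : IsPBlock M (blockOf M (χ : G → ℂ)) := ⟨χ, rfl⟩
  obtain ⟨g₀, hg₀⟩ := exists_isDefectClass hB
  obtain ⟨D₀⟩ : Nonempty (Sylow p (Subgroup.centralizer ({g₀} : Set G))) := inferInstance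
  refine ⟨g₀, hg₀, D₀, ?_⟩
  obtain ⟨x, Q', hle⟩ := (min_max hM _ hB g₀ hg₀ D₀ z).2 ⟨χ, mem_blockOf_self χ, hχ⟩
  rw [sylow_map_eq_of_normal Q Q' hQ] at hle
  have h1 := le_of_map_conj_le hle
  refine le_antisymm ?_ h1
  -- the normal subgroup lies in the defect group
  obtain ⟨g, hg, hcom⟩ := Cfsg.Agent.Lib.Blocks.Green.exists_blockCoeff_notMem_centralizes hM D hDp hB
  have hDg : D ≤ Subgroup.centralizer ({g} : Set G) := by
    intro q hq
    rw [mem_centralizer_singleton_iff]
    refine hcom q hq ?_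
    have := hD.conj_mem q hq g⁻¹
    simpa using this
  obtain ⟨t, Q'', hle2⟩ := (min_max hM _ hB g₀ hg₀ D₀ g).1 (memLocalRing_blockCoeff hB g) hg
  obtain ⟨u, hu⟩ := exists_le_map_conj Q'' hDp hDg
  have h2 := conj_mem_of_mem_map hu
  exact conj_mem_of_mem_map (h2.trans hle2)

/-- The consequence of min-max for a defect group that is normal. -/
theorem exists_sylow_map_eq_of_block (hM : IsPModular p M) {D : Subgroup G} [hD : D.Normal]
    {B B' : Set (IrrCharacter G)} (hB : IsPBlock M B) (hB' : IsPBlock M B')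
    (hBD : IsDefectGroup p M B D) (hBD' : IsDefectGroup p M B' D) {x : G}
    (ha : ¬ MemLocalIdeal M (blockCoeff B' x)) {χ : IrrCharacter G} (hχB : χ ∈ B)
    (hc : ¬ MemLocalIdeal M (centralChar (χ : G → ℂ) x)) :
    ∃ Q : Sylow p (Subgroup.centralizer ({x} : Set G)),
      (Q : Subgroup (Subgroup.centralizer ({x} : Set G))).map
        (Subgroup.centralizer ({x} : Set G)).subtype = D := by
  obtain ⟨g, hg, D₀, hD₀⟩ := hBD'
  obtain ⟨t, Q, hQ⟩ := (min_max hM B' hB' g hg D₀ x).1 (memLocalRing_blockCoeff hB' x) ha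
  obtain ⟨g₁, hg₁, D₁, hD₁⟩ := hBD
  obtain ⟨t₁, Q₁, hQ₁⟩ := (min_max hM B hB g₁ hg₁ D₁ x).2 ⟨χ, hχB, hc⟩
  rw [← hD₀, map_conj_eq_of_normal] at hQ
  rw [← hD₁, map_conj_eq_of_normal] at hQ₁
  refine ⟨Q, le_antisymm hQ ?_⟩
  have h1 := Subgroup.eq_of_le_of_card_ge (hQ.trans hQ₁) (by rw [card_sylow_map Q, card_sylow_map Q₁])
  rw [h1]
  exact hQ₁

end Blocks



section Congr

variable {G : Type u} [Group G] [Fintype G] [Fintype (IrrCharacter G)] {p : ℕ} [hp : Fact p.Prime]
  {M : Ideal AlgInt} [hMp : M.IsPrime]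

open Classical in
/-- The block part of the multiplicities: only the identity of the `p`-subgroup `S` contributes. -/
theorem sum_block_mS (hM : IsPModular p M) {B : Set (IrrCharacter G)} (hB : IsPBlock M B)
    (S : Subgroup G) [Fintype S] (hS : IsPGroup p S) {z : G} (hz : ¬ p ∣ orderOf z) :
    ∑ χ : IrrCharacter G, (if χ ∈ B then mS S χ * (χ : G → ℂ) z⁻¹ else 0) =
      ((Nat.card G : ℂ) / (Nat.card S : ℂ)) * blockCoeff B z := by
  have hz' : ¬ p ∣ orderOf z⁻¹ := by rwa [orderOf_inv]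
  have key : ∀ s : S, ∑ χ : IrrCharacter G, (if χ ∈ B then (χ : G → ℂ) z⁻¹ * conj ((χ : G → ℂ) s) else 0) =
      if s = 1 then (Nat.card G : ℂ) * blockCoeff B z else 0 := by
    intro s
    rw [← Finset.sum_filter, ← Cfsg.Agent.Lib.Blocks.Osima.finsum_mem_eq_sum_filter]
    by_cases hs : s = 1
    · rw [if_pos hs, hs, blockCoeff, ← mul_assoc,
        mul_inv_cancel₀ (Nat.cast_ne_zero.mpr Nat.card_pos.ne'), one_mul]
      refine finsum_congr fun χ => finsum_congr fun _ => ?_
      rw [Cfsg.Agent.Lib.Char.Complete.isIrr_inv χ.2 z, Subgroup.coe_one,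
        Cfsg.Agent.Lib.Blocks.WeakOrth.conj_irr_one χ.2, mul_comm]
    · rw [if_neg hs]
      obtain ⟨k, hk⟩ := (hS s)
      have hord : orderOf (s : G) = orderOf s := Subgroup.orderOf_coe s
      have hy : p ∣ orderOf (s : G) := by
        rw [hord]
        have h1 : orderOf s ∣ p ^ k := orderOf_dvd_of_pow_eq_one hk
        obtain ⟨j, -, hj⟩ := (Nat.dvd_prime_pow hp.out).1 h1
        rw [hj]
        refine dvd_pow_self p ?_
        rintro rfl
        apply hs
        rw [pow_zero] at hj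
        exact orderOf_eq_one_iff.1 hj
      exact Cfsg.Agent.S0907.result p M hM B hB z⁻¹ s hz' hy
  have hS0 : (Nat.card S : ℂ) ≠ 0 := Nat.cast_ne_zero.mpr Nat.card_pos.ne'
  have h1 : ∀ χ : IrrCharacter G, (if χ ∈ B then mS S χ * (χ : G → ℂ) z⁻¹ else 0) =
      (Nat.card S : ℂ)⁻¹ * ∑ s : S, (if χ ∈ B then (χ : G → ℂ) z⁻¹ * conj ((χ : G → ℂ) s) else 0) := by
    intro χ
    by_cases hχ : χ ∈ B
    · simp only [if_pos hχ, mS, ← Finset.mul_sum]
      rw [mul_assoc]
      congr 1
      rw [mul_comm, Finset.mul_sum]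
    · simp [if_neg hχ]
  simp only [h1]
  rw [← Finset.mul_sum, Finset.sum_comm]
  simp only [key]
  rw [Finset.sum_ite_eq' Finset.univ (1 : S), if_pos (Finset.mem_univ _)]
  field_simp

open Classical in
/-- Reduction modulo the local ideal of the character sum: only the blocks with defect group `D`
contribute. -/
theorem memLocalIdeal_sum_sub (hM : IsPModular p M) {D : Subgroup G} [hD : D.Normal]
    (hDp : IsPGroup p D) (S : Subgroup G) [Fintype S] (hS : IsPGroup p S)
    {𝔅 : Type*} [Fintype 𝔅] (bl : 𝔅 → Set (IrrCharacter G)) (rep : 𝔅 → IrrCharacter G)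
    (hrep : ∀ b, bl b = blockOf M (rep b : G → ℂ)) (hinj : Function.Injective bl)
    (hsurj : ∀ χ : IrrCharacter G, IsDefectGroup p M (blockOf M (χ : G → ℂ)) D →
      ∃ b, bl b = blockOf M (χ : G → ℂ))
    {zi zj : G} (hzi : ¬ p ∣ orderOf zi) (Q : Sylow p (Subgroup.centralizer ({zj} : Set G)))
    (hQ : (Q : Subgroup (Subgroup.centralizer ({zj} : Set G))).map
      (Subgroup.centralizer ({zj} : Set G)).subtype = D) :
    MemLocalIdeal M (∑ χ : IrrCharacter G, mS S χ * centralChar (χ : G → ℂ) zj * (χ : G → ℂ) zi⁻¹ -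
      ∑ b : 𝔅, centralChar (rep b : G → ℂ) zj *
        (((Nat.card G : ℂ) / (Nat.card S : ℂ)) * blockCoeff (bl b) zi)) := by
  have hblock : ∀ b, IsPBlock M (bl b) := fun b => ⟨rep b, hrep b⟩
  have h1 : ∀ b, ((Nat.card G : ℂ) / (Nat.card S : ℂ)) * blockCoeff (bl b) zi =
      ∑ χ : IrrCharacter G, (if χ ∈ bl b then mS S χ * (χ : G → ℂ) zi⁻¹ else 0) :=
    fun b => (sum_block_mS hM (hblock b) S hS hzi).symm
  simp only [h1, Finset.mul_sum]
  rw [Finset.sum_comm, ← Finset.sum_sub_distrib]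
  refine memLocalIdeal_sum _ _ fun χ _ => ?_
  -- the bracket
  have hbr : MemLocalIdeal M (centralChar (χ : G → ℂ) zj -
      ∑ b : 𝔅, if χ ∈ bl b then centralChar (rep b : G → ℂ) zj else 0) := by
    by_cases hex : ∃ b, χ ∈ bl b
    · obtain ⟨b₀, hb₀⟩ := hex
      have huniq : ∀ b, χ ∈ bl b → b = b₀ := by
        intro b hb
        apply hinj
        rw [hrep] at hb hb₀
        rw [hrep, hrep, ← blockOf_eq_of_mem hb, blockOf_eq_of_mem hb₀]
      rw [Finset.sum_eq_single b₀]
      · rw [if_pos hb₀]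
        have h2 : SameBlock M (rep b₀ : G → ℂ) (χ : G → ℂ) := by
          have := hb₀
          rw [hrep] at this
          exact this
        have h3 := memLocalIdeal_neg (h2 zj)
        rwa [neg_sub] at h3
      · intro b _ hb
        rw [if_neg (fun h => hb (huniq b h))]
      · intro hn
        exact absurd (Finset.mem_univ _) hn
    · have h0 : (∑ b : 𝔅, if χ ∈ bl b then centralChar (rep b : G → ℂ) zj else 0) = 0 :=
        Finset.sum_eq_zero fun b _ => if_neg (fun h => hex ⟨b, h⟩)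
      rw [h0, sub_zero]
      by_contra hc
      obtain ⟨b, hb⟩ := hsurj χ (isDefectGroup_of_centralChar hM hDp Q hQ hc)
      exact hex ⟨b, hb ▸ mem_blockOf_self χ⟩
  have hm : MemLocalRing M (mS S χ * (χ : G → ℂ) zi⁻¹) := by
    obtain ⟨n, hn⟩ := exists_nat_mS S χ
    rw [hn]
    exact memLocalRing_mul (memLocalRing_natCast n) (memLocalRing_of_isIntegral (isIntegral_irr χ.2 _))
  have := memLocalIdeal_mul_left hm hbr
  convert this using 1
  rw [mul_sub, Finset.mul_sum]
  congr 1
  · ring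
  · refine Finset.sum_congr rfl fun b _ => ?_
    by_cases hb : χ ∈ bl b
    · simp only [if_pos hb]; ring
    · simp only [if_neg hb]; ring

open Classical in
/-- The idempotent expansion on the classes with Sylow `D`. -/
theorem memLocalIdeal_sum_block (hM : IsPModular p M) {D : Subgroup G} [hD : D.Normal]
    {B B' : Set (IrrCharacter G)} (hB : IsPBlock M B) (hB' : IsPBlock M B')
    (hBD : IsDefectGroup p M B D) (hBD' : IsDefectGroup p M B' D) {χ : IrrCharacter G} (hχB : χ ∈ B)
    {ι : Type*} [Fintype ι] (K : ι → ConjClasses G) (hKinj : Function.Injective K)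
    (hK : ∀ C : ConjClasses G, (∃ x ∈ C.carrier, ¬ p ∣ orderOf x ∧
      ∃ Q : Sylow p (Subgroup.centralizer ({x} : Set G)),
        (Q : Subgroup (Subgroup.centralizer ({x} : Set G))).map
          (Subgroup.centralizer ({x} : Set G)).subtype = D) → ∃ i, K i = C)
    (z : ι → G) (hz : ∀ i, ConjClasses.mk (z i) = K i) :
    MemLocalIdeal M (∑ i, centralChar (χ : G → ℂ) (z i) * blockCoeff B' (z i) -
      if χ ∈ B' then 1 else 0) := by
  have h1 := omega_eq_sum_centralChar (isClassFunction_of_irr χ.2) (isClassFunction_blockElt B')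
  rw [omega_blockElt] at h1
  rw [h1]
  simp only [coeff_blockElt]
  have h2 : ∀ i, centralChar (χ : G → ℂ) (z i) * blockCoeff B' (z i) =
      blockCoeff B' (K i).out * centralChar (χ : G → ℂ) (K i).out := by
    intro i
    have h3 : IsConj (K i).out (z i) := by
      rw [← hz]
      exact isConj_mk_out (z i)
    obtain ⟨c, hc⟩ := isConj_iff.1 h3
    rw [← hc, isClassFunction_blockCoeff, Cfsg.Agent.Lib.Blocks.Principal.centralChar_conj χ.2, mul_comm]
  simp only [h2]
  have h4 : ∑ i, blockCoeff B' (K i).out * centralChar (χ : G → ℂ) (K i).out =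
      ∑ C ∈ Finset.univ.image K, blockCoeff B' C.out * centralChar (χ : G → ℂ) C.out := by
    rw [Finset.sum_image (fun a _ b _ h => hKinj h)]
  rw [h4, ← Finset.sum_sdiff (Finset.subset_univ (Finset.univ.image K))]
  have h5 : ∀ a b : ℂ, b - (a + b) = -a := fun a b => by ring
  rw [h5]
  refine memLocalIdeal_neg (memLocalIdeal_sum _ _ fun C hC => ?_)
  by_contra hc
  have hc1 : ¬ MemLocalIdeal M (blockCoeff B' C.out) := fun h =>
    hc (memLocalIdeal_mul_right h (memLocalRing_centralChar χ.2 _))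
  have hc2 : ¬ MemLocalIdeal M (centralChar (χ : G → ℂ) C.out) := fun h =>
    hc (memLocalIdeal_mul_left (memLocalRing_blockCoeff hB' _) h)
  obtain ⟨Q, hQ⟩ := exists_sylow_map_eq_of_block hM hB hB' hBD hBD' hc1 hχB hc2
  have hreg : ¬ p ∣ orderOf C.out := fun hd => hc1 (by
    rw [Cfsg.Agent.Lib.Blocks.DefectSupport.blockCoeff_eq_zero_of_dvd hM hB' hd]
    exact memLocalIdeal_zero)
  obtain ⟨i, hi⟩ := hK C ⟨C.out, by
    rw [ConjClasses.mem_carrier_iff_mk_eq]
    exact mk_out C, hreg, Q, hQ⟩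
  exact (Finset.mem_sdiff.1 hC).2 (Finset.mem_image.2 ⟨i, Finset.mem_univ _, hi⟩)

end Congr


/-- **Robinson's count** (statement S4443). -/
theorem result {G : Type*} [Group G] [Finite G] (p : ℕ) [Fact p.Prime] (M : Ideal Cfsg.AlgInt) (hM : Cfsg.IsPModular p M) (D : Subgroup G) [D.Normal] (hD : IsPGroup p D) (S : Sylow p G) {ι : Type*} [Fintype ι] [DecidableEq ι] (K : ι → ConjClasses G) (hKinj : Function.Injective K) (hK : ∀ C : ConjClasses G, (∃ i, K i = C) ↔ ∃ x ∈ C.carrier, ¬ p ∣ orderOf x ∧ ∃ Q : Sylow p (Subgroup.centralizer ({x} : Set G)), (Q : Subgroup (Subgroup.centralizer ({x} : Set G))).map (Subgroup.centralizer ({x} : Set G)).subtype = D) : Nat.card {B : Set (Cfsg.IrrCharacter G) // Cfsg.IsPBlock M B ∧ Cfsg.IsDefectGroup p M B D} = (Matrix.of fun i j : ι => ((Nat.card {yz : G × G // yz.1 ∈ (K i).carrier ∧ yz.2 ∈ (K j).carrier ∧ yz.2 * yz.1⁻¹ ∈ (S : Subgroup G)} / p ^ ((Nat.card G).factorization p - (Nat.card D).factorization p) : ℕ) : ZMod p)).rank :=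 by
  classical
  cases nonempty_fintype G
  haveI hMp : M.IsPrime := isPrime_of_isPModular hM
  haveI : Fintype (IrrCharacter G) := Fintype.ofFinite _
  haveI : Fintype (S : Subgroup G) := Fintype.ofFinite _
  have hpp : p.Prime := Fact.out
  -- representatives
  have hz : ∀ i, ∃ x ∈ (K i).carrier, ¬ p ∣ orderOf x ∧ ∃ Q : Sylow p (Subgroup.centralizer ({x} : Set G)), (Q : Subgroup (Subgroup.centralizer ({x} : Set G))).map (Subgroup.centralizer ({x} : Set G)).subtype = D :=
    fun i => (hK (K i)).1 ⟨i, rfl⟩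
  choose z hzK hzreg Q hQ using hz
  have hzmk : ∀ i, ConjClasses.mk (z i) = K i := fun i => ConjClasses.mem_carrier_iff_mk_eq.1 (hzK i)
  -- numerics
  obtain ⟨d', hd'⟩ := IsPGroup.iff_card.1 hD
  have hdd : (Nat.card D).factorization p = d' := by
    rw [hd', hpp.factorization_pow, Finsupp.single_eq_same]
  set a := (Nat.card G).factorization p with ha
  set d := (Nat.card D).factorization p with hd
  have hDcard : Nat.card D = p ^ d := by rw [hdd]; exact hd'
  have hSc : Nat.card (S : Subgroup G) = p ^ a := Sylow.card_eq_multiplicity S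
  have hda : d ≤ a := by
    have h1 : p ^ d ∣ Nat.card G := by
      rw [← hDcard]
      exact Subgroup.card_subgroup_dvd_card D
    exact (hpp.pow_dvd_iff_le_factorization Nat.card_pos.ne').1 h1
  have hCz : ∀ i, (Nat.card (Subgroup.centralizer ({z i} : Set G))).factorization p = d := by
    intro i
    have h1 := card_sylow_map (Q i)
    rw [hQ i, hDcard] at h1
    exact (Nat.pow_right_injective hpp.two_le h1).symm
  let c : ι → ℕ := fun i => ordCompl[p] (Nat.card (Subgroup.centralizer ({z i} : Set G)))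
  have hcp : ∀ i, ¬ p ∣ c i := fun i => Nat.not_dvd_ordCompl hpp Nat.card_pos.ne'
  have hcc : ∀ i, p ^ d * c i = Nat.card (Subgroup.centralizer ({z i} : Set G)) := by
    intro i
    have h := Nat.ordProj_mul_ordCompl_eq_self (Nat.card (Subgroup.centralizer ({z i} : Set G))) p
    simp only [c]
    rw [hCz i] at h ⊢
    exact h
  -- the counts
  let N : ι → ι → ℕ := fun i j => Nat.card {yz : G × G // yz.1 ∈ (K i).carrier ∧ yz.2 ∈ (K j).carrier ∧ yz.2 * yz.1⁻¹ ∈ (S : Subgroup G)}
  have hmem : ∀ i x, x ∈ (K i).carrier ↔ IsConj (z i) x := by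
    intro i x
    rw [ConjClasses.mem_carrier_iff_mk_eq, ← hzmk i, ConjClasses.mk_eq_mk_iff_isConj]
    exact ⟨fun h => h.symm, fun h => h.symm⟩
  have hNconj : ∀ i j, N i j = Nat.card {yz : G × G // IsConj (z i) yz.1 ∧ IsConj (z j) yz.2 ∧ yz.2 * yz.1⁻¹ ∈ (S : Subgroup G)} := by
    intro i j
    refine Nat.card_congr (Equiv.subtypeEquivRight fun yz => ?_)
    rw [hmem, hmem]
  have hpC : ∀ n : ℕ, ((p : ℂ) ^ n) ≠ 0 := fun n => pow_ne_zero _ (Nat.cast_ne_zero.mpr hpp.ne_zero)
  have hT : ∀ i j, ∑ χ : IrrCharacter G, mS (S : Subgroup G) χ * centralChar (χ : G → ℂ) (z j) * (χ : G → ℂ) (z i)⁻¹ =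
      ((c i * N i j : ℕ) : ℂ) / ((p ^ (a - d) : ℕ) : ℂ) := by
    intro i j
    rw [sum_mS_centralChar, ← hNconj, hSc, ← hcc i]
    have h1 : (p : ℂ) ^ a = (p : ℂ) ^ d * (p : ℂ) ^ (a - d) := by
      rw [← pow_add, Nat.add_sub_cancel' hda]
    push_cast
    rw [h1]
    have := hpC d
    have := hpC (a - d)
    field_simp
  have hint : ∀ i j, IsIntegral ℤ (((c i * N i j : ℕ) : ℂ) / ((p ^ (a - d) : ℕ) : ℂ)) := by
    intro i j
    rw [← hT]
    refine IsIntegral.sum _ fun χ _ => ?_
    obtain ⟨n, hn⟩ := exists_nat_mS (S : Subgroup G) χ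
    rw [hn]
    have h0 : IsIntegral ℤ (n : ℂ) := by simpa using isIntegral_algebraMap (R := ℤ) (A := ℂ) (x := (n : ℤ))
    exact (h0.mul (isIntegral_centralChar χ.2 _)).mul (isIntegral_irr χ.2 _)
  have hdvd : ∀ i j, p ^ (a - d) ∣ N i j := by
    intro i j
    have h1 := Cfsg.Agent.Lib.Char.Values2.dvd_of_isIntegral_div (pow_ne_zero _ hpp.ne_zero) (hint i j)
    have h2 : Nat.Coprime (p ^ (a - d)) (c i) :=
      Nat.Coprime.pow_left _ ((Nat.Prime.coprime_iff_not_dvd hpp).2 (hcp i))
    exact h2.dvd_of_dvd_mul_left h1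
  let W : ι → ι → ℕ := fun i j => N i j / p ^ (a - d)
  have hNW : ∀ i j, N i j = p ^ (a - d) * W i j := fun i j => (Nat.mul_div_cancel' (hdvd i j)).symm
  have hT' : ∀ i j, ∑ χ : IrrCharacter G, mS (S : Subgroup G) χ * centralChar (χ : G → ℂ) (z j) * (χ : G → ℂ) (z i)⁻¹ =
      ((c i * W i j : ℕ) : ℂ) := by
    intro i j
    rw [hT, hNW]
    have := hpC (a - d)
    push_cast
    field_simp
  -- the blocks
  let 𝔅 : Type _ := {B : Set (IrrCharacter G) // IsPBlock M B ∧ IsDefectGroup p M B D}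
  haveI : Fintype 𝔅 := Fintype.ofFinite _
  let rep : 𝔅 → IrrCharacter G := fun b => Classical.choose b.2.1
  have hrep : ∀ b : 𝔅, b.1 = blockOf M (rep b : G → ℂ) := fun b => Classical.choose_spec b.2.1
  have hsurj : ∀ χ : IrrCharacter G, IsDefectGroup p M (blockOf M (χ : G → ℂ)) D →
      ∃ b : 𝔅, b.1 = blockOf M (χ : G → ℂ) := fun χ h => ⟨⟨_, ⟨χ, rfl⟩, h⟩, rfl⟩
  let g : ℕ := ordCompl[p] (Nat.card G)
  have hgp : ¬ p ∣ g := Nat.not_dvd_ordCompl hpp Nat.card_pos.ne'
  have hgG : ((Nat.card G : ℂ) / (Nat.card (S : Subgroup G) : ℂ)) = (g : ℂ) := by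
    have h := Nat.ordProj_mul_ordCompl_eq_self (Nat.card G) p
    rw [hSc]
    rw [div_eq_iff (by push_cast; exact hpC a)]
    conv_lhs => rw [← h]
    push_cast
    ring
  let r := residue M
  let Ωl : 𝔅 → ι → localRing M := fun b j => ⟨centralChar (rep b : G → ℂ) (z j), memLocalRing_centralChar (rep b).2 _⟩
  let Ql : ι → 𝔅 → localRing M := fun j b => ⟨blockCoeff b.1 (z j), memLocalRing_blockCoeff b.2.1 _⟩
  have hA : ∀ i j, r ((c i : localRing M)) * r ((W i j : localRing M)) =
      ∑ b : 𝔅, r (Ωl b j) * (r (g : localRing M) * r (Ql i b)) := by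
    intro i j
    have h1 := memLocalIdeal_sum_sub hM hD (S : Subgroup G) S.isPGroup' (𝔅 := 𝔅) Subtype.val rep hrep
      Subtype.val_injective hsurj (hzreg i) (Q j) (hQ j)
    rw [hT', hgG] at h1
    have h2 := (residue_eq_iff (M := M) (x := (c i : localRing M) * (W i j : localRing M))
      (y := ∑ b : 𝔅, Ωl b j * ((g : localRing M) * Ql i b))).2 (by
        convert h1 using 1
        push_cast
        simp [Ωl, Ql])
    simpa only [map_mul, map_sum] using h2
  have hB : ∀ b b' : 𝔅, ∑ j, r (Ωl b j) * r (Ql j b') = if b = b' then 1 else 0 := by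
    intro b b'
    have hmemb : rep b ∈ b.1 := by
      rw [hrep b]
      exact mem_blockOf_self _
    have h1 := memLocalIdeal_sum_block hM b.2.1 b'.2.1 b.2.2 b'.2.2 hmemb K hKinj
      (fun C hC => (hK C).2 hC) z hzmk
    have h3 : (rep b ∈ b'.1) ↔ b = b' := by
      constructor
      · intro h
        apply Subtype.ext
        rw [hrep b, hrep b']
        rw [hrep b'] at h
        exact blockOf_eq_of_mem h
      · rintro rfl
        exact hmemb
    have h2 := (residue_eq_iff (M := M) (x := ∑ j, Ωl b j * Ql j b')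
      (y := if b = b' then 1 else 0)).2 (by
        convert h1 using 1
        by_cases hbb : b = b'
        · subst hbb
          simp [Ωl, Ql, hmemb]
        · have : rep b ∉ b'.1 := fun h => hbb (h3.1 h)
          simp [Ωl, Ql, hbb, this])
    rw [map_sum] at h2
    simp only [map_mul] at h2
    rw [h2]
    split_ifs <;> simp
  -- the residue field
  let F := localRing M ⧸ localIdeal M
  have hp0 : (p : F) = 0 := by
    have h1 : r (p : localRing M) = 0 :=
      (residue_eq_zero_iff (M := M)).2 (by simpa using memLocalIdeal_natCast_self hM)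
    simpa using h1
  haveI : CharP F p := (CharP.charP_iff_prime_eq_zero hpp).2 hp0
  have hne : ∀ n : ℕ, ¬ p ∣ n → (n : F) ≠ 0 := by
    intro n hn h0
    have h1 : r (n : localRing M) = 0 := by simpa using h0
    have h2 := (residue_eq_zero_iff (M := M)).1 h1
    have h3 : MemLocalIdeal M (n : ℂ) := by simpa using h2
    exact hn ((memLocalIdeal_natCast_iff hM).1 h3)
  -- the matrices
  let WF : Matrix ι ι F := Matrix.of fun i j => (W i j : F)
  let Om : Matrix 𝔅 ι F := Matrix.of fun b j => r (Ωl b j)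
  let Qm : Matrix ι 𝔅 F := Matrix.of fun j b => r (Ql j b)
  let u : ι → F := fun i => (g : F) / (c i : F)
  have hu : ∀ i, u i ≠ 0 := fun i => div_ne_zero (hne g hgp) (hne _ (hcp i))
  have hWF : WF = Matrix.diagonal u * Qm * Om := by
    ext i j
    rw [Matrix.mul_assoc, Matrix.diagonal_mul, Matrix.mul_apply]
    have h1 := hA i j
    simp only [map_natCast] at h1
    have hci : (c i : F) ≠ 0 := hne _ (hcp i)
    show (W i j : F) = (g : F) / (c i : F) * ∑ b, r (Ql i b) * r (Ωl b j)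
    rw [div_mul_eq_mul_div, eq_div_iff hci, mul_comm, h1, Finset.mul_sum]
    refine Finset.sum_congr rfl fun b _ => ?_
    ring
  have hOQ : Om * Qm = 1 := by
    ext b b'
    rw [Matrix.mul_apply, Matrix.one_apply]
    exact hB b b'
  have hrank : WF.rank = Fintype.card 𝔅 := by
    apply le_antisymm
    · rw [hWF]
      exact (Matrix.rank_mul_le_right _ _).trans (Matrix.rank_le_card_height _)
    · let P : Matrix 𝔅 ι F := Om * Matrix.diagonal (fun i => (u i)⁻¹)
      have h1 : P * WF * Qm = 1 := by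
        have h2 : P * Matrix.diagonal u = Om := by
          simp only [P]
          rw [Matrix.mul_assoc, Matrix.diagonal_mul_diagonal]
          have : (fun i => (u i)⁻¹ * u i) = fun _ => (1 : F) := by
            funext i
            exact inv_mul_cancel₀ (hu i)
          rw [this, Matrix.diagonal_one, Matrix.mul_one]
        rw [hWF]
        calc P * (Matrix.diagonal u * Qm * Om) * Qm
            = (P * Matrix.diagonal u) * Qm * (Om * Qm) := by simp only [Matrix.mul_assoc]
          _ = 1 := by rw [h2, hOQ, Matrix.mul_one]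
      calc Fintype.card 𝔅 = (1 : Matrix 𝔅 𝔅 F).rank := (Matrix.rank_one).symm
        _ = (P * WF * Qm).rank := by rw [h1]
        _ ≤ (P * WF).rank := Matrix.rank_mul_le_left _ _
        _ ≤ WF.rank := Matrix.rank_mul_le_right _ _
  -- base change
  let φ : ZMod p →+* F := ZMod.castHom (dvd_refl p) F
  have hmap : (Matrix.of fun i j : ι => ((N i j / p ^ (a - d) : ℕ) : ZMod p)).map φ = WF := by
    ext i j
    simp [φ, WF, W]
  show Nat.card 𝔅 = (Matrix.of fun i j : ι => ((N i j / p ^ (a - d) : ℕ) : ZMod p)).rank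
  rw [← rank_map_eq φ, hmap, hrank, Nat.card_eq_fintype_card]

end Cfsg.Agent.S4443
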