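import Cfsg.Statements.S4444
import Mathlib
import Cfsg.Agent.Lib.Char.GlaubP

set_option autoImplicit false
open Cfsg

namespace Cfsg.Agent.S4444

/-- The Glauberman correspondence for a p-group of operators. Inside a finite group Γ let S normalise G with the orders of G and S coprime, S a p-group, and let C = G ⊓ C(S) be the fixed points. Call an irreducible character χ of G S-invariant when χ(s g s⁻¹) = χ(g) for s ∈ S, g ∈ G. Then: (i) for every S-invariant χ there is exactly one irreducible character β of C whose multiplicity [χ_C, β] in the restriction of χ is not divisible by p; (ii) that multiplicity is ≡ 1 or ≡ −1 (mod p); (iii) distinct S-invariant χ give distinct β; (iv) every irreducible character of C arises in this way. So χ ↦ β is a bijection from the S-invariant irreducible characters of G onto the irreducible characters of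 C. -/
theorem result {Γ : Type*} [Group Γ] [Fintype Γ] (G S : Subgroup Γ) [Fintype G] (hnorm : ∀ s ∈ S, ∀ g ∈ G, s * g * s⁻¹ ∈ G) (hcop : (Nat.card G).Coprime (Nat.card S)) (p : ℕ) (hp : p.Prime) (hS : IsPGroup p S) (C : Subgroup Γ) [Fintype C] (hC : C = G ⊓ Subgroup.centralizer (S : Set Γ)) (hCG : C ≤ G) : (∀ χ : Cfsg.IrrCharacter G, (∀ s ∈ S, ∀ g g' : G, (g' : Γ) = s * g * s⁻¹ → (χ : G → ℂ) g' = (χ : G → ℂ) g) → ∃! β : Cfsg.IrrCharacter C, ∃ m : ℕ, Cfsg.classInner (fun c : C => (χ : G → ℂ) ⟨c, hCG c.2⟩) (β : C → ℂ) = (m : ℂ) ∧ ¬ p ∣ m) ∧ (∀ χ : Cfsg.IrrCharacter G, (∀ s ∈ S, ∀ g g' : G, (g' : Γ) = s * g * s⁻¹ → (χ : G → ℂ) g' = (χ : G → ℂ) g) → ∀ β : Cfsg.IrrCharacter C, ∀ m : ℕ, Cfsg.classInner (fun c : C => (χ : G → ℂ) ⟨c, hCG c.2⟩) (β : C → ℂ) = (m : ℂ) → ¬ p ∣ m → ((m : ℤ) ≡ 1 [ZMOD p] ∨ (m : ℤ) ≡ -1 [ZMOD p])) ∧ (∀ χ χ' : Cfsg.IrrCharacter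 G, (∀ s ∈ S, ∀ g g' : G, (g' : Γ) = s * g * s⁻¹ → (χ : G → ℂ) g' = (χ : G → ℂ) g) → (∀ s ∈ S, ∀ g g' : G, (g' : Γ) = s * g * s⁻¹ → (χ' : G → ℂ) g' = (χ' : G → ℂ) g) → ∀ β : Cfsg.IrrCharacter C, ∀ m m' : ℕ, Cfsg.classInner (fun c : C => (χ : G → ℂ) ⟨c, hCG c.2⟩) (β : C → ℂ) = (m : ℂ) → ¬ p ∣ m → Cfsg.classInner (fun c : C => (χ' : G → ℂ) ⟨c, hCG c.2⟩) (β : C → ℂ) = (m' : ℂ) → ¬ p ∣ m' → χ = χ') ∧ (∀ β : Cfsg.IrrCharacter C, ∃ χ : Cfsg.IrrCharacter G, (∀ s ∈ S, ∀ g g' : G, (g' : Γ) = s * g * s⁻¹ → (χ : G → ℂ) g' = (χ : G → ℂ) g) ∧ ∃ m : ℕ, Cfsg.classInner (fun c : C => (χ : G → ℂ) ⟨c, hCG c.2⟩) (β : C → ℂ) = (m : ℂ) ∧ ¬ p ∣ m) := by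
  classical
  obtain ⟨a, b, c⟩ := Cfsg.Agent.Lib.Char.GlaubP.corr (Γ := Γ) hp _ S rfl hS G C hnorm hcop hC hCG
  refine ⟨?_, ?_, ?_, ?_⟩
  · intro χ hχ
    obtain ⟨β, hβ⟩ := a χ hχ
    obtain ⟨m, hm, hnd, -⟩ := hβ.exists_not_dvd hp
    refine ⟨β, ⟨m, hm, hnd⟩, ?_⟩
    rintro β' ⟨m', hm', hnd'⟩
    exact hβ.eq_of_not_dvd hm' hnd'
  · intro χ hχ β m hm hnd
    obtain ⟨β₀, hβ₀⟩ := a χ hχ
    have h1 : β = β₀ := hβ₀.eq_of_not_dvd hm hnd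
    subst h1
    obtain ⟨m₀, hm₀, -, h⟩ := hβ₀.exists_not_dvd hp
    have h2 : m₀ = m := by
      have : (m₀ : ℂ) = m := by rw [← hm₀]; exact hm
      exact_mod_cast this
    subst h2
    exact h
  · intro χ χ' hχ hχ' β m m' hm hnd hm' hnd'
    obtain ⟨β₀, hβ₀⟩ := a χ hχ
    obtain ⟨β₁, hβ₁⟩ := a χ' hχ'
    have h1 : β = β₀ := hβ₀.eq_of_not_dvd hm hnd
    have h2 : β = β₁ := hβ₁.eq_of_not_dvd hm' hnd'
    rw [← h1] at hβ₀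
    rw [← h2] at hβ₁
    exact b χ χ' hχ hχ' β hβ₀ hβ₁
  · intro β
    obtain ⟨χ, hχ, hβ⟩ := c β
    obtain ⟨m, hm, hnd, -⟩ := hβ.exists_not_dvd hp
    exact ⟨χ, hχ, m, hm, hnd⟩


end Cfsg.Agent.S4444
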