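import Cfsg.Statements.S4445
import Mathlib
import Cfsg.Agent.Lib.Char.GlaubSolv

set_option autoImplicit false
open Cfsg

namespace Cfsg.Agent.S4445

/-- Inside a finite group Γ let the solvable subgroup S normalise G with the orders of G and S coprime. Then the number of S-invariant irreducible characters of G (χ(s g s⁻¹) = χ(g) for all s ∈ S, g ∈ G) equals the number of conjugacy classes of G mapped to themselves by conjugation by every element of S. -/
theorem result {Γ : Type*} [Group Γ] [Fintype Γ] (G S : Subgroup Γ) [Fintype G] (hnorm : ∀ s ∈ S, ∀ g ∈ G, s * g * s⁻¹ ∈ G) (hcop : (Nat.card G).Coprime (Nat.card S)) (hsolv : Group.IsSolvable S) : Nat.card {χ : Cfsg.IrrCharacter G // (∀ s ∈ S, ∀ g g' : G, (g' : Γ) = s * g * s⁻¹ → (χ : G → ℂ) g' = (χ : G → ℂ) g)} = Nat.card {K : ConjClasses G // ∀ s ∈ S, ∀ g g' : G, (g' : Γ) = s * g * s⁻¹ → ConjClasses.mk g = K → ConjClasses.mk g' = K} := by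
  classical
  have h1 := Cfsg.Agent.Lib.Char.GlaubSolv.card_sinv_eq (C := G ⊓ Subgroup.centralizer (S : Set Γ))
    hnorm hcop hsolv rfl
  have h2 := Cfsg.Agent.Lib.Char.GlaubSolv.card_fixed_classes
    (C := G ⊓ Subgroup.centralizer (S : Set Γ)) hnorm hcop hsolv rfl
  have h3 := Cfsg.Agent.Lib.Char.CompleteCor.card_irr_eq_card_conjClasses
    (G := ↥(G ⊓ Subgroup.centralizer (S : Set Γ)))
  exact (h1.trans h3).trans h2.symm


end Cfsg.Agent.S4445
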