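import Cfsg.Statements.S4446
import Mathlib
import Cfsg.Agent.Lib.Char.GlaubCyclic
-- import your own Cfsg.Agent.* helpers here

set_option autoImplicit false
open Cfsg

namespace Cfsg.Agent.S4446

/-- Let the finite group Γ be generated by a normal subgroup G and a cyclic subgroup S of coprime orders, C = G ⊓ C(S), and let χ be an S-invariant irreducible character of G with canonical extension χ̂ to Γ (the extension whose determinantal order is coprime to the order of S). Then there are exactly one irreducible character β of C and one sign ε such that χ̂(c s) = ε β(c) for every c ∈ C and every generator s of S; this β is a constituent of the restriction of χ to C; distinct S-invariant χ give distinct β; and every irreducible character of C arises in this way. -/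
theorem result {Γ : Type*} [Group Γ] [Fintype Γ] (G S : Subgroup Γ) [Fintype G] (hnorm : ∀ s ∈ S, ∀ g ∈ G, s * g * s⁻¹ ∈ G) (hcop : (Nat.card G).Coprime (Nat.card S)) (htop : G ⊔ S = ⊤) (hcyc : IsCyclic S) (C : Subgroup Γ) [Fintype C] (hC : C = G ⊓ Subgroup.centralizer (S : Set Γ)) (hCG : C ≤ G) : (∀ (χ : Cfsg.IrrCharacter G) (χh : Cfsg.IrrCharacter Γ), (∀ s ∈ S, ∀ g g' : G, (g' : Γ) = s * g * s⁻¹ → (χ : G → ℂ) g' = (χ : G → ℂ) g) → (∀ g : G, (χh : Γ → ℂ) g = (χ : G → ℂ) g) → (Cfsg.detOrder (χh : Γ → ℂ)).Coprime (Nat.card S) → (∃! βε : Cfsg.IrrCharacter C × ℤ, (βε.2 = 1 ∨ βε.2 = -1) ∧ ∀ c : C, ∀ s : Γ, Subgroup.zpowers s = S → (χh : Γ → ℂ) ((c : Γ) * s) = (βε.2 : ℂ) * (βε.1 : C → ℂ) c) ∧ ∀ β : Cfsg.IrrCharacter C, ∀ ε : ℤ, (ε = 1 ∨ ε = -1) → (∀ c : C, ∀ s : Γ, Subgroup.zpowers s = S → (χh : Γ → ℂ) ((c : Γ) * s) = (ε : ℂ) * (β : C → ℂ) c) → Cfsg.classInner (fun c : C => (χ : G → ℂ) ⟨c, hCG c.2⟩) (β : C → ℂ) ≠ 0)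 ∧ (∀ (χ χ' : Cfsg.IrrCharacter G) (χh χh' : Cfsg.IrrCharacter Γ), (∀ s ∈ S, ∀ g g' : G, (g' : Γ) = s * g * s⁻¹ → (χ : G → ℂ) g' = (χ : G → ℂ) g) → (∀ s ∈ S, ∀ g g' : G, (g' : Γ) = s * g * s⁻¹ → (χ' : G → ℂ) g' = (χ' : G → ℂ) g) → (∀ g : G, (χh : Γ → ℂ) g = (χ : G → ℂ) g) → (∀ g : G, (χh' : Γ → ℂ) g = (χ' : G → ℂ) g) → (Cfsg.detOrder (χh : Γ → ℂ)).Coprime (Nat.card S) → (Cfsg.detOrder (χh' : Γ → ℂ)).Coprime (Nat.card S) → ∀ β : Cfsg.IrrCharacter C, ∀ ε ε' : ℤ, (ε = 1 ∨ ε = -1) → (ε' = 1 ∨ ε' = -1) → (∀ c : C, ∀ s : Γ, Subgroup.zpowers s = S → (χh : Γ → ℂ) ((c : Γ) * s) = (ε : ℂ) * (β : C → ℂ) c) → (∀ c : C, ∀ s : Γ, Subgroup.zpowers s = S → (χh' : Γ → ℂ) ((c : Γ) * s) = (ε' : ℂ) * (β : C → ℂ) c) → χ = χ') ∧ (∀ β : Cfsg.IrrCharacter C, ∃ (χ : Cfsg.IrrCharacter G) (χh : Cfsg.IrrCharacter Γ) (ε : ℤ), (∀ s ∈ S, ∀ g g' : G, (g' : Γ) = s * g * s⁻¹ → (χ : G → ℂ) g' = (χ : G → ℂ) g) ∧ (∀ g : G, (χh : Γ → ℂ) g = (χ : G →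 ℂ) g) ∧ (Cfsg.detOrder (χh : Γ → ℂ)).Coprime (Nat.card S) ∧ (ε = 1 ∨ ε = -1) ∧ ∀ c : C, ∀ s : Γ, Subgroup.zpowers s = S → (χh : Γ → ℂ) ((c : Γ) * s) = (ε : ℂ) * (β : C → ℂ) c) := by
  classical
  -- a generator
  obtain ⟨s₀, hs₀⟩ : ∃ s₀ : Γ, Subgroup.zpowers s₀ = S := by
    obtain ⟨g, hg⟩ := hcyc.exists_generator
    refine ⟨(g : Γ), ?_⟩
    apply le_antisymm
    · rw [Subgroup.zpowers_le]
      exact g.2
    · intro x hx
      obtain ⟨j, hj⟩ := Subgroup.mem_zpowers_iff.1 (hg ⟨x, hx⟩)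
      refine ⟨j, ?_⟩
      have := congrArg Subtype.val hj
      simpa using this
  have hs₀S : s₀ ∈ S := by
    rw [← hs₀]
    exact Subgroup.mem_zpowers s₀
  -- `G` is normal
  haveI hGn : G.Normal := by
    have hN : Subgroup.normalizer (G : Set Γ) = ⊤ := by
      rw [eq_top_iff, ← htop, sup_le_iff]
      constructor
      · exact Subgroup.le_normalizer
      · intro x hx
        rw [Subgroup.mem_normalizer_iff]
        intro h
        constructor
        · exact hnorm x hx h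
        · intro h2
          have := hnorm x⁻¹ (S.inv_mem hx) _ h2
          simpa [mul_assoc] using this
    exact Subgroup.normalizer_eq_top_iff.1 hN
  have hord : orderOf s₀ = Nat.card S := by
    rw [← hs₀, Nat.card_zpowers]
  have hcop' : (Nat.card G).Coprime (orderOf s₀) := by
    rw [hord]
    exact hcop
  have htop' : G ⊔ Subgroup.zpowers s₀ = ⊤ := by
    rw [hs₀]
    exact htop
  have hC' : ∀ x, x ∈ C ↔ x ∈ G ∧ x * s₀ = s₀ * x := by
    intro x
    rw [hC, Subgroup.mem_inf]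
    constructor
    · rintro ⟨h1, h2⟩
      refine ⟨h1, ?_⟩
      have := (Subgroup.mem_centralizer_iff.1 h2) s₀ hs₀S
      exact this.symm
    · rintro ⟨h1, h2⟩
      refine ⟨h1, ?_⟩
      rw [Subgroup.mem_centralizer_iff]
      intro y hy
      rw [← hs₀] at hy
      obtain ⟨j, rfl⟩ := hy
      have hc : Commute x s₀ := h2
      exact (hc.zpow_right j).eq.symm
  -- conversion of the invariance hypothesis
  have hinvc : ∀ χ : Cfsg.IrrCharacter G,
      (∀ s ∈ S, ∀ g g' : G, (g' : Γ) = s * g * s⁻¹ → (χ : G → ℂ) g' = (χ : G → ℂ) g) →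
      ∀ n : G, (χ : G → ℂ) ⟨s₀ * n * s₀⁻¹, hGn.conj_mem n n.2 s₀⟩ = (χ : G → ℂ) n :=
    fun χ h n => h s₀ hs₀S n _ rfl
  have hinvc' : ∀ χ : Cfsg.IrrCharacter G,
      (∀ n : G, (χ : G → ℂ) ⟨s₀ * n * s₀⁻¹, hGn.conj_mem n n.2 s₀⟩ = (χ : G → ℂ) n) →
      (∀ s ∈ S, ∀ g g' : G, (g' : Γ) = s * g * s⁻¹ → (χ : G → ℂ) g' = (χ : G → ℂ) g) := by
    intro χ h s _ g g' hg'
    have := Cfsg.Agent.Lib.Char.GlaubCyclic.invariant_all htop' χ.2 h s g
    rw [← this]
    have h2 : g' = ⟨s * g * s⁻¹, hGn.conj_mem g g.2 s⟩ := Subtype.ext hg'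
    rw [h2]
  -- conversion of the determinant hypothesis
  have hdetc : ∀ χh : Cfsg.IrrCharacter Γ,
      (Cfsg.detOrder (χh : Γ → ℂ)).Coprime (Nat.card S) → Cfsg.detChar (χh : Γ → ℂ) s₀ = 1 := by
    intro χh h
    obtain ⟨φ, hφ⟩ := Cfsg.Agent.Lib.Char.DetExt.exists_hom_detChar
      (Cfsg.Agent.Lib.Char.Basic.isCharacter_of_isIrrCharacter χh.2)
    have h1 : (Cfsg.detChar (χh : Γ → ℂ)) ^ (Cfsg.detOrder (χh : Γ → ℂ)) = 1 := pow_orderOf_eq_one _
    have h2 := congrFun h1 s₀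
    simp only [Pi.pow_apply, Pi.one_apply, hφ] at h2
    have h3 : (φ s₀) ^ (Cfsg.detOrder (χh : Γ → ℂ)) = 1 := by
      apply Units.ext
      simpa using h2
    have h4 : (φ s₀) ^ (Nat.card S) = 1 := by
      rw [← map_pow, ← hord, pow_orderOf_eq_one, map_one]
    have h5 := pow_gcd_eq_one.2 ⟨h3, h4⟩
    rw [h.gcd_eq_one, pow_one] at h5
    rw [hφ, h5]
    simp
  have hdetc' : ∀ χh : Cfsg.IrrCharacter Γ, Cfsg.detChar (χh : Γ → ℂ) s₀ = 1 →
      (Cfsg.detOrder (χh : Γ → ℂ)).Coprime (Nat.card S) := by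
    intro χh h
    obtain ⟨φ, hφ⟩ := Cfsg.Agent.Lib.Char.DetExt.exists_hom_detChar
      (Cfsg.Agent.Lib.Char.Basic.isCharacter_of_isIrrCharacter χh.2)
    have h1 : (Cfsg.detChar (χh : Γ → ℂ)) ^ (Nat.card G) = 1 := by
      funext x
      simp only [Pi.pow_apply, Pi.one_apply, hφ]
      obtain ⟨g, hg, j, rfl⟩ := Cfsg.Agent.Lib.Char.GlaubCoset.exists_eq_mul_pow (G := G) htop' x
      have h2 : φ s₀ = 1 := by
        apply Units.ext
        rw [← hφ, h]
        simp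
      have h3 : (φ g) ^ Nat.card G = 1 := by
        rw [← map_pow]
        have := pow_card_eq_one' (x := (⟨g, hg⟩ : G))
        have h4 : g ^ Nat.card G = 1 := congrArg Subtype.val this
        rw [h4, map_one]
      rw [map_mul, map_pow, h2, one_pow, mul_one, ← Units.val_pow_eq_pow_val, h3]
      simp
    have h2 := orderOf_dvd_of_pow_eq_one h1
    exact Nat.Coprime.coprime_dvd_left h2 hcop
  -- generators
  have hgen : ∀ s : Γ, Subgroup.zpowers s = S → ∃ j : ℕ, j.Coprime (orderOf s₀) ∧ s = s₀ ^ j := by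
    intro s hs
    have hsm : s ∈ Subgroup.zpowers s₀ := by
      rw [hs₀, ← hs]
      exact Subgroup.mem_zpowers s
    obtain ⟨j, rfl⟩ := (mem_powers_iff_mem_zpowers).2 hsm
    refine ⟨j, ?_, rfl⟩
    have h1 : orderOf (s₀ ^ j) = orderOf s₀ := by
      rw [hord, ← hs, Nat.card_zpowers]
    rw [orderOf_pow] at h1
    have hpos : 0 < orderOf s₀ := orderOf_pos s₀
    have hd : Nat.gcd (orderOf s₀) j ∣ orderOf s₀ := Nat.gcd_dvd_left _ _
    have hdpos : 0 < Nat.gcd (orderOf s₀) j := Nat.pos_of_dvd_of_pos hd hpos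
    have h2 : orderOf s₀ / Nat.gcd (orderOf s₀) j * Nat.gcd (orderOf s₀) j = orderOf s₀ :=
      Nat.div_mul_cancel hd
    rw [h1] at h2
    have h3 : Nat.gcd (orderOf s₀) j = 1 := by
      have := Nat.eq_of_mul_eq_mul_left hpos (h2.trans (mul_one _).symm)
      exact this
    exact (Nat.coprime_comm).1 h3
  -- the value at an arbitrary generator
  have hall : ∀ (χh : Cfsg.IrrCharacter Γ), IsIrrCharacter G (fun g : G => (χh : Γ → ℂ) g) →
      Cfsg.detChar (χh : Γ → ℂ) s₀ = 1 → ∀ (c : C) (s : Γ), Subgroup.zpowers s = S →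
      (χh : Γ → ℂ) ((c : Γ) * s) = (χh : Γ → ℂ) ((c : Γ) * s₀) := by
    intro χh hirr hd c s hs
    obtain ⟨j, hj, rfl⟩ := hgen s hs
    exact Cfsg.Agent.Lib.Char.GlaubCyclic.value_indep hcop' htop' hC' χh.2 hirr hd c hj
  have hirrOf : ∀ (χ : Cfsg.IrrCharacter G) (χh : Cfsg.IrrCharacter Γ),
      (∀ g : G, (χh : Γ → ℂ) g = (χ : G → ℂ) g) → IsIrrCharacter G (fun g : G => (χh : Γ → ℂ) g) := by
    intro χ χh h
    have : (fun g : G => (χh : Γ → ℂ) g) = (χ : G → ℂ) := funext h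
    rw [this]
    exact χ.2
  refine ⟨?_, ?_, ?_⟩
  · intro χ χh hinv hext hdet
    have hd := hdetc χh hdet
    have hirr := hirrOf χ χh hext
    obtain ⟨ε, β, hε, hv⟩ := Cfsg.Agent.Lib.Char.GlaubCyclic.exists_signed_value hcop' htop' hC' χh.2 hirr hd
    constructor
    · refine ⟨(β, ε), ⟨hε, fun c s hs => ?_⟩, ?_⟩
      · rw [hall χh hirr hd c s hs, hv c]
      · rintro ⟨β', ε'⟩ ⟨hε', hv'⟩
        simp only at hε' hv'
        have heq : ∀ c : C, (ε' : ℂ) * (β' : C → ℂ) c = (ε : ℂ) * (β : C → ℂ) c := fun c => by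
          rw [← hv' c s₀ hs₀, hv c]
        have hfun : (fun c : C => (ε' : ℂ) * (β' : C → ℂ) c) = (fun c : C => (ε : ℂ) * (β : C → ℂ) c) :=
          funext heq
        have hε0 : (ε : ℂ) ≠ 0 := by
          rcases hε with rfl | rfl <;> simp
        have hββ' : β' = β := by
          by_contra hne
          have h0 : Cfsg.classInner (β' : C → ℂ) (β : C → ℂ) = 0 :=
            Cfsg.Agent.Lib.Char.Ortho.classInner_irr_of_ne β'.2 β.2
              (fun h => hne (Subtype.ext h))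
          have h1 : Cfsg.classInner (fun c : C => (ε' : ℂ) * (β' : C → ℂ) c) (β : C → ℂ) = (ε' : ℂ) * 0 := by
            have := Cfsg.Agent.Lib.Char.Ortho.classInner_smul_left (ε' : ℂ) (β' : C → ℂ) (β : C → ℂ)
            rw [h0] at this
            exact this
          have h2 : Cfsg.classInner (fun c : C => (ε : ℂ) * (β : C → ℂ) c) (β : C → ℂ) = (ε : ℂ) * 1 := by
            have := Cfsg.Agent.Lib.Char.Ortho.classInner_smul_left (ε : ℂ) (β : C → ℂ) (β : C → ℂ)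
            rw [Cfsg.Agent.Lib.Char.Ortho.classInner_irr_self β.2] at this
            exact this
          rw [hfun, h2] at h1
          simp only [mul_one, mul_zero] at h1
          exact hε0 h1
        subst hββ'
        have h1 := heq 1
        have hne1 : (β' : C → ℂ) 1 ≠ 0 := Cfsg.Agent.Lib.Char.Ortho.irr_apply_one_ne_zero β'.2
        have h2 : (ε' : ℂ) = ε := mul_right_cancel₀ hne1 h1
        have h3 : ε' = ε := by exact_mod_cast h2
        rw [h3]
    · intro β' ε' hε' hv'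
      have hc := Cfsg.Agent.Lib.Char.GlaubCyclic.constituent_of_value hC'
        (Cfsg.Agent.Lib.Char.Basic.isCharacter_of_isIrrCharacter χh.2) β' (by
          have h1 : (fun c : C => (χh : Γ → ℂ) ((c : Γ) * s₀)) =
              fun c : C => (ε' : ℂ) * (β' : C → ℂ) c := funext fun c => hv' c s₀ hs₀
          rw [h1]
          have := Cfsg.Agent.Lib.Char.Ortho.classInner_smul_left (ε' : ℂ) (β' : C → ℂ) (β' : C → ℂ)
          rw [Cfsg.Agent.Lib.Char.Ortho.classInner_irr_self β'.2, mul_one] at this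
          have h2 : (ε' : ℂ) ≠ 0 := by
            rcases hε' with rfl | rfl <;> simp
          intro h3
          apply h2
          rw [← this]
          exact h3)
      have h1 : (fun c : C => (χ : G → ℂ) ⟨c, hCG c.2⟩) = (fun c : C => (χh : Γ → ℂ) (c : Γ)) :=
        funext fun c => (hext ⟨c, hCG c.2⟩).symm
      rw [h1]
      exact hc
  · intro χ χ' χh χh' hinv hinv' hext hext' hdet hdet' β ε ε' hε hε' hv hv'
    by_contra hne
    have hfe : (fun g : G => (χh : Γ → ℂ) g) = (χ : G → ℂ) := funext hext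
    have hfe' : (fun g : G => (χh' : Γ → ℂ) g) = (χ' : G → ℂ) := funext hext'
    refine Cfsg.Agent.Lib.Char.GlaubCyclic.value_inj hcop' htop' hC'
      (Cfsg.Agent.Lib.Char.Basic.isCharacter_of_isIrrCharacter χh.2)
      (Cfsg.Agent.Lib.Char.Basic.isCharacter_of_isIrrCharacter χh'.2) ?_ β ε ε' hε hε'
      (fun c => hv c s₀ hs₀) (fun c => hv' c s₀ hs₀)
    rw [hfe, hfe']
    exact Cfsg.Agent.Lib.Char.Ortho.classInner_irr_of_ne χ.2 χ'.2 (fun h => hne (Subtype.ext h))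
  · intro β
    obtain ⟨χ, χh, ε, h1, h2, h3, h4, h5⟩ :=
      Cfsg.Agent.Lib.Char.GlaubCyclic.exists_of_irr hcop' htop' hC' β
    refine ⟨χ, χh, ε, hinvc' χ h1, h2, hdetc' χh h3, h4, fun c s hs => ?_⟩
    rw [hall χh (hirrOf χ χh h2) h3 c s hs, h5 c]

end Cfsg.Agent.S4446
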