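import Cfsg.Statements.S4451
import Mathlib
import Cfsg.Agent.Lib.Char.GlaubCyclic
import Cfsg.Agent.Lib.Char.FrobPair
import Cfsg.Agent.Lib.Char.CompleteCor
import Cfsg.Agent.Lib.Char.GoodCount

set_option autoImplicit false
set_option linter.style.haveILetI false
set_option linter.unusedSectionVars false
set_option linter.unusedVariables false
open Cfsg

namespace Cfsg.Agent.S4451

universe u

open Cfsg.Agent.Lib.Char.Basic Cfsg.Agent.Lib.Char.Ortho
open scoped ComplexConjugate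

/-- The integer part of the sign lemma. -/
lemma int_lemma {I : Type*} [Fintype I] (b : I → ℤ) (n : ℤ) (hn : 2 ≤ n)
    (h : n * ∑ i, b i ^ 2 ≤ (∑ i, b i) ^ 2 + (n - 1)) (h2 : 2 * |∑ i, b i| ≤ n) :
    (∀ i, b i = 0) ∨ ∃ i₀ ε, (ε = 1 ∨ ε = -1) ∧ b i₀ = ε ∧ ∀ i, i ≠ i₀ → b i = 0 := by
  classical
  set R := ∑ i, b i ^ 2 with hR
  set r := ∑ i, b i with hr
  have hR0 : 0 ≤ R := Finset.sum_nonneg fun i _ => sq_nonneg _
  have hRt : |r| ≤ R := by
    calc |r| ≤ ∑ i, |b i| := Finset.abs_sum_le_sum_abs _ _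
      _ ≤ R := Finset.sum_le_sum fun i _ => by
        rcases eq_or_ne (b i) 0 with h0 | h0
        · simp [h0]
        · have h3 : 1 ≤ |b i| := Int.one_le_abs h0
          rw [← sq_abs (b i)]
          nlinarith
  have hsq : r ^ 2 = |r| ^ 2 := (sq_abs r).symm
  set t := |r| with ht
  have ht0 : 0 ≤ t := abs_nonneg r
  have ht1 : t ≤ 1 := by
    by_contra hcon
    have ht2 : 2 ≤ t := by omega
    have h3 : n * t ≤ n * R := mul_le_mul_of_nonneg_left hRt (by omega)
    rw [hsq] at h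
    nlinarith
  have hb0 : R = 0 → ∀ i, b i = 0 := by
    intro h0 i
    have h3 := (Finset.sum_eq_zero_iff_of_nonneg (fun i _ => sq_nonneg (b i))).1 h0 i (Finset.mem_univ i)
    exact pow_eq_zero_iff (two_ne_zero) |>.1 h3
  have ht01 : t = 0 ∨ t = 1 := by omega
  rcases ht01 with h0 | h0
  · left
    apply hb0
    rw [hsq, h0] at h
    by_contra hne
    have h3 : 1 ≤ R := by omega
    nlinarith
  · right
    rw [hsq, h0] at h
    have hR1 : R ≤ 1 := by
      by_contra hcon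
      have h3 : 2 ≤ R := by omega
      nlinarith
    have hR2 : R = 1 := by omega
    have hne : ¬ ∀ i, b i = 0 := by
      intro h3
      have : R = 0 := Finset.sum_eq_zero fun i _ => by rw [h3 i]; simp
      omega
    push Not at hne
    obtain ⟨i₀, hi₀⟩ := hne
    have h3 : 1 ≤ b i₀ ^ 2 := by
      have := Int.one_le_abs hi₀
      rw [← sq_abs (b i₀)]
      nlinarith
    have h4 : b i₀ ^ 2 + ∑ i ∈ Finset.univ.erase i₀, b i ^ 2 = R := Finset.add_sum_erase _ (fun i => b i ^ 2) (Finset.mem_univ i₀)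
    have h5 : 0 ≤ ∑ i ∈ Finset.univ.erase i₀, b i ^ 2 := Finset.sum_nonneg fun i _ => sq_nonneg _
    have h6 : b i₀ ^ 2 = 1 := by omega
    have h7 : ∑ i ∈ Finset.univ.erase i₀, b i ^ 2 = 0 := by omega
    refine ⟨i₀, b i₀, ?_, rfl, fun i hi => ?_⟩
    · have h9 : b i₀ ^ 2 = 1 ^ 2 := by simpa using h6
      exact sq_eq_sq_iff_eq_or_eq_neg.1 h9
    · have h8 := (Finset.sum_eq_zero_iff_of_nonneg (fun i _ => sq_nonneg (b i))).1 h7 i
        (Finset.mem_erase.2 ⟨hi, Finset.mem_univ i⟩)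
      exact pow_eq_zero_iff two_ne_zero |>.1 h8

section Sign

variable {A : Type*} [Group A] [Fintype A]

lemma irr_one (hA : ∀ a b : A, a * b = b * a) (τ : IrrCharacter A) : (τ : A → ℂ) 1 = 1 :=
  Cfsg.Agent.Lib.Char.FrobPair.degree_eq_one_of_comm hA τ.2

lemma sum_irr_of_ne (hA : ∀ a b : A, a * b = b * a) {x : A} (hx : x ≠ 1) :
    ∑ τ : IrrCharacter A, (τ : A → ℂ) x = 0 := by
  have h1 : ¬ IsConj x 1 := fun h => hx (isConj_one_right.1 h.symm)
  have h2 := Cfsg.Agent.Lib.Char.CompleteCor.column_orth_not_conj h1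
  rw [← h2]
  refine Finset.sum_congr rfl fun τ _ => ?_
  rw [irr_one hA]
  simp

lemma card_irr (hA : ∀ a b : A, a * b = b * a) :
    Fintype.card (IrrCharacter A) = Nat.card A := by
  have h1 := Cfsg.Agent.Lib.Char.CompleteCor.column_orth_conj (IsConj.refl (1 : A))
  have h2 : Subgroup.centralizer ({1} : Set A) = ⊤ := by
    ext x
    simp [Subgroup.mem_centralizer_singleton_iff]
  rw [h2, Nat.card_congr Subgroup.topEquiv.toEquiv] at h1
  simp only [irr_one hA] at h1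
  simp at h1
  rw [Nat.card_eq_fintype_card]
  exact_mod_cast h1

lemma sum_irr_one (hA : ∀ a b : A, a * b = b * a) :
    ∑ τ : IrrCharacter A, (τ : A → ℂ) 1 = Nat.card A := by
  simp only [irr_one hA]
  simp [card_irr hA]

/-- The sign lemma. -/
theorem sign_lemma (hA : ∀ a b : A, a * b = b * a) (hn : 2 ≤ Nat.card A) (a : IrrCharacter A → ℤ)
    (hg : ∀ x : A, x ≠ 1 → Complex.normSq (∑ τ : IrrCharacter A, (a τ : ℂ) * (τ : A → ℂ) x) ≤ 1) :
    ∃ q : ℤ, (∀ τ, a τ = q) ∨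
      ∃ (τ₀ : IrrCharacter A) (ε : ℤ), (ε = 1 ∨ ε = -1) ∧ a τ₀ = q + ε ∧ ∀ τ, τ ≠ τ₀ → a τ = q := by
  classical
  set n : ℤ := (Nat.card A : ℤ) with hnd
  have hn2 : 2 ≤ n := by
    rw [hnd]
    exact_mod_cast hn
  set m : ℤ := ∑ τ, a τ with hm
  -- nearest integer
  obtain ⟨q, hq⟩ : ∃ q : ℤ, 2 * |m - n * q| ≤ n := by
    have h1 := Int.emod_add_mul_ediv m n
    have h2 := Int.emod_nonneg m (by omega : n ≠ 0)
    have h3 := Int.emod_lt_of_pos m (by omega : 0 < n)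
    by_cases h4 : 2 * (m % n) ≤ n
    · refine ⟨m / n, ?_⟩
      have h5 : m - n * (m / n) = m % n := by linarith
      rw [h5, abs_of_nonneg h2]
      exact h4
    · refine ⟨m / n + 1, ?_⟩
      have h5 : m - n * (m / n + 1) = m % n - n := by linarith
      rw [h5, abs_of_nonpos (by omega)]
      omega
  refine ⟨q, ?_⟩
  set b : IrrCharacter A → ℤ := fun τ => a τ - q with hb
  have hcard : (Fintype.card (IrrCharacter A) : ℤ) = n := by
    rw [card_irr hA]
  have hsumb : ∑ τ, b τ = m - n * q := by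
    simp only [hb, Finset.sum_sub_distrib, Finset.sum_const, Finset.card_univ, nsmul_eq_mul]
    rw [hcard]
  -- the function `h`
  set h : A → ℂ := ∑ τ : IrrCharacter A, ((b τ : ℤ) : ℂ) • (τ : A → ℂ) with hh
  have happ : ∀ x, h x = ∑ τ : IrrCharacter A, ((b τ : ℤ) : ℂ) * (τ : A → ℂ) x := by
    intro x
    simp [hh, Finset.sum_apply]
  have h1 : h 1 = ((m - n * q : ℤ) : ℂ) := by
    rw [happ, ← hsumb]
    push_cast
    refine Finset.sum_congr rfl fun τ _ => ?_
    rw [irr_one hA, mul_one]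
  have hne : ∀ x : A, x ≠ 1 → h x = ∑ τ : IrrCharacter A, (a τ : ℂ) * (τ : A → ℂ) x := by
    intro x hx
    rw [happ]
    have h2 : ∀ τ : IrrCharacter A, ((b τ : ℤ) : ℂ) * (τ : A → ℂ) x =
        (a τ : ℂ) * (τ : A → ℂ) x - (q : ℂ) * (τ : A → ℂ) x := by
      intro τ
      simp only [hb]
      push_cast
      ring
    simp only [h2]
    rw [Finset.sum_sub_distrib, ← Finset.mul_sum, sum_irr_of_ne hA hx, mul_zero, sub_zero]
  -- Parseval
  have hpars : classInner h h = ((∑ τ, b τ ^ 2 : ℤ) : ℂ) := by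
    rw [hh, classInner_sum_right]
    push_cast
    refine Finset.sum_congr rfl fun τ _ => ?_
    rw [classInner_smul_right, classInner_sum_irr]
    simp only [map_intCast]
    ring
  have hsum : ∑ x : A, ‖h x‖ ^ 2 = (n : ℝ) * ((∑ τ, b τ ^ 2 : ℤ) : ℝ) := by
    have h2 := classInner_self_eq h
    rw [hpars] at h2
    have h3 : ((∑ τ, b τ ^ 2 : ℤ) : ℝ) = (Nat.card A : ℝ)⁻¹ * ∑ g : A, ‖h g‖ ^ 2 := by
      apply Complex.ofReal_injective
      rw [← h2]
      simp
    rw [h3, hnd]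
    have h4 : (Nat.card A : ℝ) ≠ 0 := by
      exact_mod_cast Nat.card_pos.ne'
    push_cast
    field_simp
  have hbound : (n : ℝ) * ((∑ τ, b τ ^ 2 : ℤ) : ℝ) ≤ ((m - n * q : ℤ) : ℝ) ^ 2 + ((n : ℝ) - 1) := by
    rw [← hsum, ← Finset.add_sum_erase _ _ (Finset.mem_univ (1 : A))]
    have h2 : ‖h 1‖ ^ 2 = ((m - n * q : ℤ) : ℝ) ^ 2 := by
      rw [h1, Complex.norm_intCast, sq_abs]
    rw [h2]
    gcongr
    calc ∑ x ∈ Finset.univ.erase (1 : A), ‖h x‖ ^ 2 ≤ ∑ x ∈ Finset.univ.erase (1 : A), (1 : ℝ) := by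
          refine Finset.sum_le_sum fun x hx => ?_
          have hx1 : x ≠ 1 := (Finset.mem_erase.1 hx).1
          rw [hne x hx1, ← Complex.normSq_eq_norm_sq]
          exact hg x hx1
      _ = (n : ℝ) - 1 := by
          rw [Finset.sum_const, Finset.card_erase_of_mem (Finset.mem_univ _), Finset.card_univ, nsmul_eq_mul,
            mul_one, hnd, Nat.card_eq_fintype_card]
          have : 1 ≤ Fintype.card A := Fintype.card_pos
          push_cast [this]
          ring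
  have hint : n * ∑ τ, b τ ^ 2 ≤ (∑ τ, b τ) ^ 2 + (n - 1) := by
    rw [hsumb]
    exact_mod_cast hbound
  have hq' : 2 * |∑ τ, b τ| ≤ n := by
    rw [hsumb]
    exact hq
  rcases int_lemma b n hn2 hint hq' with h2 | ⟨τ₀, ε, hε, h3, h4⟩
  · left
    intro τ
    have := h2 τ
    simp only [hb] at this
    omega
  · right
    refine ⟨τ₀, ε, hε, ?_, fun τ hτ => ?_⟩
    · simp only [hb] at h3
      omega
    · have := h4 τ hτ
      simp only [hb] at this
      omega

end Sign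

/-- The dichotomy for a character of an abelian group with small values. -/
theorem dichotomy {A : Type*} [Group A] [Fintype A] (hA : ∀ a b : A, a * b = b * a)
    (hn : 2 ≤ Nat.card A) (g : A → ℂ) (hnat : ∀ τ : IrrCharacter A, ∃ n : ℕ, classInner g τ = n)
    (hbd : ∀ x : A, x ≠ 1 → Complex.normSq (g x) ≤ 1) :
    ∃ q : ℕ, ((∀ y : A, y ≠ 1 → g y = 0) ∧ g 1 = (Nat.card A : ℂ) * q) ∨
      ∃ (τ₀ : IrrCharacter A) (ε : ℤ), (ε = 1 ∨ ε = -1) ∧ (∀ y : A, y ≠ 1 → g y = (ε : ℂ) * (τ₀ : A → ℂ) y) ∧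
        g 1 = (Nat.card A : ℂ) * q + (ε : ℂ) := by
  classical
  choose a ha using hnat
  have hcl : IsClassFunction A g := by
    intro x y
    have : y * x * y⁻¹ = x := by
      rw [hA y x, mul_inv_cancel_right]
    rw [this]
  have hsum := Cfsg.Agent.Lib.Char.Complete.eq_sum_classInner g hcl
  have hgy : ∀ y, g y = ∑ τ : IrrCharacter A, ((a τ : ℕ) : ℂ) * (τ : A → ℂ) y := by
    intro y
    have := congrFun hsum y
    simpa [ha, Finset.sum_apply] using this
  have hcardI : 2 ≤ Fintype.card (IrrCharacter A) := by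
    rw [card_irr hA]
    exact hn
  obtain ⟨q, hq⟩ := sign_lemma hA hn (fun τ => (a τ : ℤ)) (by
    intro x hx
    have h1 := hbd x hx
    rw [hgy] at h1
    simpa using h1)
  rcases hq with hq | ⟨τ₀, ε, hε, h1, h2⟩
  · have hne : Nonempty (IrrCharacter A) := Fintype.card_pos_iff.1 (by omega)
    obtain ⟨τ₁⟩ := hne
    have hq0 : 0 ≤ q := by
      rw [← hq τ₁]
      positivity
    obtain ⟨q', rfl⟩ := Int.eq_ofNat_of_zero_le hq0
    have hat : ∀ τ, a τ = q' := fun τ => by exact_mod_cast hq τ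
    refine ⟨q', Or.inl ⟨fun y hy => ?_, ?_⟩⟩
    · rw [hgy]
      simp only [hat]
      rw [← Finset.mul_sum, sum_irr_of_ne hA hy, mul_zero]
    · rw [hgy]
      simp only [hat]
      rw [← Finset.mul_sum, sum_irr_one hA, mul_comm]
  · obtain ⟨τ₁, hτ₁⟩ : ∃ τ₁, τ₁ ≠ τ₀ := by
      haveI : Nontrivial (IrrCharacter A) := Fintype.one_lt_card_iff_nontrivial.1 (by omega)
      exact exists_ne τ₀
    have hq0 : 0 ≤ q := by
      rw [← h2 τ₁ hτ₁]
      positivity
    obtain ⟨q', rfl⟩ := Int.eq_ofNat_of_zero_le hq0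
    have hat : ∀ τ : IrrCharacter A, ((a τ : ℕ) : ℂ) = (q' : ℂ) + (if τ = τ₀ then (ε : ℂ) else 0) := by
      intro τ
      by_cases hτ : τ = τ₀
      · subst hτ
        rw [if_pos rfl]
        have h3 : ((a τ : ℤ) : ℂ) = ((q' + ε : ℤ) : ℂ) := congrArg _ h1
        push_cast at h3
        exact h3
      · rw [if_neg hτ, add_zero]
        have h3 := h2 τ hτ
        have h4 : ((a τ : ℤ) : ℂ) = ((q' : ℤ) : ℂ) := congrArg _ h3
        push_cast at h4
        exact h4
    have hexp : ∀ y, g y = (q' : ℂ) * ∑ τ : IrrCharacter A, (τ : A → ℂ) y + (ε : ℂ) * (τ₀ : A → ℂ) y := by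
      intro y
      rw [hgy]
      simp only [hat, add_mul, Finset.sum_add_distrib, ite_mul, zero_mul]
      rw [Finset.sum_ite_eq' Finset.univ τ₀, if_pos (Finset.mem_univ _), Finset.mul_sum]
    refine ⟨q', Or.inr ⟨τ₀, ε, hε, fun y hy => ?_, ?_⟩⟩
    · rw [hexp, sum_irr_of_ne hA hy, mul_zero, zero_add]
    · rw [hexp, sum_irr_one hA, irr_one hA, mul_one, mul_comm (q' : ℂ)]

section Transport

variable {Γ : Type u} [Group Γ] [Fintype Γ]

/-- The multiplicities on `C × S` are natural numbers. -/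
lemma coeff_nat (C S : Subgroup Γ) [Fintype C] [Fintype S] (hcomm : ∀ c ∈ C, ∀ y ∈ S, c * y = y * c)
    {χh : Γ → ℂ} (hχ : IsCharacter Γ χh) (β' : IrrCharacter C) (τ : IrrCharacter S) :
    ∃ n : ℕ, classInner (fun y : S => classInner (fun c : C => χh ((c : Γ) * y)) (β' : C → ℂ)) τ = n := by
  classical
  let i : C × S →* Γ := MonoidHom.mk' (fun p => (p.1 : Γ) * p.2) (by
    rintro ⟨a, b⟩ ⟨a', b'⟩
    show ((a * a' : C) : Γ) * ((b * b' : S) : Γ) = (a : Γ) * b * ((a' : Γ) * b')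
    simp only [Subgroup.coe_mul]
    have h1 := hcomm a' a'.2 b b.2
    calc (a : Γ) * a' * (b * b') = a * (a' * b) * b' := by group
      _ = a * (b * a') * b' := by rw [h1]
      _ = _ := by group)
  have hΘ : IsCharacter (C × S) (fun p => χh (i p)) := isCharacter_comp_hom hχ i
  have hΨ : IsCharacter (C × S) ((fun p : C × S => (β' : C → ℂ) p.1) * (fun p : C × S => (τ : S → ℂ) p.2)) :=
    isCharacter_mul (isCharacter_comp_hom (isCharacter_of_isIrrCharacter β'.2) (MonoidHom.fst C S))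
      (isCharacter_comp_hom (isCharacter_of_isIrrCharacter τ.2) (MonoidHom.snd C S))
  obtain ⟨n, hn⟩ := exists_nat_classInner_of_isCharacter hΘ hΨ
  refine ⟨n, ?_⟩
  rw [← hn]
  simp only [classInner, Nat.card_prod, Fintype.sum_prod_type, Pi.mul_apply, map_mul]
  push_cast
  simp only [Finset.mul_sum, Finset.sum_mul]
  rw [Finset.sum_comm]
  refine Finset.sum_congr rfl fun c _ => Finset.sum_congr rfl fun y _ => ?_
  show _ = _ * (χh ((c : Γ) * y) * _)
  rw [mul_inv]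
  ring

/-- The signed value at an arbitrary element with the right centralizer. -/
theorem signed_at (G : Subgroup Γ) [hGn : G.Normal] [Fintype G] (C : Subgroup Γ) [Fintype C] (hCG : C ≤ G) (x : Γ)
    (hcopx : (Nat.card G).Coprime (orderOf x)) (hCx : ∀ y, y ∈ C ↔ y ∈ G ∧ y * x = x * y)
    {χh : Γ → ℂ} (hχh : IsIrrCharacter Γ χh) (hirr : IsIrrCharacter G (fun g : G => χh g))
    (hdx : detChar χh x = 1) :
    ∃ (ε : ℤ) (β' : C → ℂ), IsIrrCharacter C β' ∧ (ε = 1 ∨ ε = -1) ∧ ∀ c : C, χh ((c : Γ) * x) = (ε : ℂ) * β' c := by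
  classical
  let L : Subgroup Γ := G ⊔ Subgroup.zpowers x
  letI : Fintype L := Fintype.ofFinite _
  have hGL : G ≤ L := le_sup_left
  have hxL : x ∈ L := (le_sup_right : Subgroup.zpowers x ≤ L) (Subgroup.mem_zpowers x)
  have hCL : C ≤ L := hCG.trans hGL
  let G' : Subgroup L := G.subgroupOf L
  haveI hG'n : G'.Normal := inferInstance
  letI : Fintype G' := Fintype.ofFinite _
  let s : L := ⟨x, hxL⟩
  let C' : Subgroup L := C.subgroupOf L
  letI : Fintype C' := Fintype.ofFinite _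
  let e₁ : G' ≃* G := Subgroup.subgroupOfEquivOfLe hGL
  let e₂ : C' ≃* C := Subgroup.subgroupOfEquivOfLe hCL
  have hcop' : (Nat.card G').Coprime (orderOf s) := by
    rw [Nat.card_congr e₁.toEquiv, Subgroup.orderOf_mk]
    exact hcopx
  have htop' : G' ⊔ Subgroup.zpowers s = ⊤ := by
    rw [eq_top_iff]
    rintro ⟨y, hy⟩ -
    obtain ⟨g, hg, z, hz, rfl⟩ := Subgroup.mem_sup_of_normal_left.1 hy
    obtain ⟨j, rfl⟩ := hz
    have h1 : (⟨g * x ^ j, hy⟩ : L) = ⟨g, hGL hg⟩ * s ^ j := by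
      apply Subtype.ext
      simp [s]
    rw [h1]
    refine Subgroup.mul_mem_sup (Subgroup.mem_subgroupOf.2 hg) (Subgroup.zpow_mem _ (Subgroup.mem_zpowers s) j)
  have hC'' : ∀ y, y ∈ C' ↔ y ∈ G' ∧ y * s = s * y := by
    intro y
    rw [Subgroup.mem_subgroupOf, hCx, Subgroup.mem_subgroupOf]
    refine and_congr_right fun _ => ?_
    constructor
    · intro h
      exact Subtype.ext h
    · intro h
      exact congrArg Subtype.val h
  obtain ⟨d, ρ, hρ, rfl⟩ := hχh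
  let ρL : Representation ℂ L (Fin d → ℂ) := ρ.comp L.subtype
  have hirrG' : IsIrrCharacter G' (fun g : G' => ρL.character g) :=
    isIrrCharacter_comp_surjective hirr e₁.toMonoidHom e₁.surjective
  haveI hρG : Representation.IsIrreducible (ρL.comp G'.subtype) :=
    Cfsg.Agent.Lib.Char.GoodLift.isIrreducible_of_character_eq _ hirrG' rfl
  haveI hρL : ρL.IsIrreducible := Cfsg.Agent.Lib.Char.CyclicExt.isIrreducible_of_comp ρL G'.subtype
  have hχL : IsIrrCharacter L ρL.character := ⟨d, ρL, hρL, rfl⟩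
  have hd' : detChar ρL.character s = 1 := by
    rw [Cfsg.Agent.Lib.Char.DetExt.detChar_character]
    rw [Cfsg.Agent.Lib.Char.DetExt.detChar_character] at hdx
    exact hdx
  obtain ⟨ε, β₁, hε, hval⟩ := Cfsg.Agent.Lib.Char.GlaubCyclic.exists_signed_value hcop' htop' hC'' hχL hirrG' hd'
  refine ⟨ε, (β₁ : C' → ℂ) ∘ e₂.symm, isIrrCharacter_comp_surjective β₁.2 e₂.symm.toMonoidHom e₂.symm.surjective,
    hε, fun c => ?_⟩
  exact hval (e₂.symm c)

end Transport

/-- Let the finite group Γ be generated by a normal subgroup G and a cyclic subgroup S of coprime orders such that every non-identity element of S has the same centraliser C = G ⊓ C(S) in G. Let χ be an S-invariant irreducible character of G, χ̂ its canonical extension to Γ (determinantal order coprime to the order of S), and β the irreducible character of C with χ̂(c s) = ε₀ β(c) for c ∈ C and generators s of S (ε₀ = ±1). Then there are a sign ε = ±1, which may differ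 from ε₀, and a linear character μ of S with μ² = 1, such that: (a) χ̂(c x) = ε β(c) μ(x) for all c ∈ C and all x ∈ S other than 1; (b) the restriction of χ to C equals |S|·ϑ + ε β for some character ϑ of C or ϑ = 0; (c) |S| divides χ(1) − ε β(1). -/
theorem result {Γ : Type*} [Group Γ] [Fintype Γ] (G S : Subgroup Γ) [Fintype G] (hnorm : ∀ s ∈ S, ∀ g ∈ G, s * g * s⁻¹ ∈ G) (hcop : (Nat.card G).Coprime (Nat.card S)) (htop : G ⊔ S = ⊤) (hcyc : IsCyclic S) (C : Subgroup Γ) [Fintype C] (hC : C = G ⊓ Subgroup.centralizer (S : Set Γ)) (hCG : C ≤ G) (hfpf : ∀ x ∈ S, x ≠ 1 → G ⊓ Subgroup.centralizer ({x} : Set Γ) = C) (χ : Cfsg.IrrCharacter G) (hinv : (∀ s ∈ S, ∀ g g' : G, (g' : Γ) = s * g * s⁻¹ → (χ : G → ℂ) g' = (χ : G → ℂ) g)) (χh : Cfsg.IrrCharacter Γ) (hext : (∀ g : G, (χh : Γ → ℂ) g = (χ : G → ℂ) g)) (hdet : (Cfsg.detOrder (χh : Γ → ℂ)).Coprime (Nat.card S)) (β : Cfsg.IrrCharacter C) (ε₀ : ℤ) (hε₀ : ε₀ = 1 ∨ ε₀ = -1) (hβ : ∀ c :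 C, ∀ s : Γ, Subgroup.zpowers s = S → (χh : Γ → ℂ) ((c : Γ) * s) = (ε₀ : ℂ) * (β : C → ℂ) c) : ∃ ε : ℤ, (ε = 1 ∨ ε = -1) ∧ (∃ μ : S → ℂ, Cfsg.IsCharacter S μ ∧ μ 1 = 1 ∧ (∀ x : S, μ x * μ x = 1) ∧ ∀ c : C, ∀ x : S, x ≠ 1 → (χh : Γ → ℂ) ((c : Γ) * x) = (ε : ℂ) * (β : C → ℂ) c * μ x) ∧ (∃ ϑ : C → ℂ, Cfsg.IsCharacter C ϑ ∧ (fun c : C => (χ : G → ℂ) ⟨c, hCG c.2⟩) = fun c => (Nat.card S : ℂ) * ϑ c + (ε : ℂ) * (β : C → ℂ) c) ∧ (Nat.card S : ℤ) ∣ (Cfsg.charDegree (χ : G → ℂ) : ℤ) - ε * (Cfsg.charDegree (β : C → ℂ) : ℤ) := by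
  classical
  -- a generator
  obtain ⟨s₀, hs₀⟩ : ∃ s₀ : Γ, Subgroup.zpowers s₀ = S := by
    obtain ⟨g, hg⟩ := hcyc.exists_generator
    refine ⟨(g : Γ), ?_⟩
    apply le_antisymm
    · rw [Subgroup.zpowers_le]
      exact g.2
    · intro x hx
      obtain ⟨j, hj⟩ := Subgroup.mem_zpowers_iff.1 (hg ⟨x, hx⟩)
      refine ⟨j, ?_⟩
      have := congrArg Subtype.val hj
      simpa using this
  have hs₀S : s₀ ∈ S := by
    rw [← hs₀]
    exact Subgroup.mem_zpowers s₀
  -- `G` is normal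
  haveI hGn : G.Normal := by
    have hN : Subgroup.normalizer (G : Set Γ) = ⊤ := by
      rw [eq_top_iff, ← htop, sup_le_iff]
      constructor
      · exact Subgroup.le_normalizer
      · intro x hx
        rw [Subgroup.mem_normalizer_iff]
        intro h
        constructor
        · exact hnorm x hx h
        · intro h2
          have := hnorm x⁻¹ (S.inv_mem hx) _ h2
          simpa [mul_assoc] using this
    exact Subgroup.normalizer_eq_top_iff.1 hN
  letI : Fintype S := Fintype.ofFinite _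
  have hA : ∀ a b : S, a * b = b * a := by
    haveI := hcyc
    exact fun a b => (IsCyclic.commGroup (α := S)).mul_comm a b
  have hcomm : ∀ c ∈ C, ∀ y ∈ S, c * y = y * c := by
    intro c hc y hy
    rw [hC] at hc
    exact ((Subgroup.mem_centralizer_iff.1 hc.2) y hy).symm
  have hirr : IsIrrCharacter G (fun g : G => (χh : Γ → ℂ) g) := by
    have h1 : (fun g : G => (χh : Γ → ℂ) g) = (χ : G → ℂ) := funext hext
    rw [h1]
    exact χ.2
  obtain ⟨φdet, hφdet⟩ := Cfsg.Agent.Lib.Char.DetExt.exists_hom_detChar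
    (isCharacter_of_isIrrCharacter χh.2)
  have hdetx : ∀ x ∈ S, Cfsg.detChar (χh : Γ → ℂ) x = 1 := by
    intro x hx
    have h1 : (Cfsg.detChar (χh : Γ → ℂ)) ^ (Cfsg.detOrder (χh : Γ → ℂ)) = 1 := pow_orderOf_eq_one _
    have h2 := congrFun h1 x
    simp only [Pi.pow_apply, Pi.one_apply, hφdet] at h2
    have h3 : (φdet x) ^ (Cfsg.detOrder (χh : Γ → ℂ)) = 1 := by
      apply Units.ext
      simpa using h2
    have h4 : (φdet x) ^ (Nat.card S) = 1 := by
      rw [← map_pow]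
      have := pow_card_eq_one' (x := (⟨x, hx⟩ : S))
      have h5 : x ^ Nat.card S = 1 := congrArg Subtype.val this
      rw [h5, map_one]
    have h5 := pow_gcd_eq_one.2 ⟨h3, h4⟩
    rw [hdet.gcd_eq_one, pow_one] at h5
    rw [hφdet, h5]
    simp
  have hsign : ∀ y : S, y ≠ 1 → ∃ (ε : ℤ) (β' : C → ℂ), IsIrrCharacter C β' ∧ (ε = 1 ∨ ε = -1) ∧
      ∀ c : C, (χh : Γ → ℂ) ((c : Γ) * y) = (ε : ℂ) * β' c := by
    intro y hy
    have hy' : (y : Γ) ≠ 1 := fun h => hy (Subtype.ext h)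
    refine Cfsg.Agent.S4451.signed_at G C hCG (y : Γ) ?_ ?_ χh.2 hirr (hdetx y y.2)
    · rw [Subgroup.orderOf_coe]
      exact Nat.Coprime.coprime_dvd_right (orderOf_dvd_natCard y) hcop
    · intro z
      rw [← hfpf y y.2 hy', Subgroup.mem_inf, Subgroup.mem_centralizer_singleton_iff]
  have hχhc := isCharacter_of_isIrrCharacter χh.2
  have hχhcl := Cfsg.Agent.Lib.Char.Basic.isClassFunction_of_isCharacter hχhc
  let g : IrrCharacter C → S → ℂ := fun β' y => classInner (fun c : C => (χh : Γ → ℂ) ((c : Γ) * y)) (β' : C → ℂ)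
  have hcl : ∀ y : S, IsClassFunction C (fun c : C => (χh : Γ → ℂ) ((c : Γ) * y)) := by
    intro y c d
    have h1 := hχhcl ((c : Γ) * y) (d : Γ)
    have h2 : (d : Γ) * ((c : Γ) * y) * (d : Γ)⁻¹ = ((d * c * d⁻¹ : C) : Γ) * y := by
      have h3 : (y : Γ) * (d : Γ)⁻¹ = (d : Γ)⁻¹ * y := by
        rw [eq_inv_mul_iff_mul_eq, ← mul_assoc, hcomm d d.2 y y.2]
        simp
      simp only [Subgroup.coe_mul, InvMemClass.coe_inv]
      rw [mul_assoc, mul_assoc, h3]
      simp only [mul_assoc]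
    rw [h2] at h1
    exact h1
  have hexp : ∀ (y : S) (c : C), (χh : Γ → ℂ) ((c : Γ) * y) =
      ∑ β' : IrrCharacter C, g β' y * (β' : C → ℂ) c := by
    intro y c
    have h1 := congrFun (Cfsg.Agent.Lib.Char.Complete.eq_sum_classInner _ (hcl y)) c
    simpa [Finset.sum_apply] using h1
  have hbd : ∀ (β' : IrrCharacter C) (y : S), y ≠ 1 → Complex.normSq (g β' y) ≤ 1 := by
    intro β' y hy
    obtain ⟨ε', β₁, hβ₁, hε', hval⟩ := hsign y hy
    have h1 : (fun c : C => (χh : Γ → ℂ) ((c : Γ) * y)) = (ε' : ℂ) • β₁ := by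
      funext c
      rw [hval]
      rfl
    show Complex.normSq (classInner (fun c : C => (χh : Γ → ℂ) ((c : Γ) * y)) (β' : C → ℂ)) ≤ 1
    rw [h1, classInner_smul_left, classInner_irr hβ₁ β'.2]
    rcases hε' with rfl | rfl <;> split_ifs <;> simp
  have hnat : ∀ (β' : IrrCharacter C) (τ : IrrCharacter S), ∃ n : ℕ, classInner (g β') τ = n :=
    fun β' τ => Cfsg.Agent.S4451.coeff_nat C S hcomm hχhc β' τ
  have hβ1 : (β : C → ℂ) 1 ≠ 0 := irr_apply_one_ne_zero β.2
  by_cases hn : Nat.card S = 1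
  · -- the trivial case
    have hs1 : s₀ = 1 := by
      have h1 : orderOf s₀ = 1 := by
        rw [← Nat.card_zpowers, hs₀, hn]
      exact orderOf_eq_one_iff.1 h1
    have hone : ∀ c : C, (χh : Γ → ℂ) c = (ε₀ : ℂ) * (β : C → ℂ) c := by
      intro c
      have h1 := hβ c s₀ hs₀
      rwa [hs1, mul_one] at h1
    have hε₁ : ε₀ = 1 := by
      rcases hε₀ with h | h
      · exact h
      · exfalso
        have h1 := hone 1
        obtain ⟨a, ha0, ha⟩ := irr_degree_pos χh.2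
        obtain ⟨b, hb0, hb⟩ := irr_degree_pos β.2
        rw [h] at h1
        simp only [OneMemClass.coe_one] at h1
        rw [ha, hb] at h1
        have h2 : ((a : ℂ) + b) = 0 := by
          rw [h1]
          push_cast
          ring
        have h3 : a + b = 0 := by exact_mod_cast h2
        omega
    subst hε₁
    haveI hsub : Subsingleton S := (Nat.card_eq_one_iff_unique.1 hn).1
    refine ⟨1, Or.inl rfl, ⟨fun _ => 1, isCharacter_of_isIrrCharacter
      Cfsg.Agent.Lib.Char.Burnside2.isIrrCharacter_one, rfl, fun _ => one_mul 1, fun c x hx => ?_⟩,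
      ⟨0, ?_, ?_⟩, ?_⟩
    · exact absurd (Subsingleton.elim x 1) hx
    · simpa using isCharacter_zero
    · funext c
      rw [← hext ⟨c, hCG c.2⟩]
      have := hone c
      simpa using this
    · rw [hn]
      simp
  -- the main case
  have hn2 : 2 ≤ Nat.card S := by
    have h1 : 0 < Nat.card S := Nat.card_pos
    omega
  have hs₀1 : s₀ ≠ 1 := by
    rintro rfl
    apply hn
    rw [← hs₀]
    simp
  let s : S := ⟨s₀, hs₀S⟩
  have hs1 : s ≠ 1 := fun h => hs₀1 (congrArg Subtype.val h)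
  choose q hq using fun β' : IrrCharacter C => Cfsg.Agent.S4451.dichotomy hA hn2 (g β') (hnat β') (hbd β')
  have hgs : ∀ β' : IrrCharacter C, g β' s = (ε₀ : ℂ) * classInner (β : C → ℂ) (β' : C → ℂ) := by
    intro β'
    have h1 : (fun c : C => (χh : Γ → ℂ) ((c : Γ) * (s : Γ))) = (ε₀ : ℂ) • (β : C → ℂ) := by
      funext c
      rw [hβ c s₀ hs₀]
      rfl
    show classInner (fun c : C => (χh : Γ → ℂ) ((c : Γ) * (s : Γ))) (β' : C → ℂ) = _
    rw [h1, classInner_smul_left]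
  have hε₀0 : (ε₀ : ℂ) ≠ 0 := by
    rcases hε₀ with rfl | rfl <;> simp
  obtain ⟨τ₀, ε, hε, h1, h2⟩ : ∃ (τ₀ : IrrCharacter S) (ε : ℤ), (ε = 1 ∨ ε = -1) ∧
      (∀ y : S, y ≠ 1 → g β y = (ε : ℂ) * (τ₀ : S → ℂ) y) ∧
        g β 1 = (Nat.card S : ℂ) * q β + (ε : ℂ) := by
    rcases hq β with ⟨h1, -⟩ | h1
    · exfalso
      have h2 := h1 s hs1
      rw [hgs, classInner_irr_self β.2, mul_one] at h2
      exact hε₀0 h2
    · exact h1
  obtain ⟨φ, hφ⟩ := Cfsg.Agent.Lib.Char.LinearChars.exists_hom_of_isCharacter_one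
    (isCharacter_of_isIrrCharacter τ₀.2) (Cfsg.Agent.S4451.irr_one hA τ₀)
  have hτ₀ : ∀ y, (τ₀ : S → ℂ) y = ((φ y : ℂˣ) : ℂ) := fun y => congrFun hφ y
  have h0 : ∀ β' : IrrCharacter C, β' ≠ β → (∀ y : S, y ≠ 1 → g β' y = 0) ∧
      g β' 1 = (Nat.card S : ℂ) * q β' := by
    intro β' hne
    rcases hq β' with h3 | ⟨τ, ε', hε', h3, -⟩
    · exact h3
    · exfalso
      have h4 := h3 s hs1
      have hne' : (β : C → ℂ) ≠ (β' : C → ℂ) := fun h => hne (Subtype.ext h).symm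
      rw [hgs, classInner_irr β.2 β'.2, if_neg hne', mul_zero] at h4
      obtain ⟨φ', hφ'⟩ := Cfsg.Agent.Lib.Char.LinearChars.exists_hom_of_isCharacter_one
        (isCharacter_of_isIrrCharacter τ.2) (Cfsg.Agent.S4451.irr_one hA τ)
      have h5 : (τ : S → ℂ) s = ((φ' s : ℂˣ) : ℂ) := congrFun hφ' s
      rw [h5] at h4
      have h6 : (ε' : ℂ) ≠ 0 := by
        rcases hε' with rfl | rfl <;> simp
      exact mul_ne_zero h6 (Units.ne_zero _) h4.symm
  have hsingle : ∀ (y : S), y ≠ 1 → ∀ c : C, (χh : Γ → ℂ) ((c : Γ) * y) = (ε : ℂ) * (τ₀ : S → ℂ) y * (β : C → ℂ) c := by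
    intro y hy c
    rw [hexp, Finset.sum_eq_single β, h1 y hy]
    · intro β' _ hne
      rw [(h0 β' hne).1 y hy, zero_mul]
    · intro h3
      exact absurd (Finset.mem_univ _) h3
  have hεε : (ε : ℂ) * (ε : ℂ) = 1 := by
    rcases hε with rfl | rfl <;> simp
  -- `μ` has order at most two
  have hμs : (φ s) ^ 2 = 1 := by
    have h3 := hsingle s hs1 1
    have h4 := hβ 1 s₀ hs₀
    have h5 : ((ε : ℂ) * (τ₀ : S → ℂ) s) = (ε₀ : ℂ) := by
      have h6 : ((ε : ℂ) * (τ₀ : S → ℂ) s) * (β : C → ℂ) 1 = (ε₀ : ℂ) * (β : C → ℂ) 1 := by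
        rw [← h3]
        exact h4
      exact mul_right_cancel₀ hβ1 h6
    apply Units.ext
    have h7 : ((φ s : ℂˣ) : ℂ) = (ε : ℂ) * (ε₀ : ℂ) := by
      rw [← h5, ← mul_assoc, hεε, one_mul, hτ₀]
    have h8 : (ε₀ : ℂ) * (ε₀ : ℂ) = 1 := by
      rcases hε₀ with rfl | rfl <;> simp
    rw [Units.val_pow_eq_pow_val, h7, Units.val_one, mul_pow, pow_two, pow_two, hεε, h8, one_mul]
  have hμ2 : ∀ y : S, (τ₀ : S → ℂ) y * (τ₀ : S → ℂ) y = 1 := by
    intro y
    have hy : (y : Γ) ∈ Subgroup.zpowers s₀ := by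
      rw [hs₀]
      exact y.2
    obtain ⟨j, hj⟩ := hy
    have h3 : y = s ^ j := by
      apply Subtype.ext
      simpa [s] using hj.symm
    have h4 : (φ y) ^ 2 = 1 := by
      rw [h3, map_zpow, ← zpow_natCast, ← zpow_mul, mul_comm, zpow_mul, zpow_natCast, hμs, one_zpow]
    rw [hτ₀, ← pow_two, ← Units.val_pow_eq_pow_val, h4, Units.val_one]
  let ϑ : C → ℂ := ∑ β' : IrrCharacter C, (q β') • (β' : C → ℂ)
  have hϑ : ∀ c, ϑ c = ∑ β' : IrrCharacter C, (q β' : ℂ) * (β' : C → ℂ) c := by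
    intro c
    simp [ϑ, Finset.sum_apply]
  have hval1 : ∀ c : C, (χ : G → ℂ) ⟨c, hCG c.2⟩ = (Nat.card S : ℂ) * ϑ c + (ε : ℂ) * (β : C → ℂ) c := by
    intro c
    rw [← hext ⟨c, hCG c.2⟩]
    have h3 := hexp 1 c
    simp only [OneMemClass.coe_one, mul_one] at h3
    show (χh : Γ → ℂ) (c : Γ) = _
    rw [h3, hϑ, Finset.mul_sum]
    have h4 : ∀ β' : IrrCharacter C, g β' 1 * (β' : C → ℂ) c = (Nat.card S : ℂ) * ((q β' : ℂ) * (β' : C → ℂ) c) +
        (if β' = β then (ε : ℂ) * (β : C → ℂ) c else 0) := by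
      intro β'
      by_cases hb : β' = β
      · subst hb
        rw [if_pos rfl, h2]
        ring
      · rw [if_neg hb, (h0 β' hb).2, add_zero]
        ring
    simp only [h4]
    rw [Finset.sum_add_distrib, Finset.sum_ite_eq' Finset.univ β, if_pos (Finset.mem_univ _)]
  refine ⟨ε, hε, ⟨(τ₀ : S → ℂ), isCharacter_of_isIrrCharacter τ₀.2, Cfsg.Agent.S4451.irr_one hA τ₀, hμ2, ?_⟩,
    ⟨ϑ, ?_, funext hval1⟩, ?_⟩
  · intro c x hx
    rw [hsingle x hx c]
    ring
  · exact isCharacter_finset_sum _ fun β' _ => isCharacter_nsmul (isCharacter_of_isIrrCharacter β'.2) _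
  · -- degrees
    have h3 := hval1 1
    have hdχ : (Cfsg.charDegree (χ : G → ℂ) : ℂ) = (χ : G → ℂ) 1 :=
      Cfsg.Agent.Lib.Char.Values.IsCharacter.charDegree_cast (isCharacter_of_isIrrCharacter χ.2)
    have hdβ : ∀ β' : IrrCharacter C, (Cfsg.charDegree (β' : C → ℂ) : ℂ) = (β' : C → ℂ) 1 := fun β' =>
      Cfsg.Agent.Lib.Char.Values.IsCharacter.charDegree_cast (isCharacter_of_isIrrCharacter β'.2)
    have h4 : (χ : G → ℂ) ⟨((1 : C) : Γ), hCG (1 : C).2⟩ = (χ : G → ℂ) 1 := rfl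
    rw [h4, ← hdχ, hϑ, ← hdβ β] at h3
    simp only [← hdβ] at h3
    refine ⟨∑ β' : IrrCharacter C, (q β' : ℤ) * (Cfsg.charDegree (β' : C → ℂ) : ℤ), ?_⟩
    have h5 : ((Cfsg.charDegree (χ : G → ℂ) : ℤ) : ℂ) = (((Nat.card S : ℤ) *
        ∑ β' : IrrCharacter C, (q β' : ℤ) * (Cfsg.charDegree (β' : C → ℂ) : ℤ) +
        ε * (Cfsg.charDegree (β : C → ℂ) : ℤ) : ℤ) : ℂ) := by
      push_cast
      exact h3
    have h6 := Int.cast_injective h5
    rw [h6]
    ring

end Cfsg.Agent.S4451
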