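import Cfsg.Statements.S4453
import Mathlib
import Cfsg.Agent.Lib.Char.IsaacsL

set_option autoImplicit false
set_option linter.style.haveILetI false
set_option linter.unusedSectionVars false
set_option linter.unusedVariables false
open Cfsg

namespace Cfsg.Agent.S4453

/-- Inside a finite group Γ let S normalise the solvable subgroup G of odd order with the orders of G and S coprime, let C = G ⊓ C(S), and let L ≤ K be S-invariant normal subgroups of G with K/L abelian, G = KC and H = LC (so C ≤ H ≤ G). Then for each S-invariant irreducible character χ of G there is exactly one S-invariant irreducible character ψ of H whose multiplicity in the restriction of χ to H is odd, and χ ↦ ψ is a bijection from the S-invariant irreducible characters of G onto those of H (distinct χ give distinct ψ, and every S-invariant ψ arises). -/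
theorem result {Γ : Type*} [Group Γ] [Fintype Γ] (G S : Subgroup Γ) [Fintype G] (hnorm : ∀ s ∈ S, ∀ g ∈ G, s * g * s⁻¹ ∈ G) (hcop : (Nat.card G).Coprime (Nat.card S)) (hGsolv : Group.IsSolvable G) (hodd : Odd (Nat.card G)) (C : Subgroup Γ) [Fintype C] (hC : C = G ⊓ Subgroup.centralizer (S : Set Γ)) (hCG : C ≤ G) (K L H : Subgroup Γ) [Fintype H] (hLK : L ≤ K) (hKG : K ≤ G) (hKn : ∀ g ∈ G, ∀ k ∈ K, g * k * g⁻¹ ∈ K) (hLn : ∀ g ∈ G, ∀ l ∈ L, g * l * g⁻¹ ∈ L) (hKS : ∀ s ∈ S, ∀ k ∈ K, s * k * s⁻¹ ∈ K) (hLS : ∀ s ∈ S, ∀ l ∈ L, s * l * s⁻¹ ∈ L) (hab : ∀ a ∈ K, ∀ b ∈ K, a * b * a⁻¹ * b⁻¹ ∈ L) (hGKC : K ⊔ C = G) (hH : H = L ⊔ C) (hHG : H ≤ G) : (∀ χ : Cfsg.IrrCharacter G, (∀ s ∈ S, ∀ g g' : G, (g' : Γ) = s * g * s⁻¹ → (χ : G → ℂ) g' = (χ : G → ℂ) g) → ∃! ψ : Cfsg.IrrCharacter H, (∀ s ∈ S, ∀ g g' : H, (g' : Γ) = s * g * s⁻¹ → (ψ : H → ℂ) g' = (ψ : H → ℂ) g) ∧ ∃ m :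 ℕ, Cfsg.classInner (fun h : H => (χ : G → ℂ) ⟨h, hHG h.2⟩) (ψ : H → ℂ) = (m : ℂ) ∧ Odd m) ∧ (∀ χ χ' : Cfsg.IrrCharacter G, (∀ s ∈ S, ∀ g g' : G, (g' : Γ) = s * g * s⁻¹ → (χ : G → ℂ) g' = (χ : G → ℂ) g) → (∀ s ∈ S, ∀ g g' : G, (g' : Γ) = s * g * s⁻¹ → (χ' : G → ℂ) g' = (χ' : G → ℂ) g) → ∀ ψ : Cfsg.IrrCharacter H, (∀ s ∈ S, ∀ g g' : H, (g' : Γ) = s * g * s⁻¹ → (ψ : H → ℂ) g' = (ψ : H → ℂ) g) → ∀ m m' : ℕ, Cfsg.classInner (fun h : H => (χ : G → ℂ) ⟨h, hHG h.2⟩) (ψ : H → ℂ) = (m : ℂ) → Odd m → Cfsg.classInner (fun h : H => (χ' : G → ℂ) ⟨h, hHG h.2⟩) (ψ : H → ℂ) = (m' : ℂ) → Odd m' → χ = χ') ∧ (∀ ψ : Cfsg.IrrCharacter H, (∀ s ∈ S, ∀ g g' : H, (g' : Γ) = s * g * s⁻¹ → (ψ : H → ℂ) g' = (ψ : H → ℂ) g) → ∃ χ : Cfsg.IrrCharacter G, (∀ s ∈ S, ∀ g g' : G, (g' : Γ) = s * g * s⁻¹ → (χ : G → ℂ) g' = (χ : G → ℂ) g) ∧ ∃ m : ℕ, Cfsg.classInner (fun h : H => (χ : G → ℂ) ⟨h,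 hHG h.2⟩) (ψ : H → ℂ) = (m : ℂ) ∧ Odd m) := by
  classical
  have hCH : C ≤ H := by
    rw [hH]
    exact le_sup_right
  have hLH : L ≤ H := by
    rw [hH]
    exact le_sup_left
  have hLL₁ : L ≤ K ⊓ H := le_inf hLK hLH
  have memG : ∀ g ∈ G, ∃ k ∈ K, ∃ c ∈ C, k * c = g := by
    intro g hg
    rw [← hGKC] at hg
    refine (Cfsg.Agent.Lib.Coprime.Coset.mem_sup_iff_of_le_normalizer (by
      rw [Subgroup.le_normalizer_iff]
      intro c hc l hl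
      exact hKn c (hCG hc) l hl) g).1 hg
  have memH : ∀ h ∈ H, ∃ l ∈ L, ∃ c ∈ C, l * c = h := by
    intro g hg
    rw [hH] at hg
    refine (Cfsg.Agent.Lib.Coprime.Coset.mem_sup_iff_of_le_normalizer (by
      rw [Subgroup.le_normalizer_iff]
      intro c hc l hl
      exact hLn c (hCG hc) l hl) g).1 hg
  have hL₁n : ∀ g ∈ G, ∀ x ∈ K ⊓ H, g * x * g⁻¹ ∈ K ⊓ H := by
    intro g hg x hx
    obtain ⟨k, hk, c, hc, rfl⟩ := memG g hg
    have h1 : c * x * c⁻¹ ∈ K ⊓ H :=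
      ⟨hKn c (hCG hc) x hx.1, H.mul_mem (H.mul_mem (hCH hc) hx.2) (H.inv_mem (hCH hc))⟩
    have h2 : k * (c * x * c⁻¹) * k⁻¹ * (c * x * c⁻¹)⁻¹ ∈ L := hab k hk _ h1.1
    have h3 : k * c * x * (k * c)⁻¹ = (k * (c * x * c⁻¹) * k⁻¹ * (c * x * c⁻¹)⁻¹) * (c * x * c⁻¹) := by group
    rw [h3]
    exact (K ⊓ H).mul_mem (hLL₁ h2) h1
  have hL₁S : ∀ s ∈ S, ∀ x ∈ K ⊓ H, s * x * s⁻¹ ∈ K ⊓ H := by
    intro s hs x hx
    refine ⟨hKS s hs x hx.1, ?_⟩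
    obtain ⟨l, hl, c, hc, h⟩ := memH x hx.2
    have h2 : s * c * s⁻¹ = c := by
      have hc2 := hc
      rw [hC] at hc2
      have h3 : c ∈ Subgroup.centralizer (S : Set Γ) := hc2.2
      rw [Subgroup.mem_centralizer_iff] at h3
      rw [h3 s hs]
      group
    have h3 : s * x * s⁻¹ = (s * l * s⁻¹) * (s * c * s⁻¹) := by
      rw [← h]
      group
    rw [h3, h2]
    exact H.mul_mem (hLH (hLS s hs l hl)) (hCH hc)
  let Z : Cfsg.Agent.Lib.Char.IsaacsK.Cfg Γ :=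
    { G := G, S := S, C := C, K := K, L := K ⊓ H, H := H
      hnorm := hnorm, hcop := hcop, hGsolv := hGsolv, hodd := hodd, hC := hC
      hLK := inf_le_left, hKG := hKG, hKn := hKn, hLn := hL₁n, hKS := hKS, hLS := hL₁S
      hab := fun a ha b hb => hLL₁ (hab a ha b hb), hGKC := hGKC
      hH := le_antisymm (by
        conv_lhs => rw [hH]
        exact sup_le (hLL₁.trans le_sup_left) le_sup_right) (sup_le inf_le_right hCH)
      hKH := le_refl _ }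
  exact @Cfsg.Agent.Lib.Char.IsaacsK.Cfg.main_cfg Γ _ _ Z ‹Fintype G› ‹Fintype H›

end Cfsg.Agent.S4453
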