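import Cfsg.Statements.S4454
import Mathlib
import Cfsg.Agent.Lib.Char.DGNAbs
-- import your own Cfsg.Agent.* helpers here

set_option autoImplicit false
open Cfsg

namespace Cfsg.Agent.S4454

open Cfsg.Agent.Lib.Char.Basic Cfsg.Agent.Lib.Char.Ortho Cfsg.Agent.Lib.Char.GlaubCyclic
open Cfsg.Agent.Lib.Char.DGNAbs
open scoped ComplexConjugate

set_option linter.style.haveILetI false

theorem arith {ι : Type*} [Fintype ι] (a : ι → ℕ) (m : ℕ) (hm : Fintype.card ι = m) (hm1 : 1 ≤ m)
    (h : m * ∑ i, a i ^ 2 = (∑ i, a i) ^ 2 + (m - 1)) :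
    (m : ℤ) ∣ ((∑ i, a i : ℕ) : ℤ) - 1 ∨ (m : ℤ) ∣ ((∑ i, a i : ℕ) : ℤ) + 1 := by
  classical
  haveI : Nonempty ι := by
    rw [← Fintype.card_pos_iff, hm]; omega
  obtain ⟨i₀, hi₀⟩ := Finite.exists_min a
  set q := a i₀ with hq
  let b : ι → ℕ := fun i => a i - q
  have hab : ∀ i, a i = q + b i := fun i => by
    have := hi₀ i
    simp only [b]
    omega
  set s := ∑ i, b i with hs
  set B := ∑ i, b i ^ 2 with hB
  have h1 : ∑ i, a i = m * q + s := by
    simp_rw [hab, Finset.sum_add_distrib, Finset.sum_const, Finset.card_univ, hm, smul_eq_mul]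
    simp only [hs]
  have h2 : ∑ i, a i ^ 2 = m * q ^ 2 + 2 * q * s + B := by
    have : ∀ i, a i ^ 2 = q ^ 2 + 2 * q * b i + b i ^ 2 := fun i => by rw [hab i]; ring
    simp_rw [this, Finset.sum_add_distrib, Finset.sum_const, Finset.card_univ, hm, smul_eq_mul,
      ← Finset.mul_sum]
    simp only [hs, hB]
  have h3 : m * B = s ^ 2 + (m - 1) := by
    rw [h1, h2] at h
    have : m * (m * q ^ 2 + 2 * q * s + B) = (m * q) ^ 2 + 2 * (m * q) * s + m * B := by ring
    rw [this] at h
    have h' : (m * q + s) ^ 2 = (m * q) ^ 2 + 2 * (m * q) * s + s ^ 2 := by ring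
    rw [h'] at h
    omega
  let Z := Finset.univ.filter fun i => b i ≠ 0
  set k := Z.card with hk
  have hi₀Z : i₀ ∉ Z := by
    simp [Z, b, hq]
  have hkm : k + 1 ≤ m := by
    have : Z.card < (Finset.univ : Finset ι).card :=
      Finset.card_lt_card (Finset.ssubset_univ_iff.mpr fun h => hi₀Z (h ▸ Finset.mem_univ _))
    rw [Finset.card_univ, hm] at this
    omega
  have hsZ : s = ∑ i ∈ Z, b i := by
    rw [hs]
    symm
    refine Finset.sum_subset (Finset.subset_univ _) fun i _ hi => ?_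
    simpa [Z] using hi
  have hBZ : B = ∑ i ∈ Z, b i ^ 2 := by
    rw [hB]
    symm
    refine Finset.sum_subset (Finset.subset_univ _) fun i _ hi => ?_
    simp [Z] at hi
    simp [hi]
  have hcs : s ^ 2 ≤ k * B := by
    rw [hsZ, hBZ]
    exact sq_sum_le_card_mul_sum_sq
  have hkB : k ≤ B := by
    rw [hBZ, hk, Finset.card_eq_sum_ones]
    refine Finset.sum_le_sum fun i hi => ?_
    have : b i ≠ 0 := by simpa [Z] using hi
    exact Nat.one_le_pow _ _ (Nat.pos_of_ne_zero this)
  obtain ⟨M, hM⟩ : ∃ M, m = k + M := ⟨m - k, by omega⟩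
  have hM1 : 1 ≤ M := by omega
  have hMB : M * B ≤ k + M - 1 := by
    have : m * B = k * B + M * B := by rw [hM]; ring
    have h4 : m - 1 = k + M - 1 := by rw [hM]
    omega
  have hsum : (((∑ i, a i : ℕ) : ℤ)) = m * q + s := by
    rw [h1]; push_cast; ring
  rcases Nat.lt_or_ge M 2 with hM2 | hM2
  · have hM1' : M = 1 := by omega
    subst hM1'
    have hBk : B = k := by
      have : 1 * B ≤ k + 1 - 1 := hMB
      omega
    have hs2 : s ^ 2 = k ^ 2 := by
      rw [hM, hBk] at h3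
      have : (k + 1) * k = k ^ 2 + k := by ring
      have h5 : k + 1 - 1 = k := by omega
      rw [h5, this] at h3
      omega
    have hsk : s = k := by
      exact Nat.pow_left_injective (n := 2) (by norm_num) hs2
    right
    rw [hsum, hsk]
    refine ⟨q + 1, ?_⟩
    rw [hM]
    push_cast
    ring
  · have hk1 : k ≤ 1 := by
      by_contra hcon
      push Not at hcon
      have h6 : M * k ≤ M * B := Nat.mul_le_mul_left _ hkB
      have h7 : (M - 1) * (k - 1) ≥ 1 := Nat.mul_pos (by omega) (by omega)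
      obtain ⟨M', rfl⟩ : ∃ M', M = M' + 1 := ⟨M - 1, by omega⟩
      obtain ⟨k', hk'⟩ : ∃ k', k = k' + 1 := ⟨k - 1, by omega⟩
      rw [hk'] at h6 h7 hMB
      simp only [Nat.add_sub_cancel] at h7
      have h8 : (M' + 1) * (k' + 1) = M' * k' + M' + k' + 1 := by ring
      rw [h8] at h6
      have h9 : k' + 1 + (M' + 1) - 1 = k' + M' + 1 := by omega
      rw [h9] at hMB
      have := le_trans h6 hMB
      omega
    interval_cases hkv : k
    · exfalso
      have hs0 : s ^ 2 = 0 := by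
        have : s ^ 2 ≤ 0 * B := hcs
        omega
      have hB0 : B = 0 := by
        by_contra hne
        have : M * 1 ≤ M * B := Nat.mul_le_mul_left _ (Nat.pos_of_ne_zero hne)
        omega
      rw [hB0, hs0] at h3
      omega
    · have hB1 : B = 1 := by
        have hle : M * B ≤ M * 1 := by
          have : 1 + M - 1 = M := by omega
          rw [this] at hMB
          simpa using hMB
        have := Nat.le_of_mul_le_mul_left hle (by omega)
        omega
      have hs1 : s ^ 2 = 1 := by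
        rw [hB1] at h3
        omega
      have hs1' : s = 1 := by
        have : s ^ 2 = 1 ^ 2 := by simpa using hs1
        exact Nat.pow_left_injective (n := 2) (by norm_num) this
      left
      rw [hsum, hs1']
      refine ⟨q, ?_⟩
      push_cast
      ring

/-- Sum over a group by left cosets of a subgroup. -/
theorem sum_cosets {A : Type*} [Group A] [Fintype A] (B : Subgroup A) [Fintype B] [Fintype (A ⧸ B)]
    (f : A → ℂ) : ∑ a, f a = ∑ q : A ⧸ B, ∑ b : B, f (q.out * b) := by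
  classical
  rw [← Finset.sum_fiberwise Finset.univ (fun a : A => (a : A ⧸ B)) f]
  refine Finset.sum_congr rfl fun q _ => ?_
  symm
  have hmem : ∀ a : A, (a : A ⧸ B) = q → q.out⁻¹ * a ∈ B := by
    intro a ha
    rw [← QuotientGroup.eq]
    rw [ha, QuotientGroup.out_eq']
  refine Finset.sum_bij' (i := fun b _ => q.out * (b : A))
    (j := fun a ha => ⟨q.out⁻¹ * a, hmem a (by simpa using ha)⟩) ?_ ?_ ?_ ?_ ?_
  · intro b _
    simp only [Finset.mem_filter, Finset.mem_univ, true_and]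
    rw [QuotientGroup.mk_mul_of_mem _ b.2, QuotientGroup.out_eq']
  · intro a _
    exact Finset.mem_univ _
  · intro b _
    apply Subtype.ext
    simp
  · intro a _
    simp
  · intro b _
    rfl

/-- The norm over a coset. -/
theorem coset_norm {Γ : Type*} [Group Γ] [Fintype Γ] (G N : Subgroup Γ) [hG : G.Normal] [hN : N.Normal]
    [Fintype G] [Fintype N] (hNG : N ≤ G)
    (hfrob : ∀ x : Γ, x ∉ G → ∀ g : Γ, g ∈ G → x * g * x⁻¹ * g⁻¹ ∈ N → g ∈ N)
    {X : Γ → ℂ} (hX : IsCharacter Γ X)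
    (hX1 : classInner (fun n : G => X n) (fun n : G => X n) = 1) {y : Γ} (hy : y ∉ G) :
    ∑ n : N, X ((n : Γ) * y) * conj (X ((n : Γ) * y)) = Nat.card N := by
  classical
  set N' := N.subgroupOf G with hN'
  haveI hN'n : N'.Normal := Subgroup.Normal.subgroupOf hN G
  haveI : Fintype N' := Fintype.ofFinite _
  haveI : Fintype (↥G ⧸ N') := Fintype.ofFinite _
  have hcl := isClassFunction_of_isCharacter hX
  let f : G → ℂ := fun w => X ((w : Γ) * y) * conj (X ((w : Γ) * y))
  set A := ∑ n : N, X ((n : Γ) * y) * conj (X ((n : Γ) * y)) with hA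
  -- conjugation by `y` on `G`
  let τ : G →* G := (MulAut.conjNormal y).toMonoidHom
  have hτ : ∀ g : G, ((τ g : G) : Γ) = y * g * y⁻¹ := fun g => by simp [τ]
  have hτN : N' ≤ N'.comap τ := by
    intro n hn
    rw [Subgroup.mem_comap, hN', Subgroup.mem_subgroupOf, hτ]
    exact hN.conj_mem _ hn y
  let τb : (↥G ⧸ N') →* (↥G ⧸ N') := QuotientGroup.map N' N' τ hτN
  have hτb : ∀ g : G, τb (g : ↥G ⧸ N') = (τ g : ↥G ⧸ N') := fun g => rfl
  let c : (↥G ⧸ N') → (↥G ⧸ N') := fun q => q * (τb q)⁻¹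
  have hcinj : Function.Injective c := by
    intro q₁ q₂ h
    have h1 : τb (q₂⁻¹ * q₁) = q₂⁻¹ * q₁ := by
      simp only [c] at h
      rw [map_mul, map_inv]
      have h2 : q₁ = q₂ * (τb q₂)⁻¹ * τb q₁ := by
        rw [← h]; group
      have h3 : q₂⁻¹ * q₁ = (τb q₂)⁻¹ * τb q₁ := by
        calc q₂⁻¹ * q₁ = q₂⁻¹ * (q₂ * (τb q₂)⁻¹ * τb q₁) := by rw [← h2]
          _ = (τb q₂)⁻¹ * τb q₁ := by group
      exact h3.symm
    obtain ⟨h, hh⟩ := QuotientGroup.mk_surjective (q₂⁻¹ * q₁)
    rw [← hh, hτb] at h1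
    have h2 : (h : G)⁻¹ * τ h ∈ N' := QuotientGroup.eq.mp h1.symm
    have h3 : (h : Γ) ∈ N := by
      refine hfrob y hy h h.2 ?_
      have h4 := hN.conj_mem _ (show (((h : G)⁻¹ * τ h : G) : Γ) ∈ N from h2) (h : Γ)
      have h5 : (h : Γ) * (((h : G)⁻¹ * τ h : G) : Γ) * (h : Γ)⁻¹ = y * h * y⁻¹ * (h : Γ)⁻¹ := by
        push_cast
        rw [hτ]
        group
      rwa [h5] at h4
    have h4 : (h : ↥G ⧸ N') = 1 := (QuotientGroup.eq_one_iff h).mpr h3
    rw [hh] at h4
    have := inv_mul_eq_one.mp h4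
    exact this.symm
  have hcsurj : Function.Surjective c := Finite.surjective_of_injective hcinj
  -- each coset has the same norm
  have hcoset : ∀ w : G, ∑ n : N', f (w * n) = A := by
    intro w
    obtain ⟨q, hq⟩ := hcsurj (w : ↥G ⧸ N')
    obtain ⟨g, rfl⟩ := QuotientGroup.mk_surjective q
    have h1 : ((g * (τ g)⁻¹ : G) : ↥G ⧸ N') = (w : ↥G ⧸ N') := by
      rw [← hq]
      show _ = (g : ↥G ⧸ N') * (τb (g : ↥G ⧸ N'))⁻¹
      rw [hτb]
      rfl
    have h2 : (g * (τ g)⁻¹ : G)⁻¹ * w ∈ N' := QuotientGroup.eq.mp h1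
    set n₀ : N' := ⟨_, h2⟩ with hn₀
    have h3 : w = g * (τ g)⁻¹ * (n₀ : G) := by
      rw [hn₀]
      group
    -- the bijection
    have hm1 : ∀ n : N', (((τ g : G) : Γ))⁻¹ * (((n₀ : G) : Γ) * ((n : G) : Γ)) * ((τ g : G) : Γ) ∈ N := by
      intro n
      have := hN.conj_mem _ (N.mul_mem n₀.2 n.2) (((τ g : G) : Γ))⁻¹
      simpa using this
    have hm2 : ∀ a : N, ((n₀ : G) : Γ)⁻¹ * (((τ g : G) : Γ) * (a : Γ) * ((τ g : G) : Γ)⁻¹) ∈ N := by
      intro a
      exact N.mul_mem (N.inv_mem n₀.2) (hN.conj_mem _ a.2 _)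
    let φ : N' ≃ N :=
      { toFun := fun n => ⟨_, hm1 n⟩
        invFun := fun a => ⟨⟨_, hNG (hm2 a)⟩, hm2 a⟩
        left_inv := fun n => by
          apply Subtype.ext
          apply Subtype.ext
          simp only
          group
        right_inv := fun a => by
          apply Subtype.ext
          simp only
          group }
    refine Fintype.sum_equiv φ _ _ fun n => ?_
    have h4 : ((w * n : G) : Γ) * y = (g : Γ) * (((φ n : N) : Γ) * y) * (g : Γ)⁻¹ := by
      show ((w : G) : Γ) * ((n : G) : Γ) * y = (g : Γ) * ((((τ g : G) : Γ))⁻¹ * (((n₀ : G) : Γ) * ((n : G) : Γ)) * ((τ g : G) : Γ) * y) * (g : Γ)⁻¹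
      rw [h3]
      push_cast
      simp only [hτ]
      group
    show X (((w * n : G) : Γ) * y) * conj (X (((w * n : G) : Γ) * y)) = _
    rw [h4, hcl]
  have hsum : ∑ w : G, f w = Nat.card G := sum_coset_self G hX hX1 y
  rw [sum_cosets N' f] at hsum
  simp only [hcoset, Finset.sum_const, Finset.card_univ, nsmul_eq_mul] at hsum
  have hcard : Nat.card G = Nat.card (↥G ⧸ N') * Nat.card N := by
    rw [Subgroup.card_eq_card_quotient_mul_card_subgroup N']
    congr 1
    exact Nat.card_congr (Subgroup.subgroupOfEquivOfLe hNG).toEquiv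
  rw [hcard, Nat.card_eq_fintype_card (α := ↥G ⧸ N')] at hsum
  push_cast at hsum
  exact mul_left_cancel₀ (by
    have : 0 < Fintype.card (↥G ⧸ N') := Fintype.card_pos
    exact_mod_cast this.ne') hsum

/-- The counting part. -/
theorem abstract_count {A : Type*} [Group A] [Fintype A] (B : Subgroup A) [hB : B.Normal] [Fintype B]
    {t : A} (htop : B ⊔ Subgroup.zpowers t = ⊤) {θ₀ : B → ℂ} (hθ₀ : IsIrrCharacter B θ₀)
    (hinv : TI B t θ₀) {ψ : A → ℂ} (hψ : IsCharacter A ψ) {e : ℕ}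
    (hres : ∀ b : B, ψ b = e * θ₀ b)
    (hnorm : (B.index : ℂ) * classInner ψ ψ = (e : ℂ) ^ 2 + ((B.index : ℂ) - 1)) :
    (B.index : ℤ) ∣ (e : ℤ) - 1 ∨ (B.index : ℤ) ∣ (e : ℤ) + 1 := by
  classical
  set m := B.index with hm
  have hm0 : m ≠ 0 := Subgroup.index_ne_zero_of_finite
  obtain ⟨E, hE, hEres⟩ := exists_ext htop hθ₀ hinv
  have hinvall := invariant_all htop hθ₀ hinv
  have hθc := isCharacter_of_isIrrCharacter hθ₀
  let S : Finset (IrrCharacter A) :=
    Finset.univ.filter fun ρ => classInner (fun n : B => (ρ : A → ℂ) n) θ₀ ≠ 0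
  have hS : ∀ ρ ∈ S, ∀ b : B, (ρ : A → ℂ) b = θ₀ b := by
    intro ρ hρ b
    have h1 : classInner (fun n : B => (ρ : A → ℂ) n) θ₀ ≠ 0 := by simpa [S] using hρ
    obtain ⟨l, hl, h2⟩ := exists_lin htop ρ.2 hθ₀ hinv hE hEres h1
    rw [h2]
    simp [hl b, hEres b]
  -- the multiplicities
  have hnat : ∀ ρ : IrrCharacter A, ∃ n : ℕ, classInner ψ (ρ : A → ℂ) = n :=
    fun ρ => exists_nat_classInner hψ ρ
  choose a ha using hnat
  have hoff : ∀ ρ : IrrCharacter A, ρ ∉ S → classInner ψ (ρ : A → ℂ) = 0 := by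
    intro ρ hρ
    have h1 : classInner (fun n : B => (ρ : A → ℂ) n) θ₀ = 0 := by
      by_contra h
      exact hρ (by simpa [S] using h)
    have hρc := isCharacter_of_isIrrCharacter ρ.2
    have h2 : classInner (fun n : B => ψ n) (fun n : B => (ρ : A → ℂ) n) = 0 := by
      have h3 : (fun n : B => ψ n) = (e : ℂ) • θ₀ := by
        funext b
        simp [hres b]
      rw [h3, classInner_smul_left, ← classInner_conj_symm, h1]
      simp
    have h3 : ∀ x : A, ∑ g : B, ψ ((g : A) * x) * conj ((ρ : A → ℂ) ((g : A) * x)) = 0 :=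
      fun x => sum_coset_ne B hψ hρc h2 x
    have h4 : (Nat.card B : ℂ) * ∑ a : A, ψ a * conj ((ρ : A → ℂ) a) = 0 := by
      have h5 : ∑ x : A, ∑ g : B, ψ ((g : A) * x) * conj ((ρ : A → ℂ) ((g : A) * x)) =
          (Nat.card B : ℂ) * ∑ a : A, ψ a * conj ((ρ : A → ℂ) a) := by
        rw [Finset.sum_comm]
        have h6 : ∀ g : B, ∑ x : A, ψ ((g : A) * x) * conj ((ρ : A → ℂ) ((g : A) * x)) =
            ∑ a : A, ψ a * conj ((ρ : A → ℂ) a) := fun g =>
          Fintype.sum_equiv (Equiv.mulLeft (g : A)) _ _ fun x => rfl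
        simp only [h6, Finset.sum_const, Finset.card_univ, nsmul_eq_mul, Nat.card_eq_fintype_card]
      rw [← h5]
      simp [h3]
    have h5 : ∑ a : A, ψ a * conj ((ρ : A → ℂ) a) = 0 := by
      refine (mul_eq_zero.mp h4).resolve_left ?_
      exact_mod_cast Nat.card_pos.ne'
    rw [classInner, h5, mul_zero]
  have hθ1 : θ₀ 1 ≠ 0 := irr_apply_one_ne_zero hθ₀
  -- the sum of the multiplicities
  have hsum : (e : ℂ) = ∑ ρ ∈ S, (a ρ : ℂ) := by
    have h1 := decomp_eq_sum_classInner hψ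
    have h2 := congrFun h1 1
    rw [Finset.sum_apply] at h2
    have h3 : ψ 1 = e * θ₀ 1 := by simpa using hres 1
    rw [h3] at h2
    have h4 : ∑ ρ : IrrCharacter A, (classInner ψ (ρ : A → ℂ) • (ρ : A → ℂ)) 1 =
        ∑ ρ ∈ S, (a ρ : ℂ) * θ₀ 1 := by
      rw [← Finset.sum_subset (Finset.subset_univ S)]
      · refine Finset.sum_congr rfl fun ρ hρ => ?_
        have := hS ρ hρ 1
        simp only [Pi.smul_apply, smul_eq_mul, ha ρ]
        simpa using congrArg (fun z => (a ρ : ℂ) * z) this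
      · intro ρ _ hρ
        simp [hoff ρ hρ]
    rw [h4, ← Finset.sum_mul] at h2
    exact mul_right_cancel₀ hθ1 h2
  -- the norm
  have hsq : classInner ψ ψ = ∑ ρ ∈ S, (a ρ : ℂ) ^ 2 := by
    rw [classInner_eq_sum_mul hψ hψ, ← Finset.sum_subset (Finset.subset_univ S)]
    · refine Finset.sum_congr rfl fun ρ _ => ?_
      rw [← classInner_conj_symm ψ (ρ : A → ℂ), ha ρ]
      simp [sq]
    · intro ρ _ hρ
      rw [hoff ρ hρ, zero_mul]
  -- the size of `S`
  have hcard : S.card = m := by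
    set Ψ := indFun B θ₀ with hΨ
    have hΨc : IsClassFunction A Ψ := Cfsg.Agent.Lib.Char.Induced.indFun_isClassFunction B θ₀
    have h1 := Cfsg.Agent.Lib.Char.Complete.eq_sum_classInner Ψ hΨc
    have h2 := congrFun h1 1
    rw [Finset.sum_apply] at h2
    have h3 : ∀ ρ : IrrCharacter A, classInner Ψ (ρ : A → ℂ) =
        classInner θ₀ (fun n : B => (ρ : A → ℂ) n) := fun ρ =>
      Cfsg.Agent.Lib.Char.Induced.frobenius_reciprocity B θ₀ _
        (isClassFunction_of_isCharacter (isCharacter_of_isIrrCharacter ρ.2))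
    have h4 : ∑ ρ : IrrCharacter A, (classInner Ψ (ρ : A → ℂ) • (ρ : A → ℂ)) 1 =
        ∑ ρ ∈ S, θ₀ 1 := by
      rw [← Finset.sum_subset (Finset.subset_univ S)]
      · refine Finset.sum_congr rfl fun ρ hρ => ?_
        have h5 : (fun n : B => (ρ : A → ℂ) n) = θ₀ := funext (hS ρ hρ)
        simp only [Pi.smul_apply, smul_eq_mul, h3, h5, classInner_irr_self hθ₀, one_mul]
        simpa using hS ρ hρ 1
      · intro ρ _ hρ
        have h5 : classInner (fun n : B => (ρ : A → ℂ) n) θ₀ = 0 := by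
          by_contra h
          exact hρ (by simpa [S] using h)
        have h6 : classInner θ₀ (fun n : B => (ρ : A → ℂ) n) = 0 := by
          rw [← classInner_conj_symm, h5]
          simp
        simp [h3, h6]
    rw [h4] at h2
    have h5 := congrFun (Cfsg.Agent.Lib.Char.Gallagher.res_indFun_of_invariant B θ₀ hinvall) 1
    simp only [Pi.smul_apply, smul_eq_mul] at h5
    have h6 : Ψ 1 = (m : ℂ) * θ₀ 1 := by
      simpa using h5
    rw [h6, Finset.sum_const, nsmul_eq_mul] at h2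
    have h7 := mul_right_cancel₀ hθ1 h2
    exact_mod_cast h7.symm
  -- apply the arithmetic
  have hmain := arith (ι := S) (fun ρ => a ρ) m (by simpa using hcard) (Nat.pos_of_ne_zero hm0) ?_
  · have hsum' : ∑ ρ : S, a ρ = e := by
      have : (e : ℂ) = ((∑ ρ : S, a ρ : ℕ) : ℂ) := by
        rw [hsum]
        push_cast
        exact (Finset.sum_coe_sort S (fun ρ => (a ρ : ℂ))).symm
      exact_mod_cast this.symm
    rw [hsum'] at hmain
    exact hmain
  · have hsum' : ∑ ρ : S, a ρ = e := by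
      have : (e : ℂ) = ((∑ ρ : S, a ρ : ℕ) : ℂ) := by
        rw [hsum]
        push_cast
        exact (Finset.sum_coe_sort S (fun ρ => (a ρ : ℂ))).symm
      exact_mod_cast this.symm
    rw [hsum']
    have hc : ((m * ∑ ρ : S, a ρ ^ 2 : ℕ) : ℂ) = ((e ^ 2 + (m - 1) : ℕ) : ℂ) := by
      rw [Nat.cast_add, Nat.cast_sub (Nat.pos_of_ne_zero hm0)]
      push_cast
      rw [← hnorm, hsq]
      congr 1
      exact Finset.sum_coe_sort S (fun ρ => (a ρ : ℂ) ^ 2)
    exact_mod_cast hc

/-- Let N ≤ G be normal subgroups of the finite group Γ with Γ/G cyclic and Γ/N a Frobenius group with kernel G/N: G ≠ Γ, N ≠ G, and no element of Γ outside G fixes a non-identity coset of N in G under conjugation. Let ϑ be an irreducible character of N invariant under conjugation by Γ and suppose ϑ is fully ramified in G: the character of G induced from ϑ equals e·χ for an irreducible character χ of G and a natural number e. Then the index of G in Γ divides e − 1 or e + 1. -/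
theorem result {Γ : Type*} [Group Γ] [Fintype Γ] (G N : Subgroup Γ) [hG : G.Normal] [hN : N.Normal] [Fintype G] [Fintype N] (hNG : N ≤ G) (hGlt : G ≠ ⊤) (hNlt : N ≠ G) (hcyc : IsCyclic (Γ ⧸ G)) (hfrob : ∀ x : Γ, x ∉ G → ∀ g : Γ, g ∈ G → x * g * x⁻¹ * g⁻¹ ∈ N → g ∈ N) (θ : Cfsg.IrrCharacter N) (hinv : ∀ (x : Γ) (n : N), (θ : N → ℂ) ⟨x * n * x⁻¹, hN.conj_mem n n.2 x⟩ = (θ : N → ℂ) n) (χ : Cfsg.IrrCharacter G) (e : ℕ) (hram : Cfsg.indFun (N.subgroupOf G) (fun n : N.subgroupOf G => (θ : N → ℂ) ⟨(n : G), n.2⟩) = fun g => (e : ℂ) * (χ : G → ℂ) g) : (G.index : ℤ) ∣ (e : ℤ) - 1 ∨ (G.index : ℤ) ∣ (e : ℤ) + 1 := by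
  classical
  set N' := N.subgroupOf G with hN'
  haveI hN'n : N'.Normal := Subgroup.Normal.subgroupOf hN G
  haveI : Fintype N' := Fintype.ofFinite _
  set θ' : N' → ℂ := fun n => (θ : N → ℂ) ⟨(n : G), n.2⟩ with hθ'
  have hθ'irr : IsIrrCharacter N' θ' :=
    isIrrCharacter_comp_surjective θ.2 (Subgroup.subgroupOfEquivOfLe hNG).toMonoidHom
      (Subgroup.subgroupOfEquivOfLe hNG).surjective
  have hθ'inv : ∀ (g : G) (n : N'), θ' ⟨g * n * g⁻¹, hN'n.conj_mem (n : G) n.2 g⟩ = θ' n :=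
    fun g n => hinv g ⟨(n : G), n.2⟩
  have hres := Cfsg.Agent.Lib.Char.Gallagher.res_indFun_of_invariant N' θ' hθ'inv
  have hnorm := Cfsg.Agent.Lib.Char.Gallagher.classInner_indFun_self_of_invariant N' hθ'irr hθ'inv
  rw [hram] at hres hnorm
  have hχχ : classInner (χ : G → ℂ) (χ : G → ℂ) = 1 := classInner_irr_self χ.2
  have hidx : (e : ℂ) ^ 2 = (N'.index : ℂ) := by
    have h1 : (fun g => (e : ℂ) * (χ : G → ℂ) g) = (e : ℂ) • (χ : G → ℂ) := rfl
    rw [h1, classInner_smul_left, classInner_smul_right, hχχ] at hnorm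
    rw [← hnorm]
    simp [sq]
  have hidx0 : (N'.index : ℂ) ≠ 0 := by
    exact_mod_cast (Subgroup.index_ne_zero_of_finite (H := N'))
  have he0 : (e : ℂ) ≠ 0 := by
    intro h
    rw [h] at hidx
    apply hidx0
    rw [← hidx]
    simp
  have hχN : ∀ n : N', (χ : G → ℂ) n = (e : ℂ) * θ' n := by
    intro n
    have h1 := congrFun hres n
    simp only [Pi.smul_apply, smul_eq_mul] at h1
    rw [← hidx, sq, mul_assoc] at h1
    exact mul_left_cancel₀ he0 h1
  have hχoff : ∀ g : G, g ∉ N' → (χ : G → ℂ) g = 0 := by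
    intro g hg
    have h1 := congrFun hram g
    have h2 : indFun N' θ' g = 0 := by
      rw [Cfsg.Agent.Lib.Char.Induced.indFun_apply]
      refine mul_eq_zero_of_right _ (Finset.sum_eq_zero fun x _ => ?_)
      refine Cfsg.Agent.Lib.Char.Induced.extendByZero_of_notMem _ _ ?_
      intro hc
      apply hg
      have := hN'n.conj_mem _ hc x
      simpa [mul_assoc] using this
    rw [h2] at h1
    exact (mul_eq_zero.mp h1.symm).resolve_left he0
  have hχinv : ∀ (x : Γ) (g : G), (χ : G → ℂ) ⟨x * g * x⁻¹, hG.conj_mem g g.2 x⟩ = (χ : G → ℂ) g := by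
    intro x g
    by_cases hg : g ∈ N'
    · have hg2 : (⟨x * g * x⁻¹, hG.conj_mem g g.2 x⟩ : G) ∈ N' := hN.conj_mem _ hg x
      have h1 := hχN ⟨_, hg2⟩
      have h2 := hχN ⟨g, hg⟩
      simp only at h1 h2
      rw [h1, h2]
      congr 1
      exact hinv x ⟨(g : Γ), hg⟩
    · have hg2 : (⟨x * g * x⁻¹, hG.conj_mem g g.2 x⟩ : G) ∉ N' := by
        intro hc
        apply hg
        have := hN.conj_mem _ hc x⁻¹
        simpa [mul_assoc, hN', Subgroup.mem_subgroupOf] using this
      rw [hχoff _ hg, hχoff _ hg2]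
  obtain ⟨X, hX, hXres⟩ := Cfsg.Agent.S0886.result G hcyc (χ : G → ℂ) χ.2 hχinv
  have hXc := isCharacter_of_isIrrCharacter hX
  have hX1 : classInner (fun n : G => X n) (fun n : G => X n) = 1 := by
    have : (fun n : G => X n) = (χ : G → ℂ) := funext hXres
    rw [this]
    exact hχχ
  -- the generator
  obtain ⟨c, hc⟩ := hcyc.exists_generator
  obtain ⟨x, rfl⟩ := QuotientGroup.mk_surjective c
  have hxG : x ∉ G := by
    intro hx
    apply hGlt
    rw [eq_top_iff]
    intro z _
    have h1 := hc (z : Γ ⧸ G)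
    have h2 : (x : Γ ⧸ G) = 1 := (QuotientGroup.eq_one_iff x).mpr hx
    rw [h2, Subgroup.zpowers_one_eq_bot, Subgroup.mem_bot] at h1
    exact (QuotientGroup.eq_one_iff z).mp h1
  -- the subgroup
  set H := N ⊔ Subgroup.zpowers x with hH
  have hNH : N ≤ H := le_sup_left
  have hxH : x ∈ H := (le_sup_right : Subgroup.zpowers x ≤ H) (Subgroup.mem_zpowers x)
  have hform : ∀ a ∈ H, ∃ n ∈ N, ∃ k : ℤ, a = n * x ^ k := by
    intro a ha
    rw [hH, ← SetLike.mem_coe, Subgroup.normal_mul, Set.mem_mul] at ha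
    obtain ⟨n, hn, z, hz, rfl⟩ := ha
    obtain ⟨k, rfl⟩ := Subgroup.mem_zpowers_iff.mp hz
    exact ⟨n, hn, k, rfl⟩
  have hHG : ∀ a ∈ H, a ∈ G → a ∈ N := by
    intro a ha hag
    obtain ⟨n, hn, k, rfl⟩ := hform a ha
    have h1 : x ^ k ∈ G := by
      have := G.mul_mem (G.inv_mem (hNG hn)) hag
      simpa using this
    have h2 : x ^ k ∈ N := by
      refine hfrob x hxG _ h1 ?_
      have : x * x ^ k * x⁻¹ * (x ^ k)⁻¹ = 1 := by
        have h3 : Commute x (x ^ k) := (Commute.refl x).zpow_right k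
        rw [h3.eq]
        group
      rw [this]
      exact N.one_mem
    exact N.mul_mem hn h2
  let A := ↥H
  haveI : Fintype A := Fintype.ofFinite _
  let B : Subgroup A := N.subgroupOf H
  haveI hB : B.Normal := Subgroup.Normal.subgroupOf hN H
  haveI : Fintype B := Fintype.ofFinite _
  let t : A := ⟨x, hxH⟩
  have htop : B ⊔ Subgroup.zpowers t = ⊤ := by
    rw [eq_top_iff]
    intro a _
    obtain ⟨n, hn, k, hnk⟩ := hform a a.2
    have h1 : a = ⟨n, hNH hn⟩ * t ^ k := by
      apply Subtype.ext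
      rw [Subgroup.coe_mul, SubgroupClass.coe_zpow]
      exact hnk
    rw [h1]
    exact Subgroup.mul_mem _ (Subgroup.mem_sup_left (show (⟨n, hNH hn⟩ : A) ∈ B from hn))
      (Subgroup.mem_sup_right (Subgroup.zpow_mem_zpowers t k))
  -- the index
  have hindex : B.index = G.index := by
    let φ : A →* Γ ⧸ G := (QuotientGroup.mk' G).comp H.subtype
    have hker : φ.ker = B := by
      ext a
      rw [MonoidHom.mem_ker]
      simp only [φ, MonoidHom.comp_apply, Subgroup.subtype_apply, QuotientGroup.mk'_apply,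
        QuotientGroup.eq_one_iff]
      constructor
      · exact fun h => hHG _ a.2 h
      · exact fun h => hNG h
    have hrange : φ.range = ⊤ := by
      rw [eq_top_iff]
      intro z _
      obtain ⟨k, hk⟩ := Subgroup.mem_zpowers_iff.mp (hc z)
      refine ⟨t ^ k, ?_⟩
      rw [← hk, map_zpow]
      rfl
    rw [← hker, Subgroup.index_ker, hrange, Subgroup.card_top]
    rfl
  let θ₀ : B → ℂ := fun b => (θ : N → ℂ) ⟨(b : A), b.2⟩
  have hθ₀ : IsIrrCharacter B θ₀ :=
    isIrrCharacter_comp_surjective θ.2 (Subgroup.subgroupOfEquivOfLe hNH).toMonoidHom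
      (Subgroup.subgroupOfEquivOfLe hNH).surjective
  have hTI : TI B t θ₀ := fun b => hinv x ⟨(b : A), b.2⟩
  let ψ : A → ℂ := fun a => X (a : Γ)
  have hψ : IsCharacter A ψ := isCharacter_restrict hXc H
  have hψres : ∀ b : B, ψ b = e * θ₀ b := by
    intro b
    have h1 : ((b : A) : Γ) ∈ G := hNG b.2
    have h2 := hXres ⟨_, h1⟩
    have h3 := hχN ⟨⟨_, h1⟩, b.2⟩
    show X ((b : A) : Γ) = _
    simp only at h2 h3
    rw [h2, h3]
  -- the coset norms
  have hcardB : Nat.card B = Nat.card N := Nat.card_congr (Subgroup.subgroupOfEquivOfLe hNH).toEquiv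
  have hoff : ∀ w : A, w ∉ B → ∑ b : B, ψ (w * b) * conj (ψ (w * b)) = Nat.card B := by
    intro w hw
    have h1 : (w : Γ) ∉ G := fun h => hw (hHG _ w.2 h)
    have h2 := coset_norm G N hNG hfrob hXc hX1 h1
    rw [hcardB, ← h2]
    let φ : B ≃ N :=
      { toFun := fun b => ⟨(w : Γ) * ((b : A) : Γ) * (w : Γ)⁻¹, hN.conj_mem _ b.2 _⟩
        invFun := fun n => ⟨⟨(w : Γ)⁻¹ * n * (w : Γ), hNH (by
            have := hN.conj_mem _ n.2 (w : Γ)⁻¹
            simpa using this)⟩, by
            have := hN.conj_mem _ n.2 (w : Γ)⁻¹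
            show (w : Γ)⁻¹ * n * (w : Γ) ∈ N
            simpa using this⟩
        left_inv := fun b => by
          apply Subtype.ext
          apply Subtype.ext
          simp only
          group
        right_inv := fun n => by
          apply Subtype.ext
          simp only
          group }
    refine Fintype.sum_equiv φ _ _ fun b => ?_
    have h3 : ((φ b : N) : Γ) * (w : Γ) = ((w * b : A) : Γ) := by
      show (w : Γ) * ((b : A) : Γ) * (w : Γ)⁻¹ * (w : Γ) = (w : Γ) * ((b : A) : Γ)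
      group
    show X ((w * b : A) : Γ) * conj (X ((w * b : A) : Γ)) = _
    rw [h3]
  have hon : ∀ w : A, w ∈ B → ∑ b : B, ψ (w * b) * conj (ψ (w * b)) = (e : ℂ) ^ 2 * Nat.card B := by
    intro w hw
    have h1 : ∑ b : B, ψ (w * b) * conj (ψ (w * b)) = ∑ b : B, ψ b * conj (ψ b) :=
      Fintype.sum_equiv (Equiv.mulLeft (⟨w, hw⟩ : B)) _ _ fun b => rfl
    rw [h1]
    have h2 : classInner θ₀ θ₀ = 1 := classInner_irr_self hθ₀
    rw [classInner] at h2
    have h3 : ∑ b : B, θ₀ b * conj (θ₀ b) = Nat.card B := by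
      have hne : (Nat.card B : ℂ) ≠ 0 := by exact_mod_cast Nat.card_pos.ne'
      field_simp at h2
      exact h2
    rw [← h3, Finset.mul_sum]
    refine Finset.sum_congr rfl fun b _ => ?_
    rw [hψres b, map_mul, Complex.conj_natCast]
    ring
  have hnormA : (B.index : ℂ) * classInner ψ ψ = (e : ℂ) ^ 2 + ((B.index : ℂ) - 1) := by
    haveI : Fintype (A ⧸ B) := Fintype.ofFinite _
    have hcardA : (Nat.card A : ℂ) = (B.index : ℂ) * Nat.card B := by
      have := Subgroup.index_mul_card B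
      exact_mod_cast this.symm
    have hbne : (Nat.card B : ℂ) ≠ 0 := by exact_mod_cast Nat.card_pos.ne'
    have hidne : (B.index : ℂ) ≠ 0 := by
      exact_mod_cast (Subgroup.index_ne_zero_of_finite (H := B))
    rw [classInner, hcardA, sum_cosets B (fun a => ψ a * conj (ψ a))]
    have h1 : ∑ q : A ⧸ B, ∑ b : B, ψ (q.out * b) * conj (ψ (q.out * b)) =
        ∑ q : A ⧸ B, (if q = 1 then (e : ℂ) ^ 2 * Nat.card B else (Nat.card B : ℂ)) := by
      refine Finset.sum_congr rfl fun q _ => ?_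
      split_ifs with hq
      · apply hon
        rw [hq]
        exact (QuotientGroup.eq_one_iff _).mp (QuotientGroup.out_eq' (1 : A ⧸ B))
      · apply hoff
        intro hmem
        apply hq
        rw [← QuotientGroup.out_eq' q]
        exact (QuotientGroup.eq_one_iff _).mpr hmem
    rw [h1]
    have h2 : ∑ q : A ⧸ B, (if q = 1 then (e : ℂ) ^ 2 * Nat.card B else (Nat.card B : ℂ)) =
        (e : ℂ) ^ 2 * Nat.card B + ((B.index : ℂ) - 1) * Nat.card B := by
      rw [← Finset.add_sum_erase Finset.univ _ (Finset.mem_univ (1 : A ⧸ B)), if_pos rfl]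
      congr 1
      rw [Finset.sum_congr rfl (g := fun _ => (Nat.card B : ℂ))]
      · rw [Finset.sum_const, Finset.card_erase_of_mem (Finset.mem_univ _), Finset.card_univ,
          nsmul_eq_mul, Nat.cast_sub Fintype.card_pos]
        congr 2
        rw [Subgroup.index, Nat.card_eq_fintype_card]
        simp
      · intro q hq
        rw [if_neg (Finset.ne_of_mem_erase hq)]
    rw [h2]
    field_simp
  have hmain := abstract_count B htop hθ₀ hTI hψ hψres hnormA
  rw [hindex] at hmain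
  exact hmain

end Cfsg.Agent.S4454
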