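import Cfsg.Statements.S4455
import Cfsg.Agent.Lib.Char.PResChars

set_option autoImplicit false
open Cfsg

namespace Cfsg.Agent.S4455

open Cfsg.Agent.Lib.Char.Basic Cfsg.Agent.Lib.Char.PResChars Cfsg.Agent.Lib.Char.LinearChars
  Cfsg.Agent.Lib.Transfer.Basic Cfsg.Agent.Lib.Char.DetExt Cfsg.Agent.Lib.Char.DetExt2
  Cfsg.Agent.Lib.Char.CliffordCorr Cfsg.Agent.Lib.Char.Clifford

universe u

theorem orderOf_coe_hom {K : Type u} [Group K] (μ : K →* ℂˣ) :
    orderOf (fun g => ((μ g : ℂˣ) : ℂ)) = orderOf μ := by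
  let ι : (K →* ℂˣ) →* (K → ℂ) :=
    { toFun := fun f g => ((f g : ℂˣ) : ℂ)
      map_one' := by funext g; simp
      map_mul' := by intro a b; funext g; simp }
  have hι : Function.Injective ι := by
    intro a b h
    ext g
    exact congrFun h g
  exact orderOf_injective ι hι μ

variable {G : Type u} [Group G] [Finite G]

theorem charDegree_eq_of_res {χ : G → ℂ} {N : Subgroup G} {φ : N → ℂ}
    (h : ∀ n : N, χ n = φ n) : charDegree χ = charDegree φ := by
  unfold charDegree
  have := h 1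
  rw [OneMemClass.coe_one] at this
  rw [this]

/-- The restriction to `O^p(G)` of an irreducible character of degree prime to `p` is irreducible. -/
theorem isIrr_res (p : ℕ) [hp : Fact p.Prime] {χ : G → ℂ} (hχ : IsIrrCharacter G χ)
    (hd : ¬ p ∣ charDegree χ) : IsIrrCharacter (Cfsg.pResidual p G) (fun n => χ n) := by
  classical
  letI : Fintype G := Fintype.ofFinite _
  let R := Cfsg.pResidual p G
  letI : Fintype R := Fintype.ofFinite _
  have hχc := isCharacter_of_isIrrCharacter hχ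
  have hres := isCharacter_restrict hχc R
  have h1 : (fun n : R => χ n) 1 ≠ 0 := by
    simpa using Cfsg.Agent.Lib.Char.Ortho.irr_apply_one_ne_zero hχ
  obtain ⟨φ, hφ, hc⟩ := exists_irr_constituent hres h1
  obtain ⟨e, he, hdvd⟩ := Cfsg.Agent.Lib.Char.DegreeDvd.exists_degree_ratio R hχ hφ hc
  obtain ⟨k, hk⟩ := exists_index_eq (G := G) p
  rw [hk] at hdvd
  obtain ⟨j, -, rfl⟩ := (Nat.dvd_prime_pow hp.out).mp hdvd
  have hφc := isCharacter_of_isIrrCharacter hφ
  have hdχ := Cfsg.Agent.Lib.Char.Values.IsCharacter.charDegree_cast hχc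
  have hdφ := Cfsg.Agent.Lib.Char.Values.IsCharacter.charDegree_cast hφc
  have hnat : charDegree χ = p ^ j * charDegree φ := by
    have : ((charDegree χ : ℕ) : ℂ) = ((p ^ j * charDegree φ : ℕ) : ℂ) := by
      rw [hdχ, he]
      push_cast
      rw [hdφ]
    exact_mod_cast this
  have hj : j = 0 := by
    by_contra hj
    apply hd
    rw [hnat]
    exact (dvd_pow_self p hj).trans (dvd_mul_right _ _)
  subst hj
  obtain ⟨Ξ, hΞ, hsum⟩ := exists_char_add hres hφ hc
  have h2 : Ξ 1 = 0 := by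
    have h3 := congrFun hsum 1
    simp only [Pi.add_apply, OneMemClass.coe_one] at h3
    rw [he] at h3
    simp only [pow_zero, Nat.cast_one, one_mul] at h3
    exact (left_eq_add.mp h3)
  have h4 := eq_zero_of_apply_one_eq_zero hΞ h2
  rw [hsum, h4, add_zero]
  exact hφ

/-- Uniqueness of the restriction on characters of degree and determinantal order prime to `p`. -/
theorem eq_of_res_eq (p : ℕ) [hp : Fact p.Prime] {χ χ' : G → ℂ} (hχ : IsIrrCharacter G χ)
    (hχ' : IsIrrCharacter G χ') (hd : ¬ p ∣ charDegree χ) (ho : ¬ p ∣ detOrder χ)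
    (ho' : ¬ p ∣ detOrder χ') (h : ∀ n : Cfsg.pResidual p G, χ' n = χ n) : χ' = χ := by
  classical
  let R := Cfsg.pResidual p G
  have hχc := isCharacter_of_isIrrCharacter hχ
  have hχc' := isCharacter_of_isIrrCharacter hχ'
  obtain ⟨l, hl⟩ := exists_hom_detChar hχc
  obtain ⟨l', hl'⟩ := exists_hom_detChar hχc'
  have hl1 : detChar χ = fun g => ((l g : ℂˣ) : ℂ) := funext hl
  have hl2 : detChar χ' = fun g => ((l' g : ℂˣ) : ℂ) := funext hl'
  have hol : ¬ p ∣ orderOf l := by
    rw [← orderOf_coe_hom, ← hl1]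
    exact ho
  have hol' : ¬ p ∣ orderOf l' := by
    rw [← orderOf_coe_hom, ← hl2]
    exact ho'
  haveI := finite_hom G
  -- the quotient of the determinants
  have hq : ∀ n : R, l' n = l n := by
    intro n
    apply Units.ext
    rw [← hl, ← hl', detChar_res R hχc, detChar_res R hχc']
    have : (fun n : R => χ' n) = fun n : R => χ n := funext h
    rw [this]
  obtain ⟨k, hk⟩ := exists_index_eq (G := G) p
  have hcop : Nat.Coprime (p ^ k) (orderOf l * orderOf l') := by
    apply Nat.Coprime.pow_left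
    exact Nat.Coprime.mul_right ((Nat.Prime.coprime_iff_not_dvd hp.out).mpr hol)
      ((Nat.Prime.coprime_iff_not_dvd hp.out).mpr hol')
  have hll : l' = l := by
    ext g
    congr 1
    have hpow : (l' g / l g) ^ (p ^ k) = 1 := by
      have h1 : (g : G ⧸ R) ^ (p ^ k) = 1 := by
        rw [← hk]
        exact pow_card_eq_one'
      have h2 : g ^ (p ^ k) ∈ R := by
        rw [← QuotientGroup.eq_one_iff, QuotientGroup.mk_pow]
        exact h1
      have h3 : l' (g ^ p ^ k) = l (g ^ p ^ k) := hq ⟨_, h2⟩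
      rw [div_pow, ← map_pow, ← map_pow, h3, div_self']
    have hpow2 : (l' g / l g) ^ (orderOf l * orderOf l') = 1 := by
      have h1 : l ^ orderOf l = 1 := pow_orderOf_eq_one l
      have h2 : l' ^ orderOf l' = 1 := pow_orderOf_eq_one l'
      have h3 : (l g) ^ orderOf l = 1 := by
        rw [← MonoidHom.pow_apply, h1]
        rfl
      have h4 : (l' g) ^ orderOf l' = 1 := by
        rw [← MonoidHom.pow_apply, h2]
        rfl
      rw [div_pow, mul_comm, pow_mul, h4, one_pow, mul_comm, pow_mul, h3, one_pow]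
      simp
    have h1 := orderOf_dvd_of_pow_eq_one hpow
    have h2 := orderOf_dvd_of_pow_eq_one hpow2
    have h3 := Nat.Coprime.eq_one_of_dvd (hcop.coprime_dvd_left h1) h2
    exact div_eq_one.mp (orderOf_eq_one_iff.mp h3)
  have hdet : detChar χ' = detChar χ := by rw [hl1, hl2, hll]
  -- uniqueness of the extension
  have hirr := isIrr_res p hχ hd
  have hdd := Cfsg.Agent.Lib.Char.Values.IsCharacter.charDegree_cast hχc
  have hcp : Nat.Coprime R.index (charDegree χ) := by
    rw [hk]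
    exact Nat.Coprime.pow_left k ((Nat.Prime.coprime_iff_not_dvd hp.out).mpr hd)
  have hlc : IsCharacter G (detChar χ) := (detChar_isCharacter hχc).1
  have hl11 : detChar χ 1 = 1 := (detChar_isCharacter hχc).2
  obtain ⟨X, -, huniq⟩ := existsUnique_ext_det R (fun n : R => χ n) hirr (charDegree χ)
    (by simpa using hdd.symm) hcp ⟨χ, hχ, fun _ => rfl⟩ (detChar χ) ⟨hlc, hl11⟩
    (fun n => detChar_res R hχc n)
  rw [huniq χ ⟨hχ, fun _ => rfl, rfl⟩, huniq χ' ⟨hχ', h, hdet⟩]

/-- See the statement. -/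
theorem result {G : Type*} [Group G] [Finite G] (p : ℕ) (hp : p.Prime) : (Nat.card (Cfsg.pResidual p G) : ℤ) ≡ (∑ᶠ χ ∈ {χ : Cfsg.IrrCharacter G | ¬ p ∣ Cfsg.charDegree (χ : G → ℂ) ∧ ¬ p ∣ Cfsg.detOrder (χ : G → ℂ)}, (Cfsg.charDegree (χ : G → ℂ) : ℤ) ^ 2) [ZMOD p] := by
  classical
  haveI : Fact p.Prime := ⟨hp⟩
  let R := Cfsg.pResidual p G
  letI : Fintype (IrrCharacter R) := Fintype.ofFinite _
  letI : Fintype (IrrCharacter G) := Fintype.ofFinite _
  have h0 := card_modEq_sum_inv R p (exists_index_eq p)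
  let I' := Finset.univ.filter (fun φ : IrrCharacter R => IsInv R (φ : R → ℂ) ∧ ¬ p ∣ charDegree (φ : R → ℂ))
  have h1 : ∑ φ ∈ Finset.univ.filter (fun φ : IrrCharacter R => IsInv R (φ : R → ℂ)),
      (charDegree (φ : R → ℂ)) ^ 2 ≡ ∑ φ ∈ I', (charDegree (φ : R → ℂ)) ^ 2 [MOD p] := by
    have h2 : I' = (Finset.univ.filter (fun φ : IrrCharacter R => IsInv R (φ : R → ℂ))).filter
        (fun φ : IrrCharacter R => ¬ p ∣ charDegree (φ : R → ℂ)) := by
      rw [Finset.filter_filter]
    rw [h2, ← Finset.sum_filter_add_sum_filter_not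
      (Finset.univ.filter (fun φ : IrrCharacter R => IsInv R (φ : R → ℂ)))
      (fun φ : IrrCharacter R => ¬ p ∣ charDegree (φ : R → ℂ))]
    have h3 : ∑ x ∈ Finset.filter (fun x : IrrCharacter R => ¬¬ p ∣ charDegree (x : R → ℂ))
        (Finset.univ.filter (fun φ : IrrCharacter R => IsInv R (φ : R → ℂ))),
        (charDegree (x : R → ℂ)) ^ 2 ≡ 0 [MOD p] := by
      rw [Nat.modEq_zero_iff_dvd]
      refine Finset.dvd_sum (fun φ hφ => ?_)
      have := (Finset.mem_filter.mp hφ).2
      rw [not_not] at this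
      exact this.trans (dvd_pow_self _ two_ne_zero)
    have h4 := Nat.ModEq.add_left (∑ x ∈ Finset.filter (fun x : IrrCharacter R => ¬ p ∣ charDegree (x : R → ℂ))
        (Finset.univ.filter (fun φ : IrrCharacter R => IsInv R (φ : R → ℂ))),
        (charDegree (x : R → ℂ)) ^ 2) h3
    rw [add_zero] at h4
    exact h4
  have h2 := h0.trans h1
  let S := Finset.univ.filter (fun χ : IrrCharacter G => ¬ p ∣ charDegree (χ : G → ℂ) ∧ ¬ p ∣ detOrder (χ : G → ℂ))
  have hSset : {χ : IrrCharacter G | ¬ p ∣ charDegree (χ : G → ℂ) ∧ ¬ p ∣ detOrder (χ : G → ℂ)} = (S : Set (IrrCharacter G)) := by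
    ext χ
    simp [S]
  rw [hSset, finsum_mem_coe_finset]
  have hsum : ∑ φ ∈ I', (charDegree (φ : R → ℂ)) ^ 2 = ∑ χ ∈ S, (charDegree (χ : G → ℂ)) ^ 2 := by
    symm
    refine Finset.sum_bij (fun χ hχ => (⟨fun n : R => (χ : G → ℂ) n,
      isIrr_res p χ.2 (Finset.mem_filter.mp hχ).2.1⟩ : IrrCharacter R)) ?_ ?_ ?_ ?_
    · intro χ hχ
      simp only [I', Finset.mem_filter, Finset.mem_univ, true_and]
      refine ⟨fun g n => ?_, ?_⟩
      · exact isClassFunction_of_isCharacter (isCharacter_of_isIrrCharacter χ.2) n g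
      · have : charDegree (fun n : R => (χ : G → ℂ) n) = charDegree (χ : G → ℂ) :=
          (charDegree_eq_of_res (N := R) (fun _ => rfl)).symm
        show ¬ p ∣ charDegree (fun n : R => (χ : G → ℂ) n)
        rw [this]
        exact (Finset.mem_filter.mp hχ).2.1
    · intro χ hχ χ' hχ' h
      have h3 := congrArg Subtype.val h
      have hm := (Finset.mem_filter.mp hχ).2
      have hm' := (Finset.mem_filter.mp hχ').2
      apply Subtype.ext
      exact eq_of_res_eq p χ'.2 χ.2 hm'.1 hm'.2 hm.2 (fun n => congrFun h3 n)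
    · intro φ hφ
      obtain ⟨hinv, hd⟩ := (Finset.mem_filter.mp hφ).2
      obtain ⟨χ, μ, hχ, hχN, hdet, hμ⟩ := exists_ext_of_inv p φ.2 hinv hd
      have hdeg : charDegree χ = charDegree (φ : R → ℂ) := charDegree_eq_of_res hχN
      have hχS : (⟨χ, hχ⟩ : IrrCharacter G) ∈ S := by
        simp only [S, Finset.mem_filter, Finset.mem_univ, true_and]
        refine ⟨by rw [hdeg]; exact hd, ?_⟩
        unfold detOrder
        rw [hdet, orderOf_coe_hom]
        intro h
        exact hp.one_lt.ne' (Nat.eq_one_of_dvd_coprimes hμ h (dvd_refl p))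
      refine ⟨⟨χ, hχ⟩, hχS, ?_⟩
      apply Subtype.ext
      funext n
      exact hχN n
    · intro χ hχ
      congr 1
  rw [hsum] at h2
  have h3 := (Int.natCast_modEq_iff).mpr h2
  push_cast at h3
  exact h3

end Cfsg.Agent.S4455
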