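import Cfsg.Statements.S4460
import Mathlib
import Cfsg.Agent.S4456
import Cfsg.Agent.Lib.Char.ThreeDeg.Coprime
import Cfsg.Agent.Lib.Char.ThreeDeg.Taketa
import Cfsg.Agent.Lib.Char.GlaubOver

set_option autoImplicit false
set_option linter.style.haveILetI false
open Cfsg

namespace Cfsg.Agent.S4460

open Cfsg.Agent.Lib.Char Cfsg.Agent.Lib.Char.Basic Cfsg.Agent.Lib.Char.Ortho
  Cfsg.Agent.Lib.Char.Induced Cfsg.Agent.Lib.Char.ThreeDeg Cfsg.Agent.Lib.Char.CliffordCorr

universe u

/-- The `p`-free part is unique. -/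
theorem eq_of_pow_mul_eq {p j α y a' : ℕ} (hp : p.Prime) (hy : ¬ p ∣ y) (ha : ¬ p ∣ a')
    (h : p ^ j * y = p ^ α * a') : y = a' := by
  have hcy : (p ^ α).Coprime y :=
    Nat.Coprime.pow_left α ((Nat.Prime.coprime_iff_not_dvd hp).2 hy)
  have hca : (p ^ j).Coprime a' :=
    Nat.Coprime.pow_left j ((Nat.Prime.coprime_iff_not_dvd hp).2 ha)
  have h1 : p ^ j ∣ p ^ α := hca.dvd_of_dvd_mul_right ⟨y, h.symm⟩
  have h2 : p ^ α ∣ p ^ j := hcy.dvd_of_dvd_mul_right ⟨a', h⟩
  have h3 := Nat.dvd_antisymm h1 h2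
  rw [h3] at h
  exact Nat.eq_of_mul_eq_mul_left (pow_pos hp.pos _) h

/-- Degrees over an abelian normal subgroup of prime power index are powers of the prime. -/
theorem pow_deg_of_abelian {p : ℕ} (hp : p.Prime) {Q : Type u} [Group Q] [Fintype Q] (A : Subgroup Q)
    [hA : A.Normal] (hab : ∀ x ∈ A, ∀ y ∈ A, x * y = y * x) {k : ℕ} (hk : A.index = p ^ k)
    (ζ : IrrCharacter Q) : ∃ j : ℕ, (ζ : Q → ℂ) 1 = ((p ^ j : ℕ) : ℂ) := by
  classical
  haveI : Fact p.Prime := ⟨hp⟩
  haveI : Fintype A := Fintype.ofFinite _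
  have hP : IsPGroup p (Q ⧸ A) := IsPGroup.of_card (n := k) hk
  haveI hnil : Group.IsNilpotent (Q ⧸ A) := hP.isNilpotent
  have hs : Group.IsSolvable (Q ⧸ A) := inferInstance
  have hresc : IsCharacter A (fun a : A => (ζ : Q → ℂ) a) :=
    isCharacter_restrict (isCharacter_of_isIrrCharacter ζ.2) A
  have h1 : (fun a : A => (ζ : Q → ℂ) a) 1 ≠ 0 := by
    show (ζ : Q → ℂ) ((1 : A) : Q) ≠ 0
    rw [Subgroup.coe_one]
    exact irr_apply_one_ne_zero ζ.2
  obtain ⟨θ, hθ, hne⟩ := exists_irr_constituent hresc h1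
  obtain ⟨d, hd, hζd⟩ := exists_dvd_of_constituent A hs ζ.2 hθ hne
  have hθ1 : θ 1 = 1 := FrobPair.degree_eq_one_of_comm (fun a b => Subtype.ext (hab a a.2 b b.2)) hθ
  rw [hk] at hd
  obtain ⟨j, -, rfl⟩ := (Nat.dvd_prime_pow hp).1 hd
  refine ⟨j, ?_⟩
  rw [hζd, hθ1, mul_one]

/-- The characters over the normal `p`-complement. -/
theorem over_complement {p : ℕ} (hp : p.Prime) {G : Type u} [Group G] [Fintype G] (W : Subgroup G)
    [hW : W.Normal] (hc : (Nat.card W).Coprime p) {k : ℕ} (hk : W.index = p ^ k)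
    (θ : IrrCharacter W) : ¬ p ∣ charDegree (θ : W → ℂ) ∧ ∃ (χ : IrrCharacter G) (j : ℕ),
      charDegree (χ : G → ℂ) = p ^ j * charDegree (θ : W → ℂ) := by
  classical
  haveI : Fact p.Prime := ⟨hp⟩
  haveI : Fintype W := Fintype.ofFinite _
  have hP : IsPGroup p (G ⧸ W) := IsPGroup.of_card (n := k) hk
  haveI hnil : Group.IsNilpotent (G ⧸ W) := hP.isNilpotent
  have hs : Group.IsSolvable (G ⧸ W) := inferInstance
  have hθc : ((charDegree (θ : W → ℂ) : ℕ) : ℂ) = (θ : W → ℂ) 1 :=
    Values.IsCharacter.charDegree_cast (Values.IsIrrCharacter.isCharacter θ.2)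
  constructor
  · obtain ⟨d, hd, -, hdvd⟩ := GlaubOver.exists_degree_dvd θ.2
    have h1 : charDegree (θ : W → ℂ) = d := by
      rw [← hθc] at hd
      exact_mod_cast hd
    rw [h1]
    intro hpd
    have h2 := hpd.trans hdvd
    have h3 := Nat.Coprime.eq_one_of_dvd (Nat.Coprime.symm hc) h2
    exact hp.one_lt.ne' h3
  · have hind := IndRep.isCharacter_indFun W (isCharacter_of_isIrrCharacter θ.2)
    have h1 : indFun W (θ : W → ℂ) 1 ≠ 0 := by
      rw [indFun_one]
      refine mul_ne_zero ?_ (irr_apply_one_ne_zero θ.2)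
      exact Nat.cast_ne_zero.2 Subgroup.index_ne_zero_of_finite
    obtain ⟨χ, hχ, hne⟩ := exists_irr_constituent hind h1
    have hχc := isClassFunction_of_isCharacter (isCharacter_of_isIrrCharacter hχ)
    rw [frobenius_reciprocity W _ χ hχc] at hne
    have hne' : classInner (fun n : W => χ n) (θ : W → ℂ) ≠ 0 := by
      intro h0
      apply hne
      rw [← classInner_conj_symm, h0, map_zero]
    obtain ⟨d, hd, hχd⟩ := exists_dvd_of_constituent W hs hχ θ.2 hne'
    rw [hk] at hd
    obtain ⟨j, -, rfl⟩ := (Nat.dvd_prime_pow hp).1 hd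
    refine ⟨⟨χ, hχ⟩, j, ?_⟩
    apply Values.IsCharacter.charDegree_eq (Values.IsIrrCharacter.isCharacter hχ)
    rw [hχd, ← hθc]
    push_cast
    rfl

/-- The case where `b` is not a power of `p`. -/
theorem thompson_case {p : ℕ} (hp : p.Prime) {G : Type u} [Group G] [Fintype G] (W : Subgroup G)
    [hW : W.Normal] {k : ℕ} (hk : W.index = p ^ k) {a b a' b' α β : ℕ} (ha : a = p ^ α * a')
    (hb : b = p ^ β * b') (ha' : ¬ p ∣ a') (hb' : ¬ p ∣ b') (hb1 : b' ≠ 1)
    (hcd : ∀ χ : IrrCharacter G, charDegree (χ : G → ℂ) = 1 ∨ charDegree (χ : G → ℂ) = a ∨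
      charDegree (χ : G → ℂ) = b)
    (hW3 : derivedSeries W 3 = ⊥) (hW2 : a' = 1 → derivedSeries W 2 = ⊥) :
    derivedSeries G 3 = ⊥ := by
  classical
  have hp1 : ¬ p ∣ 1 := fun h => hp.one_lt.ne' (Nat.dvd_one.1 h)
  let L : Subgroup G := ⁅W, W⁆
  haveI hLn : L.Normal := inferInstance
  have hLW : L ≤ W := Subgroup.commutator_le_self W
  let π : G →* G ⧸ L := QuotientGroup.mk' L
  have hπ : Function.Surjective π := QuotientGroup.mk'_surjective L
  have hker : π.ker = L := QuotientGroup.ker_mk' L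
  letI : Fintype (G ⧸ L) := Fintype.ofFinite _
  let A : Subgroup (G ⧸ L) := W.map π
  have hAn : A.Normal := hW.map π hπ
  have hAc : A.comap π = W := by
    rw [Subgroup.comap_map_eq_self]
    rw [hker]
    exact hLW
  have hAidx : A.index = p ^ k := by
    rw [← Subgroup.index_comap_of_surjective _ hπ, hAc, hk]
  have hAab : ∀ x ∈ A, ∀ y ∈ A, x * y = y * x := by
    rintro _ ⟨u, hu, rfl⟩ _ ⟨v, hv, rfl⟩
    have h1 : u * v * u⁻¹ * v⁻¹ ∈ L := Subgroup.commutator_mem_commutator hu hv
    have h2 : π (u * v * u⁻¹ * v⁻¹) = 1 := by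
      rw [← MonoidHom.mem_ker, hker]
      exact h1
    simp only [map_mul, map_inv] at h2
    have h3 : π u * π v * (π u)⁻¹ = π v := mul_inv_eq_one.mp h2
    calc π u * π v = π u * π v * (π u)⁻¹ * π u := by group
      _ = π v * π u := by rw [h3]
  -- the degrees of the quotient
  have hQ : ∀ ζ : IrrCharacter (G ⧸ L), ∃ j, charDegree (ζ : G ⧸ L → ℂ) = p ^ j := by
    intro ζ
    obtain ⟨j, hj⟩ := pow_deg_of_abelian hp A hAab hAidx ζ
    exact ⟨j, Values.IsCharacter.charDegree_eq (Values.IsIrrCharacter.isCharacter ζ.2) hj⟩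
  have hQcd : ∀ ζ : IrrCharacter (G ⧸ L), charDegree (ζ : G ⧸ L → ℂ) = 1 ∨
      charDegree (ζ : G ⧸ L → ℂ) = a ∨ charDegree (ζ : G ⧸ L → ℂ) = b := by
    intro ζ
    have h1 := hcd ⟨fun g => (ζ : G ⧸ L → ℂ) (π g), isIrrCharacter_comp_surjective ζ.2 π hπ⟩
    simp only [charDegree_comp] at h1
    exact h1
  have hnotb : ∀ ζ : IrrCharacter (G ⧸ L), charDegree (ζ : G ⧸ L → ℂ) = 1 ∨
      charDegree (ζ : G ⧸ L → ℂ) = a := by
    intro ζ
    rcases hQcd ζ with h | h | h
    · exact Or.inl h
    · exact Or.inr h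
    · exfalso
      obtain ⟨j, hj⟩ := hQ ζ
      rw [h, hb] at hj
      have h2 : p ^ j * 1 = p ^ β * b' := by rw [mul_one, hj]
      exact hb1 (eq_of_pow_mul_eq hp hp1 hb' h2).symm
  have hlift : ∀ {n : ℕ}, derivedSeries (G ⧸ L) n = ⊥ → derivedSeries G n ≤ L := by
    intro n hn
    have h1 := map_derivedSeries_eq hπ n
    rw [hn, Subgroup.map_eq_bot_iff, hker] at h1
    exact h1
  have hLmap : L = (derivedSeries W 1).map W.subtype := by
    rw [derivedSeries_one, Subgroup.map_subtype_commutator]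
  by_cases ha1 : a' = 1
  · have h1 := hlift (derived_two (m := a) hnotb)
    rw [hLmap] at h1
    have h2 := derivedSeries_le_map W h1 1
    rw [eq_bot_iff]
    refine h2.trans ?_
    rw [show 1 + 1 = 2 from rfl, hW2 ha1]
    simp
  · have hall : ∀ ζ : IrrCharacter (G ⧸ L), (ζ : G ⧸ L → ℂ) 1 = 1 := by
      intro ζ
      have hcast := Values.IsCharacter.charDegree_cast (Values.IsIrrCharacter.isCharacter ζ.2)
      rcases hnotb ζ with h | h
      · rw [← hcast, h]
        simp
      · exfalso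
        obtain ⟨j, hj⟩ := hQ ζ
        rw [h, ha] at hj
        have h2 : p ^ j * 1 = p ^ α * a' := by rw [mul_one, hj]
        exact ha1 (eq_of_pow_mul_eq hp hp1 ha' h2).symm
    have h0 := commutator_eq_bot_of_comm (Cfsg.Agent.S0855.commutative_of_all_linear hall)
    have h1 : derivedSeries G 1 ≤ L := hlift (by rw [derivedSeries_one, h0])
    rw [hLmap] at h1
    have h2 := derivedSeries_le_map W h1 2
    rw [eq_bot_iff]
    refine h2.trans ?_
    rw [show 1 + 2 = 3 from rfl, hW3]
    simp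

/-- **The main theorem**, for degrees in `{1, a, b}`. -/
theorem main : ∀ (m : ℕ) (G : Type u) [Group G] [Finite G], Nat.card G = m → ∀ a b : ℕ,
    (∀ χ : IrrCharacter G, charDegree (χ : G → ℂ) = 1 ∨ charDegree (χ : G → ℂ) = a ∨
      charDegree (χ : G → ℂ) = b) → derivedSeries G 3 = ⊥ := by
  intro m
  induction m using Nat.strong_induction_on with
  | _ m ih =>
    intro G _ _ hm a b hcd
    classical
    letI : Fintype G := Fintype.ofFinite _
    have hle32 : derivedSeries G 3 ≤ derivedSeries G 2 := derivedSeries_antitone G (by norm_num)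
    have hpos : ∀ χ : IrrCharacter G, 0 < charDegree (χ : G → ℂ) := by
      intro ψ
      obtain ⟨n, hn, h⟩ := irr_degree_pos ψ.2
      rw [Values.IsCharacter.charDegree_eq (Values.IsIrrCharacter.isCharacter ψ.2) h]
      exact hn
    by_cases haex : (∃ χ : IrrCharacter G, charDegree (χ : G → ℂ) = a) ∧ a ≠ 1
    swap
    · have h1 : ∀ χ : IrrCharacter G, charDegree (χ : G → ℂ) = 1 ∨ charDegree (χ : G → ℂ) = b := by
        intro χ
        rcases hcd χ with h | h | h
        · exact Or.inl h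
        · left
          by_contra hc
          exact haex ⟨⟨χ, h⟩, h ▸ hc⟩
        · exact Or.inr h
      rw [eq_bot_iff, ← derived_two h1]
      exact hle32
    by_cases hbex : (∃ χ : IrrCharacter G, charDegree (χ : G → ℂ) = b) ∧ b ≠ 1
    swap
    · have h1 : ∀ χ : IrrCharacter G, charDegree (χ : G → ℂ) = 1 ∨ charDegree (χ : G → ℂ) = a := by
        intro χ
        rcases hcd χ with h | h | h
        · exact Or.inl h
        · exact Or.inr h
        · left
          by_contra hc
          exact hbex ⟨⟨χ, h⟩, h ▸ hc⟩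
      rw [eq_bot_iff, ← derived_two h1]
      exact hle32
    obtain ⟨⟨χa, hχa⟩, ha1⟩ := haex
    obtain ⟨⟨χb, hχb⟩, hb1⟩ := hbex
    have ha0 : a ≠ 0 := by
      have := hpos χa
      omega
    have hb0 : b ≠ 0 := by
      have := hpos χb
      omega
    by_cases hcop : a.Coprime b
    · exact coprime_case (by omega) (by omega) hcop hcd ⟨χa, hχa⟩ ⟨χb, hχb⟩
    obtain ⟨p, hp, hpa, hpb⟩ := Nat.Prime.not_coprime_iff_dvd.mp hcop
    have hdeg : ∀ χ : IrrCharacter G, charDegree (χ : G → ℂ) ≠ 1 → p ∣ charDegree (χ : G → ℂ) := by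
      intro χ hχ
      rcases hcd χ with h | h | h
      · exact absurd h hχ
      · rw [h]; exact hpa
      · rw [h]; exact hpb
    obtain ⟨W, hWn, hWc, k, hk⟩ := Cfsg.Agent.S4456.result p hp hdeg
    haveI := hWn
    have hWne : W ≠ ⊤ := by
      rintro rfl
      obtain ⟨d, hd, -, hdvd⟩ := GlaubOver.exists_degree_dvd χa.2
      have h1 : a = d := by
        rw [← hχa]
        exact Values.IsCharacter.charDegree_eq (Values.IsIrrCharacter.isCharacter χa.2) hd
      have h2 : p ∣ Nat.card G := by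
        rw [h1] at hpa
        exact hpa.trans hdvd
      rw [Subgroup.card_top] at hWc
      have h3 := Nat.Coprime.eq_one_of_dvd (Nat.Coprime.symm hWc) h2
      exact hp.one_lt.ne' h3
    have hWlt : Nat.card W < m := hm ▸ Monomial.card_lt_of_ne_top hWne
    obtain ⟨α, a', ha'p, haa⟩ := Nat.exists_eq_pow_mul_and_not_dvd ha0 p hp.ne_one
    obtain ⟨β, b', hb'p, hbb⟩ := Nat.exists_eq_pow_mul_and_not_dvd hb0 p hp.ne_one
    have hp1 : ¬ p ∣ 1 := fun h => hp.one_lt.ne' (Nat.dvd_one.1 h)
    have hWcd : ∀ θ : IrrCharacter W, charDegree (θ : W → ℂ) = 1 ∨ charDegree (θ : W → ℂ) = a' ∨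
        charDegree (θ : W → ℂ) = b' := by
      intro θ
      obtain ⟨hθp, χ, j, hχ⟩ := over_complement hp W hWc hk θ
      rcases hcd χ with h | h | h
      · left
        rw [hχ] at h
        exact Nat.eq_one_of_mul_eq_one_left h
      · right; left
        rw [hχ, haa] at h
        exact eq_of_pow_mul_eq hp hθp ha'p h
      · right; right
        rw [hχ, hbb] at h
        exact eq_of_pow_mul_eq hp hθp hb'p h
    have hW3 := ih _ hWlt W rfl a' b' hWcd
    by_cases hb'1 : b' = 1
    · by_cases ha'1 : a' = 1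
      · -- all degrees are powers of `p`: the abelian case
        have hall : ∀ θ : IrrCharacter W, (θ : W → ℂ) 1 = 1 := by
          intro θ
          have hcast := Values.IsCharacter.charDegree_cast (Values.IsIrrCharacter.isCharacter θ.2)
          rcases hWcd θ with h | h | h
          · rw [← hcast, h]; simp
          · rw [← hcast, h, ha'1]; simp
          · rw [← hcast, h, hb'1]; simp
        have hc := Cfsg.Agent.S0855.commutative_of_all_linear hall
        have hab : ∀ x ∈ W, ∀ y ∈ W, x * y = y * x := fun x hx y hy =>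
          congrArg Subtype.val (hc ⟨x, hx⟩ ⟨y, hy⟩)
        exact derivedSeries_three_of_monomial
          (exists_monomial_of_abelian_pow hp _ G W hab ⟨k, hk⟩ rfl) hcd
      · -- swap
        refine thompson_case hp W hk hbb haa hb'p ha'p ha'1 (fun χ => ?_) hW3 (fun h1 => ?_)
        · rcases hcd χ with h | h | h
          · exact Or.inl h
          · exact Or.inr (Or.inr h)
          · exact Or.inr (Or.inl h)
        · refine derived_two (m := a') fun θ => ?_
          rcases hWcd θ with h | h | h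
          · exact Or.inl h
          · exact Or.inr h
          · exact Or.inl (h.trans h1)
    · refine thompson_case hp W hk haa hbb ha'p hb'p hb'1 hcd hW3 (fun h1 => ?_)
      refine derived_two (m := b') fun θ => ?_
      rcases hWcd θ with h | h | h
      · exact Or.inl h
      · exact Or.inl (h.trans h1)
      · exact Or.inr h

/-- A finite group with exactly three distinct irreducible character degrees is solvable of derived length at most 3: its third derived subgroup is trivial. -/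
theorem result {G : Type*} [Group G] [Finite G] (hcd : Nat.card {n : ℕ // ∃ χ : Cfsg.IrrCharacter G, Cfsg.charDegree (χ : G → ℂ) = n} = 3) : derivedSeries G 3 = ⊥ := by
  classical
  have h1 : ({n : ℕ | ∃ χ : IrrCharacter G, charDegree (χ : G → ℂ) = n}).ncard = 3 := hcd
  obtain ⟨x, y, z, -, -, -, hD⟩ := Set.ncard_eq_three.mp h1
  have hmem : ∀ χ : IrrCharacter G, charDegree (χ : G → ℂ) = x ∨ charDegree (χ : G → ℂ) = y ∨
      charDegree (χ : G → ℂ) = z := by
    intro χ
    have : charDegree (χ : G → ℂ) ∈ {n : ℕ | ∃ χ : IrrCharacter G, charDegree (χ : G → ℂ) = n} :=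
      ⟨χ, rfl⟩
    rw [hD] at this
    simpa using this
  have hone : charDegree (fun _ : G => (1 : ℂ)) = 1 := by
    apply Values.IsCharacter.charDegree_eq (Values.IsIrrCharacter.isCharacter
      Cfsg.Agent.Lib.Char.Burnside2.isIrrCharacter_one)
    simp
  have h1m : 1 = x ∨ 1 = y ∨ 1 = z := by
    have := hmem ⟨_, Cfsg.Agent.Lib.Char.Burnside2.isIrrCharacter_one⟩
    simp only [hone] at this
    exact this
  rcases h1m with h | h | h
  · refine main _ G rfl y z fun χ => ?_
    rcases hmem χ with h2 | h2 | h2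
    · exact Or.inl (h2.trans h.symm)
    · exact Or.inr (Or.inl h2)
    · exact Or.inr (Or.inr h2)
  · refine main _ G rfl x z fun χ => ?_
    rcases hmem χ with h2 | h2 | h2
    · exact Or.inr (Or.inl h2)
    · exact Or.inl (h2.trans h.symm)
    · exact Or.inr (Or.inr h2)
  · refine main _ G rfl x y fun χ => ?_
    rcases hmem χ with h2 | h2 | h2
    · exact Or.inr (Or.inl h2)
    · exact Or.inr (Or.inr h2)
    · exact Or.inl (h2.trans h.symm)

end Cfsg.Agent.S4460
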