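import Cfsg.Statements.S4461
import Mathlib
import Cfsg.Agent.Lib.Char.CoprimeCount
import Cfsg.Agent.Lib.Char.ItoMichler
import Cfsg.Agent.Lib.Blocks.Kernel
import Cfsg.Agent.Lib.Coprime.SZ
import Cfsg.Agent.Lib.Solvable.PSeries

set_option autoImplicit false
set_option linter.style.haveILetI false
set_option linter.unusedSectionVars false
set_option linter.unusedVariables false
open Cfsg

namespace Cfsg.Agent.S4461

open Cfsg.Agent.Lib.Char.Basic Cfsg.Agent.Lib.Char.Ortho Cfsg.Agent.Lib.Char.Clifford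
open Cfsg.Agent.Lib.Char.Induced Cfsg.Agent.Lib.Char.IndRep
open Cfsg.Agent.Lib.Solvable.PSeries Cfsg.Agent.Lib.Basic.PCore
open scoped ComplexConjugate

universe u

section basics

variable {G : Type u} [Group G] [Finite G]

lemma ker_mul {χ : G → ℂ} (hχ : IsCharacter G χ) {a : G} (ha : χ a = χ 1) (b : G) :
    χ (a * b) = χ b := by
  obtain ⟨n, ρ, rfl⟩ := hχ
  rw [Representation.char_one, Cfsg.Agent.Lib.Char.Values.character_eq_finrank_iff] at ha
  simp only [Representation.character, map_mul, ha]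
  exact congrArg _ (one_mul _)

/-- The kernel of a character. -/
def kerS {χ : G → ℂ} (hχ : IsCharacter G χ) : Subgroup G where
  carrier := {g | χ g = χ 1}
  one_mem' := rfl
  mul_mem' := fun {a b} ha hb => (ker_mul hχ ha b).trans hb
  inv_mem' := fun {a} ha => by
    have := ker_mul hχ ha a⁻¹
    rw [mul_inv_cancel] at this
    exact this.symm

lemma mem_kerS {χ : G → ℂ} (hχ : IsCharacter G χ) {g : G} : g ∈ kerS hχ ↔ χ g = χ 1 := Iff.rfl

instance kerS_normal {χ : G → ℂ} (hχ : IsCharacter G χ) : (kerS hχ).Normal := by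
  constructor
  intro n hn g
  rw [mem_kerS] at hn ⊢
  rw [isClassFunction_of_isCharacter hχ n g]
  exact hn

/-- A constituent of a character inherits the elements with value the degree. -/
theorem const_of_constituent {K : Type*} [Group K] [Fintype K] {ψ θ : K → ℂ} (hψ : IsCharacter K ψ)
    (hθ : IsIrrCharacter K θ) (hne : classInner ψ θ ≠ 0) {n : K} (hn : ψ n = ψ 1) : θ n = θ 1 := by
  obtain ⟨Ξ, hΞ, rfl⟩ := exists_char_add hψ hθ hne
  have hθc := isCharacter_of_isIrrCharacter hθ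
  obtain ⟨d, hd⟩ := exists_nat_apply_one hθc
  obtain ⟨e, he⟩ := exists_nat_apply_one hΞ
  have h1 := Cfsg.Agent.Lib.Char.Values.IsCharacter.norm_le hθc n
  have h2 := Cfsg.Agent.Lib.Char.Values.IsCharacter.norm_le hΞ n
  simp only [Pi.add_apply] at hn
  rw [hd] at h1 ⊢
  rw [he] at h2
  rw [hd, he] at hn
  simp only [Complex.norm_natCast] at h1 h2
  have h3 := congrArg Complex.re hn
  simp only [Complex.add_re, Complex.natCast_re] at h3
  have h4 : (θ n).re ≤ d := (Complex.re_le_norm _).trans h1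
  have h5 : (Ξ n).re ≤ e := (Complex.re_le_norm _).trans h2
  have h6 : (θ n).re = d := by linarith
  have h7 : (θ n).im = 0 := by
    have h8 : ‖θ n‖ ^ 2 = (θ n).re ^ 2 + (θ n).im ^ 2 := by
      rw [Complex.sq_norm, Complex.normSq_apply]
      ring
    have h9 : ‖θ n‖ ^ 2 ≤ (d : ℝ) ^ 2 := by
      have := norm_nonneg (θ n)
      nlinarith
    rw [h8, h6] at h9
    nlinarith [sq_nonneg (θ n).im]
  apply Complex.ext
  · simpa using h6
  · simpa using h7

/-- The restriction of an irreducible character to a subgroup covering the quotient by a normal subgroup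
in the kernel is irreducible. -/
lemma res_irr {ξ : G → ℂ} (hξ : IsIrrCharacter G ξ) (X N : Subgroup G) [X.Normal]
    (hX : ∀ x ∈ X, ξ x = ξ 1) (hcov : ∀ g : G, ∃ x ∈ X, ∃ n ∈ N, g = x * n) :
    IsIrrCharacter N (fun n : N => ξ n) := by
  obtain ⟨ξ', hξ'⟩ := Cfsg.Agent.Lib.Blocks.Kernel.exists_irr_of_kernel X hξ hX
  have h1 : (fun n : N => ξ n) = (ξ' : G ⧸ X → ℂ) ∘ ((QuotientGroup.mk' X).comp N.subtype) := by
    funext n
    rw [hξ']
    rfl
  rw [h1]
  refine isIrrCharacter_comp_surjective ξ'.2 _ ?_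
  intro c
  obtain ⟨g, rfl⟩ := QuotientGroup.mk_surjective c
  obtain ⟨x, hx, n, hn, rfl⟩ := hcov g
  refine ⟨⟨n, hn⟩, ?_⟩
  show ((n : G) : G ⧸ X) = ((x * n : G) : G ⧸ X)
  rw [QuotientGroup.eq]
  have : n⁻¹ * (x * n) = n⁻¹ * x * n := by group
  rw [this]
  exact (inferInstance : X.Normal).conj_mem' x hx n

/-- A Frattini-type conjugacy. -/
lemma frattini_elem {r : ℕ} [Fact r.Prime] {S R : Subgroup G} (hRS : R ≤ S) (hR : IsPGroup r R)
    (hidx : ¬ r ∣ R.relIndex S) {j : G} (hj : ∀ u ∈ R, j * u * j⁻¹ ∈ S) :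
    ∃ s ∈ S, s⁻¹ * j ∈ Subgroup.normalizer (R : Set G) := by
  classical
  let R' : Subgroup G := R.map (MulAut.conj j).toMonoidHom
  have hR'S : R' ≤ S := by
    rintro _ ⟨u, hu, rfl⟩
    exact hj u hu
  have hcard : Nat.card R' = Nat.card R :=
    Subgroup.card_map_of_injective (MulAut.conj j).injective
  have hR'p : IsPGroup r R' := hR.map _
  have hc0 : Nat.card (R.subgroupOf S) = Nat.card R :=
    Cfsg.Agent.Lib.Coprime.SZ.card_subgroupOf_of_le hRS
  have hc1 : Nat.card (R'.subgroupOf S) = Nat.card R' :=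
    Cfsg.Agent.Lib.Coprime.SZ.card_subgroupOf_of_le hR'S
  have hp0 : IsPGroup r (R.subgroupOf S) := by
    obtain ⟨m, hm⟩ := IsPGroup.iff_card.1 hR
    exact IsPGroup.iff_card.2 ⟨m, hc0.trans hm⟩
  have hp1 : IsPGroup r (R'.subgroupOf S) := by
    obtain ⟨m, hm⟩ := IsPGroup.iff_card.1 hR'p
    exact IsPGroup.iff_card.2 ⟨m, hc1.trans hm⟩
  have hi0 : (R.subgroupOf S).index = R.relIndex S := rfl
  have hi1 : (R'.subgroupOf S).index = R.relIndex S := by
    have h1 := (R'.subgroupOf S).card_mul_index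
    have h2 := (R.subgroupOf S).card_mul_index
    rw [hc1, hcard] at h1
    rw [hc0] at h2
    have h3 : 0 < Nat.card R := Nat.card_pos
    rw [← hi0]
    exact Nat.eq_of_mul_eq_mul_left h3 (h1.trans h2.symm)
  let P₀ : Sylow r S := hp0.toSylow (by rw [hi0]; exact hidx)
  let P₁ : Sylow r S := hp1.toSylow (by rw [hi1]; exact hidx)
  obtain ⟨s, hs⟩ := MulAction.exists_smul_eq S P₀ P₁
  refine ⟨s, s.2, ?_⟩
  apply Subgroup.mem_normalizer_fintype
  intro n hn
  have h1 : (⟨j * n * j⁻¹, hj n hn⟩ : S) ∈ (P₁ : Subgroup S) := by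
    show (⟨j * n * j⁻¹, hj n hn⟩ : S) ∈ R'.subgroupOf S
    rw [Subgroup.mem_subgroupOf]
    exact ⟨n, hn, rfl⟩
  rw [← hs, Sylow.coe_subgroup_smul, Subgroup.mem_pointwise_smul_iff_inv_smul_mem] at h1
  have h2 : ((s⁻¹ * ⟨j * n * j⁻¹, hj n hn⟩ * s : S) : S) ∈ R.subgroupOf S := by
    have h3 : (MulAut.conj s)⁻¹ • (⟨j * n * j⁻¹, hj n hn⟩ : S) =
        (s⁻¹ * ⟨j * n * j⁻¹, hj n hn⟩ * s : S) := by
      rw [MulAut.smul_def, MulAut.conj_inv_apply]
    rw [h3] at h1
    exact h1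
  rw [Subgroup.mem_subgroupOf] at h2
  have h4 : (s : G)⁻¹ * j * n * ((s : G)⁻¹ * j)⁻¹ =
      (((s⁻¹ * ⟨j * n * j⁻¹, hj n hn⟩ * s : S) : S) : G) := by
    push_cast
    group
  show (s : G)⁻¹ * j * n * ((s : G)⁻¹ * j)⁻¹ ∈ R
  rw [h4]
  exact h2

/-- An irreducible character containing the principal character of a normal subgroup in its
restriction has that subgroup in its kernel. -/
lemma ker_of_triv [Fintype G] {χ : G → ℂ} (hχ : IsIrrCharacter G χ) (L : Subgroup G) [L.Normal]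
    [Fintype L] (h : classInner (fun l : L => χ l) (fun _ => 1) ≠ 0) (l : G) (hl : l ∈ L) :
    χ l = χ 1 := by
  classical
  have hres : IsCharacter L (fun n : L => χ n) :=
    isCharacter_comp_hom (isCharacter_of_isIrrCharacter hχ) L.subtype
  have hone : IsIrrCharacter L (fun _ => (1 : ℂ)) :=
    Cfsg.Agent.Lib.Char.Burnside2.isIrrCharacter_one
  have h1 := decomp_eq_sum_classInner hres
  have h2 := congrFun h1 ⟨l, hl⟩
  have h3 := congrFun h1 1
  simp only [Finset.sum_apply, Pi.smul_apply, smul_eq_mul] at h2 h3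
  have h4 : (χ l) = χ ((1 : L) : G) := by
    rw [h2, h3]
    refine Finset.sum_congr rfl fun θ _ => ?_
    by_cases hc : classInner (fun n : L => χ n) θ = 0
    · rw [hc, zero_mul, zero_mul]
    · obtain ⟨g, hg⟩ := exists_conj_of_classInner_ne_zero L hχ hone θ.2 h hc
      rw [hg]
      rfl
  exact h4

/-- Existence of a constituent of the permutation character outside the kernel condition. -/
lemma exists_rho [Fintype G] (N K : Subgroup G) [Fintype N] (h : ¬ K ≤ N) :
    ∃ ρ : IrrCharacter G, classInner (fun n : N => (ρ : G → ℂ) n) (fun _ => 1) ≠ 0 ∧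
      ¬ ∀ k ∈ K, (ρ : G → ℂ) k = (ρ : G → ℂ) 1 := by
  classical
  by_contra hcon
  push Not at hcon
  apply h
  have hπ : IsCharacter G (indFun N (fun _ => 1)) :=
    isCharacter_indFun N Cfsg.Agent.Lib.Char.Basic.isCharacter_one
  obtain ⟨m, hm⟩ := exists_nat_decomp hπ
  have hm0 : ∀ ρ : IrrCharacter G, m ρ ≠ 0 → ∀ k ∈ K, (ρ : G → ℂ) k = (ρ : G → ℂ) 1 := by
    intro ρ hρ
    apply hcon ρ
    have h1 : classInner (indFun N (fun _ => 1)) (ρ : G → ℂ) = m ρ := by
      have := classInner_sum_irr (G := G) (fun χ => (m χ : ℂ)) ρ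
      rw [← this]
      congr 1
      rw [hm]
      exact Finset.sum_congr rfl (fun ψ _ => by rw [Nat.cast_smul_eq_nsmul])
    have h2 := frobenius_reciprocity N (fun _ => (1 : ℂ)) (ρ : G → ℂ)
      (isClassFunction_of_isCharacter (isCharacter_of_isIrrCharacter ρ.2))
    rw [← classInner_conj_symm, ← h2, h1]
    simpa using hρ
  intro k hk
  by_contra hkN
  have hπk : indFun N (fun _ => (1 : ℂ)) k = indFun N (fun _ => (1 : ℂ)) 1 := by
    rw [hm]
    simp only [Finset.sum_apply, Pi.smul_apply]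
    refine Finset.sum_congr rfl fun ρ _ => ?_
    by_cases h0 : m ρ = 0
    · simp [h0]
    · rw [hm0 ρ h0 k hk]
  rw [indFun_apply, indFun_apply] at hπk
  have hNc : ((Nat.card N : ℂ))⁻¹ ≠ 0 := inv_ne_zero (by exact_mod_cast Nat.card_pos.ne')
  have h1 := mul_left_cancel₀ hNc hπk
  have hext : ∀ g : G, extendByZero N (fun _ => (1 : ℂ)) g = if g ∈ N then 1 else 0 := by
    intro g
    split_ifs with hg
    · rw [extendByZero_of_mem N _ hg]
    · rw [extendByZero_of_notMem N _ hg]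
  simp only [hext] at h1
  rw [Finset.sum_boole, Finset.sum_boole] at h1
  have h2 : (Finset.univ.filter (fun x : G => x⁻¹ * k * x ∈ N)).card =
      (Finset.univ.filter (fun x : G => x⁻¹ * 1 * x ∈ N)).card := by
    exact_mod_cast h1
  have h3 : (Finset.univ.filter (fun x : G => x⁻¹ * 1 * x ∈ N)) = Finset.univ := by
    ext x
    simp [N.one_mem]
  rw [h3] at h2
  have h4 := Finset.filter_card_eq h2 (1 : G) (Finset.mem_univ _)
  apply hkN
  simpa using h4

end basics

--CORE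
section core

variable {G : Type u} [Group G] [Finite G]

/-- An element of a normal subgroup of `r`-power index over `K`: its `r`-part is outside `K` too. -/
lemma exists_rpart {r : ℕ} [hr : Fact r.Prime] (K L : Subgroup G) [K.Normal]
    {a : ℕ} (hLK : K.relIndex L = r ^ a) {j : G} (hjL : j ∈ L) (hjK : j ∉ K) :
    ∃ h : G, (∃ m : ℕ, h = j ^ m) ∧ h ∉ K ∧ ∃ b : ℕ, orderOf h = r ^ b := by
  have hordne : orderOf j ≠ 0 := (orderOf_pos j).ne'
  obtain ⟨b, m, hm, hbm⟩ := Nat.exists_eq_pow_mul_and_not_dvd hordne r hr.out.ne_one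
  refine ⟨j ^ m, ⟨m, rfl⟩, ?_, ?_⟩
  · intro hin
    have h1 : (j : G ⧸ K) ^ m = 1 := by
      rw [← QuotientGroup.mk_pow]
      exact (QuotientGroup.eq_one_iff _).2 hin
    have hmem : (j : G ⧸ K) ∈ L.map (QuotientGroup.mk' K) := ⟨j, hjL, rfl⟩
    have hcard : Nat.card (L.map (QuotientGroup.mk' K)) = r ^ a := by
      rw [card_map_mk', hLK]
    have h2 : (j : G ⧸ K) ^ (r ^ a) = 1 := by
      have h3 := pow_card_eq_one' (G := L.map (QuotientGroup.mk' K)) (x := ⟨(j : G ⧸ K), hmem⟩)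
      rw [hcard] at h3
      exact congrArg Subtype.val h3
    have h4 := orderOf_dvd_of_pow_eq_one h1
    have h5 := orderOf_dvd_of_pow_eq_one h2
    have h6 : m.Coprime (r ^ a) := ((Nat.Prime.coprime_iff_not_dvd hr.out).2 hm).symm.pow_right a
    have h7 : orderOf (j : G ⧸ K) = 1 := Nat.eq_one_of_dvd_coprimes h6 h4 h5
    exact hjK ((QuotientGroup.eq_one_iff j).1 (orderOf_eq_one_iff.1 h7))
  · have hy1 : (j ^ m) ^ r ^ b = 1 := by
      rw [← pow_mul, mul_comm, ← hbm, pow_orderOf_eq_one]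
    obtain ⟨c, -, hc⟩ := (Nat.dvd_prime_pow hr.out).1 (orderOf_dvd_of_pow_eq_one hy1)
    exact ⟨c, hc⟩

/-- An `r`-element of `L` is conjugate in `L` into a Sylow subgroup of `L`. -/
lemma exists_conj_into {r : ℕ} [hr : Fact r.Prime] {L R : Subgroup G} (hRL : R ≤ L)
    (hRp : IsPGroup r R) (hRi : ¬ r ∣ R.relIndex L) {h : G} (hL : h ∈ L) {b : ℕ}
    (hb : orderOf h = r ^ b) : ∃ l ∈ L, l⁻¹ * h * l ∈ R := by
  have hc0 : Nat.card (R.subgroupOf L) = Nat.card R :=
    Cfsg.Agent.Lib.Coprime.SZ.card_subgroupOf_of_le hRL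
  have hp0 : IsPGroup r (R.subgroupOf L) := by
    obtain ⟨m, hm⟩ := IsPGroup.iff_card.1 hRp
    exact IsPGroup.iff_card.2 ⟨m, hc0.trans hm⟩
  let P₀ : Sylow r L := hp0.toSylow hRi
  have hz : IsPGroup r (Subgroup.zpowers (⟨h, hL⟩ : L)) := by
    apply IsPGroup.of_card (n := b)
    rw [Nat.card_zpowers, ← hb]
    exact Subgroup.orderOf_mk h hL
  obtain ⟨Q, hQ⟩ := hz.exists_le_sylow
  obtain ⟨l, hl⟩ := MulAction.exists_smul_eq L P₀ Q
  refine ⟨l, l.2, ?_⟩
  have h1 : (⟨h, hL⟩ : L) ∈ (Q : Subgroup L) := hQ (Subgroup.mem_zpowers _)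
  rw [← hl, Sylow.coe_subgroup_smul, Subgroup.mem_pointwise_smul_iff_inv_smul_mem] at h1
  have h3 : (MulAut.conj l)⁻¹ • (⟨h, hL⟩ : L) = (l⁻¹ * ⟨h, hL⟩ * l : L) := by
    rw [MulAut.smul_def, MulAut.conj_inv_apply]
  rw [h3] at h1
  have h2 : ((l⁻¹ * ⟨h, hL⟩ * l : L) : L) ∈ R.subgroupOf L := h1
  rw [Subgroup.mem_subgroupOf] at h2
  exact h2

/-- The core of the Broline-Garrison argument. -/
theorem core (χ : IrrCharacter G) (K : Subgroup G) [hKn : K.Normal]
    (hK : ∀ g : G, g ∈ K ↔ (χ : G → ℂ) g = (χ : G → ℂ) 1)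
    (L : Subgroup G) [hLn : L.Normal] (hKL : K ≤ L) (r : ℕ) [hr : Fact r.Prime] (R : Subgroup G)
    (hRL : R ≤ L) (hRp : IsPGroup r R) (hRi : ¬ r ∣ R.relIndex L)
    (hLK : ∃ a : ℕ, K.relIndex L = r ^ a)
    (hM : ∀ U : Subgroup G, U.Normal → K ≤ U → U ≤ L → U = K ∨ U = L)
    (hsup : L ≤ K ⊔ R) (hnn : ¬ K ≤ Subgroup.normalizer (R : Set G))
    (hfin : ∀ ρ : IrrCharacter G,
      (∀ n ∈ Subgroup.normalizer (R : Set G), (χ : G → ℂ) n ≠ 0 → (ρ : G → ℂ) n = (ρ : G → ℂ) 1) →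
       ∀ j ∈ L, ∀ u ∈ R, j * u * j⁻¹ ∈ R ⊔ (kerS (isCharacter_of_isIrrCharacter ρ.2) ⊓ L)) :
    ∃ ψ : IrrCharacter G, charDegree (χ : G → ℂ) < charDegree (ψ : G → ℂ) ∧
      ∃ J : Subgroup G, (∀ g : G, g ∈ J ↔ (ψ : G → ℂ) g = (ψ : G → ℂ) 1) ∧ J < K := by
  classical
  cases nonempty_fintype G
  set N := Subgroup.normalizer (R : Set G) with hNdef
  letI : Fintype N := Fintype.ofFinite _
  have hRN : R ≤ N := Subgroup.le_normalizer
  have hχc := isCharacter_of_isIrrCharacter χ.2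
  have hcov : ∀ g : G, ∃ k ∈ K, ∃ n ∈ N, g = k * n := by
    intro g
    obtain ⟨s, hs, hn⟩ := frattini_elem hRL hRp hRi (j := g) (fun u hu => hLn.conj_mem u (hRL hu) g)
    obtain ⟨k, hk, u, hu, rfl⟩ := Subgroup.mem_sup_of_normal_left.1 (hsup hs)
    exact ⟨k, hk, u * ((k * u)⁻¹ * g), N.mul_mem (hRN hu) hn, by group⟩
  have hχN : IsIrrCharacter N (fun n : N => (χ : G → ℂ) n) :=
    res_irr χ.2 K N (fun x hx => (hK x).1 hx) hcov
  obtain ⟨ρ, hρN, hρK⟩ := exists_rho N K hnn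
  have hρc := isCharacter_of_isIrrCharacter ρ.2
  set Φ : G → ℂ := fun g => (χ : G → ℂ) g * (ρ : G → ℂ) g with hΦ
  have hΦc : IsCharacter G Φ := isCharacter_mul hχc hρc
  have hcons : ∀ ψ : IrrCharacter G, classInner Φ ψ ≠ 0 →
      classInner (fun n : N => (ψ : G → ℂ) n) (fun n : N => (χ : G → ℂ) n) ≠ 0 ∧
      ¬ ∀ k ∈ K, (ψ : G → ℂ) k = (ψ : G → ℂ) 1 := by
    intro ψ hψ
    have hψc := isCharacter_of_isIrrCharacter ψ.2
    set Θ : G → ℂ := fun g => (ψ : G → ℂ) g * conj ((χ : G → ℂ) g) with hΘ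
    have hΘc : IsCharacter G Θ := isCharacter_mul hψc (isCharacter_conj hχc)
    have hin : classInner Θ (ρ : G → ℂ) ≠ 0 := by
      have h1 : classInner Θ (ρ : G → ℂ) = conj (classInner Φ ψ) := by
        simp only [classInner_def, map_mul, map_inv₀, map_natCast, map_sum, hΘ, hΦ,
          Complex.conj_conj]
        congr 1
        refine Finset.sum_congr rfl fun g _ => by ring
      rw [h1]
      exact (map_ne_zero _).2 hψ
    constructor
    · obtain ⟨Ξ, hΞ, hEq⟩ := exists_char_add hΘc ρ.2 hin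
      have h1 : classInner (fun n : N => (ψ : G → ℂ) n) (fun n : N => (χ : G → ℂ) n) =
          classInner (fun n : N => Θ n) (fun _ => 1) := by
        simp only [classInner_def, hΘ, map_one, mul_one]
      have h2 : (fun n : N => Θ n) = (fun n : N => (ρ : G → ℂ) n) + (fun n : N => Ξ n) := by
        funext n
        rw [hEq]
        rfl
      rw [h1, h2, classInner_add_left]
      have hone : IsCharacter N (fun _ => (1 : ℂ)) := Cfsg.Agent.Lib.Char.Basic.isCharacter_one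
      obtain ⟨a, ha⟩ := exists_nat_classInner_of_isCharacter
        (isCharacter_comp_hom hρc N.subtype) hone
      obtain ⟨b, hb⟩ := exists_nat_classInner_of_isCharacter
        (isCharacter_comp_hom hΞ N.subtype) hone
      have ha' : classInner (fun n : N => (ρ : G → ℂ) n) (fun _ => 1) = a := ha
      have hb' : classInner (fun n : N => Ξ n) (fun _ => 1) = b := hb
      rw [ha', hb']
      rw [ha'] at hρN
      have ha0 : a ≠ 0 := by
        rintro rfl
        simp at hρN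
      exact_mod_cast (by omega : a + b ≠ 0)
    · intro hkK
      apply hρK
      intro k hk
      refine const_of_constituent hΘc ρ.2 hin ?_
      simp only [hΘ]
      rw [hkK k hk, (hK k).1 (by exact hk)]
  have hex : ∃ ψ : IrrCharacter G, classInner Φ ψ ≠ 0 ∧
      charDegree (χ : G → ℂ) < charDegree (ψ : G → ℂ) := by
    by_contra hno
    push Not at hno
    have hres : ∀ ψ : IrrCharacter G, classInner Φ ψ ≠ 0 → ∀ n : N, (ψ : G → ℂ) n = (χ : G → ℂ) n := by
      intro ψ hψ n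
      have h1 := (hcons ψ hψ).1
      have hψc := isCharacter_of_isIrrCharacter ψ.2
      obtain ⟨Ξ, hΞ, hEq⟩ := exists_char_add (isCharacter_comp_hom hψc N.subtype) hχN h1
      obtain ⟨e, he⟩ := exists_nat_apply_one hΞ
      have hd1 := Cfsg.Agent.Lib.Char.Values.IsCharacter.charDegree_cast hψc
      have hd2 := Cfsg.Agent.Lib.Char.Values.IsCharacter.charDegree_cast hχc
      have h2 : ((charDegree (ψ : G → ℂ) : ℕ) : ℂ) = ((charDegree (χ : G → ℂ) + e : ℕ) : ℂ) := by
        have h3 := congrFun hEq 1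
        simp only [Pi.add_apply] at h3
        push_cast
        rw [hd1, hd2, ← he]
        exact h3
      have h4 : charDegree (ψ : G → ℂ) = charDegree (χ : G → ℂ) + e := by exact_mod_cast h2
      have h5 := hno ψ hψ
      have he0 : e = 0 := by omega
      rw [he0] at he
      have hΞ0 := eq_zero_of_apply_one_eq_zero hΞ (by simpa using he)
      have h6 := congrFun hEq n
      rw [hΞ0] at h6
      simpa using h6
    obtain ⟨m, hm⟩ := exists_nat_decomp hΦc
    have hmne : ∀ ψ : IrrCharacter G, m ψ ≠ 0 → classInner Φ ψ ≠ 0 := by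
      intro ψ hψ
      have h1 : classInner Φ ψ = m ψ := by
        have := classInner_sum_irr (G := G) (fun χ => (m χ : ℂ)) ψ
        rw [← this]
        congr 1
        rw [hm]
        exact Finset.sum_congr rfl (fun ψ _ => by rw [Nat.cast_smul_eq_nsmul])
      rw [h1]
      exact_mod_cast hψ
    have hn : ∀ n : N, (χ : G → ℂ) n * (ρ : G → ℂ) n = ((∑ ψ, m ψ : ℕ) : ℂ) * (χ : G → ℂ) n := by
      intro n
      have h1 := congrFun hm (n : G)
      simp only [Finset.sum_apply, Pi.smul_apply, hΦ] at h1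
      rw [h1]
      push_cast
      rw [Finset.sum_mul]
      refine Finset.sum_congr rfl fun ψ _ => ?_
      by_cases h0 : m ψ = 0
      · simp [h0]
      · rw [hres ψ (hmne ψ h0) n, nsmul_eq_mul]
    have hχ1 : (χ : G → ℂ) 1 ≠ 0 := irr_apply_one_ne_zero χ.2
    have hM1 : ((∑ ψ, m ψ : ℕ) : ℂ) = (ρ : G → ℂ) 1 := by
      have h1 := hn 1
      have h2 : (χ : G → ℂ) ((1 : N) : G) = (χ : G → ℂ) 1 := rfl
      have h3 : (ρ : G → ℂ) ((1 : N) : G) = (ρ : G → ℂ) 1 := rfl
      rw [h2, h3, mul_comm] at h1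
      exact (mul_right_cancel₀ hχ1 h1).symm
    have hρn : ∀ n ∈ N, (χ : G → ℂ) n ≠ 0 → (ρ : G → ℂ) n = (ρ : G → ℂ) 1 := by
      intro n hnN hne
      have h1 := hn ⟨n, hnN⟩
      rw [hM1, mul_comm] at h1
      exact mul_right_cancel₀ hne h1
    have hj := hfin ρ hρn
    set V := kerS hρc with hV
    have hLcov : ∀ j ∈ L, ∃ v ∈ V, ∃ n ∈ N, j = v * n := by
      intro j hjL
      have hRS : R ≤ R ⊔ (V ⊓ L) := le_sup_left
      have hSL : R ⊔ (V ⊓ L) ≤ L := sup_le hRL inf_le_right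
      have hidx : ¬ r ∣ R.relIndex (R ⊔ (V ⊓ L)) := by
        intro hd
        apply hRi
        rw [← Subgroup.relIndex_mul_relIndex R (R ⊔ (V ⊓ L)) L hRS hSL]
        exact Dvd.dvd.mul_right hd _
      obtain ⟨s, hs, hn⟩ := frattini_elem hRS hRp hidx (j := j) (hj j hjL)
      haveI : (V ⊓ L).Normal := Subgroup.normal_inf_normal _ _
      obtain ⟨u, hu, v, hv, rfl⟩ := Subgroup.mem_sup_of_normal_right.1 hs
      refine ⟨u * v * u⁻¹, (kerS_normal hρc).conj_mem v hv.1 u, u * ((u * v)⁻¹ * j),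
        N.mul_mem (hRN hu) hn, by group⟩
    have hGcov : ∀ g : G, ∃ v ∈ V, ∃ n ∈ N, g = v * n := by
      intro g
      obtain ⟨k, hk, n₁, hn₁, rfl⟩ := hcov g
      obtain ⟨v, hv, n₂, hn₂, rfl⟩ := hLcov k (hKL hk)
      exact ⟨v, hv, n₂ * n₁, N.mul_mem hn₂ hn₁, by group⟩
    have hρNirr := res_irr ρ.2 V N (fun x hx => hx) hGcov
    have hone : IsIrrCharacter N (fun _ => (1 : ℂ)) :=
      Cfsg.Agent.Lib.Char.Burnside2.isIrrCharacter_one
    have h1 : (fun n : N => (ρ : G → ℂ) n) = fun _ => 1 := by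
      by_contra hne
      exact hρN (classInner_irr_of_ne hρNirr hone hne)
    apply hρK
    intro k hk
    obtain ⟨v, hv, n, hnN, rfl⟩ := hGcov k
    rw [ker_mul hρc hv]
    have h2 := congrFun h1 ⟨n, hnN⟩
    have h3 := congrFun h1 1
    exact h2.trans h3.symm
  obtain ⟨ψ, hψ, hdeg⟩ := hex
  obtain ⟨hψ1, hψ2⟩ := hcons ψ hψ
  have hψc := isCharacter_of_isIrrCharacter ψ.2
  have hJN : ∀ n ∈ N, (ψ : G → ℂ) n = (ψ : G → ℂ) 1 → n ∈ K := by
    intro n hn h
    rw [hK]
    exact const_of_constituent (isCharacter_comp_hom hψc N.subtype) hχN hψ1 (n := ⟨n, hn⟩) h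
  set J := kerS hψc with hJdef
  haveI hJn : J.Normal := kerS_normal hψc
  have hJK : J ≤ K := by
    intro j hj
    haveI hUn : ((J ⊔ K) ⊓ L).Normal := Subgroup.normal_inf_normal _ _
    have hKU : K ≤ (J ⊔ K) ⊓ L := le_inf le_sup_right hKL
    have key : (J ⊔ K) ⊓ L = K → j ∈ K := by
      intro hU
      haveI hDn : (J ⊓ K).Normal := Subgroup.normal_inf_normal _ _
      have hRS : R ≤ (J ⊓ K) ⊔ R := le_sup_right
      have hSL : (J ⊓ K) ⊔ R ≤ L := sup_le (inf_le_right.trans hKL) hRL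
      have hidx : ¬ r ∣ R.relIndex ((J ⊓ K) ⊔ R) := by
        intro hd
        apply hRi
        rw [← Subgroup.relIndex_mul_relIndex R ((J ⊓ K) ⊔ R) L hRS hSL]
        exact Dvd.dvd.mul_right hd _
      have hconj : ∀ u ∈ R, j * u * j⁻¹ ∈ (J ⊓ K) ⊔ R := by
        intro u hu
        have hc1 : j * u * j⁻¹ * u⁻¹ ∈ J := by
          have h1 : u * j⁻¹ * u⁻¹ ∈ J := hJn.conj_mem _ (J.inv_mem hj) u
          have h2 : j * u * j⁻¹ * u⁻¹ = j * (u * j⁻¹ * u⁻¹) := by group
          rw [h2]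
          exact J.mul_mem hj h1
        have hc2 : j * u * j⁻¹ * u⁻¹ ∈ L :=
          L.mul_mem (hLn.conj_mem u (hRL hu) j) (L.inv_mem (hRL hu))
        have hc3 : j * u * j⁻¹ * u⁻¹ ∈ K := by
          rw [← hU]
          exact ⟨Subgroup.mem_sup_left hc1, hc2⟩
        have h4 : j * u * j⁻¹ = (j * u * j⁻¹ * u⁻¹) * u := by group
        rw [h4]
        exact Subgroup.mul_mem _ (Subgroup.mem_sup_left ⟨hc1, hc3⟩) (Subgroup.mem_sup_right hu)
      obtain ⟨s, hs, hn⟩ := frattini_elem hRS hRp hidx (j := j) hconj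
      obtain ⟨d, hd, u, hu, rfl⟩ := Subgroup.mem_sup_of_normal_left.1 hs
      have hn' : u * ((d * u)⁻¹ * j) ∈ N := N.mul_mem (hRN hu) hn
      have h1 : u * ((d * u)⁻¹ * j) = d⁻¹ * j := by group
      rw [h1] at hn'
      have h2 : d⁻¹ * j ∈ J := J.mul_mem (J.inv_mem hd.1) hj
      have h3 := hJN _ hn' h2
      have h4 : j = d * (d⁻¹ * j) := by group
      rw [h4]
      exact K.mul_mem hd.2 h3
    rcases hM _ hUn hKU inf_le_right with h | h
    · exact key h
    · by_cases hLK' : L = K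
      · exact key (h.trans hLK')
      · exfalso
        obtain ⟨a, ha⟩ := hLK
        obtain ⟨g, hgL, hgK⟩ : ∃ g ∈ L, g ∉ K := by
          by_contra hall
          push Not at hall
          exact hLK' (le_antisymm hall hKL)
        have hg2 : g ∈ J ⊔ K := by
          have : g ∈ (J ⊔ K) ⊓ L := by rw [h]; exact hgL
          exact this.1
        obtain ⟨j₁, hj₁, k₁, hk₁, rfl⟩ := Subgroup.mem_sup_of_normal_left.1 hg2
        have hj₁L : j₁ ∈ L := by
          have h1 : j₁ = (j₁ * k₁) * k₁⁻¹ := by group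
          rw [h1]
          exact L.mul_mem hgL (L.inv_mem (hKL hk₁))
        have hj₁K : j₁ ∉ K := fun h0 => hgK (K.mul_mem h0 hk₁)
        obtain ⟨w, ⟨m, rfl⟩, hwK, b, hb⟩ := exists_rpart K L ha hj₁L hj₁K
        have hwL : j₁ ^ m ∈ L := pow_mem hj₁L m
        obtain ⟨l, hl, hlR⟩ := exists_conj_into hRL hRp hRi hwL hb
        have hwJ : j₁ ^ m ∈ J := pow_mem hj₁ m
        have hvJ : l⁻¹ * j₁ ^ m * l ∈ J := by
          have := hJn.conj_mem _ hwJ l⁻¹
          simpa using this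
        have hvK := hJN _ (hRN hlR) hvJ
        apply hwK
        have h1 : j₁ ^ m = l * (l⁻¹ * j₁ ^ m * l) * l⁻¹ := by group
        rw [h1]
        exact hKn.conj_mem _ hvK l
  refine ⟨ψ, hdeg, J, fun g => Iff.rfl, lt_of_le_of_ne hJK ?_⟩
  intro hEq
  apply hψ2
  intro k hk
  have : k ∈ J := by rw [hEq]; exact hk
  exact this

end core

section main

variable {G : Type u} [Group G] [Finite G]

theorem case_a (χ : IrrCharacter G) (K : Subgroup G) [hKn : K.Normal]
    (hK : ∀ g : G, g ∈ K ↔ (χ : G → ℂ) g = (χ : G → ℂ) 1) (h : ¬ K ≤ fittingSubgroup G) :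
    ∃ ψ : IrrCharacter G, charDegree (χ : G → ℂ) < charDegree (ψ : G → ℂ) ∧
      ∃ J : Subgroup G, (∀ g : G, g ∈ J ↔ (ψ : G → ℂ) g = (ψ : G → ℂ) 1) ∧ J < K := by
  have hnil : ¬ Group.IsNilpotent K := fun hn => h (le_fittingSubgroup hKn hn)
  have htf := (Group.isNilpotent_of_finite_tfae (G := K)).out 0 3
  rw [htf] at hnil
  push Not at hnil
  obtain ⟨r, hr, P, hP⟩ := hnil
  haveI := hr
  set R : Subgroup G := (P : Subgroup K).map K.subtype with hRdef
  have hRL : R ≤ K := Subgroup.map_subtype_le _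
  have hRp : IsPGroup r R := P.isPGroup'.map _
  have hRi : ¬ r ∣ R.relIndex K := by
    have h1 : R.relIndex K = (P : Subgroup K).index := by
      have h2 : R.subgroupOf K = (P : Subgroup K) :=
        Subgroup.comap_map_eq_self_of_injective (Subgroup.subtype_injective K) _
      rw [Subgroup.relIndex, h2]
    rw [h1]
    exact P.not_dvd_index
  refine core χ K hK K le_rfl r R hRL hRp hRi ⟨0, by simp⟩ ?_ le_sup_left ?_ ?_
  · intro U _ h1 h2
    exact Or.inl (le_antisymm h2 h1)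
  · intro hle
    apply hP
    constructor
    intro n hn g
    have h1 : (g : G) ∈ Subgroup.normalizer (R : Set G) := hle g.2
    rw [Subgroup.mem_normalizer_iff] at h1
    have h2 := (h1 (n : G)).1 ⟨n, hn, rfl⟩
    obtain ⟨x, hx, hxe⟩ := h2
    have h3 : g * n * g⁻¹ = x := Subtype.ext hxe.symm
    rw [h3]
    exact hx
  · intro ρ hρ j hj u hu
    have h1 : (ρ : G → ℂ) u = (ρ : G → ℂ) 1 := by
      apply hρ u (Subgroup.le_normalizer hu)
      rw [(hK u).1 (hRL hu)]
      exact irr_apply_one_ne_zero χ.2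
    have h2 : j * u * j⁻¹ ∈ kerS (isCharacter_of_isIrrCharacter ρ.2) ⊓ K :=
      ⟨(kerS_normal _).conj_mem u h1 j, hKn.conj_mem u (hRL hu) j⟩
    exact Subgroup.mem_sup_right h2

theorem case_b (χ : IrrCharacter G) (K : Subgroup G) [hKn : K.Normal]
    (hK : ∀ g : G, g ∈ K ↔ (χ : G → ℂ) g = (χ : G → ℂ) 1) (hF : K = fittingSubgroup G)
    (hsol : Group.IsSolvable (G ⧸ K)) (htop : K ≠ ⊤) :
    ∃ ψ : IrrCharacter G, charDegree (χ : G → ℂ) < charDegree (ψ : G → ℂ) ∧
      ∃ J : Subgroup G, (∀ g : G, g ∈ J ↔ (ψ : G → ℂ) g = (ψ : G → ℂ) 1) ∧ J < K := by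
  classical
  cases nonempty_fintype G
  haveI hnt : Nontrivial (G ⧸ K) := by
    rw [← not_subsingleton_iff_nontrivial]
    intro h
    exact htop (QuotientGroup.subgroup_eq_top_of_subsingleton K h)
  obtain ⟨q, Nb, hq, hNn, hNne, hNp⟩ := exists_normal_prime_power_of_solvable (H := G ⧸ K)
  haveI hqf : Fact q.Prime := ⟨hq⟩
  haveI hfin : Finite (Subgroup (G ⧸ K)) :=
    Finite.of_injective (fun H => (H : Set (G ⧸ K))) SetLike.coe_injective
  obtain ⟨M, hMle, hMmin⟩ := Finite.exists_le_minimal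
    (p := fun M : Subgroup (G ⧸ K) => M.Normal ∧ M ≠ ⊥) (a := Nb) ⟨hNn, hNne⟩
  obtain ⟨⟨hMn, hMne⟩, hMm⟩ := hMmin
  have hMp : IsPGroup q M := hNp.to_le hMle
  set π := QuotientGroup.mk' K with hπ
  have hπs : Function.Surjective π := QuotientGroup.mk'_surjective K
  set L : Subgroup G := M.comap π with hLdef
  haveI hLn : L.Normal := Subgroup.Normal.comap hMn π
  have hKL : K ≤ L := by
    intro x hx
    show π x ∈ M
    have : π x = 1 := (QuotientGroup.eq_one_iff x).2 hx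
    rw [this]
    exact M.one_mem
  have hLmap : L.map π = M := Subgroup.map_comap_eq_self_of_surjective hπs M
  have hLK : ∃ a : ℕ, K.relIndex L = q ^ a := by
    obtain ⟨a, ha⟩ := IsPGroup.iff_card.1 hMp
    refine ⟨a, ?_⟩
    rw [← ha, ← hLmap, hπ, card_map_mk']
  obtain ⟨a, ha⟩ := hLK
  have hLK' : ∃ a : ℕ, K.relIndex L = q ^ a := ⟨a, ha⟩
  have hLne : ∃ l ∈ L, l ∉ K := by
    by_contra hall
    push Not at hall
    apply hMne
    rw [eq_bot_iff, ← hLmap]
    rintro _ ⟨x, hx, rfl⟩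
    rw [Subgroup.mem_bot]
    exact (QuotientGroup.eq_one_iff x).2 (hall x hx)
  obtain ⟨l₀, hl₀L, hl₀K⟩ := hLne
  obtain ⟨P⟩ : Nonempty (Sylow q L) := inferInstance
  set R : Subgroup G := (P : Subgroup L).map L.subtype with hRdef
  have hRL : R ≤ L := Subgroup.map_subtype_le _
  have hRp : IsPGroup q R := P.isPGroup'.map _
  have hRi : ¬ q ∣ R.relIndex L := by
    have h1 : R.relIndex L = (P : Subgroup L).index := by
      have h2 : R.subgroupOf L = (P : Subgroup L) :=
        Subgroup.comap_map_eq_self_of_injective (Subgroup.subtype_injective L) _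
      rw [Subgroup.relIndex, h2]
    rw [h1]
    exact P.not_dvd_index
  have hsup : L ≤ K ⊔ R := by
    have h1 : (K ⊔ R).relIndex L ∣ R.relIndex L := Subgroup.relIndex_dvd_of_le_left L le_sup_right
    have h2 : (K ⊔ R).relIndex L ∣ K.relIndex L := Subgroup.relIndex_dvd_of_le_left L le_sup_left
    rw [ha] at h2
    obtain ⟨c, -, hc⟩ := (Nat.dvd_prime_pow hq).1 h2
    have h3 : c = 0 := by
      by_contra h0
      apply hRi
      refine dvd_trans ?_ h1
      rw [hc]
      exact dvd_pow_self q h0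
    rw [h3, pow_zero] at hc
    exact Subgroup.relIndex_eq_one.1 hc
  have hRN : R ≤ Subgroup.normalizer (R : Set G) := Subgroup.le_normalizer
  refine core χ K hK L hKL q R hRL hRp hRi hLK' ?_ hsup ?_ ?_
  · intro U hUn hKU hUL
    by_cases h0 : U.map π = ⊥
    · left
      apply le_antisymm _ hKU
      intro x hx
      have h1 : π x ∈ U.map π := ⟨x, hx, rfl⟩
      rw [h0, Subgroup.mem_bot] at h1
      exact (QuotientGroup.eq_one_iff x).1 h1
    · right
      apply le_antisymm hUL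
      have hUle : U.map π ≤ M := by
        rw [← hLmap]
        exact Subgroup.map_mono hUL
      have h1 : M ≤ U.map π := hMm ⟨Subgroup.Normal.map hUn π hπs, h0⟩ hUle
      intro x hx
      obtain ⟨u, hu, hue⟩ := h1 (show π x ∈ M from hx)
      have h2 : u⁻¹ * x ∈ K := by
        rw [← QuotientGroup.eq]
        exact hue
      have h3 := U.mul_mem hu (hKU h2)
      simpa using h3
  · intro hle
    have hLN : L ≤ Subgroup.normalizer (R : Set G) := hsup.trans (sup_le hle hRN)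
    have htopN : Subgroup.normalizer (R : Set G) = ⊤ := by
      rw [eq_top_iff]
      intro g _
      obtain ⟨s, hs, hn⟩ := frattini_elem hRL hRp hRi (j := g)
        (fun u hu => hLn.conj_mem u (hRL hu) g)
      have h1 := Subgroup.mul_mem _ (hLN hs) hn
      simpa using h1
    have hRn : R.Normal := Subgroup.normalizer_eq_top_iff.1 htopN
    have hRK : R ≤ K := by
      rw [hF]
      exact (le_pCore hRn hRp).trans (pCore_le_fittingSubgroup q)
    have h1 := hsup hl₀L
    rw [sup_eq_left.2 hRK] at h1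
    exact hl₀K h1
  · intro ρ hρ j hj u hu
    have hρc := isCharacter_of_isIrrCharacter ρ.2
    have hχc := isCharacter_of_isIrrCharacter χ.2
    letI : Fintype L := Fintype.ofFinite _
    -- an element of `R` outside `K` with non-zero value
    obtain ⟨u₀, hu₀R, hu₀K, hu₀χ⟩ : ∃ u₀ ∈ R, u₀ ∉ K ∧ (χ : G → ℂ) u₀ ≠ 0 := by
      by_contra hall
      push Not at hall
      have hv : ∀ l ∈ L, l ∉ K → (χ : G → ℂ) l = 0 := by
        intro l hl hlK
        obtain ⟨k, hk, v, hv, rfl⟩ := Subgroup.mem_sup_of_normal_left.1 (hsup hl)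
        have hvK : v ∉ K := fun h0 => hlK (K.mul_mem hk h0)
        rw [ker_mul hχc ((hK k).1 hk)]
        exact hall v hv hvK
      have hin : classInner (fun l : L => (χ : G → ℂ) l) (fun _ => 1) ≠ 0 := by
        rw [classInner_def]
        simp only [map_one, mul_one]
        have h1 : ∑ l : L, (χ : G → ℂ) l = ∑ l : L, if (l : G) ∈ K then (χ : G → ℂ) 1 else 0 := by
          refine Finset.sum_congr rfl fun l _ => ?_
          split_ifs with hl
          · exact (hK l).1 hl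
          · exact hv l l.2 hl
        rw [h1, Finset.sum_ite, Finset.sum_const_zero, add_zero, Finset.sum_const, nsmul_eq_mul]
        refine mul_ne_zero (inv_ne_zero (by exact_mod_cast Nat.card_pos.ne'))
          (mul_ne_zero ?_ (irr_apply_one_ne_zero χ.2))
        have h2 : (1 : L) ∈ Finset.univ.filter (fun l : L => (l : G) ∈ K) := by
          simp [K.one_mem]
        have h3 := Finset.card_pos.2 ⟨_, h2⟩
        exact_mod_cast h3.ne'
      have h5 := ker_of_triv χ.2 L hin l₀ hl₀L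
      exact hl₀K ((hK l₀).2 h5)
    have hu₀ρ : u₀ ∈ kerS hρc := hρ u₀ (hRN hu₀R) hu₀χ
    set V := kerS hρc with hVdef
    haveI hVn : V.Normal := kerS_normal hρc
    haveI hVLn : (V ⊓ L).Normal := Subgroup.normal_inf_normal _ _
    have hUL : (V ⊓ L) ⊔ K = L := by
      have hUn : ((V ⊓ L) ⊔ K).Normal := Subgroup.sup_normal _ _
      have hle : (V ⊓ L) ⊔ K ≤ L := sup_le inf_le_right hKL
      -- minimality of `L`
      have hmap : ((V ⊓ L) ⊔ K).map π ≠ ⊥ := by
        intro h0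
        have h1 : π u₀ ∈ ((V ⊓ L) ⊔ K).map π :=
          ⟨u₀, Subgroup.mem_sup_left ⟨hu₀ρ, hRL hu₀R⟩, rfl⟩
        rw [h0, Subgroup.mem_bot] at h1
        exact hu₀K ((QuotientGroup.eq_one_iff u₀).1 h1)
      have hmle : ((V ⊓ L) ⊔ K).map π ≤ M := by
        rw [← hLmap]
        exact Subgroup.map_mono hle
      have h1 : M ≤ ((V ⊓ L) ⊔ K).map π := hMm ⟨Subgroup.Normal.map hUn π hπs, hmap⟩ hmle
      apply le_antisymm hle
      intro x hx
      obtain ⟨y, hy, hye⟩ := h1 (show π x ∈ M from hx)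
      have h2 : y⁻¹ * x ∈ K := by
        rw [← QuotientGroup.eq]
        exact hye
      have h3 := Subgroup.mul_mem _ hy (Subgroup.mem_sup_right h2 : y⁻¹ * x ∈ (V ⊓ L) ⊔ K)
      simpa using h3
    -- the quotient of `L` by `V ⊓ L` is nilpotent
    have hKnil : Group.IsNilpotent K := by
      rw [hF]
      exact fittingSubgroup_isNilpotent
    haveI hVsub : (V.subgroupOf L).Normal := Subgroup.normal_subgroupOf
    let σ := QuotientGroup.mk' (V.subgroupOf L)
    have hσs : Function.Surjective σ := QuotientGroup.mk'_surjective _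
    have hsurj : Function.Surjective (σ.comp (Subgroup.inclusion hKL)) := by
      intro x
      obtain ⟨l, rfl⟩ := hσs x
      have h1 : (l : G) ∈ (V ⊓ L) ⊔ K := by
        rw [hUL]
        exact l.2
      obtain ⟨v, hv, k, hk, hvk⟩ := Subgroup.mem_sup_of_normal_left.1 h1
      refine ⟨⟨k, hk⟩, ?_⟩
      show σ ⟨k, hKL hk⟩ = σ l
      show ((⟨k, hKL hk⟩ : L) : L ⧸ V.subgroupOf L) = (l : L ⧸ V.subgroupOf L)
      rw [QuotientGroup.eq, Subgroup.mem_subgroupOf]
      have h2 : (((⟨k, hKL hk⟩ : L)⁻¹ * l : L) : G) = k⁻¹ * (v * k) := by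
        push_cast
        rw [← hvk]
      rw [h2]
      have h3 : k⁻¹ * (v * k) = k⁻¹ * v * k := by group
      rw [h3]
      exact hVn.conj_mem' v hv.1 k
    have hnil : Group.IsNilpotent (L ⧸ V.subgroupOf L) := Group.nilpotent_of_surjective _ hsurj
    have hc0 : Nat.card (R.subgroupOf L) = Nat.card R :=
      Cfsg.Agent.Lib.Coprime.SZ.card_subgroupOf_of_le hRL
    have hp0 : IsPGroup q (R.subgroupOf L) := by
      obtain ⟨m, hm⟩ := IsPGroup.iff_card.1 hRp
      exact IsPGroup.iff_card.2 ⟨m, hc0.trans hm⟩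
    have hpb : IsPGroup q ((R.subgroupOf L).map σ) := hp0.map _
    have hib : ¬ q ∣ ((R.subgroupOf L).map σ).index := fun h0 =>
      hRi (h0.trans (Subgroup.index_map_dvd _ hσs))
    let Pb : Sylow q (L ⧸ V.subgroupOf L) := hpb.toSylow hib
    have hPn : (Pb : Subgroup (L ⧸ V.subgroupOf L)).Normal :=
      ((Group.isNilpotent_of_finite_tfae (G := L ⧸ V.subgroupOf L)).out 0 3 rfl rfl).mp hnil q hqf Pb
    have h1 : σ ⟨j, hj⟩ * σ ⟨u, hRL hu⟩ * (σ ⟨j, hj⟩)⁻¹ ∈ (Pb : Subgroup (L ⧸ V.subgroupOf L)) :=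
      hPn.conj_mem _ ⟨⟨u, hRL hu⟩, by rw [SetLike.mem_coe, Subgroup.mem_subgroupOf]; exact hu, rfl⟩ _
    obtain ⟨w, hw, hwe⟩ := h1
    have hw' : (w : G) ∈ R := by
      rw [SetLike.mem_coe, Subgroup.mem_subgroupOf] at hw
      exact hw
    have h2 : (w : L ⧸ V.subgroupOf L) =
        ((⟨j, hj⟩ * ⟨u, hRL hu⟩ * (⟨j, hj⟩ : L)⁻¹ : L) : L ⧸ V.subgroupOf L) := hwe
    rw [QuotientGroup.eq, Subgroup.mem_subgroupOf] at h2
    have h3 : (((w : L)⁻¹ * (⟨j, hj⟩ * ⟨u, hRL hu⟩ * (⟨j, hj⟩ : L)⁻¹) : L) : G) =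
        (w : G)⁻¹ * (j * u * j⁻¹) := by
      push_cast
      rfl
    rw [h3] at h2
    have h4 : j * u * j⁻¹ = (w : G) * ((w : G)⁻¹ * (j * u * j⁻¹)) := by group
    rw [h4]
    refine Subgroup.mul_mem _ (Subgroup.mem_sup_left hw') (Subgroup.mem_sup_right ⟨h2, ?_⟩)
    have h5 : (w : G)⁻¹ * (j * u * j⁻¹) ∈ L :=
      L.mul_mem (L.inv_mem w.2) (hLn.conj_mem u (hRL hu) j)
    exact h5

end main

/-- Let χ be an irreducible character of the finite group G and K its kernel (the elements where χ takes the value χ(1)). Suppose either that K is not contained in the Fitting subgroup F(G), or that K = F(G) with G/K solvable and K ≠ G. Then there is an irreducible character ψ of G with ψ(1) > χ(1) whose kernel is properly contained in K. -/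
theorem result {G : Type*} [Group G] [Finite G] (χ : Cfsg.IrrCharacter G) (K : Subgroup G) [K.Normal] (hK : (∀ g : G, g ∈ K ↔ (χ : G → ℂ) g = (χ : G → ℂ) 1)) (h : ¬ K ≤ Cfsg.fittingSubgroup G ∨ (K = Cfsg.fittingSubgroup G ∧ Group.IsSolvable (G ⧸ K) ∧ K ≠ ⊤)) : ∃ ψ : Cfsg.IrrCharacter G, Cfsg.charDegree (χ : G → ℂ) < Cfsg.charDegree (ψ : G → ℂ) ∧ ∃ L : Subgroup G, (∀ g : G, g ∈ L ↔ (ψ : G → ℂ) g = (ψ : G → ℂ) 1) ∧ L < K := by
  rcases h with h | ⟨hF, hsol, htop⟩
  · exact case_a χ K hK h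
  · exact case_b χ K hK hF hsol htop

end Cfsg.Agent.S4461
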