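import Cfsg.Statements.S4462
import Mathlib
import Cfsg.Agent.S4461

set_option autoImplicit false
set_option linter.style.haveILetI false
set_option linter.unusedSectionVars false
set_option linter.unusedVariables false
open Cfsg

namespace Cfsg.Agent.S4462

open Cfsg.Agent.Lib.Char.Basic Cfsg.Agent.Lib.Char.Ortho
open Cfsg.Agent.Lib.Solvable.PSeries Cfsg.Agent.Lib.Basic.PCore
open Cfsg.Agent.S4461 (kerS mem_kerS kerS_normal ker_mul)
open scoped ComplexConjugate

universe u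

section fit

variable (G : Type u) [Group G]

/-- The upper Fitting series. -/
noncomputable def ufit : ℕ → {H : Subgroup G // H.Normal}
  | 0 => ⟨⊥, inferInstance⟩
  | k + 1 =>
    haveI := (ufit k).2
    ⟨(fittingSubgroup (G ⧸ (ufit k).1)).comap (QuotientGroup.mk' (ufit k).1),
      Subgroup.Normal.comap (Cfsg.Agent.Lib.Basic.PCore.fittingSubgroup_normal _) _⟩

end fit

/-- Characters with a given subgroup in the kernel. -/
def cdSet {G : Type u} [Group G] (A : Subgroup G) : Set ℕ :=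
  {d | ∃ χ : IrrCharacter G, (∀ a ∈ A, (χ : G → ℂ) a = (χ : G → ℂ) 1) ∧ charDegree (χ : G → ℂ) = d}

section main

variable {G : Type u} [Group G] [Finite G]

lemma cdSet_finite (A : Subgroup G) : (cdSet A).Finite := by
  classical
  have h : (cdSet A) ⊆ Set.range (fun χ : IrrCharacter G => charDegree (χ : G → ℂ)) := by
    rintro d ⟨χ, -, rfl⟩
    exact ⟨χ, rfl⟩
  exact (Set.finite_range _).subset h

lemma cdSet_anti {A B : Subgroup G} (h : A ≤ B) : cdSet B ⊆ cdSet A := by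
  rintro d ⟨χ, h1, h2⟩
  exact ⟨χ, fun a ha => h1 a (h ha), h2⟩

/-- The principal character lies in every `cdSet`. -/
lemma cdSet_nonempty (A : Subgroup G) : (cdSet A).Nonempty :=
  ⟨_, ⟨⟨fun _ => 1, Cfsg.Agent.Lib.Char.Burnside2.isIrrCharacter_one⟩, fun _ _ => rfl, rfl⟩⟩

/-- The inflation of an irreducible character. -/
noncomputable def infl (A : Subgroup G) [A.Normal] (ψ : IrrCharacter (G ⧸ A)) : IrrCharacter G :=
  ⟨fun g => (ψ : G ⧸ A → ℂ) (g : G ⧸ A),
    isIrrCharacter_comp_surjective ψ.2 (QuotientGroup.mk' A) (QuotientGroup.mk'_surjective A)⟩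

lemma infl_deg (A : Subgroup G) [A.Normal] (ψ : IrrCharacter (G ⧸ A)) :
    charDegree ((infl A ψ : IrrCharacter G) : G → ℂ) = charDegree (ψ : G ⧸ A → ℂ) := by
  simp [charDegree, infl]

/-- A character with everything in its kernel has degree one. -/
lemma deg_of_ker_top (χ : IrrCharacter G) (h : ∀ g : G, (χ : G → ℂ) g = (χ : G → ℂ) 1) :
    charDegree (χ : G → ℂ) = 1 := by
  classical
  cases nonempty_fintype G
  have h1 := Cfsg.Agent.Lib.Char.Ortho.classInner_irr_self χ.2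
  have hc := Cfsg.Agent.Lib.Char.Values.IsCharacter.charDegree_cast
    (isCharacter_of_isIrrCharacter χ.2)
  rw [Cfsg.Agent.Lib.Char.Induced.classInner_def] at h1
  simp only [h, ← hc, Finset.sum_const, Finset.card_univ, map_natCast, nsmul_eq_mul] at h1
  have hG : (Nat.card G : ℂ) ≠ 0 := by exact_mod_cast Nat.card_pos.ne'
  rw [Nat.card_eq_fintype_card] at h1 hG
  rw [← mul_assoc, inv_mul_cancel₀ hG, one_mul] at h1
  have h2 : charDegree (χ : G → ℂ) * charDegree (χ : G → ℂ) = 1 := by exact_mod_cast h1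
  exact Nat.eq_one_of_mul_eq_one_right h2

/-- The main step. -/
theorem step (hsolv : Group.IsSolvable G) (A : Subgroup G) [hA : A.Normal]
    (hB : (fittingSubgroup (G ⧸ A)).comap (QuotientGroup.mk' A) ≠ ⊤) :
    ∃ d ∈ cdSet A, d ∉ cdSet ((fittingSubgroup (G ⧸ A)).comap (QuotientGroup.mk' A)) := by
  classical
  set B := (fittingSubgroup (G ⧸ A)).comap (QuotientGroup.mk' A) with hBdef
  have hAB : A ≤ B := by
    intro x hx
    show (QuotientGroup.mk' A) x ∈ fittingSubgroup (G ⧸ A)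
    have : (QuotientGroup.mk' A) x = 1 := (QuotientGroup.eq_one_iff x).2 hx
    rw [this]
    exact Subgroup.one_mem _
  haveI hBn : B.Normal := Subgroup.Normal.comap (Cfsg.Agent.Lib.Basic.PCore.fittingSubgroup_normal _) _
  -- a nontrivial character over `B`
  obtain ⟨g₀, hg₀⟩ : ∃ g₀ : G, g₀ ∉ B := by
    by_contra hall
    push Not at hall
    exact hB (eq_top_iff.2 fun x _ => hall x)
  obtain ⟨χ₀, hχ₀⟩ : ∃ θ : IrrCharacter (G ⧸ B), (θ : G ⧸ B → ℂ) (g₀ : G ⧸ B) ≠ (θ : G ⧸ B → ℂ) 1 := by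
    by_contra hall
    push Not at hall
    letI : Fintype (G ⧸ B) := Fintype.ofFinite _
    have h1 := Cfsg.Agent.Lib.Char.CompleteCor.isConj_of_forall_irr hall
    have h2 := isConj_one_right.1 h1.symm
    exact hg₀ ((QuotientGroup.eq_one_iff g₀).1 h2)
  -- maximal degree
  let S : Set (IrrCharacter G) :=
    {χ | (∀ b ∈ B, (χ : G → ℂ) b = (χ : G → ℂ) 1) ∧ ∃ g : G, (χ : G → ℂ) g ≠ (χ : G → ℂ) 1}
  have hSne : S.Nonempty := by
    refine ⟨infl B χ₀, fun b hb => ?_, g₀, hχ₀⟩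
    show (χ₀ : G ⧸ B → ℂ) (b : G ⧸ B) = (χ₀ : G ⧸ B → ℂ) ((1 : G) : G ⧸ B)
    rw [(QuotientGroup.eq_one_iff b).2 hb]
    rfl
  obtain ⟨χ, hχS, hχmax⟩ := Set.exists_max_image S (fun χ : IrrCharacter G => charDegree (χ : G → ℂ))
    (Set.toFinite S) hSne
  have hχc := isCharacter_of_isIrrCharacter χ.2
  have hdeg1 : 1 ≤ charDegree (χ : G → ℂ) := by
    have h1 := Cfsg.Agent.Lib.Char.Values.IsCharacter.charDegree_cast hχc
    have h2 : charDegree (χ : G → ℂ) ≠ 0 := by
      intro h0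
      rw [h0] at h1
      exact irr_apply_one_ne_zero χ.2 (by simpa using h1.symm)
    omega
  -- descend to `G / A`
  obtain ⟨χb, hχb⟩ := Cfsg.Agent.Lib.Blocks.Kernel.exists_irr_of_kernel A χ.2
    (fun a ha => hχS.1 a (hAB ha))
  have hχbv : ∀ g : G, (χb : G ⧸ A → ℂ) (g : G ⧸ A) = (χ : G → ℂ) g := fun g => by
    rw [hχb]
    rfl
  set K : Subgroup (G ⧸ A) := (kerS hχc).map (QuotientGroup.mk' A) with hKdef
  haveI hKn : K.Normal := Subgroup.Normal.map (kerS_normal hχc) _ (QuotientGroup.mk'_surjective A)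
  have hK : ∀ c : G ⧸ A, c ∈ K ↔ (χb : G ⧸ A → ℂ) c = (χb : G ⧸ A → ℂ) 1 := by
    intro c
    obtain ⟨g, rfl⟩ := QuotientGroup.mk_surjective c
    have h1 : (χb : G ⧸ A → ℂ) 1 = (χ : G → ℂ) 1 := hχbv 1
    rw [h1, hχbv]
    constructor
    · rintro ⟨g', hg', he⟩
      rw [← hχbv, ← he]
      have h2 : (QuotientGroup.mk' A) g' = (g' : G ⧸ A) := rfl
      rw [h2, hχbv]
      exact hg'
    · intro h
      exact ⟨g, h, rfl⟩
  have hFK : fittingSubgroup (G ⧸ A) ≤ K := by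
    intro c hc
    obtain ⟨g, rfl⟩ := QuotientGroup.mk_surjective c
    exact ⟨g, hχS.1 g hc, rfl⟩
  have hKtop : K ≠ ⊤ := by
    intro htop
    obtain ⟨g, hg⟩ := hχS.2
    apply hg
    have h1 : ((g : G ⧸ A)) ∈ K := by
      rw [htop]
      trivial
    have h2 := (hK _).1 h1
    rw [hχbv] at h2
    rw [h2]
    exact hχbv 1
  have hcase : ¬ K ≤ fittingSubgroup (G ⧸ A) ∨
      (K = fittingSubgroup (G ⧸ A) ∧ Group.IsSolvable ((G ⧸ A) ⧸ K) ∧ K ≠ ⊤) := by
    by_cases h : K ≤ fittingSubgroup (G ⧸ A)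
    · right
      refine ⟨le_antisymm h hFK, inferInstance, hKtop⟩
    · left
      exact h
  obtain ⟨ψb, hψdeg, -⟩ := Cfsg.Agent.S4461.result χb K hK hcase
  refine ⟨charDegree (ψb : G ⧸ A → ℂ), ⟨infl A ψb, fun a ha => ?_, infl_deg A ψb⟩, ?_⟩
  · show (ψb : G ⧸ A → ℂ) (a : G ⧸ A) = (ψb : G ⧸ A → ℂ) ((1 : G) : G ⧸ A)
    rw [(QuotientGroup.eq_one_iff a).2 ha]
    rfl
  · rintro ⟨χ', h1, h2⟩
    have hdb : charDegree (χb : G ⧸ A → ℂ) = charDegree (χ : G → ℂ) := by
      rw [hχb]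
      simp [charDegree]
    rw [hdb] at hψdeg
    by_cases hk : ∀ g : G, (χ' : G → ℂ) g = (χ' : G → ℂ) 1
    · have h3 := deg_of_ker_top χ' hk
      omega
    · push Not at hk
      have h3 := hχmax χ' ⟨h1, hk⟩
      omega

lemma ufit_mono_succ (k : ℕ) : (ufit G k).1 ≤ (ufit G (k + 1)).1 := by
  haveI := (ufit G k).2
  intro x hx
  show (QuotientGroup.mk' (ufit G k).1) x ∈ fittingSubgroup (G ⧸ (ufit G k).1)
  have : (QuotientGroup.mk' (ufit G k).1) x = 1 := (QuotientGroup.eq_one_iff x).2 hx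
  rw [this]
  exact Subgroup.one_mem _

lemma ufit_mono : Monotone (fun k => (ufit G k).1) := monotone_nat_of_le_succ ufit_mono_succ

lemma card_step (hsolv : Group.IsSolvable G) (k : ℕ) (h : (ufit G (k + 1)).1 ≠ ⊤) :
    (cdSet (ufit G (k + 1)).1).ncard + 1 ≤ (cdSet (ufit G k).1).ncard := by
  haveI := (ufit G k).2
  obtain ⟨d, hd, hd'⟩ := step hsolv (ufit G k).1 h
  have h1 : cdSet (ufit G (k + 1)).1 ⊂ cdSet (ufit G k).1 :=
    ⟨cdSet_anti (ufit_mono_succ k), fun hle => hd' (hle hd)⟩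
  exact Set.ncard_lt_ncard h1 (cdSet_finite _)

lemma card_bound (hsolv : Group.IsSolvable G) (k : ℕ) (h : (ufit G k).1 ≠ ⊤) :
    (cdSet (ufit G k).1).ncard + k ≤ (cdSet (⊥ : Subgroup G)).ncard := by
  induction k with
  | zero => exact le_rfl
  | succ k ih =>
    have h1 : (ufit G k).1 ≠ ⊤ := fun h0 => h (top_le_iff.1 (h0 ▸ ufit_mono_succ k))
    have h2 := ih h1
    have h3 := card_step hsolv k h
    omega

lemma ufit_top (hsolv : Group.IsSolvable G) (n : ℕ) (hn : (cdSet (⊥ : Subgroup G)).ncard = n) :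
    (ufit G n).1 = ⊤ := by
  by_contra h
  have h1 := card_bound hsolv n h
  rw [hn] at h1
  have h2 : 0 < (cdSet (ufit G n).1).ncard :=
    (Set.ncard_pos (cdSet_finite _)).2 (cdSet_nonempty _)
  omega

lemma nil_step (k : ℕ) (h : ((ufit G k).1.subgroupOf (ufit G (k + 1)).1).Normal) :
    Group.IsNilpotent (↥(ufit G (k + 1)).1 ⧸ (ufit G k).1.subgroupOf (ufit G (k + 1)).1) := by
  haveI := (ufit G k).2
  haveI : Group.IsNilpotent (fittingSubgroup (G ⧸ (ufit G k).1)) := fittingSubgroup_isNilpotent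
  let f : ↥(ufit G (k + 1)).1 →* fittingSubgroup (G ⧸ (ufit G k).1) :=
    ((QuotientGroup.mk' (ufit G k).1).comp (ufit G (k + 1)).1.subtype).codRestrict _ (fun x => x.2)
  have hf : (ufit G k).1.subgroupOf (ufit G (k + 1)).1 ≤ f.ker := by
    intro x hx
    rw [MonoidHom.mem_ker]
    apply Subtype.ext
    exact (QuotientGroup.eq_one_iff _).2 hx
  let g := QuotientGroup.lift ((ufit G k).1.subgroupOf (ufit G (k + 1)).1) f (fun x hx => hf hx)
  refine Subgroup.isNilpotent_of_ker_le_center g ?_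
  intro c hc
  obtain ⟨x, rfl⟩ := QuotientGroup.mk_surjective c
  have h1 : f x = 1 := hc
  have h2 : ((x : G) : G ⧸ (ufit G k).1) = 1 := congrArg Subtype.val h1
  have h3 : x ∈ (ufit G k).1.subgroupOf (ufit G (k + 1)).1 := by
    rw [Subgroup.mem_subgroupOf]
    exact (QuotientGroup.eq_one_iff _).1 h2
  have h4 : ((x : ↥(ufit G (k + 1)).1) : ↥(ufit G (k + 1)).1 ⧸ (ufit G k).1.subgroupOf (ufit G (k + 1)).1) = 1 :=
    (QuotientGroup.eq_one_iff x).2 h3
  rw [h4]
  exact Subgroup.one_mem _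

end main


/-- Let G be a finite solvable group with exactly n distinct irreducible character degrees. Then G has normal subgroups 1 = N₀ ≤ N₁ ≤ ⋯ ≤ Nₙ = G with every quotient N_{i+1}/N_i nilpotent (the nilpotent length of G is at most n). -/
theorem result {G : Type*} [Group G] [Finite G] (hsolv : Group.IsSolvable G) (n : ℕ) (hcd : Nat.card {d : ℕ // ∃ χ : Cfsg.IrrCharacter G, Cfsg.charDegree (χ : G → ℂ) = d} = n) : ∃ N : Fin (n + 1) → Subgroup G, N 0 = ⊥ ∧ N (Fin.last n) = ⊤ ∧ Monotone N ∧ (∀ i, (N i).Normal) ∧ ∀ i : Fin n, ∀ h : (N i.castSucc).subgroupOf (N i.succ) |>.Normal, Group.IsNilpotent (↥(N i.succ) ⧸ (N i.castSucc).subgroupOf (N i.succ)) := by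
  have hn : (cdSet (⊥ : Subgroup G)).ncard = n := by
    rw [← hcd, ← Nat.card_coe_set_eq]
    apply Nat.card_congr
    refine Equiv.subtypeEquivRight (fun d => ?_)
    constructor
    · rintro ⟨χ, -, h⟩
      exact ⟨χ, h⟩
    · rintro ⟨χ, h⟩
      refine ⟨χ, fun a ha => ?_, h⟩
      rw [Subgroup.mem_bot] at ha
      rw [ha]
  refine ⟨fun i => (ufit G i.val).1, rfl, ufit_top hsolv n hn, ?_, fun i => (ufit G i.val).2, ?_⟩
  · intro i j hij
    exact ufit_mono hij
  · intro i h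
    exact nil_step i.val h

end Cfsg.Agent.S4462
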