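import Cfsg.Statements.S4465
import Mathlib
import Cfsg.Agent.Lib.Char.LinearHall3

set_option autoImplicit false
open Cfsg

namespace Cfsg.Agent.S4465

open Cfsg.Agent.Lib.Char.LinearHall in
/-- Let the finite group G have a faithful character χ of degree n (G is a linear group of degree n), and let π be the set of primes greater than n + 1. Then G has an abelian Hall π-subgroup: an abelian subgroup A whose order is divisible only by primes greater than n + 1 and whose index is divisible by no prime greater than n + 1. -/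
theorem result {G : Type*} [Group G] [Finite G] (χ : G → ℂ) (hχ : Cfsg.IsCharacter G χ) (hfaith : ∀ g : G, χ g = χ 1 → g = 1) (n : ℕ) (hn : Cfsg.charDegree χ = n) : ∃ A : Subgroup G, (∀ x ∈ A, ∀ y ∈ A, x * y = y * x) ∧ (∀ q : ℕ, q.Prime → q ∣ Nat.card A → n + 1 < q) ∧ ∀ q : ℕ, q.Prime → q ∣ A.index → q ≤ n + 1 := by
  obtain ⟨m, ρ, rfl⟩ := hχ
  have hm : m = n := by
    rw [← hn, Cfsg.charDegree, Representation.char_one]
    simp
  subst hm
  have hinj : Function.Injective ρ := by
    rw [injective_iff_map_eq_one]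
    intro g hg
    apply hfaith
    exact (Cfsg.Agent.Lib.Char.Codegree.character_eq_one_iff ρ g).2 hg
  have hfr : Module.finrank ℂ (Fin m → ℂ) = m := Module.finrank_fin_fun ℂ
  obtain ⟨A, hA⟩ := exists_hall (m + 1) _ G (Fin m → ℂ) ρ hinj (by rw [hfr]) rfl
  exact ⟨A, comm_of_pi ρ hinj (by rw [hfr]) A hA.1, hA.1, hA.2⟩

end Cfsg.Agent.S4465
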