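import Mathlib
import Cfsg.Prelude.Def_Blocks
import Cfsg.Agent.Lib.Char.Winter

set_option autoImplicit false
open Cfsg

namespace Cfsg.Agent.S4467

open Cfsg.Agent.Lib.Char.Winter

/-- **Winter's theorem.** -/
theorem result {G : Type*} [Group G] [Finite G] (χ : Cfsg.IrrCharacter G) (hfaith : ∀ g : G, (χ : G → ℂ) g = (χ : G → ℂ) 1 → g = 1) (n : ℕ) (hn : Cfsg.charDegree (χ : G → ℂ) = n) (hsolv : Group.IsSolvable G) (p : ℕ) (hp : p.Prime) (P : Sylow p G) (hP : ¬ (P : Subgroup G).Normal) : ∃ q : ℕ, IsPrimePow q ∧ q ∣ n ∧ ((q : ℤ) ≡ -1 [ZMOD p] ∨ (q : ℤ) ≡ 0 [ZMOD p] ∨ (q : ℤ) ≡ 1 [ZMOD p]) := by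
  haveI : Fact p.Prime := ⟨hp⟩
  by_contra hcon
  apply hP
  have hn' : (χ : G → ℂ) 1 = n := by
    rw [← hn]
    exact (Cfsg.Agent.Lib.Char.Values.IsCharacter.charDegree_cast
      (Cfsg.Agent.Lib.Char.Basic.isCharacter_of_isIrrCharacter χ.2)).symm
  exact winter_main p _ G rfl hsolv χ χ.2 hfaith n hn' hcon P

end Cfsg.Agent.S4467
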