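import Cfsg.Statements.S4468
import Mathlib
import Cfsg.Agent.Lib.Char.LinearPS2

set_option autoImplicit false

open Cfsg

namespace Cfsg.Agent.S4468

theorem result {G : Type*} [Group G] [Finite G] (χ : G → ℂ) (hχ : Cfsg.IsCharacter G χ) (hfaith : ∀ g : G, χ g = χ 1 → g = 1) (n : ℕ) (hn : Cfsg.charDegree χ = n) (p : ℕ) (hp : p.Prime) (hsolv : Cfsg.IsPSolvable p G) (hnp : n + 1 ≤ p) (P : Sylow p G) (hP : ¬ (P : Subgroup G).Normal) : n + 1 = p ∧ (∃ k : ℕ, n = 2 ^ k) ∧ Cfsg.IsIrrCharacter G χ := by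
  obtain ⟨m, ρ, rfl⟩ := hχ
  have hm : m = n := by
    rw [← hn]
    unfold Cfsg.charDegree
    rw [Representation.char_one]
    simp
  subst hm
  have hfr : Module.finrank ℂ (Fin m → ℂ) = m := by simp
  have hinj : Function.Injective ρ := by
    rw [injective_iff_map_eq_one]
    intro a ha
    apply hfaith
    exact (Cfsg.Agent.Lib.Char.Codegree.character_eq_one_iff ρ a).2 ha
  have hd : Module.finrank ℂ (Fin m → ℂ) + 1 ≤ p := by rw [hfr]; exact hnp
  have hB : Module.finrank ℂ (Fin m → ℂ) + 1 = p ∧ ∃ k, Module.finrank ℂ (Fin m → ℂ) = 2 ^ k := by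
    by_contra hcon
    exact hP (Cfsg.Agent.Lib.Char.LinearPS.sylow_normal_of_small hp hsolv ρ hinj hd hcon P)
  rw [hfr] at hB
  exact ⟨hB.1, hB.2, m, ρ, Cfsg.Agent.Lib.Char.LinearPS.isIrreducible_of_small hp hsolv ρ hinj hd P hP, rfl⟩

end Cfsg.Agent.S4468
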