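import Cfsg.Statements.S4469
import Mathlib
import Cfsg.Agent.S4465
import Cfsg.Agent.S4470
import Cfsg.Agent.Lib.Char.LinearMono

set_option autoImplicit false
set_option linter.style.haveILetI false
open Cfsg

namespace Cfsg.Agent.S4469

/-- The part of the index at a prime. -/
theorem part_le {G : Type*} [Group G] [Finite G] {χ : G → ℂ} (hχ : Cfsg.IsCharacter G χ)
    (hfaith : ∀ g : G, χ g = χ 1 → g = 1) (n : ℕ) (hn : χ 1 = n) (A : Subgroup G)
    (hAb : ∀ H : Subgroup G, (∀ x ∈ H, ∀ y ∈ H, x * y = y * x) → (A.subgroupOf H).index ≤ 12 ^ n)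
    {p : ℕ} (hp : p.Prime) :
    p ^ A.index.factorization p ≤ p ^ n.factorial.factorization p * 12 ^ n := by
  classical
  haveI : Fact p.Prime := ⟨hp⟩
  have hI : A.index ≠ 0 := Subgroup.index_ne_zero_of_finite
  let P : Sylow p G := default
  set Pg : Subgroup G := (P : Subgroup G) with hPg
  haveI : Fintype Pg := Fintype.ofFinite _
  haveI : Group.IsNilpotent Pg := P.isPGroup'.isNilpotent
  have hψ : IsCharacter Pg (fun x : Pg => χ x) := Cfsg.Agent.Lib.Char.Basic.isCharacter_restrict hχ Pg
  obtain ⟨B, hBc, hBi⟩ := Cfsg.Agent.Lib.Char.LinearMono.exists_abelian_index_dvd hψ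
    (fun g hg => Subtype.ext (hfaith g (by simpa using hg))) n (by simpa using hn)
  set BG : Subgroup G := B.map Pg.subtype with hBG
  have hBGc : ∀ x ∈ BG, ∀ y ∈ BG, x * y = y * x := by
    rintro _ ⟨x, hx, rfl⟩ _ ⟨y, hy, rfl⟩
    exact congrArg Subtype.val (hBc x hx y hy)
  have ha := hAb BG hBGc
  have hBGi : BG.index = B.index * Pg.index := Subgroup.index_map_subtype B
  have hinf : (A ⊓ BG).index = (A.subgroupOf BG).index * BG.index := by
    rw [← Subgroup.relIndex_mul_index (inf_le_right : A ⊓ BG ≤ BG), Subgroup.inf_relIndex_right]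
    rfl
  have hdvd : A.index ∣ (A ⊓ BG).index := Subgroup.index_dvd_of_le inf_le_left
  have hpv : p ^ A.index.factorization p ∣ A.index := Nat.ordProj_dvd A.index p
  have hcop : Nat.Coprime (p ^ A.index.factorization p) Pg.index :=
    Nat.Coprime.pow_left _ ((Nat.Prime.coprime_iff_not_dvd hp).2 P.not_dvd_index)
  have h1 : p ^ A.index.factorization p ∣ ((A.subgroupOf BG).index * B.index) * Pg.index := by
    rw [mul_assoc, ← hBGi, ← hinf]
    exact hpv.trans hdvd
  have h2 := hcop.dvd_of_dvd_mul_right h1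
  have hapos : 0 < (A.subgroupOf BG).index := Nat.pos_of_ne_zero Subgroup.index_ne_zero_of_finite
  have hbpos : 0 < B.index := Nat.pos_of_ne_zero Subgroup.index_ne_zero_of_finite
  have h3 := Nat.le_of_dvd (Nat.mul_pos hapos hbpos) h2
  have hb : B.index ≤ p ^ n.factorial.factorization p := by
    have h4 : B.index ∣ Nat.card Pg := Subgroup.index_dvd_card B
    obtain ⟨k, hk⟩ := IsPGroup.iff_card.1 P.isPGroup'
    rw [show Nat.card Pg = p ^ k from hk] at h4
    obtain ⟨j, -, hj⟩ := (Nat.dvd_prime_pow hp).1 h4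
    rw [hj] at hBi ⊢
    have h5 := (Nat.Prime.pow_dvd_iff_le_factorization hp (Nat.factorial_ne_zero n)).1 hBi
    exact Nat.pow_le_pow_right hp.pos h5
  calc p ^ A.index.factorization p ≤ (A.subgroupOf BG).index * B.index := h3
    _ ≤ 12 ^ n * p ^ n.factorial.factorization p := Nat.mul_le_mul ha hb
    _ = _ := mul_comm _ _

/-- The classical bound for finite linear groups, in explicit form. Let the finite group G have a faithful character of degree n. Then G has an abelian normal subgroup whose index is at most n! · 12^(n·(π(n+1)+1)), π(k) denoting the number of primes not exceeding k. -/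
theorem result {G : Type*} [Group G] [Finite G] (χ : G → ℂ) (hχ : Cfsg.IsCharacter G χ) (hfaith : ∀ g : G, χ g = χ 1 → g = 1) (n : ℕ) (hn : Cfsg.charDegree χ = n) : ∃ A : Subgroup G, A.Normal ∧ (∀ x ∈ A, ∀ y ∈ A, x * y = y * x) ∧ A.index ≤ Nat.factorial n * 12 ^ (n * (Nat.primeCounting (n + 1) + 1)) := by
  classical
  obtain ⟨A, hAn, hAc, hAb⟩ := Cfsg.Agent.S4470.result χ hχ hfaith n hn
  refine ⟨A, hAn, hAc, ?_⟩
  obtain ⟨H, hHc, hHpi, hHidx⟩ := Cfsg.Agent.S4465.result χ hχ hfaith n hn
  have hχ1 : χ 1 = n := by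
    obtain ⟨m, ρ, rfl⟩ := hχ
    rw [← hn, Cfsg.charDegree, Representation.char_one]
    simp
  set I := A.index with hI
  have hI0 : I ≠ 0 := Subgroup.index_ne_zero_of_finite
  -- the part above `n + 1`
  have hbig : ∏ p ∈ I.primeFactors.filter (fun p => ¬ p ≤ n + 1), p ^ I.factorization p ≤ 12 ^ n := by
    have hinf : (A ⊓ H).index = (A.subgroupOf H).index * H.index := by
      rw [← Subgroup.relIndex_mul_index (inf_le_right : A ⊓ H ≤ H), Subgroup.inf_relIndex_right]
      rfl
    have hdvd : I ∣ (A ⊓ H).index := Subgroup.index_dvd_of_le inf_le_left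
    have hapos : 0 < (A.subgroupOf H).index := Nat.pos_of_ne_zero Subgroup.index_ne_zero_of_finite
    refine le_trans (Nat.le_of_dvd hapos ?_) (hAb H hHc)
    refine Finset.prod_dvd_of_isRelPrime ?_ fun p hp => ?_
    · intro p hp q hq hpq
      simp only [Finset.coe_filter, Set.mem_ofPred_eq, Nat.mem_primeFactors] at hp hq
      have hcop : Nat.Coprime (p ^ I.factorization p) (q ^ I.factorization q) :=
        Nat.coprime_pow_primes _ _ hp.1.1 hq.1.1 hpq
      exact Nat.coprime_iff_isRelPrime.1 hcop
    · simp only [Finset.mem_filter, Nat.mem_primeFactors] at hp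
      have hpp : p.Prime := hp.1.1
      have hpH : ¬ p ∣ H.index := fun h => hp.2 (hHidx p hpp h)
      have hcop : Nat.Coprime (p ^ I.factorization p) H.index :=
        Nat.Coprime.pow_left _ ((Nat.Prime.coprime_iff_not_dvd hpp).2 hpH)
      apply hcop.dvd_of_dvd_mul_right
      rw [← hinf]
      exact (Nat.ordProj_dvd I p).trans hdvd
  -- the part below
  have hsmall : ∏ p ∈ I.primeFactors.filter (fun p => p ≤ n + 1), p ^ I.factorization p
      ≤ n.factorial * (12 ^ n) ^ Nat.primeCounting (n + 1) := by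
    set F := I.primeFactors.filter (fun p => p ≤ n + 1) with hF
    have h1 : ∏ p ∈ F, p ^ I.factorization p
        ≤ ∏ p ∈ F, (p ^ n.factorial.factorization p * 12 ^ n) := by
      refine Finset.prod_le_prod' fun p hp => ?_
      simp only [hF, Finset.mem_filter, Nat.mem_primeFactors] at hp
      exact part_le hχ hfaith n hχ1 A hAb hp.1.1
    rw [Finset.prod_mul_distrib, Finset.prod_const] at h1
    have h2 : ∏ p ∈ F, p ^ n.factorial.factorization p ≤ n.factorial := by
      refine Nat.le_of_dvd (Nat.factorial_pos n) ?_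
      refine Finset.prod_dvd_of_isRelPrime ?_ fun p _ => Nat.ordProj_dvd _ p
      intro p hp q hq hpq
      simp only [hF, Finset.coe_filter, Set.mem_ofPred_eq, Nat.mem_primeFactors] at hp hq
      have hcop : Nat.Coprime (p ^ n.factorial.factorization p) (q ^ n.factorial.factorization q) :=
        Nat.coprime_pow_primes _ _ hp.1.1 hq.1.1 hpq
      exact Nat.coprime_iff_isRelPrime.1 hcop
    have h3 : F.card ≤ Nat.primeCounting (n + 1) := by
      rw [Nat.primeCounting, Nat.primeCounting', Nat.count_eq_card_filter_range]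
      refine Finset.card_le_card fun p hp => ?_
      simp only [hF, Finset.mem_filter, Nat.mem_primeFactors] at hp
      simp only [Finset.mem_filter, Finset.mem_range]
      exact ⟨by omega, hp.1.1⟩
    calc _ ≤ _ := h1
      _ ≤ n.factorial * (12 ^ n) ^ Nat.primeCounting (n + 1) :=
        Nat.mul_le_mul h2 (Nat.pow_le_pow_right (by positivity) h3)
  have hprod : I = (∏ p ∈ I.primeFactors.filter (fun p => p ≤ n + 1), p ^ I.factorization p) *
      ∏ p ∈ I.primeFactors.filter (fun p => ¬ p ≤ n + 1), p ^ I.factorization p := by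
    rw [Finset.prod_filter_mul_prod_filter_not]
    conv_lhs => rw [← Nat.prod_factorization_pow_eq_self hI0]
    rfl
  rw [hprod]
  calc _ ≤ (n.factorial * (12 ^ n) ^ Nat.primeCounting (n + 1)) * 12 ^ n :=
        Nat.mul_le_mul hsmall hbig
    _ = _ := by
      rw [mul_assoc, ← pow_mul, ← pow_add]
      congr 2

end Cfsg.Agent.S4469
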