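import Cfsg.Statements.S4471
import Mathlib
import Cfsg.Agent.Lib.QuadRefl.StepD
import Cfsg.Agent.Lib.DefectOne.SimpleDim

set_option autoImplicit false
open Cfsg

namespace Cfsg.Agent.S4471

open Cfsg.Agent.Lib.QuadRefl Matrix

/-- Let p ≥ 7 be a prime and let the finite group G have a faithful irreducible character of degree n with n < 2p and n ≠ p. If the Sylow p-subgroups of G are non-abelian then p² does not divide the index of O_p(G) in G; consequently, in every case G/O_p(G) has abelian Sylow p-subgroups. -/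
theorem result {G : Type*} [Group G] [Finite G] (χ : Cfsg.IrrCharacter G) (hfaith : ∀ g : G, (χ : G → ℂ) g = (χ : G → ℂ) 1 → g = 1) (n : ℕ) (hn : Cfsg.charDegree (χ : G → ℂ) = n) (p : ℕ) (hp : p.Prime) (h7 : 7 ≤ p) (hn2 : n < 2 * p) (hnp : n ≠ p) : ((∃ P : Sylow p G, ∃ x ∈ (P : Subgroup G), ∃ y ∈ (P : Subgroup G), x * y ≠ y * x) → ¬ p ^ 2 ∣ (Cfsg.pCore p G).index) ∧ ∀ Q : Sylow p (G ⧸ Cfsg.pCore p G), ∀ x ∈ (Q : Subgroup (G ⧸ Cfsg.pCore p G)), ∀ y ∈ (Q : Subgroup (G ⧸ Cfsg.pCore p G)), x * y = y * x := by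
  classical
  haveI : Fact p.Prime := ⟨hp⟩
  obtain ⟨d, R, hd0, hd1, htr, -⟩ := Cfsg.Agent.Lib.DefectOne.exists_irr_matrix χ.2
  have hdn : d = n := by
    rw [← hn]
    unfold charDegree
    rw [hd1]
    simp
  subst hdn
  obtain ⟨S, T, hST, hTS, hU⟩ := exists_unitary R
  let U : G →* Matrix (Fin d) (Fin d) ℂ :=
    { toFun := fun g => S * R g * T
      map_one' := by simp [hST]
      map_mul' := fun a b => by
        rw [map_mul]
        calc S * (R a * R b) * T = S * R a * 1 * R b * T := by simp only [mul_one, mul_assoc]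
          _ = S * R a * T * (S * R b * T) := by rw [← hTS]; simp only [mul_assoc] }
  have hUapp : ∀ g, U g = S * R g * T := fun g => rfl
  have htrU : ∀ g, (U g).trace = (χ : G → ℂ) g := by
    intro g
    rw [hUapp, Matrix.trace_mul_comm, ← mul_assoc, hTS, one_mul, htr]
  have hUU : ∀ g, (U g)ᴴ * U g = 1 := hU
  have hinj : Function.Injective U := by
    intro a b hab
    have h1 : U (a * b⁻¹) = 1 := by
      rw [map_mul, hab, ← map_mul, mul_inv_cancel, map_one]
    have h2 := hfaith (a * b⁻¹) (by rw [← htrU, ← htrU, h1, map_one])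
    exact mul_inv_eq_one.1 h2
  have key : ∀ P : Subgroup G, IsPGroup p P → ∀ a ∈ P, ∀ b ∈ P, a * b ≠ b * a →
      ¬ p ^ 2 ∣ (Cfsg.pCore p G).index := by
    intro P hP a ha b hb hab
    obtain ⟨hnlt, x, hxP, hxp, hxk⟩ :=
      exists_special_element χ.2 hfaith hp hd1 hn2 hnp hP ha hb hab
    set ζ := Complex.exp (2 * Real.pi * Complex.I / p) with hζdef
    have hζ : IsPrimitiveRoot ζ p := Complex.isPrimitiveRoot_exp p hp.ne_zero
    have hζe : ζ = Complex.exp (Complex.I * ((2 * Real.pi / p : ℝ) : ℂ)) := by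
      rw [hζdef]
      congr 1
      push_cast
      ring
    have hζn : ‖ζ‖ = 1 := by
      rw [hζe]
      exact Complex.norm_exp_I_mul_ofReal _
    have hζ1 : ζ ≠ 1 := hζ.ne_one hp.one_lt
    have hc : ‖ζ - 1‖ < 1 := by
      rw [hζe]
      refine lt_of_le_of_lt Real.norm_exp_I_mul_ofReal_sub_one_le ?_
      have hp7 : (7 : ℝ) ≤ p := by exact_mod_cast h7
      have hpos : (0 : ℝ) < p := by linarith
      rw [Real.norm_eq_abs, abs_of_pos (by positivity), div_lt_one hpos]
      have := Real.pi_lt_d2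
      linarith
    have hq : Quad U ζ x := by
      have h0 := hxk 0
      have h1 := hxk 1
      have h2 := hxk 2
      simp only [pow_zero, mul_one, pow_one] at h0 h1
      apply quad_of_traces hζn (hUU x) (p : ℂ) ((d : ℂ) - p)
      · simp
      · simp
      · rw [← map_one U, htrU, hd1]
        ring
      · rw [htrU, h1]
      · rw [← map_mul, ← pow_two, htrU, h2]
    let A : Subgroup G := Subgroup.normalClosure ({x} : Set G)
    have hAc : ∀ a ∈ A, ∀ b ∈ A, a * b = b * a := by
      have hcomm : ∀ u ∈ Group.conjugatesOfSet ({x} : Set G), ∀ v ∈ Group.conjugatesOfSet ({x} : Set G),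
          u * v = v * u := by
        intro u hu v hv
        rw [Group.mem_conjugatesOfSet_iff] at hu hv
        obtain ⟨s, hs, hsu⟩ := hu
        obtain ⟨t, ht, htv⟩ := hv
        rw [Set.mem_singleton_iff] at hs ht
        subst hs
        subst ht
        obtain ⟨c, rfl⟩ := isConj_iff.1 hsu
        obtain ⟨e, rfl⟩ := isConj_iff.1 htv
        exact quad_commute hUU hinj hζn hζ1 hc (hq.conj c) (hq.conj e)
      intro a ha b hb
      letI := Subgroup.closureCommGroupOfComm hcomm
      exact congrArg Subtype.val (mul_comm (⟨a, ha⟩ : Subgroup.closure (Group.conjugatesOfSet ({x} : Set G))) ⟨b, hb⟩)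
    exact index_of_special χ.2 hfaith hp hd1 hnlt hn2 hxk hζ hxp hAc
      (Subgroup.subset_normalClosure rfl)
  refine ⟨fun ⟨P, a, ha, b, hb, hab⟩ => key P P.isPGroup' a ha b hb hab, fun Q u hu v hv => ?_⟩
  by_cases hall : ∃ P : Sylow p G, ∃ a ∈ (P : Subgroup G), ∃ b ∈ (P : Subgroup G), a * b ≠ b * a
  · obtain ⟨P, a, ha, b, hb, hab⟩ := hall
    have h := key P P.isPGroup' a ha b hb hab
    have h1 : Nat.card Q ∣ (Cfsg.pCore p G).index := by
      rw [Subgroup.index_eq_card]
      exact Subgroup.card_subgroup_dvd_card _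
    obtain ⟨k, hk⟩ := IsPGroup.iff_card.1 Q.isPGroup'
    rw [hk] at h1
    have hk1 : k ≤ 1 := by
      by_contra hcon
      exact h ((pow_dvd_pow p (by omega)).trans h1)
    haveI : IsCyclic Q := by
      rcases Nat.le_one_iff_eq_zero_or_eq_one.1 hk1 with h0 | h0
      · rw [h0, pow_zero] at hk
        haveI : Subsingleton Q := (Nat.card_eq_one_iff_unique.1 hk).1
        exact isCyclic_of_subsingleton
      · rw [h0, pow_one] at hk
        exact isCyclic_of_prime_card hk
    letI := IsCyclic.commGroup (α := Q)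
    exact congrArg Subtype.val (mul_comm (⟨u, hu⟩ : Q) ⟨v, hv⟩)
  · push Not at hall
    have hO : IsPGroup p (Cfsg.pCore p G) := Cfsg.Agent.Lib.Basic.PCore.pCore_isPGroup p
    let π := QuotientGroup.mk' (Cfsg.pCore p G)
    have hL : IsPGroup p ((Q : Subgroup _).comap π) :=
      Q.isPGroup'.comap_of_ker_isPGroup π (by rw [QuotientGroup.ker_mk']; exact hO)
    obtain ⟨P, hP⟩ := hL.exists_le_sylow
    obtain ⟨u', rfl⟩ := QuotientGroup.mk'_surjective _ u
    obtain ⟨v', rfl⟩ := QuotientGroup.mk'_surjective _ v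
    have := hall P u' (hP hu) v' (hP hv)
    rw [← map_mul, ← map_mul, this]

end Cfsg.Agent.S4471
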