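import Cfsg.Statements.S4488
import Mathlib
import Cfsg.Agent.Lib.Char.SchurBound4

set_option autoImplicit false
open Cfsg

namespace Cfsg.Agent.S4488

open Cfsg.Agent.Lib.Char.SchurBound Cfsg.Agent.Lib.Char.Ortho Cfsg.Agent.Lib.Char.Codegree

section

variable {P : Type*} [Group P] [Finite P] {p : ℕ} [hp : Fact p.Prime]

theorem pgroup_bound (hP : IsPGroup p P) {θ : P → ℂ} (hθ : IsCharacter P θ)
    (hfaith : ∀ g, θ g = θ 1 → g = 1) (hstable : ∀ k : ℕ, k.Coprime p → ∀ g, θ (g ^ k) = θ g)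
    {n : ℕ} (hn : θ 1 = n) : (Nat.card P).factorization p ≤ MM p (n + 1) n := by
  classical
  have hp' := hp.out
  letI : Fintype P := Fintype.ofFinite P
  letI : Fintype (IrrCharacter P) := Fintype.ofFinite _
  choose m hm using fun τ : IrrCharacter P => exists_nat_classInner hθ τ
  have hdec := decomp_eq_sum_classInner hθ
  have hm' : ∀ τ : IrrCharacter P, classInner θ τ • (τ : P → ℂ) = (m τ : ℂ) • (τ : P → ℂ) := by
    intro τ
    rw [hm τ]
  have hinv : Inv p m := by
    intro τ τ' hτ'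
    obtain ⟨k, hk, h3⟩ := (mem_Orb _ _).mp hτ'
    have hcop : (Nat.card P).Coprime k := (coprime_card hP hk).symm
    have h4 : classInner θ τ' = classInner θ τ := by
      unfold classInner
      congr 1
      rw [h3]
      refine Eq.trans ?_ (Equiv.sum_comp (powCoprime hcop) fun g => θ g * (starRingEnd ℂ) (τ.1 g))
      refine Finset.sum_congr rfl fun g _ => ?_
      simp only [powCoprime_apply, hstable k hk g]
    rw [hm τ', hm τ] at h4
    exact_mod_cast h4
  have hval : ∀ g, θ g = ∑ τ : IrrCharacter P, (m τ : ℂ) * (τ : P → ℂ) g := by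
    intro g
    have h1 := congrFun hdec g
    simp only [Finset.sum_apply, Pi.smul_apply, smul_eq_mul] at h1
    rw [h1]
    exact Finset.sum_congr rfl fun τ _ => by rw [hm τ]
  have hsum : ∑ τ : IrrCharacter P, m τ * charDegree τ.1 = n := by
    have h1 := hval 1
    rw [hn] at h1
    have h2 : ∀ τ : IrrCharacter P, (τ : P → ℂ) 1 = (charDegree τ.1 : ℂ) := fun τ =>
      (Cfsg.Agent.Lib.Char.Values.IsCharacter.charDegree_cast
        (Cfsg.Agent.Lib.Char.Values.IsIrrCharacter.isCharacter τ.2)).symm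
    simp only [h2] at h1
    exact_mod_cast h1.symm
  have hL : LL m = ⊥ := by
    rw [eq_bot_iff]
    intro g hg
    rw [Subgroup.mem_bot]
    apply hfaith
    rw [hval g, hval 1]
    refine Finset.sum_congr rfl fun τ _ => ?_
    by_cases h : m τ = 0
    · simp [h]
    · rw [(mem_LL m g).mp hg τ h]
  have h := inv_bound hP (n + 1) n m hinv hsum (Nat.lt_succ_self n)
  rwa [hL, Subgroup.index_bot] at h

theorem stable_of_rat {G : Type*} [Group G] [Finite G] {χ : G → ℂ} (hχ : IsCharacter G χ) {r : ℕ}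
    (hr : 0 < r) (hpr : ¬ p ∣ r)
    (hval : ∀ g : G, χ g ∈ IntermediateField.adjoin ℚ ({Complex.exp (2 * Real.pi * Complex.I / r)} : Set ℂ))
    (g : G) (e : ℕ) (hg : g ^ p ^ e = 1) (k : ℕ) (hk : k.Coprime p) : χ (g ^ k) = χ g := by
  have hp' := hp.out
  obtain ⟨n, ρ, rfl⟩ := hχ
  have hco : (p ^ e).Coprime r :=
    Nat.Coprime.pow_left _ ((Nat.Prime.coprime_iff_not_dvd hp').mpr hpr)
  set c := Nat.chineseRemainder hco k 1 with hc
  have hc1 : (c : ℕ) ≡ k [MOD p ^ e] := c.2.1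
  have hc2 : (c : ℕ) ≡ 1 [MOD r] := c.2.2
  have hcop1 : (c : ℕ).Coprime (p ^ e) := by
    show Nat.gcd c (p ^ e) = 1
    rw [hc1.gcd_eq]
    exact Nat.Coprime.pow_right _ hk
  have hcop2 : (c : ℕ).Coprime r := by
    show Nat.gcd c r = 1
    rw [hc2.gcd_eq]
    simp
  have hcop : (c : ℕ).Coprime (p ^ e * r) := Nat.Coprime.mul_right hcop1 hcop2
  have hM : 0 < p ^ e * r := Nat.mul_pos (pow_pos hp'.pos _) hr
  obtain ⟨τ, hτ⟩ := Cfsg.Agent.Lib.Char.Galois.exists_ringHom_pow (p ^ e * r) hM c hcop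
  have hgM : g ^ (p ^ e * r) = 1 := by rw [pow_mul, hg, one_pow]
  have h1 := Cfsg.Agent.Lib.Char.Galois.map_character τ hM hτ ρ g hgM
  have h2 := Cfsg.Agent.Lib.Char.GalFix.fix_of_modEq τ hτ hr.ne' (Dvd.intro_left _ rfl) hc2 (hval g)
  have h3 : g ^ (c : ℕ) = g ^ k := by
    have h4 : (c : ℕ) ≡ k [MOD orderOf g] := hc1.of_dvd (orderOf_dvd_of_pow_eq_one hg)
    exact pow_eq_pow_iff_modEq.mpr h4
  rw [← h3, ← h1, h2]

end

/-- Let the finite group G have a faithful p-rational character χ of degree n (all values of χ lie in the field generated over ℚ by a root of unity of order prime to p), and let p^a be the order of a Sylow p-subgroup of G. Then a ≤ Σ_{i ≥ 0} ⌊n / ((p − 1)·p^i)⌋ (a finite sum; the terms vanish once (p − 1)p^i > n). -/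
theorem result {G : Type*} [Group G] [Finite G] (p : ℕ) (hp : p.Prime) (χ : G → ℂ) (hχ : Cfsg.IsCharacter G χ) (hfaith : ∀ g : G, χ g = χ 1 → g = 1) (hrat : (∃ r : ℕ, 0 < r ∧ ¬ p ∣ r ∧ ∀ g : G, χ g ∈ IntermediateField.adjoin ℚ ({Complex.exp (2 * Real.pi * Complex.I / r)} : Set ℂ))) (n : ℕ) (hn : Cfsg.charDegree χ = n) : (Nat.card G).factorization p ≤ ∑ i ∈ Finset.range (n + 1), n / ((p - 1) * p ^ i) := by
  haveI : Fact p.Prime := ⟨hp⟩
  obtain ⟨r, hr, hpr, hval⟩ := hrat
  let P : Sylow p G := Classical.arbitrary _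
  have hPp : IsPGroup p P := P.isPGroup'
  have hθ : IsCharacter P (fun g : P => χ g) := Cfsg.Agent.Lib.Char.Basic.isCharacter_restrict hχ P
  have hdeg : χ 1 = (n : ℂ) := by
    rw [← hn]
    exact (Cfsg.Agent.Lib.Char.Values.IsCharacter.charDegree_cast hχ).symm
  have hstable : ∀ k : ℕ, k.Coprime p → ∀ g : P, χ ((g ^ k : P) : G) = χ (g : G) := by
    intro k hk g
    obtain ⟨e, he⟩ := hPp g
    have he' : (g : G) ^ p ^ e = 1 := congrArg Subtype.val he
    exact stable_of_rat hχ hr hpr hval (g : G) e he' k hk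
  have h := pgroup_bound hPp hθ (fun g hg => Subtype.ext (hfaith g hg)) hstable (n := n) hdeg
  have hcard : Nat.card P = p ^ (Nat.card G).factorization p := P.card_eq_multiplicity
  rw [hcard, fac_pow hp] at h
  exact h

end Cfsg.Agent.S4488
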