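import Cfsg.Statements.S4472
import Mathlib
import Cfsg.Agent.S4488
import Cfsg.Agent.Lib.Char.WinterCanon
import Cfsg.Agent.Lib.Char.WinterGroup

set_option autoImplicit false
set_option linter.style.haveILetI false
open Cfsg

namespace Cfsg.Agent.S4472

open Cfsg.Agent.Lib.Char.SchurBound Cfsg.Agent.Lib.Char.Codegree Cfsg.Agent.Lib.Char.QuotRep
  Cfsg.Agent.Lib.Char.WinterCanon Cfsg.Agent.Lib.Char.Basic Cfsg.Agent.Lib.Char.Galois

theorem MM_mono' (p : ℕ) {x y : ℕ} (h : x ≤ y) : MM p (x + 1) x ≤ MM p (y + 1) y := by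
  refine (MM_mono p (x + 1) h).trans ?_
  unfold MM
  exact Finset.sum_le_sum_of_subset (Finset.range_subset_range.mpr (by omega))

theorem bound_HP {G : Type*} [Group G] [Finite G] {χ : G → ℂ} (hχ : IsCharacter G χ)
    (hfaith : ∀ g : G, χ g = χ 1 → g = 1) {n : ℕ} (hn : χ 1 = n) {p : ℕ} [hp : Fact p.Prime]
    (H P : Subgroup G) (hH : (Nat.card H).Coprime p) (hP : IsPGroup p P)
    (hPH : P ≤ Subgroup.normalizer (H : Set G)) :
    ((P ⊓ Subgroup.centralizer (H : Set G)).relIndex P).factorization p ≤ MM p (n + 1) n := by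
  classical
  have hp' := hp.out
  set T : Subgroup G := H ⊔ P with hT
  have hHT : H ≤ T := le_sup_left
  have hPT : P ≤ T := le_sup_right
  have hTN : T ≤ Subgroup.normalizer (H : Set G) := sup_le Subgroup.le_normalizer hPH
  let N : Subgroup T := H.subgroupOf T
  haveI hNn : N.Normal := (Subgroup.normal_subgroupOf_iff_le_normalizer hHT).mpr hTN
  let P' : Subgroup T := P.subgroupOf T
  have hsup : N ⊔ P' = ⊤ := by
    show H.subgroupOf T ⊔ P.subgroupOf T = ⊤
    rw [← Subgroup.subgroupOf_sup hHT hPT, Subgroup.subgroupOf_self]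
  have hNcard : Nat.card N = Nat.card H := Nat.card_congr (Subgroup.subgroupOfEquivOfLe hHT).toEquiv
  have hP'card : Nat.card P' = Nat.card P := Nat.card_congr (Subgroup.subgroupOfEquivOfLe hPT).toEquiv
  have hidx : N.index ∣ Nat.card P := by
    have h1 : N.relIndex (N ⊔ P') = N.relIndex P' := Subgroup.relIndex_sup_left P' N
    rw [hsup, Subgroup.relIndex_top_right] at h1
    rw [h1, ← hP'card]
    exact Subgroup.relIndex_dvd_card _ _
  obtain ⟨c, hc⟩ := IsPGroup.iff_card.mp hP
  have hcopHP : Nat.Coprime (Nat.card H) (Nat.card P) := by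
    rw [hc]
    exact Nat.Coprime.pow_right _ hH
  have hcop : Nat.Coprime (Nat.card N) N.index := by
    rw [hNcard]
    exact Nat.Coprime.coprime_dvd_right hidx hcopHP
  have hχT : IsCharacter T (fun t : T => χ t) := isCharacter_restrict hχ T
  obtain ⟨χ', hχ', ⟨a, b, ha, hb, hab⟩, hker, htw⟩ := core_char N hcop hχT
  have hbn : b = n := by
    have h1 : χ 1 = (b : ℂ) := hb
    rw [hn] at h1
    exact_mod_cast h1.symm
  subst hbn
  obtain ⟨m, R, rfl⟩ := hχ'
  have ham : m = a := by
    rw [Representation.char_one] at ha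
    have h1 : ((m : ℕ) : ℂ) = (a : ℂ) := by simpa using ha
    exact_mod_cast h1
  subst ham
  let ι : P →* T := Subgroup.inclusion hPT
  let σ : Representation ℂ P (Fin m → ℂ) := R.comp ι
  let Z : Subgroup P := repKer σ
  haveI : Z.Normal := repKer_normal σ
  have hZ : ∀ g ∈ Z, σ g = 1 := fun g hg => hg
  let θ : (P ⧸ Z) → ℂ := (quotRep σ Z hZ).character
  have hθ : IsCharacter (P ⧸ Z) θ := ⟨m, _, rfl⟩
  have hθ1 : θ 1 = m := by
    simp [θ, Representation.char_one]
  have hθf : ∀ q, θ q = θ 1 → q = 1 := by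
    intro q hq
    obtain ⟨x, rfl⟩ := QuotientGroup.mk_surjective q
    have h1 : σ.character x = σ.character 1 := by
      have := hq
      rw [← QuotientGroup.mk_one] at this
      exact this
    exact (QuotientGroup.eq_one_iff x).mpr ((character_eq_one_iff σ x).mp h1)
  have hθs : ∀ k : ℕ, k.Coprime p → ∀ q, θ (q ^ k) = θ q := by
    intro k hk q
    obtain ⟨x, rfl⟩ := QuotientGroup.mk_surjective q
    have hkP : k.Coprime (Nat.card P) := by
      rw [hc]
      exact Nat.Coprime.pow_right _ hk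
    -- Chinese remaindering
    let k' := Nat.chineseRemainder hcopHP 1 k
    have hk'1 : (k' : ℕ) ≡ 1 [MOD Nat.card H] := k'.2.1
    have hk'2 : (k' : ℕ) ≡ k [MOD Nat.card P] := k'.2.2
    have hTcard : Nat.card T = Nat.card N * N.index := (Subgroup.card_mul_index N).symm
    have hk'c : (k' : ℕ).Coprime (Nat.card T) := by
      rw [hTcard, hNcard]
      refine Nat.Coprime.mul_right ?_ ?_
      · have h1 := hk'1.gcd_eq
        rw [Nat.Coprime, h1]
        simp
      · refine Nat.Coprime.coprime_dvd_right hidx ?_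
        have h1 := hk'2.gcd_eq
        rw [Nat.Coprime, h1]
        exact hkP
    have hxk : x ^ k = x ^ (k' : ℕ) := by
      exact pow_congr_of_modEq (n := Nat.card P) pow_card_eq_one' hk'2.symm
    have h2 := htw (k' : ℕ) hk'c (by rw [hNcard]; exact hk'1) (ι x)
    show σ.character (x ^ k) = σ.character x
    rw [hxk]
    show R.character (ι (x ^ (k' : ℕ))) = R.character (ι x)
    rw [map_pow]
    exact h2
  have hQp : IsPGroup p (P ⧸ Z) := hP.to_quotient Z
  have hbound := Cfsg.Agent.S4488.pgroup_bound hQp hθ hθf hθs hθ1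
  have hle : Z ≤ (P ⊓ Subgroup.centralizer (H : Set G)).subgroupOf P := by
    intro x hx
    refine ⟨x.2, ?_⟩
    show (x : G) ∈ Subgroup.centralizer (H : Set G)
    rw [Subgroup.mem_centralizer_iff]
    intro h hh
    have hRx : R (ι x) = 1 := hx
    let h' : T := ⟨h, hHT hh⟩
    have hh'N : h' ∈ N := hh
    let c : T := ι x * h' * (ι x)⁻¹ * h'⁻¹
    have hcN : c ∈ N := N.mul_mem (hNn.conj_mem h' hh'N (ι x)) (N.inv_mem hh'N)
    have hRc : R c = 1 := by
      have h1 : R (ι x)⁻¹ = 1 := by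
        have h2 : R (ι x)⁻¹ * R (ι x) = 1 := by rw [← map_mul]; simp
        rwa [hRx, mul_one] at h2
      show R (ι x * h' * (ι x)⁻¹ * h'⁻¹) = 1
      rw [map_mul, map_mul, map_mul, hRx, h1, one_mul, mul_one, ← map_mul]
      simp
    have h3 : R.character c = R.character 1 := by
      show LinearMap.trace ℂ _ (R c) = LinearMap.trace ℂ _ (R 1)
      have h4 : R 1 = 1 := map_one R
      rw [hRc, h4]
    have h4 := hker c hcN h3
    have h5 := hfaith _ h4
    -- `x h x⁻¹ h⁻¹ = 1`
    have h6 : (x : G) * h * (x : G)⁻¹ * h⁻¹ = 1 := h5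
    have h7 : (x : G) * h = h * (x : G) := by
      have : (x : G) * h * (x : G)⁻¹ = h := by
        rw [mul_inv_eq_one] at h6
        exact h6
      rw [mul_inv_eq_iff_eq_mul] at this
      exact this
    exact h7.symm
  have hdvd : (P ⊓ Subgroup.centralizer (H : Set G)).relIndex P ∣ Z.index := Subgroup.index_dvd_of_le hle
  have hcardQ : Nat.card (P ⧸ Z) = Z.index := (Subgroup.index_eq_card Z).symm
  rw [hcardQ] at hbound
  have hf := (Nat.factorization_le_iff_dvd Subgroup.index_ne_zero_of_finite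
    Subgroup.index_ne_zero_of_finite).mpr hdvd p
  exact hf.trans (hbound.trans (MM_mono' p hab))

/-- Let the finite p-solvable group G have a faithful character of degree n, and let p^a be the index of O_p(G) in a Sylow p-subgroup of G (the p-part of [G : O_p(G)]). Then a ≤ Σ_{i ≥ 0} ⌊n / ((p − 1) p^i)⌋ (a finite sum; the terms vanish for p^i > n). -/
theorem result {G : Type*} [Group G] [Finite G] (χ : G → ℂ) (hχ : Cfsg.IsCharacter G χ) (hfaith : ∀ g : G, χ g = χ 1 → g = 1) (n : ℕ) (hn : Cfsg.charDegree χ = n) (p : ℕ) (hp : p.Prime) (hsolv : Cfsg.IsPSolvable p G) : ((Cfsg.pCore p G).index).factorization p ≤ ∑ i ∈ Finset.range (n + 1), n / ((p - 1) * p ^ i) := by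
  haveI : Fact p.Prime := ⟨hp⟩
  obtain ⟨H, P, hH, hP, hPH, hle⟩ := Cfsg.Agent.Lib.Char.WinterGroup.exists_HP hsolv
  have hn' : χ 1 = n := by
    rw [← hn]
    exact (Cfsg.Agent.Lib.Char.Values.IsCharacter.charDegree_cast hχ).symm
  exact hle.trans (bound_HP hχ hfaith hn' H P hH hP hPH)

end Cfsg.Agent.S4472
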