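import Cfsg.Statements.S4474
import Mathlib
import Cfsg.Agent.Lib.CharFS.RealForm
import Cfsg.Agent.Lib.CharFS.Tri

set_option autoImplicit false
open Cfsg

namespace Cfsg.Agent.S4474

open Cfsg.Agent.Lib.CharFS.Tri Cfsg.Agent.Lib.CharFS.Indicator Cfsg.Agent.Lib.CharFS.RealForm Matrix
open scoped ComplexConjugate

/-- Let χ be an irreducible character of the finite group G. Then the Frobenius–Schur indicator of χ (the average over s ∈ G of χ(s²)) equals 1 if and only if χ is afforded by a real representation: there is a representation of G on a real coordinate space whose trace function, viewed in ℂ, is χ. -/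
theorem result {G : Type*} [Group G] [Fintype G] (χ : Cfsg.IrrCharacter G) : ((Nat.card G : ℂ)⁻¹ * ∑ s : G, (χ : G → ℂ) (s * s)) = 1 ↔ ∃ (n : ℕ) (ρ : Representation ℝ G (Fin n → ℝ)), ∀ g : G, ((LinearMap.trace ℝ (Fin n → ℝ) (ρ g) : ℝ) : ℂ) = (χ : G → ℂ) g := by
  classical
  have hnu : (Nat.card G : ℂ)⁻¹ * ∑ s : G, (χ : G → ℂ) (s * s) = nu (χ : G → ℂ) := by
    simp only [nu, pow_two]
  rw [hnu]
  constructor
  · intro h1
    have hreal : ∀ g, conj ((χ : G → ℂ) g) = (χ : G → ℂ) g :=
      Cfsg.Agent.Lib.CharFS.IndicatorReal.conj_eq_of_nu_ne_zero χ.2 (by rw [h1]; exact one_ne_zero)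
    obtain ⟨χ, hχ⟩ := χ
    obtain ⟨n, ρ, hirr, rfl⟩ := id hχ
    simp only at h1 hreal
    obtain ⟨⟨M, hM0, hM⟩, hall⟩ := form_key ρ hχ hreal
    have hMT : Mᵀ = M := by
      rw [hall M hM, h1, one_smul]
    haveI := hirr
    obtain ⟨K, hK, hcomm⟩ := exists_real_structure ρ M hM0 hMT hM
    obtain ⟨m, ρR, hR⟩ := exists_real_rep_of_real_structure ρ K hK hcomm
    exact ⟨m, ρR, hR⟩
  · rintro ⟨n, ρR, htr⟩
    obtain ⟨χ, hχ⟩ := χ
    simp only at htr ⊢
    -- complexify
    let A : G → Matrix (Fin n) (Fin n) ℝ := fun g => LinearMap.toMatrix' (ρR g)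
    have hAmul : ∀ a b, A (a * b) = A a * A b := by
      intro a b
      simp only [A, map_mul]
      exact LinearMap.toMatrix'_mul _ _
    have hAone : A 1 = 1 := by
      simp only [A, map_one]
      exact LinearMap.toMatrix'_one
    let AC : G → Matrix (Fin n) (Fin n) ℂ := fun g => (A g).map (algebraMap ℝ ℂ)
    have hACmul : ∀ a b, AC (a * b) = AC a * AC b := by
      intro a b
      simp only [AC, hAmul, Matrix.map_mul]
    have hACone : AC 1 = 1 := by
      simp only [AC, hAone]
      exact Matrix.map_one _ (map_zero _) (map_one _)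
    let ρC : Representation ℂ G (Fin n → ℂ) :=
      { toFun := fun g => Matrix.toLin' (AC g)
        map_one' := by
          rw [hACone, Matrix.toLin'_one]
          rfl
        map_mul' := by
          intro a b
          rw [hACmul, Matrix.toLin'_mul]
          rfl }
    have hX : ∀ g, LinearMap.toMatrix' (ρC g) = AC g := fun g => LinearMap.toMatrix'_toLin' _
    have hchar : ρC.character = χ := by
      funext g
      rw [← htr g]
      change LinearMap.trace ℂ (Fin n → ℂ) (Matrix.toLin' (AC g)) = _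
      rw [Matrix.trace_toLin'_eq, LinearMap.trace_eq_matrix_trace ℝ (Pi.basisFun ℝ (Fin n)),
        LinearMap.toMatrix_eq_toMatrix']
      simp only [AC, A, Matrix.trace, Matrix.diag_apply, Matrix.map_apply]
      push_cast
      rfl
    subst hchar
    have hreal : ∀ g, conj (ρC.character g) = ρC.character g := by
      intro g
      rw [← htr g, Complex.conj_ofReal]
    obtain ⟨-, hall⟩ := form_key ρC hχ hreal
    -- the invariant symmetric form
    let M₀ : Matrix (Fin n) (Fin n) ℝ := ∑ g, (A g)ᵀ * A g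
    let M : Matrix (Fin n) (Fin n) ℂ := M₀.map (algebraMap ℝ ℂ)
    have hM₀ : ∀ g, (A g)ᵀ * M₀ * A g = M₀ := by
      intro g
      simp only [M₀, Finset.mul_sum, Finset.sum_mul]
      refine Fintype.sum_equiv (Equiv.mulRight g) _ _ (fun h => ?_)
      simp only [Equiv.coe_mulRight, hAmul, Matrix.transpose_mul, Matrix.mul_assoc]
    have hM : ∀ g : G, (LinearMap.toMatrix' (ρC g))ᵀ * M * LinearMap.toMatrix' (ρC g) = M := by
      intro g
      rw [hX]
      simp only [AC, M, ← Matrix.transpose_map, ← Matrix.map_mul, hM₀]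
    have hM₀T : M₀ᵀ = M₀ := by
      simp only [M₀, Matrix.transpose_sum, Matrix.transpose_mul, Matrix.transpose_transpose]
    have hMT : Mᵀ = M := by
      simp only [M, ← Matrix.transpose_map, hM₀T]
    have h1 := hall M hM
    rw [hMT] at h1
    have hn : n ≠ 0 := by
      intro h0
      have h2 := htr 1
      rw [map_one, LinearMap.trace_one, Module.finrank_fin_fun] at h2
      apply Cfsg.Agent.Lib.Char.Ortho.irr_apply_one_ne_zero hχ
      rw [← h2]
      simp [h0]
    let i : Fin n := ⟨0, Nat.pos_of_ne_zero hn⟩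
    have hpos : 0 < M₀ i i := by
      have h2 : M₀ i i = ∑ g, ∑ j, (A g j i) ^ 2 := by
        simp only [M₀, Matrix.sum_apply, Matrix.mul_apply, Matrix.transpose_apply, pow_two]
      rw [h2]
      refine Finset.sum_pos' (fun _ _ => Finset.sum_nonneg (fun _ _ => by positivity))
        ⟨1, Finset.mem_univ _, ?_⟩
      refine Finset.sum_pos' (fun _ _ => by positivity) ⟨i, Finset.mem_univ _, ?_⟩
      rw [hAone]
      simp
    have h3 : M i i = ((M₀ i i : ℝ) : ℂ) := rfl
    have h4 : M i i ≠ 0 := by
      rw [h3]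
      exact_mod_cast hpos.ne'
    have h5 := congrFun (congrFun h1 i) i
    simp only [Matrix.smul_apply, smul_eq_mul] at h5
    have h6 : (nu ρC.character - 1) * M i i = 0 := by
      rw [sub_mul, ← h5, one_mul, sub_self]
    rw [mul_eq_zero] at h6
    rcases h6 with h6 | h6
    · exact sub_eq_zero.1 h6
    · exact absurd h6 h4

end Cfsg.Agent.S4474
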