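import Cfsg.Statements.S4476
import Mathlib
import Cfsg.Agent.Lib.CharFS.Tri
import Cfsg.Agent.Lib.Char.Burnside2
import Cfsg.Agent.Lib.Char.CompleteCor

set_option autoImplicit false
open Cfsg

namespace Cfsg.Agent.S4476

section

variable {G : Type*} [Group G] [Fintype G] [DecidableEq G]

theorem mem_sqrt_iff (x : G) : x ^ 2 = 1 ↔ x = 1 ∨ orderOf x = 2 := by
  constructor
  · intro h
    have h1 : orderOf x ∣ 2 := orderOf_dvd_of_pow_eq_one h
    rcases (Nat.dvd_prime Nat.prime_two).1 h1 with h2 | h2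
    · exact Or.inl (orderOf_eq_one_iff.1 h2)
    · exact Or.inr h2
  · rintro (rfl | h)
    · simp
    · rw [← h]
      exact pow_orderOf_eq_one x

/-- Fibres of the multiplication on pairs of distinct involutory elements. -/
theorem fibre_le (I : Finset G) (hI : ∀ u ∈ I, u ^ 2 = 1) (x : G) :
    ((I.offDiag).filter (fun p : G × G => p.1 * p.2 = x)).card ≤
      Nat.card (Subgroup.centralizer ({x} : Set G)) := by
  classical
  set F := (I.offDiag).filter (fun p : G × G => p.1 * p.2 = x) with hF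
  have hinv : ∀ p ∈ F, p.1 * x * p.1⁻¹ = x⁻¹ := by
    intro p hp
    simp only [hF, Finset.mem_filter, Finset.mem_offDiag] at hp
    obtain ⟨⟨h1, h2, -⟩, h3⟩ := hp
    have hu := hI _ h1
    have hv := hI _ h2
    have hu2 : p.1⁻¹ = p.1 := inv_eq_of_mul_eq_one_left (by rw [← sq]; exact hu)
    have hv2 : p.2⁻¹ = p.2 := inv_eq_of_mul_eq_one_left (by rw [← sq]; exact hv)
    rw [← h3, mul_inv_rev, hu2, hv2]
    have : p.1 * p.1 = 1 := by rw [← sq]; exact hu
    calc p.1 * (p.1 * p.2) * p.1 = (p.1 * p.1) * p.2 * p.1 := by group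
      _ = p.2 * p.1 := by rw [this, one_mul]
  by_cases hne : F.Nonempty
  · obtain ⟨p₀, hp₀⟩ := hne
    rw [Nat.card_eq_fintype_card, Fintype.card_subtype]
    refine Finset.card_le_card_of_injOn (fun p => p₀.1⁻¹ * p.1) ?_ ?_
    · intro p hp
      simp only [Finset.coe_filter, Finset.mem_univ, true_and, Set.mem_ofPred_eq]
      rw [Subgroup.mem_centralizer_singleton_iff]
      have h1 := hinv p hp
      have h2 := hinv p₀ hp₀
      have h3 : p.1 * x * p.1⁻¹ = p₀.1 * x * p₀.1⁻¹ := h1.trans h2.symm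
      have h4 : (p₀.1⁻¹ * p.1) * x * (p₀.1⁻¹ * p.1)⁻¹ = x := by
        calc (p₀.1⁻¹ * p.1) * x * (p₀.1⁻¹ * p.1)⁻¹ = p₀.1⁻¹ * (p.1 * x * p.1⁻¹) * p₀.1 := by group
          _ = x := by rw [h3]; group
      calc (p₀.1⁻¹ * p.1) * x = (p₀.1⁻¹ * p.1) * x * (p₀.1⁻¹ * p.1)⁻¹ * (p₀.1⁻¹ * p.1) := by group
        _ = x * (p₀.1⁻¹ * p.1) := by rw [h4]
    · intro p hp q hq hpq
      have h1 : p.1 = q.1 := mul_left_cancel hpq
      have hp' := (Finset.mem_filter.1 hp).2
      have hq' := (Finset.mem_filter.1 hq).2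
      refine Prod.ext h1 ?_
      have h2 : p.1 * p.2 = q.1 * q.2 := by
        have a1 := (Finset.mem_filter.1 hp).2
        have a2 := (Finset.mem_filter.1 hq).2
        rw [a1, a2]
      rw [h1] at h2
      exact mul_left_cancel h2
  · rw [Finset.not_nonempty_iff_eq_empty] at hne
    rw [hne, Finset.card_empty]
    exact Nat.zero_le _

end

open Cfsg.Agent.Lib.CharFS.Indicator Cfsg.Agent.Lib.CharFS.Tri in

/-- Let G be a finite group of even order g with exactly t involutions, and put α = (g − 1)/t (a rational number). Then (a) some non-identity element x of G has at most α² conjugates; and (b) some non-principal real-valued irreducible character of G has degree at most α. -/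
theorem result {G : Type*} [Group G] [Fintype G] (heven : Even (Nat.card G)) (t : ℕ) (ht : Nat.card {x : G // orderOf x = 2} = t) : (∃ x : G, x ≠ 1 ∧ ((Subgroup.centralizer ({x} : Set G)).index : ℚ) ≤ (((Nat.card G : ℚ) - 1) / t) ^ 2) ∧ ∃ χ : Cfsg.IrrCharacter G, (χ : G → ℂ) ≠ (fun _ => 1) ∧ (∀ g : G, ((χ : G → ℂ) g).im = 0) ∧ (Cfsg.charDegree (χ : G → ℂ) : ℚ) ≤ ((Nat.card G : ℚ) - 1) / t := by
  classical
  have hp2 : (2 : ℕ) ∣ Nat.card G := even_iff_two_dvd.1 heven
  haveI : Fact (Nat.Prime 2) := ⟨Nat.prime_two⟩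
  obtain ⟨y, hy⟩ := exists_prime_orderOf_dvd_card' (G := G) 2 hp2
  have ht0 : 0 < t := by
    rw [← ht]
    haveI : Nonempty {x : G // orderOf x = 2} := ⟨⟨y, hy⟩⟩
    exact Nat.card_pos
  let I : Finset G := Finset.univ.filter (fun x => x ^ 2 = 1)
  let TT : Finset G := Finset.univ.filter (fun x => orderOf x = 2)
  have hTT : TT.card = t := by
    rw [← ht, Nat.card_eq_fintype_card, Fintype.card_subtype]
  have hIe : I = insert 1 TT := by
    ext x
    simp only [I, TT, Finset.mem_filter, Finset.mem_univ, true_and, Finset.mem_insert]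
    exact mem_sqrt_iff x
  have h1TT : (1 : G) ∉ TT := by
    simp [TT]
  have hIcard : I.card = t + 1 := by
    rw [hIe, Finset.card_insert_of_notMem h1TT, hTT]
  have hIle : t + 1 ≤ Nat.card G := by
    rw [← hIcard, Nat.card_eq_fintype_card]
    exact Finset.card_le_univ I
  have hg1 : 1 < Nat.card G := by omega
  have htQ : (0 : ℚ) < t := by exact_mod_cast ht0
  have hgQ : (1 : ℚ) < Nat.card G := by exact_mod_cast hg1
  have hIleQ : (t : ℚ) + 1 ≤ Nat.card G := by exact_mod_cast hIle
  constructor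
  · -- part (a)
    by_contra hcon
    push Not at hcon
    set α : ℚ := ((Nat.card G : ℚ) - 1) / t with hα
    have hαpos : 0 < α := div_pos (by linarith) htQ
    -- sum over pairs
    have hpairs : t * (t + 1) ≤ ∑ x ∈ Finset.univ.erase (1 : G), Nat.card (Subgroup.centralizer ({x} : Set G)) := by
      have hmaps : Set.MapsTo (fun p : G × G => p.1 * p.2) (I.offDiag : Set (G × G)) ((Finset.univ.erase (1 : G) : Finset G) : Set G) := by
        intro p hp
        have hp' := Finset.mem_offDiag.1 hp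
        simp only [Finset.coe_erase, Finset.coe_univ, Set.mem_sdiff, Set.mem_univ, Set.mem_singleton_iff,
          true_and]
        intro h
        have h1 : p.1 ^ 2 = 1 := (Finset.mem_filter.1 hp'.1).2
        apply hp'.2.2
        have h2 : p.1⁻¹ = p.1 := inv_eq_of_mul_eq_one_left (by rw [← sq]; exact h1)
        rw [← h2]
        exact inv_eq_of_mul_eq_one_right h
      have h1 := Finset.card_eq_sum_card_fiberwise hmaps
      have h2 : I.offDiag.card = t * (t + 1) := by
        rw [Finset.offDiag_card, hIcard]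
        have : (t + 1) * (t + 1) = t * (t + 1) + (t + 1) := by ring
        omega
      rw [← h2, h1]
      refine Finset.sum_le_sum fun x _ => ?_
      exact fibre_le I (fun u hu => (Finset.mem_filter.1 hu).2) x
    have hbound : ∀ x ∈ Finset.univ.erase (1 : G),
        (Nat.card (Subgroup.centralizer ({x} : Set G)) : ℚ) * α ^ 2 < Nat.card G := by
      intro x hx
      have h1 := hcon x (Finset.ne_of_mem_erase hx)
      have h2 := (Subgroup.centralizer ({x} : Set G)).index_mul_card
      have h3 : ((Subgroup.centralizer ({x} : Set G)).index : ℚ) *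
          (Nat.card (Subgroup.centralizer ({x} : Set G)) : ℚ) = Nat.card G := by
        exact_mod_cast h2
      have h4 : (0 : ℚ) < Nat.card (Subgroup.centralizer ({x} : Set G)) := by
        exact_mod_cast Nat.card_pos
      rw [← h3, mul_comm ((Subgroup.centralizer ({x} : Set G)).index : ℚ)]
      exact mul_lt_mul_of_pos_left h1 h4
    have hnonempty : (Finset.univ.erase (1 : G)).Nonempty := by
      refine ⟨y, Finset.mem_erase.2 ⟨?_, Finset.mem_univ y⟩⟩
      intro h
      rw [h, orderOf_one] at hy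
      omega
    have hsum := Finset.sum_lt_sum_of_nonempty hnonempty hbound
    rw [← Finset.sum_mul, Finset.sum_const, Finset.card_erase_of_mem (Finset.mem_univ _),
      Finset.card_univ, ← Nat.card_eq_fintype_card, nsmul_eq_mul] at hsum
    have hcast : ((Nat.card G - 1 : ℕ) : ℚ) = (Nat.card G : ℚ) - 1 := by
      rw [Nat.cast_sub hg1.le]
      simp
    rw [hcast] at hsum
    have hpairsQ : (t : ℚ) * (t + 1) ≤ ∑ x ∈ Finset.univ.erase (1 : G),
        (Nat.card (Subgroup.centralizer ({x} : Set G)) : ℚ) := by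
      exact_mod_cast hpairs
    have h5 : (t : ℚ) * (t + 1) * α ^ 2 < ((Nat.card G : ℚ) - 1) * Nat.card G :=
      lt_of_le_of_lt (mul_le_mul_of_nonneg_right hpairsQ (sq_nonneg α)) hsum
    set g' : ℚ := (Nat.card G : ℚ) with hg'
    set t' : ℚ := (t : ℚ) with ht'
    have e : t' * (t' + 1) * α ^ 2 = (t' + 1) * (g' - 1) ^ 2 / t' := by
      rw [hα]
      field_simp
    rw [e, div_lt_iff₀ htQ] at h5
    have hg'1 : 0 < g' - 1 := by linarith
    have h6 : (g' - 1) * ((t' + 1) * (g' - 1)) < (g' - 1) * (g' * t') := by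
      calc (g' - 1) * ((t' + 1) * (g' - 1)) = (t' + 1) * (g' - 1) ^ 2 := by ring
        _ < (g' - 1) * g' * t' := h5
        _ = (g' - 1) * (g' * t') := by ring
    have h7 := lt_of_mul_lt_mul_left h6 hg'1.le
    nlinarith
  · -- part (b)
    let one : Cfsg.IrrCharacter G := ⟨fun _ => 1, Cfsg.Agent.Lib.Char.Burnside2.isIrrCharacter_one⟩
    choose d hdpos hd using fun χ : Cfsg.IrrCharacter G => Cfsg.Agent.Lib.Char.Ortho.irr_degree_pos χ.2
    have hcd : ∀ χ : Cfsg.IrrCharacter G, Cfsg.charDegree (χ : G → ℂ) = d χ := by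
      intro χ
      unfold Cfsg.charDegree
      rw [hd χ]
      simp
    have hsq : ∑ χ : Cfsg.IrrCharacter G, (d χ) ^ 2 = Nat.card G := by
      have := Cfsg.Agent.Lib.Char.CompleteCor.sum_sq_degrees (G := G)
      simp_rw [hd] at this
      exact_mod_cast this
    have hdone : d one = 1 := by
      have h1 := hd one
      have h2 : ((one : Cfsg.IrrCharacter G) : G → ℂ) 1 = 1 := rfl
      rw [h2] at h1
      exact_mod_cast h1.symm
    let R : Finset (Cfsg.IrrCharacter G) := (Finset.univ.erase one).filter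
      (fun χ => ∀ g : G, ((χ : G → ℂ) g).im = 0)
    have hFS := card_sqrt_one (G := G)
    have hFS2 : (t : ℝ) + 1 = ∑ χ : Cfsg.IrrCharacter G, (nu (χ : G → ℂ)).re * d χ := by
      have h1 : (((Finset.univ.filter fun x : G => x ^ 2 = 1).card : ℕ) : ℂ) = (t : ℂ) + 1 := by
        have h2 : (Finset.univ.filter fun x : G => x ^ 2 = 1).card = I.card := by
          congr
        rw [h2, hIcard]
        push_cast
        rfl
      rw [h1] at hFS
      have h3 := congrArg Complex.re hFS
      simp only [Complex.add_re, Complex.natCast_re, Complex.one_re, Complex.re_sum] at h3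
      rw [h3]
      refine Finset.sum_congr rfl fun χ _ => ?_
      rw [hd χ]
      simp
    have hbnd : ∀ χ : Cfsg.IrrCharacter G, (nu (χ : G → ℂ)).re * d χ ≤
        if (∀ g : G, ((χ : G → ℂ) g).im = 0) then (d χ : ℝ) else 0 := by
      intro χ
      split_ifs with h
      · have h1 := nu_of_real χ.2 (fun g => Complex.conj_eq_iff_im.2 (h g))
        have hd0 : (0 : ℝ) ≤ d χ := Nat.cast_nonneg _
        rcases h1 with h1 | h1 <;> rw [h1] <;> simp <;> linarith
      · have h1 : nu (χ : G → ℂ) = 0 := by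
          apply nu_of_not_real χ.2
          push Not at h
          obtain ⟨g, hg⟩ := h
          exact ⟨g, fun h2 => hg (Complex.conj_eq_iff_im.1 h2)⟩
        rw [h1]
        simp
    have hS1 : (t : ℝ) ≤ ∑ χ ∈ R, (d χ : ℝ) := by
      have h1 : (t : ℝ) + 1 ≤ ∑ χ : Cfsg.IrrCharacter G,
          if (∀ g : G, ((χ : G → ℂ) g).im = 0) then (d χ : ℝ) else 0 := by
        rw [hFS2]
        exact Finset.sum_le_sum fun χ _ => hbnd χ
      have h2 : ∑ χ : Cfsg.IrrCharacter G, (if (∀ g : G, ((χ : G → ℂ) g).im = 0) then (d χ : ℝ) else 0)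
          = 1 + ∑ χ ∈ R, (d χ : ℝ) := by
        rw [← Finset.add_sum_erase _ _ (Finset.mem_univ one), Finset.sum_filter]
        congr 1
        rw [if_pos (fun g => by simp [one]), hdone]
        simp
      rw [h2] at h1
      linarith
    have hS2 : ∑ χ ∈ R, ((d χ : ℝ)) ^ 2 ≤ (Nat.card G : ℝ) - 1 := by
      have h1 : ((∑ χ : Cfsg.IrrCharacter G, (d χ) ^ 2 : ℕ) : ℝ) = Nat.card G := by rw [hsq]
      push_cast at h1
      rw [← h1, ← Finset.add_sum_erase _ _ (Finset.mem_univ one), hdone]
      have h2 : ∑ χ ∈ R, ((d χ : ℝ)) ^ 2 ≤ ∑ χ ∈ Finset.univ.erase one, ((d χ : ℝ)) ^ 2 :=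
        Finset.sum_le_sum_of_subset_of_nonneg (Finset.filter_subset _ _) (fun _ _ _ => sq_nonneg _)
      simp only [Nat.cast_one, one_pow]
      linarith
    have htR : (0 : ℝ) < t := by exact_mod_cast ht0
    have hRne : R.Nonempty := by
      by_contra hne
      rw [Finset.not_nonempty_iff_eq_empty] at hne
      rw [hne, Finset.sum_empty] at hS1
      linarith
    by_contra hcon
    push Not at hcon
    have hlt : ∀ χ ∈ R, ((Nat.card G : ℝ) - 1) * d χ < t * (d χ : ℝ) ^ 2 := by
      intro χ hχ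
      have h1 := Finset.mem_filter.1 hχ
      have h2 := hcon χ (fun h0 => (Finset.ne_of_mem_erase h1.1) (Subtype.ext h0)) h1.2
      rw [hcd, div_lt_iff₀ htQ] at h2
      have h3 : ((Nat.card G : ℝ) - 1) < (d χ : ℝ) * t := by
        exact_mod_cast h2
      have h4 : (0 : ℝ) < d χ := by exact_mod_cast hdpos χ
      nlinarith
    have h5 := Finset.sum_lt_sum_of_nonempty hRne hlt
    rw [← Finset.mul_sum, ← Finset.mul_sum] at h5
    have hg0 : (0 : ℝ) ≤ (Nat.card G : ℝ) - 1 := by
      have : (1 : ℝ) < Nat.card G := by exact_mod_cast hg1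
      linarith
    have h6 : ((Nat.card G : ℝ) - 1) * t ≤ ((Nat.card G : ℝ) - 1) * ∑ χ ∈ R, (d χ : ℝ) :=
      mul_le_mul_of_nonneg_left hS1 hg0
    have h7 : (t : ℝ) * ∑ χ ∈ R, (d χ : ℝ) ^ 2 ≤ t * ((Nat.card G : ℝ) - 1) :=
      mul_le_mul_of_nonneg_left hS2 htR.le
    nlinarith

end Cfsg.Agent.S4476
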