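import Cfsg.Statements.S4477
import Mathlib
import Cfsg.Agent.Lib.Char.LinearChars
import Cfsg.Agent.Lib.Char.GlaubCyclic
import Cfsg.Agent.Lib.CharFS.Tri
import Cfsg.Agent.Lib.PGroup.Basic
import Cfsg.Agent.Lib.Char.Integrality

set_option autoImplicit false
open Cfsg

namespace Cfsg.Agent.S4477

open Cfsg.Agent.Lib.Char Cfsg.Agent.Lib.CharFS Cfsg.Agent.Lib.Char.GlaubCyclic
open scoped ComplexConjugate

variable {G : Type*} [Group G] [Fintype G]

abbrev Lin (G : Type*) [Group G] := G →* ℂˣ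

/-- Twisting irreducible characters by linear characters. -/
noncomputable def tw (φ : Lin G) (χ : IrrCharacter G) : IrrCharacter G :=
  ⟨fun g => ((φ g : ℂˣ) : ℂ) * (χ : G → ℂ) g, isIrr_lin_mul φ χ.2⟩

@[simp] theorem tw_apply (φ : Lin G) (χ : IrrCharacter G) (g : G) :
    (tw φ χ : G → ℂ) g = ((φ g : ℂˣ) : ℂ) * (χ : G → ℂ) g := rfl

/-- The action. -/
@[reducible] noncomputable def twAction : MulAction (Lin G) (IrrCharacter G) where
  smul := tw
  one_smul χ := by
    apply Subtype.ext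
    funext g
    change (tw 1 χ : G → ℂ) g = _
    simp
  mul_smul φ ψ χ := by
    apply Subtype.ext
    funext g
    change (tw (φ * ψ) χ : G → ℂ) g = (tw φ (tw ψ χ) : G → ℂ) g
    simp [mul_assoc]

attribute [local instance] twAction

theorem smul_apply (φ : Lin G) (χ : IrrCharacter G) (g : G) :
    ((φ • χ : IrrCharacter G) : G → ℂ) g = ((φ g : ℂˣ) : ℂ) * (χ : G → ℂ) g := rfl

theorem deg_exists (χ : IrrCharacter G) : ∃ d : ℕ, (χ : G → ℂ) 1 = d ∧ d ∣ Nat.card G := by
  obtain ⟨n, ρ, hirr, hρ⟩ := χ.2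
  refine ⟨n, ?_, ?_⟩
  · rw [← hρ]; simp
  · haveI := hirr
    have := Integrality.finrank_dvd_card ρ
    simpa using this

/-- The stabilizer bound. -/
theorem card_le_of_fixed (χ : IrrCharacter G) (d : ℕ) (hd : (χ : G → ℂ) 1 = d) (T : Finset (Lin G))
    (hT : ∀ φ ∈ T, φ • χ = χ) : T.card ≤ d ^ 2 := by
  classical
  letI : Fintype (IrrCharacter G) := Ortho.fintype_irr
  have hc := Values.IsIrrCharacter.isCharacter χ.2
  have hξ : IsCharacter G ((χ : G → ℂ) * fun x => conj ((χ : G → ℂ) x)) :=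
    Basic.isCharacter_mul hc (Ortho.isCharacter_conj hc)
  obtain ⟨m, hm⟩ := Ortho.exists_nat_decomp hξ
  let e : Lin G → IrrCharacter G := fun φ => ⟨fun g => ((φ g : ℂˣ) : ℂ), LinearChars.isIrr_of_hom φ⟩
  have he : Function.Injective e := by
    intro φ ψ h
    ext g
    have := congrFun (congrArg Subtype.val h) g
    simpa [e] using this
  have hme : ∀ φ ∈ T, m (e φ) = 1 := by
    intro φ hφ
    have h1 := Ortho.classInner_sum_irr (fun ψ => (m ψ : ℂ)) (e φ)
    simp only [Nat.cast_smul_eq_nsmul] at h1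
    rw [← hm] at h1
    have h2 : classInner ((χ : G → ℂ) * fun x => conj ((χ : G → ℂ) x)) (e φ : G → ℂ) =
        classInner (χ : G → ℂ) ((φ • χ : IrrCharacter G) : G → ℂ) := by
      simp only [classInner]
      congr 1
      refine Finset.sum_congr rfl fun g _ => ?_
      rw [smul_apply]
      simp only [Pi.mul_apply, e, map_mul]
      ring
    rw [h2, hT φ hφ, Ortho.classInner_irr_self χ.2] at h1
    exact_mod_cast h1.symm
  choose dd hdd _ using fun ψ : IrrCharacter G => deg_exists ψ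
  have h1 := congrFun hm 1
  simp only [Pi.mul_apply, Finset.sum_apply, Pi.smul_apply, hd] at h1
  simp only [nsmul_eq_mul, hdd, Complex.conj_natCast] at h1
  have h1' : d * d = ∑ ψ : IrrCharacter G, m ψ * dd ψ := by exact_mod_cast h1
  have hde : ∀ φ, dd (e φ) = 1 := by
    intro φ
    have := hdd (e φ)
    simp only [e, map_one, Units.val_one] at this
    exact_mod_cast this.symm
  calc T.card = (T.image e).card := (Finset.card_image_of_injective _ he).symm
    _ = ∑ ψ ∈ T.image e, 1 := by simp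
    _ ≤ ∑ ψ ∈ T.image e, m ψ * dd ψ := by
        refine Finset.sum_le_sum fun ψ hψ => ?_
        obtain ⟨φ, hφ, rfl⟩ := Finset.mem_image.1 hψ
        rw [hme φ hφ, hde]
    _ ≤ ∑ ψ : IrrCharacter G, m ψ * dd ψ :=
        Finset.sum_le_sum_of_subset (Finset.subset_univ _)
    _ = d ^ 2 := by rw [← h1', pow_two]

/-- The linear-character group is a 2-group. -/
theorem isPGroup_lin (hG : IsPGroup 2 G) : IsPGroup 2 (Lin G) := by
  haveI : Fact (Nat.Prime 2) := ⟨Nat.prime_two⟩
  obtain ⟨n, hn⟩ := (IsPGroup.iff_card (p := 2) (G := G)).1 hG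
  intro φ
  refine ⟨n, ?_⟩
  ext g
  rw [MonoidHom.pow_apply, ← map_pow, ← hn, pow_card_eq_one']
  simp

/-- Sign character of an index two subgroup. -/
noncomputable def sgnHom (M : Subgroup G) (hM : M.index = 2) : Lin G := by
  classical
  exact MonoidHom.mk' (fun g => if g ∈ M then (1 : ℂˣ) else -1) (by
    intro a b
    have := Subgroup.mul_mem_iff_of_index_two hM (a := a) (b := b)
    by_cases ha : a ∈ M <;> by_cases hb : b ∈ M <;> simp [ha, hb, this])

theorem sgnHom_apply_mem (M : Subgroup G) (hM : M.index = 2) {g : G} (hg : g ∈ M) :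
    sgnHom M hM g = 1 := by
  classical
  simp [sgnHom, hg]

theorem sgnHom_apply_not_mem (M : Subgroup G) (hM : M.index = 2) {g : G} (hg : g ∉ M) :
    sgnHom M hM g = -1 := by
  classical
  simp [sgnHom, hg]

theorem sgnHom_sq (M : Subgroup G) (hM : M.index = 2) : (sgnHom M hM) ^ 2 = 1 := by
  classical
  ext g
  rw [MonoidHom.pow_apply]
  by_cases hg : g ∈ M
  · rw [sgnHom_apply_mem M hM hg]; simp
  · rw [sgnHom_apply_not_mem M hM hg]; simp

/-- A noncyclic `2`-group has two different maximal subgroups, so at least three linear characters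
of order at most two. -/
theorem three_le_card_E (hG : IsPGroup 2 G) (hc : ¬ IsCyclic G) :
    ∃ φ ψ : Lin G, φ ^ 2 = 1 ∧ ψ ^ 2 = 1 ∧ φ ≠ 1 ∧ ψ ≠ 1 ∧ φ ≠ ψ := by
  classical
  haveI : Fact (Nat.Prime 2) := ⟨Nat.prime_two⟩
  haveI : Nontrivial G := by
    by_contra h
    rw [not_nontrivial_iff_subsingleton] at h
    exact hc (isCyclic_of_subsingleton)
  have hbot : (⊥ : Subgroup G) ≠ ⊤ := bot_ne_top
  obtain ⟨M, hM, -⟩ : ∃ M : Subgroup G, IsCoatom M ∧ ⊥ ≤ M := by
    rcases eq_top_or_exists_le_coatom (⊥ : Subgroup G) with h | h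
    · exact absurd h hbot
    · exact h
  have hM2 := Cfsg.Agent.Lib.PGroup.Basic.index_eq_of_isCoatom hG hM
  obtain ⟨x, hx⟩ : ∃ x, x ∉ M := by
    by_contra h
    push Not at h
    exact hM.1 (top_unique fun g _ => h g)
  have hxz : Subgroup.zpowers x ≠ ⊤ := by
    intro h
    exact hc ⟨x, fun g => by
      have : g ∈ Subgroup.zpowers x := by rw [h]; trivial
      exact this⟩
  obtain ⟨M', hM', hle⟩ : ∃ M' : Subgroup G, IsCoatom M' ∧ Subgroup.zpowers x ≤ M' := by
    rcases eq_top_or_exists_le_coatom (Subgroup.zpowers x) with h | h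
    · exact absurd h hxz
    · exact h
  have hM'2 := Cfsg.Agent.Lib.PGroup.Basic.index_eq_of_isCoatom hG hM'
  have hxM' : x ∈ M' := hle (Subgroup.mem_zpowers x)
  obtain ⟨y, hy⟩ : ∃ y, y ∉ M' := by
    by_contra h
    push Not at h
    exact hM'.1 (top_unique fun g _ => h g)
  refine ⟨sgnHom M hM2, sgnHom M' hM'2, sgnHom_sq _ _, sgnHom_sq _ _, ?_, ?_, ?_⟩
  · intro h
    have := DFunLike.congr_fun h x
    rw [sgnHom_apply_not_mem M hM2 hx] at this
    have h2 := congrArg (fun u : ℂˣ => (u : ℂ)) this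
    norm_num at h2
  · intro h
    have := DFunLike.congr_fun h y
    rw [sgnHom_apply_not_mem M' hM'2 hy] at this
    have h2 := congrArg (fun u : ℂˣ => (u : ℂ)) this
    norm_num at h2
  · intro h
    have := DFunLike.congr_fun h x
    rw [sgnHom_apply_not_mem M hM2 hx, sgnHom_apply_mem M' hM'2 hxM'] at this
    have h2 := congrArg (fun u : ℂˣ => (u : ℂ)) this
    norm_num at h2


/-- A 2-group all of whose elements satisfy `φ⁴ = 1 → φ² = 1` has exponent dividing two. -/
theorem sq_eq_one_of_four {Γ : Type*} [Group Γ] (h4 : ∀ φ : Γ, φ ^ 4 = 1 → φ ^ 2 = 1) (k : ℕ) :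
    ∀ φ : Γ, φ ^ (2 ^ k) = 1 → φ ^ 2 = 1 := by
  induction k with
  | zero =>
    intro φ h
    simp at h
    simp [h]
  | succ k ih =>
    intro φ h
    have h1 : (φ ^ 2) ^ (2 ^ k) = 1 := by
      rw [← pow_mul, ← pow_succ']
      exact h
    have h2 := ih (φ ^ 2) h1
    apply h4
    rw [← h2, ← pow_mul]

theorem pow_four_of_sq {Γ : Type*} [Group Γ] (x : Γ) (h : x ^ 2 = 1) : x ^ 4 = 1 := by
  rw [show (4 : ℕ) = 2 * 2 from rfl, pow_mul, h, one_pow]

/-- Value of the indicator on a real linear character. -/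
theorem nu_of_real_linear (χ : IrrCharacter G) (h1 : (χ : G → ℂ) 1 = 1)
    (hr : ∀ g, conj ((χ : G → ℂ) g) = (χ : G → ℂ) g) : Indicator.nu (χ : G → ℂ) = 1 := by
  obtain ⟨φ, hφ⟩ := LinearChars.exists_hom_of_isCharacter_one (Values.IsIrrCharacter.isCharacter χ.2) h1
  have hself := Ortho.classInner_irr_self χ.2
  simp only [classInner] at hself
  rw [Indicator.nu, ← hself]
  congr 1
  refine Finset.sum_congr rfl fun g _ => ?_
  rw [hr g, pow_two, hφ]
  simp

/-- Parity lemma for `p`-group actions with odd number of points. -/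
theorem odd_card_fixedPoints {Γ α : Type*} [Group Γ] [MulAction Γ α] [Finite α] (hΓ : IsPGroup 2 Γ)
    (h : Odd (Nat.card α)) : Odd (Nat.card (MulAction.fixedPoints Γ α)) := by
  have := hΓ.card_modEq_card_fixedPoints α
  rw [Nat.odd_iff] at h ⊢
  rw [← this]
  exact h


theorem conj_of_sq (φ : Lin G) (h : φ ^ 2 = 1) (g : G) : conj ((φ g : ℂˣ) : ℂ) = ((φ g : ℂˣ) : ℂ) := by
  have h1 := lin_mul_conj φ g
  have h2 : ((φ g : ℂˣ) : ℂ) * ((φ g : ℂˣ) : ℂ) = 1 := by
    have := DFunLike.congr_fun h g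
    rw [MonoidHom.pow_apply, pow_two] at this
    have h3 := congrArg (fun u : ℂˣ => (u : ℂ)) this
    simpa using h3
  calc conj ((φ g : ℂˣ) : ℂ) = conj ((φ g : ℂˣ) : ℂ) * (((φ g : ℂˣ) : ℂ) * ((φ g : ℂˣ) : ℂ)) := by
        rw [h2, mul_one]
    _ = (((φ g : ℂˣ) : ℂ) * conj ((φ g : ℂˣ) : ℂ)) * ((φ g : ℂˣ) : ℂ) := by ring
    _ = ((φ g : ℂˣ) : ℂ) := by rw [h1, one_mul]

/-- Counting the real linear characters. -/
def tors (G : Type*) [Group G] (n : ℕ) : Subgroup (Lin G) where
  carrier := {φ | φ ^ n = 1}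
  mul_mem' := by
    intro a b ha hb
    simp only [Set.mem_setOf_eq] at ha hb ⊢
    rw [mul_pow, ha, hb]
    exact mul_one (1 : Lin G)
  one_mem' := by simp
  inv_mem' := by
    intro a ha
    simp only [Set.mem_setOf_eq] at ha ⊢
    rw [inv_pow, ha]
    ext g
    simp

theorem mem_tors {n : ℕ} {φ : Lin G} : φ ∈ tors G n ↔ φ ^ n = 1 := Iff.rfl

theorem card_real_linear [DecidableEq G] :
    Nat.card {χ : IrrCharacter G // (∀ g, conj ((χ : G → ℂ) g) = (χ : G → ℂ) g) ∧ (χ : G → ℂ) 1 = 1} =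
      Nat.card (tors G 2) := by
  classical
  symm
  refine Nat.card_congr (Equiv.ofBijective (fun φ => ⟨⟨fun g => ((φ.1 g : ℂˣ) : ℂ), LinearChars.isIrr_of_hom φ.1⟩,
    fun g => conj_of_sq φ.1 φ.2 g, by simp⟩) ⟨?_, ?_⟩)
  · intro φ ψ h
    apply Subtype.ext
    ext g
    have := congrFun (congrArg (fun x => ((x.1 : IrrCharacter G) : G → ℂ)) h) g
    simpa using this
  · rintro ⟨χ, hr, h1⟩
    obtain ⟨φ, hφ⟩ := LinearChars.exists_hom_of_isCharacter_one (Values.IsIrrCharacter.isCharacter χ.2) h1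
    refine ⟨⟨φ, ?_⟩, ?_⟩
    · change φ ^ 2 = 1
      ext g
      rw [MonoidHom.pow_apply]
      have h2 := hr g
      rw [hφ] at h2
      have h3 := lin_mul_conj φ g
      rw [h2] at h3
      simp only [Units.val_pow_eq_pow_val, MonoidHom.one_apply, Units.val_one]
      rw [pow_two]; exact h3
    · apply Subtype.ext
      apply Subtype.ext
      exact hφ.symm

theorem sum_modEq [DecidableEq G] [Fintype (IrrCharacter G)] (hG : IsPGroup 2 G) :
    (((Finset.univ.filter fun x : G => x ^ 2 = 1).card : ℤ)) ≡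
      ((Finset.univ.filter fun χ : IrrCharacter G =>
          (∀ g, conj ((χ : G → ℂ) g) = (χ : G → ℂ) g) ∧ (χ : G → ℂ) 1 = 1).card : ℤ) +
      2 * ((Finset.univ.filter fun χ : IrrCharacter G =>
          (∀ g, conj ((χ : G → ℂ) g) = (χ : G → ℂ) g) ∧ (χ : G → ℂ) 1 = 2).card : ℤ) [ZMOD 4] := by
  classical
  haveI : Fact (Nat.Prime 2) := ⟨Nat.prime_two⟩
  obtain ⟨N, hN⟩ := (IsPGroup.iff_card (p := 2) (G := G)).1 hG
  have hterm : ∀ χ : IrrCharacter G, ∃ c : ℤ, Indicator.nu (χ : G → ℂ) * (χ : G → ℂ) 1 = c ∧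
      c ≡ (if (∀ g, conj ((χ : G → ℂ) g) = (χ : G → ℂ) g) ∧ (χ : G → ℂ) 1 = 1 then 1 else 0) +
        2 * (if (∀ g, conj ((χ : G → ℂ) g) = (χ : G → ℂ) g) ∧ (χ : G → ℂ) 1 = 2 then 1 else 0) [ZMOD 4] := by
    intro χ
    obtain ⟨d, hd, hdvd⟩ := deg_exists χ
    by_cases hr : ∀ g, conj ((χ : G → ℂ) g) = (χ : G → ℂ) g
    · rw [hN, Nat.dvd_prime_pow Nat.prime_two] at hdvd
      obtain ⟨a, -, rfl⟩ := hdvd
      rcases a with _ | _ | a
      · have h1 : (χ : G → ℂ) 1 = 1 := by rw [hd]; simp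
        refine ⟨1, by rw [nu_of_real_linear χ h1 hr, h1]; simp, ?_⟩
        rw [if_pos ⟨hr, h1⟩, if_neg (by rw [h1]; norm_num)]
        rfl
      · have h1 : (χ : G → ℂ) 1 = 2 := by rw [hd]; simp
        rcases Tri.nu_of_real χ.2 hr with h | h
        · refine ⟨2, by rw [h, h1]; simp, ?_⟩
          rw [if_neg (by rw [h1]; norm_num), if_pos ⟨hr, h1⟩]
          rfl
        · refine ⟨-2, by rw [h, h1]; simp, ?_⟩
          rw [if_neg (by rw [h1]; norm_num), if_pos ⟨hr, h1⟩]
          decide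
      · have hd' : (χ : G → ℂ) 1 = ((2 ^ (a + 2) : ℕ) : ℂ) := hd
        obtain ⟨m, hm⟩ := Indicator.nu_eq_int (G := G) (χ := (χ : G → ℂ)) (Values.IsIrrCharacter.isCharacter χ.2)
        have hne1 : (χ : G → ℂ) 1 ≠ 1 := by
          rw [hd']
          have : (2 ^ (a + 2) : ℕ) ≠ 1 := by
            have := Nat.one_lt_two_pow (n := a + 2) (by omega)
            omega
          exact_mod_cast this
        have hne2 : (χ : G → ℂ) 1 ≠ 2 := by
          rw [hd']
          have : (2 ^ (a + 2) : ℕ) ≠ 2 := by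
            have : 2 ^ (a + 2) = 4 * 2 ^ a := by rw [pow_add]; ring
            have h2 : 0 < 2 ^ a := by positivity
            omega
          exact_mod_cast this
        refine ⟨m * (2 ^ (a + 2) : ℕ), by rw [hm, hd']; push_cast; ring, ?_⟩
        rw [if_neg (fun h => hne1 h.2), if_neg (fun h => hne2 h.2)]
        have : ((2 ^ (a + 2) : ℕ) : ℤ) = 4 * 2 ^ a := by push_cast; rw [pow_add]; ring
        rw [this]
        simp only [mul_zero, add_zero]
        refine (Int.modEq_zero_iff_dvd.2 ?_)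
        exact ⟨m * 2 ^ a, by ring⟩
    · push Not at hr
      refine ⟨0, by rw [Tri.nu_of_not_real χ.2 hr]; simp, ?_⟩
      have hr' : ¬ ∀ g, conj ((χ : G → ℂ) g) = (χ : G → ℂ) g := by
        obtain ⟨g, hg⟩ := hr
        exact fun h => hg (h g)
      rw [if_neg (fun h => hr' h.1), if_neg (fun h => hr' h.1)]
      rfl
  choose c hc1 hc2 using hterm
  have hcount := Indicator.card_sqrt_one (G := G)
  have hcount' : ((Finset.univ.filter fun x : G => x ^ 2 = 1).card : ℤ) = ∑ χ : IrrCharacter G, c χ := by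
    have : (((Finset.univ.filter fun x : G => x ^ 2 = 1).card : ℤ) : ℂ) =
        ((∑ χ : IrrCharacter G, c χ : ℤ) : ℂ) := by
      push_cast
      rw [hcount]
      exact Finset.sum_congr rfl fun χ _ => hc1 χ
    exact_mod_cast this
  rw [hcount', Finset.card_filter, Finset.card_filter]
  push_cast
  rw [Finset.mul_sum, ← Finset.sum_add_distrib]
  exact Int.ModEq.sum fun χ _ => by simpa using hc2 χ


/-- Main theorem -/
theorem result {G : Type*} [Group G] [Finite G] (hG : IsPGroup 2 G) (ht : Nat.card {x : G // orderOf x = 2} % 4 = 1) : IsCyclic G ∨ (commutator G).index = 4 := by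
  classical
  haveI := Fintype.ofFinite G
  by_cases hc : IsCyclic G
  · exact Or.inl hc
  right
  haveI : Fact (Nat.Prime 2) := ⟨Nat.prime_two⟩
  haveI : Finite (Lin G) := Finite.of_equiv _ (LinearChars.linearEquivHom (G := G))
  have hLp := isPGroup_lin hG
  haveI : Fintype (Lin G) := Fintype.ofFinite _
  letI : Fintype (IrrCharacter G) := Ortho.fintype_irr
  have hEp : IsPGroup 2 (tors G 2) := hLp.to_subgroup _
  have hFp : IsPGroup 2 (tors G 4) := hLp.to_subgroup _
  -- `E` has order divisible by four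
  obtain ⟨φ₁, φ₂, h1, h2, h3, h4, h5⟩ := three_le_card_E hG hc
  have hE4 : 4 ∣ Nat.card (tors G 2) := by
    obtain ⟨k, hk⟩ := (IsPGroup.iff_card (p := 2)).1 hEp
    have hgt : 2 < Nat.card (tors G 2) := by
      haveI : Fintype (tors G 2) := Fintype.ofFinite _
      have : ({⟨1, one_mem _⟩, ⟨φ₁, h1⟩, ⟨φ₂, h2⟩} : Finset (tors G 2)).card = 3 := by
        rw [Finset.card_eq_three]
        refine ⟨_, _, _, ?_, ?_, ?_, rfl⟩
        · intro h; exact h3 (congrArg Subtype.val h).symm
        · intro h; exact h4 (congrArg Subtype.val h).symm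
        · intro h; exact h5 (congrArg Subtype.val h)
      have h6 := Finset.card_le_univ ({⟨1, one_mem _⟩, ⟨φ₁, h1⟩, ⟨φ₂, h2⟩} : Finset (tors G 2))
      rw [Nat.card_eq_fintype_card]
      omega
    rw [hk] at hgt ⊢
    have hk2 : 2 ≤ k := by
      by_contra hlt
      have : k = 0 ∨ k = 1 := by omega
      rcases this with rfl | rfl <;> simp at hgt
    exact pow_dvd_pow 2 hk2
  -- the count
  have hmod := sum_modEq (G := G) hG
  have hsq : (Finset.univ.filter fun x : G => x ^ 2 = 1).card = Nat.card {x : G // orderOf x = 2} + 1 := by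
    have : (Finset.univ.filter fun x : G => x ^ 2 = 1) = insert 1 (Finset.univ.filter fun x : G => orderOf x = 2) := by
      ext x
      simp only [Finset.mem_filter, Finset.mem_univ, true_and, Finset.mem_insert]
      constructor
      · intro hx
        by_cases h1 : x = 1
        · exact Or.inl h1
        · exact Or.inr (orderOf_eq_prime hx h1)
      · rintro (rfl | hx)
        · simp
        · rw [← hx]; exact pow_orderOf_eq_one x
    rw [this, Finset.card_insert_of_notMem (by simp), Nat.card_eq_fintype_card, Fintype.card_subtype]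
  have hRL : (Finset.univ.filter fun χ : IrrCharacter G =>
          (∀ g, conj ((χ : G → ℂ) g) = (χ : G → ℂ) g) ∧ (χ : G → ℂ) 1 = 1).card = Nat.card (tors G 2) := by
    rw [← card_real_linear, Nat.card_eq_fintype_card, Fintype.card_subtype]
  rw [hsq, hRL] at hmod
  -- odd number of real characters of degree two
  have hOdd : Odd (Finset.univ.filter fun χ : IrrCharacter G =>
          (∀ g, conj ((χ : G → ℂ) g) = (χ : G → ℂ) g) ∧ (χ : G → ℂ) 1 = 2).card := by
    obtain ⟨a, ha⟩ := hE4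
    set t := Nat.card {x : G // orderOf x = 2}
    set r := (Finset.univ.filter fun χ : IrrCharacter G =>
          (∀ g, conj ((χ : G → ℂ) g) = (χ : G → ℂ) g) ∧ (χ : G → ℂ) 1 = 2).card
    rw [ha] at hmod
    rw [Nat.odd_iff]
    have h7 := Int.emod_emod_of_dvd ((t : ℤ) + 1) (dvd_refl 4)
    have h8 : ((t : ℤ) + 1) % 4 = ((4 * a : ℕ) + 2 * (r : ℤ)) % 4 := by
      have := hmod
      unfold Int.ModEq at this
      push_cast at this ⊢
      exact this
    push_cast at h8
    omega
  -- the action of `E` on the real characters of degree two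
  let R2 : SubMulAction (tors G 2) (IrrCharacter G) :=
    { carrier := {χ | (∀ g, conj ((χ : G → ℂ) g) = (χ : G → ℂ) g) ∧ (χ : G → ℂ) 1 = 2}
      smul_mem' := by
        rintro φ χ ⟨hr, h1⟩
        refine ⟨fun g => ?_, ?_⟩
        · change conj (((φ : Lin G) g : ℂˣ) * (χ : G → ℂ) g) = ((φ : Lin G) g : ℂˣ) * (χ : G → ℂ) g
          rw [map_mul, conj_of_sq (φ : Lin G) φ.2 g, hr g]
        · change ((((φ : Lin G) 1 : ℂˣ) : ℂ) * (χ : G → ℂ) 1) = 2
          rw [h1]; simp }
  have hR2 : Odd (Nat.card R2) := by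
    have : Nat.card R2 = (Finset.univ.filter fun χ : IrrCharacter G =>
          (∀ g, conj ((χ : G → ℂ) g) = (χ : G → ℂ) g) ∧ (χ : G → ℂ) 1 = 2).card := by
      rw [Nat.card_eq_fintype_card]
      refine Fintype.card_of_subtype _ (fun χ => ?_)
      simp only [Finset.mem_filter, Finset.mem_univ, true_and]
      rfl
    rw [this]; exact hOdd
  have hfix := odd_card_fixedPoints hEp hR2
  -- the action of `F`
  let S : SubMulAction (tors G 4) (IrrCharacter G) :=
    { carrier := {χ | (∀ g, conj ((χ : G → ℂ) g) = (χ : G → ℂ) g) ∧ (χ : G → ℂ) 1 = 2 ∧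
          ∀ φ : Lin G, φ ∈ tors G 2 → φ • χ = χ}
      smul_mem' := by
        rintro μ χ ⟨hr, h1, hfixχ⟩
        have hμ : (μ : Lin G) ^ 4 = 1 := μ.2
        refine ⟨fun g => ?_, ?_, ?_⟩
        · change conj (((μ : Lin G) g : ℂˣ) * (χ : G → ℂ) g) = ((μ : Lin G) g : ℂˣ) * (χ : G → ℂ) g
          have hμ2 : ((μ : Lin G) ^ 2) ∈ tors G 2 := by
            change ((μ : Lin G) ^ 2) ^ 2 = 1
            rw [← pow_mul]; exact hμ
          have h2 := congrFun (congrArg Subtype.val (hfixχ _ hμ2)) g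
          rw [smul_apply, MonoidHom.pow_apply] at h2
          have h3 := lin_mul_conj (μ : Lin G) g
          rw [map_mul, hr g]
          calc conj (((μ : Lin G) g : ℂˣ) : ℂ) * (χ : G → ℂ) g
              = conj (((μ : Lin G) g : ℂˣ) : ℂ) * ((((μ : Lin G) g ^ 2 : ℂˣ) : ℂ) * (χ : G → ℂ) g) := by rw [h2]
            _ = (((μ : Lin G) g : ℂˣ) * conj (((μ : Lin G) g : ℂˣ) : ℂ)) * (((μ : Lin G) g : ℂˣ) * (χ : G → ℂ) g) := by
                push_cast; ring
            _ = ((μ : Lin G) g : ℂˣ) * (χ : G → ℂ) g := by rw [h3, one_mul]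
        · change ((((μ : Lin G) 1 : ℂˣ) : ℂ) * (χ : G → ℂ) 1) = 2
          rw [h1]; simp
        · intro φ hφ
          change φ • (μ : Lin G) • χ = (μ : Lin G) • χ
          apply Subtype.ext
          funext g
          have h2 := congrFun (congrArg Subtype.val (hfixχ φ hφ)) g
          rw [smul_apply] at h2
          rw [smul_apply, smul_apply, ← mul_assoc, mul_comm ((φ g : ℂˣ) : ℂ), mul_assoc, h2] }
  have hS : Odd (Nat.card S) := by
    have : Nat.card (MulAction.fixedPoints (tors G 2) R2) = Nat.card S := by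
      refine Nat.card_congr (Equiv.ofBijective (fun x => ⟨x.1.1, x.1.2.1, x.1.2.2, fun φ hφ => ?_⟩) ⟨?_, ?_⟩)
      · have := x.2 ⟨φ, hφ⟩
        exact congrArg Subtype.val this
      · intro x y h
        apply Subtype.ext
        apply Subtype.ext
        exact congrArg (fun z : S => (z : IrrCharacter G)) h
      · rintro ⟨χ, hr, h1, hf⟩
        refine ⟨⟨⟨χ, hr, h1⟩, fun m => ?_⟩, rfl⟩
        apply Subtype.ext
        exact hf m.1 m.2
    rw [← this]; exact hfix
  have hfix2 := odd_card_fixedPoints hFp hS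
  have hne : Nonempty (MulAction.fixedPoints (tors G 4) S) := by
    have : 0 < Nat.card (MulAction.fixedPoints (tors G 4) S) := hfix2.pos
    exact (Nat.card_pos_iff.1 this).1
  obtain ⟨⟨⟨χ₀, hr0, h10, hf0⟩, hχ₀⟩⟩ := hne
  -- the bound
  have hFle : Nat.card (tors G 4) ≤ 4 := by
    have := card_le_of_fixed χ₀ 2 (by rw [h10]; norm_num) (Finset.univ.filter fun φ : Lin G => φ ∈ tors G 4)
      (by
        intro φ hφ
        have hφ' : φ ∈ tors G 4 := (Finset.mem_filter.1 hφ).2
        have := hχ₀ ⟨φ, hφ'⟩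
        exact congrArg Subtype.val this)
    have h' : Nat.card (tors G 4) = (Finset.univ.filter fun φ : Lin G => φ ∈ tors G 4).card := by
      rw [Nat.card_eq_fintype_card, Fintype.card_subtype]
    rw [h']
    simpa using this
  have hle : tors G 2 ≤ tors G 4 := by
    intro φ hφ
    have h2 : φ ^ 2 = 1 := hφ
    exact pow_four_of_sq φ h2
  have hEge : 4 ≤ Nat.card (tors G 2) := Nat.le_of_dvd Nat.card_pos hE4
  have heq : tors G 2 = tors G 4 := Subgroup.eq_of_le_of_card_ge hle (by omega)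
  have h24 : ∀ φ : Lin G, φ ^ 4 = 1 → φ ^ 2 = 1 := by
    intro φ hφ
    have : φ ∈ tors G 2 := by rw [heq]; exact hφ
    exact this
  have hall : ∀ φ : Lin G, φ ∈ tors G 2 := by
    intro φ
    obtain ⟨k, hk⟩ := hLp φ
    exact sq_eq_one_of_four h24 k φ hk
  have hLcard : Nat.card (Lin G) = 4 := by
    have e1 : Nat.card (tors G 2) = Nat.card (Lin G) :=
      Nat.card_congr (Equiv.subtypeUnivEquiv hall)
    have e2 : Nat.card (tors G 2) ≤ Nat.card (tors G 4) := Subgroup.card_le_of_le hle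
    omega
  rw [← LinearChars.card_linear_chars, Nat.card_congr (LinearChars.linearEquivHom (G := G))]
  exact hLcard

end Cfsg.Agent.S4477
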