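import Cfsg.Statements.S4478
import Mathlib
import Cfsg.Agent.Lib.Char.PRegular
import Cfsg.Agent.Lib.Char.Burnside2
import Cfsg.Agent.Lib.Char.Ortho
import Cfsg.Agent.S0158

set_option autoImplicit false
open Cfsg

namespace Cfsg.Agent.S4478

open Cfsg.Agent.Lib.Char.PRegular

/-- Squaring on odd-order elements. -/
theorem pow_half_mul_pow_half {G : Type*} [Group G] (g : G) (h : ¬ 2 ∣ orderOf g) :
    g ^ ((orderOf g + 1) / 2) * g ^ ((orderOf g + 1) / 2) = g := by
  have h2 : (orderOf g + 1) / 2 + (orderOf g + 1) / 2 = orderOf g + 1 := by omega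
  rw [← pow_add, h2, pow_succ, pow_orderOf_eq_one, one_mul]

theorem orderOf_mul_self_of_odd {G : Type*} [Group G] (g : G) (h : ¬ 2 ∣ orderOf g) :
    orderOf (g * g) = orderOf g := by
  rw [← pow_two, orderOf_pow' g two_ne_zero]
  have : Nat.gcd (orderOf g) 2 = 1 :=
    (Nat.Coprime.symm ((Nat.Prime.coprime_iff_not_dvd Nat.prime_two).2 h))
  rw [this, Nat.div_one]

theorem sum_mul_self_odd {G : Type*} [Group G] [Fintype G] [DecidableEq G] (f : G → ℂ) :
    ∑ g ∈ Finset.univ.filter (fun g : G => ¬ 2 ∣ orderOf g), f (g * g) =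
      ∑ g ∈ Finset.univ.filter (fun g : G => ¬ 2 ∣ orderOf g), f g := by
  refine Finset.sum_bij' (fun g _ => g * g) (fun g _ => g ^ ((orderOf g + 1) / 2)) ?_ ?_ ?_ ?_ ?_
  · intro g hg
    simp only [Finset.mem_filter, Finset.mem_univ, true_and] at hg ⊢
    rwa [orderOf_mul_self_of_odd g hg]
  · intro g hg
    simp only [Finset.mem_filter, Finset.mem_univ, true_and] at hg ⊢
    intro h2
    exact hg (h2.trans (orderOf_pow_dvd _))
  · intro g hg
    simp only [Finset.mem_filter, Finset.mem_univ, true_and] at hg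
    rw [orderOf_mul_self_of_odd g hg, ← pow_two, ← pow_mul]
    have h2 : 2 * ((orderOf g + 1) / 2) = orderOf g + 1 := by omega
    rw [h2, pow_succ, pow_orderOf_eq_one, one_mul]
  · intro g hg
    simp only [Finset.mem_filter, Finset.mem_univ, true_and] at hg
    exact pow_half_mul_pow_half g hg
  · intro g _
    rfl

variable {G : Type*} [Group G] [Fintype G]

/-- Vanishing on elements of order divisible by a prime with full `p`-part in the degree. -/
theorem vanish {n : ℕ} (ρ : Representation ℂ G (Fin n → ℂ)) [ρ.IsIrreducible] (p : ℕ) (hp : p.Prime)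
    (hn : p ^ (Nat.card G).factorization p ∣ n) (x : G) (hx : p ∣ orderOf x) : ρ.character x = 0 := by
  refine character_eq_zero_of_defect_zero ρ p _ hp (Nat.ordProj_dvd _ _)
    (Nat.pow_succ_factorization_not_dvd Nat.card_pos.ne' hp) ?_ x hx
  simpa using hn

/-- Vanishing on the centraliser of an involution. -/
theorem vanish_centralizer {n : ℕ} (ρ : Representation ℂ G (Fin n → ℂ)) [ρ.IsIrreducible]
    (h2 : 2 ^ (Nat.card G).factorization 2 ∣ n)
    (hp : ∀ p : ℕ, p.Prime → p ≠ 2 → (∃ g : G, orderOf g = 2 * p) → p ^ (Nat.card G).factorization p ∣ n)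
    (s : G) (hs : orderOf s = 2) (h : G) (hc : h * s = s * h) (h1 : h ≠ 1) : ρ.character h = 0 := by
  obtain ⟨r, hr, hrd⟩ := Nat.exists_prime_and_dvd (orderOf_eq_one_iff.not.2 h1)
  by_cases hr2 : r = 2
  · subst hr2
    exact vanish ρ 2 hr h2 h hrd
  · refine vanish ρ r hr (hp r hr hr2 ⟨s * h ^ (orderOf h / r), ?_⟩) h hrd
    have hy : orderOf (h ^ (orderOf h / r)) = r := orderOf_pow_orderOf_div (orderOf_pos h).ne' hrd
    have hcomm : Commute s (h ^ (orderOf h / r)) := (Commute.pow_left hc.symm.symm _ |>.symm) 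
    have hcop : Nat.Coprime (orderOf s) (orderOf (h ^ (orderOf h / r))) := by
      rw [hs, hy]
      exact (Nat.coprime_primes Nat.prime_two hr).2 (Ne.symm hr2)
    rw [hcomm.orderOf_mul_eq_mul_orderOf_of_coprime hcop, hs, hy]

/-- The sum over the group of `χ(g²)` is the degree times the number of involutions. -/
theorem sum_character_mul_self {n : ℕ} (ρ : Representation ℂ G (Fin n → ℂ)) [ρ.IsIrreducible]
    [DecidableEq G] (heven : Even (Nat.card G))
    (h2 : 2 ^ (Nat.card G).factorization 2 ∣ n)
    (hp : ∀ p : ℕ, p.Prime → p ≠ 2 → (∃ g : G, orderOf g = 2 * p) → p ^ (Nat.card G).factorization p ∣ n) :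
    ∑ g : G, ρ.character (g * g) =
      ((Finset.univ.filter fun g : G => orderOf g = 2).card : ℂ) * (n : ℂ) := by
  have h2n : 2 ∣ n := by
    refine Dvd.dvd.trans ?_ h2
    have h3 : (Nat.card G).factorization 2 ≠ 0 := by
      have := Nat.prime_two.factorization_pos_of_dvd Nat.card_pos.ne' heven.two_dvd
      omega
    exact dvd_pow_self 2 h3
  -- `χ ≠ 1`
  have hne : ρ.character ≠ fun _ => 1 := by
    intro h
    have h1 := congrFun h 1
    rw [Representation.char_one] at h1
    simp only [Module.finrank_fin_fun] at h1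
    have h3 : n = 1 := by exact_mod_cast h1
    rw [h3] at h2n
    omega
  have hsum0 : ∑ g : G, ρ.character g = 0 := by
    have hχ : Cfsg.IsIrrCharacter G ρ.character := ⟨n, ρ, inferInstance, rfl⟩
    have h := Cfsg.Agent.Lib.Char.Ortho.classInner_irr_of_ne hχ
      Cfsg.Agent.Lib.Char.Burnside2.isIrrCharacter_one hne
    unfold Cfsg.classInner at h
    have hG : (Nat.card G : ℂ)⁻¹ ≠ 0 := inv_ne_zero (Nat.cast_ne_zero.mpr Nat.card_pos.ne')
    simpa [hG] using h
  -- split
  rw [← Finset.sum_filter_add_sum_filter_not Finset.univ (fun g : G => 2 ∣ orderOf g)]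
  rw [← Finset.sum_filter_add_sum_filter_not Finset.univ (fun g : G => 2 ∣ orderOf g)] at hsum0
  have hE : ∑ g ∈ Finset.univ.filter (fun g : G => 2 ∣ orderOf g), ρ.character g = 0 :=
    Finset.sum_eq_zero fun g hg => vanish ρ 2 Nat.prime_two h2 g (Finset.mem_filter.1 hg).2
  rw [hE, zero_add] at hsum0
  rw [sum_mul_self_odd ρ.character, hsum0, add_zero]
  -- the even part
  have hTE : (Finset.univ.filter fun g : G => orderOf g = 2) ⊆ Finset.univ.filter (fun g : G => 2 ∣ orderOf g) := by
    intro g hg
    simp only [Finset.mem_filter, Finset.mem_univ, true_and] at hg ⊢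
    rw [hg]
  rw [← Finset.sum_subset hTE]
  · have h3 : ∀ g ∈ Finset.univ.filter (fun g : G => orderOf g = 2), ρ.character (g * g) = (n : ℂ) := by
      intro g hg
      simp only [Finset.mem_filter, Finset.mem_univ, true_and] at hg
      have : g * g = 1 := by
        rw [← pow_two, ← hg, pow_orderOf_eq_one]
      rw [this, Representation.char_one]
      simp
    rw [Finset.sum_congr rfl h3, Finset.sum_const, nsmul_eq_mul]
  · intro g hg hgT
    simp only [Finset.mem_filter, Finset.mem_univ, true_and] at hg hgT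
    obtain ⟨k, hk⟩ := hg
    have hk0 : 0 < k := by
      have := orderOf_pos g
      omega
    have hk1 : k ≠ 1 := by
      rintro rfl
      exact hgT (by omega)
    have hord : orderOf (g * g) = k := by
      rw [← pow_two, orderOf_pow, hk]
      rw [Nat.gcd_eq_right (Dvd.intro k rfl)]
      exact Nat.mul_div_cancel_left k (by norm_num)
    by_cases hke : 2 ∣ k
    · exact vanish ρ 2 Nat.prime_two h2 _ (by rwa [hord])
    · -- an involution commuting with `g`
      have hs : orderOf (g ^ k) = 2 := by
        rw [orderOf_pow, hk]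
        rw [Nat.gcd_eq_right (Dvd.intro_left 2 rfl)]
        exact Nat.mul_div_cancel _ hk0
      refine vanish_centralizer ρ h2 hp (g ^ k) hs (g * g) ?_ ?_
      · exact ((Commute.refl g).mul_left (Commute.refl g)).pow_right k
      · intro h
        rw [h, orderOf_one] at hord
        exact hk1 hord.symm

/-- `|C(s)|` divides the degree. -/
theorem card_centralizer_dvd {n : ℕ} (ρ : Representation ℂ G (Fin n → ℂ)) [ρ.IsIrreducible]
    (h2 : 2 ^ (Nat.card G).factorization 2 ∣ n)
    (hp : ∀ p : ℕ, p.Prime → p ≠ 2 → (∃ g : G, orderOf g = 2 * p) → p ^ (Nat.card G).factorization p ∣ n)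
    (s : G) (hs : orderOf s = 2) : Nat.card (Subgroup.centralizer ({s} : Set G)) ∣ n := by
  classical
  set H := Subgroup.centralizer ({s} : Set G) with hH
  have hχ : Cfsg.IsCharacter G ρ.character := ⟨n, ρ, rfl⟩
  have hres := Cfsg.Agent.Lib.Char.Basic.isCharacter_restrict hχ H
  obtain ⟨m, hm⟩ := Cfsg.Agent.Lib.Char.Ortho.exists_nat_classInner hres
    (⟨fun _ => 1, Cfsg.Agent.Lib.Char.Burnside2.isIrrCharacter_one⟩ : Cfsg.IrrCharacter H)
  unfold Cfsg.classInner at hm
  simp only [map_one, mul_one] at hm
  rw [Finset.sum_eq_single (1 : H)] at hm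
  · simp only [Subgroup.coe_one, Representation.char_one, Module.finrank_fin_fun] at hm
    have hHC : (Nat.card H : ℂ) ≠ 0 := Nat.cast_ne_zero.mpr Nat.card_pos.ne'
    have h3 : (n : ℂ) = (Nat.card H : ℂ) * (m : ℂ) := by
      rw [← hm]
      field_simp
    exact ⟨m, by exact_mod_cast h3⟩
  · intro h _ hh
    refine vanish_centralizer ρ h2 hp s hs h ?_ (fun h1 => hh (Subtype.ext h1))
    exact Subgroup.mem_centralizer_singleton_iff.1 h.2
  · intro h
    exact absurd (Finset.mem_univ _) h

/-- Let G be a finite group of even order and χ an irreducible character of G whose degree x is divisible by the full power of 2 dividing the order of G and, for every odd prime p such that G has an element of order 2p, by the full power of p dividing the order of G. Then all involutions of G are conjugate, the centralizer of every involution has order exactly x with x coprime to its index, and the Frobenius–Schur indicator of χ equals 1. -/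
theorem result {G : Type*} [Group G] [Fintype G] (heven : Even (Nat.card G)) (χ : Cfsg.IrrCharacter G) (h2 : 2 ^ (Nat.card G).factorization 2 ∣ Cfsg.charDegree (χ : G → ℂ)) (hp : ∀ p : ℕ, p.Prime → p ≠ 2 → (∃ g : G, orderOf g = 2 * p) → p ^ (Nat.card G).factorization p ∣ Cfsg.charDegree (χ : G → ℂ)) : (∀ s t : G, orderOf s = 2 → orderOf t = 2 → IsConj s t) ∧ (∀ s : G, orderOf s = 2 → Nat.card (Subgroup.centralizer ({s} : Set G)) = Cfsg.charDegree (χ : G → ℂ) ∧ (Nat.card (Subgroup.centralizer ({s} : Set G))).Coprime (Subgroup.centralizer ({s} : Set G)).index) ∧ (Nat.card G : ℂ)⁻¹ * ∑ g : G, (χ : G → ℂ) (g * g) = 1 := by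
  classical
  obtain ⟨f, n, ρ, hirr, rfl⟩ := χ
  haveI := hirr
  have hdeg : Cfsg.charDegree ρ.character = n := by
    unfold Cfsg.charDegree
    rw [Representation.char_one]
    simp
  simp only [hdeg] at h2 hp ⊢
  have hsum := sum_character_mul_self ρ heven h2 hp
  set T := Finset.univ.filter fun g : G => orderOf g = 2 with hT
  have hGC : (Nat.card G : ℂ) ≠ 0 := Nat.cast_ne_zero.mpr Nat.card_pos.ne'
  -- there is an involution
  obtain ⟨s₀, hs₀⟩ : ∃ s : G, orderOf s = 2 := by
    haveI : Fact (Nat.Prime 2) := ⟨Nat.prime_two⟩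
    exact exists_prime_orderOf_dvd_card' 2 heven.two_dvd
  have hn0 : n ≠ 0 := by
    have := Cfsg.Agent.Lib.Char.Integrality.finrank_ne_zero_of_isIrreducible ρ
    simpa using this
  have hTpos : 0 < T.card := Finset.card_pos.2 ⟨s₀, by simp [hT, hs₀]⟩
  -- the indicator
  have hν : (Nat.card G : ℂ)⁻¹ * ∑ s : G, ρ.character (s * s) = 1 := by
    have hS := (Cfsg.Agent.S0158.result ρ).1
    rw [hsum] at hS ⊢
    have hpos : 0 < (T.card : ℝ) * (n : ℝ) / (Nat.card G : ℝ) := by
      have h1 : (0 : ℝ) < T.card := by exact_mod_cast hTpos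
      have h3 : (0 : ℝ) < n := by exact_mod_cast Nat.pos_of_ne_zero hn0
      have h4 : (0 : ℝ) < Nat.card G := by exact_mod_cast Nat.card_pos
      positivity
    have hval : (Nat.card G : ℂ)⁻¹ * ((T.card : ℂ) * (n : ℂ)) =
        (((T.card : ℝ) * (n : ℝ) / (Nat.card G : ℝ) : ℝ) : ℂ) := by
      push_cast
      field_simp
    rw [hval] at hS ⊢
    rcases hS with h | h | h
    · have : ((T.card : ℝ) * (n : ℝ) / (Nat.card G : ℝ) : ℝ) = 0 := by exact_mod_cast h
      linarith
    · exact h
    · have : ((T.card : ℝ) * (n : ℝ) / (Nat.card G : ℝ) : ℝ) = -1 := by exact_mod_cast h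
      linarith
  have htn : T.card * n = Nat.card G := by
    have h3 : (T.card : ℂ) * (n : ℂ) = (Nat.card G : ℂ) := by
      rw [hsum] at hν
      field_simp at hν
      exact hν
    exact_mod_cast h3
  -- each class of involutions has at least `|T|` elements
  have hclass : ∀ s : G, orderOf s = 2 → Nat.card (Subgroup.centralizer ({s} : Set G)) = n ∧
      Cfsg.Agent.Lib.Char.Integrality.classFinset s = T := by
    intro s hs
    have hdvd := card_centralizer_dvd ρ h2 hp s hs
    have hle := Nat.le_of_dvd (Nat.pos_of_ne_zero hn0) hdvd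
    have hidx := Subgroup.card_mul_index (Subgroup.centralizer ({s} : Set G))
    have hsub : Cfsg.Agent.Lib.Char.Integrality.classFinset s ⊆ T := by
      intro g hg
      rw [Cfsg.Agent.Lib.Char.Integrality.mem_classFinset] at hg
      obtain ⟨c, rfl⟩ := isConj_iff.1 hg
      simp only [hT, Finset.mem_filter, Finset.mem_univ, true_and]
      rw [← MulAut.conj_apply, MulEquiv.orderOf_eq, hs]
    have hcard := Finset.card_le_card hsub
    rw [Cfsg.Agent.Lib.Char.Integrality.card_classFinset] at hcard
    have hCpos : 0 < Nat.card (Subgroup.centralizer ({s} : Set G)) := Nat.card_pos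
    have hGpos : 0 < Nat.card G := Nat.card_pos
    have hle2 : n ≤ Nat.card (Subgroup.centralizer ({s} : Set G)) := by
      by_contra hlt
      have hlt' : Nat.card (Subgroup.centralizer ({s} : Set G)) < n := not_le.1 hlt
      have h5 : Nat.card (Subgroup.centralizer ({s} : Set G)) * (Subgroup.centralizer ({s} : Set G)).index <
          n * T.card := by
        have hidxpos : 0 < (Subgroup.centralizer ({s} : Set G)).index := by
          exact Nat.pos_of_ne_zero Subgroup.index_ne_zero_of_finite
        calc _ < n * (Subgroup.centralizer ({s} : Set G)).index := Nat.mul_lt_mul_of_pos_right hlt' hidxpos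
          _ ≤ n * T.card := Nat.mul_le_mul_left _ hcard
      rw [hidx, mul_comm n, htn] at h5
      exact lt_irrefl _ h5
    have heq := le_antisymm hle hle2
    refine ⟨heq, ?_⟩
    refine Finset.eq_of_subset_of_card_le hsub ?_
    rw [Cfsg.Agent.Lib.Char.Integrality.card_classFinset]
    have h6 : Nat.card (Subgroup.centralizer ({s} : Set G)) * (Subgroup.centralizer ({s} : Set G)).index =
        Nat.card (Subgroup.centralizer ({s} : Set G)) * T.card := by
      rw [hidx, heq, mul_comm n, htn]
    exact le_of_eq (Nat.eq_of_mul_eq_mul_left hCpos h6).symm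
  refine ⟨?_, ?_, hν⟩
  · intro s t hs ht
    have h1 := (hclass s hs).2
    have h3 : t ∈ T := by simp [hT, ht]
    rw [← h1, Cfsg.Agent.Lib.Char.Integrality.mem_classFinset] at h3
    exact h3
  · intro s hs
    have h1 := (hclass s hs).1
    refine ⟨h1, ?_⟩
    -- coprimality
    rw [Nat.coprime_iff_gcd_eq_one] 
    by_contra hgcd
    obtain ⟨r, hr, hrd⟩ := Nat.exists_prime_and_dvd hgcd
    have hr1 : r ∣ Nat.card (Subgroup.centralizer ({s} : Set G)) := hrd.trans (Nat.gcd_dvd_left _ _)
    have hr2 : r ∣ (Subgroup.centralizer ({s} : Set G)).index := hrd.trans (Nat.gcd_dvd_right _ _)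
    have hidx := Subgroup.card_mul_index (Subgroup.centralizer ({s} : Set G))
    -- the full `r`-part of `|G|` divides `n`
    have hfull : r ^ (Nat.card G).factorization r ∣ n := by
      by_cases hr22 : r = 2
      · subst hr22
        exact h2
      · haveI : Fact r.Prime := ⟨hr⟩
        obtain ⟨y, hy⟩ := exists_prime_orderOf_dvd_card' (G := Subgroup.centralizer ({s} : Set G)) r hr1
        have hy2 : orderOf (y : G) = r := by rw [Subgroup.orderOf_coe, hy]
        refine hp r hr hr22 ⟨s * y, ?_⟩
        have hcomm : Commute s (y : G) := (Subgroup.mem_centralizer_singleton_iff.1 y.2).symm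
        have hcop : Nat.Coprime (orderOf s) (orderOf (y : G)) := by
          rw [hs, hy2]
          exact (Nat.coprime_primes Nat.prime_two hr).2 (Ne.symm hr22)
        rw [hcomm.orderOf_mul_eq_mul_orderOf_of_coprime hcop, hs, hy2]
    rw [← h1] at hfull
    have hG0 : Nat.card G ≠ 0 := Nat.card_pos.ne'
    obtain ⟨u, hu⟩ := hr2
    have hns := Nat.pow_succ_factorization_not_dvd hG0 hr
    generalize (Nat.card G).factorization r = e at hfull hns
    obtain ⟨w, hw⟩ := hfull
    apply hns
    refine ⟨w * u, ?_⟩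
    rw [← hidx, hu, hw, pow_succ]
    ring

end Cfsg.Agent.S4478
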