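import Cfsg.Statements.S4480
import Mathlib
import Cfsg.Agent.Lib.Char.Klein4Formula

set_option autoImplicit false
open Cfsg
open scoped ComplexConjugate

namespace Cfsg.Agent.S4480

/-- Same setting as the Klein-four order formula: G of order 4·g₀ (g₀ odd) with no normal 2-complement, P a Sylow 2-subgroup, J an involution of P, M over 2, principal 2-block {1, χ₁, χ₂, χ₃} with χ_i(J) = ε_i = ±1. Suppose ε₁ε₂ε₃ = −1 and ε₃ = −1, and put q = x₃ = χ₃(1). Then there is a natural number m with 4·c(J) = m·c(P)·(q + 1), and the order of G equals (m³·c(P)/4)·(q³ − q)/2, that is 8·#G = m³·c(P)·(q³ − q). -/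
theorem result {G : Type*} [Group G] [Finite G] (M : Ideal Cfsg.AlgInt) (hM : Cfsg.IsPModular 2 M) (g₀ : ℕ) (hg₀ : Odd g₀) (hG : Nat.card G = 4 * g₀) (hnc : ¬ ∃ N : Subgroup G, N.Normal ∧ Nat.card N = g₀) (P : Sylow 2 G) (J : G) (hJ : J ∈ (P : Subgroup G)) (hJ2 : orderOf J = 2) (χ₁ χ₂ χ₃ : Cfsg.IrrCharacter G) (ε₁ ε₂ ε₃ : ℤ) (hB : Cfsg.principalBlock M G = {χ : Cfsg.IrrCharacter G | (χ : G → ℂ) = (fun _ => 1) ∨ χ = χ₁ ∨ χ = χ₂ ∨ χ = χ₃}) (hdist : (χ₁ : G → ℂ) ≠ (fun _ => 1) ∧ (χ₂ : G → ℂ) ≠ (fun _ => 1) ∧ (χ₃ : G → ℂ) ≠ (fun _ => 1) ∧ χ₁ ≠ χ₂ ∧ χ₁ ≠ χ₃ ∧ χ₂ ≠ χ₃) (hε : (ε₁ = 1 ∨ ε₁ = -1) ∧ (ε₂ = 1 ∨ ε₂ = -1) ∧ (ε₃ = 1 ∨ ε₃ = -1)) (hval : (χ₁ : G → ℂ) J = ε₁ ∧ (χ₂ : G → ℂ) J = ε₂ ∧ (χ₃ : G → ℂ) J = ε₃) (hprod : ε₁ * ε₂ * ε₃ = -1) (hε₃ : ε₃ = -1) : ∃ m : ℕ, 4 * Nat.card (Subgroup.centralizer ({J} : Set G)) = m * Nat.card (Subgroup.centralizer ((P : Subgroup G) : Set G)) * (Cfsg.charDegree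 (χ₃ : G → ℂ) + 1) ∧ 8 * Nat.card G = m ^ 3 * Nat.card (Subgroup.centralizer ((P : Subgroup G) : Set G)) * (Cfsg.charDegree (χ₃ : G → ℂ) ^ 3 - Cfsg.charDegree (χ₃ : G → ℂ)) := by
  classical
  cases nonempty_fintype G
  have hk := Cfsg.Agent.Lib.Char.Klein4.KF.of_no_complement P hg₀ hG hnc
  obtain ⟨h1, h2⟩ := Cfsg.Agent.Lib.Char.Klein4.formula_core hk hM P hJ2 hB hdist hval
  obtain ⟨hv1, hv2, hv3⟩ := hval
  obtain ⟨he1, he2, he3⟩ := hε
  haveI hMp : M.IsPrime := Cfsg.Agent.Lib.Blocks.Local.isPrime_of_isPModular hM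
  haveI : Fact (Nat.Prime 2) := ⟨by norm_num⟩
  have hmem : ∀ χ, χ = χ₁ ∨ χ = χ₂ ∨ χ = χ₃ → χ ∈ Cfsg.principalBlock M G := by
    intro χ hχ
    rw [hB]
    exact Or.inr hχ
  have hp1 := Cfsg.Agent.Lib.Char.Codegree.charDegree_pos χ₁.2
  have hp2 := Cfsg.Agent.Lib.Char.Codegree.charDegree_pos χ₂.2
  have hp3 := Cfsg.Agent.Lib.Char.Codegree.charDegree_pos χ₃.2
  -- signs
  subst hε₃
  have hsign : ε₁ = 1 ∧ ε₂ = 1 := by
    rcases he1 with rfl | rfl <;> rcases he2 with rfl | rfl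
    · exact ⟨rfl, rfl⟩
    · norm_num at hprod
    · norm_num at hprod
    · exfalso
      omega
  obtain ⟨rfl, rfl⟩ := hsign
  -- indicators
  let ϑ : G → ℂ := Cfsg.Agent.Lib.CharFS.Indicator.sqrtCount G
  have hϑ : Cfsg.IsClassFunction G ϑ := Cfsg.Agent.Lib.CharFS.Indicator.isClassFunction_sqrtCount
  have hvan : ∀ u z : G, Cfsg.IsPPart 2 u z → IsConj J z → ϑ u = 0 := by
    intro u z huz hJz
    simp only [ϑ, Cfsg.Agent.Lib.CharFS.Indicator.sqrtCount, Nat.cast_eq_zero, Finset.card_eq_zero,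
      Finset.filter_eq_empty_iff, Finset.mem_univ, true_implies]
    intro x hx
    obtain ⟨s, hs⟩ := Cfsg.Agent.Lib.Blocks.Sections.isPPart_exists_pow_eq huz
    have hzo : orderOf z = 2 := by
      obtain ⟨g, rfl⟩ := isConj_iff.mp hJz
      rw [Cfsg.Agent.Lib.Char.Klein4.orderOf_conj_eq', hJ2]
    have hv2 : (x ^ s) ^ 2 = z := by
      rw [← pow_mul, mul_comm, pow_mul, hx, hs]
    have hv4 : (x ^ s) ^ (2 ^ 2) = 1 := by
      rw [show (2 : ℕ) ^ 2 = 2 * 2 by norm_num, pow_mul, hv2, ← hzo, pow_orderOf_eq_one]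
    obtain ⟨j, -, hj⟩ := (Nat.dvd_prime_pow (by norm_num : Nat.Prime 2)).mp (orderOf_dvd_of_pow_eq_one hv4)
    have := hk.mul_self hj
    rw [← pow_two, hv2] at this
    rw [this] at hzo
    simp at hzo
  have hpart : Cfsg.IsPPart 2 J J := ⟨1, by simp, Commute.one_right J, ⟨1, by simpa using hJ2⟩, by simp⟩
  have hbp := Cfsg.Agent.Lib.Blocks.Sections.blockPart_eq_zero_of_section hM hϑ
    (x := J) ⟨1, by simpa using hJ2⟩ hvan (Cfsg.Agent.Lib.Blocks.Principal.isPBlock_principalBlock M) hpart (IsConj.refl J)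
  rw [Cfsg.Agent.Lib.Blocks.Sections.blockPart_eq_sum, Cfsg.Agent.Lib.Char.Klein4.sum_T_eq hMp hB hdist] at hbp
  have hchar : ∀ χ : Cfsg.IrrCharacter G, Cfsg.classInner ϑ (χ : G → ℂ) =
      Cfsg.Agent.Lib.CharFS.Indicator.nu (χ : G → ℂ) := fun χ =>
    Cfsg.Agent.Lib.CharFS.Indicator.classInner_sqrtCount
      (Cfsg.Agent.Lib.Char.Basic.isCharacter_of_isIrrCharacter χ.2)
  simp only [hchar, hv1, hv2, hv3, Cfsg.Agent.Lib.Blocks.Principal.coe_trivChar] at hbp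
  have hnu1 : Cfsg.classInner ϑ (fun _ : G => (1 : ℂ)) = 1 := by
    have h3 := hchar (Cfsg.Agent.Lib.Blocks.Principal.trivChar G)
    simp only [Cfsg.Agent.Lib.Blocks.Principal.coe_trivChar] at h3
    rw [h3]
    simp [Cfsg.Agent.Lib.CharFS.Indicator.nu, Nat.card_eq_fintype_card]
  rw [hnu1] at hbp
  -- odd degree characters: value of the indicator
  have hnuval : ∀ (χ : Cfsg.IrrCharacter G) (ε : ℤ), χ ∈ Cfsg.principalBlock M G → (χ : G → ℂ) J = ε →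
      (ε = 1 ∨ ε = -1) → ((∀ g, ((χ : G → ℂ) g).im = 0) ∧ Cfsg.Agent.Lib.CharFS.Indicator.nu (χ : G → ℂ) = 1) ∨
        ((∃ g, conj ((χ : G → ℂ) g) ≠ (χ : G → ℂ) g) ∧ Cfsg.Agent.Lib.CharFS.Indicator.nu (χ : G → ℂ) = 0) := by
    intro χ ε hχ hv hε
    have hd := Cfsg.Agent.Lib.Char.Klein4.deg_mod_four hk hM hJ2 hχ hv
    by_cases hreal : ∀ g, ((χ : G → ℂ) g).im = 0
    · left
      refine ⟨hreal, ?_⟩
      have hodd : Odd (Cfsg.charDegree (χ : G → ℂ)) := by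
        rw [Nat.odd_iff]
        rcases hε with rfl | rfl <;> omega
      have := Cfsg.Agent.S0895.result (χ : G → ℂ) χ.2 hreal (Cfsg.charDegree (χ : G → ℂ))
        (Cfsg.Agent.Lib.Char.Values.IsCharacter.charDegree_cast
          (Cfsg.Agent.Lib.Char.Basic.isCharacter_of_isIrrCharacter χ.2)).symm hodd
      simpa only [Cfsg.Agent.Lib.CharFS.Indicator.nu, pow_two] using this
    · right
      push Not at hreal
      obtain ⟨g, hg⟩ := hreal
      have hne : conj ((χ : G → ℂ) g) ≠ (χ : G → ℂ) g := fun h => hg (Complex.conj_eq_iff_im.1 h)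
      exact ⟨⟨g, hne⟩, Cfsg.Agent.Lib.CharFS.Tri.nu_of_not_real χ.2 ⟨g, hne⟩⟩
  have hN1 := hnuval χ₁ 1 (hmem _ (by simp)) hv1 he1
  have hN2 := hnuval χ₂ 1 (hmem _ (by simp)) hv2 he2
  have hN3 := hnuval χ₃ (-1) (hmem _ (by simp)) hv3 he3
  have hnr : (∃ g, conj ((χ₁ : G → ℂ) g) ≠ (χ₁ : G → ℂ) g) ∧ (∀ g, ((χ₃ : G → ℂ) g).im = 0) := by
    rcases hN1 with ⟨h1r, h1n⟩ | ⟨h1r, h1n⟩ <;> rcases hN2 with ⟨h2r, h2n⟩ | ⟨h2r, h2n⟩ <;>
      rcases hN3 with ⟨h3r, h3n⟩ | ⟨h3r, h3n⟩ <;> rw [h1n, h2n, h3n] at hbp <;> norm_num at hbp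
    exact ⟨h1r, h3r⟩
  obtain ⟨hnr1, hreal3⟩ := hnr
  -- the conjugate of χ₁ is χ₂
  have hconjmem : Cfsg.Agent.Lib.Blocks.RealBlock.irrConj χ₁ ∈ Cfsg.principalBlock M G := by
    have hs : Cfsg.SameBlock M ((Cfsg.Agent.Lib.Blocks.Principal.trivChar G : Cfsg.IrrCharacter G) : G → ℂ) (χ₁ : G → ℂ) :=
      hmem χ₁ (by simp)
    have h3 := Cfsg.Agent.Lib.Blocks.RealBlock.sameBlock_irrConj hs
    have h4 : Cfsg.Agent.Lib.Blocks.RealBlock.irrConj (Cfsg.Agent.Lib.Blocks.Principal.trivChar G) =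
        Cfsg.Agent.Lib.Blocks.Principal.trivChar G := by
      apply Subtype.ext
      funext g
      simp
    rw [h4] at h3
    exact h3
  have hcases := hconjmem
  rw [hB] at hcases
  have hx12 : Cfsg.charDegree (χ₁ : G → ℂ) = Cfsg.charDegree (χ₂ : G → ℂ) := by
    have hdegconj : ∀ χ ψ : Cfsg.IrrCharacter G, Cfsg.Agent.Lib.Blocks.RealBlock.irrConj χ = ψ →
        Cfsg.charDegree (χ : G → ℂ) = Cfsg.charDegree (ψ : G → ℂ) := by
      intro χ ψ h3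
      rw [Cfsg.charDegree, Cfsg.charDegree, ← h3, Cfsg.Agent.Lib.Blocks.RealBlock.irrConj_apply_one]
    rcases hcases with h3 | h3 | h3 | h3
    · exfalso
      apply hdist.1
      funext g
      have h4 := congrFun h3 g
      rw [Cfsg.Agent.Lib.Blocks.RealBlock.coe_irrConj] at h4
      have h5 := congrArg conj h4
      simpa using h5
    · exfalso
      obtain ⟨g, hg⟩ := hnr1
      apply hg
      rw [← Cfsg.Agent.Lib.Blocks.RealBlock.coe_irrConj, h3]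
    · exact hdegconj _ _ h3
    · exfalso
      apply hdist.2.2.2.2.1
      apply Subtype.ext
      funext g
      have h4 := congrFun (congrArg Subtype.val h3) g
      rw [Cfsg.Agent.Lib.Blocks.RealBlock.coe_irrConj] at h4
      have h5 := congrArg conj h4
      rw [Complex.conj_conj, Complex.conj_eq_iff_im.2 (hreal3 g)] at h5
      exact h5
  -- arithmetic
  set x := Cfsg.charDegree (χ₁ : G → ℂ) with hx
  rw [← hx12] at h1 h2 hp2
  set Q := Cfsg.charDegree (χ₃ : G → ℂ) with hQ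
  have hQx : Q = 2 * x + 1 := by
    have : (Q : ℤ) = 2 * x + 1 := by linarith
    exact_mod_cast this
  have hdvd : ∀ (χ : Cfsg.IrrCharacter G) (ε : ℤ), (χ : G → ℂ) J = ε → (ε = 1 ∨ ε = -1) →
      Cfsg.charDegree (χ : G → ℂ) ∣ (Subgroup.centralizer ({J} : Set G)).index := by
    intro χ ε hv hε
    have hint := Cfsg.Agent.Lib.Blocks.Central.isIntegral_centralChar χ.2 J
    rw [Cfsg.centralChar, hv, ← Cfsg.Agent.Lib.Char.Values.IsCharacter.charDegree_cast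
      (Cfsg.Agent.Lib.Char.Basic.isCharacter_of_isIrrCharacter χ.2)] at hint
    apply Cfsg.Agent.Lib.Char.Integrality.natCast_dvd_of_isIntegral_div
      (Cfsg.Agent.Lib.Char.Codegree.charDegree_pos χ.2).ne'
    rcases hε with rfl | rfl
    · simpa using hint
    · have := hint.neg
      simpa [neg_div] using this
  have hd1 : x ∣ (Subgroup.centralizer ({J} : Set G)).index := hdvd χ₁ 1 hv1 he1
  have hd3 : Q ∣ (Subgroup.centralizer ({J} : Set G)).index := hdvd χ₃ (-1) hv3 he3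
  have hcop : Nat.Coprime x Q := by
    rw [hQx]
    simp
  obtain ⟨n, hn⟩ := hcop.mul_dvd_of_dvd_of_dvd hd1 hd3
  set idx := (Subgroup.centralizer ({J} : Set G)).index with hidx
  set c := Nat.card (Subgroup.centralizer ({J} : Set G)) with hc
  set cP := Nat.card (Subgroup.centralizer ((P : Subgroup G) : Set G)) with hcP
  have hcard : Nat.card G = c * idx := (Subgroup.card_mul_index _).symm
  have hcPpos : 0 < cP := Nat.card_pos
  have hxpos : 0 < x := hp1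
  have hQpos : 0 < Q := hp3
  -- `n ((x+1) c_P)² = (2 c)²`
  have hkey : n * ((x + 1) * cP) ^ 2 = (2 * c) ^ 2 := by
    have h3 : ((n * ((x + 1) * cP) ^ 2 : ℕ) : ℤ) = (((2 * c) ^ 2 : ℕ) : ℤ) := by
      have hq : (Q : ℤ) = 2 * x + 1 := by exact_mod_cast hQx
      have hi : (idx : ℤ) = x * Q * n := by exact_mod_cast hn
      rw [hi, hq] at h2
      have hne : (x : ℤ) ^ 2 * (2 * x + 1) * 2 ≠ 0 := by positivity
      apply mul_left_cancel₀ hne
      push_cast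
      linear_combination h2
    exact_mod_cast h3
  have hdiv : (x + 1) * cP ∣ 2 * c := by
    rw [← Nat.pow_dvd_pow_iff (n := 2) (by norm_num)]
    exact ⟨n, by rw [← hkey]; ring⟩
  obtain ⟨m, hm⟩ := hdiv
  have hnm : n = m ^ 2 := by
    have hD : 0 < ((x + 1) * cP) ^ 2 := by positivity
    apply Nat.eq_of_mul_eq_mul_right hD
    rw [hkey, hm]
    ring
  subst hnm
  refine ⟨m, ?_, ?_⟩
  · rw [hQx]
    nlinarith [hm]
  · have hsub : Q ^ 3 - Q = 2 * x * Q * (2 * x + 2) := by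
      apply Nat.sub_eq_of_eq_add
      rw [hQx]
      ring
    rw [hsub, hcard, hn]
    have e : 2 * c = (x + 1) * cP * m := hm
    calc 8 * (c * (x * Q * m ^ 2)) = 4 * (2 * c) * x * Q * m ^ 2 := by ring
      _ = 4 * ((x + 1) * cP * m) * x * Q * m ^ 2 := by rw [e]
      _ = m ^ 3 * cP * (2 * x * Q * (2 * x + 2)) := by ring

end Cfsg.Agent.S4480
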