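import Mathlib
import Cfsg.Prelude.Def_Blocks
import Cfsg.Agent.Lib.Blocks.RegLift
import Cfsg.Agent.Lib.Blocks.RealBlock
set_option autoImplicit false
namespace Cfsg.Agent.S4483

open Cfsg Cfsg.Agent.Lib.Blocks.RealBlock Cfsg.Agent.Lib.Blocks.RegLift

/-- Let G be a finite group of order 2^n·g₀ with g₀ odd, and M a maximal ideal of the algebraic integers containing 2. Every real-valued irreducible character of G of odd degree lies in the principal 2-block; consequently G has at most 2^(2n) real-valued irreducible characters of odd degree. -/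
theorem result {G : Type*} [Group G] [Finite G] (M : Ideal Cfsg.AlgInt) (hM : Cfsg.IsPModular 2 M) : (∀ χ : Cfsg.IrrCharacter G, (∀ g : G, ((χ : G → ℂ) g).im = 0) → Odd (Cfsg.charDegree (χ : G → ℂ)) → χ ∈ Cfsg.principalBlock M G) ∧ Nat.card {χ : Cfsg.IrrCharacter G // (∀ g : G, ((χ : G → ℂ) g).im = 0) ∧ Odd (Cfsg.charDegree (χ : G → ℂ))} ≤ 2 ^ (2 * (Nat.card G).factorization 2) := by
  classical
  haveI : M.IsPrime := hM.2.1.isPrime
  haveI := Fintype.ofFinite G
  haveI : Finite (IrrCharacter G) := Cfsg.Agent.Lib.Char.Complete.finite_irr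
  haveI := Fintype.ofFinite (IrrCharacter G)
  haveI : Fact (Nat.Prime 2) := ⟨Nat.prime_two⟩
  have h1 : ∀ χ : Cfsg.IrrCharacter G, (∀ g : G, ((χ : G → ℂ) g).im = 0) → Odd (Cfsg.charDegree (χ : G → ℂ)) → χ ∈ Cfsg.principalBlock M G :=
    fun χ h2 h3 => mem_principalBlock_of_real_of_odd hM h2 h3
  refine ⟨h1, ?_⟩
  rw [Nat.card_eq_fintype_card, Fintype.card_subtype]
  exact card_principalBlock_le hM _ (fun χ hχ => by
    rw [Finset.mem_filter] at hχ
    exact h1 χ hχ.2.1 hχ.2.2)

end Cfsg.Agent.S4483
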