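import Cfsg.Statements.S4485
import Mathlib
import Cfsg.Agent.Lib.Char.BlichfeldtE
import Cfsg.Agent.Lib.Char.LinearChars
-- import your own Cfsg.Agent.* helpers here

set_option autoImplicit false
open Cfsg

namespace Cfsg.Agent.S4485

open scoped Pointwise commutatorElement in
theorem main {G : Type*} [Group G] [Finite G] (p : ℕ) (hp : p.Prime) (hpG : p ∣ Nat.card G) (P : Sylow p G) (hstar : ∀ x ∈ (P : Subgroup G), x ≠ 1 → Subgroup.centralizer ({x} : Set G) = Subgroup.centralizer ((P : Subgroup G) : Set G)) (n : ℕ) (hn : Nat.card P = p ^ n) (χ : G → ℂ) (hχ : Cfsg.IsCharacter G χ) (hfaith : ∀ g : G, χ g = χ 1 → g = 1) (hdeg : Cfsg.charDegree χ ^ 2 + 1 < p ^ n) : (P : Subgroup G).Normal := by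
  classical
  cases nonempty_fintype G
  haveI : Fact p.Prime := ⟨hp⟩
  let G₀ : Subgroup G := Subgroup.normalClosure ((P : Subgroup G) : Set G)
  haveI hG₀n : G₀.Normal := Subgroup.normalClosure_normal
  have hle : (P : Subgroup G) ≤ G₀ := Subgroup.subset_normalClosure
  haveI : Fintype ↥G₀ := Fintype.ofFinite _
  let P₀ : Sylow p ↥G₀ := P.subtype hle
  have hcoe : ((P₀ : Sylow p ↥G₀) : Subgroup ↥G₀) = (P : Subgroup G).subgroupOf G₀ := P.coe_subtype hle
  have hmem : ∀ x : ↥G₀, x ∈ (P₀ : Subgroup ↥G₀) ↔ (x : G) ∈ (P : Subgroup G) := by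
    intro x
    rw [hcoe, Subgroup.mem_subgroupOf]
  have hstar₀ : ∀ x ∈ (P₀ : Subgroup ↥G₀), x ≠ 1 → Subgroup.centralizer ({x} : Set ↥G₀) =
      Subgroup.centralizer ((P₀ : Subgroup ↥G₀) : Set ↥G₀) := by
    intro x hx hx1
    have hx' : (x : G) ∈ (P : Subgroup G) := (hmem x).1 hx
    have hx1' : (x : G) ≠ 1 := fun h => hx1 (Subtype.ext h)
    have hc := hstar x hx' hx1'
    ext y
    rw [Subgroup.mem_centralizer_iff, Subgroup.mem_centralizer_iff]
    constructor
    · intro h v hv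
      have h1 : (y : G) ∈ Subgroup.centralizer ({(x : G)} : Set G) := by
        rw [Subgroup.mem_centralizer_iff]
        rintro w rfl
        exact congrArg Subtype.val (h x rfl)
      rw [hc, Subgroup.mem_centralizer_iff] at h1
      exact Subtype.ext (h1 _ ((hmem v).1 hv))
    · rintro h v rfl
      exact h _ hx
  have hn₀ : Nat.card (P₀ : Subgroup ↥G₀) = p ^ n := by
    rw [← hn, hcoe]
    exact Nat.card_congr (Subgroup.subgroupOfEquivOfLe hle).toEquiv
  have hnn₀ : ∀ K₀ : Subgroup ↥G₀, K₀.Normal → (P₀ : Subgroup ↥G₀) ≤ K₀ → K₀ = ⊤ := by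
    intro K₀ hK₀n hK₀
    have hconj : ∀ (g : G), ∀ u ∈ (P : Subgroup G), ∀ hm : g * u * g⁻¹ ∈ G₀,
        (⟨g * u * g⁻¹, hm⟩ : ↥G₀) ∈ K₀ := by
      intro g u hu hm
      let Q : Sylow p G := g • P
      have hQcoe : ((Q : Sylow p G) : Subgroup G) = MulAut.conj g • (P : Subgroup G) :=
        Sylow.coe_subgroup_smul
      have hQ : (Q : Subgroup G) ≤ G₀ := by
        intro y hy
        rw [hQcoe] at hy
        obtain ⟨v, hv, rfl⟩ := hy
        exact hG₀n.conj_mem _ (hle hv) g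
      obtain ⟨h, hh⟩ := MulAction.exists_smul_eq ↥G₀ P₀ (Q.subtype hQ)
      have hx : (⟨g * u * g⁻¹, hm⟩ : ↥G₀) ∈ ((Q.subtype hQ : Sylow p ↥G₀) : Subgroup ↥G₀) := by
        rw [Sylow.coe_subtype, Subgroup.mem_subgroupOf, hQcoe]
        exact ⟨u, hu, rfl⟩
      rw [← hh, Sylow.coe_subgroup_smul] at hx
      obtain ⟨v, hv, hvx⟩ := hx
      have hv' : v ∈ K₀ := hK₀ hv
      have := hK₀n.conj_mem v hv' h
      have hvx' : h * v * h⁻¹ = ⟨g * u * g⁻¹, hm⟩ := hvx
      rwa [hvx'] at this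
    have hclos : G₀ ≤ K₀.map G₀.subtype := by
      refine (Subgroup.closure_le _).2 ?_
      intro y hy
      obtain ⟨a, ha, hay⟩ := Group.mem_conjugatesOfSet_iff.1 hy
      obtain ⟨c, rfl⟩ := isConj_iff.1 hay
      have hm : c * a * c⁻¹ ∈ G₀ := hG₀n.conj_mem _ (hle ha) c
      exact ⟨⟨c * a * c⁻¹, hm⟩, hconj c a ha hm, rfl⟩
    rw [eq_top_iff]
    rintro z -
    obtain ⟨k, hk, hkz⟩ := hclos z.2
    have : k = z := Subtype.ext hkz
    rwa [← this]
  obtain ⟨D, e, hS⟩ := Cfsg.Agent.Lib.Char.BlichfeldtE.exists_setup p P₀ hstar₀ n hn₀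
  -- the restriction to `G₀` has only linear constituents
  have hres := Cfsg.Agent.Lib.Char.Basic.isCharacter_restrict hχ G₀
  obtain ⟨m, hm⟩ := Cfsg.Agent.Lib.Char.Ortho.exists_nat_decomp hres
  have hm' : ∀ c : ↥G₀, χ c = ∑ ξ : Cfsg.IrrCharacter ↥G₀, (m ξ : ℂ) * ξ.1 c := by
    intro c
    have := congrFun hm c
    simp only [Finset.sum_apply, nsmul_eq_mul] at this
    exact this
  have hx : χ 1 = (Cfsg.charDegree χ : ℕ) :=
    (Cfsg.Agent.Lib.Char.Values.IsCharacter.charDegree_cast hχ).symm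
  have hdegcast : ∀ ξ : Cfsg.IrrCharacter ↥G₀, ξ.1 1 = (Cfsg.charDegree ξ.1 : ℕ) := fun ξ =>
    (Cfsg.Agent.Lib.Char.Values.IsCharacter.charDegree_cast
      (Cfsg.Agent.Lib.Char.Basic.isCharacter_of_isIrrCharacter ξ.2)).symm
  have hsumdeg : Cfsg.charDegree χ = ∑ ξ : Cfsg.IrrCharacter ↥G₀, m ξ * Cfsg.charDegree ξ.1 := by
    have h1 := hm' 1
    have e2 : χ (((1 : ↥G₀) : G)) = χ 1 := rfl
    rw [e2, hx] at h1
    have h3 : ((Cfsg.charDegree χ : ℕ) : ℂ) =
        ((∑ ξ : Cfsg.IrrCharacter ↥G₀, m ξ * Cfsg.charDegree ξ.1 : ℕ) : ℂ) := by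
      rw [h1]
      push_cast
      refine Finset.sum_congr rfl fun ξ _ => ?_
      rw [hdegcast ξ]
    exact_mod_cast h3
  have hlin : ∀ ξ : Cfsg.IrrCharacter ↥G₀, m ξ ≠ 0 → ξ.1 1 = 1 := by
    intro ξ hξ
    by_cases h1 : ξ.1 = fun _ => 1
    · rw [h1]
    · have hle' : Cfsg.charDegree ξ.1 ≤ Cfsg.charDegree χ := by
        rw [hsumdeg]
        calc Cfsg.charDegree ξ.1 ≤ m ξ * Cfsg.charDegree ξ.1 :=
              Nat.le_mul_of_pos_left _ (Nat.pos_of_ne_zero hξ)
          _ ≤ _ := Finset.single_le_sum (f := fun ξ : Cfsg.IrrCharacter ↥G₀ => m ξ * Cfsg.charDegree ξ.1)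
              (fun _ _ => Nat.zero_le _) (Finset.mem_univ ξ)
      have hd : Cfsg.charDegree ξ.1 ^ 2 + 1 < p ^ n := by
        have : Cfsg.charDegree ξ.1 ^ 2 ≤ Cfsg.charDegree χ ^ 2 := Nat.pow_le_pow_left hle' 2
        omega
      obtain ⟨-, hx1⟩ := Cfsg.Agent.Lib.Char.BlichfeldtD.core hS hnn₀ ξ.2 h1 (hdegcast ξ) hd
      rw [hdegcast ξ, hx1]
      simp
  -- hence `G₀` is commutative
  have hcomm : ∀ a b : ↥G₀, a * b = b * a := by
    intro a b
    have hval : χ ((⁅a, b⁆ : ↥G₀) : G) = χ ((1 : ↥G₀) : G) := by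
      rw [hm', hm']
      refine Finset.sum_congr rfl fun ξ _ => ?_
      by_cases hξ : m ξ = 0
      · rw [hξ]; simp
      · congr 1
        obtain ⟨φ, hφ⟩ := Cfsg.Agent.Lib.Char.LinearChars.exists_hom_of_isCharacter_one
          (Cfsg.Agent.Lib.Char.Basic.isCharacter_of_isIrrCharacter ξ.2) (hlin ξ hξ)
        rw [hφ]
        have h3 : φ ⁅a, b⁆ = 1 := by
          rw [commutatorElement_def, map_mul, map_mul, map_mul, map_inv, map_inv,
            mul_comm (φ a) (φ b)]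
          simp
        simp [h3]
    have h1 : ((⁅a, b⁆ : ↥G₀) : G) = 1 := hfaith _ hval
    have h2 : (⁅a, b⁆ : ↥G₀) = 1 := Subtype.ext h1
    exact commutatorElement_eq_one_iff_mul_comm.1 h2
  -- conclusion
  have hnorm : G₀ ≤ Subgroup.normalizer ((P : Subgroup G) : Set G) := by
    intro g hg
    rw [Subgroup.mem_normalizer_iff]
    intro u
    have hcent : ∀ v ∈ (P : Subgroup G), g * v * g⁻¹ = v := by
      intro v hv
      have := hcomm ⟨g, hg⟩ ⟨v, hle hv⟩
      have h2 : g * v = v * g := congrArg Subtype.val this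
      rw [h2]
      simp
    constructor
    · intro hu
      rw [hcent u hu]
      exact hu
    · intro hu
      have h3 : g⁻¹ * (g * u * g⁻¹) * g = u := by group
      have h4 := hcomm ⟨g⁻¹, G₀.inv_mem hg⟩ ⟨g * u * g⁻¹, hle hu⟩
      have h5 : g⁻¹ * (g * u * g⁻¹) = (g * u * g⁻¹) * g⁻¹ := congrArg Subtype.val h4
      rw [← h3, h5]
      simpa using hu
  have htop := Sylow.normalizer_sup_eq_top' P hle
  have h6 : Subgroup.normalizer ((P : Subgroup G) : Set G) = ⊤ := by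
    rw [← htop]
    exact (sup_eq_left.2 hnorm).symm
  exact Subgroup.normalizer_eq_top_iff.1 h6

/-- Let G be a finite group and p a prime dividing its order such that every non-identity element of a Sylow p-subgroup P has the same centralizer as P itself (so P is abelian); let p^n be the order of P. If G has a faithful character of degree x with x² < p^n − 1, then P is normal in G. -/
theorem result {G : Type*} [Group G] [Finite G] (p : ℕ) (hp : p.Prime) (hpG : p ∣ Nat.card G) (P : Sylow p G) (hstar : ∀ x ∈ (P : Subgroup G), x ≠ 1 → Subgroup.centralizer ({x} : Set G) = Subgroup.centralizer ((P : Subgroup G) : Set G)) (n : ℕ) (hn : Nat.card P = p ^ n) (χ : G → ℂ) (hχ : Cfsg.IsCharacter G χ) (hfaith : ∀ g : G, χ g = χ 1 → g = 1) (hdeg : Cfsg.charDegree χ ^ 2 + 1 < p ^ n) : (P : Subgroup G).Normal :=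
  main p hp hpG P hstar n hn χ hχ hfaith hdeg

end Cfsg.Agent.S4485
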