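import Cfsg.Statements.S4486
import Mathlib
import Cfsg.Agent.Lib.Char.BlichfeldtE
-- import your own Cfsg.Agent.* helpers here

set_option autoImplicit false
open Cfsg

namespace Cfsg.Agent.S4486

/-- Let G be a finite group and p a prime dividing its order such that every non-identity element of a Sylow p-subgroup P has the same centralizer as P; let p^n be the order of P. If G has a non-principal irreducible character χ of degree x with x² < p^n − 1, then either G has a proper normal subgroup containing P, or G has a normal subgroup of index p^n and x = 1. -/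
theorem result {G : Type*} [Group G] [Finite G] (p : ℕ) (hp : p.Prime) (hpG : p ∣ Nat.card G) (P : Sylow p G) (hstar : ∀ x ∈ (P : Subgroup G), x ≠ 1 → Subgroup.centralizer ({x} : Set G) = Subgroup.centralizer ((P : Subgroup G) : Set G)) (n : ℕ) (hn : Nat.card P = p ^ n) (χ : Cfsg.IrrCharacter G) (h1 : (χ : G → ℂ) ≠ fun _ => 1) (hdeg : Cfsg.charDegree (χ : G → ℂ) ^ 2 + 1 < p ^ n) : (∃ K : Subgroup G, K.Normal ∧ K ≠ ⊤ ∧ (P : Subgroup G) ≤ K) ∨ ((∃ N : Subgroup G, N.Normal ∧ N.index = p ^ n) ∧ Cfsg.charDegree (χ : G → ℂ) = 1) := by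
  classical
  cases nonempty_fintype G
  haveI : Fact p.Prime := ⟨hp⟩
  by_cases hK : ∃ K : Subgroup G, K.Normal ∧ K ≠ ⊤ ∧ (P : Subgroup G) ≤ K
  · exact Or.inl hK
  · right
    have hnn : ∀ K : Subgroup G, K.Normal → (P : Subgroup G) ≤ K → K = ⊤ := by
      intro K h1 h2
      by_contra h3
      exact hK ⟨K, h1, h3, h2⟩
    obtain ⟨D, e, hS⟩ := Cfsg.Agent.Lib.Char.BlichfeldtE.exists_setup p P hstar n hn
    have hch := Cfsg.Agent.Lib.Char.Basic.isCharacter_of_isIrrCharacter χ.2
    have hx : (χ : G → ℂ) 1 = (Cfsg.charDegree (χ : G → ℂ) : ℕ) :=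
      (Cfsg.Agent.Lib.Char.Values.IsCharacter.charDegree_cast hch).symm
    obtain ⟨he, hx1⟩ := Cfsg.Agent.Lib.Char.BlichfeldtD.core hS hnn χ.2 h1 hx hdeg
    refine ⟨?_, hx1⟩
    subst he
    have hcard : Nat.card (Subgroup.normalizer ((P : Subgroup G) : Set G)) =
        Nat.card (Subgroup.centralizer ((P : Subgroup G) : Set G)) := by
      rw [hS.cardN, one_mul]
    have hle : Subgroup.normalizer ((P : Subgroup G) : Set G) ≤
        Subgroup.centralizer ((P : Subgroup G) : Set G) :=
      (Subgroup.eq_of_le_of_card_ge hS.hCN hcard.le).symm.le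
    have hcomp := MonoidHom.ker_transferSylow_isComplement' P hle
    refine ⟨(MonoidHom.transferSylow P hle).ker, MonoidHom.normal_ker _, ?_⟩
    rw [hcomp.symm.index_eq_card, hn]

end Cfsg.Agent.S4486
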