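import Cfsg.Statements.S4487
import Mathlib
import Cfsg.Agent.Lib.Blocks.CentSupport
import Cfsg.Agent.Lib.Basic.PCore

set_option autoImplicit false
open Cfsg

namespace Cfsg.Agent.S4487

/-- Let G be a finite group and p a prime such that G has no non-trivial normal subgroup of order prime to p and C_G(O_p(G)) ≤ O_p(G). Then G has a single p-block: any two irreducible characters lie in the same block relative to every maximal ideal M of the algebraic integers containing p. -/
theorem result {G : Type*} [Group G] [Finite G] (p : ℕ) [Fact p.Prime] (M : Ideal Cfsg.AlgInt) (hM : Cfsg.IsPModular p M) (hcore : Cfsg.pPrimeCore p G = ⊥) (hconstr : Subgroup.centralizer ((Cfsg.pCore p G) : Set G) ≤ Cfsg.pCore p G) (χ ψ : Cfsg.IrrCharacter G) : Cfsg.SameBlock M (χ : G → ℂ) (ψ : G → ℂ) := by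
  classical
  cases nonempty_fintype G
  have hMp := Cfsg.Agent.Lib.Blocks.Local.isPrime_of_isPModular hM
  haveI hPn : (Cfsg.pCore p G).Normal := Cfsg.Agent.Lib.Basic.PCore.pCore_normal p G
  have hPp : IsPGroup p (Cfsg.pCore p G) := Cfsg.Agent.Lib.Basic.PCore.pCore_isPGroup p
  haveI : Fintype (Cfsg.pCore p G) := Fintype.ofFinite _
  have hB : Cfsg.IsPBlock M (Cfsg.blockOf M (χ : G → ℂ)) := ⟨χ, rfl⟩
  set B := Cfsg.blockOf M (χ : G → ℂ) with hBdef
  set c := Cfsg.blockCoeff B 1 with hc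
  have he : Cfsg.Agent.Lib.Blocks.Osima.blockElt B = c • (1 : MonoidAlgebra ℂ G) := by
    ext g
    rw [Cfsg.Agent.Lib.Blocks.Osima.coeff_blockElt, MonoidAlgebra.coeff_smul_apply,
      Cfsg.Agent.Lib.Blocks.Central.coeff_one_apply, smul_eq_mul]
    by_cases hg1 : g = 1
    · subst hg1; simp [hc]
    rw [if_neg hg1, mul_zero]
    by_cases hg : g ∈ Cfsg.pCore p G
    · apply Cfsg.Agent.Lib.Blocks.Covering.blockCoeff_eq_zero_of_dvd hM hB
      have hpg : IsPGroup p (Cfsg.pCore p G) := hPp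
      obtain ⟨k, hk⟩ := hpg ⟨g, hg⟩
      have hk' : g ^ (p ^ k) = 1 := by
        have := congrArg Subtype.val hk
        simpa using this
      haveI hpp : Fact p.Prime := inferInstance
      obtain ⟨j, -, hj⟩ := (Nat.dvd_prime_pow hpp.out).1 (orderOf_dvd_of_pow_eq_one hk')
      rw [hj]
      have hj0 : j ≠ 0 := by
        rintro rfl
        rw [pow_zero, orderOf_eq_one_iff] at hj
        exact hg1 hj
      exact dvd_pow_self p hj0
    · exact Cfsg.Agent.Lib.Blocks.CentSupport.blockCoeff_eq_zero_of_notMem hM (Cfsg.pCore p G) hPp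
        (Cfsg.pCore p G) hconstr hB hg
  have hχB : χ ∈ B := Cfsg.Agent.Lib.Blocks.Osima.mem_blockOf_self χ
  have hc1 : c = 1 := by
    have h1 := Cfsg.Agent.Lib.Blocks.Osima.omega_blockElt_of_mem hχB
    rw [he, Cfsg.Agent.Lib.Blocks.Central.omega_smul, Cfsg.Agent.Lib.Blocks.Central.omega_one χ.2,
      mul_one] at h1
    exact h1
  by_contra hne
  have hψB : ψ ∉ B := hne
  have h1 := Cfsg.Agent.Lib.Blocks.Osima.omega_blockElt_of_notMem hψB
  rw [he, Cfsg.Agent.Lib.Blocks.Central.omega_smul, Cfsg.Agent.Lib.Blocks.Central.omega_one ψ.2,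
    mul_one, hc1] at h1
  exact one_ne_zero h1

end Cfsg.Agent.S4487
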