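import Mathlib
import Cfsg.Prelude.Def_Blocks
import Cfsg.Agent.Lib.Blocks.RealBlock
set_option autoImplicit false
namespace Cfsg.Agent.S4490

open Cfsg Cfsg.Agent.Lib.Blocks.Local Cfsg.Agent.Lib.Blocks.RealBlock Cfsg.Agent.Lib.Blocks.Osima Cfsg.Agent.Lib.Blocks.Central Cfsg.Agent.Lib.Blocks.Principal Cfsg.Agent.Lib.Blocks.Defect

theorem result {G : Type*} [Group G] [Finite G] (M : Ideal Cfsg.AlgInt) (hM : Cfsg.IsPModular 2 M) (B : Set (Cfsg.IrrCharacter G)) (hB : Cfsg.IsPBlock M B) (P : Sylow 2 G) (hfull : Cfsg.IsDefectGroup 2 M B (P : Subgroup G)) (hnp : B ≠ Cfsg.principalBlock M G) : {ψ : Cfsg.IrrCharacter G | ∃ χ ∈ B, (ψ : G → ℂ) = fun g => (starRingEnd ℂ) ((χ : G → ℂ) g)} ≠ B := by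
  haveI : M.IsPrime := hM.2.1.isPrime
  haveI := Fintype.ofFinite G
  intro hset
  apply hnp
  obtain ⟨χ, rfl⟩ := id hB
  have hst : ∀ ψ ∈ blockOf M (χ : G → ℂ), irrConj ψ ∈ blockOf M (χ : G → ℂ) := by
    intro ψ hψ
    rw [← hset] at hψ
    obtain ⟨χ₁, hχ₁, h1⟩ := hψ
    have h2 : irrConj ψ = χ₁ := by
      apply Subtype.ext
      funext g
      rw [coe_irrConj, h1]
      simp
    rw [h2]
    exact hχ₁
  have hmem : χ ∈ principalBlock M G := by
    refine mem_principalBlock_of_conj_stable hM hst ?_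
    intro g h1 h2 h3
    by_contra hg
    obtain ⟨g₀, hg₀, S, hS⟩ := hfull
    have heven := even_index_of_real h1 h2 h3
    obtain ⟨x, Q, hQ⟩ := (min_max hM _ hB g₀ hg₀ S g).2 ⟨χ, mem_blockOf_self χ, hg⟩
    rw [← hS] at hQ
    have h4 : Nat.card (P : Subgroup G) ∣ Nat.card (Subgroup.centralizer ({g} : Set G)) := by
      have h5 := Subgroup.card_dvd_of_le (hQ.trans (sylow_map_le Q))
      have h6 : Nat.card ((P : Subgroup G).map (MulAut.conj x).toMonoidHom) = Nat.card (P : Subgroup G) :=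
        Subgroup.card_map_of_injective (MulAut.conj x).injective
      rwa [h6] at h5
    rw [Sylow.card_eq_multiplicity] at h4
    have h7 := Subgroup.card_mul_index (Subgroup.centralizer ({g} : Set G))
    have h8 : 2 ^ ((Nat.card G).factorization 2 + 1) ∣ Nat.card G := by
      rw [pow_succ]
      conv_rhs => rw [← h7]
      exact mul_dvd_mul h4 heven
    exact Nat.pow_succ_factorization_not_dvd Nat.card_pos.ne' Nat.prime_two h8
  exact blockOf_eq_of_mem (χ := trivChar G) hmem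

end Cfsg.Agent.S4490
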