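import Mathlib
import Cfsg.Prelude.Def_Blocks
import Cfsg.Agent.Lib.Blocks.RegInt
import Cfsg.Agent.Lib.Blocks.HeightZero
import Cfsg.Agent.Lib.Blocks.SecondMain
set_option autoImplicit false
namespace Cfsg.Agent.S4491

open Cfsg Cfsg.Agent.Lib.Blocks.Local Cfsg.Agent.Lib.Blocks.Central Cfsg.Agent.Lib.Blocks.Regular Cfsg.Agent.Lib.Blocks.RegInt Cfsg.Agent.Lib.Blocks.RegNorm Cfsg.Agent.Lib.Blocks.Osima Cfsg.Agent.Lib.Blocks.Sections

variable {G : Type*} [Group G] [Fintype G] {p : ℕ} [hp : Fact p.Prime] {M : Ideal Cfsg.AlgInt} [hMp : M.IsPrime]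

/-- Block orthogonality with the identity. -/
lemma sum_block_degree_eq_zero (hM : IsPModular p M) {B : Set (IrrCharacter G)} (hB : IsPBlock M B) {y : G}
    (hy : p ∣ orderOf y) : ∑ᶠ χ ∈ B, (χ : G → ℂ) y * (χ : G → ℂ) 1 = 0 := by
  obtain ⟨x, hx⟩ := Cfsg.Agent.Lib.Blocks.SecondMain.exists_isPPart (p := p) y
  have h1 : IsPPart p (1 : G) 1 := ⟨1, by simp, Commute.one_left _, ⟨0, by simp⟩, by simp [(Fact.out : p.Prime).ne_one]⟩
  have hnc : ¬ IsConj x (1 : G) := by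
    intro hc
    have hx1 : x = 1 := by simpa using hc
    subst hx1
    obtain ⟨z, hz, -, -, hz2⟩ := hx
    rw [one_mul] at hz
    subst hz
    exact hz2 hy
  have := block_orthogonality hM hx h1 hnc hB
  simpa using this

/-- Let B be a p-block of defect d of the finite group G (relative to a maximal ideal M of the algebraic integers containing p), and let p^a be the p-part of the order of G. Then the exact power of p dividing the sum of the squares of the degrees of the irreducible characters in B is p^(2a − d). -/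
theorem result {G : Type*} [Group G] [Finite G] (p : ℕ) [Fact p.Prime] (M : Ideal Cfsg.AlgInt) (hM : Cfsg.IsPModular p M) (B : Set (Cfsg.IrrCharacter G)) (hB : Cfsg.IsPBlock M B) : (∑ᶠ χ ∈ B, Cfsg.charDegree (χ : G → ℂ) ^ 2).factorization p = 2 * (Nat.card G).factorization p - Cfsg.blockDefect p B := by
  classical
  haveI : M.IsPrime := hM.2.1.isPrime
  haveI := Fintype.ofFinite G
  haveI : Finite (IrrCharacter G) := Cfsg.Agent.Lib.Char.Complete.finite_irr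
  haveI := Fintype.ofFinite (IrrCharacter G)
  have hpp : p.Prime := Fact.out
  set deg : IrrCharacter G → ℕ := fun χ => charDegree (χ : G → ℂ) with hdeg
  have hdeg0 : ∀ χ, deg χ ≠ 0 := charDegree_ne_zero
  have hdegc : ∀ χ : IrrCharacter G, ((deg χ : ℕ) : ℂ) = (χ : G → ℂ) 1 := charDegree_cast
  set a := (Nat.card G).factorization p with ha
  -- nonemptiness and the character of height zero
  obtain ⟨χ₀, hχ₀⟩ := id hB
  have hnon : ((fun χ : IrrCharacter G => (charDegree (χ : G → ℂ)).factorization p) '' B).Nonempty :=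
    ⟨_, χ₀, by rw [hχ₀]; exact mem_blockOf_self χ₀, rfl⟩
  obtain ⟨ξ₀, hξ₀, hξ₀eq⟩ := Nat.sInf_mem hnon
  set s := sInf ((fun χ : IrrCharacter G => (charDegree (χ : G → ℂ)).factorization p) '' B) with hs
  simp only at hξ₀eq
  have hsle : ∀ χ ∈ B, s ≤ (deg χ).factorization p := fun χ hχ => Nat.sInf_le ⟨χ, hχ, rfl⟩
  have hsa : s ≤ a := by
    have := Cfsg.Agent.Lib.Blocks.HeightZero.charDegree_dvd_card ξ₀.2
    rw [← hξ₀eq]
    exact (Nat.factorization_le_iff_dvd (charDegree_ne_zero ξ₀) Nat.card_pos.ne').2 this p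
  have hdef : blockDefect p B = a - s := rfl
  have hgoal : 2 * a - blockDefect p B = a + s := by rw [hdef]; omega
  rw [hgoal]
  have hBξ : B = blockOf M (ξ₀ : G → ℂ) := by
    rw [hχ₀] at hξ₀ ⊢
    exact (blockOf_eq_of_mem hξ₀).symm
  have hheight : blockHeight p B (ξ₀ : G → ℂ) = 0 := by
    rw [blockHeight, ← hs, hξ₀eq, Nat.sub_self]
  have hps : ∀ χ ∈ B, p ^ s ∣ deg χ := fun χ hχ =>
    (Nat.Prime.pow_dvd_iff_le_factorization hpp (hdeg0 χ)).2 (hsle χ hχ)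
  -- the coefficients
  set X : IrrCharacter G → ℤ := fun χ => if χ ∈ B then ((deg χ / p ^ s : ℕ) : ℤ) else 0 with hX
  have hXB : ∀ χ ∈ B, ((deg χ : ℕ) : ℤ) = ((p ^ s : ℕ) : ℤ) * X χ := by
    intro χ hχ
    rw [hX]
    simp only [if_pos hχ]
    rw [← Nat.cast_mul, Nat.mul_div_cancel' (hps χ hχ)]
  have hXnB : ∀ χ, χ ∉ B → X χ = 0 := fun χ hχ => by rw [hX]; simp [hχ]
  have hX0 : ¬ (p : ℤ) ∣ X ξ₀ := by
    intro hd
    obtain ⟨t, ht⟩ := hd
    have h1 := hXB ξ₀ hξ₀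
    rw [ht] at h1
    have h2 : ((p ^ (s + 1) : ℕ) : ℤ) ∣ ((deg ξ₀ : ℕ) : ℤ) := by
      rw [h1, pow_succ]
      push_cast
      exact ⟨t, by ring⟩
    have h3 := (Nat.Prime.pow_dvd_iff_le_factorization hpp (hdeg0 ξ₀)).1 (Int.natCast_dvd_natCast.1 h2)
    have h4 : (deg ξ₀).factorization p = s := hξ₀eq
    omega
  choose J hJ1 hJ2 using fun χ : IrrCharacter G => regN_eq_pow_mul hM ξ₀ χ
  have hνξ : (charDegree (ξ₀ : G → ℂ)).factorization p = s := hξ₀eq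
  simp only [hνξ] at hJ1
  have hJ0 : ¬ (p : ℤ) ∣ J ξ₀ := by
    rw [dvd_iff_memLocalIdeal hM (hJ2 ξ₀)]
    exact not_memLocalIdeal_omega_zElt_self hM hB hξ₀ hheight
  have hps0 : ((p ^ s : ℕ) : ℂ) ≠ 0 := by exact_mod_cast (pow_pos hpp.pos _).ne'
  have hpsZ : ((p ^ s : ℕ) : ℤ) ≠ 0 := by exact_mod_cast (pow_pos hpp.pos _).ne'
  have hJnB : ∀ χ, χ ∉ B → J χ = 0 := by
    intro χ hχ
    have h1 : ¬ SameBlock M (ξ₀ : G → ℂ) (χ : G → ℂ) := by
      intro h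
      rw [hBξ] at hχ
      exact hχ h
    have h2 := classInner_reg_eq_zero hM h1
    have h3 := regI_eq_regN (p := p) ξ₀ χ
    rw [regI, h2, mul_zero, hJ1] at h3
    have h4 : ((p ^ s : ℕ) : ℤ) * J χ = 0 := by exact_mod_cast h3.symm
    exact (mul_eq_zero.1 h4).resolve_left hpsZ
  -- the congruence
  have hJm : ∀ χ ∈ B, (J χ : ℂ) * (pm p G : ℕ) = (X χ : ℂ) * omega (χ : G → ℂ) (zElt p (ξ₀ : G → ℂ)) := by
    intro χ hχ
    have h1 := regN_mul_pm (p := p) χ ξ₀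
    rw [regN_comm, hJ1, ← hdegc] at h1
    have h2 := hXB χ hχ
    have h3 : ((deg χ : ℕ) : ℂ) = ((p ^ s : ℕ) : ℂ) * (X χ : ℂ) := by exact_mod_cast h2
    rw [h3] at h1
    apply mul_left_cancel₀ hps0
    push_cast at h1 ⊢
    linear_combination h1
  have hcdvd : ∀ χ, (p : ℤ) ∣ J ξ₀ * X χ - X ξ₀ * J χ := by
    intro χ
    by_cases hχ : χ ∈ B
    · have h1 := hJm χ hχ
      have h2 := hJm ξ₀ hξ₀
      have hsb : SameBlock M (ξ₀ : G → ℂ) (χ : G → ℂ) := by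
        rw [hBξ] at hχ
        exact hχ
      have h3 := memLocalIdeal_omega_sub ξ₀.2 χ.2 hsb (zElt_mem_localCenter (M := M) (p := p) ξ₀.2)
      have h4 : MemLocalIdeal M (((J ξ₀ * X χ - X ξ₀ * J χ) * (pm p G : ℕ) : ℤ) : ℂ) := by
        have h5 : (((J ξ₀ * X χ - X ξ₀ * J χ) * (pm p G : ℕ) : ℤ) : ℂ) =
            ((X ξ₀ * X χ : ℤ) : ℂ) * (omega (ξ₀ : G → ℂ) (zElt p (ξ₀ : G → ℂ)) - omega (χ : G → ℂ) (zElt p (ξ₀ : G → ℂ))) := by
          push_cast
          linear_combination (X χ : ℂ) * h2 - (X ξ₀ : ℂ) * h1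
        rw [h5]
        exact memLocalIdeal_mul_left (memLocalRing_intCast _) h3
      rw [memLocalIdeal_intCast_iff hM] at h4
      have hp' : Prime (p : ℤ) := Nat.prime_iff_prime_int.1 hpp
      rcases hp'.dvd_or_dvd h4 with h6 | h6
      · exact h6
      · exact absurd (Int.natCast_dvd_natCast.1 h6) not_dvd_pm
    · rw [hXnB χ hχ, hJnB χ hχ]
      simp
  choose w hw using hcdvd
  -- the generalized character
  set F : G → ℂ := fun y => ∑ χ : IrrCharacter G, (w χ : ℂ) * (χ : G → ℂ) y with hF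
  have hFgen : IsGeneralizedCharacter G F := by
    have : F = ∑ χ : IrrCharacter G, (w χ : ℂ) • (χ : G → ℂ) := by
      funext y
      simp [hF, Finset.sum_apply]
    rw [this]
    exact Cfsg.Agent.Lib.Char.Virtual.isGeneralized_finset_sum _ fun χ _ =>
      Cfsg.Agent.Lib.Char.Virtual.isGeneralized_intCast_smul
        (Cfsg.Agent.Lib.Char.Virtual.isGeneralized_of_isIrr χ.2) _
  have hp0 : (p : ℂ) ≠ 0 := by exact_mod_cast hpp.ne_zero
  -- the expansion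
  have hFexp : ∀ y, (p : ℂ) * F y = (J ξ₀ : ℂ) * ∑ χ : IrrCharacter G, (X χ : ℂ) * (χ : G → ℂ) y -
      (X ξ₀ : ℂ) * ∑ χ : IrrCharacter G, (J χ : ℂ) * (χ : G → ℂ) y := by
    intro y
    rw [hF, Finset.mul_sum, Finset.mul_sum, Finset.mul_sum, ← Finset.sum_sub_distrib]
    refine Finset.sum_congr rfl fun χ _ => ?_
    have h1 := hw χ
    have h2 : (J ξ₀ : ℂ) * X χ - X ξ₀ * J χ = p * w χ := by exact_mod_cast h1
    linear_combination (-(χ : G → ℂ) y) * h2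
  have hXsum : ∀ y, ((p ^ s : ℕ) : ℂ) * ∑ χ : IrrCharacter G, (X χ : ℂ) * (χ : G → ℂ) y =
      ∑ χ : IrrCharacter G, if χ ∈ B then (χ : G → ℂ) y * (χ : G → ℂ) 1 else 0 := by
    intro y
    rw [Finset.mul_sum]
    refine Finset.sum_congr rfl fun χ _ => ?_
    by_cases hχ : χ ∈ B
    · rw [if_pos hχ, ← hdegc]
      have h3 : ((deg χ : ℕ) : ℂ) = ((p ^ s : ℕ) : ℂ) * (X χ : ℂ) := by exact_mod_cast hXB χ hχ
      rw [h3]
      ring
    · rw [if_neg hχ, hXnB χ hχ]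
      simp
  have hJsum : ∀ y, ((p ^ s : ℕ) : ℂ) * ∑ χ : IrrCharacter G, (J χ : ℂ) * (χ : G → ℂ) y =
      ((p ^ a : ℕ) : ℂ) * reg p (ξ₀ : G → ℂ) y := by
    intro y
    rw [pow_mul_reg_eq_sum, Finset.mul_sum]
    refine Finset.sum_congr rfl fun χ _ => ?_
    rw [hJ1]
    push_cast
    ring
  have hFv : ∀ y, p ∣ orderOf y → F y = 0 := by
    intro y hy
    have h1 := hFexp y
    have h2 : ∑ χ : IrrCharacter G, (X χ : ℂ) * (χ : G → ℂ) y = 0 := by
      apply (mul_eq_zero.1 _).resolve_left hps0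
      rw [hXsum, ← finsum_mem_eq_sum_ite]
      exact sum_block_degree_eq_zero hM hB hy
    have h3 : ∑ χ : IrrCharacter G, (J χ : ℂ) * (χ : G → ℂ) y = 0 := by
      apply (mul_eq_zero.1 _).resolve_left hps0
      rw [hJsum, reg_of_dvd _ hy, mul_zero]
    rw [h2, h3] at h1
    simp only [mul_zero, sub_self] at h1
    exact (mul_eq_zero.1 h1).resolve_left hp0
  obtain ⟨k, hk⟩ := exists_int_of_vanish hFgen hFv
  -- evaluation at one
  set E : ℕ := ∑ χ : IrrCharacter G, if χ ∈ B then deg χ ^ 2 else 0 with hE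
  have hEfin : (∑ᶠ χ ∈ B, charDegree (χ : G → ℂ) ^ 2) = E := by
    rw [finsum_mem_eq_sum_ite]
  rw [hEfin]
  set E' : ℤ := ∑ χ : IrrCharacter G, X χ * ((deg χ : ℕ) : ℤ) with hE'
  have hEE' : (E : ℤ) = ((p ^ s : ℕ) : ℤ) * E' := by
    rw [hE, hE', Finset.mul_sum]
    push_cast
    refine Finset.sum_congr rfl fun χ _ => ?_
    by_cases hχ : χ ∈ B
    · rw [if_pos hχ]
      have := hXB χ hχ
      push_cast at this ⊢
      rw [sq]
      nth_rewrite 1 [this]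
      ring
    · rw [if_neg hχ, hXnB χ hχ]
      simp
  have h1sum : ∑ χ : IrrCharacter G, (X χ : ℂ) * (χ : G → ℂ) 1 = (E' : ℂ) := by
    rw [hE']
    push_cast
    refine Finset.sum_congr rfl fun χ _ => ?_
    rw [← hdegc]
  have hregone : reg p (ξ₀ : G → ℂ) 1 = (ξ₀ : G → ℂ) 1 := by
    apply reg_of_not_dvd
    simp [hpp.ne_one]
  have hJone : ∑ χ : IrrCharacter G, (J χ : ℂ) * (χ : G → ℂ) 1 = ((p ^ a : ℕ) : ℂ) * (X ξ₀ : ℂ) := by
    apply mul_left_cancel₀ hps0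
    rw [hJsum, hregone, ← hdegc]
    have h3 : ((deg ξ₀ : ℕ) : ℂ) = ((p ^ s : ℕ) : ℂ) * (X ξ₀ : ℂ) := by exact_mod_cast hXB ξ₀ hξ₀
    rw [h3]
    ring
  have hmain : (J ξ₀ : ℂ) * (E' : ℂ) = ((p ^ a : ℕ) : ℂ) * (((p : ℂ) * k) + (X ξ₀ : ℂ) ^ 2) := by
    have h1 := hFexp 1
    rw [h1sum, hJone, hk] at h1
    linear_combination -h1
  have hmainZ : J ξ₀ * E' = ((p ^ a : ℕ) : ℤ) * ((p : ℤ) * k + X ξ₀ ^ 2) := by
    have h2 : ((J ξ₀ * E' : ℤ) : ℂ) = ((((p ^ a : ℕ) : ℤ) * ((p : ℤ) * k + X ξ₀ ^ 2) : ℤ) : ℂ) := by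
      push_cast at hmain ⊢
      exact hmain
    exact Int.cast_injective h2
  -- valuation
  have hp' : Prime (p : ℤ) := Nat.prime_iff_prime_int.1 hpp
  have hunit : ¬ (p : ℤ) ∣ (p : ℤ) * k + X ξ₀ ^ 2 := by
    intro hd
    have h2 : (p : ℤ) ∣ X ξ₀ ^ 2 := (Int.dvd_add_right (Dvd.intro k rfl)).1 hd
    exact hX0 (hp'.dvd_of_dvd_pow h2)
  have hcop : IsCoprime ((p ^ a : ℕ) : ℤ) (J ξ₀) := by
    push_cast
    apply IsCoprime.pow_left
    exact (Prime.coprime_iff_not_dvd hp').2 hJ0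
  have hdvdE' : ((p ^ a : ℕ) : ℤ) ∣ E' := hcop.dvd_of_dvd_mul_left ⟨_, hmainZ⟩
  obtain ⟨e, he⟩ := hdvdE'
  have hpa : ((p ^ a : ℕ) : ℤ) ≠ 0 := by exact_mod_cast (pow_pos hpp.pos _).ne'
  have he2 : J ξ₀ * e = (p : ℤ) * k + X ξ₀ ^ 2 := by
    apply mul_left_cancel₀ hpa
    rw [← hmainZ, he]
    ring
  have hnde : ¬ (p : ℤ) ∣ e := by
    intro hd
    apply hunit
    rw [← he2]
    exact Dvd.dvd.mul_left hd _
  have hEe : (E : ℤ) = ((p ^ (s + a) : ℕ) : ℤ) * e := by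
    rw [hEE', he, pow_add]
    push_cast
    ring
  have hE0 : E ≠ 0 := by
    intro h0
    rw [h0] at hEe
    have he0 : e = 0 := by
      have : ((p ^ (s + a) : ℕ) : ℤ) ≠ 0 := by exact_mod_cast (pow_pos hpp.pos _).ne'
      have h2 : ((p ^ (s + a) : ℕ) : ℤ) * e = 0 := by simpa using hEe.symm
      exact (mul_eq_zero.1 h2).resolve_left this
    exact hnde (he0 ▸ dvd_zero _)
  have hle : a + s ≤ E.factorization p := by
    apply (Nat.Prime.pow_dvd_iff_le_factorization hpp hE0).1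
    rw [add_comm]
    exact Int.natCast_dvd_natCast.1 ⟨e, hEe⟩
  have hge : ¬ a + s + 1 ≤ E.factorization p := by
    intro h1
    have h2 := (Nat.Prime.pow_dvd_iff_le_factorization hpp hE0).2 h1
    have h3 : ((p ^ (a + s + 1) : ℕ) : ℤ) ∣ (E : ℤ) := Int.natCast_dvd_natCast.2 h2
    rw [hEe] at h3
    have h4 : ((p ^ (a + s + 1) : ℕ) : ℤ) = ((p ^ (s + a) : ℕ) : ℤ) * (p : ℤ) := by
      rw [add_comm a s, pow_succ]
      push_cast
      ring
    rw [h4] at h3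
    have h5 : ((p ^ (s + a) : ℕ) : ℤ) ≠ 0 := by exact_mod_cast (pow_pos hpp.pos _).ne'
    exact hnde ((mul_dvd_mul_iff_left h5).1 h3)
  omega

end Cfsg.Agent.S4491
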