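import Cfsg.Statements.S4493
import Mathlib
import Cfsg.Agent.Lib.Char.ItoMichler
import Cfsg.Agent.S0169

set_option autoImplicit false
open Cfsg

namespace Cfsg.Agent.S4493

open Cfsg.Agent.Lib.Char.ItoMichler Cfsg.Agent.Lib.Coprime.PSolvable

/-- An abelian normal subgroup of index prime to `p` forces all degrees to be prime to `p`. -/
theorem degPrime_of_normal_abelian {G : Type*} [Group G] [Finite G] {p : ℕ}
    (P : Subgroup G) [P.Normal] (hab : ∀ x ∈ P, ∀ y ∈ P, x * y = y * x) (hP : ¬ p ∣ P.index)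
    (χ : Cfsg.IrrCharacter G) : ¬ p ∣ Cfsg.charDegree (χ : G → ℂ) := by
  obtain ⟨m, ρ, hρ, hβ⟩ := χ.2
  haveI := hρ
  have h1 := Cfsg.Agent.S0169.result ρ P hab
  have hdeg : (χ : G → ℂ) 1 = ((Module.finrank ℂ (Fin m → ℂ) : ℕ) : ℂ) := by
    rw [← hβ, ρ.char_one]
  have hc := Cfsg.Agent.Lib.Char.Values.IsCharacter.charDegree_eq
    (Cfsg.Agent.Lib.Char.Values.IsIrrCharacter.isCharacter χ.2) hdeg
  rw [hc]
  intro h
  exact hP (h.trans h1)

/-- Let G be a finite solvable group and p a prime. Then G has a normal abelian Sylow p-subgroup if and only if no irreducible character degree of G is divisible by p. -/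
theorem result {G : Type*} [Group G] [Finite G] (hsolv : Group.IsSolvable G) (p : ℕ) (hp : p.Prime) : (∃ P : Subgroup G, P.Normal ∧ (∀ x ∈ P, ∀ y ∈ P, x * y = y * x) ∧ IsPGroup p P ∧ ¬ p ∣ P.index) ↔ ∀ χ : Cfsg.IrrCharacter G, ¬ p ∣ Cfsg.charDegree (χ : G → ℂ) := by
  haveI : Fact p.Prime := ⟨hp⟩
  constructor
  · rintro ⟨P, hPn, hab, -, hi⟩
    haveI := hPn
    exact degPrime_of_normal_abelian P hab hi
  · intro hD
    obtain ⟨S⟩ : Nonempty (Sylow p G) := Sylow.nonempty
    have hn := normal_of_degPrime hp _ G rfl (isPSolvable_of_isSolvable hp hsolv) hD (S : Subgroup G)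
      S.isPGroup' S.not_dvd_index
    haveI := hn
    refine ⟨S, hn, ?_, S.isPGroup', S.not_dvd_index⟩
    intro x hx y hy
    have := mul_comm_of_degPrime hp hD S.isPGroup' ⟨x, hx⟩ ⟨y, hy⟩
    exact congrArg Subtype.val this

end Cfsg.Agent.S4493
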