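import Cfsg.Statements.S4495
import Cfsg.Agent.Lib.Basic.ConjCount
import Mathlib

set_option autoImplicit false
open Cfsg

namespace Cfsg.Agent.S4495

variable {G : Type*} [Group G] [Finite G] {p : ℕ} {x : G}

theorem zpowers_eq_of_mem (hp : p.Prime) (hx : orderOf x = p) {y : G}
    (hy : y ∈ Subgroup.zpowers x) (hy1 : y ≠ 1) : Subgroup.zpowers y = Subgroup.zpowers x := by
  apply Subgroup.eq_of_le_of_card_ge
  · rwa [Subgroup.zpowers_le]
  · rw [Nat.card_zpowers, Nat.card_zpowers, hx]
    have h1 : orderOf y ∣ p := by
      rw [← hx]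
      exact orderOf_dvd_of_mem_zpowers hy
    rcases (Nat.dvd_prime hp).mp h1 with h2 | h2
    · exact absurd (orderOf_eq_one_iff.mp h2) hy1
    · exact h2.ge

theorem orderOf_of_mem (hp : p.Prime) (hx : orderOf x = p) {y : G}
    (hy : y ∈ Subgroup.zpowers x) (hy1 : y ≠ 1) : orderOf y = p := by
  have h1 : orderOf y ∣ p := by
    rw [← hx]
    exact orderOf_dvd_of_mem_zpowers hy
  rcases (Nat.dvd_prime hp).mp h1 with h2 | h2
  · exact absurd (orderOf_eq_one_iff.mp h2) hy1
  · exact h2

theorem commute_of_mem {y z : G} (hy : y ∈ Subgroup.zpowers x) (hz : z ∈ Subgroup.zpowers x) :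
    y * z = z * y := by
  obtain ⟨a, rfl⟩ := Subgroup.mem_zpowers_iff.mp hy
  obtain ⟨b, rfl⟩ := Subgroup.mem_zpowers_iff.mp hz
  rw [← zpow_add, ← zpow_add, add_comm]

theorem centralizer_eq (hp : p.Prime) (hx : orderOf x = p)
    (hC : Subgroup.centralizer ({x} : Set G) = Subgroup.zpowers x) {y : G}
    (hy : y ∈ Subgroup.zpowers x) (hy1 : y ≠ 1) :
    Subgroup.centralizer ({y} : Set G) = Subgroup.zpowers x := by
  apply le_antisymm
  · intro g hg
    have hg' := Subgroup.mem_centralizer_singleton_iff.mp hg
    have hx' : x ∈ Subgroup.zpowers y := by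
      rw [zpowers_eq_of_mem hp hx hy hy1]
      exact Subgroup.mem_zpowers x
    obtain ⟨k, rfl⟩ := Subgroup.mem_zpowers_iff.mp hx'
    rw [← hC]
    apply Subgroup.mem_centralizer_singleton_iff.mpr
    exact (show Commute g y from hg').zpow_right k
  · intro g hg
    exact Subgroup.mem_centralizer_singleton_iff.mpr (commute_of_mem hg hy)

/-- The subgroup generated by a self-centralizing element of prime order is Sylow. -/
theorem exists_sylow [hf : Fact p.Prime] (hx : orderOf x = p)
    (hC : Subgroup.centralizer ({x} : Set G) = Subgroup.zpowers x) :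
    ∃ S : Sylow p G, (S : Subgroup G) = Subgroup.zpowers x := by
  have hp := hf.out
  have hZ : IsPGroup p (Subgroup.zpowers x) := by
    apply IsPGroup.of_card (n := 1)
    rw [Nat.card_zpowers, hx, pow_one]
  obtain ⟨Q, hQ⟩ := hZ.exists_le_sylow
  refine ⟨Q, le_antisymm ?_ hQ⟩
  have hxQ : x ∈ (Q : Subgroup G) := hQ (Subgroup.mem_zpowers x)
  have hx1 : x ≠ 1 := by
    rintro rfl
    rw [orderOf_one] at hx
    exact hp.one_lt.ne hx
  haveI : Nontrivial (Q : Subgroup G) :=
    ⟨⟨⟨x, hxQ⟩, 1, fun h => hx1 (congrArg Subtype.val h)⟩⟩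
  have hcn := Q.2.center_nontrivial
  obtain ⟨z, hz⟩ := exists_ne (1 : Subgroup.center (Q : Subgroup G))
  have hz1 : ((z : Q) : G) ≠ 1 := fun h => hz (Subtype.ext (Subtype.ext h))
  have hzc : ∀ g : (Q : Subgroup G), g * z.1 = z.1 * g := Subgroup.mem_center_iff.mp z.2
  have hzP : ((z : Q) : G) ∈ Subgroup.zpowers x := by
    rw [← hC]
    apply Subgroup.mem_centralizer_singleton_iff.mpr
    have := hzc ⟨x, hxQ⟩
    exact (congrArg Subtype.val this).symm
  intro g hg
  rw [← centralizer_eq hp hx hC hzP hz1]
  apply Subgroup.mem_centralizer_singleton_iff.mpr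
  have := hzc ⟨g, hg⟩
  exact congrArg Subtype.val this

/-- The size of the part of a conjugacy class inside `⟨x⟩`. -/
theorem card_fiber_mul (hp : p.Prime) (hx : orderOf x = p)
    (hC : Subgroup.centralizer ({x} : Set G) = Subgroup.zpowers x) {y : G}
    (hy : y ∈ Subgroup.zpowers x) (hy1 : y ≠ 1) :
    Nat.card {y' : G // y' ∈ Subgroup.zpowers x ∧ IsConj y y'} * p =
      Nat.card (Subgroup.normalizer (Subgroup.zpowers x : Set G)) := by
  set N := Subgroup.normalizer (Subgroup.zpowers x : Set G) with hN
  have hyN : y ∈ N := Subgroup.le_normalizer hy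
  let y₁ : N := ⟨y, hyN⟩
  have h1 := Cfsg.Agent.Lib.Basic.ConjCount.card_isConj_mul_card_centralizer y₁
  have h2 : Nat.card {z : N // IsConj y₁ z} =
      Nat.card {y' : G // y' ∈ Subgroup.zpowers x ∧ IsConj y y'} := by
    refine Nat.card_congr ⟨fun z => ⟨z.1.1, ?_, ?_⟩, fun z => ⟨⟨z.1, ?_⟩, ?_⟩, ?_, ?_⟩
    · obtain ⟨c, hc⟩ := isConj_iff.mp z.2
      have hc2 : (c : G) * y * (c : G)⁻¹ = z.1.1 := by
        have := congrArg Subtype.val hc
        simpa [y₁] using this
      rw [← hc2]
      exact (Subgroup.mem_normalizer_iff.mp c.2 y).mp hy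
    · obtain ⟨c, hc⟩ := isConj_iff.mp z.2
      have hc2 : (c : G) * y * (c : G)⁻¹ = z.1.1 := by
        have := congrArg Subtype.val hc
        simpa [y₁] using this
      exact isConj_iff.mpr ⟨c, hc2⟩
    · exact Subgroup.le_normalizer z.2.1
    · obtain ⟨c, hc⟩ := isConj_iff.mp z.2.2
      -- `c` normalizes
      have hcN : c ∈ N := by
        have hy'1 : z.1 ≠ 1 := by
          intro h
          rw [h] at hc
          apply hy1
          have : y = c⁻¹ * (c * y * c⁻¹) * c := by group
          rw [this, hc]
          group
        have e1 := centralizer_eq hp hx hC z.2.1 hy'1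
        have e2 := centralizer_eq hp hx hC hy hy1
        rw [Subgroup.mem_normalizer_iff]
        intro w
        constructor
        · intro hw
          rw [← e1]
          apply Subgroup.mem_centralizer_singleton_iff.mpr
          have hw' : w * y = y * w := by
            rw [← e2] at hw
            exact Subgroup.mem_centralizer_singleton_iff.mp hw
          rw [← hc]
          calc c * w * c⁻¹ * (c * y * c⁻¹) = c * (w * y) * c⁻¹ := by group
            _ = c * (y * w) * c⁻¹ := by rw [hw']
            _ = _ := by group
        · intro hw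
          rw [← e2]
          apply Subgroup.mem_centralizer_singleton_iff.mpr
          have hw' : c * w * c⁻¹ * z.1 = z.1 * (c * w * c⁻¹) := by
            rw [← e1] at hw
            exact Subgroup.mem_centralizer_singleton_iff.mp hw
          rw [← hc] at hw'
          have h3 : c * (w * y) * c⁻¹ = c * (y * w) * c⁻¹ := by
            calc c * (w * y) * c⁻¹ = c * w * c⁻¹ * (c * y * c⁻¹) := by group
              _ = c * y * c⁻¹ * (c * w * c⁻¹) := hw'
              _ = _ := by group
          exact mul_left_cancel (mul_right_cancel h3)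
      exact isConj_iff.mpr ⟨⟨c, hcN⟩, Subtype.ext hc⟩
    · intro z
      rfl
    · intro z
      rfl
  have h3 : Nat.card (Subgroup.centralizer ({y₁} : Set N)) = p := by
    have h4 : Nat.card (Subgroup.centralizer ({y₁} : Set N)) = Nat.card (Subgroup.zpowers x) := by
      refine Nat.card_congr ⟨fun g => ⟨g.1.1, ?_⟩, fun g => ⟨⟨g.1, Subgroup.le_normalizer g.2⟩, ?_⟩, ?_, ?_⟩
      · rw [← centralizer_eq hp hx hC hy hy1]
        apply Subgroup.mem_centralizer_singleton_iff.mpr
        have := Subgroup.mem_centralizer_singleton_iff.mp g.2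
        exact congrArg Subtype.val this
      · apply Subgroup.mem_centralizer_singleton_iff.mpr
        apply Subtype.ext
        exact commute_of_mem g.2 hy
      · intro g
        rfl
      · intro g
        rfl
    rw [h4, Nat.card_zpowers, hx]
  rw [h2, h3] at h1
  exact h1

/-- Let the finite group G contain an element x of prime order p with C_G(x) = ⟨x⟩, and let t be the number of conjugacy classes of elements of order p. If t ≠ p − 1 then the commutator subgroup has index at most (p − 1)/t; if t = p − 1 it has index exactly p. -/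
theorem result {G : Type*} [Group G] [Finite G] (p : ℕ) (hp : p.Prime) (x : G) (hx : orderOf x = p) (hC : Subgroup.centralizer ({x} : Set G) = Subgroup.zpowers x) (t : ℕ) (ht : Nat.card {C : ConjClasses G // ∃ g ∈ C.carrier, orderOf g = p} = t) : (t ≠ p - 1 → (commutator G).index * t ≤ p - 1) ∧ (t = p - 1 → (commutator G).index = p) := by
  classical
  haveI : Fact p.Prime := ⟨hp⟩
  haveI := Fintype.ofFinite G
  haveI : Fintype (ConjClasses G) := Fintype.ofFinite _
  set P := Subgroup.zpowers x with hP
  have hPcard : Nat.card P = p := by rw [hP, Nat.card_zpowers, hx]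
  obtain ⟨S, hS⟩ : ∃ S : Sylow p G, (S : Subgroup G) = P := exists_sylow hx hC
  set N := Subgroup.normalizer (P : Set G) with hN
  have hPN : P ≤ N := Subgroup.le_normalizer
  -- `e`
  obtain ⟨e, he⟩ : ∃ e, Nat.card N = e * p := by
    have h1 : Nat.card P ∣ Nat.card N := Subgroup.card_dvd_of_le hPN
    rw [hPcard] at h1
    obtain ⟨e, he⟩ := h1
    exact ⟨e, by rw [he, mul_comm]⟩
  -- counting
  have hcount : t * e = p - 1 := by
    let Pf : Finset G := Finset.univ.filter (fun y => y ∈ P ∧ y ≠ 1)
    have hPf : Pf.card = p - 1 := by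
      have h1 : (Finset.univ.filter (fun y => y ∈ P)).card = p := by
        rw [← hPcard]
        exact (Nat.subtype_card _ (fun y => by simp)).symm
      have h2 : Finset.univ.filter (fun y => y ∈ P) = insert 1 Pf := by
        ext y
        simp only [Finset.mem_filter, Finset.mem_univ, true_and, Finset.mem_insert, Pf]
        constructor
        · intro hy
          by_cases hy1 : y = 1
          · exact Or.inl hy1
          · exact Or.inr ⟨hy, hy1⟩
        · rintro (rfl | h)
          · exact P.one_mem
          · exact h.1
      rw [h2, Finset.card_insert_of_notMem (by simp [Pf])] at h1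
      omega
    let Tf : Finset (ConjClasses G) := Finset.univ.filter (fun C => ∃ g ∈ C.carrier, orderOf g = p)
    have hTf : t = Tf.card := by
      rw [← ht]
      exact Nat.subtype_card Tf (fun C => by simp [Tf])
    have hmaps : ∀ y ∈ Pf, ConjClasses.mk y ∈ Tf := by
      intro y hy
      obtain ⟨-, hy1, hy2⟩ := Finset.mem_filter.mp hy
      refine Finset.mem_filter.mpr ⟨Finset.mem_univ _, y, ?_, orderOf_of_mem hp hx hy1 hy2⟩
      exact ConjClasses.mem_carrier_mk
    have hfib : ∀ C ∈ Tf, (Pf.filter (fun y => ConjClasses.mk y = C)).card = e := by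
      intro C hC'
      obtain ⟨g, hg, hgo⟩ := (Finset.mem_filter.mp hC').2
      have hgC : ConjClasses.mk g = C := ConjClasses.mem_carrier_iff_mk_eq.mp hg
      -- conjugate `g` into `P`
      have hg1 : g ≠ 1 := by
        rintro rfl
        rw [orderOf_one] at hgo
        exact hp.one_lt.ne hgo
      have hZ : IsPGroup p (Subgroup.zpowers g) := by
        apply IsPGroup.of_card (n := 1)
        rw [Nat.card_zpowers, hgo, pow_one]
      obtain ⟨Q, hQ⟩ := hZ.exists_le_sylow
      obtain ⟨c, hc⟩ := MulAction.exists_smul_eq G Q S
      have hy : c * g * c⁻¹ ∈ P := by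
        rw [← hS, ← hc]
        exact Subgroup.mem_map.mpr ⟨g, hQ (Subgroup.mem_zpowers g), rfl⟩
      set y := c * g * c⁻¹ with hyd
      have hy1 : y ≠ 1 := by
        intro h
        apply hg1
        have : g = c⁻¹ * y * c := by rw [hyd]; group
        rw [this, h]
        group
      have hyC : ConjClasses.mk y = C := by
        rw [← hgC, ConjClasses.mk_eq_mk_iff_isConj, isConj_comm]
        exact isConj_iff.mpr ⟨c, rfl⟩
      have h1 := card_fiber_mul hp hx hC hy hy1
      rw [he] at h1
      have h2 := Nat.eq_of_mul_eq_mul_right hp.pos h1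
      rw [← h2]
      symm
      apply Nat.subtype_card
      intro y'
      simp only [Finset.mem_filter, Finset.mem_univ, true_and, Pf, ← hyC,
        ConjClasses.mk_eq_mk_iff_isConj]
      constructor
      · rintro ⟨⟨h3, -⟩, h4⟩
        exact ⟨h3, h4.symm⟩
      · rintro ⟨h3, h4⟩
        refine ⟨⟨h3, ?_⟩, h4.symm⟩
        rintro rfl
        exact hy1 (isConj_one_right.mp h4.symm)
    have h3 : Pf.card = Tf.card * e := by
      rw [Finset.card_eq_sum_card_fiberwise (f := ConjClasses.mk) (t := Tf) hmaps,
        Finset.sum_const_nat hfib]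
    rw [hTf, ← h3, hPf]
  have hp2 := hp.two_le
  constructor
  · -- `e > 1`
    intro htne
    have he1 : e ≠ 1 := by
      rintro rfl
      rw [mul_one] at hcount
      exact htne hcount
    have hcardN : Nat.card P < Nat.card N := by
      rw [hPcard, he]
      have he0 : e ≠ 0 := by
        rintro rfl
        rw [mul_zero] at hcount
        omega
      have : 2 ≤ e := by omega
      nlinarith [hp.pos]
    -- an element of `N` outside `P`
    have hex : ∃ g ∈ N, g ∉ P := by
      by_contra hno
      push Not at hno
      have : N ≤ P := hno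
      have := Subgroup.card_le_of_le this
      omega
    obtain ⟨g, hgN, hgP⟩ := hex
    have hPG' : P ≤ commutator G := by
      have hy : g * x * g⁻¹ * x⁻¹ ∈ P :=
        P.mul_mem ((Subgroup.mem_normalizer_iff.mp hgN x).mp (Subgroup.mem_zpowers x))
          (P.inv_mem (Subgroup.mem_zpowers x))
      have hy1 : g * x * g⁻¹ * x⁻¹ ≠ 1 := by
        intro h
        apply hgP
        rw [← hC]
        apply Subgroup.mem_centralizer_singleton_iff.mpr
        have h2 : g * x * g⁻¹ = x := by
          have := mul_inv_eq_one.mp h
          exact this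
        calc g * x = g * x * g⁻¹ * g := by group
          _ = x * g := by rw [h2]
      have hyc : g * x * g⁻¹ * x⁻¹ ∈ commutator G := by
        have := Subgroup.commutator_mem_commutator (Subgroup.mem_top g) (Subgroup.mem_top x)
        rw [commutator_def]
        exact this
      have h9 : P = Subgroup.zpowers (g * x * g⁻¹ * x⁻¹) := (zpowers_eq_of_mem hp hx hy hy1).symm
      rw [h9, Subgroup.zpowers_le]
      exact hyc
    have hSG' : (S : Subgroup G) ≤ commutator G := by rw [hS]; exact hPG'
    have hsup : N ⊔ commutator G = ⊤ := by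
      have := Sylow.normalizer_sup_eq_top' S hSG'
      have e1 : (S : Set G) = (P : Set G) := by rw [← hS]; rfl
      rw [e1] at this
      exact this
    have hidx : (commutator G).index ∣ e := by
      have h1 : (commutator G).index = (commutator G).relIndex N := by
        have h2 := Subgroup.relIndex_sup_right N (commutator G)
        rw [hsup, Subgroup.relIndex_top_right] at h2
        exact h2
      rw [h1]
      have h3 : ((commutator G).subgroupOf N).index ∣ (P.subgroupOf N).index := by
        apply Subgroup.index_dvd_of_le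
        exact fun a ha => Subgroup.mem_subgroupOf.mpr (hPG' (Subgroup.mem_subgroupOf.mp ha))
      have h4 : (P.subgroupOf N).index = e := by
        have h5 := Subgroup.card_mul_index (P.subgroupOf N)
        rw [Nat.card_congr (Subgroup.subgroupOfEquivOfLe hPN).toEquiv, hPcard, he, mul_comm] at h5
        exact Nat.eq_of_mul_eq_mul_right hp.pos h5
      rwa [h4] at h3
    have he0 : 0 < e := by
      apply Nat.pos_of_ne_zero
      rintro rfl
      rw [mul_zero] at hcount
      omega
    have h5 := Nat.le_of_dvd he0 hidx
    rw [← hcount, mul_comm t]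
    exact Nat.mul_le_mul_right _ h5
  · -- `e = 1`
    intro hteq
    have he1 : e = 1 := by
      rw [hteq] at hcount
      have hpos : 0 < p - 1 := by omega
      have h1 : (p - 1) * e = (p - 1) * 1 := by rw [hcount, mul_one]
      exact Nat.eq_of_mul_eq_mul_left hpos h1
    rw [he1, one_mul] at he
    have hNP : N ≤ (S : Subgroup G) := by
      rw [hS]
      have h7 : P = N := Subgroup.eq_of_le_of_card_ge hPN (by rw [he, hPcard])
      exact h7.ge
    have hNS : Subgroup.normalizer ((S : Subgroup G) : Set G) = N := by rw [hS]
    have hle : Subgroup.normalizer ((S : Subgroup G) : Set G) ≤ Subgroup.centralizer ((S : Subgroup G) : Set G) := by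
      rw [hNS]
      intro g hg
      rw [Subgroup.mem_centralizer_iff]
      intro y hy
      have hg' := hNP hg
      rw [hS] at hg'
      have hy' : y ∈ P := hS.le hy
      exact commute_of_mem hy' hg'
    let f := MonoidHom.transferSylow S hle
    have hc := MonoidHom.ker_transferSylow_isComplement' S hle
    have hKidx : f.ker.index = p := by
      have h1 : f.ker.index = Nat.card (S : Subgroup G) := hc.symm.index_eq_card
      have h2 : Nat.card (S : Subgroup G) = p := by rw [hS]; exact hPcard
      exact h1.trans h2
    have hKcard := Subgroup.card_mul_index f.ker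
    rw [hKidx] at hKcard
    have hG'K : commutator G ≤ f.ker := by
      rw [commutator_def, Subgroup.commutator_le]
      intro a _ b _
      rw [MonoidHom.mem_ker, map_commutatorElement, commutatorElement_eq_one_iff_commute]
      apply Subtype.ext
      exact commute_of_mem (x := x) (hS.le (f a).2) (hS.le (f b).2)
    have hKG' : f.ker ≤ commutator G := by
      -- the class of `x` is the coset `x K`
      have hclass := Cfsg.Agent.Lib.Basic.ConjCount.card_isConj_mul_card_centralizer x
      rw [hC, Nat.card_zpowers, hx, ← hKcard] at hclass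
      have hclass' := Nat.eq_of_mul_eq_mul_right hp.pos hclass
      let cl : Finset G := Finset.univ.filter (fun y => IsConj x y)
      let co : Finset G := Finset.univ.filter (fun y => x⁻¹ * y ∈ f.ker)
      have hcl : cl.card = Nat.card f.ker := by
        rw [← hclass']
        exact (Nat.subtype_card cl (fun y => by simp [cl])).symm
      have hco : co.card = Nat.card f.ker := by
        have : Nat.card f.ker = (Finset.univ.filter (fun y => y ∈ f.ker)).card :=
          Nat.subtype_card _ (fun y => by simp)
        rw [this]
        apply Finset.card_bij (fun y _ => x⁻¹ * y)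
        · intro y hy
          simpa [co] using hy
        · intro a _ b _ h
          exact mul_left_cancel h
        · intro b hb
          refine ⟨x * b, ?_, by group⟩
          simpa [co] using hb
      have hsub : cl ⊆ co := by
        intro y hy
        obtain ⟨g, rfl⟩ := isConj_iff.mp (Finset.mem_filter.mp hy).2
        refine Finset.mem_filter.mpr ⟨Finset.mem_univ _, hG'K ?_⟩
        have := Subgroup.commutator_mem_commutator (Subgroup.mem_top x⁻¹) (Subgroup.mem_top g)
        rw [commutator_def]
        have h2 : x⁻¹ * (g * x * g⁻¹) = x⁻¹ * g * x⁻¹⁻¹ * g⁻¹ := by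
          group
        rw [h2]
        exact this
      have heq : cl = co := Finset.eq_of_subset_of_card_le hsub (by rw [hcl, hco])
      intro k hk
      have hxk : x * k ∈ co := Finset.mem_filter.mpr ⟨Finset.mem_univ _, by simpa using hk⟩
      rw [← heq] at hxk
      obtain ⟨g, hg⟩ := isConj_iff.mp (Finset.mem_filter.mp hxk).2
      have h3 : k = x⁻¹ * g * x⁻¹⁻¹ * g⁻¹ := by
        have h4 : x⁻¹ * g * x⁻¹⁻¹ * g⁻¹ = x⁻¹ * (g * x * g⁻¹) := by group
        rw [h4, hg]
        group
      rw [h3, commutator_def]
      exact Subgroup.commutator_mem_commutator (Subgroup.mem_top x⁻¹) (Subgroup.mem_top g)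
    rw [le_antisymm hG'K hKG', hKidx]

end Cfsg.Agent.S4495
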