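import Cfsg.Statements.S4496
import Mathlib
import Cfsg.Agent.Lib.Basic.SylowConj

set_option autoImplicit false
open Cfsg

namespace Cfsg.Agent.S4496

open scoped Pointwise

variable {G : Type*} [Group G] [Finite G]

theorem mem_zpowers_of_ne_one {p : ℕ} (hp : p.Prime) {x z : G} (hx : orderOf x = p)
    (hz : z ∈ Subgroup.zpowers x) (hz1 : z ≠ 1) : x ∈ Subgroup.zpowers z := by
  haveI : Fact p.Prime := ⟨hp⟩
  have hc : Nat.card (Subgroup.zpowers x) = p := by rw [Nat.card_zpowers, hx]
  have h := mem_zpowers_of_prime_card (g := (⟨z, hz⟩ : Subgroup.zpowers x))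
    (g' := (⟨x, Subgroup.mem_zpowers x⟩ : Subgroup.zpowers x)) hc
    (fun h => hz1 (congrArg Subtype.val h))
  obtain ⟨k, hk⟩ := h
  exact ⟨k, congrArg Subtype.val hk⟩

theorem zpowers_sylow {p : ℕ} [Fact p.Prime] {x : G} (hx : orderOf x = p)
    (hC : Subgroup.centralizer ({x} : Set G) = Subgroup.zpowers x) :
    ∃ P : Sylow p G, (P : Subgroup G) = Subgroup.zpowers x := by
  have hp : p.Prime := Fact.out
  have hx1 : x ≠ 1 := by
    intro h
    rw [h, orderOf_one] at hx
    exact hp.one_lt.ne hx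
  have hcard : Nat.card (Subgroup.zpowers x) = p := by rw [Nat.card_zpowers, hx]
  have hpg : IsPGroup p (Subgroup.zpowers x) := IsPGroup.of_card (n := 1) (by rw [hcard, pow_one])
  obtain ⟨P, hP⟩ := hpg.exists_le_sylow
  refine ⟨P, le_antisymm ?_ hP⟩
  haveI : Nontrivial (P : Subgroup G) := by
    refine ⟨⟨⟨x, hP (Subgroup.mem_zpowers x)⟩, 1, fun h => hx1 (congrArg Subtype.val h)⟩⟩
  haveI := P.2.center_nontrivial
  obtain ⟨y, hy⟩ := exists_ne (1 : Subgroup.center (P : Subgroup G))
  have hy1 : ((y : (P : Subgroup G)) : G) ≠ 1 := fun h => hy (Subtype.ext (Subtype.ext h))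
  have hyx : ((y : (P : Subgroup G)) : G) ∈ Subgroup.zpowers x := by
    rw [← hC, Subgroup.mem_centralizer_singleton_iff]
    have := Subgroup.mem_center_iff.mp y.2 ⟨x, hP (Subgroup.mem_zpowers x)⟩
    exact (congrArg Subtype.val this).symm
  have hxy := mem_zpowers_of_ne_one hp hx hyx hy1
  intro w hw
  rw [← hC, Subgroup.mem_centralizer_singleton_iff]
  obtain ⟨k, hk⟩ := hxy
  have hcomm : w * ((y : (P : Subgroup G)) : G) = ((y : (P : Subgroup G)) : G) * w :=
    congrArg Subtype.val (Subgroup.mem_center_iff.mp y.2 ⟨w, hw⟩)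
  rw [← hk]
  exact ((Commute.zpow_right (show Commute w ((y : (P : Subgroup G)) : G) from hcomm) k))

/-- subgroups of order `p` are conjugates of `⟨x⟩`. -/
theorem exists_conj_of_card {p : ℕ} [Fact p.Prime] {x : G} (hx : orderOf x = p)
    (hC : Subgroup.centralizer ({x} : Set G) = Subgroup.zpowers x) (H : Subgroup G)
    (hH : Nat.card H = p) : ∃ g : G, g * x * g⁻¹ ∈ H ∧ ∀ z ∈ H, ∃ k : ℤ, z = g * x ^ k * g⁻¹ := by
  obtain ⟨P, hP⟩ := zpowers_sylow hx hC
  have hpg : IsPGroup p H := IsPGroup.of_card (n := 1) (by rw [hH, pow_one])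
  obtain ⟨Q, hQ⟩ := hpg.exists_le_sylow
  obtain ⟨g, hg⟩ := MulAction.exists_smul_eq G P Q
  have hQc : Nat.card (Q : Subgroup G) = p := by
    rw [Q.card_eq_multiplicity, ← P.card_eq_multiplicity, hP, Nat.card_zpowers, hx]
  have hHQ : H = Q := Subgroup.eq_of_le_of_card_ge hQ (by rw [hQc, hH])
  have hmem : ∀ z, z ∈ H ↔ ∃ k : ℤ, z = g * x ^ k * g⁻¹ := by
    intro z
    rw [hHQ, ← hg, Sylow.coe_subgroup_smul, Subgroup.mem_smul_pointwise_iff_exists]
    constructor
    · rintro ⟨a, ha, rfl⟩
      rw [hP] at ha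
      obtain ⟨k, rfl⟩ := ha
      exact ⟨k, rfl⟩
    · rintro ⟨k, rfl⟩
      refine ⟨x ^ k, ?_, rfl⟩
      rw [hP]
      exact ⟨k, rfl⟩
  refine ⟨g, (hmem _).mpr ⟨1, by simp⟩, fun z hz => (hmem z).mp hz⟩

/-- Part (a). -/
theorem part_a {p : ℕ} [Fact p.Prime] {x : G} (hx : orderOf x = p)
    (hC : Subgroup.centralizer ({x} : Set G) = Subgroup.zpowers x) (S : Subgroup G) [S.Normal]
    (hS : p ∣ Nat.card S) : commutator G ≤ S := by
  have hp : p.Prime := Fact.out
  obtain ⟨P, hP⟩ := zpowers_sylow hx hC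
  -- `x ∈ S`
  have hxS : x ∈ S := by
    obtain ⟨y, hy⟩ := exists_prime_orderOf_dvd_card' (G := S) p hS
    have hyo : orderOf (y : G) = p := by rw [Subgroup.orderOf_coe]; exact hy
    have hH : Nat.card (Subgroup.zpowers (y : G)) = p := by rw [Nat.card_zpowers, hyo]
    obtain ⟨g, hg, -⟩ := exists_conj_of_card hx hC _ hH
    obtain ⟨k, hk⟩ := hg
    have h1 : g * x * g⁻¹ ∈ S := by
      rw [← hk]
      exact Subgroup.zpow_mem _ y.2 k
    have h2 : x = g⁻¹ * (g * x * g⁻¹) * g⁻¹⁻¹ := by group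
    rw [h2]
    exact ‹S.Normal›.conj_mem _ h1 _
  have hzS : Subgroup.zpowers x ≤ S := by
    rw [Subgroup.zpowers_le]
    exact hxS
  have hPS : (P : Subgroup G) ≤ S := hP ▸ hzS
  have hF : Subgroup.normalizer ((P : Subgroup G) : Set G) ⊔ S = ⊤ :=
    Sylow.normalizer_sup_eq_top' P hPS
  -- normalizer elements
  have hnorm : ∀ n ∈ Subgroup.normalizer ((P : Subgroup G) : Set G), ∃ i : ℤ, n * x * n⁻¹ = x ^ i := by
    intro n hn
    have h1 : n * x * n⁻¹ ∈ (P : Subgroup G) :=
      (Subgroup.mem_normalizer_iff.mp hn x).mp (hP ▸ Subgroup.mem_zpowers x)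
    rw [hP] at h1
    obtain ⟨i, hi⟩ := h1
    exact ⟨i, hi.symm⟩
  have hcomm : ∀ n ∈ Subgroup.normalizer ((P : Subgroup G) : Set G),
      ∀ m ∈ Subgroup.normalizer ((P : Subgroup G) : Set G), (m * n)⁻¹ * (n * m) ∈ S := by
    intro n hn m hm
    obtain ⟨i, hi⟩ := hnorm n hn
    obtain ⟨j, hj⟩ := hnorm m hm
    apply hzS
    rw [← hC, Subgroup.mem_centralizer_singleton_iff]
    have h1 : (n * m) * x * (n * m)⁻¹ = x ^ (i * j) := by
      have : (n * m) * x * (n * m)⁻¹ = n * (m * x * m⁻¹) * n⁻¹ := by group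
      rw [this, hj, ← conj_zpow, hi, zpow_mul]
    have h2 : (m * n) * x * (m * n)⁻¹ = x ^ (j * i) := by
      have : (m * n) * x * (m * n)⁻¹ = m * (n * x * n⁻¹) * m⁻¹ := by group
      rw [this, hi, ← conj_zpow, hj, zpow_mul]
    rw [mul_comm j i] at h2
    have h3 : (n * m) * x * (n * m)⁻¹ = (m * n) * x * (m * n)⁻¹ := h1.trans h2.symm
    have h4 : (m * n)⁻¹ * (n * m) * x = x * ((m * n)⁻¹ * (n * m)) := by
      calc (m * n)⁻¹ * (n * m) * x = (m * n)⁻¹ * ((n * m) * x * (n * m)⁻¹) * (n * m) := by group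
        _ = (m * n)⁻¹ * ((m * n) * x * (m * n)⁻¹) * (n * m) := by rw [h3]
        _ = x * ((m * n)⁻¹ * (n * m)) := by group
    exact h4
  -- decomposition
  have hdec : ∀ a : G, ∃ n ∈ Subgroup.normalizer ((P : Subgroup G) : Set G), ∃ s ∈ S, n * s = a := by
    intro a
    have : a ∈ Subgroup.normalizer ((P : Subgroup G) : Set G) ⊔ S := by
      rw [hF]
      exact Subgroup.mem_top a
    have h2 : a ∈ ((Subgroup.normalizer ((P : Subgroup G) : Set G) ⊔ S : Subgroup G) : Set G) := this
    rw [Subgroup.mul_normal, Set.mem_mul] at h2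
    obtain ⟨n, hn, s, hs, h⟩ := h2
    exact ⟨n, hn, s, hs, h⟩
  rw [commutator_def, Subgroup.commutator_le]
  intro a _ b _
  obtain ⟨n, hn, s, hs, rfl⟩ := hdec a
  obtain ⟨m, hm, t, ht, rfl⟩ := hdec b
  rw [← QuotientGroup.eq_one_iff, commutatorElement_def]
  have h1 : (QuotientGroup.mk s : G ⧸ S) = 1 := (QuotientGroup.eq_one_iff s).mpr hs
  have h2 : (QuotientGroup.mk t : G ⧸ S) = 1 := (QuotientGroup.eq_one_iff t).mpr ht
  have h3 : (QuotientGroup.mk ((m * n)⁻¹ * (n * m)) : G ⧸ S) = 1 :=
    (QuotientGroup.eq_one_iff _).mpr (hcomm n hn m hm)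
  simp only [QuotientGroup.mk_mul, QuotientGroup.mk_inv, h1, h2, mul_one, inv_one] at h3 ⊢
  have h4 : (n : G ⧸ S) * (m : G ⧸ S) = (m : G ⧸ S) * (n : G ⧸ S) := by
    have : ((m : G ⧸ S) * (n : G ⧸ S))⁻¹ * ((n : G ⧸ S) * (m : G ⧸ S)) = 1 := by
      simpa [mul_assoc] using h3
    exact (inv_mul_eq_one.mp this).symm
  rw [h4]
  group

section partb

variable {p : ℕ} [Fact p.Prime] {x : G} (hx : orderOf x = p)
  (hC : Subgroup.centralizer ({x} : Set G) = Subgroup.zpowers x) (S : Subgroup G) [hN : S.Normal]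
  (hS : ¬ p ∣ Nat.card S)

include hx hS in
theorem eq_one_of_mem_of_orderOf {z : G} (hzS : z ∈ S) (hz : orderOf z = p) : False := by
  have : orderOf (⟨z, hzS⟩ : S) = p := by
    rw [← Subgroup.orderOf_coe]
    exact hz
  exact hS (this ▸ orderOf_dvd_natCard _)

include hS in
/-- A subgroup of order `p` meets `S` trivially. -/
theorem inf_trivial {H : Subgroup G} (hH : Nat.card H = p) {z : G} (hzH : z ∈ H) (hzS : z ∈ S) :
    z = 1 := by
  have hp : p.Prime := Fact.out
  by_contra hz1
  have h1 : orderOf (⟨z, hzH⟩ : H) ∣ p := hH ▸ orderOf_dvd_natCard _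
  have h2 : orderOf z = p := by
    rw [← Subgroup.orderOf_mk z hzH]
    rcases (Nat.dvd_prime hp).mp h1 with h | h
    · rw [orderOf_eq_one_iff] at h
      exact absurd (congrArg Subtype.val h) hz1
    · exact h
  exact hS (by
    have : orderOf (⟨z, hzS⟩ : S) = p := by
      rw [Subgroup.orderOf_mk]
      exact h2
    exact this ▸ orderOf_dvd_natCard _)

include hx hC hS in
/-- `|S| ≡ 1 mod p`. -/
theorem card_mod : Nat.card S % p = 1 := by
  have hp : p.Prime := Fact.out
  have hcard : Nat.card (Subgroup.zpowers x) = p := by rw [Nat.card_zpowers, hx]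
  have hpg : IsPGroup p (Subgroup.zpowers x) := IsPGroup.of_card (n := 1) (by rw [hcard, pow_one])
  letI : MulAction (Subgroup.zpowers x) S :=
    MulAction.compHom S ((MulAut.conjNormal (H := S)).comp (Subgroup.zpowers x).subtype)
  have hsmul : ∀ (u : Subgroup.zpowers x) (s : S), ((u • s : S) : G) = (u : G) * s * (u : G)⁻¹ := by
    intro u s
    exact MulAut.conjNormal_apply (u : G) s
  have hmod := hpg.card_modEq_card_fixedPoints S
  have hfix : Nat.card (MulAction.fixedPoints (Subgroup.zpowers x) S) = 1 := by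
    rw [Nat.card_eq_one_iff_unique]
    refine ⟨⟨?_⟩, ⟨⟨1, ?_⟩⟩⟩
    · rintro ⟨a, ha⟩ ⟨b, hb⟩
      have key : ∀ c : S, c ∈ MulAction.fixedPoints (Subgroup.zpowers x) S → c = 1 := by
        intro c hc
        have h1 := hc ⟨x, Subgroup.mem_zpowers x⟩
        have h2 := congrArg Subtype.val h1
        rw [hsmul] at h2
        have h3 : (c : G) ∈ Subgroup.zpowers x := by
          rw [← hC, Subgroup.mem_centralizer_singleton_iff]
          have h4 : x * (c : G) * x⁻¹ = c := h2
          rw [mul_inv_eq_iff_eq_mul] at h4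
          exact h4.symm
        have h5 : (c : G) = 1 := inf_trivial S hS (H := Subgroup.zpowers x) hcard h3 c.2
        exact Subtype.ext h5
      exact Subtype.ext ((key a ha).trans (key b hb).symm)
    · intro u
      apply Subtype.ext
      rw [hsmul]
      simp
  rw [hfix] at hmod
  have : Nat.card S % p = 1 % p := hmod
  rw [this, Nat.mod_eq_of_lt hp.one_lt]

include hx hC hS in
/-- The conjugation action of `S` on subgroups of order `p` is free. -/
theorem stab_trivial {H : Subgroup G} (hH : Nat.card H = p) {s : G} (hs : s ∈ S)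
    (hstab : ∀ z ∈ H, s * z * s⁻¹ ∈ H) : s = 1 := by
  obtain ⟨g, hg, hgH⟩ := exists_conj_of_card hx hC H hH
  set y := g * x * g⁻¹ with hy
  have h1 : s * y * s⁻¹ * y⁻¹ ∈ H := H.mul_mem (hstab y hg) (H.inv_mem hg)
  have h2 : s * y * s⁻¹ * y⁻¹ ∈ S := by
    have : s * y * s⁻¹ * y⁻¹ = s * (y * s⁻¹ * y⁻¹) := by group
    rw [this]
    exact S.mul_mem hs (hN.conj_mem _ (S.inv_mem hs) y)
  have h3 := inf_trivial S hS hH h1 h2
  have h4 : s * y = y * s := by
    have : s * y * s⁻¹ = y := by
      rwa [mul_inv_eq_one] at h3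
    rwa [mul_inv_eq_iff_eq_mul] at this
  have h5 : g⁻¹ * s * g ∈ Subgroup.zpowers x := by
    rw [← hC, Subgroup.mem_centralizer_singleton_iff]
    calc g⁻¹ * s * g * x = g⁻¹ * (s * y) * g := by rw [hy]; group
      _ = g⁻¹ * (y * s) * g := by rw [h4]
      _ = x * (g⁻¹ * s * g) := by rw [hy]; group
  obtain ⟨k, hk⟩ := h5
  have h6 : s ∈ H := by
    have hk' : s = y ^ k := by
      rw [hy, conj_zpow]
      have : x ^ k = g⁻¹ * s * g := hk
      rw [this]
      group
    rw [hk']
    exact H.zpow_mem hg k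
  exact inf_trivial S hS hH h6 hs

include hx hC hS in
theorem card_dvd : Nat.card S ∣ Nat.card {H : Subgroup G // Nat.card H = p} := by
  classical
  have hcardconj : ∀ (s : S) (H : Subgroup G), Nat.card (H.map (MulAut.conj (s : G)).toMonoidHom) = Nat.card H := by
    intro s H
    exact Subgroup.card_map_of_injective (MulAut.conj (s : G)).injective
  letI : MulAction S {H : Subgroup G // Nat.card H = p} :=
    { smul := fun s H => ⟨H.1.map (MulAut.conj (s : G)).toMonoidHom, (hcardconj s H.1).trans H.2⟩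
      one_smul := by
        rintro ⟨H, hH⟩
        apply Subtype.ext
        change H.map (MulAut.conj ((1 : S) : G)).toMonoidHom = H
        ext z
        simp
      mul_smul := by
        rintro a b ⟨H, hH⟩
        apply Subtype.ext
        change H.map (MulAut.conj ((a * b : S) : G)).toMonoidHom =
          (H.map (MulAut.conj (b : G)).toMonoidHom).map (MulAut.conj (a : G)).toMonoidHom
        rw [Subgroup.map_map]
        congr 1
        ext z
        simp [mul_assoc] }
  have hstab : ∀ H : {H : Subgroup G // Nat.card H = p}, MulAction.stabilizer S H = ⊥ := by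
    rintro ⟨H, hH⟩
    rw [eq_bot_iff]
    intro s hs
    rw [Subgroup.mem_bot]
    have h1 := congrArg Subtype.val (MulAction.mem_stabilizer_iff.mp hs)
    have h2 : H.map (MulAut.conj (s : G)).toMonoidHom = H := h1
    apply Subtype.ext
    apply stab_trivial hx hC S hS hH s.2
    intro z hz
    rw [← h2]
    exact ⟨z, hz, rfl⟩
  have e := MulAction.selfEquivOrbitsQuotientProd hstab
  rw [Nat.card_congr e, Nat.card_prod]
  exact dvd_mul_left _ _

include hx hC hS in
theorem centralizer_quot :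
    Subgroup.centralizer ({(QuotientGroup.mk x : G ⧸ S)} : Set (G ⧸ S)) =
      Subgroup.zpowers (QuotientGroup.mk x : G ⧸ S) := by
  have hp : p.Prime := Fact.out
  obtain ⟨P, hP⟩ := zpowers_sylow hx hC
  have hcard : Nat.card (Subgroup.zpowers x) = p := by rw [Nat.card_zpowers, hx]
  apply le_antisymm
  · intro q hq
    obtain ⟨y, rfl⟩ := QuotientGroup.mk_surjective q
    rw [Subgroup.mem_centralizer_singleton_iff] at hq
    -- `y` conjugates `x` into `x S`
    set T : Subgroup G := Subgroup.zpowers x ⊔ S with hT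
    have hzT : Subgroup.zpowers x ≤ T := le_sup_left
    have hST : S ≤ T := le_sup_right
    have hPT : (P : Subgroup G) ≤ T := hP ▸ hzT
    have hyPT : ((y • P : Sylow p G) : Subgroup G) ≤ T := by
      intro z hz
      rw [Sylow.coe_subgroup_smul, Subgroup.mem_smul_pointwise_iff_exists] at hz
      obtain ⟨a, ha, rfl⟩ := hz
      rw [hP] at ha
      obtain ⟨k, rfl⟩ := ha
      simp only [MulAut.smul_def, MulAut.conj_apply]
      have h1 : y * x * y⁻¹ * x⁻¹ ∈ S := by
        rw [← QuotientGroup.eq_one_iff]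
        simp only [QuotientGroup.mk_mul, QuotientGroup.mk_inv]
        rw [hq]
        simp
      have h2 : y * x * y⁻¹ ∈ T := by
        have : y * x * y⁻¹ = (y * x * y⁻¹ * x⁻¹) * x := by group
        rw [this]
        exact T.mul_mem (hST h1) (hzT (Subgroup.mem_zpowers x))
      have h3 : y * x ^ k * y⁻¹ = (y * x * y⁻¹) ^ k := by
        rw [conj_zpow]
      simp only [h3]
      exact T.zpow_mem h2 k
    obtain ⟨u, hu, huP⟩ := Cfsg.Agent.Lib.Basic.SylowConj.exists_mem_smul_eq T (y • P) P hyPT hPT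
    have hu' : u ∈ ((Subgroup.zpowers x ⊔ S : Subgroup G) : Set G) := hu
    rw [Subgroup.mul_normal, Set.mem_mul] at hu'
    obtain ⟨a, ha, s, hs, rfl⟩ := hu'
    -- `s * y` normalizes `P`
    have haN : a ∈ Subgroup.normalizer ((P : Subgroup G) : Set G) := by
      rw [Subgroup.mem_normalizer_iff]
      intro z
      have ha' : a ∈ (P : Subgroup G) := hP ▸ ha
      constructor
      · intro hz
        exact Subgroup.mul_mem _ (Subgroup.mul_mem _ ha' hz) (Subgroup.inv_mem _ ha')
      · intro hz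
        have : z = a⁻¹ * (a * z * a⁻¹) * a := by group
        rw [this]
        exact Subgroup.mul_mem _ (Subgroup.mul_mem _ (Subgroup.inv_mem _ ha') hz) ha'
    have hnP : (a * s * y) ∈ Subgroup.normalizer ((P : Subgroup G) : Set G) := by
      have : (a * s * y) • P = P := by
        rw [mul_smul]
        exact huP
      exact Sylow.smul_eq_iff_mem_normalizer.mp this
    have hw : s * y ∈ Subgroup.normalizer ((P : Subgroup G) : Set G) := by
      have : s * y = a⁻¹ * (a * s * y) := by group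
      rw [this]
      exact Subgroup.mul_mem _ (Subgroup.inv_mem _ haN) hnP
    have h1 : (s * y) * x * (s * y)⁻¹ ∈ Subgroup.zpowers x := by
      have := (Subgroup.mem_normalizer_iff.mp hw x).mp (hP ▸ Subgroup.mem_zpowers x)
      rwa [hP] at this
    -- it commutes with `x`
    have h2 : (s * y) * x * (s * y)⁻¹ = x := by
      have h3 : ((s * y) * x * (s * y)⁻¹) * x⁻¹ ∈ S := by
        rw [← QuotientGroup.eq_one_iff]
        simp only [QuotientGroup.mk_mul, QuotientGroup.mk_inv, mul_inv_rev]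
        have hs1 : (QuotientGroup.mk s : G ⧸ S) = 1 := (QuotientGroup.eq_one_iff s).mpr hs
        rw [hs1]
        simp only [one_mul, inv_one, mul_one]
        rw [hq]
        simp
      have h4 : ((s * y) * x * (s * y)⁻¹) * x⁻¹ ∈ Subgroup.zpowers x :=
        Subgroup.mul_mem _ h1 (Subgroup.inv_mem _ (Subgroup.mem_zpowers x))
      have h5 := inf_trivial S hS hcard h4 h3
      rwa [mul_inv_eq_one] at h5
    have h6 : s * y ∈ Subgroup.zpowers x := by
      rw [← hC, Subgroup.mem_centralizer_singleton_iff]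
      rwa [mul_inv_eq_iff_eq_mul] at h2
    obtain ⟨k, hk⟩ := h6
    refine ⟨k, ?_⟩
    have hs1 : (QuotientGroup.mk s : G ⧸ S) = 1 := (QuotientGroup.eq_one_iff s).mpr hs
    have : (QuotientGroup.mk (s * y) : G ⧸ S) = QuotientGroup.mk y := by
      rw [QuotientGroup.mk_mul, hs1, one_mul]
    rw [← this]
    simp only [← hk]
    rfl
  · rw [Subgroup.zpowers_le, Subgroup.mem_centralizer_singleton_iff]

include hx hC hS in
theorem orderOf_quot : orderOf (QuotientGroup.mk x : G ⧸ S) = p := by
  have hp : p.Prime := Fact.out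
  have hcard : Nat.card (Subgroup.zpowers x) = p := by rw [Nat.card_zpowers, hx]
  have h1 : orderOf (QuotientGroup.mk x : G ⧸ S) ∣ p := by
    apply orderOf_dvd_of_pow_eq_one
    rw [← QuotientGroup.mk_pow, ← hx, pow_orderOf_eq_one]
    rfl
  rcases (Nat.dvd_prime hp).mp h1 with h | h
  · exfalso
    rw [orderOf_eq_one_iff, QuotientGroup.eq_one_iff] at h
    have := inf_trivial S hS hcard (Subgroup.mem_zpowers x) h
    rw [this, orderOf_one] at hx
    exact hp.one_lt.ne hx
  · exact h

end partb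

/-- Let the finite group G contain an element x of prime order p with C_G(x) = ⟨x⟩. Then: (a) every normal subgroup of order divisible by p contains the commutator subgroup; (b) every normal subgroup S of order prime to p has order dividing the number of subgroups of order p of G and congruent to 1 modulo p, and in G/S the image of x again has prime order p and commutes only with its own powers. -/
theorem result {G : Type*} [Group G] [Finite G] (p : ℕ) (hp : p.Prime) (x : G) (hx : orderOf x = p) (hC : Subgroup.centralizer ({x} : Set G) = Subgroup.zpowers x) (S : Subgroup G) [S.Normal] : (p ∣ Nat.card S → commutator G ≤ S) ∧ (¬ p ∣ Nat.card S → Nat.card S ∣ Nat.card {H : Subgroup G // Nat.card H = p} ∧ Nat.card S % p = 1 ∧ orderOf (QuotientGroup.mk x : G ⧸ S) = p ∧ Subgroup.centralizer ({(QuotientGroup.mk x : G ⧸ S)} : Set (G ⧸ S)) = Subgroup.zpowers (QuotientGroup.mk x : G ⧸ S)) := by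
  haveI : Fact p.Prime := ⟨hp⟩
  refine ⟨part_a hx hC S, fun hS => ⟨card_dvd hx hC S hS, card_mod hx hC S hS, orderOf_quot hx hC S hS,
    centralizer_quot hx hC S hS⟩⟩

end Cfsg.Agent.S4496
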