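import Mathlib
import Cfsg.Prelude.Def_Blocks
import Cfsg.Agent.Lib.Blocks.Regular
import Cfsg.Agent.Lib.Blocks.Parseval
set_option autoImplicit false
namespace Cfsg.Agent.S4498

open Cfsg Cfsg.Agent.Lib.Blocks.Regular Cfsg.Agent.Lib.Blocks.Principal Cfsg.Agent.Lib.Blocks.Parseval
open scoped ComplexConjugate

/-- No element divisible by both `p` and `q`. -/
lemma not_both {G : Type*} [Group G] [Finite G] {p q : ℕ} [hp : Fact p.Prime] [hq : Fact q.Prime] (hpq : p ≠ q)
    (hno : ∀ g : G, orderOf g ≠ p * q) (g : G) (h1 : p ∣ orderOf g) (h2 : q ∣ orderOf g) : False := by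
  have hcop : Nat.Coprime p q := (Nat.coprime_primes hp.out hq.out).2 hpq
  have hd : p * q ∣ orderOf g := hcop.mul_dvd_of_dvd_of_dvd h1 h2
  apply hno (g ^ (orderOf g / (p * q)))
  rw [orderOf_pow_orderOf_div (orderOf_pos g).ne' hd]

/-- Let p and q be distinct primes dividing the order of the finite group G, and suppose G has no element of order p·q. Fix maximal ideals M_p over p and M_q over q of the algebraic integers. Then the principal p-block and the principal q-block of G have a non-principal irreducible character in common. -/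
theorem result {G : Type*} [Group G] [Finite G] (p q : ℕ) [Fact p.Prime] [Fact q.Prime] (hpq : p ≠ q) (hp : p ∣ Nat.card G) (hq : q ∣ Nat.card G) (hno : ∀ g : G, orderOf g ≠ p * q) (Mp Mq : Ideal Cfsg.AlgInt) (hMp : Cfsg.IsPModular p Mp) (hMq : Cfsg.IsPModular q Mq) : ∃ χ : Cfsg.IrrCharacter G, (χ : G → ℂ) ≠ (fun _ => 1) ∧ χ ∈ Cfsg.principalBlock Mp G ∧ χ ∈ Cfsg.principalBlock Mq G := by
  classical
  haveI : Mp.IsPrime := hMp.2.1.isPrime
  haveI : Mq.IsPrime := hMq.2.1.isPrime
  haveI := Fintype.ofFinite G
  haveI : Finite (IrrCharacter G) := Cfsg.Agent.Lib.Char.Complete.finite_irr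
  haveI := Fintype.ofFinite (IrrCharacter G)
  by_contra hcon
  push Not at hcon
  set f : G → ℂ := reg p (fun _ : G => (1 : ℂ)) with hf
  set h : G → ℂ := reg q (fun _ : G => (1 : ℂ)) with hh
  have hfc : IsClassFunction G f := isClassFunction_reg (fun _ _ => rfl)
  have hhc : IsClassFunction G h := isClassFunction_reg (fun _ _ => rfl)
  have hparseval := classInner_eq_sum_irr hfc h
  have hsum : classInner f h = classInner f (fun _ => 1) * classInner (fun _ => 1) h := by
    rw [hparseval, Finset.sum_eq_single (trivChar G)]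
    · rfl
    · intro χ _ hχ
      have hne : (χ : G → ℂ) ≠ fun _ => 1 := fun hc => hχ (Subtype.ext hc)
      by_cases h1 : χ ∈ principalBlock Mp G
      · have h2 := hcon χ hne h1
        have h3 : classInner h (χ : G → ℂ) = 0 :=
          classInner_reg_eq_zero (χ := trivChar G) hMq h2
        rw [← Cfsg.Agent.Lib.Char.Ortho.classInner_conj_symm h (χ : G → ℂ), h3]
        simp
      · have h3 : classInner f (χ : G → ℂ) = 0 :=
          classInner_reg_eq_zero (χ := trivChar G) hMp h1
        rw [h3, zero_mul]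
    · intro hn
      exact absurd (Finset.mem_univ _) hn
  set a : G → ℂ := fun y => if p ∣ orderOf y then 1 else 0 with ha
  set b : G → ℂ := fun y => if q ∣ orderOf y then 1 else 0 with hb
  have hfa : ∀ y, f y = 1 - a y := by
    intro y
    by_cases h1 : p ∣ orderOf y
    · simp [hf, reg_of_dvd, h1, ha]
    · simp [hf, reg_of_not_dvd, h1, ha]
  have hhb : ∀ y, h y = 1 - b y := by
    intro y
    by_cases h1 : q ∣ orderOf y
    · simp [hh, reg_of_dvd, h1, hb]
    · simp [hh, reg_of_not_dvd, h1, hb]
  have hbconj : ∀ y, conj (b y) = b y := by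
    intro y
    by_cases h1 : q ∣ orderOf y <;> simp [hb, h1]
  have hab : ∀ y, a y * b y = 0 := by
    intro y
    by_cases h1 : p ∣ orderOf y
    · by_cases h2 : q ∣ orderOf y
      · exact (not_both hpq hno y h1 h2).elim
      · simp [hb, h2]
    · simp [ha, h1]
  set A : ℂ := ∑ y, a y with hA
  set B : ℂ := ∑ y, b y with hB
  set n : ℂ := (Nat.card G : ℂ) with hn
  have hn0 : n ≠ 0 := by
    rw [hn]; exact_mod_cast Nat.card_pos.ne'
  have hcard : ∑ _y : G, (1 : ℂ) = n := by
    simp [hn, Nat.card_eq_fintype_card]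
  have e1 : classInner f h = n⁻¹ * (n - A - B) := by
    rw [classInner]
    congr 1
    have : ∀ y, f y * conj (h y) = 1 - a y - b y + a y * b y := by
      intro y
      rw [hfa, hhb, map_sub, map_one, hbconj]
      ring
    simp only [this, hab, add_zero, Finset.sum_sub_distrib, hcard]
    rfl
  have e2 : classInner f (fun _ => 1) = n⁻¹ * (n - A) := by
    rw [classInner]
    congr 1
    simp only [map_one, mul_one, hfa, Finset.sum_sub_distrib, hcard]
    rfl
  have e3 : classInner (fun _ => 1) h = n⁻¹ * (n - B) := by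
    rw [classInner]
    congr 1
    simp only [one_mul, hhb, map_sub, map_one, hbconj, Finset.sum_sub_distrib, hcard]
    rfl
  rw [e1, e2, e3] at hsum
  have hAB : A * B = 0 := by
    field_simp at hsum
    linear_combination -hsum
  -- both counts are positive
  have hApos : A ≠ 0 := by
    obtain ⟨g, hg⟩ := exists_prime_orderOf_dvd_card' p hp
    have : 0 < ∑ y : G, (if p ∣ orderOf y then 1 else 0 : ℝ) := by
      refine Finset.sum_pos' (fun y _ => by split_ifs <;> norm_num) ⟨g, Finset.mem_univ _, ?_⟩
      simp [hg]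
    have h1 : A = ((∑ y : G, (if p ∣ orderOf y then 1 else 0 : ℝ) : ℝ) : ℂ) := by
      rw [hA, ha]; push_cast
      refine Finset.sum_congr rfl fun y _ => ?_
      split_ifs <;> simp
    rw [h1]
    exact_mod_cast this.ne'
  have hBpos : B ≠ 0 := by
    obtain ⟨g, hg⟩ := exists_prime_orderOf_dvd_card' q hq
    have : 0 < ∑ y : G, (if q ∣ orderOf y then 1 else 0 : ℝ) := by
      refine Finset.sum_pos' (fun y _ => by split_ifs <;> norm_num) ⟨g, Finset.mem_univ _, ?_⟩
      simp [hg]
    have h1 : B = ((∑ y : G, (if q ∣ orderOf y then 1 else 0 : ℝ) : ℝ) : ℂ) := by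
      rw [hB, hb]; push_cast
      refine Finset.sum_congr rfl fun y _ => ?_
      split_ifs <;> simp
    rw [h1]
    exact_mod_cast this.ne'
  exact (mul_ne_zero hApos hBpos) hAB

end Cfsg.Agent.S4498
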