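import Cfsg.Statements.S4500
import Mathlib
import Cfsg.Agent.Lib.Blocks.BrauerFeit
import Cfsg.Agent.Lib.Blocks.PrincipalColumn
import Cfsg.Agent.Lib.Char.Kazarin
import Cfsg.Agent.Lib.Char.BrauerSCNum
import Cfsg.Agent.Lib.Char.CompleteCor

set_option autoImplicit false
open Cfsg

namespace Cfsg.Agent.S4500

open Cfsg.Agent.Lib.Blocks.Principal Cfsg.Agent.Lib.Blocks.Central
open scoped ComplexConjugate

universe u

lemma conj_one_eq {X : Type*} [Group X] [Fintype X] (χ : Cfsg.IrrCharacter X) :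
    conj ((χ : X → ℂ) 1) = (charDegree (χ : X → ℂ) : ℂ) := by
  rw [Cfsg.Agent.Lib.Char.CompleteCor.conj_apply_one χ.2, Cfsg.Agent.Lib.Blocks.RegInt.charDegree_cast]

/-- A vanishing sum containing the trivial character has another member of degree prime to `r`. -/
lemma exists_not_dvd {X : Type*} [Group X] [Fintype X] (s : Finset (Cfsg.IrrCharacter X))
    (h1 : trivChar X ∈ s) (x : X)
    (hsum : ∑ χ ∈ s, (χ : X → ℂ) x * conj ((χ : X → ℂ) 1) = 0) {r : ℕ} (hr : r.Prime) :
    ∃ χ ∈ s, χ ≠ trivChar X ∧ ¬ r ∣ charDegree (χ : X → ℂ) := by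
  classical
  by_contra hno
  push Not at hno
  have hr0 : (r : ℂ) ≠ 0 := by exact_mod_cast hr.ne_zero
  have hsplit := Finset.add_sum_erase s (fun χ => (χ : X → ℂ) x * conj ((χ : X → ℂ) 1)) h1
  rw [hsum] at hsplit
  have ht : ((trivChar X : Cfsg.IrrCharacter X) : X → ℂ) x * conj (((trivChar X : Cfsg.IrrCharacter X) : X → ℂ) 1) = 1 := by
    simp [trivChar]
  rw [ht] at hsplit
  have hint : IsIntegral ℤ (∑ χ ∈ s.erase (trivChar X),
      (χ : X → ℂ) x * (((charDegree (χ : X → ℂ) / r : ℕ)) : ℂ)) := by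
    refine IsIntegral.sum _ fun χ _ => ?_
    exact IsIntegral.mul (isIntegral_irr χ.2 x) (isIntegral_natCast (R := ℤ) (B := ℂ) _)
  have hval : (r : ℂ) * (∑ χ ∈ s.erase (trivChar X),
      (χ : X → ℂ) x * (((charDegree (χ : X → ℂ) / r : ℕ)) : ℂ)) =
      ∑ χ ∈ s.erase (trivChar X), (χ : X → ℂ) x * conj ((χ : X → ℂ) 1) := by
    rw [Finset.mul_sum]
    refine Finset.sum_congr rfl fun χ hχ => ?_
    obtain ⟨hne, hmem⟩ := Finset.mem_erase.mp hχ
    rw [conj_one_eq]
    have h3 := hno χ hmem hne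
    have h4 : (charDegree (χ : X → ℂ) : ℂ) = (r : ℂ) * ((charDegree (χ : X → ℂ) / r : ℕ) : ℂ) := by
      exact_mod_cast (Nat.mul_div_cancel' h3).symm
    rw [h4]
    ring
  rw [← hval] at hsplit
  have h5 : (1 : ℂ) / r = - ∑ χ ∈ s.erase (trivChar X),
      (χ : X → ℂ) x * (((charDegree (χ : X → ℂ) / r : ℕ)) : ℂ) := by
    field_simp
    linear_combination hsplit
  have h6 : IsIntegral ℤ (((1 : ℕ) : ℂ) / (r : ℂ)) := by
    rw [Nat.cast_one, h5]
    exact hint.neg
  have := Cfsg.Agent.Lib.Char.Values2.dvd_of_isIntegral_div hr.ne_zero h6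
  exact hr.one_lt.ne' (Nat.dvd_one.mp this)

theorem aux {G : Type u} [Group G] [Finite G] [Nontrivial G] (p q r a b c : ℕ) (hp : p.Prime) (hq : q.Prime)
    (hr : r.Prime) (hpq : p ≠ q) (hpr : p ≠ r) (hqr : q ≠ r) (ha : a ≤ 2) (hG : Nat.card G = p ^ a * q ^ b * r ^ c) :
    ∃ χ : Cfsg.IrrCharacter G, (χ : G → ℂ) ≠ (fun _ => 1) ∧ ∃ k : ℕ, Cfsg.charDegree (χ : G → ℂ) = q ^ k := by
  classical
  letI := Fintype.ofFinite G
  haveI : Fact p.Prime := ⟨hp⟩
  have hrq : Nat.Coprime r q := (Nat.coprime_primes hr hq).mpr hqr.symm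
  have hrp : Nat.Coprime r p := (Nat.coprime_primes hr hp).mpr hpr.symm
  have hdeg : ∀ χ : Cfsg.IrrCharacter G, charDegree (χ : G → ℂ) ∣ p ^ a * q ^ b * r ^ c := by
    intro χ
    rw [← hG]
    exact Cfsg.Agent.Lib.Char.BrauerSCNum.degree_dvd χ _ (Cfsg.Agent.Lib.Blocks.RegInt.charDegree_cast χ).symm
  have hfin : ∀ χ : Cfsg.IrrCharacter G, ¬ r ∣ charDegree (χ : G → ℂ) → ¬ p ∣ charDegree (χ : G → ℂ) →
      ∃ k : ℕ, charDegree (χ : G → ℂ) = q ^ k := by
    intro χ h1 h2
    have h3 : charDegree (χ : G → ℂ) ∣ p ^ a * q ^ b :=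
      Nat.Coprime.dvd_of_dvd_mul_right
        (Nat.Coprime.pow_right _ ((Nat.Prime.coprime_iff_not_dvd hr).mpr h1).symm) (hdeg χ)
    have h4 : charDegree (χ : G → ℂ) ∣ q ^ b :=
      Nat.Coprime.dvd_of_dvd_mul_left
        (Nat.Coprime.pow_right _ ((Nat.Prime.coprime_iff_not_dvd hp).mpr h2).symm) h3
    obtain ⟨k, -, hk⟩ := (Nat.dvd_prime_pow hq).mp h4
    exact ⟨k, hk⟩
  have hne : ∀ χ : Cfsg.IrrCharacter G, χ ≠ trivChar G → (χ : G → ℂ) ≠ (fun _ => 1) := by
    intro χ h0 h1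
    exact h0 (Subtype.ext h1)
  rcases Nat.eq_zero_or_pos a with rfl | ha0
  · obtain ⟨x, hx⟩ := exists_ne (1 : G)
    have hs := Cfsg.Agent.Lib.Char.CompleteCor.column_orth_not_conj (G := G) (g := x) (h := 1)
      (fun h0 => hx (isConj_one_left.mp h0))
    obtain ⟨χ, -, h1, h2⟩ := exists_not_dvd Finset.univ (Finset.mem_univ _) x hs hr
    refine ⟨χ, hne χ h1, hfin χ h2 ?_⟩
    intro h3
    have h4 := h3.trans (hdeg χ)
    rw [pow_zero, one_mul] at h4
    rcases (Nat.Prime.dvd_mul hp).mp h4 with h5 | h5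
    · exact hpq ((Nat.prime_dvd_prime_iff_eq hp hq).mp (hp.dvd_of_dvd_pow h5))
    · exact hpr ((Nat.prime_dvd_prime_iff_eq hp hr).mp (hp.dvd_of_dvd_pow h5))
  · obtain ⟨M, hM⟩ := Cfsg.Agent.Lib.Char.Kazarin.exists_modular p hp
    haveI := Cfsg.Agent.Lib.Blocks.Local.isPrime_of_isPModular hM
    have hpG : p ∣ Nat.card G := by
      rw [hG]
      exact Dvd.dvd.mul_right (Dvd.dvd.mul_right (dvd_pow_self p ha0.ne') _) _
    obtain ⟨x, hx⟩ := exists_prime_orderOf_dvd_card' p hpG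
    have hs := Cfsg.Agent.Lib.Blocks.PrincipalColumn.sum_principal_of_not_isConj hM (y := (1 : G)) (z := x)
      (j := 0) (k := 1) (by simp) (by simpa using hx) (by
        intro h0
        have := isConj_one_left.mp h0
        rw [this, orderOf_one] at hx
        exact hp.one_lt.ne hx)
    obtain ⟨χ, hχ, h1, h2⟩ := exists_not_dvd _ (by
      rw [Finset.mem_filter]
      exact ⟨Finset.mem_univ _, trivChar_mem_principalBlock⟩) x hs hr
    refine ⟨χ, hne χ h1, hfin χ h2 ?_⟩
    intro h3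
    have hχB : χ ∈ Cfsg.principalBlock M G := (Finset.mem_filter.mp hχ).2
    have h0 : sInf ((fun χ : Cfsg.IrrCharacter G => (charDegree (χ : G → ℂ)).factorization p) ''
        Cfsg.principalBlock M G) = 0 := by
      apply Nat.eq_zero_of_le_zero
      apply Nat.sInf_le
      refine ⟨trivChar G, trivChar_mem_principalBlock, ?_⟩
      show (charDegree ((trivChar G : Cfsg.IrrCharacter G) : G → ℂ)).factorization p = 0
      rw [charDegree_trivChar]
      simp
    have hdpos : charDegree (χ : G → ℂ) ≠ 0 := Nat.pos_iff_ne_zero.mp (Nat.pos_of_dvd_of_pos (hdeg χ) (by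
      have := hp.pos; have := hq.pos; have := hr.pos; positivity))
    have hh : blockHeight p (Cfsg.principalBlock M G) (χ : G → ℂ) = (charDegree (χ : G → ℂ)).factorization p := by
      unfold blockHeight
      rw [h0, Nat.sub_zero]
    have hpos : 0 < blockHeight p (Cfsg.principalBlock M G) (χ : G → ℂ) := by
      rw [hh]
      exact hp.factorization_pos_of_dvd hdpos h3
    have hbd := Cfsg.Agent.Lib.Blocks.BrauerFeit.height_add_two_le hM (isPBlock_principalBlock M) hχB hpos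
    have hdef : blockDefect p (Cfsg.principalBlock M G) = a := by
      unfold blockDefect
      rw [h0, Nat.sub_zero, hG]
      have e1 : p ^ a ≠ 0 := pow_ne_zero _ hp.ne_zero
      have e2 : q ^ b ≠ 0 := pow_ne_zero _ hq.ne_zero
      have e3 : r ^ c ≠ 0 := pow_ne_zero _ hr.ne_zero
      rw [Nat.factorization_mul (mul_ne_zero e1 e2) e3, Nat.factorization_mul e1 e2, Nat.factorization_pow,
        Nat.factorization_pow, Nat.factorization_pow]
      simp [hp.factorization, hq.factorization, hr.factorization, Finsupp.single_apply, hpq.symm, hpr.symm]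
    omega


/-- Let G be a non-trivial finite group of order p^a · q^b · r^c with p, q, r distinct primes and a ≤ 2. Then G has a non-principal irreducible character whose degree is a power of q, and a non-principal irreducible character whose degree is a power of r; the power may be the zeroth, so a non-principal linear character serves for both. -/
theorem result {G : Type*} [Group G] [Finite G] [Nontrivial G] (p q r a b c : ℕ) (hp : p.Prime) (hq : q.Prime) (hr : r.Prime) (hpq : p ≠ q) (hpr : p ≠ r) (hqr : q ≠ r) (ha : a ≤ 2) (hG : Nat.card G = p ^ a * q ^ b * r ^ c) : (∃ χ : Cfsg.IrrCharacter G, (χ : G → ℂ) ≠ (fun _ => 1) ∧ ∃ k : ℕ, Cfsg.charDegree (χ : G → ℂ) = q ^ k) ∧ ∃ χ : Cfsg.IrrCharacter G, (χ : G → ℂ) ≠ (fun _ => 1) ∧ ∃ k : ℕ, Cfsg.charDegree (χ : G → ℂ) = r ^ k := by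
  exact ⟨aux p q r a b c hp hq hr hpq hpr hqr ha hG,
    aux p r q a c b hp hr hq hpr hpq hqr.symm ha (by rw [hG]; ring)⟩

end Cfsg.Agent.S4500
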