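import Cfsg.Statements.S4502
import Mathlib
import Cfsg.Agent.Lib.DefectOne.Count
import Cfsg.Agent.Lib.Coprime.KGV
import Cfsg.Agent.Lib.Char.CompleteCor

set_option autoImplicit false
open Cfsg

namespace Cfsg.Agent.S4502

open Cfsg.Agent.Lib.DefectOne Cfsg.Agent.Lib.DefectOne.Count Subgroup Finset

/-- Let G be a finite group whose order is divisible by the prime p exactly once, and let P be a Sylow p-subgroup. Then the number of irreducible characters of G of degree not divisible by p equals the number of conjugacy classes of the normalizer of P. -/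
theorem result {G : Type*} [Group G] [Finite G] (p : ℕ) [Fact p.Prime] (hdiv : p ∣ Nat.card G) (hsq : ¬ p ^ 2 ∣ Nat.card G) (P : Sylow p G) : Nat.card {χ : Cfsg.IrrCharacter G // ¬ p ∣ Cfsg.charDegree (χ : G → ℂ)} = Nat.card (ConjClasses (Subgroup.normalizer ((P : Subgroup G) : Set G))) := by
  classical
  letI : Fintype G := Fintype.ofFinite _
  have hp := (Fact.out : p.Prime)
  have hG0 : Nat.card G ≠ 0 := Nat.card_pos.ne'
  have hfac : (Nat.card G).factorization p = 1 := by
    have h1 : 1 ≤ (Nat.card G).factorization p := hp.factorization_pos_of_dvd hG0 hdiv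
    have h2 : (Nat.card G).factorization p < 2 := by
      by_contra h
      exact hsq ((hp.pow_dvd_iff_le_factorization hG0).2 (by omega))
    omega
  have hP : Nat.card P = p := by
    have h1 : Nat.card (P : Subgroup G) = p ^ (Nat.card G).factorization p := P.card_eq_multiplicity
    rw [hfac, pow_one] at h1
    exact h1
  have hnt : Nontrivial (P : Subgroup G) := by
    apply Finite.one_lt_card_iff_nontrivial.1
    have : Nat.card (P : Subgroup G) = p := hP
    rw [this]
    exact hp.one_lt
  obtain ⟨⟨x, hxP⟩, hx1⟩ := exists_ne (1 : (P : Subgroup G))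
  have hx1' : x ≠ 1 := fun h => hx1 (Subtype.ext h)
  obtain ⟨hz, H, hL⟩ := exists_localData P hP hxP hx1'
  rw [← hz]
  letI : Fintype H := Fintype.ofFinite _
  letI : Fintype (IrrCharacter G) := Fintype.ofFinite _
  letI : Fintype (IrrCharacter (normalizer (zpowers x : Set G))) := Fintype.ofFinite _
  have hmain := card_eq_card_normalizer hL
  -- Ito in the normalizer
  have hall : ∀ χ : IrrCharacter (normalizer (zpowers x : Set G)), ¬ p ∣ charDegree (χ : (normalizer (zpowers x : Set G)) → ℂ) := by
    intro χ hd
    let V : Subgroup (normalizer (zpowers x : Set G)) := zpowers (xN hL)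
    have hVn : V.Normal := by
      have h1 : normalizer (V : Set (normalizer (zpowers x : Set G))) = ⊤ := normalizer_NN hL
      exact Subgroup.normalizer_eq_top_iff.1 h1
    have hab : ∀ a ∈ V, ∀ b ∈ V, a * b = b * a := by
      intro a ha b hb
      obtain ⟨i, rfl⟩ := Subgroup.mem_zpowers_iff.1 ha
      obtain ⟨j, rfl⟩ := Subgroup.mem_zpowers_iff.1 hb
      exact ((Commute.refl _).zpow_zpow i j).eq
    obtain ⟨e, he, hdvd⟩ := Cfsg.Agent.Lib.Coprime.KGV.exists_degree_dvd_index V hab χ.2
    have hdc : ((χ : (normalizer (zpowers x : Set G)) → ℂ) 1) = (charDegree (χ : (normalizer (zpowers x : Set G)) → ℂ) : ℂ) :=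
      (Cfsg.Agent.Lib.Char.Values.IsCharacter.charDegree_cast
        (Cfsg.Agent.Lib.Char.Basic.isCharacter_of_isIrrCharacter χ.2)).symm
    rw [he] at hdc
    have hde : e = charDegree (χ : (normalizer (zpowers x : Set G)) → ℂ) := by exact_mod_cast hdc
    rw [← hde] at hd
    have hpi : p ∣ V.index := hd.trans hdvd
    have hcard : Nat.card V = p := by
      have h1 : orderOf (xN hL) = p := (localData_NN hL).ord
      rw [Nat.card_zpowers, h1]
    have h2 := V.card_mul_index
    rw [hcard] at h2
    apply hL.syl
    have h3 : p ^ 2 ∣ Nat.card (normalizer (zpowers x : Set G)) := by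
      rw [← h2, pow_two]
      exact Nat.mul_dvd_mul_left p hpi
    exact h3.trans (Subgroup.card_subgroup_dvd_card _)
  have h1 : Nat.card {χ : IrrCharacter G // ¬ p ∣ charDegree (χ : G → ℂ)} =
      (univ.filter (fun χ : IrrCharacter G => ¬ p ∣ charDegree (χ : G → ℂ))).card := by
    rw [Nat.card_eq_fintype_card, Fintype.card_subtype]
  have h2 : (univ.filter (fun χ : IrrCharacter (normalizer (zpowers x : Set G)) => ¬ p ∣ charDegree (χ : (normalizer (zpowers x : Set G)) → ℂ))).card =
      Nat.card (IrrCharacter (normalizer (zpowers x : Set G))) := by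
    rw [filter_true_of_mem (fun χ _ => hall χ), card_univ, Nat.card_eq_fintype_card]
  rw [h1, hmain, h2]
  exact Cfsg.Agent.Lib.Char.CompleteCor.card_irr_eq_card_conjClasses

end Cfsg.Agent.S4502
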