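import Cfsg.Statements.S4505
import Mathlib
import Cfsg.Agent.Lib.Blocks.DefectSupport
-- import your own Cfsg.Agent.* helpers here

set_option autoImplicit false
open Cfsg

namespace Cfsg.Agent.S4505



/-- Let G be a finite group, p a prime and M a maximal ideal of the algebraic integers containing p. For every σ, the number of p-blocks of defect exactly σ is at most the number of conjugacy classes of p-regular elements whose centralizer has order divisible by p^σ but not by p^(σ+1). -/
theorem result {G : Type*} [Group G] [Finite G] (p : ℕ) [Fact p.Prime] (M : Ideal Cfsg.AlgInt) (hM : Cfsg.IsPModular p M) (σ : ℕ) : Nat.card {B : Set (Cfsg.IrrCharacter G) // Cfsg.IsPBlock M B ∧ Cfsg.blockDefect p B = σ} ≤ Nat.card {C : ConjClasses G // ∃ g : G, ConjClasses.mk g = C ∧ ¬ p ∣ orderOf g ∧ (Nat.card (Subgroup.centralizer ({g} : Set G))).factorization p = σ} := by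
  classical
  cases nonempty_fintype G
  haveI := Cfsg.Agent.Lib.Blocks.Local.isPrime_of_isPModular hM
  open scoped Cfsg.Agent.Lib.Blocks.Central in
  let P : ConjClasses G → Prop := fun C => ∃ g : G, ConjClasses.mk g = C ∧ ¬ p ∣ orderOf g ∧
    (Nat.card (Subgroup.centralizer ({g} : Set G))).factorization p = σ
  let Bs := {B : Set (Cfsg.IrrCharacter G) // Cfsg.IsPBlock M B ∧ Cfsg.blockDefect p B = σ}
  let Ks := {C : ConjClasses G // P C}
  haveI : Fintype Bs := Fintype.ofFinite _
  haveI : Fintype Ks := Fintype.ofFinite _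
  have hχ : ∀ B : Bs, ∃ χ : Cfsg.IrrCharacter G, χ ∈ B.1 ∧ B.1 = Cfsg.blockOf M (χ : G → ℂ) := by
    intro B
    obtain ⟨χ, hχ⟩ := B.2.1
    refine ⟨χ, ?_, hχ⟩
    rw [hχ]
    exact Cfsg.Agent.Lib.Blocks.Osima.mem_blockOf_self χ
  choose χ hχm hχb using hχ
  let F := Cfsg.Agent.Lib.Blocks.Local.localRing M ⧸ Cfsg.Agent.Lib.Blocks.Local.localIdeal M
  let r := Cfsg.Agent.Lib.Blocks.Local.residue M
  let c : Bs → ConjClasses G → Cfsg.Agent.Lib.Blocks.Local.localRing M := fun B K =>
    ⟨Cfsg.blockCoeff B.1 K.out, Cfsg.Agent.Lib.Blocks.Osima.memLocalRing_blockCoeff B.2.1 K.out⟩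
  let d : ConjClasses G → Bs → Cfsg.Agent.Lib.Blocks.Local.localRing M := fun K B =>
    ⟨Cfsg.centralChar (χ B : G → ℂ) K.out, Cfsg.Agent.Lib.Blocks.Central.memLocalRing_centralChar (χ B).2 K.out⟩
  -- the terms outside `Ks` vanish in the residue field
  have hvan : ∀ (B B' : Bs) (K : ConjClasses G), ¬ P K → r (c B K) * r (d K B') = 0 := by
    intro B B' K hK
    by_cases hc : Cfsg.MemLocalIdeal M (Cfsg.blockCoeff B.1 K.out)
    · have : r (c B K) = 0 := Cfsg.Agent.Lib.Blocks.Local.residue_eq_zero_iff.mpr hc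
      rw [this, zero_mul]
    · obtain ⟨hreg, hle⟩ := Cfsg.Agent.Lib.Blocks.DefectSupport.support_blockCoeff hM B.2.1 hc
      rw [B.2.2] at hle
      have hne : (Nat.card (Subgroup.centralizer ({K.out} : Set G))).factorization p ≠ σ := by
        intro heq
        exact hK ⟨K.out, Quotient.out_eq K, hreg, heq⟩
      have hlt := lt_of_le_of_ne hle hne
      have : r (d K B') = 0 := by
        apply Cfsg.Agent.Lib.Blocks.Local.residue_eq_zero_iff.mpr
        refine Cfsg.Agent.Lib.Blocks.DefectCount.memLocalIdeal_centralChar_of_defect_lt hM B'.2.1 (hχm B') _ ?_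
        rw [B'.2.2]
        exact hlt
      rw [this, mul_zero]
  -- the total sum
  have htot : ∀ B B' : Bs, ∑ K : ConjClasses G, r (c B K) * r (d K B') = if B = B' then 1 else 0 := by
    intro B B'
    have h1 := Cfsg.Agent.Lib.Blocks.Osima.omega_blockElt B.1 (χ B')
    rw [Cfsg.Agent.Lib.Blocks.Central.omega_eq_sum_centralChar
      (Cfsg.Agent.Lib.Blocks.Central.isClassFunction_of_irr (χ B').2)
      (Cfsg.Agent.Lib.Blocks.Osima.isClassFunction_blockElt _)] at h1
    have h2 : (∑ K : ConjClasses G, c B K * d K B' : Cfsg.Agent.Lib.Blocks.Local.localRing M) =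
        if χ B' ∈ B.1 then 1 else 0 := by
      apply Subtype.ext
      rw [AddSubmonoidClass.coe_finset_sum]
      have h3 : ((if χ B' ∈ B.1 then 1 else 0 : Cfsg.Agent.Lib.Blocks.Local.localRing M) : ℂ) =
          if χ B' ∈ B.1 then 1 else 0 := by
        split_ifs <;> rfl
      rw [h3, ← h1]
      refine Finset.sum_congr rfl fun K _ => ?_
      rw [Cfsg.Agent.Lib.Blocks.Osima.coeff_blockElt]
      rfl
    have h4 := congrArg r h2
    rw [map_sum] at h4
    simp only [map_mul] at h4
    rw [h4]
    by_cases hBB : B = B'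
    · subst hBB
      rw [if_pos (hχm B), if_pos rfl, map_one]
    · rw [if_neg hBB, if_neg, map_zero]
      intro hmem
      apply hBB
      apply Subtype.ext
      rw [hχb B, hχb B']
      have h5 : χ B' ∈ Cfsg.blockOf M (χ B : G → ℂ) := by rw [← hχb B]; exact hmem
      exact (Cfsg.Agent.Lib.Blocks.Osima.blockOf_eq_of_mem h5).symm
  have hsub : ∀ B B' : Bs, ∑ K : Ks, r (c B K.1) * r (d K.1 B') = if B = B' then 1 else 0 := by
    intro B B'
    rw [← htot B B', ← Fintype.sum_subtype_add_sum_subtype P]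
    have : ∑ K : {K // ¬ P K}, r (c B K.1) * r (d K.1 B') = 0 :=
      Finset.sum_eq_zero fun K _ => hvan B B' K.1 K.2
    rw [this, add_zero]
    exact Finset.sum_congr (Finset.ext (by simp)) fun _ _ => rfl
  -- matrices
  let A : Matrix Bs Ks F := fun B K => r (c B K.1)
  let D : Matrix Ks Bs F := fun K B => r (d K.1 B)
  have hAD : A * D = 1 := by
    ext B B'
    rw [Matrix.mul_apply, Matrix.one_apply]
    exact hsub B B'
  have hinj : Function.Injective (Matrix.mulVecLin D) := by
    intro v w hvw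
    have h1 : D.mulVec v = D.mulVec w := hvw
    have h2 := congrArg A.mulVec h1
    rw [Matrix.mulVec_mulVec, Matrix.mulVec_mulVec, hAD, Matrix.one_mulVec, Matrix.one_mulVec] at h2
    exact h2
  have h := card_le_of_injective F (Matrix.mulVecLin D) hinj
  rw [Nat.card_eq_fintype_card, Nat.card_eq_fintype_card]
  exact h

end Cfsg.Agent.S4505
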