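import Cfsg.Statements.S4506
import Mathlib
import Cfsg.Agent.Lib.Blocks.GalInt
import Cfsg.Agent.Lib.Blocks.WeakOrth
import Cfsg.Agent.Lib.Blocks.Osima
import Cfsg.Agent.Lib.Char.GlaubOver
import Cfsg.Agent.Lib.Char.Values

set_option autoImplicit false
set_option linter.style.haveILetI false
set_option linter.unusedSectionVars false

open Cfsg Cfsg.Agent.Lib.Blocks.Local Cfsg.Agent.Lib.Blocks.Central Cfsg.Agent.Lib.Blocks.Osima
open Cfsg.Agent.Lib.Blocks.GalInt
open Cfsg.Agent.Lib.Char.Basic Cfsg.Agent.Lib.Char.Ortho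
open scoped ComplexConjugate

namespace Cfsg.Agent.S4506

universe u

section Sum

lemma geom_eq (ξ : ℂ) (m : ℕ) (h : ξ ^ m = 1) :
    ∑ j ∈ Finset.range m, ξ ^ j = if ξ = 1 then (m : ℂ) else 0 := by
  split_ifs with h1
  · simp [h1]
  · have h2 := mul_geom_sum ξ m
    rw [h, sub_self] at h2
    exact (mul_eq_zero.1 h2).resolve_left (sub_ne_zero.2 h1)

/-- The Ramanujan sum. -/
lemma sum_units_pow {p a : ℕ} (hp : p.Prime) (ha : a ≠ 0) (ξ : ℂ) (hξ : ξ ^ p ^ a = 1) :
    haveI : NeZero (p ^ a) := ⟨pow_ne_zero _ hp.ne_zero⟩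
    ∃ m : ℤ, ∑ w : (ZMod (p ^ a))ˣ, ξ ^ (w : ZMod (p ^ a)).val = (p : ℂ) ^ (a - 1) * m := by
  haveI : NeZero (p ^ a) := ⟨pow_ne_zero _ hp.ne_zero⟩
  classical
  obtain ⟨b, rfl⟩ : ∃ b, a = b + 1 := ⟨a - 1, by omega⟩
  have hbij : ∑ w : (ZMod (p ^ (b + 1)))ˣ, ξ ^ (w : ZMod (p ^ (b + 1))).val =
      ∑ j ∈ (Finset.range (p ^ (b + 1))).filter (fun j => ¬ p ∣ j), ξ ^ j := by
    refine Finset.sum_bij (fun w _ => (w : ZMod (p ^ (b + 1))).val) ?_ ?_ ?_ (fun _ _ => rfl)
    · intro w _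
      simp only [Finset.mem_filter, Finset.mem_range]
      refine ⟨ZMod.val_lt _, fun h => ?_⟩
      have h1 := ZMod.val_coe_unit_coprime w
      have h2 : p ∣ Nat.gcd (w : ZMod (p ^ (b + 1))).val (p ^ (b + 1)) :=
        Nat.dvd_gcd h (dvd_pow_self p (by omega))
      rw [h1] at h2
      exact hp.one_lt.ne' (Nat.dvd_one.1 h2)
    · intro w _ w' _ h
      exact Units.ext (ZMod.val_injective _ h)
    · intro j hj
      simp only [Finset.mem_filter, Finset.mem_range] at hj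
      have hco : j.Coprime (p ^ (b + 1)) :=
        Nat.Coprime.pow_right _ ((Nat.Prime.coprime_iff_not_dvd hp).2 hj.2).symm
      refine ⟨ZMod.unitOfCoprime j hco, Finset.mem_univ _, ?_⟩
      rw [ZMod.coe_unitOfCoprime, ZMod.val_natCast_of_lt hj.1]
  have hsplit := Finset.sum_filter_add_sum_filter_not (Finset.range (p ^ (b + 1))) (fun j => p ∣ j)
    (fun j => ξ ^ j)
  have hdvd : ∑ j ∈ (Finset.range (p ^ (b + 1))).filter (fun j => p ∣ j), ξ ^ j =
      ∑ i ∈ Finset.range (p ^ b), (ξ ^ p) ^ i := by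
    symm
    refine Finset.sum_bij (fun i _ => p * i) ?_ ?_ ?_ (fun i _ => by rw [pow_mul])
    · intro i hi
      simp only [Finset.mem_filter, Finset.mem_range] at hi ⊢
      refine ⟨?_, dvd_mul_right _ _⟩
      rw [pow_succ']
      exact Nat.mul_lt_mul_of_pos_left hi hp.pos
    · intro i _ i' _ h
      exact Nat.eq_of_mul_eq_mul_left hp.pos h
    · intro j hj
      simp only [Finset.mem_filter, Finset.mem_range] at hj
      obtain ⟨i, rfl⟩ := hj.2
      refine ⟨i, ?_, rfl⟩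
      rw [Finset.mem_range]
      have := hj.1
      rw [pow_succ'] at this
      exact Nat.lt_of_mul_lt_mul_left this
  have hg1 := geom_eq ξ (p ^ (b + 1)) hξ
  have hg2 := geom_eq (ξ ^ p) (p ^ b) (by rw [← pow_mul, ← pow_succ']; exact hξ)
  refine ⟨(if ξ = 1 then (p : ℤ) else 0) - (if ξ ^ p = 1 then 1 else 0), ?_⟩
  rw [hbij]
  have h3 : ∑ j ∈ (Finset.range (p ^ (b + 1))).filter (fun j => ¬ p ∣ j), ξ ^ j =
      (if ξ = 1 then ((p ^ (b + 1) : ℕ) : ℂ) else 0) - (if ξ ^ p = 1 then ((p ^ b : ℕ) : ℂ) else 0) := by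
    rw [← hg1, ← hg2, ← hdvd, ← hsplit]
    ring
  rw [h3, Nat.add_sub_cancel]
  push_cast
  split_ifs <;> ring

end Sum

section Orbit

variable {A X : Type*} [Group A] [Fintype A] [MulAction A X] [DecidableEq X]

open MulAction in
/-- Summing over a group is the stabilizer order times summing over the orbit. -/
lemma sum_smul_eq (x : X) (f : X → ℂ) :
    ∑ a : A, f (a • x) = (Nat.card (stabilizer A x) : ℂ) *
      ∑ y ∈ (Finset.univ.image fun a : A => a • x), f y := by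
  classical
  rw [Finset.sum_comp f (fun a : A => a • x), Finset.mul_sum]
  refine Finset.sum_congr rfl fun y hy => ?_
  obtain ⟨a₀, -, rfl⟩ := Finset.mem_image.1 hy
  have hcard : (Finset.univ.filter fun a : A => a • x = a₀ • x).card = Nat.card (stabilizer A x) := by
    rw [← Fintype.card_subtype, ← Nat.card_eq_fintype_card]
    refine Nat.card_congr
      { toFun := fun a => ⟨a₀⁻¹ * a.1, ?_⟩
        invFun := fun s => ⟨a₀ * s.1, ?_⟩
        left_inv := fun a => ?_
        right_inv := fun s => ?_ }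
    · rw [mem_stabilizer_iff, mul_smul, a.2, inv_smul_smul]
    · rw [mul_smul, mem_stabilizer_iff.1 s.2]
    · apply Subtype.ext
      simp
    · apply Subtype.ext
      simp
  rw [hcard, nsmul_eq_mul]

open MulAction in
lemma card_image_mul_stabilizer (x : X) :
    (Finset.univ.image fun a : A => a • x).card * Nat.card (stabilizer A x) = Fintype.card A := by
  classical
  have h := sum_smul_eq (A := A) x (fun _ => (1 : ℂ))
  simp only [Finset.sum_const, Finset.card_univ, nsmul_eq_mul, mul_one] at h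
  have h2 : (Fintype.card A : ℂ) = ((Nat.card (stabilizer A x) * (Finset.univ.image fun a : A => a • x).card : ℕ) : ℂ) := by
    rw [h]
    push_cast
    ring
  rw [mul_comm]
  exact (Nat.cast_injective h2).symm

end Orbit

section Act

variable {G : Type u} [Group G] [Finite G]
variable {q g' c d : ℕ}

/-- The exponent attached to a unit modulo the `p`-part. -/
def kk (c d q : ℕ) (w : (ZMod q)ˣ) : ℕ := c + d * (w : ZMod q).val

/-- The Chinese remainder data. -/
structure CRT (q g' c d : ℕ) : Prop where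
  co : q.Coprime g'
  c0 : c ≡ 0 [MOD q]
  c1 : c ≡ 1 [MOD g']
  d1 : d ≡ 1 [MOD q]
  d0 : d ≡ 0 [MOD g']

lemma exists_crt (h : q.Coprime g') : ∃ c d, CRT q g' c d := by
  obtain ⟨c, hc⟩ := Nat.chineseRemainder h 0 1
  obtain ⟨d, hd⟩ := Nat.chineseRemainder h 1 0
  exact ⟨c, d, h, hc.1, hc.2, hd.1, hd.2⟩

variable [NeZero q]

lemma kk_modEq_q (H : CRT q g' c d) (w : (ZMod q)ˣ) : kk c d q w ≡ (w : ZMod q).val [MOD q] := by
  have h1 : c + d * (w : ZMod q).val ≡ 0 + 1 * (w : ZMod q).val [MOD q] :=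
    H.c0.add (H.d1.mul_right _)
  simpa [kk] using h1

lemma kk_modEq_g (H : CRT q g' c d) (w : (ZMod q)ˣ) : kk c d q w ≡ 1 [MOD g'] := by
  have h1 : c + d * (w : ZMod q).val ≡ 1 + 0 * (w : ZMod q).val [MOD g'] :=
    H.c1.add (H.d0.mul_right _)
  simpa [kk] using h1

lemma kk_coprime (H : CRT q g' c d) (w : (ZMod q)ˣ) : (kk c d q w).Coprime (q * g') := by
  refine Nat.Coprime.mul_right ?_ ?_
  · have h1 := (kk_modEq_q H w).gcd_eq
    rw [Nat.Coprime, h1]
    exact ZMod.val_coe_unit_coprime w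
  · have h1 := (kk_modEq_g H w).gcd_eq
    rw [Nat.Coprime, h1]
    simp

lemma kk_mul (H : CRT q g' c d) (w w' : (ZMod q)ˣ) :
    kk c d q (w * w') ≡ kk c d q w * kk c d q w' [MOD q * g'] := by
  rw [← Nat.modEq_and_modEq_iff_modEq_mul H.co]
  constructor
  · refine (kk_modEq_q H _).trans (Nat.ModEq.symm (((kk_modEq_q H w).mul (kk_modEq_q H w')).trans ?_))
    rw [← ZMod.natCast_eq_natCast_iff]
    simp
  · refine (kk_modEq_g H _).trans (Nat.ModEq.symm ?_)
    simpa using (kk_modEq_g H w).mul (kk_modEq_g H w')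

lemma kk_one (H : CRT q g' c d) : kk c d q (1 : (ZMod q)ˣ) ≡ 1 [MOD q * g'] := by
  rw [← Nat.modEq_and_modEq_iff_modEq_mul H.co]
  refine ⟨(kk_modEq_q H _).trans ?_, kk_modEq_g H _⟩
  rw [← ZMod.natCast_eq_natCast_iff]
  simp

/-- The action on irreducible characters. -/
@[reducible] noncomputable def actIrr (hn : Nat.card G = q * g') (H : CRT q g' c d) :
    MulAction (ZMod q)ˣ (IrrCharacter G) where
  smul w χ := ⟨fun g => (χ : G → ℂ) (g ^ kk c d q w),
    Cfsg.Agent.Lib.Char.Galois.isIrrCharacter_pow_of_coprime χ.2 (by rw [hn]; exact kk_coprime H w)⟩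
  one_smul χ := by
    apply Subtype.ext
    funext g
    show (χ : G → ℂ) (g ^ kk c d q 1) = (χ : G → ℂ) g
    have h1 : g ^ (q * g') = 1 := by rw [← hn]; exact pow_card_eq_one'
    have := Cfsg.Agent.Lib.Char.Galois.pow_congr_of_modEq h1 (kk_one H)
    rw [this, pow_one]
  mul_smul w w' χ := by
    apply Subtype.ext
    funext g
    show (χ : G → ℂ) (g ^ kk c d q (w * w')) = (χ : G → ℂ) ((g ^ kk c d q w) ^ kk c d q w')
    have h1 : g ^ (q * g') = 1 := by rw [← hn]; exact pow_card_eq_one'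
    have := Cfsg.Agent.Lib.Char.Galois.pow_congr_of_modEq h1 (kk_mul H w w')
    rw [this, pow_mul]

end Act

section Main

variable {G : Type u} [Group G] [Fintype G] {p a g' c d : ℕ}

/-- The average over the action. -/
noncomputable def Psi (c d q : ℕ) [NeZero q] (χ : G → ℂ) (g : G) : ℂ :=
  ∑ w : (ZMod q)ˣ, χ (g ^ kk c d q w)

lemma isClassFunction_Psi (q : ℕ) [NeZero q] {χ : G → ℂ} (hχ : IsClassFunction G χ) :
    IsClassFunction G (Psi c d q χ) := by
  intro g x
  unfold Psi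
  refine Finset.sum_congr rfl fun w _ => ?_
  rw [conj_pow, hχ]

theorem Psi_eq (hp : p.Prime) (ha : a ≠ 0) (hn : Nat.card G = p ^ a * g')
    (H : CRT (p ^ a) g' c d) [NeZero (p ^ a)] {χ : G → ℂ} (hχ : IsCharacter G χ) (g : G) :
    ∃ β : ℂ, IsIntegral ℤ β ∧ Psi c d (p ^ a) χ g = (p : ℂ) ^ (a - 1) * β := by
  classical
  obtain ⟨m, ρ, rfl⟩ := hχ
  obtain ⟨ι, hι, z, h1, h2⟩ := Cfsg.Agent.Lib.Char.Galois.character_eigen ρ g
    (n := Nat.card G) Nat.card_pos pow_card_eq_one'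
  have hξ : ∀ i, (z i ^ d) ^ p ^ a = 1 := by
    intro i
    rw [← pow_mul]
    have hd : p ^ a * g' ∣ d * p ^ a := by
      have : g' ∣ d := (Nat.modEq_zero_iff_dvd).1 H.d0
      rw [mul_comm]
      exact Nat.mul_dvd_mul_right this _
    obtain ⟨t, ht⟩ := hd
    rw [ht, pow_mul, ← hn, h1, one_pow]
  choose f hf using fun i => sum_units_pow hp ha (z i ^ d) (hξ i)
  refine ⟨∑ i, z i ^ c * (f i : ℂ), ?_, ?_⟩
  · refine IsIntegral.sum _ fun i _ => IsIntegral.mul ?_ ?_
    · refine IsIntegral.pow ?_ _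
      exact IsIntegral.of_pow Nat.card_pos (by rw [h1]; exact isIntegral_one)
    · exact isIntegral_algebraMap (R := ℤ) (A := ℂ) (x := f i)
  · unfold Psi
    simp only [h2]
    rw [Finset.sum_comm, Finset.mul_sum]
    refine Finset.sum_congr rfl fun i _ => ?_
    have h3 : ∀ w : (ZMod (p ^ a))ˣ, z i ^ kk c d (p ^ a) w = z i ^ c * (z i ^ d) ^ (w : ZMod (p ^ a)).val := by
      intro w
      unfold kk
      rw [pow_add, pow_mul]
    simp only [h3]
    rw [← Finset.mul_sum, hf i]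
    ring

variable [NeZero (p ^ a)]

open Classical in
/-- The orbit of `χ`. -/
noncomputable def Orb (hn : Nat.card G = p ^ a * g') (H : CRT (p ^ a) g' c d) (χ : IrrCharacter G) :
    Finset (IrrCharacter G) :=
  letI := actIrr hn H
  Finset.univ.image fun w : (ZMod (p ^ a))ˣ => w • χ

/-- The order of the stabilizer. -/
noncomputable def Stb (hn : Nat.card G = p ^ a * g') (H : CRT (p ^ a) g' c d) (χ : IrrCharacter G) : ℕ :=
  letI := actIrr hn H
  Nat.card (MulAction.stabilizer (ZMod (p ^ a))ˣ χ)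

lemma stb_pos (hn : Nat.card G = p ^ a * g') (H : CRT (p ^ a) g' c d) (χ : IrrCharacter G) :
    0 < Stb hn H χ := by
  letI := actIrr hn H
  exact Nat.card_pos

lemma mem_orb (hn : Nat.card G = p ^ a * g') (H : CRT (p ^ a) g' c d) (χ : IrrCharacter G) :
    χ ∈ Orb hn H χ := by
  classical
  letI := actIrr hn H
  unfold Orb
  exact Finset.mem_image.2 ⟨1, Finset.mem_univ _, one_smul _ _⟩

lemma orb_apply (hn : Nat.card G = p ^ a * g') (H : CRT (p ^ a) g' c d) (χ ψ : IrrCharacter G)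
    (hψ : ψ ∈ Orb hn H χ) : ∃ w : (ZMod (p ^ a))ˣ, ∀ g : G, (ψ : G → ℂ) g = (χ : G → ℂ) (g ^ kk c d (p ^ a) w) := by
  classical
  letI := actIrr hn H
  obtain ⟨w, -, rfl⟩ := Finset.mem_image.1 hψ
  exact ⟨w, fun g => rfl⟩

lemma psi_orbit (hn : Nat.card G = p ^ a * g') (H : CRT (p ^ a) g' c d) (χ : IrrCharacter G) (g : G) :
    Psi c d (p ^ a) (χ : G → ℂ) g = (Stb hn H χ : ℂ) * ∑ ψ ∈ Orb hn H χ, (ψ : G → ℂ) g := by
  classical
  letI := actIrr hn H
  exact sum_smul_eq χ (fun ψ : IrrCharacter G => (ψ : G → ℂ) g)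

lemma orb_card_mul (hp : p.Prime) (ha : a ≠ 0) (hn : Nat.card G = p ^ a * g') (H : CRT (p ^ a) g' c d)
    (χ : IrrCharacter G) : (Orb hn H χ).card * Stb hn H χ = p ^ (a - 1) * (p - 1) := by
  classical
  letI := actIrr hn H
  have h1 := card_image_mul_stabilizer (A := (ZMod (p ^ a))ˣ) χ
  have h2 : Fintype.card (ZMod (p ^ a))ˣ = p ^ (a - 1) * (p - 1) := by
    rw [ZMod.card_units_eq_totient, Nat.totient_prime_pow hp (Nat.pos_of_ne_zero ha)]
  rw [h2] at h1
  exact h1

lemma classInner_psi (hn : Nat.card G = p ^ a * g') (H : CRT (p ^ a) g' c d) (χ : IrrCharacter G) :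
    classInner (Psi c d (p ^ a) (χ : G → ℂ)) (χ : G → ℂ) = (Stb hn H χ : ℂ) := by
  classical
  have h1 : Psi c d (p ^ a) (χ : G → ℂ) =
      (Stb hn H χ : ℂ) • ∑ ψ ∈ Orb hn H χ, (ψ : G → ℂ) := by
    funext g
    rw [psi_orbit hn H]
    simp [Finset.sum_apply]
  rw [h1, classInner_smul_left, classInner_sum_left, Finset.sum_eq_single χ]
  · rw [classInner_irr_self χ.2, mul_one]
  · intro ψ _ hne
    exact classInner_irr_of_ne ψ.2 χ.2 (fun h => hne (Subtype.ext h))
  · intro h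
    exact absurd (mem_orb hn H χ) h

/-- The key divisibility. -/
theorem dvd_stb_mul (hp : p.Prime) (ha : a ≠ 0) (hn : Nat.card G = p ^ a * g') (H : CRT (p ^ a) g' c d)
    (χ : IrrCharacter G) {D N : ℕ} (hD : (χ : G → ℂ) 1 = D) (hD0 : D ≠ 0) (hN : Nat.card G = D * N) :
    p ^ (a - 1) ∣ Stb hn H χ * N := by
  classical
  have hpa : (p : ℂ) ^ (a - 1) ≠ 0 := pow_ne_zero _ (Nat.cast_ne_zero.2 hp.ne_zero)
  set β : G → ℂ := fun g => Psi c d (p ^ a) (χ : G → ℂ) g / (p : ℂ) ^ (a - 1) with hβ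
  have hβint : ∀ g, IsIntegral ℤ (β g) := by
    intro g
    obtain ⟨b, hb, h⟩ := Psi_eq hp ha hn H (isCharacter_of_isIrrCharacter χ.2) g
    rw [hβ]
    simp only
    rw [h, mul_div_cancel_left₀ _ hpa]
    exact hb
  have hχcl : IsClassFunction G (χ : G → ℂ) := isClassFunction_of_irr χ.2
  have hβcl : IsClassFunction G β := by
    intro g x
    simp only [hβ]
    rw [isClassFunction_Psi _ hχcl g x]
  set b : MonoidAlgebra ℂ G := ofFun (fun g => β g⁻¹) with hb
  have hbcl : IsClassFunction G b.coeff := by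
    intro g x
    rw [hb, coeff_ofFun, coeff_ofFun]
    have h2 : (x * g * x⁻¹)⁻¹ = x * g⁻¹ * x⁻¹ := by group
    rw [h2, hβcl]
  set γ := omega (χ : G → ℂ) b with hγ
  have hγint : IsIntegral ℤ γ := by
    rw [hγ, omega_eq_sum_centralChar hχcl hbcl]
    refine IsIntegral.sum _ fun K _ => IsIntegral.mul ?_ (isIntegral_centralChar χ.2 _)
    rw [hb, coeff_ofFun]
    exact hβint _
  have hD0' : (D : ℂ) ≠ 0 := Nat.cast_ne_zero.2 hD0
  have hN0' : (N : ℂ) ≠ 0 := by
    have : N ≠ 0 := by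
      intro h
      rw [h, mul_zero] at hN
      exact Nat.card_pos.ne' hN
    exact Nat.cast_ne_zero.2 this
  have hsum : ∑ g : G, β g * conj ((χ : G → ℂ) g) = (D : ℂ) * γ := by
    rw [hγ, omega, hD, mul_div_cancel₀ _ hD0']
    rw [hb]
    simp only [coeff_ofFun]
    refine (Equiv.sum_comp (Equiv.inv G) _).symm.trans ?_
    refine Finset.sum_congr rfl fun g _ => ?_
    simp only [Equiv.inv_apply, inv_inv]
    rw [Cfsg.Agent.Lib.Char.Ortho.conj_of_isCharacter (isCharacter_of_isIrrCharacter χ.2) g⁻¹, inv_inv]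
  have hinner := classInner_psi hn H χ
  have h3 : (Stb hn H χ : ℂ) * N = (p : ℂ) ^ (a - 1) * γ := by
    rw [← hinner, classInner]
    have h4 : ∑ g : G, Psi c d (p ^ a) (χ : G → ℂ) g * conj ((χ : G → ℂ) g) =
        (p : ℂ) ^ (a - 1) * ∑ g : G, β g * conj ((χ : G → ℂ) g) := by
      rw [Finset.mul_sum]
      refine Finset.sum_congr rfl fun g _ => ?_
      simp only [hβ]
      field_simp
    rw [h4, hsum, hN]
    push_cast
    field_simp
  -- `γ` is rational and integral, so an integer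
  have hq : γ = (((Stb hn H χ * N : ℕ) : ℚ) / ((p ^ (a - 1) : ℕ) : ℚ) : ℚ) := by
    push_cast
    field_simp
    linear_combination -h3
  obtain ⟨m, hm⟩ : ∃ m : ℤ, γ = m := by
    have hγq : IsIntegral ℤ (((Stb hn H χ * N : ℕ) : ℚ) / ((p ^ (a - 1) : ℕ) : ℚ) : ℚ) := by
      have h5 : IsIntegral ℤ (algebraMap ℚ ℂ (((Stb hn H χ * N : ℕ) : ℚ) / ((p ^ (a - 1) : ℕ) : ℚ))) := by
        have : algebraMap ℚ ℂ (((Stb hn H χ * N : ℕ) : ℚ) / ((p ^ (a - 1) : ℕ) : ℚ)) = γ := by
          rw [hq]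
          rfl
        rw [this]
        exact hγint
      exact (isIntegral_algebraMap_iff (algebraMap ℚ ℂ).injective).1 h5
    obtain ⟨m, hm⟩ := IsIntegrallyClosed.isIntegral_iff.1 hγq
    refine ⟨m, ?_⟩
    rw [hq, ← hm]
    simp
  have h6 : ((Stb hn H χ * N : ℕ) : ℤ) = ((p ^ (a - 1) : ℕ) : ℤ) * m := by
    have : (((Stb hn H χ * N : ℕ) : ℤ) : ℂ) = (((p ^ (a - 1) : ℕ) : ℤ) * m : ℤ) := by
      push_cast
      rw [h3, hm]
    exact_mod_cast this
  exact Int.natCast_dvd_natCast.1 ⟨m, h6⟩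

lemma orb_one (hn : Nat.card G = p ^ a * g') (H : CRT (p ^ a) g' c d) (χ ψ : IrrCharacter G)
    (hψ : ψ ∈ Orb hn H χ) : (ψ : G → ℂ) 1 = (χ : G → ℂ) 1 := by
  obtain ⟨w, hw⟩ := orb_apply hn H χ ψ hψ
  rw [hw, one_pow]

/-- The orbit sum vanishes on `p`-singular elements when the orbit is large. -/
theorem orbit_sum_vanish (hp : p.Prime) (ha : a ≠ 0) (hn : Nat.card G = p ^ a * g') (H : CRT (p ^ a) g' c d)
    (χ : IrrCharacter G) {D N N' y₀ : ℕ} (hD : (χ : G → ℂ) 1 = D) (hD0 : D ≠ 0) (hN : Nat.card G = D * N)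
    (hfull : (Orb hn H χ).card * N' = N * y₀) (hN' : ¬ p ∣ N') {y : G} (hy : p ∣ orderOf y) :
    ∑ ψ ∈ Orb hn H χ, (ψ : G → ℂ) y = 0 := by
  classical
  haveI : Fact p.Prime := ⟨hp⟩
  obtain ⟨M, hM⟩ := Cfsg.Agent.Lib.Char.Kazarin.exists_modular p hp
  haveI := isPrime_of_isPModular hM
  have hs0 : (Stb hn H χ : ℂ) ≠ 0 := Nat.cast_ne_zero.2 (stb_pos hn H χ).ne'
  have hD0' : (D : ℂ) ≠ 0 := Nat.cast_ne_zero.2 hD0
  have hN0 : N ≠ 0 := by
    intro h
    rw [h, mul_zero] at hN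
    exact Nat.card_pos.ne' hN
  have hN0' : (N : ℂ) ≠ 0 := Nat.cast_ne_zero.2 hN0
  have hN'0 : (N' : ℂ) ≠ 0 := by
    have : N' ≠ 0 := fun h => hN' (by rw [h]; exact dvd_zero _)
    exact Nat.cast_ne_zero.2 this
  have hp1 : ((p - 1 : ℕ) : ℂ) ≠ 0 := Nat.cast_ne_zero.2 (by have := hp.two_le; omega)
  have hnotp1 : ¬ p ∣ p - 1 := fun h => by
    have h1 := Nat.le_of_dvd (by have := hp.two_le; omega) h
    have := hp.two_le
    omega
  have hpa : (p : ℂ) ^ (a - 1) ≠ 0 := pow_ne_zero _ (Nat.cast_ne_zero.2 hp.ne_zero)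
  have hcard := orb_card_mul hp ha hn H χ
  have hcardC : ((Orb hn H χ).card : ℂ) * (Stb hn H χ : ℂ) = (p : ℂ) ^ (a - 1) * ((p - 1 : ℕ) : ℂ) := by
    exact_mod_cast hcard
  have hfullC : ((Orb hn H χ).card : ℂ) * (N' : ℂ) = (N : ℂ) * (y₀ : ℂ) := by exact_mod_cast hfull
  have hcoeff : ∀ g : G, MemLocalRing M (blockCoeff ((Orb hn H χ : Finset (IrrCharacter G)) : Set (IrrCharacter G)) g) := by
    intro g
    obtain ⟨b, hb, hpsi⟩ := Psi_eq hp ha hn H (isCharacter_of_isIrrCharacter χ.2) g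
    have h1 : ∑ ψ ∈ Orb hn H χ, (ψ : G → ℂ) g = (Stb hn H χ : ℂ)⁻¹ * ((p : ℂ) ^ (a - 1) * b) := by
      rw [← hpsi, psi_orbit hn H, inv_mul_cancel_left₀ hs0]
    have h2 : blockCoeff ((Orb hn H χ : Finset (IrrCharacter G)) : Set (IrrCharacter G)) g =
        (y₀ : ℂ) * (N' : ℂ)⁻¹ * ((p - 1 : ℕ) : ℂ)⁻¹ * conj b := by
      unfold blockCoeff
      rw [finsum_mem_coe_finset]
      have h3 : ∑ ψ ∈ Orb hn H χ, (ψ : G → ℂ) 1 * conj ((ψ : G → ℂ) g) =
          (D : ℂ) * conj (∑ ψ ∈ Orb hn H χ, (ψ : G → ℂ) g) := by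
        rw [map_sum, Finset.mul_sum]
        refine Finset.sum_congr rfl fun ψ hψ => ?_
        rw [orb_one hn H χ ψ hψ, hD]
      rw [h3, h1, hN]
      simp only [map_mul, map_inv₀, map_pow, map_natCast]
      push_cast
      have h4 : ((p : ℂ) ^ (a - 1)) / (Stb hn H χ : ℂ) = ((Orb hn H χ).card : ℂ) / ((p - 1 : ℕ) : ℂ) := by
        field_simp
        linear_combination -hcardC
      have h5 : ((Orb hn H χ).card : ℂ) / (N : ℂ) = (y₀ : ℂ) / (N' : ℂ) := by
        field_simp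
        linear_combination hfullC
      calc ((D : ℂ) * (N : ℂ))⁻¹ * ((D : ℂ) * ((Stb hn H χ : ℂ)⁻¹ * ((p : ℂ) ^ (a - 1) * conj b)))
          = ((p : ℂ) ^ (a - 1) / (Stb hn H χ : ℂ)) * (N : ℂ)⁻¹ * conj b := by
            field_simp
        _ = ((Orb hn H χ).card : ℂ) / (N : ℂ) * ((p - 1 : ℕ) : ℂ)⁻¹ * conj b := by
            rw [h4]
            field_simp
        _ = _ := by
            rw [h5]
            field_simp
    rw [h2]
    refine memLocalRing_mul (memLocalRing_mul (memLocalRing_mul (memLocalRing_natCast _)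
      (memLocalRing_inv_natCast hM hN')) (memLocalRing_inv_natCast hM hnotp1))
      (memLocalRing_of_isIntegral ?_)
    exact hb.map (starRingEnd ℂ).toIntAlgHom
  have hw := Cfsg.Agent.Lib.Blocks.WeakOrth.sum_eq_zero_of_idempotent hM
    ((Orb hn H χ : Finset (IrrCharacter G)) : Set (IrrCharacter G))
    (blockElt_mul_self _) hcoeff 1 y (by simpa using hp.one_lt.ne') hy
  rw [finsum_mem_coe_finset] at hw
  have h3 : ∑ ψ ∈ Orb hn H χ, (ψ : G → ℂ) 1 * conj ((ψ : G → ℂ) y) =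
      (D : ℂ) * conj (∑ ψ ∈ Orb hn H χ, (ψ : G → ℂ) y) := by
    rw [map_sum, Finset.mul_sum]
    refine Finset.sum_congr rfl fun ψ hψ => ?_
    rw [orb_one hn H χ ψ hψ, hD]
  rw [h3] at hw
  have h4 := (mul_eq_zero.1 hw).resolve_left hD0'
  exact (map_eq_zero (starRingEnd ℂ)).1 h4

/-- The degree is divisible by the order of a Sylow subgroup when the orbit is large. -/
theorem dvd_degree (hp : p.Prime) (ha : a ≠ 0) (hn : Nat.card G = p ^ a * g') (H : CRT (p ^ a) g' c d)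
    (hfac : (Nat.card G).factorization p = a)
    (χ : IrrCharacter G) {D N N' y₀ : ℕ} (hD : (χ : G → ℂ) 1 = D) (hD0 : D ≠ 0) (hN : Nat.card G = D * N)
    (hfull : (Orb hn H χ).card * N' = N * y₀) (hN' : ¬ p ∣ N') : p ^ a ∣ D := by
  classical
  haveI : Fact p.Prime := ⟨hp⟩
  obtain ⟨P⟩ : Nonempty (Sylow p G) := inferInstance
  have hP : Nat.card P = p ^ a := by
    rw [Sylow.card_eq_multiplicity, hfac]
  haveI : Fintype P := Fintype.ofFinite _
  have hχP : IsCharacter P (fun x : P => (χ : G → ℂ) x) :=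
    isCharacter_comp_hom (isCharacter_of_isIrrCharacter χ.2) (P : Subgroup G).subtype
  set L : ℂ := ∑ x : P, (χ : G → ℂ) x with hL
  have hr0 : ((Orb hn H χ).card : ℂ) ≠ 0 :=
    Nat.cast_ne_zero.2 (Finset.card_pos.2 ⟨χ, mem_orb hn H χ⟩).ne'
  have h1 : ∑ x : P, ∑ ψ ∈ Orb hn H χ, (ψ : G → ℂ) x = ((Orb hn H χ).card : ℂ) * D := by
    refine (Finset.sum_eq_single (1 : P) ?_ ?_).trans ?_
    · intro x _ hx
      refine orbit_sum_vanish hp ha hn H χ hD hD0 hN hfull hN' ?_
      have hx1 : (x : G) ≠ 1 := fun h => hx (Subtype.ext h)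
      have h2 : IsPGroup p P := P.isPGroup'
      obtain ⟨k, hk⟩ := h2 x
      have h3 : (x : G) ^ p ^ k = 1 := by
        have := congrArg Subtype.val hk
        simpa using this
      obtain ⟨j, -, hj⟩ := (Nat.dvd_prime_pow hp).1 (orderOf_dvd_of_pow_eq_one h3)
      rw [hj]
      refine dvd_pow_self p ?_
      rintro rfl
      exact hx1 (orderOf_eq_one_iff.1 (by simpa using hj))
    · simp
    · simp only [OneMemClass.coe_one]
      rw [Finset.sum_congr rfl (fun ψ hψ => orb_one hn H χ ψ hψ), hD]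
      simp
  have h2 : ∑ x : P, ∑ ψ ∈ Orb hn H χ, (ψ : G → ℂ) x = ((Orb hn H χ).card : ℂ) * L := by
    rw [Finset.sum_comm, ← nsmul_eq_mul, ← Finset.sum_const]
    refine Finset.sum_congr rfl fun ψ hψ => ?_
    obtain ⟨w, hw⟩ := orb_apply hn H χ ψ hψ
    simp only [hw]
    have hco : (Nat.card P).Coprime (kk c d (p ^ a) w) := by
      have h3 := kk_coprime H w
      rw [hP]
      exact (h3.coprime_mul_right_right).symm
    exact Equiv.sum_comp (powCoprime hco) (fun x : P => (χ : G → ℂ) x)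
  have h3 : (D : ℂ) = L := mul_left_cancel₀ hr0 (h1.symm.trans h2)
  obtain ⟨m, hm⟩ := exists_nat_classInner_of_isCharacter hχP (isCharacter_one (G := P))
  have h4 : L = ((p ^ a * m : ℕ) : ℂ) := by
    have hP0 : (Nat.card P : ℂ) ≠ 0 := Nat.cast_ne_zero.2 Nat.card_pos.ne'
    rw [classInner] at hm
    simp only [Pi.one_apply, map_one, mul_one] at hm
    push_cast
    rw [← hm, ← hL]
    have : (p : ℂ) ^ a = (Nat.card P : ℂ) := by rw [hP]; push_cast; rfl
    rw [this]
    field_simp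
  have h5 : D = p ^ a * m := by
    have : (D : ℂ) = ((p ^ a * m : ℕ) : ℂ) := h3.trans h4
    exact_mod_cast this
  exact ⟨m, h5⟩

/-- The automorphisms fixing the `g'`-th roots of unity. -/
theorem exists_of_aut (hn : Nat.card G = p ^ a * g') (hg' : g' ≠ 0) {σ : ℂ ≃+* ℂ}
    (hσ : σ (Complex.exp (2 * Real.pi * Complex.I / (g' : ℕ))) = Complex.exp (2 * Real.pi * Complex.I / (g' : ℕ))) :
    ∃ k : ℕ, k.Coprime (Nat.card G) ∧ k ≡ 1 [MOD g'] ∧
      ∀ ξ : G → ℂ, IsCharacter G ξ → ∀ g : G, σ (ξ g) = ξ (g ^ k) := by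
  haveI : NeZero g' := ⟨hg'⟩
  obtain ⟨k, hk, hτ⟩ := exists_pow_of_aut σ (Nat.card G) Nat.card_pos
  refine ⟨k, hk, ?_, fun ξ hξ g => ?_⟩
  · have hζ := Complex.isPrimitiveRoot_exp g' hg'
    have h1 : Complex.exp (2 * Real.pi * Complex.I / (g' : ℕ)) ^ Nat.card G = 1 := by
      rw [hn, pow_mul', hζ.pow_eq_one, one_pow]
    have h2 := hτ _ h1
    rw [hσ] at h2
    have hz0 : Complex.exp (2 * Real.pi * Complex.I / (g' : ℕ)) ≠ 0 := Complex.exp_ne_zero _
    rcases Nat.eq_zero_or_pos k with rfl | hkpos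
    · have h3 : g' = 1 := by
        have := hζ.dvd_of_pow_eq_one 1 (by rw [pow_one, h2, pow_zero])
        exact Nat.dvd_one.1 this
      rw [h3]
      exact Nat.modEq_one
    · obtain ⟨j, rfl⟩ : ∃ j, k = j + 1 := ⟨k - 1, by omega⟩
      have h3 : Complex.exp (2 * Real.pi * Complex.I / (g' : ℕ)) ^ j = 1 := by
        rw [pow_succ] at h2
        exact mul_right_cancel₀ hz0 (by rw [← h2, one_mul])
      have h4 := hζ.dvd_of_pow_eq_one j h3
      have h5 : 1 ≡ j + 1 [MOD g'] := (Nat.modEq_iff_dvd' (by omega)).2 (by simpa using h4)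
      exact h5.symm
  · obtain ⟨m, ρ, rfl⟩ := hξ
    exact Cfsg.Agent.Lib.Char.Galois.map_character (σ : ℂ →+* ℂ) Nat.card_pos hτ ρ g pow_card_eq_one'

/-- The orbit is the set of `p`-conjugates. -/
theorem mem_orb_iff (hn : Nat.card G = p ^ a * g') (H : CRT (p ^ a) g' c d) (hg' : g' ≠ 0) (χ ψ : IrrCharacter G) :
    ψ ∈ Orb hn H χ ↔ ∃ σ : ℂ ≃+* ℂ, σ (Complex.exp (2 * Real.pi * Complex.I / (g' : ℕ))) =
        Complex.exp (2 * Real.pi * Complex.I / (g' : ℕ)) ∧ (ψ : G → ℂ) = fun g => σ ((χ : G → ℂ) g) := by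
  classical
  letI := actIrr hn H
  haveI : NeZero g' := ⟨hg'⟩
  have hζ := Complex.isPrimitiveRoot_exp g' hg'
  constructor
  · intro hψ
    obtain ⟨w, -, rfl⟩ := Finset.mem_image.1 hψ
    have hco : (kk c d (p ^ a) w).Coprime (Nat.card G) := by
      rw [hn]
      exact kk_coprime H w
    obtain ⟨σ, hσ⟩ := Cfsg.Agent.Lib.DefectOne.exists_ringEquiv_pow (Nat.card G) Nat.card_pos _ hco
    refine ⟨σ, ?_, ?_⟩
    · rw [hσ _ (by rw [hn, pow_mul', hζ.pow_eq_one, one_pow])]
      have h2 := Cfsg.Agent.Lib.Char.Galois.pow_congr_of_modEq hζ.pow_eq_one (kk_modEq_g H w)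
      rw [h2, pow_one]
    · funext g
      obtain ⟨m, ρ, hρ, hχ⟩ := χ.2
      have h3 := Cfsg.Agent.Lib.Char.Galois.map_character (σ : ℂ →+* ℂ) Nat.card_pos hσ ρ g pow_card_eq_one'
      rw [hχ] at h3
      exact h3.symm
  · rintro ⟨σ, h1, h2⟩
    obtain ⟨k, hk, hk1, hk2⟩ := exists_of_aut hn hg' h1
    have hkq : k.Coprime (p ^ a) := by
      rw [hn] at hk
      exact hk.coprime_mul_right_right
    let w : (ZMod (p ^ a))ˣ := ZMod.unitOfCoprime k hkq
    have hmod : kk c d (p ^ a) w ≡ k [MOD p ^ a * g'] := by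
      rw [← Nat.modEq_and_modEq_iff_modEq_mul H.co]
      refine ⟨(kk_modEq_q H w).trans ?_, (kk_modEq_g H w).trans hk1.symm⟩
      rw [← ZMod.natCast_eq_natCast_iff]
      simp [w]
    refine Finset.mem_image.2 ⟨w, Finset.mem_univ _, Subtype.ext ?_⟩
    funext g
    show (χ : G → ℂ) (g ^ kk c d (p ^ a) w) = (ψ : G → ℂ) g
    rw [h2]
    show _ = σ ((χ : G → ℂ) g)
    rw [hk2 _ (isCharacter_of_isIrrCharacter χ.2)]
    have h3 : g ^ (p ^ a * g') = 1 := by rw [← hn]; exact pow_card_eq_one'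
    rw [Cfsg.Agent.Lib.Char.Galois.pow_congr_of_modEq h3 hmod]

end Main

/-- Statement. -/
theorem result {G : Type*} [Group G] [Finite G] (p : ℕ) (hp : p.Prime) (χ : Cfsg.IrrCharacter G) (r : ℕ)
    (hr : Nat.card {ψ : Cfsg.IrrCharacter G // ∃ σ : ℂ ≃+* ℂ, σ (Complex.exp (2 * Real.pi * Complex.I /
      ((Nat.card G / p ^ (Nat.card G).factorization p) : ℕ))) = Complex.exp (2 * Real.pi * Complex.I /
      ((Nat.card G / p ^ (Nat.card G).factorization p) : ℕ)) ∧ (ψ : G → ℂ) = fun g => σ ((χ : G → ℂ) g)} = r) :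
    (r * Cfsg.charDegree (χ : G → ℂ)).factorization p ≤ (Nat.card G).factorization p ∧
      (p ^ (Nat.card G).factorization p ∣ r * Cfsg.charDegree (χ : G → ℂ) →
        p ^ (Nat.card G).factorization p ∣ Cfsg.charDegree (χ : G → ℂ)) := by
  classical
  haveI := Fintype.ofFinite G
  haveI : Fact p.Prime := ⟨hp⟩
  have hn0 : Nat.card G ≠ 0 := Nat.card_pos.ne'
  set a := (Nat.card G).factorization p with ha
  set g' := Nat.card G / p ^ a with hg'
  have hn : Nat.card G = p ^ a * g' := (Nat.ordProj_mul_ordCompl_eq_self _ p).symm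
  have hg'0 : g' ≠ 0 := by
    intro h
    rw [h, mul_zero] at hn
    exact hn0 hn
  have hpg' : ¬ p ∣ g' := Nat.not_dvd_ordCompl hp hn0
  obtain ⟨D, hD, hD0, hDn⟩ := Cfsg.Agent.Lib.Char.GlaubOver.exists_degree_dvd χ.2
  have hdeg : charDegree (χ : G → ℂ) = D := by
    unfold charDegree
    rw [hD]
    simp
  obtain ⟨N, hN⟩ := hDn
  have hN0 : N ≠ 0 := by
    intro h
    rw [h, mul_zero] at hN
    exact hn0 hN
  have hfacn : a = D.factorization p + N.factorization p := by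
    rw [ha, hN, Nat.factorization_mul hD0 hN0]
    rfl
  rw [hdeg]
  by_cases ha0 : a = 0
  · -- the case `p ∤ |G|`
    have hone : r = 1 := by
      rw [← hr, Nat.card_eq_one_iff_unique]
      refine ⟨⟨?_⟩, ⟨⟨χ, RingEquiv.refl ℂ, rfl, rfl⟩⟩⟩
      rintro ⟨ψ₁, σ₁, h₁, h₁'⟩ ⟨ψ₂, σ₂, h₂, h₂'⟩
      have key : ∀ (σ : ℂ ≃+* ℂ) (ψ : IrrCharacter G), σ (Complex.exp (2 * Real.pi * Complex.I / (g' : ℕ))) =
          Complex.exp (2 * Real.pi * Complex.I / (g' : ℕ)) → (ψ : G → ℂ) = (fun g => σ ((χ : G → ℂ) g)) → ψ = χ := by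
        intro σ ψ h h'
        obtain ⟨k, hk, hk1, hk2⟩ := exists_of_aut hn hg'0 h
        apply Subtype.ext
        rw [h']
        funext g
        show σ ((χ : G → ℂ) g) = (χ : G → ℂ) g
        rw [hk2 _ (isCharacter_of_isIrrCharacter χ.2)]
        have hg1 : g ^ g' = 1 := by
          have : Nat.card G = g' := by
            rw [hn, ha0, pow_zero, one_mul]
          rw [← this]
          exact pow_card_eq_one'
        rw [Cfsg.Agent.Lib.Char.Galois.pow_congr_of_modEq hg1 hk1, pow_one]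
      apply Subtype.ext
      exact (key σ₁ ψ₁ h₁ h₁').trans (key σ₂ ψ₂ h₂ h₂').symm
    rw [hone, one_mul]
    refine ⟨?_, fun _ => ?_⟩
    · omega
    · rw [ha0, pow_zero]
      exact one_dvd _
  · haveI : NeZero (p ^ a) := ⟨pow_ne_zero _ hp.ne_zero⟩
    have hco : (p ^ a).Coprime g' :=
      Nat.Coprime.pow_left _ ((Nat.Prime.coprime_iff_not_dvd hp).2 hpg')
    obtain ⟨c, d, H⟩ := exists_crt hco
    have hr' : r = (Orb hn H χ).card := by
      rw [← hr]
      have h1 : Nat.card {ψ // ψ ∈ Orb hn H χ} = (Orb hn H χ).card := by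
        rw [Nat.card_eq_fintype_card, Fintype.card_coe]
      rw [← h1]
      exact Nat.card_congr (Equiv.subtypeEquivRight fun ψ => (mem_orb_iff hn H hg'0 χ ψ).symm)
    have hcard := orb_card_mul hp ha0 hn H χ
    have hdvd := dvd_stb_mul hp ha0 hn H χ hD hD0 hN
    rw [← hr'] at hcard
    obtain ⟨t, ht⟩ := hdvd
    have hpp : 0 < p ^ (a - 1) := pow_pos hp.pos _
    have hrel : r * t = (p - 1) * N := by
      have h1 : p ^ (a - 1) * (r * t) = p ^ (a - 1) * ((p - 1) * N) := by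
        calc p ^ (a - 1) * (r * t) = r * (p ^ (a - 1) * t) := by ring
          _ = r * (Stb hn H χ * N) := by rw [ht]
          _ = (r * Stb hn H χ) * N := by ring
          _ = (p ^ (a - 1) * (p - 1)) * N := by rw [hcard]
          _ = _ := by ring
      exact Nat.eq_of_mul_eq_mul_left hpp h1
    have hp1 : p - 1 ≠ 0 := by have := hp.two_le; omega
    have hnotp1 : ¬ p ∣ p - 1 := fun h => by
      have h1 := Nat.le_of_dvd (by have := hp.two_le; omega) h
      have := hp.two_le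
      omega
    have hr0 : r ≠ 0 := by
      intro h
      rw [h, zero_mul] at hcard
      exact (mul_ne_zero hpp.ne' hp1) hcard.symm
    have ht0 : t ≠ 0 := by
      intro h
      rw [h, mul_zero] at hrel
      exact (mul_ne_zero hp1 hN0) hrel.symm
    have hfacr : r.factorization p ≤ N.factorization p := by
      have h1 : r.factorization p + t.factorization p = (p - 1).factorization p + N.factorization p := by
        rw [← Finsupp.add_apply, ← Nat.factorization_mul hr0 ht0, hrel, Nat.factorization_mul hp1 hN0]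
        rfl
      rw [Nat.factorization_eq_zero_of_not_dvd hnotp1] at h1
      omega
    have hfacrD : (r * D).factorization p = r.factorization p + D.factorization p := by
      rw [Nat.factorization_mul hr0 hD0]
      rfl
    refine ⟨by omega, fun hpa => ?_⟩
    have h2 : a ≤ (r * D).factorization p :=
      (hp.pow_dvd_iff_le_factorization (mul_ne_zero hr0 hD0)).1 hpa
    have hle : N.factorization p ≤ r.factorization p := by omega
    set N' := N / p ^ N.factorization p with hN'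
    have hNdec : N = p ^ N.factorization p * N' := (Nat.ordProj_mul_ordCompl_eq_self _ p).symm
    have hrdec : r = p ^ r.factorization p * (r / p ^ r.factorization p) :=
      (Nat.ordProj_mul_ordCompl_eq_self _ p).symm
    have hnot : ¬ p ∣ N' := Nat.not_dvd_ordCompl hp hN0
    have hfull : (Orb hn H χ).card * N' = N * (p ^ (r.factorization p - N.factorization p) * (r / p ^ r.factorization p)) := by
      rw [← hr']
      have h3 : p ^ r.factorization p = p ^ N.factorization p * p ^ (r.factorization p - N.factorization p) := by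
        rw [← pow_add]
        congr 1
        omega
      have hrdec' : r = p ^ N.factorization p * p ^ (r.factorization p - N.factorization p) * (r / p ^ r.factorization p) := by
        rw [← h3]
        exact hrdec
      calc r * N' = (p ^ N.factorization p * p ^ (r.factorization p - N.factorization p) * (r / p ^ r.factorization p)) * N' := by
            rw [← hrdec']
        _ = (p ^ N.factorization p * N') * (p ^ (r.factorization p - N.factorization p) * (r / p ^ r.factorization p)) := by ring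
        _ = _ := by rw [← hNdec]
    exact dvd_degree hp ha0 hn H rfl χ hD hD0 hN hfull hnot

end Cfsg.Agent.S4506
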