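import Cfsg.Statements.S4507
import Cfsg.Agent.Lib.DefectOne.GaloisAct

set_option autoImplicit false
open Cfsg

namespace Cfsg.Agent.S4507

open Cfsg.Agent.Lib.DefectOne Subgroup Finset Cfsg.Agent.Lib.Blocks.Local Cfsg.Agent.Lib.Blocks.Central

set_option maxHeartbeats 2000000 in
/-- Let G be a finite group whose order g is divisible by the prime p exactly once, g′ = g/p, and fix a maximal ideal M of the algebraic integers containing p. Call two irreducible characters p-conjugate when a field automorphism of ℂ fixing the g′-th roots of unity carries one to the other. Let B be a p-block of positive defect (its defect group is a Sylow p-subgroup). Then B contains a subset Y (the exceptional family) such that: Y is a full p-conjugacy class (its members are pairwise p-conjugate and every p-conjugate of a member of Y lies in Y); every member of B outside Y is p-conjugate only to itself; the size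 t of Y divides p − 1 and B has exactly t + (p − 1)/t members; and there are signs δ_χ = ±1 (χ ∈ B) such that for every p-regular element x and every θ ∈ Y, Σ_{χ ∈ B ∖ Y} δ_χ χ(x) + δ_θ θ(x) = 0. -/
theorem result {G : Type*} [Group G] [Finite G] (p : ℕ) [Fact p.Prime] (M : Ideal Cfsg.AlgInt) (hM : Cfsg.IsPModular p M) (hdiv : p ∣ Nat.card G) (hsq : ¬ p ^ 2 ∣ Nat.card G) (B : Set (Cfsg.IrrCharacter G)) (hB : Cfsg.IsPBlock M B) (hd : 0 < Cfsg.blockDefect p B) : ∃ Y : Set (Cfsg.IrrCharacter G), Y ⊆ B ∧ Y.Nonempty ∧ (∀ θ ∈ Y, ∀ ψ : Cfsg.IrrCharacter G, (∃ σ : ℂ ≃+* ℂ, σ (Complex.exp (2 * Real.pi * Complex.I / ((Nat.card G / p ^ (Nat.card G).factorization p) : ℕ))) = Complex.exp (2 * Real.pi * Complex.I / ((Nat.card G / p ^ (Nat.card G).factorization p) : ℕ)) ∧ (ψ : G → ℂ) = fun g => σ ((θ : G → ℂ) g)) ↔ ψ ∈ Y) ∧ (∀ χ ∈ B, χ ∉ Y → ∀ ψ : Cfsg.IrrCharacter G, (∃ σ : ℂ ≃+* ℂ, σ (Complex.exp (2 * Real.pi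 * Complex.I / ((Nat.card G / p ^ (Nat.card G).factorization p) : ℕ))) = Complex.exp (2 * Real.pi * Complex.I / ((Nat.card G / p ^ (Nat.card G).factorization p) : ℕ)) ∧ (ψ : G → ℂ) = fun g => σ ((χ : G → ℂ) g)) → ψ = χ) ∧ Nat.card Y ∣ p - 1 ∧ Nat.card B = Nat.card Y + (p - 1) / Nat.card Y ∧ ∃ δ : Cfsg.IrrCharacter G → ℤ, (∀ χ ∈ B, δ χ = 1 ∨ δ χ = -1) ∧ ∀ x : G, ¬ p ∣ orderOf x → ∀ θ ∈ Y, (∑ᶠ χ ∈ B \ Y, (δ χ : ℂ) * (χ : G → ℂ) x) + (δ θ : ℂ) * (θ : G → ℂ) x = 0 := by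
  classical
  letI : Fintype G := Fintype.ofFinite _
  have hp := (Fact.out : p.Prime)
  have hG0 : Nat.card G ≠ 0 := Nat.card_pos.ne'
  have hfac : (Nat.card G).factorization p = 1 := by
    have h1 : 1 ≤ (Nat.card G).factorization p := hp.factorization_pos_of_dvd hG0 hdiv
    have h2 : (Nat.card G).factorization p < 2 := by
      by_contra h
      exact hsq ((hp.pow_dvd_iff_le_factorization hG0).2 (by omega))
    omega
  obtain ⟨n, hn⟩ := hdiv
  have hdivn : Nat.card G / p ^ (Nat.card G).factorization p = n := by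
    rw [hfac, pow_one, hn]
    exact Nat.mul_div_cancel_left _ hp.pos
  rw [hdivn]
  have hn0 : 0 < n := by
    rcases Nat.eq_zero_or_pos n with h | h
    · rw [h, mul_zero] at hn
      exact absurd hn hG0
    · exact h
  have hnp : ¬ p ∣ n := by
    rintro ⟨m, rfl⟩
    apply hsq
    rw [hn, pow_two, ← mul_assoc]
    exact dvd_mul_right _ _
  obtain ⟨P⟩ : Nonempty (Sylow p G) := inferInstance
  have hP : Nat.card P = p := by
    have h1 := Sylow.card_eq_multiplicity P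
    rw [hfac, pow_one] at h1
    exact h1
  have hnt : Nontrivial (P : Subgroup G) := by
    have h1 : 1 < Nat.card (P : Subgroup G) := by
      show 1 < Nat.card P
      rw [hP]
      exact hp.one_lt
    exact Finite.one_lt_card_iff_nontrivial.1 h1
  obtain ⟨⟨x, hxP⟩, hx1⟩ := exists_ne (1 : (P : Subgroup G))
  have hx1' : x ≠ 1 := fun h => hx1 (Subtype.ext h)
  obtain ⟨hz, H, hL⟩ := exists_localData P hP hxP hx1'
  letI : Fintype H := Fintype.ofFinite _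
  letI : Fintype (IrrCharacter G) := Fintype.ofFinite _
  haveI hMp : M.IsPrime := isPrime_of_isPModular hM
  have hζ : IsPrimitiveRoot (Complex.exp (2 * Real.pi * Complex.I / p)) p := Complex.isPrimitiveRoot_exp p hp.ne_zero
  set ζ := Complex.exp (2 * Real.pi * Complex.I / p) with hζdef
  have hω : IsPrimitiveRoot (Complex.exp (2 * Real.pi * Complex.I / n)) n := Complex.isPrimitiveRoot_exp n hn0.ne'
  set ω := Complex.exp (2 * Real.pi * Complex.I / n) with hωdef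
  have hdc : ∀ χ : IrrCharacter G, (χ : G → ℂ) 1 = (charDegree (χ : G → ℂ) : ℂ) := fun χ =>
    (Cfsg.Agent.Lib.Char.Values.IsCharacter.charDegree_cast
      (Cfsg.Agent.Lib.Char.Basic.isCharacter_of_isIrrCharacter χ.2)).symm
  -- the block
  obtain ⟨χ₀, hχ₀⟩ := hB
  have hχ₀B : χ₀ ∈ B := by
    rw [hχ₀]
    exact Cfsg.Agent.Lib.Blocks.Osima.mem_blockOf_self χ₀
  obtain ⟨χ₁, hχ₁B, hχ₁d⟩ : ∃ χ₁ ∈ B, ¬ p ∣ charDegree (χ₁ : G → ℂ) := by
    unfold blockDefect at hd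
    rw [hfac] at hd
    have h1 : ((fun χ : IrrCharacter G => (charDegree (χ : G → ℂ)).factorization p) '' B).Nonempty :=
      ⟨_, ⟨χ₀, hχ₀B, rfl⟩⟩
    have h2 := Nat.sInf_mem h1
    have h3 : sInf ((fun χ : IrrCharacter G => (charDegree (χ : G → ℂ)).factorization p) '' B) = 0 := by omega
    rw [h3] at h2
    obtain ⟨χ₁, hχ₁, h4⟩ := h2
    refine ⟨χ₁, hχ₁, fun hd' => ?_⟩
    have hd0 : charDegree (χ₁ : G → ℂ) ≠ 0 := by
      intro h0
      have h5 := Cfsg.Agent.Lib.Blocks.HeightZero.charDegree_dvd_card χ₁.2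
      rw [h0] at h5
      exact hG0 (zero_dvd_iff.1 h5)
    have h6 := hp.factorization_pos_of_dvd hd0 hd'
    simp only at h4
    omega
  have hBχ₁ : B = blockOf M (χ₁ : G → ℂ) := by
    rw [hχ₀] at hχ₁B ⊢
    exact (Cfsg.Agent.Lib.Blocks.Osima.blockOf_eq_of_mem hχ₁B).symm
  obtain ⟨φ, a₁, ha₁⟩ := exists_row hL χ₁ hζ hχ₁d
  obtain ⟨A, e, t, hI⟩ := exists_inertiaData hL (isClassFunction_of_irr φ.2)
  obtain ⟨X, Y, εX, ε₀, bY, hS⟩ := exists_rowStructure hL φ.2 hζ hI.epos hI.het hI.Acard hI.hA hI.T1 hI.T2 hI.fib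
  have hχ₁U : χ₁ ∈ X ∪ Y := (hS.supp χ₁).2 ⟨a₁, ha₁⟩
  have hdeg : ∀ χ ∈ blockOf M (χ₁ : G → ℂ), ¬ p ∣ charDegree (χ : G → ℂ) := fun χ hχ =>
    not_dvd_of_mem_block hM hL.syl hχ₁d hχ
  have hBU : B = ((X ∪ Y : Finset (IrrCharacter G)) : Set (IrrCharacter G)) := by
    rw [hBχ₁]
    exact block_eq_rows hL hM φ.2 hζ hS hI hχ₁U hdeg
  have hepos := hI.epos
  have hp1 := hp.one_lt
  have htpos : 0 < t := by
    rcases Nat.eq_zero_or_pos t with h | h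
    · have h1 := hI.het
      rw [h, mul_zero] at h1
      omega
    · exact h
  have hε₀ : ε₀ ≠ 0 := by
    rcases hS.sign₀ with h | h <;> rw [h] <;> norm_num
  have hcardc : ∀ S : Finset (IrrCharacter G), Nat.card ((S : Set (IrrCharacter G))) = S.card := by
    intro S
    simp
  -- fixed roots of unity
  haveI : NeZero n := ⟨hn0.ne'⟩
  have hfix : ∀ σ : ℂ ≃+* ℂ, σ ω = ω → ∀ ε : ℂ, ε ^ n = 1 → σ ε = ε := by
    intro σ hσ ε hε
    obtain ⟨i, -, rfl⟩ := hω.eq_pow_of_pow_eq_one hε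
    rw [map_pow, hσ]
  have hreg : ∀ g : G, ¬ p ∣ orderOf g → g ^ n = 1 := by
    intro g hg
    rw [← orderOf_dvd_iff_pow_eq_one]
    have h1 : orderOf g ∣ Nat.card G := orderOf_dvd_natCard g
    rw [hn] at h1
    have h2 : (orderOf g).Coprime p := ((Nat.Prime.coprime_iff_not_dvd hp).2 hg).symm
    exact h2.dvd_of_dvd_mul_left h1
  have hfixφ : ∀ σ : ℂ ≃+* ℂ, (∀ ε : ℂ, ε ^ n = 1 → σ ε = ε) → ∀ y : H, σ ((φ : H → ℂ) y) = (φ : H → ℂ) y := by
    intro σ hσ y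
    refine map_irr_of_pow σ hn0 hσ φ.2 ?_
    have h1 := hreg y (hL.orderOf_not_dvd y.2)
    exact Subtype.ext (by simpa using h1)
  -- the action on the exceptional characters
  have hkey : ∀ σ : ℂ ≃+* ℂ, (∀ ε : ℂ, ε ^ n = 1 → σ ε = ε) → ∀ s : ZMod p, s ≠ 0 → σ ζ = ζ ^ s.val → 2 ≤ t →
      ∀ θ ∈ Y, ∃ ψ ∈ Y, (ψ : G → ℂ) = (fun g => σ ((θ : G → ℂ) g)) ∧ bY ψ = s ^ e * bY θ := by
    intro σ hσ s hs hσζ ht θ hθ
    let ψ : IrrCharacter G := ⟨fun g => σ ((θ : G → ℂ) g), isIrr_map σ θ.2⟩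
    have hrr : ∀ a : ZMod p, rr x H (φ : H → ℂ) ζ (ψ : G → ℂ) (s * a) = rr x H (φ : H → ℂ) ζ (θ : G → ℂ) a :=
      rr_map hL σ θ.2 φ.2 (hfixφ σ hσ) hζ hσζ
    obtain ⟨a₀, ha₀, hb⟩ := hS.exY θ hθ
    have hrow₀ : rr x H (φ : H → ℂ) ζ (θ : G → ℂ) a₀ = ε₀ := by
      rw [hS.rowY θ hθ a₀ ha₀, if_pos hb]
    have hψU : ψ ∈ X ∪ Y := (hS.supp ψ).2 ⟨s * a₀, by
      rw [hrr, hrow₀]
      exact hε₀⟩
    obtain ⟨a₂, ha₂, hne⟩ := exists_ne_fibre hI.epos hI.het ht hI.Acard hI.hA a₀ ha₀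
    have hrow₂ : rr x H (φ : H → ℂ) ζ (θ : G → ℂ) a₂ = 0 := by
      rw [hS.rowY θ hθ a₂ ha₂, if_neg]
      rw [← hb]
      exact hne
    have hψX : ψ ∉ X := by
      intro h
      obtain ⟨h1, h2⟩ := hS.rowX ψ h
      have h3 := h2 (s * a₂) (mul_ne_zero hs ha₂)
      rw [hrr, hrow₂] at h3
      rcases h1 with h1 | h1 <;> rw [h1] at h3 <;> norm_num at h3
    have hψY : ψ ∈ Y := (mem_union.1 hψU).resolve_left hψX
    refine ⟨ψ, hψY, rfl, ?_⟩
    have h1 := hS.rowY ψ hψY (s * a₀) (mul_ne_zero hs ha₀)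
    rw [hrr, hrow₀] at h1
    have h2 : (s * a₀) ^ e = bY ψ := by
      by_contra h3
      rw [if_neg h3] at h1
      exact hε₀ h1
    rw [← h2, mul_pow, hb]
  have hσs : ∀ σ : ℂ ≃+* ℂ, ∃ s : ZMod p, s ≠ 0 ∧ σ ζ = ζ ^ s.val := by
    intro σ
    have h1 : (σ ζ) ^ p = 1 := by
      rw [← map_pow, hζ.pow_eq_one, map_one]
    obtain ⟨i, hi, hi'⟩ := hζ.eq_pow_of_pow_eq_one h1
    refine ⟨(i : ZMod p), ?_, ?_⟩
    · intro h0
      have h2 : p ∣ i := (ZMod.natCast_eq_zero_iff i p).1 h0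
      have h3 : i = 0 := Nat.eq_zero_of_dvd_of_lt h2 hi
      subst h3
      rw [pow_zero] at hi'
      have h4 : ζ = 1 := σ.injective (by rw [← hi', map_one])
      rw [h4] at hζ
      have h5 := hζ.unique IsPrimitiveRoot.one
      omega
    · rw [ZMod.val_natCast, Nat.mod_eq_of_lt hi, hi']
  -- `t = 1`
  have hconstY : t = 1 → ∀ θ ∈ Y, ∀ a : ZMod p, a ≠ 0 → rr x H (φ : H → ℂ) ζ (θ : G → ℂ) a = ε₀ := by
    intro ht θ hθ a ha
    have he : e = p - 1 := by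
      rw [hI.het, ht, mul_one]
    obtain ⟨a₀, ha₀, hb⟩ := hS.exY θ hθ
    rw [hS.rowY θ hθ a ha, if_pos]
    rw [← hb, he, ZMod.pow_card_sub_one_eq_one ha, ZMod.pow_card_sub_one_eq_one ha₀]
  have hfixed : ∀ σ : ℂ ≃+* ℂ, σ ω = ω → ∀ χ : IrrCharacter G, χ ∈ X ∪ Y → ∀ ε : ℤ, ε ≠ 0 →
      (∀ a : ZMod p, a ≠ 0 → rr x H (φ : H → ℂ) ζ (χ : G → ℂ) a = ε) → ∀ ψ : IrrCharacter G,
      (ψ : G → ℂ) = (fun g => σ ((χ : G → ℂ) g)) → ψ = χ := by
    intro σ hσ χ hχ ε hε hr ψ hψ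
    apply Subtype.ext
    rw [hψ]
    funext g
    exact map_eq_of_constant_row hL hM P hz σ hn0 (hfix σ hσ) hreg χ φ.2 hζ hI hε hr (hdc χ)
      (not_dvd_deg hL φ.2 hζ hS hI hχ (hdc χ)) g
  have hYsub : ∀ θ ∈ Y, θ ∈ X ∪ Y := fun θ hθ => mem_union_right _ hθ
  have htdiv : (p - 1) / t = e := by
    rw [hI.het]
    exact Nat.mul_div_cancel _ htpos
  have hYne : Y.Nonempty := by
    rw [← card_pos, hS.cardY]
    exact htpos
  have hXc : ∀ χ ∈ X, χ ∉ Y := fun χ hχ hχ' => (disjoint_left.1 hS.disj) hχ hχ'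
  let δ : IrrCharacter G → ℤ := fun χ => if χ ∈ X then εX χ else ε₀
  have hδX : ∀ χ ∈ X, δ χ = εX χ := fun χ hχ => if_pos hχ
  have hδY : ∀ χ ∈ Y, δ χ = ε₀ := fun χ hχ => if_neg (fun h => hXc χ h hχ)
  refine ⟨(Y : Set (IrrCharacter G)), ?_, ?_, ?_, ?_, ?_, ?_, δ, ?_, ?_⟩
  · rw [hBU]
    intro θ hθ
    exact Finset.mem_coe.2 (hYsub θ hθ)
  · exact hYne
  · intro θ hθ ψ
    have hθ' : θ ∈ Y := hθ
    constructor
    · rintro ⟨σ, hσ, hψ⟩
      rcases (show t = 1 ∨ 2 ≤ t by omega) with ht | ht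
      · have h1 := hfixed σ hσ θ (hYsub θ hθ') ε₀ hε₀ (hconstY ht θ hθ') ψ hψ
        rw [h1]
        exact hθ
      · obtain ⟨s, hs, hσζ⟩ := hσs σ
        obtain ⟨ψ', hψ', h1, -⟩ := hkey σ (hfix σ hσ) s hs hσζ ht θ hθ'
        have h2 : ψ = ψ' := Subtype.ext (by rw [hψ, h1])
        rw [h2]
        exact hψ'
    · intro hψ
      have hψ' : ψ ∈ Y := hψ
      rcases (show t = 1 ∨ 2 ≤ t by omega) with ht | ht
      · have h1 : θ = ψ := by
          have h2 : Y.card ≤ 1 := by rw [hS.cardY, ht]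
          exact card_le_one.1 h2 _ hθ' _ hψ'
        refine ⟨RingEquiv.refl ℂ, rfl, ?_⟩
        rw [h1]
        rfl
      · obtain ⟨a₀, ha₀, hb⟩ := hS.exY θ hθ'
        obtain ⟨a₃, ha₃, hb'⟩ := hS.exY ψ hψ'
        have hs0 : a₃ / a₀ ≠ 0 := div_ne_zero ha₃ ha₀
        have hsv : ¬ p ∣ (a₃ / a₀).val := by
          intro h
          have h1 : (a₃ / a₀).val = 0 := Nat.eq_zero_of_dvd_of_lt h (ZMod.val_lt _)
          exact hs0 ((ZMod.val_eq_zero _).1 h1)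
        obtain ⟨τ, hτ1, hτ2⟩ := exists_ringEquiv_fix n p hn0 hp (((Nat.Prime.coprime_iff_not_dvd hp).2 hnp).symm) hsv
        have hτω : τ ω = ω := hτ1 ω hω.pow_eq_one
        obtain ⟨ψ', hψ'', h1, h2⟩ := hkey τ hτ1 (a₃ / a₀) hs0 (hτ2 ζ hζ.pow_eq_one) ht θ hθ'
        have h3 : bY ψ' = bY ψ := by
          rw [h2, ← hb, ← hb', div_pow, div_mul_cancel₀ _ (pow_ne_zero _ ha₀)]
        have h4 : ψ' = ψ := hS.injY ψ' hψ'' ψ hψ' h3
        refine ⟨τ, hτω, ?_⟩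
        rw [← h4, h1]
  · intro χ hχ hχY ψ
    rintro ⟨σ, hσ, hψ⟩
    rw [hBU] at hχ
    have hχU : χ ∈ X ∪ Y := Finset.mem_coe.1 hχ
    have hχX : χ ∈ X := (mem_union.1 hχU).resolve_right (fun h => hχY h)
    obtain ⟨h1, h2⟩ := hS.rowX χ hχX
    have hε : εX χ ≠ 0 := by
      rcases h1 with h | h <;> rw [h] <;> norm_num
    exact hfixed σ hσ χ hχU (εX χ) hε h2 ψ hψ
  · rw [hcardc, hS.cardY]
    exact ⟨e, by rw [hI.het, mul_comm]⟩
  · rw [hBU, hcardc, hcardc, card_union_of_disjoint hS.disj, hS.cardX, hS.cardY, htdiv, add_comm]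
  · intro χ hχ
    rw [hBU] at hχ
    rcases mem_union.1 (Finset.mem_coe.1 hχ) with h | h
    · rw [hδX χ h]
      exact (hS.rowX χ h).1
    · rw [hδY χ h]
      exact hS.sign₀
  · intro g hg θ hθ
    have hθ' : θ ∈ Y := hθ
    have h1 := hS.rel g hg θ hθ'
    have h2 : B \ (Y : Set (IrrCharacter G)) = (X : Set (IrrCharacter G)) := by
      rw [hBU]
      ext χ
      simp only [Set.mem_diff, Finset.mem_coe, mem_union]
      constructor
      · rintro ⟨h3 | h3, h4⟩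
        · exact h3
        · exact absurd h3 h4
      · intro h3
        exact ⟨Or.inl h3, hXc χ h3⟩
    rw [h2, finsum_mem_coe_finset, hδY θ hθ']
    have h3 : ∑ χ ∈ X, (δ χ : ℂ) * (χ : G → ℂ) g = ∑ χ ∈ X, (εX χ : ℂ) * (χ : G → ℂ) g :=
      sum_congr rfl fun χ hχ => by rw [hδX χ hχ]
    rw [h3]
    linear_combination h1

end Cfsg.Agent.S4507
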