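import Mathlib
import Cfsg.Agent.Lib.Char.SelfCen

set_option autoImplicit false

open Cfsg

namespace Cfsg.Agent.S4509

open Cfsg.Agent.Lib.Blocks.AbFrob Cfsg.Agent.Lib.Char.SelfCen
open scoped commutatorElement

variable {G : Type*} [Group G] [Finite G] {p : ℕ} [hp : Fact p.Prime] {x : G}

omit [Finite G] hp in
/-- Two subgroups with `N ⊔ S = ⊤` and `⁅N, N⁆ ≤ Q`: the commutator subgroup is in `Q ⊔ S`. -/
lemma commutator_le_sup' {S N Q : Subgroup G} [hS : S.Normal] (h1 : N ⊔ S = ⊤) (h2 : ⁅N, N⁆ ≤ Q) :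
    commutator G ≤ Q ⊔ S := by
  let π := QuotientGroup.mk' S
  have hker : π.ker = S := QuotientGroup.ker_mk' S
  have hmap : (⊤ : Subgroup G).map π = N.map π := by
    rw [← h1, Subgroup.map_sup]
    have : S.map π = ⊥ := by
      rw [Subgroup.map_eq_bot_iff, hker]
    rw [this, sup_bot_eq]
  have h3 : (commutator G).map π ≤ Q.map π := by
    rw [commutator_def, Subgroup.map_commutator, hmap, ← Subgroup.map_commutator]
    exact Subgroup.map_mono h2
  have h4 := Subgroup.map_le_iff_le_comap.1 h3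
  rwa [Subgroup.comap_map_eq, hker] at h4

omit [Finite G] hp in
/-- With `P` abelian and `G' ≤ P S`: `G'' ≤ S`. -/
lemma derived_le {S Q : Subgroup G} [hS : S.Normal] (hQ : ⁅Q, Q⁆ = ⊥) (h : commutator G ≤ Q ⊔ S) :
    derivedSeries G 2 ≤ S := by
  let π := QuotientGroup.mk' S
  have hker : π.ker = S := QuotientGroup.ker_mk' S
  have h1 : (commutator G).map π ≤ Q.map π := by
    have := Subgroup.map_mono (f := π) h
    rw [Subgroup.map_sup] at this
    have h2 : S.map π = ⊥ := by
      rw [Subgroup.map_eq_bot_iff, hker]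
    rwa [h2, sup_bot_eq] at this
  have h2 : (derivedSeries G 2).map π = ⊥ := by
    have h3 : derivedSeries G 2 = ⁅commutator G, commutator G⁆ := by
      rw [derivedSeries_succ, derivedSeries_one]
    rw [h3, Subgroup.map_commutator]
    apply le_bot_iff.1
    calc ⁅(commutator G).map π, (commutator G).map π⁆ ≤ ⁅Q.map π, Q.map π⁆ :=
          Subgroup.commutator_mono h1 h1
      _ = (⁅Q, Q⁆).map π := (Subgroup.map_commutator _ _ _).symm
      _ = ⊥ := by rw [hQ, Subgroup.map_bot]
  rw [Subgroup.map_eq_bot_iff, hker] at h2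
  exact h2

section Setup

variable (hx : orderOf x = p) (hC : Subgroup.centralizer ({x} : Set G) = Subgroup.zpowers x)
  {P : Sylow p G} (hP : (P : Subgroup G) = Subgroup.zpowers x)

include hx hP in
lemma card_P : Nat.card (P : Subgroup G) = p := by
  rw [hP, Nat.card_zpowers, hx]

include hC hP in
lemma cc_eq : CC P = (P : Subgroup G) := by
  show Subgroup.centralizer (((P : Subgroup G)) : Set G) = _
  rw [hP]; exact centralizer_eq hC

include hx hC hP in
lemma card_NN : Nat.card (NN P) = (CC P).relIndex (NN P) * p := by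
  have hle : CC P ≤ NN P := by
    rw [cc_eq hC hP]; exact Subgroup.le_normalizer
  have h1 := Subgroup.relIndex_mul_relIndex (⊥ : Subgroup G) (CC P) (NN P) bot_le hle
  rw [Subgroup.relIndex_bot_left, Subgroup.relIndex_bot_left, cc_eq hC hP, card_P hx hP] at h1
  rw [cc_eq hC hP, ← h1, mul_comm]

include hx hC hP in
/-- The commutators of elements of `N(P)` lie in `P`. -/
lemma comm_mem {a b : G} (ha : a ∈ NN P) (hb : b ∈ NN P) : ⁅a, b⁆ ∈ (P : Subgroup G) := by
  have hxP : x ∈ (P : Subgroup G) := by rw [hP]; exact Subgroup.mem_zpowers x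
  have hact : ∀ c ∈ NN P, ∃ k : ℤ, c * x * c⁻¹ = x ^ k := by
    intro c hc
    have h1 : c * x * c⁻¹ ∈ (P : Subgroup G) := (Subgroup.mem_normalizer_iff.1 hc x).1 hxP
    rw [hP] at h1
    obtain ⟨k, hk⟩ := Subgroup.mem_zpowers_iff.1 h1
    exact ⟨k, hk.symm⟩
  rw [← cc_eq hC hP]
  show ⁅a, b⁆ ∈ Subgroup.centralizer (((P : Subgroup G)) : Set G)
  rw [hP, ← centralizer_zpowers', Subgroup.mem_centralizer_singleton_iff]
  obtain ⟨i, hi⟩ := hact a ha
  obtain ⟨j, hj⟩ := hact b hb
  obtain ⟨i', hi'⟩ := hact a⁻¹ (inv_mem ha)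
  obtain ⟨j', hj'⟩ := hact b⁻¹ (inv_mem hb)
  have hz : ∀ (c : G) (k : ℤ), c * x * c⁻¹ = x ^ k → ∀ l : ℤ, c * x ^ l * c⁻¹ = x ^ (k * l) := by
    intro c k hk l
    rw [← conj_zpow, hk, zpow_mul]
  have h1 : x = x ^ (i * i') := by
    have := hz a i hi i'
    rw [← hi'] at this
    rw [← this]; group
  have h2 : x = x ^ (j * j') := by
    have := hz b j hj j'
    rw [← hj'] at this
    rw [← this]; group
  have h3 : ⁅a, b⁆ * x * ⁅a, b⁆⁻¹ = x := by
    rw [commutatorElement_def]
    have e1 : (a * b * a⁻¹ * b⁻¹) * x * (a * b * a⁻¹ * b⁻¹)⁻¹ =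
        a * (b * (a⁻¹ * (b⁻¹ * x * b⁻¹⁻¹) * a⁻¹⁻¹) * b⁻¹) * a⁻¹ := by group
    rw [e1, hj', hz _ _ hi' j', hz _ _ hj (i' * j'), hz _ _ hi (j * (i' * j'))]
    have e2 : i * (j * (i' * j')) = (i * i') * (j * j') := by ring
    rw [e2, zpow_mul, ← h1, ← h2]
  have h4 := mul_inv_eq_iff_eq_mul.1 h3
  exact h4

include hx hP in
/-- A nontrivial element of `P` generates `P`. -/
lemma zpowers_of_mem {y : G} (hy : y ∈ (P : Subgroup G)) (hy1 : y ≠ 1) :
    Subgroup.zpowers y = (P : Subgroup G) := by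
  rw [hP] at hy ⊢
  exact zpowers_eq_of_ne_one hp.out hx hy hy1

include hx hC hP in
/-- If `S` is normal and `S ∩ P = 1`, then `S ∩ N(P) = 1`. -/
lemma inf_NN {S : Subgroup G} [hS : S.Normal] (hSP : S ⊓ (P : Subgroup G) = ⊥) : S ⊓ NN P = ⊥ := by
  have hxP : x ∈ (P : Subgroup G) := by rw [hP]; exact Subgroup.mem_zpowers x
  rw [eq_bot_iff]
  rintro a ⟨haS, haN⟩
  have h1 : a * x * a⁻¹ * x⁻¹ ∈ S := by
    have h2 : x * a⁻¹ * x⁻¹ ∈ S := hS.conj_mem _ (inv_mem haS) x
    have : a * x * a⁻¹ * x⁻¹ = a * (x * a⁻¹ * x⁻¹) := by group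
    rw [this]
    exact mul_mem haS h2
  have h2 : a * x * a⁻¹ * x⁻¹ ∈ (P : Subgroup G) :=
    mul_mem ((Subgroup.mem_normalizer_iff.1 haN x).1 hxP) (inv_mem hxP)
  have h3 : a * x * a⁻¹ * x⁻¹ ∈ S ⊓ (P : Subgroup G) := ⟨h1, h2⟩
  rw [hSP, Subgroup.mem_bot] at h3
  have h4 : a * x = x * a := by
    have := mul_inv_eq_one.1 h3
    exact mul_inv_eq_iff_eq_mul.1 this
  have h5 : a ∈ Subgroup.zpowers x := by
    rw [← hC, Subgroup.mem_centralizer_singleton_iff]; exact h4
  rw [← hP] at h5
  have h6 : a ∈ S ⊓ (P : Subgroup G) := ⟨haS, h5⟩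
  rwa [hSP] at h6

include hP in
/-- The commutator subgroup of `N(P)` is in `P`. -/
lemma commutator_NN_le (hx : orderOf x = p) (hC : Subgroup.centralizer ({x} : Set G) = Subgroup.zpowers x) :
    ⁅NN P, NN P⁆ ≤ (P : Subgroup G) := by
  rw [Subgroup.commutator_le]
  intro a ha b hb
  exact comm_mem hx hC hP ha hb

include hP in
lemma comm_P_bot : ⁅(P : Subgroup G), (P : Subgroup G)⁆ = ⊥ := by
  rw [eq_bot_iff, Subgroup.commutator_le]
  intro a ha b hb
  rw [hP] at ha hb
  obtain ⟨i, hi⟩ := Subgroup.mem_zpowers_iff.1 ha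
  obtain ⟨j, hj⟩ := Subgroup.mem_zpowers_iff.1 hb
  rw [← hi, ← hj, Subgroup.mem_bot, commutatorElement_eq_one_iff_commute]
  exact (Commute.refl x).zpow_zpow i j

include hx hP in
/-- When `m ≠ 1`, `P` is in the commutator subgroup, and there is a nontrivial commutator in `P`. -/
lemma le_commutator (hm : (CC P).relIndex (NN P) ≠ 1) : (P : Subgroup G) ≤ commutator G := by
  have hxP : x ∈ (P : Subgroup G) := by rw [hP]; exact Subgroup.mem_zpowers x
  have h1 : ¬ NN P ≤ CC P := fun h => hm (Subgroup.relIndex_eq_one.2 h)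
  obtain ⟨n, hnN, hnC⟩ := Set.not_subset.1 h1
  have hne : n * x * n⁻¹ * x⁻¹ ≠ 1 := by
    intro h
    apply hnC
    show n ∈ Subgroup.centralizer (((P : Subgroup G)) : Set G)
    rw [hP, ← centralizer_zpowers', Subgroup.mem_centralizer_singleton_iff]
    have := mul_inv_eq_one.1 h
    exact (mul_inv_eq_iff_eq_mul.1 this)
  have hy : n * x * n⁻¹ * x⁻¹ ∈ (P : Subgroup G) :=
    mul_mem ((Subgroup.mem_normalizer_iff.1 hnN x).1 hxP) (inv_mem hxP)
  rw [← zpowers_of_mem hx hP hy hne, Subgroup.zpowers_le, commutator_def]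
  exact Subgroup.commutator_mem_commutator (Subgroup.mem_top n) (Subgroup.mem_top x)

omit hp in
lemma isPGroup_zpowers_of_pow {A : Type*} [Group A] {y : A} (hp' : p.Prime) (hy : y ^ p = 1) :
    IsPGroup p (Subgroup.zpowers y) := by
  have _ := hp'
  rintro ⟨a, ha⟩
  refine ⟨1, ?_⟩
  obtain ⟨k, rfl⟩ := Subgroup.mem_zpowers_iff.1 ha
  apply Subtype.ext
  show (y ^ k) ^ (p ^ 1) = 1
  rw [pow_one, ← zpow_natCast, ← zpow_mul, mul_comm, zpow_mul, zpow_natCast, hy, one_zpow]

omit [Finite G] hp in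
lemma card_sup_of_normal [Finite G] {S T : Subgroup G} [hS : S.Normal] (h : S ⊓ T = ⊥) :
    Nat.card ↥(S ⊔ T) = Nat.card S * Nat.card T := by
  have h1 := Subgroup.relIndex_mul_relIndex (⊥ : Subgroup G) S (S ⊔ T) bot_le le_sup_left
  rw [Subgroup.relIndex_bot_left, Subgroup.relIndex_bot_left, Subgroup.relIndex_sup_left,
    ← Subgroup.inf_relIndex_right, h, Subgroup.relIndex_bot_left] at h1
  exact h1.symm

section Main

variable {D : ℕ} (hD : Nat.card G = Nat.card (NN P) * D)

include hx hP in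
lemma x_ne_one : x ≠ 1 := by
  intro h
  rw [h, orderOf_one] at hx
  exact hp.out.one_lt.ne hx

include hx hC hP hD in
/-- The forward direction when `m ≠ 1`. -/
lemma forward (hpD : ¬ p ∣ D) (hm : (CC P).relIndex (NN P) ≠ 1) {S : Subgroup G} (hS : S.Normal) (hcard : Nat.card S = D) :
    derivedSeries G 2 ≠ derivedSeries G 1 := by
  have hSP : S ⊓ (P : Subgroup G) = ⊥ := by
    apply disjoint_iff.1
    apply Subgroup.disjoint_of_coprime_natCard
    rw [hcard, card_P hx hP]
    exact ((Nat.Prime.coprime_iff_not_dvd hp.out).2 hpD).symm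
  have hSN := inf_NN hx hC hP hSP
  have h0 : Nat.card ↥(S ⊔ NN P) = Nat.card G := by
    rw [card_sup_of_normal hSN, hcard, hD, mul_comm]
  have htop : S ⊔ NN P = ⊤ := Subgroup.eq_top_of_card_eq _ h0
  have h1 : NN P ⊔ S = ⊤ := by rw [sup_comm]; exact htop
  have h2 := commutator_le_sup' h1 (commutator_NN_le hP hx hC)
  have h3 := derived_le (comm_P_bot hP) h2
  intro heq
  rw [heq, derivedSeries_one] at h3
  have h4 := le_commutator hx hP hm
  have h5 : (P : Subgroup G) ≤ S ⊓ (P : Subgroup G) := le_inf (h4.trans h3) le_rfl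
  rw [hSP] at h5
  have hxP : x ∈ (P : Subgroup G) := by rw [hP]; exact Subgroup.mem_zpowers x
  have := h5 hxP
  rw [Subgroup.mem_bot] at this
  exact x_ne_one hx hP this

include hx hC hP hD in
/-- The case `m ≠ 1` and `G'' ≠ G'`. -/
lemma caseB (hpD : ¬ p ∣ D) (hpm : ¬ p ∣ (CC P).relIndex (NN P)) (hm : (CC P).relIndex (NN P) ≠ 1)
    (hne : derivedSeries G 2 ≠ derivedSeries G 1) :
    Nat.card (derivedSeries G 2) = D ∧ Nat.card (commutator G) = p * D := by
  classical
  have hp' := hp.out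
  set B := derivedSeries G 2 with hB
  have hBdef : B = ⁅commutator G, commutator G⁆ := by
    rw [hB, derivedSeries_succ, derivedSeries_one]
  haveI hBn : B.Normal := derivedSeries_normal G 2
  have hBA : B ≤ commutator G := by
    rw [hBdef]; exact Subgroup.commutator_le_left _ _
  have hPA := le_commutator hx hP hm
  have hxP : x ∈ (P : Subgroup G) := by rw [hP]; exact Subgroup.mem_zpowers x
  have hPB : ¬ (P : Subgroup G) ≤ B := by
    intro h
    have h1 := Sylow.normalizer_sup_eq_top' P h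
    have h2 := commutator_le_sup' (S := B) (N := NN P) (Q := (P : Subgroup G)) h1 (commutator_NN_le hP hx hC)
    rw [sup_eq_right.2 h] at h2
    apply hne
    rw [derivedSeries_one]
    exact le_antisymm hBA h2
  have hBP : B ⊓ (P : Subgroup G) = ⊥ := by
    rw [eq_bot_iff]
    rintro y ⟨hyB, hyP⟩
    rw [Subgroup.mem_bot]
    by_contra hy1
    apply hPB
    rw [← zpowers_of_mem hx hP hyP hy1, Subgroup.zpowers_le]
    exact hyB
  have hBN := inf_NN hx hC hP hBP
  -- the image of a conjugate of `x` in `G / B` is a power of the image of `x`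
  let π := QuotientGroup.mk' B
  have hcardG : Nat.card G = (CC P).relIndex (NN P) * p * D := by
    rw [hD, card_NN hx hC hP]
  have hconj : ∀ g : G, g * x * g⁻¹ ∈ (P : Subgroup G) ⊔ B := by
    intro g
    set z := g * x * g⁻¹ with hz
    have hzA : z ∈ commutator G := (inferInstance : (commutator G).Normal).conj_mem x (hPA hxP) g
    have hcomm : π x * π z = π z * π x := by
      have h1 : ⁅x, z⁆ ∈ B := by
        rw [hBdef]; exact Subgroup.commutator_mem_commutator (hPA hxP) hzA
      have h2 : π ⁅x, z⁆ = 1 := (QuotientGroup.eq_one_iff _).2 h1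
      rw [map_commutatorElement, commutatorElement_eq_one_iff_commute] at h2
      exact h2
    have hxp : x ^ p = 1 := by rw [← hx]; exact pow_orderOf_eq_one x
    have hXp : π x ^ p = 1 := by rw [← map_pow, hxp, map_one]
    have hZp : π z ^ p = 1 := by
      rw [← map_pow, hz, conj_pow, hxp]; simp
    have hX1 : π x ≠ 1 := by
      intro h
      have h1 : x ∈ B := (QuotientGroup.eq_one_iff _).1 h
      apply hPB
      rw [← zpowers_of_mem hx hP hxP (x_ne_one hx hP), Subgroup.zpowers_le]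
      exact h1
    have hXord : orderOf (π x) = p := orderOf_eq_prime hXp hX1
    have hp1 := isPGroup_zpowers_of_pow hp' hXp
    have hp2 := isPGroup_zpowers_of_pow hp' hZp
    have hnorm : Subgroup.zpowers (π x) ≤ Subgroup.normalizer ((Subgroup.zpowers (π z) : Subgroup _) : Set _) := by
      rw [Subgroup.zpowers_le]
      apply Subgroup.centralizer_le_normalizer
      rw [Subgroup.mem_centralizer_iff]
      intro w hw
      obtain ⟨k, rfl⟩ := Subgroup.mem_zpowers_iff.1 hw
      exact ((show Commute (π x) (π z) from hcomm).zpow_right k).eq.symm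
    have hH := IsPGroup.to_sup_of_normal_right' hp1 hp2 hnorm
    obtain ⟨k, hk⟩ := IsPGroup.iff_card.1 hH
    have hdvdG : Nat.card ↥(Subgroup.zpowers (π x) ⊔ Subgroup.zpowers (π z)) ∣ Nat.card G := by
      refine (Subgroup.card_subgroup_dvd_card _).trans ?_
      have : Nat.card (G ⧸ B) = B.index := rfl
      rw [this]
      exact Subgroup.index_dvd_card B
    have hk1 : k ≤ 1 := by
      by_contra hk2
      have h1 : p ^ 2 ∣ Nat.card G := by
        refine Dvd.dvd.trans ?_ hdvdG
        rw [hk]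
        exact pow_dvd_pow p (by omega)
      rw [hcardG] at h1
      have h2 : p ∣ (CC P).relIndex (NN P) * D := by
        have h3 : p ^ 2 = p * p := pow_two p
        rw [h3] at h1
        have h4 : (CC P).relIndex (NN P) * p * D = p * ((CC P).relIndex (NN P) * D) := by ring
        rw [h4] at h1
        exact Nat.dvd_of_mul_dvd_mul_left hp'.pos h1
      rcases hp'.dvd_mul.1 h2 with h | h
      · exact hpm h
      · exact hpD h
    have hle1 : Subgroup.zpowers (π x) ≤ Subgroup.zpowers (π x) ⊔ Subgroup.zpowers (π z) := le_sup_left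
    have heqH : Subgroup.zpowers (π x) = Subgroup.zpowers (π x) ⊔ Subgroup.zpowers (π z) := by
      apply Subgroup.eq_of_le_of_card_ge hle1
      rw [hk, Nat.card_zpowers, hXord]
      calc p ^ k ≤ p ^ 1 := Nat.pow_le_pow_right hp'.pos hk1
        _ = p := pow_one p
    have hZ : π z ∈ Subgroup.zpowers (π x) := by
      rw [heqH]
      exact Subgroup.mem_sup_right (Subgroup.mem_zpowers _)
    obtain ⟨i, hi⟩ := Subgroup.mem_zpowers_iff.1 hZ
    have h1 : π (x ^ i) = π z := by rw [map_zpow, hi]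
    have h2 : (x ^ i)⁻¹ * z ∈ B := QuotientGroup.eq.1 h1
    have h3 : z = x ^ i * ((x ^ i)⁻¹ * z) := by group
    rw [h3]
    exact mul_mem (Subgroup.mem_sup_left ((P : Subgroup G).zpow_mem hxP i)) (Subgroup.mem_sup_right h2)
  -- `L = P B` is normal
  haveI hLn : ((P : Subgroup G) ⊔ B).Normal := by
    have hmap : ∀ g : G, ((P : Subgroup G) ⊔ B).map (MulAut.conj g).toMonoidHom ≤ (P : Subgroup G) ⊔ B := by
      intro g
      rw [Subgroup.map_sup]
      apply sup_le
      · rintro _ ⟨y, hy, rfl⟩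
        have hy' : y ∈ Subgroup.zpowers x := by rw [← hP]; exact hy
        obtain ⟨k, rfl⟩ := Subgroup.mem_zpowers_iff.1 hy'
        rw [map_zpow]
        exact Subgroup.zpow_mem _ (hconj g) k
      · rintro _ ⟨b, hb, rfl⟩
        exact Subgroup.mem_sup_right (hBn.conj_mem b hb g)
    exact ⟨fun l hl g => hmap g ⟨l, hl, rfl⟩⟩
  have h1 := Sylow.normalizer_sup_eq_top' P (le_sup_left : (P : Subgroup G) ≤ (P : Subgroup G) ⊔ B)
  have h2 : NN P ⊔ B = ⊤ := by
    apply top_le_iff.1
    rw [← h1]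
    apply sup_le le_sup_left
    apply sup_le (Subgroup.le_normalizer.trans le_sup_left) le_sup_right
  have h3 := commutator_le_sup' h2 (commutator_NN_le hP hx hC)
  have hcomm_eq : commutator G = (P : Subgroup G) ⊔ B := le_antisymm h3 (sup_le hPA hBA)
  have hcardB : Nat.card B = D := by
    have h4 : Nat.card ↥(B ⊔ NN P) = Nat.card G := by
      rw [sup_comm, h2]; exact Nat.card_congr Subgroup.topEquiv.toEquiv
    rw [card_sup_of_normal hBN, hD, mul_comm] at h4
    have hNpos : 0 < Nat.card (NN P) := Nat.card_pos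
    exact Nat.eq_of_mul_eq_mul_left hNpos h4
  refine ⟨hcardB, ?_⟩
  rw [hcomm_eq, sup_comm, card_sup_of_normal hBP, hcardB, card_P hx hP, mul_comm]

include hx hC hP hD in
/-- The case `m = 1`. -/
lemma caseA (hm : (CC P).relIndex (NN P) = 1) :
    ∃ K : Subgroup G, K.Normal ∧ Nat.card K = D ∧ commutator G = K ∧ K.index = p := by
  classical
  have hp' := hp.out
  have hNC : NN P ≤ CC P := Subgroup.relIndex_eq_one.1 hm
  have H := hyp hx hC hP
  haveI hab : IsMulCommutative (P : Subgroup G) := H.hab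
  have hxP : x ∈ (P : Subgroup G) := by rw [hP]; exact Subgroup.mem_zpowers x
  let f := MonoidHom.transferSylow P hNC
  have hc : f.ker.IsComplement' (P : Subgroup G) := MonoidHom.ker_transferSylow_isComplement' P hNC
  have hcardK : Nat.card f.ker = D := by
    have h1 := hc.card_mul_card
    have h2 : Nat.card (NN P) = p := by
      rw [card_NN hx hC hP, hm, one_mul]
    rw [hD, h2, card_P hx hP, mul_comm] at h1
    exact Nat.eq_of_mul_eq_mul_left hp'.pos h1
  have hle : commutator G ≤ f.ker := by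
    rw [commutator_def, Subgroup.commutator_le]
    intro a _ b _
    rw [MonoidHom.mem_ker, map_commutatorElement, commutatorElement_eq_one_iff_commute]
    exact hab.is_comm.comm (f a) (f b)
  have hge : f.ker ≤ commutator G := by
    haveI hKn : f.ker.Normal := MonoidHom.normal_ker f
    let φ : f.ker → f.ker := fun a => ⟨(a : G) * x * (a : G)⁻¹ * x⁻¹, by
      have h2 : x * (a : G)⁻¹ * x⁻¹ ∈ f.ker := hKn.conj_mem _ (inv_mem a.2) x
      have : (a : G) * x * (a : G)⁻¹ * x⁻¹ = (a : G) * (x * (a : G)⁻¹ * x⁻¹) := by group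
      rw [this]
      exact mul_mem a.2 h2⟩
    have hφ : Function.Injective φ := by
      intro a b hab'
      have h1 : (a : G) * x * (a : G)⁻¹ * x⁻¹ = (b : G) * x * (b : G)⁻¹ * x⁻¹ := congrArg Subtype.val hab'
      have h2 : (a : G) * x * (a : G)⁻¹ = (b : G) * x * (b : G)⁻¹ := mul_right_cancel h1
      have h3 : (b : G)⁻¹ * a ∈ Subgroup.centralizer ({x} : Set G) := by
        rw [Subgroup.mem_centralizer_singleton_iff]
        have e : (b : G)⁻¹ * a * x * ((b : G)⁻¹ * a)⁻¹ = x := by
          calc (b : G)⁻¹ * a * x * ((b : G)⁻¹ * a)⁻¹ = (b : G)⁻¹ * ((a : G) * x * (a : G)⁻¹) * b := by group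
            _ = (b : G)⁻¹ * ((b : G) * x * (b : G)⁻¹) * b := by rw [h2]
            _ = x := by group
        exact mul_inv_eq_iff_eq_mul.1 e
      rw [hC, ← hP] at h3
      have h4 : (b : G)⁻¹ * a ∈ f.ker := mul_mem (inv_mem b.2) a.2
      have h5 := Subgroup.disjoint_def.1 hc.disjoint h4 h3
      apply Subtype.ext
      exact (inv_mul_eq_one.1 h5).symm
    have hsurj := Finite.injective_iff_surjective.1 hφ
    intro k hk
    obtain ⟨a, ha⟩ := hsurj ⟨k, hk⟩
    have h1 : k = ⁅(a : G), x⁆ := by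
      rw [commutatorElement_def]
      exact (congrArg Subtype.val ha).symm
    rw [h1, commutator_def]
    exact Subgroup.commutator_mem_commutator (Subgroup.mem_top _) (Subgroup.mem_top _)
  refine ⟨f.ker, MonoidHom.normal_ker f, hcardK, le_antisymm hle hge, ?_⟩
  rw [hc.symm.index_eq_card, card_P hx hP]

end Main

end Setup

/-- Let the finite group G contain an element x of prime order p with C_G(x) = ⟨x⟩; let t be the number of conjugacy classes of elements of order p and 1 + n·p the number of subgroups of order p. Then G has a normal subgroup of order 1 + n·p if and only if either t = p − 1, or t < p − 1 and G″ ≠ G′. Moreover, if t = p − 1 then G′ has order 1 + n·p and G/G′ is cyclic of order p; and if t < p − 1 and G″ ≠ G′ then G″ has order 1 + n·p and G′ has order p·(1 + n·p). -/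
theorem result {G : Type*} [Group G] [Finite G] (p : ℕ) (hp : p.Prime) (x : G) (hx : orderOf x = p) (hC : Subgroup.centralizer ({x} : Set G) = Subgroup.zpowers x) (t : ℕ) (ht : Nat.card {C : ConjClasses G // ∃ g ∈ C.carrier, orderOf g = p} = t) (n : ℕ) (hn : Nat.card {H : Subgroup G // Nat.card H = p} = 1 + n * p) : ((∃ S : Subgroup G, S.Normal ∧ Nat.card S = 1 + n * p) ↔ (t = p - 1 ∨ (t < p - 1 ∧ derivedSeries G 2 ≠ derivedSeries G 1))) ∧ (t = p - 1 → Nat.card (commutator G) = 1 + n * p ∧ IsCyclic (G ⧸ commutator G) ∧ (commutator G).index = p) ∧ (t < p - 1 → derivedSeries G 2 ≠ derivedSeries G 1 → Nat.card (derivedSeries G 2) = 1 + n * p ∧ Nat.card (commutator G) = p * (1 + n * p)) := by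
  classical
  haveI : Fact p.Prime := ⟨hp⟩
  obtain ⟨P, hP⟩ := exists_sylow hx hC
  have hmt := card_classes_mul hx hC hP
  rw [ht] at hmt
  set m := (CC P).relIndex (NN P) with hm
  set D := 1 + n * p with hDdef
  have hcardP : Nat.card (P : Subgroup G) = p := card_P hx hP
  -- the count of subgroups of order `p`
  have hD : Nat.card G = Nat.card (NN P) * D := by
    have h1 : Nat.card {H : Subgroup G // Nat.card H = p} = Nat.card (Sylow p G) := by
      have hfac : p ^ (Nat.card G).factorization p = p := by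
        rw [← P.card_eq_multiplicity, hcardP]
      refine Nat.card_congr ⟨fun H => Sylow.ofCard H.1 (by rw [H.2, hfac]),
        fun Q => ⟨Q, by rw [Q.card_eq_multiplicity, hfac]⟩, ?_, ?_⟩
      · intro H
        apply Subtype.ext
        rfl
      · intro Q
        apply Sylow.ext
        rfl
    have h2 := P.card_eq_index_normalizer
    rw [hn] at h1
    rw [h1, h2]
    exact (Subgroup.card_mul_index _).symm
  have hpD : ¬ p ∣ D := by
    intro h
    have h1 : p ∣ n * p := Dvd.intro_left n rfl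
    have h2 : p ∣ 1 := (Nat.dvd_add_left h1).1 h
    exact hp.one_lt.ne' (Nat.dvd_one.1 h2)
  have hp1 : 0 < p - 1 := Nat.sub_pos_of_lt hp.one_lt
  have hm0 : m ≠ 0 := by
    intro h
    rw [h, mul_zero] at hmt
    omega
  have ht0 : t ≠ 0 := by
    intro h
    rw [h, zero_mul] at hmt
    omega
  have hpm : ¬ p ∣ m := by
    intro h
    have h1 : m ∣ p - 1 := Dvd.intro_left t hmt
    have h2 := Nat.le_of_dvd hp1 h1
    have h3 := Nat.le_of_dvd (Nat.pos_of_ne_zero hm0) h
    omega
  have hiff1 : t = p - 1 ↔ m = 1 := by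
    constructor
    · intro h
      rw [h] at hmt
      exact Nat.eq_of_mul_eq_mul_left hp1 (by rw [hmt, mul_one])
    · intro h
      rw [h, mul_one] at hmt
      exact hmt
  have hlt : m ≠ 1 → t < p - 1 := by
    intro h
    have h2 : 2 ≤ m := by omega
    calc t < t * 2 := by omega
      _ ≤ t * m := Nat.mul_le_mul_left t h2
      _ = p - 1 := hmt
  refine ⟨⟨?_, ?_⟩, ?_, ?_⟩
  · rintro ⟨S, hS, hcard⟩
    by_cases h1 : m = 1
    · exact Or.inl (hiff1.2 h1)
    · exact Or.inr ⟨hlt h1, forward hx hC hP hD hpD h1 hS hcard⟩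
  · rintro (h | ⟨h1, h2⟩)
    · obtain ⟨K, hK, hcard, -, -⟩ := caseA hx hC hP hD (hiff1.1 h)
      exact ⟨K, hK, hcard⟩
    · have hm1 : m ≠ 1 := fun h => (by rw [hiff1.2 h] at h1; exact lt_irrefl _ h1)
      exact ⟨derivedSeries G 2, derivedSeries_normal G 2, (caseB hx hC hP hD hpD hpm hm1 h2).1⟩
  · intro h
    obtain ⟨K, hK, hcard, hcomm, hidx⟩ := caseA hx hC hP hD (hiff1.1 h)
    refine ⟨by rw [hcomm]; exact hcard, ?_, by rw [hcomm]; exact hidx⟩
    have h1 : Nat.card (G ⧸ commutator G) = p := by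
      rw [hcomm]; exact hidx
    exact isCyclic_of_prime_card h1
  · intro h1 h2
    have hm1 : m ≠ 1 := fun h => (by rw [hiff1.2 h] at h1; exact lt_irrefl _ h1)
    exact caseB hx hC hP hD hpD hpm hm1 h2

end Cfsg.Agent.S4509
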