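import Mathlib
import Cfsg.Agent.S4509
import Cfsg.Agent.Lib.Blocks.AbFrob3
import Cfsg.Agent.Lib.Char.DetExt
import Cfsg.Agent.Lib.Char.Galois
import Cfsg.Agent.Lib.Char.Values2
import Cfsg.Agent.Lib.Char.Kazarin
import Cfsg.Agent.Lib.CycSylow.Residual

set_option autoImplicit false

open Cfsg

namespace Cfsg.Agent.S4508

open Cfsg.Agent.Lib.Blocks.AbFrob Cfsg.Agent.Lib.Char.SelfCen Cfsg.Agent.S4509
open scoped ComplexConjugate

/-- The product of the `m`-th roots of unity. -/
lemma prod_roots {m : ℕ} (hm : 0 < m) :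
    ∏ ζ ∈ Polynomial.nthRootsFinset m (1 : ℂ), ζ = (-1) ^ (m + 1) := by
  have hζ := Complex.isPrimitiveRoot_exp m hm.ne'
  have h := Polynomial.X_pow_sub_one_eq_prod hm hζ
  have h2 := congrArg (Polynomial.eval 0) h
  rw [Polynomial.eval_prod] at h2
  simp only [Polynomial.eval_sub, Polynomial.eval_pow, Polynomial.eval_X, Polynomial.eval_one,
    Polynomial.eval_C, zero_sub, zero_pow hm.ne'] at h2
  rw [Finset.prod_neg, hζ.card_nthRootsFinset] at h2
  have h3 : ((-1 : ℂ) ^ m) * ((-1) ^ m) = 1 := by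
    rw [← mul_pow]; simp
  have h4 : (∏ ζ ∈ Polynomial.nthRootsFinset m (1 : ℂ), ζ) = (-1) ^ m * (-1) := by
    calc (∏ ζ ∈ Polynomial.nthRootsFinset m (1 : ℂ), ζ)
        = ((-1 : ℂ) ^ m * (-1) ^ m) * ∏ ζ ∈ Polynomial.nthRootsFinset m (1 : ℂ), ζ := by rw [h3, one_mul]
      _ = (-1) ^ m * ((-1) ^ m * ∏ ζ ∈ Polynomial.nthRootsFinset m (1 : ℂ), ζ) := by ring
      _ = _ := by rw [← h2]
  rw [h4, pow_succ]

section Det

open Module

variable {V : Type*} [AddCommGroup V] [Module ℂ V] [FiniteDimensional ℂ V]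

/-- The determinant of a finite-order operator whose nontrivial powers have trace zero. -/
lemma det_of_vanish (T : Module.End ℂ V) {m s : ℕ} (hm : 0 < m) (hT : T ^ m = 1)
    (hs : m * s = finrank ℂ V) (hv : ∀ k, 0 < k → k < m → LinearMap.trace ℂ V (T ^ k) = 0) :
    LinearMap.det T = ((-1 : ℂ) ^ (m + 1)) ^ s := by
  classical
  obtain ⟨ι, hι, _, b, z, h1, h2⟩ := Cfsg.Agent.Lib.Char.OrthoBasic.exists_eigenbasis T hm hT
  have htr : ∀ k : ℕ, LinearMap.trace ℂ V (T ^ k) = ∑ i, z i ^ k := by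
    intro k
    refine Cfsg.Agent.Lib.Char.OrthoBasic.trace_eq_sum_of_eigenbasis (T ^ k) b (fun i => z i ^ k) fun i => ?_
    have hv : T.HasEigenvector (z i) (b i) :=
      ⟨Module.End.mem_eigenspace_iff.2 (h1 i), b.ne_zero i⟩
    exact hv.pow_apply k
  have hcard : (Fintype.card ι : ℂ) = ((m * s : ℕ) : ℂ) := by
    rw [hs, Module.finrank_eq_card_basis b]
  have hm0 : (m : ℂ) ≠ 0 := Nat.cast_ne_zero.2 hm.ne'
  have key : ∀ ζ : ℂ, ζ ^ m = 1 → (Finset.univ.filter (fun i => z i = ζ)).card = s := by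
    intro ζ hζ
    have hζ0 : ζ ≠ 0 := by
      rintro rfl
      rw [zero_pow hm.ne'] at hζ
      exact zero_ne_one hζ
    have e1 : ∑ k ∈ Finset.range m, ζ⁻¹ ^ k * ∑ i, z i ^ k = (m : ℂ) * s := by
      rw [Finset.sum_eq_single 0]
      · simp only [pow_zero, one_mul, Finset.sum_const, Finset.card_univ, nsmul_eq_mul, mul_one]
        rw [hcard]
        push_cast
        ring
      · intro k hk hk0
        rw [← htr k, hv k (Nat.pos_of_ne_zero hk0) (Finset.mem_range.1 hk), mul_zero]
      · intro h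
        exact absurd (Finset.mem_range.2 hm) h
    have e2 : ∑ k ∈ Finset.range m, ζ⁻¹ ^ k * ∑ i, z i ^ k =
        ∑ i, ∑ k ∈ Finset.range m, (ζ⁻¹ * z i) ^ k := by
      simp only [Finset.mul_sum, mul_pow]
      rw [Finset.sum_comm]
    have e3 : ∀ i, ∑ k ∈ Finset.range m, (ζ⁻¹ * z i) ^ k = if z i = ζ then (m : ℂ) else 0 := by
      intro i
      split_ifs with h
      · rw [h, inv_mul_cancel₀ hζ0]
        simp
      · have hy : ζ⁻¹ * z i ≠ 1 := by
          intro h3
          apply h
          have := congrArg (fun c => ζ * c) h3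
          simp only [mul_one] at this
          rwa [mul_inv_cancel_left₀ hζ0] at this
        have hy1 : (ζ⁻¹ * z i) ^ m = 1 := by
          rw [mul_pow, inv_pow, hζ, h2 i, inv_one, one_mul]
        have h4 := geom_sum_mul (ζ⁻¹ * z i) m
        rw [hy1, sub_self] at h4
        exact (mul_eq_zero.1 h4).resolve_right (sub_ne_zero.2 hy)
    rw [e2] at e1
    simp only [e3] at e1
    rw [Finset.sum_ite, Finset.sum_const, Finset.sum_const_zero, add_zero, nsmul_eq_mul, mul_comm] at e1
    have e4 := mul_left_cancel₀ hm0 e1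
    exact_mod_cast e4
  have hdet : LinearMap.det T = ∏ i, z i := by
    rw [← LinearMap.det_toMatrix b T]
    have : LinearMap.toMatrix b b T = Matrix.diagonal z := by
      ext i j
      rw [LinearMap.toMatrix_apply, h1 j, map_smul, b.repr_self, Matrix.diagonal_apply]
      by_cases h : i = j
      · subst h; simp
      · simp [h]
    rw [this, Matrix.det_diagonal]
  rw [hdet]
  have hmaps : ∀ i ∈ (Finset.univ : Finset ι), z i ∈ Polynomial.nthRootsFinset m (1 : ℂ) := by
    intro i _
    rw [Polynomial.mem_nthRootsFinset hm]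
    exact h2 i
  rw [← Finset.prod_fiberwise_of_maps_to hmaps, ← prod_roots hm, ← Finset.prod_pow]
  refine Finset.prod_congr rfl fun ζ hζ => ?_
  have hζ1 : ζ ^ m = 1 := (Polynomial.mem_nthRootsFinset hm (1 : ℂ)).1 hζ
  have h3 : ∀ i ∈ Finset.univ.filter (fun i => z i = ζ), z i = ζ := fun i hi => (Finset.mem_filter.1 hi).2
  rw [Finset.prod_congr rfl h3, Finset.prod_const, key ζ hζ1]

end Det

section Avg

open Module

variable {G : Type*} [Group G] {V : Type*} [AddCommGroup V] [Module ℂ V] [FiniteDimensional ℂ V]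

/-- The character sum over a subgroup is the subgroup order times a natural number, and the
number vanishes only when the operator sum does. -/
lemma avg (ρ : Representation ℂ G V) (K : Subgroup G) [Fintype K] :
    ∃ A : ℕ, ∑ y : K, ρ.character (y : G) = (Fintype.card K : ℂ) * A ∧
      (A = 0 → ∑ y : K, ρ (y : G) = 0) := by
  classical
  have hne : (Fintype.card K : ℂ) ≠ 0 := by
    exact_mod_cast Fintype.card_ne_zero
  letI : Invertible (Fintype.card K : ℂ) := invertibleOfNonzero hne
  let A : Representation ℂ K V := ρ.comp K.subtype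
  have hproj := A.isProj_averageMap
  have h4 : A.averageMap = (Fintype.card K : ℂ)⁻¹ • ∑ n : K, A n := by
    simp [Representation.averageMap, GroupAlgebra.average, _root_.map_sum, invOf_eq_inv]
  have htr := hproj.trace
  refine ⟨finrank ℂ A.invariants, ?_, ?_⟩
  · rw [h4, map_smul, map_sum, smul_eq_mul] at htr
    rw [← htr, mul_inv_cancel_left₀ hne]
    rfl
  · intro h0
    have hb : A.invariants = ⊥ := Submodule.finrank_eq_zero.1 h0
    have h5 : A.averageMap = 0 := by
      ext v
      have h6 := hproj.map_mem v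
      rw [hb, Submodule.mem_bot] at h6
      simpa using h6
    rw [h4] at h5
    have h7 := (smul_eq_zero.1 h5).resolve_left (inv_ne_zero hne)
    exact h7

end Avg


section Vanish

variable {G : Type*} [Group G] {V : Type*} [AddCommGroup V] [Module ℂ V] [FiniteDimensional ℂ V]

/-- Vanishing off the kernel when the operator sum vanishes. -/
lemma char_eq_zero [Finite G] (ρ : Representation ℂ G V) (K : Subgroup G) [Fintype K]
    (h0 : ∑ y : K, ρ (y : G) = 0) (w : G) (hw : ∀ y ∈ K, w⁻¹ * y * w ∈ K)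
    (hfix : ∀ y ∈ K, w⁻¹ * y * w = y → y = 1) : ρ.character w = 0 := by
  classical
  let f : K → K := fun y => ⟨(w⁻¹ * y * w) * (y : G)⁻¹, mul_mem (hw y y.2) (inv_mem y.2)⟩
  have hinj : Function.Injective f := by
    intro a b hab'
    have h1 : (w⁻¹ * a * w) * (a : G)⁻¹ = (w⁻¹ * b * w) * (b : G)⁻¹ := congrArg Subtype.val hab'
    have h2 : w⁻¹ * ((b : G)⁻¹ * a) * w = (b : G)⁻¹ * a := by
      have e1 : w⁻¹ * ((b : G)⁻¹ * a) * w = (w⁻¹ * b * w)⁻¹ * (w⁻¹ * a * w) := by group
      have e2 : (w⁻¹ * a * w) = (w⁻¹ * b * w) * ((b : G)⁻¹ * a) := by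
        have := mul_inv_eq_iff_eq_mul.1 h1
        rw [this]
        group
      rw [e1, e2, inv_mul_cancel_left]
    have h3 := hfix _ (mul_mem (inv_mem b.2) a.2) h2
    apply Subtype.ext
    exact (inv_mul_eq_one.1 h3).symm
  have hbij : Function.Bijective f := Finite.injective_iff_bijective.1 hinj
  have h1 : ∑ y : K, ρ.character (w * (f y : G)) = ∑ z : K, ρ.character (w * (z : G)) :=
    hbij.sum_comp (fun z : K => ρ.character (w * (z : G)))
  have h2 : ∀ y : K, ρ.character (w * (f y : G)) = ρ.character w := by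
    intro y
    have e : w * (f y : G) = (y : G) * w * (y : G)⁻¹ := by
      show w * ((w⁻¹ * y * w) * (y : G)⁻¹) = _
      group
    rw [e, Representation.char_conj]
  have h3 : ∑ z : K, ρ.character (w * (z : G)) = LinearMap.trace ℂ V (ρ w * ∑ z : K, ρ (z : G)) := by
    rw [Finset.mul_sum, map_sum]
    refine Finset.sum_congr rfl fun z _ => ?_
    rw [← map_mul]
    rfl
  rw [h3, h0, mul_zero, map_zero] at h1
  simp only [h2, Finset.sum_const, Finset.card_univ, nsmul_eq_mul] at h1
  have hne : (Fintype.card K : ℂ) ≠ 0 := by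
    exact_mod_cast Fintype.card_ne_zero
  exact (mul_eq_zero.1 h1).resolve_left hne

/-- Index parity from a hom with value `-1`. -/
lemma even_index_of_hom [Finite G] (φ : G →* ℂˣ) {w : G} (hw : ((φ w : ℂˣ) : ℂ) = -1) :
    Even (commutator G).index := by
  have hle : commutator G ≤ φ.ker := by
    rw [commutator_def, Subgroup.commutator_le]
    intro a _ b _
    rw [MonoidHom.mem_ker, map_commutatorElement, commutatorElement_eq_one_iff_commute]
    exact Commute.all _ _
  have h1 : w ^ (commutator G).index ∈ commutator G := Subgroup.pow_index_mem _ w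
  have h2 := hle h1
  rw [MonoidHom.mem_ker, map_pow] at h2
  have h3 : ((φ w : ℂˣ) : ℂ) ^ (commutator G).index = 1 := by
    have := congrArg (fun u : ℂˣ => (u : ℂ)) h2
    simpa using this
  rw [hw] at h3
  exact (neg_one_pow_eq_one_iff_even (by norm_num)).1 h3

end Vanish

/-- A vanishing sum of squared norms. -/
lemma sum_mul_conj_eq_zero {K : Type*} (S : Finset K) (f : K → ℂ) (h : ∑ ψ ∈ S, f ψ * conj (f ψ) = 0) :
    ∀ ψ ∈ S, f ψ = 0 := by
  have h6 : ∑ ψ ∈ S, Complex.normSq (f ψ) = 0 := by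
    have : ((∑ ψ ∈ S, Complex.normSq (f ψ) : ℝ) : ℂ) = 0 := by
      push_cast
      rw [← h]
      refine Finset.sum_congr rfl fun ψ _ => ?_
      rw [Complex.mul_conj]
    exact_mod_cast this
  intro ψ hψ
  have h7 := (Finset.sum_eq_zero_iff_of_nonneg (fun ψ _ => Complex.normSq_nonneg _)).1 h6 ψ hψ
  exact Complex.normSq_eq_zero.1 h7

section Setup

variable {G : Type*} [Group G] [Finite G] {p : ℕ} [hp : Fact p.Prime] {x : G}
  (hx : orderOf x = p) (hC : Subgroup.centralizer ({x} : Set G) = Subgroup.zpowers x)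
  {P : Sylow p G} (hP : (P : Subgroup G) = Subgroup.zpowers x)

include hx hC hP in
/-- An element of the normalizer of order `m` generating `N / P`. -/
lemma exists_w (hm : (CC P).relIndex (NN P) ≠ 1) :
    ∃ w ∈ NN P, w ^ (CC P).relIndex (NN P) = 1 ∧
      ∀ i, 0 < i → i < (CC P).relIndex (NN P) → w ^ i ∉ (P : Subgroup G) := by
  classical
  have hp' := hp.out
  set m := (CC P).relIndex (NN P) with hmdef
  have hxP : x ∈ (P : Subgroup G) := by rw [hP]; exact Subgroup.mem_zpowers x
  have hPN : (P : Subgroup G) ≤ NN P := Subgroup.le_normalizer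
  let P' : Subgroup (NN P) := (P : Subgroup G).subgroupOf (NN P)
  haveI hP'n : P'.Normal := Subgroup.normal_in_normalizer
  have hcardP' : Nat.card P' = p := by
    have : Nat.card P' = Nat.card (P : Subgroup G) :=
      Nat.card_congr (Subgroup.subgroupOfEquivOfLe hPN).toEquiv
    rw [this, card_P hx hP]
  obtain ⟨hcyc, -⟩ := Cfsg.Agent.Lib.CycSylow.mulAut_of_card_prime (p := p) hcardP'
  let φ : NN P →* MulAut P' := MulAut.conjNormal
  have hkerle : ∀ a : NN P, φ a = 1 → (a : G) ∈ (P : Subgroup G) := by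
    intro a ha
    have h1 : φ a ⟨⟨x, hPN hxP⟩, hxP⟩ = ⟨⟨x, hPN hxP⟩, hxP⟩ := by rw [ha]; rfl
    have h2 : (a : G) * x * (a : G)⁻¹ = x := by
      have := congrArg (fun u : P' => ((u : NN P) : G)) h1
      simpa [φ, MulAut.conjNormal_apply] using this
    rw [hP, ← hC, Subgroup.mem_centralizer_singleton_iff]
    exact mul_inv_eq_iff_eq_mul.1 h2
  have hab : ∀ a ∈ (P : Subgroup G), ∀ b ∈ (P : Subgroup G), a * b = b * a := by
    intro a ha b hb
    have H := hyp hx hC hP
    exact H.comm ha hb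
  have hkerge : ∀ a : NN P, (a : G) ∈ (P : Subgroup G) → φ a = 1 := by
    intro a ha
    ext ⟨⟨y, hy1⟩, hy2⟩
    have hy3 : y ∈ (P : Subgroup G) := hy2
    simp only [φ, MulAut.conjNormal_apply, MulAut.one_apply]
    show (a : G) * y * (a : G)⁻¹ = y
    rw [hab _ ha _ hy3]
    simp
  have hker : φ.ker = P' := by
    ext a
    rw [MonoidHom.mem_ker, Subgroup.mem_subgroupOf]
    exact ⟨hkerle a, hkerge a⟩
  have hidx : Nat.card φ.range = m := by
    have h1 := Subgroup.card_mul_index φ.ker
    rw [Subgroup.index_ker, hker, hcardP', card_NN hx hC hP, mul_comm] at h1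
    exact Nat.eq_of_mul_eq_mul_right hp'.pos h1
  haveI : IsCyclic φ.range := inferInstance
  obtain ⟨g, hg⟩ := IsCyclic.exists_generator (α := φ.range)
  obtain ⟨w, hw⟩ := g.2
  have hord : orderOf (φ w) = m := by
    have h1 := orderOf_eq_card_of_forall_mem_zpowers hg
    rw [hidx, ← Subgroup.orderOf_coe, ← hw] at h1
    exact h1
  have hmem : ∀ i, ((w : G) ^ i) ∈ (P : Subgroup G) ↔ m ∣ i := by
    intro i
    rw [← hord, orderOf_dvd_iff_pow_eq_one, ← map_pow]
    constructor
    · intro h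
      exact hkerge _ (by simpa using h)
    · intro h
      simpa using hkerle _ h
  refine ⟨w, w.2, ?_, fun i hi hi2 hc => ?_⟩
  · by_contra hne
    have h1 : (w : G) ^ m ∈ (P : Subgroup G) := (hmem m).2 dvd_rfl
    have h2 := zpowers_of_mem hx hP h1 hne
    have h3 : x ∈ Subgroup.zpowers ((w : G) ^ m) := by rw [h2]; exact hxP
    obtain ⟨k, hk⟩ := Subgroup.mem_zpowers_iff.1 h3
    have h4 : (w : G) ∈ Subgroup.centralizer ({x} : Set G) := by
      rw [Subgroup.mem_centralizer_singleton_iff, ← hk]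
      exact (((Commute.refl (w : G)).pow_right m).zpow_right k).eq
    rw [hC, ← hP] at h4
    have h5 : m ∣ 1 := (hmem 1).1 (by simpa using h4)
    exact hm (Nat.dvd_one.1 h5)
  · exact absurd (Nat.le_of_dvd hi ((hmem i).1 hc)) (not_le.2 hi2)


/-- The case of a single class. -/
lemma claim_single {K : Type*} [Group K] [Finite K] {q : ℕ} (hq : 3 ≤ q) (χ : IrrCharacter K) {y : K}
    (hdeg : (χ : K → ℂ) 1 = ((q - 1 : ℕ) : ℂ)) (hcen : Nat.card (Subgroup.centralizer ({y} : Set K)) = q)
    {A : ℕ} (hA : (q : ℂ) * A = ((q - 1 : ℕ) : ℂ) * (1 + (χ : K → ℂ) y)) : A = 0 := by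
  classical
  have hq1 : ((q - 1 : ℕ) : ℂ) ≠ 0 := Nat.cast_ne_zero.2 (by omega)
  have hint : IsIntegral ℤ (((q * A : ℕ) : ℂ) / ((q - 1 : ℕ) : ℂ)) := by
    have e : ((q * A : ℕ) : ℂ) / ((q - 1 : ℕ) : ℂ) = 1 + (χ : K → ℂ) y := by
      rw [div_eq_iff hq1]
      push_cast at hA ⊢
      rw [hA]
      ring
    rw [e]
    exact isIntegral_one.add (Cfsg.Agent.Lib.Char.Values.IsCharacter.isIntegral
      (Cfsg.Agent.Lib.Char.Basic.isCharacter_of_isIrrCharacter χ.2) y)
  have hdvd := Cfsg.Agent.Lib.Char.Values2.dvd_of_isIntegral_div (by omega) hint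
  have hcop : Nat.Coprime (q - 1) q := by
    have : q = (q - 1) + 1 := by omega
    conv_rhs => rw [this]
    simp
  obtain ⟨k, hk⟩ := hcop.dvd_of_dvd_mul_left hdvd
  by_contra hA0
  have hk1 : 1 ≤ k := by
    rcases Nat.eq_zero_or_pos k with h | h
    · rw [h, mul_zero] at hk
      exact absurd hk hA0
    · exact h
  have hc : (χ : K → ℂ) y = ((q * k - 1 : ℕ) : ℂ) := by
    have h1 : ((q - 1 : ℕ) : ℂ) * (1 + (χ : K → ℂ) y) = ((q - 1 : ℕ) : ℂ) * ((q * k : ℕ) : ℂ) := by
      rw [← hA, hk]
      push_cast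
      ring
    have h2 := mul_left_cancel₀ hq1 h1
    have h3 : 1 ≤ q * k := Nat.one_le_iff_ne_zero.2 (by positivity)
    rw [Nat.cast_sub h3]
    push_cast at h2 ⊢
    linear_combination h2
  -- column orthogonality
  letI : Fintype K := Fintype.ofFinite K
  letI : Fintype (IrrCharacter K) := Fintype.ofFinite _
  have hcol := Cfsg.Agent.Lib.Char.CompleteCor.column_orth_conj (IsConj.refl y)
  rw [hcen] at hcol
  set τ : IrrCharacter K := ⟨fun _ => 1, Cfsg.Agent.Lib.Char.Burnside2.isIrrCharacter_one⟩ with hτ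
  have hne : χ ≠ τ := by
    intro h
    have h1 : (χ : K → ℂ) 1 = 1 := by rw [h]
    rw [hdeg] at h1
    have h2 : q - 1 = 1 := by exact_mod_cast h1
    omega
  have hnn : ∀ ψ ∈ (Finset.univ : Finset (IrrCharacter K)),
      0 ≤ Complex.normSq ((ψ : K → ℂ) y) := fun ψ _ => Complex.normSq_nonneg _
  have hsum : ∑ ψ : IrrCharacter K, Complex.normSq ((ψ : K → ℂ) y) = (q : ℝ) := by
    have h1 : ((∑ ψ : IrrCharacter K, Complex.normSq ((ψ : K → ℂ) y) : ℝ) : ℂ) = ((q : ℝ) : ℂ) := by
      push_cast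
      rw [← hcol]
      refine Finset.sum_congr rfl fun ψ _ => ?_
      rw [Complex.mul_conj]
    exact_mod_cast h1
  have hle : Complex.normSq ((χ : K → ℂ) y) + Complex.normSq ((τ : K → ℂ) y) ≤ (q : ℝ) := by
    rw [← hsum]
    have h2 := Finset.sum_le_sum_of_subset_of_nonneg (Finset.subset_univ {χ, τ}) (fun ψ h _ => hnn ψ h)
    rwa [Finset.sum_pair hne] at h2
  have hτy : Complex.normSq ((τ : K → ℂ) y) = 1 := by
    show Complex.normSq 1 = 1
    simp
  rw [hτy, hc, Complex.normSq_natCast] at hle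
  have h3 : q - 1 ≤ q * k - 1 := by
    have : q * 1 ≤ q * k := Nat.mul_le_mul_left q hk1
    omega
  have h4 : ((q - 1 : ℕ) : ℝ) ≤ ((q * k - 1 : ℕ) : ℝ) := by exact_mod_cast h3
  have h5 : (2 : ℝ) ≤ ((q - 1 : ℕ) : ℝ) := by
    have : 2 ≤ q - 1 := by omega
    exact_mod_cast this
  have h6 : (q : ℝ) = ((q - 1 : ℕ) : ℝ) + 1 := by
    have : q = (q - 1) + 1 := by omega
    conv_lhs => rw [this]
    push_cast
    ring
  nlinarith


set_option maxHeartbeats 1000000 in
include hx hC hP in
/-- The case of several classes. -/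
lemma claim_block [Fintype (P : Subgroup G)] (χ : IrrCharacter G) (hdeg : (χ : G → ℂ) 1 = ((p - 1 : ℕ) : ℂ))
    {A : ℕ} (hA : ∑ y : (P : Subgroup G), (χ : G → ℂ) y = (p : ℂ) * A)
    (hm : 2 ≤ (CC P).relIndex (NN P)) (ht : 3 * (CC P).relIndex (NN P) + 1 ≤ p) : A = 0 := by
  classical
  have hp' := hp.out
  have H := hyp hx hC hP
  set m := (CC P).relIndex (NN P) with hmdef
  letI : Fintype G := Fintype.ofFinite G
  have hAb : ∀ a b : ↥(P : Subgroup G), a * b = b * a := fun a b => Subtype.ext (H.comm a.2 b.2)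
  haveI : Finite (↥(P : Subgroup G) →* ℂˣ) := finite_dual hAb
  letI : Fintype (↥(P : Subgroup G) →* ℂˣ) := Fintype.ofFinite _
  obtain ⟨M, hM⟩ := Cfsg.Agent.Lib.Char.Kazarin.exists_modular p hp'
  haveI hMp : M.IsPrime := hM.2.1.isPrime
  have hm0 : m ≠ 0 := by omega
  have hcardP : Nat.card (P : Subgroup G) = p := card_P hx hP
  have hm2 : m + 1 < Nat.card (P : Subgroup G) := by rw [hcardP]; omega
  obtain ⟨ε, d, a, f, D⟩ := H.exists_data hM hm0 hm2
  have hcardT : Nat.card (TT P) * m = p - 1 := by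
    have := H.card_TT_mul
    rwa [hcardP] at this
  haveI hfT : Finite (TT P) := finite_TT
  have hT3 : 3 ≤ Nat.card (TT P) := by
    by_contra hc
    have h1 : Nat.card (TT P) * m ≤ 2 * m := Nat.mul_le_mul_right _ (by omega)
    omega
  obtain ⟨s₀⟩ : Nonempty (TT P) := by
    apply (Nat.card_pos_iff.1 (by omega)).1
  have hnorm := D.norm hM H hm0 s₀
  have hT3' : (3 : ℤ) ≤ (Nat.card (TT P) : ℤ) := by exact_mod_cast hT3
  have hp0 : (p : ℤ) = (p - 1 : ℕ) + 1 := by
    have : p = (p - 1) + 1 := by have := hp'.one_lt; omega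
    conv_lhs => rw [this]
    push_cast
    ring
  have hsplit : ∑ y : (P : Subgroup G), (χ : G → ℂ) y =
      ((p - 1 : ℕ) : ℂ) + ∑ y ∈ (Finset.univ.erase 1 : Finset (P : Subgroup G)), (χ : G → ℂ) y := by
    rw [← Finset.add_sum_erase _ _ (Finset.mem_univ (1 : (P : Subgroup G)))]
    congr 1
  have hcardE : (Finset.univ.erase 1 : Finset (P : Subgroup G)).card = p - 1 := by
    rw [Finset.card_erase_of_mem (Finset.mem_univ _), Finset.card_univ, ← Nat.card_eq_fintype_card, hcardP]
  have hdsq : 0 ≤ ((Nat.card (TT P) : ℤ) - 1 - 2) * d ^ 2 := by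
    apply mul_nonneg _ (sq_nonneg d)
    linarith
  have hXFnn : 0 ≤ ∑ χ ∈ XF M f, a χ ^ 2 := Finset.sum_nonneg fun _ _ => sq_nonneg _
  have hm' : (2 : ℤ) ≤ (m : ℤ) := by exact_mod_cast hm
  have ht' : 3 * (m : ℤ) + 1 ≤ (p : ℤ) := by exact_mod_cast ht
  by_cases hB : χ ∈ principalBlock M G
  · by_cases hf : χ ∈ Set.range f
    · obtain ⟨s, rfl⟩ := hf
      exfalso
      have hv : ∀ y ∈ (Finset.univ.erase 1 : Finset (P : Subgroup G)),
          (f s : G → ℂ) y = (d : ℂ) + ε * s.1 y := fun y hy => D.value_Y H hm0 s (Finset.ne_of_mem_erase hy)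
      have hs0 : ∑ y ∈ (Finset.univ.erase 1 : Finset (P : Subgroup G)), s.1 y = -(m : ℂ) := by
        obtain ⟨ψ, hψ, hs⟩ := s.2
        have h1 : ∑ y : (P : Subgroup G), theta ψ y = 0 := by
          simp only [theta]
          rw [Finset.sum_comm]
          refine Finset.sum_eq_zero fun φ hφ => ?_
          have hφ1 : φ ≠ 1 := ne_one_of_mem_orb (mem_orbF.1 hφ) hψ
          have h2 : (Units.coeHom ℂ).comp φ ≠ 1 := by
            intro h3
            apply hφ1
            ext y
            have := DFunLike.congr_fun h3 y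
            simpa using this
          exact sum_hom_units_eq_zero _ h2
        rw [← Finset.add_sum_erase _ _ (Finset.mem_univ (1 : (P : Subgroup G))), theta_one H hψ] at h1
        rw [hs]
        linear_combination h1
      rw [hsplit, Finset.sum_congr rfl hv, Finset.sum_add_distrib, ← Finset.mul_sum, hs0, Finset.sum_const,
        hcardE, nsmul_eq_mul] at hA
      have hZ : ((p - 1 : ℕ) : ℤ) + (((p - 1 : ℕ) : ℤ) * d + ε * (-(m : ℤ))) = (p : ℤ) * A := by
        exact_mod_cast hA
      have hdvd : (p : ℤ) ∣ 1 + d + ε * m := ⟨1 + d - A, by rw [hp0] at hZ ⊢; linear_combination -hZ⟩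
      have h2d : (d - ε) ^ 2 + 2 * d ^ 2 ≤ (m : ℤ) + 1 := by nlinarith
      have hd1 : d ≤ m := by
        by_contra hc
        have : (m : ℤ) + 1 ≤ d := by omega
        nlinarith [sq_nonneg (d - ε)]
      have hd2 : -(m : ℤ) ≤ d := by
        by_contra hc
        have : d ≤ -(m : ℤ) - 1 := by omega
        nlinarith [sq_nonneg (d - ε)]
      rcases D.hε with h | h
      · subst h
        have h0 : 1 + d + 1 * (m : ℤ) = 0 := by
          apply Int.eq_zero_of_abs_lt_dvd hdvd
          rw [abs_lt]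
          constructor <;> linarith
        have hd : d = -1 - m := by linarith
        subst hd
        nlinarith
      · subst h
        have h0 : 1 + d + -1 * (m : ℤ) = 0 := by
          apply Int.eq_zero_of_abs_lt_dvd hdvd
          rw [abs_lt]
          constructor <;> linarith
        have hd : d = m - 1 := by linarith
        subst hd
        nlinarith
    · have hX : χ ∈ XF M f := mem_XF.2 ⟨hB, hf⟩
      have hv : ∀ y ∈ (Finset.univ.erase 1 : Finset (P : Subgroup G)),
          (χ : G → ℂ) y = (a χ : ℂ) := fun y hy => D.value_X H hm0 hX (Finset.ne_of_mem_erase hy)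
      rw [hsplit, Finset.sum_congr rfl hv, Finset.sum_const, hcardE, nsmul_eq_mul] at hA
      have hZ : ((p - 1 : ℕ) : ℤ) + ((p - 1 : ℕ) : ℤ) * a χ = (p : ℤ) * A := by
        exact_mod_cast hA
      have hdvd : (p : ℤ) ∣ 1 + a χ := ⟨1 + a χ - A, by rw [hp0] at hZ ⊢; linear_combination -hZ⟩
      have hle : a χ ^ 2 ≤ ∑ χ ∈ XF M f, a χ ^ 2 :=
        Finset.single_le_sum (f := fun χ => a χ ^ 2) (fun _ _ => sq_nonneg _) hX
      have h2d : a χ ^ 2 ≤ (m : ℤ) + 1 := by nlinarith [sq_nonneg (d - ε), sq_nonneg d]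
      have hd1 : a χ ≤ m := by
        by_contra hc
        have : (m : ℤ) + 1 ≤ a χ := by omega
        nlinarith
      have hd2 : -(m : ℤ) ≤ a χ := by
        by_contra hc
        have : a χ ≤ -(m : ℤ) - 1 := by omega
        nlinarith
      have h0 : 1 + a χ = 0 := by
        apply Int.eq_zero_of_abs_lt_dvd hdvd
        rw [abs_lt]
        constructor <;> linarith
      have h5 : (p : ℤ) * A = 0 := by
        rw [← hZ]
        linear_combination ((p - 1 : ℕ) : ℤ) * h0
      have h6 : (p : ℤ) ≠ 0 := by exact_mod_cast hp'.ne_zero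
      have h7 := (mul_eq_zero.1 h5).resolve_left h6
      exact_mod_cast h7
  · exfalso
    -- the character vanishes on `P#`
    have hv : ∀ y ∈ (Finset.univ.erase 1 : Finset (P : Subgroup G)), (χ : G → ℂ) y = 0 := by
      intro y hy
      have hy1 : (y : G) ≠ 1 := fun h => Finset.ne_of_mem_erase hy (Subtype.ext h)
      have h1 := H.sum_self hM y.2 hy1
      have h2 := Cfsg.Agent.Lib.Char.CompleteCor.column_orth_conj (IsConj.refl (y : G))
      have h3 : Subgroup.centralizer ({(y : G)} : Set G) = (P : Subgroup G) := by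
        have h4 := zpowers_of_mem hx hP y.2 hy1
        rw [centralizer_zpowers', h4, hP, centralizer_eq hC]
      rw [h3, hcardP] at h2
      rw [hcardP] at h1
      have h4 : ∑ ψ : IrrCharacter G, (ψ : G → ℂ) y * conj ((ψ : G → ℂ) y) =
          ∑ ψ ∈ B0 M G, (ψ : G → ℂ) y * conj ((ψ : G → ℂ) y) +
          ∑ ψ ∈ Finset.univ.filter (fun ψ : IrrCharacter G => ψ ∉ principalBlock M G),
            (ψ : G → ℂ) y * conj ((ψ : G → ℂ) y) := by
        rw [B0]
        exact (Finset.sum_filter_add_sum_filter_not Finset.univ (fun ψ : IrrCharacter G => ψ ∈ principalBlock M G) _).symm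
      rw [h2, h1] at h4
      have h5 : ∑ ψ ∈ Finset.univ.filter (fun ψ : IrrCharacter G => ψ ∉ principalBlock M G),
            (ψ : G → ℂ) y * conj ((ψ : G → ℂ) y) = 0 := by linear_combination -h4
      exact sum_mul_conj_eq_zero _ (fun ψ : IrrCharacter G => (ψ : G → ℂ) y) h5 χ
        (Finset.mem_filter.2 ⟨Finset.mem_univ _, hB⟩)
    rw [hsplit, Finset.sum_congr rfl hv, Finset.sum_const_zero, add_zero] at hA
    have hZ : ((p - 1 : ℕ) : ℤ) = (p : ℤ) * A := by exact_mod_cast hA
    have hdvd : (p : ℤ) ∣ 1 := Dvd.intro (1 - (A : ℤ)) (by rw [hp0] at hZ ⊢; linear_combination hZ)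
    have h8 := Int.eq_one_of_dvd_one (by positivity) hdvd
    have : p = 1 := by exact_mod_cast h8
    exact hp'.one_lt.ne' this


include hx hC hP in
/-- The whole computation. -/
lemma even_index (χ : IrrCharacter G) (hdeg : (χ : G → ℂ) 1 = ((p - 1 : ℕ) : ℂ)) {t : ℕ}
    (hcount : Nat.card {C : ConjClasses G // ∃ g ∈ C.carrier, orderOf g = p} = t)
    (hmul : t * (CC P).relIndex (NN P) = p - 1) (ht : Odd t) (hm1 : (CC P).relIndex (NN P) ≠ 1) :
    Even (commutator G).index := by
  classical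
  have hp' := hp.out
  have H := hyp hx hC hP
  set m := (CC P).relIndex (NN P) with hmdef
  letI : Fintype G := Fintype.ofFinite G
  letI : Fintype (P : Subgroup G) := Fintype.ofFinite _
  have hcardP : Nat.card (P : Subgroup G) = p := card_P hx hP
  have hcardP' : (Fintype.card (P : Subgroup G) : ℂ) = (p : ℂ) := by
    rw [← Nat.card_eq_fintype_card, hcardP]
  have hm0 : m ≠ 0 := by
    intro h
    rw [h, mul_zero] at hmul
    have := hp'.one_lt
    omega
  have hm2 : 2 ≤ m := by omega
  have ht0 : 0 < t := ht.pos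
  have hp2 : p - 1 = t * m := hmul.symm
  have hp1 : p = t * m + 1 := by have := hp'.one_lt; omega
  have hp3 : 3 ≤ p := by
    have : 1 * 2 ≤ t * m := Nat.mul_le_mul ht0 hm2
    omega
  have hpodd : Odd p := hp'.odd_of_ne_two (by omega)
  have hmeven : Even m := by
    by_contra hc
    have hmo : Odd m := Nat.not_even_iff_odd.1 hc
    have h1 : Odd (t * m) := ht.mul hmo
    have h2 : Even p := by
      rw [hp1]
      exact h1.add_one
    exact (Nat.not_even_iff_odd.2 hpodd) h2
  obtain ⟨n, ρ, hρ⟩ := Cfsg.Agent.Lib.Char.Basic.isCharacter_of_isIrrCharacter χ.2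
  have hχρ : ∀ g, (χ : G → ℂ) g = ρ.character g := fun g => by rw [hρ]
  obtain ⟨A, hA1, hA2⟩ := avg ρ (P : Subgroup G)
  rw [hcardP'] at hA1
  have hA1' : ∑ y : (P : Subgroup G), (χ : G → ℂ) y = (p : ℂ) * A := by
    rw [← hA1]
    exact Finset.sum_congr rfl fun y _ => hχρ _
  have hA0 : A = 0 := by
    rcases Nat.eq_or_lt_of_le (Nat.succ_le_of_lt ht0) with h | h
    · -- a single class
      have ht1 : t = 1 := h.symm
      have hmp : m = p - 1 := by rw [← hmul, ht1, one_mul]
      have hxP : x ∈ (P : Subgroup G) := by rw [hP]; exact Subgroup.mem_zpowers x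
      have hconj : ∀ y ∈ (Finset.univ.erase 1 : Finset (P : Subgroup G)), (χ : G → ℂ) y = (χ : G → ℂ) x := by
        intro y hy
        have hy1 : (y : G) ≠ 1 := fun h => Finset.ne_of_mem_erase hy (Subtype.ext h)
        have h4 := zpowers_of_mem hx hP y.2 hy1
        have hord : orderOf (y : G) = p := by rw [← Nat.card_zpowers, h4, hcardP]
        let c1 : {C : ConjClasses G // ∃ g ∈ C.carrier, orderOf g = p} :=
          ⟨ConjClasses.mk (y : G), y, ConjClasses.mem_carrier_mk, hord⟩
        let c2 : {C : ConjClasses G // ∃ g ∈ C.carrier, orderOf g = p} :=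
          ⟨ConjClasses.mk x, x, ConjClasses.mem_carrier_mk, hx⟩
        have h5 : c1 = c2 := by
          have hc1 := hcount.trans ht1
          exact (Nat.card_eq_one_iff_unique.1 hc1).1.elim _ _
        have hc : IsConj (y : G) x := ConjClasses.mk_eq_mk_iff_isConj.1 (congrArg Subtype.val h5)
        exact Cfsg.Agent.Lib.Char.CompleteCor.irr_apply_of_isConj hc χ
      have hcardE : (Finset.univ.erase 1 : Finset (P : Subgroup G)).card = p - 1 := by
        rw [Finset.card_erase_of_mem (Finset.mem_univ _), Finset.card_univ, ← Nat.card_eq_fintype_card, hcardP]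
      have hsplit : ∑ y : (P : Subgroup G), (χ : G → ℂ) y =
          ((p - 1 : ℕ) : ℂ) + ∑ y ∈ (Finset.univ.erase 1 : Finset (P : Subgroup G)), (χ : G → ℂ) y := by
        rw [← Finset.add_sum_erase _ _ (Finset.mem_univ (1 : (P : Subgroup G)))]
        congr 1
      rw [hsplit, Finset.sum_congr rfl hconj, Finset.sum_const, hcardE, nsmul_eq_mul] at hA1'
      refine claim_single hp3 χ (y := x) hdeg ?_ ?_
      · rw [hC, Nat.card_zpowers, hx]
      · rw [← hA1']
        ring
    · have h3 : 3 ≤ t := by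
        obtain ⟨k, hk⟩ := ht
        omega
      have h4 : 3 * m ≤ t * m := Nat.mul_le_mul_right _ h3
      exact claim_block hx hC hP χ hdeg hA1' hm2 (by omega)
  have h0 := hA2 hA0
  obtain ⟨w, hwN, hwm, hwP⟩ := exists_w hx hC hP hm1
  have hvan : ∀ i, 0 < i → i < m → LinearMap.trace ℂ (Fin n → ℂ) ((ρ w) ^ i) = 0 := by
    intro i hi hi2
    rw [← map_pow]
    refine char_eq_zero ρ (P : Subgroup G) h0 (w ^ i) (fun y hy => ?_) (fun y hy hfix => ?_)
    · have h1 : (w ^ i)⁻¹ ∈ NN P := inv_mem (pow_mem hwN i)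
      have h2 := (Subgroup.mem_normalizer_iff.1 h1 y).1 hy
      simpa using h2
    · by_contra hy1
      apply hwP i hi hi2
      have h2 := zpowers_of_mem hx hP hy hy1
      have h3 : (w ^ i) ∈ Subgroup.centralizer ({y} : Set G) := by
        rw [Subgroup.mem_centralizer_singleton_iff]
        have : y * w ^ i = w ^ i * ((w ^ i)⁻¹ * y * w ^ i) := by group
        rw [hfix] at this
        exact this.symm
      rw [centralizer_zpowers', h2, hP, centralizer_eq hC, ← hP] at h3
      exact h3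
  have hfin : m * t = Module.finrank ℂ (Fin n → ℂ) := by
    rw [Module.finrank_fin_fun]
    have h1 : (χ : G → ℂ) 1 = (n : ℂ) := by
      rw [hχρ, Representation.character, map_one, LinearMap.trace_one, Module.finrank_fin_fun]
    rw [hdeg] at h1
    have h2 : p - 1 = n := by exact_mod_cast h1
    rw [← h2, ← hmul, mul_comm]
  have hT : (ρ w) ^ m = 1 := by rw [← map_pow, hwm, map_one]
  have hdet := det_of_vanish (ρ w) (Nat.pos_of_ne_zero hm0) hT hfin hvan
  have hdet2 : LinearMap.det (ρ w) = -1 := by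
    rw [hdet]
    have h1 : (-1 : ℂ) ^ (m + 1) = -1 := (hmeven.add_one).neg_one_pow
    rw [h1]
    exact ht.neg_one_pow
  let φ : G →* ℂˣ := (Cfsg.Agent.Lib.Char.DetExt.detU).comp (MonoidHom.toHomUnits ρ)
  exact even_index_of_hom φ (w := w) hdet2

end Setup

/-- Let the finite group G contain an element x of prime order p with C_G(x) = ⟨x⟩, and let t be the number of conjugacy classes of elements of order p. If G has an irreducible character of degree p − 1, then t is even or the commutator subgroup has even index. -/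
theorem result {G : Type*} [Group G] [Finite G] (p : ℕ) (hp : p.Prime) (x : G) (hx : orderOf x = p) (hC : Subgroup.centralizer ({x} : Set G) = Subgroup.zpowers x) (t : ℕ) (ht : Nat.card {C : ConjClasses G // ∃ g ∈ C.carrier, orderOf g = p} = t) (χ : Cfsg.IrrCharacter G) (hχ : Cfsg.charDegree (χ : G → ℂ) + 1 = p) : Even t ∨ Even (commutator G).index := by
  classical
  haveI : Fact p.Prime := ⟨hp⟩
  obtain ⟨P, hP⟩ := exists_sylow hx hC
  have hmt := card_classes_mul hx hC hP
  rw [ht] at hmt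
  have hdeg : (χ : G → ℂ) 1 = ((p - 1 : ℕ) : ℂ) := by
    rw [← Cfsg.Agent.Lib.Char.Values.IsCharacter.charDegree_cast
      (Cfsg.Agent.Lib.Char.Basic.isCharacter_of_isIrrCharacter χ.2), ← hχ]
    simp
  by_cases hm1 : (CC P).relIndex (NN P) = 1
  · -- the commutator subgroup has index `p`
    obtain ⟨K, -, -, hK, hidx⟩ := caseA (D := (NN P).index) hx hC hP
      (Subgroup.card_mul_index (NN P)).symm hm1
    rw [hm1, mul_one] at hmt
    rcases hp.eq_two_or_odd' with h2 | hodd
    · right
      rw [hK, hidx, h2]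
      exact even_two
    · left
      obtain ⟨k, hk⟩ := hodd
      exact ⟨k, by omega⟩
  · by_cases hev : Even t
    · exact Or.inl hev
    · exact Or.inr (even_index hx hC hP χ hdeg ht hmt (Nat.not_even_iff_odd.1 hev) hm1)

end Cfsg.Agent.S4508
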