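import Cfsg.Statements.S4510
import Mathlib
import Cfsg.Agent.Lib.Blocks.DefectSupport
-- import your own Cfsg.Agent.* helpers here

set_option autoImplicit false
open Cfsg

namespace Cfsg.Agent.S4510



/-- Let G be a finite group, p a prime, M a maximal ideal of the algebraic integers containing p, and call the defect of a conjugacy class the exponent of p in the order of the centralizer of its elements. Two irreducible characters lying in p-blocks of defect exactly d lie in the same block if and only if their central characters (class size times χ(x)/χ(1)) agree modulo the local ideal at M at every p-regular element x whose class has defect exactly d. -/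
theorem result {G : Type*} [Group G] [Finite G] (p : ℕ) [Fact p.Prime] (M : Ideal Cfsg.AlgInt) (hM : Cfsg.IsPModular p M) (d : ℕ) (χ ψ : Cfsg.IrrCharacter G) (hχ : Cfsg.blockDefect p (Cfsg.blockOf M (χ : G → ℂ)) = d) (hψ : Cfsg.blockDefect p (Cfsg.blockOf M (ψ : G → ℂ)) = d) : Cfsg.SameBlock M (χ : G → ℂ) (ψ : G → ℂ) ↔ ∀ x : G, ¬ p ∣ orderOf x → (Nat.card (Subgroup.centralizer ({x} : Set G))).factorization p = d → Cfsg.MemLocalIdeal M (Cfsg.centralChar (χ : G → ℂ) x - Cfsg.centralChar (ψ : G → ℂ) x) := by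
  classical
  cases nonempty_fintype G
  haveI := Cfsg.Agent.Lib.Blocks.Local.isPrime_of_isPModular hM
  refine ⟨fun hs x _ _ => hs x, fun hyp => ?_⟩
  by_contra hns
  have hB : Cfsg.IsPBlock M (Cfsg.blockOf M (χ : G → ℂ)) := ⟨χ, rfl⟩
  have hB' : Cfsg.IsPBlock M (Cfsg.blockOf M (ψ : G → ℂ)) := ⟨ψ, rfl⟩
  have hχm := Cfsg.Agent.Lib.Blocks.Osima.mem_blockOf_self (M := M) χ
  have hψm := Cfsg.Agent.Lib.Blocks.Osima.mem_blockOf_self (M := M) ψ
  have hψn : ψ ∉ Cfsg.blockOf M (χ : G → ℂ) := fun h => hns h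
  have h1 := Cfsg.Agent.Lib.Blocks.Osima.omega_blockElt_of_mem hχm
  have h2 := Cfsg.Agent.Lib.Blocks.Osima.omega_blockElt_of_notMem hψn
  rw [Cfsg.Agent.Lib.Blocks.Central.omega_eq_sum_centralChar
    (Cfsg.Agent.Lib.Blocks.Central.isClassFunction_of_irr χ.2)
    (Cfsg.Agent.Lib.Blocks.Osima.isClassFunction_blockElt _)] at h1
  rw [Cfsg.Agent.Lib.Blocks.Central.omega_eq_sum_centralChar
    (Cfsg.Agent.Lib.Blocks.Central.isClassFunction_of_irr ψ.2)
    (Cfsg.Agent.Lib.Blocks.Osima.isClassFunction_blockElt _)] at h2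
  have h3 : Cfsg.MemLocalIdeal M (1 : ℂ) := by
    have h4 := congrArg₂ (fun a b : ℂ => a - b) h1 h2
    simp only [sub_zero] at h4
    rw [← Finset.sum_sub_distrib] at h4
    rw [← h4]
    refine Cfsg.Agent.Lib.Blocks.Local.memLocalIdeal_sum _ _ fun K _ => ?_
    rw [← mul_sub, Cfsg.Agent.Lib.Blocks.Osima.coeff_blockElt]
    by_cases hc : Cfsg.MemLocalIdeal M (Cfsg.blockCoeff (Cfsg.blockOf M (χ : G → ℂ)) K.out)
    · exact Cfsg.Agent.Lib.Blocks.Local.memLocalIdeal_mul_right hc
        (Cfsg.Agent.Lib.Blocks.Local.memLocalRing_sub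
          (Cfsg.Agent.Lib.Blocks.Central.memLocalRing_centralChar χ.2 _)
          (Cfsg.Agent.Lib.Blocks.Central.memLocalRing_centralChar ψ.2 _))
    · refine Cfsg.Agent.Lib.Blocks.Local.memLocalIdeal_mul_left
        (Cfsg.Agent.Lib.Blocks.Osima.memLocalRing_blockCoeff hB _) ?_
      obtain ⟨hreg, hle⟩ := Cfsg.Agent.Lib.Blocks.DefectSupport.support_blockCoeff hM hB hc
      rw [hχ] at hle
      rcases hle.lt_or_eq with hlt | heq
      · exact Cfsg.Agent.Lib.Blocks.Local.memLocalIdeal_sub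
          (Cfsg.Agent.Lib.Blocks.DefectCount.memLocalIdeal_centralChar_of_defect_lt hM hB hχm _ (by rw [hχ]; exact hlt))
          (Cfsg.Agent.Lib.Blocks.DefectCount.memLocalIdeal_centralChar_of_defect_lt hM hB' hψm _ (by rw [hψ]; exact hlt))
      · exact hyp _ hreg heq
  exact Cfsg.Agent.Lib.Blocks.Local.not_memLocalIdeal_one h3

end Cfsg.Agent.S4510
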