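import Cfsg.Statements.S4512
import Mathlib
import Cfsg.Agent.Lib.Char.Klein4

set_option autoImplicit false
open Cfsg

namespace Cfsg.Agent.S4512

/-- If G is a finite group with a Sylow 2-subgroup that is a Klein four-group and a single conjugacy class of involutions, then its principal 2-block (relative to a maximal ideal M of the algebraic integers containing 2) has 2-regular rank 3: the restrictions of its irreducible characters to the elements of odd order span a space of dimension 3 (it has three irreducible Brauer characters). -/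
theorem result {G : Type*} [Group G] [Finite G] (M : Ideal Cfsg.AlgInt) (hM : Cfsg.IsPModular 2 M) (P : Sylow 2 G)
    (hP : Nat.card P = 4) (hexp : ∀ x : P, x * x = 1)
    (hone : ∀ s t : G, orderOf s = 2 → orderOf t = 2 → IsConj s t) :
    Cfsg.blockRank 2 (Cfsg.principalBlock M G) = 3 := by
  classical
  cases nonempty_fintype G
  have h : Cfsg.Agent.Lib.Char.Klein4.KF G := Cfsg.Agent.Lib.Char.Klein4.KF.of_sylow P hP
    (fun x hx => congrArg Subtype.val (hexp ⟨x, hx⟩)) hone
  obtain ⟨ζ₂, ζ₃, ζ₄, ε, hε, h2, h3, h23, h24, h34, hB, hv, -, -, -, hrel⟩ :=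
    Cfsg.Agent.Lib.Char.Klein4.exists_struct h hM
  obtain ⟨z, hz⟩ := Cfsg.Agent.Lib.Char.Klein4.exists_involution h
  obtain ⟨hv2, hv3, hv4⟩ := hv z hz
  set t := Cfsg.Agent.Lib.Blocks.Principal.trivChar G with ht
  set r : Cfsg.IrrCharacter G → (G → ℂ) := fun χ => Cfsg.pRegularPart 2 (χ : G → ℂ) with hr
  have hreg : ∀ (χ : G → ℂ) (g : G), ¬ 2 ∣ orderOf g → Cfsg.pRegularPart 2 χ g = χ g := by
    intro χ g hg
    simp only [Cfsg.pRegularPart, Cfsg.IsPRegular]
    exact if_pos hg
  have hsing : ∀ (χ : G → ℂ) (g : G), 2 ∣ orderOf g → Cfsg.pRegularPart 2 χ g = 0 := by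
    intro χ g hg
    simp only [Cfsg.pRegularPart, Cfsg.IsPRegular]
    exact if_neg (not_not.mpr hg)
  have hodd : ∀ g : G, ¬ 2 ∣ orderOf g → Odd (orderOf g) := fun g hg =>
    Nat.odd_iff.mpr (by omega)
  have hε2 : (ε : ℂ) * ε = 1 := by
    rcases hε with rfl | rfl <;> norm_num
  -- the relation
  have hr4 : r ζ₄ = r t + r ζ₂ + (ε : ℂ) • r ζ₃ := by
    funext g
    by_cases hg : 2 ∣ orderOf g
    · simp only [hr, Pi.add_apply, Pi.smul_apply, hsing _ g hg, smul_eq_mul]
      ring
    · simp only [hr, Pi.add_apply, Pi.smul_apply, hreg _ g hg, smul_eq_mul]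
      have := hrel g (hodd g hg)
      simp only [ht, Cfsg.Agent.Lib.Blocks.Principal.coe_trivChar]
      linear_combination -this
  have hmemB : ∀ χ, χ ∈ Cfsg.principalBlock M G ↔ χ = t ∨ χ = ζ₂ ∨ χ = ζ₃ ∨ χ = ζ₄ := by
    intro χ
    rw [hB]
    simp only [Set.mem_ofPred_eq]
    have : χ = t ↔ (χ : G → ℂ) = fun _ => 1 := ⟨fun h2 => by rw [h2]; rfl, fun h2 => Subtype.ext h2⟩
    rw [this]
  have hspan : Submodule.span ℂ (r '' Cfsg.principalBlock M G) =
      Submodule.span ℂ (Set.range ![r t, r ζ₂, r ζ₃]) := by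
    apply le_antisymm
    · rw [Submodule.span_le]
      rintro _ ⟨χ, hχ, rfl⟩
      have hm0 : r t ∈ Submodule.span ℂ (Set.range ![r t, r ζ₂, r ζ₃]) :=
        Submodule.subset_span ⟨0, rfl⟩
      have hm1 : r ζ₂ ∈ Submodule.span ℂ (Set.range ![r t, r ζ₂, r ζ₃]) :=
        Submodule.subset_span ⟨1, rfl⟩
      have hm2 : r ζ₃ ∈ Submodule.span ℂ (Set.range ![r t, r ζ₂, r ζ₃]) :=
        Submodule.subset_span ⟨2, rfl⟩
      rcases (hmemB χ).1 hχ with rfl | rfl | rfl | rfl
      · exact hm0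
      · exact hm1
      · exact hm2
      · rw [SetLike.mem_coe, hr4]
        exact Submodule.add_mem _ (Submodule.add_mem _ hm0 hm1) (Submodule.smul_mem _ _ hm2)
    · rw [Submodule.span_le]
      rintro _ ⟨i, rfl⟩
      fin_cases i
      · exact Submodule.subset_span ⟨t, (hmemB t).2 (by simp), rfl⟩
      · exact Submodule.subset_span ⟨ζ₂, (hmemB _).2 (by simp), rfl⟩
      · exact Submodule.subset_span ⟨ζ₃, (hmemB _).2 (by simp), rfl⟩
  have hli : LinearIndependent ℂ ![r t, r ζ₂, r ζ₃] := by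
    rw [Fintype.linearIndependent_iff]
    intro c hc
    rw [Fin.sum_univ_three] at hc
    simp only [Matrix.cons_val_zero, Matrix.cons_val_one, Matrix.cons_val] at hc
    -- vanishing on regular elements
    set κ : ℂ := c 0 + c 1 + c 2 * ε with hκ
    have hF : ∀ g, c 0 * (t : G → ℂ) g + c 1 * (ζ₂ : G → ℂ) g + c 2 * (ζ₃ : G → ℂ) g =
        κ / 4 * ((t : G → ℂ) g + (ζ₂ : G → ℂ) g + (ε : ℂ) * (ζ₃ : G → ℂ) g - (ζ₄ : G → ℂ) g) := by
      intro g
      by_cases hg : 2 ∣ orderOf g
      · have e2 := Cfsg.Agent.Lib.Char.Klein4.apply_of_even h hM hz hg ((hmemB ζ₂).2 (by simp))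
        have e3 := Cfsg.Agent.Lib.Char.Klein4.apply_of_even h hM hz hg ((hmemB ζ₃).2 (by simp))
        have e4 := Cfsg.Agent.Lib.Char.Klein4.apply_of_even h hM hz hg ((hmemB ζ₄).2 (by simp))
        rw [e2, e3, e4, hv2, hv3, hv4]
        simp only [ht, Cfsg.Agent.Lib.Blocks.Principal.coe_trivChar, hκ]
        linear_combination (-(c 0 + c 1 + c 2 * ε) / 4) * hε2
      · have h1 := congrFun hc g
        simp only [Pi.add_apply, Pi.smul_apply, smul_eq_mul, Pi.zero_apply, hr, hreg _ g hg] at h1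
        have h5 := hrel g (hodd g hg)
        rw [h1]
        simp only [ht, Cfsg.Agent.Lib.Blocks.Principal.coe_trivChar]
        rw [h5, mul_zero]
    have hne4 : (ζ₄ : G → ℂ) ≠ (t : G → ℂ) := by
      intro h5
      have : (ζ₄ : G → ℂ) z = (t : G → ℂ) z := by rw [h5]
      rw [hv4] at this
      simp only [ht, Cfsg.Agent.Lib.Blocks.Principal.coe_trivChar] at this
      norm_num at this
    -- linear independence of irreducible characters
    have hli0 := Cfsg.Agent.Lib.Char.Ortho.linearIndependent_irr (G := G)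
    have hinj : ∀ d : Cfsg.IrrCharacter G → ℂ, ∀ S : Finset (Cfsg.IrrCharacter G),
        (∑ i ∈ S, d i • ((i : Cfsg.IrrCharacter G) : G → ℂ)) = 0 → ∀ i ∈ S, d i = 0 :=
      fun d S hS i hi => linearIndependent_iff'.mp hli0 S d hS i hi
    have ht4 : t ≠ ζ₄ := fun h5 => hne4 (by rw [h5])
    have ht2 : t ≠ ζ₂ := fun h5 => h2 (by rw [← h5]; rfl)
    have ht3 : t ≠ ζ₃ := fun h5 => h3 (by rw [← h5]; rfl)
    let S : Finset (Cfsg.IrrCharacter G) := {t, ζ₂, ζ₃, ζ₄}
    let d : Cfsg.IrrCharacter G → ℂ := fun χ =>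
      if χ = t then c 0 - κ / 4 else if χ = ζ₂ then c 1 - κ / 4 else if χ = ζ₃ then c 2 - κ / 4 * ε else κ / 4
    have hsum : (∑ i ∈ S, d i • ((i : Cfsg.IrrCharacter G) : G → ℂ)) = 0 := by
      simp only [S]
      rw [Finset.sum_insert (by simp [ht2, ht3, ht4]), Finset.sum_insert (by simp [h23, h24]),
        Finset.sum_insert (by simp [h34]), Finset.sum_singleton]
      funext g
      simp only [Pi.add_apply, Pi.smul_apply, smul_eq_mul, Pi.zero_apply, d, if_true, if_neg ht2.symm,
        if_neg ht3.symm, if_neg ht4.symm, if_neg h23.symm, if_neg h24.symm, if_neg h34.symm]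
      linear_combination hF g
    have hd := hinj d S hsum
    have hd4 : κ / 4 = 0 := by
      have := hd ζ₄ (by simp [S])
      simpa [d, ht4.symm, h24.symm, h34.symm] using this
    have hd1 := hd t (by simp [S])
    have hd2 := hd ζ₂ (by simp [S])
    have hd3 := hd ζ₃ (by simp [S])
    simp only [d, if_true, if_neg ht2.symm, if_neg ht3.symm, if_neg h23.symm, hd4, sub_zero, zero_mul] at hd1 hd2 hd3
    intro i
    fin_cases i
    · exact hd1
    · exact hd2
    · exact hd3
  unfold Cfsg.blockRank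
  have hfin : Module.finrank ℂ ↥(Submodule.span ℂ (Set.range ![r t, r ζ₂, r ζ₃])) = 3 := by
    rw [finrank_span_eq_card hli]
    simp
  rw [← hfin, ← hspan]

end Cfsg.Agent.S4512
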