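import Cfsg.Statements.S4714
import Mathlib
import Cfsg.Agent.Lib.Blocks.CentralProd2
-- import your own Cfsg.Agent.* helpers here

set_option autoImplicit false
open Cfsg

namespace Cfsg.Agent.S4714

open Cfsg.Agent.Lib.Blocks.CentralProd Cfsg.Agent.Lib.Blocks.CentralProd2

lemma chiFun_mul {G : Type*} [Group G] [Fintype G] {p : ℕ} [hp : Fact p.Prime] (D : Subgroup G)
    (lam : D → ℂ) (θ : G → ℂ) (hθ : ∀ y ∈ D, ∀ x, θ (y * x) = θ x) (y : D) (x : G) (hx : ¬ p ∣ orderOf x)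
    (hc : Commute (y : G) x) (hDp : IsPGroup p D) :
    chiFun D p lam θ ((y : G) * x) = lam y * θ x := by
  classical
  unfold chiFun hatFun
  have hpart : Cfsg.IsPPart p ((y : G) * x) (y : G) :=
    ⟨x, rfl, hc, by
      obtain ⟨k, hk⟩ := (IsPGroup.iff_orderOf.1 hDp) y
      exact ⟨k, by rw [Subgroup.orderOf_coe, hk]⟩, hx⟩
  have h1 : pp p ((y : G) * x) = y := pp_eq hpart
  have h2 : pp p ((y : G) * x) ∈ D := by rw [h1]; exact y.2
  rw [dif_pos h2, hθ y y.2]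
  congr 2
  exact Subtype.ext h1

lemma chiFun_eq_zero {G : Type*} [Group G] [Fintype G] {p : ℕ} [hp : Fact p.Prime] (D : Subgroup G)
    (lam : D → ℂ) (θ : G → ℂ) (z : G) (hz : ∀ y : G, Cfsg.IsPPart p z y → y ∉ D) :
    chiFun D p lam θ z = 0 := by
  classical
  unfold chiFun hatFun
  rw [dif_neg (hz _ (pp_spec z)), zero_mul]

/-- Let p be a prime, M a maximal ideal of the algebraic integers containing p, D a p-subgroup of the finite group G with G = D·C_G(D), and B a p-block with defect group D. Let χ be a member of B having D in its kernel (there is exactly one, the canonical character of B). Then the irreducible characters in B are exactly the functions θ on G for which there is an irreducible character ζ of D such that θ(yx) = ζ(y)χ(x) whenever y ∈ D, x has order prime to p and x commutes with y, and θ(z) = 0 whenever the p-part of z does not lie in D. -/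
theorem result {G : Type*} [Group G] [Finite G] (p : ℕ) [Fact p.Prime] (M : Ideal Cfsg.AlgInt) (hM : Cfsg.IsPModular p M) (D : Subgroup G) (hD : IsPGroup p D) (hG : D ⊔ Subgroup.centralizer (D : Set G) = ⊤) (B : Set (Cfsg.IrrCharacter G)) (hB : Cfsg.IsPBlock M B) (hBD : Cfsg.IsDefectGroup p M B D) (χ : Cfsg.IrrCharacter G) (hχ : χ ∈ B) (hχD : ∀ y ∈ D, (χ : G → ℂ) y = (χ : G → ℂ) 1) : (∀ θ : Cfsg.IrrCharacter G, θ ∈ B ↔ ∃ ζ : Cfsg.IrrCharacter D, (∀ (y : D) (x : G), ¬ p ∣ orderOf x → Commute (y : G) x → (θ : G → ℂ) ((y : G) * x) = (ζ : D → ℂ) y * (χ : G → ℂ) x) ∧ (∀ z : G, (∀ y : G, Cfsg.IsPPart p z y → y ∉ D) → (θ : G → ℂ) z = 0)) ∧ ∀ ζ : Cfsg.IrrCharacter D, ∃ θ ∈ B, (∀ (y : D) (x : G), ¬ p ∣ orderOf x → Commute (y : G) x → (θ : G → ℂ) ((y : G) * x) = (ζ : D → ℂ) y * (χ : G → ℂ) x) ∧ (∀ z : G, (∀ y : G, Cfsg.IsPPart p z y → y ∉ D) → (θ : G → ℂ) z = 0) := by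
  classical
  letI := Fintype.ofFinite G
  have hDp : IsPGroup p D := by
    obtain ⟨g, -, Q, rfl⟩ := hBD
    exact Q.isPGroup'.map _
  obtain ⟨θ₀, hθ₀, hk₀, huniq, hn, hmem, hirr⟩ := exists_structure hM hDp hG hB hBD
  obtain rfl : χ = θ₀ := huniq χ hχ hχD
  haveI := hn
  have hker : ∀ y ∈ D, ∀ x, (χ : G → ℂ) (y * x) = (χ : G → ℂ) x := by
    intro y hy x
    obtain ⟨ρ, hρ⟩ := Cfsg.Agent.Lib.Blocks.Kernel.exists_irr_of_kernel D χ.2 hk₀
    rw [hρ]
    exact comp_mk_mul' _ x hy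
  have hfwd : ∀ lam : Cfsg.IrrCharacter D,
      (∀ (y : D) (x : G), ¬ p ∣ orderOf x → Commute (y : G) x →
        chiFun D p (lam : D → ℂ) (χ : G → ℂ) ((y : G) * x) = (lam : D → ℂ) y * (χ : G → ℂ) x) ∧
      (∀ z : G, (∀ y : G, Cfsg.IsPPart p z y → y ∉ D) → chiFun D p (lam : D → ℂ) (χ : G → ℂ) z = 0) :=
    fun lam => ⟨fun y x hx hc => chiFun_mul D _ _ hker y x hx hc hDp, fun z hz => chiFun_eq_zero D _ _ z hz⟩
  refine ⟨fun θ => ⟨fun hθ => ?_, ?_⟩, fun ζ => ?_⟩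
  · obtain ⟨lam, hl⟩ := (hmem θ).mp hθ
    refine ⟨lam, ?_⟩
    rw [hl]
    exact hfwd lam
  · rintro ⟨ζ, h1, h2⟩
    refine (hmem θ).mpr ⟨ζ, ?_⟩
    funext z
    by_cases hz : pp p z ∈ D
    · obtain ⟨w, hw, hc, -, hw2⟩ := pp_spec (p := p) z
      have h3 := h1 ⟨pp p z, hz⟩ w hw2 hc
      have h4 := (hfwd ζ).1 ⟨pp p z, hz⟩ w hw2 hc
      simp only at h3 h4
      rw [hw] at h3 h4
      rw [h3, h4]
    · have h3 : ∀ y : G, Cfsg.IsPPart p z y → y ∉ D := by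
        intro y hy
        rw [← pp_eq hy]
        exact hz
      rw [h2 z h3, (hfwd ζ).2 z h3]
  · obtain ⟨θ, hθ, hl⟩ := hirr ζ
    refine ⟨θ, hθ, ?_⟩
    rw [hl]
    exact hfwd ζ

end Cfsg.Agent.S4714
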