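import Cfsg.Statements.S4513
import Mathlib
import Cfsg.Agent.Lib.Blocks.SectionSum
import Cfsg.Agent.Lib.Blocks.Laradji
import Cfsg.Agent.Lib.Blocks.HeightZero
import Cfsg.Agent.Lib.Blocks.FirstMain
import Cfsg.Agent.Lib.Char.AbelianQuot
import Cfsg.Agent.S0917
import Cfsg.Agent.S0912
import Cfsg.Agent.S0908
import Cfsg.Agent.S0924
import Cfsg.Agent.S0928
import Cfsg.Agent.S0968
import Cfsg.Agent.S0969
import Cfsg.Agent.S4714

set_option autoImplicit false
open Cfsg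

namespace Cfsg.Agent.S4513

open Cfsg.Agent.Lib.Blocks.Local Cfsg.Agent.Lib.Blocks.Central Cfsg.Agent.Lib.Blocks.Osima
  Cfsg.Agent.Lib.Blocks.Sections Cfsg.Agent.Lib.Blocks.SectionSum
  Cfsg.Agent.Lib.Blocks.PrincipalCen Cfsg.Agent.Lib.Blocks.Laradji
open scoped ComplexConjugate

universe u

section Elementary

variable {G : Type u} [Group G]

lemma mem_zpowers_two {x z : G} (hx : orderOf x = 2) : z ∈ Subgroup.zpowers x ↔ z = 1 ∨ z = x := by
  constructor
  · rintro ⟨n, rfl⟩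
    have h2 : x ^ 2 = 1 := by rw [← hx]; exact pow_orderOf_eq_one x
    obtain ⟨k, hk | hk⟩ := n.even_or_odd'
    · left
      show x ^ n = 1
      rw [hk, zpow_mul]
      have : x ^ (2 : ℤ) = 1 := by exact_mod_cast h2
      rw [this, one_zpow]
    · right
      show x ^ n = x
      rw [hk, zpow_add, zpow_mul]
      have : x ^ (2 : ℤ) = 1 := by exact_mod_cast h2
      rw [this, one_zpow, one_mul, zpow_one]
  · rintro (rfl | rfl)
    · exact Subgroup.one_mem _
    · exact Subgroup.mem_zpowers _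

lemma cen_eq_normalizer {x : G} (hx : orderOf x = 2) :
    Subgroup.centralizer ({x} : Set G) = Subgroup.normalizer ((Subgroup.zpowers x : Subgroup G) : Set G) := by
  have hne : x ≠ 1 := by
    rintro rfl
    simp at hx
  ext g
  rw [Subgroup.mem_normalizer_iff, Subgroup.mem_centralizer_singleton_iff]
  constructor
  · intro hg z
    have hg' : g * x * g⁻¹ = x := by rw [hg]; group
    rw [mem_zpowers_two hx, mem_zpowers_two hx]
    constructor
    · rintro (rfl | rfl)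
      · left; group
      · right; exact hg'
    · rintro (h | h)
      · left
        have : z = g⁻¹ * (g * z * g⁻¹) * g := by group
        rw [this, h]; group
      · right
        have : z = g⁻¹ * (g * z * g⁻¹) * g := by group
        rw [this, h]
        have h3 : g⁻¹ * (g * x * g⁻¹) * g = x := by group
        rw [hg'] at h3
        exact h3
  · intro h
    have h1 := (h x).mp (Subgroup.mem_zpowers x)
    rw [mem_zpowers_two hx] at h1
    rcases h1 with h1 | h1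
    · exfalso
      apply hne
      have : x = g⁻¹ * (g * x * g⁻¹) * g := by group
      rw [this, h1]; group
    · calc g * x = g * x * g⁻¹ * g := by group
        _ = x * g := by rw [h1]

/-- Characters of a commutative group have degree one. -/
lemma irr_one_of_comm {H : Type u} [Group H] [Finite H] (hc : ∀ a b : H, a * b = b * a) (ζ : IrrCharacter H) :
    (ζ : H → ℂ) 1 = 1 := by
  obtain ⟨ζ, n, ρ, hρ, rfl⟩ := ζ
  haveI := hρ
  have hf := Cfsg.Agent.Lib.Char.AbelianQuot.finrank_eq_one_of_commuting ρ (fun a b => by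
    rw [← Module.End.mul_eq_comp, ← Module.End.mul_eq_comp, ← map_mul, ← map_mul, hc])
  show LinearMap.trace ℂ _ (ρ 1) = 1
  rw [map_one, LinearMap.trace_one, hf]
  simp

lemma card_conjClasses_of_comm {H : Type*} [Group H] (hc : ∀ a b : H, a * b = b * a) :
    Nat.card (ConjClasses H) = Nat.card H := by
  refine (Nat.card_congr (Equiv.ofBijective (ConjClasses.mk (α := H)) ⟨?_, ?_⟩)).symm
  · intro a b hab
    have h := ConjClasses.mk_eq_mk_iff_isConj.mp hab
    obtain ⟨c, hc'⟩ := isConj_iff.mp h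
    rw [← hc', hc c a]
    group
  · exact ConjClasses.mk_surjective

end Elementary

section Main

variable {G : Type u} [Group G] [Fintype G] {M : Ideal AlgInt} [hMp : M.IsPrime]

/-- Order two element as an element of its centralizer. -/
abbrev XX (x : G) : Cen x := ⟨x, mem_Cen_self x⟩

lemma XX_central (x : G) : XX x ∈ Subgroup.center (Cen x) := by
  rw [Subgroup.mem_center_iff]
  intro c
  apply Subtype.ext
  exact commute_of_mem_Cen c

lemma zpowers_le_cen (x : G) : Subgroup.zpowers x ≤ Cen x := by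
  intro z hz
  obtain ⟨n, rfl⟩ := hz
  rw [Subgroup.mem_centralizer_singleton_iff]
  exact ((Commute.refl x).zpow_left n).eq

/-- The subgroup `⟨x⟩` of `C_G(x)`. -/
abbrev Dc (x : G) : Subgroup (Cen x) := (Subgroup.zpowers x).subgroupOf (Cen x)

lemma card_Dc {x : G} (hx : orderOf x = 2) : Nat.card (Dc x) = 2 := by
  rw [Nat.card_congr (Subgroup.subgroupOfEquivOfLe (zpowers_le_cen x)).toEquiv, Nat.card_zpowers, hx]

lemma mem_Dc {x : G} (hx : orderOf x = 2) {c : Cen x} : c ∈ Dc x ↔ c = 1 ∨ c = XX x := by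
  rw [Subgroup.mem_subgroupOf, mem_zpowers_two hx]
  constructor
  · rintro (h | h)
    · left; exact Subtype.ext h
    · right; exact Subtype.ext h
  · rintro (rfl | rfl)
    · left; rfl
    · right; rfl

lemma isPGroup_Dc {x : G} (hx : orderOf x = 2) : IsPGroup 2 (Dc x) := by
  rw [IsPGroup.iff_card]
  exact ⟨1, by rw [card_Dc hx]; norm_num⟩

lemma Dc_le_center {x : G} (hx : orderOf x = 2) : Dc x ≤ Subgroup.center (Cen x) := by
  intro c hc
  rcases (mem_Dc hx).mp hc with rfl | rfl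
  · exact Subgroup.one_mem _
  · exact XX_central x

lemma Dc_comm {x : G} (hx : orderOf x = 2) (a b : Dc x) : a * b = b * a := by
  apply Subtype.ext
  exact (Subgroup.mem_center_iff.mp (Dc_le_center hx a.2) (b : Cen x)).symm

lemma Dc_sup {x : G} (hx : orderOf x = 2) :
    Dc x ⊔ Subgroup.centralizer ((Dc x : Subgroup (Cen x)) : Set (Cen x)) = ⊤ := by
  have h : Subgroup.centralizer ((Dc x : Subgroup (Cen x)) : Set (Cen x)) = ⊤ := by
    rw [Subgroup.centralizer_eq_top_iff_subset]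
    exact Dc_le_center hx
  rw [h, sup_top_eq]

/-- A block inducing a block with defect group `⟨x⟩` has defect group `⟨x⟩`. -/
theorem isDefectGroup_of_induced (hM : IsPModular 2 M) {x : G} (hx : orderOf x = 2)
    {B : Set (IrrCharacter G)} (hB : IsPBlock M B) (hBD : IsDefectGroup 2 M B (Subgroup.zpowers x))
    {b : Set (IrrCharacter (Cen x))} (hb : IsPBlock M b) (hind : IsInducedBlock M (Cen x) b B) :
    IsDefectGroup 2 M b (Dc x) := by
  classical
  haveI : Fact (Nat.Prime 2) := ⟨by norm_num⟩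
  obtain ⟨g, hg⟩ := exists_isDefectClass hb
  obtain ⟨S⟩ : Nonempty (Sylow 2 (Subgroup.centralizer ({g} : Set (Cen x)))) := inferInstance
  set Q : Subgroup (Cen x) := (S : Subgroup _).map (Subgroup.centralizer ({g} : Set (Cen x))).subtype with hQ
  have hQd : IsDefectGroup 2 M b Q := ⟨g, hg, S, rfl⟩
  obtain ⟨E, hE, hQE⟩ := Cfsg.Agent.S0917.result 2 M hM (Cen x) b hb B hB hind Q hQd
  have hcE : Nat.card E = 2 := by
    rw [Cfsg.Agent.S0908.result 2 M hM B hB E hE, ← Cfsg.Agent.S0908.result 2 M hM B hB _ hBD,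
      Nat.card_zpowers, hx]
  have hcQ : Nat.card Q ≤ 2 := by
    have h1 : Nat.card (Q.map (Cen x).subtype) ≤ Nat.card E := Subgroup.card_le_of_le hQE
    rw [hcE] at h1
    refine le_trans (le_of_eq ?_) h1
    exact Nat.card_congr (Subgroup.equivMapOfInjective _ _ (Subgroup.subtype_injective _)).toEquiv
  have hcore := Cfsg.Agent.S0912.result 2 M hM b hb Q hQd
  have hnorm : (Dc x).Normal := by
    constructor
    intro n hn c
    exact Dc_le_center hx hn |> fun h => by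
      have : c * n * c⁻¹ = n := by
        rw [Subgroup.mem_center_iff.mp h c]
        group
      rw [this]
      exact hn
  have hle : Dc x ≤ Q := (Cfsg.Agent.Lib.Basic.PCore.le_pCore hnorm (isPGroup_Dc hx)).trans hcore
  have heq : Dc x = Q := Subgroup.eq_of_le_of_card_ge hle (by rw [card_Dc hx]; exact hcQ)
  rw [heq]
  exact hQd

/-- Uniqueness of the block of `C` inducing `B`. -/
theorem eq_of_induced_aux (hM : IsPModular 2 M) {D : Subgroup G} (hD : IsPGroup 2 D) (C : Subgroup G)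
    (hC : C = Subgroup.normalizer (D : Set G))
    {B : Set (IrrCharacter G)} (hB : IsPBlock M B)
    {b₁ b₂ : Set (IrrCharacter C)} (hb₁ : IsPBlock M b₁) (hb₂ : IsPBlock M b₂)
    (hd₁ : IsDefectGroup 2 M b₁ (D.subgroupOf C))
    (h₁ : IsInducedBlock M C b₁ B) (h₂ : IsInducedBlock M C b₂ B) : b₁ = b₂ := by
  haveI : Fact (Nat.Prime 2) := ⟨by norm_num⟩
  subst hC
  letI : Fintype (Subgroup.normalizer (D : Set G)) := Fintype.ofFinite _
  exact Cfsg.Agent.Lib.Blocks.FirstMain.eq_of_isInducedBlock hM hD hB hb₁ hb₂ hd₁ h₁ h₂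

/-- The inducers of `B` are exactly the block `b`. -/
theorem inducers_eq (hM : IsPModular 2 M) {x : G} (hx : orderOf x = 2) [Fintype (Cen x)]
    (χ₀ : IrrCharacter G) (hBD : IsDefectGroup 2 M (blockOf M (χ₀ : G → ℂ)) (Subgroup.zpowers x))
    {b : Set (IrrCharacter (Cen x))} (hb : IsInducedBlock M (Cen x) b (blockOf M (χ₀ : G → ℂ))) :
    inducers (Cen x) M (χ₀ : G → ℂ) = b := by
  classical
  haveI : Fact (Nat.Prime 2) := ⟨by norm_num⟩
  have hB : IsPBlock M (blockOf M (χ₀ : G → ℂ)) := ⟨χ₀, rfl⟩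
  have hpg : IsPGroup 2 (Subgroup.zpowers x) := by
    rw [IsPGroup.iff_card]
    exact ⟨1, by rw [Nat.card_zpowers, hx]; norm_num⟩
  ext ξ
  constructor
  · intro hξ
    -- the block of `ξ` induces `B`
    have hi : IsInducedBlock M (Cen x) (blockOf M (ξ : Cen x → ℂ)) (blockOf M (χ₀ : G → ℂ)) := by
      refine ⟨⟨ξ, rfl⟩, hB, fun ξ' hξ' χ hχ g => ?_⟩
      have h1 := inducers_closed (Cen x) (χ₀ : G → ℂ) ξ hξ hξ'
      have h2 := inducers_congr (M := M) (Cen x) hχ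
      rw [h2] at h1
      exact h1 g
    have hd := isDefectGroup_of_induced hM hx hB hBD hb.1 hb
    have := eq_of_induced_aux hM hpg (Cen x) (cen_eq_normalizer hx) hB hb.1 ⟨ξ, rfl⟩ hd hb hi
    rw [this]
    exact mem_blockOf_self ξ
  · intro hξ g
    exact hb.2.2 ξ hξ χ₀ (mem_blockOf_self χ₀) g

/-- The structure of a block of `C` with defect group `⟨x⟩`. -/
theorem exists_other (hM : IsPModular 2 M) {x : G} (hx : orderOf x = 2) [Fintype (Cen x)]
    {b : Set (IrrCharacter (Cen x))} (hb : IsPBlock M b) (hd : IsDefectGroup 2 M b (Dc x))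
    {θ : IrrCharacter (Cen x)} (hθ : θ ∈ b)
    (hθx : ∀ z : Cen x, (z : G) = x → (θ : Cen x → ℂ) z = (θ : Cen x → ℂ) 1) :
    ∃ θ' : IrrCharacter (Cen x), θ' ≠ θ ∧ (∀ ξ, ξ ∈ b ↔ ξ = θ ∨ ξ = θ') ∧
      (∀ w : Cen x, ¬ 2 ∣ orderOf w → (θ' : Cen x → ℂ) w = (θ : Cen x → ℂ) w) ∧
      (∀ c, (θ' : Cen x → ℂ) (XX x * c) = -1 * (θ' : Cen x → ℂ) c) ∧
      (∀ c, (θ : Cen x → ℂ) (XX x * c) = 1 * (θ : Cen x → ℂ) c) := by
  classical
  haveI : Fact (Nat.Prime 2) := ⟨by norm_num⟩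
  have h68 := Cfsg.Agent.S0968.result 2 M hM (Dc x) (isPGroup_Dc hx) (Dc_sup hx) b hb hd
  have hcard : Nat.card b = 2 := by
    rw [h68.2.2, card_conjClasses_of_comm (Dc_comm hx), card_Dc hx]
  have hθD : ∀ y ∈ Dc x, (θ : Cen x → ℂ) y = (θ : Cen x → ℂ) 1 := by
    intro y hy
    rcases (mem_Dc hx).mp hy with rfl | rfl
    · rfl
    · exact hθx _ rfl
  obtain ⟨⟨θ', hθ'⟩, hne, huniq⟩ := (Nat.card_eq_two_iff' (⟨θ, hθ⟩ : b)).mp hcard
  have hne' : θ' ≠ θ := fun h => hne (Subtype.ext h)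
  have h14 := Cfsg.Agent.S4714.result 2 M hM (Dc x) (isPGroup_Dc hx) (Dc_sup hx) b hb hd θ hθ hθD
  obtain ⟨ζ, hζ1, -⟩ := (h14.1 θ').mp hθ'
  have hζ : (ζ : Dc x → ℂ) 1 = 1 := irr_one_of_comm (Dc_comm hx) ζ
  have hX2 : XX x ^ 2 = 1 := by
    apply Subtype.ext
    show x ^ 2 = 1
    rw [← hx]; exact pow_orderOf_eq_one x
  have hlam : ∀ ξ : IrrCharacter (Cen x), lam (ξ : Cen x → ℂ) (XX x) = 1 ∨ lam (ξ : Cen x → ℂ) (XX x) = -1 := by
    intro ξ
    have h1 := lam_pow ξ.2 (XX_central x) 2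
    rw [hX2, lam_one ξ.2] at h1
    have h2 : (lam (ξ : Cen x → ℂ) (XX x) - 1) * (lam (ξ : Cen x → ℂ) (XX x) + 1) = 0 := by
      linear_combination -h1
    rcases mul_eq_zero.mp h2 with h | h
    · left; linear_combination h
    · right; linear_combination h
  have hlamθ : lam (θ : Cen x → ℂ) (XX x) = 1 := by
    rw [lam, hθx _ rfl]
    exact div_self (Cfsg.Agent.Lib.Char.Ortho.irr_apply_one_ne_zero θ.2)
  have hlamθ' : lam (θ' : Cen x → ℂ) (XX x) = -1 := by
    refine (hlam θ').resolve_left fun h1 => hne' ?_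
    have h2 : (θ' : Cen x → ℂ) (XX x) = (θ' : Cen x → ℂ) 1 := by
      have h0 := Cfsg.Agent.Lib.Char.Ortho.irr_apply_one_ne_zero θ'.2
      rw [lam] at h1
      field_simp at h1
      exact h1
    have hθ'D : ∀ y ∈ Dc x, (θ' : Cen x → ℂ) y = (θ' : Cen x → ℂ) 1 := by
      intro y hy
      rcases (mem_Dc hx).mp hy with rfl | rfl
      · rfl
      · exact h2
    exact h68.1.unique ⟨hθ', hθ'D⟩ ⟨hθ, hθD⟩
  refine ⟨θ', hne', fun ξ => ⟨fun hξ => ?_, ?_⟩, fun w hw => ?_, fun c => ?_, fun c => ?_⟩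
  · by_cases h : ξ = θ
    · exact Or.inl h
    · right
      have := huniq ⟨ξ, hξ⟩ (fun h' => h (congrArg Subtype.val h'))
      exact congrArg Subtype.val this
  · rintro (rfl | rfl)
    · exact hθ
    · exact hθ'
  · have := hζ1 (1 : Dc x) w hw (Commute.one_left _)
    simpa [hζ] using this
  · rw [irr_mul_central θ'.2 (XX_central x), hlamθ']
  · rw [irr_mul_central θ.2 (XX_central x), hlamθ]

lemma blockPart_self (B : Set (IrrCharacter G)) {χ : IrrCharacter G} (hχ : χ ∈ B) (g : G) :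
    blockPart B (χ : G → ℂ) g = (χ : G → ℂ) g := by
  classical
  rw [blockPart_eq_sum, Finset.sum_eq_single χ]
  · rw [Cfsg.Agent.Lib.Char.Ortho.classInner_irr_self χ.2, one_mul]
  · intro ψ _ hψ
    rw [Cfsg.Agent.Lib.Char.Ortho.classInner_irr_of_ne χ.2 ψ.2 (fun h => hψ (Subtype.ext h.symm)), zero_mul]
  · intro h
    exact absurd (Finset.mem_filter.mpr ⟨Finset.mem_univ _, hχ⟩) h

lemma classInner_shift {x : G} (hx : orderOf x = 2) [Fintype (Cen x)] (χ : G → ℂ) (ξ : Cen x → ℂ) (s : ℂ)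
    (hs : ∀ c, ξ (XX x * c) = s * ξ c) :
    classInner (fun c : Cen x => χ (x * c)) ξ = conj s * classInner (fun c : Cen x => χ c) ξ := by
  classical
  have hxx : x * x = 1 := by
    rw [← pow_two, ← hx]; exact pow_orderOf_eq_one x
  unfold classInner
  rw [mul_left_comm]
  congr 1
  rw [← Equiv.sum_comp (Equiv.mulLeft (XX x)), Finset.mul_sum]
  refine Finset.sum_congr rfl fun c _ => ?_
  simp only [Equiv.coe_mulLeft, Subgroup.coe_mul, hs, map_mul]
  rw [← mul_assoc x x, hxx, one_mul]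
  ring

theorem exists_int_value (hM : IsPModular 2 M) {x : G} (hx : orderOf x = 2) [Fintype (Cen x)]
    (χ₀ : IrrCharacter G) {θ θ' : IrrCharacter (Cen x)} (hne : θ' ≠ θ)
    (hb : ∀ ξ, ξ ∈ inducers (Cen x) M (χ₀ : G → ℂ) ↔ ξ = θ ∨ ξ = θ')
    (h1 : ∀ w : Cen x, ¬ 2 ∣ orderOf w → (θ' : Cen x → ℂ) w = (θ : Cen x → ℂ) w)
    (h2 : ∀ c, (θ' : Cen x → ℂ) (XX x * c) = -1 * (θ' : Cen x → ℂ) c)
    (h3 : ∀ c, (θ : Cen x → ℂ) (XX x * c) = 1 * (θ : Cen x → ℂ) c)
    (χ : IrrCharacter G) (hχ : χ ∈ blockOf M (χ₀ : G → ℂ)) :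
    ∃ d : ℤ, ∀ y : Cen x, ¬ 2 ∣ orderOf y → (χ : G → ℂ) (x * y) = d * (θ : Cen x → ℂ) y := by
  classical
  haveI : Fact (Nat.Prime 2) := ⟨by norm_num⟩
  have hx' : orderOf x = 2 ^ 1 := by rw [hx]; norm_num
  have hres := Cfsg.Agent.Lib.Char.Basic.isCharacter_restrict
    (Cfsg.Agent.Lib.Char.Basic.isCharacter_of_isIrrCharacter χ.2) (Cen x)
  obtain ⟨m, hm⟩ := Cfsg.Agent.Lib.Char.Ortho.exists_nat_classInner_of_isCharacter hres
    (Cfsg.Agent.Lib.Char.Basic.isCharacter_of_isIrrCharacter θ.2)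
  obtain ⟨m', hm'⟩ := Cfsg.Agent.Lib.Char.Ortho.exists_nat_classInner_of_isCharacter hres
    (Cfsg.Agent.Lib.Char.Basic.isCharacter_of_isIrrCharacter θ'.2)
  refine ⟨(m : ℤ) - m', fun y hy => ?_⟩
  have hsec := blockPart_section hM hx' y hy χ₀ (isClassFunction_of_irr χ.2)
  rw [blockPart_self _ hχ, blockPart_eq_sum] at hsec
  have hf : Finset.univ.filter (· ∈ inducers (Cen x) M (χ₀ : G → ℂ)) = {θ, θ'} := by
    ext ξ
    simp [hb ξ]
  rw [hf, Finset.sum_pair hne.symm, classInner_shift hx _ _ _ h3, classInner_shift hx _ _ _ h2, hm, hm',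
    h1 y hy] at hsec
  rw [hsec]
  simp
  ring

end Main

theorem result {G : Type*} [Group G] [Finite G] (M : Ideal Cfsg.AlgInt) (hM : Cfsg.IsPModular 2 M) (x : G) (hx : orderOf x = 2)
    (B : Set (Cfsg.IrrCharacter G)) (hB : Cfsg.IsPBlock M B) (hBD : Cfsg.IsDefectGroup 2 M B (Subgroup.zpowers x))
    (b : Set (Cfsg.IrrCharacter ↥(Subgroup.centralizer ({x} : Set G)))) (hb : Cfsg.IsInducedBlock M (Subgroup.centralizer ({x} : Set G)) b B)
    (θ : Cfsg.IrrCharacter ↥(Subgroup.centralizer ({x} : Set G))) (hθ : θ ∈ b)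
    (hθx : ∀ z : ↥(Subgroup.centralizer ({x} : Set G)), (z : G) = x → (θ : ↥(Subgroup.centralizer ({x} : Set G)) → ℂ) z = (θ : ↥(Subgroup.centralizer ({x} : Set G)) → ℂ) 1) :
    Nat.card B = 2 ∧ (∀ χ ∈ B, ∀ ψ ∈ B, ∀ g : G, ¬ 2 ∣ orderOf g → (χ : G → ℂ) g = (ψ : G → ℂ) g) ∧
      ∃ χ₁ ∈ B, ∃ χ₂ ∈ B, χ₁ ≠ χ₂ ∧ ∃ ε₁ ε₂ : ℤ, (ε₁ = 1 ∨ ε₁ = -1) ∧ (ε₂ = 1 ∨ ε₂ = -1) ∧ ε₁ * ε₂ = -1 ∧
        ∀ y : ↥(Subgroup.centralizer ({x} : Set G)), ¬ 2 ∣ orderOf y →
          (χ₁ : G → ℂ) (x * y) = (ε₁ : ℂ) * (θ : ↥(Subgroup.centralizer ({x} : Set G)) → ℂ) y ∧ (χ₂ : G → ℂ) (x * y) = (ε₂ : ℂ) * (θ : ↥(Subgroup.centralizer ({x} : Set G)) → ℂ) y := by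
  classical
  cases nonempty_fintype G
  haveI hMp := Cfsg.Agent.Lib.Blocks.Local.isPrime_of_isPModular hM
  haveI : Fact (Nat.Prime 2) := ⟨by norm_num⟩
  letI : Fintype (Cen x) := Fintype.ofFinite _
  have hx' : orderOf x = 2 ^ 1 := by rw [hx]; norm_num
  obtain ⟨χ₀, rfl⟩ := id hB
  have hT := inducers_eq hM hx χ₀ hBD hb
  have hd := isDefectGroup_of_induced hM hx hB hBD hb.1 hb
  obtain ⟨θ', hne, hbθ, h1, h2, h3⟩ := exists_other hM hx hb.1 hd hθ hθx
  have hbT : ∀ ξ, ξ ∈ inducers (Cen x) M (χ₀ : G → ℂ) ↔ ξ = θ ∨ ξ = θ' := by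
    intro ξ
    rw [hT]
    exact hbθ ξ
  have hval := exists_int_value hM hx χ₀ hne hbT h1 h2 h3
  choose! d hdv using hval
  have hθ1 : (θ : Cen x → ℂ) 1 ≠ 0 := Cfsg.Agent.Lib.Char.Ortho.irr_apply_one_ne_zero θ.2
  -- value at `x`
  have hvx : ∀ χ ∈ blockOf M (χ₀ : G → ℂ), (χ : G → ℂ) x = d χ * (θ : Cen x → ℂ) 1 := by
    intro χ hχ
    have := hdv χ hχ 1 (by simp)
    simpa using this
  set Bf : Finset (IrrCharacter G) := Finset.univ.filter (· ∈ blockOf M (χ₀ : G → ℂ)) with hBf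
  -- the norm
  have hsum : ∑ χ ∈ Bf, (d χ) ^ 2 = 2 := by
    have hS := sum_block_section hM hx' χ₀ (1 : Cen x) (1 : Cen x) (by simp) (by simp)
    have hf : Finset.univ.filter (· ∈ inducers (Cen x) M (χ₀ : G → ℂ)) = {θ, θ'} := by
      ext ξ
      simp [hbT ξ]
    rw [hf, Finset.sum_pair hne.symm, h1 1 (by simp)] at hS
    have hL : ∀ χ ∈ Bf, (χ : G → ℂ) (x * ((1 : Cen x) : G)) * conj ((χ : G → ℂ) (x * ((1 : Cen x) : G))) =
        ((d χ) ^ 2 : ℤ) * ((θ : Cen x → ℂ) 1 * conj ((θ : Cen x → ℂ) 1)) := by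
      intro χ hχ
      have hχ' : χ ∈ blockOf M (χ₀ : G → ℂ) := (Finset.mem_filter.mp hχ).2
      have : (χ : G → ℂ) (x * ((1 : Cen x) : G)) = d χ * (θ : Cen x → ℂ) 1 := by
        simpa using hvx χ hχ'
      rw [this, map_mul, map_intCast]
      push_cast
      ring
    rw [Finset.sum_congr rfl hL, ← Finset.sum_mul] at hS
    have hne0 : (θ : Cen x → ℂ) 1 * conj ((θ : Cen x → ℂ) 1) ≠ 0 :=
      mul_ne_zero hθ1 ((map_ne_zero _).mpr hθ1)
    have h4 : ((∑ χ ∈ Bf, (d χ) ^ 2 : ℤ) : ℂ) = 2 := by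
      push_cast at hS ⊢
      apply mul_right_cancel₀ hne0
      rw [hS]
      ring
    exact_mod_cast h4
  -- every member has nonzero `d`
  have hnz : ∀ χ ∈ Bf, d χ ≠ 0 := by
    intro χ hχ h0
    have hχ' : χ ∈ blockOf M (χ₀ : G → ℂ) := (Finset.mem_filter.mp hχ).2
    have hBχ : blockOf M (χ : G → ℂ) = blockOf M (χ₀ : G → ℂ) := blockOf_eq_of_mem hχ'
    have hvan : ∀ g : G, orderOf g = 2 → (χ : G → ℂ) g = 0 := by
      intro g hg
      by_cases hc : IsConj g x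
      · rw [Cfsg.Agent.Lib.Char.CompleteCor.irr_apply_of_isConj hc, hvx χ hχ', h0]
        simp
      · have hgg : IsPPart 2 g g := ⟨1, mul_one g, Commute.one_right g, ⟨1, by rw [hg]; norm_num⟩, by simp⟩
        refine Cfsg.Agent.S0924.result 2 M hM χ g g hgg fun D hD hgD => hc ?_
        rw [hBχ] at hD
        obtain ⟨t, ht⟩ := Cfsg.Agent.Lib.Blocks.HeightZero.exists_map_conj_eq_of_isDefectGroup hM hB hD hBD
        rw [← ht] at hgD
        obtain ⟨z, hz, hzg⟩ := Subgroup.mem_map.mp hgD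
        rcases (mem_zpowers_two hx).mp hz with rfl | rfl
        · exfalso
          have : g = 1 := by
            rw [← hzg]; simp
          rw [this] at hg
          simp at hg
        · rw [← hzg]
          exact (isConj_iff.mpr ⟨t, rfl⟩).symm
    have hfac := Cfsg.Agent.S0928.result 2 χ hvan
    have hdef := (Cfsg.Agent.S0969.result 2 M hM (⊥ : Subgroup G) (IsPGroup.of_bot) bot_le χ
      (by rw [hfac, Subgroup.index_bot])).1
    rw [hBχ] at hdef
    have hc1 := Cfsg.Agent.S0908.result 2 M hM _ hB _ hdef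
    have hc2 := Cfsg.Agent.S0908.result 2 M hM _ hB _ hBD
    rw [Nat.card_zpowers, hx] at hc2
    rw [Subgroup.card_bot] at hc1
    rw [← hc1] at hc2
    norm_num at hc2
  -- squares
  have hone : ∀ χ ∈ Bf, 1 ≤ (d χ) ^ 2 := by
    intro χ hχ
    have := hnz χ hχ
    have h5 : 0 < (d χ) ^ 2 := by positivity
    omega
  have hcard : Bf.card = 2 := by
    have hle : Bf.card ≤ 2 := by
      have := Finset.card_nsmul_le_sum Bf (fun χ => (d χ) ^ 2) 1 hone
      rw [hsum] at this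
      simp at this
      omega
    have h0 : Bf.card ≠ 0 := by
      intro h
      rw [Finset.card_eq_zero.mp h] at hsum
      simp at hsum
    have h11 : Bf.card ≠ 1 := by
      intro h
      obtain ⟨a, ha⟩ := Finset.card_eq_one.mp h
      rw [ha, Finset.sum_singleton] at hsum
      have h6 : (d a) ^ 2 = 2 := hsum
      have h7 : |d a| ^ 2 = 2 := by rw [sq_abs]; exact h6
      have h8 : |d a| ≤ 1 ∨ 2 ≤ |d a| := by omega
      have h9 : 0 ≤ |d a| := abs_nonneg _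
      rcases h8 with h8 | h8 <;> nlinarith
    omega
  obtain ⟨χ₁, χ₂, hne12, hBf2⟩ := Finset.card_eq_two.mp hcard
  have hmem1 : χ₁ ∈ blockOf M (χ₀ : G → ℂ) := by
    have : χ₁ ∈ Bf := by rw [hBf2]; simp
    exact (Finset.mem_filter.mp this).2
  have hmem2 : χ₂ ∈ blockOf M (χ₀ : G → ℂ) := by
    have : χ₂ ∈ Bf := by rw [hBf2]; simp
    exact (Finset.mem_filter.mp this).2
  have hall : ∀ χ ∈ blockOf M (χ₀ : G → ℂ), χ = χ₁ ∨ χ = χ₂ := by
    intro χ hχ
    have : χ ∈ Bf := Finset.mem_filter.mpr ⟨Finset.mem_univ _, hχ⟩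
    rw [hBf2] at this
    simpa using this
  rw [hBf2, Finset.sum_pair hne12] at hsum
  have hd1 := hone χ₁ (by rw [hBf2]; simp)
  have hd2 := hone χ₂ (by rw [hBf2]; simp)
  have hd1' : (d χ₁) ^ 2 = 1 := by omega
  have hd2' : (d χ₂) ^ 2 = 1 := by omega
  have hpm1 : d χ₁ = 1 ∨ d χ₁ = -1 := mul_self_eq_one_iff.mp (by rw [← pow_two]; exact hd1')
  have hpm2 : d χ₂ = 1 ∨ d χ₂ = -1 := mul_self_eq_one_iff.mp (by rw [← pow_two]; exact hd2')
  -- block orthogonality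
  have horth : ∀ v : G, ¬ 2 ∣ orderOf v → (d χ₁ : ℂ) * (χ₁ : G → ℂ) v + (d χ₂ : ℂ) * (χ₂ : G → ℂ) v = 0 := by
    intro v hv
    have hvinv : ¬ 2 ∣ orderOf v⁻¹ := by rwa [orderOf_inv]
    have hp1 : IsPPart 2 x x := ⟨1, mul_one x, Commute.one_right x, ⟨1, by rw [hx]; norm_num⟩, by simp⟩
    have hp2 : IsPPart 2 v⁻¹ 1 := ⟨v⁻¹, one_mul _, Commute.one_left _, ⟨0, by simp⟩, hvinv⟩
    have hnc : ¬ IsConj x 1 := by
      intro h
      have h' := isConj_one_right.mp h.symm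
      rw [h'] at hx
      simp at hx
    have h6 := block_orthogonality hM hp1 hp2 hnc hB
    rw [Cfsg.Agent.Lib.Blocks.Osima.finsum_mem_eq_sum_filter, Finset.sum_congr (hBf2) (fun _ _ => rfl), Finset.sum_pair hne12, inv_inv,
      hvx χ₁ hmem1, hvx χ₂ hmem2] at h6
    have h7 : (θ : Cen x → ℂ) 1 * ((d χ₁ : ℂ) * (χ₁ : G → ℂ) v + (d χ₂ : ℂ) * (χ₂ : G → ℂ) v) = 0 := by
      linear_combination h6
    exact (mul_eq_zero.mp h7).resolve_left hθ1
  obtain ⟨n₁, hn₁, hv₁⟩ := Cfsg.Agent.Lib.Char.Ortho.irr_degree_pos χ₁.2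
  obtain ⟨n₂, hn₂, hv₂⟩ := Cfsg.Agent.Lib.Char.Ortho.irr_degree_pos χ₂.2
  have hdeg : d χ₁ * (n₁ : ℤ) + d χ₂ * (n₂ : ℤ) = 0 := by
    have := horth 1 (by simp)
    rw [hv₁, hv₂] at this
    exact_mod_cast this
  have hopp : d χ₂ = - d χ₁ := by
    rcases hpm1 with h | h <;> rcases hpm2 with h' | h' <;> simp only [h, h'] at hdeg ⊢ <;> omega
  have hd1z : (d χ₁ : ℂ) ≠ 0 := by
    have : d χ₁ ≠ 0 := by rcases hpm1 with h | h <;> rw [h] <;> norm_num
    exact_mod_cast this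
  have heq12 : ∀ g : G, ¬ 2 ∣ orderOf g → (χ₁ : G → ℂ) g = (χ₂ : G → ℂ) g := by
    intro g hg
    have h8 := horth g hg
    rw [hopp] at h8
    push_cast at h8
    have h9 : (d χ₁ : ℂ) * ((χ₁ : G → ℂ) g - (χ₂ : G → ℂ) g) = 0 := by linear_combination h8
    have := (mul_eq_zero.mp h9).resolve_left hd1z
    linear_combination this
  refine ⟨?_, ?_, χ₁, hmem1, χ₂, hmem2, hne12, d χ₁, d χ₂, hpm1, hpm2, ?_, fun y hy => ⟨hdv χ₁ hmem1 y hy, hdv χ₂ hmem2 y hy⟩⟩
  · have hset : blockOf M (χ₀ : G → ℂ) = (Bf : Set (IrrCharacter G)) := by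
      ext χ
      exact ⟨fun h => Finset.mem_coe.mpr (Finset.mem_filter.mpr ⟨Finset.mem_univ _, h⟩),
        fun h => (Finset.mem_filter.mp (Finset.mem_coe.mp h)).2⟩
    rw [Nat.card_coe_set_eq, hset, Set.ncard_coe_finset]
    exact hcard
  · intro χ hχ ψ hψ g hg
    rcases hall χ hχ with rfl | rfl <;> rcases hall ψ hψ with rfl | rfl
    · rfl
    · exact heq12 g hg
    · exact (heq12 g hg).symm
    · rfl
  · rw [hopp]
    rcases hpm1 with h | h <;> rw [h] <;> norm_num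

end Cfsg.Agent.S4513
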