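import Cfsg.Statements.S4636
import Mathlib
-- import your own Cfsg.Agent.* helpers here

set_option autoImplicit false
open scoped Pointwise
open Cfsg

namespace Cfsg.Agent.S4636

open Subgroup

/-- Let P be a nontrivial cyclic p-subgroup of the finite group G and Z its subgroup of order p. For every x outside N_G(Z), P meets its conjugate xPx⁻¹ trivially; consequently N_G(Q) ≤ N_G(Z) for every nontrivial subgroup Q of P. -/
theorem result {G : Type*} [Group G] [Finite G] (p : ℕ) [Fact p.Prime] (P : Subgroup G) (hP : IsPGroup p P) (hP1 : P ≠ ⊥) (hcyc : IsCyclic P) (Z : Subgroup G) (hZ : Z ≤ P) (hZcard : Nat.card Z = p) : (∀ x : G, x ∉ Subgroup.normalizer (Z : Set G) → P ⊓ MulAut.conj x • P = ⊥) ∧ ∀ Q : Subgroup G, Q ≤ P → Q ≠ ⊥ → Subgroup.normalizer (Q : Set G) ≤ Subgroup.normalizer (Z : Set G) := by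
  classical
  haveI := Fintype.ofFinite P
  have hZsq : ∀ z ∈ Z, z ^ p = 1 := by
    intro z hz
    have h1 := pow_card_eq_one' (x := (⟨z, hz⟩ : Z))
    rw [hZcard] at h1
    exact congrArg Subtype.val h1
  have hF : ∀ a ∈ P, a ^ p = 1 → a ∈ Z := by
    intro a ha hap
    have hle := IsCyclic.card_pow_eq_one_le (α := P) (Fact.out : p.Prime).pos
    have hcard : ((Z.subgroupOf P : Subgroup P) : Set P).toFinset.card = p := by
      rw [← hZcard, Set.toFinset_card, ← Nat.card_eq_fintype_card]
      exact Nat.card_congr (subgroupOfEquivOfLe hZ).toEquiv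
    have hsub : ((Z.subgroupOf P : Subgroup P) : Set P).toFinset ⊆
        Finset.univ.filter (fun b : P => b ^ p = 1) := by
      intro b hb
      have hb' : (b : G) ∈ Z := by simpa [mem_subgroupOf] using hb
      simp only [Finset.mem_filter, Finset.mem_univ, true_and]
      exact Subtype.ext (hZsq _ hb')
    have heq := Finset.eq_of_subset_of_card_le hsub (by rw [hcard]; exact hle)
    have hmem : (⟨a, ha⟩ : P) ∈ Finset.univ.filter (fun b : P => b ^ p = 1) := by
      simp only [Finset.mem_filter, Finset.mem_univ, true_and]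
      exact Subtype.ext hap
    rw [← heq] at hmem
    simpa [mem_subgroupOf] using hmem
  have hnorm : ∀ g : G, (∀ z ∈ Z, g * z * g⁻¹ ∈ Z) → g ∈ normalizer (Z : Set G) := by
    intro g hg
    rw [mem_normalizer_iff_map_conj_eq]
    apply Subgroup.eq_of_le_of_card_ge
    · rintro _ ⟨z, hz, rfl⟩
      exact hg z hz
    · rw [Subgroup.card_map_of_injective (MulAut.conj g).injective]
  have hZle : ∀ Q : Subgroup G, Q ≤ P → Q ≠ ⊥ → Z ≤ Q := by
    intro Q hQ hne
    have hQp : IsPGroup p Q := hP.to_le hQ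
    haveI : Nontrivial Q := (Subgroup.nontrivial_iff_ne_bot Q).mpr hne
    obtain ⟨n, hn, hc⟩ := hQp.nontrivial_iff_card.mp inferInstance
    obtain ⟨y, hy⟩ := exists_prime_orderOf_dvd_card' p (by rw [hc]; exact dvd_pow_self p hn.ne')
    have hy' : orderOf (y : G) = p := by rw [Subgroup.orderOf_coe, hy]
    have hyZ : (y : G) ∈ Z := hF _ (hQ y.2) (by rw [← hy']; exact pow_orderOf_eq_one _)
    have hzp : zpowers (y : G) = Z := by
      apply Subgroup.eq_of_le_of_card_ge (zpowers_le.mpr hyZ)
      rw [Nat.card_zpowers, hy', hZcard]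
    rw [← hzp, zpowers_le]
    exact y.2
  refine ⟨?_, ?_⟩
  · intro x hx
    by_contra hne
    have h1 := hZle _ inf_le_left hne
    apply hx
    rw [← inv_mem_iff]
    apply hnorm
    intro z hz
    have h2 : z ∈ MulAut.conj x • P := (h1 hz).2
    have h3 : (x⁻¹ * z * x⁻¹⁻¹) ∈ P := by
      rw [Subgroup.mem_pointwise_smul_iff_inv_smul_mem, MulAut.smul_def, ← map_inv, MulAut.conj_apply] at h2
      exact h2
    refine hF _ h3 ?_
    rw [conj_pow, hZsq z hz]
    group
  · intro Q hQ hne g hg
    apply hnorm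
    intro z hz
    refine hF _ ?_ ?_
    · exact hQ ((mem_normalizer_iff.mp hg z).mp (hZle Q hQ hne hz))
    · rw [conj_pow, hZsq z hz]
      group

end Cfsg.Agent.S4636
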