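import Cfsg.Statements.S4670
import Mathlib
import Cfsg.Agent.Lib.Blocks.FirstMain2

set_option autoImplicit false
open Cfsg

namespace Cfsg.Agent.S4670

open Cfsg.Agent.Lib.Blocks.Local Cfsg.Agent.Lib.Blocks.Central Cfsg.Agent.Lib.Blocks.Osima
open Cfsg.Agent.Lib.Blocks.FirstMain Cfsg.Agent.Lib.Blocks.FirstMain2 Cfsg.Agent.Lib.Blocks.Transport

section Aux

variable {G : Type*} [Group G]

lemma mem_normalizer_subgroupOf_iff {P H : Subgroup G} (hPH : P ≤ H) (y : H) :
    y ∈ Subgroup.normalizer ((P.subgroupOf H : Subgroup H) : Set H) ↔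
      (y : G) ∈ Subgroup.normalizer (P : Set G) := by
  rw [Subgroup.mem_normalizer_iff, Subgroup.mem_normalizer_iff]
  constructor
  · intro h g
    constructor
    · intro hg
      have h1 := (h ⟨g, hPH hg⟩).1 (by simpa [Subgroup.mem_subgroupOf] using hg)
      simpa [Subgroup.mem_subgroupOf] using h1
    · intro hg
      have hgH : g ∈ H := by
        have h2 : (y : G)⁻¹ * ((y : G) * g * (y : G)⁻¹) * (y : G) = g := by group
        rw [← h2]
        exact H.mul_mem (H.mul_mem (H.inv_mem y.2) (hPH hg)) y.2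
      have h1 := (h ⟨g, hgH⟩).2 (by simpa [Subgroup.mem_subgroupOf] using hg)
      simpa [Subgroup.mem_subgroupOf] using h1
  · intro h g
    have := h (g : G)
    simpa [Subgroup.mem_subgroupOf] using this

/-- The normalizer in `H` and the normalizer in `G`. -/
def normEquiv {P H : Subgroup G} (hPH : P ≤ H) (hH : Subgroup.normalizer (P : Set G) ≤ H) :
    Subgroup.normalizer ((P.subgroupOf H : Subgroup H) : Set H) ≃* Subgroup.normalizer (P : Set G) where
  toFun x := ⟨x.1.1, (mem_normalizer_subgroupOf_iff hPH _).1 x.2⟩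
  invFun y := ⟨⟨y.1, hH y.2⟩, (mem_normalizer_subgroupOf_iff hPH ⟨y.1, hH y.2⟩).2 y.2⟩
  left_inv x := rfl
  right_inv y := rfl
  map_mul' x y := rfl

@[simp] lemma coe_normEquiv {P H : Subgroup G} (hPH : P ≤ H) (hH : Subgroup.normalizer (P : Set G) ≤ H)
    (x : Subgroup.normalizer ((P.subgroupOf H : Subgroup H) : Set H)) :
    ((normEquiv hPH hH x : Subgroup.normalizer (P : Set G)) : G) = ((x : H) : G) := rfl

lemma comap_normEquiv {P H : Subgroup G} (hPH : P ≤ H) (hH : Subgroup.normalizer (P : Set G) ≤ H) :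
    (P.subgroupOf (Subgroup.normalizer (P : Set G))).comap (normEquiv hPH hH).toMonoidHom =
      (P.subgroupOf H).subgroupOf (Subgroup.normalizer ((P.subgroupOf H : Subgroup H) : Set H)) := by
  ext x
  simp [Subgroup.mem_subgroupOf]

lemma comap_normEquiv_symm {P H : Subgroup G} (hPH : P ≤ H) (hH : Subgroup.normalizer (P : Set G) ≤ H) :
    ((P.subgroupOf H).subgroupOf (Subgroup.normalizer ((P.subgroupOf H : Subgroup H) : Set H))).comap
        (normEquiv hPH hH).symm.toMonoidHom =
      P.subgroupOf (Subgroup.normalizer (P : Set G)) := by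
  ext x
  simp [Subgroup.mem_subgroupOf, normEquiv]

variable [Finite G] {M : Ideal Cfsg.AlgInt} [M.IsPrime] {p : ℕ} [Fact p.Prime]

/-- Blocks determined by their coefficients on the centralizer of a normal `p`-subgroup. -/
lemma eq_of_congr_centralizer {X : Type*} [Group X] [Fintype X] (hM : Cfsg.IsPModular p M) (Q : Subgroup X) [Q.Normal]
    (hQ : IsPGroup p Q) {b₁ b₂ : Set (Cfsg.IrrCharacter X)} (hb₁ : Cfsg.IsPBlock M b₁) (hb₂ : Cfsg.IsPBlock M b₂)
    (h : ∀ y ∈ Subgroup.centralizer (Q : Set X), Cfsg.MemLocalIdeal M (Cfsg.blockCoeff b₁ y - Cfsg.blockCoeff b₂ y)) :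
    b₁ = b₂ := by
  classical
  haveI : Fintype (Subgroup.centralizer (Q : Set X)) := Fintype.ofFinite _
  refine eq_of_blockCoeff_congr hb₁ hb₂ fun y => ?_
  by_cases hy : y ∈ Subgroup.centralizer (Q : Set X)
  · exact h y hy
  · rw [Cfsg.Agent.Lib.Blocks.CentSupport.blockCoeff_eq_zero_of_notMem hM Q hQ _ le_rfl hb₁ hy,
      Cfsg.Agent.Lib.Blocks.CentSupport.blockCoeff_eq_zero_of_notMem hM Q hQ _ le_rfl hb₂ hy, sub_zero]
    exact memLocalIdeal_zero

end Aux


/-- Fix a prime p and a maximal ideal M of the algebraic integers containing p. Let P be a p-subgroup of the finite group G and H a subgroup containing N_G(P). For every p-block B of G with defect group P there is exactly one p-block c of H with defect group P whose idempotent agrees with that of B, modulo the local ideal at M, at every element of C_G(P) (their Brauer-map images at P coincide); and every p-block c of H with defect group P arises in this way from exactly one such B. This is the Brauer correspondence over H. -/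
theorem result {G : Type*} [Group G] [Fintype G] (p : ℕ) [Fact p.Prime] (M : Ideal Cfsg.AlgInt) (hM : Cfsg.IsPModular p M) (P H : Subgroup G) (hP : IsPGroup p P) (hH : Subgroup.normalizer (P : Set G) ≤ H) : (∀ B : Set (Cfsg.IrrCharacter G), Cfsg.IsPBlock M B → Cfsg.IsDefectGroup p M B P → ∃! c : Set (Cfsg.IrrCharacter H), Cfsg.IsPBlock M c ∧ Cfsg.IsDefectGroup p M c (P.subgroupOf H) ∧ ∀ x : G, x ∈ Subgroup.centralizer (P : Set G) → Cfsg.MemLocalIdeal M (Cfsg.blockCoeff B x - Cfsg.subgroupBlockCoeff H c x)) ∧ (∀ c : Set (Cfsg.IrrCharacter H), Cfsg.IsPBlock M c → Cfsg.IsDefectGroup p M c (P.subgroupOf H) → ∃! B : Set (Cfsg.IrrCharacter G), Cfsg.IsPBlock M B ∧ Cfsg.IsDefectGroup p M B P ∧ ∀ x : G, x ∈ Subgroup.centralizer (P : Set G) → Cfsg.MemLocalIdeal M (Cfsg.blockCoeff B x - Cfsg.subgroupBlockCoeff H c x)) := by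
  classical
  have hMp := isPrime_of_isPModular hM
  have hPH : P ≤ H := (Subgroup.le_normalizer).trans hH
  set φ := normEquiv hPH hH with hφ
  have hP' : IsPGroup p (P.subgroupOf H) := hP.comap_of_injective _ (Subgroup.subtype_injective _)
  haveI : Fintype H := Fintype.ofFinite _
  haveI : Fintype (Subgroup.normalizer (P : Set G)) := Fintype.ofFinite _
  haveI : Fintype (Subgroup.normalizer ((P.subgroupOf H : Subgroup H) : Set H)) := Fintype.ofFinite _
  have hCG : Subgroup.centralizer (P : Set G) ≤ Subgroup.normalizer (P : Set G) :=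
    centralizer_le_normalizer' P
  -- elements of the centralizer
  have hxN : ∀ {x : G} (hx : x ∈ Subgroup.centralizer (P : Set G)),
      (⟨x, hH (hCG hx)⟩ : H) ∈ Subgroup.centralizer ((P.subgroupOf H : Subgroup H) : Set H) := by
    intro x hx
    rw [Subgroup.mem_centralizer_iff] at hx ⊢
    intro u hu
    exact Subtype.ext (hx u hu)
  have hcoeff : ∀ (c : Set (Cfsg.IrrCharacter H)) {x : G} (hx : x ∈ H),
      Cfsg.subgroupBlockCoeff H c x = Cfsg.blockCoeff c ⟨x, hx⟩ := by
    intro c x hx
    simp [Cfsg.subgroupBlockCoeff, hx]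
  -- the congruence between correspondents
  have hcore : ∀ {b : Set (Cfsg.IrrCharacter (Subgroup.normalizer (P : Set G)))}
      {B : Set (Cfsg.IrrCharacter G)} {c : Set (Cfsg.IrrCharacter H)},
      Cfsg.IsPBlock M b → Cfsg.IsPBlock M B → Cfsg.IsPBlock M c →
      Cfsg.IsDefectGroup p M b (P.subgroupOf (Subgroup.normalizer (P : Set G))) →
      Cfsg.IsDefectGroup p M (blockMap φ b) ((P.subgroupOf H).subgroupOf
        (Subgroup.normalizer ((P.subgroupOf H : Subgroup H) : Set H))) →
      Cfsg.IsInducedBlock M (Subgroup.normalizer (P : Set G)) b B →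
      Cfsg.IsInducedBlock M (Subgroup.normalizer ((P.subgroupOf H : Subgroup H) : Set H)) (blockMap φ b) c →
      ∀ x : G, x ∈ Subgroup.centralizer (P : Set G) →
        Cfsg.MemLocalIdeal M (Cfsg.blockCoeff B x - Cfsg.subgroupBlockCoeff H c x) := by
    intro b B c hb hB hc hdb hdb' hind hind' x hx
    have hxn := hCG hx
    let y : Subgroup.normalizer ((P.subgroupOf H : Subgroup H) : Set H) := φ.symm ⟨x, hxn⟩
    have h1 := blockCoeff_sub_of_induced hM hP hb hB hdb hind (x := ⟨x, hxn⟩) hx
    have h2 := blockCoeff_sub_of_induced hM hP' (isPBlock_blockMap φ hb) hc hdb' hind' (x := y) (hxN hx)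
    rw [blockCoeff_blockMap] at h2
    have hy : φ y = ⟨x, hxn⟩ := by simp [y]
    rw [hy] at h2
    rw [hcoeff c (hH hxn)]
    have h3 := memLocalIdeal_sub h1 h2
    convert h3 using 1
    have hyc : ((y : H) : H) = (⟨x, hH hxn⟩ : H) := rfl
    rw [hyc]
    ring
  have hdefect : ∀ {b : Set (Cfsg.IrrCharacter (Subgroup.normalizer (P : Set G)))},
      Cfsg.IsDefectGroup p M b (P.subgroupOf (Subgroup.normalizer (P : Set G))) →
      Cfsg.IsDefectGroup p M (blockMap φ b) ((P.subgroupOf H).subgroupOf
        (Subgroup.normalizer ((P.subgroupOf H : Subgroup H) : Set H))) := by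
    intro b hdb
    have := isDefectGroup_blockMap φ hdb
    rwa [comap_normEquiv] at this
  have hdefect' : ∀ {b' : Set (Cfsg.IrrCharacter (Subgroup.normalizer ((P.subgroupOf H : Subgroup H) : Set H)))},
      Cfsg.IsDefectGroup p M b' ((P.subgroupOf H).subgroupOf
        (Subgroup.normalizer ((P.subgroupOf H : Subgroup H) : Set H))) →
      Cfsg.IsDefectGroup p M (blockMap φ.symm b') (P.subgroupOf (Subgroup.normalizer (P : Set G))) := by
    intro b' hdb'
    have := isDefectGroup_blockMap φ.symm hdb'
    rwa [comap_normEquiv_symm] at this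
  have hnorm : (P.subgroupOf (Subgroup.normalizer (P : Set G))).Normal :=
    (Subgroup.normal_subgroupOf_iff_le_normalizer (le_normalizer' P)).mpr le_rfl
  have hnorm' : ((P.subgroupOf H).subgroupOf (Subgroup.normalizer ((P.subgroupOf H : Subgroup H) : Set H))).Normal :=
    (Subgroup.normal_subgroupOf_iff_le_normalizer (le_normalizer' _)).mpr le_rfl
  have hpg : IsPGroup p (P.subgroupOf (Subgroup.normalizer (P : Set G))) :=
    hP.comap_of_injective _ (Subgroup.subtype_injective _)
  have hpg' : IsPGroup p ((P.subgroupOf H).subgroupOf (Subgroup.normalizer ((P.subgroupOf H : Subgroup H) : Set H))) :=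
    hP'.comap_of_injective _ (Subgroup.subtype_injective _)
  -- centralizers in the normalizers
  have hcent : ∀ y : Subgroup.normalizer ((P.subgroupOf H : Subgroup H) : Set H),
      y ∈ Subgroup.centralizer (((P.subgroupOf H).subgroupOf
        (Subgroup.normalizer ((P.subgroupOf H : Subgroup H) : Set H)) : Subgroup _) : Set _) →
      ((y : H) : G) ∈ Subgroup.centralizer (P : Set G) := by
    intro y hy
    rw [Subgroup.mem_centralizer_iff] at hy ⊢
    intro u hu
    have hu' := le_normalizer' P hu
    let u' : Subgroup.normalizer ((P.subgroupOf H : Subgroup H) : Set H) := φ.symm ⟨u, hu'⟩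
    have hu'' := hy u' (by
      show (((u' : H) : G)) ∈ P
      exact hu)
    exact congrArg (fun z : Subgroup.normalizer ((P.subgroupOf H : Subgroup H) : Set H) => ((z : H) : G)) hu''
  have hcentN : ∀ y : Subgroup.normalizer (P : Set G),
      y ∈ Subgroup.centralizer ((P.subgroupOf (Subgroup.normalizer (P : Set G)) : Subgroup _) : Set _) →
      (y : G) ∈ Subgroup.centralizer (P : Set G) := by
    intro y hy
    rw [Subgroup.mem_centralizer_iff] at hy ⊢
    intro u hu
    have hu' := le_normalizer' P hu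
    have hu'' := hy ⟨u, hu'⟩ (by simpa [Subgroup.mem_subgroupOf] using hu)
    exact congrArg Subtype.val hu''
  refine ⟨?_, ?_⟩
  · intro B hB hdB
    obtain ⟨b, hb, hdb, hind⟩ := exists_isInducedBlock_of_isDefectGroup hM hP hB hdB
    obtain ⟨c, hindc⟩ := Cfsg.Agent.S0919.result p M hM (P.subgroupOf H) _ hP' (le_normalizer' _)
      (centralizer_le_normalizer' _) le_rfl (blockMap φ b) (isPBlock_blockMap φ hb)
    have hc := hindc.2.1
    have hdc := isDefectGroup_of_induced hM hP' (isPBlock_blockMap φ hb) hc hindc (hdefect hdb)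
    refine ⟨c, ⟨hc, hdc, hcore hb hB hc hdb (hdefect hdb) hind hindc⟩, ?_⟩
    rintro c₁ ⟨hc₁, hdc₁, hcongr⟩
    obtain ⟨b₁', hb₁', hdb₁', hind₁⟩ := exists_isInducedBlock_of_isDefectGroup hM hP' hc₁ hdc₁
    have heq : b₁' = blockMap φ b := by
      refine eq_of_congr_centralizer hM _ hpg' hb₁' (isPBlock_blockMap φ hb) fun y hy => ?_
      have hyC := hcent y hy
      have h1 := blockCoeff_sub_of_induced hM hP' hb₁' hc₁ hdb₁' hind₁ (x := y)
        (by
          rw [Subgroup.mem_centralizer_iff] at hyC ⊢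
          intro u hu
          exact Subtype.ext (hyC u hu))
      have h2 := hcongr _ hyC
      rw [hcoeff c₁ (y : H).2] at h2
      have h3 := blockCoeff_sub_of_induced hM hP hb hB hdb hind (x := φ y) hyC
      rw [blockCoeff_blockMap]
      have h4 := memLocalIdeal_sub (memLocalIdeal_sub h3 h2) h1
      convert h4 using 1
      have h5 : ((φ y : Subgroup.normalizer (P : Set G)) : G) = ((y : H) : G) := rfl
      rw [h5]
      have h6 : (⟨((y : H) : G), (y : H).2⟩ : H) = (y : H) := rfl
      rw [h6]
      ring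
    rw [heq] at hind₁
    exact induced_unique hind₁ hindc
  · intro c hc hdc
    obtain ⟨b', hb', hdb', hind'⟩ := exists_isInducedBlock_of_isDefectGroup hM hP' hc hdc
    have hb := isPBlock_blockMap φ.symm hb'
    have hdb := hdefect' hdb'
    have hφb : blockMap φ (blockMap φ.symm b') = b' := blockMap_blockMap_symm φ b'
    obtain ⟨B, hindB⟩ := Cfsg.Agent.S0919.result p M hM P _ hP (le_normalizer' _)
      (centralizer_le_normalizer' _) le_rfl (blockMap φ.symm b') hb
    have hB := hindB.2.1
    have hdB := isDefectGroup_of_induced hM hP hb hB hindB hdb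
    refine ⟨B, ⟨hB, hdB, hcore hb hB hc hdb (by rw [hφb]; exact hdb') hindB (by rw [hφb]; exact hind')⟩, ?_⟩
    rintro B₁ ⟨hB₁, hdB₁, hcongr⟩
    obtain ⟨b₁, hb₁, hdb₁, hind₁⟩ := exists_isInducedBlock_of_isDefectGroup hM hP hB₁ hdB₁
    have heq : b₁ = blockMap φ.symm b' := by
      refine eq_of_congr_centralizer hM _ hpg hb₁ hb fun y hy => ?_
      have hyC := hcentN y hy
      have h1 := blockCoeff_sub_of_induced hM hP hb₁ hB₁ hdb₁ hind₁ (x := y) hyC
      have h2 := hcongr _ hyC
      rw [hcoeff c (hH y.2)] at h2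
      have h3 := blockCoeff_sub_of_induced hM hP' hb' hc hdb' hind' (x := φ.symm y)
        (by
          rw [Subgroup.mem_centralizer_iff] at hyC ⊢
          intro u hu
          exact Subtype.ext (hyC u hu))
      rw [blockCoeff_blockMap]
      have h4 := memLocalIdeal_sub (memLocalIdeal_add h2 h3) h1
      convert h4 using 1
      have h6 : ((φ.symm y : Subgroup.normalizer ((P.subgroupOf H : Subgroup H) : Set H)) : H) = ⟨y, hH y.2⟩ := rfl
      rw [h6]
      ring
    rw [heq] at hind₁
    exact induced_unique hind₁ hindB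

end Cfsg.Agent.S4670
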