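import Cfsg.Statements.S4638
import Mathlib
import Cfsg.Agent.S4637
import Cfsg.Agent.S0973
import Cfsg.Agent.S4670
import Cfsg.Agent.Lib.Blocks.PerfectV4c

set_option autoImplicit false
set_option linter.style.haveILetI false
open Cfsg

namespace Cfsg.Agent.S4638

open Cfsg.Agent.Lib.Blocks.Pairs Cfsg.Agent.Lib.Blocks.AbelianCount Cfsg.Agent.Lib.Blocks.KleinFour
  Cfsg.Agent.Lib.Blocks.CentralQuot Cfsg.Agent.Lib.Blocks.Sections Cfsg.Agent.Lib.Blocks.Regular
  Cfsg.Agent.Lib.Blocks.PerfectV4 Cfsg.Agent.Lib.Blocks.Transport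

/-- Let B be a block of the finite group G relative to a maximal ideal M of the algebraic integers containing 2, with a Klein four defect group P, and let c be its Brauer correspondent: the block of N_G(P) with defect group P that induces B. Then there is a perfect isometry from c onto B. -/
theorem result {G : Type*} [Group G] [Finite G] (M : Ideal Cfsg.AlgInt) (hM : Cfsg.IsPModular 2 M) (B : Set (Cfsg.IrrCharacter G)) (hB : Cfsg.IsPBlock M B) (P : Subgroup G) (hPD : Cfsg.IsDefectGroup 2 M B P) (hV : IsKleinFour P) (c : Set (Cfsg.IrrCharacter (Subgroup.normalizer (P : Set G)))) (hcD : Cfsg.IsDefectGroup 2 M c (P.subgroupOf (Subgroup.normalizer (P : Set G)))) (hc : Cfsg.IsInducedBlock M (Subgroup.normalizer (P : Set G)) c B) : ∃ (I : Cfsg.IrrCharacter (Subgroup.normalizer (P : Set G)) → Cfsg.IrrCharacter G) (ε : Cfsg.IrrCharacter (Subgroup.normalizer (P : Set G)) → ℤ), Cfsg.IsPerfectIsometry 2 M c B I ε := by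
  classical
  cases nonempty_fintype G
  haveI := Cfsg.Agent.Lib.Blocks.Local.isPrime_of_isPModular hM
  have hcB := hc.1
  letI : Fintype (Subgroup.normalizer (P : Set G)) := Fintype.ofFinite _
  have hcardP : Nat.card P = 4 := hV.card_four
  have hPp : IsPGroup 2 P := IsPGroup.of_card (n := 2) (by rw [hcardP]; norm_num)
  have hsq : ∀ x ∈ P, x * x = 1 := fun x hx => congrArg Subtype.val (IsKleinFour.mul_self (⟨x, hx⟩ : P))
  have hab : ∀ x ∈ P, ∀ y ∈ P, x * y = y * x := by
    intro x hx y hy
    have h1 := hsq _ (P.mul_mem hx hy)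
    have h2 := hsq x hx
    have h3 := hsq y hy
    calc x * y = x * y * (x * y) * (y⁻¹ * x⁻¹) := by group
      _ = y⁻¹ * x⁻¹ := by rw [h1, one_mul]
      _ = y * x := by
        rw [inv_eq_of_mul_eq_one_left h2, inv_eq_of_mul_eq_one_left h3]
  have hPN : P ≤ Subgroup.normalizer (P : Set G) := Subgroup.le_normalizer
  have hCN : Subgroup.centralizer (P : Set G) ≤ Subgroup.normalizer (P : Set G) :=
    Cfsg.Agent.Lib.Blocks.FirstMain.centralizer_le_normalizer' P
  -- the same facts in `N`
  have hcardP' : Nat.card (P.subgroupOf (Subgroup.normalizer (P : Set G))) = 4 := by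
    rw [card_subgroupOf_of_le hPN, hcardP]
  have hP'p : IsPGroup 2 (P.subgroupOf (Subgroup.normalizer (P : Set G))) :=
    IsPGroup.of_card (n := 2) (by rw [hcardP']; norm_num)
  have hsq' : ∀ x ∈ P.subgroupOf (Subgroup.normalizer (P : Set G)), x * x = 1 := by
    intro x hx
    exact Subtype.ext (hsq _ (Subgroup.mem_subgroupOf.mp hx))
  have hab' : ∀ x ∈ P.subgroupOf (Subgroup.normalizer (P : Set G)), ∀ y ∈ P.subgroupOf (Subgroup.normalizer (P : Set G)), x * y = y * x := by
    intro x hx y hy
    exact Subtype.ext (hab _ (Subgroup.mem_subgroupOf.mp hx) _ (Subgroup.mem_subgroupOf.mp hy))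
  have hV' : IsKleinFour (P.subgroupOf (Subgroup.normalizer (P : Set G))) :=
    ⟨hcardP', by
      rw [Monoid.exponent_eq_of_mulEquiv (Subgroup.subgroupOfEquivOfLe hPN)]
      exact hV.exponent_two⟩
  -- the block of the centralizer in `N`
  obtain ⟨c₀', hc₀'⟩ : ∃ c₀' : Set (IrrCharacter (Subgroup.centralizer ((P.subgroupOf (Subgroup.normalizer (P : Set G)) : Subgroup _) : Set (Subgroup.normalizer (P : Set G))))),
      IsInducedBlock M (Subgroup.centralizer ((P.subgroupOf (Subgroup.normalizer (P : Set G)) : Subgroup _) : Set (Subgroup.normalizer (P : Set G)))) c₀' c := by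
    obtain ⟨⟨b, -, hbc⟩, -⟩ := Cfsg.Agent.S0973.result 2 M hM c hcB _ hcD
    have hsup : P.subgroupOf (Subgroup.normalizer (P : Set G)) ⊔ Subgroup.centralizer ((P.subgroupOf (Subgroup.normalizer (P : Set G)) : Subgroup _) : Set (Subgroup.normalizer (P : Set G))) =
        Subgroup.centralizer ((P.subgroupOf (Subgroup.normalizer (P : Set G)) : Subgroup _) : Set (Subgroup.normalizer (P : Set G))) := by
      refine sup_eq_right.mpr fun u hu => Subgroup.mem_centralizer_iff.mpr fun v hv => hab' v hv u hu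
    have key : ∀ (K : Subgroup (Subgroup.normalizer (P : Set G))) (_ : K = Subgroup.centralizer ((P.subgroupOf (Subgroup.normalizer (P : Set G)) : Subgroup _) : Set (Subgroup.normalizer (P : Set G))))
        (b : Set (IrrCharacter K)), IsInducedBlock M K b c →
        ∃ c₀' : Set (IrrCharacter (Subgroup.centralizer ((P.subgroupOf (Subgroup.normalizer (P : Set G)) : Subgroup _) : Set (Subgroup.normalizer (P : Set G))))),
        IsInducedBlock M (Subgroup.centralizer ((P.subgroupOf (Subgroup.normalizer (P : Set G)) : Subgroup _) : Set (Subgroup.normalizer (P : Set G)))) c₀' c := by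
      rintro K rfl b hb
      exact ⟨b, hb⟩
    exact key _ hsup b hbc
  -- the block of the centralizer in `G`
  have hc₀ := isInducedBlock_of_stages hCN hPN hc₀' hc
  set c₀ := blockMap (cD hCN le_rfl hPN).symm c₀' with hc₀def
  -- the inertial groups
  set T : Subgroup G := Subgroup.normalizer (P : Set G) ⊓ blockStabilizer (Subgroup.centralizer (P : Set G)) c₀ with hTdef
  have hT : ∀ g : G, g ∈ T ↔ (g ∈ Subgroup.normalizer (P : Set G) ∧ StabilizesBlock (Subgroup.centralizer (P : Set G)) c₀ g) :=
    fun g => Iff.rfl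
  have hTN : T ≤ Subgroup.normalizer (P : Set G) := inf_le_left
  have hT' : ∀ g : Subgroup.normalizer (P : Set G), g ∈ T.subgroupOf (Subgroup.normalizer (P : Set G)) ↔
      (g ∈ Subgroup.normalizer ((P.subgroupOf (Subgroup.normalizer (P : Set G)) : Subgroup _) : Set (Subgroup.normalizer (P : Set G))) ∧
        StabilizesBlock (Subgroup.centralizer ((P.subgroupOf (Subgroup.normalizer (P : Set G)) : Subgroup _) : Set (Subgroup.normalizer (P : Set G)))) c₀' g) := by
    intro g
    have hgN := normalizer_le_normalizer_centralizer P g.2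
    rw [Subgroup.mem_subgroupOf, hT, stabilizesBlock_cD_iff hCN hPN c₀' g hgN,
      Cfsg.Agent.S4670.mem_normalizer_subgroupOf_iff hPN g]
  have hrel : (Subgroup.centralizer ((P.subgroupOf (Subgroup.normalizer (P : Set G)) : Subgroup _) : Set (Subgroup.normalizer (P : Set G)))).relIndex
      (T.subgroupOf (Subgroup.normalizer (P : Set G))) = (Subgroup.centralizer (P : Set G)).relIndex T := by
    have h1 : Subgroup.centralizer ((P.subgroupOf (Subgroup.normalizer (P : Set G)) : Subgroup _) : Set (Subgroup.normalizer (P : Set G))) =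
        (Subgroup.centralizer (P : Set G)).subgroupOf (Subgroup.normalizer (P : Set G)) := by
      ext u
      rw [Subgroup.mem_subgroupOf]
      exact mem_centralizer_subgroupOf_iff hPN u
    rw [h1, Subgroup.subgroupOf, Subgroup.relIndex_comap, Subgroup.map_subgroupOf_eq_of_le hTN]
  obtain ⟨he, hcardB, hrankB⟩ := Cfsg.Agent.S4637.result M hM B hB P hPD hV c₀ hc₀ T hT _ rfl
  obtain ⟨-, hcardc, hrankc⟩ := Cfsg.Agent.S4637.result M hM c hcB _ hcD hV' c₀' hc₀' _ hT' _ rfl
  rw [hrel] at hrankc
  -- the maximal pairs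
  have hmaxG := isMaximal_of_isDefectGroup hM (isBrauerPairOf_of_induced hPp hc₀) hPD
  have hmaxN := isMaximal_of_isDefectGroup hM (isBrauerPairOf_of_induced hP'p hc₀') hcD
  have hdefect : ∀ {X : Type _} [Group X] [Finite X] {A : Set (IrrCharacter X)} {D : Subgroup X}, IsPBlock M A →
      IsDefectGroup 2 M A D → Nat.card D = 4 → ∀ χ ∈ A, blockHeight 2 A (χ : X → ℂ) = 0 := by
    intro X _ _ A D hA hD hcardD χ hχ
    have hd : blockDefect 2 A = 2 := by
      have h1 := Cfsg.Agent.S0908.result 2 M hM A hA D hD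
      rw [hcardD] at h1
      have h2 : (2 : ℕ) ^ 2 = 2 ^ blockDefect 2 A := h1
      exact (Nat.pow_right_injective le_rfl h2).symm
    have h1 := ((Cfsg.Agent.S4710.result 2 M hM A hA 2 hd).2 χ hχ).2 le_rfl
    omega
  have hhG := hdefect hB hPD hcardP
  have hhN := hdefect hcB hcD hcardP'
  have hdecG : HasDec M B := fun x hx => exists_decomposition hM hB hmaxG hab hcardP hsq hhG hx
  have hdecN : HasDec M c := fun x hx => exists_decomposition hM hcB hmaxN hab' hcardP' hsq' hhN hx
  -- the bijection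
  have hne : Nonempty (IrrCharacter G) := by
    obtain ⟨χ₁, -⟩ := id hB
    exact ⟨χ₁⟩
  obtain ⟨I, hI⟩ := exists_bijOn (c := c) (B := B) (by rw [hcardc, hcardB])
  rcases he with h1 | h3
  · -- rank one
    obtain ⟨φ, hφ⟩ := eq_of_rank_one hM hB hPD hcardP hcardB (by rw [hrankB, h1])
    obtain ⟨φ', hφ'⟩ := eq_of_rank_one hM hcB hcD hcardP' hcardc (by rw [hrankc, h1])
    exact ⟨I, fun _ => 1, hI, fun _ _ => Or.inl rfl,
      isPerfectFun_of_rank_one hM hI hB hcB hcardc hφ hφ' hdecG hdecN⟩
  · -- rank three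
    obtain ⟨a, ha⟩ := exists_isColumn hM hB hmaxG hab hcardP hsq hhG
    obtain ⟨a', ha'⟩ := exists_isColumn hM hcB hmaxN hab' hcardP' hsq' hhN
    refine ⟨I, fun η => a' η * a (I η), hI, ?_, isPerfectFun_of_rank_three hM hI hcardc ha ha'
      (fun w hw => column_unique hcardB (by rw [hrankB, h3]) hw ha)
      (fun w hw => column_unique hcardc (by rw [hrankc, h3]) hw ha') hdecG hdecN⟩
    intro η hη
    show a' η * a (I η) = 1 ∨ a' η * a (I η) = -1
    rcases ha.1 _ (hI.mapsTo hη) with h | h <;> rcases ha'.1 _ hη with h' | h' <;> rw [h, h'] <;> norm_num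

end Cfsg.Agent.S4638
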