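import Cfsg.Statements.S4640
import Mathlib
import Cfsg.Agent.Lib.Blocks.FongCover
import Cfsg.Agent.Lib.Blocks.HeightZero
import Cfsg.Agent.Lib.Char.GoingDown
import Cfsg.Agent.Lib.Char.IndRep

set_option autoImplicit false
set_option linter.style.haveILetI false
open Cfsg

namespace Cfsg.Agent.S4640

open Cfsg.Agent.Lib.Blocks.Local Cfsg.Agent.Lib.Blocks.Central Cfsg.Agent.Lib.Blocks.Osima
  Cfsg.Agent.Lib.Blocks.Covering Cfsg.Agent.Lib.Blocks.HeightZero Cfsg.Agent.Lib.Char.Induced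
  Cfsg.Agent.Lib.Char.Ortho Cfsg.Agent.Lib.Char.Basic
open scoped ComplexConjugate

variable {G : Type*} [Group G] [Fintype G] {p : ℕ} [hp : Fact p.Prime] {M : Ideal AlgInt}

/-- The linear algebra of the rank comparison. -/
lemma blockRank_eq_of_restriction (N : Subgroup G) [N.Normal]
    (hNi : ∃ k : ℕ, N.index = p ^ k) (B : Set (IrrCharacter G)) (b : Set (IrrCharacter N))
    (h1 : ∀ χ ∈ B, ∃ θ ∈ b, ∀ n : N, (χ : G → ℂ) n = (θ : N → ℂ) n)
    (h2 : ∀ θ ∈ b, ∃ χ ∈ B, ∀ n : N, (χ : G → ℂ) n = (θ : N → ℂ) n) :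
    blockRank p B = blockRank p b := by
  classical
  -- extension by zero
  let ext : (N → ℂ) →ₗ[ℂ] (G → ℂ) :=
    { toFun := fun f g => if h : g ∈ N then f ⟨g, h⟩ else 0
      map_add' := by
        intro f f'
        funext g
        by_cases h : g ∈ N <;> simp [h]
      map_smul' := by
        intro c f
        funext g
        by_cases h : g ∈ N <;> simp [h] }
  have hext : Function.Injective ext := by
    intro f f' h
    funext n
    have := congrFun h n
    simpa [ext] using this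
  have hreg : ∀ χ : IrrCharacter G, ∀ θ : IrrCharacter N, (∀ n : N, (χ : G → ℂ) n = (θ : N → ℂ) n) →
      pRegularPart p (χ : G → ℂ) = ext (pRegularPart p (θ : N → ℂ)) := by
    intro χ θ hχθ
    funext g
    by_cases hg : g ∈ N
    · have hord : orderOf (⟨g, hg⟩ : N) = orderOf g := Subgroup.orderOf_mk g hg
      have h3 : ext (pRegularPart p (θ : N → ℂ)) g = pRegularPart p (θ : N → ℂ) ⟨g, hg⟩ := by
        simp [ext, hg]
      rw [h3]
      by_cases hd : p ∣ orderOf g
      · simp [pRegularPart, IsPRegular, hord, hd]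
      · simp [pRegularPart, IsPRegular, hord, hd, hχθ ⟨g, hg⟩]
    · have h3 : ext (pRegularPart p (θ : N → ℂ)) g = 0 := by
        simp [ext, hg]
      rw [h3]
      simp [pRegularPart, IsPRegular, dvd_orderOf_of_notMem hNi hg]
  have himg : (fun χ : IrrCharacter G => pRegularPart p (χ : G → ℂ)) '' B =
      ext '' ((fun θ : IrrCharacter N => pRegularPart p (θ : N → ℂ)) '' b) := by
    ext f
    constructor
    · rintro ⟨χ, hχ, rfl⟩
      obtain ⟨θ, hθ, hχθ⟩ := h1 χ hχ
      exact ⟨_, ⟨θ, hθ, rfl⟩, (hreg χ θ hχθ).symm⟩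
    · rintro ⟨_, ⟨θ, hθ, rfl⟩, rfl⟩
      obtain ⟨χ, hχ, hχθ⟩ := h2 θ hθ
      exact ⟨χ, hχ, hreg χ θ hχθ⟩
  unfold blockRank
  rw [himg, ← Submodule.map_span]
  exact (Submodule.equivMapOfInjective ext hext _).finrank_eq.symm

/-- Let N be a normal subgroup of the finite group G of index a power of the prime p, M a maximal ideal of the algebraic integers containing p, b a block of N stabilized by every element of G, and B a block of G covering b (some member of B has a member of b as a constituent of its restriction to N). Suppose that B has a commutative defect group P. Then G = NP and P ∩ N is a defect group of b; every member of B restricts to a member of b; every member of b is the restriction of exactly [G : N] members of B; B contains exactly [G : N] times as many irreducible characters as b; and B and b have the same p-regular rank. -/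
theorem result {G : Type*} [Group G] [Fintype G] (p : ℕ) [Fact p.Prime] (M : Ideal Cfsg.AlgInt) (hM : Cfsg.IsPModular p M) (N : Subgroup G) [N.Normal] [Fintype N] (hNi : ∃ k : ℕ, N.index = p ^ k) (b : Set (Cfsg.IrrCharacter N)) (hb : Cfsg.IsPBlock M b) (hstab : ∀ g : G, Cfsg.StabilizesBlock N b g) (B : Set (Cfsg.IrrCharacter G)) (hB : Cfsg.IsPBlock M B) (hcov : ∃ χ ∈ B, ∃ θ ∈ b, Cfsg.classInner (fun n : N => (χ : G → ℂ) n) (θ : N → ℂ) ≠ 0) (P : Subgroup G) (hPD : Cfsg.IsDefectGroup p M B P) (hPab : ∀ x ∈ P, ∀ y ∈ P, x * y = y * x) : N ⊔ P = ⊤ ∧ Cfsg.IsDefectGroup p M b ((P ⊓ N).subgroupOf N) ∧ (∀ χ ∈ B, ∃ θ ∈ b, ∀ n : N, (χ : G → ℂ) n = (θ : N → ℂ) n) ∧ (∀ θ ∈ b, Nat.card {χ : Cfsg.IrrCharacter G // χ ∈ B ∧ ∀ n : N, (χ : G → ℂ) n = (θ : N → ℂ) n} = N.index) ∧ Nat.card B = N.index * Nat.card b ∧ Cfsg.blockRank p B = Cfsg.blockRank p b := by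
  classical
  have hpp : p.Prime := Fact.out
  haveI hMp := isPrime_of_isPModular hM
  -- stability
  have hstable : IsConjStable (G := G) b := by
    intro g θ hθ
    obtain ⟨-, h⟩ := hstab g⁻¹
    obtain ⟨χ', hχ', hc⟩ := h θ hθ
    have : conjIrr g θ = χ' := by
      apply Subtype.ext
      funext n
      rw [conjIrr_apply]
      symm
      apply hc
      simp
      group
    rw [this]
    exact hχ'
  obtain ⟨χ₁, hχ₁, θ₁, hθ₁, hc₁⟩ := hcov
  have hsameb : ∀ θ ∈ b, ∀ θ' ∈ b, SameBlock M (θ : N → ℂ) (θ' : N → ℂ) := by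
    intro θ hθ θ' hθ'
    obtain ⟨ξ, rfl⟩ := hb
    exact sameBlock_trans (sameBlock_symm hθ) hθ'
  have hsameB : ∀ χ ∈ B, ∀ χ' ∈ B, SameBlock M (χ : G → ℂ) (χ' : G → ℂ) := by
    intro χ hχ χ' hχ'
    obtain ⟨ξ, rfl⟩ := hB
    exact sameBlock_trans (sameBlock_symm hχ) hχ'
  have hU : ∀ χ : IrrCharacter G, χ ∈ B ↔ ∃ θ ∈ b, classInner (fun n : N => (χ : G → ℂ) n) (θ : N → ℂ) ≠ 0 := by
    intro χ
    constructor
    · intro hχ
      obtain ⟨ψ₀, hψ₀⟩ := exists_constituent (N := N) χ.2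
      exact ⟨ψ₀, mem_of_sameBlock_of_constituent hstable (blockElt_mem_localCenter hb).2 χ₁.2 χ.2
        (hsameB χ₁ hχ₁ χ hχ) hc₁ hθ₁ hψ₀, hψ₀⟩
    · rintro ⟨θ, hθ, hc⟩
      have h1 : SameBlock M (χ₁ : G → ℂ) (χ : G → ℂ) :=
        sameBlock_of_constituents hM hNi hc₁ hc (hsameb θ₁ hθ₁ θ hθ)
      obtain ⟨ξ, rfl⟩ := id hB
      exact sameBlock_trans hχ₁ h1
  -- Fong's theorem
  have hmax : ∀ B' : Set (IrrCharacter G), IsPBlock M B' →
      (∃ χ ∈ B', ∃ θ ∈ b, classInner (fun n : N => (χ : G → ℂ) n) (θ : N → ℂ) ≠ 0) →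
      blockDefect p B' ≤ blockDefect p B := by
    rintro B' hB' ⟨χ, hχ, θ, hθ, hc⟩
    have hχB : χ ∈ B := (hU χ).2 ⟨θ, hθ, hc⟩
    have hBB : B' = B := by
      obtain ⟨ξ₁, rfl⟩ := hB'
      obtain ⟨ξ₂, rfl⟩ := hB
      rw [← blockOf_eq_of_mem hχ, ← blockOf_eq_of_mem hχB]
    rw [hBB]
  obtain ⟨hindex, hdef, -⟩ := Cfsg.Agent.Lib.Blocks.FongCover.fong hM hb hstable hB
    ⟨χ₁, hχ₁, θ₁, hθ₁, hc₁⟩ hmax P hPD
  have hsup : P ⊔ N = ⊤ := by
    obtain ⟨k, hk⟩ := hNi
    have h1 : N.relIndex (P ⊔ N) * (P ⊔ N).index = N.index := Subgroup.relIndex_mul_index le_sup_right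
    have h2 : (P ⊔ N).index ∣ p ^ k := by
      rw [← hk, ← h1]
      exact dvd_mul_left _ _
    obtain ⟨j, -, hj⟩ := (Nat.dvd_prime_pow hpp).1 h2
    have hj0 : j = 0 := by
      by_contra hne
      apply hindex
      rw [hj]
      exact dvd_pow_self p hne
    rw [hj0, pow_zero] at hj
    exact Subgroup.index_eq_one.1 hj
  have hsup' : N ⊔ P = ⊤ := by rw [sup_comm]; exact hsup
  have hdecomp : ∀ t : G, ∃ u ∈ P, ∃ n ∈ N, u * n = t := by
    intro t
    have h1 : t ∈ ((P ⊔ N : Subgroup G) : Set G) := by rw [hsup]; trivial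
    rw [Subgroup.mul_normal] at h1
    obtain ⟨u, hu, n, hn, rfl⟩ := h1
    exact ⟨u, hu, n, hn, rfl⟩
  have hab : ∀ x y : G, x * y * x⁻¹ * y⁻¹ ∈ N := by
    intro x y
    obtain ⟨u, hu, n, hn, rfl⟩ := hdecomp x
    obtain ⟨v, hv, m, hm, rfl⟩ := hdecomp y
    rw [← QuotientGroup.eq_one_iff]
    have hn1 : ((n : G) : G ⧸ N) = 1 := (QuotientGroup.eq_one_iff n).2 hn
    have hm1 : ((m : G) : G ⧸ N) = 1 := (QuotientGroup.eq_one_iff m).2 hm
    have huv : ((u : G) : G ⧸ N) * (v : G) = (v : G) * (u : G) := by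
      rw [← QuotientGroup.mk_mul, ← QuotientGroup.mk_mul, hPab u hu v hv]
    simp only [QuotientGroup.mk_mul, QuotientGroup.mk_inv, hn1, hm1, mul_one]
    rw [huv]
    simp
  -- the non-vanishing
  obtain ⟨g₀, hg₀, S, hS⟩ := id hPD
  have hg₀N : g₀ ∈ N := by
    by_contra hnot
    exact isPRegular_of_isDefectClass hM hB hg₀ (dvd_orderOf_of_notMem hNi hnot)
  have hnv : ∀ χ ∈ B, ∀ t : G, ∃ n ∈ N, (χ : G → ℂ) (t * n) ≠ 0 := by
    intro χ hχ t
    obtain ⟨u, hu, n, hn, rfl⟩ := hdecomp t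
    have hu' := hu
    rw [hS] at hu'
    obtain ⟨x, hx, rfl⟩ := hu'
    refine ⟨n⁻¹ * g₀, N.mul_mem (N.inv_mem hn) hg₀N, ?_⟩
    have h1 : (x : G) * n * (n⁻¹ * g₀) = (x : G) * g₀ := by group
    have hx' : ((Subgroup.centralizer ({g₀} : Set G)).subtype x) = (x : G) := rfl
    rw [hx', h1]
    intro h0
    apply not_memLocalIdeal_centralChar_of_defect_class hM hB hg₀ S hx (fun w hw => ?_) hχ
    · simp only [centralChar, h0, mul_zero, zero_div]
      exact memLocalIdeal_zero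
    · apply Subtype.ext
      have hw' : (w : G) ∈ P := by
        rw [hS]
        exact ⟨w, hw, rfl⟩
      exact hPab _ hu _ hw'
  have hirr : ∀ χ ∈ B, IsIrrCharacter N (fun n : N => (χ : G → ℂ) n) := by
    intro χ hχ
    apply Cfsg.Agent.Lib.Char.GoingDown.isIrr_res_of_generates N hab χ.2
    intro ξ hξN hξm hξ x
    obtain ⟨n, hn, hne⟩ := hnv χ hχ x
    have h1 := hξ _ hne
    rw [hξm, hξN ⟨n, hn⟩, mul_one] at h1
    exact h1
  have hres : ∀ χ ∈ B, ∃ θ ∈ b, ∀ n : N, (χ : G → ℂ) n = (θ : N → ℂ) n := by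
    intro χ hχ
    obtain ⟨θ, hθ, hc⟩ := (hU χ).1 hχ
    refine ⟨θ, hθ, fun n => ?_⟩
    by_contra hne
    apply hc
    apply classInner_irr_of_ne (hirr χ hχ) θ.2
    intro h
    exact hne (congrFun h n)
  -- the count
  have hcount : ∀ θ ∈ b, Nat.card {χ : IrrCharacter G // χ ∈ B ∧ ∀ n : N, (χ : G → ℂ) n = (θ : N → ℂ) n} = N.index := by
    intro θ hθ
    have hiff : ∀ χ : IrrCharacter G, (χ ∈ B ∧ ∀ n : N, (χ : G → ℂ) n = (θ : N → ℂ) n) ↔
        classInner (fun n : N => (χ : G → ℂ) n) (θ : N → ℂ) ≠ 0 := by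
      intro χ
      constructor
      · rintro ⟨-, h⟩
        have : (fun n : N => (χ : G → ℂ) n) = (θ : N → ℂ) := funext h
        rw [this, classInner_irr_self θ.2]
        exact one_ne_zero
      · intro hc
        have hχ : χ ∈ B := (hU χ).2 ⟨θ, hθ, hc⟩
        refine ⟨hχ, fun n => ?_⟩
        by_contra hne
        apply hc
        apply classInner_irr_of_ne (hirr χ hχ) θ.2
        intro h
        exact hne (congrFun h n)
    set Ξ := Finset.univ.filter (fun χ : IrrCharacter G => classInner (fun n : N => (χ : G → ℂ) n) (θ : N → ℂ) ≠ 0) with hΞ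
    have hcard : Nat.card {χ : IrrCharacter G // χ ∈ B ∧ ∀ n : N, (χ : G → ℂ) n = (θ : N → ℂ) n} = Ξ.card := by
      rw [Nat.card_eq_fintype_card]
      apply Fintype.card_of_subtype
      intro χ
      rw [hΞ, Finset.mem_filter]
      simp only [Finset.mem_univ, true_and]
      exact (hiff χ).symm
    rw [hcard]
    have hθc := isCharacter_of_isIrrCharacter θ.2
    have hind := Cfsg.Agent.Lib.Char.IndRep.isCharacter_indFun N hθc
    have hdec := decomp_eq_sum_classInner hind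
    have h1 := congrFun hdec 1
    rw [indFun_one, Finset.sum_apply] at h1
    have h2 : ∀ χ : IrrCharacter G, (classInner (indFun N (θ : N → ℂ)) (χ : G → ℂ) • (χ : G → ℂ)) 1 =
        if χ ∈ Ξ then (θ : N → ℂ) 1 else 0 := by
      intro χ
      rw [frobenius_reciprocity N _ _ (isClassFunction_of_irr χ.2)]
      by_cases hχ : χ ∈ Ξ
      · rw [if_pos hχ]
        have h3 := (hiff χ).2 ((Finset.mem_filter.1 hχ).2)
        have h4 : (fun n : N => (χ : G → ℂ) n) = (θ : N → ℂ) := funext h3.2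
        rw [h4, classInner_irr_self θ.2, Pi.smul_apply, one_smul]
        have := h3.2 1
        simpa using this
      · rw [if_neg hχ]
        have h3 : classInner (fun n : N => (χ : G → ℂ) n) (θ : N → ℂ) = 0 := by
          by_contra hne
          exact hχ (Finset.mem_filter.2 ⟨Finset.mem_univ _, hne⟩)
        rw [← classInner_conj_symm, h3, map_zero, zero_smul]
        rfl
    rw [Finset.sum_congr rfl (fun χ _ => h2 χ), Finset.sum_ite_mem] at h1
    simp only [Finset.univ_inter, Finset.sum_const, nsmul_eq_mul] at h1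
    have hθ1 := irr_apply_one_ne_zero θ.2
    have h5 : (N.index : ℂ) = (Ξ.card : ℂ) := mul_right_cancel₀ hθ1 h1
    exact_mod_cast h5.symm
  -- fibers
  choose f hfb hf using fun χ : B => hres χ.1 χ.2
  let f' : B → b := fun χ => ⟨f χ, hfb χ⟩
  have hfib : ∀ θ : b, Nat.card {x : B // f' x = θ} = N.index := by
    intro θ
    rw [← hcount θ θ.2]
    refine Nat.card_congr
      { toFun := fun x => ⟨x.1.1, x.1.2, fun n => ?_⟩
        invFun := fun y => ⟨⟨y.1, y.2.1⟩, ?_⟩
        left_inv := fun x => rfl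
        right_inv := fun y => rfl }
    · rw [hf x.1]
      have h3 : f x.1 = (θ : IrrCharacter N) := congrArg Subtype.val x.2
      rw [h3]
    · apply Subtype.ext
      apply Subtype.ext
      funext n
      rw [show ((f' ⟨y.1, y.2.1⟩ : b) : IrrCharacter N) = f ⟨y.1, y.2.1⟩ from rfl, ← hf ⟨y.1, y.2.1⟩ n]
      exact y.2.2 n
  have hB₁ : Nat.card B = ∑ θ : b, Nat.card {x : B // f' x = θ} := by
    rw [← Nat.card_sigma]
    exact Nat.card_congr (Equiv.sigmaFiberEquiv f').symm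
  refine ⟨hsup', hdef, hres, hcount, ?_, ?_⟩
  · rw [hB₁, Finset.sum_congr rfl (fun θ _ => hfib θ), Finset.sum_const, smul_eq_mul, Finset.card_univ,
      Nat.card_eq_fintype_card (α := b), mul_comm]
  · apply blockRank_eq_of_restriction N hNi B b hres
    intro θ hθ
    obtain ⟨χ, hχ⟩ := exists_irr_of_constituent (N := N) θ.2
    have hχB : χ ∈ B := (hU χ).2 ⟨θ, hθ, hχ⟩
    refine ⟨χ, hχB, fun n => ?_⟩
    by_contra hne
    apply hχ
    apply classInner_irr_of_ne (hirr χ hχB) θ.2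
    intro h
    exact hne (congrFun h n)

end Cfsg.Agent.S4640
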