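import Cfsg.Statements.S4642
import Cfsg.Agent.Lib.Blocks.FongLocal

set_option autoImplicit false
open Cfsg

namespace Cfsg.Agent.S4642

/-- Let G be a finite group, p a prime, M a maximal ideal of the algebraic integers containing p, K the largest normal subgroup of G of order prime to p, and L the preimage in G of the largest normal p-subgroup of G/K. Let Q be a Sylow p-subgroup of L and suppose C_G(Q) ≤ L. Let θ be an irreducible character of K invariant under conjugation by every element of G, and let B be the set of irreducible characters of G whose restriction to K contains θ. Then B is a block of G, every Sylow p-subgroup of G is a defect group of B, and B is of principal type: for every p-subgroup R of G exactly one block of C_G(R) induces B. -/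
theorem result {G : Type*} [Group G] [Fintype G] (p : ℕ) [Fact p.Prime] (M : Ideal Cfsg.AlgInt) (hM : Cfsg.IsPModular p M) (K : Subgroup G) (hK : K = Cfsg.pPrimeCore p G) [Fintype K] (L : Subgroup G) (hL : L = Cfsg.pPrimePCore p G) (Q : Subgroup G) (hQL : Q ≤ L) (hQp : IsPGroup p Q) (hQS : ¬ p ∣ Q.relIndex L) (hCQ : Subgroup.centralizer (Q : Set G) ≤ L) (θ : Cfsg.IrrCharacter K) (hθ : ∀ g : G, Cfsg.IsConjCharOf K g (θ : K → ℂ) (θ : K → ℂ)) (B : Set (Cfsg.IrrCharacter G)) (hBdef : ∀ χ : Cfsg.IrrCharacter G, χ ∈ B ↔ Cfsg.classInner (fun k : K => (χ : G → ℂ) k) (θ : K → ℂ) ≠ 0) : Cfsg.IsPBlock M B ∧ (∀ S : Sylow p G, Cfsg.IsDefectGroup p M B S) ∧ ∀ R : Subgroup G, IsPGroup p R → ∃! f : Set (Cfsg.IrrCharacter (Subgroup.centralizer (R : Set G))), Cfsg.IsInducedBlock M (Subgroup.centralizer (R : Set G)) f B := by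
  classical
  subst hK hL
  have hKp : ¬ p ∣ Nat.card (Cfsg.pPrimeCore p G) := fun h =>
    (Nat.Prime.coprime_iff_not_dvd (Fact.out : p.Prime)).1
      (Cfsg.Agent.Lib.Solvable.PSeries.pPrimeCore_coprime (G := G) p).symm h
  have hL : ∃ k : ℕ, (Cfsg.pPrimeCore p G).relIndex (Cfsg.pPrimePCore p G) = p ^ k :=
    Cfsg.Agent.Lib.Solvable.PSeries.relIndex_stepP (Cfsg.pPrimeCore p G)
  have hKL : Cfsg.pPrimeCore p G ≤ Cfsg.pPrimePCore p G :=
    Cfsg.Agent.Lib.Solvable.PSeries.le_stepP p (Cfsg.pPrimeCore p G)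
  haveI hLn : (Cfsg.pPrimePCore p G).Normal :=
    Cfsg.Agent.Lib.Solvable.PSeries.stepP_normal p (Cfsg.pPrimeCore p G)
  have hinv : ∀ g : G, Cfsg.Agent.Lib.Blocks.Covering.conjIrr g θ = θ := by
    intro g
    apply Subtype.ext
    funext k
    rw [Cfsg.Agent.Lib.Blocks.Covering.conjIrr_apply]
    exact hθ g k _ rfl
  obtain ⟨B', hB', hB'def, hS⟩ := Cfsg.Agent.Lib.Blocks.Fong.fong_main hM hKp hKL hL hQL hQp hQS hCQ hinv
  have hBB : B = B' := by
    ext χ
    rw [hBdef, hB'def]
  subst hBB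
  exact ⟨hB', hS, fun R hR => Cfsg.Agent.Lib.Blocks.FongLocal.existsUnique_isInducedBlock hM hKp hKL hL hQL hQp
    hQS hCQ hinv hB' hBdef hR⟩

end Cfsg.Agent.S4642
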