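import Cfsg.Statements.S4644
import Mathlib
import Cfsg.Agent.Lib.Blocks.AbWat6

set_option autoImplicit false
open Cfsg

namespace Cfsg.Agent.S4644

open Cfsg.Agent.Lib.Blocks.AbWat Cfsg.Agent.Lib.Blocks.Pairs Cfsg.Agent.Lib.Blocks.Transport
open Cfsg.Agent.Lib.Blocks.AbelianCount Cfsg.Agent.Lib.Blocks.Central Cfsg.Agent.Lib.Blocks.Local

universe u

lemma inducedCentralCharIn_top {G : Type u} [Group G] (K : Subgroup G) (ξ : K → ℂ) (g : G) :
    Cfsg.inducedCentralCharIn ⊤ K ξ g = Cfsg.inducedCentralChar K ξ g := by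
  unfold Cfsg.inducedCentralCharIn Cfsg.inducedCentralChar
  have h : {k : K | ∃ x : (⊤ : Subgroup G), (x : G) * (k : G) * (x : G)⁻¹ = g} = {k : K | IsConj g (k : G)} := by
    ext k
    show (∃ x : (⊤ : Subgroup G), (x : G) * (k : G) * (x : G)⁻¹ = g) ↔ IsConj g (k : G)
    rw [isConj_iff]
    constructor
    · rintro ⟨x, hx⟩
      refine ⟨(x : G)⁻¹, ?_⟩
      rw [← hx]
      group
    · rintro ⟨c, hc⟩
      refine ⟨⟨c⁻¹, Subgroup.mem_top _⟩, ?_⟩
      rw [← hc]
      simp only
      group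
  rw [h]

/-- The block `B`, read in `⊤`. -/
lemma isInducedBlockIn_top {G : Type u} [Group G] {M : Ideal Cfsg.AlgInt} {K : Subgroup G} {c : Set (Cfsg.IrrCharacter K)}
    {B : Set (Cfsg.IrrCharacter G)} (h : Cfsg.IsInducedBlock M K c B) :
    Cfsg.IsInducedBlockIn M ⊤ K c (blockMap (Subgroup.topEquiv (G := G)) B) := by
  refine ⟨h.1, isPBlock_blockMap _ h.2.1, fun ξ hξ χ hχ g => ?_⟩
  rw [mem_blockMap_iff] at hχ
  have h1 := h.2.2 ξ hξ _ hχ (g : G)
  rw [inducedCentralCharIn_top]
  have h2 := centralChar_comap (Subgroup.topEquiv (G := G)) ((irrComap (Subgroup.topEquiv (G := G)).symm χ : Cfsg.IrrCharacter G) : G → ℂ) g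
  have h3 : (fun a : (⊤ : Subgroup G) => ((irrComap (Subgroup.topEquiv (G := G)).symm χ : Cfsg.IrrCharacter G) : G → ℂ) (Subgroup.topEquiv a)) = (χ : (⊤ : Subgroup G) → ℂ) := by
    funext a
    show (χ : (⊤ : Subgroup G) → ℂ) ((Subgroup.topEquiv (G := G)).symm (Subgroup.topEquiv a)) = _
    rw [MulEquiv.symm_apply_apply]
  rw [h3] at h2
  rw [h2]
  exact h1

lemma card_blockMap {A C : Type*} [Group A] [Group C] (φ : A ≃* C) (b : Set (Cfsg.IrrCharacter C)) :
    Nat.card (blockMap φ b) = Nat.card b :=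
  Nat.card_image_of_injective (irrComap_injective φ) b

/-- Let B be a block of the finite group G relative to a maximal ideal M of the algebraic integers containing the prime p, with a commutative defect group P; let c be a block of C_G(P) inducing B and T the stabilizer of c in N_G(P). Let u be an element of P fixed under conjugation by every element of T, H = C_G(u) (so C_G(P) ≤ H), and f the block of H induced by c inside H. Then B and f have the same p-regular rank and the same number of irreducible characters. -/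
theorem result {G : Type*} [Group G] [Finite G] (p : ℕ) [Fact p.Prime] (M : Ideal Cfsg.AlgInt) (hM : Cfsg.IsPModular p M) (B : Set (Cfsg.IrrCharacter G)) (hB : Cfsg.IsPBlock M B) (P : Subgroup G) (hPD : Cfsg.IsDefectGroup p M B P) (hPab : ∀ x ∈ P, ∀ y ∈ P, x * y = y * x) (c : Set (Cfsg.IrrCharacter (Subgroup.centralizer (P : Set G)))) (hc : Cfsg.IsInducedBlock M (Subgroup.centralizer (P : Set G)) c B) (T : Subgroup G) (hT : ∀ g : G, g ∈ T ↔ (g ∈ Subgroup.normalizer (P : Set G) ∧ Cfsg.StabilizesBlock (Subgroup.centralizer (P : Set G)) c g)) (u : G) (hu : u ∈ P) (huT : ∀ g ∈ T, g * u * g⁻¹ = u) (H : Subgroup G) (hH : H = Subgroup.centralizer ({u} : Set G)) (f : Set (Cfsg.IrrCharacter H)) (hf : Cfsg.IsInducedBlockIn M H (Subgroup.centralizer (P : Set G)) c f) : Cfsg.blockRank p B = Cfsg.blockRank p f ∧ Nat.card B = Nat.card f := by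
  classical
  cases nonempty_fintype G
  haveI : M.IsPrime := hM.2.1.isPrime
  have hPp : IsPGroup p P := IsPGroup.of_card (Cfsg.Agent.S0908.result p M hM B hB P hPD)
  have hmax := isMaximal_of_isDefectGroup hM (isBrauerPairOf_of_induced hPp hc) hPD
  have hTop : (⊤ : Subgroup G) = Subgroup.centralizer ((⊥ : Subgroup G) : Set G) := by
    ext g
    simp [Subgroup.mem_centralizer_iff]
  have h1 := rank_inf_eq hM hmax hPab hT hu _ ⊥ ⊤ rfl hTop bot_le (fun t ht _ => huT t ht)
  have h2 := card_inf_eq hM hmax hPab hT hu hTop bot_le (fun t ht _ => huT t ht)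
  have hinf : (⊤ : Subgroup G) ⊓ Cfsg.Agent.Lib.Blocks.Nilp.Kz u = H := by
    rw [top_inf_eq, hH]
    exact cz_eq_cen u
  rw [hinf, blkAb_eq hf] at h1 h2
  have htop := isInducedBlockIn_top hc
  rw [blkAb_eq htop, blockRank_blockMap] at h1
  rw [blkAb_eq htop, card_blockMap] at h2
  exact ⟨h1.symm, h2.symm⟩

end Cfsg.Agent.S4644
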