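import Cfsg.Statements.S4646
import Mathlib
import Cfsg.Agent.Lib.Blocks.PrincipalNil

set_option autoImplicit false
open Cfsg

namespace Cfsg.Agent.S4646


/-- For a finite group G, a prime p and a maximal ideal M of the algebraic integers containing p: the principal block of G is nilpotent if and only if its p-regular rank is 1 (the trivial Brauer character is its only irreducible Brauer character). -/
theorem result {G : Type*} [Group G] [Finite G] (p : ℕ) [Fact p.Prime] (M : Ideal Cfsg.AlgInt) (hM : Cfsg.IsPModular p M) : Cfsg.IsNilpotentBlock p M (Cfsg.principalBlock M G) ↔ Cfsg.blockRank p (Cfsg.principalBlock M G) = 1 := by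
  haveI := Cfsg.Agent.Lib.Blocks.Local.isPrime_of_isPModular hM
  cases nonempty_fintype G
  rw [← Cfsg.Agent.Lib.Blocks.PrincipalNil.hasNormalPComplement_iff_isNilpotentBlock hM,
    Cfsg.Agent.Lib.Blocks.PrincipalNil.hasNormalPComplement_iff_blockRank hM]

end Cfsg.Agent.S4646
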