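import Cfsg.Statements.S4653
import Mathlib
import Cfsg.Agent.Lib.Blocks.CentSupport

set_option autoImplicit false
open Cfsg

namespace Cfsg.Agent.S4653

/-- Fix a prime p and a maximal ideal M of the algebraic integers containing p. Let P be a normal p-subgroup of the finite group G and B a p-block of G. Then the idempotent of B is supported on C_G(P): its coefficient at every element of G outside C_G(P) is zero. -/
theorem result {G : Type*} [Group G] [Fintype G] (p : ℕ) [Fact p.Prime] (M : Ideal Cfsg.AlgInt) (hM : Cfsg.IsPModular p M) (P : Subgroup G) [P.Normal] (hP : IsPGroup p P) (B : Set (Cfsg.IrrCharacter G)) (hB : Cfsg.IsPBlock M B) (g : G) (hg : g ∉ Subgroup.centralizer (P : Set G)) : Cfsg.blockCoeff B g = 0 := by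
  classical
  have hMp := Cfsg.Agent.Lib.Blocks.Local.isPrime_of_isPModular hM
  haveI : Fintype (Subgroup.centralizer (P : Set G)) := Fintype.ofFinite _
  exact Cfsg.Agent.Lib.Blocks.CentSupport.blockCoeff_eq_zero_of_notMem hM P hP _ le_rfl hB hg

end Cfsg.Agent.S4653
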