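import Cfsg.Statements.S4664
import Mathlib
import Cfsg.Agent.S0907
import Cfsg.Agent.Lib.Blocks.Osima
import Cfsg.Agent.Lib.Char.Values

set_option autoImplicit false
open Cfsg

namespace Cfsg.Agent.S4664

open scoped ComplexConjugate

/-- Fix a prime p and a maximal ideal M of the algebraic integers containing p, and let B be a p-block of the finite group G. Let m be the p'-part of the order of G and η = exp(2πi/m). Then every coefficient of the idempotent of B lies in the cyclotomic field ℚ(η). -/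
theorem result {G : Type*} [Group G] [Fintype G] (p : ℕ) [Fact p.Prime] (M : Ideal Cfsg.AlgInt) (hM : Cfsg.IsPModular p M) (B : Set (Cfsg.IrrCharacter G)) (hB : Cfsg.IsPBlock M B) (g : G) : Cfsg.blockCoeff B g ∈ IntermediateField.adjoin ℚ ({Complex.exp (2 * Real.pi * Complex.I / ((Nat.card G / p ^ (Nat.card G).factorization p : ℕ) : ℂ))} : Set ℂ) := by
  classical
  have hpp : p.Prime := Fact.out
  set m : ℕ := Nat.card G / p ^ (Nat.card G).factorization p with hm
  set F := IntermediateField.adjoin ℚ ({Complex.exp (2 * Real.pi * Complex.I / (m : ℂ))} : Set ℂ) with hF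
  by_cases hg : p ∣ orderOf g
  · have h0 := Cfsg.Agent.S0907.result p M hM B hB 1 g (by simp [hpp.one_lt.ne']) hg
    unfold blockCoeff
    rw [h0, mul_zero]
    exact zero_mem _
  have hcard0 : Nat.card G ≠ 0 := Nat.card_pos.ne'
  have hm0 : m ≠ 0 := (Nat.ordCompl_pos p hcard0).ne'
  have hord : orderOf g ∣ m := by
    have h1 : orderOf g ∣ p ^ (Nat.card G).factorization p * m := by
      rw [hm, Nat.ordProj_mul_ordCompl_eq_self]
      exact orderOf_dvd_natCard g
    have hcop : Nat.Coprime (orderOf g) (p ^ (Nat.card G).factorization p) :=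
      Nat.Coprime.pow_right _ ((Nat.Coprime.symm ((Nat.Prime.coprime_iff_not_dvd hpp).2 hg)))
    exact hcop.dvd_of_dvd_mul_left h1
  have hprim := Complex.isPrimitiveRoot_exp m hm0
  set η : ℂ := Complex.exp (2 * Real.pi * Complex.I / (m : ℂ)) with hη
  have hηF : η ∈ F := IntermediateField.mem_adjoin_simple_self ℚ η
  -- roots of unity of order dividing `m` lie in `F`
  have hroot : ∀ μ : ℂ, μ ^ m = 1 → μ ∈ F := by
    intro μ hμ
    have : NeZero m := ⟨hm0⟩
    obtain ⟨k, -, rfl⟩ := hprim.eq_pow_of_pow_eq_one hμ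
    exact pow_mem hηF k
  have hconj : ∀ μ : ℂ, μ ^ m = 1 → conj μ ∈ F := by
    intro μ hμ
    have hnorm : ‖μ‖ = 1 := Complex.norm_eq_one_of_pow_eq_one hμ hm0
    have : conj μ = μ⁻¹ := (Complex.inv_eq_conj hnorm).symm
    rw [this]
    exact inv_mem (hroot μ hμ)
  unfold blockCoeff
  refine mul_mem (inv_mem ?_) ?_
  · exact natCast_mem F _
  rw [Cfsg.Agent.Lib.Blocks.Osima.finsum_mem_eq_sum_filter]
  refine sum_mem ?_
  intro χ _
  have hchar := Cfsg.Agent.Lib.Char.Values.IsIrrCharacter.isCharacter χ.2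
  obtain ⟨d, μ, h1, h2, h3⟩ := Cfsg.Agent.Lib.Char.Values.IsCharacter.exists_roots hchar g
  refine mul_mem ?_ ?_
  · rw [h1]; exact natCast_mem F _
  rw [h3, map_sum]
  refine sum_mem ?_
  intro i _
  apply hconj
  obtain ⟨c, hc⟩ := hord
  rw [hc, pow_mul, h2 i, one_pow]

end Cfsg.Agent.S4664
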