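import Cfsg.Statements.S4665
import Mathlib
import Cfsg.Agent.Lib.Blocks.Osima
import Cfsg.Agent.Lib.Blocks.DefectAvg
import Cfsg.Agent.Lib.Char.Values

set_option autoImplicit false
open Cfsg

namespace Cfsg.Agent.S4665

open scoped ComplexConjugate

/-- Fix a prime p, a maximal ideal M of the algebraic integers containing p, and a p-block B of the finite group G, and let p^a be the p-part of the order of G. Let χ be an integer combination of the irreducible characters in B. If the function that agrees with χ on p-regular elements and vanishes on p-singular elements is again an integer combination of the irreducible characters in B, then p^a divides χ(1). -/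
theorem result {G : Type*} [Group G] [Fintype G] (p : ℕ) [Fact p.Prime] (M : Ideal Cfsg.AlgInt) (hM : Cfsg.IsPModular p M) (B : Set (Cfsg.IrrCharacter G)) (hB : Cfsg.IsPBlock M B) (χ : G → ℂ) (hχ : (∃ n : Cfsg.IrrCharacter G → ℤ, ∀ g : G, χ g = ∑ᶠ ψ ∈ B, (n ψ : ℂ) * (ψ : G → ℂ) g)) (h0 : (∃ n : Cfsg.IrrCharacter G → ℤ, ∀ g : G, Cfsg.pRegularPart p χ g = ∑ᶠ ψ ∈ B, (n ψ : ℂ) * (ψ : G → ℂ) g)) : ∃ k : ℤ, χ 1 = (p ^ (Nat.card G).factorization p : ℂ) * k := by
  classical
  have hpp : p.Prime := Fact.out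
  obtain ⟨n, hn⟩ := hχ
  obtain ⟨n', hn'⟩ := h0
  -- `χ 1` is an integer
  obtain ⟨N, hN⟩ : ∃ N : ℤ, χ 1 = (N : ℂ) := by
    rw [hn 1, Cfsg.Agent.Lib.Blocks.Osima.finsum_mem_eq_sum_filter]
    have : ∀ ψ : IrrCharacter G, ∃ d : ℕ, (ψ : G → ℂ) 1 = (d : ℂ) := fun ψ =>
      Cfsg.Agent.Lib.Char.Values.IsCharacter.exists_one_eq
        (Cfsg.Agent.Lib.Char.Values.IsIrrCharacter.isCharacter ψ.2)
    choose d hd using this
    refine ⟨∑ ψ ∈ (Finset.univ : Finset (IrrCharacter G)).filter (· ∈ B), n ψ * (d ψ : ℤ), ?_⟩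
    push_cast
    exact Finset.sum_congr rfl fun ψ _ => by rw [hd ψ]
  -- a Sylow subgroup
  let P : Sylow p G := default
  have : Fact p.Prime := ⟨hpp⟩
  let Q : Subgroup G := (P : Subgroup G)
  have : Fintype Q := Fintype.ofFinite _
  have hQcard : Nat.card Q = p ^ (Nat.card G).factorization p := P.card_eq_multiplicity
  have hQ0 : (Nat.card Q : ℂ) ≠ 0 := Nat.cast_ne_zero.mpr Nat.card_pos.ne'
  -- the sum of the `p`-regular part over `Q`
  have hsum : ∑ q : Q, pRegularPart p χ (1 * (q : G)) = χ 1 := by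
    rw [Finset.sum_eq_single (1 : Q)]
    · simp [pRegularPart, IsPRegular, hpp.one_lt.ne']
    · intro q _ hq
      have hq1 : (q : G) ≠ 1 := fun h => hq (Subtype.ext h)
      have hp : p ∣ orderOf (q : G) := by
        have hpg : IsPGroup p Q := P.isPGroup'
        obtain ⟨k, hk⟩ := hpg.exists_card_eq
        have hqo : orderOf (q : G) = orderOf q := Subgroup.orderOf_coe q
        rw [hqo]
        obtain ⟨j, hj⟩ := (Nat.dvd_prime_pow hpp).1 (hk ▸ orderOf_dvd_natCard q)
        obtain ⟨_, hj⟩ := hj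
        rw [hj]
        have hj0 : j ≠ 0 := by
          rintro rfl
          rw [pow_zero, orderOf_eq_one_iff] at hj
          exact hq hj
        exact dvd_pow_self p hj0
      have : ¬ IsPRegular p (q : G) := by
        simpa [IsPRegular] using hp
      simp [pRegularPart, this]
    · intro h; exact absurd (Finset.mem_univ _) h
  -- integrality
  have hint : IsIntegral ℤ ((Nat.card Q : ℂ)⁻¹ * χ 1) := by
    rw [← hsum]
    have : (Nat.card Q : ℂ)⁻¹ * ∑ q : Q, pRegularPart p χ (1 * (q : G)) =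
        ∑ ψ ∈ (Finset.univ : Finset (IrrCharacter G)).filter (· ∈ B),
          (n' ψ : ℂ) * ((Nat.card Q : ℂ)⁻¹ * ∑ q : Q, (ψ : G → ℂ) (1 * (q : G))) := by
      simp_rw [hn', Cfsg.Agent.Lib.Blocks.Osima.finsum_mem_eq_sum_filter]
      rw [Finset.sum_comm, Finset.mul_sum]
      refine Finset.sum_congr rfl fun ψ _ => ?_
      rw [← Finset.mul_sum]
      ring
    rw [this]
    refine IsIntegral.sum _ fun ψ _ => ?_
    refine IsIntegral.mul isIntegral_algebraMap ?_
    obtain ⟨d, ρ, -, hρ⟩ := ψ.2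
    rw [← hρ]
    exact Cfsg.Agent.Lib.Blocks.DefectAvg.isIntegral_avg_character ρ Q 1 (by simp)
  rw [hN] at hint
  have hq : IsIntegral ℤ ((N : ℚ) / (Nat.card Q : ℚ)) := by
    have h2 : (algebraMap ℚ ℂ) ((N : ℚ) / (Nat.card Q : ℚ)) = (Nat.card Q : ℂ)⁻¹ * (N : ℂ) := by
      simp [div_eq_inv_mul]
    rw [← h2] at hint
    exact (isIntegral_algebraMap_iff (algebraMap ℚ ℂ).injective).1 hint
  obtain ⟨k, hk⟩ := IsIntegrallyClosed.isIntegral_iff.mp hq
  refine ⟨k, ?_⟩
  have hk' : (N : ℂ) = (Nat.card Q : ℂ) * (k : ℂ) := by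
    have hQ0' : (Nat.card Q : ℚ) ≠ 0 := Nat.cast_ne_zero.mpr Nat.card_pos.ne'
    have h3 : (k : ℚ) = (N : ℚ) / (Nat.card Q : ℚ) := by simpa using hk
    have h4 : (N : ℚ) = (Nat.card Q : ℚ) * (k : ℚ) := by
      rw [h3]; field_simp
    exact_mod_cast congrArg (algebraMap ℚ ℂ) h4
  rw [hN, hk', hQcard]
  push_cast
  ring

end Cfsg.Agent.S4665
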