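import Cfsg.Statements.S4666
import Mathlib
import Cfsg.Agent.Lib.Blocks.Cartan
-- import your own Cfsg.Agent.* helpers here

set_option autoImplicit false
open Cfsg

namespace Cfsg.Agent.S4666

open Cfsg.Agent.Lib.Blocks.Cartan Cfsg.Agent.Lib.Blocks.Regular Cfsg.Agent.Lib.Blocks.Local

/-- Fix a prime p and a maximal ideal M of the algebraic integers containing p, and a p-block B of the finite group G of defect d. For every integer combination χ of the irreducible characters in B, p^d times the function that agrees with χ on p-regular elements and vanishes elsewhere is again an integer combination of the irreducible characters in B. -/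
theorem result {G : Type*} [Group G] [Fintype G] (p : ℕ) [Fact p.Prime] (M : Ideal Cfsg.AlgInt) (hM : Cfsg.IsPModular p M) (B : Set (Cfsg.IrrCharacter G)) (hB : Cfsg.IsPBlock M B) (χ : G → ℂ) (hχ : (∃ n : Cfsg.IrrCharacter G → ℤ, ∀ g : G, χ g = ∑ᶠ ψ ∈ B, (n ψ : ℂ) * (ψ : G → ℂ) g)) : (∃ n : Cfsg.IrrCharacter G → ℤ, ∀ g : G, (p ^ Cfsg.blockDefect p B : ℂ) * Cfsg.pRegularPart p χ g = ∑ᶠ ψ ∈ B, (n ψ : ℂ) * (ψ : G → ℂ) g) := by
  classical
  haveI := Cfsg.Agent.Lib.Blocks.Local.isPrime_of_isPModular hM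
  obtain ⟨n, hn⟩ := hχ
  choose m hm using fun (ψ : {ψ : Cfsg.IrrCharacter G // ψ ∈ B}) (τ : {τ : Cfsg.IrrCharacter G // τ ∈ B}) =>
    exists_int_pow_defect_mul (p := p) hM (B := B) (ψ : Cfsg.IrrCharacter G) τ.2
  refine ⟨fun τ => if hτ : τ ∈ B then ∑ ψ : {ψ : Cfsg.IrrCharacter G // ψ ∈ B}, n ψ * m ψ ⟨τ, hτ⟩ else 0, fun g => ?_⟩
  rw [pRegularPart_eq_reg, Cfsg.Agent.Lib.Blocks.Osima.finsum_mem_eq_sum_filter]
  have h1 : Cfsg.Agent.Lib.Blocks.Regular.reg p χ g =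
      ∑ ψ ∈ Finset.univ.filter (· ∈ B), (n ψ : ℂ) * Cfsg.Agent.Lib.Blocks.Regular.reg p (ψ : G → ℂ) g := by
    by_cases hg : p ∣ orderOf g
    · simp [reg_of_dvd _ hg]
    · simp only [reg_of_not_dvd _ hg]
      rw [hn g, Cfsg.Agent.Lib.Blocks.Osima.finsum_mem_eq_sum_filter]
  rw [h1, Finset.mul_sum]
  have h2 : ∀ ψ ∈ Finset.univ.filter (· ∈ B), (p : ℂ) ^ Cfsg.blockDefect p B *
      ((n ψ : ℂ) * Cfsg.Agent.Lib.Blocks.Regular.reg p (ψ : G → ℂ) g) =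
      ∑ τ ∈ Finset.univ.filter (· ∈ B), (n ψ : ℂ) * ((p : ℂ) ^ Cfsg.blockDefect p B *
        Cfsg.classInner (Cfsg.Agent.Lib.Blocks.Regular.reg p (ψ : G → ℂ)) (τ : G → ℂ)) * (τ : G → ℂ) g := by
    intro ψ hψ
    have hψB : ψ ∈ B := (Finset.mem_filter.mp hψ).2
    rw [reg_eq_sum_block hM hB hψB, Finset.mul_sum, Finset.mul_sum]
    refine Finset.sum_congr rfl fun τ _ => ?_
    ring
  rw [Finset.sum_congr rfl h2, Finset.sum_comm]
  refine Finset.sum_congr rfl fun τ hτ => ?_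
  have hτB : τ ∈ B := (Finset.mem_filter.mp hτ).2
  rw [← Finset.sum_mul]
  congr 1
  show _ = (((if hτ : τ ∈ B then ∑ ψ : {ψ : Cfsg.IrrCharacter G // ψ ∈ B}, n ψ * m ψ ⟨τ, hτ⟩ else 0 : ℤ)) : ℂ)
  rw [dif_pos hτB]
  push_cast
  rw [← Finset.sum_coe_sort (Finset.univ.filter (· ∈ B))]
  refine Fintype.sum_equiv (Equiv.subtypeEquivRight (fun x => by simp)) _ _ fun ψ => ?_
  have := hm ⟨ψ.1, (Finset.mem_filter.mp ψ.2).2⟩ ⟨τ, hτB⟩
  simp only [Equiv.subtypeEquivRight_apply_coe]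
  rw [this]
  rfl

end Cfsg.Agent.S4666
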