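import Cfsg.Statements.S4668
import Mathlib
import Cfsg.Agent.Lib.Blocks.CentSupport
import Cfsg.Agent.Lib.Blocks.ChainNorm

set_option autoImplicit false
open Cfsg

namespace Cfsg.Agent.S4668

/-- Fix a prime p and a maximal ideal M of the algebraic integers containing p. Let Q₀ < Q₁ < ⋯ < Q_m be a strictly increasing chain of p-subgroups of the finite group G and N the intersection of their normalizers. Then every block idempotent of N is supported on C_G(Q_m): for every p-block E of N, the idempotent coefficient of E vanishes at every element of N outside C_G(Q_m). -/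
theorem result {G : Type*} [Group G] [Fintype G] (p : ℕ) [Fact p.Prime] (M : Ideal Cfsg.AlgInt) (hM : Cfsg.IsPModular p M) (m : ℕ) (Q : Fin (m + 1) → Subgroup G) (hQ : StrictMono Q) (hQp : ∀ i, IsPGroup p (Q i)) (N : Subgroup G) (hN : ∀ g : G, g ∈ N ↔ ∀ i, g ∈ Subgroup.normalizer (Q i : Set G)) (E : Set (Cfsg.IrrCharacter N)) (hE : Cfsg.IsPBlock M E) (n : N) (hn : (n : G) ∉ Subgroup.centralizer (Q (Fin.last m) : Set G)) : Cfsg.blockCoeff E n = 0 := by
  classical
  have hMp := Cfsg.Agent.Lib.Blocks.Local.isPrime_of_isPModular hM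
  haveI : Fintype N := Fintype.ofFinite _
  have hnN : ∀ i, (n : G) ∈ Subgroup.normalizer (Q i : Set G) := (hN n).1 n.2
  by_cases hp : p ∣ orderOf n
  · exact Cfsg.Agent.Lib.Blocks.Covering.blockCoeff_eq_zero_of_dvd hM hE hp
  -- the normal `p`-subgroup of `N`
  set top := Q (Fin.last m) with htop
  let R : Subgroup N := top.subgroupOf N
  have hRn : R.Normal := by
    refine ⟨fun x hx y => ?_⟩
    have hxy : (x : G) ∈ top := hx
    have h1 : (y : G) * x * (y : G)⁻¹ ∈ top := (Subgroup.mem_normalizer_iff.1 ((hN y).1 y.2 (Fin.last m)) x).1 hxy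
    simpa [R, Subgroup.mem_subgroupOf] using h1
  have hRp : IsPGroup p R := (hQp (Fin.last m)).comap_subtype
  by_contra hne
  have hcen : n ∈ Subgroup.centralizer (R : Set N) := by
    by_contra hnc
    haveI : Fintype (Subgroup.centralizer (R : Set N)) := Fintype.ofFinite _
    exact hne (Cfsg.Agent.Lib.Blocks.CentSupport.blockCoeff_eq_zero_of_notMem hM R hRp _ le_rfl hE hnc)
  -- `n` centralizes `top`
  apply hn
  rw [Subgroup.mem_centralizer_iff]
  have hord : ¬ p ∣ orderOf (n : G) := by rwa [Subgroup.orderOf_coe]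
  let S : ℕ → Subgroup G := fun i => if h : i < m + 1 then Q ⟨i, h⟩ else ⊤
  have hS : ∀ i : Fin (m + 1), S i = Q i := by
    intro i
    show (if h : (i : ℕ) < m + 1 then Q ⟨i, h⟩ else ⊤) = Q i
    rw [dif_pos i.2]
  have hSm : S m = top := by
    have := hS (Fin.last m)
    simpa using this
  have key := Cfsg.Agent.Lib.Blocks.ChainNorm.comm_of_comm_chain (p := p) (n := (n : G)) hord S m top
    (hQp _) (fun i j hij hj => by
      have hi' : i < m + 1 := by omega
      have hj' : j < m + 1 := by omega
      have h1 := hS ⟨i, hi'⟩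
      have h2 := hS ⟨j, hj'⟩
      simp only at h1 h2
      rw [h1, h2]
      exact hQ.monotone hij) (by rw [hSm])
    (fun i hi => by
      have hi' : i < m + 1 := by omega
      have h1 := hS ⟨i, hi'⟩
      simp only at h1
      rw [h1]
      exact hnN _) (hnN _) ?_
  · intro y hy
    exact (key y hy).symm
  · intro y hy hyN
    have hyN' : y ∈ N := by
      rw [hN]
      intro i
      have h1 := hyN i (by omega)
      rwa [hS i] at h1
    have hyR : (⟨y, hyN'⟩ : N) ∈ R := by
      simpa [R, Subgroup.mem_subgroupOf] using hy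
    have := (Subgroup.mem_centralizer_iff.1 hcen) _ hyR
    exact (congrArg Subtype.val this).symm

end Cfsg.Agent.S4668
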