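import Cfsg.Statements.S4672
import Mathlib
import Cfsg.Agent.Lib.Blocks.IndexP
-- import your own Cfsg.Agent.* helpers here

set_option autoImplicit false
open Cfsg

namespace Cfsg.Agent.S4672

open Cfsg.Agent.Lib.Blocks.Local Cfsg.Agent.Lib.Blocks.Central Cfsg.Agent.Lib.Blocks.Osima
  Cfsg.Agent.Lib.Blocks.Covering Cfsg.Agent.Lib.Blocks.Pairs Cfsg.Agent.Lib.Blocks.IndexP

/-- Fix a prime p and a maximal ideal M of the algebraic integers containing p. Let N be a normal subgroup of the finite group G of p-power index and c a p-block of N stable under conjugation by G. Then the idempotent of c is a block idempotent of G: there is a p-block B of G whose idempotent coefficients agree with those of c on N and vanish off N; and for every defect group P of such a block B, G = NP and P ∩ N is a defect group of c. -/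
theorem result {G : Type*} [Group G] [Fintype G] (p : ℕ) [Fact p.Prime] (M : Ideal Cfsg.AlgInt) (hM : Cfsg.IsPModular p M) (N : Subgroup G) [N.Normal] (hN : ∃ k : ℕ, N.index = p ^ k) (c : Set (Cfsg.IrrCharacter N)) (hc : Cfsg.IsPBlock M c) (hst : ∀ x : G, Cfsg.StabilizesBlock N c x) : (∃ B : Set (Cfsg.IrrCharacter G), Cfsg.IsPBlock M B ∧ ∀ g : G, Cfsg.blockCoeff B g = Cfsg.subgroupBlockCoeff N c g) ∧ ∀ B : Set (Cfsg.IrrCharacter G), Cfsg.IsPBlock M B → (∀ g : G, Cfsg.blockCoeff B g = Cfsg.subgroupBlockCoeff N c g) → ∀ P : Subgroup G, Cfsg.IsDefectGroup p M B P → N ⊔ P = ⊤ ∧ Cfsg.IsDefectGroup p M c ((P ⊓ N).subgroupOf N) := by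
  classical
  haveI := isPrime_of_isPModular hM
  haveI : Fintype N := Fintype.ofFinite N
  have hstable := isConjStable_of_stabilizes hst
  have hpush : ∀ B : Set (Cfsg.IrrCharacter G), (∀ g : G, blockCoeff B g = subgroupBlockCoeff N c g) →
      blockElt B = push N (blockElt c) := by
    intro B hBc
    rw [← EE_eq_push]
    apply ext_coeff
    intro g
    rw [coeff_blockElt, coeff_EE, hBc]
  refine ⟨?_, fun B hB hBc P hP => ⟨?_, ?_⟩⟩
  · obtain ⟨B, hB, hBe⟩ := exists_block_eq hM hN hc hstable
    refine ⟨B, hB, fun g => ?_⟩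
    rw [← coeff_blockElt, hBe, ← EE_eq_push, coeff_EE]
  · exact sup_eq_top hM hN hc hstable hB (hpush B hBc) hP
  · exact isDefectGroup_inf hM hc hB (hpush B hBc) hP

end Cfsg.Agent.S4672
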