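import Cfsg.Statements.S4681
import Mathlib
import Cfsg.Agent.Lib.Blocks.Pairs10

set_option autoImplicit false
open Cfsg

namespace Cfsg.Agent.S4681

/-- Fix a prime p and a maximal ideal M of the algebraic integers containing p. Let B₀ be the principal p-block of the finite group G, P a Sylow p-subgroup and e₀ the principal p-block of C_G(P). Then (P, e₀) is a maximal Brauer pair of B₀, and the fusion system of B₀ on (P, e₀) is the fusion system of G on P: its maps from each subgroup of P are exactly the conjugation maps into P by elements of G. -/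
theorem result {G : Type*} [Group G] [Fintype G] (p : ℕ) [Fact p.Prime] (M : Ideal Cfsg.AlgInt) (hM : Cfsg.IsPModular p M) (S : Sylow p G) : Cfsg.IsMaximalBrauerPair p M (Cfsg.principalBlock M G) (S : Subgroup G) (Cfsg.principalBlock M (Subgroup.centralizer ((S : Subgroup G) : Set G))) ∧ ∀ F : Cfsg.FusionSystem (S : Subgroup G), Cfsg.IsBlockFusionSystemOn p M (Cfsg.principalBlock M G) (S : Subgroup G) (Cfsg.principalBlock M (Subgroup.centralizer ((S : Subgroup G) : Set G))) F → ∀ Q : Subgroup G, F.Hom Q = (Cfsg.groupFusionSystem (S : Subgroup G)).Hom Q := by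
  classical
  haveI : M.IsPrime := hM.2.1.isPrime
  open Cfsg.Agent.Lib.Blocks.Pairs in
  have hprinc : ∀ (Q : Subgroup G) (hQ : IsPGroup p Q) {f : Set (Cfsg.IrrCharacter (Subgroup.centralizer (Q : Set G)))},
      Cfsg.IsPBlock M f → Cfsg.IsBrauerPairOf p M (Cfsg.principalBlock M G) Q f →
      f = Cfsg.principalBlock M (Subgroup.centralizer (Q : Set G)) :=
    fun Q hQ f hf h => (isBrauerPairOf_principal_iff hM hQ hf).mp h
  have hSb : Cfsg.IsBrauerPairOf p M (Cfsg.principalBlock M G) (S : Subgroup G)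
      (Cfsg.principalBlock M (Subgroup.centralizer ((S : Subgroup G) : Set G))) :=
    (Cfsg.Agent.Lib.Blocks.Pairs.isBrauerPairOf_principal_iff hM S.isPGroup'
      (Cfsg.Agent.Lib.Blocks.Principal.isPBlock_principalBlock M)).mpr rfl
  refine ⟨⟨hSb, fun R g hRg hle => S.is_maximal' hRg.1.1 (Cfsg.Agent.Lib.Blocks.Pairs.SubpairLE.le hle)⟩, ?_⟩
  intro F hF Q
  ext φ
  constructor
  · intro hφ
    obtain ⟨hQS, g, hu, hg, -⟩ := (hF.2 Q φ).1 hφ
    refine ⟨hQS, fun x => ?_, g, hu⟩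
    rw [hu]
    exact hg ⟨x, x.2, rfl⟩
  · rintro ⟨hQS, hx, g, hu⟩
    have hQgS : Q.map (MulAut.conj g).toMonoidHom ≤ (S : Subgroup G) := by
      rintro _ ⟨u, hu', rfl⟩
      have := hx ⟨u, hu'⟩
      rw [hu] at this
      exact this
    refine (hF.2 Q φ).2 ⟨hQS, g, hu, hQgS, ?_⟩
    obtain ⟨f, ⟨hf, hfle⟩, -⟩ := Cfsg.Agent.Lib.Blocks.Pairs.existsUnique_subpairLE hM hSb.1 hQS
    obtain ⟨f₂, ⟨hf₂, hf₂le⟩, -⟩ := Cfsg.Agent.Lib.Blocks.Pairs.existsUnique_subpairLE hM hSb.1 hQgS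
    have hQp : IsPGroup p Q := S.isPGroup'.to_le hQS
    have hQgp : IsPGroup p (Q.map (MulAut.conj g).toMonoidHom : Subgroup G) := S.isPGroup'.to_le hQgS
    have hB1 : Cfsg.IsBrauerPairOf p M (Cfsg.principalBlock M G) Q f :=
      (Cfsg.Agent.Lib.Blocks.Pairs.isBrauerPairOf_iff_of_subpairLE hM ⟨hQp, hf⟩ hfle).mp hSb
    have hB2 : Cfsg.IsBrauerPairOf p M (Cfsg.principalBlock M G) (Q.map (MulAut.conj g).toMonoidHom) f₂ :=
      (Cfsg.Agent.Lib.Blocks.Pairs.isBrauerPairOf_iff_of_subpairLE hM ⟨hQgp, hf₂⟩ hf₂le).mp hSb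
    have hB3 : Cfsg.IsBrauerPairOf p M (Cfsg.principalBlock M G) (Q.map (MulAut.conj g).toMonoidHom) (Cfsg.conjBlock Q g f) := by
      rw [Cfsg.Agent.Lib.Blocks.Pairs.conjBlock_eq_conjB]
      exact Cfsg.Agent.Lib.Blocks.Pairs.isBrauerPairOf_conj g rfl _ hB1
    have hf₃ : Cfsg.IsPBlock M (Cfsg.conjBlock Q g f) := hB3.1.2
    have h1 := hprinc _ hQgp hf₂ hB2
    have h2 := hprinc _ hQgp hf₃ hB3
    refine ⟨f, hfle, ?_⟩
    rw [h2, ← h1]
    exact hf₂le

end Cfsg.Agent.S4681
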