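import Cfsg.Statements.S4683
import Mathlib
import Cfsg.Agent.Lib.Blocks.SubsectionNorm
-- import your own Cfsg.Agent.* helpers here

set_option autoImplicit false
open Cfsg

namespace Cfsg.Agent.S4683

open Cfsg.Agent.Lib.Blocks.SubsectionNorm Cfsg.Agent.Lib.Blocks.Sections Cfsg.Agent.Lib.Blocks.Osima
  Cfsg.Agent.Lib.Blocks.Local Cfsg.Agent.Lib.Blocks.Central Cfsg.Agent.Lib.Blocks.Cartan

/-- The statement, for a centralizer given up to equality. -/
lemma key {G : Type*} [Group G] [Fintype G] (p : ℕ) [Fact p.Prime] (M : Ideal Cfsg.AlgInt) (hM : Cfsg.IsPModular p M)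
    (B : Set (Cfsg.IrrCharacter G)) (hB : Cfsg.IsPBlock M B) (u : G) (hu : ∃ k : ℕ, orderOf u = p ^ k)
    (C' : Subgroup G) (hC' : C' = Cen u) (e : Set (Cfsg.IrrCharacter C')) (he : Cfsg.IsPBlock M e)
    (hω : ∀ ξ ∈ e, Cfsg.MemLocalIdeal M
      ((∑ᶠ x : C', Cfsg.blockCoeff B x * (ξ : C' → ℂ) x / (ξ : C' → ℂ) 1) - 1)) :
    ∑ᶠ χ ∈ B, ∑ᶠ s : C', Cfsg.pRegularPart p (Cfsg.blockPart e (fun c : C' => (χ : G → ℂ) (u * c))) s *
      Cfsg.blockPart e (fun c : C' => (χ : G → ℂ) (u⁻¹ * c)) s⁻¹ =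
      (Nat.card C' : ℂ) * (Cfsg.blockRank p e : ℂ) := by
  classical
  subst hC'
  haveI := isPrime_of_isPModular hM
  letI : Fintype (Cen u) := Fintype.ofFinite _
  obtain ⟨k, hk⟩ := hu
  obtain ⟨ξ₁, rfl⟩ := id he
  obtain ⟨χ₁, hχ₁⟩ := exists_inducer hM hk ξ₁
  obtain ⟨χ₂, rfl⟩ := id hB
  have hmem : χ₁ ∈ Cfsg.blockOf M (χ₂ : G → ℂ) := by
    by_contra hcon
    have h1 := omega_restr_of_mem_inducers (Cen u) hcon hχ₁
    have h2 := hω ξ₁ (mem_blockOf_self ξ₁)
    have h3 : omega (ξ₁ : Cen u → ℂ) (Cfsg.Agent.Lib.Blocks.SecondMain.restr (Cen u) (blockElt (Cfsg.blockOf M (χ₂ : G → ℂ)))) =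
        ∑ᶠ x : Cen u, Cfsg.blockCoeff (Cfsg.blockOf M (χ₂ : G → ℂ)) x * (ξ₁ : Cen u → ℂ) x / (ξ₁ : Cen u → ℂ) 1 := by
      rw [finsum_eq_sum_of_fintype, omega, Finset.sum_div]
      refine Finset.sum_congr rfl fun x _ => ?_
      simp
    rw [← h3] at h2
    have h4 := memLocalIdeal_sub h1 h2
    apply not_memLocalIdeal_one (M := M)
    convert h4 using 1
    ring
  have hB2 : Cfsg.blockOf M (χ₂ : G → ℂ) = Cfsg.blockOf M (χ₁ : G → ℂ) := (blockOf_eq_of_mem hmem).symm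
  rw [hB2]
  have h5 := sum_subsection_norm hM χ₁ hk (e := Cfsg.blockOf M (ξ₁ : Cen u → ℂ)) ⟨ξ₁, rfl⟩
    (fun ξ hξ => inducers_closed _ _ ξ₁ hχ₁ hξ)
  rw [← h5, Cfsg.Agent.Lib.Blocks.Osima.finsum_mem_eq_sum_filter]
  refine Finset.sum_congr rfl fun χ _ => ?_
  rw [finsum_eq_sum_of_fintype]
  refine Finset.sum_congr rfl fun s _ => ?_
  rw [pRegularPart_eq_reg]

/-- Fix a prime p and a maximal ideal M of the algebraic integers containing p, a p-block B of the finite group G, a p-element u and a p-block e of C = C_G(u) such that (⟨u⟩, e) is a Brauer pair of B (a Brauer element of B). For χ ∈ B let χ_u be the e-part of the class function c ↦ χ(u c) on C and χ_u' the e-part of c ↦ χ(u⁻¹ c). Then the sum over χ ∈ B and over the p-regular elements s of C of χ_u(s)·χ_u'(s⁻¹) equals the order of C times the p-regular rank of e (the number of irreducible Brauer characters of e). -/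
theorem result {G : Type*} [Group G] [Fintype G] (p : ℕ) [Fact p.Prime] (M : Ideal Cfsg.AlgInt) (hM : Cfsg.IsPModular p M) (B : Set (Cfsg.IrrCharacter G)) (u : G) (hu : ∃ k : ℕ, orderOf u = p ^ k) (e : Set (Cfsg.IrrCharacter (Subgroup.centralizer (Subgroup.zpowers u : Set G)))) (hBe : Cfsg.IsBrauerPairOf p M B (Subgroup.zpowers u) e) : ∑ᶠ χ ∈ B, ∑ᶠ s : Subgroup.centralizer (Subgroup.zpowers u : Set G), Cfsg.pRegularPart p (Cfsg.blockPart e (fun c : Subgroup.centralizer (Subgroup.zpowers u : Set G) => (χ : G → ℂ) (u * c))) s * Cfsg.blockPart e (fun c : Subgroup.centralizer (Subgroup.zpowers u : Set G) => (χ : G → ℂ) (u⁻¹ * c)) s⁻¹ = (Nat.card (Subgroup.centralizer (Subgroup.zpowers u : Set G)) : ℂ) * (Cfsg.blockRank p e : ℂ) := by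
  have hC : Subgroup.centralizer (Subgroup.zpowers u : Set G) = Cen u := by
    ext g
    rw [Subgroup.mem_centralizer_iff, Subgroup.mem_centralizer_iff]
    constructor
    · intro h t ht
      rw [Set.mem_singleton_iff.mp ht]
      exact h u (Subgroup.mem_zpowers u)
    · intro h t ht
      obtain ⟨n, rfl⟩ := ht
      have h1 : Commute u g := h u rfl
      exact (h1.zpow_left n).eq
  exact key p M hM B hBe.2.1 u hu _ hC e hBe.1.2 hBe.2.2

end Cfsg.Agent.S4683
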