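import Cfsg.Statements.S4699
import Mathlib

set_option autoImplicit false
set_option linter.style.haveILetI false
open Cfsg

namespace Cfsg.Agent.S4699

open Finset Polynomial

section algebra
variable {F : Type*} [Field F]

lemma poly_geom (p : ℕ) [Fact p.Prime] [CharP F p] (k : ℕ) :
    (∑ i ∈ range (p ^ k), (X : F[X]) ^ i) = (X - 1) ^ (p ^ k - 1) := by
  have h1 : (X - 1 : F[X]) ≠ 0 := by
    have := X_sub_C_ne_zero (1 : F)
    simpa using this
  have hp : 0 < p ^ k := pow_pos (Fact.out : p.Prime).pos k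
  apply mul_right_cancel₀ h1
  rw [geom_sum_mul, ← pow_succ, Nat.sub_add_cancel hp, sub_pow_char_pow, one_pow]

lemma alg_geom {A : Type*} [Ring A] [Algebra F A] (p : ℕ) [Fact p.Prime] [CharP F p] (k : ℕ)
    (c : A) : ∑ i ∈ range (p ^ k), c ^ i = (c - 1) ^ (p ^ k - 1) := by
  have := congrArg (aeval c) (poly_geom (F := F) p k)
  simpa using this

lemma alg_sub_pow {A : Type*} [Ring A] [Algebra F A] (p : ℕ) [Fact p.Prime] [CharP F p] (k : ℕ)
    (c : A) : (c - 1) ^ (p ^ k) = c ^ (p ^ k) - 1 := by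
  have h : ((X : F[X]) - 1) ^ (p ^ k) = X ^ (p ^ k) - 1 := by
    rw [sub_pow_char_pow, one_pow]
  have := congrArg (aeval c) h
  simpa using this

variable {V : Type*} [AddCommGroup V] [Module F V]

/-- The image of a `P`-trace lies in `t^m V` when `t^ℓ = 0` and `ℓ + m = p^k`. -/
lemma trace_mem (p : ℕ) [Fact p.Prime] [CharP F p] (k ℓ m : ℕ)
    (Y Yi : Module.End F V) (h1 : Y * Yi = 1) (h2 : Yi * Y = 1)
    (hℓ : (Y - 1) ^ ℓ = 0) (hsum : ℓ + m = p ^ k) (h : Module.End F V) (v : V) :
    (∑ i ∈ range (p ^ k), Y ^ i * h * Yi ^ i) v ∈ LinearMap.range ((Y - 1) ^ m) := by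
  set t : Module.End F V := Y - 1 with ht
  let c : Module.End F (Module.End F V) :=
    LinearMap.mulLeft F Y * LinearMap.mulRight F Yi
  have hc : ∀ i : ℕ, ∀ h' : Module.End F V, (c ^ i) h' = Y ^ i * h' * Yi ^ i := by
    intro i
    induction i with
    | zero => intro h'; simp
    | succ i ih =>
      intro h'
      rw [pow_succ, Module.End.mul_apply, ih]
      simp only [c, Module.End.mul_apply, LinearMap.mulLeft_apply, LinearMap.mulRight_apply]
      rw [pow_succ Y, pow_succ' Yi]
      simp only [mul_assoc]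
  have hT : (∑ i ∈ range (p ^ k), Y ^ i * h * Yi ^ i) = ((c - 1) ^ (p ^ k - 1)) h := by
    rw [← alg_geom (F := F) p k c, LinearMap.sum_apply]
    exact Finset.sum_congr rfl fun i _ => (hc i h).symm
  -- factor `c - 1`
  let D : Module.End F (Module.End F V) := LinearMap.mulLeft F t + (-LinearMap.mulRight F t)
  let Ri : Module.End F (Module.End F V) := LinearMap.mulRight F Yi
  have hcomm1 : Commute (LinearMap.mulLeft F t) (-LinearMap.mulRight F t) := by
    have : Commute (LinearMap.mulLeft F t) (LinearMap.mulRight F t) :=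
      LinearMap.commute_mulLeft_right t t
    exact this.neg_right
  have hYt : Yi * t = t * Yi := by
    simp only [ht, mul_sub, sub_mul, h1, h2, mul_one, one_mul]
  have hcomm2 : Commute D Ri := by
    apply Commute.add_left
    · exact LinearMap.commute_mulLeft_right t Yi
    · have h5 : Commute (LinearMap.mulRight F t) Ri := by
        ext h' w
        simp only [Ri, Module.End.mul_apply, LinearMap.mulRight_apply]
        have := congrArg (fun z : Module.End F V => h' (z w)) hYt
        simpa [Module.End.mul_apply] using this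
      exact h5.neg_left
  have hfac : c - 1 = D * Ri := by
    ext h' w
    simp only [c, D, Ri, t, Module.End.mul_apply, LinearMap.sub_apply, LinearMap.mulLeft_apply,
      LinearMap.mulRight_apply, LinearMap.add_apply, LinearMap.neg_apply, Module.End.one_apply,
      LinearMap.sub_apply]
    have h3 : ∀ w, Yi (Y w) = w := fun w => by
      have := congrArg (fun z : Module.End F V => z w) h2
      simpa using this
    simp [h3]
  rw [hT, hfac, hcomm2.mul_pow, Module.End.mul_apply]
  set h' := (Ri ^ (p ^ k - 1)) h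
  show (D ^ (p ^ k - 1)) h' v ∈ _
  rw [show D = LinearMap.mulLeft F t + (-LinearMap.mulRight F t) from rfl, hcomm1.add_pow']
  rw [LinearMap.sum_apply, LinearMap.sum_apply]
  refine Submodule.sum_mem _ fun q hq => ?_
  have hq' : q.1 + q.2 = p ^ k - 1 := by simpa using hq
  rw [LinearMap.smul_apply, LinearMap.smul_apply]
  refine Submodule.smul_of_tower_mem _ _ ?_
  have hr : ∀ (j : ℕ) (h'' : Module.End F V),
      (((-LinearMap.mulRight F t : Module.End F (Module.End F V)) ^ j) h'') =
        (-1 : F) ^ j • (h'' * t ^ j) := by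
    intro j
    induction j with
    | zero => intro h''; simp
    | succ j ih =>
      intro h''
      rw [pow_succ, Module.End.mul_apply, ih]
      simp only [LinearMap.neg_apply, LinearMap.mulRight_apply]
      rw [pow_succ (-1 : F), pow_succ' t, mul_smul]
      simp [mul_assoc]
  rw [Module.End.mul_apply, hr, LinearMap.pow_mulLeft, LinearMap.mulLeft_apply]
  by_cases hk : ℓ ≤ q.2
  · rw [show t ^ q.2 = 0 from pow_eq_zero_of_le hk hℓ]
    simp
  · have hm : m ≤ q.1 := by
      have : 0 < p ^ k := pow_pos (Fact.out : p.Prime).pos k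
      omega
    obtain ⟨r, hr'⟩ := Nat.exists_eq_add_of_le hm
    rw [hr', pow_add, Module.End.mul_apply, Module.End.mul_apply]
    exact ⟨_, rfl⟩

end algebra

/-- Summing over a free action. -/
lemma sum_mem_of_free {Pg X A : Type*} [Group Pg] [Fintype Pg] [MulAction Pg X] [DecidableEq X]
    [AddCommMonoid A] (f : X → A) (W : AddSubmonoid A)
    (hTr : ∀ ξ, ∑ u : Pg, f (u • ξ) ∈ W) (s : Finset X)
    (hinv : ∀ ξ ∈ s, ∀ u : Pg, u • ξ ∈ s) (hfree : ∀ ξ ∈ s, ∀ u : Pg, u • ξ = ξ → u = 1) :
    ∑ ξ ∈ s, f ξ ∈ W := by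
  classical
  induction' hc : s.card using Nat.strong_induction_on with c ih generalizing s
  rcases s.eq_empty_or_nonempty with rfl | ⟨ξ0, hξ0⟩
  · simp
  set O : Finset X := univ.image (fun u : Pg => u • ξ0) with hO
  have hOs : O ⊆ s := by
    intro z hz
    obtain ⟨u, -, rfl⟩ := Finset.mem_image.mp hz
    exact hinv _ hξ0 u
  have hlt : (s \ O).card < c := by
    rw [← hc]
    apply Finset.card_lt_card
    refine Finset.sdiff_ssubset hOs ⟨ξ0, ?_⟩
    exact Finset.mem_image.mpr ⟨1, mem_univ _, one_smul _ _⟩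
  have h1 : ∑ ξ ∈ s \ O, f ξ ∈ W := by
    refine ih _ hlt (s \ O) ?_ ?_ rfl
    · intro ξ hξ u
      rw [Finset.mem_sdiff] at hξ ⊢
      refine ⟨hinv _ hξ.1 u, fun hu => hξ.2 ?_⟩
      obtain ⟨v, -, hv⟩ := Finset.mem_image.mp hu
      refine Finset.mem_image.mpr ⟨u⁻¹ * v, mem_univ _, ?_⟩
      rw [mul_smul, show v • ξ0 = u • ξ from hv, inv_smul_smul]
    · intro ξ hξ u hu
      exact hfree ξ (Finset.mem_sdiff.mp hξ).1 u hu
  have h2 : ∑ ξ ∈ O, f ξ = ∑ u : Pg, f (u • ξ0) := by
    rw [hO, Finset.sum_image]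
    intro u _ v _ huv
    have huv' : u • ξ0 = v • ξ0 := huv
    have : (v⁻¹ * u) • ξ0 = ξ0 := by rw [mul_smul, huv', inv_smul_smul]
    have := hfree _ hξ0 _ this
    exact (inv_mul_eq_one.mp this).symm
  rw [← Finset.sum_sdiff hOs]
  refine W.add_mem h1 ?_
  rw [h2]
  exact hTr ξ0

/-- The order of the image of `N(P)` in `Aut(P)` is at most `p - 1`. -/
lemma card_range_le {G : Type*} [Group G] [Finite G] (p : ℕ) [Fact p.Prime] (P : Sylow p G)
    (hcyc : IsCyclic P) (n : ℕ) (hn : 1 ≤ n) (hPn : Nat.card P = p ^ n) :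
    Nat.card (P.toSubgroup.normalizerMonoidHom.range) ≤ p - 1 := by
  have hp := (Fact.out : p.Prime)
  have key := Subgroup.card_dvd_of_injective _
    (QuotientGroup.kerLift_injective P.toSubgroup.normalizerMonoidHom)
  have hcardrange : Nat.card (P.toSubgroup.normalizerMonoidHom.range) =
      (P.toSubgroup.normalizerMonoidHom.ker).index := (Subgroup.index_ker _).symm
  rw [hcardrange]
  rw [Subgroup.normalizerMonoidHom_ker, ← Subgroup.index, ← Subgroup.relIndex] at key
  rw [Subgroup.normalizerMonoidHom_ker, ← Subgroup.relIndex]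
  have hcop : Nat.Coprime ((Subgroup.centralizer (P : Set G)).relIndex
      (Subgroup.normalizer (P : Set G))) p := by
    apply Nat.Coprime.coprime_dvd_left (Subgroup.relIndex_dvd_of_le_left _ P.le_centralizer)
    apply Nat.Coprime.coprime_dvd_left (Subgroup.relIndex_dvd_index_of_le P.le_normalizer)
    rw [Nat.coprime_comm, Nat.Prime.coprime_iff_not_dvd hp]
    exact P.not_dvd_index
  have h1 : ((Subgroup.centralizer (P : Set G)).relIndex
      (Subgroup.normalizer (P : Set G))) ∣ p ^ (n - 1) * (p - 1) := by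
    have h2 := hcyc.card_mulAut
    have h3 : Nat.card (P : Subgroup G) = p ^ n := hPn
    rw [h3, Nat.totient_prime_pow hp (by omega)] at h2
    rw [← h2]
    exact key
  have h4 := Nat.Coprime.dvd_of_dvd_mul_left (Nat.Coprime.pow_right _ hcop) h1
  exact Nat.le_of_dvd (by have := hp.two_le; omega) h4

/-- The invariant product `b`. -/
lemma exists_b {G : Type*} [Group G] [Finite G] (H : Subgroup G)
    {F : Type*} [Field F] {V : Type*} [AddCommGroup V] [Module F V]
    (ρ : Representation F G V) (x0 : H) (hx0 : ∀ u : H, u ∈ Subgroup.zpowers x0) :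
    ∃ b c d : Module.End F V,
      b = (ρ (x0 : G) - 1) ^ (Nat.card H.normalizerMonoidHom.range) * c ∧
      (ρ (x0 : G) - 1) ^ (Nat.card H.normalizerMonoidHom.range) = b * d ∧
      ∀ h : G, h ∈ Subgroup.normalizer (H : Set G) → ρ h * b * ρ h⁻¹ = b := by
  classical
  set Γ := H.normalizerMonoidHom.range with hΓ
  haveI : Fintype Γ := Fintype.ofFinite _
  set Y : Module.End F V := ρ (x0 : G) with hY
  have hexp : ∀ u : H, ∃ i : ℕ, x0 ^ i = u := fun u =>
    mem_powers_iff_mem_zpowers.mpr (hx0 u)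
  choose α hα using fun a : Γ => hexp (a.1 x0)
  have hγ : ∀ a : Γ, ∃ i : ℕ, (a.1 x0) ^ i = x0 := by
    intro a
    obtain ⟨i, hi⟩ := hexp (a.1⁻¹ x0)
    refine ⟨i, ?_⟩
    rw [← map_pow, hi]
    simp
  choose γ hγ' using hγ
  have hYpow : ∀ i : ℕ, Y ^ i = ρ ((x0 ^ i : H) : G) := by
    intro i
    rw [hY, ← map_pow]
    simp
  let Pa : Γ → F[X] := fun a => X ^ α a - 1
  have hPa : ∀ a : Γ, aeval Y (Pa a) = ρ ((a.1 x0 : H) : G) - 1 := by
    intro a
    simp only [Pa, map_sub, map_pow, aeval_X, map_one]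
    rw [hYpow, hα]
  let q : F[X] := ∏ a : Γ, Pa a
  refine ⟨aeval Y q, aeval Y (∏ a : Γ, ∑ i ∈ range (α a), (X : F[X]) ^ i),
    aeval Y (∏ a : Γ, ∑ i ∈ range (γ a), ((X : F[X]) ^ α a) ^ i), ?_, ?_, ?_⟩
  · have h1 : q = (X - 1) ^ Nat.card Γ * ∏ a : Γ, ∑ i ∈ range (α a), (X : F[X]) ^ i := by
      rw [Nat.card_eq_fintype_card, ← Finset.card_univ, ← Finset.prod_const,
        ← Finset.prod_mul_distrib]
      refine Finset.prod_congr rfl fun a _ => ?_
      rw [mul_geom_sum]
    rw [h1, map_mul, map_pow, map_sub, aeval_X, map_one]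
  · have h2 : ∀ s : Finset Γ, aeval Y (∏ a ∈ s, (((X : F[X]) ^ α a) ^ γ a - 1)) = (Y - 1) ^ s.card := by
      intro s
      induction s using Finset.induction_on with
      | empty => simp
      | insert a s ha ih =>
        rw [Finset.prod_insert ha, map_mul, ih, Finset.card_insert_of_notMem ha, pow_succ']
        congr 1
        simp only [map_sub, map_pow, aeval_X, map_one]
        rw [hYpow, hα, ← map_pow]
        have e : ((a.1 x0 : H) : G) ^ γ a = x0 := by
          have := congrArg Subtype.val (hγ' a)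
          simpa using this
        rw [e]
    have h3 := h2 univ
    rw [Finset.card_univ, ← Nat.card_eq_fintype_card] at h3
    rw [← h3, ← map_mul, ← Finset.prod_mul_distrib]
    congr 1
    refine Finset.prod_congr rfl fun a _ => ?_
    rw [mul_geom_sum]
  · intro h hh
    set c : Γ := ⟨H.normalizerMonoidHom ⟨h, hh⟩, MonoidHom.mem_range.mpr ⟨_, rfl⟩⟩ with hc
    have hconj : ∀ u : H, ((c.1 u : H) : G) = h * u * h⁻¹ := fun u => rfl
    have hh1 : ρ h⁻¹ * ρ h = 1 := by rw [← map_mul]; simp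
    have hh2 : ρ h * ρ h⁻¹ = 1 := by rw [← map_mul]; simp
    have h4 : ∀ a : Γ, ρ h * aeval Y (Pa a) * ρ h⁻¹ = aeval Y (Pa (c * a)) := by
      intro a
      rw [hPa, hPa]
      have : ((c * a : Γ).1 x0 : H) = c.1 (a.1 x0) := rfl
      rw [this, hconj, map_mul, map_mul, mul_sub, sub_mul, mul_one, hh2]
    have h5 : ∀ s : Finset Γ, ρ h * aeval Y (∏ a ∈ s, Pa a) * ρ h⁻¹ =
        aeval Y (∏ a ∈ s, Pa (c * a)) := by
      intro s
      induction s using Finset.induction_on with
      | empty => simp [hh2]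
      | insert a s ha ih =>
        rw [Finset.prod_insert ha, Finset.prod_insert ha, map_mul, map_mul, ← h4, ← ih]
        calc ρ h * (aeval Y (Pa a) * aeval Y (∏ a ∈ s, Pa a)) * ρ h⁻¹
            = ρ h * aeval Y (Pa a) * 1 * aeval Y (∏ a ∈ s, Pa a) * ρ h⁻¹ := by
              simp only [mul_one, mul_assoc]
          _ = ρ h * aeval Y (Pa a) * (ρ h⁻¹ * ρ h) * aeval Y (∏ a ∈ s, Pa a) * ρ h⁻¹ := by rw [hh1]
          _ = _ := by simp only [mul_assoc]
    rw [h5 univ]
    congr 1
    exact Equiv.prod_comp (Equiv.mulLeft c) Pa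

theorem result {G : Type*} [Group G] [Finite G] (p : ℕ) [Fact p.Prime] (P : Sylow p G) (hcyc : IsCyclic P) (n : ℕ) (hn : 2 ≤ n) (hPn : Nat.card P = p ^ n) (hTI : ∀ Q : Sylow p G, Q ≠ P → (P : Subgroup G) ⊓ (Q : Subgroup G) = ⊥) (F : Type*) [Field F] [Finite F] [CharP F p] (V : Type*) [AddCommGroup V] [Module F V] [FiniteDimensional F V] (ρ : Representation F G V) (hfaith : Function.Injective ρ) (hirr : ρ.IsIrreducible) : p ^ n - (p - 1) ≤ Module.finrank F V := by
  classical
  have hp := (Fact.out : p.Prime)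
  haveI : Fintype (Sylow p G) := Fintype.ofFinite _
  set H : Subgroup G := P.toSubgroup with hH
  haveI hcycH : IsCyclic H := hcyc
  haveI : Fintype H := Fintype.ofFinite _
  obtain ⟨x0, hx0⟩ := IsCyclic.exists_generator (α := H)
  have hcard : Nat.card H = p ^ n := hPn
  have horder : orderOf x0 = p ^ n := by
    rw [← hcard]; exact orderOf_eq_card_of_forall_mem_zpowers hx0
  set Y : Module.End F V := ρ (x0 : G) with hY
  set Yi : Module.End F V := ρ (x0 : G)⁻¹ with hYi
  have hYYi : Y * Yi = 1 := by rw [hY, hYi, ← map_mul]; simp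
  have hYiY : Yi * Y = 1 := by rw [hY, hYi, ← map_mul]; simp
  set t : Module.End F V := Y - 1 with ht
  have hYN : Y ^ (p ^ n) = 1 := by
    rw [hY, ← map_pow]
    have : (x0 : G) ^ (p ^ n) = 1 := by
      have h := pow_orderOf_eq_one x0
      rw [horder] at h
      simpa using congrArg Subtype.val h
    rw [this, map_one]
  have htN : t ^ (p ^ n) = 0 := by
    rw [ht, alg_sub_pow (F := F) p n, hYN, sub_self]
  have hex : ∃ k, t ^ k = 0 := ⟨_, htN⟩
  set ℓ := Nat.find hex with hℓdef
  have hℓ : t ^ ℓ = 0 := Nat.find_spec hex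
  have hℓmin : ∀ k, k < ℓ → t ^ k ≠ 0 := fun k hk => Nat.find_min hex hk
  -- `ℓ > p^(n-1)`
  have hℓlarge : p ^ (n - 1) < ℓ := by
    by_contra hcon
    have h1 : t ^ (p ^ (n - 1)) = 0 := pow_eq_zero_of_le (not_lt.mp hcon) hℓ
    rw [ht, alg_sub_pow (F := F) p (n - 1), sub_eq_zero, hY, ← map_pow] at h1
    have h2 : (x0 : G) ^ (p ^ (n - 1)) = 1 := hfaith (by rw [h1, map_one])
    have h3 : orderOf (x0 : G) ∣ p ^ (n - 1) := orderOf_dvd_of_pow_eq_one h2
    have h4 : orderOf (x0 : G) = p ^ n := by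
      rw [← horder]; exact Subgroup.orderOf_coe x0
    rw [h4] at h3
    have := (Nat.pow_dvd_pow_iff_le_right hp.one_lt).mp h3
    omega
  have hpℓ : p < ℓ := by
    have : p ^ 1 ≤ p ^ (n - 1) := Nat.pow_le_pow_right hp.pos (by omega)
    simp only [pow_one] at this
    omega
  -- dimension bound
  have hdim : ℓ ≤ Module.finrank F V := by
    have h1 : IsNilpotent t := ⟨_, hℓ⟩
    have h2 := (LinearMap.isNilpotent_iff_charpoly t).mp h1
    have h3 := LinearMap.aeval_self_charpoly t
    rw [h2] at h3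
    simp only [map_pow, aeval_X] at h3
    by_contra hcon
    exact hℓmin _ (not_le.mp hcon) h3
  by_cases hlt : ℓ < p ^ n
  swap
  · have : p ^ n - (p - 1) ≤ p ^ n := Nat.sub_le _ _
    omega
  set m := p ^ n - ℓ with hm
  have hmpos : 1 ≤ m := by omega
  have hsum : ℓ + m = p ^ n := by omega
  set e := Nat.card H.normalizerMonoidHom.range with he
  have hele : e ≤ p - 1 := card_range_le p P hcyc n (by omega) hPn
  have hepos : 1 ≤ e := Nat.card_pos
  obtain ⟨b, c, d, hb1, hb2, hb3⟩ := exists_b H ρ x0 hx0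
  rw [← he] at hb1 hb2
  have hρ1 : ∀ h : G, ρ h * ρ h⁻¹ = 1 := fun h => by rw [← map_mul]; simp
  have hρ2 : ∀ h : G, ρ h⁻¹ * ρ h = 1 := fun h => by rw [← map_mul]; simp
  -- Sylow-indexed conjugates
  have hexg : ∀ Q : Sylow p G, ∃ g : G, g • P = Q := fun Q => MulAction.exists_smul_eq G P Q
  choose g hg using hexg
  let bQ : Sylow p G → Module.End F V := fun Q => ρ (g Q) * b * ρ (g Q)⁻¹
  have hbQ : ∀ (h : G) (Q : Sylow p G), ρ h * bQ Q * ρ h⁻¹ = bQ (h • Q) := by
    intro h Q
    set g1 := g (h • Q) with hg1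
    set g0 := g Q with hg0
    have hnn : g1⁻¹ * h * g0 ∈ Subgroup.normalizer (H : Set G) := by
      have : (g1⁻¹ * h * g0) • P = P := by
        have h9 : g1 • P = h • Q := hg _
        rw [mul_smul, hg, mul_smul, ← h9, inv_smul_smul]
      exact Sylow.smul_eq_iff_mem_normalizer.mp this
    have h6 := hb3 _ hnn
    have h7 : ρ g1 * ρ (g1⁻¹ * h * g0) = ρ h * ρ g0 := by
      rw [← map_mul, ← map_mul]; congr 1; group
    have h8 : ρ (g1⁻¹ * h * g0)⁻¹ * ρ g1⁻¹ = ρ g0⁻¹ * ρ h⁻¹ := by
      rw [← map_mul, ← map_mul]; congr 1; group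
    show ρ h * (ρ g0 * b * ρ g0⁻¹) * ρ h⁻¹ = ρ g1 * b * ρ g1⁻¹
    conv_rhs => rw [← h6]
    calc ρ h * (ρ g0 * b * ρ g0⁻¹) * ρ h⁻¹ = (ρ h * ρ g0) * b * (ρ g0⁻¹ * ρ h⁻¹) := by
          simp only [mul_assoc]
      _ = (ρ g1 * ρ (g1⁻¹ * h * g0)) * b * (ρ (g1⁻¹ * h * g0)⁻¹ * ρ g1⁻¹) := by rw [h7, h8]
      _ = _ := by simp only [mul_assoc]
  set T : Module.End F V := ∑ Q : Sylow p G, bQ Q with hT
  have hTconj : ∀ h : G, ρ h * T * ρ h⁻¹ = T := by
    intro h
    rw [hT, Finset.mul_sum, Finset.sum_mul]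
    simp_rw [hbQ]
    exact Equiv.sum_comp (MulAction.toPerm h) bQ
  have hTcomm : ∀ h : G, ρ h * T = T * ρ h := by
    intro h
    calc ρ h * T = ρ h * T * (ρ h⁻¹ * ρ h) := by rw [hρ2, mul_one]
      _ = (ρ h * T * ρ h⁻¹) * ρ h := by simp only [mul_assoc]
      _ = T * ρ h := by rw [hTconj]
  have hbP : bQ P = b := by
    apply hb3
    exact Sylow.smul_eq_iff_mem_normalizer.mp (hg P)
  set S : Module.End F V := ∑ Q ∈ (univ : Finset (Sylow p G)).erase P, bQ Q with hS
  have hTS : T = b + S := by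
    rw [hT, hS, ← hbP]
    exact (Finset.add_sum_erase _ _ (mem_univ P)).symm
  -- the submonoid `W`
  let W : AddSubmonoid (Module.End F V) :=
    { carrier := {h | ∀ v, h v ∈ LinearMap.range (t ^ m)}
      zero_mem' := fun v => by simp
      add_mem' := fun ha hb v => by
        simpa using Submodule.add_mem _ (ha v) (hb v) }
  have hSW : S ∈ W := by
    refine sum_mem_of_free (Pg := H) bQ W ?_ _ ?_ ?_
    · intro Q0
      have h1 : ∀ u : H, bQ (u • Q0) = ρ (u : G) * bQ Q0 * ρ (u : G)⁻¹ :=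
        fun u => (hbQ u Q0).symm
      simp_rw [h1]
      have himg := IsCyclic.image_range_card hx0
      rw [hcard] at himg
      rw [← himg, Finset.sum_image]
      · intro v
        have h2 := trace_mem p n ℓ m Y Yi hYYi hYiY hℓ hsum (bQ Q0) v
        have h3 : ∀ i : ℕ, ρ ((x0 ^ i : H) : G) = Y ^ i := by
          intro i; rw [hY, ← map_pow]; simp
        have h4 : ∀ i : ℕ, ρ ((x0 ^ i : H) : G)⁻¹ = Yi ^ i := by
          intro i; rw [hYi, ← map_pow]; simp
        simpa only [h3, h4] using h2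
      · intro i hi j hj hij
        have hi' : i < orderOf x0 := by rw [horder]; simpa using hi
        have hj' : j < orderOf x0 := by rw [horder]; simpa using hj
        exact pow_injOn_Iio_orderOf (Set.mem_Iio.mpr hi') (Set.mem_Iio.mpr hj') hij
    · intro ξ hξ u
      rw [Finset.mem_erase] at hξ ⊢
      refine ⟨fun hu => hξ.1 ?_, mem_univ _⟩
      have hu' : (u : G) • ξ = P := hu
      have h1 : (u : G)⁻¹ ∈ Subgroup.normalizer (H : Set G) :=
        Subgroup.le_normalizer (H.inv_mem u.2)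
      have h2 : (u : G)⁻¹ • P = P := Sylow.smul_eq_iff_mem_normalizer.mpr h1
      calc ξ = (u : G)⁻¹ • ((u : G) • ξ) := (inv_smul_smul _ _).symm
        _ = P := by rw [hu', h2]
    · intro ξ hξ u hu
      rw [Finset.mem_erase] at hξ
      have hu' : (u : G) • ξ = ξ := hu
      have h1 : (u : G) ∈ Subgroup.normalizer (ξ : Set G) :=
        Sylow.smul_eq_iff_mem_normalizer.mp hu'
      have h2 : (u : G) ∈ (P : Subgroup G) ⊓ (Subgroup.normalizer (ξ : Set G)) := ⟨u.2, h1⟩
      rw [IsPGroup.inf_normalizer_sylow P.isPGroup' ξ, hTI ξ hξ.1] at h2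
      exact Subtype.ext (Subgroup.mem_bot.mp h2)
  have hrange1 : ∀ (a : ℕ) (w : V), 1 ≤ a → (t ^ a) w ∈ LinearMap.range t := by
    intro a w ha
    obtain ⟨a', rfl⟩ := Nat.exists_eq_add_of_le' ha
    rw [pow_succ', Module.End.mul_apply]
    exact ⟨_, rfl⟩
  have hTrange : ∀ v, T v ∈ LinearMap.range t := by
    intro v
    rw [hTS, LinearMap.add_apply]
    refine Submodule.add_mem _ ?_ ?_
    · rw [hb1, Module.End.mul_apply]
      exact hrange1 _ _ hepos
    · obtain ⟨w, hw⟩ := hSW v
      rw [← hw]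
      exact hrange1 _ _ hmpos
  have hTzero : T = 0 := by
    let W0 : Subrepresentation ρ :=
      { toSubmodule := LinearMap.range T
        apply_mem_toSubmodule := by
          rintro h _ ⟨w, rfl⟩
          refine ⟨ρ h w, ?_⟩
          have := congrArg (fun z : Module.End F V => z w) (hTcomm h)
          simpa using this.symm }
    rcases hirr.eq_bot_or_eq_top W0 with h0 | h0
    · ext v
      have h1 : T v ∈ W0 := ⟨v, rfl⟩
      rw [h0] at h1
      have h2 : T v ∈ (⊥ : Submodule F V) := h1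
      simpa using h2
    · exfalso
      have hall : ∀ v : V, v ∈ LinearMap.range t := by
        intro v
        have h1 : v ∈ W0 := by
          rw [h0]
          show v ∈ (⊤ : Submodule F V)
          trivial
        obtain ⟨w, rfl⟩ := h1
        exact hTrange w
      have hallk : ∀ (k : ℕ) (v : V), v ∈ LinearMap.range (t ^ k) := by
        intro k
        induction k with
        | zero => intro v; exact ⟨v, by simp⟩
        | succ k ih =>
          intro v
          obtain ⟨w, rfl⟩ := hall v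
          obtain ⟨w', rfl⟩ := ih w
          refine ⟨w', ?_⟩
          rw [pow_succ', Module.End.mul_apply]
      have hV0 : ∀ v : V, v = 0 := by
        intro v
        obtain ⟨w, rfl⟩ := hallk ℓ v
        rw [hℓ]; simp
      apply hℓmin 0 (by omega)
      ext v
      rw [hV0 v]; simp
  have hbS : ∀ v, b v ∈ LinearMap.range (t ^ m) := by
    intro v
    have h1 : b = -S := by
      have := hTS
      rw [hTzero] at this
      exact eq_neg_of_add_eq_zero_left this.symm
    rw [h1, LinearMap.neg_apply]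
    exact Submodule.neg_mem _ (hSW v)
  have hte : ∀ v, (t ^ e) v ∈ LinearMap.range (t ^ m) := by
    intro v
    rw [hb2, Module.End.mul_apply]
    exact hbS _
  have hme : m ≤ e := by
    by_contra hcon
    push Not at hcon
    have h1 : ∀ v, ∃ w, (t ^ e) v = (t ^ (e + 1)) w := by
      intro v
      obtain ⟨w, hw⟩ := hte v
      refine ⟨(t ^ (m - (e + 1))) w, ?_⟩
      rw [← hw, ← Module.End.mul_apply, ← pow_add]
      congr 2
      omega
    have h2 : ∀ (k : ℕ) (v : V), ∃ w, (t ^ e) v = (t ^ (e + k)) w := by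
      intro k
      induction k with
      | zero => intro v; exact ⟨v, rfl⟩
      | succ k ih =>
        intro v
        obtain ⟨w, hw⟩ := ih v
        obtain ⟨w', hw'⟩ := h1 w
        refine ⟨w', ?_⟩
        rw [hw, show e + k = k + e by omega, pow_add, Module.End.mul_apply, hw',
          ← Module.End.mul_apply, ← pow_add]
        congr 2
        omega
    have h3 : t ^ e = 0 := by
      ext v
      obtain ⟨w, hw⟩ := h2 ℓ v
      rw [hw, show e + ℓ = e + ℓ from rfl, pow_add, hℓ]
      simp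
    exact hℓmin e (by omega) h3
  omega

end Cfsg.Agent.S4699
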