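-- Brauer's theorem on perfect groups with a Sylow subgroup of prime order.
import Cfsg.Statements.S4700
import Mathlib
import Cfsg.Agent.Lib.DefectOne.Brauer1np

set_option autoImplicit false
open Cfsg

namespace Cfsg.Agent.S4700

open Cfsg.Agent.Lib.DefectOne Cfsg.Agent.Lib.DefectOne.Brauer1np

/-- Let G be a finite perfect group and p a prime such that a Sylow p-subgroup of G has order p, and write the number of Sylow p-subgroups as 1 + np. Let H = O_p'(G). Then either p > 3 and G/H is isomorphic to PSL(2, p); or p = 2^m + 1 > 3 and G/H is isomorphic to SL(2, 2^m); or n = (hup + u^2 + u + h)/(u + 1) for some positive integers h and u. -/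
theorem result {G : Type*} [Group G] [Finite G] (hperf : commutator G = ⊤) (p : ℕ) [Fact p.Prime] (P : Sylow p G) (hP : Nat.card P = p) (n : ℕ) (hn : Nat.card (Sylow p G) = 1 + n * p) : (∃ (F : Type) (_ : Field F) (_ : Fintype F), Fintype.card F = p ∧ 3 < p ∧ Nonempty (G ⧸ Cfsg.pPrimeCore p G ≃* Matrix.ProjectiveSpecialLinearGroup (Fin 2) F)) ∨ (∃ (m : ℕ) (F : Type) (_ : Field F) (_ : Fintype F), Fintype.card F = 2 ^ m ∧ p = 2 ^ m + 1 ∧ 3 < p ∧ Nonempty (G ⧸ Cfsg.pPrimeCore p G ≃* Matrix.SpecialLinearGroup (Fin 2) F)) ∨ (∃ h u : ℕ, 0 < h ∧ 0 < u ∧ n * (u + 1) = h * u * p + u ^ 2 + u + h) := by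
  classical
  have hp' := (inferInstance : Fact p.Prime).out
  let π : G →* G ⧸ Cfsg.pPrimeCore p G := QuotientGroup.mk' _
  have hπ : Function.Surjective π := QuotientGroup.mk'_surjective _
  have hperfQ : commutator (G ⧸ Cfsg.pPrimeCore p G) = ⊤ := PerfectN1.perfect_of_surjective hπ hperf
  have hcoreQ : pPrimeCore p (G ⧸ Cfsg.pPrimeCore p G) = ⊥ := Cfsg.Agent.Lib.Solvable.PSeries.pPrimeCore_quotient p
  have hcop := Cfsg.Agent.Lib.Solvable.PSeries.pPrimeCore_coprime (G := G) p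
  let Pb : Sylow p (G ⧸ Cfsg.pPrimeCore p G) := P.mapSurjective hπ
  have hPb : (Pb : Subgroup (G ⧸ Cfsg.pPrimeCore p G)) = (P : Subgroup G).map π := Sylow.coe_mapSurjective hπ P
  have hcardb : Nat.card Pb = p := by
    have h1 : Nat.card ((P : Subgroup G).map π) ∣ Nat.card (P : Subgroup G) :=
      Subgroup.card_dvd_of_surjective (π.subgroupMap P) (π.subgroupMap_surjective P)
    rw [show Nat.card (P : Subgroup G) = p from hP] at h1
    have h2 : Nat.card (Pb : Subgroup (G ⧸ Cfsg.pPrimeCore p G)) = Nat.card ((P : Subgroup G).map π) := by rw [hPb]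
    show Nat.card (Pb : Subgroup (G ⧸ Cfsg.pPrimeCore p G)) = p
    rw [h2]
    rcases (Nat.dvd_prime hp').1 h1 with h3 | h3
    · exfalso
      have h4 : (P : Subgroup G).map π = ⊥ := Subgroup.eq_bot_of_card_eq _ h3
      have h5 : (P : Subgroup G) ≤ Cfsg.pPrimeCore p G := by
        intro u hu
        have h6 : π u ∈ (P : Subgroup G).map π := ⟨u, hu, rfl⟩
        rw [h4] at h6
        exact (QuotientGroup.eq_one_iff u).1 (Subgroup.mem_bot.1 h6)
      have h6 : p ∣ Nat.card (Cfsg.pPrimeCore p G) := by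
        have h7 := Subgroup.card_dvd_of_le h5
        rwa [show Nat.card (P : Subgroup G) = p from hP] at h7
      have h7 : Nat.gcd (Nat.card (Cfsg.pPrimeCore p G)) p = 1 := hcop
      have h8 := Nat.dvd_gcd h6 (dvd_refl p)
      rw [h7] at h8
      exact hp'.one_lt.ne' (Nat.dvd_one.1 h8)
    · exact h3
  obtain ⟨nb, hnb⟩ : ∃ nb, Nat.card (Sylow p (G ⧸ Cfsg.pPrimeCore p G)) = 1 + nb * p := by
    have h1 := card_sylow_modEq_one p (G ⧸ Cfsg.pPrimeCore p G)
    have h2 : 1 ≤ Nat.card (Sylow p (G ⧸ Cfsg.pPrimeCore p G)) := Nat.card_pos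
    have h3 : p ∣ Nat.card (Sylow p (G ⧸ Cfsg.pPrimeCore p G)) - 1 := (Nat.modEq_iff_dvd' h2).1 h1.symm
    obtain ⟨k, hk⟩ := h3
    exact ⟨k, by rw [mul_comm, ← hk]; omega⟩
  have hdvd : Nat.card (Sylow p (G ⧸ Cfsg.pPrimeCore p G)) ∣ Nat.card (Sylow p G) := by
    have h1 : Nat.card (Sylow p (G ⧸ Cfsg.pPrimeCore p G)) =
        (Subgroup.normalizer ((Pb : Subgroup (G ⧸ Cfsg.pPrimeCore p G)) : Set (G ⧸ Cfsg.pPrimeCore p G))).index :=
      Sylow.card_eq_index_normalizer Pb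
    have h2 : Nat.card (Sylow p G) = (Subgroup.normalizer ((P : Subgroup G) : Set G)).index :=
      Sylow.card_eq_index_normalizer P
    rw [h1, h2, hPb, ← Subgroup.index_comap_of_surjective _ hπ]
    refine Subgroup.index_dvd_of_le ?_
    intro g hg
    rw [Subgroup.mem_comap]
    exact Subgroup.le_normalizer_map π ⟨g, hg, rfl⟩
  have hgt := one_lt_card_sylow hperfQ Pb hcardb
  by_cases heq : Nat.card (Sylow p (G ⧸ Cfsg.pPrimeCore p G)) = Nat.card (Sylow p G)
  · have hnn : Nat.card (Sylow p (G ⧸ Cfsg.pPrimeCore p G)) = 1 + n * p := by rw [heq, hn]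
    rcases core hperfQ Pb hcardb hcoreQ hnn with ⟨h3, ⟨e⟩⟩ | ⟨m, F, i1, i2, hF, h21, h3, ⟨e1⟩⟩ | h
    · exact Or.inl ⟨ZMod p, inferInstance, inferInstance, ZMod.card p, h3, ⟨e⟩⟩
    · refine Or.inr (Or.inl ⟨m, F, i1, i2, hF, h21, h3, ?_⟩)
      have hm : 1 ≤ m := by
        rcases Nat.eq_zero_or_pos m with h | h
        · rw [h] at h21
          omega
        · exact h
      obtain ⟨e2⟩ := sl_equiv_psl F hm hF
      exact ⟨e1.trans e2.symm⟩
    · exact Or.inr (Or.inr h)
  · refine Or.inr (Or.inr ?_)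
    obtain ⟨W, hW⟩ := hdvd
    have hAB : Nat.card (Sylow p (G ⧸ Cfsg.pPrimeCore p G)) * W = 1 + n * p := by rw [← hW, hn]
    have hWc : (W : ℤ) ≡ ((1 : ℕ) : ℤ) [ZMOD p] := by
      refine (Int.modEq_iff_dvd.2 ⟨(n : ℤ) - nb * W, ?_⟩).symm
      rw [hnb] at hAB
      have h1 : ((1 + nb * p) * W : ℤ) = 1 + n * p := by exact_mod_cast hAB
      push_cast
      linear_combination h1
    obtain ⟨l, hl⟩ := exists_add_mul_of_modEq hp'.one_lt hWc
    have hl1 : 1 ≤ l := by
      rcases Nat.eq_zero_or_pos l with h0 | h0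
      · exfalso
        apply heq
        rw [hW, hl, h0]
        simp
      · exact h0
    exact num_alt hp' hAB (one_dvd _) hl hl1 (by rw [mul_one]; exact hgt)

end Cfsg.Agent.S4700
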