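import Cfsg.Statements.S4701
import Mathlib
import Cfsg.Agent.Lib.DefectOne.PSLOut

set_option autoImplicit false
open Cfsg

namespace Cfsg.Agent.S4701

/-- Let G be a finite perfect group and p a prime dividing the order of G with p^3 larger than the order of G. Suppose a Sylow p-subgroup of G is not normal and G has no normal subgroup of order 2. Then p > 3 and G is isomorphic to PSL(2, p), or to SL(2, 2^m) with p = 2^m + 1. -/
theorem result {G : Type*} [Group G] [Finite G] (hperf : commutator G = ⊤) (p : ℕ) [Fact p.Prime] (hdvd : p ∣ Nat.card G) (hbig : Nat.card G < p ^ 3) (P : Sylow p G) (hP : ¬ (P : Subgroup G).Normal) (h2 : ∀ N : Subgroup G, N.Normal → Nat.card N ≠ 2) : (∃ (F : Type) (_ : Field F) (_ : Fintype F), Fintype.card F = p ∧ 3 < p ∧ Nonempty (G ≃* Matrix.ProjectiveSpecialLinearGroup (Fin 2) F)) ∨ (∃ (m : ℕ) (F : Type) (_ : Field F) (_ : Fintype F), Fintype.card F = 2 ^ m ∧ p = 2 ^ m + 1 ∧ 3 < p ∧ Nonempty (G ≃* Matrix.SpecialLinearGroup (Fin 2) F)) := by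
  classical
  letI : Fintype G := Fintype.ofFinite _
  have hp' := (inferInstance : Fact p.Prime).out
  have hres := Cfsg.Agent.Lib.DefectOne.thmR hperf P hP hdvd hbig
  rcases hres with ⟨h3, f, hf⟩ | ⟨m, F, i1, i2, hF, h21, h3, f, hf⟩
  · left
    refine ⟨ZMod p, inferInstance, inferInstance, ZMod.card p, h3, ?_⟩
    have hc := Cfsg.Agent.Lib.DefectOne.card_psl_zmod (p := p) h3
    have hk := Cfsg.Agent.Lib.DefectOne.card_ker_le hf
    have hle : Nat.card f.ker ≤ 2 := by
      by_contra hgt
      have h3' : 3 ≤ Nat.card f.ker := by omega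
      have h4 : 3 * Nat.card (Matrix.ProjectiveSpecialLinearGroup (Fin 2) (ZMod p)) ≤ Nat.card G := by
        rw [← hk]
        exact Nat.mul_le_mul_right _ h3'
      have h5 : 3 * (p * (p ^ 2 - 1)) < 2 * p ^ 3 := by
        rw [← hc]
        nlinarith
      obtain ⟨q, rfl⟩ : ∃ q, p = q + 4 := ⟨p - 4, by omega⟩
      have h6 : (q + 4) ^ 2 - 1 = (q + 4) ^ 2 - 1 := rfl
      have h7 : (q + 4) ^ 2 = q * q + 8 * q + 16 := by ring
      rw [h7] at h5
      have h8 : q * q + 8 * q + 16 - 1 = q * q + 8 * q + 15 := by omega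
      rw [h8] at h5
      nlinarith
    have hk1 : f.ker = ⊥ := by
      have h0 : Nat.card f.ker ≠ 2 := h2 f.ker inferInstance
      have h1 : Nat.card f.ker = 1 := by
        have : 0 < Nat.card f.ker := Nat.card_pos
        omega
      exact Subgroup.eq_bot_of_card_eq _ h1
    exact Cfsg.Agent.Lib.DefectOne.equiv_of_surj hf hk1
  · right
    refine ⟨m, F, i1, i2, hF, h21, h3, ?_⟩
    have hm : 1 ≤ m := by
      rcases Nat.eq_zero_or_pos m with h | h
      · rw [h] at h21
        omega
      · exact h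
    have hc := Cfsg.Agent.Lib.DefectOne.card_psl_two hm hF
    have hk := Cfsg.Agent.Lib.DefectOne.card_ker_le hf
    have hle : Nat.card f.ker ≤ 2 := by
      by_contra hgt
      have h3' : 3 ≤ Nat.card f.ker := by omega
      have h4 : 3 * Nat.card (Matrix.ProjectiveSpecialLinearGroup (Fin 2) F) ≤ Nat.card G := by
        rw [← hk]
        exact Nat.mul_le_mul_right _ h3'
      rw [hc] at h4
      set q := 2 ^ m with hq
      have h5 : 3 * (q * (q ^ 2 - 1)) < (q + 1) ^ 3 := by
        rw [h21] at hbig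
        omega
      have hq3 : 4 ≤ q := by
        have h6 : q ≠ 3 := by
          rintro h6
          have h7 : 2 ∣ q := by
            rw [hq]
            exact dvd_pow_self 2 (by omega)
          omega
        omega
      obtain ⟨r, hr⟩ : ∃ r, q = r + 4 := ⟨q - 4, by omega⟩
      rw [hr] at h5
      have h7 : (r + 4) ^ 2 = r * r + 8 * r + 16 := by ring
      rw [h7] at h5
      have h8 : r * r + 8 * r + 16 - 1 = r * r + 8 * r + 15 := by omega
      rw [h8] at h5
      nlinarith
    have hk1 : f.ker = ⊥ := by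
      have h0 : Nat.card f.ker ≠ 2 := h2 f.ker inferInstance
      have h1 : Nat.card f.ker = 1 := by
        have : 0 < Nat.card f.ker := Nat.card_pos
        omega
      exact Subgroup.eq_bot_of_card_eq _ h1
    obtain ⟨e1⟩ := Cfsg.Agent.Lib.DefectOne.equiv_of_surj hf hk1
    obtain ⟨e2⟩ := Cfsg.Agent.Lib.DefectOne.sl_equiv_psl F hm hF
    exact ⟨e1.trans e2.symm⟩

end Cfsg.Agent.S4701
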