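import Cfsg.Statements.S4706
import Mathlib
import Cfsg.Agent.Lib.DefectOne.PrimeDegree

set_option autoImplicit false
open Cfsg

namespace Cfsg.Agent.S4706

/-- Let p > 2 be a prime and G a permutation group on p letters whose Sylow p-subgroup P has normalizer of order 2p. Then either P is normal in G, or p − 1 = 2^a for some a and G is isomorphic to SL(2, 2^a). -/
theorem result {α : Type*} [Fintype α] [DecidableEq α] {p : ℕ} [Fact p.Prime] (hp : 2 < p) (hα : Fintype.card α = p) (G : Subgroup (Equiv.Perm α)) (P : Sylow p G) (hN : Nat.card (Subgroup.normalizer ((P : Subgroup G) : Set G)) = 2 * p) : (P : Subgroup G).Normal ∨ ∃ (a : ℕ) (F : Type) (_ : Field F) (_ : Fintype F), p = 2 ^ a + 1 ∧ Fintype.card F = 2 ^ a ∧ Nonempty (G ≃* Matrix.SpecialLinearGroup (Fin 2) F) := by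
  classical
  letI : Fintype G := Fintype.ofFinite _
  have hfaith : ∀ g : G, (∀ a : α, g • a = a) → g = 1 := by
    intro g hg
    apply Subtype.ext
    apply Equiv.ext
    intro a
    exact hg a
  rcases Cfsg.Agent.Lib.DefectOne.primeDeg_main (Γ := G) (α := α) (by rw [Nat.card_eq_fintype_card, hα]) hfaith hp P hN with h | ⟨m, F, i1, i2, hF, h21, h3, ⟨ψ⟩⟩
  · exact Or.inl h
  · right
    have hm : 1 ≤ m := by
      rcases Nat.eq_zero_or_pos m with h | h
      · rw [h] at h21
        omega
      · exact h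
    obtain ⟨e⟩ := Cfsg.Agent.Lib.DefectOne.sl_equiv_psl F hm hF
    exact ⟨m, F, i1, i2, h21, hF, ⟨ψ.trans e.symm⟩⟩

end Cfsg.Agent.S4706
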