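import Cfsg.Statements.S4707
import Cfsg.Agent.Lib.DefectOne.Degree2p

set_option autoImplicit false
open Cfsg

namespace Cfsg.Agent.S4707

/-- Let p > 3 be a prime and G a primitive permutation group of degree 2p that is not doubly transitive. If a Sylow p-subgroup of G has normalizer of order 2p, then p = 5 and G is isomorphic to the alternating group of degree 5. -/
theorem result {α : Type*} [Fintype α] [DecidableEq α] {p : ℕ} [Fact p.Prime] (hp : 3 < p) (hα : Fintype.card α = 2 * p) (G : Subgroup (Equiv.Perm α)) (hprim : MulAction.IsPreprimitive G α) (hnot2 : ¬ MulAction.IsMultiplyPretransitive G α 2) (P : Sylow p G) (hN : Nat.card (Subgroup.normalizer ((P : Subgroup G) : Set G)) = 2 * p) : p = 5 ∧ Nonempty (G ≃* alternatingGroup (Fin 5)) := by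
  classical
  letI : Fintype G := Fintype.ofFinite _
  refine Cfsg.Agent.Lib.DefectOne.deg2p_main (α := α) (by rw [Nat.card_eq_fintype_card, hα]) ?_ hp hprim hnot2 P hN
  intro g hg
  apply Subtype.ext
  apply Equiv.ext
  intro a
  exact hg a

end Cfsg.Agent.S4707
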