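import Mathlib
import Cfsg.Agent.Lib.Blocks.AbFrob3

set_option autoImplicit false
open Cfsg

namespace Cfsg.Agent.S4709

open Cfsg.Agent.Lib.Blocks.AbFrob

set_option maxHeartbeats 1000000 in
theorem result {G : Type*} [Group G] [Finite G] (p : ℕ) [Fact p.Prime] (M : Ideal Cfsg.AlgInt) (hM : Cfsg.IsPModular p M) (P : Sylow p G) (hab : IsMulCommutative P) (hP1 : Nat.card P ≠ 1) (m : ℕ) (hm1 : 1 < m) (hm2 : m + 1 < Nat.card P) (hCN : (Subgroup.centralizer ((P : Subgroup G) : Set G)).relIndex (Subgroup.normalizer ((P : Subgroup G) : Set G)) = m) (hcyc : ∃ g : G, g ∈ Subgroup.normalizer ((P : Subgroup G) : Set G) ∧ Subgroup.centralizer ((P : Subgroup G) : Set G) ⊔ Subgroup.zpowers g = Subgroup.normalizer ((P : Subgroup G) : Set G)) (hfrob : ∀ y : G, y ∈ (P : Subgroup G) → y ≠ 1 → Subgroup.centralizer ({y} : Set G) ⊓ Subgroup.normalizer ((P : Subgroup G)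 : Set G) = Subgroup.centralizer ((P : Subgroup G) : Set G)) : ∃ (s : ℕ) (X Y : Set (Cfsg.IrrCharacter G)), s ≤ m ∧ Cfsg.principalBlock M G = X ∪ Y ∧ Disjoint X Y ∧ Nat.card X = s ∧ Nat.card Y = (Nat.card P - 1) / m ∧ (∃ χ₁ ∈ X, (χ₁ : G → ℂ) = fun _ => 1) ∧ ∃ (a : Cfsg.IrrCharacter G → ℤ) (d δ : ℤ) (ζ : (↥(P : Subgroup G) →* ℂˣ) → Cfsg.IrrCharacter G), (δ = 1 ∨ δ = -1) ∧ (∀ χ ∈ X, a χ ≠ 0 ∧ ∀ z y : G, Cfsg.IsPPart p z y → y ∈ (P : Subgroup G) → y ≠ 1 → (χ : G → ℂ) z = (a χ : ℂ)) ∧ (∀ ψ : ↥(P : Subgroup G) →* ℂˣ, ψ ≠ 1 → ζ ψ ∈ Y) ∧ (∀ η ∈ Y, ∃ ψ : ↥(P : Subgroup G) →* ℂˣ, ψ ≠ 1 ∧ ζ ψ = η) ∧ (∀ ψ ψ' : ↥(P : Subgroup G) →* ℂˣ, ψ ≠ 1 → (∃ n : G, n ∈ Subgroup.normalizer ((P : Subgroup G) : Set G) ∧ ∀ w w' : ↥(P : Subgroup G), (w' : G) = n * w * n⁻¹ → ψ' w' = ψ w) → ζ ψ' = ζ ψ) ∧ (∀ ψ : ↥(P : Subgroup G) →* ℂˣ, ψ ≠ 1 → ∀ (z : G) (y : ↥(P : Subgroup G)), Cfsg.IsPPart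 p z (y : G) → (y : G) ≠ 1 → (ζ ψ : G → ℂ) z = (d : ℂ) + (δ : ℂ) * ∑ᶠ ψ' ∈ {ψ' : ↥(P : Subgroup G) →* ℂˣ | ∃ n : G, n ∈ Subgroup.normalizer ((P : Subgroup G) : Set G) ∧ ∀ w w' : ↥(P : Subgroup G), (w' : G) = n * w * n⁻¹ → ψ' w' = ψ w}, ((ψ' y : ℂˣ) : ℂ)) ∧ ((d - δ) ^ 2 + ((Nat.card P - 1) / m - 1 : ℤ) * d ^ 2 + ∑ᶠ χ ∈ X, a χ ^ 2 = (m : ℤ) + 1) ∧ (∀ η ∈ Y, ∀ η' ∈ Y, ∀ g : G, ¬ p ∣ orderOf g → (η : G → ℂ) g = (η' : G → ℂ) g) ∧ (∀ η ∈ Y, ∀ g : G, ¬ p ∣ orderOf g → ((((Nat.card P - 1) / m : ℕ) : ℂ) * d - δ) * (η : G → ℂ) g + ∑ᶠ χ ∈ X, (a χ : ℂ) * (χ : G → ℂ) g = 0) := by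
  classical
  letI : Fintype G := Fintype.ofFinite G
  letI : Fintype (P : Subgroup G) := Fintype.ofFinite _
  have H : Hyp P m := ⟨hab, hCN, hfrob⟩
  have hA : ∀ a b : ↥(P : Subgroup G), a * b = b * a := fun a b => Subtype.ext (H.comm a.2 b.2)
  haveI : Finite (↥(P : Subgroup G) →* ℂˣ) := finite_dual hA
  letI : Fintype (↥(P : Subgroup G) →* ℂˣ) := Fintype.ofFinite _
  haveI hMp : M.IsPrime := hM.2.1.isPrime
  have hm0 : m ≠ 0 := by omega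
  have hm2' : m + 1 < Nat.card (P : Subgroup G) := hm2
  obtain ⟨ε, d, a, f, D⟩ := H.exists_data hM hm0 hm2'
  have hcard : Nat.card (TT P) * m = Nat.card (P : Subgroup G) - 1 := H.card_TT_mul
  haveI hfT : Finite (TT P) := finite_TT
  have hT2 : 1 < Nat.card (TT P) := by
    by_contra hc
    have h1 : Nat.card (TT P) * m ≤ 1 * m := Nat.mul_le_mul_right _ (not_lt.1 hc)
    omega
  obtain ⟨s₀, t₀, hst⟩ := (Finite.one_lt_card_iff_nontrivial.1 hT2).exists_pair_ne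
  have hT : ∀ t : TT P, ∃ s : TT P, s ≠ t := by
    intro t
    by_cases h : s₀ = t
    · exact ⟨t₀, fun h' => hst (h.trans h'.symm)⟩
    · exact ⟨s₀, h⟩
  have hr : (Nat.card (P : Subgroup G) - 1) / m = Nat.card (TT P) := by
    rw [← hcard]
    exact Nat.mul_div_cancel _ (by omega)
  have hrZ : (((Nat.card P : ℤ) - 1) / (m : ℤ)) = (Nat.card (TT P) : ℤ) := by
    apply Int.ediv_eq_of_eq_mul_left (by exact_mod_cast hm0)
    have h1 : Nat.card P = Nat.card (TT P) * m + 1 := by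
      have h2 : Nat.card (P : Subgroup G) = Nat.card P := rfl
      omega
    rw [h1]
    push_cast
    ring
  have hy₀ : ∃ y₀ : ↥(P : Subgroup G), y₀ ≠ 1 := by
    by_contra hc
    push Not at hc
    apply hP1
    have : Subsingleton ↥(P : Subgroup G) := ⟨fun a b => by rw [hc a, hc b]⟩
    exact Nat.card_of_subsingleton (1 : ↥(P : Subgroup G))
  obtain ⟨y₀, hy₀⟩ := hy₀
  have hnorm := D.norm hM H hm0 s₀
  have hXset : ∀ χ : IrrCharacter G, χ ∈ ((XF M f : Finset _) : Set _) ↔ χ ∈ XF M f := fun χ => Finset.mem_coe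
  have hne : ∀ χ ∈ XF M f, a χ ≠ 0 := fun χ hχ => D.a_ne_zero hM H hm0 hχ hy₀
  have hX_le : (XF M f).card ≤ m := by
    have h1 : ((XF M f).card : ℤ) ≤ ∑ χ ∈ XF M f, a χ ^ 2 := by
      have : ∑ χ ∈ XF M f, (1 : ℤ) ≤ ∑ χ ∈ XF M f, a χ ^ 2 := by
        refine Finset.sum_le_sum fun χ hχ => ?_
        have := hne χ hχ
        have h2 : 0 < a χ ^ 2 := by positivity
        omega
      simpa using this
    have h3 : (1 : ℤ) ≤ (d - ε) ^ 2 + ((Nat.card (TT P) : ℤ) - 1) * d ^ 2 := by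
      have h4 : (1 : ℤ) ≤ (Nat.card (TT P) : ℤ) - 1 := by
        have : (2 : ℤ) ≤ (Nat.card (TT P) : ℤ) := by exact_mod_cast hT2
        omega
      by_cases hd : d = 0
      · subst hd
        rcases D.hε with h | h <;> rw [h] <;> norm_num
      · have h5 : 1 ≤ d ^ 2 := by
          have : 0 < d ^ 2 := by positivity
          omega
        nlinarith [sq_nonneg (d - ε)]
    have : ((XF M f).card : ℤ) ≤ m := by linarith
    exact_mod_cast this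
  have horb : ∀ ψ : ↥(P : Subgroup G) →* ℂˣ, orb ψ = ((orbF ψ : Finset _) : Set _) := by
    intro ψ
    ext φ
    simp
  let ζ : (↥(P : Subgroup G) →* ℂˣ) → IrrCharacter G := fun ψ =>
    if h : ψ ≠ 1 then f (tOf ψ h) else f s₀
  have hζ : ∀ ψ (h : ψ ≠ 1), ζ ψ = f (tOf ψ h) := fun ψ h => by
    simp only [ζ]
    rw [dif_pos h]
  refine ⟨(XF M f).card, ((XF M f : Finset _) : Set _), Set.range f, hX_le, ?_, ?_, ?_, ?_, ?_, a, d, ε, ζ, D.hε, ?_, ?_, ?_, ?_, ?_, ?_, ?_, ?_⟩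
  · ext χ
    simp only [Set.mem_union, Finset.mem_coe, mem_XF, Set.mem_range]
    constructor
    · intro h
      by_cases h2 : ∃ t, f t = χ
      · exact Or.inr h2
      · exact Or.inl ⟨h, h2⟩
    · rintro (h | ⟨t, rfl⟩)
      · exact h.1
      · exact D.hfB t
  · rw [Set.disjoint_left]
    intro χ h1 h2
    exact (mem_XF.1 (Finset.mem_coe.1 h1)).2 h2
  · rw [Nat.card_coe_set_eq, Set.ncard_coe_finset]
  · rw [Nat.card_range_of_injective D.hinj]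
    exact hr.symm
  · refine ⟨Cfsg.Agent.Lib.Blocks.Principal.trivChar G, ?_, rfl⟩
    exact Finset.mem_coe.2 (mem_XF.2 ⟨Cfsg.Agent.Lib.Blocks.Principal.trivChar_mem_principalBlock,
      D.triv_notMem H hm0 hT⟩)
  · intro χ hχ
    refine ⟨hne χ hχ, fun z y hz hy hy1 => ?_⟩
    rw [H.apply_of_isPPart hM hz hy hy1 (mem_XF.1 (Finset.mem_coe.1 hχ)).1]
    exact D.value_X H hm0 hχ (y := ⟨y, hy⟩) (fun h => hy1 (congrArg Subtype.val h))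
  · intro ψ hψ
    rw [hζ ψ hψ]
    exact ⟨_, rfl⟩
  · rintro _ ⟨t, rfl⟩
    obtain ⟨ψ, hψ, ht⟩ := t.2
    refine ⟨ψ, hψ, ?_⟩
    rw [hζ ψ hψ]
    congr 1
    exact Subtype.ext ht.symm
  · intro ψ ψ' hψ h
    have h' : ψ' ∈ orb ψ := h
    rw [hζ ψ hψ, hζ ψ' (ne_one_of_mem_orb h' hψ)]
    congr 1
    exact Subtype.ext (theta_eq_of_mem h')
  · intro ψ hψ z y hz hy1
    have hy' : y ≠ 1 := fun h => hy1 (congrArg Subtype.val h)
    rw [H.apply_of_isPPart hM hz y.2 hy1 (by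
      rw [hζ ψ hψ]
      exact D.hfB _), hζ ψ hψ, D.value_Y H hm0 _ hy']
    congr 2
    have h1 : {ψ' : ↥(P : Subgroup G) →* ℂˣ | ∃ n : G, n ∈ Subgroup.normalizer ((P : Subgroup G) : Set G) ∧ ∀ w w' : ↥(P : Subgroup G), (w' : G) = n * w * n⁻¹ → ψ' w' = ψ w} = ((orbF ψ : Finset _) : Set _) := horb ψ
    rw [h1, finsum_mem_coe_finset]
    rfl
  · rw [finsum_mem_coe_finset]
    have h1 : ((Nat.card P : ℤ) - 1) / (m : ℤ) - 1 = (Nat.card (TT P) : ℤ) - 1 := by rw [hrZ]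
    rw [h1]
    exact hnorm
  · rintro _ ⟨s, rfl⟩ _ ⟨t, rfl⟩ g hg
    exact D.reg_eq hM hg s t
  · rintro _ ⟨s, rfl⟩ g hg
    rw [finsum_mem_coe_finset]
    have h1 : (Nat.card P - 1) / m = Nat.card (TT P) := hr
    rw [h1]
    exact D.reg_rel hM hg s

end Cfsg.Agent.S4709
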