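import Cfsg.Statements.S4711
import Mathlib
import Cfsg.Agent.Lib.Char.B0Core
import Cfsg.Agent.Lib.Blocks.WeakOrth
import Cfsg.Agent.Lib.Blocks.Kernel
import Cfsg.Agent.Lib.Coprime.SZ
import Cfsg.Agent.Lib.Solvable.PSeries

set_option autoImplicit false
set_option linter.style.haveILetI false
set_option linter.unusedSectionVars false
set_option linter.unusedVariables false
open Cfsg

namespace Cfsg.Agent.S4711

open Cfsg.Agent.Lib.Coprime.SZ Cfsg.Agent.Lib.Solvable.PSeries Cfsg.Agent.Lib.Basic.PCore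
open Cfsg.Agent.Lib.Blocks.Kernel
open scoped ComplexConjugate

lemma relIndex_sup_eq {X : Type*} [Group X] [Finite X] (Q A : Subgroup X) [Q.Normal]
    (h : (Nat.card Q).Coprime (Nat.card A)) : Q.relIndex (Q ⊔ A) = Nat.card A := by
  rw [Subgroup.relIndex_sup_left]
  have h1 : Q ⊓ A = ⊥ := inf_eq_bot_of_coprime_card h
  rw [← Subgroup.inf_relIndex_right, h1, Subgroup.relIndex_bot_left]

/-- Every `p`-regular element is conjugate into a complement of a normal `p`-subgroup. -/
theorem conj_into_complement {X : Type*} [Group X] [Finite X] (p : ℕ) [Fact p.Prime]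
    (Q K : Subgroup X) [Q.Normal] (hQ : IsPGroup p Q) (hsup : Q ⊔ K = ⊤) (hK : ¬ p ∣ Nat.card K)
    (n : X) (hn : ¬ p ∣ orderOf n) : ∃ x : X, x * n * x⁻¹ ∈ K := by
  classical
  obtain ⟨m, hm⟩ := IsPGroup.iff_card.1 hQ
  have hpc : ∀ A : Subgroup X, ¬ p ∣ Nat.card A → (Nat.card Q).Coprime (Nat.card A) := by
    intro A hA
    rw [hm]
    exact Nat.Coprime.pow_left _ ((Nat.Prime.coprime_iff_not_dvd Fact.out).2 hA)
  set L : Subgroup X := Q ⊔ Subgroup.zpowers n with hL
  set K₀ : Subgroup X := K ⊓ L with hK₀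
  have hK₀p : ¬ p ∣ Nat.card K₀ := fun h =>
    hK (h.trans (Subgroup.card_dvd_of_le inf_le_left))
  have hzp : ¬ p ∣ Nat.card (Subgroup.zpowers n) := by
    rw [Nat.card_zpowers]
    exact hn
  have hQL : Q ≤ L := le_sup_left
  have hL' : L = Q ⊔ K₀ := by
    apply le_antisymm
    · intro x hx
      have hx' : x ∈ Q ⊔ K := by
        rw [hsup]
        trivial
      obtain ⟨q, hq, k, hk, rfl⟩ := Subgroup.mem_sup_of_normal_left.1 hx'
      have hkL : k ∈ L := by
        have := L.mul_mem (L.inv_mem (hQL hq)) hx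
        simpa using this
      exact Subgroup.mul_mem_sup hq ⟨hk, hkL⟩
    · exact sup_le hQL inf_le_right
  have h1 : Q.relIndex L = orderOf n := by
    rw [hL, relIndex_sup_eq Q _ (hpc _ hzp), Nat.card_zpowers]
  have h2 : Q.relIndex L = Nat.card K₀ := by
    rw [hL', relIndex_sup_eq Q _ (hpc _ hK₀p)]
  haveI hQ' : (Q.subgroupOf L).Normal := inferInstance
  have hc1 : Nat.card (Q.subgroupOf L) = Nat.card Q := card_subgroupOf_of_le hQL
  haveI : Group.IsSolvable (Q.subgroupOf L) := by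
    have : IsPGroup p (Q.subgroupOf L) := IsPGroup.iff_card.2 ⟨m, hc1.trans hm⟩
    haveI := this.isNilpotent
    infer_instance
  have hcop : (Nat.card (Q.subgroupOf L)).Coprime (Q.subgroupOf L).index := by
    rw [hc1]
    show (Nat.card Q).Coprime (Q.relIndex L)
    rw [h1, ← Nat.card_zpowers]
    exact hpc _ hzp
  have hA : Nat.card ((Subgroup.zpowers n).subgroupOf L) = (Q.subgroupOf L).index := by
    rw [card_subgroupOf_of_le (le_sup_right : Subgroup.zpowers n ≤ L), Nat.card_zpowers]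
    exact h1.symm
  have hB : Nat.card (K.subgroupOf L) = (Q.subgroupOf L).index := by
    rw [card_subgroupOf_eq_card_inf]
    exact h2.symm
  obtain ⟨g, hg⟩ := conj_of_solvable_normal (Q.subgroupOf L) hcop _ _ hA hB
  have hnL : n ∈ L := (le_sup_right : Subgroup.zpowers n ≤ L) (Subgroup.mem_zpowers n)
  have h3 : (⟨n, hnL⟩ : L) ∈ (Subgroup.zpowers n).subgroupOf L :=
    Subgroup.mem_subgroupOf.2 (Subgroup.mem_zpowers n)
  have h4 : g * ⟨n, hnL⟩ * g⁻¹ ∈ K.subgroupOf L := by
    rw [← hg, mem_conj_smul]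
    simpa [mul_assoc] using h3
  exact ⟨g, Subgroup.mem_subgroupOf.1 h4⟩

section Char

variable {G : Type*} [Group G] [Fintype G] {p : ℕ} [Fact p.Prime] {M : Ideal Cfsg.AlgInt}
  [M.IsPrime]

open Classical in
/-- `Σ_{ψ ∈ B₀} conj ψ(y) ψ`. -/
noncomputable def AA (M : Ideal Cfsg.AlgInt) (y g : G) : ℂ :=
  ∑ ψ ∈ Finset.univ.filter (· ∈ principalBlock M G), conj ((ψ : G → ℂ) y) * (ψ : G → ℂ) g

lemma AA_eq_zero (hM : IsPModular p M) {y g : G} (hy : ¬ p ∣ orderOf y) (hg : p ∣ orderOf g) :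
    AA M y g = 0 := by
  classical
  have hloc : ∀ g : G, MemLocalRing M (blockCoeff (principalBlock M G) g) :=
    fun g => Cfsg.Agent.Lib.Blocks.Osima.memLocalRing_blockCoeff
      (Cfsg.Agent.Lib.Blocks.Principal.isPBlock_principalBlock M) g
  have h1 := Cfsg.Agent.Lib.Blocks.WeakOrth.sum_eq_zero_of_idempotent hM (principalBlock M G)
      (Cfsg.Agent.Lib.Blocks.Osima.blockElt_mul_self _) hloc y g hy hg
  rw [Cfsg.Agent.Lib.Blocks.Osima.finsum_mem_eq_sum_filter] at h1
  have h2 := congrArg (starRingEnd ℂ) h1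
  rw [map_sum, map_zero] at h2
  rw [AA]
  convert h2 using 2
  rw [map_mul, Complex.conj_conj, mul_comm]

variable (N : Subgroup G) [Fintype N]

/-- The functional `f ↦ [f, (A_y)_N]`. -/
noncomputable def LL (M : Ideal Cfsg.AlgInt) (y : G) (f : N → ℂ) : ℂ :=
  classInner f (fun n : N => AA M y (n : G))

open Classical in
lemma LL_eq (y : G) (f : N → ℂ) :
    LL N M y f = ∑ ψ ∈ Finset.univ.filter (· ∈ principalBlock M G),
      (ψ : G → ℂ) y * classInner f (fun n : N => (ψ : G → ℂ) n) := by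
  simp only [LL, AA, classInner, map_sum, map_mul, Complex.conj_conj, Finset.mul_sum]
  rw [Finset.sum_comm]
  refine Finset.sum_congr rfl fun ψ _ => ?_
  refine Finset.sum_congr rfl fun n _ => ?_
  ring

open Classical in
/-- The block characters lying over `θ`. -/
noncomputable def SS (M : Ideal Cfsg.AlgInt) (θ : IrrCharacter N) : Finset (IrrCharacter G) :=
  Finset.univ.filter fun ψ => ψ ∈ principalBlock M G ∧ (fun n : N => (ψ : G → ℂ) n) = (θ : N → ℂ)

variable {N}

lemma LL_irr (h : ∀ χ ∈ principalBlock M G, IsIrrCharacter N (fun n : N => (χ : G → ℂ) n))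
    (y : G) (θ : IrrCharacter N) :
    LL N M y (θ : N → ℂ) = ∑ ψ ∈ SS N M θ, (ψ : G → ℂ) y := by
  classical
  rw [LL_eq, SS, Finset.sum_filter, Finset.sum_filter]
  refine Finset.sum_congr rfl fun ψ _ => ?_
  by_cases hψ : ψ ∈ principalBlock M G
  · rw [if_pos hψ, Cfsg.Agent.Lib.Char.Ortho.classInner_irr θ.2 (h ψ hψ)]
    by_cases h2 : (fun n : N => (ψ : G → ℂ) n) = (θ : N → ℂ)
    · rw [if_pos h2.symm, if_pos ⟨hψ, h2⟩, mul_one]
    · rw [if_neg (fun h3 => h2 h3.symm), if_neg (fun h3 => h2 h3.2), mul_zero]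
  · rw [if_neg hψ, if_neg (fun h3 => hψ h3.1)]

/-- The core of the backward implication. -/
theorem core (hM : IsPModular p M)
    (h : ∀ χ ∈ principalBlock M G, IsIrrCharacter N (fun n : N => (χ : G → ℂ) n))
    (Q K : Subgroup N) [Q.Normal] (hQ : IsPGroup p Q) (hsup : Q ⊔ K = ⊤) (hK : ¬ p ∣ Nat.card K)
    [Fintype K]
    (ret : N →* K) (hret : ∀ k : K, ret k = k) (hretQ : ∀ q ∈ Q, ret q = 1)
    (H : Subgroup G) [H.Normal] (hNH : N ⊔ H = ⊤)
    (hHker : ∀ ψ : IrrCharacter G, (∀ q ∈ Q, (ψ : G → ℂ) ((q : N) : G) = (ψ : G → ℂ) 1) →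
      ∀ g ∈ H, (ψ : G → ℂ) g = (ψ : G → ℂ) 1)
    (χ : IrrCharacter G) (hχ : χ ∈ principalBlock M G) (y : G) (hy : y ∈ H)
    (hyr : ¬ p ∣ orderOf y) : (χ : G → ℂ) y = (χ : G → ℂ) 1 := by
  classical
  have hretS : Function.Surjective ret := fun k => ⟨k, hret k⟩
  let That : IrrCharacter K → IrrCharacter N := fun T =>
    ⟨(T : K → ℂ) ∘ ret, Cfsg.Agent.Lib.Char.Basic.isIrrCharacter_comp_surjective T.2 ret hretS⟩
  have hThat : ∀ (T : IrrCharacter K) (n : N), (That T : N → ℂ) n = (T : K → ℂ) (ret n) :=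
    fun _ _ => rfl
  -- Step 1
  have step1 : ∀ (T : IrrCharacter K) (ψ : IrrCharacter G), ψ ∈ SS N M (That T) →
      ∀ g ∈ H, (ψ : G → ℂ) g = (ψ : G → ℂ) 1 := by
    intro T ψ hψ
    have hψ2 : (fun n : N => (ψ : G → ℂ) n) = (That T : N → ℂ) := (Finset.mem_filter.1 hψ).2.2
    apply hHker
    intro q hq
    have h1 := congrFun hψ2 q
    have h2 := congrFun hψ2 1
    simp only [hThat, hretQ q hq, map_one, OneMemClass.coe_one] at h1 h2
    rw [h1, h2]
  -- Step 2
  have step2 : ∀ T : IrrCharacter K, (SS N M (That T)).card ≤ 1 := by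
    intro T
    refine Finset.card_le_one.2 fun a ha b hb => ?_
    apply Subtype.ext
    funext g
    have hg : g ∈ N ⊔ H := by
      rw [hNH]
      trivial
    obtain ⟨n, hn, k, hk, rfl⟩ := Subgroup.mem_sup_of_normal_right.1 hg
    rw [Cfsg.Agent.Lib.Blocks.PrincipalCen.irr_mul_of_kernel a.2 (step1 T a ha k hk),
      Cfsg.Agent.Lib.Blocks.PrincipalCen.irr_mul_of_kernel b.2 (step1 T b hb k hk)]
    have h1 := congrFun (Finset.mem_filter.1 ha).2.2 ⟨n, hn⟩
    have h2 := congrFun (Finset.mem_filter.1 hb).2.2 ⟨n, hn⟩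
    exact h1.trans h2.symm
  -- Step 3
  have step3 : ∀ θ : IrrCharacter N, ∃ c : IrrCharacter K → ℕ,
      (∀ z : G, ¬ p ∣ orderOf z → LL N M z (θ : N → ℂ) =
        ∑ T, (c T : ℂ) * LL N M z (That T : N → ℂ)) ∧
      (θ : N → ℂ) 1 = ∑ T, (c T : ℂ) * (T : K → ℂ) 1 := by
    intro θ
    obtain ⟨c, hc⟩ := Cfsg.Agent.Lib.Char.Ortho.exists_nat_decomp
      (Cfsg.Agent.Lib.Char.Basic.isCharacter_restrict
        (Cfsg.Agent.Lib.Char.Basic.isCharacter_of_isIrrCharacter θ.2) K)
    have hc1 : ∀ k : K, (θ : N → ℂ) k = ∑ T, (c T : ℂ) * (T : K → ℂ) k := by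
      intro k
      have := congrFun hc k
      simpa [Finset.sum_apply] using this
    refine ⟨c, ?_, ?_⟩
    · intro z hz
      have h2 : LL N M z (θ : N → ℂ) = LL N M z (∑ T, c T • (That T : N → ℂ)) := by
        unfold LL classInner
        congr 1
        refine Finset.sum_congr rfl fun n _ => ?_
        by_cases hn : p ∣ orderOf (n : G)
        · show _ * conj (AA M z (n : G)) = _ * conj (AA M z (n : G))
          rw [AA_eq_zero hM hz hn]
          simp
        · have hn' : ¬ p ∣ orderOf n := by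
            rwa [Subgroup.orderOf_coe] at hn
          obtain ⟨x, hx⟩ := conj_into_complement p Q K hQ hsup hK n hn'
          have h3 : (θ : N → ℂ) n = (θ : N → ℂ) (x * n * x⁻¹) :=
            (Cfsg.Agent.Lib.Blocks.Central.isClassFunction_of_irr θ.2 n x).symm
          have h4 : ∀ T : IrrCharacter K, (That T : N → ℂ) n = (T : K → ℂ) ⟨_, hx⟩ := by
            intro T
            have h5 : (That T : N → ℂ) (x * n * x⁻¹) = (That T : N → ℂ) n :=
              Cfsg.Agent.Lib.Blocks.Central.isClassFunction_of_irr (That T).2 n x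
            rw [← h5, hThat]
            exact congrArg _ (hret ⟨_, hx⟩)
          have h6 : (∑ T, c T • (That T : N → ℂ)) n = ∑ T, (c T : ℂ) * (T : K → ℂ) ⟨_, hx⟩ := by
            rw [Finset.sum_apply]
            refine Finset.sum_congr rfl fun T _ => ?_
            rw [Pi.smul_apply, h4, nsmul_eq_mul]
          rw [h6, ← hc1 ⟨_, hx⟩, h3]
      rw [h2]
      unfold LL
      rw [Cfsg.Agent.Lib.Char.Ortho.classInner_sum_left]
      refine Finset.sum_congr rfl fun T _ => ?_
      rw [Cfsg.Agent.Lib.Char.Ortho.classInner_nsmul_left]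
    · have := hc1 1
      simpa using this
  -- Step 4
  have hone : ¬ p ∣ orderOf (1 : G) := by
    rw [orderOf_one]
    exact (Fact.out : p.Prime).one_lt.ne' ∘ Nat.dvd_one.1
  have hdeg : ∀ (θ : IrrCharacter N), ∀ ψ ∈ SS N M θ, (ψ : G → ℂ) 1 = (θ : N → ℂ) 1 := by
    intro θ ψ hψ
    have := congrFun (Finset.mem_filter.1 hψ).2.2 1
    simpa using this
  have hL1 : ∀ θ : IrrCharacter N, LL N M 1 (θ : N → ℂ) = ((SS N M θ).card : ℂ) * (θ : N → ℂ) 1 := by
    intro θ
    rw [LL_irr h, Finset.sum_congr rfl (hdeg θ), Finset.sum_const, nsmul_eq_mul]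
  set θ : IrrCharacter N := ⟨_, h χ hχ⟩ with hθ
  have hχθ : χ ∈ SS N M θ := Finset.mem_filter.2 ⟨Finset.mem_univ _, hχ, rfl⟩
  obtain ⟨c, hc1, hc2⟩ := step3 θ
  choose d hd0 hd using fun T : IrrCharacter K => Cfsg.Agent.Lib.Char.Ortho.irr_degree_pos T.2
  obtain ⟨dθ, hdθ0, hdθ⟩ := Cfsg.Agent.Lib.Char.Ortho.irr_degree_pos θ.2
  have h1 : (SS N M θ).card ≤ 1 := by
    have h2 := hc1 1 hone
    rw [hL1, hdθ] at h2
    simp only [hL1, hThat, map_one, hd] at h2
    have h3 : (SS N M θ).card * dθ = ∑ T, c T * ((SS N M (That T)).card * d T) := by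
      exact_mod_cast h2
    have h4 : dθ = ∑ T, c T * d T := by
      rw [hdθ] at hc2
      simp only [hd] at hc2
      exact_mod_cast hc2
    have h5 : (SS N M θ).card * dθ ≤ dθ := by
      rw [h3]
      refine le_trans ?_ h4.ge
      refine Finset.sum_le_sum fun T _ => ?_
      refine Nat.mul_le_mul_left _ ?_
      calc (SS N M (That T)).card * d T ≤ 1 * d T := Nat.mul_le_mul_right _ (step2 T)
        _ = d T := one_mul _
    exact Nat.le_of_mul_le_mul_right (by simpa using h5) hdθ0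
  have hS : SS N M θ = {χ} := by
    exact Finset.eq_singleton_iff_unique_mem.2 ⟨hχθ, fun a ha => Finset.card_le_one.1 h1 a ha χ hχθ⟩
  have hLy : ∀ z, LL N M z (θ : N → ℂ) = (χ : G → ℂ) z := by
    intro z
    rw [LL_irr h, hS, Finset.sum_singleton]
  rw [← hLy y, ← hLy 1, hc1 y hyr, hc1 1 hone]
  refine Finset.sum_congr rfl fun T _ => ?_
  congr 1
  rw [LL_irr h, LL_irr h]
  exact Finset.sum_congr rfl fun ψ hψ => step1 T ψ hψ y hy

end Char

/-- Final group theory of the backward implication. -/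
theorem pLength_of {G : Type*} [Group G] [Finite G] {p : ℕ} [Fact p.Prime] (P : Sylow p G)
    (H : Subgroup G) [H.Normal] (hPH : (P : Subgroup G) ≤ H)
    (hreg : ∀ y ∈ H, ¬ p ∣ orderOf y → y ∈ pPrimeCore p G) : PLengthLE p 1 G := by
  classical
  have h1 : H ≤ (upperPSeries p G 2).1 := by
    rw [upper_succ, stepAt, if_neg (by decide)]
    have hmap : H.map (QuotientGroup.mk' (upperPSeries p G 1).1) ≤ pCore p (G ⧸ (upperPSeries p G 1).1) := by
      apply le_pCore (Subgroup.Normal.map inferInstance _ (QuotientGroup.mk'_surjective _))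
      rintro ⟨x, h, hh, rfl⟩
      obtain ⟨a, m, hm, hn⟩ := Nat.exists_eq_pow_mul_and_not_dvd (orderOf_pos h).ne' p
        (Fact.out : p.Prime).ne_one
      refine ⟨a, ?_⟩
      apply Subtype.ext
      have h2 : orderOf (h ^ p ^ a) = m := by
        have h3 := orderOf_pow_orderOf_div (x := h) (orderOf_pos h).ne' (Dvd.intro_left _ hn.symm)
        have h4 : orderOf h / m = p ^ a := by
          rw [hn]
          exact Nat.mul_div_cancel _ (Nat.pos_of_ne_zero (fun h0 => hm (by simp [h0])))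
        rwa [h4] at h3
      have h5 : h ^ p ^ a ∈ pPrimeCore p G :=
        hreg _ (H.pow_mem hh _) (by rwa [h2])
      rw [← upper_one (p := p) (G := G)] at h5
      show ((QuotientGroup.mk' _ h) : G ⧸ (upperPSeries p G 1).1) ^ p ^ a = 1
      rw [← map_pow]
      exact (QuotientGroup.eq_one_iff _).2 h5
    exact Subgroup.map_le_iff_le_comap.mp hmap
  have h2 : ((upperPSeries p G 2).1.index).Coprime p := by
    have h3 : (upperPSeries p G 2).1.index ∣ (P : Subgroup G).index :=
      Subgroup.index_dvd_of_le (hPH.trans h1)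
    have h4 : ¬ p ∣ (P : Subgroup G).index := P.not_dvd_index
    exact ((Nat.Prime.coprime_iff_not_dvd Fact.out).2 fun h5 => h4 (h5.trans h3)).symm
  show (upperPSeries p G 3).1 = ⊤
  rw [upper_succ, stepAt, if_pos (by decide), eq_top_iff]
  apply le_stepQ_of_relIndex _ (inferInstance)
  rwa [Subgroup.relIndex_top_right]

/-- The forward implication. -/
theorem forward {G : Type*} [Group G] [Fintype G] {p : ℕ} [Fact p.Prime] {M : Ideal Cfsg.AlgInt}
    [M.IsPrime] (hM : IsPModular p M) (P : Sylow p G) (hL : PLengthLE p 1 G)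
    (χ : IrrCharacter G) (hχ : χ ∈ principalBlock M G) :
    IsIrrCharacter ↥(Subgroup.normalizer ((P : Subgroup G) : Set G))
      (fun n : ↥(Subgroup.normalizer ((P : Subgroup G) : Set G)) => (χ : G → ℂ) n) := by
  classical
  have h3 : (upperPSeries p G 3).1 = ⊤ := hL
  set U := pPrimeCore p G with hUdef
  set V := (upperPSeries p G 2).1 with hVdef
  set N := Subgroup.normalizer ((P : Subgroup G) : Set G) with hNdef
  have hU : ¬ p ∣ Nat.card U :=
    (Nat.Prime.coprime_iff_not_dvd (Fact.out : p.Prime)).mp (pPrimeCore_coprime p).symm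
  obtain ⟨ψ, rfl⟩ := Cfsg.Agent.Lib.Char.B0Core.exists_infl U hM hU hχ
  have h4 : (V.index).Coprime p := by
    have h5 := relIndex_upper (p := p) (G := G) 2
    rw [GoodIdx, if_pos (by decide), h3, Subgroup.relIndex_top_right] at h5
    exact h5
  have hUV : U ≤ V := by
    have h5 := upper_le_succ (p := p) (G := G) 1
    rwa [upper_one] at h5
  obtain ⟨m, hm⟩ : ∃ m, U.relIndex V = p ^ m := by
    have h5 := relIndex_upper (p := p) (G := G) 1
    rw [GoodIdx, if_neg (by decide), upper_one] at h5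
    exact h5
  have hPV : (P : Subgroup G) ≤ V := by
    intro x hx
    obtain ⟨k, hk⟩ := P.isPGroup' ⟨x, hx⟩
    have hk' : x ^ p ^ k = 1 := by
      have := congrArg Subtype.val hk
      simpa using this
    have h5 : orderOf (x : G ⧸ V) ∣ p ^ k := by
      apply orderOf_dvd_of_pow_eq_one
      rw [← QuotientGroup.mk_pow, hk']
      rfl
    have h6 : orderOf (x : G ⧸ V) ∣ V.index := by
      apply orderOf_dvd_of_pow_eq_one
      rw [← QuotientGroup.mk_pow]
      exact (QuotientGroup.eq_one_iff _).2 (Subgroup.pow_index_mem _ _)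
    have h7 := Nat.eq_one_of_dvd_coprimes (Nat.Coprime.pow_right k h4) h6 h5
    rw [orderOf_eq_one_iff] at h7
    exact (QuotientGroup.eq_one_iff _).1 h7
  have hW : V ≤ (P : Subgroup G) ⊔ U := by
    rw [← Subgroup.relIndex_eq_one]
    have hWV : (P : Subgroup G) ⊔ U ≤ V := sup_le hPV hUV
    have h5 : ((P : Subgroup G) ⊔ U).relIndex V ∣ U.relIndex V :=
      Subgroup.relIndex_dvd_of_le_left V le_sup_right
    have h6 : ((P : Subgroup G) ⊔ U).relIndex V ∣ (P : Subgroup G).index := by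
      have h7 := Subgroup.relIndex_mul_index hWV
      exact (Dvd.intro _ h7).trans (Subgroup.index_dvd_of_le le_sup_left)
    rw [hm] at h5
    refine Nat.eq_one_of_dvd_coprimes ?_ h5 h6
    exact Nat.Coprime.pow_left _ ((Nat.Prime.coprime_iff_not_dvd Fact.out).2 P.not_dvd_index)
  have hNV : N ⊔ V = ⊤ := Sylow.normalizer_sup_eq_top' P hPV
  have hNU : N ⊔ U = ⊤ := by
    rw [eq_top_iff, ← hNV]
    refine sup_le le_sup_left (hW.trans (sup_le ?_ le_sup_right))
    exact (Subgroup.le_normalizer).trans le_sup_left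
  have hs : Function.Surjective ((QuotientGroup.mk' U).comp N.subtype) := by
    intro y
    obtain ⟨g, rfl⟩ := QuotientGroup.mk_surjective y
    have hg : g ∈ N ⊔ U := by
      rw [hNU]
      trivial
    obtain ⟨n, hn, u, hu, rfl⟩ := Subgroup.mem_sup_of_normal_right.1 hg
    refine ⟨⟨n, hn⟩, ?_⟩
    show (n : G ⧸ U) = ((n * u : G) : G ⧸ U)
    rw [QuotientGroup.mk_mul, (QuotientGroup.eq_one_iff u).2 hu, mul_one]
  exact Cfsg.Agent.Lib.Char.Basic.isIrrCharacter_comp_surjective ψ.2 _ hs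

/-- Let p be a prime, M a maximal ideal of the algebraic integers containing p, G a finite group, P a Sylow p-subgroup and N = N_G(P). Then G has p-length 1 (G = O_{p',p,p'}(G)) if and only if every irreducible character in the principal p-block of G restricts to an irreducible character of N. -/
theorem result {G : Type*} [Group G] [Finite G] (p : ℕ) [Fact p.Prime] (M : Ideal Cfsg.AlgInt) (hM : Cfsg.IsPModular p M) (P : Sylow p G) : Cfsg.PLengthLE p 1 G ↔ ∀ χ ∈ Cfsg.principalBlock M G, Cfsg.IsIrrCharacter ↥(Subgroup.normalizer ((P : Subgroup G) : Set G)) (fun n : ↥(Subgroup.normalizer ((P : Subgroup G) : Set G)) => (χ : G → ℂ) n) := by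
  classical
  haveI : M.IsPrime := Cfsg.Agent.Lib.Blocks.Local.isPrime_of_isPModular hM
  letI : Fintype G := Fintype.ofFinite G
  constructor
  · exact fun hL χ hχ => forward hM P hL χ hχ
  intro h
  set N := Subgroup.normalizer ((P : Subgroup G) : Set G) with hNdef
  letI : Fintype N := Fintype.ofFinite _
  have hPN : (P : Subgroup G) ≤ N := Subgroup.le_normalizer
  set Q : Subgroup N := (P : Subgroup G).subgroupOf N with hQdef
  haveI hQn : Q.Normal := Subgroup.normal_in_normalizer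
  obtain ⟨m, hm⟩ := IsPGroup.iff_card.1 P.isPGroup'
  have hcQ : Nat.card Q = p ^ m := (card_subgroupOf_of_le hPN).trans hm
  have hQp : IsPGroup p Q := IsPGroup.iff_card.2 ⟨m, hcQ⟩
  have hidx : ¬ p ∣ Q.index := by
    have h1 : Q.index * N.index = (P : Subgroup G).index := Subgroup.relIndex_mul_index hPN
    exact fun h2 => P.not_dvd_index (h1 ▸ h2.trans (Dvd.intro _ rfl))
  have hcop : (Nat.card Q).Coprime Q.index := by
    rw [hcQ]
    exact Nat.Coprime.pow_left _ ((Nat.Prime.coprime_iff_not_dvd Fact.out).2 hidx)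
  obtain ⟨K, hK⟩ := Subgroup.exists_right_complement'_of_coprime hcop
  letI : Fintype K := Fintype.ofFinite _
  have hKp : ¬ p ∣ Nat.card K := by
    have h1 : Q.index = Nat.card K := hK.symm.index_eq_card
    rwa [← h1]
  -- the retraction
  have hbij : Function.Bijective ((QuotientGroup.mk' Q).comp K.subtype) := by
    constructor
    · rw [injective_iff_map_eq_one]
      intro k hk
      have h1 : (k : N) ∈ Q := (QuotientGroup.eq_one_iff _).1 hk
      have h2 : (k : N) ∈ Q ⊓ K := ⟨h1, k.2⟩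
      rw [hK.disjoint.eq_bot, Subgroup.mem_bot] at h2
      exact Subtype.ext h2
    · intro y
      obtain ⟨n, rfl⟩ := QuotientGroup.mk_surjective y
      have hn : n ∈ Q ⊔ K := by
        rw [hK.sup_eq_top]
        trivial
      obtain ⟨q, hq, k, hk, rfl⟩ := Subgroup.mem_sup_of_normal_left.1 hn
      refine ⟨⟨k, hk⟩, ?_⟩
      show ((k : N) : N ⧸ Q) = ((q * k : N) : N ⧸ Q)
      rw [QuotientGroup.mk_mul, (QuotientGroup.eq_one_iff q).2 hq, one_mul]
  let e : K ≃* N ⧸ Q := MulEquiv.ofBijective _ hbij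
  let ret : N →* K := e.symm.toMonoidHom.comp (QuotientGroup.mk' Q)
  have hret : ∀ k : K, ret k = k := fun k => e.symm_apply_apply k
  have hretQ : ∀ q ∈ Q, ret q = 1 := by
    intro q hq
    show e.symm ((q : N) : N ⧸ Q) = 1
    rw [(QuotientGroup.eq_one_iff q).2 hq, map_one]
  set H : Subgroup G := Subgroup.normalClosure ((P : Subgroup G) : Set G) with hHdef
  haveI : H.Normal := Subgroup.normalClosure_normal
  have hPH : (P : Subgroup G) ≤ H := Subgroup.subset_normalClosure
  have hNH : N ⊔ H = ⊤ := Sylow.normalizer_sup_eq_top' P hPH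
  have hHker : ∀ ψ : IrrCharacter G, (∀ q ∈ Q, (ψ : G → ℂ) ((q : N) : G) = (ψ : G → ℂ) 1) →
      ∀ g ∈ H, (ψ : G → ℂ) g = (ψ : G → ℂ) 1 := by
    intro ψ hψ g hg
    obtain ⟨K₀, hK₀, hK₀'⟩ := exists_ker_of_irr ψ.2
    have h1 : H ≤ K₀ := by
      apply Subgroup.normalClosure_le_normal
      intro x hx
      exact (hK₀' x).2 (hψ ⟨x, hPN hx⟩ hx)
    exact (hK₀' g).1 (h1 hg)
  refine pLength_of P H hPH fun y hy hyr => ?_
  have h1 : y ∈ blockKerSubgroup (principalBlock M G) := fun χ hχ =>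
    core hM h Q K hQp hK.sup_eq_top hKp ret hret hretQ H hNH hHker χ hχ y hy hyr
  have h2 : ¬ p ∣ Nat.card (blockKerSubgroup (principalBlock M G)) :=
    not_dvd_card_blockKerSubgroup hM (Cfsg.Agent.Lib.Blocks.Principal.isPBlock_principalBlock M)
      (Cfsg.Agent.Lib.Blocks.Principal.trivChar_mem_principalBlock (G := G) (M := M))
  have h3 : blockKerSubgroup (principalBlock M G) ≤ pPrimeCore p G :=
    le_pPrimeCore inferInstance ((Nat.Prime.coprime_iff_not_dvd Fact.out).2 h2).symm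
  exact h3 h1

end Cfsg.Agent.S4711
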