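import Cfsg.Statements.S4712
import Mathlib
import Cfsg.Agent.Lib.Blocks.RatB

set_option autoImplicit false
open Cfsg

namespace Cfsg.Agent.S4712


/-- Let p be an odd prime, M a maximal ideal of the algebraic integers containing p, G a finite group of order n with p-part p^a, and B a p-block of G. Call an irreducible character χ p-rational when χ(g^k) = χ(g) for every g and every k coprime to n with k ≡ 1 modulo n/p^a (χ is fixed by the Galois automorphisms fixing the roots of unity of order prime to p). Then the number of p-rational irreducible characters in B is at least the p-regular rank of B (the number of irreducible Brauer characters in B). -/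
theorem result {G : Type*} [Group G] [Finite G] (p : ℕ) [Fact p.Prime] (hodd : p ≠ 2) (M : Ideal Cfsg.AlgInt) (hM : Cfsg.IsPModular p M) (B : Set (Cfsg.IrrCharacter G)) (hB : Cfsg.IsPBlock M B) : Cfsg.blockRank p B ≤ Nat.card {χ : Cfsg.IrrCharacter G // χ ∈ B ∧ ∀ k : ℕ, Nat.Coprime k (Nat.card G) → k ≡ 1 [MOD Nat.card G / p ^ (Nat.card G).factorization p] → ∀ g : G, (χ : G → ℂ) (g ^ k) = (χ : G → ℂ) g} := by
  classical
  cases nonempty_fintype G
  haveI : M.IsPrime := hM.2.1.isPrime
  obtain ⟨χ₀, rfl⟩ := hB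
  have hpp : p.Prime := Fact.out
  have hn0 : Nat.card G ≠ 0 := Nat.card_pos.ne'
  set a := (Nat.card G).factorization p with ha
  set m := Nat.card G / p ^ a with hm
  have hn : p ^ a * m = Nat.card G := Nat.ordProj_mul_ordCompl_eq_self (Nat.card G) p
  have hpm : ¬ p ∣ m := Nat.not_dvd_ordCompl hpp hn0
  obtain ⟨k, hk, hk1, hkgen⟩ := Cfsg.Agent.Lib.Blocks.Rat.exists_gen (a := a) hpp hodd hpm
  rw [hn] at hk hkgen
  have hreg : ∀ y : G, ¬ p ∣ orderOf y → orderOf y ∣ m := by
    intro y hy
    have h1 : orderOf y ∣ p ^ a * m := hn ▸ orderOf_dvd_natCard y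
    have h2 : (orderOf y).Coprime (p ^ a) :=
      Nat.Coprime.pow_right a ((Nat.Prime.coprime_iff_not_dvd hpp).2 hy).symm
    exact h2.dvd_of_dvd_mul_left h1
  refine (Cfsg.Agent.Lib.Blocks.Rat.rank_le_card_fix hM χ₀ hk hk1 hreg).trans ?_
  rw [Nat.card_eq_fintype_card, Fintype.card_subtype]
  refine Finset.card_le_card ?_
  intro χ hχ
  obtain ⟨h1, h2⟩ := Finset.mem_filter.mp hχ
  have h1' := (Finset.mem_filter.mp h1).2
  refine Finset.mem_filter.mpr ⟨Finset.mem_univ _, h1', fun k' hk' hk1' g => ?_⟩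
  obtain ⟨e, he⟩ := hkgen k' hk' hk1'
  have h3 : g ^ k' = g ^ (k ^ e) := pow_eq_pow_iff_modEq.mpr (he.of_dvd (orderOf_dvd_natCard g))
  rw [h3]
  induction e generalizing k' with
  | zero => simp
  | succ e ih =>
    have h4 : g ^ (k ^ (e + 1)) = (g ^ (k ^ e)) ^ k := by
      rw [pow_succ, pow_mul]
    rw [h4, h2]
    exact ih (k ^ e) (Nat.Coprime.pow_left e hk) ((hk1.pow e).trans (by simp [Nat.ModEq])) (Nat.ModEq.refl _) rfl

end Cfsg.Agent.S4712
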