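import Cfsg.Statements.S4713
import Mathlib
import Cfsg.Agent.Lib.Char.ItoMichler
import Cfsg.Agent.S4493

set_option autoImplicit false
open Cfsg

namespace Cfsg.Agent.S4713

open Cfsg.Agent.Lib.Char.ItoMichler Cfsg.Agent.Lib.Coprime.PSolvable

/-- Let p be a prime and G a finite p-solvable group. Then G has a normal abelian Sylow p-subgroup if and only if the degree of every irreducible character of G is prime to p. -/
theorem result {G : Type*} [Group G] [Finite G] (p : ℕ) [Fact p.Prime] (hsolv : Cfsg.IsPSolvable p G) (P : Sylow p G) : ((P : Subgroup G).Normal ∧ IsMulCommutative P) ↔ ∀ χ : Cfsg.IrrCharacter G, ¬ p ∣ Cfsg.charDegree (χ : G → ℂ) := by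
  have hp : p.Prime := Fact.out
  constructor
  · rintro ⟨hn, hab⟩
    haveI := hn
    refine Cfsg.Agent.S4493.degPrime_of_normal_abelian (P : Subgroup G) ?_ P.not_dvd_index
    intro x hx y hy
    have := hab.is_comm.comm ⟨x, hx⟩ ⟨y, hy⟩
    exact congrArg Subtype.val this
  · intro hD
    have hn := normal_of_degPrime hp _ G rfl hsolv hD (P : Subgroup G) P.isPGroup' P.not_dvd_index
    haveI := hn
    refine ⟨hn, ⟨⟨fun a b => mul_comm_of_degPrime hp hD P.isPGroup' a b⟩⟩⟩

end Cfsg.Agent.S4713
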