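import Cfsg.Statements.S4715
import Mathlib
import Cfsg.Agent.Lib.Blocks.ZDefect
-- import your own Cfsg.Agent.* helpers here

set_option autoImplicit false
open Cfsg

set_option linter.style.haveILetI false

namespace Cfsg.Agent.S4715

open Cfsg.Agent.Lib.Blocks.Local Cfsg.Agent.Lib.Blocks.Central Cfsg.Agent.Lib.Blocks.Osima
  Cfsg.Agent.Lib.Blocks.Sections Cfsg.Agent.Lib.Blocks.MajorSub Cfsg.Agent.Lib.Blocks.MajorSub2
  Cfsg.Agent.Lib.Blocks.BlockCount Cfsg.Agent.Lib.Blocks.ZDefect Cfsg.Agent.Lib.Blocks.Transport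

/-- Let p be a prime, M a maximal ideal of the algebraic integers containing p, B a p-block of the finite group G with defect group D of order p^d, H = D·C_G(D), b a block of H inducing B, T the stabilizer of b in N_G(D) and e = [T : H] the inertial index of B; let n be the integer with p^n ≤ e < p^(n+1) and p^c the order of the centre of D. Then every irreducible character in B has height h with h + c ≤ n + d. -/
theorem result {G : Type*} [Group G] [Finite G] (p : ℕ) [Fact p.Prime] (M : Ideal Cfsg.AlgInt) (hM : Cfsg.IsPModular p M) (B : Set (Cfsg.IrrCharacter G)) (hB : Cfsg.IsPBlock M B) (D : Subgroup G) (hBD : Cfsg.IsDefectGroup p M B D) (d : ℕ) (hDd : Nat.card D = p ^ d) (H : Subgroup G) (hH : H = D ⊔ Subgroup.centralizer (D : Set G)) (b : Set (Cfsg.IrrCharacter H)) (hind : Cfsg.IsInducedBlock M H b B) (T : Subgroup G) (hT : ∀ g : G, g ∈ T ↔ (g ∈ Subgroup.normalizer (D : Set G) ∧ ∀ θ ∈ b, ∀ θ' : Cfsg.IrrCharacter H, (∀ h h' : H, (h' : G) = g * h * g⁻¹ → (θ' : H → ℂ) h' =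 (θ : H → ℂ) h) → θ' ∈ b)) (e : ℕ) (he : H.relIndex T = e) (n : ℕ) (hn : p ^ n ≤ e ∧ e < p ^ (n + 1)) (c : ℕ) (hc : Nat.card (Subgroup.center D) = p ^ c) : ∀ χ ∈ B, Cfsg.blockHeight p B (χ : G → ℂ) + c ≤ n + d := by
  classical
  intro χ hχ
  subst hH
  letI : Fintype G := Fintype.ofFinite G
  haveI hMp := isPrime_of_isPModular hM
  letI hCen : ∀ u : G, Fintype (Cen u) := fun _ => Fintype.ofFinite _
  have hpp : p.Prime := Fact.out
  set X := ↥(Subgroup.center D) with hXdef
  letI : Fintype X := Fintype.ofFinite _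
  let z : X → G := fun x => ((x : D) : G)
  have hzD : ∀ x, z x ∈ D := fun x => (x : D).2
  have hzc : ∀ x, ∀ a ∈ D, a * z x = z x * a := by
    intro x a ha
    have h1 := Subgroup.mem_center_iff.1 x.2 ⟨a, ha⟩
    exact congrArg Subtype.val h1
  have hHz : ∀ x, HD D ≤ Cen (z x) := by
    intro x
    refine sup_le (fun a ha => ?_) (fun a ha => ?_)
    · exact Subgroup.mem_centralizer_singleton_iff.2 (hzc x a ha)
    · exact Subgroup.mem_centralizer_singleton_iff.2 (Subgroup.mem_centralizer_iff.1 ha _ (hzD x)).symm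
  have hord : ∀ x, ∃ k ≤ d, orderOf (z x) = p ^ k := by
    intro x
    have h1 : orderOf (z x) ∣ p ^ d := by
      rw [← hDd]
      exact Subgroup.orderOf_dvd_natCard D (hzD x)
    exact (Nat.dvd_prime_pow hpp).1 h1
  choose cc hcc₁ hcc₂ hcc₃ using fun x => exists_pair hM hind hBD (hHz x)
  -- the relation
  let r : Setoid X :=
    { r := fun x y => ∃ t ∈ T, t * z x * t⁻¹ = z y
      iseqv := ⟨fun x => ⟨1, T.one_mem, by simp⟩,
        fun {x y} ⟨t, ht, h⟩ => ⟨t⁻¹, T.inv_mem ht, by rw [← h]; group⟩,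
        fun {x y w} ⟨t, ht, h⟩ ⟨t', ht', h'⟩ => ⟨t' * t, T.mul_mem ht' ht, by rw [← h', ← h]; group⟩⟩ }
  let Q := Quotient r
  letI : Fintype Q := Fintype.ofFinite _
  have hQout : ∀ ω : Q, (Quotient.mk r (Quotient.out ω) : Q) = ω := fun ω => Quotient.out_eq ω
  -- the inequality
  have hbound := card_mul_pow_le hM hB (Finset.univ : Finset Q) (fun ω => z (Quotient.out ω))
    (fun ω => cc (Quotient.out ω)) d (fun ω _ => hord _) (fun ω _ => hcc₂ _)
    (fun ω _ => Cfsg.Agent.Lib.Blocks.MajorSub3.defect_eq hM hB hBD (hzc _) (hcc₂ _).1 (hcc₃ _)) ?_ hχ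
  · -- the numbers
    have hdd : blockDefect p B = d := by
      have h1 := Cfsg.Agent.S0908.result p M hM B hB D hBD
      rw [hDd] at h1
      exact (Nat.pow_right_injective hpp.two_le h1).symm
    rw [hdd, Finset.card_univ] at hbound
    set h := blockHeight p B (χ : G → ℂ) with hh
    have hfib : Fintype.card X ≤ e * Fintype.card Q := by
      have h1 := Finset.card_le_mul_card_image (f := fun x : X => (Quotient.mk r x : Q)) (Finset.univ : Finset X) e ?_
      · rw [Finset.card_univ] at h1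
        refine h1.trans (Nat.mul_le_mul_left _ ?_)
        exact Finset.card_le_univ _
      · intro a ha
        obtain ⟨x₀, -, rfl⟩ := Finset.mem_image.1 ha
        let gg₀ : (T ⧸ (HD D).subgroupOf T) → G := fun q => ((Quotient.out q : T) : G) * z x₀ * ((Quotient.out q : T) : G)⁻¹
        have hsub : ∀ x ∈ Finset.univ.filter (fun x : X => (Quotient.mk r x : Q) = Quotient.mk r x₀),
            z x ∈ (Finset.univ : Finset (T ⧸ (HD D).subgroupOf T)).image gg₀ := by
          intro x hx
          have h2 : r x₀ x := r.symm (Quotient.exact (Finset.mem_filter.1 hx).2)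
          obtain ⟨t, ht, htz⟩ := h2
          refine Finset.mem_image.2 ⟨((⟨t, ht⟩ : T) : T ⧸ (HD D).subgroupOf T), Finset.mem_univ _, ?_⟩
          obtain ⟨w, hw⟩ := QuotientGroup.mk_out_eq_mul ((HD D).subgroupOf T) (⟨t, ht⟩ : T)
          simp only [gg₀]
          rw [hw, ← htz]
          have hwH : (((w : (HD D).subgroupOf T) : T) : G) ∈ HD D := Subgroup.mem_subgroupOf.1 w.2
          have hwz := Subgroup.mem_centralizer_singleton_iff.1 (hHz x₀ hwH)
          simp only [Subgroup.coe_mul, mul_inv_rev]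
          calc t * ((w : T) : G) * z x₀ * (((w : T) : G)⁻¹ * t⁻¹) =
              t * (((w : T) : G) * z x₀) * (((w : T) : G)⁻¹ * t⁻¹) := by group
            _ = t * (z x₀ * ((w : T) : G)) * (((w : T) : G)⁻¹ * t⁻¹) := by rw [hwz]
            _ = t * z x₀ * t⁻¹ := by group
        have hinj : Set.InjOn z (↑(Finset.univ.filter (fun x : X => (Quotient.mk r x : Q) = Quotient.mk r x₀))) := by
          intro x _ y _ hxy
          exact Subtype.ext (Subtype.ext hxy)
        have h2 := Finset.card_le_card_of_injOn z hsub hinj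
        refine h2.trans (Finset.card_image_le.trans ?_)
        rw [← he, Finset.card_univ, Subgroup.relIndex, Subgroup.index, Nat.card_eq_fintype_card]
    have hcardX : Fintype.card X = p ^ c := by
      rw [← hc, Nat.card_eq_fintype_card]
    have hlt : p ^ (c + h) < p ^ (n + 1 + d) := by
      have hdpos : 0 < p ^ d := pow_pos hpp.pos _
      calc p ^ (c + h) = p ^ c * p ^ h := pow_add _ _ _
        _ ≤ (e * Fintype.card Q) * p ^ h := Nat.mul_le_mul_right _ (hcardX ▸ hfib)
        _ = e * (Fintype.card Q * p ^ h) := by ring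
        _ ≤ e * p ^ d := Nat.mul_le_mul_left _ hbound
        _ < p ^ (n + 1) * p ^ d := Nat.mul_lt_mul_of_pos_right hn.2 hdpos
        _ = p ^ (n + 1 + d) := (pow_add _ _ _).symm
    have h3 := (Nat.pow_lt_pow_iff_right hpp.one_lt).1 hlt
    omega
  · -- the orthogonality
    intro ω _ ω' _ hne χ₁
    set x := Quotient.out ω with hx
    set y := Quotient.out ω' with hy
    refine XX_orth hM (hcc₂ x).1 (hcc₂ y).1 χ₁ ?_
    intro a₁ a₂ ha₁ ha₂
    obtain ⟨k₁, -, hk₁⟩ := hord x
    obtain ⟨k₂, -, hk₂⟩ := hord y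
    by_cases hconj : IsConj (z y) (z x)
    · obtain ⟨g, hg⟩ := isConj_iff.1 hconj.symm
      by_cases hcg : cc x = blockMap (cenConj g hg) (cc y)
      · exfalso
        obtain ⟨t, htN, hts, htz⟩ := exists_stabilizer_conj hM (hHz x) (hHz y) (hcc₁ x) (hcc₁ y) (hcc₃ x) (hcc₃ y) g hg hcg
        apply hne
        have hr : r x y := ⟨t, (hT t).2 ⟨htN, hts⟩, htz⟩
        rw [← hQout ω, ← hQout ω', ← hx, ← hy]
        exact Quotient.sound hr
      · exact sum_conj_mul_of_conj hM hk₁ g hg (hcc₂ x) (hcc₂ y) hcg ha₁ ha₂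
    · exact sum_conj_mul_of_not_isConj hM hk₁ hk₂ hconj hB (fun c hc => mem_regSpan_vanish ha₁ hc)
        (fun c hc => mem_regSpan_vanish ha₂ hc)

end Cfsg.Agent.S4715
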