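import Cfsg.Statements.S4718
import Mathlib
import Cfsg.Agent.Lib.Char.Landau
import Cfsg.Agent.S4494
import Cfsg.Agent.Lib.Char.CompleteCor
import Cfsg.Agent.Lib.Blocks.Principal
import Cfsg.Agent.Lib.Blocks.Central

set_option autoImplicit false
universe u
open Cfsg

namespace Cfsg.Agent.S4718


/-- Let p be a prime and a a natural number. There is a bound N such that every finite group whose Sylow p-subgroups have order p^a and whose only p-block (relative to a maximal ideal of the algebraic integers containing p) is the principal block has order at most N. -/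
theorem result (p : ℕ) [Fact p.Prime] (a : ℕ) : ∃ N : ℕ, ∀ (G : Type u) [Group G] [Finite G] (M : Ideal Cfsg.AlgInt), Cfsg.IsPModular p M → (Nat.card G).factorization p = a → (∀ B : Set (Cfsg.IrrCharacter G), Cfsg.IsPBlock M B → B = Cfsg.principalBlock M G) → Nat.card G ≤ N := by
  classical
  obtain ⟨N, hN⟩ := Cfsg.Agent.Lib.Char.Landau.exists_bound.{u} (p ^ (2 * a) + 1)
  refine ⟨N, fun G _ _ M hM hfac hB => hN G ?_⟩
  cases nonempty_fintype G
  haveI := Cfsg.Agent.Lib.Blocks.Local.isPrime_of_isPModular hM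
  rw [← Cfsg.Agent.Lib.Char.CompleteCor.card_irr_eq_card_conjClasses]
  have hall : ∀ χ : Cfsg.IrrCharacter G, χ ∈ Cfsg.principalBlock M G := by
    intro χ
    have h1 := hB (Cfsg.blockOf M (χ : G → ℂ)) ⟨χ, rfl⟩
    rw [← h1]
    exact Cfsg.Agent.Lib.Blocks.Central.sameBlock_refl _
  haveI : Fact p.Prime := inferInstance
  have hB0 : Cfsg.IsPBlock M (Cfsg.principalBlock M G) := Cfsg.Agent.Lib.Blocks.Principal.isPBlock_principalBlock M
  have h2 := Cfsg.Agent.S4494.result p M hM _ hB0
  have h3 : Nat.card (Cfsg.IrrCharacter G) = Nat.card (Cfsg.principalBlock M G) :=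
    Nat.card_congr (Equiv.subtypeUnivEquiv hall).symm
  rw [h3]
  have h4 : Cfsg.blockDefect p (Cfsg.principalBlock M G) ≤ a := by
    rw [Cfsg.blockDefect, hfac]
    omega
  have h5 : p ^ (2 * Cfsg.blockDefect p (Cfsg.principalBlock M G)) ≤ p ^ (2 * a) :=
    Nat.pow_le_pow_right (Fact.out : p.Prime).pos (by omega)
  omega

end Cfsg.Agent.S4718
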