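import Cfsg.Statements.S4719
import Mathlib
import Cfsg.Agent.Lib.Char.DefClass
import Cfsg.Agent.Lib.Components.InvBound

set_option autoImplicit false
universe u
open Cfsg

namespace Cfsg.Agent.S4719

open Cfsg.Agent.Lib.Char.DefClass Cfsg.Agent.Lib.Components.InvBound

/-- The bound for Sylow order `2 ^ a`. -/
def Bd (a N : ℕ) : Prop :=
  ∀ (G : Type u) [Group G] [Finite G] (M : Ideal Cfsg.AlgInt) (r : ℕ) (P : Sylow 2 G),
    Cfsg.IsPModular 2 M → Nat.card P = 2 ^ a → Defi M r G →
    (∃ E : Subgroup G, E ≤ (P : Subgroup G) ∧ (∀ x ∈ E, x * x = 1) ∧ Nat.card E = 2 ^ (r + 1)) →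
    Nat.card G ≤ N

theorem Bd.mono {a N N' : ℕ} (h : Bd.{u} a N) (hN : N ≤ N') : Bd.{u} a N' :=
  fun G _ _ M r P hM hc hd hE => (h G M r P hM hc hd hE).trans hN

/-- The inductive step. -/
theorem step (a B : ℕ) (hB : ∀ a' < a, Bd.{u} a' B) :
    Bd.{u} a (bound₂ a (2 * (B + 1)) * (bound₂ a (2 * (B + 1))).factorial) := by
  intro G _ _ M r P hM hcard hdef ⟨E, hEP, hE, hEc⟩
  classical
  haveI : Fact (Nat.Prime 2) := ⟨Nat.prime_two⟩
  obtain ⟨t, htE, ht1⟩ : ∃ t ∈ E, t ≠ 1 := by
    by_contra hcon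
    push Not at hcon
    have hbot : E = ⊥ := by
      rw [eq_bot_iff]
      intro x hx
      exact hcon x hx
    rw [hbot, Subgroup.card_bot] at hEc
    have : 2 ≤ 2 ^ (r + 1) := by
      rw [pow_succ]
      have : 0 < 2 ^ r := by positivity
      omega
    omega
  have htt : t * t = 1 := hE t htE
  have hO := core_trivial hM r G hdef ⟨E, hE, hEc⟩
  have hP : ∀ Q : Subgroup G, IsPGroup 2 Q → Nat.card Q ≤ 2 ^ a := by
    intro Q hQ
    obtain ⟨P', hP'⟩ := hQ.exists_le_sylow
    have h1 : Nat.card (P' : Subgroup G) = Nat.card (P : Subgroup G) := by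
      rw [Sylow.card_eq_multiplicity, Sylow.card_eq_multiplicity]
    rw [← hcard]
    rw [← h1]
    exact Subgroup.card_le_of_le hP'
  have hD : Defi M (r - 1) (Cn t ⧸ Te t) := defi_step hM hdef htt ht1
  -- the quotient is bounded
  have hY : Nat.card (Cn t ⧸ Te t) ≤ B + 1 := by
    by_cases hE' : ∃ E' : Subgroup (Cn t ⧸ Te t), (∀ x ∈ E', x * x = 1) ∧ Nat.card E' = 2 ^ (r - 1 + 1)
    · obtain ⟨E', hE'1, hE'2⟩ := hE'
      have hE'p : IsPGroup 2 E' := IsPGroup.of_card hE'2
      obtain ⟨P', hP'⟩ := hE'p.exists_le_sylow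
      set a' := (Nat.card (Cn t ⧸ Te t)).factorization 2 with ha'
      have hP'c : Nat.card (P' : Subgroup (Cn t ⧸ Te t)) = 2 ^ a' := Sylow.card_eq_multiplicity P'
      have hlt : a' < a := by
        have h1 : 2 ^ a' ∣ Nat.card (Cn t ⧸ Te t) := by
          rw [← hP'c]
          exact Subgroup.card_subgroup_dvd_card _
        have h2 : 2 ^ (a' + 1) ∣ Nat.card (Cn t) := by
          rw [card_Cn htt ht1, pow_succ, mul_comm]
          exact Nat.mul_dvd_mul_left 2 h1
        have h3 : 2 ^ (a' + 1) ∣ Nat.card G := h2.trans (Subgroup.card_subgroup_dvd_card _)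
        have h4 := Sylow.pow_dvd_card_of_pow_dvd_card P h3
        rw [hcard] at h4
        have h5 := (Nat.pow_dvd_pow_iff_le_right (by norm_num)).1 h4
        omega
      have := hB a' hlt (Cn t ⧸ Te t) M (r - 1) P' hM hP'c hD ⟨E', hP', hE'1, hE'2⟩
      omega
    · -- no such subgroup: `r = 0` and the quotient is odd
      have hr : r = 0 := by
        by_contra hr
        apply hE'
        have h1 : r - 1 + 1 = r := Nat.succ_pred_eq_of_ne_zero hr
        rw [h1]
        obtain ⟨s, rfl⟩ : ∃ s, r = s + 1 := ⟨r - 1, h1.symm⟩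
        exact elem_step hE hEc htE ht1
      subst hr
      have hodd : Odd (Nat.card (Cn t ⧸ Te t)) := by
        by_contra hodd
        rw [Nat.not_odd_iff_even] at hodd
        obtain ⟨y, hy⟩ := exists_prime_orderOf_dvd_card' (G := Cn t ⧸ Te t) 2 hodd.two_dvd
        apply hE'
        refine ⟨Subgroup.zpowers y, ?_, ?_⟩
        · rintro _ ⟨k, rfl⟩
          simp only
          have hyy : y * y = 1 := by
            have := pow_orderOf_eq_one y
            rwa [hy, pow_two] at this
          have h2 : y ^ (2 : ℤ) = 1 := by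
            rw [zpow_ofNat, pow_two]
            exact hyy
          rw [← zpow_add, ← two_mul, zpow_mul, h2, one_zpow]
        · rw [Nat.card_zpowers, hy]
          norm_num
      have hbot := eq_bot_of_defi_zero hM (by simpa using hD) ⊤ inferInstance (by
        rw [Subgroup.card_top]
        exact hodd)
      have h1 : Nat.card (Cn t ⧸ Te t) = 1 := by
        rw [← Subgroup.card_top, hbot, Subgroup.card_bot]
      omega
  have hcC : Nat.card (Subgroup.centralizer ({t} : Set G)) ≤ 2 * (B + 1) := by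
    have := card_Cn htt ht1
    unfold Cn at this
    rw [this]
    exact Nat.mul_le_mul_left 2 hY
  exact card_le_bound a (2 * (B + 1)) hO hP htt hcC

theorem exists_bound (a : ℕ) : ∃ N : ℕ, ∀ a' ≤ a, Bd.{u} a' N := by
  induction a with
  | zero =>
    refine ⟨bound₂ 0 (2 * (0 + 1)) * (bound₂ 0 (2 * (0 + 1))).factorial, fun a' ha' => ?_⟩
    obtain rfl : a' = 0 := by omega
    exact step 0 0 (fun a' h => absurd h (Nat.not_lt_zero _))
  | succ a ih =>
    obtain ⟨N, hN⟩ := ih
    have h1 := step (a + 1) N (fun a' h => hN a' (by omega))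
    refine ⟨max N (bound₂ (a + 1) (2 * (N + 1)) * (bound₂ (a + 1) (2 * (N + 1))).factorial), fun a' ha' => ?_⟩
    rcases Nat.lt_or_ge a' (a + 1) with h | h
    · exact (hN a' (by omega)).mono (le_max_left _ _)
    · obtain rfl : a' = a + 1 := by omega
      exact h1.mono (le_max_right _ _)

/-- For every natural number a there is a bound N with the following property. Let G be a finite group with Sylow 2-subgroups of order 2^a and r ≥ 0 such that G has no non-principal 2-block (relative to a maximal ideal of the algebraic integers containing 2) of defect ≥ r, and suppose a Sylow 2-subgroup of G contains an elementary abelian subgroup of order 2^(r+1). Then the order of G is at most N. -/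
theorem result (a : ℕ) : ∃ N : ℕ, ∀ (G : Type u) [Group G] [Finite G] (M : Ideal Cfsg.AlgInt) (r : ℕ) (P : Sylow 2 G), Cfsg.IsPModular 2 M → Nat.card P = 2 ^ a → (∀ B : Set (Cfsg.IrrCharacter G), Cfsg.IsPBlock M B → B ≠ Cfsg.principalBlock M G → Cfsg.blockDefect 2 B < r) → (∃ E : Subgroup G, E ≤ (P : Subgroup G) ∧ IsMulCommutative E ∧ (∀ x ∈ E, x * x = 1) ∧ Nat.card E = 2 ^ (r + 1)) → Nat.card G ≤ N := by
  obtain ⟨N, hN⟩ := exists_bound.{u} a
  refine ⟨N, fun G _ _ M r P hM hcard hdef hE => ?_⟩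
  obtain ⟨E, hEP, -, hE1, hE2⟩ := hE
  exact hN a le_rfl G M r P hM hcard hdef ⟨E, hEP, hE1, hE2⟩

end Cfsg.Agent.S4719
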