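import Cfsg.Statements.S4720
import Mathlib
import Cfsg.Agent.Lib.Blocks.PrincipalColumn
-- import your own Cfsg.Agent.* helpers here

set_option autoImplicit false
open Cfsg

namespace Cfsg.Agent.S4720

open Cfsg.Agent.Lib.Blocks.Local Cfsg.Agent.Lib.Blocks.Central Cfsg.Agent.Lib.Blocks.Osima
  Cfsg.Agent.Lib.Blocks.Sections Cfsg.Agent.Lib.Blocks.Principal Cfsg.Agent.Lib.Blocks.PrincipalCen
  Cfsg.Agent.Lib.Blocks.PrincipalColumn
open scoped ComplexConjugate

/-- Let p be a prime, M a maximal ideal of the algebraic integers containing p, P a p-subgroup of the finite group G, N a subgroup with P ≤ N ≤ N_G(P), and U a nonempty subset of P normalized by N such that an element of U and an element of P that are conjugate in G are already conjugate in N, and such that λ(C_G(y)) = w·#C_N(y) for every y ∈ U with one rational number w, where λ(X) denotes the sum of the squares of the degrees of the irreducible characters in the principal p-block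 of X. For a complex function θ on P and χ in the principal block of G put a_χ(θ) = #P⁻¹ Σ_{y ∈ P} χ(y) θ(y⁻¹). Then for generalized characters θ, η of P with θ vanishing outside U, Σ_χ a_χ(θ)·conj(a_χ(η)) = (w/#P²)·Σ_{y ∈ P} θ(y)·conj(Σ_{x ∈ N} η(x y x⁻¹)) (η extended by zero off P; the conjugates lie in P), the first sum over the principal p-block of G. -/
theorem result {G : Type*} [Group G] [Finite G] (p : ℕ) [Fact p.Prime] (M : Ideal Cfsg.AlgInt) (hM : Cfsg.IsPModular p M) (P : Subgroup G) (hP : IsPGroup p P) (N : Subgroup G) (hPN : P ≤ N) (hNN : N ≤ Subgroup.normalizer (P : Set G)) (U : Set G) (hUne : U.Nonempty) (hUP : U ⊆ (P : Set G)) (hUN : ∀ n ∈ N, ∀ u ∈ U, n * u * n⁻¹ ∈ U) (hfus : ∀ u ∈ U, ∀ g : G, g * u * g⁻¹ ∈ (P : Set G) → ∃ n ∈ N, n * u * n⁻¹ = g * u * g⁻¹) (w : ℚ) (hw : ∀ y ∈ U, ((∑ᶠ ψ ∈ Cfsg.principalBlock M ↥(Subgroup.centralizer ({y} : Set G)), Cfsg.charDegree (ψ : ↥(Subgroup.centralizer ({y} : Set G)) → ℂ) ^ 2) :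 ℚ) = w * Nat.card ↥(N ⊓ Subgroup.centralizer ({y} : Set G))) (θ η : ↥P → ℂ) (hθ : Cfsg.IsGeneralizedCharacter ↥P θ) (hη : Cfsg.IsGeneralizedCharacter ↥P η) (hθU : ∀ y : ↥P, (y : G) ∉ U → θ y = 0) : ∑ᶠ χ ∈ Cfsg.principalBlock M G, ((Nat.card ↥P : ℂ)⁻¹ * ∑ᶠ y : ↥P, (χ : G → ℂ) (y : G) * θ y⁻¹) * (starRingEnd ℂ) ((Nat.card ↥P : ℂ)⁻¹ * ∑ᶠ y : ↥P, (χ : G → ℂ) (y : G) * η y⁻¹) = ((w : ℂ) / ((Nat.card ↥P : ℂ) ^ 2)) * ∑ᶠ y : ↥P, θ y * (starRingEnd ℂ) (∑ᶠ x : ↥N, Cfsg.extendByZero P η ((x : G) * (y : G) * (x : G)⁻¹)) := by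
  classical
  cases nonempty_fintype G
  haveI := isPrime_of_isPModular hM
  haveI : Fintype P := Fintype.ofFinite _
  haveI : Fintype N := Fintype.ofFinite _
  have hord : ∀ y : P, ∃ k : ℕ, orderOf (y : G) = p ^ k := by
    intro y
    obtain ⟨k, hk⟩ := IsPGroup.iff_orderOf.mp hP y
    exact ⟨k, by rw [← Subgroup.orderOf_coe] at hk; exact hk⟩
  -- the key column computation
  have key : ∀ y : P, (y : G) ∈ U →
      ∑ z : P, conj (η z) * ∑ χ ∈ Finset.univ.filter (· ∈ principalBlock M G),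
        (χ : G → ℂ) (z : G) * conj ((χ : G → ℂ) (y : G)) =
      (w : ℂ) * conj (∑ x : N, extendByZero P η ((x : G) * (y : G) * (x : G)⁻¹)) := by
    intro y hyU
    obtain ⟨k, hk⟩ := hord y
    haveI : Fintype (Cen (y : G)) := Fintype.ofFinite _
    set c : ℂ := (Nat.card ↥(N ⊓ Subgroup.centralizer ({(y : G)} : Set G)) : ℂ) with hc
    have hW : ∑ χ ∈ Finset.univ.filter (· ∈ principalBlock M G),
        (χ : G → ℂ) (y : G) * conj ((χ : G → ℂ) (y : G)) = (w : ℂ) * c := by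
      rw [sum_principal_self hM hk]
      have h1 := hw y hyU
      rw [Cfsg.Agent.Lib.Blocks.Osima.finsum_mem_eq_sum_filter] at h1
      have h2 := congrArg (fun q : ℚ => (q : ℂ)) h1
      push_cast at h2
      rw [hc, ← h2]
    have hA : ∀ z : P, ∑ χ ∈ Finset.univ.filter (· ∈ principalBlock M G),
        (χ : G → ℂ) (z : G) * conj ((χ : G → ℂ) (y : G)) =
        if ∃ n ∈ N, n * (y : G) * n⁻¹ = (z : G) then (w : ℂ) * c else 0 := by
      intro z
      split_ifs with hz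
      · obtain ⟨n, _, hn⟩ := hz
        rw [← hW]
        refine Finset.sum_congr rfl fun χ _ => ?_
        rw [← hn, (isClassFunction_of_irr χ.2) (y : G) n]
      · obtain ⟨j, hj⟩ := hord z
        refine sum_principal_of_not_isConj hM hk hj fun hconj => hz ?_
        obtain ⟨g, hg⟩ := isConj_iff.mp hconj.symm
        obtain ⟨n, hn, hn'⟩ := hfus _ hyU g (by rw [hg]; exact z.2)
        exact ⟨n, hn, by rw [hn', hg]⟩
    simp only [hA]
    rw [sum_orbit_extendByZero P N hNN y η, map_mul, map_sum, ← hc, Complex.conj_natCast]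
    simp only [mul_ite, mul_zero]
    rw [← Finset.sum_filter, Finset.mul_sum, Finset.mul_sum]
    refine Finset.sum_congr rfl fun z _ => ?_
    rw [hc]
    ring
  rw [Cfsg.Agent.Lib.Blocks.Osima.finsum_mem_eq_sum_filter]
  simp only [finsum_eq_sum_of_fintype]
  -- reindex
  have hr1 : ∀ (χ : IrrCharacter G) (f : P → ℂ), ∑ y : P, (χ : G → ℂ) (y : G) * f y⁻¹ =
      ∑ y : P, conj ((χ : G → ℂ) (y : G)) * f y := by
    intro χ f
    rw [← Equiv.sum_comp (Equiv.inv P)]
    refine Finset.sum_congr rfl fun y _ => ?_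
    simp only [Equiv.inv_apply, inv_inv, InvMemClass.coe_inv, Cfsg.Agent.Lib.Char.Complete.isIrr_inv χ.2]
  have hr2 : ∀ (χ : IrrCharacter G) (f : P → ℂ), conj (∑ y : P, (χ : G → ℂ) (y : G) * f y⁻¹) =
      ∑ y : P, (χ : G → ℂ) (y : G) * conj (f y) := by
    intro χ f
    rw [hr1, map_sum]
    refine Finset.sum_congr rfl fun y _ => ?_
    simp
  have hterm : ∀ χ : IrrCharacter G,
      ((Nat.card P : ℂ)⁻¹ * ∑ y : P, (χ : G → ℂ) (y : G) * θ y⁻¹) *
        conj ((Nat.card P : ℂ)⁻¹ * ∑ y : P, (χ : G → ℂ) (y : G) * η y⁻¹) =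
      ((Nat.card P : ℂ) ^ 2)⁻¹ * ∑ y : P, θ y * ∑ z : P, conj (η z) * ((χ : G → ℂ) (z : G) * conj ((χ : G → ℂ) (y : G))) := by
    intro χ
    rw [map_mul, hr1, hr2, map_inv₀, Complex.conj_natCast]
    have hAB : ∑ y : P, θ y * ∑ z : P, conj (η z) * ((χ : G → ℂ) (z : G) * conj ((χ : G → ℂ) (y : G))) =
        (∑ y : P, conj ((χ : G → ℂ) (y : G)) * θ y) * ∑ z : P, (χ : G → ℂ) (z : G) * conj (η z) := by
      rw [Finset.sum_mul]
      refine Finset.sum_congr rfl fun y _ => ?_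
      rw [mul_comm (conj ((χ : G → ℂ) (y : G))), mul_assoc]
      congr 1
      rw [Finset.mul_sum]
      refine Finset.sum_congr rfl fun z _ => ?_
      ring
    rw [hAB]
    ring
  simp only [hterm]
  rw [← Finset.mul_sum, Finset.sum_comm, div_eq_mul_inv, mul_comm (w : ℂ), mul_assoc, Finset.mul_sum (a := (w : ℂ))]
  congr 1
  refine Finset.sum_congr rfl fun y _ => ?_
  rw [← Finset.mul_sum]
  by_cases hy : (y : G) ∈ U
  · rw [Finset.sum_comm]
    simp only [← Finset.mul_sum]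
    rw [key y hy]
    ring
  · rw [hθU y hy]
    simp

end Cfsg.Agent.S4720
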