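import Mathlib
import Cfsg.Agent.Lib.Blocks.AbFrob7

set_option autoImplicit false
open Cfsg

namespace Cfsg.Agent.S4721

open Cfsg.Agent.Lib.Blocks.AbFrob Cfsg.Agent.Lib.Blocks.Principal

set_option maxHeartbeats 2000000 in
theorem result {G : Type*} [Group G] [Finite G] (p : ℕ) [Fact p.Prime] (M : Ideal Cfsg.AlgInt) (hM : Cfsg.IsPModular p M) (P : Sylow p G) (hab : IsMulCommutative P) (hP1 : Nat.card P ≠ 1) (hCN : (Subgroup.centralizer ((P : Subgroup G) : Set G)).relIndex (Subgroup.normalizer ((P : Subgroup G) : Set G)) = 3) (hcyc : ∃ g : G, g ∈ Subgroup.normalizer ((P : Subgroup G) : Set G) ∧ Subgroup.centralizer ((P : Subgroup G) : Set G) ⊔ Subgroup.zpowers g = Subgroup.normalizer ((P : Subgroup G) : Set G)) (hm2 : 3 + 1 < Nat.card P) (hfrob : ∀ y : G, y ∈ (P : Subgroup G) → y ≠ 1 → Subgroup.centralizer ({y} : Set G) ⊓ Subgroup.normalizer ((P : Subgroup G) : Set G) = Subgroup.centralizer ((P : Subgroup G) : Set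 G)) : ∃ (X Y : Set (Cfsg.IrrCharacter G)), Cfsg.principalBlock M G = X ∪ Y ∧ Disjoint X Y ∧ Nat.card X = 3 ∧ Nat.card Y = (Nat.card P - 1) / 3 ∧ (∃ χ₁ ∈ X, (χ₁ : G → ℂ) = fun _ => 1) ∧ ∃ (a : Cfsg.IrrCharacter G → ℤ) (δ : ℤ) (ζ : (↥(P : Subgroup G) →* ℂˣ) → Cfsg.IrrCharacter G), (δ = 1 ∨ δ = -1) ∧ (∀ χ ∈ X, (a χ = 1 ∨ a χ = -1) ∧ ∀ z y : G, Cfsg.IsPPart p z y → y ∈ (P : Subgroup G) → y ≠ 1 → (χ : G → ℂ) z = (a χ : ℂ)) ∧ (∀ ψ : ↥(P : Subgroup G) →* ℂˣ, ψ ≠ 1 → ζ ψ ∈ Y) ∧ (∀ η ∈ Y, ∃ ψ : ↥(P : Subgroup G) →* ℂˣ, ψ ≠ 1 ∧ ζ ψ = η) ∧ (∀ ψ ψ' : ↥(P : Subgroup G) →* ℂˣ, ψ ≠ 1 → (∃ n : G, n ∈ Subgroup.normalizer ((P : Subgroup G) : Set G) ∧ ∀ w w' : ↥(P : Subgroup G), (w' : G) = n * w * n⁻¹ → ψ' w' = ψ w) → ζ ψ' = ζ ψ) ∧ (∀ ψ : ↥(P : Subgroup G) →* ℂˣ, ψ ≠ 1 → ∀ (z : G) (y : ↥(P : Subgroup G)), Cfsg.IsPPart p z (y : G) → (y : G) ≠ 1 → (ζ ψ : G → ℂ) z = (δ : ℂ) * ∑ᶠ ψ' ∈ {ψ' : ↥(P : Subgroup G) →* ℂˣ | ∃ n : G, n ∈ Subgroup.normalizer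 ((P : Subgroup G) : Set G) ∧ ∀ w w' : ↥(P : Subgroup G), (w' : G) = n * w * n⁻¹ → ψ' w' = ψ w}, ((ψ' y : ℂˣ) : ℂ)) ∧ ((∃ t : G, orderOf t = 2 ∧ ∀ K : Subgroup G, K.Normal → t ∈ K → K = ⊤) → Nat.card {χ : Cfsg.IrrCharacter G // χ ∈ X ∧ (χ : G → ℂ) ≠ (fun _ => 1) ∧ a χ = -1} + (if δ = 1 then 1 else 0) = 2 ∧ ∀ η ∈ Y, IsSquare (Cfsg.charDegree (η : G → ℂ) * ∏ᶠ χ ∈ {χ : Cfsg.IrrCharacter G | χ ∈ X ∧ (χ : G → ℂ) ≠ fun _ => 1}, Cfsg.charDegree (χ : G → ℂ))) := by
  classical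
  letI : Fintype G := Fintype.ofFinite G
  letI : Fintype (P : Subgroup G) := Fintype.ofFinite _
  have H : Hyp P 3 := ⟨hab, hCN, hfrob⟩
  have hA : ∀ a b : ↥(P : Subgroup G), a * b = b * a := fun a b => Subtype.ext (H.comm a.2 b.2)
  haveI : Finite (↥(P : Subgroup G) →* ℂˣ) := finite_dual hA
  letI : Fintype (↥(P : Subgroup G) →* ℂˣ) := Fintype.ofFinite _
  haveI hMp : M.IsPrime := hM.2.1.isPrime
  have hm0 : (3 : ℕ) ≠ 0 := by norm_num
  have hm2' : 3 + 1 < Nat.card (P : Subgroup G) := hm2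
  obtain ⟨ε, a, f, D⟩ := H.exists_data_zero hM hm2'
  have hcard : Nat.card (TT P) * 3 = Nat.card (P : Subgroup G) - 1 := H.card_TT_mul
  haveI hfT : Finite (TT P) := finite_TT
  have hT2 : 1 < Nat.card (TT P) := by
    by_contra hc
    have h1 : Nat.card (TT P) * 3 ≤ 1 * 3 := Nat.mul_le_mul_right _ (not_lt.1 hc)
    omega
  obtain ⟨s₀, t₀, hst⟩ := (Finite.one_lt_card_iff_nontrivial.1 hT2).exists_pair_ne
  have hT : ∀ t : TT P, ∃ s : TT P, s ≠ t := by
    intro t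
    by_cases h : s₀ = t
    · exact ⟨t₀, fun h' => hst (h.trans h'.symm)⟩
    · exact ⟨s₀, h⟩
  have hr : (Nat.card (P : Subgroup G) - 1) / 3 = Nat.card (TT P) := by
    rw [← hcard]
    exact Nat.mul_div_cancel _ (by omega)
  have hy₀ : ∃ y₀ : ↥(P : Subgroup G), y₀ ≠ 1 := by
    by_contra hc
    push Not at hc
    apply hP1
    have : Subsingleton ↥(P : Subgroup G) := ⟨fun a b => by rw [hc a, hc b]⟩
    exact Nat.card_of_subsingleton (1 : ↥(P : Subgroup G))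
  obtain ⟨y₀, hy₀⟩ := hy₀
  obtain ⟨hX3, hone⟩ := D.three hM H s₀ hy₀
  have htriv : trivChar G ∈ XF M f :=
    mem_XF.2 ⟨trivChar_mem_principalBlock, D.triv_notMem H hm0 hT⟩
  have hatriv : a (trivChar G) = 1 := by
    have h1 := D.value_X H hm0 htriv hy₀
    have h2 : ((trivChar G : IrrCharacter G) : G → ℂ) y₀ = 1 := rfl
    rw [h2] at h1
    exact_mod_cast h1.symm
  have herase : ((XF M f).erase (trivChar G)).card = 2 := by
    rw [Finset.card_erase_of_mem htriv, hX3]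
  obtain ⟨χ₂, χ₃, h23, hpair⟩ := Finset.card_eq_two.1 herase
  have hmem2 : χ₂ ∈ (XF M f).erase (trivChar G) := by rw [hpair]; simp
  have hmem3 : χ₃ ∈ (XF M f).erase (trivChar G) := by rw [hpair]; simp
  have h2 : χ₂ ≠ trivChar G := Finset.ne_of_mem_erase hmem2
  have h3 : χ₃ ≠ trivChar G := Finset.ne_of_mem_erase hmem3
  have hXF : XF M f = {trivChar G, χ₂, χ₃} := by
    rw [← hpair, Finset.insert_erase htriv]
  have horb : ∀ ψ : ↥(P : Subgroup G) →* ℂˣ, orb ψ = ((orbF ψ : Finset _) : Set _) := by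
    intro ψ
    ext φ
    simp
  let ζ : (↥(P : Subgroup G) →* ℂˣ) → IrrCharacter G := fun ψ =>
    if h : ψ ≠ 1 then f (tOf ψ h) else f s₀
  have hζ : ∀ ψ (h : ψ ≠ 1), ζ ψ = f (tOf ψ h) := fun ψ h => by
    simp only [ζ]
    rw [dif_pos h]
  refine ⟨((XF M f : Finset _) : Set _), Set.range f, ?_, ?_, ?_, ?_, ?_, a, ε, ζ, D.hε, ?_, ?_, ?_, ?_, ?_, ?_⟩
  · ext χ
    simp only [Set.mem_union, Finset.mem_coe, mem_XF, Set.mem_range]
    constructor
    · intro h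
      by_cases h2 : ∃ t, f t = χ
      · exact Or.inr h2
      · exact Or.inl ⟨h, h2⟩
    · rintro (h | ⟨t, rfl⟩)
      · exact h.1
      · exact D.hfB t
  · rw [Set.disjoint_left]
    intro χ h1 h2
    exact (mem_XF.1 (Finset.mem_coe.1 h1)).2 h2
  · rw [Nat.card_coe_set_eq, Set.ncard_coe_finset, hX3]
  · rw [Nat.card_range_of_injective D.hinj]
    exact hr.symm
  · refine ⟨trivChar G, Finset.mem_coe.2 htriv, rfl⟩
  · intro χ hχ
    refine ⟨hone χ hχ, fun z y hz hy hy1 => ?_⟩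
    rw [H.apply_of_isPPart hM hz hy hy1 (mem_XF.1 (Finset.mem_coe.1 hχ)).1]
    exact D.value_X H hm0 hχ (y := ⟨y, hy⟩) (fun h => hy1 (congrArg Subtype.val h))
  · intro ψ hψ
    rw [hζ ψ hψ]
    exact ⟨_, rfl⟩
  · rintro _ ⟨t, rfl⟩
    obtain ⟨ψ, hψ, ht⟩ := t.2
    refine ⟨ψ, hψ, ?_⟩
    rw [hζ ψ hψ]
    congr 1
    exact Subtype.ext ht.symm
  · intro ψ ψ' hψ h
    have h' : ψ' ∈ orb ψ := h
    rw [hζ ψ hψ, hζ ψ' (ne_one_of_mem_orb h' hψ)]
    congr 1
    exact Subtype.ext (theta_eq_of_mem h')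
  · intro ψ hψ z y hz hy1
    have hy' : y ≠ 1 := fun h => hy1 (congrArg Subtype.val h)
    rw [H.apply_of_isPPart hM hz y.2 hy1 (by
      rw [hζ ψ hψ]
      exact D.hfB _), hζ ψ hψ, D.value_Y H hm0 _ hy']
    have h1 : {ψ' : ↥(P : Subgroup G) →* ℂˣ | ∃ n : G, n ∈ Subgroup.normalizer ((P : Subgroup G) : Set G) ∧ ∀ w w' : ↥(P : Subgroup G), (w' : G) = n * w * n⁻¹ → ψ' w' = ψ w} = ((orbF ψ : Finset _) : Set _) := horb ψ
    rw [h1, finsum_mem_coe_finset]
    simp only [Int.cast_zero, zero_add]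
    rfl
  · rintro ⟨t, ht, hgen⟩
    have ha₂ := hone χ₂ (by rw [hXF]; simp)
    have ha₃ := hone χ₃ (by rw [hXF]; simp)
    have hfun : ∀ χ : IrrCharacter G, ((χ : G → ℂ) ≠ fun _ => 1) ↔ χ ≠ trivChar G := by
      intro χ
      exact ⟨fun h h' => h (by rw [h']; rfl), fun h h' => h (Subtype.ext h')⟩
    by_cases hp2 : p = 2
    · exfalso
      obtain ⟨c, hc⟩ := exists_conj_mem P (k := 1) (z := t) (by rw [ht, hp2, pow_one])
      have htt : t * t = 1 := by
        have := pow_orderOf_eq_one t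
        rwa [ht, pow_two] at this
      have ht1 : t ≠ 1 := by
        rintro rfl
        rw [orderOf_one] at ht
        omega
      let τ : ↥(P : Subgroup G) := ⟨c * t * c⁻¹, hc⟩
      have hτ : τ * τ = 1 := by
        apply Subtype.ext
        show c * t * c⁻¹ * (c * t * c⁻¹) = 1
        calc c * t * c⁻¹ * (c * t * c⁻¹) = c * (t * t) * c⁻¹ := by group
          _ = 1 := by rw [htt]; group
      have hτ1 : τ ≠ 1 := by
        intro h
        have h1 : c * t * c⁻¹ = 1 := congrArg Subtype.val h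
        apply ht1
        have : t = c⁻¹ * (c * t * c⁻¹) * c := by group
        rw [this, h1]
        group
      have hgen' : ∀ K : Subgroup G, K.Normal → (τ : G) ∈ K → K = ⊤ := by
        intro K hK h
        apply hgen K hK
        have h1 := hK.conj_mem _ h c⁻¹
        have h2 : c⁻¹ * (τ : G) * c⁻¹⁻¹ = t := by
          show c⁻¹ * (c * t * c⁻¹) * c⁻¹⁻¹ = t
          group
        rwa [h2] at h1
      have hP16 : 16 ≤ Nat.card (P : Subgroup G) := by
        obtain ⟨k, hk⟩ := IsPGroup.iff_card.1 P.isPGroup'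
        have hk' : Nat.card (P : Subgroup G) = 2 ^ k := by
          rw [← hp2]
          exact hk
        by_contra hlt
        have hk4 : k < 4 := by
          by_contra hk4
          have : 2 ^ 4 ≤ 2 ^ k := Nat.pow_le_pow_right (by norm_num) (not_lt.1 hk4)
          omega
        interval_cases k <;> omega
      exact D.moreover_even hM H hp2 (by omega) hP16 hτ hτ1 hgen' h23 h2 h3 hXF hatriv ha₂ ha₃
    · constructor
      · obtain ⟨hcase, -⟩ := D.moreover_odd hM H hp2 ht hgen h23 h2 h3 hXF hatriv ha₂ ha₃ s₀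
        set S := ({χ₂, χ₃} : Finset (IrrCharacter G)).filter (fun χ => a χ = -1) with hS
        have hc1 : Nat.card {χ : Cfsg.IrrCharacter G // χ ∈ ((XF M f : Finset _) : Set _) ∧
            (χ : G → ℂ) ≠ (fun _ => 1) ∧ a χ = -1} = S.card := by
          rw [← Fintype.card_coe, ← Nat.card_eq_fintype_card]
          apply Nat.card_congr
          apply Equiv.subtypeEquivRight
          intro χ
          rw [hfun χ, Finset.mem_coe, hXF, hS]
          simp only [Finset.mem_insert, Finset.mem_singleton, Finset.mem_filter]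
          constructor
          · rintro ⟨h1 | h1 | h1, h4, h5⟩
            · exact absurd h1 h4
            · exact ⟨Or.inl h1, h5⟩
            · exact ⟨Or.inr h1, h5⟩
          · rintro ⟨h1 | h1, h5⟩
            · exact ⟨Or.inr (Or.inl h1), h1 ▸ h2, h5⟩
            · exact ⟨Or.inr (Or.inr h1), h1 ▸ h3, h5⟩
        rw [hc1]
        rcases hcase with ⟨h₂', h₃', h₁⟩ | ⟨h₂', h₃', h₁⟩ | ⟨h₂', h₃', h₁⟩
        · have : S = {χ₂} := by
            rw [hS, Finset.filter_insert, Finset.filter_singleton]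
            simp [h₂', h₃']
          rw [this, h₁]
          simp
        · have : S = {χ₃} := by
            rw [hS, Finset.filter_insert, Finset.filter_singleton]
            simp [h₂', h₃']
          rw [this, h₁]
          simp
        · have : S = {χ₂, χ₃} := by
            rw [hS, Finset.filter_insert, Finset.filter_singleton]
            simp [h₂', h₃']
          rw [this, h₁, Finset.card_pair h23]
          simp
      · rintro _ ⟨s, rfl⟩
        obtain ⟨-, hsq⟩ := D.moreover_odd hM H hp2 ht hgen h23 h2 h3 hXF hatriv ha₂ ha₃ s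
        have hset : {χ : IrrCharacter G | χ ∈ ((XF M f : Finset _) : Set _) ∧ (χ : G → ℂ) ≠ fun _ => 1} =
            (({χ₂, χ₃} : Finset (IrrCharacter G)) : Set _) := by
          ext χ
          rw [Set.mem_setOf_eq, hfun χ, Finset.mem_coe, Finset.mem_coe, hXF]
          simp only [Finset.mem_insert, Finset.mem_singleton]
          constructor
          · rintro ⟨h1 | h1 | h1, h4⟩
            · exact absurd h1 h4
            · exact Or.inl h1
            · exact Or.inr h1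
          · rintro (h1 | h1)
            · exact ⟨Or.inr (Or.inl h1), h1 ▸ h2⟩
            · exact ⟨Or.inr (Or.inr h1), h1 ▸ h3⟩
        rw [hset, finprod_mem_coe_finset, Finset.prod_pair h23]
        exact hsq

end Cfsg.Agent.S4721
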