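import Cfsg.Statements.S4722
import Mathlib
import Cfsg.Agent.Lib.Blocks.Sections
import Cfsg.Agent.Lib.Blocks.SecondMain
import Cfsg.Agent.Lib.Blocks.BSMoment
import Cfsg.Agent.Lib.Blocks.PrincipalCen
import Cfsg.Agent.Lib.Blocks.Kernel
import Cfsg.Agent.Lib.Blocks.Principal
import Cfsg.Agent.Lib.Char.Ortho
-- import your own Cfsg.Agent.* helpers here

set_option autoImplicit false
open Cfsg

namespace Cfsg.Agent.S4722

open Cfsg.Agent.Lib.Blocks.Sections Cfsg.Agent.Lib.Blocks.SecondMain Cfsg.Agent.Lib.Blocks.BSMoment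
open Cfsg.Agent.Lib.Blocks.PrincipalCen Cfsg.Agent.Lib.Blocks.Kernel Cfsg.Agent.Lib.Blocks.Principal
open Cfsg.Agent.Lib.Char.Ortho
open scoped ComplexConjugate

/-! ### The real inequality -/

lemma real_key {ι : Type*} (B : Finset ι) (r d f : ι → ℝ) (hd : ∀ i ∈ B, 0 < d i)
    (h1 : ∑ i ∈ B, r i * d i = 0) (h2 : ∑ i ∈ B, r i * f i = 0) (h3 : ∑ i ∈ B, r i * f i ^ 2 / d i = 0)
    {s : ι} (hs : s ∈ B) (hneg : ∀ i ∈ B, i ≠ s → r i ≤ 0) {i : ι} (hi : i ∈ B) (his : i ≠ s)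
    (hr : r i ≠ 0) : f i / d i = f s / d s := by
  set c := f s / d s with hc
  have hsum : ∑ i ∈ B, r i * d i * (f i / d i - c) ^ 2 = 0 := by
    have h : ∀ i ∈ B, r i * d i * (f i / d i - c) ^ 2
        = r i * f i ^ 2 / d i - 2 * c * (r i * f i) + c ^ 2 * (r i * d i) := by
      intro i hi
      have := (hd i hi).ne'
      field_simp
      ring
    rw [Finset.sum_congr rfl h, Finset.sum_add_distrib, Finset.sum_sub_distrib, ← Finset.mul_sum,
      ← Finset.mul_sum, h1, h2, h3]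
    ring
  have hle : ∀ j ∈ B, r j * d j * (f j / d j - c) ^ 2 ≤ 0 := by
    intro j hj
    by_cases hjs : j = s
    · subst hjs
      simp [hc]
    · exact mul_nonpos_of_nonpos_of_nonneg
        (mul_nonpos_of_nonpos_of_nonneg (hneg j hj hjs) (hd j hj).le) (sq_nonneg _)
  have h0 := (Finset.sum_eq_zero_iff_of_nonpos hle).1 hsum i hi
  have hdi := (hd i hi).ne'
  have h4 : (f i / d i - c) ^ 2 = 0 := by
    rcases mul_eq_zero.1 h0 with h | h
    · exact absurd h (mul_ne_zero hr hdi)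
    · exact h
  have h5 := pow_eq_zero_iff (two_ne_zero) |>.1 h4
  linarith

lemma real_key2 {ι : Type*} (B : Finset ι) (r d f : ι → ℝ) (hd : ∀ i ∈ B, 0 < d i)
    (h1 : ∑ i ∈ B, r i * d i = 0) (h2 : ∑ i ∈ B, r i * f i = 0) (h3 : ∑ i ∈ B, r i * f i ^ 2 / d i = 0)
    {e : ι} (he : e ∈ B) (hre : r e ≠ 0) (hde : d e = 1) (hfe : f e = 1)
    {s : ι} (hs : s ∈ B) (hneg : ∀ i ∈ B, i ≠ s → r i ≤ 0) : ∃ i ∈ B, i ≠ e ∧ f i = d i := by
  have hrs : 0 < r s := by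
    by_contra hc
    push Not at hc
    have hall : ∀ i ∈ B, r i * d i ≤ 0 := fun i hi => by
      refine mul_nonpos_of_nonpos_of_nonneg ?_ (hd i hi).le
      by_cases his : i = s
      · rw [his]; exact hc
      · exact hneg i hi his
    have := (Finset.sum_eq_zero_iff_of_nonpos hall).1 h1 e he
    rw [hde, mul_one] at this
    exact hre this
  obtain ⟨i, hi, hri⟩ : ∃ i ∈ B, r i < 0 := by
    by_contra hc
    push Not at hc
    have hall : ∀ i ∈ B, 0 ≤ r i * d i := fun i hi => mul_nonneg (hc i hi) (hd i hi).le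
    have := (Finset.sum_eq_zero_iff_of_nonneg hall).1 h1 s hs
    exact (mul_pos hrs (hd s hs)).ne' this
  have his : i ≠ s := by
    rintro rfl
    linarith
  have hfi := real_key B r d f hd h1 h2 h3 hs hneg hi his hri.ne
  have hc1 : f s / d s = 1 := by
    by_cases hes : e = s
    · subst hes
      rw [hde, hfe]
      norm_num
    · have := real_key B r d f hd h1 h2 h3 hs hneg he hes hre
      rw [hde, hfe] at this
      simpa using this.symm
  have hdi := (hd i hi).ne'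
  have hds := (hd s hs).ne'
  have hi1 : f i = d i := by
    rw [hc1] at hfi
    exact (div_eq_one_iff_eq hdi).1 hfi
  have hs1 : f s = d s := (div_eq_one_iff_eq hds).1 hc1
  by_cases hie : i = e
  · exact ⟨s, hs, fun h => his (hie.trans h.symm), hs1⟩
  · exact ⟨i, hi, hie, hi1⟩

lemma exists_single {ι : Type*} [Finite ι] (B : Set ι) (r : ι → ℝ) {e : ι} (he : e ∈ B)
    (h : ¬ 2 ≤ Nat.card {χ : ι // χ ∈ B ∧ 0 < r χ}) : ∃ s ∈ B, ∀ i ∈ B, i ≠ s → r i ≤ 0 := by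
  have h2 : Subsingleton {χ : ι // χ ∈ B ∧ 0 < r χ} :=
    Finite.card_le_one_iff_subsingleton.1 (by omega)
  by_cases hs : ∃ s ∈ B, 0 < r s
  · obtain ⟨s, hsB, hrs⟩ := hs
    refine ⟨s, hsB, fun i hi his => ?_⟩
    by_contra hc
    push Not at hc
    exact his (congrArg Subtype.val (h2.elim (⟨i, hi, hc⟩ : {χ : ι // χ ∈ B ∧ 0 < r χ}) ⟨s, hsB, hrs⟩))
  · push Not at hs
    exact ⟨e, he, fun i hi _ => hs i hi⟩

/-! ### The columns -/

section Columns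

variable {G : Type*} [Group G] [Fintype G] {M : Ideal AlgInt} [M.IsPrime]

/-- The coefficient. -/
noncomputable def azz (P : Subgroup G) (θ : P → ℂ) (χ : G → ℂ) : ℂ :=
  (Nat.card P : ℂ)⁻¹ * ∑ᶠ y : P, χ y * θ y⁻¹

lemma column {B : Set (IrrCharacter G)} {P : Subgroup G} {U : Set G} {θ : P → ℂ}
    (hθU : ∀ y : P, (y : G) ∉ U → θ y = 0) (h : IrrCharacter G → ℂ)
    (hcol : ∀ u ∈ U, ∑ᶠ χ ∈ B, (χ : G → ℂ) u⁻¹ * h χ = 0) :
    ∑ᶠ χ ∈ B, azz P θ (χ : G → ℂ) * h χ = 0 := by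
  classical
  haveI : Fintype P := Fintype.ofFinite _
  simp only [Cfsg.Agent.Lib.Blocks.Osima.finsum_mem_eq_sum_filter] at hcol ⊢
  have h1 : ∀ χ : IrrCharacter G, azz P θ (χ : G → ℂ) * h χ
      = (Nat.card P : ℂ)⁻¹ * ∑ y : P, θ y⁻¹ * ((χ : G → ℂ) y * h χ) := by
    intro χ
    rw [azz, finsum_eq_sum_of_fintype, mul_assoc, Finset.sum_mul]
    congr 1
    refine Finset.sum_congr rfl fun y _ => ?_
    ring
  simp only [h1]
  rw [← Finset.mul_sum, Finset.sum_comm]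
  convert mul_zero _ using 2
  refine Finset.sum_eq_zero fun y _ => ?_
  rw [← Finset.mul_sum]
  by_cases hy : ((y⁻¹ : P) : G) ∈ U
  · have := hcol _ hy
    simp only [Subgroup.coe_inv, inv_inv] at this
    rw [this, mul_zero]
  · rw [hθU _ hy, zero_mul]

lemma isPPart_self_of_order {u : G} {k : ℕ} (hu : orderOf u = 2 ^ k) : IsPPart 2 u u :=
  ⟨1, mul_one _, Commute.one_right _, ⟨k, hu⟩, by simp⟩

lemma col_one (hM : IsPModular 2 M) {B : Set (IrrCharacter G)} (hB : IsPBlock M B) {u : G} {k : ℕ}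
    (hu : orderOf u = 2 ^ k) (hne : u ≠ 1) : ∑ᶠ χ ∈ B, (χ : G → ℂ) u⁻¹ * (χ : G → ℂ) 1 = 0 := by
  have hu' : orderOf u⁻¹ = 2 ^ k := by rw [orderOf_inv, hu]
  have h := block_orthogonality hM (isPPart_self_of_order hu')
    (isPPart_self_of_order (u := (1 : G)) (k := 0) (by simp)) (by
      intro hc
      have : u⁻¹ = 1 := by simpa using hc
      exact hne (inv_eq_one.1 this)) hB
  simpa using h

lemma col_t (hM : IsPModular 2 M) {B : Set (IrrCharacter G)} (hB : IsPBlock M B) {u t : G} {k : ℕ}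
    (hu : orderOf u = 2 ^ k) (ht : orderOf t = 2)
    (hinv : ∀ g : G, (g * t * g⁻¹) * u * (g * t * g⁻¹)⁻¹ ≠ u⁻¹) :
    ∑ᶠ χ ∈ B, (χ : G → ℂ) u⁻¹ * (χ : G → ℂ) t = 0 := by
  have hu' : orderOf u⁻¹ = 2 ^ k := by rw [orderOf_inv, hu]
  have ht2 : t ^ 2 = 1 := by rw [← ht]; exact pow_orderOf_eq_one t
  have htinv : t⁻¹ = t := by
    rw [inv_eq_iff_mul_eq_one, ← pow_two, ht2]
  have h := block_orthogonality hM (isPPart_self_of_order hu')
    (isPPart_self_of_order (u := t) (k := 1) (by simpa using ht)) (by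
      intro hc
      obtain ⟨c, hc⟩ := isConj_iff.1 hc
      -- `c u⁻¹ c⁻¹ = t`, so `u⁻¹` is an involution
      have hut : c⁻¹ * t * c = u⁻¹ := by rw [← hc]; group
      have htt : t * t = 1 := by rw [← pow_two, ht2]
      have h3 : u⁻¹ * u⁻¹ = 1 := by
        have h5 : u⁻¹ * u⁻¹ = c⁻¹ * (t * t) * c := by rw [← hut]; group
        rw [h5, htt]; group
      have huu : u⁻¹ = u := by
        have := eq_inv_of_mul_eq_one_left h3
        rwa [inv_inv] at this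
      apply hinv c⁻¹
      rw [inv_inv, hut, huu]
      group) hB
  rw [htinv] at h
  exact h

lemma col_mom (hM : IsPModular 2 M) {B : Set (IrrCharacter G)} (hB : IsPBlock M B) {u t : G} {k : ℕ}
    (hu : orderOf u = 2 ^ k) (ht : orderOf t = 2)
    (hinv : ∀ g : G, (g * t * g⁻¹) * u * (g * t * g⁻¹)⁻¹ ≠ u⁻¹) :
    ∑ᶠ χ ∈ B, (χ : G → ℂ) u⁻¹ * momSum t (χ : G → ℂ) = 0 := by
  classical
  have hu' : orderOf u⁻¹ = 2 ^ k := by rw [orderOf_inv, hu]
  have ht2 : t ^ 2 = 1 := by rw [← ht]; exact pow_orderOf_eq_one t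
  have hpair : ∀ a ∈ clsF t, ∀ b ∈ clsF t, ∑ᶠ χ ∈ B, (χ : G → ℂ) u⁻¹ * (χ : G → ℂ) (a * b) = 0 := by
    intro a ha b hb
    obtain ⟨d, hd⟩ := isConj_iff.1 (mem_clsF.1 ha)
    obtain ⟨d', hd'⟩ := isConj_iff.1 (mem_clsF.1 hb)
    have ha2 : a * a = 1 := by
      rw [← hd]
      have : d * t * d⁻¹ * (d * t * d⁻¹) = d * (t * t) * d⁻¹ := by group
      rw [this, ← pow_two, ht2]; group
    have hb2 : b * b = 1 := by
      rw [← hd']
      have : d' * t * d'⁻¹ * (d' * t * d'⁻¹) = d' * (t * t) * d'⁻¹ := by group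
      rw [this, ← pow_two, ht2]; group
    have hainv : a⁻¹ = a := inv_eq_of_mul_eq_one_left ha2
    have hbinv : b⁻¹ = b := inv_eq_of_mul_eq_one_left hb2
    obtain ⟨w, hw⟩ := exists_isPPart 2 (a * b)⁻¹
    have h := block_orthogonality hM (isPPart_self_of_order hu') hw (by
      intro hc
      obtain ⟨c, hc⟩ := isConj_iff.1 hc
      obtain ⟨s, hs⟩ := isPPart_exists_pow_eq hw
      -- `a` inverts `(a b)⁻¹`
      have h1 : a * (a * b)⁻¹ * a⁻¹ = ((a * b)⁻¹)⁻¹ := by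
        have hab : (a * b)⁻¹ = b * a := by rw [mul_inv_rev, hbinv, hainv]
        rw [hab]
        calc a * (b * a) * a⁻¹ = a * b := by group
          _ = (b * a)⁻¹ := by rw [mul_inv_rev, hbinv, hainv]
      have h2 : a * w * a⁻¹ = w⁻¹ := by
        rw [← hs, ← conj_pow, h1, inv_pow]
      rw [← hc] at h2
      apply hinv (c⁻¹ * d)
      have h3 : (c⁻¹ * d) * t * (c⁻¹ * d)⁻¹ = c⁻¹ * a * c := by
        rw [← hd]; group
      rw [h3]
      have h4 : (c⁻¹ * a * c) * u⁻¹ * (c⁻¹ * a * c)⁻¹ = u := by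
        calc (c⁻¹ * a * c) * u⁻¹ * (c⁻¹ * a * c)⁻¹ = c⁻¹ * (a * (c * u⁻¹ * c⁻¹) * a⁻¹) * c := by group
          _ = c⁻¹ * (c * u⁻¹ * c⁻¹)⁻¹ * c := by rw [h2]
          _ = u := by group
      have h5 : (c⁻¹ * a * c) * u * (c⁻¹ * a * c)⁻¹ = ((c⁻¹ * a * c) * u⁻¹ * (c⁻¹ * a * c)⁻¹)⁻¹ := by group
      rw [h5, h4]) hB
    rw [inv_inv] at h
    exact h
  simp only [Cfsg.Agent.Lib.Blocks.Osima.finsum_mem_eq_sum_filter] at hpair ⊢
  simp only [momSum, Finset.mul_sum]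
  rw [Finset.sum_comm]
  refine Finset.sum_eq_zero fun a ha => ?_
  rw [Finset.sum_comm]
  exact Finset.sum_eq_zero fun b hb => hpair a ha b hb

lemma col_sq (hM : IsPModular 2 M) {B : Set (IrrCharacter G)} (hB : IsPBlock M B) {u t : G} {k : ℕ}
    (hu : orderOf u = 2 ^ k) (ht : orderOf t = 2)
    (hinv : ∀ g : G, (g * t * g⁻¹) * u * (g * t * g⁻¹)⁻¹ ≠ u⁻¹) :
    ∑ᶠ χ ∈ B, (χ : G → ℂ) u⁻¹ * ((χ : G → ℂ) t ^ 2 / (χ : G → ℂ) 1) = 0 := by
  classical
  have h := col_mom hM hB hu ht hinv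
  simp only [Cfsg.Agent.Lib.Blocks.Osima.finsum_mem_eq_sum_filter] at h ⊢
  have h1 : ∀ χ : IrrCharacter G, (χ : G → ℂ) u⁻¹ * momSum t (χ : G → ℂ)
      = ((clsF t).card : ℂ) ^ 2 * ((χ : G → ℂ) u⁻¹ * ((χ : G → ℂ) t ^ 2 / (χ : G → ℂ) 1)) := by
    intro χ
    rw [momSum_irr χ.2]
    ring
  simp only [h1] at h
  rw [← Finset.mul_sum] at h
  exact (mul_eq_zero.1 h).resolve_left (pow_ne_zero _ (card_clsF_ne_zero t))

end Columns

section Real

variable {G : Type*} [Group G] [Fintype G]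

lemma azz_real {P : Subgroup G} {θ : P → ℂ} (hθ : IsGeneralizedCharacter P θ) (χ : IrrCharacter G) :
    azz P θ (χ : G → ℂ) = (((azz P θ (χ : G → ℂ)).re : ℝ) : ℂ) := by
  classical
  haveI : Fintype P := Fintype.ofFinite _
  obtain ⟨ψ₁, ψ₂, h1, h2, rfl⟩ := hθ
  have hres := Cfsg.Agent.Lib.Char.Basic.isCharacter_restrict
    (Cfsg.Agent.Lib.Char.Basic.isCharacter_of_isIrrCharacter χ.2) P
  obtain ⟨n₁, hn₁⟩ := exists_nat_classInner_of_isCharacter hres h1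
  obtain ⟨n₂, hn₂⟩ := exists_nat_classInner_of_isCharacter hres h2
  rw [classInner_eq_inv_of_isCharacter _ h1] at hn₁
  rw [classInner_eq_inv_of_isCharacter _ h2] at hn₂
  have h : azz P (ψ₁ - ψ₂) (χ : G → ℂ) = ((n₁ : ℝ) - (n₂ : ℝ) : ℝ) := by
    rw [azz, finsum_eq_sum_of_fintype]
    push_cast
    rw [← hn₁, ← hn₂, ← mul_sub, ← Finset.sum_sub_distrib]
    congr 1
    refine Finset.sum_congr rfl fun y _ => ?_
    simp only [Pi.sub_apply]
    ring
  rw [h, Complex.ofReal_re]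

lemma irr_real_t (χ : IrrCharacter G) {t : G} (ht : t⁻¹ = t) :
    (χ : G → ℂ) t = (((χ : G → ℂ) t).re : ℝ) := by
  have h := conj_of_isCharacter (Cfsg.Agent.Lib.Char.Basic.isCharacter_of_isIrrCharacter χ.2) t
  rw [ht] at h
  obtain ⟨r, hr⟩ := Complex.conj_eq_iff_real.1 h
  rw [hr, Complex.ofReal_re]

lemma irr_deg_real (χ : IrrCharacter G) :
    (χ : G → ℂ) 1 = (((χ : G → ℂ) 1).re : ℝ) ∧ 0 < ((χ : G → ℂ) 1).re := by
  obtain ⟨n, hn, h⟩ := irr_degree_pos χ.2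
  rw [h]
  simp [hn]

end Real


/-- Let M be a maximal ideal of the algebraic integers containing 2, P a 2-subgroup of the finite group G, U a subset of P, and t an involution of G such that no element of U is inverted by any conjugate of t. Let θ be a generalized character of P vanishing outside U, and for χ in the principal 2-block B₀ put a_χ = #P⁻¹ Σ_{y ∈ P} χ(y) θ(y⁻¹). Then Σ_{χ ∈ B₀} a_χ χ(t)^2/χ(1) = 0, Σ_{χ ∈ B₀} a_χ χ(1) = 0 and Σ_{χ ∈ B₀} a_χ χ(t) = 0. If moreover #P⁻¹ Σ_{y ∈ P} θ(y) ≠ 0, then either at least two of the a_χ have positive real part and at least two have negative real part, or G has a proper normal subgroup containing O_2'(G) and t. -/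
theorem result {G : Type*} [Group G] [Finite G] (M : Ideal Cfsg.AlgInt) (hM : Cfsg.IsPModular 2 M) (P : Subgroup G) (hP : IsPGroup 2 P) (U : Set G) (hUP : U ⊆ (P : Set G)) (t : G) (ht : orderOf t = 2) (hinv : ∀ u ∈ U, ∀ g : G, (g * t * g⁻¹) * u * (g * t * g⁻¹)⁻¹ ≠ u⁻¹) (θ : ↥P → ℂ) (hθ : Cfsg.IsGeneralizedCharacter ↥P θ) (hθU : ∀ y : ↥P, (y : G) ∉ U → θ y = 0) : (∑ᶠ χ ∈ Cfsg.principalBlock M G, ((Nat.card ↥P : ℂ)⁻¹ * ∑ᶠ y : ↥P, (χ : G → ℂ) (y : G) * θ y⁻¹) * (χ : G → ℂ) t ^ 2 / (χ : G → ℂ) 1 = 0) ∧ (∑ᶠ χ ∈ Cfsg.principalBlock M G, ((Nat.card ↥P : ℂ)⁻¹ * ∑ᶠ y : ↥P, (χ : G → ℂ) (y : G) * θ y⁻¹) * (χ : G → ℂ) 1 = 0) ∧ (∑ᶠ χ ∈ Cfsg.principalBlock M G, ((Nat.card ↥P : ℂ)⁻¹ * ∑ᶠ y : ↥P, (χ : G → ℂ) (y : G) * θ y⁻¹) * (χ : G → ℂ) t = 0) ∧ ((Nat.card ↥P : ℂ)⁻¹ * ∑ᶠ y : ↥P, θ y ≠ 0 → (2 ≤ Nat.card {χ : Cfsg.IrrCharacter G // χ ∈ Cfsg.principalBlock M G ∧ 0 < (((Nat.card ↥P : ℂ)⁻¹ * ∑ᶠ y : ↥P, (χ : G →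 ℂ) (y : G) * θ y⁻¹)).re} ∧ 2 ≤ Nat.card {χ : Cfsg.IrrCharacter G // χ ∈ Cfsg.principalBlock M G ∧ (((Nat.card ↥P : ℂ)⁻¹ * ∑ᶠ y : ↥P, (χ : G → ℂ) (y : G) * θ y⁻¹)).re < 0}) ∨ ∃ K : Subgroup G, K.Normal ∧ K ≠ ⊤ ∧ Cfsg.pPrimeCore 2 G ≤ K ∧ t ∈ K) := by
  classical
  haveI : Fintype G := Fintype.ofFinite G
  haveI : M.IsPrime := hM.2.1.isPrime
  have hB : IsPBlock M (principalBlock M G) := isPBlock_principalBlock M
  have ht2 : t ^ 2 = 1 := by rw [← ht]; exact pow_orderOf_eq_one t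
  have htinv : t⁻¹ = t := by
    rw [inv_eq_iff_mul_eq_one, ← pow_two, ht2]
  have hord : ∀ u ∈ U, ∃ k : ℕ, orderOf u = 2 ^ k := by
    intro u hu
    obtain ⟨k, hk⟩ := (IsPGroup.iff_orderOf.1 hP) ⟨u, hUP hu⟩
    exact ⟨k, by simpa using hk⟩
  have hne : ∀ u ∈ U, u ≠ 1 := by
    rintro u hu rfl
    exact hinv 1 hu 1 (by simp)
  have C1 : ∑ᶠ χ ∈ principalBlock M G, azz P θ (χ : G → ℂ) * ((χ : G → ℂ) t ^ 2 / (χ : G → ℂ) 1) = 0 :=
    column hθU _ fun u hu => by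
      obtain ⟨k, hk⟩ := hord u hu
      exact col_sq hM hB hk ht (hinv u hu)
  have C2 : ∑ᶠ χ ∈ principalBlock M G, azz P θ (χ : G → ℂ) * (χ : G → ℂ) 1 = 0 :=
    column hθU _ fun u hu => by
      obtain ⟨k, hk⟩ := hord u hu
      exact col_one hM hB hk (hne u hu)
  have C3 : ∑ᶠ χ ∈ principalBlock M G, azz P θ (χ : G → ℂ) * (χ : G → ℂ) t = 0 :=
    column hθU _ fun u hu => by
      obtain ⟨k, hk⟩ := hord u hu
      exact col_t hM hB hk ht (hinv u hu)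
  have C1' : ∑ᶠ χ ∈ principalBlock M G, azz P θ (χ : G → ℂ) * (χ : G → ℂ) t ^ 2 / (χ : G → ℂ) 1 = 0 := by
    simpa only [mul_div_assoc] using C1
  refine ⟨C1', C2, C3, fun hsum => ?_⟩
  -- the real version
  set BB : Finset (IrrCharacter G) := Finset.univ.filter (· ∈ principalBlock M G) with hBB
  let r : IrrCharacter G → ℝ := fun χ => (azz P θ (χ : G → ℂ)).re
  let f : IrrCharacter G → ℝ := fun χ => ((χ : G → ℂ) t).re
  let d : IrrCharacter G → ℝ := fun χ => ((χ : G → ℂ) 1).re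
  have hr : ∀ χ : IrrCharacter G, azz P θ (χ : G → ℂ) = (r χ : ℂ) := fun χ => azz_real hθ χ
  have hf : ∀ χ : IrrCharacter G, (χ : G → ℂ) t = (f χ : ℂ) := fun χ => irr_real_t χ htinv
  have hdd : ∀ χ : IrrCharacter G, (χ : G → ℂ) 1 = (d χ : ℂ) := fun χ => (irr_deg_real χ).1
  have hdpos : ∀ χ ∈ BB, 0 < d χ := fun χ _ => (irr_deg_real χ).2
  have R1 : ∑ χ ∈ BB, r χ * f χ ^ 2 / d χ = 0 := by
    rw [Cfsg.Agent.Lib.Blocks.Osima.finsum_mem_eq_sum_filter] at C1'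
    apply Complex.ofReal_injective
    push_cast
    rw [← C1']
    refine Finset.sum_congr rfl fun χ _ => ?_
    rw [hr, hf, hdd]
  have R2 : ∑ χ ∈ BB, r χ * d χ = 0 := by
    rw [Cfsg.Agent.Lib.Blocks.Osima.finsum_mem_eq_sum_filter] at C2
    apply Complex.ofReal_injective
    push_cast
    rw [← C2]
    refine Finset.sum_congr rfl fun χ _ => ?_
    rw [hr, hdd]
  have R3 : ∑ χ ∈ BB, r χ * f χ = 0 := by
    rw [Cfsg.Agent.Lib.Blocks.Osima.finsum_mem_eq_sum_filter] at C3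
    apply Complex.ofReal_injective
    push_cast
    rw [← C3]
    refine Finset.sum_congr rfl fun χ _ => ?_
    rw [hr, hf]
  -- the trivial character
  set e : IrrCharacter G := trivChar G with he
  have heB : e ∈ BB := by
    simp only [hBB, Finset.mem_filter, Finset.mem_univ, true_and]
    exact trivChar_mem_principalBlock
  have heB' : e ∈ principalBlock M G := trivChar_mem_principalBlock
  have hre : r e ≠ 0 := by
    intro h0
    have h1 : azz P θ (e : G → ℂ) = 0 := by rw [hr, h0]; simp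
    apply hsum
    rw [azz] at h1
    haveI : Fintype P := Fintype.ofFinite _
    rw [finsum_eq_sum_of_fintype] at h1 ⊢
    rw [← h1]
    congr 1
    rw [← Equiv.sum_comp (Equiv.inv P)]
    simp [he]
  have hde : d e = 1 := by simp [d, he]
  have hfe : f e = 1 := by simp [f, he]
  -- a character with `ξ t = ξ 1`, `ξ ≠ 1` gives the normal subgroup
  have hfin : ∀ ξ ∈ BB, ξ ≠ e → f ξ = d ξ → ∃ K : Subgroup G, K.Normal ∧ K ≠ ⊤ ∧ Cfsg.pPrimeCore 2 G ≤ K ∧ t ∈ K := by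
    intro ξ hξ hξe hfd
    have hξB : ξ ∈ principalBlock M G := by
      simpa [hBB] using hξ
    obtain ⟨K, hKn, hK⟩ := exists_ker_of_irr ξ.2
    refine ⟨K, hKn, ?_, fun n hn => (hK n).2 (apply_eq_of_mem_core hM hξB hn), (hK t).2 ?_⟩
    · intro htop
      have hconst : ∀ g : G, (ξ : G → ℂ) g = (ξ : G → ℂ) 1 := fun g => (hK g).1 (htop ▸ Subgroup.mem_top g)
      have hne' : (ξ : G → ℂ) ≠ (e : G → ℂ) := fun h => hξe (Subtype.ext h)
      have h0 := classInner_irr_of_ne ξ.2 e.2 hne'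
      rw [classInner] at h0
      simp only [he, coe_trivChar, map_one, mul_one, hconst, Finset.sum_const, Finset.card_univ, nsmul_eq_mul] at h0
      have hcard : ((Nat.card G : ℕ) : ℂ) ≠ 0 := by
        exact_mod_cast Nat.card_pos.ne'
      rw [← Nat.card_eq_fintype_card, ← mul_assoc, inv_mul_cancel₀ hcard, one_mul] at h0
      exact irr_apply_one_ne_zero ξ.2 h0
    · rw [hf, hdd, hfd]
  by_cases h1 : 2 ≤ Nat.card {χ : Cfsg.IrrCharacter G // χ ∈ Cfsg.principalBlock M G ∧ 0 < (((Nat.card ↥P : ℂ)⁻¹ * ∑ᶠ y : ↥P, (χ : G → ℂ) (y : G) * θ y⁻¹)).re}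
  · by_cases h2 : 2 ≤ Nat.card {χ : Cfsg.IrrCharacter G // χ ∈ Cfsg.principalBlock M G ∧ (((Nat.card ↥P : ℂ)⁻¹ * ∑ᶠ y : ↥P, (χ : G → ℂ) (y : G) * θ y⁻¹)).re < 0}
    · exact Or.inl ⟨h1, h2⟩
    · right
      have h2' : ¬ 2 ≤ Nat.card {χ : IrrCharacter G // χ ∈ principalBlock M G ∧ 0 < (fun χ => -r χ) χ} := by
        simp only [neg_pos]
        exact h2
      obtain ⟨s, hs, hneg⟩ := exists_single (principalBlock M G) (fun χ => -r χ) heB' h2'
      obtain ⟨ξ, hξ, hξe, hfd⟩ := real_key2 BB (fun χ => -r χ) d f hdpos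
        (by simp only [neg_mul, Finset.sum_neg_distrib, R2, neg_zero])
        (by simp only [neg_mul, Finset.sum_neg_distrib, R3, neg_zero])
        (by simp only [neg_mul, neg_div, Finset.sum_neg_distrib, R1, neg_zero])
        heB (neg_ne_zero.2 hre) hde hfe (s := s) (by simpa [hBB] using hs)
        (fun i hi his => hneg i (by simpa [hBB] using hi) his)
      exact hfin ξ hξ hξe hfd
  · right
    obtain ⟨s, hs, hneg⟩ := exists_single (principalBlock M G) r heB' h1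
    obtain ⟨ξ, hξ, hξe, hfd⟩ := real_key2 BB r d f hdpos R2 R3 R1
      heB hre hde hfe (s := s) (by simpa [hBB] using hs)
      (fun i hi his => hneg i (by simpa [hBB] using hi) his)
    exact hfin ξ hξ hξe hfd

end Cfsg.Agent.S4722
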