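import Cfsg.Statements.S4723
import Mathlib
import Cfsg.Agent.Lib.Blocks.ReyDefect
import Cfsg.Agent.Lib.Blocks.Knorr3
import Cfsg.Agent.Lib.Char.CliffordCorr
-- import your own Cfsg.Agent.* helpers here

set_option autoImplicit false
open Cfsg

set_option linter.style.haveILetI false

namespace Cfsg.Agent.S4723

open Cfsg.Agent.Lib.Blocks.Local Cfsg.Agent.Lib.Blocks.Central Cfsg.Agent.Lib.Blocks.Osima
  Cfsg.Agent.Lib.Blocks.Transport Cfsg.Agent.Lib.Blocks.Covering Cfsg.Agent.Lib.Blocks.Knorr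
  Cfsg.Agent.Lib.Blocks.FongReynolds Cfsg.Agent.Lib.Blocks.ReyDefect
  Cfsg.Agent.Lib.Blocks.HeightZero

/-- Let p be a prime, M a maximal ideal of the algebraic integers containing p, H a normal subgroup of the finite group G and b a p-block of H. Let T be the stabilizer of b in G. Then b contains a character θ of height zero whose own stabilizer in G (the elements g with θ(g h g⁻¹) = θ(h) for all h ∈ H) has index prime to p in T, i.e. contains a Sylow p-subgroup of T. -/
theorem result {G : Type*} [Group G] [Finite G] (p : ℕ) [Fact p.Prime] (M : Ideal Cfsg.AlgInt) (hM : Cfsg.IsPModular p M) (H : Subgroup G) [H.Normal] (b : Set (Cfsg.IrrCharacter ↥H)) (hb : Cfsg.IsPBlock M b) (T : Subgroup G) (hT : (∀ g : G, g ∈ T ↔ ∀ θ ∈ b, ∀ θ' : Cfsg.IrrCharacter ↥H, (∀ h h' : ↥H, (h' : G) = g * h * g⁻¹ → (θ' : ↥H → ℂ) h' = (θ : ↥H → ℂ) h) → θ' ∈ b)) : ∃ θ ∈ b, Cfsg.blockHeight p b (θ : ↥H → ℂ) = 0 ∧ ∃ S : Subgroup G, S ≤ T ∧ (∀ g : G, g ∈ S ↔ (g ∈ T ∧ ∀ h h' : ↥H, (h' :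 G) = g * h * g⁻¹ → (θ : ↥H → ℂ) h' = (θ : ↥H → ℂ) h)) ∧ ¬ p ∣ S.relIndex T := by
  classical
  haveI := Fintype.ofFinite G
  haveI : Fintype H := Fintype.ofFinite _
  haveI : Fintype T := Fintype.ofFinite _
  haveI hMp := isPrime_of_isPModular hM
  have hpp : p.Prime := Fact.out
  -- the stabilizer
  have hform : ∀ (g : G) (θ θ' : IrrCharacter H),
      (∀ h h' : H, (h' : G) = g * h * g⁻¹ → (θ' : H → ℂ) h' = (θ : H → ℂ) h) ↔ θ' = conjIrr g⁻¹ θ := by
    intro g θ θ'
    constructor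
    · intro h
      apply Subtype.ext
      funext x
      rw [conjIrr_apply]
      apply h
      simp [mul_assoc]
    · rintro rfl h h' hh'
      rw [conjIrr_apply]
      apply congrArg
      apply Subtype.ext
      simp [hh', mul_assoc]
  have hS : IsStabilizer b T := by
    intro g
    have hkey : ∀ g : G, g ∈ T ↔ g⁻¹ ∈ blockStabilizer (G := G) b hb := by
      intro g
      rw [hT]
      constructor
      · intro h θ hθ
        exact h θ hθ _ ((hform g θ _).2 rfl)
      · intro h θ hθ θ' hθ'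
        rw [(hform g θ θ').1 hθ']
        exact h θ hθ
    rw [hkey]
    exact (blockStabilizer (G := G) b hb).inv_mem_iff
  have hNT : H ≤ T := fun x hx => by
    have h1 : x ∈ blockStabilizer (G := G) b hb := le_blockStabilizer (G := G) hb hx
    exact (hS x).2 h1
  haveI : Fintype (H.subgroupOf T) := Fintype.ofFinite _
  haveI : (H.subgroupOf T).Normal := inferInstance
  set φ := Subgroup.subgroupOfEquivOfLe hNT with hφ
  set b' := bT hNT b with hb'def
  have hb' : IsPBlock M b' := isPBlock_blockMap _ hb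
  have hstable : IsConjStable (G := T) b' := isConjStable_bT hNT hS
  -- a block of `T` of maximal defect
  obtain ⟨θ₀, hθ₀⟩ := nonempty_of_isPBlock hb
  obtain ⟨ψ₀, hψ₀⟩ := exists_irr_of_constituent (G := T) (N := H.subgroupOf T) (irrComap φ θ₀).2
  let Sset : Set (Set (IrrCharacter T)) := {B' | IsPBlock M B' ∧
    ∃ χ ∈ B', ∃ θ ∈ b', classInner (fun n : H.subgroupOf T => (χ : T → ℂ) n) (θ : H.subgroupOf T → ℂ) ≠ 0}
  have hne : Sset.Nonempty := ⟨blockOf M (ψ₀ : T → ℂ), ⟨ψ₀, rfl⟩, ψ₀, mem_blockOf_self ψ₀, _,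
    irrComap_mem_blockMap _ hθ₀, hψ₀⟩
  obtain ⟨B₀, hB₀, hmax⟩ := Set.exists_max_image Sset (blockDefect p) (Set.toFinite _) hne
  obtain ⟨g₀, hg₀⟩ := exists_isDefectClass (M := M) hB₀.1
  obtain ⟨D₀⟩ : Nonempty (Sylow p (Subgroup.centralizer ({g₀} : Set T))) := inferInstance
  have hD₀ : IsDefectGroup p M B₀ ((D₀ : Subgroup (Subgroup.centralizer ({g₀} : Set T))).map
      (Subgroup.centralizer ({g₀} : Set T)).subtype) := ⟨g₀, hg₀, D₀, rfl⟩
  have hfong := (Cfsg.Agent.Lib.Blocks.FongCover.fong hM hb' hstable hB₀.1 hB₀.2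
    (fun B' h1 h2 => hmax B' ⟨h1, h2⟩) _ hD₀).2.2
  rw [hb'def, blockDefect_bT hM hb hNT] at hfong
  -- a character of height zero
  obtain ⟨χ, hχ, h0⟩ := exists_height_zero (p := p) (nonempty_of_isPBlock hB₀.1)
  obtain ⟨θ', hθ'⟩ := exists_constituent (N := H.subgroupOf T) χ.2
  obtain ⟨χ₁, hχ₁, θ₁, hθ₁, hc₁⟩ := hB₀.2
  have hθ'b' : θ' ∈ b' := by
    obtain ⟨χ₂, hχ₂⟩ := id hB₀.1
    have hsame : SameBlock M (χ₁ : T → ℂ) (χ : T → ℂ) := by
      rw [hχ₂] at hχ hχ₁
      exact sameBlock_trans (sameBlock_symm hχ₁) hχ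
    exact mem_of_sameBlock_of_constituent hstable (blockElt_mem_localCenter hb').2 χ₁.2 χ.2 hsame hc₁ hθ₁ hθ'
  set θ := irrComap φ.symm θ' with hθdef
  have hθb : θ ∈ b := (mem_blockMap_iff φ).1 hθ'b'
  have hθ'θ : θ' = irrComap φ θ := by
    rw [hθdef, irrComap_irrComap_symm]
  -- the stabilizer of `θ`
  let S : Subgroup G :=
    { carrier := {g | g ∈ T ∧ ∀ h : H, (θ : H → ℂ) (MulAut.conjNormal g h) = (θ : H → ℂ) h}
      one_mem' := ⟨T.one_mem, fun h => by simp⟩
      mul_mem' := fun {a c} ha hc => ⟨T.mul_mem ha.1 hc.1, fun h => by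
        rw [map_mul, MulAut.mul_apply, ha.2, hc.2]⟩
      inv_mem' := fun {a} ha => ⟨T.inv_mem ha.1, fun h => by
        have h1 := ha.2 (MulAut.conjNormal a⁻¹ h)
        rw [← h1]
        congr 1
        simp⟩ }
  have hSmem : ∀ g : G, g ∈ S ↔ (g ∈ T ∧ ∀ h : H, (θ : H → ℂ) (MulAut.conjNormal g h) = (θ : H → ℂ) h) :=
    fun g => Iff.rfl
  set T₀ : Subgroup T := S.subgroupOf T with hT₀
  have hT₀mem : ∀ g : T, g ∈ T₀ ↔ ∀ n : H.subgroupOf T,
      (θ' : H.subgroupOf T → ℂ) ⟨g * n * g⁻¹, (inferInstance : (H.subgroupOf T).Normal).conj_mem (n : T) n.2 g⟩ =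
        (θ' : H.subgroupOf T → ℂ) n := by
    intro g
    rw [hT₀, Subgroup.mem_subgroupOf, hSmem]
    constructor
    · rintro ⟨-, h⟩ n
      rw [hθ'θ]
      have h1 := h (φ n)
      exact h1
    · intro h
      refine ⟨g.2, fun n => ?_⟩
      have h1 := h (φ.symm n)
      rw [hθ'θ] at h1
      simp only [coe_irrComap] at h1
      have h2 : φ (φ.symm n) = n := by simp
      rw [h2] at h1
      rw [← h1]
      rfl
  have hdeg := Cfsg.Agent.Lib.Char.CliffordCorr.apply_one_eq (H.subgroupOf T) (θ' : H.subgroupOf T → ℂ) T₀ θ'.2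
    hT₀mem χ.2 hθ'
  obtain ⟨e, he⟩ := Cfsg.Agent.Lib.Char.Ortho.exists_nat_classInner
    (Cfsg.Agent.Lib.Char.Basic.isCharacter_restrict
      (Cfsg.Agent.Lib.Char.Basic.isCharacter_of_isIrrCharacter χ.2) (H.subgroupOf T)) θ'
  obtain ⟨D, hD0, hD⟩ := Cfsg.Agent.Lib.Char.Ortho.irr_degree_pos θ'.2
  have hθ1 : (θ : H → ℂ) 1 = D := by
    rw [← hD, hθ'θ]
    simp [hθdef]
  rw [he, hD] at hdeg
  have hdegχ : charDegree (χ : T → ℂ) = e * (T₀.index * D) :=
    charDegree_eq_of_apply_one (by rw [hdeg]; push_cast; ring)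
  have hdegθ : charDegree (θ : H → ℂ) = D := charDegree_eq_of_apply_one hθ1
  have hχne : charDegree (χ : T → ℂ) ≠ 0 := charDegree_ne_zero χ.2
  have he0 : e ≠ 0 := by
    rintro rfl
    simp [hdegχ] at hχne
  have hT₀0 : T₀.index ≠ 0 := Subgroup.index_ne_zero_of_finite
  have hval : (charDegree (χ : T → ℂ)).factorization p =
      e.factorization p + T₀.index.factorization p + D.factorization p := by
    rw [hdegχ, Nat.factorization_mul he0 (mul_ne_zero hT₀0 hD0.ne'), Nat.factorization_mul hT₀0 hD0.ne']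
    simp only [Finsupp.add_apply]
    ring
  -- the numbers
  set sT := sInf ((fun χ : IrrCharacter T => (charDegree (χ : T → ℂ)).factorization p) '' B₀) with hsT
  set sb := sInf ((fun χ : IrrCharacter H => (charDegree (χ : H → ℂ)).factorization p) '' b) with hsb
  have h1 : sT ≤ (charDegree (χ : T → ℂ)).factorization p := Nat.sInf_le ⟨χ, hχ, rfl⟩
  have h2 : sb ≤ D.factorization p := by
    rw [← hdegθ]
    exact Nat.sInf_le ⟨θ, hθb, rfl⟩
  have h3 : (charDegree (χ : T → ℂ)).factorization p - sT = 0 := h0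
  have h4 : (charDegree (χ : T → ℂ)).factorization p ≤ (Nat.card T).factorization p :=
    (Nat.factorization_le_iff_dvd hχne Nat.card_pos.ne').2 (charDegree_dvd_card χ.2) p
  have h5 : D.factorization p ≤ (Nat.card H).factorization p := by
    rw [← hdegθ]
    exact (Nat.factorization_le_iff_dvd (charDegree_ne_zero θ.2) Nat.card_pos.ne').2 (charDegree_dvd_card θ.2) p
  have h6 : blockDefect p B₀ = (Nat.card T).factorization p - sT := rfl
  have h7 : blockDefect p b = (Nat.card H).factorization p - sb := rfl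
  have h8 : (Nat.card T).factorization p = (Nat.card H).factorization p +
      (H.subgroupOf T).index.factorization p := by
    have h9 : Nat.card T = Nat.card H * (H.subgroupOf T).index := by
      rw [← Subgroup.card_mul_index (H.subgroupOf T)]
      congr 1
      exact Nat.card_congr φ.toEquiv
    rw [h9, Nat.factorization_mul Nat.card_pos.ne' Subgroup.index_ne_zero_of_finite]
    rfl
  have hT₀val : T₀.index.factorization p = 0 := by omega
  have hDval : D.factorization p = sb := by omega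
  refine ⟨θ, hθb, ?_, S, fun g hg => hg.1, ?_, ?_⟩
  · show (charDegree (θ : H → ℂ)).factorization p - sb = 0
    rw [hdegθ]
    omega
  · intro g
    rw [hSmem]
    refine and_congr_right fun _ => ?_
    constructor
    · intro h k k' hk'
      rw [← h k]
      have h10 : k' = MulAut.conjNormal g k := Subtype.ext (by
        rw [hk']
        simp [MulAut.conjNormal_apply])
      rw [h10]
    · intro h k
      apply h
      simp [MulAut.conjNormal_apply]
  · intro hdvd
    have := Nat.Prime.factorization_pos_of_dvd hpp hT₀0 hdvd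
    omega

end Cfsg.Agent.S4723
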