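import Cfsg.Statements.S4725
import Mathlib
import Cfsg.Agent.S4430
import Cfsg.Agent.Lib.Blocks.BrauerFeit
-- import your own Cfsg.Agent.* helpers here

set_option autoImplicit false
open Cfsg

namespace Cfsg.Agent.S4725



/-- Let p be a prime, M a maximal ideal of the algebraic integers containing p, H a subgroup of the finite group G, and b a p-block of H inducing the p-block B of G, with b and B of the same defect. Then for every height-zero ζ ∈ b there is a height-zero χ ∈ B whose multiplicity in the character induced from ζ is not divisible by p. -/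
theorem result {G : Type*} [Group G] [Fintype G] (p : ℕ) [Fact p.Prime] (M : Ideal Cfsg.AlgInt) (hM : Cfsg.IsPModular p M) (H : Subgroup G) (b : Set (Cfsg.IrrCharacter ↥H)) (B : Set (Cfsg.IrrCharacter G)) (hind : Cfsg.IsInducedBlock M H b B) (hdef : Cfsg.blockDefect p b = Cfsg.blockDefect p B) (ζ : Cfsg.IrrCharacter ↥H) (hζ : ζ ∈ b) (hζ0 : Cfsg.blockHeight p b (ζ : ↥H → ℂ) = 0) : ∃ χ ∈ B, Cfsg.blockHeight p B (χ : G → ℂ) = 0 ∧ ∃ a : ℕ, Cfsg.classInner (Cfsg.indFun H (ζ : ↥H → ℂ)) (χ : G → ℂ) = (a : ℂ) ∧ ¬ p ∣ a := by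
  classical
  haveI := Cfsg.Agent.Lib.Blocks.Local.isPrime_of_isPModular hM
  haveI : Fintype H := Fintype.ofFinite H
  have hp : p.Prime := Fact.out
  obtain ⟨⟨n, hn, hn0, hv⟩, -⟩ := Cfsg.Agent.S4430.result p M hM H b B hind ζ hζ
  have hψ : Cfsg.IsCharacter G (Cfsg.indFun H (ζ : H → ℂ)) :=
    Cfsg.Agent.Lib.Char.IndRep.isCharacter_indFun H
      (Cfsg.Agent.Lib.Char.Basic.isCharacter_of_isIrrCharacter ζ.2)
  obtain ⟨χ₀, rfl⟩ := id hind.2.1
  have hχ₀ := Cfsg.Agent.Lib.Blocks.Osima.mem_blockOf_self (M := M) χ₀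
  set B := Cfsg.blockOf M (χ₀ : G → ℂ) with hBdef
  set μ := Cfsg.Agent.Lib.Blocks.BrauerFeit.mu p B with hμ
  -- the valuation of the induced degree
  have hN := Cfsg.Agent.Lib.Char.Values.IsCharacter.charDegree_cast hψ
  have hζd := Cfsg.Agent.Lib.Blocks.RegInt.charDegree_cast ζ
  have hζ0' := Cfsg.Agent.Lib.Blocks.RegInt.charDegree_ne_zero ζ
  rw [Cfsg.Agent.S4430.indFun_one_eq, ← hζd] at hN
  have hH0 : (Nat.card H : ℂ) ≠ 0 := Nat.cast_ne_zero.2 Nat.card_pos.ne'
  have hNat : Cfsg.charDegree (Cfsg.indFun H (ζ : H → ℂ)) * Nat.card H =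
      Nat.card G * Cfsg.charDegree (ζ : H → ℂ) := by
    have : ((Cfsg.charDegree (Cfsg.indFun H (ζ : H → ℂ)) * Nat.card H : ℕ) : ℂ) =
        ((Nat.card G * Cfsg.charDegree (ζ : H → ℂ) : ℕ) : ℂ) := by
      push_cast
      rw [hN]
      field_simp
    exact_mod_cast this
  have hNdeg0 : Cfsg.charDegree (Cfsg.indFun H (ζ : H → ℂ)) ≠ 0 := by
    intro h0
    rw [h0, zero_mul] at hNat
    exact (mul_ne_zero Nat.card_pos.ne' hζ0') hNat.symm
  have hval : (Cfsg.charDegree (Cfsg.indFun H (ζ : H → ℂ))).factorization p = μ := by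
    have h1 := congrArg (fun m => m.factorization p) hNat
    rw [Nat.factorization_mul hNdeg0 Nat.card_pos.ne', Nat.factorization_mul Nat.card_pos.ne' hζ0'] at h1
    simp only [Finsupp.add_apply] at h1
    have h2 := Cfsg.Agent.Lib.Blocks.BrauerFeit.mu_add_height (p := p) hζ
    have h3 := Cfsg.Agent.Lib.Blocks.BrauerFeit.defect_add_mu (p := p) hζ
    have h4 := Cfsg.Agent.Lib.Blocks.BrauerFeit.defect_add_mu (p := p) hχ₀
    rw [hζ0] at h2
    rw [hdef] at h3
    omega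
  by_contra hno
  push Not at hno
  choose f hf using fun τ : Cfsg.IrrCharacter G => Cfsg.Agent.Lib.Char.Ortho.exists_nat_classInner hψ τ
  have hsum : n = ∑ τ ∈ Finset.univ.filter (· ∈ B), f τ * Cfsg.charDegree (τ : G → ℂ) := by
    have h1 : (n : ℂ) = ((∑ τ ∈ Finset.univ.filter (· ∈ B), f τ * Cfsg.charDegree (τ : G → ℂ) : ℕ) : ℂ) := by
      rw [← hn, Cfsg.Agent.Lib.Blocks.Sections.blockPart_eq_sum]
      push_cast
      refine Finset.sum_congr rfl fun τ _ => ?_
      rw [hf, Cfsg.Agent.Lib.Blocks.RegInt.charDegree_cast τ]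
    exact_mod_cast h1
  have hdvd : p ^ (μ + 1) ∣ n := by
    rw [hsum]
    refine Finset.dvd_sum fun τ hτ => ?_
    have hτB : τ ∈ B := (Finset.mem_filter.mp hτ).2
    have h2 := Cfsg.Agent.Lib.Blocks.BrauerFeit.mu_add_height (p := p) hτB
    have h3 : p ^ (Cfsg.charDegree (τ : G → ℂ)).factorization p ∣ Cfsg.charDegree (τ : G → ℂ) :=
      Nat.ordProj_dvd _ _
    by_cases h0 : Cfsg.blockHeight p B (τ : G → ℂ) = 0
    · have h4 := hno τ hτB h0 (f τ) (hf τ)
      have h5 : p ^ μ ∣ Cfsg.charDegree (τ : G → ℂ) := by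
        refine dvd_trans (pow_dvd_pow p ?_) h3
        omega
      rw [pow_succ']
      exact mul_dvd_mul h4 h5
    · refine dvd_mul_of_dvd_right (dvd_trans (pow_dvd_pow p ?_) h3) _
      omega
  have h5 := (hp.pow_dvd_iff_le_factorization hn0).mp hdvd
  omega

end Cfsg.Agent.S4725
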