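import Cfsg.Statements.S4726
import Mathlib
import Cfsg.Agent.Lib.Blocks.CentBlock
-- import your own Cfsg.Agent.* helpers here

set_option autoImplicit false
open Cfsg

namespace Cfsg.Agent.S4726

open Cfsg.Agent.Lib.Blocks.Local Cfsg.Agent.Lib.Blocks.Central Cfsg.Agent.Lib.Blocks.Osima
  Cfsg.Agent.Lib.Blocks.Pairs

/-- Let p be a prime, M a maximal ideal of the algebraic integers containing p, H a subgroup of the finite group G and b a p-block of H with defect group D₀ such that C_G(D₀) ≤ H. Then b induces a block of G, and for every block B of G induced by b there is a defect group D of B with Z(D) ≤ Z(D₀) ≤ D₀ ≤ D (as subgroups of G). In particular, if the defect groups of B are abelian then D₀ is a defect group of B. -/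
theorem result {G : Type*} [Group G] [Finite G] (p : ℕ) [Fact p.Prime] (M : Ideal Cfsg.AlgInt) (hM : Cfsg.IsPModular p M) (H : Subgroup G) (b : Set (Cfsg.IrrCharacter ↥H)) (hb : Cfsg.IsPBlock M b) (D₀ : Subgroup ↥H) (hD₀ : Cfsg.IsDefectGroup p M b D₀) (hC : Subgroup.centralizer ((D₀.map H.subtype : Subgroup G) : Set G) ≤ H) : Cfsg.InducedBlockDefined M H b ∧ ∀ B : Set (Cfsg.IrrCharacter G), Cfsg.IsInducedBlock M H b B → (∃ D : Subgroup G, Cfsg.IsDefectGroup p M B D ∧ (Subgroup.center ↥D).map D.subtype ≤ ((Subgroup.center ↥D₀).map D₀.subtype).map H.subtype ∧ ((Subgroup.center ↥D₀).map D₀.subtype).map H.subtype ≤ D₀.map H.subtype ∧ D₀.map H.subtype ≤ D) ∧ (∀ D : Subgroup G, Cfsg.IsDefectGroup p M B D → IsMulCommutative ↥D → Cfsg.IsDefectGroup p M B (D₀.map H.subtype)) := by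
  classical
  cases nonempty_fintype G
  haveI := isPrime_of_isPModular hM
  have hD₀' := hD₀
  obtain ⟨k, hk, S, hS⟩ := hD₀'
  have hD₀p : IsPGroup p D₀ := by
    rw [hS]
    exact S.isPGroup'.map _
  have hDp : IsPGroup p (D₀.map H.subtype) := hD₀p.map _
  have hSH : D₀.map H.subtype ≤ H := by
    rintro _ ⟨d, -, rfl⟩
    exact d.2
  have hkC : (k : G) ∈ Subgroup.centralizer ((D₀.map H.subtype : Subgroup G) : Set G) := by
    rw [Subgroup.mem_centralizer_iff]
    rintro _ ⟨d, hd, rfl⟩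
    rw [hS] at hd
    obtain ⟨s, -, rfl⟩ := hd
    have := (Subgroup.mem_centralizer_iff.mp s.2) k rfl
    exact congrArg Subtype.val this.symm
  have hsub : (D₀.map H.subtype).subgroupOf H = D₀ := by
    ext d
    simp [Subgroup.mem_subgroupOf]
  have hdef : IsDefectGroup p M b ((D₀.map H.subtype).subgroupOf H) := by
    rw [hsub]
    exact hD₀
  refine ⟨Cfsg.Agent.Lib.Blocks.CentBlock.exists_isInducedBlock hM hDp hSH hC hb hkC hk.2.1, fun B hind => ?_⟩
  obtain ⟨P, hP, hDP, hZ⟩ := Cfsg.Agent.Lib.Blocks.CentBlock.exists_defect_above hM hDp hSH hC hind hdef hkC hk.2.1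
  refine ⟨⟨P, hP, ?_, ?_, hDP⟩, fun D hD hab => ?_⟩
  · rintro _ ⟨z, hz, rfl⟩
    have hz1 : ∀ x ∈ P, (z : G) * x = x * z := by
      intro x hx
      have := Subgroup.mem_center_iff.mp hz ⟨x, hx⟩
      exact (congrArg Subtype.val this).symm
    have hz2 := hZ z z.2 hz1
    obtain ⟨d, hd, hde⟩ := hz2
    have hmem : d ∈ (Subgroup.center D₀).map D₀.subtype := by
      refine ⟨⟨d, hd⟩, Subgroup.mem_center_iff.mpr ?_, rfl⟩
      intro w
      apply Subtype.ext
      apply Subtype.ext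
      have h1 := hz1 ((w : H) : G) (hDP ⟨w, w.2, rfl⟩)
      have h2 : ((d : H) : G) = z := hde
      simp only [Subgroup.coe_mul, h2]
      exact h1.symm
    exact ⟨d, hmem, hde⟩
  · rintro _ ⟨z, ⟨d, -, rfl⟩, rfl⟩
    exact ⟨d, d.2, rfl⟩
  · obtain ⟨x, hx⟩ := Cfsg.Agent.Lib.Blocks.HeightZero.exists_map_conj_eq_of_isDefectGroup hM hind.2.1 hD hP
    have hPab : ∀ u ∈ P, ∀ v ∈ P, u * v = v * u := by
      intro u hu v hv
      have hu' : x * u * x⁻¹ ∈ D := by rw [← hx]; exact ⟨u, hu, rfl⟩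
      have hv' : x * v * x⁻¹ ∈ D := by rw [← hx]; exact ⟨v, hv, rfl⟩
      have h1 := congrArg Subtype.val (hab.is_comm.comm (⟨_, hu'⟩ : D) ⟨_, hv'⟩)
      simp only [Subgroup.coe_mul] at h1
      have h2 : x * (u * v) * x⁻¹ = x * (v * u) * x⁻¹ := by
        calc x * (u * v) * x⁻¹ = (x * u * x⁻¹) * (x * v * x⁻¹) := by group
          _ = (x * v * x⁻¹) * (x * u * x⁻¹) := h1
          _ = _ := by group
      simpa using h2
    have hPD : P = D₀.map H.subtype := le_antisymm (fun z hz => hZ z hz (fun y hy => hPab z hz y hy)) hDP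
    rw [← hPD]
    exact hP

end Cfsg.Agent.S4726
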