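import Cfsg.Statements.S4727
import Mathlib
import Cfsg.Agent.Lib.Blocks.PiKer
import Cfsg.Agent.Lib.Blocks.Sections
import Cfsg.Agent.Lib.Blocks.Pairs8
import Cfsg.Agent.Lib.Blocks.BlockCount
import Cfsg.Agent.Lib.Basic.PCore
import Cfsg.Agent.S0912
-- import your own Cfsg.Agent.* helpers here

set_option autoImplicit false
open Cfsg

namespace Cfsg.Agent.S4727

open Cfsg.Agent.Lib.Blocks.Local Cfsg.Agent.Lib.Blocks.Central Cfsg.Agent.Lib.Blocks.Osima
  Cfsg.Agent.Lib.Blocks.Sections Cfsg.Agent.Lib.Blocks.Pairs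

/-- Let p be a prime, π a set of primes containing p, M a maximal ideal of the algebraic integers containing p, and B a p-block of the finite group G with defect group D; let B₁ be the block of N_G(D) with defect group D that induces B (the Brauer correspondent of B). Suppose every element of O_π'(N_G(D)), the largest normal subgroup of N_G(D) whose order has no prime divisor in π, lies in the kernel of every member of B₁. If y is a p-element whose centralizer C has a normal Hall π'-subgroup (every element of C whose order has no prime divisor in π lies in O_π'(C)), then χ(y x) = χ(y) for every χ ∈ B and every x ∈ C whose order has no prime divisor in π. -/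
theorem result {G : Type*} [Group G] [Finite G] (p : ℕ) [Fact p.Prime] (M : Ideal Cfsg.AlgInt) (hM : Cfsg.IsPModular p M) (π : Set ℕ) (hpπ : p ∈ π) (B : Set (Cfsg.IrrCharacter G)) (hB : Cfsg.IsPBlock M B) (D : Subgroup G) (hBD : Cfsg.IsDefectGroup p M B D) (B₁ : Set (Cfsg.IrrCharacter ↥(Subgroup.normalizer (D : Set G)))) (hB₁ : Cfsg.IsInducedBlock M (Subgroup.normalizer (D : Set G)) B₁ B) (hB₁D : Cfsg.IsDefectGroup p M B₁ (D.subgroupOf (Subgroup.normalizer (D : Set G)))) (hker : ∀ n : ↥(Subgroup.normalizer (D : Set G)), n ∈ Cfsg.piCore {q | q ∉ π} ↥(Subgroup.normalizer (D : Set G)) → n ∈ Cfsg.blockKer B₁) (y : G) (hy : ∃ k : ℕ, orderOf y = p ^ k) (hC : ∀ x : ↥(Subgroup.centralizer ({y} : Set G)), (∀ q : ℕ, q.Prime → q ∣ orderOf x → q ∉ π) → x ∈ Cfsg.piCore {q | q ∉ π} ↥(Subgroup.centralizer ({y} : Set G))) : ∀ χ ∈ B, ∀ x : G, x ∈ Subgroup.centralizer ({y} : Set G) → (∀ q : ℕ, q.Prime → q ∣ orderOf x → q ∉ π) → (χ : G → ℂ) (y * x)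 = (χ : G → ℂ) y := by
  classical
  cases nonempty_fintype G
  haveI := isPrime_of_isPModular hM
  obtain ⟨k, hk⟩ := hy
  haveI : Fintype (Cen y) := Fintype.ofFinite _
  obtain ⟨χ₀, rfl⟩ := id hB
  intro χ hχ x hxC hxs
  let y' : Cen y := ⟨x, hxC⟩
  have hy'p : ¬ p ∣ orderOf y' := by
    intro hd
    rw [Subgroup.orderOf_mk] at hd
    exact hxs p (Fact.out) hd hpπ
  have hy'c : y' ∈ piCore {q | q ∉ π} (Cen y) :=
    hC y' (fun q hq hd => hxs q hq (by rwa [Subgroup.orderOf_mk] at hd))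
  have hcl : IsClassFunction G (χ : G → ℂ) := isClassFunction_of_irr χ.2
  have h1 := blockPart_section hM hk y' hy'p χ₀ hcl
  have h2 := blockPart_section hM hk (1 : Cen y) (by simpa using (Fact.out : p.Prime).ne_one) χ₀ hcl
  rw [Cfsg.Agent.Lib.Blocks.BlockCount.blockPart_eq_self hχ] at h1 h2
  have hyy : y ∈ Cen y := by
    rw [Subgroup.mem_centralizer_iff]
    intro u hu
    rw [Set.mem_singleton_iff.mp hu]
  let y₀ : Cen y := ⟨y, hyy⟩
  have hcentral : ∀ c : Cen y, Commute c y₀ := by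
    intro c
    apply Subtype.ext
    exact ((Subgroup.mem_centralizer_iff.mp c.2) y rfl).symm
  have hn : (Subgroup.zpowers y₀).Normal := ⟨by
    rintro _ ⟨m, rfl⟩ g
    have hc : Commute g (y₀ ^ m) := (hcentral g).zpow_right m
    show g * y₀ ^ m * g⁻¹ ∈ _
    rw [hc.eq, mul_inv_cancel_right]
    exact ⟨m, rfl⟩⟩
  have hnp : IsPGroup p (Subgroup.zpowers y₀) := by
    rw [IsPGroup.iff_card, Nat.card_zpowers]
    exact ⟨k, by rw [Subgroup.orderOf_mk]; exact hk⟩
  have hξ : ∀ ξ ∈ inducers (Cen y) M (χ₀ : G → ℂ), (ξ : Cen y → ℂ) y' = (ξ : Cen y → ℂ) 1 := by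
    intro ξ hξ
    have hind : IsInducedBlock M (Cen y) (blockOf M (ξ : Cen y → ℂ)) (blockOf M (χ₀ : G → ℂ)) := by
      refine ⟨⟨ξ, rfl⟩, ⟨χ₀, rfl⟩, fun ξ' hξ' χ' hχ' g => ?_⟩
      have h1 := inducers_closed (Cen y) _ ξ hξ hξ' g
      have h2 := memLocalIdeal_add h1 (hχ' g)
      convert h2 using 1
      ring
    obtain ⟨D₀, hD₀⟩ : ∃ D₀ : Subgroup (Cen y), IsDefectGroup p M (blockOf M (ξ : Cen y → ℂ)) D₀ := by
      obtain ⟨_, _, _, h⟩ := exists_isDefectGroup hM (⟨ξ, rfl⟩ : IsPBlock M (blockOf M (ξ : Cen y → ℂ)))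
      exact ⟨_, h⟩
    have hCy := Cfsg.Agent.S0912.result p M hM _ ⟨ξ, rfl⟩ _ hD₀
    have hy₀ : y₀ ∈ Cfsg.pCore p (Cen y) :=
      Cfsg.Agent.Lib.Basic.PCore.le_pCore hn hnp (Subgroup.mem_zpowers y₀)
    have hCC : Subgroup.centralizer ((D₀.map (Cen y).subtype : Subgroup G) : Set G) ≤ Cen y := by
      intro c hc
      rw [Subgroup.mem_centralizer_iff]
      intro u hu
      rw [Set.mem_singleton_iff.mp hu]
      exact (Subgroup.mem_centralizer_iff.mp hc) y ⟨y₀, hCy hy₀, rfl⟩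
    exact Cfsg.Agent.Lib.Blocks.PiKer.piCore_le_blockKer_of_top hM (σ := {q | q ∉ π}) (fun h => h hpπ) ⟨χ₀, rfl⟩ hBD hB₁
      hB₁D hker hind hD₀ hCC y' hy'c ξ (mem_blockOf_self ξ)
  have h3 : (χ : G → ℂ) (y * x) = (χ : G → ℂ) (y * ((1 : Cen y) : G)) := by
    refine h1.trans (Eq.trans ?_ h2.symm)
    rw [Cfsg.Agent.Lib.Blocks.Sections.blockPart_eq_sum, Cfsg.Agent.Lib.Blocks.Sections.blockPart_eq_sum]
    refine Finset.sum_congr rfl fun ξ hξ' => ?_
    rw [hξ ξ (Finset.mem_filter.mp hξ').2]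
  simpa using h3

end Cfsg.Agent.S4727
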