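import Mathlib
import Cfsg.Prelude.Def_Blocks
import Cfsg.Agent.Lib.Blocks.Local
import Cfsg.Agent.Lib.Char.Values
import Cfsg.Agent.Lib.Char.DetExt

set_option autoImplicit false
open Cfsg

namespace Cfsg.Agent.S4729

open Cfsg.Agent.Lib.Blocks.Local Cfsg.Agent.Lib.Char.Values Module

variable {G : Type*} [Group G] [Finite G] {p : ℕ} [hp : Fact p.Prime] {M : Ideal Cfsg.AlgInt}

/-- The congruence at an element centralizing a Sylow subgroup. -/
theorem cong (hM : IsPModular p M) (P : Sylow p G) {χ : IrrCharacter G} (hχ : χ ∈ principalBlock M G)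
    {g : G} (hg : g ∈ Subgroup.centralizer ((P : Subgroup G) : Set G)) {n : ℕ}
    (hn : (χ : G → ℂ) 1 = n) : MemLocalIdeal M ((χ : G → ℂ) g - n) := by
  haveI := isPrime_of_isPModular hM
  have h : MemLocalIdeal M (centralChar (fun _ : G => (1 : ℂ)) g - centralChar (χ : G → ℂ) g) := hχ g
  have hidx : ¬ p ∣ (Subgroup.centralizer ({g} : Set G)).index := by
    intro hd
    apply P.not_dvd_index
    refine hd.trans (Subgroup.index_dvd_of_le ?_)
    intro y hy
    rw [Subgroup.mem_centralizer_iff]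
    rintro _ rfl
    exact (Subgroup.mem_centralizer_iff.1 hg y hy).symm
  have hn0 : (n : ℂ) ≠ 0 := by
    rw [← hn]
    exact Cfsg.Agent.Lib.Char.Ortho.irr_apply_one_ne_zero χ.2
  have hi0 : (((Subgroup.centralizer ({g} : Set G)).index : ℕ) : ℂ) ≠ 0 :=
    Nat.cast_ne_zero.2 Subgroup.index_ne_zero_of_finite
  have hu := memLocalRing_inv_natCast hM hidx
  have h2 := memLocalIdeal_mul_left (memLocalRing_mul (memLocalRing_neg (memLocalRing_natCast (M := M) n)) hu) h
  convert h2 using 1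
  simp only [centralChar, hn]
  field_simp
  ring

/-- The multiplicity of a nontrivial eigenvalue is divisible by `p`. -/
theorem mult_dvd (hM : IsPModular p M) {ι : Type*} [Fintype ι] [DecidableEq ι] (μ : ι → ℂ) {m n : ℕ}
    (hm : 0 < m) (hpm : ¬ p ∣ m) (hμ : ∀ i, μ i ^ m = 1)
    (hc : ∀ j : ℕ, MemLocalIdeal M (∑ i, μ i ^ j - n)) {ν : ℂ} (hν : ν ^ m = 1) (hν1 : ν ≠ 1) :
    p ∣ (Finset.univ.filter fun i => μ i = ν).card := by
  haveI := isPrime_of_isPModular hM
  let ξ : ℂ := ν ^ (m - 1)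
  have hξν : ξ * ν = 1 := by
    show ν ^ (m - 1) * ν = 1
    rw [← pow_succ, Nat.sub_add_cancel hm, hν]
  have hξm : ξ ^ m = 1 := by
    have : (ξ * ν) ^ m = 1 := by rw [hξν, one_pow]
    rwa [mul_pow, hν, mul_one] at this
  have hξ1 : ξ ≠ 1 := by
    intro h
    rw [h, one_mul] at hξν
    exact hν1 hξν
  have hgeom : ∀ z : ℂ, z ^ m = 1 → z ≠ 1 → ∑ j ∈ Finset.range m, z ^ j = 0 := by
    intro z hz hz1
    have := mul_geom_sum z m
    rw [hz, sub_self] at this
    exact (mul_eq_zero.1 this).resolve_left (sub_ne_zero.2 hz1)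
  have h1 : ∑ j ∈ Finset.range m, ξ ^ j * (∑ i, μ i ^ j - n) =
      (((m * (Finset.univ.filter fun i => μ i = ν).card : ℕ)) : ℂ) := by
    have e1 : ∑ j ∈ Finset.range m, ξ ^ j * (∑ i, μ i ^ j - n) =
        ∑ j ∈ Finset.range m, ξ ^ j * ∑ i, μ i ^ j - n * ∑ j ∈ Finset.range m, ξ ^ j := by
      rw [Finset.mul_sum, ← Finset.sum_sub_distrib]
      refine Finset.sum_congr rfl fun j _ => ?_
      ring
    rw [e1, hgeom ξ hξm hξ1, mul_zero, sub_zero]
    have e2 : ∑ j ∈ Finset.range m, ξ ^ j * ∑ i, μ i ^ j =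
        ∑ i, ∑ j ∈ Finset.range m, (ξ * μ i) ^ j := by
      simp_rw [Finset.mul_sum, mul_pow]
      exact Finset.sum_comm
    rw [e2]
    have e3 : ∀ i, ∑ j ∈ Finset.range m, (ξ * μ i) ^ j = if μ i = ν then (m : ℂ) else 0 := by
      intro i
      split_ifs with h
      · rw [h, hξν]
        simp
      · apply hgeom
        · rw [mul_pow, hξm, hμ, one_mul]
        · intro h2
          apply h
          have : ξ * μ i = ξ * ν := by rw [h2, hξν]
          have hξ0 : ξ ≠ 0 := left_ne_zero_of_mul_eq_one hξν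
          exact mul_left_cancel₀ hξ0 this
    simp_rw [e3]
    rw [Finset.sum_ite, Finset.sum_const_zero, add_zero, Finset.sum_const, nsmul_eq_mul]
    push_cast
    ring
  have h2 : MemLocalIdeal M (((m * (Finset.univ.filter fun i => μ i = ν).card : ℕ)) : ℂ) := by
    rw [← h1]
    refine memLocalIdeal_sum _ _ fun j _ => ?_
    refine memLocalIdeal_mul_left ?_ (hc j)
    refine memLocalRing_of_isIntegral ?_
    exact IsIntegral.pow (IsIntegral.of_pow hm (by rw [hξm]; exact isIntegral_one)) _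
  rw [memLocalIdeal_natCast_iff hM] at h2
  exact (Nat.Prime.dvd_mul hp.out).1 h2 |>.resolve_left hpm

/-- The combinatorial core: eigenvalue multiplicities divisible by `p`, total less than `2p`. -/
theorem eigen_core {ι : Type*} [Fintype ι] [DecidableEq ι] (μ : ι → ℂ) {m : ℕ}
    (hpm : ¬ p ∣ m) (hμ : ∀ i, μ i ^ m = 1)
    (hmult : ∀ ν : ℂ, ν ^ m = 1 → ν ≠ 1 → p ∣ (Finset.univ.filter fun i => μ i = ν).card)
    (hcard : Fintype.card ι < 2 * p) (hdet : ∏ i, μ i = 1) : ∀ i, μ i = 1 := by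
  by_contra hcon
  push Not at hcon
  obtain ⟨i₀, hi₀⟩ := hcon
  set ν := μ i₀ with hνdef
  let F := Finset.univ.filter fun i => μ i = ν
  have hF : p ∣ F.card := hmult ν (hμ i₀) hi₀
  have hF0 : F.card ≠ 0 := by
    have : i₀ ∈ F := by simp [F, hνdef]
    exact Finset.card_ne_zero_of_mem this
  have hFp : p ≤ F.card := Nat.le_of_dvd (Nat.pos_of_ne_zero hF0) hF
  -- no other eigenvalue
  have hS : ∀ i, μ i ≠ 1 → μ i = ν := by
    intro i hi
    by_contra hne
    let F' := Finset.univ.filter fun i' => μ i' = μ i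
    have hF' := hmult (μ i) (hμ i) hi
    have hF'0 : F'.card ≠ 0 := by
      have : i ∈ F' := by simp [F']
      exact Finset.card_ne_zero_of_mem this
    have hF'p : p ≤ F'.card := Nat.le_of_dvd (Nat.pos_of_ne_zero hF'0) hF'
    have hdisj : Disjoint F F' := by
      rw [Finset.disjoint_left]
      intro a ha ha'
      have h1 : μ a = ν := (Finset.mem_filter.1 ha).2
      have h2 : μ a = μ i := (Finset.mem_filter.1 ha').2
      exact hne (h2.symm.trans h1)
    have h3 := Finset.card_le_univ (F ∪ F')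
    rw [Finset.card_union_of_disjoint hdisj] at h3
    omega
  have hFcard : F.card = p := by
    obtain ⟨k, hk⟩ := hF
    have h3 := Finset.card_le_univ F
    have hk2 : k < 2 := by
      by_contra h4
      have : 2 * p ≤ p * k := by nlinarith [hp.out.pos]
      omega
    have hk1 : k ≠ 0 := by
      rintro rfl
      exact hF0 hk
    have : k = 1 := by omega
    rw [hk, this, mul_one]
  have hprod : ∏ i, μ i = ν ^ p := by
    rw [← hFcard, ← Finset.prod_const]
    have h5 : ∏ i, μ i = (∏ i ∈ F, μ i) * ∏ i ∈ Finset.univ.filter (fun i => ¬ μ i = ν), μ i :=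
      (Finset.prod_filter_mul_prod_filter_not _ _ _).symm
    rw [h5]
    have h6 : ∏ i ∈ Finset.univ.filter (fun i => ¬ μ i = ν), μ i = 1 := by
      refine Finset.prod_eq_one fun i hi => ?_
      by_contra h7
      exact (Finset.mem_filter.1 hi).2 (hS i h7)
    rw [h6, mul_one]
    exact Finset.prod_congr rfl fun i hi => (Finset.mem_filter.1 hi).2
  rw [hprod] at hdet
  have hg := pow_gcd_eq_one.2 ⟨hdet, hμ i₀⟩
  have hc : Nat.gcd p m = 1 := (Nat.Prime.coprime_iff_not_dvd hp.out).2 hpm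
  rw [hc, pow_one] at hg
  exact hi₀ hg

/-- A `p'`-element centralizing a Sylow subgroup is trivial. -/
theorem key (hM : IsPModular p M) (hperf : commutator G = ⊤) (P : Sylow p G) (χ : IrrCharacter G)
    (hχ : χ ∈ principalBlock M G) (hfaith : ∀ g : G, (χ : G → ℂ) g = (χ : G → ℂ) 1 → g = 1)
    (hdeg : charDegree (χ : G → ℂ) < 2 * p) {x : G}
    (hx : x ∈ Subgroup.centralizer ((P : Subgroup G) : Set G)) (hpx : ¬ p ∣ orderOf x) : x = 1 := by
  classical
  haveI := isPrime_of_isPModular hM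
  have hn : (χ : G → ℂ) 1 = charDegree (χ : G → ℂ) :=
    (IsCharacter.charDegree_cast (Cfsg.Agent.Lib.Char.Basic.isCharacter_of_isIrrCharacter χ.2)).symm
  obtain ⟨φ, hφ⟩ := Cfsg.Agent.Lib.Char.DetExt.exists_hom_detChar
    (Cfsg.Agent.Lib.Char.Basic.isCharacter_of_isIrrCharacter χ.2)
  have hφx : φ x = 1 := by
    have h1 : x ∈ commutator G := by rw [hperf]; trivial
    exact Abelianization.commutator_subset_ker φ h1
  obtain ⟨χf, hχf⟩ := χ
  obtain ⟨N, ρ, hirr, rfl⟩ := hχf
  have hm : 0 < orderOf x := orderOf_pos x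
  have hA : (ρ x) ^ orderOf x = 1 := by rw [← map_pow, pow_orderOf_eq_one, map_one]
  obtain ⟨b, μ, hb, hμ⟩ := exists_eigenbasis (ρ x) hm hA
  have hpow : ∀ j : ℕ, ∀ i, ((ρ x) ^ j) (b i) = μ i ^ j • b i := by
    intro j i
    induction j with
    | zero => simp
    | succ j ih =>
      rw [pow_succ', Module.End.mul_apply, ih, map_smul, hb, smul_smul, pow_succ']
      ring_nf
  have hval : ∀ j : ℕ, ρ.character (x ^ j) = ∑ i, μ i ^ j := by
    intro j
    have h1 := trace_eq_sum_of_diagonal ((ρ x) ^ j) b (fun i => μ i ^ j) (hpow j)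
    rw [← h1, ← map_pow]
    rfl
  have hcen : ∀ j : ℕ, x ^ j ∈ Subgroup.centralizer ((P : Subgroup G) : Set G) :=
    fun j => Subgroup.pow_mem _ hx j
  have hcong : ∀ j : ℕ, MemLocalIdeal M (∑ i, μ i ^ j - (charDegree ρ.character : ℕ)) := by
    intro j
    have h1 := cong hM P (χ := ⟨ρ.character, ⟨N, ρ, hirr, rfl⟩⟩) hχ (hcen j) hn
    rw [← hval]
    exact h1
  have hfr : finrank ℂ (Fin N → ℂ) = N := by simp
  have hnN : (charDegree ρ.character : ℕ) = N := by
    have h1 : ρ.character 1 = (N : ℂ) := by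
      rw [ρ.char_one, hfr]
    have h2 : ((charDegree ρ.character : ℕ) : ℂ) = (N : ℂ) := by
      rw [← h1]
      exact hn.symm
    exact_mod_cast h2
  have hcardι : Fintype.card (Fin (finrank ℂ (Fin N → ℂ))) < 2 * p := by
    rw [Fintype.card_fin, hfr, ← hnN]
    exact hdeg
  have hdet : ∏ i, μ i = 1 := by
    have h1 : LinearMap.det (ρ x) = ∏ i, μ i := by
      rw [← LinearMap.det_toMatrix b]
      have h2 : LinearMap.toMatrix b b (ρ x) = Matrix.diagonal μ := by
        ext i j
        rw [LinearMap.toMatrix_apply, hb, map_smul, b.repr_self, Matrix.diagonal_apply]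
        by_cases hij : i = j
        · subst hij
          simp
        · simp [hij]
      rw [h2, Matrix.det_diagonal]
    rw [← h1]
    have h3 := hφ x
    rw [Cfsg.Agent.Lib.Char.DetExt.detChar_character, hφx] at h3
    simpa using h3
  have hall := eigen_core μ hpx hμ
    (fun ν hν hν1 => mult_dvd hM μ hm hpx hμ hcong hν hν1) hcardι hdet
  apply hfaith
  have h1 := hval 1
  rw [pow_one] at h1
  show ρ.character x = ρ.character 1
  rw [h1, ρ.char_one]
  simp only [pow_one, hall, Finset.sum_const, Finset.card_univ, Fintype.card_fin, nsmul_eq_mul, mul_one]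

/-- **Feit.** -/
theorem result {G : Type*} [Group G] [Finite G] (p : ℕ) [Fact p.Prime] (M : Ideal Cfsg.AlgInt) (hM : Cfsg.IsPModular p M) (hperf : commutator G = ⊤) (P : Sylow p G) (χ : Cfsg.IrrCharacter G) (hχ : χ ∈ Cfsg.principalBlock M G) (hfaith : ∀ g : G, (χ : G → ℂ) g = (χ : G → ℂ) 1 → g = 1) (hdeg : Cfsg.charDegree (χ : G → ℂ) < 2 * p) : IsPGroup p ↥(Subgroup.centralizer ((P : Subgroup G) : Set G)) := by
  rintro ⟨y, hy⟩
  have hp1 : p ≠ 1 := (Fact.out : p.Prime).ne_one
  obtain ⟨e, k, hk, he⟩ := Nat.exists_eq_pow_mul_and_not_dvd (orderOf_pos y).ne' p hp1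
  have hord : orderOf (y ^ (p ^ e)) = k := by
    rw [orderOf_pow_of_dvd (pow_ne_zero _ (Fact.out : p.Prime).ne_zero) ⟨k, he⟩, he]
    exact Nat.mul_div_cancel_left _ (pow_pos (Fact.out : p.Prime).pos _)
  have h1 := key hM hperf P χ hχ hfaith hdeg (Subgroup.pow_mem _ hy (p ^ e)) (by rw [hord]; exact hk)
  exact ⟨e, Subtype.ext h1⟩

end Cfsg.Agent.S4729
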