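import Mathlib
import Cfsg.Prelude.Def_Blocks
import Cfsg.Agent.Lib.Blocks.Local
import Cfsg.Agent.Lib.Char.Burnside
import Cfsg.Agent.Lib.Char.Burnside2
import Cfsg.Agent.Lib.Char.Ortho
import Cfsg.Agent.Lib.Char.Values
import Cfsg.Agent.Lib.Char.OrthoBasic
import Cfsg.Agent.Lib.Char.Virtual
import Cfsg.Agent.S0138

set_option autoImplicit false

open Cfsg

namespace Cfsg.Agent.S4730

open Cfsg.Agent.Lib.Blocks.Local

variable {G : Type*} [Group G] [Finite G]

lemma index_not_dvd {p : ℕ} [Fact p.Prime] (P : Sylow p G) {z : G}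
    (hz : ∀ x ∈ (P : Subgroup G), x * z = z * x) :
    ¬ p ∣ (Subgroup.centralizer ({z} : Set G)).index := by
  intro h
  have hle : (P : Subgroup G) ≤ Subgroup.centralizer ({z} : Set G) := by
    intro x hx
    rw [Subgroup.mem_centralizer_singleton_iff]
    exact hz x hx
  exact P.not_dvd_index (h.trans (Subgroup.index_dvd_of_le hle))

lemma vanish {p : ℕ} [Fact p.Prime] (hZ : Subgroup.center G = ⊥) (P : Sylow p G)
    (χ : IrrCharacter G) (hfaith : ∀ g : G, (χ : G → ℂ) g = (χ : G → ℂ) 1 → g = 1)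
    (n : ℕ) (hdeg : charDegree (χ : G → ℂ) = p ^ n) {z : G} (hz1 : z ≠ 1)
    (hz : ∀ x ∈ (P : Subgroup G), x * z = z * x) : (χ : G → ℂ) z = 0 := by
  obtain ⟨f, m, ρ, hirr, rfl⟩ := χ
  haveI := hirr
  simp only at hfaith hdeg ⊢
  have hdeg' : m = p ^ n := by
    have h1 : charDegree ρ.character = m := by
      unfold charDegree
      rw [Representation.char_one]
      simp
    rw [← h1, hdeg]
  have hp := (Fact.out : p.Prime)
  have hcop : Nat.Coprime (Module.finrank ℂ (Fin m → ℂ))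
      (Subgroup.centralizer ({z} : Set G)).index := by
    rw [Module.finrank_fin_fun, hdeg']
    exact Nat.Coprime.pow_left n ((Nat.Prime.coprime_iff_not_dvd hp).2 (index_not_dvd P hz))
  rcases Cfsg.Agent.Lib.Char.Burnside.character_eq_zero_or_norm_eq_of_coprime ρ z hcop with h | h
  · exact h
  · exfalso
    obtain ⟨ω, hω⟩ := (Cfsg.Agent.S0138.result ρ z).1 h
    apply hz1
    have : z ∈ Subgroup.center G := by
      rw [Subgroup.mem_center_iff]
      intro g
      have h0 : ρ (g * z * g⁻¹) = ρ z := by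
        rw [map_mul, map_mul, hω]
        have h2 : ρ g * ρ g⁻¹ = 1 := by rw [← map_mul]; simp
        ext v i
        have h3 := LinearMap.congr_fun h2 v
        simp only [Module.End.mul_apply, Module.End.one_apply] at h3
        simp [h3]
      have hcomm : ρ (g * z * g⁻¹ * z⁻¹) = 1 := by
        rw [map_mul, h0, ← map_mul]; simp
      have h1 : ρ.character (g * z * g⁻¹ * z⁻¹) = ρ.character 1 := by
        show LinearMap.trace ℂ _ (ρ _) = LinearMap.trace ℂ _ (ρ 1)
        rw [hcomm, map_one ρ]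
      have h2 := hfaith _ h1
      have : g * z * g⁻¹ = z := mul_inv_eq_one.1 h2
      calc g * z = g * z * g⁻¹ * g := by group
        _ = z * g := by rw [this]
    rw [hZ] at this
    exact this

/-- Every member of the block has degree divisible by `|Z(P)|`. -/
lemma pow_dvd_degree {p : ℕ} [Fact p.Prime] {M : Ideal AlgInt} (hM : IsPModular p M)
    (P : Sylow p G) (b : ℕ) (hb : Nat.card (Subgroup.center ↥(P : Subgroup G)) = p ^ b)
    (χ ψ : IrrCharacter G)
    (hχ : ∀ z : G, z ≠ 1 → (∀ x ∈ (P : Subgroup G), x * z = z * x) →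
      z ∈ (P : Subgroup G) → (χ : G → ℂ) z = 0)
    (hψ : ψ ∈ blockOf M (χ : G → ℂ)) : p ^ b ∣ charDegree (ψ : G → ℂ) := by
  classical
  haveI := isPrime_of_isPModular hM
  have hp := (Fact.out : p.Prime)
  cases nonempty_fintype G
  set Z := Subgroup.center ↥(P : Subgroup G) with hZdef
  let f : Z →* G := (P : Subgroup G).subtype.comp Z.subtype
  have hf1 : ∀ z : Z, f z = ((z : ↥(P : Subgroup G)) : G) := fun _ => rfl
  have hfcomm : ∀ z : Z, ∀ x ∈ (P : Subgroup G), x * f z = f z * x := by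
    intro z x hx
    have := Subgroup.mem_center_iff.1 z.2 ⟨x, hx⟩
    exact congrArg Subtype.val this
  have hfmem : ∀ z : Z, f z ∈ (P : Subgroup G) := fun z => (z : ↥(P : Subgroup G)).2
  have hfinj : Function.Injective f := by
    intro a b h
    exact Subtype.ext (Subtype.ext h)
  have hψchar : IsCharacter G (ψ : G → ℂ) := Cfsg.Agent.Lib.Char.Basic.isCharacter_of_isIrrCharacter ψ.2
  set d := charDegree (ψ : G → ℂ) with hd
  have hdC : (d : ℂ) = (ψ : G → ℂ) 1 := Cfsg.Agent.Lib.Char.Values.IsCharacter.charDegree_cast hψchar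
  have hd0 : d ≠ 0 := by
    intro h
    rw [h] at hdC
    obtain ⟨n, hn, hn2⟩ := Cfsg.Agent.Lib.Char.Virtual.exists_degree_of_isIrr ψ.2
    rw [hn2] at hdC
    have : (n : ℂ) ≠ 0 := Nat.cast_ne_zero.mpr hn.ne'
    exact this (by simpa using hdC.symm)
  have hdC0 : ((ψ : G → ℂ) 1) ≠ 0 := by rw [← hdC]; exact Nat.cast_ne_zero.mpr hd0
  -- the values are in the local ideal
  have hval : ∀ z : Z, z ≠ 1 → MemLocalIdeal M ((ψ : G → ℂ) (f z) / (d : ℂ)) := by
    intro z hz
    have hz1 : f z ≠ 1 := fun h => hz (hfinj (by rw [h, map_one]))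
    have h0 := hχ (f z) hz1 (hfcomm z) (hfmem z)
    have h1 := hψ (f z)
    have h2 : centralChar (χ : G → ℂ) (f z) = 0 := by
      unfold centralChar; rw [h0]; simp
    rw [h2, zero_sub] at h1
    have h3 := memLocalIdeal_neg h1
    rw [neg_neg] at h3
    unfold centralChar at h3
    have hidx := index_not_dvd P (hfcomm z)
    have hidxC : (((Subgroup.centralizer ({f z} : Set G)).index : ℕ) : ℂ) ≠ 0 := by
      intro h
      apply hidx
      have : (Subgroup.centralizer ({f z} : Set G)).index = 0 := by exact_mod_cast h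
      rw [this]; exact dvd_zero p
    have h4 := memLocalIdeal_mul_left (memLocalRing_inv_natCast hM hidx) h3
    have h5 : (((Subgroup.centralizer ({f z} : Set G)).index : ℕ) : ℂ)⁻¹ *
        (((Subgroup.centralizer ({f z} : Set G)).index : ℂ) * (ψ : G → ℂ) (f z) / (ψ : G → ℂ) 1)
        = (ψ : G → ℂ) (f z) / (d : ℂ) := by
      rw [hdC]; field_simp
    rwa [h5] at h4
  -- the multiplicity of the trivial character
  classical
  haveI : Fintype Z := Fintype.ofFinite _
  have hcharZ : IsCharacter Z (fun z => (ψ : G → ℂ) (f z)) :=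
    Cfsg.Agent.Lib.Char.Basic.isCharacter_comp_hom hψchar f
  obtain ⟨N, hN⟩ := Cfsg.Agent.Lib.Char.Ortho.exists_nat_classInner hcharZ
    ⟨fun _ => 1, Cfsg.Agent.Lib.Char.Burnside2.isIrrCharacter_one⟩
  have hpbC : ((p ^ b : ℕ) : ℂ) ≠ 0 := Nat.cast_ne_zero.mpr (pow_ne_zero _ hp.ne_zero)
  have hsum : ∑ z : Z, (ψ : G → ℂ) (f z) = ((p ^ b * N : ℕ) : ℂ) := by
    have h1 : classInner (fun z => (ψ : G → ℂ) (f z)) (fun _ : Z => (1 : ℂ)) = (N : ℂ) := hN
    unfold classInner at h1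
    rw [hb] at h1
    simp only [map_one, mul_one] at h1
    calc ∑ z : Z, (ψ : G → ℂ) (f z) = ((p ^ b : ℕ) : ℂ) * N := by
          rw [← h1, mul_inv_cancel_left₀ hpbC]
      _ = _ := by push_cast; ring
  -- split off the identity
  obtain ⟨e, u, hu, hdu⟩ := Nat.exists_eq_pow_mul_and_not_dvd hd0 p hp.ne_one
  by_contra hcon
  have heb : e < b := by
    by_contra h
    push Not at h
    apply hcon
    rw [hdu]
    exact Dvd.dvd.mul_right (pow_dvd_pow p h) u
  have hsum2 : ∑ z : Z, (ψ : G → ℂ) (f z) / (d : ℂ) = 1 + ∑ z ∈ Finset.univ.erase (1 : Z), (ψ : G → ℂ) (f z) / (d : ℂ) := by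
    rw [← Finset.add_sum_erase _ _ (Finset.mem_univ (1 : Z))]
    congr 1
    rw [map_one, ← hdC]
    have : (d : ℂ) ≠ 0 := Nat.cast_ne_zero.mpr hd0
    field_simp
  have hm : MemLocalIdeal M (∑ z ∈ Finset.univ.erase (1 : Z), (ψ : G → ℂ) (f z) / (d : ℂ)) :=
    memLocalIdeal_sum _ _ (fun z hz => hval z (Finset.mem_erase.1 hz).1)
  set m := ∑ z ∈ Finset.univ.erase (1 : Z), (ψ : G → ℂ) (f z) / (d : ℂ) with hmdef
  have hdC' : (d : ℂ) ≠ 0 := Nat.cast_ne_zero.mpr hd0
  have hkey : ((p ^ b * N : ℕ) : ℂ) = (d : ℂ) * (1 + m) := by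
    rw [← hsum, ← hsum2, Finset.mul_sum]
    refine Finset.sum_congr rfl (fun z _ => ?_)
    field_simp
  obtain ⟨c, hc⟩ : ∃ c, b = e + (c + 1) := ⟨b - e - 1, by omega⟩
  have hkey2 : ((p ^ (c + 1) * N : ℕ) : ℂ) = (u : ℂ) * (1 + m) := by
    have hpe : ((p ^ e : ℕ) : ℂ) ≠ 0 := Nat.cast_ne_zero.mpr (pow_ne_zero _ hp.ne_zero)
    apply mul_left_cancel₀ hpe
    rw [hdu, hc] at hkey
    push_cast at hkey ⊢
    rw [pow_add] at hkey
    linear_combination hkey
  have h6 : MemLocalIdeal M ((p ^ (c + 1) * N : ℕ) : ℂ) := by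
    rw [memLocalIdeal_natCast_iff hM]
    exact Dvd.dvd.mul_right (dvd_pow_self p (Nat.succ_ne_zero c)) N
  rw [hkey2] at h6
  have h7 : MemLocalIdeal M ((u : ℂ) * m) := memLocalIdeal_mul_left (memLocalRing_natCast u) hm
  have h8 := memLocalIdeal_sub h6 h7
  have h9 : (u : ℂ) * (1 + m) - (u : ℂ) * m = (u : ℂ) := by ring
  rw [h9, memLocalIdeal_natCast_iff hM] at h8
  exact hu h8

/-- **S4730**. -/
theorem result {G : Type*} [Group G] [Finite G] (p : ℕ) [Fact p.Prime] (M : Ideal Cfsg.AlgInt) (hM : Cfsg.IsPModular p M) (hZ : Subgroup.center G = ⊥) (P : Sylow p G) (a b : ℕ) (ha : Nat.card P = p ^ a) (hb : Nat.card (Subgroup.center ↥(P : Subgroup G)) = p ^ b) (χ : Cfsg.IrrCharacter G) (hfaith : ∀ g : G, (χ : G → ℂ) g = (χ : G → ℂ) 1 → g = 1) (n : ℕ) (hdeg : Cfsg.charDegree (χ : G → ℂ) = p ^ n) : Cfsg.blockDefect p (Cfsg.blockOf M (χ : G → ℂ)) ≤ a - b ∧ (IsMulCommutative ↥(P : Subgroup G) → Cfsg.blockDefect p (Cfsg.blockOf M (χ : G → ℂ)) = 0) := by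
  haveI := isPrime_of_isPModular hM
  have hp := (Fact.out : p.Prime)
  have hvan : ∀ z : G, z ≠ 1 → (∀ x ∈ (P : Subgroup G), x * z = z * x) →
      z ∈ (P : Subgroup G) → (χ : G → ℂ) z = 0 :=
    fun z hz1 hz _ => vanish hZ P χ hfaith n hdeg hz1 hz
  have hfac : (Nat.card G).factorization p = a := by
    have h1 := P.card_eq_multiplicity
    rw [ha] at h1
    exact (Nat.pow_right_injective hp.two_le h1).symm
  have h1 : Cfsg.blockDefect p (Cfsg.blockOf M (χ : G → ℂ)) ≤ a - b := by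
    unfold Cfsg.blockDefect
    rw [hfac]
    apply tsub_le_tsub_left
    apply le_csInf
    · refine ⟨_, χ, ?_, rfl⟩
      intro g
      simpa using memLocalIdeal_zero
    · rintro _ ⟨ψ, hψ, rfl⟩
      have h2 := pow_dvd_degree hM P b hb χ ψ hvan hψ
      have hd0 : Cfsg.charDegree (ψ : G → ℂ) ≠ 0 := by
        have hψchar : IsCharacter G (ψ : G → ℂ) := Cfsg.Agent.Lib.Char.Basic.isCharacter_of_isIrrCharacter ψ.2
        have hdC : ((Cfsg.charDegree (ψ : G → ℂ) : ℕ) : ℂ) = (ψ : G → ℂ) 1 :=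
          Cfsg.Agent.Lib.Char.Values.IsCharacter.charDegree_cast hψchar
        obtain ⟨n, hn, hn2⟩ := Cfsg.Agent.Lib.Char.Virtual.exists_degree_of_isIrr ψ.2
        intro h
        rw [h, hn2] at hdC
        have : (n : ℂ) ≠ 0 := Nat.cast_ne_zero.mpr hn.ne'
        exact this (by simpa using hdC.symm)
      exact (hp.pow_dvd_iff_le_factorization hd0).1 h2
  refine ⟨h1, fun hab => ?_⟩
  have htop : Subgroup.center ↥(P : Subgroup G) = ⊤ := by
    ext x
    simp only [Subgroup.mem_center_iff, Subgroup.mem_top, iff_true]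
    intro y
    exact hab.is_comm.comm y x
  rw [htop, Subgroup.card_top] at hb
  have hab' : a = b := by
    have : p ^ a = p ^ b := ha.symm.trans hb
    exact Nat.pow_right_injective hp.two_le this
  rw [hab', Nat.sub_self] at h1
  omega

end Cfsg.Agent.S4730
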