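import Cfsg.Statements.S4731
import Mathlib
import Cfsg.Agent.Lib.Blocks.Sections
import Cfsg.Agent.Lib.Blocks.RegInt
import Cfsg.Agent.Lib.Char.BrauerInd
import Cfsg.Agent.Lib.Char.Virtual
-- import your own Cfsg.Agent.* helpers here

set_option autoImplicit false
open Cfsg

namespace Cfsg.Agent.S4731

lemma isPPart_one_of_reg {G : Type*} [Group G] {p : ℕ} {g : G} (hg : ¬ p ∣ orderOf g) : IsPPart p g 1 :=
  ⟨g, by simp, Commute.one_left g, ⟨0, by simp⟩, hg⟩

lemma isPPart_self_of_pow {G : Type*} [Group G] {p : ℕ} [Fact p.Prime] {x : G} {k : ℕ} (hx : orderOf x = p ^ k) :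
    IsPPart p x x := ⟨1, by simp, Commute.one_right x, ⟨k, hx⟩, by
      rw [orderOf_one]
      exact Nat.Prime.not_dvd_one Fact.out⟩

/-- Let p ≠ q be primes, M_p and M_q maximal ideals of the algebraic integers containing p and q respectively, and G a finite group with no element of order pq; let q^b be the q-part of the order of G. For a p-block B_p (relative to M_p), a q-block B_q (relative to M_q) and a p-singular element y, the sum of χ(1)χ(y) over the irreducible characters χ lying in both B_p and B_q is q^b times an algebraic integer. -/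
theorem result {G : Type*} [Group G] [Finite G] (p q : ℕ) [Fact p.Prime] [Fact q.Prime] (hpq : p ≠ q) (Mp Mq : Ideal Cfsg.AlgInt) (hMp : Cfsg.IsPModular p Mp) (hMq : Cfsg.IsPModular q Mq) (hno : ∀ g : G, orderOf g ≠ p * q) (b : ℕ) (hb : (Nat.card G).factorization q = b) (Bp : Set (Cfsg.IrrCharacter G)) (hBp : Cfsg.IsPBlock Mp Bp) (Bq : Set (Cfsg.IrrCharacter G)) (hBq : Cfsg.IsPBlock Mq Bq) (y : G) (hy : p ∣ orderOf y) : ∃ ω : Cfsg.AlgInt, ∑ᶠ χ ∈ Bp ∩ Bq, (Cfsg.charDegree (χ : G → ℂ) : ℂ) * (χ : G → ℂ) y = (q : ℂ) ^ b * (ω : ℂ) := by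
  classical
  letI := Fintype.ofFinite G
  haveI := Cfsg.Agent.Lib.Blocks.Local.isPrime_of_isPModular hMp
  haveI := Cfsg.Agent.Lib.Blocks.Local.isPrime_of_isPModular hMq
  haveI : Finite (IrrCharacter G) := Cfsg.Agent.Lib.Char.Complete.finite_irr
  letI : Fintype (IrrCharacter G) := Fintype.ofFinite _
  -- second orthogonality for `Bp`
  have hα : ∀ h : G, q ∣ orderOf h → ∑ χ ∈ Finset.univ.filter (· ∈ Bp), (χ : G → ℂ) y * (χ : G → ℂ) h⁻¹ = 0 := by
    intro h hqh
    have hpnot : ¬ p ∣ orderOf h := by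
      intro hph
      have hcop : Nat.Coprime p q := (Nat.coprime_primes Fact.out Fact.out).mpr hpq
      have hd : p * q ∣ orderOf h := hcop.mul_dvd_of_dvd_of_dvd hph hqh
      have hne : orderOf h ≠ 0 := (orderOf_pos h).ne'
      exact hno _ (orderOf_pow_orderOf_div hne hd)
    obtain ⟨u, hu⟩ := Cfsg.Agent.Lib.Blocks.SecondMain.exists_isPPart p y
    have hnc : ¬ IsConj u 1 := by
      intro hc
      have hu1 : u = 1 := isConj_one_left.mp hc
      subst hu1
      obtain ⟨w, hw, -, -, hw2⟩ := hu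
      rw [one_mul] at hw
      exact hw2 (hw ▸ hy)
    have h0 := Cfsg.Agent.Lib.Blocks.Sections.block_orthogonality hMp hu (isPPart_one_of_reg hpnot) hnc hBp
    rwa [Cfsg.Agent.Lib.Blocks.Osima.finsum_mem_eq_sum_filter] at h0
  -- first orthogonality
  have horth : ∀ χ χ' : IrrCharacter G, ∑ h : G, (χ : G → ℂ) h * (χ' : G → ℂ) h⁻¹ =
      if χ = χ' then (Nat.card G : ℂ) else 0 := by
    intro χ χ'
    have h1 : ∀ h : G, (χ' : G → ℂ) h⁻¹ = (starRingEnd ℂ) ((χ' : G → ℂ) h) := fun h =>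
      Cfsg.Agent.Lib.Char.Complete.isIrr_inv χ'.2 h
    simp only [h1]
    have hcard : (Nat.card G : ℂ) ≠ 0 := Nat.cast_ne_zero.mpr Nat.card_pos.ne'
    by_cases h : χ = χ'
    · subst h
      rw [if_pos rfl]
      have := Cfsg.Agent.Lib.Char.Ortho.classInner_irr_self χ.2
      rw [Cfsg.Agent.Lib.Char.Induced.classInner_def] at this
      field_simp at this
      linear_combination this
    · rw [if_neg h]
      have hne : (χ : G → ℂ) ≠ χ' := fun h2 => h (Subtype.ext h2)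
      have := Cfsg.Agent.Lib.Char.Ortho.classInner_irr_of_ne χ.2 χ'.2 hne
      rw [Cfsg.Agent.Lib.Char.Induced.classInner_def] at this
      exact (mul_eq_zero.mp this).resolve_left (inv_ne_zero hcard)
  have hcard : (Nat.card G : ℂ) ≠ 0 := Nat.cast_ne_zero.mpr Nat.card_pos.ne'
  obtain ⟨Q⟩ : Nonempty (Sylow q G) := inferInstance
  set A : Finset (IrrCharacter G) := Finset.univ.filter (· ∈ Bp ∩ Bq) with hA
  -- the vanishing
  have hT : ∀ x ∈ (Q : Subgroup G), x ≠ 1 → ∑ χ ∈ A, (χ : G → ℂ) y * (χ : G → ℂ) x⁻¹ = 0 := by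
    intro x hxQ hx1
    have hordx : ∃ k, orderOf x = q ^ k := by
      have h1 : orderOf (⟨x, hxQ⟩ : (Q : Subgroup G)) ∣ q ^ (Nat.card G).factorization q := by
        rw [← Sylow.card_eq_multiplicity Q]
        exact orderOf_dvd_natCard _
      obtain ⟨j, -, hj⟩ := (Nat.dvd_prime_pow Fact.out).mp h1
      exact ⟨j, by rw [← Subgroup.orderOf_mk x hxQ, hj]⟩
    obtain ⟨k, hk⟩ := hordx
    have hpart := isPPart_self_of_pow hk
    have key : (Nat.card G : ℂ) * ∑ χ ∈ A, (χ : G → ℂ) y * (χ : G → ℂ) x⁻¹ =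
        ∑ h : G, (∑ χ' ∈ Finset.univ.filter (· ∈ Bp), (χ' : G → ℂ) y * (χ' : G → ℂ) h⁻¹) *
          ∑ χ ∈ Finset.univ.filter (· ∈ Bq), (χ : G → ℂ) h * (χ : G → ℂ) x⁻¹ := by
      simp only [Finset.sum_mul_sum]
      rw [Finset.sum_comm]
      rw [Finset.sum_congr rfl (fun χ' _ => Finset.sum_comm)]
      have h2 : ∀ χ' χ : IrrCharacter G, ∑ h : G, (χ' : G → ℂ) y * (χ' : G → ℂ) h⁻¹ * ((χ : G → ℂ) h * (χ : G → ℂ) x⁻¹) =
          (χ' : G → ℂ) y * (χ : G → ℂ) x⁻¹ * (if χ = χ' then (Nat.card G : ℂ) else 0) := by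
        intro χ' χ
        rw [← horth χ χ', Finset.mul_sum]
        refine Finset.sum_congr rfl fun h _ => ?_
        ring
      simp only [h2]
      have h3 : ∀ χ' ∈ Finset.univ.filter (· ∈ Bp), ∑ χ ∈ Finset.univ.filter (· ∈ Bq),
          (χ' : G → ℂ) y * (χ : G → ℂ) x⁻¹ * (if χ = χ' then (Nat.card G : ℂ) else 0) =
          if χ' ∈ Bq then (Nat.card G : ℂ) * ((χ' : G → ℂ) y * (χ' : G → ℂ) x⁻¹) else 0 := by
        intro χ' _
        simp only [mul_ite, mul_zero]
        rw [Finset.sum_ite_eq']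
        simp only [Finset.mem_filter, Finset.mem_univ, true_and]
        split_ifs
        · ring
        · rfl
      rw [Finset.sum_congr rfl h3, ← Finset.sum_filter, Finset.filter_filter, Finset.mul_sum]
      refine Finset.sum_congr ?_ fun _ _ => rfl
      ext χ
      simp [hA, Set.mem_inter_iff]
    have hzero : ∀ h : G, (∑ χ' ∈ Finset.univ.filter (· ∈ Bp), (χ' : G → ℂ) y * (χ' : G → ℂ) h⁻¹) *
          ∑ χ ∈ Finset.univ.filter (· ∈ Bq), (χ : G → ℂ) h * (χ : G → ℂ) x⁻¹ = 0 := by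
      intro h
      by_cases hq : q ∣ orderOf h
      · rw [hα h hq, zero_mul]
      · have h0 := Cfsg.Agent.Lib.Blocks.Sections.block_orthogonality hMq (isPPart_one_of_reg hq) hpart
          (fun hc => hx1 (isConj_one_right.mp hc)) hBq
        rw [Cfsg.Agent.Lib.Blocks.Osima.finsum_mem_eq_sum_filter] at h0
        rw [h0, mul_zero]
    simp only [hzero, Finset.sum_const_zero] at key
    exact (mul_eq_zero.mp key).resolve_left hcard
  -- the integers
  have hn : ∀ χ : IrrCharacter G, ∃ n : ℤ, ∑ x : (Q : Subgroup G), (χ : G → ℂ) (x : G)⁻¹ = (Nat.card (Q : Subgroup G) : ℂ) * n := by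
    intro χ
    have h1 : IsCharacter (Q : Subgroup G) (fun x => (χ : G → ℂ) x) :=
      Cfsg.Agent.Lib.Char.Basic.isCharacter_restrict (Cfsg.Agent.Lib.Char.Basic.isCharacter_of_isIrrCharacter χ.2) _
    have h2 : IsCharacter (Q : Subgroup G) (fun _ => (1 : ℂ)) := Cfsg.Agent.Lib.Char.Basic.isCharacter_one
    obtain ⟨n, hn⟩ := Cfsg.Agent.Lib.Char.Virtual.exists_int_classInner
      (Cfsg.Agent.Lib.Char.Virtual.isGeneralized_of_isCharacter h1)
      (Cfsg.Agent.Lib.Char.Virtual.isGeneralized_of_isCharacter h2)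
    rw [Cfsg.Agent.Lib.Char.Induced.classInner_def] at hn
    refine ⟨n, ?_⟩
    have hQ : (Nat.card (Q : Subgroup G) : ℂ) ≠ 0 := Nat.cast_ne_zero.mpr Nat.card_pos.ne'
    rw [← Equiv.sum_comp (Equiv.inv _), ← hn]
    simp only [Equiv.inv_apply, map_one, mul_one, InvMemClass.coe_inv, inv_inv]
    field_simp
  choose n hn using hn
  have hsum : ∑ x : (Q : Subgroup G), ∑ χ ∈ A, (χ : G → ℂ) y * (χ : G → ℂ) (x : G)⁻¹ =
      ∑ χ ∈ A, (χ : G → ℂ) y * (χ : G → ℂ) 1 := by
    rw [Finset.sum_eq_single (1 : (Q : Subgroup G))]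
    · simp
    · intro x _ hx
      exact hT x x.2 (fun h => hx (Subtype.ext h))
    · intro h
      exact absurd (Finset.mem_univ _) h
  rw [Finset.sum_comm] at hsum
  simp only [← Finset.mul_sum, hn] at hsum
  refine ⟨⟨∑ χ ∈ A, (χ : G → ℂ) y * (n χ : ℂ), ?_⟩, ?_⟩
  · refine IsIntegral.sum _ fun χ _ => ?_
    refine IsIntegral.mul (Cfsg.Agent.Lib.Blocks.Central.isIntegral_irr χ.2 y) ?_
    have := isIntegral_algebraMap (R := ℤ) (A := ℂ) (x := n χ)
    simpa using this
  · rw [Cfsg.Agent.Lib.Blocks.Osima.finsum_mem_eq_sum_filter]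
    have hQc : (Nat.card (Q : Subgroup G) : ℂ) = (q : ℂ) ^ b := by
      rw [Sylow.card_eq_multiplicity Q, hb]
      push_cast
      rfl
    rw [hQc] at hsum
    change _ = (q : ℂ) ^ b * ∑ χ ∈ A, (χ : G → ℂ) y * (n χ : ℂ)
    rw [Finset.mul_sum]
    calc _ = ∑ χ ∈ A, (χ : G → ℂ) y * (χ : G → ℂ) 1 := by
          refine Finset.sum_congr (by ext; simp [hA]) fun χ _ => ?_
          rw [Cfsg.Agent.Lib.Blocks.RegInt.charDegree_cast]
          ring
      _ = _ := by
          rw [← hsum]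
          refine Finset.sum_congr rfl fun χ _ => ?_
          ring

end Cfsg.Agent.S4731
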