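import Cfsg.Statements.S4735
import Mathlib
import Cfsg.Agent.Lib.Char.B0Core

set_option autoImplicit false
open Cfsg

namespace Cfsg.Agent.S4735

lemma eq_principal_of_mem {H : Type*} [Group H] [Fintype H] {M : Ideal Cfsg.AlgInt} [M.IsPrime]
    {ξ : Cfsg.IrrCharacter H} (h : ξ ∈ Cfsg.principalBlock M H) :
    Cfsg.blockOf M (ξ : H → ℂ) = Cfsg.principalBlock M H := by
  rw [Cfsg.Agent.Lib.Blocks.Principal.principalBlock_eq]
  exact Cfsg.Agent.Lib.Blocks.Osima.blockOf_eq_of_mem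
    (χ := Cfsg.Agent.Lib.Blocks.Principal.trivChar H) h

/-- Let p be a prime, M a maximal ideal of the algebraic integers containing p, G a finite group, H = O_p'(G) and Ḡ = G/H. For x ∈ G write λ(G, x) for the sum of |χ(x)|^2 over the irreducible characters χ in the principal p-block of G. Then λ(G, x) is a positive integer, λ(G, x) = λ(Ḡ, x̄) where x̄ is the image of x, and λ(G, x) ≤ #C_Ḡ(x̄). Moreover λ(G, 1) = [G : H] if and only if the principal block is the only p-block of Ḡ. -/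
theorem result {G : Type*} [Group G] [Finite G] (p : ℕ) [Fact p.Prime] (M : Ideal Cfsg.AlgInt) (hM : Cfsg.IsPModular p M) (x : G) : (∃ n : ℕ, 0 < n ∧ ∑ᶠ χ ∈ Cfsg.principalBlock M G, Complex.normSq ((χ : G → ℂ) x) = n) ∧ ∑ᶠ χ ∈ Cfsg.principalBlock M G, Complex.normSq ((χ : G → ℂ) x) = ∑ᶠ ψ ∈ Cfsg.principalBlock M (G ⧸ Cfsg.pPrimeCore p G), Complex.normSq ((ψ : G ⧸ Cfsg.pPrimeCore p G → ℂ) (QuotientGroup.mk x)) ∧ ∑ᶠ χ ∈ Cfsg.principalBlock M G, Complex.normSq ((χ : G → ℂ) x) ≤ (Nat.card ↥(Subgroup.centralizer ({(QuotientGroup.mk x : G ⧸ Cfsg.pPrimeCore p G)} : Set (G ⧸ Cfsg.pPrimeCore p G))) : ℝ) ∧ ((∑ᶠ χ ∈ Cfsg.principalBlock M G, Cfsg.charDegree (χ : G → ℂ) ^ 2) = (Cfsg.pPrimeCore p G).index ↔ ∀ B : Set (Cfsg.IrrCharacter (G ⧸ Cfsg.pPrimeCore p G)), Cfsg.IsPBlock M B → B = Cfsg.principalBlock M (G ⧸ Cfsg.pPrimeCore p G)) := by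
  classical
  haveI : M.IsPrime := Cfsg.Agent.Lib.Blocks.Local.isPrime_of_isPModular hM
  letI : Fintype G := Fintype.ofFinite G
  letI : Fintype (G ⧸ Cfsg.pPrimeCore p G) := Fintype.ofFinite _
  have hH : ¬ p ∣ Nat.card (Cfsg.pPrimeCore p G) := by
    have h2 := Cfsg.Agent.Lib.Solvable.Carter.card_pPrimeCore_coprime (G := G) p
    exact (Nat.Prime.coprime_iff_not_dvd (Fact.out : p.Prime)).mp h2.symm
  simp only [Cfsg.Agent.Lib.Blocks.Osima.finsum_mem_eq_sum_filter]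
  have key1 : ∑ χ ∈ Finset.univ.filter (· ∈ Cfsg.principalBlock M G), Complex.normSq ((χ : G → ℂ) x) =
      ∑ ψ ∈ Finset.univ.filter (· ∈ Cfsg.principalBlock M (G ⧸ Cfsg.pPrimeCore p G)),
        Complex.normSq ((ψ : G ⧸ Cfsg.pPrimeCore p G → ℂ) (QuotientGroup.mk x)) := by
    rw [Cfsg.Agent.Lib.Char.B0Core.sum_principal_infl (Cfsg.pPrimeCore p G) hM hH]
    rfl
  refine ⟨?_, key1, ?_, ?_⟩
  · obtain ⟨n, hn⟩ := Cfsg.Agent.Lib.Char.B0Core.exists_nat_sum_principal hM x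
    have hR : ∑ χ ∈ Finset.univ.filter (· ∈ Cfsg.principalBlock M G), Complex.normSq ((χ : G → ℂ) x) = n := by
      have h5 : ((∑ χ ∈ Finset.univ.filter (· ∈ Cfsg.principalBlock M G),
          Complex.normSq ((χ : G → ℂ) x) : ℝ) : ℂ) = (n : ℂ) := by
        rw [← hn]
        push_cast
        exact Finset.sum_congr rfl fun χ _ => (Complex.mul_conj _).symm
      exact_mod_cast h5
    refine ⟨n, ?_, hR⟩
    have h1 : (1 : ℝ) ≤ ∑ χ ∈ Finset.univ.filter (· ∈ Cfsg.principalBlock M G),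
        Complex.normSq ((χ : G → ℂ) x) := by
      have h2 := Finset.single_le_sum (f := fun χ : Cfsg.IrrCharacter G => Complex.normSq ((χ : G → ℂ) x))
        (s := Finset.univ.filter (· ∈ Cfsg.principalBlock M G))
        (fun _ _ => Complex.normSq_nonneg _)
        (Finset.mem_filter.2 ⟨Finset.mem_univ _,
          Cfsg.Agent.Lib.Blocks.Principal.trivChar_mem_principalBlock (G := G) (M := M)⟩)
      have h3 : Complex.normSq (((Cfsg.Agent.Lib.Blocks.Principal.trivChar G : Cfsg.IrrCharacter G) : G → ℂ) x) = 1 := by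
        simp
      rw [h3] at h2
      exact h2
    rw [hR] at h1
    have h2 : 1 ≤ n := by exact_mod_cast h1
    omega
  · rw [key1]
    have h1 := Cfsg.Agent.Lib.Char.CompleteCor.column_orth_conj
      (IsConj.refl (QuotientGroup.mk x : G ⧸ Cfsg.pPrimeCore p G))
    have h2 : ∑ ψ : Cfsg.IrrCharacter (G ⧸ Cfsg.pPrimeCore p G),
        Complex.normSq ((ψ : G ⧸ Cfsg.pPrimeCore p G → ℂ) (QuotientGroup.mk x)) =
        (Nat.card (Subgroup.centralizer ({(QuotientGroup.mk x : G ⧸ Cfsg.pPrimeCore p G)} :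
          Set (G ⧸ Cfsg.pPrimeCore p G))) : ℝ) := by
      have h5 : ((∑ ψ : Cfsg.IrrCharacter (G ⧸ Cfsg.pPrimeCore p G),
          Complex.normSq ((ψ : G ⧸ Cfsg.pPrimeCore p G → ℂ) (QuotientGroup.mk x)) : ℝ) : ℂ) =
          ((Nat.card (Subgroup.centralizer ({(QuotientGroup.mk x : G ⧸ Cfsg.pPrimeCore p G)} :
          Set (G ⧸ Cfsg.pPrimeCore p G))) : ℕ) : ℂ) := by
        rw [← h1]
        push_cast
        exact Finset.sum_congr rfl fun χ _ => (Complex.mul_conj _).symm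
      exact_mod_cast h5
    rw [← h2]
    exact Finset.sum_le_sum_of_subset_of_nonneg (Finset.filter_subset _ _)
      fun _ _ _ => Complex.normSq_nonneg _
  · have h1 : ∑ χ ∈ Finset.univ.filter (· ∈ Cfsg.principalBlock M G), Cfsg.charDegree (χ : G → ℂ) ^ 2 =
        ∑ ψ ∈ Finset.univ.filter (· ∈ Cfsg.principalBlock M (G ⧸ Cfsg.pPrimeCore p G)),
          Cfsg.charDegree (ψ : G ⧸ Cfsg.pPrimeCore p G → ℂ) ^ 2 := by
      rw [Cfsg.Agent.Lib.Char.B0Core.sum_principal_infl (Cfsg.pPrimeCore p G) hM hH]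
      rfl
    have h2 : ∑ ψ : Cfsg.IrrCharacter (G ⧸ Cfsg.pPrimeCore p G),
        Cfsg.charDegree (ψ : G ⧸ Cfsg.pPrimeCore p G → ℂ) ^ 2 = (Cfsg.pPrimeCore p G).index := by
      have h3 := Cfsg.Agent.Lib.Char.CompleteCor.sum_sq_degrees (G := G ⧸ Cfsg.pPrimeCore p G)
      have h4 : ((∑ ψ : Cfsg.IrrCharacter (G ⧸ Cfsg.pPrimeCore p G),
          Cfsg.charDegree (ψ : G ⧸ Cfsg.pPrimeCore p G → ℂ) ^ 2 : ℕ) : ℂ) =
          (Nat.card (G ⧸ Cfsg.pPrimeCore p G) : ℂ) := by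
        rw [← h3]
        push_cast
        refine Finset.sum_congr rfl (fun φ _ => ?_)
        rw [Cfsg.Agent.Lib.Char.Values.IsCharacter.charDegree_cast
          (Cfsg.Agent.Lib.Char.Basic.isCharacter_of_isIrrCharacter φ.2)]
      exact_mod_cast h4
    rw [h1, ← h2]
    constructor
    · intro h B hB
      have hall : ∀ ψ : Cfsg.IrrCharacter (G ⧸ Cfsg.pPrimeCore p G), ψ ∈ Cfsg.principalBlock M (G ⧸ Cfsg.pPrimeCore p G) := by
        intro ψ
        by_contra hψ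
        have h3 := Finset.sum_lt_sum_of_subset
          (f := fun ψ : Cfsg.IrrCharacter (G ⧸ Cfsg.pPrimeCore p G) =>
            Cfsg.charDegree (ψ : G ⧸ Cfsg.pPrimeCore p G → ℂ) ^ 2)
          (Finset.filter_subset (· ∈ Cfsg.principalBlock M (G ⧸ Cfsg.pPrimeCore p G)) Finset.univ)
          (Finset.mem_univ ψ) (fun h4 => hψ (Finset.mem_filter.1 h4).2)
          (by
            have := Cfsg.Agent.Lib.Char.B0Height.charDegree_ne_zero ψ.2
            positivity)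
          (fun _ _ _ => Nat.zero_le _)
        rw [h] at h3
        exact lt_irrefl _ h3
      obtain ⟨ξ, rfl⟩ := hB
      exact eq_principal_of_mem (hall ξ)
    · intro h
      have hall : ∀ ψ : Cfsg.IrrCharacter (G ⧸ Cfsg.pPrimeCore p G), ψ ∈ Cfsg.principalBlock M (G ⧸ Cfsg.pPrimeCore p G) := by
        intro ψ
        rw [← h _ ⟨ψ, rfl⟩]
        exact Cfsg.Agent.Lib.Blocks.Osima.mem_blockOf_self ψ
      rw [Finset.filter_true_of_mem fun ψ _ => hall ψ]

end Cfsg.Agent.S4735
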