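import Cfsg.Statements.S4736
import Mathlib
import Cfsg.Agent.S4492
import Cfsg.Agent.Lib.Blocks.Kernel
import Cfsg.Agent.Lib.Blocks.Principal
import Cfsg.Agent.Lib.Coprime.KGV
import Cfsg.Agent.Lib.Char.ItoMichler
import Cfsg.Agent.Lib.Blocks.FongReynolds

set_option autoImplicit false
set_option linter.style.haveILetI false

open Cfsg

namespace Cfsg.Agent.S4736

open Cfsg.Agent.Lib.Blocks.Principal

/-- Height zero in the principal block means degree prime to `p`. -/
theorem height_eq_zero_iff {G : Type*} [Group G] [Finite G] (p : ℕ) [Fact p.Prime] (M : Ideal AlgInt)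
    [M.IsPrime] (χ : IrrCharacter G) :
    blockHeight p (principalBlock M G) (χ : G → ℂ) = 0 ↔ ¬ p ∣ charDegree (χ : G → ℂ) := by
  classical
  cases nonempty_fintype G
  have h0 : sInf ((fun ψ : IrrCharacter G => (charDegree (ψ : G → ℂ)).factorization p) ''
      principalBlock M G) = 0 := by
    apply Nat.eq_zero_of_le_zero
    apply Nat.sInf_le
    refine ⟨trivChar G, trivChar_mem_principalBlock, ?_⟩
    show (charDegree ((trivChar G : IrrCharacter G) : G → ℂ)).factorization p = 0
    rw [charDegree_trivChar]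
    simp
  have hne : charDegree (χ : G → ℂ) ≠ 0 := Cfsg.Agent.Lib.Blocks.FongReynolds.charDegree_ne_zero χ.2
  rw [blockHeight, h0, Nat.sub_zero]
  constructor
  · intro h hd
    have := (Nat.Prime.dvd_iff_one_le_factorization (Fact.out : p.Prime) hne).mp hd
    omega
  · intro h
    exact Nat.factorization_eq_zero_of_not_dvd h

theorem result {G : Type*} [Group G] [Finite G] (p : ℕ) [Fact p.Prime] (M : Ideal Cfsg.AlgInt) (hM : Cfsg.IsPModular p M) (hsolv : Cfsg.IsPSolvable p G) (P : Sylow p G) : IsMulCommutative P ↔ ∀ χ ∈ Cfsg.principalBlock M G, Cfsg.blockHeight p (Cfsg.principalBlock M G) (χ : G → ℂ) = 0 := by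
  classical
  cases nonempty_fintype G
  haveI : M.IsPrime := hM.2.1.isPrime
  have hp : p.Prime := Fact.out
  set N : Subgroup G := pPrimeCore p G with hNdef
  haveI hNn : N.Normal := pPrimeCore_normal p G
  haveI : Fintype N := Fintype.ofFinite N
  have hNp : ¬ p ∣ Nat.card N := by
    intro h
    have h1 : (Nat.card N).Coprime p := Cfsg.Agent.Lib.Solvable.PSeries.pPrimeCore_coprime p
    have h2 := Nat.Coprime.eq_one_of_dvd h1.symm h
    exact hp.one_lt.ne' h2
  have hsolv' : IsPSolvable p (G ⧸ N) := Cfsg.Agent.Lib.Solvable.PSeries.isPSolvable_quotient hsolv N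
  have hcore : pPrimeCore p (G ⧸ N) = ⊥ :=
    Cfsg.Agent.Lib.Components.PComponent.pPrimeCore_quotient_eq_bot p
  set Pb : Sylow p (G ⧸ N) := P.mapSurjective (QuotientGroup.mk'_surjective N) with hPb
  constructor
  · intro hab χ hχ
    rw [height_eq_zero_iff]
    -- `χ` is inflated from `G / N`
    have hker : ∀ n ∈ N, (χ : G → ℂ) n = (χ : G → ℂ) 1 :=
      Cfsg.Agent.Lib.Blocks.Covering.kernel_of_sameBlock N hM hNp
        (trivChar G).2 χ.2 hχ (fun _ _ => rfl)
    obtain ⟨β, hβ⟩ := Cfsg.Agent.Lib.Blocks.Kernel.exists_irr_of_kernel N χ.2 hker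
    have hdeg : charDegree (χ : G → ℂ) = charDegree (β : G ⧸ N → ℂ) := by
      simp only [charDegree, hβ, Function.comp_apply]
      rfl
    rw [hdeg]
    -- `O_p(G/N)` is the Sylow subgroup
    set Q := pCore p (G ⧸ N) with hQ
    haveI hQn : Q.Normal := pCore_normal p (G ⧸ N)
    have h1 : Q ≤ (Pb : Subgroup (G ⧸ N)) := Cfsg.Agent.Lib.Basic.PCore.pCore_le_sylow Pb
    have hcomm : ∀ a ∈ (Pb : Subgroup (G ⧸ N)), ∀ b ∈ (Pb : Subgroup (G ⧸ N)), a * b = b * a := by
      intro a ha b hb
      rw [hPb, Sylow.coe_mapSurjective] at ha hb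
      obtain ⟨x, hx, rfl⟩ := ha
      obtain ⟨y, hy, rfl⟩ := hb
      have := hab.is_comm.comm (⟨x, hx⟩ : P) ⟨y, hy⟩
      have h3 : x * y = y * x := congrArg Subtype.val this
      rw [← map_mul, h3, map_mul]
    have h2 : (Pb : Subgroup (G ⧸ N)) ≤ Q := by
      refine le_trans ?_ (Cfsg.Agent.Lib.Solvable.PSeries.centralizer_pCore_le hsolv' hcore)
      intro a ha
      rw [Subgroup.mem_centralizer_iff]
      intro b hb
      exact hcomm b (h1 hb) a ha
    have hQP : (Pb : Subgroup (G ⧸ N)) = Q := le_antisymm h2 h1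
    have hidx : ¬ p ∣ Q.index := by
      rw [← hQP]
      exact Pb.not_dvd_index
    exact Cfsg.Agent.Lib.Coprime.KGV.not_dvd_degree Q
      (fun a ha b hb => hcomm a (h1 ha) b (h1 hb)) hidx β.2
  · intro hall
    -- all degrees of `G/N` are prime to `p`
    obtain ⟨B, hB, hmem, -, -⟩ := Cfsg.Agent.S4492.result p M hM hsolv N rfl (trivChar N) (fun _ _ => rfl)
    have hone : classInner (fun n : N => ((trivChar G : IrrCharacter G) : G → ℂ) n)
        ((trivChar N : IrrCharacter N) : N → ℂ) ≠ 0 := by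
      have := Cfsg.Agent.Lib.Char.Ortho.classInner_irr_self (trivChar N).2
      change classInner ((trivChar N : IrrCharacter N) : N → ℂ) ((trivChar N : IrrCharacter N) : N → ℂ) ≠ 0
      rw [this]
      exact one_ne_zero
    have htriv : trivChar G ∈ B := (hmem _).2 hone
    have hB0 : B = principalBlock M G := by
      obtain ⟨ξ, rfl⟩ := hB
      rw [principalBlock_eq]
      exact (Cfsg.Agent.Lib.Blocks.Osima.blockOf_eq_of_mem htriv).symm
    have hD : Cfsg.Agent.Lib.Char.ItoMichler.DegPrime p (G ⧸ N) := by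
      intro β
      let χ : IrrCharacter G := ⟨fun g => (β : G ⧸ N → ℂ) (QuotientGroup.mk' N g),
        Cfsg.Agent.Lib.Char.Basic.isIrrCharacter_comp_surjective β.2 (QuotientGroup.mk' N)
          (QuotientGroup.mk'_surjective N)⟩
      have hχB : χ ∈ B := by
        rw [hmem]
        have h1 : (fun n : N => (χ : G → ℂ) n) = fun _ => (β : G ⧸ N → ℂ) 1 := by
          funext n
          show (β : G ⧸ N → ℂ) (QuotientGroup.mk' N (n : G)) = _
          have h0 : QuotientGroup.mk' N (n : G) = 1 := (QuotientGroup.eq_one_iff (n : G)).mpr n.2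
          rw [h0]
        rw [h1]
        have h2 : (fun _ : N => (β : G ⧸ N → ℂ) 1) = ((β : G ⧸ N → ℂ) 1) • ((trivChar N : IrrCharacter N) : N → ℂ) := by
          funext n
          simp
        rw [h2, Cfsg.Agent.Lib.Char.Ortho.classInner_smul_left, Cfsg.Agent.Lib.Char.Ortho.classInner_irr_self (trivChar N).2, mul_one]
        exact Cfsg.Agent.Lib.Char.Ortho.irr_apply_one_ne_zero β.2
      have h3 := (height_eq_zero_iff p M χ).mp (hall χ (hB0 ▸ hχB))
      have hdeg : charDegree (χ : G → ℂ) = charDegree (β : G ⧸ N → ℂ) := by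
        show ⌊((β : G ⧸ N → ℂ) (QuotientGroup.mk' N (1 : G))).re⌋₊ = _
        rw [map_one]
        rfl
      rwa [hdeg] at h3
    -- the image of `P` is normal and abelian
    have hPbN : (Pb : Subgroup (G ⧸ N)).Normal :=
      Cfsg.Agent.Lib.Char.ItoMichler.normal_of_degPrime hp _ (G ⧸ N) rfl hsolv' hD _ Pb.isPGroup'
        Pb.not_dvd_index
    have hc := fun a b => Cfsg.Agent.Lib.Char.ItoMichler.mul_comm_of_degPrime hp hD (P := (Pb : Subgroup (G ⧸ N))) Pb.isPGroup' a b
    refine ⟨⟨fun a b => ?_⟩⟩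
    have hmk : ∀ a : P, QuotientGroup.mk' N (a : G) ∈ (Pb : Subgroup (G ⧸ N)) := by
      intro a
      rw [hPb, Sylow.coe_mapSurjective]
      exact ⟨a, a.2, rfl⟩
    have h1 := hc ⟨_, hmk a⟩ ⟨_, hmk b⟩
    have h2 : QuotientGroup.mk' N ((a : G) * b) = QuotientGroup.mk' N ((b : G) * a) := by
      rw [map_mul, map_mul]
      exact congrArg Subtype.val h1
    have h3 : ((b : G) * a)⁻¹ * ((a : G) * b) ∈ N := by
      exact (QuotientGroup.eq (s := N)).mp h2.symm
    have h4 : ((b : G) * a)⁻¹ * ((a : G) * b) ∈ (P : Subgroup G) :=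
      P.toSubgroup.mul_mem (P.toSubgroup.inv_mem (P.toSubgroup.mul_mem b.2 a.2)) (P.toSubgroup.mul_mem a.2 b.2)
    have h5 : ((b : G) * a)⁻¹ * ((a : G) * b) = 1 := by
      have hd : Nat.Coprime (Nat.card (P : Subgroup G)) (Nat.card N) := by
        obtain ⟨k, hk⟩ := P.isPGroup'.exists_card_eq
        rw [hk]
        exact Nat.Coprime.pow_left _ ((Nat.Prime.coprime_iff_not_dvd hp).mpr hNp)
      have h6 := Subgroup.orderOf_dvd_natCard (P : Subgroup G) h4
      have h7 := Subgroup.orderOf_dvd_natCard N h3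
      exact orderOf_eq_one_iff.mp (Nat.eq_one_of_dvd_coprimes hd h6 h7)
    apply Subtype.ext
    exact (inv_mul_eq_one.mp h5).symm

end Cfsg.Agent.S4736
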