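import Cfsg.Statements.S4956
import Mathlib

set_option autoImplicit false
open Cfsg

namespace Cfsg.Agent.S4956

theorem eq_one_aux {X : Type*} [Group X] [Finite X] (V : Subgroup X) (c k w : X) (hc : c ∈ V)
    (hcomm : Commute c k) (hk : (orderOf k).Coprime (Nat.card V)) (hconj : w * k * w⁻¹ = c * k) :
    c = 1 := by
  have h1 : (w * k * w⁻¹) ^ (orderOf k) = 1 := by
    rw [conj_pow, pow_orderOf_eq_one]; simp
  rw [hconj, hcomm.mul_pow, pow_orderOf_eq_one, mul_one] at h1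
  have h2 : orderOf c ∣ orderOf k := orderOf_dvd_of_pow_eq_one h1
  have h3 : orderOf c ∣ Nat.card V := Subgroup.orderOf_dvd_natCard V hc
  have h4 := Nat.dvd_gcd h2 h3
  rw [hk.gcd_eq_one, Nat.dvd_one, orderOf_eq_one_iff] at h4
  exact h4

theorem lemmaA {X : Type*} [Group X] [Finite X] (V : Subgroup X) [V.Normal]
    (hab : ∀ a ∈ V, ∀ b ∈ V, a * b = b * a) (k : X) (hk : (orderOf k).Coprime (Nat.card V))
    (v : X) (hv : v ∈ V) : ∃ w ∈ V, ∃ c ∈ V, Commute c k ∧ w * (v * k) * w⁻¹ = c * k := by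
  have hconjV : ∀ u ∈ V, k * u * k⁻¹ ∈ V := fun u hu => ‹V.Normal›.conj_mem u hu k
  let f0 : V → V := fun w => ⟨w.1 * (k * w.1⁻¹ * k⁻¹), V.mul_mem w.2 (hconjV _ (V.inv_mem w.2))⟩
  have hf0 : ∀ a b : V, f0 (a * b) = f0 a * f0 b := by
    intro a b
    apply Subtype.ext
    show (a.1 * b.1) * (k * (a.1 * b.1)⁻¹ * k⁻¹) =
      (a.1 * (k * a.1⁻¹ * k⁻¹)) * (b.1 * (k * b.1⁻¹ * k⁻¹))
    have ha' : k * a.1⁻¹ * k⁻¹ ∈ V := hconjV _ (V.inv_mem a.2)
    have hb' : k * b.1⁻¹ * k⁻¹ ∈ V := hconjV _ (V.inv_mem b.2)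
    have h1 : k * (a.1 * b.1)⁻¹ * k⁻¹ = (k * b.1⁻¹ * k⁻¹) * (k * a.1⁻¹ * k⁻¹) := by group
    rw [h1]
    have h2 := hab _ (V.mul_mem b.2 hb') _ ha'
    calc a.1 * b.1 * ((k * b.1⁻¹ * k⁻¹) * (k * a.1⁻¹ * k⁻¹))
        = a.1 * ((b.1 * (k * b.1⁻¹ * k⁻¹)) * (k * a.1⁻¹ * k⁻¹)) := by group
      _ = a.1 * ((k * a.1⁻¹ * k⁻¹) * (b.1 * (k * b.1⁻¹ * k⁻¹))) := by rw [h2]
      _ = _ := by group
  let f : V →* V := MonoidHom.mk' f0 hf0
  have hfapp : ∀ w : V, (f w : X) = w.1 * (k * w.1⁻¹ * k⁻¹) := fun w => rfl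
  have hkerC : ∀ x : V, x ∈ f.ker → Commute x.1 k := by
    intro x hx
    have h1 : (f x : X) = 1 := by
      have := MonoidHom.mem_ker.mp hx
      rw [this]; rfl
    rw [hfapp] at h1
    -- x * (k x⁻¹ k⁻¹) = 1 ⇒ x k = k x
    have h2 : x.1 * k = k * x.1 := by
      calc x.1 * k = (x.1 * (k * x.1⁻¹ * k⁻¹)) * (k * x.1) := by group
        _ = k * x.1 := by rw [h1, one_mul]
    exact h2
  have hdisj : Disjoint f.ker f.range := by
    rw [Subgroup.disjoint_def]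
    intro x hx hy
    obtain ⟨w, rfl⟩ := hy
    have hc := hkerC _ hx
    apply Subtype.ext
    refine eq_one_aux V (f w : X) k w.1 (f w).2 hc hk ?_
    rw [hfapp]; group
  have hcard : Nat.card f.ker * Nat.card f.range = Nat.card V := by
    rw [← Subgroup.index_ker f]
    exact Subgroup.card_mul_index _
  have hcomp : Subgroup.IsComplement' f.ker f.range :=
    Subgroup.isComplement'_of_card_mul_and_disjoint hcard hdisj
  obtain ⟨⟨c, i⟩, hci⟩ := hcomp.2 ⟨v, hv⟩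
  obtain ⟨w', hw'⟩ := i.2
  have hci' : c.1.1 * i.1.1 = v := congrArg Subtype.val hci
  have hi : i.1.1 = w'.1 * (k * w'.1⁻¹ * k⁻¹) := by rw [← hw']; rfl
  refine ⟨w'.1⁻¹, V.inv_mem w'.2, c.1.1, c.1.2, hkerC _ c.2, ?_⟩
  rw [← hci', hi, inv_inv]
  have hcw : c.1.1 * w'.1 = w'.1 * c.1.1 := hab _ c.1.2 _ w'.2
  calc w'.1⁻¹ * (c.1.1 * (w'.1 * (k * w'.1⁻¹ * k⁻¹)) * k) * w'.1
      = w'.1⁻¹ * (c.1.1 * w'.1) * k := by group
    _ = c.1.1 * k := by rw [hcw]; group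

/-- Let X be a finite group, V an abelian normal subgroup of X (any two elements of V commute) and G a complement to V in X whose order is coprime to that of V. Let S be a set of representatives of the orbits of G on V under conjugation: S lies in V and every element of V is conjugate under G to exactly one member of S. Then the number of conjugacy classes of X equals the sum, over s in S, of the number of conjugacy classes of the centralizer of s in G. -/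
theorem result {X : Type*} [Group X] [Finite X] (V : Subgroup X) [V.Normal] (hab : ∀ a ∈ V, ∀ b ∈ V, a * b = b * a) (G : Subgroup X) (hGV : Subgroup.IsComplement' V G) (hcop : (Nat.card V).Coprime (Nat.card G)) (S : Finset X) (hSV : ∀ s ∈ S, s ∈ V) (hrep : ∀ v ∈ V, ∃! s, s ∈ S ∧ ∃ g ∈ G, g * v * g⁻¹ = s) : Nat.card (ConjClasses X) = ∑ s ∈ S, Nat.card (ConjClasses ↥(G ⊓ Subgroup.centralizer ({s} : Set X))) := by
  classical
  have hcopk : ∀ g ∈ G, (orderOf g).Coprime (Nat.card V) := fun g hg =>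
    Nat.Coprime.coprime_dvd_left (Subgroup.orderOf_dvd_natCard G hg) hcop.symm
  -- the comparison map
  have hcent : ∀ (s : X) (g : ↥(G ⊓ Subgroup.centralizer ({s} : Set X))), Commute s g.1 := by
    intro s g
    have := Subgroup.mem_centralizer_iff.mp g.2.2 s (Set.mem_singleton s)
    exact this
  let φ0 : (s : S) → ↥(G ⊓ Subgroup.centralizer ({s.1} : Set X)) → ConjClasses X :=
    fun s g => ConjClasses.mk (s.1 * g.1)
  have hφ0 : ∀ (s : S) (a b : ↥(G ⊓ Subgroup.centralizer ({s.1} : Set X))),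
      IsConj a b → φ0 s a = φ0 s b := by
    intro s a b hab'
    obtain ⟨c, hc⟩ := isConj_iff.mp hab'
    apply ConjClasses.mk_eq_mk_iff_isConj.mpr
    apply isConj_iff.mpr
    refine ⟨c.1, ?_⟩
    have h1 : c.1 * a.1 * c.1⁻¹ = b.1 := congrArg Subtype.val hc
    rw [← h1]
    have h2 := (hcent s.1 c).eq
    calc c.1 * (s.1 * a.1) * c.1⁻¹ = (c.1 * s.1) * a.1 * c.1⁻¹ := by group
      _ = (s.1 * c.1) * a.1 * c.1⁻¹ := by rw [h2]
      _ = _ := by group
  let φ : (Σ s : S, ConjClasses ↥(G ⊓ Subgroup.centralizer ({s.1} : Set X))) → ConjClasses X :=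
    fun p => Quotient.lift (φ0 p.1) (fun a b h => hφ0 p.1 a b h) p.2
  have hφmk : ∀ (s : S) (g : ↥(G ⊓ Subgroup.centralizer ({s.1} : Set X))),
      φ ⟨s, ConjClasses.mk g⟩ = ConjClasses.mk (s.1 * g.1) := fun s g => rfl
  have hbij : Function.Bijective φ := by
    constructor
    · rintro ⟨s, a⟩ ⟨s', a'⟩ h
      induction a using Quotient.inductionOn with | _ g => ?_
      induction a' using Quotient.inductionOn with | _ g' => ?_
      change ConjClasses.mk (s.1 * g.1) = ConjClasses.mk (s'.1 * g'.1) at h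
      obtain ⟨a, ha⟩ := isConj_iff.mp (ConjClasses.mk_eq_mk_iff_isConj.mp h)
      obtain ⟨⟨w, h0⟩, hwh⟩ := hGV.2 a
      have hwh' : w.1 * h0.1 = a := hwh
      have hsV : s.1 ∈ V := hSV _ s.2
      have hs'V : s'.1 ∈ V := hSV _ s'.2
      have htV : h0.1 * s.1 * h0.1⁻¹ ∈ V := ‹V.Normal›.conj_mem _ hsV _
      have hkG : h0.1 * g.1 * h0.1⁻¹ ∈ G := G.mul_mem (G.mul_mem h0.2 g.2.1) (G.inv_mem h0.2)
      have hfV : (w.1 * (h0.1 * s.1 * h0.1⁻¹)) * ((h0.1 * g.1 * h0.1⁻¹) * w.1⁻¹ * (h0.1 * g.1 * h0.1⁻¹)⁻¹) ∈ V :=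
        V.mul_mem (V.mul_mem w.2 htV) (‹V.Normal›.conj_mem _ (V.inv_mem w.2) _)
      have heq : ((⟨_, hfV⟩ : V), (⟨_, hkG⟩ : G)) = (⟨s'.1, hs'V⟩, ⟨g'.1, g'.2.1⟩) := by
        apply hGV.1
        show (w.1 * (h0.1 * s.1 * h0.1⁻¹)) * ((h0.1 * g.1 * h0.1⁻¹) * w.1⁻¹ * (h0.1 * g.1 * h0.1⁻¹)⁻¹) * (h0.1 * g.1 * h0.1⁻¹) = s'.1 * g'.1
        rw [← ha, ← hwh']
        group
      have hk1 : h0.1 * g.1 * h0.1⁻¹ = g'.1 := congrArg Subtype.val (congrArg Prod.snd heq)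
      have hs1 : (w.1 * (h0.1 * s.1 * h0.1⁻¹)) * ((h0.1 * g.1 * h0.1⁻¹) * w.1⁻¹ * (h0.1 * g.1 * h0.1⁻¹)⁻¹) = s'.1 :=
        congrArg Subtype.val (congrArg Prod.fst heq)
      set t := h0.1 * s.1 * h0.1⁻¹ with ht
      set k := h0.1 * g.1 * h0.1⁻¹ with hk
      have htk : Commute t k := by
        have := (hcent s.1 g).eq
        show t * k = k * t
        rw [ht, hk]
        calc h0.1 * s.1 * h0.1⁻¹ * (h0.1 * g.1 * h0.1⁻¹) = h0.1 * (s.1 * g.1) * h0.1⁻¹ := by group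
          _ = h0.1 * (g.1 * s.1) * h0.1⁻¹ := by rw [this]
          _ = _ := by group
      have hs'k : Commute s'.1 k := by
        rw [hk1]; exact hcent s'.1 g'
      have hc1 : t⁻¹ * s'.1 = 1 := by
        refine eq_one_aux V (t⁻¹ * s'.1) k w.1 (V.mul_mem (V.inv_mem htV) hs'V)
          ((htk.inv_left).mul_left hs'k) (hcopk _ hkG) ?_
        have h3 : w.1 * t = t * w.1 := hab _ w.2 _ htV
        rw [← hs1, mul_assoc w.1 t, ← mul_assoc w.1 t, h3]
        group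
      have hts' : t = s'.1 := by
        have := mul_eq_one_iff_eq_inv.mp hc1
        exact (inv_inj.mp this).symm ▸ rfl
      have hs2 : s'.1 = s.1 := by
        refine (hrep s.1 hsV).unique ⟨s'.2, h0.1, h0.2, hts'⟩ ⟨s.2, 1, G.one_mem, by simp⟩
      have hs3 : s' = s := Subtype.ext hs2
      subst hs3
      have hh0c : h0.1 ∈ G ⊓ Subgroup.centralizer ({s'.1} : Set X) := by
        refine ⟨h0.2, Subgroup.mem_centralizer_iff.mpr ?_⟩
        intro z hz
        rw [Set.mem_singleton_iff.mp hz]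
        have h5 : h0.1 * s'.1 * h0.1⁻¹ = s'.1 := hts'
        calc s'.1 * h0.1 = (h0.1 * s'.1 * h0.1⁻¹) * h0.1 := by rw [h5]
          _ = h0.1 * s'.1 := by group
      have hconj : IsConj g g' := by
        apply isConj_iff.mpr
        refine ⟨⟨h0.1, hh0c⟩, Subtype.ext hk1⟩
      have hmk : (Quotient.mk _ g : ConjClasses ↥(G ⊓ Subgroup.centralizer ({s'.1} : Set X))) = Quotient.mk _ g' :=
        ConjClasses.mk_eq_mk_iff_isConj.mpr hconj
      rw [hmk]
    · intro y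
      induction y using Quotient.inductionOn with | _ x => ?_
      obtain ⟨⟨v, g⟩, hx⟩ := hGV.2 x
      have hx' : v.1 * g.1 = x := hx
      obtain ⟨w, hw, c, hc, hcg, hwc⟩ := lemmaA V hab g.1 (hcopk _ g.2) v.1 v.2
      obtain ⟨s, ⟨hsS, h, hh, hhc⟩, -⟩ := hrep c hc
      have hg' : h * g.1 * h⁻¹ ∈ G ⊓ Subgroup.centralizer ({s} : Set X) := by
        refine ⟨G.mul_mem (G.mul_mem hh g.2) (G.inv_mem hh), Subgroup.mem_centralizer_iff.mpr ?_⟩
        intro z hz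
        rw [Set.mem_singleton_iff.mp hz, ← hhc]
        have := hcg.eq
        calc h * c * h⁻¹ * (h * g.1 * h⁻¹) = h * (c * g.1) * h⁻¹ := by group
          _ = h * (g.1 * c) * h⁻¹ := by rw [this]
          _ = _ := by group
      refine ⟨⟨⟨s, hsS⟩, ConjClasses.mk ⟨_, hg'⟩⟩, ?_⟩
      show ConjClasses.mk _ = ConjClasses.mk x
      apply ConjClasses.mk_eq_mk_iff_isConj.mpr
      apply isConj_iff.mpr
      refine ⟨(h * w)⁻¹, ?_⟩
      show (h * w)⁻¹ * (s * (h * g.1 * h⁻¹)) * (h * w)⁻¹⁻¹ = x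
      rw [← hhc, ← hx']
      have : h * c * h⁻¹ * (h * g.1 * h⁻¹) = h * (c * g.1) * h⁻¹ := by group
      rw [this, ← hwc]
      group
  calc Nat.card (ConjClasses X)
      = Nat.card (Σ s : S, ConjClasses ↥(G ⊓ Subgroup.centralizer ({s.1} : Set X))) :=
        (Nat.card_congr (Equiv.ofBijective φ hbij)).symm
    _ = ∑ s : S, Nat.card (ConjClasses ↥(G ⊓ Subgroup.centralizer ({s.1} : Set X))) :=
        Nat.card_sigma
    _ = ∑ s ∈ S, Nat.card (ConjClasses ↥(G ⊓ Subgroup.centralizer ({s} : Set X))) :=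
        Finset.sum_coe_sort S (fun s => Nat.card (ConjClasses ↥(G ⊓ Subgroup.centralizer ({s} : Set X))))

end Cfsg.Agent.S4956
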