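import Cfsg.Statements.S4958
import Mathlib
import Cfsg.Agent.Lib.Coprime.KGVAb
-- import your own Cfsg.Agent.* helpers here

set_option autoImplicit false
open Cfsg

namespace Cfsg.Agent.S4958

/-- Let X be a finite group and V a normal subgroup of X in which every element has order dividing the prime p, whose index in X is prime to p and which is its own centralizer in X; so V is an elementary abelian normal Sylow p-subgroup, and any complement G to V in X is a group of order prime to p acting faithfully on the vector space V by conjugation (the coprime linear setting of the k(GV) problem). Let G be a complement to V in X and suppose that for some v in V the centralizer of v in G is abelian. Then the number of conjugacy classes of X is at most the order of V (the abelian-stabilizer criterion for the k(GV) problem). -/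
theorem result {X : Type*} [Group X] [Finite X] (p : ℕ) [Fact p.Prime] (V : Subgroup X) [V.Normal] (hVexp : ∀ v ∈ V, v ^ p = 1) (hidx : ¬ p ∣ V.index) (hself : Subgroup.centralizer (V : Set X) = V) (G : Subgroup X) (hGV : Subgroup.IsComplement' V G) (v : X) (hv : v ∈ V) (hab : ∀ a ∈ G ⊓ Subgroup.centralizer ({v} : Set X), ∀ b ∈ G ⊓ Subgroup.centralizer ({v} : Set X), a * b = b * a) : Nat.card (ConjClasses X) ≤ Nat.card V := by
  have hVp : IsPGroup p V := fun g => ⟨1, by
    apply Subtype.ext
    simpa using hVexp g.1 g.2⟩
  have hVab : ∀ a ∈ V, ∀ b ∈ V, a * b = b * a := by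
    intro a ha b hb
    have h1 : b ∈ Subgroup.centralizer (V : Set X) := by rw [hself]; exact hb
    exact (Subgroup.mem_centralizer_iff.mp h1 a ha)
  have hfaith : ∀ g ∈ G, (∀ w ∈ V, g * w = w * g) → g = 1 := by
    intro g hg hc
    have h1 : g ∈ Subgroup.centralizer (V : Set X) :=
      Subgroup.mem_centralizer_iff.mpr (fun w hw => (hc w hw).symm)
    rw [hself] at h1
    exact Subgroup.disjoint_def.mp hGV.disjoint h1 hg
  exact Cfsg.Agent.Lib.Coprime.KGVAb.kgv_abelian_stabilizer V hVp hidx hVab G hGV hfaith hv hab

end Cfsg.Agent.S4958
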