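import Cfsg.Statements.S4965
import Mathlib
-- import your own Cfsg.Agent.* helpers here

set_option autoImplicit false
open Cfsg

namespace Cfsg.Agent.S4965

/-- Let X be a finite group with an abelian normal subgroup V (any two elements of V commute), and let φ be the action of X ⧸ V on V induced by conjugation (well defined because V is abelian; the hypothesis hφ says that the class of x acts as conjugation by x). Then X has at most as many conjugacy classes as the semidirect product of V by X ⧸ V formed with this action: the split extension has the largest class number among extensions with the given action. -/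
theorem result {X : Type*} [Group X] [Finite X] (V : Subgroup X) [V.Normal] (hab : ∀ a ∈ V, ∀ b ∈ V, a * b = b * a) (φ : X ⧸ V →* MulAut ↥V) (hφ : ∀ (x : X) (v : ↥V), ((φ (QuotientGroup.mk x) v : ↥V) : X) = x * v * x⁻¹) : Nat.card (ConjClasses X) ≤ Nat.card (ConjClasses (SemidirectProduct ↥V (X ⧸ V) φ)) := by
  classical
  have hcard : Nat.card (SemidirectProduct (↥V) (X ⧸ V) φ) = Nat.card X := by
    rw [SemidirectProduct.card, mul_comm]
    exact V.card_mul_index.symm ▸ (by rw [mul_comm]; rfl)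
  -- base point selection
  let base : X ⧸ V → X ⧸ V → X × X := fun q₁ q₂ =>
    if h : ∃ p : X × X, Commute p.1 p.2 ∧ (QuotientGroup.mk p.1 : X ⧸ V) = q₁ ∧ (QuotientGroup.mk p.2 : X ⧸ V) = q₂
    then h.choose else (1, 1)
  have hbase : ∀ g x : X, Commute g x →
      Commute (base (g : X ⧸ V) (x : X ⧸ V)).1 (base (g : X ⧸ V) (x : X ⧸ V)).2 ∧
      ((base (g : X ⧸ V) (x : X ⧸ V)).1 : X ⧸ V) = g ∧
      ((base (g : X ⧸ V) (x : X ⧸ V)).2 : X ⧸ V) = x := by
    intro g x hc
    have h : ∃ p : X × X, Commute p.1 p.2 ∧ (QuotientGroup.mk p.1 : X ⧸ V) = (g : X ⧸ V) ∧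
        (QuotientGroup.mk p.2 : X ⧸ V) = (x : X ⧸ V) := ⟨(g, x), hc, rfl, rfl⟩
    simp only [base, dif_pos h]
    exact h.choose_spec
  have hmem : ∀ a b : X, (a : X ⧸ V) = (b : X ⧸ V) → a * b⁻¹ ∈ V := by
    intro a b h
    have := QuotientGroup.eq_iff_div_mem.mp h
    rwa [div_eq_mul_inv] at this
  have : Finite (SemidirectProduct (↥V) (X ⧸ V) φ) :=
    Finite.of_equiv _ SemidirectProduct.equivProd.symm
  let F : {p : X × X // Commute p.1 p.2} →
      {p : (SemidirectProduct (↥V) (X ⧸ V) φ) × (SemidirectProduct (↥V) (X ⧸ V) φ) // Commute p.1 p.2} :=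
    fun p =>
      let b := base (p.1.1 : X ⧸ V) (p.1.2 : X ⧸ V)
      have hb := hbase p.1.1 p.1.2 p.2
      ⟨(⟨⟨p.1.1 * b.1⁻¹, hmem _ _ hb.2.1.symm⟩, (p.1.1 : X ⧸ V)⟩,
        ⟨⟨p.1.2 * b.2⁻¹, hmem _ _ hb.2.2.symm⟩, (p.1.2 : X ⧸ V)⟩), by
        obtain ⟨⟨g, x⟩, hc⟩ := p
        dsimp only at b hb
        obtain ⟨hb0, hb1, hb2⟩ := hb
        show _ * _ = _ * _
        apply SemidirectProduct.ext
        · apply Subtype.ext
          simp only [SemidirectProduct.mul_left, Subgroup.coe_mul]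
          have hq : ∀ (a c : X) (v : ↥V), (a : X ⧸ V) = c → ((φ a v : ↥V) : X) = c * v * c⁻¹ := by
            intro a c v h
            rw [h, hφ]
          rw [hq g b.1 _ hb1.symm, hq x b.2 _ hb2.symm]
          have hgx : g * x = x * g := hc
          have hb' : b.1 * b.2 = b.2 * b.1 := hb0
          have hbinv : b.2⁻¹ * b.1⁻¹ = b.1⁻¹ * b.2⁻¹ := by
            rw [← mul_inv_rev, hb', mul_inv_rev]
          calc g * b.1⁻¹ * (b.1 * (x * b.2⁻¹) * b.1⁻¹) = g * x * (b.2⁻¹ * b.1⁻¹) := by group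
            _ = x * g * (b.1⁻¹ * b.2⁻¹) := by rw [hgx, hbinv]
            _ = x * b.2⁻¹ * (b.2 * (g * b.1⁻¹) * b.2⁻¹) := by group
        · simp only [SemidirectProduct.mul_right]
          rw [← QuotientGroup.mk_mul, ← QuotientGroup.mk_mul]
          exact congrArg _ (show g * x = x * g from hc)⟩
  have hF : Function.Injective F := by
    rintro ⟨⟨g, x⟩, hc⟩ ⟨⟨g', x'⟩, hc'⟩ h
    have h1 : (g : X ⧸ V) = g' := congrArg (fun r => r.1.1.right) h
    have h2 : (x : X ⧸ V) = x' := congrArg (fun r => r.1.2.right) h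
    have h3 : g * (base (g : X ⧸ V) (x : X ⧸ V)).1⁻¹ = g' * (base (g' : X ⧸ V) (x' : X ⧸ V)).1⁻¹ :=
      congrArg (fun r => ((r.1.1.left : V) : X)) h
    have h4 : x * (base (g : X ⧸ V) (x : X ⧸ V)).2⁻¹ = x' * (base (g' : X ⧸ V) (x' : X ⧸ V)).2⁻¹ :=
      congrArg (fun r => ((r.1.2.left : V) : X)) h
    rw [h1, h2] at h3 h4
    apply Subtype.ext
    exact Prod.ext (mul_right_cancel h3) (mul_right_cancel h4)
  have := Nat.card_le_card_of_injective F hF
  rw [card_comm_eq_card_conjClasses_mul_card, card_comm_eq_card_conjClasses_mul_card, hcard] at this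
  exact Nat.le_of_mul_le_mul_right this Nat.card_pos

end Cfsg.Agent.S4965
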