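import Cfsg.Statements.S4966
import Mathlib
-- import your own Cfsg.Agent.* helpers here

set_option autoImplicit false
open Cfsg

namespace Cfsg.Agent.S4966

open Module LinearMap Submodule

universe u v w

section Basics

variable {F : Type u} [Field F] {G : Type v} [Group G] {V : Type w} [AddCommGroup V] [Module F V]

/-- Invariant subspaces. -/
def Inv (ρ : Representation F G V) (U : Submodule F V) : Prop := ∀ g, ∀ x ∈ U, ρ g x ∈ U

/-- The two shapes of forms. -/
def Shape : Bool → LinearMap.BilinForm F V → Prop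
  | true, A => ∀ x, A x x = 0
  | false, A => ∀ x y, A x y = A y x

/-- `U` carries an invariant form of the given shape, nondegenerate on `U`. -/
def Carries (alt : Bool) (ρ : Representation F G V) (U : Submodule F V) : Prop :=
  ∃ A : LinearMap.BilinForm F V, Shape alt A ∧ (∀ g, ∀ x ∈ U, ∀ y ∈ U, A (ρ g x) (ρ g y) = A x y) ∧
    ∀ x ∈ U, (∀ y ∈ U, A x y = 0) → x = 0

/-- The conclusion of the theorem. -/
def Concl (p : ℕ) (ρ : Representation F G V) : Prop :=
  ∃ U W : Submodule F V, IsCompl U W ∧ Inv ρ U ∧ Inv ρ W ∧ Carries true ρ U ∧ Carries false ρ W ∧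
    (p = 2 → ∀ g, ∀ w ∈ W, ρ g w = w)

theorem rep_inv_cancel (ρ : Representation F G V) (g : G) (x : V) : ρ g (ρ g⁻¹ x) = x := by
  rw [← Module.End.mul_apply, ← map_mul]; simp

theorem rep_inv_cancel' (ρ : Representation F G V) (g : G) (x : V) : ρ g⁻¹ (ρ g x) = x := by
  rw [← Module.End.mul_apply, ← map_mul]; simp

/-- The subrepresentation on an invariant subspace. -/
def subrep (ρ : Representation F G V) (X : Submodule F V) (hX : Inv ρ X) :
    Representation F G X where
  toFun g := (ρ g).restrict (hX g)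
  map_one' := by ext x; simp
  map_mul' g h := by ext x; simp

@[simp] theorem subrep_apply (ρ : Representation F G V) (X : Submodule F V) (hX : Inv ρ X) (g : G)
    (x : X) : ((subrep ρ X hX g x : X) : V) = ρ g x := rfl

theorem Shape.comp {V' : Type*} [AddCommGroup V'] [Module F V'] {alt : Bool} {A : LinearMap.BilinForm F V}
    (h : Shape alt A) (f : V' →ₗ[F] V) : Shape alt (A.comp f f) := by
  cases alt
  · intro x y; simpa using h (f x) (f y)
  · intro x; simpa using h (f x)

theorem Shape.add {alt : Bool} {A A' : LinearMap.BilinForm F V} (h : Shape alt A) (h' : Shape alt A') :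
    Shape alt (A + A') := by
  cases alt
  · intro x y; simp [h x y, h' x y]
  · intro x; simp [h x, h' x]

/-- Lifting a carried subspace of `X` to the ambient space. -/
theorem Carries.lift {alt : Bool} {ρ : Representation F G V} {P X : Submodule F V}
    (hc : IsCompl P X) (hX : Inv ρ X) {U' : Submodule F X}
    (h : Carries alt (subrep ρ X hX) U') : Carries alt ρ (U'.map X.subtype) := by
  obtain ⟨A', hS, hinv, hnd⟩ := h
  let π : V →ₗ[F] X := X.projectionOnto P hc.symm
  have hπ : ∀ x : X, π x = x := fun x => projectionOnto_apply_left hc.symm x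
  refine ⟨A'.comp π π, hS.comp π, ?_, ?_⟩
  · rintro g _ ⟨x, hx, rfl⟩ _ ⟨y, hy, rfl⟩
    have h1 : ∀ z : X, π (ρ g z) = subrep ρ X hX g z := fun z => by
      have : ρ g z = ((subrep ρ X hX g z : X) : V) := rfl
      rw [this, hπ]
    simp only [LinearMap.BilinForm.comp_apply, subtype_apply, h1, hπ]
    exact hinv g x hx y hy
  · rintro _ ⟨x, hx, rfl⟩ hall
    have : x = 0 := hnd x hx (fun y hy => by
      have := hall y ⟨y, hy, rfl⟩
      simpa [hπ] using this)
    simp [this]

/-- Combining two carried subspaces lying in complementary invariant subspaces. -/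
theorem Carries.sup {alt : Bool} {ρ : Representation F G V} {P X U₁ U₂ : Submodule F V}
    (hc : IsCompl P X) (h1P : U₁ ≤ P) (h2X : U₂ ≤ X) (h1 : Inv ρ U₁) (h2 : Inv ρ U₂)
    (c1 : Carries alt ρ U₁) (c2 : Carries alt ρ U₂) : Carries alt ρ (U₁ ⊔ U₂) := by
  obtain ⟨A₁, hS₁, hinv₁, hnd₁⟩ := c1
  obtain ⟨A₂, hS₂, hinv₂, hnd₂⟩ := c2
  let π₁ : V →ₗ[F] V := P.projection X hc
  let π₂ : V →ₗ[F] V := X.projection P hc.symm
  have p1 : ∀ u ∈ U₁, ∀ v ∈ U₂, π₁ (u + v) = u := fun u hu v hv => by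
    simp only [map_add, π₁]
    rw [projection_apply_of_mem_left hc (h1P hu), projection_apply_of_mem_right hc (h2X hv), add_zero]
  have p2 : ∀ u ∈ U₁, ∀ v ∈ U₂, π₂ (u + v) = v := fun u hu v hv => by
    simp only [map_add, π₂]
    rw [projection_apply_of_mem_right hc.symm (h1P hu), projection_apply_of_mem_left hc.symm (h2X hv),
      zero_add]
  have key : ∀ u ∈ U₁, ∀ v ∈ U₂, ∀ u' ∈ U₁, ∀ v' ∈ U₂,
      (A₁.comp π₁ π₁ + A₂.comp π₂ π₂) (u + v) (u' + v') = A₁ u u' + A₂ v v' := by
    intro u hu v hv u' hu' v' hv'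
    simp only [LinearMap.add_apply, LinearMap.BilinForm.comp_apply]
    rw [p1 u hu v hv, p1 u' hu' v' hv', p2 u hu v hv, p2 u' hu' v' hv']
  refine ⟨A₁.comp π₁ π₁ + A₂.comp π₂ π₂, (hS₁.comp π₁).add (hS₂.comp π₂), ?_, ?_⟩
  · intro g x hx y hy
    obtain ⟨u, hu, v, hv, rfl⟩ := mem_sup.1 hx
    obtain ⟨u', hu', v', hv', rfl⟩ := mem_sup.1 hy
    rw [map_add (ρ g) u v, map_add (ρ g) u' v', key _ (h1 g u hu) _ (h2 g v hv) _ (h1 g u' hu') _ (h2 g v' hv'),
      key _ hu _ hv _ hu' _ hv', hinv₁ g u hu u' hu', hinv₂ g v hv v' hv']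
  · intro x hx hall
    obtain ⟨u, hu, v, hv, rfl⟩ := mem_sup.1 hx
    have e1 : u = 0 := hnd₁ u hu fun y hy => by
      have := hall y (mem_sup_left hy)
      have e := key u hu v hv y hy 0 U₂.zero_mem
      rw [add_zero] at e
      rw [e, map_zero, add_zero] at this
      exact this
    have e2 : v = 0 := hnd₂ v hv fun y hy => by
      have := hall y (mem_sup_right hy)
      have e := key u hu v hv 0 U₁.zero_mem y hy
      rw [zero_add] at e
      rw [e, map_zero, zero_add] at this
      exact this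
    simp [e1, e2]

theorem isCompl_lift {P X : Submodule F V} (hc : IsCompl P X) {U' W' : Submodule F X}
    (hc' : IsCompl U' W') : IsCompl (P ⊔ U'.map X.subtype) (W'.map X.subtype) := by
  constructor
  · rw [Submodule.disjoint_def]
    intro x hx hx'
    obtain ⟨a, ha, _, ⟨u, hu, rfl⟩, rfl⟩ := mem_sup.1 hx
    obtain ⟨w, hw, hw'⟩ := hx'
    have ha0 : a = 0 := by
      have : a ∈ X := by
        have : a = (w : V) - u := by
          have e : (w : V) = a + u := hw'
          rw [e]; simp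
        rw [this]
        exact X.sub_mem w.2 u.2
      exact Submodule.disjoint_def.1 hc.disjoint a ha this
    subst ha0
    have : (u : X) = w := by
      apply Subtype.ext
      simpa using hw'.symm
    subst this
    have : u = 0 := Submodule.disjoint_def.1 hc'.disjoint u hu hw
    simp [this]
  · rw [codisjoint_iff, sup_assoc, ← Submodule.map_sup, hc'.sup_eq_top, Submodule.map_top]
    simpa using hc.sup_eq_top

theorem Concl.step {p : ℕ} {ρ : Representation F G V} {P X : Submodule F V} (hc : IsCompl P X)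
    (hP : Inv ρ P) (hX : Inv ρ X) (alt : Bool) (hcar : Carries alt ρ P)
    (htriv : alt = false → p = 2 → ∀ g, ∀ w ∈ P, ρ g w = w)
    (IH : Concl p (subrep ρ X hX)) : Concl p ρ := by
  obtain ⟨U', W', hc', hU', hW', cU, cW, hp⟩ := IH
  have invmap : ∀ Y : Submodule F X, Inv (subrep ρ X hX) Y → Inv ρ (Y.map X.subtype) := by
    rintro Y hY g _ ⟨y, hy, rfl⟩
    exact ⟨_, hY g y hy, rfl⟩
  have hmapP : ∀ Y : Submodule F X, Y.map X.subtype ≤ X := fun Y => by
    rintro _ ⟨y, _, rfl⟩
    exact y.2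
  have invsup : ∀ Y : Submodule F X, Inv (subrep ρ X hX) Y → Inv ρ (P ⊔ Y.map X.subtype) := by
    intro Y hY g x hx
    obtain ⟨a, ha, b, hb, rfl⟩ := mem_sup.1 hx
    rw [map_add]
    exact add_mem (mem_sup_left (hP g a ha)) (mem_sup_right (invmap Y hY g b hb))
  cases alt
  · refine ⟨U'.map X.subtype, P ⊔ W'.map X.subtype, (isCompl_lift hc hc'.symm).symm, invmap U' hU',
      invsup W' hW', cU.lift hc hX, ?_, ?_⟩
    · exact Carries.sup hc le_rfl (hmapP W') hP (invmap W' hW') hcar (cW.lift hc hX)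
    · intro h2 g w hw
      obtain ⟨a, ha, _, ⟨b, hb, rfl⟩, rfl⟩ := mem_sup.1 hw
      rw [map_add, htriv rfl h2 g a ha]
      have := hp h2 g b hb
      congr 1
      exact congrArg Subtype.val this
  · refine ⟨P ⊔ U'.map X.subtype, W'.map X.subtype, isCompl_lift hc hc', invsup U' hU',
      invmap W' hW', ?_, cW.lift hc hX, ?_⟩
    · exact Carries.sup hc le_rfl (hmapP U') hP (invmap U' hU') hcar (cU.lift hc hX)
    · rintro h2 g _ ⟨b, hb, rfl⟩
      exact congrArg Subtype.val (hp h2 g b hb)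

end Basics

section Main

variable {F : Type u} [Field F] {G : Type v} [Group G] {V : Type w} [AddCommGroup V] [Module F V]

/-- Maschke's theorem by averaging. -/
theorem maschke [Finite G] (hG : ((Nat.card G : ℕ) : F) ≠ 0) (ρ : Representation F G V)
    (M : Submodule F V) (hM : Inv ρ M) : ∃ N, Inv ρ N ∧ IsCompl M N := by
  classical
  haveI := Fintype.ofFinite G
  obtain ⟨π, hπ⟩ := M.subtype.exists_leftInverse_of_injective (ker_subtype M)
  have hπ' : ∀ m : M, π m = m := fun m => LinearMap.congr_fun hπ m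
  let Φ : V →ₗ[F] V := ((Nat.card G : F)⁻¹) • ∑ g : G, (ρ g⁻¹) ∘ₗ M.subtype ∘ₗ π ∘ₗ (ρ g)
  have hΦ : ∀ x, Φ x = ((Nat.card G : F)⁻¹) • ∑ g : G, ρ g⁻¹ ((π (ρ g x) : M) : V) := by
    intro x; simp [Φ]
  have hproj : LinearMap.IsProj M Φ := by
    constructor
    · intro x
      rw [hΦ]
      exact M.smul_mem _ (M.sum_mem fun g _ => hM _ _ (π _).2)
    · intro x hx
      rw [hΦ]
      have : ∀ g : G, ρ g⁻¹ ((π (ρ g x) : M) : V) = x := by
        intro g
        have h0 := hπ' ⟨ρ g x, hM g x hx⟩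
        rw [show π (ρ g x) = ⟨ρ g x, hM g x hx⟩ from h0]
        exact rep_inv_cancel' ρ g x
      simp only [this, Finset.sum_const, Finset.card_univ]
      rw [← Nat.card_eq_fintype_card, ← Nat.cast_smul_eq_nsmul F, smul_smul, inv_mul_cancel₀ hG,
        one_smul]
  have hequiv : ∀ h x, Φ (ρ h x) = ρ h (Φ x) := by
    intro h x
    rw [hΦ, hΦ, map_smul, map_sum]
    congr 1
    refine Fintype.sum_equiv (Equiv.mulRight h) _ _ fun g => ?_
    simp only [Equiv.coe_mulRight]
    have e1 : ρ (g * h) x = ρ g (ρ h x) := by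
      rw [map_mul, Module.End.mul_apply]
    have e2 : ∀ y, ρ h (ρ (g * h)⁻¹ y) = ρ g⁻¹ y := fun y => by
      rw [← Module.End.mul_apply, ← map_mul]; simp
    rw [e1, e2]
  refine ⟨ker Φ, ?_, hproj.isCompl⟩
  intro g x hx
  rw [mem_ker] at hx ⊢
  rw [hequiv, hx, map_zero]

/-- A minimal nonzero invariant subspace. -/
theorem exists_minimal [FiniteDimensional F V] [Nontrivial V] (ρ : Representation F G V) :
    ∃ T : Submodule F V, T ≠ ⊥ ∧ Inv ρ T ∧ ∀ W ≤ T, Inv ρ W → W = ⊥ ∨ W = T := by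
  classical
  let P : ℕ → Prop := fun d => ∃ U : Submodule F V, U ≠ ⊥ ∧ Inv ρ U ∧ finrank F U = d
  have hP : ∃ d, P d := ⟨finrank F (⊤ : Submodule F V), ⊤, top_ne_bot, fun _ _ _ => trivial, rfl⟩
  obtain ⟨U, hU, hinv, hd⟩ := Nat.find_spec hP
  refine ⟨U, hU, hinv, ?_⟩
  intro W hWU hW
  by_cases h0 : W = ⊥
  · exact Or.inl h0
  · right
    have : Nat.find hP ≤ finrank F W := Nat.find_min' hP ⟨W, h0, hW, rfl⟩
    exact Submodule.eq_of_le_of_finrank_le hWU (by omega)

theorem mem_lperp {B : LinearMap.BilinForm F V} {T : Submodule F V} {x : V} :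
    x ∈ B.flip.orthogonal T ↔ ∀ y ∈ T, B x y = 0 := by
  simp [LinearMap.BilinForm.mem_orthogonal_iff]

theorem inv_orth {ρ : Representation F G V} {B : LinearMap.BilinForm F V}
    (hBinv : ∀ g x y, B (ρ g x) (ρ g y) = B x y) {T : Submodule F V} (hT : Inv ρ T) :
    Inv ρ (B.orthogonal T) := by
  intro g x hx
  rw [LinearMap.BilinForm.mem_orthogonal_iff] at hx ⊢
  intro t ht
  have := hx _ (hT g⁻¹ t ht)
  rw [← hBinv g, rep_inv_cancel] at this
  exact this

theorem rad_trivial {ρ : Representation F G V} {T : Submodule F V} (hTinv : Inv ρ T)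
    (hmin : ∀ W ≤ T, Inv ρ W → W = ⊥ ∨ W = T) (C : LinearMap.BilinForm F V)
    (hinv : ∀ g, ∀ x ∈ T, ∀ y ∈ T, C (ρ g x) (ρ g y) = C x y)
    (hne : ∃ x ∈ T, ∃ y ∈ T, C x y ≠ 0) : ∀ x ∈ T, (∀ y ∈ T, C x y = 0) → x = 0 := by
  have hinvR : Inv ρ (T ⊓ C.flip.orthogonal T) := by
    rintro g x ⟨hx, hx'⟩
    refine ⟨hTinv g x hx, ?_⟩
    rw [SetLike.mem_coe, mem_lperp] at hx' ⊢
    intro y hy
    have := hinv g x hx (ρ g⁻¹ y) (hTinv _ y hy)
    rw [rep_inv_cancel, hx' _ (hTinv _ y hy)] at this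
    exact this
  intro x hx hall
  have hxR : x ∈ T ⊓ C.flip.orthogonal T := ⟨hx, mem_lperp.2 hall⟩
  rcases hmin _ inf_le_left hinvR with h | h
  · rw [h] at hxR
    exact (Submodule.mem_bot F).1 hxR
  · exfalso
    obtain ⟨a, ha, b, hb, hab⟩ := hne
    have : a ∈ T ⊓ C.flip.orthogonal T := by rw [h]; exact ha
    exact hab (mem_lperp.1 this.2 b hb)

theorem piece_nonisotropic {p : ℕ} [CharP F p] {ρ : Representation F G V}
    {B : LinearMap.BilinForm F V} (hBinv : ∀ g x y, B (ρ g x) (ρ g y) = B x y) {T : Submodule F V}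
    (hTinv : Inv ρ T) (hmin : ∀ W ≤ T, Inv ρ W → W = ⊥ ∨ W = T)
    (hne : ∃ x ∈ T, ∃ y ∈ T, B x y ≠ 0) :
    (∀ y ∈ T, (∀ x ∈ T, B x y = 0) → y = 0) ∧
      ∃ alt, Carries alt ρ T ∧ (alt = false → p = 2 → ∀ g, ∀ w ∈ T, ρ g w = w) := by
  constructor
  · intro y hy h
    obtain ⟨a, ha, b, hb, hab⟩ := hne
    exact rad_trivial hTinv hmin B.flip (fun g x _ z _ => by simpa using hBinv g z x)
      ⟨b, hb, a, ha, by simpa using hab⟩ y hy (fun x hx => by simpa using h x hx)
  · obtain ⟨T', hT'⟩ := Submodule.exists_isCompl T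
    let π : V →ₗ[F] V := T.projection T' hT'
    have hπm : ∀ x, π x ∈ T := fun x => projection_apply_mem hT' x
    have hπT : ∀ x ∈ T, π x = x := fun x hx => projection_apply_of_mem_left hT' hx
    let C : LinearMap.BilinForm F V := B.comp π π
    have hC : ∀ x ∈ T, ∀ y ∈ T, C x y = B x y := fun x hx y hy => by
      simp only [C, LinearMap.BilinForm.comp_apply, hπT x hx, hπT y hy]
    have hCinv : ∀ g, ∀ x ∈ T, ∀ y ∈ T, C (ρ g x) (ρ g y) = C x y := fun g x hx y hy => by
      rw [hC _ (hTinv g x hx) _ (hTinv g y hy), hC x hx y hy, hBinv]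
    have hCne : ∃ x ∈ T, ∃ y ∈ T, C x y ≠ 0 := by
      obtain ⟨a, ha, b, hb, hab⟩ := hne
      exact ⟨a, ha, b, hb, by rwa [hC a ha b hb]⟩
    by_cases hsym : ∃ x ∈ T, ∃ y ∈ T, B x y ≠ B y x
    · refine ⟨true, ⟨C - C.flip, ?_, ?_, ?_⟩, by simp⟩
      · intro x; simp
      · intro g x hx y hy
        simp [hCinv g x hx y hy, hCinv g y hy x hx]
      · refine rad_trivial hTinv hmin _ ?_ ?_
        · intro g x hx y hy
          simp [hCinv g x hx y hy, hCinv g y hy x hx]
        · obtain ⟨a, ha, b, hb, hab⟩ := hsym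
          refine ⟨a, ha, b, hb, ?_⟩
          simp only [LinearMap.sub_apply, LinearMap.BilinForm.flip_apply]
          rw [hC a ha b hb, hC b hb a ha]
          exact sub_ne_zero.2 hab
    · push Not at hsym
      have hCnd := rad_trivial hTinv hmin C hCinv hCne
      by_cases h2 : p = 2 ∧ ∀ x ∈ T, B x x = 0
      · exact ⟨true, ⟨C, fun x => h2.2 _ (hπm x), hCinv, hCnd⟩, by simp⟩
      · refine ⟨false, ⟨C, fun x y => hsym _ (hπm x) _ (hπm y), hCinv, hCnd⟩, fun _ hp => ?_⟩
        have hN : ¬ ∀ x ∈ T, B x x = 0 := fun h => h2 ⟨hp, h⟩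
        have two : (2 : F) = 0 := by
          subst hp
          exact_mod_cast CharP.cast_eq_zero F 2
        let N : Submodule F V :=
          { carrier := {x | x ∈ T ∧ B x x = 0}
            add_mem' := by
              rintro a b ⟨ha, ha'⟩ ⟨hb, hb'⟩
              refine ⟨add_mem ha hb, ?_⟩
              simp only [map_add, LinearMap.add_apply, ha', hb', hsym b hb a ha]
              linear_combination B a b * two
            zero_mem' := ⟨T.zero_mem, by simp⟩
            smul_mem' := by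
              rintro c a ⟨ha, ha'⟩
              refine ⟨T.smul_mem c ha, ?_⟩
              simp [ha'] }
        have hNinv : Inv ρ N := by
          rintro g x ⟨hx, hx'⟩
          exact ⟨hTinv g x hx, by rw [hBinv]; exact hx'⟩
        have hNT : N ≤ T := fun x hx => hx.1
        have hNbot : N = ⊥ := by
          rcases hmin N hNT hNinv with h | h
          · exact h
          · exfalso
            apply hN
            intro x hx
            have : x ∈ N := by rw [h]; exact hx
            exact this.2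
        intro g w hw
        have hmem : ρ g w - w ∈ N := by
          refine ⟨sub_mem (hTinv g w hw) hw, ?_⟩
          simp only [map_sub, LinearMap.sub_apply, hBinv]
          rw [hsym w hw (ρ g w) (hTinv g w hw)]
          linear_combination (B w w - B (ρ g w) w) * two
        rw [hNbot] at hmem
        exact sub_eq_zero.1 ((Submodule.mem_bot F).1 hmem)

theorem exists_common_compl [FiniteDimensional F V] [Finite G] (hG : ((Nat.card G : ℕ) : F) ≠ 0)
    {ρ : Representation F G V} {B : LinearMap.BilinForm F V} (hB : B.Nondegenerate)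
    (hBinv : ∀ g x y, B (ρ g x) (ρ g y) = B x y) {T : Submodule F V}
    (hTinv : Inv ρ T) (hmin : ∀ W ≤ T, Inv ρ W → W = ⊥ ∨ W = T) :
    ∃ S, Inv ρ S ∧ IsCompl S (B.orthogonal T) ∧ IsCompl S (B.flip.orthogonal T) := by
  have hBinv' : ∀ g x y, B.flip (ρ g x) (ρ g y) = B.flip x y := fun g x y => by
    simpa using hBinv g y x
  set Kr := B.orthogonal T with hKr
  set Kl := B.flip.orthogonal T with hKl
  have hKrI : Inv ρ Kr := inv_orth hBinv hTinv
  have hKlI : Inv ρ Kl := inv_orth hBinv' hTinv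
  have hd : finrank F T ≤ finrank F V := Submodule.finrank_le T
  have frr : finrank F Kr = finrank F V - finrank F T := LinearMap.BilinForm.finrank_orthogonal hB T
  have frl : finrank F Kl = finrank F V - finrank F T :=
    LinearMap.BilinForm.finrank_orthogonal hB.flip T
  by_cases hEq : Kl = Kr
  · obtain ⟨N, hN, hc⟩ := maschke hG ρ Kr hKrI
    exact ⟨N, hN, hc.symm, by rw [hEq]; exact hc.symm⟩
  -- the two perpendiculars span
  have hsup : Kl ⊔ Kr = ⊤ := by
    have hYI : Inv ρ (Kl ⊔ Kr) := by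
      intro g x hx
      obtain ⟨a, ha, b, hb, rfl⟩ := mem_sup.1 hx
      rw [map_add]
      exact add_mem (mem_sup_left (hKlI g a ha)) (mem_sup_right (hKrI g b hb))
    have hY0I : Inv ρ (B.flip.orthogonal (Kl ⊔ Kr)) := inv_orth hBinv' hYI
    have hdbl : B.flip.orthogonal Kr = T := by
      symm
      refine Submodule.eq_of_le_of_finrank_le ?_ ?_
      · intro t ht
        rw [mem_lperp]
        intro y hy
        exact (LinearMap.BilinForm.mem_orthogonal_iff.1 hy) t ht
      · rw [LinearMap.BilinForm.finrank_orthogonal hB.flip Kr, frr]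
        omega
    have hY0T : B.flip.orthogonal (Kl ⊔ Kr) ≤ T := by
      rw [← hdbl]
      exact LinearMap.BilinForm.orthogonal_le le_sup_right
    rcases hmin _ hY0T hY0I with h | h
    · have hfr := LinearMap.BilinForm.finrank_orthogonal hB.flip (Kl ⊔ Kr)
      rw [h, finrank_bot] at hfr
      apply Submodule.eq_top_of_finrank_eq
      have := Submodule.finrank_le (Kl ⊔ Kr)
      omega
    · exfalso
      apply hEq
      refine Submodule.eq_of_le_of_finrank_le ?_ (by omega)
      intro y hy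
      rw [hKr, LinearMap.BilinForm.mem_orthogonal_iff]
      intro t ht
      rw [← h] at ht
      exact mem_lperp.1 ht y (mem_sup_left hy)
  have hLI : Inv ρ (Kl ⊓ Kr) := fun g x hx => ⟨hKlI g x hx.1, hKrI g x hx.2⟩
  have frL : finrank F (Kl ⊓ Kr : Submodule F V) + finrank F V = 2 * (finrank F V - finrank F T) := by
    have := Submodule.finrank_sup_add_finrank_inf_eq Kl Kr
    rw [hsup, finrank_top, frr, frl] at this
    omega
  obtain ⟨Q, hQI, hQ⟩ := maschke hG ρ (Kl ⊓ Kr) hLI
  let D : LinearMap.BilinForm F V := B - B.flip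
  have hDinv : ∀ g x y, D (ρ g x) (ρ g y) = D x y := fun g x y => by
    simp [D, hBinv]
  have hZmem : ∀ x, x ∈ D.orthogonal T ↔ ∀ t ∈ T, B t x = B x t := fun x => by
    rw [LinearMap.BilinForm.mem_orthogonal_iff]
    simp [D, sub_eq_zero]
  have hZI : Inv ρ (D.orthogonal T) := inv_orth hDinv hTinv
  have frZ : finrank F V ≤ finrank F T + finrank F (D.orthogonal T) := by
    have := LinearMap.BilinForm.finrank_add_finrank_orthogonal' (B := D) T
    omega
  have hLZ : Kl ⊓ Kr ≤ D.orthogonal T := by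
    intro x hx
    rw [hZmem]
    intro t ht
    rw [LinearMap.BilinForm.mem_orthogonal_iff.1 hx.2 t ht, mem_lperp.1 hx.1 t ht]
  have hSsup : (D.orthogonal T ⊓ Q) ⊔ (Kl ⊓ Kr) = D.orthogonal T := by
    rw [inf_sup_assoc_of_le _ hLZ, sup_comm, hQ.sup_eq_top, inf_top_eq]
  have frS : finrank F (D.orthogonal T) ≤
      finrank F (D.orthogonal T ⊓ Q : Submodule F V) + finrank F (Kl ⊓ Kr : Submodule F V) := by
    conv_lhs => rw [← hSsup]
    exact Submodule.finrank_add_le_finrank_add_finrank _ _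
  have hdisj : ∀ x ∈ D.orthogonal T ⊓ Q, x ∈ Kl ⊓ Kr → x = 0 := fun x hx hx' =>
    Submodule.disjoint_def.1 hQ.disjoint x hx' hx.2
  have hLmem : ∀ x, x ∈ Kl ⊓ Kr ↔ x ∈ Kl ∧ x ∈ Kr := fun x => Iff.rfl
  refine ⟨D.orthogonal T ⊓ Q, fun g x hx => ⟨hZI g x hx.1, hQI g x hx.2⟩, ?_, ?_⟩
  · rw [Submodule.isCompl_iff_disjoint _ _ (by omega), Submodule.disjoint_def]
    intro x hx hx'
    have hxl : x ∈ Kl := by
      rw [hKl, mem_lperp]
      intro t ht
      rw [← (hZmem x).1 hx.1 t ht]
      exact LinearMap.BilinForm.mem_orthogonal_iff.1 hx' t ht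
    exact hdisj x hx ⟨hxl, hx'⟩
  · rw [Submodule.isCompl_iff_disjoint _ _ (by omega), Submodule.disjoint_def]
    intro x hx hx'
    have hxr : x ∈ Kr := by
      rw [hKr, LinearMap.BilinForm.mem_orthogonal_iff]
      intro t ht
      rw [(hZmem x).1 hx.1 t ht]
      exact mem_lperp.1 hx' t ht
    exact hdisj x hx ⟨hx', hxr⟩

theorem piece_isotropic [FiniteDimensional F V] [Finite G] (hG : ((Nat.card G : ℕ) : F) ≠ 0)
    {ρ : Representation F G V} {B : LinearMap.BilinForm F V} (hB : B.Nondegenerate)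
    (hBinv : ∀ g x y, B (ρ g x) (ρ g y) = B x y) {T : Submodule F V}
    (hTinv : Inv ρ T) (hmin : ∀ W ≤ T, Inv ρ W → W = ⊥ ∨ W = T)
    (hiso : ∀ x ∈ T, ∀ y ∈ T, B x y = 0) :
    ∃ P, T ≤ P ∧ Inv ρ P ∧ (∀ y ∈ P, (∀ x ∈ P, B x y = 0) → y = 0) ∧ Carries true ρ P := by
  obtain ⟨S, hSI, hSr, hSl⟩ := exists_common_compl hG hB hBinv hTinv hmin
  have hTKr : T ≤ B.orthogonal T := fun t ht =>
    LinearMap.BilinForm.mem_orthogonal_iff.2 fun x hx => hiso x hx t ht
  let π : V →ₗ[F] V := S.projection (B.orthogonal T) hSr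
  let ψ : V →ₗ[F] V := LinearMap.id - π
  have hπ : ∀ t ∈ T, ∀ s ∈ S, π (t + s) = s := fun t ht s hs => by
    simp only [map_add, π]
    rw [projection_apply_of_mem_right hSr (hTKr ht), projection_apply_of_mem_left hSr hs, zero_add]
  have hψ : ∀ t ∈ T, ∀ s ∈ S, ψ (t + s) = t := fun t ht s hs => by
    simp only [ψ, LinearMap.sub_apply, LinearMap.id_apply, hπ t ht s hs, add_sub_cancel_right]
  let C : LinearMap.BilinForm F V := B.comp ψ π
  have key : ∀ t ∈ T, ∀ s ∈ S, ∀ t' ∈ T, ∀ s' ∈ S,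
      (C - C.flip) (t + s) (t' + s') = B t s' - B t' s := by
    intro t ht s hs t' ht' s' hs'
    simp only [C, LinearMap.sub_apply, LinearMap.BilinForm.flip_apply,
      LinearMap.BilinForm.comp_apply]
    rw [hπ t ht s hs, hπ t' ht' s' hs', hψ t ht s hs, hψ t' ht' s' hs']
  have hl : ∀ t ∈ T, (∀ s ∈ S, B t s = 0) → t = 0 := by
    intro t ht h
    apply hB.1
    intro v
    have hv : v ∈ S ⊔ B.orthogonal T := by rw [hSr.sup_eq_top]; trivial
    obtain ⟨a, ha, b, hb, rfl⟩ := mem_sup.1 hv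
    rw [map_add, h a ha, LinearMap.BilinForm.mem_orthogonal_iff.1 hb t ht, add_zero]
  have hr : ∀ s ∈ S, (∀ t ∈ T, B t s = 0) → s = 0 := fun s hs h =>
    Submodule.disjoint_def.1 hSr.disjoint s hs (LinearMap.BilinForm.mem_orthogonal_iff.2 h)
  have hl' : ∀ t ∈ T, (∀ s ∈ S, B s t = 0) → t = 0 := by
    intro t ht h
    apply hB.2
    intro v
    have hv : v ∈ S ⊔ B.flip.orthogonal T := by rw [hSl.sup_eq_top]; trivial
    obtain ⟨a, ha, b, hb, rfl⟩ := mem_sup.1 hv
    rw [map_add, LinearMap.add_apply, h a ha, mem_lperp.1 hb t ht, add_zero]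
  refine ⟨T ⊔ S, le_sup_left, ?_, ?_, C - C.flip, ?_, ?_, ?_⟩
  · intro g x hx
    obtain ⟨a, ha, b, hb, rfl⟩ := mem_sup.1 hx
    rw [map_add]
    exact add_mem (mem_sup_left (hTinv g a ha)) (mem_sup_right (hSI g b hb))
  · intro y hy hall
    obtain ⟨t', ht', s', hs', rfl⟩ := mem_sup.1 hy
    have e1 : s' = 0 := hr s' hs' fun t ht => by
      have := hall t (mem_sup_left ht)
      rwa [map_add, hiso t ht t' ht', zero_add] at this
    subst e1
    have e2 : t' = 0 := hl' t' ht' fun s hs => by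
      have := hall s (mem_sup_right hs)
      rwa [add_zero] at this
    simp [e2]
  · intro x; simp
  · intro g x hx y hy
    obtain ⟨t, ht, s, hs, rfl⟩ := mem_sup.1 hx
    obtain ⟨t', ht', s', hs', rfl⟩ := mem_sup.1 hy
    rw [map_add (ρ g) t s, map_add (ρ g) t' s', key _ (hTinv g t ht) _ (hSI g s hs) _ (hTinv g t' ht')
      _ (hSI g s' hs'), key t ht s hs t' ht' s' hs', hBinv, hBinv]
  · intro x hx hall
    obtain ⟨t, ht, s, hs, rfl⟩ := mem_sup.1 hx
    have e1 : t = 0 := hl t ht fun s' hs' => by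
      have := hall s' (mem_sup_right hs')
      have e := key t ht s hs 0 T.zero_mem s' hs'
      rw [zero_add] at e
      rw [e] at this
      simpa using this
    have e2 : s = 0 := hr s hs fun t' ht' => by
      have := hall t' (mem_sup_left ht')
      have e := key t ht s hs t' ht' 0 S.zero_mem
      rw [add_zero] at e
      rw [e] at this
      simpa using this
    simp [e1, e2]

theorem exists_piece {p : ℕ} [CharP F p] [FiniteDimensional F V] [Nontrivial V] [Finite G]
    (hG : ((Nat.card G : ℕ) : F) ≠ 0)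
    {ρ : Representation F G V} {B : LinearMap.BilinForm F V} (hB : B.Nondegenerate)
    (hBinv : ∀ g x y, B (ρ g x) (ρ g y) = B x y) :
    ∃ P : Submodule F V, P ≠ ⊥ ∧ Inv ρ P ∧ (∀ y ∈ P, (∀ x ∈ P, B x y = 0) → y = 0) ∧
      ∃ alt, Carries alt ρ P ∧ (alt = false → p = 2 → ∀ g, ∀ w ∈ P, ρ g w = w) := by
  obtain ⟨T, hT0, hTinv, hmin⟩ := exists_minimal ρ
  by_cases hiso : ∀ x ∈ T, ∀ y ∈ T, B x y = 0
  · obtain ⟨P, hTP, hPI, hsep, hcar⟩ := piece_isotropic hG hB hBinv hTinv hmin hiso
    refine ⟨P, ?_, hPI, hsep, true, hcar, by simp⟩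
    rintro rfl
    exact hT0 (le_bot_iff.1 hTP)
  · push Not at hiso
    obtain ⟨hsep, hcar⟩ := piece_nonisotropic (p := p) hBinv hTinv hmin hiso
    exact ⟨T, hT0, hTinv, hsep, hcar⟩

theorem concl_of_subsingleton {p : ℕ} [Subsingleton V] (ρ : Representation F G V) : Concl p ρ := by
  refine ⟨⊥, ⊤, isCompl_bot_top, fun _ _ _ => (Submodule.mem_bot F).2 (Subsingleton.elim _ _),
    fun _ _ _ => trivial, ⟨0, fun _ => by simp, by simp, fun _ _ _ => Subsingleton.elim _ _⟩,
    ⟨0, fun _ _ => by simp, by simp, fun _ _ _ => Subsingleton.elim _ _⟩,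
    fun _ _ _ _ => Subsingleton.elim _ _⟩

theorem concl_main {p : ℕ} [CharP F p] [Finite G] (hG : ((Nat.card G : ℕ) : F) ≠ 0) (n : ℕ) :
    ∀ (V : Type w) [AddCommGroup V] [Module F V] [FiniteDimensional F V]
      (ρ : Representation F G V) (B : LinearMap.BilinForm F V), B.Nondegenerate →
      (∀ g x y, B (ρ g x) (ρ g y) = B x y) → finrank F V = n → Concl p ρ := by
  induction n using Nat.strong_induction_on with
  | _ n IH =>
    intro V _ _ _ ρ B hB hBinv hn
    rcases subsingleton_or_nontrivial V with hs | hnt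
    · exact concl_of_subsingleton ρ
    obtain ⟨P, hP0, hPI, hsep, alt, hcar, htriv⟩ := exists_piece (p := p) hG hB hBinv
    set X := B.orthogonal P with hX
    have hXI : Inv ρ X := inv_orth hBinv hPI
    have frX : finrank F X = finrank F V - finrank F P := LinearMap.BilinForm.finrank_orthogonal hB P
    have hPle : finrank F P ≤ finrank F V := Submodule.finrank_le P
    have hPpos : 0 < finrank F P := by
      rw [Nat.pos_iff_ne_zero]
      intro h
      exact hP0 (Submodule.finrank_eq_zero.1 h)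
    have hc : IsCompl P X := by
      rw [Submodule.isCompl_iff_disjoint _ _ (by omega), Submodule.disjoint_def]
      intro y hy hy'
      exact hsep y hy (LinearMap.BilinForm.mem_orthogonal_iff.1 hy')
    have hBX : (B.restrict X).Nondegenerate := by
      apply LinearMap.BilinForm.Nondegenerate.ofSeparatingRight
      intro y hy
      have : (y : V) = 0 := by
        apply hB.2
        intro v
        have hv : v ∈ P ⊔ X := by rw [hc.sup_eq_top]; trivial
        obtain ⟨a, ha, b, hb, rfl⟩ := mem_sup.1 hv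
        rw [map_add, LinearMap.add_apply, LinearMap.BilinForm.mem_orthogonal_iff.1 y.2 a ha, zero_add]
        exact hy ⟨b, hb⟩
      exact Subtype.ext this
    refine Concl.step hc hPI hXI alt hcar htriv (IH _ (by omega) X (subrep ρ X hXI) (B.restrict X) hBX ?_ rfl)
    intro g x y
    exact hBinv g x y

end Main

/-- Let F be a finite field of characteristic p, G a finite group of order prime to p, and V a finite-dimensional representation of G over F carrying a nondegenerate G-invariant bilinear form (equivalently, V is self-dual). Then V is the direct sum of two G-invariant subspaces U and W such that U carries a G-invariant alternating bilinear form that is nondegenerate on U and W carries a G-invariant symmetric bilinear form that is nondegenerate on W; moreover when p = 2 the decomposition can be chosen with G acting trivially on W. -/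
theorem result {F : Type*} [Field F] [Fintype F] (p : ℕ) [Fact p.Prime] [CharP F p] {G : Type*} [Group G] [Finite G] (hcop : ¬ p ∣ Nat.card G) {V : Type*} [AddCommGroup V] [Module F V] [FiniteDimensional F V] (ρ : Representation F G V) (B : LinearMap.BilinForm F V) (hB : B.Nondegenerate) (hBinv : ∀ g : G, ∀ x y : V, B (ρ g x) (ρ g y) = B x y) : ∃ U W : Submodule F V, IsCompl U W ∧ (∀ g : G, ∀ u ∈ U, ρ g u ∈ U) ∧ (∀ g : G, ∀ w ∈ W, ρ g w ∈ W) ∧ (∃ A : LinearMap.BilinForm F V, (∀ x : V, A x x = 0) ∧ (∀ g : G, ∀ x ∈ U, ∀ y ∈ U, A (ρ g x) (ρ g y) = A x y) ∧ (∀ x ∈ U, (∀ y ∈ U, A x y = 0) → x = 0)) ∧ (∃ S : LinearMap.BilinForm F V, (∀ x y : V, S x y = S y x) ∧ (∀ g : G, ∀ x ∈ W, ∀ y ∈ W, S (ρ g x) (ρ g y) = S x y) ∧ (∀ x ∈ W, (∀ y ∈ W, S x y = 0) → x = 0)) ∧ (p = 2 → ∀ g : G, ∀ w ∈ W, ρ g w = w) := by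
  have hG : ((Nat.card G : ℕ) : F) ≠ 0 := by
    intro h
    exact hcop ((CharP.cast_eq_zero_iff F p _).1 h)
  exact concl_main (p := p) hG _ V ρ B hB hBinv rfl

end Cfsg.Agent.S4966
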