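import Cfsg.Statements.S4967
import Mathlib
-- import your own Cfsg.Agent.* helpers here

set_option autoImplicit false
open Cfsg

namespace Cfsg.Agent.S4967

universe u v w

section model

variable {F : Type u} [Field F] [Fintype F] {H : Type w} [CommGroup H] [Finite H]
  {V : Type v} [AddCommGroup V] [Module F V] [FiniteDimensional F V]

lemma exists_model (ρ : Representation F H V) (hfaith : Function.Injective ρ)
    (hirr : ∀ U : Submodule F V, (∀ h : H, ∀ u ∈ U, ρ h u ∈ U) → U = ⊥ ∨ U = ⊤) [Nontrivial V] :
    ∃ (K : Type v) (_ : Field K) (_ : Algebra F K) (ι : H →* Kˣ) (E : K ≃ₗ[F] V),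
      Function.Injective ι ∧ (∀ (h : H) (x : K), E ((ι h : K) * x) = ρ h (E x)) ∧
      Algebra.adjoin F (Set.range (fun h => ((ι h : Kˣ) : K))) = ⊤ := by
  classical
  have hcomm : ∀ a ∈ Set.range ρ, ∀ b ∈ Set.range ρ, a * b = b * a := by
    rintro _ ⟨g, rfl⟩ _ ⟨h, rfl⟩
    rw [← map_mul, ← map_mul, mul_comm]
  let A : Subalgebra F (Module.End F V) := Algebra.adjoin F (Set.range ρ)
  letI cr : CommRing A := Algebra.adjoinCommRingOfComm F hcomm
  have hmem : ∀ h : H, ρ h ∈ A := fun h => Algebra.subset_adjoin ⟨h, rfl⟩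
  have hfinV : Finite V := Module.finite_of_finite F
  have hfinE : Finite (Module.End F V) := Module.finite_of_finite F
  have hfinA : Finite A := Subtype.finite
  have hcm : ∀ (a : A) (h : H) (x : V), (a : Module.End F V) (ρ h x) = ρ h ((a : Module.End F V) x) := by
    intro a h x
    have := congrArg (fun b : A => (b : Module.End F V) x) (mul_comm a (⟨ρ h, hmem h⟩ : A))
    exact this
  have hinj : ∀ a : A, a ≠ 0 → Function.Injective (a : Module.End F V) := by
    intro a ha
    have hU := hirr (LinearMap.ker (a : Module.End F V)) (by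
      intro h u hu
      rw [LinearMap.mem_ker] at hu ⊢
      rw [hcm, hu, map_zero])
    rcases hU with hU | hU
    · exact LinearMap.ker_eq_bot.mp hU
    · exfalso
      apply ha
      apply Subtype.ext
      apply LinearMap.ker_eq_top.mp hU
  obtain ⟨v₀, hv₀⟩ := exists_ne (0 : V)
  have hnzd : NoZeroDivisors A := by
    refine ⟨fun {a b} hab => ?_⟩
    by_contra hne
    push Not at hne
    have h1 := hinj a hne.1
    have h2 := hinj b hne.2
    apply hv₀
    apply h2
    apply h1
    rw [map_zero, map_zero]
    have := congrArg (fun c : A => (c : Module.End F V) v₀) hab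
    exact this
  have hdom : IsDomain A := NoZeroDivisors.to_isDomain A
  letI fld : Field A := (Finite.isField_of_domain A).toField
  let f : H →* A :=
    { toFun := fun h => ⟨ρ h, hmem h⟩
      map_one' := Subtype.ext ρ.map_one
      map_mul' := fun g h => Subtype.ext (ρ.map_mul g h) }
  let L : A →ₗ[F] V := (LinearMap.applyₗ v₀).comp A.val.toLinearMap
  have hLapply : ∀ a : A, L a = (a : Module.End F V) v₀ := fun _ => rfl
  have hbij : Function.Bijective L := by
    constructor
    · intro a b hab
      by_contra hne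
      have h1 := hinj (a - b) (sub_ne_zero.mpr hne)
      apply hv₀
      apply h1
      rw [map_zero]
      change (a : Module.End F V) v₀ - (b : Module.End F V) v₀ = 0
      rw [← hLapply, ← hLapply, hab, sub_self]
    · have hU := hirr (LinearMap.range L) (by
        rintro h _ ⟨a, rfl⟩
        refine ⟨f h * a, ?_⟩
        rfl)
      rcases hU with hU | hU
      · exfalso
        have : L 1 = 0 := by
          have h1 : L 1 ∈ LinearMap.range L := ⟨1, rfl⟩
          rwa [hU] at h1
        exact hv₀ this
      · exact LinearMap.range_eq_top.mp hU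
  refine ⟨A, fld, inferInstance, f.toHomUnits, LinearEquiv.ofBijective L hbij, ?_, ?_, ?_⟩
  · intro g h hgh
    apply hfaith
    have := congrArg (fun u : Aˣ => ((u : A) : Module.End F V)) hgh
    exact this
  · intro h x
    rfl
  · have h2 : (Set.range (fun h => ((f.toHomUnits h : Aˣ) : A))) =
        ((↑) : A → Module.End F V) ⁻¹' (Set.range ρ) := by
      ext a
      constructor
      · rintro ⟨h, rfl⟩
        exact ⟨h, rfl⟩
      · rintro ⟨h, hh⟩
        refine ⟨h, Subtype.ext hh⟩
    rw [h2]
    exact Algebra.adjoin_adjoin_coe_preimage (R := F) (s := Set.range ρ)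

end model

section field

variable {F : Type u} [Field F] [Fintype F] {H : Type w} [CommGroup H] [Finite H]
  {K : Type v} [Field K] [Algebra F K] [Finite K]

lemma frob_pow_apply (i : ℕ) (a : K) :
    (FiniteField.frobeniusAlgHom F K ^ i) a = a ^ (Fintype.card F ^ i) := by
  induction i generalizing a with
  | zero => simp
  | succ i ih =>
    rw [pow_succ, AlgHom.mul_apply, ih]
    change (a ^ Fintype.card F) ^ (Fintype.card F ^ i) = _
    rw [← pow_mul, pow_succ, mul_comm]

theorem forward (ι : H →* Kˣ) (hι : Function.Injective ι)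
    (hgen : Algebra.adjoin F (Set.range (fun h => ((ι h : Kˣ) : K))) = ⊤)
    (hn : 2 ≤ Module.finrank F K) (BK : LinearMap.BilinForm F K) (hB : BK.Nondegenerate)
    (hinv : ∀ (h : H) (x y : K), BK ((ι h : K) * x) ((ι h : K) * y) = BK x y) :
    Even (Module.finrank F K) ∧
      Nat.card H ∣ Fintype.card F ^ (Module.finrank F K / 2) + 1 := by
  classical
  have hfd : FiniteDimensional F K := Module.Finite.of_finite
  have htf : (Algebra.traceForm F K).Nondegenerate := traceForm_nondegenerate F K
  let T : K →ₗ[F] K :=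
    ((Algebra.traceForm F K).toDual htf).symm.toLinearMap.comp BK.flip
  have hT : ∀ x y, Algebra.trace F K (T y * x) = BK x y := by
    intro x y
    have := LinearMap.BilinForm.apply_toDual_symm_apply (B := Algebra.traceForm F K) (hB := htf)
      (BK.flip y) x
    rwa [Algebra.traceForm_apply] at this
  have hTinj : ∀ y, T y = 0 → y = 0 := by
    intro y hy
    apply hB.2
    intro x
    rw [← hT, hy, zero_mul, map_zero]
  have hT1 : T 1 ≠ 0 := fun h => one_ne_zero (hTinj 1 h)
  have hTω : ∀ (h : H) (y : K), T ((ι h : K) * y) = ((ι h)⁻¹ : Kˣ) * T y := by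
    intro h y
    rw [← sub_eq_zero]
    apply htf.1
    intro x
    rw [Algebra.traceForm_apply, sub_mul, map_sub, hT]
    have h1 : Algebra.trace F K (((ι h)⁻¹ : Kˣ) * T y * x) = BK (((ι h)⁻¹ : Kˣ) * x) y := by
      rw [← hT]
      congr 1
      ring
    rw [h1, ← hinv h (((ι h)⁻¹ : Kˣ) * x) y, ← mul_assoc, Units.mul_inv, one_mul, sub_self]
  have hP : ∀ a : K, ∃ b : K, ∀ y, T (a * y) = b * T y := by
    intro a
    have ha : a ∈ Algebra.adjoin F (Set.range (fun h => ((ι h : Kˣ) : K))) := by
      rw [hgen]
      exact Algebra.mem_top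
    induction ha using Algebra.adjoin_induction with
    | mem x hx =>
      obtain ⟨h, rfl⟩ := hx
      exact ⟨((ι h)⁻¹ : Kˣ), hTω h⟩
    | algebraMap c =>
      refine ⟨algebraMap F K c, fun y => ?_⟩
      rw [← Algebra.smul_def, ← Algebra.smul_def, map_smul]
    | add a a' _ _ ih ih' =>
      obtain ⟨b, hb⟩ := ih
      obtain ⟨b', hb'⟩ := ih'
      refine ⟨b + b', fun y => ?_⟩
      rw [add_mul, map_add, hb, hb', add_mul]
    | mul a a' _ _ ih ih' =>
      obtain ⟨b, hb⟩ := ih
      obtain ⟨b', hb'⟩ := ih'
      refine ⟨b * b', fun y => ?_⟩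
      rw [mul_assoc, hb, hb', mul_assoc]
  have hS : ∀ a y, T (a * y) = (T a * (T 1)⁻¹) * T y := by
    intro a y
    obtain ⟨b, hb⟩ := hP a
    have h1 := hb 1
    rw [mul_one] at h1
    rw [hb, h1, mul_inv_cancel_right₀ hT1]
  let S : K →ₐ[F] K :=
    { toFun := fun a => T a * (T 1)⁻¹
      map_one' := mul_inv_cancel₀ hT1
      map_mul' := fun a a' => by
        rw [hS a a', mul_assoc]
      map_zero' := by
        simp
      map_add' := fun a a' => by
        rw [map_add, add_mul]
      commutes' := fun c => by
        have : algebraMap F K c = c • (1 : K) := by rw [Algebra.smul_def, mul_one]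
        rw [this, map_smul, smul_mul_assoc, mul_inv_cancel₀ hT1] }
  have hSapply : ∀ a, S a = T a * (T 1)⁻¹ := fun _ => rfl
  have hSω : ∀ h : H, S (ι h : K) = ((ι h)⁻¹ : Kˣ) := by
    intro h
    have h1 := hTω h 1
    rw [mul_one] at h1
    rw [hSapply, h1, mul_inv_cancel_right₀ hT1]
  have hSS : S * S = 1 := by
    apply AlgHom.ext_of_adjoin_eq_top hgen
    rintro _ ⟨h, rfl⟩
    simp only [AlgHom.mul_apply, AlgHom.one_apply]
    rw [hSω, Units.val_inv_eq_inv_val, map_inv₀, hSω, Units.val_inv_eq_inv_val, inv_inv]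
  obtain ⟨⟨i, hin⟩, hi⟩ := (FiniteField.bijective_frobeniusAlgHom_pow F K).2 S
  simp only at hi
  have hi0 : i ≠ 0 := by
    rintro rfl
    rw [pow_zero] at hi
    have hall : ∀ h : H, ((ι h : Kˣ) : K) ∈ (⊥ : Subalgebra F K) := by
      intro h
      have h1 := hSω h
      rw [← hi, AlgHom.one_apply, Units.val_inv_eq_inv_val] at h1
      have h2 : ((ι h : Kˣ) : K) * (ι h : Kˣ) = 1 := by
        nth_rw 1 [h1]
        exact inv_mul_cancel₀ (Units.ne_zero _)
      have h3 : ((ι h : Kˣ) : K) = 1 ∨ ((ι h : Kˣ) : K) = -1 := mul_self_eq_one_iff.mp h2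
      rcases h3 with h3 | h3
      · rw [h3]
        exact Subalgebra.one_mem _
      · rw [h3]
        exact Subalgebra.neg_mem _ (Subalgebra.one_mem _)
    have hbot : (⊥ : Subalgebra F K) = ⊤ := by
      rw [eq_top_iff, ← hgen, Algebra.adjoin_le_iff]
      rintro _ ⟨h, rfl⟩
      exact hall h
    have := Subalgebra.bot_eq_top_iff_finrank_eq_one.mp hbot
    omega
  have hdvd : Module.finrank F K ∣ 2 * i := by
    rw [← FiniteField.orderOf_frobeniusAlgHom F K]
    apply orderOf_dvd_of_pow_eq_one
    rw [two_mul, pow_add, hi, hSS]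
  have hni : Module.finrank F K = 2 * i := by
    obtain ⟨k, hk⟩ := hdvd
    have hk1 : k = 1 := by
      have h1 : k < 2 := by
        by_contra hk2
        have : Module.finrank F K * 2 ≤ Module.finrank F K * k := Nat.mul_le_mul_left _ (by omega)
        omega
      have h2 : k ≠ 0 := by
        rintro rfl
        omega
      omega
    rw [hk, hk1, mul_one]
  refine ⟨⟨i, by omega⟩, ?_⟩
  have hi2 : Module.finrank F K / 2 = i := by omega
  rw [hi2]
  have hcyc : IsCyclic H :=
    isCyclic_of_injective_ringHom ((Units.coeHom K).comp ι)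
      (fun a b hab => hι (Units.ext hab))
  obtain ⟨g, hg⟩ := IsCyclic.exists_generator (α := H)
  rw [← orderOf_eq_card_of_forall_mem_zpowers hg]
  apply orderOf_dvd_of_pow_eq_one
  apply hι
  apply Units.ext
  rw [map_one, map_pow, Units.val_pow_eq_pow_val, Units.val_one, pow_succ]
  have h1 := hSω g
  rw [← hi, frob_pow_apply, Units.val_inv_eq_inv_val] at h1
  rw [h1]
  exact inv_mul_cancel₀ (Units.ne_zero _)

theorem backward (ι : H →* Kˣ)
    (hev : Even (Module.finrank F K))
    (hdvd : Nat.card H ∣ Fintype.card F ^ (Module.finrank F K / 2) + 1) :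
    ∃ BK : LinearMap.BilinForm F K, BK.Nondegenerate ∧
      ∀ (h : H) (x y : K), BK ((ι h : K) * x) ((ι h : K) * y) = BK x y := by
  classical
  have hfd : FiniteDimensional F K := Module.Finite.of_finite
  have htf : (Algebra.traceForm F K).Nondegenerate := traceForm_nondegenerate F K
  let i := Module.finrank F K / 2
  let τ : K →ₐ[F] K := FiniteField.frobeniusAlgHom F K ^ i
  have hτinj : Function.Injective τ := τ.toRingHom.injective
  have hτsurj : Function.Surjective τ := Finite.surjective_of_injective hτinj
  refine ⟨(Algebra.traceForm F K).compl₂ τ.toLinearMap, ⟨?_, ?_⟩, ?_⟩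
  · intro x hx
    apply htf.1
    intro z
    obtain ⟨y, rfl⟩ := hτsurj z
    exact hx y
  · intro y hy
    apply hτinj
    rw [map_zero]
    apply htf.2
    intro x
    exact hy x
  · intro h x y
    have hω : ((ι h : Kˣ) : K) * τ ((ι h : Kˣ) : K) = 1 := by
      have h1 : τ ((ι h : Kˣ) : K) = ((ι h : Kˣ) : K) ^ (Fintype.card F ^ i) := frob_pow_apply i _
      rw [h1, ← pow_succ']
      have h2 : h ^ (Fintype.card F ^ i + 1) = 1 := by
        obtain ⟨c, hc⟩ := hdvd
        rw [hc, pow_mul, pow_card_eq_one', one_pow]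
      have h3 := congrArg (fun u : H => ((ι u : Kˣ) : K)) h2
      simpa using h3
    simp only [LinearMap.compl₂_apply, Algebra.traceForm_apply, AlgHom.toLinearMap_apply, map_mul]
    rw [show ((ι h : Kˣ) : K) * x * (τ ((ι h : Kˣ) : K) * τ y) =
      (((ι h : Kˣ) : K) * τ ((ι h : Kˣ) : K)) * (x * τ y) by ring, hω, one_mul]

end field

/-- Let F be a finite field with r elements and of characteristic p, H a finite abelian group of order prime to p, and V a faithful irreducible representation of H over F of dimension n (faithful: distinct elements act differently; irreducible: the only H-invariant subspaces are 0 and V). Call V self-dual when it carries a nondegenerate H-invariant bilinear form. If n = 1 and V is self-dual then H has order at most 2. If n ≥ 2 then V is self-dual if and only if n is even and the order of H divides r^(n/2) + 1. -/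
theorem result {F : Type*} [Field F] [Fintype F] (p : ℕ) [Fact p.Prime] [CharP F p] {H : Type*} [CommGroup H] [Finite H] (hcop : ¬ p ∣ Nat.card H) {V : Type*} [AddCommGroup V] [Module F V] [FiniteDimensional F V] (ρ : Representation F H V) (hfaith : Function.Injective ρ) (hirr : ∀ U : Submodule F V, (∀ h : H, ∀ u ∈ U, ρ h u ∈ U) → U = ⊥ ∨ U = ⊤) : (Module.finrank F V = 1 → (∃ B : LinearMap.BilinForm F V, B.Nondegenerate ∧ ∀ h : H, ∀ x y : V, B (ρ h x) (ρ h y) = B x y) → Nat.card H ≤ 2) ∧ (2 ≤ Module.finrank F V → ((∃ B : LinearMap.BilinForm F V, B.Nondegenerate ∧ ∀ h : H, ∀ x y : V, B (ρ h x) (ρ h y) = B x y) ↔ (Even (Module.finrank F V) ∧ Nat.card H ∣ Fintype.card F ^ (Module.finrank F V / 2) + 1))) := by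
  classical
  refine ⟨?_, ?_⟩
  · rintro hn ⟨B, hB, hinv⟩
    have hnt : Nontrivial V := Module.nontrivial_of_finrank_pos (R := F) (by omega)
    obtain ⟨v₀, hv₀⟩ := exists_ne (0 : V)
    have hspan : ∀ x : V, ∃ c : F, c • v₀ = x := (finrank_eq_one_iff_of_nonzero' v₀ hv₀).mp hn
    have hB0 : B v₀ v₀ ≠ 0 := by
      intro h0
      apply hv₀
      apply hB.1
      intro y
      obtain ⟨c, rfl⟩ := hspan y
      rw [map_smul, h0, smul_zero]
    choose χ hχ using fun h : H => hspan (ρ h v₀)
    have hsq : ∀ h, χ h * χ h = 1 := by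
      intro h
      have h1 := hinv h v₀ v₀
      rw [← hχ h] at h1
      simp only [map_smul, LinearMap.smul_apply, smul_eq_mul] at h1
      have h2 : (χ h * χ h - 1) * B v₀ v₀ = 0 := by
        linear_combination h1
      rcases mul_eq_zero.mp h2 with h3 | h3
      · exact sub_eq_zero.mp h3
      · exact absurd h3 hB0
    have hχinj : ∀ h h', χ h = χ h' → h = h' := by
      intro h h' hh
      apply hfaith
      ext x
      obtain ⟨c, rfl⟩ := hspan x
      rw [map_smul, map_smul, ← hχ h, ← hχ h', hh]
    let f : H → Bool := fun h => decide (χ h = 1)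
    have hf : Function.Injective f := by
      intro h h' hh
      apply hχinj
      have h1 : χ h = 1 ↔ χ h' = 1 := by simpa [f] using hh
      by_cases h2 : χ h = 1
      · rw [h2, h1.mp h2]
      · have h3 : χ h' ≠ 1 := fun h4 => h2 (h1.mpr h4)
        have h4 := (mul_self_eq_one_iff.mp (hsq h)).resolve_left h2
        have h5 := (mul_self_eq_one_iff.mp (hsq h')).resolve_left h3
        rw [h4, h5]
    have := Nat.card_le_card_of_injective f hf
    simpa using this
  · intro hn
    have hnt : Nontrivial V := Module.nontrivial_of_finrank_pos (R := F) (by omega)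
    obtain ⟨K, _, _, ι, E, hι, hE, hgen⟩ := exists_model ρ hfaith hirr
    have hfr : Module.finrank F K = Module.finrank F V := E.finrank_eq
    have hfinV : Finite V := Module.finite_of_finite F
    have hfinK : Finite K := Finite.of_equiv V E.symm.toEquiv
    rw [← hfr]
    constructor
    · rintro ⟨B, hB, hinv⟩
      refine forward ι hι hgen (by omega) (LinearMap.BilinForm.congr E.symm B) (hB.congr E.symm) ?_
      intro h x y
      simp only [LinearMap.BilinForm.congr_apply, LinearEquiv.symm_symm]
      rw [hE, hE, hinv]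
    · rintro ⟨hev, hdvd⟩
      obtain ⟨BK, hBK, hinv⟩ := backward ι hev hdvd
      refine ⟨LinearMap.BilinForm.congr E BK, hBK.congr E, ?_⟩
      intro h x y
      have h1 : ∀ z : V, E.symm (ρ h z) = (ι h : K) * E.symm z := by
        intro z
        apply E.injective
        rw [hE, LinearEquiv.apply_symm_apply, LinearEquiv.apply_symm_apply]
      simp only [LinearMap.BilinForm.congr_apply]
      rw [h1, h1, hinv]

end Cfsg.Agent.S4967
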