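import Cfsg.Statements.S5013
import Mathlib
import Cfsg.Agent.Lib.Amalgam.RankOne

set_option autoImplicit false
open Cfsg

namespace Cfsg.Agent.S5013

open Cfsg.Agent.Lib.Amalgam.RankOne

/-- In a rank one group with unipotent subgroups A and B (conjugation written g H g⁻¹), for every non-identity a in A the non-identity b in B with b⁻¹ A b = a⁻¹ B a is unique, every non-identity b in B arises in this way from exactly one such a (so a ↦ b(a) is a bijection between the non-identity elements of A and of B), and no non-identity element of A normalizes B (and vice versa). -/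
theorem result {G : Type*} [Group G] {A B : Subgroup G} (h : Cfsg.IsRankOnePair A B) :
    (∀ a ∈ A, a ≠ 1 → ∃! b : G, b ∈ B ∧ b ≠ 1 ∧ Cfsg.conjBy A b⁻¹ = Cfsg.conjBy B a⁻¹) ∧
    (∀ b ∈ B, b ≠ 1 → ∃! a : G, a ∈ A ∧ a ≠ 1 ∧ Cfsg.conjBy A b⁻¹ = Cfsg.conjBy B a⁻¹) ∧
    A ⊓ Subgroup.normalizer (B : Set G) = ⊥ ∧ B ⊓ Subgroup.normalizer (A : Set G) = ⊥ := by
  refine ⟨?_, ?_, ?_, ?_⟩
  · intro a ha ha1
    obtain ⟨b, hb, hb1, hab⟩ := h.cond_left a ha ha1
    refine ⟨b, ⟨hb, hb1, hab⟩, ?_⟩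
    rintro b' ⟨hb', -, hab'⟩
    have := conjBy_left_inj h (B.inv_mem hb') (B.inv_mem hb) (hab'.trans hab.symm)
    simpa using this
  · intro b hb hb1
    obtain ⟨a, ha, ha1, hab⟩ := h.cond_right b hb hb1
    refine ⟨a, ⟨ha, ha1, hab.symm⟩, ?_⟩
    rintro a' ⟨ha', -, hab'⟩
    have := conjBy_right_inj h (A.inv_mem ha') (A.inv_mem ha) (hab'.symm.trans hab.symm)
    simpa using this
  · rw [eq_bot_iff]
    rintro x ⟨hxA, hxN⟩
    by_contra hx
    exact conjBy_right_ne h hxA hx (mem_normalizer_iff_conjBy.1 hxN)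
  · rw [eq_bot_iff]
    rintro x ⟨hxB, hxN⟩
    by_contra hx
    exact conjBy_left_ne h hxB hx (mem_normalizer_iff_conjBy.1 hxN)

end Cfsg.Agent.S5013
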