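import Cfsg.Statements.S5014
import Mathlib
import Cfsg.Agent.Lib.Amalgam.RankOne

set_option autoImplicit false
open Cfsg

namespace Cfsg.Agent.S5014

open Cfsg.Agent.Lib.Amalgam.RankOne

/-- Let X = ⟨A, B⟩ be a rank one group with unipotent subgroups A and B and let Ω be the set of conjugates of A under X. Then Ω has at least three members, X acts doubly transitively on Ω by conjugation (any two ordered pairs of distinct members are carried to one another by a single element of X), and A acts regularly on Ω with A removed: for C, D in Ω different from A there is exactly one element of A conjugating C to D. -/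
theorem result {G : Type*} [Group G] {A B : Subgroup G} (h : Cfsg.IsRankOnePair A B) :
    (∃ C₁ ∈ Cfsg.unipotentSubgroups A B, ∃ C₂ ∈ Cfsg.unipotentSubgroups A B, ∃ C₃ ∈ Cfsg.unipotentSubgroups A B,
      C₁ ≠ C₂ ∧ C₁ ≠ C₃ ∧ C₂ ≠ C₃) ∧
    (∀ C₁ ∈ Cfsg.unipotentSubgroups A B, ∀ C₂ ∈ Cfsg.unipotentSubgroups A B, ∀ D₁ ∈ Cfsg.unipotentSubgroups A B,
      ∀ D₂ ∈ Cfsg.unipotentSubgroups A B, C₁ ≠ C₂ → D₁ ≠ D₂ →
        ∃ x ∈ A ⊔ B, Cfsg.conjBy C₁ x = D₁ ∧ Cfsg.conjBy C₂ x = D₂) ∧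
    (∀ C ∈ Cfsg.unipotentSubgroups A B, ∀ D ∈ Cfsg.unipotentSubgroups A B, C ≠ A → D ≠ A →
      ∃! a : G, a ∈ A ∧ Cfsg.conjBy C a = D) := by
  refine ⟨?_, ?_, ?_⟩
  · obtain ⟨a, ha, ha1⟩ := exists_ne_one_left h
    have h3 : conjBy B a ∈ Cfsg.unipotentSubgroups A B := (mem_unipotent_iff h).2 (Or.inr ⟨a, ha, rfl⟩)
    refine ⟨A, left_mem_unipotent, B, right_mem_unipotent h, _, h3, h.ne, ?_, ?_⟩
    · intro hc
      have h4 := conjBy_eq_iff.1 hc.symm
      rw [conjBy_eq_self (A.inv_mem ha)] at h4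
      exact h.ne h4.symm
    · exact (conjBy_right_ne h ha ha1).symm
  · intro C₁ h₁ C₂ h₂ D₁ h₃ D₂ h₄ hC hD
    exact doubly_transitive h h₁ h₂ h₃ h₄ hC hD
  · intro C hC D hD hCA hDA
    rw [mem_unipotent_iff h] at hC hD
    rcases hC with hC | ⟨a₁, ha₁, rfl⟩
    · exact absurd hC hCA
    rcases hD with hD | ⟨a₂, ha₂, rfl⟩
    · exact absurd hD hDA
    refine ⟨a₂ * a₁⁻¹, ⟨A.mul_mem ha₂ (A.inv_mem ha₁), ?_⟩, ?_⟩
    · rw [conjBy_conjBy]; simp
    · rintro a ⟨ha, hac⟩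
      rw [conjBy_conjBy] at hac
      have := conjBy_right_inj h (A.mul_mem ha ha₁) ha₂ hac
      rw [← this]; group

end Cfsg.Agent.S5014
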