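import Cfsg.Statements.S5015
import Mathlib
import Cfsg.Agent.Lib.Amalgam.RankOne

set_option autoImplicit false
open Cfsg

namespace Cfsg.Agent.S5015

open Cfsg.Agent.Lib.Amalgam.RankOne

/-- Let a group Y act doubly transitively on a set Ω with at least three points, and suppose that the stabilizer of a point α contains a nilpotent subgroup A, normalized by that stabilizer, which acts regularly on the points other than α. Then for any y in Y moving α, the subgroups A and y A y⁻¹ are the unipotent subgroups of a rank one group, and the normal closure of A in Y (the subgroup generated by all conjugates of A) is generated by A and y A y⁻¹ alone. -/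
theorem result {Y Ω : Type*} [Group Y] [MulAction Y Ω]
    (h2 : MulAction.IsMultiplyPretransitive Y Ω 2) (hΩ : 3 ≤ ENat.card Ω) (α : Ω) (A : Subgroup Y)
    (hA : A ≤ MulAction.stabilizer Y α) (hAn : ∀ y ∈ MulAction.stabilizer Y α, Cfsg.conjBy A y = A)
    (hnil : Group.IsNilpotent A) (hreg : ∀ β γ : Ω, β ≠ α → γ ≠ α → ∃! a : Y, a ∈ A ∧ a • β = γ)
    (y : Y) (hy : y ∉ MulAction.stabilizer Y α) :
    Cfsg.IsRankOnePair A (Cfsg.conjBy A y) ∧ Subgroup.normalClosure (A : Set Y) = A ⊔ Cfsg.conjBy A y := by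
  obtain ⟨β, hβd⟩ : ∃ β, β = y • α := ⟨_, rfl⟩
  have hβ : β ≠ α := by
    rw [hβd]
    exact fun h => hy (MulAction.mem_stabilizer_iff.2 h)
  have hAfix : ∀ a ∈ A, a • α = α := fun a ha => MulAction.mem_stabilizer_iff.1 (hA ha)
  have hfree : ∀ a ∈ A, ∀ δ : Ω, δ ≠ α → a • δ = δ → a = 1 := fun a ha δ hδ h =>
    (hreg δ δ hδ hδ).unique ⟨ha, h⟩ ⟨A.one_mem, one_smul _ _⟩
  have hwd : ∀ g g' : Y, g • α = g' • α → conjBy A g = conjBy A g' := by
    intro g g' h
    have hs : g⁻¹ * g' ∈ MulAction.stabilizer Y α := by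
      rw [MulAction.mem_stabilizer_iff, mul_smul, ← h, inv_smul_smul]
    have e : g' = g * (g⁻¹ * g') := by group
    rw [e, ← conjBy_conjBy, hAn _ hs]
  have hAtrans : ∀ δ γ : Ω, δ ≠ α → γ ≠ α → ∃ a ∈ A, a • δ = γ := fun δ γ h1 h2 => by
    obtain ⟨a, ⟨ha, hae⟩, -⟩ := hreg δ γ h1 h2
    exact ⟨a, ha, hae⟩
  -- the partner
  have hBmem : ∀ b ∈ conjBy A y, y⁻¹ * b * y ∈ A := fun b hb => mem_conjBy.1 hb
  have hBfix : ∀ b ∈ conjBy A y, b • β = β := by
    intro b hb
    have := hAfix _ (hBmem b hb)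
    rw [hβd]
    have e : b • y • α = y • ((y⁻¹ * b * y) • α) := by
      simp [mul_smul]
    rw [e, this]
  have hBtrans : ∀ δ γ : Ω, δ ≠ β → γ ≠ β → ∃ b ∈ conjBy A y, b • δ = γ := by
    intro δ γ h1 h2
    have h1' : y⁻¹ • δ ≠ α := by
      intro hc
      apply h1
      rw [hβd, ← hc, smul_inv_smul]
    have h2' : y⁻¹ • γ ≠ α := by
      intro hc
      apply h2
      rw [hβd, ← hc, smul_inv_smul]
    obtain ⟨a, ha, hae⟩ := hAtrans _ _ h1' h2'
    refine ⟨y * a * y⁻¹, conj_mem_conjBy ha, ?_⟩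
    rw [mul_smul, mul_smul, hae, smul_inv_smul]
  have hBfree : ∀ b ∈ conjBy A y, ∀ δ : Ω, δ ≠ β → b • δ = δ → b = 1 := by
    intro b hb δ hδ h
    have h1' : y⁻¹ • δ ≠ α := by
      intro hc
      apply hδ
      rw [hβd, ← hc, smul_inv_smul]
    have h2 : (y⁻¹ * b * y) • (y⁻¹ • δ) = y⁻¹ • δ := by
      simp [mul_smul, h]
    have h3 := hfree _ (hBmem b hb) _ h1' h2
    have e : b = y * (y⁻¹ * b * y) * y⁻¹ := by group
    rw [e, h3]; group
  have hconjB : ∀ g : Y, conjBy (conjBy A y) g = conjBy A (g * y) := fun g => conjBy_conjBy _ _ _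
  -- X is transitive
  have hne : A ≠ conjBy A y := by
    intro he
    obtain ⟨γ, h1, h2⟩ := ENat.exists_ne_ne_of_three_le hΩ α β
    obtain ⟨b, hb, hbe⟩ := hBtrans α γ hβ.symm h2
    have : b • α = α := hAfix b (by rw [he]; exact hb)
    rw [this] at hbe
    exact h1 hbe.symm
  refine ⟨⟨hne, hnil, isNilpotent_conjBy hnil y, ?_, ?_⟩, ?_⟩
  · intro a ha ha1
    have h1 : a⁻¹ • β ≠ β := by
      intro hc
      have : a⁻¹ = 1 := hfree _ (A.inv_mem ha) β hβ hc
      exact ha1 (by simpa using this)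
    obtain ⟨b', hb', hb'e⟩ := hBtrans α (a⁻¹ • β) hβ.symm h1
    refine ⟨b'⁻¹, (conjBy A y).inv_mem hb', ?_, ?_⟩
    · intro hc
      have hb1 : b' = 1 := by simpa using hc
      rw [hb1, one_smul] at hb'e
      apply hβ
      have h3 : a • α = α := hAfix a ha
      have h4 : a • α = β := by rw [hb'e, smul_inv_smul]
      exact h4.symm.trans h3
    · rw [hconjB, inv_inv]
      apply hwd
      rw [hb'e, mul_smul, ← hβd]
  · intro b hb hb1
    have h1 : b⁻¹ • α ≠ α := by
      intro hc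
      have : b⁻¹ = 1 := hBfree _ ((conjBy A y).inv_mem hb) α hβ.symm hc
      exact hb1 (by simpa using this)
    obtain ⟨a', ha', ha'e⟩ := hAtrans β (b⁻¹ • α) hβ h1
    refine ⟨a'⁻¹, A.inv_mem ha', ?_, ?_⟩
    · intro hc
      have ha1 : a' = 1 := by simpa using hc
      rw [ha1, one_smul] at ha'e
      apply hβ
      have h3 : b • β = β := hBfix b hb
      have h4 : b • β = α := by rw [ha'e, smul_inv_smul]
      exact h3.symm.trans h4
    · rw [hconjB, inv_inv]
      apply hwd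
      rw [mul_smul, ← hβd, ha'e]
  · -- normal closure
    have hXt : ∀ γ : Ω, ∃ x ∈ A ⊔ conjBy A y, x • α = γ := by
      intro γ
      by_cases h1 : γ = β
      · obtain ⟨δ, h2, h3⟩ := ENat.exists_ne_ne_of_three_le hΩ α β
        obtain ⟨a, ha, hae⟩ := hAtrans β δ hβ h2
        obtain ⟨b, hb, hbe⟩ := hBtrans α δ hβ.symm h3
        refine ⟨a⁻¹ * b, (A ⊔ conjBy A y).mul_mem
          ((le_sup_left : A ≤ A ⊔ conjBy A y) (A.inv_mem ha)) ((le_sup_right : conjBy A y ≤ A ⊔ conjBy A y) hb), ?_⟩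
        rw [mul_smul, hbe, ← hae, inv_smul_smul, h1]
      · obtain ⟨b, hb, hbe⟩ := hBtrans α γ hβ.symm h1
        exact ⟨b, (le_sup_right : conjBy A y ≤ A ⊔ conjBy A y) hb, hbe⟩
    apply le_antisymm
    · rw [Subgroup.normalClosure, Subgroup.closure_le]
      intro z hz
      obtain ⟨a, ha, hc⟩ := Group.mem_conjugatesOfSet_iff.1 hz
      obtain ⟨g, rfl⟩ := isConj_iff.1 hc
      obtain ⟨x, hx, hxe⟩ := hXt (g • α)
      have h2 : conjBy A g = conjBy A x := (hwd _ _ hxe).symm
      have h3 : g * a * g⁻¹ ∈ conjBy A x := by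
        rw [← h2]
        exact conj_mem_conjBy ha
      rw [mem_conjBy] at h3
      have e : g * a * g⁻¹ = x * (x⁻¹ * (g * a * g⁻¹) * x) * x⁻¹ := by group
      show g * a * g⁻¹ ∈ A ⊔ conjBy A y
      rw [e]
      exact (A ⊔ conjBy A y).mul_mem ((A ⊔ conjBy A y).mul_mem hx ((le_sup_left : A ≤ A ⊔ conjBy A y) h3))
        ((A ⊔ conjBy A y).inv_mem hx)
    · apply sup_le
      · exact Subgroup.le_normalClosure
      · intro z hz
        obtain ⟨a, ha, rfl⟩ := hz
        have : (Subgroup.normalClosure (A : Set Y)).Normal := Subgroup.normalClosure_normal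
        exact this.conj_mem a (Subgroup.le_normalClosure ha) y

end Cfsg.Agent.S5015
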