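import Cfsg.Statements.S5017
import Mathlib
import Cfsg.Agent.Lib.Amalgam.RankOne

set_option autoImplicit false
open Cfsg

namespace Cfsg.Agent.S5017

open Cfsg.Agent.Lib.Amalgam.RankOne

/-- Let X be a rank one group with unipotent subgroups A and B and N a normal subgroup of X. Then either X = N A or N lies in the centre of X. Consequently a perfect rank one group is quasisimple. -/
theorem result {X : Type*} [Group X] {A B : Subgroup X} (h : Cfsg.IsRankOneGroup X A B) :
    (∀ N : Subgroup X, N.Normal → N ⊔ A = ⊤ ∨ N ≤ Subgroup.center X) ∧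
    (Group.IsPerfect X → Cfsg.IsQuasisimple X) := by
  obtain ⟨htop, hp⟩ := h
  have hN : ∀ N : Subgroup X, N.Normal → N ⊔ A = ⊤ ∨ N ≤ Subgroup.center X := by
    intro N hNn
    have hd := normal_dichotomy hp (N := N) (by rw [htop]; exact le_top)
      (fun x _ n hn => hNn.conj_mem n hn x)
    rcases hd with hd | hd
    · left; rw [hd, htop]
    · right
      intro n hn
      rw [Subgroup.mem_center_iff]
      intro x
      exact (hd n hn x (by rw [htop]; trivial)).symm
  refine ⟨hN, fun hperf => ⟨hperf, ?_⟩⟩
  -- non-triviality
  have hnt : Nontrivial (X ⧸ Subgroup.center X) := by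
    by_contra hc
    rw [not_nontrivial_iff_subsingleton] at hc
    obtain ⟨a, ha, ha1⟩ := exists_ne_one_left hp
    obtain ⟨b, hb, hb1⟩ := exists_ne_one_right hp
    have h1 : a ∈ Subgroup.center X := by
      rw [← QuotientGroup.eq_one_iff]
      exact Subsingleton.elim _ _
    exact ha1 (eq_one_of_comm hp ha hb hb1 (Subgroup.mem_center_iff.1 h1 b).symm)
  refine @IsSimpleGroup.mk _ _ hnt ?_
  intro N' hN'
  set N : Subgroup X := N'.comap (QuotientGroup.mk' (Subgroup.center X)) with hNdef
  have hNn : N.Normal := hN'.comap _
  rcases hN N hNn with hNA | hNZ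
  · -- the quotient by N is nilpotent and perfect, so trivial
    right
    have hNtop : N = ⊤ := by
      -- X/N is the image of A
      let π : X →* X ⧸ N := QuotientGroup.mk' N
      let f : A →* X ⧸ N := π.comp A.subtype
      have hf : Function.Surjective f := by
        intro y
        obtain ⟨x, rfl⟩ := QuotientGroup.mk'_surjective N y
        have hx : x ∈ N ⊔ A := by rw [hNA]; trivial
        have hx' : x ∈ ((N ⊔ A : Subgroup X) : Set X) := hx
        rw [Subgroup.normal_mul] at hx'
        obtain ⟨n, hn, a, ha, rfl⟩ := Set.mem_mul.1 hx'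
        refine ⟨⟨a, ha⟩, ?_⟩
        show π a = π (n * a)
        rw [map_mul]
        have : π n = 1 := (QuotientGroup.eq_one_iff n).2 hn
        rw [this, one_mul]
      haveI : Group.IsNilpotent A := hp.nilpotent_left
      have hnil : Group.IsNilpotent (X ⧸ N) := Group.nilpotent_of_surjective f hf
      have hperfQ : Group.IsPerfect (X ⧸ N) := inferInstance
      have htriv : Subsingleton (X ⧸ N) := by
        by_contra hc
        rw [not_subsingleton_iff_nontrivial] at hc
        exact (Group.IsPerfect.not_isNilpotent (G := X ⧸ N)) hnil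
      rw [eq_top_iff]
      intro x _
      rw [← QuotientGroup.eq_one_iff]
      exact Subsingleton.elim _ _
    rw [eq_top_iff]
    intro y _
    obtain ⟨x, rfl⟩ := QuotientGroup.mk'_surjective (Subgroup.center X) y
    have : x ∈ N := by rw [hNtop]; trivial
    exact this
  · left
    rw [eq_bot_iff]
    intro y hy
    obtain ⟨x, rfl⟩ := QuotientGroup.mk'_surjective (Subgroup.center X) y
    have : x ∈ N := hy
    have h2 := hNZ this
    exact (QuotientGroup.eq_one_iff x).2 h2

end Cfsg.Agent.S5017
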