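import Cfsg.Statements.S5022
import Mathlib
import Cfsg.Agent.Lib.Chevalley.SL2Hom
import Cfsg.Agent.Lib.Components.SpecialGroup
import Cfsg.Agent.S5013
import Cfsg.Agent.S5016
import Cfsg.Agent.S5017

set_option autoImplicit false
open Cfsg

namespace Cfsg.Agent.S5022

open Cfsg.Agent.Lib.Chevalley.SL2Hom

section abstract

variable {p : ℕ} [hp : Fact p.Prime] {G : Type*} [Group G] {x y : ZMod p → G}

/-- The relations available in a special rank one group. -/
structure Pre (x y : ZMod p → G) : Prop where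
  addx : ∀ s t, x s * x t = x (s + t)
  addy : ∀ s t, y s * y t = y (s + t)
  braid : ∀ t : ZMod p, t ≠ 0 → w x y t = y (-t⁻¹) * x t * y (-t⁻¹)
  conj : ∀ t : ZMod p, t ≠ 0 → ∀ r, w x y t * x r * (w x y t)⁻¹ = y (-(r * (t * t)⁻¹))

variable (P : Pre x y)
include P

theorem pre_x_zero : x (0 : ZMod p) = 1 := by
  have := P.addx 0 0
  rw [add_zero] at this
  exact mul_eq_left.mp this

theorem pre_y_zero : y (0 : ZMod p) = 1 := by
  have := P.addy 0 0
  rw [add_zero] at this
  exact mul_eq_left.mp this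

theorem pre_x_neg (a : ZMod p) : x (-a) = (x a)⁻¹ := by
  symm
  apply inv_eq_of_mul_eq_one_right
  rw [P.addx, add_neg_cancel, pre_x_zero P]

theorem pre_y_neg (a : ZMod p) : y (-a) = (y a)⁻¹ := by
  symm
  apply inv_eq_of_mul_eq_one_right
  rw [P.addy, add_neg_cancel, pre_y_zero P]

theorem pre_w_neg (t : ZMod p) : w x y (-t) = (w x y t)⁻¹ := by
  simp only [w, _root_.mul_inv_rev, pre_x_neg P, pre_y_neg P, inv_neg, neg_neg, inv_inv, mul_assoc]

/-- conjugation of `y`. -/
theorem pre_yconj {t : ZMod p} (ht : t ≠ 0) (r : ZMod p) :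
    w x y t * y r * (w x y t)⁻¹ = x (-(t * t * r)) := by
  have h := P.conj (-t) (neg_ne_zero.mpr ht) (-(t * t * r))
  rw [pre_w_neg P, inv_inv] at h
  have e : -(-(t * t * r) * (-t * -t)⁻¹) = r := by
    field_simp
  rw [e] at h
  have h2 : x (-(t * t * r)) = w x y t * y r * (w x y t)⁻¹ := by
    rw [← h]; group
  exact h2.symm

theorem pre_w_mul_x {t : ZMod p} (ht : t ≠ 0) (r : ZMod p) :
    w x y t * x r = y (-(r * (t * t)⁻¹)) * w x y t := by
  rw [← P.conj t ht r]; group

theorem pre_w_mul_y {t : ZMod p} (ht : t ≠ 0) (r : ZMod p) :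
    w x y t * y r = x (-(t * t * r)) * w x y t := by
  rw [← pre_yconj P ht r]; group

/-- `y(-1/u)` in terms of `w`. -/
theorem pre_y_eq (u : ZMod p) : y (-u⁻¹) = x (-u) * w x y u * x (-u) := by
  simp only [w, pre_x_neg P]; group

/-- The basic identity. -/
theorem pre_basic {u v : ZMod p} (hu : u ≠ 0) (hv : v ≠ 0) (huv : u + v ≠ 0) :
    w x y u * w x y v = w x y (u * u * (u + v)⁻¹) * w x y (u * v * (u + v)⁻¹) := by
  set κ := u * u * (u + v)⁻¹ with hκ
  set τ := u * v * (u + v)⁻¹ with hτ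
  set l := v * v * (u + v)⁻¹ with hl
  have hκ0 : κ ≠ 0 := by
    rw [hκ]; exact mul_ne_zero (mul_ne_zero hu hu) (inv_ne_zero huv)
  have hτ0 : τ ≠ 0 := by
    rw [hτ]; exact mul_ne_zero (mul_ne_zero hu hv) (inv_ne_zero huv)
  have e1 : y (-u⁻¹) * y (-v⁻¹) = y (-τ⁻¹) := by
    rw [P.addy]
    congr 1
    rw [hτ]
    field_simp
    ring
  rw [pre_y_eq P u, pre_y_eq P v, pre_y_eq P τ] at e1
  -- `w u * x(-(u+v)) * w v = x κ * w τ * x l`
  have e2 : w x y u * x (-(u + v)) * w x y v = x κ * w x y τ * x l := by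
    have e3 : x (-(u + v)) = x (-u) * x (-v) := by rw [P.addx]; congr 1; ring
    have e4 : x κ = x u * x (-τ) := by
      rw [P.addx]; congr 1; rw [hκ, hτ]; field_simp; ring
    have e5 : x l = x (-τ) * x v := by
      rw [P.addx]; congr 1; rw [hl, hτ]; field_simp; ring
    rw [e3, e4, e5]
    calc w x y u * (x (-u) * x (-v)) * w x y v
        = x u * (x (-u) * w x y u * x (-u) * (x (-v) * w x y v * x (-v))) * x v := by
          simp only [pre_x_neg P]; group
      _ = x u * (x (-τ) * w x y τ * x (-τ)) * x v := by rw [e1]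
      _ = _ := by group
  rw [pre_w_mul_x P hu] at e2
  have e6 : -(-(u + v) * (u * u)⁻¹) = -(-κ⁻¹) := by
    rw [hκ]; field_simp
  rw [e6, pre_y_neg P (-κ⁻¹)] at e2
  -- `y (-κ⁻¹) * x κ = x (-κ) * w κ`
  have e7 : y (-κ⁻¹) * x κ = x (-κ) * w x y κ := by
    simp only [w, pre_x_neg P]; group
  have e8 : w x y u * w x y v = x (-κ) * w x y κ * w x y τ * x l := by
    calc w x y u * w x y v = y (-κ⁻¹) * ((y (-κ⁻¹))⁻¹ * w x y u * w x y v) := by group
      _ = y (-κ⁻¹) * (x κ * w x y τ * x l) := by rw [e2]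
      _ = (y (-κ⁻¹) * x κ) * w x y τ * x l := by group
      _ = _ := by rw [e7]
  -- `w κ * w τ * x l = x κ * w κ * w τ`
  have e9 : w x y κ * (w x y τ * x l) = x κ * (w x y κ * w x y τ) := by
    rw [pre_w_mul_x P hτ0, ← mul_assoc, pre_w_mul_y P hκ0, mul_assoc]
    congr 2
    rw [hκ, hτ, hl]
    field_simp
  rw [e8]
  calc x (-κ) * w x y κ * w x y τ * x l = x (-κ) * (w x y κ * (w x y τ * x l)) := by group
    _ = x (-κ) * (x κ * (w x y κ * w x y τ)) := by rw [e9]
    _ = _ := by rw [pre_x_neg P]; group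


/-- the product of two Weyl elements, on units. -/
def HH (x y : ZMod p → G) (u v : (ZMod p)ˣ) : G := w x y (u : ZMod p) * w x y (v : ZMod p)

omit P in
theorem HH_def (u v : (ZMod p)ˣ) : HH x y u v = w x y (u : ZMod p) * w x y (v : ZMod p) := rfl

/-- the invariance group of the ratio `ρ`. -/
def TT (P : Pre x y) (ρ : (ZMod p)ˣ) : Subgroup (ZMod p)ˣ where
  carrier := {f | ∀ v : (ZMod p)ˣ, HH x y (f * ρ * v) (f * v) = HH x y (ρ * v) v}
  one_mem' := by
    intro v
    simp
  mul_mem' := by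
    intro f f' hf hf' v
    have h1 := hf' (f * v)
    have h2 := hf v
    have e1 : f * f' * ρ * v = f' * ρ * (f * v) := by
      simp only [mul_comm, mul_left_comm]
    have e2 : f * f' * v = f' * (f * v) := by
      simp only [mul_comm, mul_left_comm]
    have e3 : ρ * (f * v) = f * ρ * v := by
      simp only [mul_comm, mul_left_comm]
    rw [e1, e2, h1, e3, h2]
  inv_mem' := by
    intro f hf v
    have h1 := hf (f⁻¹ * v)
    have e1 : f * ρ * (f⁻¹ * v) = ρ * v := by
      rw [mul_comm f ρ, mul_assoc, mul_inv_cancel_left]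
    have e2 : f * (f⁻¹ * v) = v := by simp
    have e3 : ρ * (f⁻¹ * v) = f⁻¹ * ρ * v := by
      simp only [mul_comm, mul_left_comm]
    rw [e1, e2, e3] at h1
    exact h1.symm

/-- `HH` of negatives is the inverse. -/
theorem HH_neg (u v : (ZMod p)ˣ) : HH x y (-v) (-u) = (HH x y u v)⁻¹ := by
  simp only [HH_def, Units.val_neg, pre_w_neg P, _root_.mul_inv_rev]

/-- `ρ / (1 + ρ)` and `1 / (1 + ρ)` lie in `TT ρ`. -/
theorem TT_pair {ρ e : (ZMod p)ˣ} (he : (e : ZMod p) = (ρ : ZMod p) + 1) :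
    ρ ∈ TT P ρ ∧ e ∈ TT P ρ := by
  have hρ0 : (ρ : ZMod p) ≠ 0 := ρ.ne_zero
  have he0 : (e : ZMod p) ≠ 0 := e.ne_zero
  have h1 : ρ * e⁻¹ ∈ TT P ρ := by
    intro v
    have hv0 : (v : ZMod p) ≠ 0 := v.ne_zero
    have huv : (ρ : ZMod p) * v + v ≠ 0 := by
      have : (ρ : ZMod p) * v + v = e * v := by rw [he]; ring
      rw [this]; exact mul_ne_zero he0 hv0
    have h := pre_basic P (mul_ne_zero hρ0 hv0) hv0 huv
    simp only [HH_def, Units.val_mul, Units.val_inv_eq_inv_val]
    rw [h]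
    congr 2
    · have : (ρ : ZMod p) * v + v = e * v := by rw [he]; ring
      rw [this]; field_simp
    · have : (ρ : ZMod p) * v + v = e * v := by rw [he]; ring
      rw [this]; field_simp
  have h2 : e⁻¹ ∈ TT P ρ := by
    intro v
    have hv0 : (v : ZMod p) ≠ 0 := v.ne_zero
    have huv : (-(v : ZMod p)) + -(ρ * v) ≠ 0 := by
      have : (-(v : ZMod p)) + -(ρ * v) = -(e * v) := by rw [he]; ring
      rw [this]; exact neg_ne_zero.mpr (mul_ne_zero he0 hv0)
    have h := pre_basic P (neg_ne_zero.mpr hv0) (neg_ne_zero.mpr (mul_ne_zero hρ0 hv0)) huv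
    have h3 : (HH x y (ρ * v) v)⁻¹ = (HH x y (e⁻¹ * ρ * v) (e⁻¹ * v))⁻¹ := by
      rw [← HH_neg P, ← HH_neg P]
      simp only [HH_def, Units.val_mul, Units.val_neg, Units.val_inv_eq_inv_val]
      rw [h]
      congr 2
      · have : (-(v : ZMod p)) + -(ρ * v) = -(e * v) := by rw [he]; ring
        rw [this]; field_simp
      · have : (-(v : ZMod p)) + -(ρ * v) = -(e * v) := by rw [he]; ring
        rw [this]; field_simp
    exact (inv_injective h3).symm
  constructor
  · have := (TT P ρ).mul_mem h1 ((TT P ρ).inv_mem h2)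
    simpa using this
  · have := (TT P ρ).inv_mem h2
    simpa using this

/-- `TT (-1)` is everything. -/
theorem TT_neg_one : TT P (-1) = ⊤ := by
  rw [eq_top_iff]
  intro f _ v
  have h : ∀ t : (ZMod p)ˣ, HH x y (-t) t = 1 := by
    intro t
    simp only [HH_def, Units.val_neg, pre_w_neg P, inv_mul_cancel]
  have e1 : f * -1 * v = -(f * v) := by simp
  have e2 : (-1 : (ZMod p)ˣ) * v = -v := by simp
  rw [e1, e2, h, h]

/-- cocycle. -/
theorem TT_cocycle {ρ₁ ρ₂ f : (ZMod p)ˣ} (h1 : f ∈ TT P ρ₁) (h2 : f ∈ TT P ρ₂) :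
    f ∈ TT P (-(ρ₁ * ρ₂)) := by
  intro v
  have key : ∀ t : (ZMod p)ˣ, HH x y (-(ρ₁ * ρ₂) * t) t = HH x y (ρ₁ * (-(ρ₂ * t))) (-(ρ₂ * t)) *
      HH x y (ρ₂ * t) t := by
    intro t
    simp only [HH_def, Units.val_mul, Units.val_neg, pre_w_neg P]
    have e1 : -((ρ₁ : ZMod p) * ρ₂) * t = ρ₁ * -(ρ₂ * t) := by ring
    rw [e1]
    group
  have e0 : f * -(ρ₁ * ρ₂) * v = -(ρ₁ * ρ₂) * (f * v) := by
    simp only [mul_neg, mul_comm, mul_left_comm]
  rw [e0, key, key]
  have h3 := h1 (-(ρ₂ * v))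
  have h4 := h2 v
  have e2 : f * ρ₁ * -(ρ₂ * v) = ρ₁ * -(ρ₂ * (f * v)) := by
    simp only [mul_neg, mul_comm, mul_left_comm]
  have e3 : f * -(ρ₂ * v) = -(ρ₂ * (f * v)) := by
    simp only [mul_neg, mul_left_comm]
  have e4 : f * ρ₂ * v = ρ₂ * (f * v) := by
    simp only [mul_comm, mul_left_comm]
  rw [e2, e3] at h3
  rw [e4] at h4
  rw [h3, h4]


theorem TT_top_of_gen {g ρ : (ZMod p)ˣ} (hg : ∀ z : (ZMod p)ˣ, z ∈ Subgroup.zpowers g)
    (h : g ∈ TT P ρ) : TT P ρ = ⊤ := by
  rw [eq_top_iff]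
  intro z _
  obtain ⟨n, rfl⟩ := hg z
  exact (TT P ρ).zpow_mem h n

theorem TT_mul_top {ρ₁ ρ₂ : (ZMod p)ˣ} (h1 : TT P ρ₁ = ⊤) (h2 : TT P ρ₂ = ⊤) :
    TT P (-(ρ₁ * ρ₂)) = ⊤ := by
  rw [eq_top_iff]
  intro f _
  exact TT_cocycle P (by rw [h1]; trivial) (by rw [h2]; trivial)

theorem TT_pow_top {r : (ZMod p)ˣ} (h : TT P (-r) = ⊤) (n : ℕ) : TT P (-(r ^ n)) = ⊤ := by
  induction n with
  | zero => simpa using TT_neg_one P
  | succ k ih =>
    have := TT_mul_top P ih h
    have e : -(-r ^ k * -r) = -(r ^ (k + 1)) := by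
      rw [pow_succ]; simp
    rw [e] at this
    exact this

/-- all invariance groups are everything. -/
theorem TT_top (ρ : (ZMod p)ˣ) : TT P ρ = ⊤ := by
  classical
  obtain ⟨g, hg⟩ := IsCyclic.exists_generator (α := (ZMod p)ˣ)
  have hpow : ∀ z : (ZMod p)ˣ, ∃ n : ℕ, g ^ n = z := by
    intro z
    have h := (mem_powers_iff_mem_zpowers (x := g) (y := z)).mpr (hg z)
    exact h
  -- `g`
  have hPg : TT P g = ⊤ := by
    by_cases hg1 : (g : ZMod p) + 1 = 0
    · have : g = -1 := by
        apply Units.ext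
        simp only [Units.val_neg, Units.val_one]
        exact eq_neg_of_add_eq_zero_left hg1
      rw [this]; exact TT_neg_one P
    · exact TT_top_of_gen P hg (TT_pair P (e := Units.mk0 _ hg1) rfl).1
  have hPg' : TT P (-(-g)) = ⊤ := by simpa using hPg
  have hsq : ∀ k : ℕ, TT P (-(g ^ (2 * k))) = ⊤ := by
    intro k
    have := TT_pow_top P hPg' (2 * k)
    rw [(by rw [pow_mul, pow_mul]; simp : (-g) ^ (2 * k) = g ^ (2 * k))] at this
    exact this
  -- squares lie below `T 1`
  have hle : ∀ k : ℕ, TT P (g ^ (2 * k)) ≤ TT P 1 := by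
    intro k f hf
    have h1 : ∃ k' : ℕ, (g ^ (2 * k))⁻¹ = g ^ (2 * k') := by
      have h2 : (g ^ (2 * k))⁻¹ ∈ Subgroup.zpowers (g ^ 2) := by
        refine Subgroup.inv_mem _ ?_
        rw [pow_mul]
        exact Subgroup.pow_mem _ (Subgroup.mem_zpowers _) _
      have h3 := (mem_powers_iff_mem_zpowers (x := g ^ 2) (y := (g ^ (2 * k))⁻¹)).mpr h2
      obtain ⟨k', hk'⟩ := h3
      exact ⟨k', by rw [← hk', pow_mul]⟩
    obtain ⟨k', hk'⟩ := h1
    have h4 : TT P (-((g ^ (2 * k))⁻¹)) = ⊤ := by rw [hk']; exact hsq k'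
    have h5 := TT_cocycle P hf (ρ₂ := -((g ^ (2 * k))⁻¹)) (by rw [h4]; trivial)
    have e : -(g ^ (2 * k) * -(g ^ (2 * k))⁻¹) = (1 : (ZMod p)ˣ) := by simp
    rw [e] at h5
    exact h5
  -- `T 1`
  have hP1 : TT P 1 = ⊤ := by
    by_contra hne
    have hgS : g ∉ TT P 1 := fun h => hne (TT_top_of_gen P hg h)
    have hne1 : ∀ k : ℕ, (g ^ (2 * k) : (ZMod p)ˣ) ≠ -1 := by
      intro k hk
      apply hgS
      have := hle k
      rw [hk, TT_neg_one P] at this
      exact this trivial
    -- elements of `T 1` are squares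
    have hsqS : ∀ s ∈ TT P 1, ∃ k : ℕ, s = g ^ (2 * k) := by
      intro s hs
      obtain ⟨n, rfl⟩ := hpow s
      rcases Nat.even_or_odd' n with ⟨k, rfl | rfl⟩
      · exact ⟨k, rfl⟩
      · exfalso
        apply hgS
        have h1 : g ^ (2 * k) ∈ TT P 1 := by
          apply hle k
          have hk1 := hne1 k
          have hc : ((g ^ (2 * k) : (ZMod p)ˣ) : ZMod p) + 1 ≠ 0 := by
            intro h0
            apply hk1
            apply Units.ext
            simp only [Units.val_neg, Units.val_one]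
            exact eq_neg_of_add_eq_zero_left h0
          exact (TT_pair P (e := Units.mk0 _ hc) rfl).1
        have h2 := (TT P 1).mul_mem hs ((TT P 1).inv_mem h1)
        have e : g ^ (2 * k + 1) * (g ^ (2 * k))⁻¹ = g := by
          rw [pow_succ]; simp
        rwa [e] at h2
    -- natural numbers
    have hnat : ∀ n : ℕ, (hn : n + 1 < p) →
        Units.mk0 (((n + 1 : ℕ) : ZMod p)) (by
          intro h0
          rw [ZMod.natCast_eq_zero_iff] at h0
          exact absurd (Nat.le_of_dvd (Nat.succ_pos _) h0) (by omega)) ∈ TT P 1 := by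
      intro n
      induction n with
      | zero =>
        intro hn
        have : Units.mk0 (((0 + 1 : ℕ) : ZMod p)) (by
          intro h0
          rw [ZMod.natCast_eq_zero_iff] at h0
          exact absurd (Nat.le_of_dvd (Nat.succ_pos _) h0) (by omega)) = 1 := by
          apply Units.ext
          simp
        rw [this]
        exact (TT P 1).one_mem
      | succ m ih =>
        intro hn
        have h1 := ih (by omega)
        obtain ⟨k, hk⟩ := hsqS _ h1
        have h2 := hle k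
        rw [← hk] at h2
        exact h2 (TT_pair P (ρ := Units.mk0 (((m + 1 : ℕ) : ZMod p)) _) (e := Units.mk0 _ _)
          (by simp)).2
    apply hgS
    have hval : 0 < (g : ZMod p).val := by
      rw [Nat.pos_iff_ne_zero]
      intro h0
      have := (ZMod.val_eq_zero _).mp h0
      exact g.ne_zero this
    have hlt : (g : ZMod p).val < p := ZMod.val_lt _
    obtain ⟨n, hn⟩ : ∃ n, (g : ZMod p).val = n + 1 := ⟨_, (Nat.succ_pred_eq_of_pos hval).symm⟩
    have h3 := hnat n (by omega)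
    have e : Units.mk0 (((n + 1 : ℕ) : ZMod p)) (by
          intro h0
          rw [ZMod.natCast_eq_zero_iff] at h0
          exact absurd (Nat.le_of_dvd (Nat.succ_pos _) h0) (by omega)) = g := by
      apply Units.ext
      simp only [Units.val_mk0]
      rw [← hn]
      simp
    rwa [e] at h3
  -- conclude
  have hP1' : TT P (-(-1)) = ⊤ := by simpa using hP1
  have hPng : TT P (-g) = ⊤ := by
    have := TT_mul_top P hP1 hPg
    simpa using this
  have hall : ∀ n : ℕ, TT P (-(g ^ n)) = ⊤ := TT_pow_top P hPng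
  obtain ⟨n, hn⟩ := hpow (-ρ)
  have := hall n
  rw [hn] at this
  simpa using this

/-- the scaling identity. -/
theorem w_scale {u v : ZMod p} (hu : u ≠ 0) (hv : v ≠ 0) :
    w x y (u * v) * w x y v = w x y u * w x y 1 := by
  have h := (TT_top P (Units.mk0 u hu) ▸ (Subgroup.mem_top (Units.mk0 v hv)) :
    Units.mk0 v hv ∈ TT P (Units.mk0 u hu)) 1
  simp only [HH_def, Units.val_mul, Units.val_mk0, Units.val_one, mul_one] at h
  rw [mul_comm u v]
  exact h

/-- the Steinberg relations. -/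
theorem pre_rel : Rel x y := by
  have hn1 : (-1 : ZMod p) ≠ 0 := neg_ne_zero.mpr one_ne_zero
  have hnx : ∀ r, w x y (-1) * x r = y (-r) * w x y (-1) := by
    intro r
    rw [pre_w_mul_x P hn1]
    simp
  have hny : ∀ r, w x y (-1) * y r = x (-r) * w x y (-1) := by
    intro r
    rw [pre_w_mul_y P hn1]
    simp
  have hnw : ∀ t : ZMod p, t ≠ 0 → w x y (-1) * w x y t = w x y t⁻¹ * w x y (-1) := by
    intro t ht
    have e := P.braid t⁻¹ (inv_ne_zero ht)
    rw [inv_inv] at e
    rw [e]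
    calc w x y (-1) * w x y t = w x y (-1) * (x t * y (-t⁻¹) * x t) := rfl
      _ = (w x y (-1) * x t) * y (-t⁻¹) * x t := by group
      _ = y (-t) * (w x y (-1) * y (-t⁻¹)) * x t := by rw [hnx]; group
      _ = y (-t) * x t⁻¹ * (w x y (-1) * x t) := by rw [hny, neg_neg]; group
      _ = _ := by rw [hnx]; group
  have hw1 : w x y (1 : ZMod p) * w x y (-1) = 1 := by
    rw [pre_w_neg P]; exact mul_inv_cancel _
  refine ⟨P.addx, P.addy, ?_, ?_, ?_⟩
  · intro u
    have h := P.conj (-1) hn1 u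
    rw [pre_w_neg P, inv_inv] at h
    have e : -(u * (-1 * -1 : ZMod p)⁻¹) = -u := by simp
    rw [e] at h
    rw [pre_w_neg P]
    exact h
  · intro s t hs ht
    have h1 := w_scale P (u := s * t) (v := t⁻¹) (mul_ne_zero hs ht) (inv_ne_zero ht)
    have e : s * t * t⁻¹ = s := by field_simp
    rw [e] at h1
    simp only [h]
    calc w x y s * w x y (-1) * (w x y t * w x y (-1))
        = w x y s * (w x y (-1) * w x y t) * w x y (-1) := by group
      _ = (w x y s * w x y t⁻¹) * w x y (-1) * w x y (-1) := by rw [hnw t ht]; group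
      _ = w x y (s * t) * (w x y 1 * w x y (-1)) * w x y (-1) := by rw [h1]; group
      _ = _ := by rw [hw1, mul_one]
  · intro s hs u
    have h1 := P.conj (-1) hn1 u
    have e : -(u * (-1 * -1 : ZMod p)⁻¹) = -u := by simp
    rw [e] at h1
    have h2 := pre_yconj P hs (-u)
    calc h x y s * x u * (h x y s)⁻¹
        = w x y s * (w x y (-1) * x u * (w x y (-1))⁻¹) * (w x y s)⁻¹ := by
          simp only [h]; group
      _ = w x y s * y (-u) * (w x y s)⁻¹ := by rw [h1]
      _ = _ := by rw [h2]; congr 1; ring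

end abstract


section torsion

open Cfsg.Agent.Lib.Components.SpecialAlg

variable {A' B' : Type*} [AddCommGroup A'] [AddCommGroup B'] (D : Data A' B')

/-- The Hua induction up to `p - 1`. -/
theorem key_I {p : ℕ} (hp : p.Prime) (hA : ∀ u : A', p • u = 0) :
    ∀ n : ℕ, 0 < n → n < p → Data.F D n ∧ Data.I D n := by
  have hT : ∀ n : ℕ, 0 < n → n < p → Data.T A' n := by
    intro n hn hnp u hu
    have h1 := addOrderOf_dvd_of_nsmul_eq_zero hu
    have h2 := addOrderOf_dvd_of_nsmul_eq_zero (hA u)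
    have hc : Nat.Coprime n p :=
      Nat.coprime_comm.mp ((Nat.Prime.coprime_iff_not_dvd hp).mpr (Nat.not_dvd_of_pos_of_lt hn hnp))
    exact AddMonoid.addOrderOf_eq_one_iff.mp (Nat.eq_one_of_dvd_coprimes hc h1 h2)
  intro n hn
  induction n with
  | zero => omega
  | succ i ih =>
    intro hnp
    rcases Nat.eq_zero_or_pos i with rfl | hi
    · refine ⟨fun x => by simp [D.lc], fun t => by simp⟩
    · obtain ⟨hF, hI⟩ := ih hi (by omega)
      exact Data.F_I_of_T (hT _ hn hnp) (fun t ht => Data.I_step hF hI ht)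

end torsion

section concrete

variable {X : Type*} [Group X] {p : ℕ} [hp : Fact p.Prime]

/-- power by a residue. -/
def powZ (g : X) (t : ZMod p) : X := g ^ t.val

theorem powZ_natCast {g : X} (hg : g ^ p = 1) (n : ℕ) : powZ g (n : ZMod p) = g ^ n := by
  rw [powZ, ZMod.val_natCast, ← pow_eq_pow_mod n hg]

theorem powZ_add {g : X} (hg : g ^ p = 1) (s t : ZMod p) :
    powZ g s * powZ g t = powZ g (s + t) := by
  have e : s + t = ((s.val + t.val : ℕ) : ZMod p) := by simp
  rw [e, powZ_natCast hg, pow_add]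
  rfl

theorem powZ_zero (g : X) : powZ g (0 : ZMod p) = 1 := by
  simp [powZ]

theorem powZ_one {g : X} (hg : g ^ p = 1) : powZ g (1 : ZMod p) = g := by
  have := powZ_natCast hg 1
  simpa using this

theorem powZ_neg {g : X} (hg : g ^ p = 1) (s : ZMod p) : powZ g (-s) = (powZ g s)⁻¹ := by
  symm
  apply inv_eq_of_mul_eq_one_right
  rw [powZ_add hg, add_neg_cancel, powZ_zero]

theorem powZ_pow {g : X} (hg : g ^ p = 1) (k : ℕ) (t : ZMod p) :
    (powZ g t) ^ k = powZ g ((k : ZMod p) * t) := by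
  have e : (k : ZMod p) * t = ((k * t.val : ℕ) : ZMod p) := by simp
  rw [e, powZ_natCast hg, powZ, pow_mul']

theorem powZ_mem {g : X} (K : Subgroup X) (hg : g ∈ K) (t : ZMod p) : powZ g t ∈ K :=
  K.pow_mem hg _

variable {A B : Subgroup X}

open Cfsg.Agent.Lib.Components.SpecialGroup Cfsg.Agent.Lib.Components.RootQuasi
open Cfsg.Agent.Lib.Components.SpecialAlg
open scoped IsMulCommutative

/-- `B` has exponent `p`. -/
theorem B_exp (hs : IsSpecialRankOnePair A B)
    (hAp : ∀ u ∈ A, u ^ p = 1) : ∀ β ∈ B, β ^ p = 1 := by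
  intro β hβ
  by_cases hβ1 : β = 1
  · simp [hβ1]
  have hy : (⟨β, hβ⟩ : B) ≠ 1 := by
    intro h; exact hβ1 (congrArg Subtype.val h)
  have hP := partner_lMap hs hy
  have h1 := weyl_conj_self hs hP
  have h2 : ((β⁻¹) : X) ^ p = 1 := by
    rw [← h1, conj_pow, hAp _ (lMap hs ⟨β, hβ⟩).2]
    group
  simpa using h2

/-- The partner of `a ^ n`. -/
theorem partner_pow (hs : IsSpecialRankOnePair A B) (hab : HasAbelianUnipotents A B)
    (hAp : ∀ u ∈ A, u ^ p = 1) {a b : X} (hP : Partner A B a b) {t : ZMod p} (ht : t ≠ 0) :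
    Partner A B (powZ a t) (powZ b t⁻¹) := by
  haveI := hab.1
  haveI := hab.2
  have hp' : p.Prime := hp.out
  have hBp := B_exp hs hAp
  have hap : a ^ p = 1 := hAp a hP.memA
  have hbp : b ^ p = 1 := hBp b hP.memB
  -- torsion in `Additive A`
  have hAd : ∀ u : Additive A, p • u = 0 := by
    intro u
    have h : (u.toMul : A) ^ p = 1 := Subtype.ext (by simpa using hAp _ u.toMul.2)
    exact h
  set n := t.val with hn
  have hn0 : 0 < n := by
    rw [Nat.pos_iff_ne_zero]
    intro h0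
    exact ht ((ZMod.val_eq_zero _).mp h0)
  have hnp : n < p := ZMod.val_lt _
  have htn : (n : ZMod p) = t := ZMod.natCast_zmod_val t
  obtain ⟨-, hI⟩ := key_I (data hs) hp' hAd n hn0 hnp
  let a₀ : A := ⟨a, hP.memA⟩
  have hI2 := hI (Additive.ofMul a₀)
  have hI3 : (cMap hs (a₀ ^ n)) ^ n = cMap hs a₀ := hI2
  have hc₀ : cMap hs a₀ = ⟨b, hP.memB⟩ := cMap_eq hs (x := a₀) (y := ⟨b, hP.memB⟩) hP
  have hI4 : ((cMap hs (a₀ ^ n) : B) : X) ^ n = b := by
    have := congrArg Subtype.val (hI3.trans hc₀)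
    simpa using this
  have hne : a₀ ^ n ≠ 1 := by
    intro h0
    have h1 : a ^ n = 1 := by simpa using congrArg Subtype.val h0
    have h2 := orderOf_dvd_of_pow_eq_one h1
    have h3 := orderOf_dvd_of_pow_eq_one hap
    have hc : Nat.Coprime n p := (Nat.coprime_comm.mp ((Nat.Prime.coprime_iff_not_dvd hp').mpr (Nat.not_dvd_of_pos_of_lt hn0 hnp)))
    have h4 := Nat.eq_one_of_dvd_coprimes hc h2 h3
    exact hP.neA (orderOf_eq_one_iff.mp h4)
  have hPn := partner_cMap hs hne
  have e1 : powZ a t = ((a₀ ^ n : A) : X) := by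
    simp [powZ, a₀, hn]
  set c : X := ((cMap hs (a₀ ^ n) : B) : X) with hc
  have hcp : c ^ p = 1 := hBp c (cMap hs (a₀ ^ n)).2
  have e2 : powZ b t⁻¹ = c := by
    rw [powZ, ← hI4, ← pow_mul, ← powZ_natCast hcp]
    have : ((n * (t⁻¹).val : ℕ) : ZMod p) = 1 := by
      simp only [Nat.cast_mul, ZMod.natCast_zmod_val, htn]
      exact mul_inv_cancel₀ ht
    rw [this, powZ_one hcp]
  rw [e1, e2]
  exact hPn

/-- The pre-relations in a special rank one group. -/
theorem pre_of_partner (hs : IsSpecialRankOnePair A B) (hab : HasAbelianUnipotents A B)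
    (hAp : ∀ u ∈ A, u ^ p = 1) {a b : X} (hP : Partner A B a b) :
    Pre (fun t : ZMod p => powZ a t) (fun t : ZMod p => powZ b t) := by
  have hBp := B_exp hs hAp
  have hap : a ^ p = 1 := hAp a hP.memA
  have hbp : b ^ p = 1 := hBp b hP.memB
  have hw : ∀ t : ZMod p, w (fun t : ZMod p => powZ a t) (fun t : ZMod p => powZ b t) t =
      weyl (powZ a t) (powZ b t⁻¹) := by
    intro t
    simp only [w, weyl, powZ_neg hbp]
  refine ⟨powZ_add hap, powZ_add hbp, ?_, ?_⟩
  · intro t ht
    rw [hw]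
    have := braid hs (partner_pow hs hab hAp hP ht)
    simp only [weyl, powZ_neg hbp]
    exact this
  · intro t ht r
    rw [hw]
    have hPt := partner_pow hs hab hAp hP ht
    have h1 := weyl_conj_self hs hPt
    set k := (r * t⁻¹).val with hk
    have hkk : (k : ZMod p) = r * t⁻¹ := ZMod.natCast_zmod_val _
    have e1 : powZ a r = (powZ a t) ^ k := by
      rw [powZ_pow hap, hkk]
      congr 1
      field_simp
    have e2 : powZ b (-(r * (t * t)⁻¹)) = ((powZ b t⁻¹)⁻¹) ^ k := by
      rw [← powZ_neg hbp, powZ_pow hbp, hkk]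
      congr 1
      field_simp
    show weyl (powZ a t) (powZ b t⁻¹) * powZ a r * (weyl (powZ a t) (powZ b t⁻¹))⁻¹ = _
    rw [e1, e2, ← h1, conj_pow]

end concrete

/-- Let X be a special rank one group with abelian unipotent subgroups A and B, where A is an elementary abelian p-group for the prime p. Then for every non-identity a in A and the non-identity b in B with b⁻¹ A b = a⁻¹ B a, the subgroup generated by a and b is isomorphic to SL₂(p) or to PSL₂(p). -/
theorem result {X : Type*} [Group X] {A B : Subgroup X} (h : Cfsg.IsRankOneGroup X A B)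
    (hs : Cfsg.IsSpecialRankOnePair A B) (hab : Cfsg.HasAbelianUnipotents A B)
    {p : ℕ} [Fact p.Prime] (hA : Cfsg.IsElementaryAbelian p A)
    {a b : X} (ha : a ∈ A) (ha1 : a ≠ 1) (hb : b ∈ B) (hb1 : b ≠ 1) (hab' : Cfsg.conjBy A b⁻¹ = Cfsg.conjBy B a⁻¹) :
    Nonempty (↥(Subgroup.closure ({a, b} : Set X)) ≃* Matrix.SpecialLinearGroup (Fin 2) (ZMod p)) ∨
    Nonempty (↥(Subgroup.closure ({a, b} : Set X)) ≃* Matrix.ProjectiveSpecialLinearGroup (Fin 2) (ZMod p)) := by
  classical
  have hP : Cfsg.Agent.Lib.Components.RootQuasi.Partner A B a b := ⟨ha, ha1, hb, hb1, hab'⟩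
  have hAp := hA.2
  have hBp := B_exp hs hAp
  have hap : a ^ p = 1 := hAp a ha
  have hbp : b ^ p = 1 := hBp b hb
  have hR := pre_rel (pre_of_partner hs hab hAp hP)
  set x : ZMod p → X := fun t => powZ a t with hx
  set y : ZMod p → X := fun t => powZ b t with hy
  let φ := hom hR
  set K := Subgroup.closure ({a, b} : Set X) with hK
  have haK : a ∈ K := Subgroup.subset_closure (by simp)
  have hbK : b ∈ K := Subgroup.subset_closure (by simp)
  have hφa : φ (Cfsg.Agent.Lib.Chevalley.SL2Hom.X 1) = a := by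
    show hom hR (Cfsg.Agent.Lib.Chevalley.SL2Hom.X 1) = a
    rw [hom_X]
    exact powZ_one hap
  have hφb : φ (Y 1) = b := by
    show hom hR (Y 1) = b
    rw [hom_Y]
    exact powZ_one hbp
  have hrange : φ.range = K := by
    apply le_antisymm
    · rintro _ ⟨g, rfl⟩
      exact hom_mem hR K (fun t => powZ_mem K haK t) (fun t => powZ_mem K hbK t) g
    · rw [hK, Subgroup.closure_le]
      rintro z (rfl | rfl)
      · exact ⟨_, hφa⟩
      · exact ⟨_, hφb⟩
  have hS := Cfsg.Agent.S5016.result (ZMod p)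
  have hdich := (Cfsg.Agent.S5017.result hS.1).1 φ.ker inferInstance
  have hcent : φ.ker ≤ Subgroup.center (Matrix.SpecialLinearGroup (Fin 2) (ZMod p)) := by
    rcases hdich with h1 | h1
    · exfalso
      have hL : (Cfsg.lowerUnipotentSL2 (ZMod p)).map φ ≤ B := by
        rw [Subgroup.map_le_iff_le_comap, Cfsg.lowerUnipotentSL2, Subgroup.closure_le]
        rintro g ⟨h01, h00, h11⟩
        have e : g = Y (g.1 1 0) := by
          apply sl2_ext
          · simpa [Y_coe] using h00
          · simpa [Y_coe] using h01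
          · simp [Y_coe]
          · simpa [Y_coe] using h11
        show φ g ∈ B
        rw [e]
        show hom hR (Y (g.1 1 0)) ∈ B
        rw [hom_Y]
        exact powZ_mem B hb _
      have h2 : a ∈ (⊤ : Subgroup (Matrix.SpecialLinearGroup (Fin 2) (ZMod p))).map φ :=
        ⟨Cfsg.Agent.Lib.Chevalley.SL2Hom.X 1, trivial, hφa⟩
      rw [← h1, Subgroup.map_sup] at h2
      have h3 : φ.ker.map φ = ⊥ := by
        rw [eq_bot_iff]
        rintro _ ⟨g, hg, rfl⟩
        exact hg
      rw [h3, bot_sup_eq] at h2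
      have hab2 := hL h2
      have h4 := (Cfsg.Agent.S5013.result h.2).2.2.1
      have h5 : a ∈ A ⊓ Subgroup.normalizer (B : Set X) :=
        ⟨ha, Subgroup.le_normalizer hab2⟩
      rw [h4] at h5
      exact ha1 h5
    · exact h1
  by_cases hker : φ.ker = ⊥
  · left
    have hinj : Function.Injective φ := (MonoidHom.ker_eq_bot_iff φ).mp hker
    exact ⟨((MonoidHom.ofInjective hinj).trans (MulEquiv.subgroupCongr hrange)).symm⟩
  · right
    -- the kernel is the whole centre
    have hker2 : φ.ker = Subgroup.center (Matrix.SpecialLinearGroup (Fin 2) (ZMod p)) := by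
      apply le_antisymm hcent
      obtain ⟨g, hg, hg1⟩ := (Subgroup.bot_or_exists_ne_one φ.ker).resolve_left hker
      obtain ⟨r, hr2, hr⟩ := Matrix.SpecialLinearGroup.mem_center_iff.mp (hcent hg)
      intro z hz
      obtain ⟨s, hs2, hs'⟩ := Matrix.SpecialLinearGroup.mem_center_iff.mp hz
      simp only [Fintype.card_fin] at hr2 hs2
      have hr3 : r = 1 ∨ r = -1 := mul_self_eq_one_iff.mp (by rw [← pow_two]; exact hr2)
      have hs3 : s = 1 ∨ s = -1 := mul_self_eq_one_iff.mp (by rw [← pow_two]; exact hs2)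
      have hr4 : r ≠ 1 := by
        rintro rfl
        apply hg1
        ext i j
        rw [← hr]
        simp [Matrix.one_apply]
      have hr5 : r = -1 := hr3.resolve_left hr4
      rcases hs3 with rfl | rfl
      · have : z = 1 := by
          ext i j
          rw [← hs']
          simp [Matrix.one_apply]
        rw [this]
        exact φ.ker.one_mem
      · have : z = g := by
          ext i j
          rw [← hs', ← hr, hr5]
        rw [this]
        exact hg
    exact ⟨((QuotientGroup.quotientKerEquivRange φ).trans (MulEquiv.subgroupCongr hrange)).symm.trans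
      (QuotientGroup.quotientMulEquivOfEq hker2)⟩

end Cfsg.Agent.S5022
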