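import Cfsg.Statements.S5020
import Mathlib
import Cfsg.Agent.Lib.Components.SpecialGroup
import Cfsg.Agent.Lib.Components.Quasisimple
import Cfsg.Agent.S5013
import Cfsg.Agent.S5017
import Cfsg.Agent.S5022

set_option autoImplicit false
open Cfsg

namespace Cfsg.Agent.S5020

open Cfsg.Agent.Lib.Components.SpecialGroup Cfsg.Agent.Lib.Components.RootQuasi
open Cfsg.Agent.Lib.Components.SpecialAlg
open scoped IsMulCommutative commutatorElement

variable {X : Type*} [Group X] {A B : Subgroup X}

section weyl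

variable (hs : IsSpecialRankOnePair A B) (hab : HasAbelianUnipotents A B)

include hab in
theorem wl_inv {x : A} : wl hs x⁻¹ = (wl hs x)⁻¹ := by
  simp only [wl, weyl, cMap_inv hs hab]
  simp [mul_assoc]

theorem conj_wl_self_inv {x : A} (hx : x ≠ 1) :
    conjBy A (wl hs x) = B := conjBy_n_left (partner_cMap hs hx)

include hab in
theorem conjB_wl {x : A} (hx : x ≠ 1) :
    conjBy B (wl hs x) = A := conjBy_n_right hs (comm_A hab) (partner_cMap hs hx)

/-- conjugation by the Weyl element. -/
theorem conj_wl [IsMulCommutative A] [IsMulCommutative B] {x : A} (hx : x ≠ 1) (y : A) :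
    wl hs x * (y : X) * (wl hs x)⁻¹ =
      (((data hs).c ((data hs).M (Additive.ofMul x) (Additive.ofMul y))).toMul : X) := by
  rw [(data hs).c_M]
  exact (phiHom_coe hs hx y).symm

theorem conj_wl_inv [IsMulCommutative A] [IsMulCommutative B] {x : A} (hx : x ≠ 1) (y : A) :
    (wl hs x)⁻¹ * (y : X) * wl hs x =
      (((data hs).c ((data hs).M (Additive.ofMul x) (Additive.ofMul y))).toMul : X) := by
  have hab : HasAbelianUnipotents A B := ⟨inferInstance, inferInstance⟩
  have hx' : x⁻¹ ≠ 1 := by simpa using hx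
  have h1 := conj_wl hs hx' y
  rw [wl_inv hs hab, inv_inv] at h1
  rw [h1]
  have hx0 : Additive.ofMul x ≠ 0 := hx
  have : Additive.ofMul x⁻¹ = - Additive.ofMul x := rfl
  rw [this, (data hs).M_neg_left hx0]

/-- conjugation by the Weyl element on `B`. -/
theorem conj_wl_c [IsMulCommutative A] [IsMulCommutative B] {x : A} (hx : x ≠ 1) (z : A) :
    wl hs x * (((data hs).c (Additive.ofMul z)).toMul : X) * (wl hs x)⁻¹ =
      (((data hs).M (Additive.ofMul x) (Additive.ofMul z)).toMul : X) := by
  have hx0 : Additive.ofMul x ≠ 0 := hx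
  have h1 := conj_wl_inv hs hx ((data hs).M (Additive.ofMul x) (Additive.ofMul z)).toMul
  have e : Additive.ofMul ((data hs).M (Additive.ofMul x) (Additive.ofMul z)).toMul
      = (data hs).M (Additive.ofMul x) (Additive.ofMul z) := rfl
  rw [e, (data hs).M_invol hx0] at h1
  rw [← h1]
  group

theorem conj_wl_inv_self [IsMulCommutative A] [IsMulCommutative B] {s : A} (hs1 : s ≠ 1) :
    (wl hs s)⁻¹ * (s : X) * wl hs s = (((data hs).c (Additive.ofMul s)).toMul : X)⁻¹ := by
  have hs0 : Additive.ofMul s ≠ 0 := hs1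
  rw [conj_wl_inv hs hs1, (data hs).M_self hs0, (data hs).c_neg]
  rfl

/-- the commutators `s · M x s` lie in `⁅A, H⁆`. -/
theorem comm_mem_Q [IsMulCommutative A] [IsMulCommutative B] {x s : A} (hx : x ≠ 1) (hs1 : s ≠ 1) :
    (s : X) * (((data hs).M (Additive.ofMul x) (Additive.ofMul s)).toMul : X) ∈
      (⁅A, rankOneDiagonal A B⁆ : Subgroup X) := by
  have hab : HasAbelianUnipotents A B := ⟨inferInstance, inferInstance⟩
  set h := wl hs x * (wl hs s)⁻¹ with hh
  have hmem : ∀ y : A, y ≠ 1 → wl hs y ∈ A ⊔ B := by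
    intro y _
    have hya : (y : X) ∈ A ⊔ B := (le_sup_left : A ≤ A ⊔ B) y.2
    have hyb : ((cMap hs y : B) : X) ∈ A ⊔ B := (le_sup_right : B ≤ A ⊔ B) (cMap hs y).2
    exact mul_mem (mul_mem hya (inv_mem hyb)) hya
  have hxA : conjBy A (wl hs x) = B := conj_wl_self_inv hs hx
  have hxB : conjBy B (wl hs x) = A := conjB_wl hs hab hx
  have hsA : conjBy A (wl hs s) = B := conj_wl_self_inv hs hs1
  have hsB : conjBy B (wl hs s) = A := conjB_wl hs hab hs1
  have hA' : conjBy A (wl hs s)⁻¹ = B := by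
    have := congrArg (fun Y => conjBy Y (wl hs s)⁻¹) hsB
    simp only [conjBy_conjBy, inv_mul_cancel, conjBy_one] at this
    exact this.symm
  have hB' : conjBy B (wl hs s)⁻¹ = A := by
    have := congrArg (fun Y => conjBy Y (wl hs s)⁻¹) hsA
    simp only [conjBy_conjBy, inv_mul_cancel, conjBy_one] at this
    exact this.symm
  have hhA : conjBy A h = A := by
    rw [hh, ← conjBy_conjBy, hA', hxB]
  have hhB : conjBy B h = B := by
    rw [hh, ← conjBy_conjBy, hB', hxA]
  have hnorm : ∀ Y : Subgroup X, conjBy Y h = Y → h ∈ Subgroup.normalizer (Y : Set X) := by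
    intro Y hY
    rw [Subgroup.mem_normalizer_iff]
    intro z
    constructor
    · intro hz
      have := conj_mem_conjBy (g := h) hz
      rwa [hY] at this
    · intro hz
      have h2 : h * z * h⁻¹ ∈ conjBy Y h := by rw [hY]; exact hz
      have h3 := mem_conjBy.mp h2
      have e : h⁻¹ * (h * z * h⁻¹) * h = z := by group
      rwa [e] at h3
  have hhH : h ∈ rankOneDiagonal A B := by
    refine ⟨⟨?_, hnorm A hhA⟩, hnorm B hhB⟩
    show h ∈ A ⊔ B
    exact mul_mem (hmem x hx) (inv_mem (hmem s hs1))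
  have hcomm := Subgroup.commutator_mem_commutator s.2 hhH
  have e : h * (s : X) * h⁻¹ =
      (((data hs).M (Additive.ofMul x) (Additive.ofMul s)).toMul : X)⁻¹ := by
    have h1 := conj_wl_inv_self hs hs1
    have h2 := conj_wl_c hs hx s
    rw [← h2, hh]
    calc wl hs x * (wl hs s)⁻¹ * (s : X) * (wl hs x * (wl hs s)⁻¹)⁻¹
        = wl hs x * ((wl hs s)⁻¹ * (s : X) * wl hs s) * (wl hs x)⁻¹ := by group
      _ = _ := by rw [h1]; group
  have e2 : ⁅(s : X), h⁆ = (s : X) * (((data hs).M (Additive.ofMul x) (Additive.ofMul s)).toMul : X) := by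
    rw [commutatorElement_def]
    have : (s : X) * h * (s : X)⁻¹ * h⁻¹ = (s : X) * (h * (s : X) * h⁻¹)⁻¹ := by group
    rw [this, e, inv_inv]
  rwa [e2] at hcomm

end weyl

section card

variable (hs : IsSpecialRankOnePair A B) [IsMulCommutative A] [IsMulCommutative B]

/-- the elements `u + l (c u - c x)` lie in `⁅A, H⁆`. -/
theorem q_mem {u x : Additive A} (hu : u ≠ 0) (hx : x ≠ 0) (hxu : x ≠ u) :
    ((u + (data hs).l ((data hs).c u - (data hs).c x)).toMul : X) ∈
      (⁅A, rankOneDiagonal A B⁆ : Subgroup X) := by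
  have hs0 : u - x ≠ 0 := sub_ne_zero.mpr (Ne.symm hxu)
  have h := comm_mem_Q hs (x := x.toMul) (s := (u - x).toMul) hx hs0
  have hxs : x + (u - x) ≠ 0 := by
    rw [add_sub_cancel]; exact hu
  have e : (data hs).M x (u - x) = x + (data hs).l ((data hs).c u - (data hs).c x) := by
    rw [(data hs).M_formula hx hs0 hxs, add_sub_cancel]
  have e2 : Additive.ofMul x.toMul = x := rfl
  have e3 : Additive.ofMul (u - x).toMul = u - x := rfl
  rw [e2, e3, e] at h
  have e4 : ((u - x).toMul : X) * ((x + (data hs).l ((data hs).c u - (data hs).c x)).toMul : X)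
      = ((u + (data hs).l ((data hs).c u - (data hs).c x)).toMul : X) := by
    have : (u - x) + (x + (data hs).l ((data hs).c u - (data hs).c x))
        = u + (data hs).l ((data hs).c u - (data hs).c x) := by abel
    rw [← this]
    rfl
  rwa [e4] at h

theorem q_inj {u x x' : Additive A}
    (h : u + (data hs).l ((data hs).c u - (data hs).c x) =
      u + (data hs).l ((data hs).c u - (data hs).c x')) : x = x' := by
  have h1 := add_left_cancel h
  have h2 := congrArg (data hs).c h1
  rw [(data hs).cl, (data hs).cl] at h2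
  have h3 : (data hs).c x = (data hs).c x' := by
    simpa using h2
  exact (data hs).c_inj h3

include hs in
/-- `|A| ≤ |⁅A, H⁆| + 2`. -/
theorem card_le (u : Additive A) (hu : u ≠ 0) :
    ENat.card A ≤ ENat.card ↥(⁅A, rankOneDiagonal A B⁆ : Subgroup X) + 2 := by
  classical
  set Q : Subgroup X := ⁅A, rankOneDiagonal A B⁆ with hQ
  set q : A → X := fun x =>
    ((u + (data hs).l ((data hs).c u - (data hs).c (Additive.ofMul x))).toMul : X) with hq
  set S : Set X := (Q : Set X) ∪ {q 1, q u.toMul} with hS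
  have h1 : (Set.univ : Set A).encard ≤ S.encard := by
    apply Set.encard_le_encard_of_injOn (f := q)
    · intro x _
      by_cases hx : x = 1
      · subst hx; exact Or.inr (by simp)
      by_cases hxu : x = u.toMul
      · exact Or.inr (Set.mem_insert_of_mem _ (by rw [hxu]; rfl))
      left
      exact q_mem hs hu (x := Additive.ofMul x) hx hxu
    · intro x _ y _ hxy
      have h2 : (u + (data hs).l ((data hs).c u - (data hs).c (Additive.ofMul x))) =
        (u + (data hs).l ((data hs).c u - (data hs).c (Additive.ofMul y))) := by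
        apply Additive.toMul.injective
        exact Subtype.ext hxy
      exact q_inj hs h2
  rw [Set.encard_univ] at h1
  refine h1.trans ?_
  refine (Set.encard_union_le _ _).trans ?_
  have h3 : (({q 1, q u.toMul} : Set X)).encard ≤ 2 := Set.encard_insert_le _ _ |>.trans (by
    rw [Set.encard_singleton]; norm_num)
  have h4 : (Q : Set X).encard = ENat.card Q := rfl
  rw [h4]
  gcongr

end card

section small

/-- a subgroup `Q ≤ A` with `|A| ≤ |Q| + 2` and at most three elements. -/
theorem exponent_two_case (hs : IsSpecialRankOnePair A B) (hab : HasAbelianUnipotents A B)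
    (h4 : Nat.card A = 4) (hfin : Finite A) :
    ∀ a ∈ A, a ^ 2 = 1 := by
  rcases elementary_or_divisible hs hab with ⟨p, hp, hpA⟩ | ⟨h5, -⟩
  · by_cases hp2 : p = 2
    · subst hp2; exact hpA
    · exfalso
      have hc : Nat.Coprime p 4 := by
        have : Nat.Coprime p (2 ^ 2) := Nat.Coprime.pow_right 2 ((Nat.coprime_primes hp Nat.prime_two).mpr hp2)
        simpa using this
      have hall : ∀ a : A, a = 1 := by
        intro a
        have h6 : a ^ 4 = 1 := by rw [← h4]; exact pow_card_eq_one'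
        have h7 : a ^ p = 1 := Subtype.ext (by simpa using hpA a a.2)
        have := Nat.eq_one_of_dvd_coprimes hc (orderOf_dvd_of_pow_eq_one h7) (orderOf_dvd_of_pow_eq_one h6)
        exact orderOf_eq_one_iff.mp this
      have : Subsingleton A := ⟨fun a b => by rw [hall a, hall b]⟩
      have h8 := Nat.card_unique (α := A)
      omega
  · exfalso
    have hne : ∃ a : A, a ≠ 1 := by
      have : Nontrivial A := by
        rw [← Finite.one_lt_card_iff_nontrivial]
        omega
      exact exists_ne 1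
    obtain ⟨a, ha⟩ := hne
    have ha' : (a : X) ≠ 1 := by simpa using ha
    apply h5 a a.2 ha'
    obtain ⟨n, hn, hpow⟩ := isOfFinOrder_iff_pow_eq_one.mp (isOfFinOrder_of_finite a)
    exact isOfFinOrder_iff_pow_eq_one.mpr ⟨n, hn, by simpa using congrArg Subtype.val hpow⟩

end small

section prime

theorem gen_prime (h : IsRankOneGroup X A B) (hs : IsSpecialRankOnePair A B)
    (hab : HasAbelianUnipotents A B) (p : ℕ) [hp : Fact p.Prime] (hcard : Nat.card A = p) :
    Nonempty (X ≃* Matrix.SpecialLinearGroup (Fin 2) (ZMod p)) ∨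
    Nonempty (X ≃* Matrix.ProjectiveSpecialLinearGroup (Fin 2) (ZMod p)) := by
  have hfin : Finite A := by
    have : Nat.card A ≠ 0 := by rw [hcard]; exact hp.out.ne_zero
    exact (Nat.card_ne_zero.mp this).2
  have hAp : ∀ u ∈ A, u ^ p = 1 := by
    intro u hu
    have h1 : (⟨u, hu⟩ : A) ^ p = 1 := by
      rw [← hcard]; exact pow_card_eq_one'
    simpa using congrArg Subtype.val h1
  have hE : IsElementaryAbelian p A := ⟨hab.1, hAp⟩
  have hnt : Nontrivial A := by
    rw [← Finite.one_lt_card_iff_nontrivial, hcard]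
    exact hp.out.one_lt
  obtain ⟨a₀, ha₀⟩ := exists_ne (1 : A)
  have ha1 : (a₀ : X) ≠ 1 := by simpa using ha₀
  obtain ⟨b, hP⟩ := exists_partner_left hs.1 a₀.2 ha1
  set a : X := (a₀ : X) with ha
  have hpow : ∀ u ∈ A, ∃ n : ℕ, a ^ n = u := by
    intro u hu
    obtain ⟨n, hn⟩ := mem_powers_of_prime_card (g := a₀) (g' := ⟨u, hu⟩) hcard ha₀
    refine ⟨n, ?_⟩
    simpa using congrArg Subtype.val hn
  set K := Subgroup.closure ({a, b} : Set X) with hK
  have haK : a ∈ K := Subgroup.subset_closure (by simp)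
  have hbK : b ∈ K := Subgroup.subset_closure (by simp)
  have hap : a ^ p = 1 := hAp a a₀.2
  have hAK : A ≤ K := by
    intro u hu
    obtain ⟨n, rfl⟩ := hpow u hu
    exact pow_mem haK n
  have hBK : B ≤ K := by
    intro β hβ
    by_cases hβ1 : β = 1
    · rw [hβ1]; exact one_mem K
    obtain ⟨a', hP'⟩ := exists_partner_right hs.1 hβ hβ1
    obtain ⟨n, hn⟩ := hpow a' hP'.memA
    have ht : (n : ZMod p) ≠ 0 := by
      intro h0
      have h1 := Cfsg.Agent.S5022.powZ_natCast hap n
      rw [h0, Cfsg.Agent.S5022.powZ_zero, hn] at h1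
      exact hP'.neA h1.symm
    have h2 := Cfsg.Agent.S5022.partner_pow hs hab hAp hP ht
    rw [Cfsg.Agent.S5022.powZ_natCast hap, hn] at h2
    rw [partner_unique_right hs.1 hP' h2]
    exact Cfsg.Agent.S5022.powZ_mem K hbK _
  have hKtop : K = ⊤ := by
    rw [eq_top_iff, ← h.1]
    exact sup_le hAK hBK
  have e : X ≃* K := Subgroup.topEquiv.symm.trans (MulEquiv.subgroupCongr hKtop.symm)
  rcases Cfsg.Agent.S5022.result h hs hab (p := p) hE a₀.2 ha1 hP.memB hP.neB hP.eqn with h1 | h1
  · obtain ⟨e1⟩ := h1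
    exact Or.inl ⟨e.trans e1⟩
  · obtain ⟨e1⟩ := h1
    exact Or.inr ⟨e.trans e1⟩

theorem center_sl_two_eq : Subgroup.center (Matrix.SpecialLinearGroup (Fin 2) (ZMod 2)) = ⊥ := by
  rw [eq_bot_iff]
  intro z hz
  obtain ⟨s, hs2, hs'⟩ := Matrix.SpecialLinearGroup.mem_center_iff.mp hz
  have hs3 : s = 1 := by
    revert hs2
    revert s
    decide +revert
  have : z = 1 := by
    ext i j
    rw [← hs', hs3]
    simp [Matrix.one_apply]
  rw [this]
  exact one_mem _

theorem small_case (h : IsRankOneGroup X A B) (hs : IsSpecialRankOnePair A B)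
    (hab : HasAbelianUnipotents A B) (h3 : ENat.card A ≤ 3) :
    (Nonempty (X ≃* Matrix.SpecialLinearGroup (Fin 2) (ZMod 2)) ∨
        Nonempty (X ≃* Matrix.SpecialLinearGroup (Fin 2) (ZMod 3)) ∨
        Nonempty (X ≃* Matrix.ProjectiveSpecialLinearGroup (Fin 2) (ZMod 3))) := by
  have hfin : Finite A := ENat.card_lt_top.mp (lt_of_le_of_lt h3 (by decide))
  have hle : Nat.card A ≤ 3 := by
    rw [ENat.card_eq_coe_natCard] at h3
    exact_mod_cast h3
  have hne : ∃ a ∈ A, a ≠ 1 := by
    by_contra hcon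
    push Not at hcon
    apply h.2.ne
    have hA : A = ⊥ := by
      rw [eq_bot_iff]
      intro a ha
      exact hcon a ha
    have hB : B = ⊥ := by
      rw [eq_bot_iff]
      intro b hb
      by_contra hb1
      obtain ⟨a, ha, ha1, -⟩ := h.2.cond_right b hb hb1
      exact ha1 (hcon a ha)
    rw [hA, hB]
  obtain ⟨a, ha, ha1⟩ := hne
  have hnt : Nontrivial A := ⟨⟨⟨a, ha⟩, 1, fun e => ha1 (congrArg Subtype.val e)⟩⟩
  have hlt : 1 < Nat.card A := Finite.one_lt_card_iff_nontrivial.mpr hnt
  have hcases : Nat.card A = 2 ∨ Nat.card A = 3 := by omega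
  rcases hcases with h2 | h2
  · left
    rcases gen_prime h hs hab 2 h2 with h5 | h5
    · exact h5
    · obtain ⟨e⟩ := h5
      exact ⟨e.trans ((QuotientGroup.quotientMulEquivOfEq center_sl_two_eq).trans
        QuotientGroup.quotientBot)⟩
  · right
    exact gen_prime h hs hab 3 h2

end prime

section big

theorem Q_le (A B : Subgroup X) : (⁅A, rankOneDiagonal A B⁆ : Subgroup X) ≤ A := by
  rw [Subgroup.commutator_le]
  intro a ha g hg
  have hg2 : g ∈ Subgroup.normalizer (A : Set X) := hg.1.2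
  rw [commutatorElement_def]
  have h1 := (Subgroup.mem_normalizer_iff.mp hg2 a⁻¹).mp (inv_mem ha)
  have e : a * g * a⁻¹ * g⁻¹ = a * (g * a⁻¹ * g⁻¹) := by group
  rw [e]
  exact mul_mem ha h1

theorem card_Q (hs : IsSpecialRankOnePair A B) (hab : HasAbelianUnipotents A B)
    (h3 : 3 < ENat.card A) : 3 < ENat.card ↥(⁅A, rankOneDiagonal A B⁆ : Subgroup X) := by
  haveI := hab.1
  haveI := hab.2
  by_contra hcon
  have hQ3 := not_lt.mp hcon
  set Q : Subgroup X := ⁅A, rankOneDiagonal A B⁆ with hQ
  obtain ⟨u₀, hu₀, -, -, -, hu1, -, -, -⟩ := exists_two_of_card A h3 1 1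
  have h3' := h3
  have hu : Additive.ofMul (⟨u₀, hu₀⟩ : A) ≠ 0 := by
    intro h0
    apply hu1
    have h1 : (⟨u₀, hu₀⟩ : A) = 1 := h0
    simpa using congrArg Subtype.val h1
  set u := Additive.ofMul (⟨u₀, hu₀⟩ : A) with hud
  have hAle := card_le hs u hu
  rw [← hQ] at hAle
  have hQf : Finite Q := ENat.card_lt_top.mp (lt_of_le_of_lt hQ3 (by decide))
  have hAf : Finite A := by
    apply ENat.card_lt_top.mp
    refine lt_of_le_of_lt hAle ?_
    rw [ENat.card_eq_coe_natCard]
    exact_mod_cast ENat.natCast_lt_top _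
  rw [ENat.card_eq_coe_natCard] at hQ3 hAle h3
  rw [ENat.card_eq_coe_natCard] at hAle
  have h1 : Nat.card Q ≤ 3 := by exact_mod_cast hQ3
  have h2 : Nat.card A ≤ Nat.card Q + 2 := by exact_mod_cast hAle
  have h4 : 3 < Nat.card A := by exact_mod_cast h3
  have hdvd : Nat.card Q ∣ Nat.card A := Subgroup.card_dvd_of_le (Q_le A B)
  have hval : Nat.card A = 4 ∧ Nat.card Q = 2 := by
    generalize Nat.card A = m at *
    generalize Nat.card Q = n at *
    have hm : m = 4 ∨ m = 5 := by omega
    rcases hm with rfl | rfl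
    · have : n = 2 ∨ n = 3 := by omega
      rcases this with rfl | rfl
      · exact ⟨rfl, rfl⟩
      · omega
    · have : n = 3 := by omega
      subst this
      omega
  have hexp := exponent_two_case hs hab hval.1 hAf
  have htwo : ∀ v : Additive A, v + v = 0 := by
    intro v
    have : (v.toMul : A) ^ 2 = 1 := Subtype.ext (by simpa using hexp _ v.toMul.2)
    have h5 : (2 : ℕ) • v = 0 := this
    rwa [two_nsmul] at h5
  -- two more elements
  obtain ⟨x₁, hx₁, x₂, hx₂, h12, h11, h1u, h21, h2u⟩ := exists_two_of_card A h3' 1 u₀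
  have hne0 : ∀ x : Additive A, x ≠ 0 →
      ((u + (data hs).l ((data hs).c u - (data hs).c x)).toMul : X) ≠ 1 := by
    intro x hx h0
    have h6 : u + (data hs).l ((data hs).c u - (data hs).c x) = 0 := by
      apply Additive.toMul.injective
      exact Subtype.ext h0
    have h7 : (data hs).l ((data hs).c u - (data hs).c x) = u := by
      have h8 := htwo u
      have : (data hs).l ((data hs).c u - (data hs).c x) =
          (u + (data hs).l ((data hs).c u - (data hs).c x)) + u - (u + u) := by abel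
      rw [this, h6, h8]
      simp
    have h9 := congrArg (data hs).c h7
    rw [(data hs).cl] at h9
    have h10 : (data hs).c x = 0 := by
      have : (data hs).c x = (data hs).c u - ((data hs).c u - (data hs).c x) := by abel
      rw [this, h9, sub_self]
    exact hx ((data hs).c_eq_zero h10)
  set y₁ : Additive A := Additive.ofMul (⟨x₁, hx₁⟩ : A) with hy₁
  set y₂ : Additive A := Additive.ofMul (⟨x₂, hx₂⟩ : A) with hy₂
  have hy10 : y₁ ≠ 0 := by
    intro h0
    apply h11
    have h5 : (⟨x₁, hx₁⟩ : A) = 1 := h0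
    simpa using congrArg Subtype.val h5
  have hy20 : y₂ ≠ 0 := by
    intro h0
    apply h21
    have h5 : (⟨x₂, hx₂⟩ : A) = 1 := h0
    simpa using congrArg Subtype.val h5
  have hy1u : y₁ ≠ u := by
    intro h0
    apply h1u
    have h5 : (⟨x₁, hx₁⟩ : A) = ⟨u₀, hu₀⟩ := h0
    simpa using congrArg Subtype.val h5
  have hy2u : y₂ ≠ u := by
    intro h0
    apply h2u
    have h5 : (⟨x₂, hx₂⟩ : A) = ⟨u₀, hu₀⟩ := h0
    simpa using congrArg Subtype.val h5
  have hy12 : y₁ ≠ y₂ := by
    intro h0
    apply h12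
    have h5 : (⟨x₁, hx₁⟩ : A) = ⟨x₂, hx₂⟩ := h0
    simpa using congrArg Subtype.val h5
  have hm1 := q_mem hs hu hy10 hy1u
  have hm2 := q_mem hs hu hy20 hy2u
  rw [← hQ] at hm1 hm2
  set q₁ : X := ((u + (data hs).l ((data hs).c u - (data hs).c y₁)).toMul : X) with hq₁
  set q₂ : X := ((u + (data hs).l ((data hs).c u - (data hs).c y₂)).toMul : X) with hq₂
  have hq1 : q₁ ≠ 1 := hne0 y₁ hy10
  have hq2 : q₂ ≠ 1 := hne0 y₂ hy20
  have hq12 : q₁ ≠ q₂ := by
    intro h0
    apply hy12
    apply q_inj hs (u := u)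
    apply Additive.toMul.injective
    exact Subtype.ext h0
  have hsub : ({1, q₁, q₂} : Set X) ⊆ (Q : Set X) := by
    rintro z (rfl | rfl | rfl)
    · exact one_mem Q
    · exact hm1
    · exact hm2
  have hcard3 : ({1, q₁, q₂} : Set X).encard = 3 :=
    Set.encard_eq_three.mpr ⟨1, q₁, q₂, hq1.symm, hq2.symm, hq12, rfl⟩
  have hle3 := Set.encard_le_encard hsub
  rw [hcard3] at hle3
  have h6 : (Q : Set X).encard = ENat.card Q := rfl
  rw [h6, ENat.card_eq_coe_natCard, hval.2] at hle3
  exact absurd hle3 (by decide)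

end big

/-- Let X be a special rank one group with abelian unipotent subgroups A and B, and H = N(A) ∩ N(B) its diagonal subgroup. Then either A has at most three elements and X is isomorphic to SL₂(2), SL₂(3) or PSL₂(3); or X = X' A with the commutator subgroup X' quasisimple and the commutator subgroup ⁅A, H⁆ having more than three elements. -/
theorem result {X : Type*} [Group X] {A B : Subgroup X} (h : Cfsg.IsRankOneGroup X A B)
    (hs : Cfsg.IsSpecialRankOnePair A B) (hab : Cfsg.HasAbelianUnipotents A B) :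
    (ENat.card A ≤ 3 ∧ (Nonempty (X ≃* Matrix.SpecialLinearGroup (Fin 2) (ZMod 2)) ∨
        Nonempty (X ≃* Matrix.SpecialLinearGroup (Fin 2) (ZMod 3)) ∨
        Nonempty (X ≃* Matrix.ProjectiveSpecialLinearGroup (Fin 2) (ZMod 3)))) ∨
    (commutator X ⊔ A = ⊤ ∧ Cfsg.IsQuasisimple (commutator X) ∧
      3 < ENat.card ↥(⁅A, Cfsg.rankOneDiagonal A B⁆ : Subgroup X)) := by
  rcases le_or_gt (ENat.card A) 3 with h3 | h3
  · exact Or.inl ⟨h3, small_case h hs hab h3⟩
  right
  have hAc := comm_A hab
  have hBc := comm_B hab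
  have hN : ⁅A, B⁆ ≤ commutator X := by
    rw [commutator_def]
    exact Subgroup.commutator_mono le_top le_top
  obtain ⟨a₂, ha₂, -, -, -, ha₂1, -, -, -⟩ := exists_two_of_card A h3 1 1
  obtain ⟨a₁, ha₁, a₃, ha₃, h13, h11, h12, h31, h32⟩ := exists_two_of_card A h3 1 a₂⁻¹
  obtain ⟨a, ha, ha1, haN⟩ := exists_mem_inf (commutator X) hs hAc hBc hN
    ⟨a₂, ha₂, ha₂1, a₁, ha₁, a₃, ha₃, h13, h11, h31,
      fun h => h12 (eq_inv_of_mul_eq_one_left h), fun h => h32 (eq_inv_of_mul_eq_one_left h)⟩
  have hA : A ≤ commutator X := le_of_mem_inf (commutator X) hs hAc hBc hN ha ha1 haN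
  obtain ⟨b, hP⟩ := exists_partner_left hs.1 ha ha1
  have hB : B ≤ commutator X := by
    rw [← conjBy_n_left hP]
    exact conjBy_le_of_normal hA _
  have htop : commutator X = ⊤ := by
    rw [eq_top_iff, ← h.1]
    exact sup_le hA hB
  refine ⟨by rw [htop, top_sup_eq], ?_, card_Q hs hab h3⟩
  have hq : IsQuasisimple X := (Cfsg.Agent.S5017.result h).2 ⟨htop⟩
  rw [htop]
  exact Cfsg.Agent.Lib.Components.Quasisimple.isQuasisimple_of_mulEquiv Subgroup.topEquiv.symm hq

end Cfsg.Agent.S5020
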