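import Cfsg.Statements.S5024
import Mathlib
import Cfsg.Agent.Lib.Amalgam.RankOne
import Cfsg.Agent.Lib.Amalgam.RootSet
import Cfsg.Agent.Lib.Amalgam.CommCase
import Cfsg.Agent.Lib.Amalgam.Lines

set_option autoImplicit false
open Cfsg

namespace Cfsg.Agent.S5024

open Cfsg.Agent.Lib.Amalgam.RankOne
open Cfsg.Agent.Lib.Amalgam.RootSet
open Cfsg.Agent.Lib.Amalgam.CommCase
open Cfsg.Agent.Lib.Amalgam.Lines

/-- Let S be a set of abstract root subgroups of G, A and C members of S, B a rank one partner of A in S and D a rank one partner of C in S. If the rank one group ⟨A, B⟩ is contained in ⟨C, D⟩ then the two coincide, and C and D are conjugates of A inside ⟨A, B⟩. -/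
theorem result {G : Type*} [Group G] {S : Set (Subgroup G)} (hS : Cfsg.IsRootSubgroupSet S)
    {A B C D : Subgroup G} (hA : A ∈ S) (hC : C ∈ S) (hB : B ∈ Cfsg.rankOnePartners S A) (hD : D ∈ Cfsg.rankOnePartners S C)
    (hle : A ⊔ B ≤ C ⊔ D) : A ⊔ B = C ⊔ D ∧ C ∈ Cfsg.unipotentSubgroups A B ∧ D ∈ Cfsg.unipotentSubgroups A B := by
  obtain ⟨hBS, hAB⟩ := hB
  obtain ⟨hDS, hCD⟩ := hD
  have hAm : A ∈ unipotentSubgroups C D := by
    apply mem_unipotent_of_le hS hC hDS hCD hA (le_sup_left.trans hle)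
    intro a ha ha1
    obtain ⟨b, hb, hb1⟩ := exists_ne_one_right hAB
    refine ⟨b, hle ((le_sup_right : B ≤ A ⊔ B) hb), fun hc => ha1 (eq_one_of_comm hAB ha hb hb1 hc)⟩
  have hBm : B ∈ unipotentSubgroups C D := by
    apply mem_unipotent_of_le hS hC hDS hCD hBS (le_sup_right.trans hle)
    intro b hb hb1
    obtain ⟨a, ha, ha1⟩ := exists_ne_one_left hAB
    refine ⟨a, hle ((le_sup_left : A ≤ A ⊔ B) ha), fun hc => ha1 (eq_one_of_comm hAB ha hb hb1 hc.symm)⟩
  have heq := unipotent_eq_of_mem_ne hCD hAm hBm hAB.ne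
  refine ⟨sup_eq_of_mem_ne hCD hAm hBm hAB.ne, ?_, ?_⟩
  · rw [heq]; exact left_mem_unipotent
  · rw [heq]; exact right_mem_unipotent hCD

end Cfsg.Agent.S5024
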