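import Cfsg.Statements.S5025
import Mathlib
import Cfsg.Agent.Lib.Amalgam.RankOne
import Cfsg.Agent.Lib.Amalgam.RootSet
import Cfsg.Agent.Lib.Amalgam.CommCase
import Cfsg.Agent.Lib.Amalgam.Lines

set_option autoImplicit false
open Cfsg

namespace Cfsg.Agent.S5025

open Cfsg.Agent.Lib.Amalgam.RankOne
open Cfsg.Agent.Lib.Amalgam.RootSet
open Cfsg.Agent.Lib.Amalgam.CommCase
open Cfsg.Agent.Lib.Amalgam.Lines

/-- Let S be a set of abstract root subgroups of G, A ∈ S and B a rank one partner of A in S. If z ≠ 1 centralizes ⟨A, B⟩, then no product z a with a a non-identity element of A is a non-identity element of a member of S. -/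
theorem result {G : Type*} [Group G] {S : Set (Subgroup G)} (hS : Cfsg.IsRootSubgroupSet S)
    {A B : Subgroup G} (hA : A ∈ S) (hB : B ∈ Cfsg.rankOnePartners S A) {z : G}
    (hz : z ∈ Subgroup.centralizer ((A ⊔ B : Subgroup G) : Set G)) (hz1 : z ≠ 1) :
    ∀ a ∈ A, a ≠ 1 → z * a ∉ Cfsg.rootElements S := by
  intro a ha ha1 ⟨hx1, F, hF, hx⟩
  have hzc : ∀ y ∈ A ⊔ B, z * y = y * z := fun y hy => (Subgroup.mem_centralizer_iff.1 hz y hy).symm
  exact root_central_translate hS hB.1 hB.2 (fun x hx => hzc x ((le_sup_left : A ≤ A ⊔ B) hx))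
    (fun x hx => hzc x ((le_sup_right : B ≤ A ⊔ B) hx)) hz1 ha ha1 hF hx hx1

end Cfsg.Agent.S5025
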