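import Cfsg.Statements.S5026
import Mathlib
import Cfsg.Agent.Lib.Amalgam.RankOne
import Cfsg.Agent.Lib.Amalgam.RootSet

set_option autoImplicit false
open Cfsg

namespace Cfsg.Agent.S5026

open Cfsg.Agent.Lib.Amalgam.RankOne
open Cfsg.Agent.Lib.Amalgam.RootSet

variable {G : Type*} [Group G] {S : Set (Subgroup G)}

/-- The main step: a member centralizing `a b` centralizes `a`. -/
lemma comm_of_comm_prod (hS : Cfsg.IsRootSubgroupSet S) (hdeg : Cfsg.IsDegenerateRootSet S)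
    {a b : G} {A₁ B₁ : Subgroup G} (hA₁ : A₁ ∈ S) (hB₁ : B₁ ∈ S) (ha : a ∈ A₁) (hb : b ∈ B₁)
    (ha1 : a ≠ 1) (hb1 : b ≠ 1) (hab : a * b = b * a) (hab1 : a * b ≠ 1)
    {C : Subgroup G} (hC : C ∈ S) (hcomm : ∀ c ∈ C, c * (a * b) = (a * b) * c) :
    ∀ c ∈ C, c * a = a * c := by
  by_contra hcon
  push Not at hcon
  obtain ⟨c₀, hc₀, hc₀a⟩ := hcon
  have hc₀b : c₀ * b ≠ b * c₀ := by
    intro h
    apply hc₀a
    have h1 := hcomm c₀ hc₀
    have h2 : c₀ * a * b = a * c₀ * b := by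
      calc c₀ * a * b = c₀ * (a * b) := mul_assoc _ _ _
        _ = a * b * c₀ := h1
        _ = a * (b * c₀) := mul_assoc _ _ _
        _ = a * (c₀ * b) := by rw [h]
        _ = a * c₀ * b := (mul_assoc _ _ _).symm
    exact mul_right_cancel h2
  -- trichotomy
  have tri : ∀ U ∈ S, ∀ V ∈ S, ⁅U, V⁆ = ⊥ ∨ Cfsg.IsRankOnePair U V := by
    intro U hU V hV
    rcases hS.pair U hU V hV with h | h | h
    · exact Or.inl h
    · exact Or.inr h
    · exact absurd h (hdeg U hU V hV)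
  have hCA : Cfsg.IsRankOnePair C A₁ := by
    rcases tri C hC A₁ hA₁ with h | h
    · exact absurd (comm_of_commutator_eq_bot h hc₀ ha) hc₀a
    · exact h
  have hCB : Cfsg.IsRankOnePair C B₁ := by
    rcases tri C hC B₁ hB₁ with h | h
    · exact absurd (comm_of_commutator_eq_bot h hc₀ hb) hc₀b
    · exact h
  have hBC := RankOnePair_symm hCB
  obtain ⟨c, hc, hc1⟩ := exists_ne_one_left hCA
  -- the case A₁ = B₁
  have hcase : A₁ ≠ B₁ := by
    rintro rfl
    exact hab1 (eq_one_of_comm' hCA hc (A₁.mul_mem ha hb) hc1 (hcomm c hc))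
  set u := c * a * c⁻¹ with hu
  set v := c * b * c⁻¹ with hv
  set z := a * b with hz
  have huv : u * v = z := by
    have e : u * v = c * z * c⁻¹ := by rw [hu, hv, hz]; group
    rw [e, hcomm c hc]; group
  have hvB : v ∈ conjBy B₁ c := conj_mem_conjBy hb
  have hv1 : v ≠ 1 := by
    intro he; apply hb1
    have e : b = c⁻¹ * v * c := by rw [hv]; group
    rw [e, he]; group
  have hu1 : u ≠ 1 := by
    intro he; apply ha1
    have e : a = c⁻¹ * u * c := by rw [hu]; group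
    rw [e, he]; group
  have hzb : z * b = b * z := by
    calc a * b * b = (b * a) * b := congrArg (· * b) hab
      _ = b * (a * b) := mul_assoc _ _ _
  -- conjugating `b` by u⁻¹ is conjugating by v
  have hconj : u⁻¹ * b * u⁻¹⁻¹ = v * b * v⁻¹ := by
    have e1 : u⁻¹ = v * z⁻¹ := by
      rw [← huv]; group
    have e2 : z⁻¹ * b * z = b := by
      rw [mul_assoc, ← hzb]; group
    rw [e1]
    calc v * z⁻¹ * b * (v * z⁻¹)⁻¹ = v * (z⁻¹ * b * z) * v⁻¹ := by group
      _ = v * b * v⁻¹ := by rw [e2]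
  have hB₁m : B₁ ∈ unipotentSubgroups B₁ C := left_mem_unipotent
  have hcX : c ∈ B₁ ⊔ C := (le_sup_right : C ≤ B₁ ⊔ C) hc
  have hB₁c : conjBy B₁ c ∈ unipotentSubgroups B₁ C := ⟨c, hcX, rfl⟩
  have hne1 : B₁ ≠ conjBy B₁ c := (conjBy_left_ne hBC hc hc1).symm
  -- the pair (A₁ conj c, B₁)
  have hA'S : conjBy A₁ c ∈ S := hS.conj_mem A₁ hA₁ c
  have huA' : u ∈ conjBy A₁ c := conj_mem_conjBy ha
  rcases tri _ hA'S _ hB₁ with h1 | h1
  · -- commuting: contradiction
    have h2 : u * b = b * u := comm_of_commutator_eq_bot h1 huA' hb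
    have h3 : v * b * v⁻¹ = b := by
      rw [← hconj, inv_inv]
      have : u⁻¹ * b = b * u⁻¹ := by
        have h4 : Commute u b := h2
        exact (h4.inv_left).eq
      rw [this]; group
    have h4 : v * b = b * v := by
      rw [mul_inv_eq_iff_eq_mul] at h3
      exact h3
    exact hv1 (eq_one_of_comm_of_mem_ne hBC hB₁c hB₁m hne1.symm hvB hb hb1 h4)
  · -- rank one
    have hu'1 : u⁻¹ ≠ 1 := by simpa using hu1
    obtain ⟨w, hw, -, hw2⟩ := cond h1 ((conjBy A₁ c).inv_mem huA') hu'1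
    -- conjBy B₁ v and conjBy B₁ u⁻¹ meet nontrivially
    have hvS : conjBy B₁ v ∈ S := hS.conj_mem B₁ hB₁ v
    have huS : conjBy B₁ u⁻¹ ∈ S := hS.conj_mem B₁ hB₁ u⁻¹
    have hx1 : v * b * v⁻¹ ∈ conjBy B₁ v := conj_mem_conjBy hb
    have hx2 : v * b * v⁻¹ ∈ conjBy B₁ u⁻¹ := by rw [← hconj]; exact conj_mem_conjBy hb
    have hx3 : v * b * v⁻¹ ≠ 1 := by
      intro he; apply hb1
      have e : b = v⁻¹ * (v * b * v⁻¹) * v := by group
      rw [e, he]; group
    have hti := ti hS huS (hS.conj_mem C hC v) (rankOnePair_conjBy hBC v)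
    have heq : conjBy B₁ v = conjBy B₁ u⁻¹ := by
      rcases hti with h2 | h2
      · exfalso
        have : v * b * v⁻¹ ∈ conjBy B₁ v ⊓ conjBy B₁ u⁻¹ := ⟨hx1, hx2⟩
        rw [h2] at this
        exact hx3 (by simpa using this)
      · exact h2
    -- so A₁ lies in Ω(B₁, C)
    have hA₁m : A₁ ∈ unipotentSubgroups B₁ C := by
      have h2 : conjBy A₁ c = conjBy B₁ (w⁻¹ * v) := by
        rw [← conjBy_conjBy, heq, ← hw2, conjBy_inv_conjBy]
      have h3 : A₁ = conjBy B₁ (c⁻¹ * (w⁻¹ * v)) := by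
        rw [← conjBy_conjBy, ← h2, conjBy_inv_conjBy]
      rw [h3]
      refine ⟨_, ?_, rfl⟩
      have hvX : v ∈ B₁ ⊔ C := by
        rw [hv]
        exact (B₁ ⊔ C).mul_mem ((B₁ ⊔ C).mul_mem hcX ((le_sup_left : B₁ ≤ B₁ ⊔ C) hb)) ((B₁ ⊔ C).inv_mem hcX)
      exact (B₁ ⊔ C).mul_mem ((B₁ ⊔ C).inv_mem hcX)
        ((B₁ ⊔ C).mul_mem ((B₁ ⊔ C).inv_mem ((le_sup_left : B₁ ≤ B₁ ⊔ C) hw)) hvX)
    exact ha1 (eq_one_of_comm_of_mem_ne hBC hA₁m hB₁m hcase ha hb hb1 hab)

/-- Let S be a degenerate set of abstract root subgroups of G (a set of abstract transvection groups) and let a, b be commuting non-identity elements of members of S with a b ≠ 1. Then the members of S centralizing a b are exactly those centralizing both a and b. -/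
theorem result {G : Type*} [Group G] {S : Set (Subgroup G)} (hS : Cfsg.IsRootSubgroupSet S) (hdeg : Cfsg.IsDegenerateRootSet S)
    {a b : G} (ha : a ∈ Cfsg.rootElements S) (hb : b ∈ Cfsg.rootElements S) (hab : a * b = b * a) (hab1 : a * b ≠ 1) :
    Cfsg.centralizingMembers S (Subgroup.zpowers (a * b)) =
      Cfsg.centralizingMembers S (Subgroup.zpowers a) ∩ Cfsg.centralizingMembers S (Subgroup.zpowers b) := by
  obtain ⟨ha1, A₁, hA₁, haA⟩ := ha
  obtain ⟨hb1, B₁, hB₁, hbB⟩ := hb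
  ext C
  simp only [Cfsg.centralizingMembers, Set.mem_setOf_eq, Set.mem_inter_iff, le_centralizer_zpowers_iff]
  constructor
  · rintro ⟨hC, hcomm⟩
    have h1 := comm_of_comm_prod hS hdeg hA₁ hB₁ haA hbB ha1 hb1 hab hab1 hC hcomm
    refine ⟨⟨hC, h1⟩, hC, ?_⟩
    intro c hc
    have h2 := hcomm c hc
    have h3 := h1 c hc
    have h4 : a * (c * b) = a * (b * c) := by
      calc a * (c * b) = a * c * b := (mul_assoc _ _ _).symm
        _ = c * a * b := by rw [h3]
        _ = c * (a * b) := mul_assoc _ _ _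
        _ = a * b * c := h2
        _ = a * (b * c) := mul_assoc _ _ _
    exact mul_left_cancel h4
  · rintro ⟨⟨hC, h1⟩, -, h2⟩
    refine ⟨hC, ?_⟩
    intro c hc
    calc c * (a * b) = (c * a) * b := (mul_assoc _ _ _).symm
      _ = (a * c) * b := by rw [h1 c hc]
      _ = a * (c * b) := mul_assoc _ _ _
      _ = a * (b * c) := by rw [h2 c hc]
      _ = a * b * c := (mul_assoc _ _ _).symm

end Cfsg.Agent.S5026
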