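import Cfsg.Statements.S5027
import Mathlib
import Cfsg.Agent.Lib.Amalgam.RankOne
import Cfsg.Agent.Lib.Amalgam.RootSet

set_option autoImplicit false
open Cfsg

namespace Cfsg.Agent.S5027

open Cfsg.Agent.Lib.Amalgam.RankOne
open Cfsg.Agent.Lib.Amalgam.RootSet

/-- Let S be a set of abstract root subgroups of G such that every member of S has a rank one partner in S (the graph of rank one pairs on S has no isolated vertex). Then the second centre of G equals its centre. -/
theorem result {G : Type*} [Group G] {S : Set (Subgroup G)} (hS : Cfsg.IsRootSubgroupSet S)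
    (hF : ∀ A ∈ S, ¬ Cfsg.IsIsolatedIn (Cfsg.FAdj S) S A) : Subgroup.upperCentralSeries G 2 = Subgroup.center G := by
  apply le_antisymm
  · intro x hx
    have hcen : ∀ y, x * y * x⁻¹ * y⁻¹ ∈ Subgroup.center G := by
      intro y
      have := (Subgroup.mem_upperCentralSeries_succ_iff (G := G) (n := 1) (x := x)).1 hx y
      rwa [Subgroup.upperCentralSeries_one] at this
    have hcz : ∀ y u, (x * y * x⁻¹ * y⁻¹) * u = u * (x * y * x⁻¹ * y⁻¹) := fun y u =>
      (Subgroup.mem_center_iff.1 (hcen y) u).symm
    have hval : ∀ y, x * y * x⁻¹ = (x * y * x⁻¹ * y⁻¹) * y := fun y => by group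
    have hmain : ∀ A ∈ S, ∀ a ∈ A, x * a = a * x := by
      intro A hA
      obtain ⟨B, hB, hAB⟩ := exists_partner_of_not_isolated (hF A hA) hA
      have hAc := hS.commutative A hA
      have hfix : conjBy A x = A := by
        by_contra hne
        set A' := conjBy A x with hA'
        have hA'S : A' ∈ S := hS.conj_mem A hA x
        obtain ⟨a, ha, ha1⟩ := exists_ne_one_left hAB
        obtain ⟨b, hb, hb1⟩ := exists_ne_one_right hAB
        have ha' : x * a * x⁻¹ ∈ A' := conj_mem_conjBy ha
        have ha'1 : x * a * x⁻¹ ≠ 1 := by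
          intro he; apply ha1
          have e : a = x⁻¹ * (x * a * x⁻¹) * x := by group
          rw [e, he]; group
        set z := x * a * x⁻¹ * a⁻¹ with hz
        have hzval : x * a * x⁻¹ = z * a := hval a
        have hzc : ∀ u, z * u = u * z := hcz a
        rcases hS.pair A' hA'S B hB with h1 | h1 | h1
        · -- commuting: a commutes with b
          have h2 : (x * a * x⁻¹) * b = b * (x * a * x⁻¹) := comm_of_commutator_eq_bot h1 ha' hb
          rw [hzval] at h2
          exact ha1 (eq_one_of_comm hAB ha hb hb1 (comm_of_central_mul hzc h2))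
        · -- rank one
          obtain ⟨b', hb', -, hab'⟩ := cond h1 ha' ha'1
          obtain ⟨b₁, hb₁, -, hab₁⟩ := cond hAB ha ha1
          have h2 : conjBy B (x * a * x⁻¹) = conjBy B a := by
            rw [hzval, ← conjBy_conjBy, conjBy_eq_self_of_comm (fun u _ => hzc u)]
          have h3 : A' = conjBy A (b'⁻¹ * b₁) := by
            have h4 : conjBy A' b' = conjBy A b₁ := by rw [hab', h2, hab₁]
            rw [← conjBy_conjBy, ← h4, conjBy_inv_conjBy]
          have hm1 : A' ∈ unipotentSubgroups A B := by
            rw [h3]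
            exact ⟨_, (le_sup_right : B ≤ A ⊔ B) (B.mul_mem (B.inv_mem hb') hb₁), rfl⟩
          refine ha'1 (eq_one_of_comm_of_mem_ne hAB hm1 left_mem_unipotent hne ha' ha ha1 ?_)
          rw [hzval]
          calc z * a * a = (a * z) * a := by rw [hzc a]
            _ = a * (z * a) := mul_assoc _ _ _
        · -- commutator case
          obtain ⟨-, h2, -, -⟩ := h1
          have h3 : (x * a * x⁻¹) * b * (x * a * x⁻¹)⁻¹ * b⁻¹ ∈ ⁅A', B⁆ :=
            Subgroup.commutator_mem_commutator ha' hb
          have h4 := h2 _ h3 b ((le_sup_right : B ≤ A' ⊔ B) hb)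
          have h5 : (x * a * x⁻¹) * b * (x * a * x⁻¹)⁻¹ = a * b * a⁻¹ := by
            rw [hzval]
            exact conj_central_mul hzc
          rw [h5] at h4
          have h6 : (a * b * a⁻¹) * b = b * (a * b * a⁻¹) := by
            have h7 : a * b * a⁻¹ * b⁻¹ * b = a * b * a⁻¹ := by group
            have h8 : b * (a * b * a⁻¹ * b⁻¹) = b * (a * b * a⁻¹) * b⁻¹ := by group
            rw [h7, h8] at h4
            exact eq_mul_inv_iff_mul_eq.1 h4
          have hm2 : conjBy B a ∈ unipotentSubgroups A B := (mem_unipotent_iff hAB).2 (Or.inr ⟨a, ha, rfl⟩)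
          have h9 := eq_one_of_comm_of_mem_ne hAB hm2 (right_mem_unipotent hAB) (conjBy_right_ne hAB ha ha1)
            (conj_mem_conjBy hb) hb hb1 h6
          apply hb1
          have e : b = a⁻¹ * (a * b * a⁻¹) * a := by group
          rw [e, h9]; group
      intro a ha
      have hz1 : x * a * x⁻¹ * a⁻¹ ∈ A := by
        have h1 : x * a * x⁻¹ ∈ conjBy A x := conj_mem_conjBy ha
        rw [hfix] at h1
        exact A.mul_mem h1 (A.inv_mem ha)
      have hz2 : conjBy B (x * a * x⁻¹ * a⁻¹) = B := conjBy_eq_self_of_comm (fun u _ => hcz a u)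
      by_cases hz3 : x * a * x⁻¹ * a⁻¹ = 1
      · exact comm_of_commutator_eq_one hz3
      · exact absurd hz2 (conjBy_right_ne hAB hz1 hz3)
    rw [Subgroup.mem_center_iff]
    intro g
    have hle : (⨆ A ∈ S, A) ≤ Subgroup.centralizer {x} := by
      apply iSup₂_le
      intro A hA a ha
      rw [Subgroup.mem_centralizer_singleton_iff]
      exact (hmain A hA a ha).symm
    rw [hS.generates] at hle
    have := hle (Subgroup.mem_top g)
    rw [Subgroup.mem_centralizer_singleton_iff] at this
    exact this
  · rw [← Subgroup.upperCentralSeries_one]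
    exact Subgroup.upperCentralSeries_mono G (by norm_num)

end Cfsg.Agent.S5027
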