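import Cfsg.Statements.S5031
import Mathlib
import Cfsg.Agent.Lib.Amalgam.Components

set_option autoImplicit false
open Cfsg

namespace Cfsg.Agent.S5031

open Cfsg.Agent.Lib.Amalgam.RankOne
open Cfsg.Agent.Lib.Amalgam.RootSet
open Cfsg.Agent.Lib.Amalgam.CommCase
open Cfsg.Agent.Lib.Amalgam.Lines
open Cfsg.Agent.Lib.Amalgam.Components

/-- Let S be a set of abstract root subgroups of G and let A, B ∈ S lie in different connected components of the graph of rank one pairs on S, each component having more than one member. Then B is not a line partner of A. -/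
theorem result {G : Type*} [Group G] {S : Set (Subgroup G)} (hS : Cfsg.IsRootSubgroupSet S)
    {A B : Subgroup G} (hA : A ∈ S) (hB : B ∈ S)
    (hne : Cfsg.componentOf (Cfsg.FAdj S) S A ≠ Cfsg.componentOf (Cfsg.FAdj S) S B)
    (hA2 : ∃ A' ∈ Cfsg.componentOf (Cfsg.FAdj S) S A, A' ≠ A) (hB2 : ∃ B' ∈ Cfsg.componentOf (Cfsg.FAdj S) S B, B' ≠ B) :
    B ∉ Cfsg.linePartners S A := by
  rintro ⟨⟨hBS, hBA, hAB⟩, hpart⟩
  obtain ⟨A', ⟨-, hrA⟩, hA'⟩ := hA2
  obtain ⟨B', ⟨-, hrB⟩, hB'⟩ := hB2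
  obtain ⟨D, hD, hAD⟩ := exists_partner_of_reach hrA hA'
  obtain ⟨D₂, hD₂, hBD₂⟩ := exists_partner_of_reach hrB hB'
  obtain ⟨a, ha, ha1⟩ := exists_ne_one_left hAD
  obtain ⟨b, hb, hb1⟩ := exists_ne_one_left hBD₂
  have hab : a * b = b * a := comm_of_commutator_eq_bot hAB ha hb
  have hAB' : ⁅B, A⁆ = ⊥ := by rw [Subgroup.commutator_comm]; exact hAB
  have hinf : A ⊓ B = ⊥ := hpart.2.2 A ⟨hA, le_sup_left⟩ B ⟨hBS, le_sup_right⟩ hBA.symm
  have hx1 : a * b ≠ 1 := by
    intro he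
    have h1 : a ∈ A ⊓ B := ⟨ha, by
      have : a = b⁻¹ := eq_inv_of_mul_eq_one_left he
      rw [this]; exact B.inv_mem hb⟩
    rw [hinf] at h1
    exact ha1 (by simpa using h1)
  obtain ⟨E, hE, hxE⟩ := hpart.2.1 (a * b) (Subgroup.mul_mem_sup ha hb) hx1
  have hES : E ∈ S := hE.1
  apply hne
  apply comp_eq
  rcases line_rank_one hS hA hBS hES hD hAD hAB ha ha1 hb hb1 hxE hx1 with h1 | h1
  · exact (reach_of_adj hA hD hAD).trans (reach_of_adj hD hBS (RankOnePair_symm h1))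
  · rcases line_rank_one hS hBS hA hES hD₂ hBD₂ hAB' hb hb1 ha ha1 (by rw [← hab]; exact hxE)
      (by rw [← hab]; exact hx1) with h2 | h2
    · exact (reach_of_adj hA hD₂ h2).trans (reach_of_adj hD₂ hBS (RankOnePair_symm hBD₂))
    · exact (reach_of_adj hA hD hAD).trans ((reach_of_adj hD hES (RankOnePair_symm h1)).trans
        ((reach_of_adj hES hD₂ h2).trans (reach_of_adj hD₂ hBS (RankOnePair_symm hBD₂))))

end Cfsg.Agent.S5031
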