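import Cfsg.Statements.S5032
import Mathlib
import Cfsg.Agent.Lib.Amalgam.Components

set_option autoImplicit false
open Cfsg

namespace Cfsg.Agent.S5032

open Cfsg.Agent.Lib.Amalgam.RankOne
open Cfsg.Agent.Lib.Amalgam.RootSet
open Cfsg.Agent.Lib.Amalgam.CommCase
open Cfsg.Agent.Lib.Amalgam.Lines
open Cfsg.Agent.Lib.Amalgam.Components

/-- Let S be a set of abstract root subgroups of G with more than one member. Then the graph of rank one pairs on S is connected if and only if S is a single conjugacy class of G and some member of S has a rank one partner in S. -/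
theorem result {G : Type*} [Group G] {S : Set (Subgroup G)} (hS : Cfsg.IsRootSubgroupSet S) (h2 : ∃ A ∈ S, ∃ B ∈ S, A ≠ B) :
    Cfsg.IsConnectedFamily (Cfsg.FAdj S) S ↔
      (Cfsg.IsConjClassOfSubgroups S ∧ ∃ A ∈ S, ¬ Cfsg.IsIsolatedIn (Cfsg.FAdj S) S A) := by
  constructor
  · intro hc
    obtain ⟨A, hA, B, hB, hne⟩ := h2
    refine ⟨⟨⟨A, hA⟩, fun X hX Y hY => conj_of_reach (hc X hX Y hY)⟩, A, hA, ?_⟩
    obtain ⟨D, hD, hAD⟩ := exists_partner_of_reach (hc A hA B hB) hne.symm
    exact not_isolated_of_partner hD hA hAD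
  · rintro ⟨h1, h3⟩
    exact reach_of_class hS h1 h3

end Cfsg.Agent.S5032
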