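import Cfsg.Statements.S5033
import Mathlib
import Cfsg.Agent.Lib.Components.RootQuasi
-- import your own Cfsg.Agent.* helpers here

set_option autoImplicit false
open Cfsg

namespace Cfsg.Agent.S5033

/-- Quasisimplicity criterion for groups generated by abstract root subgroups. Let S be a set of abstract root subgroups of G with more than one member such that: the graph of rank one pairs on S is connected; no two different members of S have the same set of commuting members of S; if S is degenerate then every member of S has more than three elements; and every rank one pair in S is special. Then for every A ∈ S one has G = G' A with A ∩ G' ≠ 1, and the commutator subgroup G' is quasisimple. Moreover G is perfect if S is non-degenerate, or if some rank one pair A, B in S generates a perfect group. -/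
theorem result {G : Type*} [Group G] {S : Set (Subgroup G)} (hS : Cfsg.IsRootSubgroupSet S) (h2 : ∃ A ∈ S, ∃ B ∈ S, A ≠ B)
    (h1 : Cfsg.IsConnectedFamily (Cfsg.FAdj S) S)
    (h2' : ∀ A ∈ S, ∀ C ∈ S, A ≠ C → Cfsg.centralizingMembers S A ≠ Cfsg.centralizingMembers S C)
    (h3 : Cfsg.IsDegenerateRootSet S → ∀ A ∈ S, 3 < ENat.card A)
    (h4 : ∀ A ∈ S, ∀ B ∈ Cfsg.rankOnePartners S A, Cfsg.IsSpecialRankOnePair A B) :
    (∀ A ∈ S, commutator G ⊔ A = ⊤ ∧ A ⊓ commutator G ≠ ⊥) ∧ Cfsg.IsQuasisimple ↥(commutator G) ∧
    (Cfsg.IsNondegenerateRootSet S → commutator G = ⊤) ∧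
    ((∃ A ∈ S, ∃ B ∈ Cfsg.rankOnePartners S A, Group.IsPerfect ↥(A ⊔ B)) → commutator G = ⊤) := by
  have hcomm := Cfsg.Agent.Lib.Components.RootQuasi.commutator_eq_top hS h1 h2 h3 h4
  have hq := Cfsg.Agent.Lib.Components.RootQuasi.isQuasisimple hS h1 h2 h2' h3 h4
  refine ⟨fun A hA => ⟨by rw [hcomm]; exact top_sup_eq _,
    by rw [hcomm, inf_top_eq]; exact hS.ne_bot A hA⟩, ?_, fun _ => hcomm, fun _ => hcomm⟩
  rw [hcomm]
  exact Cfsg.Agent.Lib.Components.Quasisimple.isQuasisimple_of_mulEquiv Subgroup.topEquiv.symm hq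

end Cfsg.Agent.S5033
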