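import Cfsg.Statements.S5043
import Mathlib
import Cfsg.Agent.Lib.Classical.Herm.RootTv
import Cfsg.Agent.Lib.Linalg.AutPSLRoot
import Cfsg.Agent.Lib.Classical.Lin.Transvections
import Cfsg.Agent.Lib.Amalgam.RootSet

set_option autoImplicit false
open Matrix
open Cfsg

namespace Cfsg.Agent.S5043

open Cfsg.Agent.Lib.Linalg.AutPSLBasic Cfsg.Agent.Lib.Linalg.AutPSLRoot
open Cfsg.Agent.Lib.Classical.Herm.RootTv.Sys (xx yy val_mul val_xx val_yy)

section Aux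

variable {k : Type*} [Field k] {N : ℕ}

local notation "SLN" => Matrix.SpecialLinearGroup (Fin N) k

/-- The root group. -/
def XS (v f : Fin N → k) (h : f ⬝ᵥ v = 0) : Subgroup SLN where
  carrier := Set.range (rt v f h)
  mul_mem' := by
    rintro _ _ ⟨a, rfl⟩ ⟨b, rfl⟩
    exact ⟨a + b, rt_add v f h a b⟩
  one_mem' := ⟨0, rt_zero v f h⟩
  inv_mem' := by
    rintro _ ⟨a, rfl⟩
    exact ⟨-a, rt_neg v f h a⟩

theorem mem_XS {v f : Fin N → k} {h : f ⬝ᵥ v = 0} {t : SLN} : t ∈ XS v f h ↔ ∃ c, rt v f h c = t := Iff.rfl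

theorem XS_congr {v v' f f' : Fin N → k} (h : f ⬝ᵥ v = 0) (e1 : v = v') (e2 : f = f') :
    XS v f h = XS v' f' (e1 ▸ e2 ▸ h) := by
  subst e1 e2
  rfl

theorem rt_mem (v f : Fin N → k) (h : f ⬝ᵥ v = 0) (c : k) : rt v f h c ∈ XS v f h := ⟨c, rfl⟩

theorem mulVec_rt (v f : Fin N → k) (h : f ⬝ᵥ v = 0) (c : k) (u : Fin N → k) :
    (rt v f h c : Matrix (Fin N) (Fin N) k) *ᵥ u = u + (c * (f ⬝ᵥ u)) • v := by
  rw [rt_coe, Matrix.add_mulVec, Matrix.one_mulVec, Matrix.smul_mulVec, Matrix.vecMulVec_mulVec]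
  congr 1
  ext i
  simp [mul_comm, mul_left_comm]

theorem vecMul_rt (v f : Fin N → k) (h : f ⬝ᵥ v = 0) (c : k) (u : Fin N → k) :
    u ᵥ* (rt v f h c : Matrix (Fin N) (Fin N) k) = u + (c * (u ⬝ᵥ v)) • f := by
  rw [rt_coe, Matrix.vecMul_add, Matrix.vecMul_one, Matrix.vecMul_smul, Matrix.vecMul_vecMulVec]
  congr 1
  ext i
  simp [mul_comm, mul_left_comm]

theorem coe_mul_inv' (g : SLN) : (g : Matrix (Fin N) (Fin N) k) * ((g⁻¹ : SLN) : Matrix (Fin N) (Fin N) k) = 1 := by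
  rw [← Matrix.SpecialLinearGroup.coe_mul, mul_inv_cancel, Matrix.SpecialLinearGroup.coe_one]

theorem coe_inv_mul' (g : SLN) : ((g⁻¹ : SLN) : Matrix (Fin N) (Fin N) k) * (g : Matrix (Fin N) (Fin N) k) = 1 := by
  rw [← Matrix.SpecialLinearGroup.coe_mul, inv_mul_cancel, Matrix.SpecialLinearGroup.coe_one]

theorem dot_conj (g : SLN) {v f : Fin N → k} (h : f ⬝ᵥ v = 0) :
    (f ᵥ* ((g⁻¹ : SLN) : Matrix (Fin N) (Fin N) k)) ⬝ᵥ ((g : Matrix (Fin N) (Fin N) k) *ᵥ v) = 0 := by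
  rw [← Matrix.dotProduct_mulVec, Matrix.mulVec_mulVec, coe_inv_mul', Matrix.one_mulVec, h]

theorem conj_rt (g : SLN) {v f : Fin N → k} (h : f ⬝ᵥ v = 0) (c : k) :
    g * rt v f h c * g⁻¹ = rt ((g : Matrix (Fin N) (Fin N) k) *ᵥ v) (f ᵥ* ((g⁻¹ : SLN) : Matrix (Fin N) (Fin N) k)) (dot_conj g h) c := by
  apply Subtype.ext
  have h1 := coe_mul_inv' g
  simp only [Matrix.SpecialLinearGroup.coe_mul, rt_coe, Matrix.mul_add, Matrix.add_mul, Matrix.mul_one, h1,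
    Matrix.mul_smul, Matrix.smul_mul, Matrix.mul_vecMulVec, Matrix.vecMulVec_mul]

theorem conj_XS (g : SLN) {v f : Fin N → k} (h : f ⬝ᵥ v = 0) :
    conjBy (XS v f h) g = XS ((g : Matrix (Fin N) (Fin N) k) *ᵥ v) (f ᵥ* ((g⁻¹ : SLN) : Matrix (Fin N) (Fin N) k)) (dot_conj g h) := by
  ext t
  constructor
  · rintro ⟨_, ⟨c, rfl⟩, rfl⟩
    exact ⟨c, (conj_rt g h c).symm⟩
  · rintro ⟨c, rfl⟩
    exact ⟨_, ⟨c, rfl⟩, conj_rt g h c⟩

theorem XS_smul {v f : Fin N → k} (h : f ⬝ᵥ v = 0) {a b : k} (ha : a ≠ 0) (hb : b ≠ 0) :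
    XS (a • v) (b • f) (dot_smul_smul h a b) = XS v f h := by
  ext t
  constructor
  · rintro ⟨c, rfl⟩
    exact ⟨c * a * b, (rt_smul v f h a b c).symm⟩
  · rintro ⟨c, rfl⟩
    refine ⟨c * a⁻¹ * b⁻¹, ?_⟩
    rw [rt_smul v f h]
    congr 1
    field_simp

/-- A nonzero vector is the image of the first basis vector. -/
theorem exists_map_e0 [NeZero N] {i₁ : Fin N} (h01 : (0 : Fin N) ≠ i₁) {x : Fin N → k} (hx : x ≠ 0) :
    ∃ g : SLN, (g : Matrix (Fin N) (Fin N) k) *ᵥ eb 0 = x := by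
  classical
  have key : ∀ x : Fin N → k, x 0 ≠ 0 → ∃ g : SLN, (g : Matrix (Fin N) (Fin N) k) *ᵥ eb 0 = x := by
    intro x hx0
    let M : Matrix (Fin N) (Fin N) k := 1 + vecMulVec (x - eb 0) (eb 0)
    let D : Matrix (Fin N) (Fin N) k := Matrix.diagonal (fun i => if i = i₁ then (x 0)⁻¹ else 1)
    have hM : M.det = x 0 := by
      show (1 + vecMulVec (x - eb 0) (eb 0 : Fin N → k)).det = _
      rw [vecMulVec_eq Unit, det_one_add_mul_comm]
      simp [Matrix.mul_apply, dotProduct, Pi.single_apply]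
    have hD : D.det = (x 0)⁻¹ := by
      rw [Matrix.det_diagonal, Finset.prod_ite_eq' Finset.univ i₁ (fun _ => (x 0)⁻¹)]
      simp
    refine ⟨⟨M * D, by rw [Matrix.det_mul, hM, hD, mul_inv_cancel₀ hx0]⟩, ?_⟩
    show (M * D) *ᵥ eb 0 = x
    rw [← Matrix.mulVec_mulVec]
    have h1 : D *ᵥ eb 0 = eb 0 := by
      ext i
      simp only [D, Matrix.mulVec_diagonal, eb, Pi.single_apply]
      by_cases hi : i = 0
      · subst hi
        simp [h01]
      · simp [hi]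
    rw [h1]
    simp only [M, Matrix.add_mulVec, Matrix.one_mulVec, Matrix.vecMulVec_mulVec]
    ext i
    simp [eb, dotProduct, Pi.single_apply]
  by_cases h0 : x 0 = 0
  · obtain ⟨i, hi⟩ := Function.ne_iff.1 hx
    have hi0 : i ≠ 0 := by
      rintro rfl
      exact hi h0
    have hd : (eb i : Fin N → k) ⬝ᵥ eb 0 = 0 := eb_dot hi0.symm
    obtain ⟨g, hg⟩ := key (x + (1 * ((eb i : Fin N → k) ⬝ᵥ x)) • eb 0) (by
      simp [h0, eb, dotProduct, Pi.single_apply]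
      exact hi)
    refine ⟨rt (eb 0) (eb i) hd (-1) * g, ?_⟩
    rw [Matrix.SpecialLinearGroup.coe_mul, ← Matrix.mulVec_mulVec, hg, mulVec_rt]
    simp [dotProduct_add, dotProduct_smul, hd]
  · exact key x h0

/-- A nonzero functional vanishing at the first basis vector. -/
theorem exists_row_e1 [NeZero N] {i₁ i₂ : Fin N} (h01 : (0 : Fin N) ≠ i₁) (h02 : (0 : Fin N) ≠ i₂) (h12 : i₁ ≠ i₂)
    {φ : Fin N → k} (hφ : φ ≠ 0) (h0 : φ 0 = 0) :
    ∃ h : SLN, (h : Matrix (Fin N) (Fin N) k) *ᵥ eb 0 = eb 0 ∧ eb i₁ ᵥ* (h : Matrix (Fin N) (Fin N) k) = φ := by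
  classical
  have key : ∀ φ : Fin N → k, φ 0 = 0 → φ i₁ ≠ 0 →
      ∃ h : SLN, (h : Matrix (Fin N) (Fin N) k) *ᵥ eb 0 = eb 0 ∧ eb i₁ ᵥ* (h : Matrix (Fin N) (Fin N) k) = φ := by
    intro φ h0 h1
    let M : Matrix (Fin N) (Fin N) k := 1 + vecMulVec (eb i₁) (φ - eb i₁)
    let D : Matrix (Fin N) (Fin N) k := Matrix.diagonal (fun i => if i = i₂ then (φ i₁)⁻¹ else 1)
    have hM : M.det = φ i₁ := by
      show (1 + vecMulVec (eb i₁ : Fin N → k) (φ - eb i₁)).det = _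
      rw [vecMulVec_eq Unit, det_one_add_mul_comm]
      simp [Matrix.mul_apply, dotProduct, Pi.single_apply]
    have hD : D.det = (φ i₁)⁻¹ := by
      rw [Matrix.det_diagonal, Finset.prod_ite_eq' Finset.univ i₂ (fun _ => (φ i₁)⁻¹)]
      simp
    refine ⟨⟨D * M, by rw [Matrix.det_mul, hM, hD, inv_mul_cancel₀ h1]⟩, ?_, ?_⟩
    · show (D * M) *ᵥ eb 0 = eb 0
      rw [← Matrix.mulVec_mulVec]
      have h3 : (φ - eb i₁) ⬝ᵥ (eb 0 : Fin N → k) = 0 := by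
        rw [dotProduct_single]
        simp [Pi.single_apply, h01, h0]
      have h4 : M *ᵥ eb 0 = eb 0 := by
        simp only [M, Matrix.add_mulVec, Matrix.one_mulVec]
        rw [Matrix.vecMulVec_mulVec, h3]
        simp
      rw [h4]
      ext i
      simp only [D, Matrix.mulVec_diagonal, eb, Pi.single_apply]
      by_cases hi : i = 0
      · subst hi
        simp [h02]
      · simp [hi]
    · show eb i₁ ᵥ* (D * M) = φ
      rw [← Matrix.vecMul_vecMul]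
      have h3 : eb i₁ ᵥ* D = eb i₁ := by
        ext i
        simp only [D, Matrix.vecMul_diagonal, eb, Pi.single_apply]
        by_cases hi : i = i₁
        · subst hi
          simp [h12]
        · simp [hi]
      rw [h3]
      simp only [M, Matrix.vecMul_add, Matrix.vecMul_one]
      rw [Matrix.vecMul_vecMulVec, single_dotProduct]
      ext i
      simp
  by_cases h1 : φ i₁ = 0
  · obtain ⟨j, hj⟩ := Function.ne_iff.1 hφ
    have hj' : φ j ≠ 0 := hj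
    have hj0 : j ≠ 0 := by
      rintro rfl
      exact hj' h0
    have hji : j ≠ i₁ := by
      rintro rfl
      exact hj' h1
    have hd : (eb i₁ : Fin N → k) ⬝ᵥ eb j = 0 := eb_dot hji
    let τ := rt (eb j) (eb i₁) hd
    have e1 : φ ᵥ* (τ 1 : Matrix (Fin N) (Fin N) k) = φ + (φ j) • eb i₁ := by
      rw [vecMul_rt, dotProduct_single]
      simp
    obtain ⟨h', h₁, h₂⟩ := key (φ + (φ j) • eb i₁) (by simp [Pi.single_apply, h0, h01]) (by simp [h1, hj'])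
    refine ⟨h' * τ (-1), ?_, ?_⟩
    · rw [Matrix.SpecialLinearGroup.coe_mul, ← Matrix.mulVec_mulVec, mulVec_rt, eb_dot h01, mul_zero, zero_smul,
        add_zero, h₁]
    · rw [Matrix.SpecialLinearGroup.coe_mul, ← Matrix.vecMul_vecMul, h₂, vecMul_rt, dotProduct_single]
      ext i
      simp [Pi.single_apply, hji]
  · exact key φ h0 h1

/-- The flag transitivity. -/
theorem exists_flag [NeZero N] {i₁ i₂ : Fin N} (h01 : (0 : Fin N) ≠ i₁) (h02 : (0 : Fin N) ≠ i₂) (h12 : i₁ ≠ i₂)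
    {x φ : Fin N → k} (hx : x ≠ 0) (hφ : φ ≠ 0) (hd : φ ⬝ᵥ x = 0) :
    ∃ g : SLN, (g : Matrix (Fin N) (Fin N) k) *ᵥ eb 0 = x ∧ eb i₁ ᵥ* ((g⁻¹ : SLN) : Matrix (Fin N) (Fin N) k) = φ := by
  obtain ⟨g₁, hg₁⟩ := exists_map_e0 h01 hx
  have hφ₁ : φ ᵥ* (g₁ : Matrix (Fin N) (Fin N) k) ≠ 0 := by
    intro e
    apply hφ
    have h9 := congrArg (fun w => w ᵥ* ((g₁⁻¹ : SLN) : Matrix (Fin N) (Fin N) k)) e
    rw [Matrix.vecMul_vecMul, coe_mul_inv', Matrix.vecMul_one, Matrix.zero_vecMul] at h9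
    exact h9
  have h0 : (φ ᵥ* (g₁ : Matrix (Fin N) (Fin N) k)) 0 = 0 := by
    have : (φ ᵥ* (g₁ : Matrix (Fin N) (Fin N) k)) ⬝ᵥ eb 0 = 0 := by
      rw [← Matrix.dotProduct_mulVec, hg₁, hd]
    rw [dotProduct_single] at this
    simpa using this
  obtain ⟨h, h₁, h₂⟩ := exists_row_e1 h01 h02 h12 hφ₁ h0
  refine ⟨g₁ * h⁻¹, ?_, ?_⟩
  · rw [Matrix.SpecialLinearGroup.coe_mul, ← Matrix.mulVec_mulVec]
    have : ((h⁻¹ : SLN) : Matrix (Fin N) (Fin N) k) *ᵥ eb 0 = eb 0 := by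
      conv_lhs => rw [← h₁]
      rw [Matrix.mulVec_mulVec, coe_inv_mul', Matrix.one_mulVec]
    rw [this, hg₁]
  · rw [_root_.mul_inv_rev, inv_inv, Matrix.SpecialLinearGroup.coe_mul, ← Matrix.vecMul_vecMul, h₂, Matrix.vecMul_vecMul,
      coe_mul_inv', Matrix.vecMul_one]

/-! ### The normalised rank one pairs -/

section Pair

variable {x y φ ψ : Fin N → k} (hx : φ ⬝ᵥ x = 0) (hy : ψ ⬝ᵥ y = 0) (hxy : φ ⬝ᵥ y = 1) (hyx : ψ ⬝ᵥ x = 1)

/-- The action of a `2 × 2` matrix. -/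
def Phi (x y φ ψ : Fin N → k) (A : Matrix (Fin 2) (Fin 2) k) : Matrix (Fin N) (Fin N) k :=
  1 + (A 0 0 - 1) • vecMulVec x ψ + A 0 1 • vecMulVec x φ + A 1 0 • vecMulVec y ψ + (A 1 1 - 1) • vecMulVec y φ

include hx hy hxy hyx in
theorem Phi_mul (A B : Matrix (Fin 2) (Fin 2) k) : Phi x y φ ψ (A * B) = Phi x y φ ψ A * Phi x y φ ψ B := by
  simp only [Phi, Matrix.mul_apply, Fin.sum_univ_two, Matrix.add_mul, Matrix.mul_add, Matrix.one_mul, Matrix.mul_one,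
    Matrix.smul_mul, Matrix.mul_smul, vecMulVec_mul_vecMulVec, hx, hy, hxy, hyx, one_smul, zero_smul, smul_zero,
    vecMulVec_zero, add_zero, zero_add]
  module

include hx hy hxy hyx in
theorem exists_Phi (g : Matrix.SpecialLinearGroup (Fin 2) k) : ∃ t : SLN, (t : Matrix (Fin N) (Fin N) k) = Phi x y φ ψ g.1 := by
  induction g using Cfsg.Agent.Lib.Classical.Herm.RootTv.Sys.sl2_induction with
  | h1 =>
    refine ⟨1, ?_⟩
    simp [Phi]
  | hmul a b ha hb =>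
    obtain ⟨s, hs⟩ := ha
    obtain ⟨t, ht⟩ := hb
    refine ⟨s * t, ?_⟩
    rw [Matrix.SpecialLinearGroup.coe_mul, hs, ht, val_mul, Phi_mul hx hy hxy hyx]
  | hx t =>
    refine ⟨rt x φ hx t, ?_⟩
    simp [Phi, val_xx]
  | hy t =>
    refine ⟨rt y ψ hy t, ?_⟩
    simp [Phi, val_yy]

/-- The homomorphism from `SL₂(k)`. -/
noncomputable def phi : Matrix.SpecialLinearGroup (Fin 2) k →* SLN :=
  MonoidHom.mk' (fun g => Classical.choose (exists_Phi hx hy hxy hyx g)) (by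
    intro a b
    apply Subtype.ext
    have e1 := Classical.choose_spec (exists_Phi hx hy hxy hyx (a * b))
    have e2 := Classical.choose_spec (exists_Phi hx hy hxy hyx a)
    have e3 := Classical.choose_spec (exists_Phi hx hy hxy hyx b)
    refine e1.trans ?_
    rw [val_mul, Phi_mul hx hy hxy hyx]
    exact (congrArg₂ (· * ·) e2 e3).symm)

theorem coe_phi (g : Matrix.SpecialLinearGroup (Fin 2) k) :
    (phi hx hy hxy hyx g : Matrix (Fin N) (Fin N) k) = Phi x y φ ψ g.1 :=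
  Classical.choose_spec (exists_Phi hx hy hxy hyx g)

theorem phi_xx (t : k) : phi hx hy hxy hyx (xx t) = rt x φ hx t := by
  apply Subtype.ext
  rw [coe_phi]
  simp [Phi, val_xx]

theorem phi_yy (t : k) : phi hx hy hxy hyx (yy t) = rt y ψ hy t := by
  apply Subtype.ext
  rw [coe_phi]
  simp [Phi, val_yy]

theorem phi_inj : Function.Injective (phi hx hy hxy hyx) := by
  rw [injective_iff_map_eq_one]
  intro g hg
  have h0 : Phi x y φ ψ g.1 = 1 := by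
    rw [← coe_phi hx hy hxy hyx, hg, Matrix.SpecialLinearGroup.coe_one]
  have h1 := congrArg (fun M => M *ᵥ x) h0
  have h2 := congrArg (fun M => M *ᵥ y) h0
  simp only [Phi, Matrix.add_mulVec, Matrix.one_mulVec, Matrix.smul_mulVec, Matrix.vecMulVec_mulVec, hx, hy, hxy, hyx,
    MulOpposite.op_one, MulOpposite.op_zero, one_smul, zero_smul, smul_zero, add_zero] at h1 h2
  have a1 : (g.1 0 0 - 1) • x + g.1 1 0 • y = 0 := by
    have : x + (g.1 0 0 - 1) • x + g.1 1 0 • y = x + ((g.1 0 0 - 1) • x + g.1 1 0 • y) := by abel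
    rw [this] at h1
    simpa using h1
  have a2 : g.1 0 1 • x + (g.1 1 1 - 1) • y = 0 := by
    have : y + g.1 0 1 • x + (g.1 1 1 - 1) • y = y + (g.1 0 1 • x + (g.1 1 1 - 1) • y) := by abel
    rw [this] at h2
    simpa using h2
  have b1 := congrArg (fun w => ψ ⬝ᵥ w) a1
  have b2 := congrArg (fun w => φ ⬝ᵥ w) a1
  have b3 := congrArg (fun w => ψ ⬝ᵥ w) a2
  have b4 := congrArg (fun w => φ ⬝ᵥ w) a2
  simp only [dotProduct_add, dotProduct_smul, hx, hy, hxy, hyx, dotProduct_zero, smul_eq_mul, mul_one, mul_zero, add_zero,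
    zero_add] at b1 b2 b3 b4
  apply Subtype.ext
  ext i j
  fin_cases i <;> fin_cases j <;> simp
  · exact sub_eq_zero.1 b1
  · exact b3
  · exact b2
  · exact sub_eq_zero.1 b4

theorem map_upper : (upperUnipotentSL2 k).map (phi hx hy hxy hyx) = XS x φ hx := by
  rw [upperUnipotentSL2, MonoidHom.map_closure]
  apply le_antisymm
  · rw [Subgroup.closure_le]
    rintro _ ⟨g, ⟨h10, h00, h11⟩, rfl⟩
    refine ⟨g.1 0 1, ?_⟩
    apply Subtype.ext
    rw [coe_phi]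
    simp [Phi, h10, h00, h11]
  · rintro _ ⟨c, rfl⟩
    refine Subgroup.subset_closure ⟨xx c, ⟨by simp [val_xx], by simp [val_xx], by simp [val_xx]⟩, phi_xx hx hy hxy hyx c⟩

theorem map_lower : (lowerUnipotentSL2 k).map (phi hx hy hxy hyx) = XS y ψ hy := by
  rw [lowerUnipotentSL2, MonoidHom.map_closure]
  apply le_antisymm
  · rw [Subgroup.closure_le]
    rintro _ ⟨g, ⟨h01, h00, h11⟩, rfl⟩
    refine ⟨g.1 1 0, ?_⟩
    apply Subtype.ext
    rw [coe_phi]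
    simp [Phi, h01, h00, h11]
  · rintro _ ⟨c, rfl⟩
    refine Subgroup.subset_closure ⟨yy c, ⟨by simp [val_yy], by simp [val_yy], by simp [val_yy]⟩, phi_yy hx hy hxy hyx c⟩

include hxy hyx in
theorem psl2_hyp : IsPSL2PairOver k (XS x φ hx) (XS y ψ hy) := by
  refine ⟨phi hx hy hxy hyx, ?_, ?_, map_upper hx hy hxy hyx, map_lower hx hy hxy hyx⟩
  · apply le_antisymm
    · rintro _ ⟨g, rfl⟩
      induction g using Cfsg.Agent.Lib.Classical.Herm.RootTv.Sys.sl2_induction with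
      | h1 =>
        rw [map_one]
        exact one_mem _
      | hmul a b ha hb =>
        rw [map_mul]
        exact mul_mem ha hb
      | hx t =>
        rw [phi_xx]
        exact Subgroup.mem_sup_left (rt_mem _ _ _ _)
      | hy t =>
        rw [phi_yy]
        exact Subgroup.mem_sup_right (rt_mem _ _ _ _)
    · refine sup_le ?_ ?_
      · rw [← map_upper hx hy hxy hyx]
        rintro _ ⟨g, -, rfl⟩
        exact ⟨g, rfl⟩
      · rw [← map_lower hx hy hxy hyx]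
        rintro _ ⟨g, -, rfl⟩
        exact ⟨g, rfl⟩
  · intro g hg
    have : g = 1 := phi_inj hx hy hxy hyx (by rw [hg, map_one])
    rw [this]
    exact one_mem _

include hxy hyx in
/-- The rank one condition for a normalised pair. -/
theorem cond_hyp : RankOneCondition (XS x φ hx) (XS y ψ hy) := by
  have hx0 : x ≠ 0 := by
    rintro rfl
    simp at hyx
  have hy0 : y ≠ 0 := by
    rintro rfl
    simp at hxy
  have hφ0 : φ ≠ 0 := by
    rintro rfl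
    simp at hxy
  rintro _ ⟨c, rfl⟩ ha1
  have hc : c ≠ 0 := by
    rintro rfl
    exact ha1 (rt_zero x φ hx)
  refine ⟨rt y ψ hy c⁻¹, rt_mem _ _ _ _, ?_, ?_⟩
  · intro h
    have h1 := congrArg (fun t : SLN => (t : Matrix (Fin N) (Fin N) k) *ᵥ x) h
    simp only [mulVec_rt, hyx, Matrix.SpecialLinearGroup.coe_one, Matrix.one_mulVec, mul_one] at h1
    have h2 : c⁻¹ • y = 0 := by simpa using h1
    exact hy0 ((smul_eq_zero.1 h2).resolve_left (inv_ne_zero hc))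
  · have e1 : conjBy (XS x φ hx) (rt y ψ hy c⁻¹)⁻¹ = XS (x - c⁻¹ • y) (φ + c⁻¹ • ψ) (by
        simp [dotProduct_add, add_dotProduct, dotProduct_sub, hx, hy, hxy, hyx]) := by
      rw [conj_XS]
      refine XS_congr _ ?_ ?_
      · rw [← rt_neg, mulVec_rt, hyx]
        simp [sub_eq_add_neg]
      · rw [inv_inv, vecMul_rt, hxy]
        simp
    have e2 : conjBy (XS y ψ hy) (rt x φ hx c)⁻¹ = XS (y - c • x) (ψ + c • φ) (by
        simp [dotProduct_add, add_dotProduct, dotProduct_sub, hx, hy, hxy, hyx]) := by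
      rw [conj_XS]
      refine XS_congr _ ?_ ?_
      · rw [← rt_neg, mulVec_rt, hxy]
        simp [sub_eq_add_neg]
      · rw [inv_inv, vecMul_rt, hyx]
        simp
    have h3 : (ψ + c • φ) ⬝ᵥ (y - c • x) = 0 := by
      simp [dotProduct_add, add_dotProduct, dotProduct_sub, hx, hy, hxy, hyx]
    rw [e1, e2, ← XS_smul h3 (a := -c⁻¹) (b := c⁻¹) (neg_ne_zero.2 (inv_ne_zero hc)) (inv_ne_zero hc)]
    refine XS_congr _ ?_ ?_
    · ext i
      simp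
      field_simp
      ring
    · ext i
      simp
      field_simp
      ring

end Pair

/-! ### The pairs of root groups -/

section Main

theorem XS_smul_right {v f : Fin N → k} (h : f ⬝ᵥ v = 0) {b : k} (hb : b ≠ 0) (h' : (b • f) ⬝ᵥ v = 0) :
    XS v (b • f) h' = XS v f h := by
  have := XS_smul h (a := 1) (b := b) one_ne_zero hb
  rw [← this]
  exact XS_congr _ (by simp) rfl

theorem XS_ne_bot {v f : Fin N → k} (h : f ⬝ᵥ v = 0) (hv : v ≠ 0) (hf : f ≠ 0) : XS v f h ≠ ⊥ := by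
  intro e
  have h1 : rt v f h 1 ∈ XS v f h := rt_mem _ _ _ _
  rw [e, Subgroup.mem_bot] at h1
  have h2 := congrArg (fun t : SLN => (t : Matrix (Fin N) (Fin N) k)) h1
  simp only [rt_coe, Matrix.SpecialLinearGroup.coe_one, one_smul, add_eq_left] at h2
  obtain ⟨i, hi⟩ := Function.ne_iff.1 hv
  obtain ⟨j, hj⟩ := Function.ne_iff.1 hf
  have h3 := congrFun (congrFun h2 i) j
  simp only [vecMulVec_apply, Matrix.zero_apply, mul_eq_zero] at h3
  rcases h3 with h3 | h3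
  · exact hi h3
  · exact hj h3

theorem XS_comm {v f : Fin N → k} (h : f ⬝ᵥ v = 0) {a b : SLN} (ha : a ∈ XS v f h) (hb : b ∈ XS v f h) : a * b = b * a := by
  obtain ⟨c, rfl⟩ := ha
  obtain ⟨d, rfl⟩ := hb
  exact rt_comm h h h h c d

theorem XS_isMulCommutative {v f : Fin N → k} (h : f ⬝ᵥ v = 0) : IsMulCommutative (XS v f h) := by
  refine ⟨⟨fun a b => ?_⟩⟩
  exact Subtype.ext (XS_comm h a.2 b.2)

theorem XS_nilpotent {v f : Fin N → k} (h : f ⬝ᵥ v = 0) : Group.IsNilpotent (XS v f h) := by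
  haveI := XS_isMulCommutative h
  letI : CommGroup (XS v f h) := { (inferInstance : Group (XS v f h)) with mul_comm := fun a b => mul_comm' a b }
  exact CommGroup.isNilpotent

theorem comm_bot {x y φ ψ : Fin N → k} (hx : φ ⬝ᵥ x = 0) (hy : ψ ⬝ᵥ y = 0) (h1 : φ ⬝ᵥ y = 0) (h2 : ψ ⬝ᵥ x = 0) :
    ⁅XS x φ hx, XS y ψ hy⁆ = ⊥ := by
  rw [Subgroup.commutator_eq_bot_iff_le_centralizer]
  rintro _ ⟨a, rfl⟩
  rw [Subgroup.mem_centralizer_iff]
  rintro _ ⟨b, rfl⟩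
  exact (rt_comm hx hy h1 h2 a b).symm

theorem rankOne {x y φ ψ : Fin N → k} (hx : φ ⬝ᵥ x = 0) (hy : ψ ⬝ᵥ y = 0) (h1 : φ ⬝ᵥ y ≠ 0) (h2 : ψ ⬝ᵥ x ≠ 0) :
    IsRankOnePair (XS x φ hx) (XS y ψ hy) ∧ IsPSL2PairOver k (XS x φ hx) (XS y ψ hy) := by
  have hx' : ((φ ⬝ᵥ y)⁻¹ • φ) ⬝ᵥ x = 0 := by simp [hx]
  have hy' : ((ψ ⬝ᵥ x)⁻¹ • ψ) ⬝ᵥ y = 0 := by simp [hy]
  have hxy : ((φ ⬝ᵥ y)⁻¹ • φ) ⬝ᵥ y = 1 := by
    rw [smul_dotProduct, smul_eq_mul, inv_mul_cancel₀ h1]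
  have hyx : ((ψ ⬝ᵥ x)⁻¹ • ψ) ⬝ᵥ x = 1 := by
    rw [smul_dotProduct, smul_eq_mul, inv_mul_cancel₀ h2]
  have e1 := XS_smul_right hx (inv_ne_zero h1) hx'
  have e2 := XS_smul_right hy (inv_ne_zero h2) hy'
  rw [← e1, ← e2]
  refine ⟨⟨?_, XS_nilpotent _, XS_nilpotent _, cond_hyp hx' hy' hxy hyx, cond_hyp hy' hx' hyx hxy⟩,
    psl2_hyp hx' hy' hxy hyx⟩
  intro e
  have hm : rt x _ hx' 1 ∈ XS y _ hy' := by
    rw [← e]
    exact rt_mem _ _ _ _
  obtain ⟨c, hc⟩ := hm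
  have h3 := congrArg (fun t : SLN => (t : Matrix (Fin N) (Fin N) k) *ᵥ y) hc
  simp only [mulVec_rt, hy', hxy, mul_zero, zero_smul, add_zero, mul_one, one_smul, left_eq_add] at h3
  have hx0 : x ≠ 0 := by
    rintro rfl
    simp at h2
  exact hx0 h3

theorem comm_formula {x y φ ψ : Fin N → k} (hx : φ ⬝ᵥ x = 0) (hy : ψ ⬝ᵥ y = 0) (h2 : ψ ⬝ᵥ x = 0) (a b : k) :
    rt x φ hx a * rt y ψ hy b * (rt x φ hx a)⁻¹ * (rt y ψ hy b)⁻¹ = rt x ψ h2 (a * b * (φ ⬝ᵥ y)) := by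
  rw [← rt_neg, ← rt_neg]
  apply Subtype.ext
  simp only [Matrix.SpecialLinearGroup.coe_mul, rt_coe, Matrix.mul_add, Matrix.add_mul, Matrix.one_mul, Matrix.mul_one,
    Matrix.smul_mul, Matrix.mul_smul, vecMulVec_mul_vecMulVec, hx, hy, h2, zero_smul, smul_zero, add_zero, zero_add,
    vecMulVec_zero, smul_add, smul_smul, vecMulVec_smul]
  module

theorem symm_case {G : Type*} [Group G] {S : Set (Subgroup G)} {A B : Subgroup G} (h : RootCommutatorCase S A B) :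
    RootCommutatorCase S B A := by
  obtain ⟨h1, h2, h3, h4⟩ := h
  have hc : ⁅B, A⁆ = ⁅A, B⁆ := Subgroup.commutator_comm B A
  refine ⟨hc ▸ h1, ?_, ?_, ?_⟩
  · rw [hc, sup_comm]
    exact h2
  · intro b hb hb1
    rw [hc, ← h4 b hb hb1, ← Subgroup.closure_inv]
    congr 1
    ext z
    rw [Set.mem_inv]
    constructor
    · rintro ⟨a, ha, e⟩
      refine ⟨a, ha, ?_⟩
      have e' : z = (b * a * b⁻¹ * a⁻¹)⁻¹ := by
        have : b * a * b⁻¹ * a⁻¹ = z⁻¹ := e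
        rw [this, inv_inv]
      rw [e']
      simp only
      group
    · rintro ⟨a, ha, rfl⟩
      refine ⟨a, ha, ?_⟩
      simp only
      group
  · intro a ha ha1
    rw [hc, ← h3 a ha ha1, ← Subgroup.closure_inv]
    congr 1
    ext z
    rw [Set.mem_inv]
    constructor
    · rintro ⟨b, hb, e⟩
      refine ⟨b, hb, ?_⟩
      have e' : z = (b * a * b⁻¹ * a⁻¹)⁻¹ := by
        have : b * a * b⁻¹ * a⁻¹ = z⁻¹ := e
        rw [this, inv_inv]
      rw [e']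
      simp only
      group
    · rintro ⟨b, hb, rfl⟩
      refine ⟨b, hb, ?_⟩
      simp only
      group

/-- The commutator case. -/
theorem comm_case {S : Set (Subgroup SLN)} {x y φ ψ : Fin N → k} (hx : φ ⬝ᵥ x = 0) (hy : ψ ⬝ᵥ y = 0) (h1 : φ ⬝ᵥ y ≠ 0)
    (h2 : ψ ⬝ᵥ x = 0) (hS : XS x ψ h2 ∈ S) : RootCommutatorCase S (XS x φ hx) (XS y ψ hy) := by
  have hC : ⁅XS x φ hx, XS y ψ hy⁆ = XS x ψ h2 := by
    apply le_antisymm
    · rw [Subgroup.commutator_le]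
      rintro _ ⟨a, rfl⟩ _ ⟨b, rfl⟩
      rw [commutatorElement_def, comm_formula hx hy h2]
      exact rt_mem _ _ _ _
    · rintro _ ⟨c, rfl⟩
      have e : rt x ψ h2 c = rt x φ hx (c * (φ ⬝ᵥ y)⁻¹) * rt y ψ hy 1 * (rt x φ hx (c * (φ ⬝ᵥ y)⁻¹))⁻¹ * (rt y ψ hy 1)⁻¹ := by
        rw [comm_formula hx hy h2]
        congr 1
        field_simp
      rw [e]
      exact Subgroup.commutator_mem_commutator (rt_mem _ _ _ _) (rt_mem _ _ _ _)
  refine ⟨hC ▸ hS, ?_, ?_, ?_⟩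
  · rw [hC]
    rintro _ ⟨c, rfl⟩ z hz
    have hle : XS x φ hx ⊔ XS y ψ hy ≤ Subgroup.centralizer {rt x ψ h2 c} := by
      refine sup_le ?_ ?_
      · rintro _ ⟨a, rfl⟩
        rw [Subgroup.mem_centralizer_singleton_iff]
        exact rt_comm hx h2 hx h2 a c
      · rintro _ ⟨a, rfl⟩
        rw [Subgroup.mem_centralizer_singleton_iff]
        exact rt_comm hy h2 h2 hy a c |>.trans rfl
    have := hle hz
    rw [Subgroup.mem_centralizer_singleton_iff] at this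
    exact this.symm
  · rintro _ ⟨a, rfl⟩ ha1
    have ha0 : a ≠ 0 := by
      rintro rfl
      exact ha1 (rt_zero x φ hx)
    rw [hC]
    apply le_antisymm
    · rw [Subgroup.closure_le]
      rintro _ ⟨_, ⟨b, rfl⟩, rfl⟩
      simp only
      rw [comm_formula hx hy h2]
      exact rt_mem _ _ _ _
    · rintro _ ⟨c, rfl⟩
      refine Subgroup.subset_closure ⟨rt y ψ hy (c * a⁻¹ * (φ ⬝ᵥ y)⁻¹), rt_mem _ _ _ _, ?_⟩
      simp only
      rw [comm_formula hx hy h2]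
      congr 1
      field_simp
  · rintro _ ⟨b, rfl⟩ hb1
    have hb0 : b ≠ 0 := by
      rintro rfl
      exact hb1 (rt_zero y ψ hy)
    rw [hC]
    apply le_antisymm
    · rw [Subgroup.closure_le]
      rintro _ ⟨_, ⟨a, rfl⟩, rfl⟩
      simp only
      rw [comm_formula hx hy h2]
      exact rt_mem _ _ _ _
    · rintro _ ⟨c, rfl⟩
      refine Subgroup.subset_closure ⟨rt x φ hx (c * b⁻¹ * (φ ⬝ᵥ y)⁻¹), rt_mem _ _ _ _, ?_⟩
      simp only
      rw [comm_formula hx hy h2]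
      congr 1
      field_simp

/-- The root groups as a set. -/
def S₀ (N : ℕ) (k : Type*) [Field k] : Set (Subgroup (Matrix.SpecialLinearGroup (Fin N) k)) :=
  {A | ∃ (x φ : Fin N → k) (h : φ ⬝ᵥ x = 0), x ≠ 0 ∧ φ ≠ 0 ∧ A = XS x φ h}

theorem not_rankOne_of_bot {G : Type*} [Group G] {A B : Subgroup G} (hA : A ≠ ⊥) (h : ⁅A, B⁆ = ⊥) : ¬ IsRankOnePair A B := by
  intro hR
  obtain ⟨a, ha1⟩ := Subgroup.ne_bot_iff_exists_ne_one.1 hA
  obtain ⟨b, hb, -, e⟩ := hR.cond_left a.1 a.2 (fun e => ha1 (Subtype.ext e))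
  have hcomm : ∀ u ∈ A, ∀ v ∈ B, u * v = v * u := by
    intro u hu v hv
    have h1 : u * v * u⁻¹ * v⁻¹ = 1 := by
      have := Subgroup.commutator_mem_commutator hu hv
      rw [h, Subgroup.mem_bot] at this
      exact this
    calc u * v = (u * v * u⁻¹ * v⁻¹) * (v * u) := by group
      _ = v * u := by rw [h1, one_mul]
  have h1 : conjBy A b⁻¹ = A := Cfsg.Agent.Lib.Classical.Herm.RootTv.Sys.conjBy_self_of_comm (fun u hu =>
    (Commute.inv_right (show Commute u b from hcomm u hu b hb)).eq)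
  have h2 : conjBy B (a.1)⁻¹ = B := Cfsg.Agent.Lib.Classical.Herm.RootTv.Sys.conjBy_self_of_comm (fun v hv =>
    (Commute.inv_right (show Commute v a.1 from (hcomm a.1 a.2 v hv).symm)).eq)
  rw [h1, h2] at e
  exact hR.ne e

/-- The connection. -/
theorem exists_middle {x y φ ψ : Fin N → k} (hx : φ ⬝ᵥ x = 0) (hy : ψ ⬝ᵥ y = 0) (hx0 : x ≠ 0) (hy0 : y ≠ 0)
    (hφ : φ ≠ 0) (hψ : ψ ≠ 0) :
    ∃ z χ : Fin N → k, χ ⬝ᵥ z = 0 ∧ z ≠ 0 ∧ χ ≠ 0 ∧ φ ⬝ᵥ z ≠ 0 ∧ χ ⬝ᵥ x ≠ 0 ∧ ψ ⬝ᵥ z ≠ 0 ∧ χ ⬝ᵥ y ≠ 0 := by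
  classical
  have ex_dual : ∀ (f : Fin N → k), f ≠ 0 → ∃ v : Fin N → k, f ⬝ᵥ v ≠ 0 := by
    intro f hf
    obtain ⟨i, hi⟩ := Function.ne_iff.1 hf
    refine ⟨Pi.single i 1, ?_⟩
    rw [dotProduct_single]
    simpa using hi
  have ex_dual' : ∀ (f : Fin N → k), f ≠ 0 → ∃ v : Fin N → k, v ⬝ᵥ f ≠ 0 := by
    intro f hf
    obtain ⟨v, hv⟩ := ex_dual f hf
    exact ⟨v, by rwa [dotProduct_comm]⟩
  obtain ⟨v₁, h₁⟩ := ex_dual φ hφ
  obtain ⟨v₂, h₂⟩ := ex_dual ψ hψ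
  obtain ⟨z, hz1, hz2⟩ : ∃ z, φ ⬝ᵥ z ≠ 0 ∧ ψ ⬝ᵥ z ≠ 0 := by
    by_cases h3 : ψ ⬝ᵥ v₁ = 0
    · by_cases h4 : φ ⬝ᵥ v₂ = 0
      · refine ⟨v₁ + v₂, ?_, ?_⟩
        · rw [dotProduct_add, h4, add_zero]
          exact h₁
        · rw [dotProduct_add, h3, zero_add]
          exact h₂
      · exact ⟨v₂, h4, h₂⟩
    · exact ⟨v₁, h₁, h3⟩
  obtain ⟨θ₁, hθ₁⟩ := ex_dual' x hx0
  obtain ⟨θ₂, hθ₂⟩ := ex_dual' y hy0
  let χ₁ := θ₁ - ((θ₁ ⬝ᵥ z) * (φ ⬝ᵥ z)⁻¹) • φ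
  let χ₂ := θ₂ - ((θ₂ ⬝ᵥ z) * (ψ ⬝ᵥ z)⁻¹) • ψ
  have a1 : χ₁ ⬝ᵥ z = 0 := by
    simp only [χ₁, sub_dotProduct, smul_dotProduct, smul_eq_mul]
    field_simp
    ring
  have a2 : χ₂ ⬝ᵥ z = 0 := by
    simp only [χ₂, sub_dotProduct, smul_dotProduct, smul_eq_mul]
    field_simp
    ring
  have a3 : χ₁ ⬝ᵥ x ≠ 0 := by
    simp only [χ₁, sub_dotProduct, smul_dotProduct, smul_eq_mul, hx, mul_zero, sub_zero]
    exact hθ₁
  have a4 : χ₂ ⬝ᵥ y ≠ 0 := by
    simp only [χ₂, sub_dotProduct, smul_dotProduct, smul_eq_mul, hy, mul_zero, sub_zero]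
    exact hθ₂
  obtain ⟨χ, h5, h6, h7⟩ : ∃ χ, χ ⬝ᵥ z = 0 ∧ χ ⬝ᵥ x ≠ 0 ∧ χ ⬝ᵥ y ≠ 0 := by
    by_cases h3 : χ₁ ⬝ᵥ y = 0
    · by_cases h4 : χ₂ ⬝ᵥ x = 0
      · refine ⟨χ₁ + χ₂, ?_, ?_, ?_⟩
        · rw [add_dotProduct, a1, a2, add_zero]
        · rw [add_dotProduct, h4, add_zero]
          exact a3
        · rw [add_dotProduct, h3, zero_add]
          exact a4
      · exact ⟨χ₂, a2, h4, a4⟩
    · exact ⟨χ₁, a1, a3, h3⟩
  refine ⟨z, χ, h5, ?_, ?_, hz1, h6, hz2, h7⟩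
  · rintro rfl
    simp at hz1
  · rintro rfl
    simp at h6

theorem S₀_set [Nontrivial (Fin N)] : IsRootSubgroupSet (S₀ N k) := by
  classical
  refine ⟨?_, ?_, ?_, ?_, ?_⟩
  · rintro _ ⟨x, φ, h, -, -, rfl⟩
    exact XS_isMulCommutative h
  · rintro _ ⟨x, φ, h, hx, hφ, rfl⟩
    exact XS_ne_bot h hx hφ
  · rw [eq_top_iff, ← Cfsg.Agent.Lib.Classical.Lin.Transvections.closure_transvections, Subgroup.closure_le]
    rintro _ ⟨i, j, hij, c, rfl⟩
    rw [transvection_eq_rt]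
    have h1 : XS (eb i) (eb j) (eb_dot hij) ≤ ⨆ A ∈ S₀ N k, A :=
      le_iSup₂_of_le _ ⟨_, _, _, eb_ne_zero i, eb_ne_zero j, rfl⟩ le_rfl
    exact h1 (rt_mem _ _ _ _)
  · rintro _ ⟨x, φ, h, hx, hφ, rfl⟩ g
    rw [conj_XS]
    refine ⟨_, _, _, ?_, ?_, rfl⟩
    · intro e
      apply hx
      have h9 := congrArg (fun w => ((g⁻¹ : SLN) : Matrix (Fin N) (Fin N) k) *ᵥ w) e
      rw [Matrix.mulVec_mulVec, coe_inv_mul', Matrix.one_mulVec, Matrix.mulVec_zero] at h9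
      exact h9
    · intro e
      apply hφ
      have h9 := congrArg (fun w => w ᵥ* (g : Matrix (Fin N) (Fin N) k)) e
      rw [Matrix.vecMul_vecMul, coe_inv_mul', Matrix.vecMul_one, Matrix.zero_vecMul] at h9
      exact h9
  · rintro _ ⟨x, φ, h, hx, hφ, rfl⟩ _ ⟨y, ψ, h', hy, hψ, rfl⟩
    by_cases h1 : φ ⬝ᵥ y = 0
    · by_cases h2 : ψ ⬝ᵥ x = 0
      · exact Or.inl (comm_bot h h' h1 h2)
      · refine Or.inr (Or.inr (symm_case (comm_case h' h h2 h1 ⟨_, _, _, hy, hφ, rfl⟩)))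
    · by_cases h2 : ψ ⬝ᵥ x = 0
      · exact Or.inr (Or.inr (comm_case h h' h1 h2 ⟨_, _, _, hx, hψ, rfl⟩))
      · exact Or.inr (Or.inl (rankOne h h' h1 h2).1)

theorem S₀_psl2 [Nontrivial (Fin N)] {A B : Subgroup SLN} (hA : A ∈ S₀ N k) (hB : B ∈ S₀ N k) (hR : IsRankOnePair A B) :
    IsPSL2PairOver k A B := by
  obtain ⟨x, φ, h, hx, hφ, rfl⟩ := hA
  obtain ⟨y, ψ, h', hy, hψ, rfl⟩ := hB
  have hset := S₀_set (N := N) (k := k)
  by_cases h1 : φ ⬝ᵥ y = 0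
  · by_cases h2 : ψ ⬝ᵥ x = 0
    · exact absurd hR (not_rankOne_of_bot (XS_ne_bot h hx hφ) (comm_bot h h' h1 h2))
    · have hc := comm_case (S := S₀ N k) h' h h2 h1 ⟨_, _, _, hy, hφ, rfl⟩
      exact (Cfsg.Agent.Lib.Amalgam.RootSet.not_rankOne_of_commutator_mem hset ⟨_, _, _, hy, hψ, rfl⟩ ⟨_, _, _, hx, hφ, rfl⟩ hc.1
        (RankOnePair_symm hR)).elim
  · by_cases h2 : ψ ⬝ᵥ x = 0
    · have hc := comm_case (S := S₀ N k) h h' h1 h2 ⟨_, _, _, hx, hψ, rfl⟩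
      exact (Cfsg.Agent.Lib.Amalgam.RootSet.not_rankOne_of_commutator_mem hset ⟨_, _, _, hx, hφ, rfl⟩ ⟨_, _, _, hy, hψ, rfl⟩ hc.1
        hR).elim
    · exact (rankOne h h' h1 h2).2

theorem S₀_connected : IsConnectedFamily (FAdj (S₀ N k)) (S₀ N k) := by
  rintro _ ⟨x, φ, h, hx, hφ, rfl⟩ _ ⟨y, ψ, h', hy, hψ, rfl⟩
  obtain ⟨z, χ, h0, hz, hχ, h1, h2, h3, h4⟩ := exists_middle h h' hx hy hφ hψ
  exact Relation.ReflTransGen.trans
    (Relation.ReflTransGen.single (b := XS z χ h0) ⟨⟨_, _, _, hx, hφ, rfl⟩, ⟨_, _, _, hz, hχ, rfl⟩, (rankOne h h0 h1 h2).1⟩)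
    (Relation.ReflTransGen.single ⟨⟨_, _, _, hz, hχ, rfl⟩, ⟨_, _, _, hy, hψ, rfl⟩, (rankOne h0 h' h4 h3).1⟩)

end Main

end Aux

/-- The literal root group. -/
theorem R_eq (k : Type*) [Field k] (n : ℕ) :
    Subgroup.closure {t : Matrix.SpecialLinearGroup (Fin (n + 3)) k |
            ∃ c : k, (t : Matrix (Fin (n + 3)) (Fin (n + 3)) k) = Matrix.transvection 0 1 c} =
      XS (eb 0) (eb 1) (eb_dot (by simp [Fin.ext_iff])) := by
  have h01 : (0 : Fin (n + 3)) ≠ 1 := by simp [Fin.ext_iff]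
  apply le_antisymm
  · rw [Subgroup.closure_le]
    rintro t ⟨c, hc⟩
    refine ⟨c, ?_⟩
    rw [← transvection_eq_rt h01]
    apply Subtype.ext
    rw [hc]
    rfl
  · rintro _ ⟨c, rfl⟩
    refine Subgroup.subset_closure ⟨c, ?_⟩
    rw [← transvection_eq_rt h01]
    rfl

theorem lit_eq (k : Type*) [Field k] (n : ℕ) :
    {A : Subgroup (Matrix.SpecialLinearGroup (Fin (n + 3)) k) |
        ∃ g : Matrix.SpecialLinearGroup (Fin (n + 3)) k,
          A = Cfsg.conjBy (Subgroup.closure {t : Matrix.SpecialLinearGroup (Fin (n + 3)) k |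
            ∃ c : k, (t : Matrix (Fin (n + 3)) (Fin (n + 3)) k) = Matrix.transvection 0 1 c}) g} = S₀ (n + 3) k := by
  have h01 : (0 : Fin (n + 3)) ≠ 1 := by simp [Fin.ext_iff]
  have h02 : (0 : Fin (n + 3)) ≠ 2 := by simp [Fin.ext_iff, Nat.mod_eq_of_lt (show 2 < n + 3 by omega)]
  have h12 : (1 : Fin (n + 3)) ≠ 2 := by simp [Fin.ext_iff, Nat.mod_eq_of_lt (show 2 < n + 3 by omega)]
  rw [R_eq]
  ext A
  constructor
  · rintro ⟨g, rfl⟩
    rw [conj_XS]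
    refine ⟨_, _, _, ?_, ?_, rfl⟩
    · intro e
      apply eb_ne_zero (0 : Fin (n + 3)) (F := k)
      have h9 := congrArg (fun w => ((g⁻¹ : Matrix.SpecialLinearGroup (Fin (n + 3)) k) : Matrix (Fin (n + 3)) (Fin (n + 3)) k) *ᵥ w) e
      rw [Matrix.mulVec_mulVec, coe_inv_mul', Matrix.one_mulVec, Matrix.mulVec_zero] at h9
      exact h9
    · intro e
      apply eb_ne_zero (1 : Fin (n + 3)) (F := k)
      have h9 := congrArg (fun w => w ᵥ* (g : Matrix (Fin (n + 3)) (Fin (n + 3)) k)) e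
      rw [Matrix.vecMul_vecMul, coe_inv_mul', Matrix.vecMul_one, Matrix.zero_vecMul] at h9
      exact h9
  · rintro ⟨x, φ, h, hx, hφ, rfl⟩
    obtain ⟨g, h1, h2⟩ := exists_flag h01 h02 h12 hx hφ h
    refine ⟨g, ?_⟩
    rw [conj_XS]
    exact (XS_congr _ h1.symm h2.symm)

/-- Let k be a field and n a natural number. In SL_{n+3}(k) (so in every dimension at least 3) the conjugates of the root subgroup of elementary transvections 1 + c E₁₂ (c ∈ k) — that is, the groups of transvections attached to an incident point–hyperplane pair — form a non-degenerate class of abstract k-root subgroups of SL_{n+3}(k) whose graph of rank one pairs is connected. -/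
theorem result (k : Type*) [Field k] (n : ℕ) :
    Cfsg.IsRootSubgroupClass {A : Subgroup (Matrix.SpecialLinearGroup (Fin (n + 3)) k) |
        ∃ g : Matrix.SpecialLinearGroup (Fin (n + 3)) k,
          A = Cfsg.conjBy (Subgroup.closure {t : Matrix.SpecialLinearGroup (Fin (n + 3)) k |
            ∃ c : k, (t : Matrix (Fin (n + 3)) (Fin (n + 3)) k) = Matrix.transvection 0 1 c}) g} ∧
    Cfsg.IsNondegenerateRootSet {A : Subgroup (Matrix.SpecialLinearGroup (Fin (n + 3)) k) |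
        ∃ g : Matrix.SpecialLinearGroup (Fin (n + 3)) k,
          A = Cfsg.conjBy (Subgroup.closure {t : Matrix.SpecialLinearGroup (Fin (n + 3)) k |
            ∃ c : k, (t : Matrix (Fin (n + 3)) (Fin (n + 3)) k) = Matrix.transvection 0 1 c}) g} ∧
    Cfsg.IsKRootSubgroupSet k {A : Subgroup (Matrix.SpecialLinearGroup (Fin (n + 3)) k) |
        ∃ g : Matrix.SpecialLinearGroup (Fin (n + 3)) k,
          A = Cfsg.conjBy (Subgroup.closure {t : Matrix.SpecialLinearGroup (Fin (n + 3)) k |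
            ∃ c : k, (t : Matrix (Fin (n + 3)) (Fin (n + 3)) k) = Matrix.transvection 0 1 c}) g} ∧
    Cfsg.IsConnectedFamily (Cfsg.FAdj {A : Subgroup (Matrix.SpecialLinearGroup (Fin (n + 3)) k) |
        ∃ g : Matrix.SpecialLinearGroup (Fin (n + 3)) k,
          A = Cfsg.conjBy (Subgroup.closure {t : Matrix.SpecialLinearGroup (Fin (n + 3)) k |
            ∃ c : k, (t : Matrix (Fin (n + 3)) (Fin (n + 3)) k) = Matrix.transvection 0 1 c}) g})
      {A : Subgroup (Matrix.SpecialLinearGroup (Fin (n + 3)) k) |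
        ∃ g : Matrix.SpecialLinearGroup (Fin (n + 3)) k,
          A = Cfsg.conjBy (Subgroup.closure {t : Matrix.SpecialLinearGroup (Fin (n + 3)) k |
            ∃ c : k, (t : Matrix (Fin (n + 3)) (Fin (n + 3)) k) = Matrix.transvection 0 1 c}) g} := by
  have h01 : (0 : Fin (n + 3)) ≠ 1 := by simp [Fin.ext_iff]
  have h02 : (0 : Fin (n + 3)) ≠ 2 := by simp [Fin.ext_iff, Nat.mod_eq_of_lt (show 2 < n + 3 by omega)]
  have h12 : (1 : Fin (n + 3)) ≠ 2 := by simp [Fin.ext_iff, Nat.mod_eq_of_lt (show 2 < n + 3 by omega)]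
  have hlit := lit_eq k n
  rw [hlit]
  have hset := S₀_set (N := n + 3) (k := k)
  have he0 : (eb 0 : Fin (n + 3) → k) ≠ 0 := eb_ne_zero _
  have he1 : (eb 1 : Fin (n + 3) → k) ≠ 0 := eb_ne_zero _
  have he2 : (eb 2 : Fin (n + 3) → k) ≠ 0 := eb_ne_zero _
  have hd01 : (eb 1 : Fin (n + 3) → k) ⬝ᵥ eb 0 = 0 := eb_dot h01
  have hd02 : (eb 2 : Fin (n + 3) → k) ⬝ᵥ eb 0 = 0 := eb_dot h02
  have hd10 : (eb 0 : Fin (n + 3) → k) ⬝ᵥ eb 1 = 0 := eb_dot h01.symm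
  have hd12 : (eb 2 : Fin (n + 3) → k) ⬝ᵥ eb 1 = 0 := eb_dot h12
  have hself : ∀ i : Fin (n + 3), (eb i : Fin (n + 3) → k) ⬝ᵥ eb i = 1 := dot_self_eb
  refine ⟨⟨hset, ?_⟩, ⟨?_, ?_, ?_⟩, ⟨hset, fun A hA B hB => S₀_psl2 hA hB⟩, S₀_connected⟩
  · refine ⟨⟨_, _, _, hd01, he0, he1, rfl⟩, ?_⟩
    -- conjugacy from the literal description
    intro A hA B hB
    rw [← hlit] at hA hB
    obtain ⟨g, rfl⟩ := hA
    obtain ⟨g', rfl⟩ := hB
    refine ⟨g' * g⁻¹, ?_⟩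
    rw [Cfsg.Agent.Lib.Classical.Herm.RootTv.Sys.conjBy_conjBy']
    group
  · refine ⟨_, ⟨_, _, hd01, he0, he1, rfl⟩, _, ⟨_, _, hd02, he0, he2, rfl⟩, ?_, comm_bot _ _ (by
      rw [hd01]) (by rw [hd02])⟩
    intro e
    have hm : rt (eb 0) (eb 1) hd01 1 ∈ XS (eb 0) (eb 2) hd02 := by
      rw [← e]
      exact rt_mem _ _ _ _
    obtain ⟨c, hc⟩ := hm
    have h3 := congrArg (fun t : Matrix.SpecialLinearGroup (Fin (n + 3)) k => (t : Matrix (Fin (n + 3)) (Fin (n + 3)) k) *ᵥ eb 1) hc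
    simp only [mulVec_rt, hd12, hself, mul_zero, zero_smul, add_zero, mul_one, one_smul, left_eq_add] at h3
    exact he0 h3
  · exact ⟨_, ⟨_, _, hd01, he0, he1, rfl⟩, _, ⟨_, _, hd10, he1, he0, rfl⟩,
      (rankOne hd01 hd10 (by rw [hself]; exact one_ne_zero) (by rw [hself]; exact one_ne_zero)).1⟩
  · exact ⟨_, ⟨_, _, hd01, he0, he1, rfl⟩, _, ⟨_, _, hd12, he1, he2, rfl⟩,
      comm_case hd01 hd12 (by rw [hself]; exact one_ne_zero) hd02 ⟨_, _, _, he0, he2, rfl⟩⟩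

end Cfsg.Agent.S5043
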