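import Cfsg.Statements.S5045
import Mathlib
import Cfsg.Agent.Lib.Amalgam.RootInv

set_option autoImplicit false
open Cfsg

namespace Cfsg.Agent.S5045

open Cfsg.Agent.Lib.Amalgam.RootInv

variable {G : Type*} [Group G] {D : Set G}

/-- The isolated vertices. -/
abbrev W (D : Set G) : Set G := {w | Cfsg.IsIsolatedElem (Cfsg.OddAdj D) D w}

lemma oddAdj_iff (hD : Cfsg.IsRootInvolutionSet D) {a b : G} : Cfsg.OddAdj D a b ↔ a ∈ D ∧ b ∈ D ∧ Od a b := by
  constructor
  · rintro ⟨h1, h2, h3, h4⟩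
    exact ⟨h1, h2, Od_of_ne hD h1 h2 h3 h4⟩
  · rintro ⟨h1, h2, h3⟩
    exact ⟨h1, h2, ne_of_Od hD h1 h3, h3.1⟩

lemma oddAdj_symm (hD : Cfsg.IsRootInvolutionSet D) {a b : G} (h : Cfsg.OddAdj D a b) : Cfsg.OddAdj D b a := by
  obtain ⟨h1, h2, h3⟩ := (oddAdj_iff hD).1 h
  exact (oddAdj_iff hD).2 ⟨h2, h1, Od_symm hD h1 h2 h3⟩

lemma mem_W_iff (hD : Cfsg.IsRootInvolutionSet D) {w : G} : w ∈ W D ↔ w ∈ D ∧ ∀ b ∈ D, ¬ Od w b := by
  constructor
  · rintro ⟨hw, h⟩
    exact ⟨hw, fun b hb hO => (h b).1 ((oddAdj_iff hD).2 ⟨hw, hb, hO⟩)⟩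
  · rintro ⟨hw, h⟩
    refine ⟨hw, fun b => ⟨fun hh => ?_, fun hh => ?_⟩⟩
    · exact h b hh.2.1 ((oddAdj_iff hD).1 hh).2.2
    · exact h b hh.1 (Od_symm hD hh.1 hw ((oddAdj_iff hD).1 hh).2.2)

lemma W_conj (hD : Cfsg.IsRootInvolutionSet D) {w : G} (hw : w ∈ W D) (g : G) : g * w * g⁻¹ ∈ W D := by
  obtain ⟨h1, h2⟩ := (mem_W_iff hD).1 hw
  refine (mem_W_iff hD).2 ⟨hD.conj_mem w h1 g, fun b hb hO => ?_⟩
  have h3 := Od_conj g⁻¹ hO
  have e : g⁻¹ * (g * w * g⁻¹) * g⁻¹⁻¹ = w := by group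
  rw [e] at h3
  exact h2 _ (hD.conj_mem b hb g⁻¹) h3

lemma pow_four_of (hD : Cfsg.IsRootInvolutionSet D) {w v : G} (hw : w ∈ W D) (hv : v ∈ D) : (w * v) ^ 4 = 1 := by
  obtain ⟨h1, h2⟩ := (mem_W_iff hD).1 hw
  rcases trichotomy hD h1 hv with h | h | h
  · have h5 : (w * v) * (w * v) = 1 := by
      nth_rewrite 2 [h]
      simp only [mul_assoc, cancel (mem_mul_self hD hv), mem_mul_self hD h1]
    calc (w * v) ^ 4 = ((w * v) * (w * v)) * ((w * v) * (w * v)) := by
          simp only [pow_succ, pow_zero, one_mul, mul_assoc]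
      _ = 1 := by rw [h5, one_mul]
  · exact (h2 v hv h).elim
  · have := pow_orderOf_eq_one (w * v)
    rwa [h.1] at this

lemma mem_core_of_pow_four [Finite G] {f : G} (hf : f * f = 1) (h : ∀ g : G, (f * (g * f * g⁻¹)) ^ 4 = 1) :
    f ∈ Cfsg.pCore 2 G := by
  have hp : IsPGroup 2 ↥(Subgroup.zpowers f) := by
    have h5 : (f * f) ^ 4 = 1 := by rw [hf, one_pow]
    refine IsPGroup.to_le (dihedral_pGroup hf hf h5) ?_
    rw [Subgroup.zpowers_le]
    exact Subgroup.subset_closure (by simp)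
  obtain ⟨N, hN, hNp, hle⟩ := Cfsg.Agent.S0199.result (p := 2) (Subgroup.zpowers f) hp (by
    intro g
    have hvv : (g * f * g⁻¹) * (g * f * g⁻¹) = 1 := by
      calc (g * f * g⁻¹) * (g * f * g⁻¹) = g * (f * f) * g⁻¹ := by group
        _ = 1 := by rw [hf]; group
    refine IsPGroup.to_le (dihedral_pGroup hf hvv (h g)) ?_
    apply sup_le
    · rw [Subgroup.zpowers_le]
      exact Subgroup.subset_closure (by simp)
    · rw [MonoidHom.map_zpowers, Subgroup.zpowers_le]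
      exact Subgroup.subset_closure (by simp [MulAut.conj_apply]))
  exact Cfsg.Agent.Lib.Basic.PCore.le_pCore hN hNp (hle (Subgroup.mem_zpowers _))

lemma W_mem_core [Finite G] (hD : Cfsg.IsRootInvolutionSet D) {w : G} (hw : w ∈ W D) : w ∈ Cfsg.pCore 2 G :=
  mem_core_of_pow_four (mem_mul_self hD hw.1)
    (fun g => pow_four_of hD hw (hD.conj_mem w hw.1 g))

lemma closure_W_normal (hD : Cfsg.IsRootInvolutionSet D) : (Subgroup.closure (W D)).Normal := by
  constructor
  intro n hn g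
  induction hn using Subgroup.closure_induction with
  | mem x hx => exact Subgroup.subset_closure (W_conj hD hx g)
  | one => simp
  | mul x y _ _ hx hy =>
    have e : g * (x * y) * g⁻¹ = (g * x * g⁻¹) * (g * y * g⁻¹) := by group
    rw [e]
    exact Subgroup.mul_mem _ hx hy
  | inv x _ hx =>
    have e : g * x⁻¹ * g⁻¹ = (g * x * g⁻¹)⁻¹ := by group
    rw [e]
    exact Subgroup.inv_mem _ hx

lemma closure_W_pGroup [Finite G] (hD : Cfsg.IsRootInvolutionSet D) : IsPGroup 2 ↥(Subgroup.closure (W D)) := by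
  refine IsPGroup.to_le (Cfsg.Agent.Lib.Basic.PCore.pCore_isPGroup 2) ?_
  rw [Subgroup.closure_le]
  exact fun w hw => W_mem_core hD hw

lemma closure_W_inter [Finite G] (hD : Cfsg.IsRootInvolutionSet D) : (Subgroup.closure (W D) : Set G) ∩ D = W D := by
  ext d
  constructor
  · rintro ⟨hd1, hd2⟩
    refine (mem_W_iff hD).2 ⟨hd2, fun b hb hO => ?_⟩
    have hn := closure_W_normal hD
    have h1 : d * (b * d * b) ∈ Subgroup.closure (W D) := by
      refine Subgroup.mul_mem _ hd1 ?_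
      have := hn.conj_mem d hd1 b
      rwa [mem_inv hD hb] at this
    have e : d * (b * d * b) = (d * b) ^ 2 := by rw [sq_eq]; group
    rw [e] at h1
    obtain ⟨k, hk⟩ := closure_W_pGroup hD ⟨_, h1⟩
    have hk' : ((d * b) ^ 2) ^ 2 ^ k = 1 := congrArg Subtype.val hk
    have h2 := eq_one_of_odd_of_pow (odd_sq hO.1) hk'
    exact sq_ne_one hO.1 hO.2 h2
  · intro hw
    exact ⟨Subgroup.subset_closure hw, hw.1⟩

lemma path_symm (hD : Cfsg.IsRootInvolutionSet D) {a b : G} (h : Relation.ReflTransGen (Cfsg.OddAdj D) a b) :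
    Relation.ReflTransGen (Cfsg.OddAdj D) b a := by
  induction h with
  | refl => exact .refl
  | tail _ hbc ih => exact Relation.ReflTransGen.head (oddAdj_symm hD hbc) ih

lemma comp_eq (hD : Cfsg.IsRootInvolutionSet D) {a b : G} (h : Relation.ReflTransGen (Cfsg.OddAdj D) a b) :
    Cfsg.elemComponentOf (Cfsg.OddAdj D) D a = Cfsg.elemComponentOf (Cfsg.OddAdj D) D b := by
  ext c
  constructor
  · rintro ⟨h1, h2⟩
    exact ⟨h1, (path_symm hD h).trans h2⟩
  · rintro ⟨h1, h2⟩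
    exact ⟨h1, h.trans h2⟩

lemma sixth (hD : Cfsg.IsRootInvolutionSet D) {a e : G} (ha : a ∈ D)
    (ha' : ∃ a' ∈ Cfsg.elemComponentOf (Cfsg.OddAdj D) D a, a' ≠ a) (he : e ∈ Cfsg.productPartners D a) :
    e ∈ Cfsg.elemComponentOf (Cfsg.OddAdj D) D a ∨ e ∈ W D := by
  by_contra hcon
  push Not at hcon
  obtain ⟨hc1, hc2⟩ := hcon
  obtain ⟨⟨heD, hec, -⟩, hea⟩ := he
  have hae : a * e ∈ D := by rw [← hec]; exact hea
  obtain ⟨a', ⟨-, hp⟩, hne'⟩ := ha'
  obtain ⟨x, hx⟩ : ∃ x, Cfsg.OddAdj D a x := by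
    rcases Relation.ReflTransGen.cases_head hp with h | ⟨x, hx, -⟩
    · exact (hne' h.symm).elim
    · exact ⟨x, hx⟩
  obtain ⟨y, hyD, hy⟩ : ∃ y ∈ D, Od e y := by
    by_contra hno
    push Not at hno
    exact hc2 ((mem_W_iff hD).2 ⟨heD, hno⟩)
  obtain ⟨-, hxD, hxO⟩ := (oddAdj_iff hD).1 hx
  have heee := mem_mul_self hD heD
  have haaa := mem_mul_self hD ha
  have hF1 : orderOf (e * x) = 4 := by
    rcases trichotomy hD heD hxD with h | h | h
    · exact (no_odd hD ha hxD hae heee (mem_ne_one hD heD) hec h hxO).elim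
    · exfalso
      apply hc1
      refine ⟨heD, (Relation.ReflTransGen.single hx).tail ?_⟩
      exact (oddAdj_iff hD).2 ⟨hxD, heD, Od_symm hD heD hxD h⟩
    · exact h.1
  have hO1 : Od (a * e) x := Od_of_line hD ha heD hxD hec hae hxO hF1
  have hF2 : orderOf (a * y) = 4 := by
    rcases trichotomy hD ha hyD with h | h | h
    · exact (no_odd hD heD hyD hea haaa (mem_ne_one hD ha) hec.symm h hy).elim
    · exfalso
      apply hc1
      refine ⟨heD, (Relation.ReflTransGen.single ((oddAdj_iff hD).2 ⟨ha, hyD, h⟩)).tail ?_⟩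
      exact (oddAdj_iff hD).2 ⟨hyD, heD, Od_symm hD heD hyD hy⟩
    · exact h.1
  have hO2 : Od (e * a) y := Od_of_line hD heD ha hyD hec.symm hea hy hF2
  apply hc1
  refine ⟨heD, ?_⟩
  have p1 : Cfsg.OddAdj D a x := hx
  have p2 : Cfsg.OddAdj D x (a * e) := (oddAdj_iff hD).2 ⟨hxD, hae, Od_symm hD hae hxD hO1⟩
  have p3 : Cfsg.OddAdj D (a * e) y := by
    rw [← hec]
    exact (oddAdj_iff hD).2 ⟨hea, hyD, hO2⟩
  have p4 : Cfsg.OddAdj D y e := (oddAdj_iff hD).2 ⟨hyD, heD, Od_symm hD heD hyD hy⟩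
  exact ((((Relation.ReflTransGen.single p1).tail p2).tail p3).tail p4)

lemma fifth (hD : Cfsg.IsRootInvolutionSet D) {a b : G} (ha : a ∈ D) (hb : b ∈ D)
    (ha' : ∃ a' ∈ Cfsg.elemComponentOf (Cfsg.OddAdj D) D a, a' ≠ a)
    (hb' : ∃ b' ∈ Cfsg.elemComponentOf (Cfsg.OddAdj D) D b, b' ≠ b)
    (hne : Cfsg.elemComponentOf (Cfsg.OddAdj D) D a ≠ Cfsg.elemComponentOf (Cfsg.OddAdj D) D b) :
    a * b * a⁻¹ * b⁻¹ ∈ Subgroup.closure (W D) := by
  rcases trichotomy hD ha hb with h | h | h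
  · have : a * b * a⁻¹ * b⁻¹ = 1 := by rw [h]; group
    rw [this]
    exact Subgroup.one_mem _
  · exact (hne (comp_eq hD (Relation.ReflTransGen.single ((oddAdj_iff hD).2 ⟨ha, hb, h⟩)))).elim
  · obtain ⟨z, hz⟩ : ∃ z, IsFour D a b z := ⟨_, isFour hD ha hb h.1⟩
    have e : a * b * a⁻¹ * b⁻¹ = z := by
      rw [mem_inv hD ha, mem_inv hD hb, ← hz.eq, sq_eq]
    rw [e]
    have haz : a * z ∈ D := by rw [← hz.ba]; exact conj_mem' hD ha hb
    have hbz : b * z ∈ D := by rw [← hz.ab]; exact conj_mem' hD hb ha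
    have h1 : z ∈ Cfsg.productPartners D a := by
      refine ⟨⟨hz.mem, hz.left, ?_⟩, ?_⟩
      · rintro rfl
        rw [mem_mul_self hD ha] at haz
        exact mem_ne_one hD haz rfl
      · rw [hz.left]; exact haz
    have h2 : z ∈ Cfsg.productPartners D b := by
      refine ⟨⟨hz.mem, hz.right, ?_⟩, ?_⟩
      · rintro rfl
        rw [mem_mul_self hD hb] at hbz
        exact mem_ne_one hD hbz rfl
      · rw [hz.right]; exact hbz
    rcases sixth hD ha ha' h1 with h3 | h3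
    · rcases sixth hD hb hb' h2 with h4 | h4
      · exfalso
        apply hne
        rw [comp_eq hD h3.2, comp_eq hD h4.2]
      · exact Subgroup.subset_closure h4
    · exact Subgroup.subset_closure h3

/-- Let G be a finite group generated by a set D of root involutions, and W the set of members of D whose product with every other member of D has even order or is trivial (the isolated vertices of the odd-order-product graph on D). Then W is conjugation-invariant and generates a normal 2-subgroup of G meeting D in exactly W; the commutator of two members of D lying in different connected components of that graph, each with more than one member, lies in the subgroup generated by W; and for a in such a component, every member of D commuting with a, different from a and with product with a in D, lies in that component or in W. -/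
theorem result {G : Type*} [Group G] [Finite G] {D : Set G} (hD : Cfsg.IsRootInvolutionSet D) :
    (∀ w ∈ {w | Cfsg.IsIsolatedElem (Cfsg.OddAdj D) D w}, ∀ g : G, g * w * g⁻¹ ∈ {w | Cfsg.IsIsolatedElem (Cfsg.OddAdj D) D w}) ∧
    (Subgroup.closure {w | Cfsg.IsIsolatedElem (Cfsg.OddAdj D) D w}).Normal ∧
    IsPGroup 2 ↥(Subgroup.closure {w | Cfsg.IsIsolatedElem (Cfsg.OddAdj D) D w}) ∧
    (Subgroup.closure {w | Cfsg.IsIsolatedElem (Cfsg.OddAdj D) D w} : Set G) ∩ D = {w | Cfsg.IsIsolatedElem (Cfsg.OddAdj D) D w} ∧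
    (∀ a ∈ D, ∀ b ∈ D, (∃ a' ∈ Cfsg.elemComponentOf (Cfsg.OddAdj D) D a, a' ≠ a) →
      (∃ b' ∈ Cfsg.elemComponentOf (Cfsg.OddAdj D) D b, b' ≠ b) →
      Cfsg.elemComponentOf (Cfsg.OddAdj D) D a ≠ Cfsg.elemComponentOf (Cfsg.OddAdj D) D b →
        a * b * a⁻¹ * b⁻¹ ∈ Subgroup.closure {w | Cfsg.IsIsolatedElem (Cfsg.OddAdj D) D w}) ∧
    (∀ a ∈ D, (∃ a' ∈ Cfsg.elemComponentOf (Cfsg.OddAdj D) D a, a' ≠ a) →
      Cfsg.productPartners D a ⊆ Cfsg.elemComponentOf (Cfsg.OddAdj D) D a ∪ {w | Cfsg.IsIsolatedElem (Cfsg.OddAdj D) D w}) := by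
  refine ⟨fun w hw g => W_conj hD hw g, closure_W_normal hD, closure_W_pGroup hD, closure_W_inter hD, ?_, ?_⟩
  · intro a ha b hb ha' hb' hne
    exact fifth hD ha hb ha' hb' hne
  · intro a ha ha' e he
    exact sixth hD ha ha' he

end Cfsg.Agent.S5045
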