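import Cfsg.Statements.S5048
import Mathlib
import Cfsg.Agent.Lib.Amalgam.RootInv

set_option autoImplicit false
open Cfsg

namespace Cfsg.Agent.S5048

open Cfsg.Agent.Lib.Amalgam.RootInv
open Cfsg
open scoped commutatorElement

variable {G : Type*} [Group G] {D : Set G}

lemma sq_eq_one_mod (hD : IsRootInvolutionSet D) {N : Subgroup G} (hN : N.Normal) (hND : ∀ d ∈ D, d ∉ N)
    {p y q s : G} (hp : p ∈ D) (hy : y ∈ D) (hq : q ∈ D) (hs : s ∈ N) (e : p * y = q * s) :
    (p * y) * (p * y) = 1 := by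
  have hqq := mem_mul_self hD hq
  have hr2 : (p * y) ^ 2 ∈ N := by
    have h1 : (p * y) ^ 2 = (q * s * q⁻¹) * s := by
      rw [pow_two, e, mem_inv hD hq]
      simp only [mul_assoc]
    rw [h1]
    exact N.mul_mem (hN.conj_mem s hs q) hs
  rcases trichotomy hD hp hy with h | h | h
  · nth_rewrite 2 [h]
    simp only [mul_assoc, cancel (mem_mul_self hD hy), mem_mul_self hD hp]
  · exfalso
    obtain ⟨k, hk⟩ := h.1
    have h1 : (p * y) ^ (2 * k + 1) = 1 := by rw [← hk]; exact pow_orderOf_eq_one _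
    have h2 : p * y = ((p * y) ^ 2) ^ (k + 1) := by
      rw [← pow_mul]
      have : 2 * (k + 1) = (2 * k + 1) + 1 := by ring
      rw [this, pow_succ, h1, one_mul]
    have h3 : p * y ∈ N := by rw [h2]; exact N.pow_mem hr2 _
    have h4 : q = (p * y) * s⁻¹ := by rw [e]; group
    exact hND q hq (by rw [h4]; exact N.mul_mem h3 (N.inv_mem hs))
  · exact (hND _ h.2 hr2).elim

lemma comm_conj (hD : IsRootInvolutionSet D) {N : Subgroup G} (hN : N.Normal) (hND : ∀ d ∈ D, d ∉ N)
    {a b t : G} (ha : a ∈ D) (hb : b ∈ D) (c : a * b = b * a) (hab : a * b ∈ D) (ht : t ∈ N) :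
    b * (t * b * t⁻¹) = (t * b * t⁻¹) * b := by
  obtain ⟨b', hb'def⟩ : ∃ b', b' = t * b * t⁻¹ := ⟨_, rfl⟩
  rw [← hb'def]
  have hb' : b' ∈ D := by rw [hb'def]; exact hD.conj_mem b hb t
  have hbb := mem_mul_self hD hb
  have haa := mem_mul_self hD ha
  have hs : b * b' ∈ N := by
    have e : b * b' = (b * t * b⁻¹) * t⁻¹ := by
      rw [hb'def, mem_inv hD hb]
      simp only [mul_assoc]
    rw [e]
    exact N.mul_mem (hN.conj_mem t ht b) (N.inv_mem ht)
  have h1 := sq_eq_one_mod hD hN hND (p := a) (y := b') (q := a * b) (s := b * b') ha hb' hab hs (by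
    simp only [mul_assoc, cancel hbb])
  have h2 := sq_eq_one_mod hD hN hND (p := a * b) (y := b') (q := a) (s := b * b') hab hb' ha hs (by
    simp only [mul_assoc])
  -- `s = b b'`
  obtain ⟨s, hsdef⟩ : ∃ s, s = b * b' := ⟨_, rfl⟩
  have e1 : a * b' = a * b * s := by rw [hsdef]; simp only [mul_assoc, cancel hbb]
  have e2 : a * b * b' = a * s := by rw [hsdef]; simp only [mul_assoc]
  rw [e1] at h1
  rw [e2] at h2
  have h3 : a * s * a = s⁻¹ := by
    have : (a * s) * a = (a * s) * (a * s) * s⁻¹ := by group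
    rw [this, h2, one_mul]
  have h4 : (a * b) * s * (a * b) = s⁻¹ := by
    have : (a * b) * s * (a * b) = (a * b * s) * (a * b * s) * s⁻¹ := by group
    rw [this, h1, one_mul]
  have h5 : b * s * b = s := by
    have h6 : a * (b * s * b) * a = a * s * a := by
      rw [h3, ← h4]
      nth_rewrite 2 [c]
      simp only [mul_assoc]
    have h7 : a * (a * (b * s * b) * a) * a = a * (a * s * a) * a := by rw [h6]
    simpa only [mul_assoc, cancel haa, haa, mul_one] using h7
  have h6 : b * s * b = b' * b := by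
    rw [hsdef]
    simp only [mul_assoc, cancel hbb]
  rw [← hsdef, ← h6, h5]

lemma conj_mem_core [Finite G] (hD : IsRootInvolutionSet D) {N : Subgroup G} (hN : N.Normal) (hND : ∀ d ∈ D, d ∉ N)
    {a b t : G} (ha : a ∈ D) (hb : b ∈ D) (c : a * b = b * a) (hab : a * b ∈ D) (ht : t ∈ N) :
    b * (t * b * t⁻¹) ∈ pCore 2 G := by
  have hcomm0 : ∀ m ∈ N, ∀ n ∈ N, (m * b * m⁻¹) * (n * b * n⁻¹) = (n * b * n⁻¹) * (m * b * m⁻¹) := by
    intro m hm n hn
    have h1 := comm_conj hD hN hND ha hb c hab (N.mul_mem (N.inv_mem hm) hn)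
    have h2 : m * (b * (m⁻¹ * n * b * (m⁻¹ * n)⁻¹)) * m⁻¹ = (m * b * m⁻¹) * (n * b * n⁻¹) := by group
    have h3 : m * ((m⁻¹ * n * b * (m⁻¹ * n)⁻¹) * b) * m⁻¹ = (n * b * n⁻¹) * (m * b * m⁻¹) := by group
    rw [← h2, ← h3, h1]
  obtain ⟨gens, hgens⟩ : ∃ gens : Set G, gens = {x | ∃ n ∈ N, x = n * b * n⁻¹} := ⟨_, rfl⟩
  obtain ⟨E, hE⟩ : ∃ E, E = Subgroup.closure gens := ⟨_, rfl⟩
  have hgensD : ∀ x ∈ gens, x * x = 1 := by
    intro x hx
    rw [hgens] at hx
    obtain ⟨n, -, rfl⟩ := hx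
    exact mem_mul_self hD (hD.conj_mem b hb n)
  have hgensc : ∀ x ∈ gens, ∀ y ∈ gens, x * y = y * x := by
    intro x hx y hy
    rw [hgens] at hx hy
    obtain ⟨m, hm, rfl⟩ := hx
    obtain ⟨n, hn, rfl⟩ := hy
    exact hcomm0 m hm n hn
  have h1 : ∀ y ∈ E, ∀ g ∈ gens, y * g = g * y := by
    intro y hy g hg
    rw [hE] at hy
    induction hy using Subgroup.closure_induction with
    | mem x hx => exact hgensc x hx g hg
    | one => simp
    | mul x y _ _ hx hy => rw [mul_assoc, hy, ← mul_assoc, hx, mul_assoc]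
    | inv x _ hx =>
      have : Commute x g := hx
      exact this.inv_left
  have h2 : ∀ x ∈ E, ∀ y ∈ E, x * y = y * x := by
    intro x hx y hy
    rw [hE] at hx
    induction hx using Subgroup.closure_induction with
    | mem z hz => exact (h1 y hy z hz).symm
    | one => simp
    | mul u v _ _ hu hv => rw [mul_assoc, hv, ← mul_assoc, hu, mul_assoc]
    | inv u _ hu =>
      have : Commute u y := hu
      exact this.inv_left
  have h3 : ∀ y ∈ E, y * y = 1 := by
    intro y hy
    have hy' := hy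
    rw [hE] at hy'
    induction hy' using Subgroup.closure_induction with
    | mem z hz => exact hgensD z hz
    | one => simp
    | mul u v hu' hv' hu hv =>
      have hu1 : u ∈ E := by rw [hE]; exact hu'
      have hv1 : v ∈ E := by rw [hE]; exact hv'
      calc u * v * (u * v) = u * (v * u) * v := by group
        _ = u * (u * v) * v := by rw [h2 v hv1 u hu1]
        _ = (u * u) * (v * v) := by group
        _ = 1 := by rw [hu hu1, hv hv1, one_mul]
    | inv u hu' hu =>
      have hu1 : u ∈ E := by rw [hE]; exact hu'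
      rw [← mul_inv_rev, hu hu1, inv_one]
  have hnorm : ∀ n ∈ N, ∀ y ∈ E, n * y * n⁻¹ ∈ E := by
    intro n hn y hy
    rw [hE] at hy ⊢
    induction hy using Subgroup.closure_induction with
    | mem z hz =>
      apply Subgroup.subset_closure
      rw [hgens] at hz ⊢
      obtain ⟨m, hm, rfl⟩ := hz
      exact ⟨n * m, N.mul_mem hn hm, by group⟩
    | one => simp
    | mul u v _ _ hu hv =>
      have e : n * (u * v) * n⁻¹ = (n * u * n⁻¹) * (n * v * n⁻¹) := by group
      rw [e]
      exact Subgroup.mul_mem _ hu hv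
    | inv u _ hu =>
      have e : n * u⁻¹ * n⁻¹ = (n * u * n⁻¹)⁻¹ := by group
      rw [e]
      exact Subgroup.inv_mem _ hu
  have hsub : (E ⊓ N).IsSubnormal := by
    refine Subgroup.IsSubnormal.step (E ⊓ N) N inf_le_right hN.isSubnormal ?_
    constructor
    rintro ⟨x, hx⟩ hx' ⟨g, hg⟩
    rw [Subgroup.mem_subgroupOf] at hx' ⊢
    exact ⟨hnorm g hg x hx'.1, hN.conj_mem x hx g⟩
  have hp : IsPGroup 2 ↥(E ⊓ N) := by
    rintro ⟨y, hy⟩
    refine ⟨1, ?_⟩
    apply Subtype.ext
    show y ^ 2 ^ 1 = 1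
    rw [pow_one, pow_two]
    exact h3 y hy.1
  have hle := Cfsg.Agent.Lib.Basic.PCore.le_pCore_of_subnormal hsub hp
  apply hle
  refine ⟨?_, ?_⟩
  · rw [hE]
    refine Subgroup.mul_mem _ (Subgroup.subset_closure ?_) (Subgroup.subset_closure ?_)
    · rw [hgens]
      exact ⟨1, N.one_mem, by group⟩
    · rw [hgens]
      exact ⟨t, ht, rfl⟩
  · have e : b * (t * b * t⁻¹) = (b * t * b⁻¹) * t⁻¹ := by
      rw [mem_inv hD hb]
      simp only [mul_assoc]
    show b * (t * b * t⁻¹) ∈ N
    rw [e]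
    exact N.mul_mem (hN.conj_mem t ht b) (N.inv_mem ht)

/-- A normal subgroup avoiding `D` lies in `O_{2,Z}(G)`. -/
lemma le_twoZCore [Finite G] (hD : IsRootInvolutionSet D) {N : Subgroup G} (hN : N.Normal) (hND : ∀ d ∈ D, d ∉ N)
    (hline : ∀ b ∈ D, ∃ a ∈ D, a * b = b * a ∧ a * b ∈ D) : N ≤ twoZCore G := by
  intro t ht
  show QuotientGroup.mk' (pCore 2 G) t ∈ Subgroup.center _
  rw [Subgroup.mem_center_iff]
  intro y
  obtain ⟨x, rfl⟩ := QuotientGroup.mk'_surjective (pCore 2 G) y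
  have hx : x ∈ Subgroup.closure D := by rw [hD.generates]; trivial
  induction hx using Subgroup.closure_induction with
  | mem b hb =>
    obtain ⟨a, ha, c, hab⟩ := hline b hb
    have h1 := conj_mem_core hD hN hND ha hb c hab ht
    have h2 : QuotientGroup.mk' (pCore 2 G) (b * (t * b * t⁻¹)) = 1 :=
      (QuotientGroup.eq_one_iff _).2 h1
    rw [map_mul, map_mul, map_mul, map_inv] at h2
    have h3 : QuotientGroup.mk' (pCore 2 G) b * QuotientGroup.mk' (pCore 2 G) b = 1 := by
      rw [← map_mul, mem_mul_self hD hb, map_one]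
    generalize QuotientGroup.mk' (pCore 2 G) b = B at h2 h3 ⊢
    generalize QuotientGroup.mk' (pCore 2 G) t = T at h2 h3 ⊢
    have h5 : T * B * T⁻¹ = B := by
      calc T * B * T⁻¹ = (B * B) * (T * B * T⁻¹) := by rw [h3, one_mul]
        _ = B * (B * (T * B * T⁻¹)) := mul_assoc _ _ _
        _ = B := by rw [h2, mul_one]
    calc B * T = (T * B * T⁻¹) * T := by rw [h5]
      _ = T * B := by group
  | one => simp
  | mul u v _ _ hu hv =>
    rw [map_mul, mul_assoc, hv, ← mul_assoc, hu, mul_assoc]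
  | inv u _ hu =>
    rw [map_inv]
    have : Commute (QuotientGroup.mk' (pCore 2 G) u) (QuotientGroup.mk' (pCore 2 G) t) := hu
    exact this.inv_left

lemma sq_not_mem_twoZCore [Finite G] (hD : IsRootInvolutionSet D) {a x : G} (ha : a ∈ D) (hx : x ∈ D) (hO : Od a x) :
    (a * x) ^ 2 ∉ twoZCore G := by
  intro hy
  have hy1 : QuotientGroup.mk' (pCore 2 G) ((a * x) ^ 2) ∈ Subgroup.center _ := hy
  rw [Subgroup.mem_center_iff] at hy1
  have h1 := hy1 (QuotientGroup.mk' (pCore 2 G) a)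
  have haa := mem_mul_self hD ha
  obtain ⟨y, hydef⟩ : ∃ y, y = (a * x) ^ 2 := ⟨_, rfl⟩
  rw [← hydef] at h1
  have hyodd : Odd (orderOf y) := by rw [hydef]; exact odd_sq hO.1
  have hy1' : y ≠ 1 := by rw [hydef]; exact sq_ne_one hO.1 hO.2
  have h2 : a * y * a = y⁻¹ := by
    rw [hydef, sq_eq, mul_inv_rev, mul_inv_rev, mul_inv_rev, mem_inv hD ha, mem_inv hD hx]
    simp only [mul_assoc, cancel haa, haa, mul_one]
  have h3 : y * y ∈ pCore 2 G := by
    rw [← QuotientGroup.eq_one_iff (N := pCore 2 G)]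
    have h4 : QuotientGroup.mk' (pCore 2 G) y⁻¹ = QuotientGroup.mk' (pCore 2 G) y := by
      rw [← h2, map_mul, map_mul, h1, mul_assoc, ← map_mul, haa, map_one, mul_one]
    rw [map_inv] at h4
    have h5 : QuotientGroup.mk' (pCore 2 G) y * QuotientGroup.mk' (pCore 2 G) y = 1 := by
      nth_rewrite 1 [← h4]
      group
    rw [← map_mul] at h5
    exact h5
  obtain ⟨k, hk⟩ := Cfsg.Agent.Lib.Basic.PCore.pCore_isPGroup 2 (G := G) ⟨y * y, h3⟩
  have hk' : (y * y) ^ 2 ^ k = 1 := congrArg Subtype.val hk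
  apply hy1'
  apply eq_one_of_odd_of_pow (k := k + 1) hyodd
  rw [pow_succ', pow_mul, pow_two]
  exact hk'

lemma twoZCore_solvable [Finite G] : Group.IsSolvable ↥(twoZCore G) := by
  have hle : pCore 2 G ≤ twoZCore G := by
    intro q hq
    show QuotientGroup.mk' (pCore 2 G) q ∈ Subgroup.center _
    have h0 : QuotientGroup.mk' (pCore 2 G) q = 1 := (QuotientGroup.eq_one_iff q).2 hq
    rw [h0]
    exact Subgroup.one_mem _
  let f : ↥(pCore 2 G) →* ↥(twoZCore G) := Subgroup.inclusion hle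
  let g : ↥(twoZCore G) →* ↥(Subgroup.center (G ⧸ pCore 2 G)) :=
    ((QuotientGroup.mk' (pCore 2 G)).comp (twoZCore G).subtype).codRestrict _ (fun x => x.2)
  haveI : Group.IsNilpotent ↥(pCore 2 G) := (Cfsg.Agent.Lib.Basic.PCore.pCore_isPGroup 2).isNilpotent
  haveI : Group.IsSolvable ↥(Subgroup.center (G ⧸ pCore 2 G)) :=
    Group.isSolvable_of_comm (fun a b => Subtype.ext (Subgroup.mem_center_iff.1 b.2 a.1))
  refine Group.isSolvable_of_ker_le_range f g ?_
  intro z hz
  have h1 : QuotientGroup.mk' (pCore 2 G) z.1 = 1 := congrArg Subtype.val (MonoidHom.mem_ker.1 hz)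
  have h2 : z.1 ∈ pCore 2 G := (QuotientGroup.eq_one_iff _).1 h1
  exact ⟨⟨z.1, h2⟩, rfl⟩

/-- Let G be a finite group generated by a set D of root involutions whose odd-order-product graph is connected, with some product of two different commuting members of D again in D. Then the largest solvable normal subgroup of G is the preimage of the centre of G/O₂(G), and the quotient of G by it is a simple group. -/
theorem result {G : Type*} [Group G] [Finite G] {D : Set G} (hD : Cfsg.IsRootInvolutionSet D)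
    (hc : Cfsg.IsConnectedSet (Cfsg.OddAdj D) D) (hDD : (D ∩ Cfsg.commutingProducts D).Nonempty) :
    Cfsg.solvableRadical G = Cfsg.twoZCore G ∧ IsSimpleGroup (G ⧸ Cfsg.twoZCore G) := by
  have hcl := class_of_connected hD hc
  obtain ⟨c, hcD, a₀, ha₀, b₀, hb₀, hc₀, hne₀, rfl⟩ := hDD
  have hline : ∀ b ∈ D, ∃ a ∈ D, a * b = b * a ∧ a * b ∈ D := by
    intro b hb
    obtain ⟨g, rfl⟩ := hcl b₀ hb₀ b hb
    have e : (g * a₀ * g⁻¹) * (g * b₀ * g⁻¹) = g * (a₀ * b₀) * g⁻¹ := by group
    refine ⟨g * a₀ * g⁻¹, hD.conj_mem _ ha₀ g, ?_, ?_⟩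
    · rw [e, hc₀]; group
    · rw [e]; exact hD.conj_mem _ hcD g
  have hdich : ∀ N : Subgroup G, N.Normal → N = ⊤ ∨ N ≤ twoZCore G := by
    intro N hN
    by_cases h : ∃ d ∈ D, d ∈ N
    · left
      obtain ⟨d, hd, hdN⟩ := h
      rw [eq_top_iff, ← hD.generates, Subgroup.closure_le]
      intro e he
      obtain ⟨g, rfl⟩ := hcl d hd e he
      exact hN.conj_mem d hdN g
    · right
      push Not at h
      exact le_twoZCore hD hN h hline
  have hab₀ : a₀ ≠ b₀ := by
    rintro rfl
    exact hne₀ (mem_mul_self hD ha₀)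
  obtain ⟨x, hx⟩ := A_nonempty_of_connected hD hc ha₀ hb₀ hab₀
  obtain ⟨hxD, hO⟩ := (mem_A hD ha₀).1 hx
  have hnotZ := sq_not_mem_twoZCore hD ha₀ hxD hO
  have hZne : twoZCore G ≠ ⊤ := fun h => hnotZ (by rw [h]; trivial)
  have hsol : ¬ Group.IsSolvable G := by
    intro hs
    haveI : Nontrivial G := ⟨a₀, 1, mem_ne_one hD ha₀⟩
    have h1 := Group.IsSolvable.commutator_lt_top_of_nontrivial G
    rcases hdich (commutator G) inferInstance with h | h
    · exact (ne_of_lt h1) h
    · apply hnotZ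
      apply h
      have e : (a₀ * x) ^ 2 = ⁅a₀, x⁆ := by
        rw [commutatorElement_def, mem_inv hD ha₀, mem_inv hD hxD, sq_eq]
      rw [e]
      exact Subgroup.commutator_mem_commutator (Subgroup.mem_top _) (Subgroup.mem_top _)
  constructor
  · apply le_antisymm
    · apply sSup_le
      rintro N ⟨hN, hNs⟩
      rcases hdich N hN with h | h
      · exfalso
        apply hsol
        subst h
        exact Group.isSolvable_of_surjective (f := (⊤ : Subgroup G).subtype) (by
          intro y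
          exact ⟨⟨y, trivial⟩, rfl⟩)
      · exact h
    · exact le_sSup ⟨inferInstance, twoZCore_solvable⟩
  · haveI : Nontrivial (G ⧸ twoZCore G) := QuotientGroup.nontrivial_iff.2 hZne
    refine ⟨fun K hK => ?_⟩
    rcases hdich (K.comap (QuotientGroup.mk' (twoZCore G))) (hK.comap _) with h | h
    · right
      rw [eq_top_iff]
      intro y _
      obtain ⟨z, rfl⟩ := QuotientGroup.mk'_surjective _ y
      have : z ∈ K.comap (QuotientGroup.mk' (twoZCore G)) := by rw [h]; trivial
      exact this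
    · left
      rw [eq_bot_iff]
      intro y hy
      obtain ⟨z, rfl⟩ := QuotientGroup.mk'_surjective _ y
      have : z ∈ K.comap (QuotientGroup.mk' (twoZCore G)) := hy
      exact Subgroup.mem_bot.2 ((QuotientGroup.eq_one_iff z).2 (h this))

end Cfsg.Agent.S5048
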