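import Cfsg.Statements.S5049
import Mathlib
-- import your own Cfsg.Agent.* helpers here

set_option autoImplicit false
open Cfsg

namespace Cfsg.Agent.S5049

variable {G : Type*} [Group G]

lemma pCore_normal' (p : ℕ) : (Cfsg.pCore p G).Normal := by
  exact Subgroup.sSup_normal _ (fun _ hH => hH.1)

lemma pCore_isPGroup' [Finite G] (p : ℕ) [Fact p.Prime] : IsPGroup p (Cfsg.pCore p G) := by
  let P : Sylow p G := default
  have hle : Cfsg.pCore p G ≤ (P : Subgroup G) := by
    unfold Cfsg.pCore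
    apply sSup_le
    rintro N ⟨hN, hNp⟩
    obtain ⟨R, hR⟩ := hNp.exists_le_sylow
    obtain ⟨g, hg⟩ := MulAction.exists_smul_eq G R P
    rw [← hg]
    intro x hx
    have : g⁻¹ * x * g⁻¹⁻¹ ∈ N := hN.conj_mem x hx g⁻¹
    have h2 := hR this
    rw [Sylow.coe_subgroup_smul]
    refine (Subgroup.mem_map (f := (MulAut.conj g).toMonoidHom)).2 ⟨_, h2, ?_⟩
    simp [MulAut.conj_apply, mul_assoc]
  exact P.isPGroup'.to_le hle

lemma sq_eq_one_of_mem {D : Set G} (hD : Cfsg.IsOddTranspositionSet D) {v : G} (hv : v ∈ D) : v * v = 1 := by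
  have := pow_orderOf_eq_one v
  rw [hD.1.orderOf_eq v hv, pow_two] at this
  exact this

lemma inv_eq_of_mem {D : Set G} (hD : Cfsg.IsOddTranspositionSet D) {v : G} (hv : v ∈ D) : v⁻¹ = v :=
  inv_eq_of_mul_eq_one_left (sq_eq_one_of_mem hD hv)

/-- Two members whose product has 2-power order commute. -/
lemma comm_of_two_power {D : Set G} (hD : Cfsg.IsOddTranspositionSet D) {u v : G} (hu : u ∈ D) (hv : v ∈ D)
    {k : ℕ} (h : (u * v) ^ 2 ^ k = 1) : u * v = v * u := by
  rcases hD.1.pair u hu v hv with h1 | h1 | h1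
  · exact h1
  · have h2 : orderOf (u * v) ∣ 2 ^ k := orderOf_dvd_of_pow_eq_one h
    have hc : Nat.Coprime (orderOf (u * v)) (2 ^ k) := by
      apply Nat.Coprime.pow_right
      exact (Nat.coprime_two_right).2 h1
    have h3 : orderOf (u * v) = 1 := Nat.Coprime.eq_one_of_dvd hc h2
    have h4 : u * v = 1 := orderOf_eq_one_iff.1 h3
    have h5 : u = v := by
      have : u = v⁻¹ := eq_inv_of_mul_eq_one_left h4
      rw [this, inv_eq_of_mem hD hv]
    rw [h5]
  · exact absurd h1.1 (hD.2 u hu v hv)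

/-- Elements of `Q = O₂(G)` have 2-power order. -/
lemma two_power_of_mem [Finite G] {x : G} (hx : x ∈ Cfsg.pCore 2 G) : ∃ k : ℕ, x ^ 2 ^ k = 1 := by
  obtain ⟨k, hk⟩ := (pCore_isPGroup' (G := G) 2) ⟨x, hx⟩
  exact ⟨k, by simpa [Subtype.ext_iff] using hk⟩

/-- The conjugate of a by an element of Q commutes with a, and the product lies in Q. -/
lemma conj_mul_mem [Finite G] {D : Set G} (hD : Cfsg.IsOddTranspositionSet D) {a x : G} (ha : a ∈ D)
    (hx : x ∈ Cfsg.pCore 2 G) : x * a * x⁻¹ * a ∈ Cfsg.pCore 2 G := by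
  have := pCore_normal' (G := G) 2
  have h1 : a * x⁻¹ * a⁻¹ ∈ Cfsg.pCore 2 G := (inferInstance : (Cfsg.pCore 2 G).Normal).conj_mem _ ((Cfsg.pCore 2 G).inv_mem hx) a
  have h2 := (Cfsg.pCore 2 G).mul_mem hx h1
  have h3 : x * a * x⁻¹ * a = x * (a * x⁻¹ * a⁻¹) := by
    rw [inv_eq_of_mem hD ha]; group
  rw [h3]; exact h2

lemma conj_comm [Finite G] {D : Set G} (hD : Cfsg.IsOddTranspositionSet D) {a x : G} (ha : a ∈ D)
    (hx : x ∈ Cfsg.pCore 2 G) : (x * a * x⁻¹) * a = a * (x * a * x⁻¹) := by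
  obtain ⟨k, hk⟩ := two_power_of_mem (conj_mul_mem hD ha hx)
  exact comm_of_two_power hD (hD.1.conj_mem a ha x) ha hk

/-- Part 1 core: a member commuting with a commutes with each Q-conjugate of a. -/
lemma comm_conj [Finite G] {D : Set G} (hD : Cfsg.IsOddTranspositionSet D) {a e x : G} (ha : a ∈ D) (he : e ∈ D)
    (hea : e * a = a * e) (hx : x ∈ Cfsg.pCore 2 G) : e * (x * a * x⁻¹) = (x * a * x⁻¹) * e := by
  have := pCore_normal' (G := G) 2
  set a' := x * a * x⁻¹ with ha'
  have ha'D : a' ∈ D := hD.1.conj_mem a ha x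
  set x' := e * x * e⁻¹ with hx'
  have hx'Q : x' ∈ Cfsg.pCore 2 G := (inferInstance : (Cfsg.pCore 2 G).Normal).conj_mem _ hx e
  have h1 : e * a' * e⁻¹ = x' * a * x'⁻¹ := by
    have hee : e * a * e⁻¹ = a := by rw [hea]; group
    calc e * a' * e⁻¹ = (e * x * e⁻¹) * (e * a * e⁻¹) * (e * x * e⁻¹)⁻¹ := by rw [ha']; group
      _ = x' * a * x'⁻¹ := by rw [hee]
  have h2 : (a' * e) ^ 2 = (a' * a) * (a * (x' * a * x'⁻¹)) := by
    have hee : e * e = 1 := sq_eq_one_of_mem hD he
    have haa : a * a = 1 := sq_eq_one_of_mem hD ha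
    have h3 : e * a' = (e * a' * e⁻¹) * e := by group
    calc (a' * e) ^ 2 = a' * (e * a') * e := by rw [pow_two]; group
      _ = a' * ((e * a' * e⁻¹) * e) * e := by rw [← h3]
      _ = a' * (e * a' * e⁻¹) * (e * e) := by group
      _ = a' * (x' * a * x'⁻¹) := by rw [h1, hee, mul_one]
      _ = a' * (a * a) * (x' * a * x'⁻¹) := by rw [haa, mul_one]
      _ = _ := by group
  have h4 : a * (x' * a * x'⁻¹) ∈ Cfsg.pCore 2 G := by
    have h5 := conj_mul_mem hD ha hx'Q
    have h6 := (Cfsg.pCore 2 G).inv_mem h5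
    have h7 : (x' * a * x'⁻¹ * a)⁻¹ = a * (x' * a * x'⁻¹) := by
      rw [mul_inv_rev, inv_eq_of_mem hD ha, inv_eq_of_mem hD (hD.1.conj_mem a ha x')]
    rwa [h7] at h6
  have h8 : (a' * e) ^ 2 ∈ Cfsg.pCore 2 G := by
    rw [h2]; exact (Cfsg.pCore 2 G).mul_mem (conj_mul_mem hD ha hx) h4
  obtain ⟨k, hk⟩ := two_power_of_mem h8
  have h9 : (a' * e) ^ 2 ^ (k + 1) = 1 := by
    rw [pow_succ', pow_mul]; exact hk
  exact (comm_of_two_power hD ha'D he h9).symm

/-- Part 2 core. -/
lemma fix_of_comm_prod [Finite G] {D : Set G} (hD : Cfsg.IsOddTranspositionSet D) {a b q : G} (ha : a ∈ D) (hb : b ∈ D)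
    (hne : b ≠ a) (hodd : Odd (orderOf (a * b))) (hq : q ∈ Cfsg.pCore 2 G) (hc : q * (a * b) = (a * b) * q) :
    q * a = a * q ∧ q * b = b * q := by
  set t := a * b with ht
  have ht1 : t ≠ 1 := by
    intro h
    apply hne
    have : a = b⁻¹ := eq_inv_of_mul_eq_one_left h
    rw [this, inv_eq_of_mem hD hb]
  set a' := q * a * q⁻¹ with ha'
  set b' := q * b * q⁻¹ with hb'
  have ha'D : a' ∈ D := hD.1.conj_mem a ha q
  have hb'D : b' ∈ D := hD.1.conj_mem b hb q
  have hprod : a' * b' = a * b := by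
    have : a' * b' = q * (a * b) * q⁻¹ := by rw [ha', hb']; group
    rw [this, hc, ← ht]; group
  set z := a * a' with hz
  have hz2 : z = b * b' := by
    have h1 : a⁻¹ * (a' * b') * b'⁻¹ = a⁻¹ * (a * b) * b'⁻¹ := by rw [hprod]
    have h2 : a⁻¹ * (a' * b') * b'⁻¹ = a⁻¹ * a' := by group
    have h3 : a⁻¹ * (a * b) * b'⁻¹ = b * b'⁻¹ := by group
    rw [h2, h3, inv_eq_of_mem hD ha, inv_eq_of_mem hD hb'D] at h1
    exact h1
  have hcaa : a' * a = a * a' := conj_comm hD ha hq
  have hcbb : b' * b = b * b' := conj_comm hD hb hq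
  have hzz : z * z = 1 := by
    have haa : a * a = 1 := sq_eq_one_of_mem hD ha
    have ha'a' : a' * a' = 1 := sq_eq_one_of_mem hD ha'D
    calc z * z = a * (a' * a) * a' := by rw [hz]; group
      _ = a * (a * a') * a' := by rw [hcaa]
      _ = (a * a) * (a' * a') := by group
      _ = 1 := by rw [haa, ha'a', one_mul]
  have hza : z * a = a * z := by
    rw [hz, mul_assoc, hcaa]
  have hzb : z * b = b * z := by
    rw [hz2, mul_assoc, hcbb]
  have hzt : z * t = t * z := by
    rw [ht, ← mul_assoc, hza, mul_assoc, hzb, mul_assoc]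
  have hcom : Commute z t := hzt
  -- a' * b = z * t
  have ha'val : a' = a * z := by
    rw [hz, ← mul_assoc, sq_eq_one_of_mem hD ha, one_mul]
  have ha'b : a' * b = z * t := by
    rw [ha'val, ht, ← hza, mul_assoc]
  have hzone : z = 1 := by
    by_contra hzne
    have hoddt : Odd (orderOf t) := hodd
    -- t has odd order and is not the identity
    have htsq : t ^ 2 ≠ 1 := by
      intro h
      have h2 : orderOf t ∣ 2 := orderOf_dvd_of_pow_eq_one h
      have hc : Nat.Coprime (orderOf t) 2 := (Nat.coprime_two_right).2 hoddt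
      have h3 : orderOf t = 1 := Nat.Coprime.eq_one_of_dvd hc h2
      exact ht1 (orderOf_eq_one_iff.1 h3)
    rcases hD.1.pair a' ha'D b hb with h1 | h1 | h1
    · -- commute
      have h2 : (a' * b) ^ 2 = 1 := by
        calc (a' * b) ^ 2 = a' * (b * a') * b := by rw [pow_two]; group
          _ = a' * (a' * b) * b := by rw [h1]
          _ = (a' * a') * (b * b) := by group
          _ = 1 := by rw [sq_eq_one_of_mem hD ha'D, sq_eq_one_of_mem hD hb, one_mul]
      rw [ha'b, hcom.mul_pow, pow_two z, hzz, one_mul] at h2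
      exact htsq h2
    · -- odd order
      rw [ha'b] at h1
      obtain ⟨k, hk⟩ := h1
      have h2 := pow_orderOf_eq_one (z * t)
      rw [hk, hcom.mul_pow, pow_succ z, pow_mul z, pow_two z, hzz, one_pow, one_mul] at h2
      -- z * t ^ (2k+1) = 1 so z = (t^(2k+1))⁻¹ has odd order
      have h3 : z = (t ^ (2 * k + 1))⁻¹ := eq_inv_of_mul_eq_one_left h2
      apply hzne
      have hz2' : z ^ orderOf t = 1 := by
        rw [h3, inv_pow, ← pow_mul, mul_comm, pow_mul, pow_orderOf_eq_one, one_pow, inv_one]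
      have h4 : orderOf z ∣ orderOf t := orderOf_dvd_of_pow_eq_one hz2'
      have h5 : orderOf z ∣ 2 := orderOf_dvd_of_pow_eq_one (by rw [pow_two]; exact hzz)
      have hc : Nat.Coprime (orderOf t) 2 := (Nat.coprime_two_right).2 hoddt
      have h6 : orderOf z = 1 := Nat.eq_one_of_dvd_coprimes hc h4 h5
      exact orderOf_eq_one_iff.1 h6
    · exact absurd h1.1 (hD.2 a' ha'D b hb)
  constructor
  · have : a' = a := by rw [ha'val, hzone, mul_one]
    rw [ha'] at this
    calc q * a = q * a * q⁻¹ * q := by group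
      _ = a * q := by rw [this]
  · have hb'val : b' = b := by
      have h1 : b * b' = 1 := by rw [← hz2, hzone]
      have h2 : b' = b⁻¹ := eq_inv_of_mul_eq_one_right h1
      rw [h2, inv_eq_of_mem hD hb]
    rw [hb'] at hb'val
    calc q * b = q * b * q⁻¹ * q := by group
      _ = b * q := by rw [hb'val]

/-- Let G be a finite group generated by a set D of odd transpositions (root involutions with no product of order 4), Q = O₂(G), and for a ∈ D let Q_a be the commutator subgroup of Q with a. Then every member of D commuting with a centralizes Q_a; and for b ∈ D with ab of odd order greater than 1, the centralizer of ab in Q is the intersection of the centralizers of a and b in Q. -/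
theorem result {G : Type*} [Group G] [Finite G] {D : Set G} (hD : Cfsg.IsOddTranspositionSet D) {a : G} (ha : a ∈ D) :
    (∀ e ∈ Cfsg.commutingMembers D a, ∀ q ∈ ⁅Cfsg.pCore 2 G, Subgroup.zpowers a⁆, e * q = q * e) ∧
    (∀ b ∈ Cfsg.oddPartners D a,
      Cfsg.pCore 2 G ⊓ Subgroup.centralizer {a * b} = Cfsg.pCore 2 G ⊓ Subgroup.centralizer {a} ⊓ Subgroup.centralizer {b}) := by
  constructor
  · rintro e ⟨he, hea⟩ q hq
    have hle : ⁅Cfsg.pCore 2 G, Subgroup.zpowers a⁆ ≤ Subgroup.centralizer {e} := by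
      rw [Subgroup.commutator_le]
      intro x hx y hy
      obtain ⟨k, rfl⟩ := Subgroup.mem_zpowers_iff.1 hy
      rw [Subgroup.mem_centralizer_singleton_iff]
      have h1 : Commute e (x * a * x⁻¹) := comm_conj hD ha he hea hx
      have h2 : Commute e a := hea
      have h3 : x * a ^ k * x⁻¹ * (a ^ k)⁻¹ = (x * a * x⁻¹) ^ k * (a ^ k)⁻¹ := by
        rw [conj_zpow]
      rw [commutatorElement_def, h3]
      exact ((h1.zpow_right k).mul_right ((h2.zpow_right k).inv_right)).eq.symm
    have h4 := hle hq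
    rw [Subgroup.mem_centralizer_singleton_iff] at h4
    exact h4.symm
  · rintro b ⟨hb, hne, hodd⟩
    ext q
    simp only [Subgroup.mem_inf, Subgroup.mem_centralizer_singleton_iff]
    constructor
    · rintro ⟨hq, hc⟩
      obtain ⟨h1, h2⟩ := fix_of_comm_prod hD ha hb hne hodd hq hc
      exact ⟨⟨hq, h1⟩, h2⟩
    · rintro ⟨⟨hq, h1⟩, h2⟩
      refine ⟨hq, ?_⟩
      calc q * (a * b) = (q * a) * b := by group
        _ = (a * q) * b := by rw [h1]
        _ = a * (q * b) := by group
        _ = a * (b * q) := by rw [h2]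
        _ = a * b * q := by group

end Cfsg.Agent.S5049
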