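import Cfsg.Statements.S5057
import Mathlib
-- import your own Cfsg.Agent.* helpers here

set_option autoImplicit false
open Cfsg

namespace Cfsg.Agent.S5057

abbrev A6 := alternatingGroup (Fin 6)

def a0 : A6 := ⟨Equiv.swap 0 1 * Equiv.swap 2 3, by rw [Equiv.Perm.mem_alternatingGroup]; decide⟩

set_option maxRecDepth 100000 in
theorem conj_a0 : ∀ b : A6, b ^ 2 = 1 → b = 1 ∨ ∃ g : A6, b = g * a0 * g⁻¹ := by decide +kernel

set_option maxRecDepth 100000 in
theorem spectrum : ∀ g : A6, g = 1 ∨ g ^ 2 = 1 ∨ g ^ 3 = 1 ∨ g ^ 4 = 1 ∨ g ^ 5 = 1 := by decide +kernel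

theorem a0_sq : a0 ^ 2 = 1 := by decide +kernel
theorem a0_ne : a0 ≠ 1 := by decide +kernel

instance fact_prime_five : Fact (Nat.Prime 5) := ⟨by norm_num⟩
instance fact_prime_three : Fact (Nat.Prime 3) := ⟨by norm_num⟩

theorem mem_D_iff (g : A6) : orderOf g = 2 ↔ g ^ 2 = 1 ∧ g ≠ 1 := by
  constructor
  · intro h
    refine ⟨by rw [← h]; exact pow_orderOf_eq_one g, ?_⟩
    rintro rfl
    simp at h
  · rintro ⟨h1, h2⟩
    exact orderOf_eq_prime h1 h2

theorem order_cases (x : A6) :
    orderOf x = 1 ∨ orderOf x = 2 ∨ orderOf x = 3 ∨ orderOf x = 4 ∨ orderOf x = 5 := by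
  have h4 : x ^ 4 = 1 → orderOf x = 1 ∨ orderOf x = 2 ∨ orderOf x = 4 := by
    intro h
    have hd : orderOf x ∣ 4 := orderOf_dvd_of_pow_eq_one h
    have hle := Nat.le_of_dvd (by norm_num) hd
    interval_cases (orderOf x) <;> simp_all (config := {decide := true})
  by_cases h1 : x = 1
  · left; simp [h1]
  rcases spectrum x with h | h | h | h | h
  · exact absurd h h1
  · right; left; exact orderOf_eq_prime h h1
  · right; right; left; exact orderOf_eq_prime h h1
  · rcases h4 h with h | h | h <;> simp [h]
  · right; right; right; right; exact orderOf_eq_prime h h1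

/-- The involutions of the alternating group of degree 6 form a class of root involutions (a single conjugacy class of involutions generating the group, any two of which commute, have product of odd order, or have product of order 4 whose square is again an involution of the class), and the product of any two of them has order at most 5. -/
theorem result :
    Cfsg.IsRootInvolutionClass {g : ↥(alternatingGroup (Fin 6)) | orderOf g = 2} ∧
    ∀ d ∈ {g : ↥(alternatingGroup (Fin 6)) | orderOf g = 2}, ∀ e ∈ {g : ↥(alternatingGroup (Fin 6)) | orderOf g = 2},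
      orderOf (d * e) ≤ 5 := by
  classical
  have hcl : IsSimpleGroup A6 := alternatingGroup.isSimpleGroup (by simp)
  have hconj : ∀ d : A6, orderOf d = 2 → ∀ g : A6, orderOf (g * d * g⁻¹) = 2 := by
    intro d hd g
    have : orderOf (g * d * g⁻¹) = orderOf d := by
      have := orderOf_injective (MulAut.conj g).toMonoidHom (MulAut.conj g).injective d
      simpa using this
    rw [this, hd]
  refine ⟨⟨⟨fun d hd => hd, ?_, ?_, ?_⟩, ?_, ?_⟩, ?_⟩
  · -- generation
    have hN : (Subgroup.closure {g : A6 | orderOf g = 2}).Normal := by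
      refine ⟨fun n hn g => ?_⟩
      induction hn using Subgroup.closure_induction with
      | mem x hx => exact Subgroup.subset_closure (hconj x hx g)
      | one => simp
      | mul x y _ _ hx hy =>
        rw [show g * (x * y) * g⁻¹ = (g * x * g⁻¹) * (g * y * g⁻¹) by group]
        exact mul_mem hx hy
      | inv x _ hx =>
        rw [show g * x⁻¹ * g⁻¹ = (g * x * g⁻¹)⁻¹ by group]
        exact inv_mem hx
    rcases hN.eq_bot_or_eq_top with h | h
    · exfalso
      have : a0 ∈ Subgroup.closure {g : A6 | orderOf g = 2} :=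
        Subgroup.subset_closure ((mem_D_iff a0).2 ⟨a0_sq, a0_ne⟩)
      rw [h, Subgroup.mem_bot] at this
      exact a0_ne this
    · exact h
  · intro d hd g
    exact hconj d hd g
  · intro a ha b hb
    rcases order_cases (a * b) with h | h | h | h | h
    · right; left; rw [h]; decide
    · left
      have ha2 : a ^ 2 = 1 := ((mem_D_iff a).1 ha).1
      have hb2 : b ^ 2 = 1 := ((mem_D_iff b).1 hb).1
      have hab : (a * b) ^ 2 = 1 := by rw [← h]; exact pow_orderOf_eq_one _
      have hai : a⁻¹ = a := by
        rw [inv_eq_iff_mul_eq_one, ← pow_two]; exact ha2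
      have hbi : b⁻¹ = b := by
        rw [inv_eq_iff_mul_eq_one, ← pow_two]; exact hb2
      have : a * b = (a * b)⁻¹ := by
        rw [eq_inv_iff_mul_eq_one, ← pow_two]; exact hab
      rw [this, mul_inv_rev, hai, hbi]
    · right; left; rw [h]; decide
    · right; right
      refine ⟨h, ?_⟩
      show orderOf ((a * b) ^ 2) = 2
      rw [orderOf_pow, h]; rfl
    · right; left; rw [h]; decide
  · exact ⟨a0, (mem_D_iff a0).2 ⟨a0_sq, a0_ne⟩⟩
  · intro a ha b hb
    have key : ∀ x : A6, orderOf x = 2 → ∃ g : A6, x = g * a0 * g⁻¹ := by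
      intro x hx
      rcases conj_a0 x ((mem_D_iff x).1 hx).1 with h | h
      · exact absurd h ((mem_D_iff x).1 hx).2
      · exact h
    obtain ⟨g, rfl⟩ := key a ha
    obtain ⟨h, rfl⟩ := key b hb
    refine ⟨h * g⁻¹, ?_⟩
    group
  · intro d _ e _
    rcases order_cases (d * e) with h | h | h | h | h <;> rw [h] <;> norm_num

end Cfsg.Agent.S5057
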