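import Cfsg.Statements.S5058
import Mathlib
import Cfsg.Prelude.Def_RootSubgroups
import Cfsg.Agent.Lib.Linalg.TransvectionForm
import Cfsg.Agent.Lib.Classical.Lin.Transvections
import Cfsg.Agent.Lib.Classical.Lin.RootSeed

set_option autoImplicit false
open Matrix
open Cfsg

namespace Cfsg.Agent.S5058

open Polynomial
open Cfsg.Agent.Lib.Linalg.TransvectionForm
open Cfsg.Agent.Lib.Classical.Lin.RootSeed

section Alg

variable {F R : Type*} [Field F] [Ring R] [Algebra F R]

lemma N_sq {A B : R} {τ : F} (hAA : A * A = 0) (hBB : B * B = 0) (hABA : A * B * A = τ • A)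
    (hBAB : B * A * B = τ • B) :
    (A + B + A * B) * (A + B + A * B) = τ • A + τ • B + (1 + τ) • (A * B) + B * A := by
  have e1 : A * (A * B) = 0 := by rw [← mul_assoc, hAA, zero_mul]
  have e2 : B * (A * B) = τ • B := by rw [← mul_assoc, hBAB]
  have e3 : A * B * B = 0 := by rw [mul_assoc, hBB, mul_zero]
  have e4 : A * B * (A * B) = τ • (A * B) := by rw [← mul_assoc, hABA, smul_mul_assoc]
  simp only [add_mul, mul_add]
  rw [hAA, hBB, hABA, e1, e2, e3, e4]
  module

lemma N_M {A B : R} {τ : F} (hAA : A * A = 0) (hBB : B * B = 0) (hABA : A * B * A = τ • A)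
    (hBAB : B * A * B = τ • B) :
    (A + B + A * B) * (A * B + B * A - τ • 1) = 0 := by
  have e1 : A * (A * B) = 0 := by rw [← mul_assoc, hAA, zero_mul]
  have e2 : B * (A * B) = τ • B := by rw [← mul_assoc, hBAB]
  have e3 : A * (B * A) = τ • A := by rw [← mul_assoc, hABA]
  have e4 : B * (B * A) = 0 := by rw [← mul_assoc, hBB, zero_mul]
  have e5 : A * B * (A * B) = τ • (A * B) := by rw [← mul_assoc, hABA, smul_mul_assoc]
  have e6 : A * B * (B * A) = 0 := by rw [mul_assoc, ← mul_assoc B, hBB, zero_mul, mul_zero]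
  simp only [add_mul, mul_add, mul_sub, mul_smul_comm, mul_one]
  rw [e1, e2, e3, e4, e5, e6]
  module

lemma add_self_zero (h2 : (2 : F) = 0) (y : R) : y + y = 0 := by
  have : y + y = (2 : F) • y := by rw [two_smul]
  rw [this, h2, zero_smul]

lemma one_add_mul_expand (A B : R) : (1 + A) * (1 + B) = 1 + (A + B + A * B) := by
  noncomm_ring

lemma sq_expand (h2 : (2 : F) = 0) (N : R) : (1 + N) * (1 + N) = 1 + N * N := by
  have : (1 + N) * (1 + N) = 1 + (N + N) + N * N := by noncomm_ring
  rw [this, add_self_zero h2 N, add_zero]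

lemma charpoly_identity (h2 : (2 : F) = 0) {A B : R} {τ : F} (hAA : A * A = 0) (hBB : B * B = 0)
    (hABA : A * B * A = τ • A) (hBAB : B * A * B = τ • B) :
    ((1 + A) * (1 + B) - 1) *
      ((1 + A) * (1 + B) * ((1 + A) * (1 + B)) - τ • ((1 + A) * (1 + B)) + 1) = 0 := by
  rw [one_add_mul_expand, sq_expand h2, N_sq hAA hBB hABA hBAB, add_sub_cancel_left]
  have hM : 1 + (τ • A + τ • B + (1 + τ) • (A * B) + B * A) - τ • (1 + (A + B + A * B)) + 1 =
      A * B + B * A - τ • 1 + (1 + 1) := by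
    module
  rw [hM, add_self_zero h2 (1 : R), add_zero]
  exact N_M hAA hBB hABA hBAB

end Alg

section OddOrder

variable {ι F : Type*} [Fintype ι] [DecidableEq ι] [Field F] [Fintype F] [CharP F 2]

omit [Fintype F] in
lemma squarefree_P {τ : F} (hτ : τ ≠ 0) :
    Squarefree (((X : F[X]) - 1) * (X ^ 2 - C τ * X + 1)) := by
  have h2 : (2 : F) = 0 := CharTwo.two_eq_zero
  have h2' : (2 : F[X]) = 0 := by
    have := congrArg (C : F →+* F[X]) h2
    rwa [map_zero, map_ofNat] at this
  apply Polynomial.Separable.squarefree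
  apply Polynomial.Separable.mul
  · have := separable_X_sub_C (x := (1 : F))
    simpa using this
  · rw [separable_def]
    have hd : derivative ((X : F[X]) ^ 2 - C τ * X + 1) = C (-τ) := by
      have : derivative ((X : F[X]) ^ 2 - C τ * X + 1) = 2 * X - C τ := by
        simp [one_add_one_eq_two]
        exact map_ofNat C 2
      rw [this, h2', zero_mul, zero_sub, C_neg]
    rw [hd]
    refine ⟨0, C (-τ)⁻¹, ?_⟩
    rw [zero_mul, zero_add, ← C_mul, inv_mul_cancel₀ (neg_ne_zero.2 hτ), C_1]
  · have hcτ : (C (-τ⁻¹) : F[X]) * C τ = -1 := by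
      rw [← C_mul, neg_mul, inv_mul_cancel₀ hτ, C_neg, C_1]
    refine ⟨-C (-τ⁻¹) * (X + 1 - C τ), C (-τ⁻¹), ?_⟩
    linear_combination (C (-τ⁻¹)) * h2' - hcτ

lemma odd_orderOf {x : SpecialLinearGroup ι F} {τ : F} (hτ : τ ≠ 0)
    (h : ((x : Matrix ι ι F) - 1) * ((x : Matrix ι ι F) * x - τ • (x : Matrix ι ι F) + 1) = 0) :
    Odd (orderOf x) := by
  have h2 : (2 : F) = 0 := CharTwo.two_eq_zero
  by_contra hodd
  rw [Nat.not_odd_iff_even] at hodd
  obtain ⟨m, hm⟩ := hodd
  have hpos : 0 < orderOf x := orderOf_pos x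
  have hm0 : m ≠ 0 := by omega
  have hne : x ^ m ≠ 1 := pow_ne_one_of_lt_orderOf hm0 (by omega)
  have hsq : x ^ m * x ^ m = 1 := by rw [← pow_add, ← hm, pow_orderOf_eq_one]
  have hcoe : ∀ k : ℕ, ((x ^ k : SpecialLinearGroup ι F) : Matrix ι ι F) = (x : Matrix ι ι F) ^ k :=
    fun k => Matrix.SpecialLinearGroup.coe_pow x k
  generalize hM : (x : Matrix ι ι F) = M at h hcoe
  have hsq' : M ^ m * M ^ m = 1 := by
    rw [← hcoe m]
    exact congrArg (fun y : SpecialLinearGroup ι F => (y : Matrix ι ι F)) hsq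
  have hP : aeval M (((X : F[X]) - 1) * (X ^ 2 - C τ * X + 1)) = 0 := by
    simp only [map_mul, map_sub, map_add, map_pow, aeval_X, aeval_C, map_one]
    rw [Algebra.algebraMap_eq_smul_one, smul_mul_assoc, one_mul, pow_two]
    exact h
  have hf : aeval M (((X : F[X]) ^ m - 1) ^ 2) = 0 := by
    simp only [map_pow, map_sub, aeval_X, map_one]
    have h5 : (M ^ m - 1) ^ 2 = M ^ m * M ^ m - (M ^ m + M ^ m) + 1 := by noncomm_ring
    rw [h5, hsq', add_self_zero h2 (M ^ m), sub_zero, add_self_zero h2 (1 : Matrix ι ι F)]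
  have hsqf : Squarefree (minpoly F M) :=
    (squarefree_P hτ).squarefree_of_dvd (minpoly.dvd F M hP)
  have hdvd : minpoly F M ∣ ((X : F[X]) ^ m - 1) :=
    (hsqf.dvd_pow_iff_dvd (by norm_num)).1 (minpoly.dvd F M hf)
  have hzero : aeval M ((X : F[X]) ^ m - 1) = 0 := by
    obtain ⟨k, hk⟩ := hdvd
    rw [hk, map_mul, minpoly.aeval, zero_mul]
  apply hne
  apply Matrix.SpecialLinearGroup.ext
  intro i j
  have h6 : M ^ m = 1 := by
    simpa [sub_eq_zero] using hzero
  rw [hcoe, h6]
  rfl

end OddOrder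

section Main

variable {F : Type*} [Field F] {n : ℕ}

/-- The set of the statement. -/
def Dset (F : Type*) [Field F] (n : ℕ) : Set (SpecialLinearGroup (Fin (n + 3)) F) :=
  {t | ∃ c : F, c ≠ 0 ∧ ∃ g : SpecialLinearGroup (Fin (n + 3)) F,
    ((g⁻¹ * t * g : SpecialLinearGroup (Fin (n + 3)) F) : Matrix (Fin (n + 3)) (Fin (n + 3)) F) =
      Matrix.transvection 0 1 c}

/-- The normal form of a transvection. -/
def Form (t : SpecialLinearGroup (Fin (n + 3)) F) : Prop :=
  ∃ v w : Fin (n + 3) → F, v ≠ 0 ∧ w ≠ 0 ∧ w ⬝ᵥ v = 0 ∧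
    (t : Matrix (Fin (n + 3)) (Fin (n + 3)) F) = 1 + vecMulVec v w

lemma transvection_eq_form {m : ℕ} (i j : Fin m) (c : F) :
    Matrix.transvection i j c = 1 + vecMulVec (Pi.single i c) (Pi.single j 1) := by
  have : (Matrix.single i j c : Matrix (Fin m) (Fin m) F) =
      vecMulVec (Pi.single i c) (Pi.single j 1) := by
    ext a b
    by_cases ha : a = i
    · subst ha
      by_cases hb : b = j
      · subst hb
        simp [vecMulVec_apply]
      · simp [vecMulVec_apply, hb, Ne.symm hb]
    · simp [vecMulVec_apply, ha, Ne.symm ha]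
  rw [Matrix.transvection, this]

lemma form_transvection {i j : Fin (n + 3)} (hij : i ≠ j) {c : F} (hc : c ≠ 0) :
    Form (Matrix.SpecialLinearGroup.transvection hij c) := by
  refine ⟨Pi.single i c, Pi.single j 1, ?_, ?_, ?_, ?_⟩
  · intro h
    exact hc (by simpa using congrFun h i)
  · intro h
    exact one_ne_zero (α := F) (by simpa using congrFun h j)
  · simp [hij]
  · rw [Matrix.SpecialLinearGroup.transvection_coe, ← Matrix.transvection, transvection_eq_form]

lemma form_of_mem {t : SpecialLinearGroup (Fin (n + 3)) F} (ht : t ∈ Dset F n) : Form t := by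
  obtain ⟨c, hc, g, hg⟩ := ht
  have h1 : (t : Matrix (Fin (n + 3)) (Fin (n + 3)) F) = (g : Matrix (Fin (n + 3)) (Fin (n + 3)) F) *
      Matrix.transvection 0 1 c * ((g⁻¹ : SpecialLinearGroup (Fin (n + 3)) F) : Matrix (Fin (n + 3)) (Fin (n + 3)) F) := by
    rw [← hg]
    have h2 : t = g * (g⁻¹ * t * g) * g⁻¹ := by group
    exact congrArg (fun y : SpecialLinearGroup (Fin (n + 3)) F => (y : Matrix (Fin (n + 3)) (Fin (n + 3)) F)) h2
  have hgg : (g : Matrix (Fin (n + 3)) (Fin (n + 3)) F) * ((g⁻¹ : SpecialLinearGroup (Fin (n + 3)) F) : Matrix (Fin (n + 3)) (Fin (n + 3)) F) = 1 :=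
    coe_mul_inv g
  have hgg' : ((g⁻¹ : SpecialLinearGroup (Fin (n + 3)) F) : Matrix (Fin (n + 3)) (Fin (n + 3)) F) * (g : Matrix (Fin (n + 3)) (Fin (n + 3)) F) = 1 :=
    coe_inv_mul g
  have h3 := conj_T (g : Matrix (Fin (n + 3)) (Fin (n + 3)) F) _ hgg (Pi.single (0 : Fin (n + 3)) c) (Pi.single 1 1)
  have h01 : (0 : Fin (n + 3)) ≠ 1 := by simp
  refine ⟨(g : Matrix (Fin (n + 3)) (Fin (n + 3)) F) *ᵥ Pi.single 0 c,
    (Pi.single 1 1) ᵥ* ((g⁻¹ : SpecialLinearGroup (Fin (n + 3)) F) : Matrix (Fin (n + 3)) (Fin (n + 3)) F), ?_, ?_, ?_, ?_⟩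
  · intro h
    have h4 := congrArg (fun y => ((g⁻¹ : SpecialLinearGroup (Fin (n + 3)) F) : Matrix (Fin (n + 3)) (Fin (n + 3)) F) *ᵥ y) h
    simp only [mulVec_mulVec, hgg', one_mulVec, mulVec_zero] at h4
    exact hc (by simpa using congrFun h4 0)
  · intro h
    have h4 := congrArg (fun y => y ᵥ* (g : Matrix (Fin (n + 3)) (Fin (n + 3)) F)) h
    simp only [vecMul_vecMul, hgg', vecMul_one, zero_vecMul] at h4
    exact one_ne_zero (α := F) (by simpa using congrFun h4 1)
  · rw [← dotProduct_mulVec, mulVec_mulVec, hgg', one_mulVec]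
    simp
  · rw [h1, transvection_eq_form]
    exact h3

lemma mem_of_form {t : SpecialLinearGroup (Fin (n + 3)) F} (ht : Form t) : t ∈ Dset F n := by
  obtain ⟨v, w, hv, hw, hwv, htf⟩ := ht
  have h01 : (0 : Fin (n + 3)) ≠ 1 := by simp
  obtain ⟨v₀, w₀, hv₀, hw₀, hwv₀, hsf⟩ := form_transvection (F := F) h01 (one_ne_zero)
  have hcard : 3 ≤ Fintype.card (Fin (n + 3)) := by simp
  have hconj := isConj_SL_of_transvection hcard
    (s := Matrix.SpecialLinearGroup.transvection h01 (1 : F)) (t := t)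
    (by rw [hsf]; exact (transvection_of_form hv₀ hw₀ hwv₀).1)
    (by rw [hsf]; exact (transvection_of_form hv₀ hw₀ hwv₀).2)
    (by rw [htf]; exact (transvection_of_form hv hw hwv).1)
    (by rw [htf]; exact (transvection_of_form hv hw hwv).2)
  obtain ⟨g, hg⟩ := isConj_iff.1 hconj
  refine ⟨1, one_ne_zero, g, ?_⟩
  have h2 : g⁻¹ * t * g = Matrix.SpecialLinearGroup.transvection h01 (1 : F) := by
    rw [← hg]; group
  rw [h2, Matrix.SpecialLinearGroup.transvection_coe, Matrix.transvection]

lemma conj_of_mem {a b : SpecialLinearGroup (Fin (n + 3)) F} (ha : a ∈ Dset F n) (hb : b ∈ Dset F n) :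
    ∃ g, b = g * a * g⁻¹ := by
  obtain ⟨v, w, hv, hw, hwv, haf⟩ := form_of_mem ha
  obtain ⟨v', w', hv', hw', hwv', hbf⟩ := form_of_mem hb
  have hcard : 3 ≤ Fintype.card (Fin (n + 3)) := by simp
  have hconj := isConj_SL_of_transvection hcard (s := a) (t := b)
    (by rw [haf]; exact (transvection_of_form hv hw hwv).1)
    (by rw [haf]; exact (transvection_of_form hv hw hwv).2)
    (by rw [hbf]; exact (transvection_of_form hv' hw' hwv').1)
    (by rw [hbf]; exact (transvection_of_form hv' hw' hwv').2)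
  obtain ⟨g, hg⟩ := isConj_iff.1 hconj
  exact ⟨g, hg.symm⟩

variable [Fintype F] [CharP F 2]

omit [Fintype F] in
lemma orderOf_of_form {t : SpecialLinearGroup (Fin (n + 3)) F} (ht : Form t) : orderOf t = 2 := by
  obtain ⟨v, w, hv, hw, hwv, htf⟩ := ht
  have h2 : (2 : F) = 0 := CharTwo.two_eq_zero
  obtain ⟨h3, h4⟩ := transvection_of_form hv hw hwv
  rw [add_sub_cancel_left] at h3 h4
  apply orderOf_eq_prime
  · apply Matrix.SpecialLinearGroup.ext
    intro i j
    have : (((t ^ 2 : SpecialLinearGroup (Fin (n + 3)) F)) : Matrix (Fin (n + 3)) (Fin (n + 3)) F) = 1 := by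
      rw [Matrix.SpecialLinearGroup.coe_pow, htf, pow_two, sq_expand h2, h4, add_zero]
    rw [this]
    rfl
  · rintro rfl
    have h5 : vecMulVec v w = 0 := by
      have h6 : ((1 : SpecialLinearGroup (Fin (n + 3)) F) : Matrix (Fin (n + 3)) (Fin (n + 3)) F) = 1 := rfl
      rw [h6] at htf
      exact (left_eq_add.1 htf)
    rw [h5, rank_zero] at h3
    exact zero_ne_one h3

omit [Fintype F] in
lemma order_four_of_form {x : Matrix.SpecialLinearGroup (Fin (n + 3)) F} (hy : Form (x ^ 2)) :
    orderOf x = 4 ∧ x ^ 2 ∈ Dset F n := by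
  refine ⟨?_, mem_of_form hy⟩
  have h1 := orderOf_of_form hy
  have h2 : x ^ 2 ≠ 1 := by
    intro h
    rw [h, orderOf_one] at h1
    omega
  have h3 : x ^ 4 = 1 := by
    have h4 : (x ^ 2) ^ (orderOf (x ^ 2)) = 1 := pow_orderOf_eq_one _
    rw [h1, ← pow_mul] at h4
    exact h4
  have := orderOf_eq_prime_pow (p := 2) (n := 1) (x := x) (by simpa using h2) (by simpa using h3)
  simpa using this

/-- The three possibilities for a product of two transvections. -/
lemma pair_cases {a b : Matrix.SpecialLinearGroup (Fin (n + 3)) F} (ha : Form a) (hb : Form b) :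
    a * b = b * a ∨
      (∃ τ : F, τ ≠ 0 ∧
        (((a * b : Matrix.SpecialLinearGroup (Fin (n + 3)) F) : Matrix (Fin (n + 3)) (Fin (n + 3)) F) - 1) *
          (((a * b : Matrix.SpecialLinearGroup (Fin (n + 3)) F) : Matrix (Fin (n + 3)) (Fin (n + 3)) F) *
            ((a * b : Matrix.SpecialLinearGroup (Fin (n + 3)) F) : Matrix (Fin (n + 3)) (Fin (n + 3)) F) -
            τ • ((a * b : Matrix.SpecialLinearGroup (Fin (n + 3)) F) : Matrix (Fin (n + 3)) (Fin (n + 3)) F) + 1) = 0) ∨
      (orderOf (a * b) = 4 ∧ (a * b) ^ 2 ∈ Dset F n) := by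
  obtain ⟨u, φ, hu, hφ, hφu, haf⟩ := ha
  obtain ⟨v, ψ, hv, hψ, hψv, hbf⟩ := hb
  have h2 : (2 : F) = 0 := CharTwo.two_eq_zero
  set A : Matrix (Fin (n + 3)) (Fin (n + 3)) F := vecMulVec u φ with hA
  set B : Matrix (Fin (n + 3)) (Fin (n + 3)) F := vecMulVec v ψ with hB
  set α : F := φ ⬝ᵥ v with hα
  set β : F := ψ ⬝ᵥ u with hβ
  have hAA : A * A = 0 := by
    have := (transvection_of_form hu hφ hφu).2
    rwa [add_sub_cancel_left] at this
  have hBB : B * B = 0 := by
    have := (transvection_of_form hv hψ hψv).2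
    rwa [add_sub_cancel_left] at this
  have hAB : A * B = vecMulVec u (α • ψ) := vecMulVec_mul_vecMulVec _ _ _ _
  have hBA : B * A = vecMulVec v (β • φ) := vecMulVec_mul_vecMulVec _ _ _ _
  have hABs : ∀ c : F, ∀ (p q : Fin (n + 3) → F), vecMulVec p (c • q) = c • vecMulVec p q := by
    intro c p q
    ext i j
    simp [vecMulVec_apply]
    ring
  have hABA : A * B * A = (α * β) • A := by
    rw [hAB, vecMulVec_mul_vecMulVec, smul_dotProduct, ← hβ, smul_eq_mul, hABs]
  have hBAB : B * A * B = (α * β) • B := by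
    rw [hBA, vecMulVec_mul_vecMulVec, smul_dotProduct, ← hα, smul_eq_mul, hABs, mul_comm]
  have hx : ((a * b : Matrix.SpecialLinearGroup (Fin (n + 3)) F) :
      Matrix (Fin (n + 3)) (Fin (n + 3)) F) = (1 + A) * (1 + B) := by
    rw [← haf, ← hbf]
    rfl
  have hxx : ((((a * b) ^ 2 : Matrix.SpecialLinearGroup (Fin (n + 3)) F)) :
      Matrix (Fin (n + 3)) (Fin (n + 3)) F) =
        1 + ((α * β) • A + (α * β) • B + (1 + α * β) • (A * B) + B * A) := by
    rw [Matrix.SpecialLinearGroup.coe_pow, hx, pow_two, one_add_mul_expand, sq_expand h2,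
      N_sq hAA hBB hABA hBAB]
  by_cases h0α : α = 0
  · by_cases h0β : β = 0
    · left
      apply Matrix.SpecialLinearGroup.ext
      intro i j
      have hAB0 : A * B = 0 := by
        rw [hAB, h0α, zero_smul]
        ext i j
        simp [vecMulVec_apply]
      have hBA0 : B * A = 0 := by
        rw [hBA, h0β, zero_smul]
        ext i j
        simp [vecMulVec_apply]
      have h3 : ((b * a : Matrix.SpecialLinearGroup (Fin (n + 3)) F) :
          Matrix (Fin (n + 3)) (Fin (n + 3)) F) = (1 + B) * (1 + A) := by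
        rw [← haf, ← hbf]
        rfl
      rw [hx, h3, one_add_mul_expand, one_add_mul_expand, hAB0, hBA0, add_zero, add_zero,
        add_comm A B]
    · right; right
      apply order_four_of_form
      refine ⟨v, β • φ, hv, smul_ne_zero h0β hφ, ?_, ?_⟩
      · rw [smul_dotProduct, ← hα, h0α, smul_zero]
      · rw [hxx, hBA, h0α]
        have hAB0 : A * B = 0 := by
          rw [hAB, h0α, zero_smul]
          ext i j
          simp [vecMulVec_apply]
        rw [hAB0]
        simp
  · by_cases h0β : β = 0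
    · right; right
      apply order_four_of_form
      refine ⟨u, α • ψ, hu, smul_ne_zero h0α hψ, ?_, ?_⟩
      · rw [smul_dotProduct, ← hβ, h0β, smul_zero]
      · rw [hxx, hAB, h0β]
        have hBA0 : B * A = 0 := by
          rw [hBA, h0β, zero_smul]
          ext i j
          simp [vecMulVec_apply]
        rw [hBA0]
        simp
    · right; left
      refine ⟨α * β, mul_ne_zero h0α h0β, ?_⟩
      rw [hx]
      exact charpoly_identity h2 hAA hBB hABA hBAB

theorem isRootInvolutionSet : Cfsg.IsRootInvolutionSet (Dset F n) where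
  orderOf_eq := fun d hd => orderOf_of_form (form_of_mem hd)
  generates := by
    rw [eq_top_iff, ← Cfsg.Agent.Lib.Classical.Lin.Transvections.closure_transvections (ι := Fin (n + 3)) (F := F),
      Subgroup.closure_le]
    rintro t ⟨i, j, hij, c, rfl⟩
    by_cases hc : c = 0
    · subst hc
      have : Matrix.SpecialLinearGroup.transvection hij (0 : F) = 1 := by
        apply Matrix.SpecialLinearGroup.ext
        intro a b
        simp
      rw [this]
      exact one_mem _
    · exact Subgroup.subset_closure (mem_of_form (form_transvection hij hc))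
  conj_mem := by
    rintro d ⟨c, hc, g, hg⟩ h
    refine ⟨c, hc, h * g, ?_⟩
    have : (h * g)⁻¹ * (h * d * h⁻¹) * (h * g) = g⁻¹ * d * g := by group
    rw [this, hg]
  pair := by
    intro a ha b hb
    rcases pair_cases (form_of_mem ha) (form_of_mem hb) with h | ⟨τ, hτ, h⟩ | h
    · exact Or.inl h
    · exact Or.inr (Or.inl (odd_orderOf hτ h))
    · exact Or.inr (Or.inr h)

end Main

/-- Let F be a finite field of characteristic 2 and n a natural number. Then the transvections of SL_{n+3}(F) (so in every dimension at least 3) (the conjugates of the elementary matrices 1 + c E₁₂, c ≠ 0) form a class of root involutions of SL_{n+3}(F); when F has two elements they form a class of {3,4}⁺-transpositions (every product of odd order has order 1 or 3). -/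
theorem result (F : Type*) [Field F] [Fintype F] [CharP F 2] (n : ℕ) :
    Cfsg.IsRootInvolutionClass {t : Matrix.SpecialLinearGroup (Fin (n + 3)) F | ∃ c : F, c ≠ 0 ∧
        ∃ g : Matrix.SpecialLinearGroup (Fin (n + 3)) F, ((g⁻¹ * t * g : Matrix.SpecialLinearGroup (Fin (n + 3)) F) :
          Matrix (Fin (n + 3)) (Fin (n + 3)) F) = Matrix.transvection 0 1 c} ∧
    (Fintype.card F = 2 → Cfsg.IsThreeFourPlusTranspositionSet {t : Matrix.SpecialLinearGroup (Fin (n + 3)) F | ∃ c : F, c ≠ 0 ∧
        ∃ g : Matrix.SpecialLinearGroup (Fin (n + 3)) F, ((g⁻¹ * t * g : Matrix.SpecialLinearGroup (Fin (n + 3)) F) :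
          Matrix (Fin (n + 3)) (Fin (n + 3)) F) = Matrix.transvection 0 1 c}) := by
  have h01 : (0 : Fin (n + 3)) ≠ 1 := by simp
  have hroot : Cfsg.IsRootInvolutionSet (Dset F n) := isRootInvolutionSet
  refine ⟨⟨hroot, ?_, ?_⟩, fun hF => ⟨hroot, ?_⟩⟩
  · exact ⟨_, mem_of_form (form_transvection h01 (one_ne_zero (α := F)))⟩
  · intro a ha b hb
    exact conj_of_mem ha hb
  · intro a ha b hb hodd
    have h2 : (2 : F) = 0 := CharTwo.two_eq_zero
    rcases pair_cases (form_of_mem ha) (form_of_mem hb) with h | ⟨τ, hτ, h⟩ | h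
    · have ha2 : a ^ 2 = 1 := by
        have h4 : a ^ (orderOf a) = 1 := pow_orderOf_eq_one _
        rwa [orderOf_of_form (form_of_mem ha)] at h4
      have hb2 : b ^ 2 = 1 := by
        have h4 : b ^ (orderOf b) = 1 := pow_orderOf_eq_one _
        rwa [orderOf_of_form (form_of_mem hb)] at h4
      have hsq : (a * b) ^ 2 = 1 := by
        rw [(show Commute a b from h).mul_pow, ha2, hb2, one_mul]
      have hdvd : orderOf (a * b) ∣ 2 := orderOf_dvd_of_pow_eq_one hsq
      rcases (Nat.dvd_prime Nat.prime_two).1 hdvd with h3 | h3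
      · exact Or.inl h3
      · rw [h3] at hodd
        exact absurd hodd (by decide)
    · have hτ1 : τ = 1 := by
        have h5 : τ ^ 2 = τ := by
          have := FiniteField.pow_card τ
          rwa [hF] at this
        have h6 : τ * τ = τ * 1 := by rw [mul_one, ← pow_two, h5]
        exact mul_left_cancel₀ hτ h6
      subst hτ1
      have h3 : (a * b) ^ 3 = 1 := by
        apply Matrix.SpecialLinearGroup.ext
        intro i j
        generalize hM : ((a * b : Matrix.SpecialLinearGroup (Fin (n + 3)) F) :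
          Matrix (Fin (n + 3)) (Fin (n + 3)) F) = M at h
        have h7 : M ^ 3 = 1 := by
          have h8 : M ^ 3 = (M - 1) * (M * M - (1 : F) • M + 1) + (M * M + M * M) - (M + M) + 1 := by
            rw [one_smul]
            noncomm_ring
          rw [h8, h, add_self_zero h2 (M * M), add_self_zero h2 M]
          simp
        rw [Matrix.SpecialLinearGroup.coe_pow, hM, h7]
        rfl
      rcases (Nat.dvd_prime Nat.prime_three).1 (orderOf_dvd_of_pow_eq_one h3) with h4 | h4
      · exact Or.inl h4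
      · exact Or.inr h4
    · rw [h.1] at hodd
      exact absurd hodd (by decide)

end Cfsg.Agent.S5058
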