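import Cfsg.Statements.S5059
import Mathlib
-- import your own Cfsg.Agent.* helpers here

set_option autoImplicit false
universe u
open Cfsg

namespace Cfsg.Agent.S5059

section aux

variable {k : Type u} [Field k] {M : Type u} [AddCommGroup M] [Module k M]

/-- The element `1 + c N` of `GL(M)`, for `N² = 0`. -/
def scal (N : M →ₗ[k] M) (hN : N * N = 0) (c : k) : LinearMap.GeneralLinearGroup k M where
  val := 1 + c • N
  inv := 1 - c • N
  val_inv := by
    simp only [mul_sub, add_mul, one_mul, mul_one, smul_mul_assoc, mul_smul_comm, hN, smul_zero,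
      add_zero]
    abel
  inv_val := by
    simp only [sub_mul, mul_add, one_mul, mul_one, smul_mul_assoc, mul_smul_comm, hN, smul_zero]
    abel

@[simp] theorem scal_val (N : M →ₗ[k] M) (hN : N * N = 0) (c : k) :
    ((scal N hN c : LinearMap.GeneralLinearGroup k M) : M →ₗ[k] M) = 1 + c • N := rfl

theorem val_eq (τ : LinearMap.GeneralLinearGroup k M) :
    (τ : M →ₗ[k] M) = 1 + ((τ : M →ₗ[k] M) - 1) := by abel

theorem one_add_pow_of_sq {R : Type*} [Ring R] (N : R) (h : N * N = 0) (n : ℕ) :
    (1 + N) ^ n = 1 + n • N := by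
  induction n with
  | zero => simp
  | succ n ih =>
    rw [pow_succ, ih, add_mul, one_mul, mul_add, mul_one, nsmul_eq_mul, mul_assoc, h, mul_zero,
      add_zero, succ_nsmul, nsmul_eq_mul]
    abel

end aux

section main

variable {k : Type u} [Field k] {M : Type u} [AddCommGroup M] [Module k M] [FiniteDimensional k M]
  {G : Subgroup (LinearMap.GeneralLinearGroup k M)} {σ : LinearMap.GeneralLinearGroup k M}

local notation "N[" τ "]" => (Units.val (τ : LinearMap.GeneralLinearGroup k M) - (1 : M →ₗ[k] M))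

theorem mem_class_mul_eq_zero (hσ : σ ∈ Cfsg.minimalQuadraticElements G)
    {τ τ' : LinearMap.GeneralLinearGroup k M} (hτ : τ ∈ Cfsg.sameActionClass G σ)
    (hτ' : τ' ∈ Cfsg.sameActionClass G σ) : N[τ] * N[τ'] = 0 := by
  have hN : N[σ] * N[σ] = 0 := hσ.1.2.1.1
  ext v
  have h1 : N[τ'] v ∈ LinearMap.range N[σ] := by
    rw [← hτ'.2.2]; exact ⟨v, rfl⟩
  obtain ⟨w, hw⟩ := h1
  have h2 : N[τ'] v ∈ LinearMap.ker N[τ] := by
    rw [hτ.2.1, LinearMap.mem_ker, ← hw]
    exact congrArg (fun f : M →ₗ[k] M => f w) hN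
  simpa using h2

theorem class_mul (hσ : σ ∈ Cfsg.minimalQuadraticElements G)
    {τ τ' : LinearMap.GeneralLinearGroup k M} (hτ : τ ∈ Cfsg.sameActionClass G σ)
    (hτ' : τ' ∈ Cfsg.sameActionClass G σ) :
    τ * τ' ∈ Cfsg.sameActionClass G σ ∨ τ * τ' = 1 := by
  have hNN' := mem_class_mul_eq_zero hσ hτ hτ'
  have hN'N := mem_class_mul_eq_zero hσ hτ' hτ
  have hNN := mem_class_mul_eq_zero hσ hτ hτ
  have hN'N' := mem_class_mul_eq_zero hσ hτ' hτ'
  have hval : N[τ * τ'] = N[τ] + N[τ'] := by
    have h3 : Units.val τ * Units.val τ' = 1 + N[τ] + N[τ'] + N[τ] * N[τ'] := by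
      simp only [mul_sub, sub_mul, one_mul, mul_one]
      abel
    rw [Units.val_mul, h3, hNN']
    abel
  by_cases h0 : N[τ] + N[τ'] = 0
  · right
    apply Units.ext
    have : N[τ * τ'] = 0 := by rw [hval, h0]
    exact sub_eq_zero.1 this
  left
  have hquad : ∀ c : k, (1 : M →ₗ[k] M) + c • N[τ * τ'] =
      ((scal N[τ] hNN c * scal N[τ'] hN'N' c : LinearMap.GeneralLinearGroup k M) : M →ₗ[k] M) := by
    intro c
    have : ((scal N[τ] hNN c * scal N[τ'] hN'N' c : LinearMap.GeneralLinearGroup k M) : M →ₗ[k] M) =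
        (1 + c • N[τ]) * (1 + c • N[τ']) := rfl
    rw [this, hval]
    simp only [mul_add, add_mul, one_mul, mul_one, smul_mul_assoc, mul_smul_comm, hNN', smul_zero,
      add_zero, smul_add]
    abel
  have hgmem : τ * τ' ∈ G := G.mul_mem hτ.1.1.1 hτ'.1.1.1
  have hscalG : ∀ {ρ : LinearMap.GeneralLinearGroup k M} (hρ : ρ ∈ Cfsg.sameActionClass G σ) (c : k)
      (hN : N[ρ] * N[ρ] = 0), scal N[ρ] hN c ∈ G := by
    intro ρ hρ c hN
    exact hρ.1.1.2.2 ⟨c, rfl⟩
  have hsq : N[τ * τ'] * N[τ * τ'] = 0 := by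
    rw [hval, mul_add, add_mul, add_mul, hNN', hN'N, hNN, hN'N']
    simp
  have hmemquad : τ * τ' ∈ Cfsg.quadraticElements G := by
    refine ⟨hgmem, ⟨hsq, ?_⟩, ?_⟩
    · rw [hval]; exact h0
    · rintro ρ ⟨c, hc⟩
      have h5 : ρ = scal N[τ] hNN c * scal N[τ'] hN'N' c := by
        apply Units.ext
        exact hc.trans (hquad c)
      rw [h5]
      exact G.mul_mem (hscalG hτ c hNN) (hscalG hτ' c hN'N')
  have hrle : LinearMap.range N[τ * τ'] ≤ LinearMap.range N[σ] := by
    rw [hval]
    rintro _ ⟨v, rfl⟩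
    rw [LinearMap.add_apply]
    apply Submodule.add_mem
    · rw [← hτ.2.2]; exact ⟨v, rfl⟩
    · rw [← hτ'.2.2]; exact ⟨v, rfl⟩
  have hrank : Cfsg.commutatorRank (τ * τ') = Cfsg.commutatorRank σ := by
    have h11 : Cfsg.commutatorRank σ ≤ Cfsg.commutatorRank (τ * τ') := hσ.2 _ hmemquad
    have h12 : Cfsg.commutatorRank (τ * τ') ≤ Cfsg.commutatorRank σ := Submodule.finrank_mono hrle
    omega
  have hr : LinearMap.range N[τ * τ'] = LinearMap.range N[σ] :=
    Submodule.eq_of_le_of_finrank_eq hrle hrank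
  have hkle : LinearMap.ker N[σ] ≤ LinearMap.ker N[τ * τ'] := by
    intro v hv
    have h6 : N[τ] v = 0 := by
      have : v ∈ LinearMap.ker N[τ] := by rw [hτ.2.1]; exact hv
      exact this
    have h7 : N[τ'] v = 0 := by
      have : v ∈ LinearMap.ker N[τ'] := by rw [hτ'.2.1]; exact hv
      exact this
    rw [LinearMap.mem_ker, hval, LinearMap.add_apply, h6, h7, add_zero]
  have hk : LinearMap.ker N[τ * τ'] = LinearMap.ker N[σ] := by
    symm
    apply Submodule.eq_of_le_of_finrank_eq hkle
    have h8 := LinearMap.finrank_range_add_finrank_ker N[τ * τ']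
    have h9 := LinearMap.finrank_range_add_finrank_ker N[σ]
    have h10 : Module.finrank k (LinearMap.range N[τ * τ']) =
        Module.finrank k (LinearMap.range N[σ]) := hrank
    omega
  refine ⟨⟨hmemquad, fun ρ hρ => ?_⟩, hk, hr⟩
  rw [hrank]
  exact hσ.2 ρ hρ

theorem class_inv (hσ : σ ∈ Cfsg.minimalQuadraticElements G)
    {τ : LinearMap.GeneralLinearGroup k M} (hτ : τ ∈ Cfsg.sameActionClass G σ) :
    τ⁻¹ ∈ Cfsg.sameActionClass G σ := by
  have hNN := mem_class_mul_eq_zero hσ hτ hτ
  have hinv : τ⁻¹ = scal N[τ] hNN (-1) := by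
    apply inv_eq_of_mul_eq_one_right
    apply Units.ext
    have h1 : Units.val (τ * scal N[τ] hNN (-1)) = Units.val τ * (1 + (-1 : k) • N[τ]) := rfl
    rw [h1]
    have h2 : Units.val τ = 1 + N[τ] := val_eq τ
    rw [neg_one_smul]
    calc Units.val τ * (1 + -N[τ]) = (1 + N[τ]) * (1 + -N[τ]) := by rw [← h2]
      _ = 1 - N[τ] * N[τ] := by simp only [mul_add, add_mul, one_mul, mul_one, mul_neg]; abel
      _ = 1 := by rw [hNN, sub_zero]
  have hval : N[τ⁻¹] = - N[τ] := by
    rw [hinv]
    simp
  refine ⟨⟨⟨G.inv_mem hτ.1.1.1, ⟨?_, ?_⟩, ?_⟩, ?_⟩, ?_, ?_⟩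
  · rw [hval, neg_mul_neg, hNN]
  · rw [hval]
    exact neg_ne_zero.2 hτ.1.1.2.1.2
  · rintro ρ ⟨c, hc⟩
    rw [hval] at hc
    apply hτ.1.1.2.2
    exact ⟨-c, by rw [hc, neg_smul, smul_neg]⟩
  · intro ρ hρ
    have : Cfsg.commutatorRank τ⁻¹ = Cfsg.commutatorRank τ := by
      unfold Cfsg.commutatorRank
      rw [hval, LinearMap.range_neg]
    rw [this]
    exact hτ.1.2 ρ hρ
  · rw [hval, LinearMap.ker_neg]; exact hτ.2.1
  · rw [hval, LinearMap.range_neg]; exact hτ.2.2

end main

/-- Let k be a field of characteristic not 2 with k not of order 3, M a finite-dimensional k-vector space and G ≤ GL(M) such that (G, M) is a quadratic pair (M irreducible for G, and G generated by its quadratically acting elements σ whose scalar family 1 + c(σ − 1), c ∈ k, lies in G). Write 𝒬_d for the quadratic elements of G of minimal commutator rank, E(σ) for the subgroup generated by the members of 𝒬_d with the same fixed space and commutator space as σ, and Σ for the set of these subgroups. Then for σ ∈ 𝒬_d the subgroup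 E(σ) consists exactly of those members together with the identity, it is abelian, and if k has prime characteristic p every element of E(σ) has order dividing p. -/
theorem result {k : Type u} [Field k] (hk2 : ringChar k ≠ 2) (hk3 : Nat.card k ≠ 3)
    {M : Type u} [AddCommGroup M] [Module k M] [FiniteDimensional k M]
    {G : Subgroup (LinearMap.GeneralLinearGroup k M)} (hG : Cfsg.IsQuadraticPair G)
    {σ : LinearMap.GeneralLinearGroup k M} (hσ : σ ∈ Cfsg.minimalQuadraticElements G) :
    (Cfsg.sameActionSubgroup G σ : Set (LinearMap.GeneralLinearGroup k M)) = Cfsg.sameActionClass G σ ∪ {1} ∧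
    IsMulCommutative ↥(Cfsg.sameActionSubgroup G σ) ∧
    (∀ p : ℕ, p.Prime → ringChar k = p → ∀ x ∈ Cfsg.sameActionSubgroup G σ, x ^ p = 1) := by
  classical
  let H : Subgroup (LinearMap.GeneralLinearGroup k M) :=
    { carrier := Cfsg.sameActionClass G σ ∪ {1}
      mul_mem' := by
        rintro x y (hx | hx) (hy | hy)
        · rcases class_mul hσ hx hy with h | h
          · exact Or.inl h
          · exact Or.inr h
        · rw [Set.mem_singleton_iff.1 hy, mul_one]; exact Or.inl hx
        · rw [Set.mem_singleton_iff.1 hx, one_mul]; exact Or.inl hy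
        · rw [Set.mem_singleton_iff.1 hx, Set.mem_singleton_iff.1 hy, one_mul]; exact Or.inr rfl
      one_mem' := Or.inr rfl
      inv_mem' := by
        rintro x (hx | hx)
        · exact Or.inl (class_inv hσ hx)
        · rw [Set.mem_singleton_iff.1 hx, inv_one]; exact Or.inr rfl }
  have hcl : Cfsg.sameActionSubgroup G σ = H := by
    apply le_antisymm
    · exact (Subgroup.closure_le _).2 (fun x hx => Or.inl hx)
    · rintro x (hx | hx)
      · exact Subgroup.subset_closure hx
      · rw [Set.mem_singleton_iff.1 hx]; exact Subgroup.one_mem _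
  have hcomm : ∀ x ∈ H, ∀ y ∈ H, x * y = y * x := by
    rintro x (hx | hx) y (hy | hy)
    · apply Units.ext
      have h1 := mem_class_mul_eq_zero hσ hx hy
      have h2 := mem_class_mul_eq_zero hσ hy hx
      have h3 : Units.val x * Units.val y = 1 + (Units.val x - 1) + (Units.val y - 1) +
          (Units.val x - 1) * (Units.val y - 1) := by
        simp only [mul_sub, sub_mul, one_mul, mul_one]
        abel
      have h4 : Units.val y * Units.val x = 1 + (Units.val y - 1) + (Units.val x - 1) +
          (Units.val y - 1) * (Units.val x - 1) := by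
        simp only [mul_sub, sub_mul, one_mul, mul_one]
        abel
      rw [Units.val_mul, Units.val_mul, h3, h4, h1, h2]
      abel
    · rw [Set.mem_singleton_iff.1 hy, mul_one, one_mul]
    · rw [Set.mem_singleton_iff.1 hx, mul_one, one_mul]
    · rw [Set.mem_singleton_iff.1 hx, Set.mem_singleton_iff.1 hy]
  refine ⟨?_, ?_, ?_⟩
  · rw [hcl]; rfl
  · rw [hcl]
    constructor
    constructor
    rintro ⟨x, hx⟩ ⟨y, hy⟩
    exact Subtype.ext (hcomm x hx y hy)
  · intro p hp hkp x hx
    rw [hcl] at hx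
    rcases hx with hx | hx
    · apply Units.ext
      have hN := mem_class_mul_eq_zero hσ hx hx
      have hpow : ∀ n : ℕ, (Units.val x) ^ n = 1 + n • (Units.val x - 1) := by
        intro n
        have := one_add_pow_of_sq _ hN n
        rwa [← val_eq x] at this
      rw [Units.val_pow_eq_pow_val, hpow, Units.val_one, ← Nat.cast_smul_eq_nsmul k p]
      have hp0 : (p : k) = 0 := by
        rw [← hkp]
        exact ringChar.Nat.cast_ringChar
      rw [hp0, zero_smul, add_zero]
    · rw [Set.mem_singleton_iff.1 hx, one_pow]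

end Cfsg.Agent.S5059
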