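import Cfsg.Statements.S5060
import Mathlib
import Cfsg.Agent.Lib.Linalg.Quad.FieldGen
-- import your own Cfsg.Agent.* helpers here

set_option autoImplicit false
open Cfsg

namespace Cfsg.Agent.S5060

/-- Let k ⊆ K be fields with the characteristic of k not 2 and k not of order 3, and let α ∈ K be a non-zero element algebraic over k. Then the subgroup of SL₂(K) generated by the upper unitriangular matrices with entry c and the lower unitriangular matrices with entry cα, c ranging over k, is exactly the group of matrices of SL₂(K) with all entries in k(α). -/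
theorem result {k K : Type*} [Field k] [Field K] [Algebra k K] (hk2 : ringChar k ≠ 2) (hk3 : Nat.card k ≠ 3)
    (α : K) (hα : IsAlgebraic k α) (hα0 : α ≠ 0) :
    (Subgroup.closure ({g : Matrix.SpecialLinearGroup (Fin 2) K | ∃ c : k, (g : Matrix (Fin 2) (Fin 2) K) = !![1, algebraMap k K c; 0, 1]} ∪
        {g : Matrix.SpecialLinearGroup (Fin 2) K | ∃ c : k, (g : Matrix (Fin 2) (Fin 2) K) = !![1, 0; algebraMap k K c * α, 1]}) :
      Set (Matrix.SpecialLinearGroup (Fin 2) K)) =
    {g : Matrix.SpecialLinearGroup (Fin 2) K | ∀ i j : Fin 2, (g : Matrix (Fin 2) (Fin 2) K) i j ∈ IntermediateField.adjoin k ({α} : Set K)} := by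
  classical
  set E := IntermediateField.adjoin k ({α} : Set K) with hE
  have hαE : α ∈ E := IntermediateField.mem_adjoin_simple_self k α
  let α' : E := ⟨α, hαE⟩
  let ι : E →+* K := algebraMap E K
  let φ : Matrix.SpecialLinearGroup (Fin 2) E →* Matrix.SpecialLinearGroup (Fin 2) K :=
    Matrix.SpecialLinearGroup.map ι
  have hφe : ∀ (A : Matrix.SpecialLinearGroup (Fin 2) E) (i j : Fin 2),
      (φ A : Matrix (Fin 2) (Fin 2) K) i j = (A : Matrix (Fin 2) (Fin 2) E) i j := fun _ _ _ => rfl
  set C := Subgroup.closure ({g : Matrix.SpecialLinearGroup (Fin 2) K | ∃ c : k, (g : Matrix (Fin 2) (Fin 2) K) = !![1, algebraMap k K c; 0, 1]} ∪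
        {g : Matrix.SpecialLinearGroup (Fin 2) K | ∃ c : k, (g : Matrix (Fin 2) (Fin 2) K) = !![1, 0; algebraMap k K c * α, 1]}) with hC
  have hx₀ : ∀ c : k, Cfsg.Agent.Lib.PSL2.Basic.x (algebraMap k K c) ∈ C := by
    intro c
    apply Subgroup.subset_closure
    left
    exact ⟨c, rfl⟩
  have hy₀ : ∀ c : k, Cfsg.Agent.Lib.PSL2.Basic.y (algebraMap k K c * α) ∈ C := by
    intro c
    apply Subgroup.subset_closure
    right
    exact ⟨c, rfl⟩
  have hinE : ∀ c : k, algebraMap k K c ∈ E := fun c => E.algebraMap_mem c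
  ext g
  constructor
  · -- entries lie in `E`
    intro hg
    have hle : C ≤ φ.range := by
      rw [hC, Subgroup.closure_le]
      rintro g (⟨c, hc⟩ | ⟨c, hc⟩)
      · refine ⟨Cfsg.Agent.Lib.PSL2.Basic.x (algebraMap k E c), ?_⟩
        have h1 : g = Cfsg.Agent.Lib.PSL2.Basic.x (algebraMap k K c) := Subtype.ext hc
        rw [h1]
        apply Cfsg.Agent.Lib.PSL2.Basic.ext2 <;> simp [φ, ι]
      · refine ⟨Cfsg.Agent.Lib.PSL2.Basic.y (algebraMap k E c * α'), ?_⟩
        have h1 : g = Cfsg.Agent.Lib.PSL2.Basic.y (algebraMap k K c * α) := Subtype.ext hc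
        rw [h1]
        apply Cfsg.Agent.Lib.PSL2.Basic.ext2 <;> simp [φ, ι, α']
    obtain ⟨A, rfl⟩ := hle hg
    intro i j
    rw [hφe]
    exact ((A : Matrix (Fin 2) (Fin 2) E) i j).2
  · -- conversely
    intro hg
    have hφinj : Function.Injective φ := by
      intro A B h
      ext i j
      have h1 := congrArg (fun M : Matrix.SpecialLinearGroup (Fin 2) K => (M : Matrix (Fin 2) (Fin 2) K) i j) h
      exact h1
    have htop : C.comap φ = ⊤ := by
      refine Cfsg.Agent.Lib.Linalg.Quad.FieldGen.eq_top_of_gen (k := k) (Ring.two_ne_zero hk2) hk3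
        (α := α') ?_ ?_ ?_ (C.comap φ) ?_ ?_
      · intro h
        exact hα0 (congrArg Subtype.val h)
      · exact (isAlgebraic_algebraMap_iff (algebraMap E K).injective).1 hα
      · intro u
        have h1 : (u : K) ∈ (Algebra.adjoin k ({α} : Set K)) := by
          rw [← IntermediateField.adjoin_simple_toSubalgebra_of_isAlgebraic hα]
          exact u.2
        rw [Algebra.adjoin_singleton_eq_range_aeval] at h1
        obtain ⟨P, hP⟩ := h1
        refine ⟨P, Subtype.ext ?_⟩
        have h2 : ((Polynomial.aeval α') P : K) = Polynomial.aeval α P := by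
          have := Polynomial.aeval_algebraMap_apply K α' P
          exact this.symm
        rw [h2]
        exact hP
      · intro c
        show φ _ ∈ C
        have : φ (Cfsg.Agent.Lib.PSL2.Basic.x (algebraMap k E c)) = Cfsg.Agent.Lib.PSL2.Basic.x (algebraMap k K c) := by
          apply Cfsg.Agent.Lib.PSL2.Basic.ext2 <;> simp [φ, ι]
        rw [this]
        exact hx₀ c
      · intro c
        show φ _ ∈ C
        have : φ (Cfsg.Agent.Lib.PSL2.Basic.y (algebraMap k E c * α')) = Cfsg.Agent.Lib.PSL2.Basic.y (algebraMap k K c * α) := by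
          apply Cfsg.Agent.Lib.PSL2.Basic.ext2 <;> simp [φ, ι, α']
        rw [this]
        exact hy₀ c
    -- lift `g`
    let A : Matrix.SpecialLinearGroup (Fin 2) E :=
      Cfsg.Agent.Lib.PSL2.Basic.sl2 ⟨_, hg 0 0⟩ ⟨_, hg 0 1⟩ ⟨_, hg 1 0⟩ ⟨_, hg 1 1⟩ (by
        apply Subtype.ext
        exact Cfsg.Agent.Lib.PSL2.Basic.det_entries g)
    have hA : φ A = g := by
      apply Cfsg.Agent.Lib.PSL2.Basic.ext2 <;> rfl
    have h2 : A ∈ C.comap φ := by rw [htop]; trivial
    have h3 : φ A ∈ C := h2
    rw [hA] at h3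
    exact h3


end Cfsg.Agent.S5060
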