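import Cfsg.Statements.S5064
import Cfsg.Agent.Lib.Linalg.Quad.SL2Rep
import Mathlib
-- import your own Cfsg.Agent.* helpers here

set_option autoImplicit false
universe u
open Cfsg

namespace Cfsg.Agent.S5064

/-- Let k be a field of characteristic not 2 with k not of order 3, M a finite-dimensional k-vector space and G ≤ GL(M) such that (G, M) is a quadratic pair (M irreducible for G, and G generated by its quadratically acting elements σ whose scalar family 1 + c(σ − 1), c ∈ k, lies in G). Write 𝒬_d for the quadratic elements of G of minimal commutator rank, E(σ) for the subgroup generated by the members of 𝒬_d with the same fixed space and commutator space as σ, and Σ for the set of these subgroups. If σ, τ ∈ 𝒬_d and the subgroup H generated by their two scalar families does not act unipotently on M, then H is isomorphic to SL₂ over a simple algebraic extension k(λ) of k. -/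
theorem result {k : Type u} [Field k] (hk2 : ringChar k ≠ 2) (hk3 : Nat.card k ≠ 3)
    {M : Type u} [AddCommGroup M] [Module k M] [FiniteDimensional k M]
    {G : Subgroup (LinearMap.GeneralLinearGroup k M)} (hG : Cfsg.IsQuadraticPair G)
    {σ τ : LinearMap.GeneralLinearGroup k M} (hσ : σ ∈ Cfsg.minimalQuadraticElements G) (hτ : τ ∈ Cfsg.minimalQuadraticElements G)
    (hH : ¬ Cfsg.IsUnipotentOn (Subgroup.closure (Cfsg.scalarFamily σ ∪ Cfsg.scalarFamily τ))) :
    ∃ (K : Type u) (_ : Field K) (_ : Algebra k K) (lam : K), IsAlgebraic k lam ∧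
      IntermediateField.adjoin k ({lam} : Set K) = ⊤ ∧
      Nonempty (↥(Subgroup.closure (Cfsg.scalarFamily σ ∪ Cfsg.scalarFamily τ)) ≃* Matrix.SpecialLinearGroup (Fin 2) K) := by
  have h2 : (2 : k) ≠ 0 := Ring.two_ne_zero hk2
  by_cases hN : Cfsg.Agent.Lib.Linalg.Quad.Pair.NTy (Cfsg.Agent.Lib.Linalg.Quad.Root.NN σ) (Cfsg.Agent.Lib.Linalg.Quad.Root.NN τ)
  · exact Cfsg.Agent.Lib.Linalg.Quad.SL2Rep.exists_SL2 h2 hk3 hσ hτ hN
  · exfalso
    apply hH
    obtain ⟨n, hn⟩ := Cfsg.Agent.Lib.Linalg.Quad.Pair.unipotent_of_not_NTy h2 hk3 hσ hτ hN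
    refine ⟨n, fun l hl hlen => hn l (fun g hg => ?_) hlen⟩
    have hle : Subgroup.closure (Cfsg.scalarFamily σ ∪ Cfsg.scalarFamily τ) ≤
        Cfsg.sameActionSubgroup G σ ⊔ Cfsg.sameActionSubgroup G τ := by
      rw [Subgroup.closure_le]
      rintro u (⟨c, hc⟩ | ⟨c, hc⟩)
      · apply Subgroup.mem_sup_left
        rw [Cfsg.Agent.Lib.Linalg.Quad.Root.mem_E_iff hσ]
        have e : Cfsg.Agent.Lib.Linalg.Quad.Root.NN u = c • Cfsg.Agent.Lib.Linalg.Quad.Root.NN σ := by
          simp only [Cfsg.Agent.Lib.Linalg.Quad.Root.NN]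
          rw [hc, add_sub_cancel_left]
        rw [e]
        exact Submodule.smul_mem _ c (Cfsg.Agent.Lib.Linalg.Quad.Root.self_mem_LL _)
      · apply Subgroup.mem_sup_right
        rw [Cfsg.Agent.Lib.Linalg.Quad.Root.mem_E_iff hτ]
        have e : Cfsg.Agent.Lib.Linalg.Quad.Root.NN u = c • Cfsg.Agent.Lib.Linalg.Quad.Root.NN τ := by
          simp only [Cfsg.Agent.Lib.Linalg.Quad.Root.NN]
          rw [hc, add_sub_cancel_left]
        rw [e]
        exact Submodule.smul_mem _ c (Cfsg.Agent.Lib.Linalg.Quad.Root.self_mem_LL _)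
    exact hle (hl g hg)

end Cfsg.Agent.S5064
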