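import Cfsg.Statements.S5066
import Cfsg.Agent.Lib.Linalg.Quad.Class2
import Mathlib
-- import your own Cfsg.Agent.* helpers here

set_option autoImplicit false
universe u
open Cfsg

namespace Cfsg.Agent.S5066

/-- Let k be a field of characteristic not 2 with k not of order 3, M a finite-dimensional k-vector space and G ≤ GL(M) such that (G, M) is a quadratic pair (M irreducible for G, and G generated by its quadratically acting elements σ whose scalar family 1 + c(σ − 1), c ∈ k, lies in G). Write 𝒬_d for the quadratic elements of G of minimal commutator rank, E(σ) for the subgroup generated by the members of 𝒬_d with the same fixed space and commutator space as σ, and Σ for the set of these subgroups. Let E, F ∈ Σ generate a subgroup that is nilpotent of class exactly two. Then D = ⁅E, F⁆ belongs to Σ, equals the subgroup generated by the commutators of e with F, and also of E with f, for every non-identity e ∈ E, f ∈ F, and ⟨E, F⟩ lies in U(D), the set of elements g of G normalizing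 D with (g − 1)M inside the fixed space of D, (g − 1) mapping that fixed space into the commutator space of D, and g acting trivially on the commutator space of D. -/
theorem result {k : Type u} [Field k] (hk2 : ringChar k ≠ 2) (hk3 : Nat.card k ≠ 3)
    {M : Type u} [AddCommGroup M] [Module k M] [FiniteDimensional k M]
    {G : Subgroup (LinearMap.GeneralLinearGroup k M)} (hG : Cfsg.IsQuadraticPair G)
    {E F : Subgroup (LinearMap.GeneralLinearGroup k M)} (hE : E ∈ Cfsg.quadraticRootSubgroups G) (hF : F ∈ Cfsg.quadraticRootSubgroups G)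
    (h2 : ⁅E ⊔ F, E ⊔ F⁆ ≠ ⊥ ∧ ⁅⁅E ⊔ F, E ⊔ F⁆, E ⊔ F⁆ = ⊥) :
    ⁅E, F⁆ ∈ Cfsg.quadraticRootSubgroups G ∧
    (∀ e ∈ E, e ≠ 1 → Subgroup.closure ((fun f : LinearMap.GeneralLinearGroup k M => e * f * e⁻¹ * f⁻¹) '' (F : Set (LinearMap.GeneralLinearGroup k M))) = ⁅E, F⁆) ∧
    (∀ f ∈ F, f ≠ 1 → Subgroup.closure ((fun e : LinearMap.GeneralLinearGroup k M => e * f * e⁻¹ * f⁻¹) '' (E : Set (LinearMap.GeneralLinearGroup k M))) = ⁅E, F⁆) ∧
    ((E ⊔ F : Subgroup (LinearMap.GeneralLinearGroup k M)) : Set (LinearMap.GeneralLinearGroup k M)) ⊆ Cfsg.quadraticUnipotentCore G ⁅E, F⁆ := by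
  have h2' : (2 : k) ≠ 0 := Ring.two_ne_zero hk2
  obtain ⟨σ, hσ, rfl⟩ := hE
  obtain ⟨τ, hτ, rfl⟩ := hF
  have hN : ¬ Cfsg.Agent.Lib.Linalg.Quad.Pair.NTy (Cfsg.Agent.Lib.Linalg.Quad.Root.NN σ) (Cfsg.Agent.Lib.Linalg.Quad.Root.NN τ) :=
    fun h => Cfsg.Agent.Lib.Linalg.Quad.Class2.not_class2_of_NTy h2' hk3 hσ hτ h h2.2
  rcases Cfsg.Agent.Lib.Linalg.Quad.Class2.unipotent_main hG h2' hk3 hσ hτ hN with h0 | h0
  · exfalso
    apply h2.1
    rw [eq_bot_iff, Subgroup.commutator_le]
    intro a ha b hb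
    have hcl : Cfsg.sameActionSubgroup G σ ⊔ Cfsg.sameActionSubgroup G τ =
        Subgroup.closure ((Cfsg.sameActionSubgroup G σ : Set (LinearMap.GeneralLinearGroup k M)) ∪ Cfsg.sameActionSubgroup G τ) := by
      rw [Subgroup.closure_union, Subgroup.closure_eq, Subgroup.closure_eq]
    rw [hcl] at ha hb
    refine Cfsg.Agent.Lib.Linalg.Quad.Class2.comm_mem_of_gens ?_ ?_ a ha b hb
    · intro c hc g _
      rw [Subgroup.mem_bot] at hc
      simp [hc]
    · have hEE : ∀ {ρ : LinearMap.GeneralLinearGroup k M}, ρ ∈ Cfsg.minimalQuadraticElements G → ∀ s ∈ Cfsg.sameActionSubgroup G ρ, ∀ t ∈ Cfsg.sameActionSubgroup G ρ,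
          s * t * s⁻¹ * t⁻¹ ∈ (⊥ : Subgroup (LinearMap.GeneralLinearGroup k M)) := by
        intro ρ hρ s hs t ht
        rw [Cfsg.Agent.Lib.Linalg.Quad.NType.E_comm hρ hs ht]
        simp
      rintro s (hs | hs) t (ht | ht)
      · exact hEE hσ s hs t ht
      · rw [← h0]
        exact Subgroup.commutator_mem_commutator hs ht
      · have : t * s * t⁻¹ * s⁻¹ ∈ ⁅Cfsg.sameActionSubgroup G σ, Cfsg.sameActionSubgroup G τ⁆ :=
          Subgroup.commutator_mem_commutator ht hs
        rw [h0, Subgroup.mem_bot] at this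
        have e : s * t * s⁻¹ * t⁻¹ = (t * s * t⁻¹ * s⁻¹)⁻¹ := by group
        rw [e, this]
        simp
      · exact hEE hτ s hs t ht
  · exact ⟨h0.1, h0.2.1, h0.2.2.1, h0.2.2.2.2.2⟩

end Cfsg.Agent.S5066
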