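import Cfsg.Statements.S5067
import Mathlib
import Cfsg.Agent.Lib.Nilpotent.Commutator

set_option autoImplicit false
open Cfsg

namespace Cfsg.Agent.S5067

open Cfsg.Agent.Lib.Nilpotent.Commutator in
/-- For an abelian subgroup `E` of a nilpotent non-abelian group, the normal closure of `E` has
strictly smaller class. -/
theorem class_normalClosure_lt {P : Type*} [Group P] [Group.IsNilpotent P]
    (hna : ¬ IsMulCommutative P) {E : Subgroup P} (hE : IsMulCommutative ↥E) :
    Group.nilpotencyClass ↥(Subgroup.normalClosure (E : Set P)) < Group.nilpotencyClass P := by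
  set N := Subgroup.normalClosure (E : Set P) with hN
  set c := Group.nilpotencyClass P with hc
  have hc2 : 2 ≤ c := by
    by_contra hlt
    apply hna
    exact Group.IsNilpotent.nilpotencyClass_le_one_iff.1 (by omega)
  let T := (⊤ : Subgroup P).lowerCentralSeries 2
  let D := (⊤ : Subgroup P).lowerCentralSeries 1
  have hDdef : T = ⁅D, ⊤⁆ := rfl
  haveI hDnormal : (E ⊔ D).Normal :=
    Subgroup.Normal.of_commutator_le P (H := E ⊔ D) (le_trans (le_of_eq rfl) le_sup_right)
  have hNle : N ≤ E ⊔ D :=
    Subgroup.normalClosure_le_normal (fun x hx => Subgroup.mem_sup_left hx)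
  have hEE : ⁅E, E⁆ = ⊥ := Subgroup.commutator_self_eq_bot_iff.2 hE
  have hcomm : ⁅N, N⁆ ≤ T := by
    refine le_trans (Subgroup.commutator_mono hNle hNle) ?_
    refine commutator_sup_right_le _ _ _ _ ?_ ?_
    · refine commutator_sup_left_le _ _ _ _ ?_ ?_
      · rw [hEE]; exact bot_le
      · exact Subgroup.commutator_mono le_rfl le_top
    · refine commutator_sup_left_le _ _ _ _ ?_ ?_
      · rw [Subgroup.commutator_comm]
        exact Subgroup.commutator_mono le_rfl le_top
      · exact Subgroup.commutator_mono le_rfl le_top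
  have hlcs : ∀ k : ℕ, N.lowerCentralSeries (k + 1) ≤ (⊤ : Subgroup P).lowerCentralSeries (k + 2) := by
    intro k
    induction k with
    | zero => exact hcomm
    | succ k ih =>
      rw [Subgroup.lowerCentralSeries_succ, Subgroup.lowerCentralSeries_succ (⊤ : Subgroup P)]
      exact Subgroup.commutator_mono ih le_top
  have hbot : N.lowerCentralSeries (c - 1) = ⊥ := by
    obtain ⟨k, hk⟩ : ∃ k, c = k + 2 := ⟨c - 2, by omega⟩
    have h1 : (⊤ : Subgroup P).lowerCentralSeries c = ⊥ := Subgroup.lowerCentralSeries_nilpotencyClass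
    rw [show c - 1 = k + 1 by omega]
    rw [eq_bot_iff, ← h1, hk]
    exact hlcs k
  have hle : Group.nilpotencyClass ↥N ≤ c - 1 := by
    rw [← Subgroup.lowerCentralSeries_eq_bot_iff_nilpotencyClass_le]
    rw [← Subgroup.top_subtype_lowerCentralSeries, Subgroup.map_eq_bot_iff_of_injective _ N.subtype_injective] at hbot
    exact hbot
  omega

/-- Let P be a non-abelian nilpotent p-group (every element of p-power order; P possibly infinite) generated by two abelian subgroups E and F. Then the normal closure of E in P, and likewise that of F, has nilpotency class strictly smaller than that of P. -/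
theorem result {P : Type*} [Group P] {p : ℕ} [Fact p.Prime] (hP : IsPGroup p P) [Group.IsNilpotent P]
    (hna : ¬ IsMulCommutative P) {E F : Subgroup P} (hE : IsMulCommutative ↥E) (hF : IsMulCommutative ↥F) (hgen : E ⊔ F = ⊤) :
    Group.nilpotencyClass ↥(Subgroup.normalClosure (E : Set P)) < Group.nilpotencyClass P ∧
    Group.nilpotencyClass ↥(Subgroup.normalClosure (F : Set P)) < Group.nilpotencyClass P :=
  ⟨class_normalClosure_lt hna hE, class_normalClosure_lt hna hF⟩

end Cfsg.Agent.S5067
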