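import Cfsg.Statements.S5070
import Mathlib
import Cfsg.Agent.Lib.Classical.Herm.RootTv
import Cfsg.Agent.Lib.Classical.Symp.Basic

set_option autoImplicit false
open Matrix
open Cfsg

namespace Cfsg.Agent.S5070

open Cfsg.Agent.Lib.Classical.Herm.RootTv Cfsg.Agent.Lib.Classical.Symp.Basic

theorem form_antisymm {F : Type*} [Field F] {m : ℕ} (u v : Fin m ⊕ Fin m → F) :
    sympForm m F u v = - sympForm m F v u := by
  rw [sympForm_apply, sympForm_apply, ← Finset.sum_neg_distrib]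
  exact Finset.sum_congr rfl fun i _ => by ring

/-- The system of the symplectic group. -/
noncomputable def sys (F : Type*) [Field F] (m : ℕ) :
    Sys F F (Fin m ⊕ Fin m → F) (Matrix.symplecticGroup (Fin m) F) where
  σ := RingHom.id F
  σσ := fun _ => rfl
  ι := RingHom.id F
  σι := fun _ => rfl
  fix := fun x _ => ⟨x, rfl⟩
  f := sympForm m F
  f_add := fun u v w => by simp [sympForm, add_dotProduct]
  f_smul := fun a v w => by simp [sympForm, smul_dotProduct]
  f_symm := fun v w => form_antisymm w v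
  act :=
    { toFun := fun g => Matrix.toLin' (g : Matrix (Fin m ⊕ Fin m) (Fin m ⊕ Fin m) F)
      map_one' := by
        show Matrix.toLin' (1 : Matrix (Fin m ⊕ Fin m) (Fin m ⊕ Fin m) F) = 1
        rw [Matrix.toLin'_one]
        rfl
      map_mul' := by
        intro a b
        show Matrix.toLin' ((a : Matrix (Fin m ⊕ Fin m) (Fin m ⊕ Fin m) F) * (b : Matrix (Fin m ⊕ Fin m) (Fin m ⊕ Fin m) F)) = _
        rw [Matrix.toLin'_mul]
        rfl }
  inj := by
    intro a b h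
    exact Subtype.ext (Matrix.toLin'.injective h)
  f_act := fun g v w => mem_symplecticGroup_iff_forall.1 g.2 v w
  nondeg := by
    intro p hp
    obtain ⟨j, hj⟩ := Function.ne_iff.1 hp
    cases j with
    | inl i =>
      refine ⟨Pi.single (.inr i) 1, ?_⟩
      rw [form_antisymm, sympForm_single_inr]
      simpa using hj
    | inr i =>
      refine ⟨Pi.single (.inl i) 1, ?_⟩
      rw [form_antisymm, sympForm_single_inl]
      simpa using hj
  ex := fun p _ c => ⟨⟨sympTransvection m p c, sympTransvection_mem p c⟩, fun v => sympTransvection_mulVec p c v⟩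

/-- Let F be a field, m a natural number and V = F^{2(m+1)} with the standard non-degenerate alternating form f(u, v) = uᵀ J v. For a non-zero vector p let T(p) be the group of symplectic transvections v ↦ v + c f(v, p) p, c ∈ F. Then the subgroups T(p), p ≠ 0, generate the symplectic group Sp_{2(m+1)}(F) and form a degenerate class of abstract F-root subgroups of it (any two of them either commute elementwise or are the unipotent subgroups of a rank one group that is an image of SL₂(F) with central kernel, never the commutator case), and their graph of rank one pairs is connected. -/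
theorem result (F : Type*) [Field F] (m : ℕ) :
    Cfsg.IsRootSubgroupClass {A : Subgroup ↥(Matrix.symplecticGroup (Fin (m + 1)) F) | ∃ p : Fin (m + 1) ⊕ Fin (m + 1) → F, p ≠ 0 ∧
        A = Subgroup.closure {g : ↥(Matrix.symplecticGroup (Fin (m + 1)) F) | ∃ c : F, ∀ v : Fin (m + 1) ⊕ Fin (m + 1) → F,
          (g : Matrix (Fin (m + 1) ⊕ Fin (m + 1)) (Fin (m + 1) ⊕ Fin (m + 1)) F) *ᵥ v =
            v + (c * (v ⬝ᵥ (Matrix.J (Fin (m + 1)) F *ᵥ p))) • p}} ∧
    Cfsg.IsDegenerateRootSet {A : Subgroup ↥(Matrix.symplecticGroup (Fin (m + 1)) F) | ∃ p : Fin (m + 1) ⊕ Fin (m + 1) → F, p ≠ 0 ∧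
        A = Subgroup.closure {g : ↥(Matrix.symplecticGroup (Fin (m + 1)) F) | ∃ c : F, ∀ v : Fin (m + 1) ⊕ Fin (m + 1) → F,
          (g : Matrix (Fin (m + 1) ⊕ Fin (m + 1)) (Fin (m + 1) ⊕ Fin (m + 1)) F) *ᵥ v =
            v + (c * (v ⬝ᵥ (Matrix.J (Fin (m + 1)) F *ᵥ p))) • p}} ∧
    Cfsg.IsKRootSubgroupSet F {A : Subgroup ↥(Matrix.symplecticGroup (Fin (m + 1)) F) | ∃ p : Fin (m + 1) ⊕ Fin (m + 1) → F, p ≠ 0 ∧
        A = Subgroup.closure {g : ↥(Matrix.symplecticGroup (Fin (m + 1)) F) | ∃ c : F, ∀ v : Fin (m + 1) ⊕ Fin (m + 1) → F,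
          (g : Matrix (Fin (m + 1) ⊕ Fin (m + 1)) (Fin (m + 1) ⊕ Fin (m + 1)) F) *ᵥ v =
            v + (c * (v ⬝ᵥ (Matrix.J (Fin (m + 1)) F *ᵥ p))) • p}} ∧
    Cfsg.IsConnectedFamily (Cfsg.FAdj {A : Subgroup ↥(Matrix.symplecticGroup (Fin (m + 1)) F) | ∃ p : Fin (m + 1) ⊕ Fin (m + 1) → F, p ≠ 0 ∧
        A = Subgroup.closure {g : ↥(Matrix.symplecticGroup (Fin (m + 1)) F) | ∃ c : F, ∀ v : Fin (m + 1) ⊕ Fin (m + 1) → F,
          (g : Matrix (Fin (m + 1) ⊕ Fin (m + 1)) (Fin (m + 1) ⊕ Fin (m + 1)) F) *ᵥ v =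
            v + (c * (v ⬝ᵥ (Matrix.J (Fin (m + 1)) F *ᵥ p))) • p}})
      {A : Subgroup ↥(Matrix.symplecticGroup (Fin (m + 1)) F) | ∃ p : Fin (m + 1) ⊕ Fin (m + 1) → F, p ≠ 0 ∧
        A = Subgroup.closure {g : ↥(Matrix.symplecticGroup (Fin (m + 1)) F) | ∃ c : F, ∀ v : Fin (m + 1) ⊕ Fin (m + 1) → F,
          (g : Matrix (Fin (m + 1) ⊕ Fin (m + 1)) (Fin (m + 1) ⊕ Fin (m + 1)) F) *ᵥ v =
            v + (c * (v ⬝ᵥ (Matrix.J (Fin (m + 1)) F *ᵥ p))) • p}} := by
  classical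
  have hgen : (⨆ A ∈ (sys F (m + 1)).Cl, A) = ⊤ := by
    rw [eq_top_iff, ← closure_sympTvSet, Subgroup.closure_le]
    rintro A ⟨w, c, hA⟩
    by_cases hw : w = 0
    · have : A = 1 := by
        apply Subtype.ext
        rw [hA, hw]
        show _ = (1 : Matrix _ _ F)
        ext i j
        simp [sympTransvection]
      rw [this]
      exact one_mem _
    · have h1 : (sys F (m + 1)).T w ≤ ⨆ A ∈ (sys F (m + 1)).Cl, A :=
        le_iSup₂_of_le _ ⟨w, hw, sympForm_self w, rfl⟩ le_rfl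
      apply h1
      refine ((sys F (m + 1)).mem_T (sympForm_self w)).2 ⟨c, fun v => ?_⟩
      have : (sys F (m + 1)).act A v = (A : Matrix _ _ F) *ᵥ v := rfl
      rw [this, hA]
      exact sympTransvection_mulVec w c v
  have hne : ∃ p, p ≠ 0 ∧ (sys F (m + 1)).f p p = 0 := by
    refine ⟨Pi.single (.inl 0) 1, ?_, sympForm_self _⟩
    intro h
    have := congrFun h (.inl 0)
    simp at this
  have hconn : ∀ p r, p ≠ 0 → (sys F (m + 1)).f p p = 0 → r ≠ 0 → (sys F (m + 1)).f r r = 0 →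
      (sys F (m + 1)).f p r = 0 → (sys F (m + 1)).T r = (sys F (m + 1)).T p ∨
        ∃ s, s ≠ 0 ∧ (sys F (m + 1)).f s s = 0 ∧ (sys F (m + 1)).f p s ≠ 0 ∧ (sys F (m + 1)).f s r ≠ 0 := by
    intro p r hp0 _ hr0 _ _
    right
    obtain ⟨v₁, h₁⟩ := (sys F (m + 1)).nondeg p hp0
    obtain ⟨v₂, h₂⟩ := (sys F (m + 1)).nondeg r hr0
    have h₁' : (sys F (m + 1)).f p v₁ ≠ 0 := fun e => h₁ ((sys F (m + 1)).f_eq_zero_symm e)
    have key : ∃ s, (sys F (m + 1)).f p s ≠ 0 ∧ (sys F (m + 1)).f s r ≠ 0 := by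
      by_cases h3 : (sys F (m + 1)).f v₁ r = 0
      · by_cases h4 : (sys F (m + 1)).f p v₂ = 0
        · refine ⟨v₁ + v₂, ?_, ?_⟩
          · rw [(sys F (m + 1)).f_add_right, h4, add_zero]
            exact h₁'
          · rw [(sys F (m + 1)).f_add, h3, zero_add]
            exact h₂
        · exact ⟨v₂, h4, h₂⟩
      · exact ⟨v₁, h₁', h3⟩
    obtain ⟨s, h5, h6⟩ := key
    refine ⟨s, ?_, sympForm_self s, h5, h6⟩
    rintro rfl
    exact h5 ((sys F (m + 1)).f_zero_right p)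
  have hmain := (sys F (m + 1)).main hne hgen hconn
  have hCl : (sys F (m + 1)).Cl = {A : Subgroup ↥(Matrix.symplecticGroup (Fin (m + 1)) F) | ∃ p : Fin (m + 1) ⊕ Fin (m + 1) → F, p ≠ 0 ∧
        A = Subgroup.closure {g : ↥(Matrix.symplecticGroup (Fin (m + 1)) F) | ∃ c : F, ∀ v : Fin (m + 1) ⊕ Fin (m + 1) → F,
          (g : Matrix (Fin (m + 1) ⊕ Fin (m + 1)) (Fin (m + 1) ⊕ Fin (m + 1)) F) *ᵥ v =
            v + (c * (v ⬝ᵥ (Matrix.J (Fin (m + 1)) F *ᵥ p))) • p}} := by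
    ext A
    constructor
    · rintro ⟨p, hp0, -, rfl⟩
      exact ⟨p, hp0, rfl⟩
    · rintro ⟨p, hp0, rfl⟩
      exact ⟨p, hp0, sympForm_self p, rfl⟩
  rw [hCl] at hmain
  exact hmain

end Cfsg.Agent.S5070
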