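import Cfsg.Statements.S5071
import Mathlib
import Cfsg.Agent.Lib.Classical.Herm.RootTv
import Cfsg.Agent.Lib.Classical.Herm.Tv
import Cfsg.Agent.Lib.Classical.Herm.Simple

set_option autoImplicit false
open Matrix
open Cfsg

namespace Cfsg.Agent.S5071

open Cfsg.Agent.Lib.Classical.Herm.RootTv Cfsg.Agent.Lib.Classical.Herm.Basic Cfsg.Agent.Lib.Classical.Herm.SU
open Cfsg.Agent.Lib.Classical.Herm.Subfield Cfsg.Agent.Lib.Classical.Herm.Tv

section Aux

variable {F : Type*} [Field F] [Fintype F] {q N : ℕ}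

local notation "⟪" x ", " y "⟫" => hermForm _ _ q x y

/-- The system attached to a group mapping injectively into `SU`. -/
noncomputable def sysOf (hF : Fintype.card F = q ^ 2) {L : Type*} [Field L] (j : L →+* F) (hj : ∀ x, (j x) ^ q = j x)
    (hj' : ∀ x : F, x ^ q = x → ∃ y, j y = x) {e : F} (he : e ≠ 0) (he' : e ^ q = -e)
    {G : Type*} [Group G] (i : G →* SU N F q) (hi : Function.Injective i)
    (hT : ∀ (p : Fin N → F) (hp : ⟪p, p⟫ = 0) (c : F) (hc : c + c ^ q = 0), tv hF hp hc ∈ i.range) :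
    Sys F L (Fin N → F) G where
  σ := sigma hF
  σσ := sigma_sigma hF
  ι := j
  σι := hj
  fix := hj'
  f := fun v w => e * ⟪v, w⟫
  f_add := by
    intro u v w
    rw [hermForm_add_left]
    ring
  f_smul := by
    intro a v w
    rw [hermForm_smul_left]
    ring
  f_symm := by
    intro v w
    rw [sigma_apply, mul_pow, he', hermForm_pow_q hF]
    ring
  act :=
    { toFun := fun g => Matrix.toLin' (mat (i g))
      map_one' := by
        rw [map_one, mat_one, Matrix.toLin'_one]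
        rfl
      map_mul' := by
        intro a b
        rw [map_mul, mat_mul, Matrix.toLin'_mul]
        rfl }
  inj := by
    intro a b h
    apply hi
    apply ext_act
    intro x
    exact congrArg (fun φ : Module.End F (Fin N → F) => φ x) h
  f_act := by
    intro g v w
    show e * ⟪act (i g) v, act (i g) w⟫ = _
    rw [h_act]
  nondeg := by
    intro p hp
    by_contra hcon
    push Not at hcon
    exact hp (hermForm_nondegenerate_right hF N p (fun u => by
      have := hcon u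
      exact (mul_eq_zero.1 this).resolve_left he))
  ex := by
    intro p hp c
    have hp' : ⟪p, p⟫ = 0 := (mul_eq_zero.1 hp).resolve_left he
    have hc' : j c * e + (j c * e) ^ q = 0 := by
      rw [mul_pow, hj, he']
      ring
    obtain ⟨g, hg⟩ := hT p hp' _ hc'
    refine ⟨g, fun v => ?_⟩
    show act (i g) v = _
    rw [hg, act_tv]
    congr 2
    ring

theorem act_sysOf (hF : Fintype.card F = q ^ 2) {L : Type*} [Field L] (j : L →+* F) (hj : ∀ x, (j x) ^ q = j x)
    (hj' : ∀ x : F, x ^ q = x → ∃ y, j y = x) {e : F} (he : e ≠ 0) (he' : e ^ q = -e)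
    {G : Type*} [Group G] (i : G →* SU N F q) (hi : Function.Injective i)
    (hT : ∀ (p : Fin N → F) (hp : ⟪p, p⟫ = 0) (c : F) (hc : c + c ^ q = 0), tv hF hp hc ∈ i.range) (g : G) (v : Fin N → F) :
    (sysOf hF j hj hj' he he' i hi hT).act g v = act (i g) v := rfl

/-- The literal generating set. -/
def gens (N : ℕ) (F : Type*) [Field F] (q : ℕ) (p : Fin N → F) : Set (SU N F q) :=
  {g : SU N F q |
            (∀ v : Fin N → F, ∃ c : F, ((g : Matrix.SpecialLinearGroup (Fin N) F) : Matrix (Fin N) (Fin N) F) *ᵥ v = v + c • p) ∧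
            ∀ v : Fin N → F, hermForm N F q v p = 0 →
              ((g : Matrix.SpecialLinearGroup (Fin N) F) : Matrix (Fin N) (Fin N) F) *ᵥ v = v}

/-- The form of an element of the generating set. -/
theorem exists_of_gens (hF : Fintype.card F = q ^ 2) {L : Type*} [Field L] (j : L →+* F)
    (hj' : ∀ x : F, x ^ q = x → ∃ y, j y = x) {e : F} (he : e ≠ 0) (he' : e ^ q = -e)
    {p : Fin N → F} (hp0 : p ≠ 0) (hp : ⟪p, p⟫ = 0) {g : SU N F q} (hg : g ∈ gens N F q p) :
    ∃ c : L, ∀ v, act g v = v + (j c * (e * ⟪v, p⟫)) • p := by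
  obtain ⟨u₀, hu₀⟩ : ∃ u, ⟪u, p⟫ ≠ 0 := by
    by_contra hcon
    push Not at hcon
    exact hp0 (hermForm_nondegenerate_right hF N p hcon)
  obtain ⟨u, hup⟩ : ∃ u, ⟪u, p⟫ = 1 :=
    ⟨(⟪u₀, p⟫)⁻¹ • u₀, by
      rw [hermForm_smul_left]
      exact inv_mul_cancel₀ hu₀⟩
  have hpu : ⟪p, u⟫ = 1 := by
    rw [← hermForm_pow_q hF, hup, one_pow]
  obtain ⟨a, ha⟩ := hg.1 u
  have hfix := hg.2
  have hall : ∀ v, act g v = v + (a * ⟪v, p⟫) • p := by
    intro v
    have h0 : ⟪v - ⟪v, p⟫ • u, p⟫ = 0 := by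
      rw [hermForm_sub_left, hermForm_smul_left, hup]
      ring
    have h1 : act g (v - ⟪v, p⟫ • u) = v - ⟪v, p⟫ • u := hfix _ h0
    rw [act_sub, act_smul] at h1
    have h2 : act g u = u + a • p := ha
    rw [h2] at h1
    have h3 : act g v = (v - ⟪v, p⟫ • u) + ⟪v, p⟫ • (u + a • p) := by
      rw [← h1]
      abel
    rw [h3]
    module
  have htr : a + a ^ q = 0 := by
    have h1 := h_act g u u
    have h2 : act g u = u + a • p := ha
    rw [h2] at h1
    simp only [hermForm_add_left, hermForm_add_right hF, hermForm_smul_left, hermForm_smul_right, hp, hup, hpu] at h1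
    linear_combination h1
  have hfx : (a * e⁻¹) ^ q = a * e⁻¹ := by
    rw [mul_pow, inv_pow, he', inv_neg]
    have : a ^ q = -a := by linear_combination htr
    rw [this]
    ring
  obtain ⟨c, hc⟩ := hj' _ hfx
  refine ⟨c, fun v => ?_⟩
  rw [hall, ← mul_assoc, hc]
  congr 2
  field_simp

/-- The literal set of transvection groups. -/
def Z (N : ℕ) (F : Type*) [Field F] (q : ℕ) : Set (Subgroup (SU N F q)) :=
  {A | ∃ p : Fin N → F, p ≠ 0 ∧ hermForm N F q p p = 0 ∧ A = Subgroup.closure (gens N F q p)}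

/-- The image inside the generated subgroup. -/
def Img (N : ℕ) (F : Type*) [Field F] (q : ℕ) : Set (Subgroup ↥(⨆ B ∈ Z N F q, B)) :=
  (fun A : Subgroup (SU N F q) => A.subgroupOf (⨆ B ∈ Z N F q, B)) '' Z N F q

theorem iSup_subgroupOf_image {Γ : Type*} [Group Γ] (Y : Set (Subgroup Γ)) :
    (⨆ A ∈ (fun A : Subgroup Γ => A.subgroupOf (⨆ B ∈ Y, B)) '' Y, A) = ⊤ := by
  apply Subgroup.map_injective (Subgroup.subtype_injective (⨆ B ∈ Y, B))
  rw [iSup_image]
  simp only [Subgroup.map_iSup]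
  rw [← MonoidHom.range_eq_map, Subgroup.range_subtype]
  refine iSup_congr fun B => iSup_congr fun hB => ?_
  exact Subgroup.map_subgroupOf_eq_of_le (le_iSup₂_of_le B hB le_rfl)

theorem form_single (hq : q ≠ 0) {N : ℕ} (i j : Fin N) :
    hermForm N F q (Pi.single i 1) (Pi.single j 1) = if i = j then 1 else 0 := by
  classical
  rw [hermForm_apply, Finset.sum_eq_single i]
  · by_cases h : i = j
    · subst h
      simp
    · simp [h, Pi.single_apply, hq]
  · intro b _ hb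
    simp [Pi.single_apply, hb]
  · simp

theorem aux (F : Type*) [Field F] [Fintype F] (q N : ℕ) (hF : Fintype.card F = q ^ 2) (hN : 2 ≤ N) :
    IsRootSubgroupClass (Img N F q) ∧ IsDegenerateRootSet (Img N F q) ∧
      (∃ (L : Type) (_ : Field L) (_ : Fintype L), Fintype.card L = q ∧ IsKRootSubgroupSet L (Img N F q)) ∧
      IsConnectedFamily (FAdj (Img N F q)) (Img N F q) := by
  classical
  have hq2 := two_le_q hF
  -- the field of `q` elements
  obtain ⟨P, hP⟩ := CharP.exists F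
  obtain ⟨k, hPp, hk⟩ := FiniteField.card F P
  haveI : Fact P.Prime := ⟨hPp⟩
  obtain ⟨m, -, hm⟩ := (Nat.dvd_prime_pow hPp).1 (show q ∣ P ^ (k : ℕ) by
    rw [← hk, hF]
    exact dvd_pow_self q (by norm_num))
  have hm0 : m ≠ 0 := by
    rintro rfl
    rw [pow_zero] at hm
    omega
  letI instL : Fintype (GaloisField P m) := Fintype.ofFinite _
  have hK : Fintype.card (GaloisField P m) = q := by
    rw [← Nat.card_eq_fintype_card, GaloisField.card P m hm0, hm]
  obtain ⟨j, hj, hj'⟩ := exists_fixed_embedding hF hK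
  obtain ⟨e, he, he'⟩ := exists_trace_zero hF
  -- the two systems
  let G₀ := ⨆ B ∈ Z N F q, B
  have hT1 : ∀ (p : Fin N → F) (hp : hermForm N F q p p = 0) (c : F) (hc : c + c ^ q = 0),
      tv hF hp hc ∈ (MonoidHom.id (SU N F q)).range := fun p hp c hc => ⟨_, rfl⟩
  let D₁ := sysOf hF j hj hj' he he' (MonoidHom.id (SU N F q)) (fun _ _ h => h) hT1
  have hTS : ∀ p, p ≠ 0 → hermForm N F q p p = 0 → gens N F q p = D₁.TS p := by
    intro p hp0 hp
    ext g
    constructor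
    · intro hg
      exact exists_of_gens hF j hj' he he' hp0 hp hg
    · rintro ⟨c, hc⟩
      refine ⟨fun v => ⟨_, hc v⟩, fun v hv => ?_⟩
      have h1 := hc v
      have h2 : D₁.f v p = 0 := by
        show e * hermForm N F q v p = 0
        rw [hv, mul_zero]
      rw [h2, mul_zero, zero_smul, add_zero] at h1
      exact h1
  have hT0 : ∀ (p : Fin N → F) (hp : hermForm N F q p p = 0) (c : F) (hc : c + c ^ q = 0),
      tv hF hp hc ∈ G₀.subtype.range := by
    intro p hp c hc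
    rw [Subgroup.range_subtype]
    by_cases hp0 : p = 0
    · have : tv hF hp hc = 1 := by
        apply ext_act
        intro x
        rw [act_tv, act_one]
        simp [hp0]
      rw [this]
      exact one_mem _
    · refine (le_iSup₂_of_le (Subgroup.closure (gens N F q p)) ⟨p, hp0, hp, rfl⟩ le_rfl :
        Subgroup.closure (gens N F q p) ≤ G₀) (Subgroup.subset_closure ?_)
      refine ⟨fun v => ⟨_, act_tv hF hp hc v⟩, fun v hv => ?_⟩
      have := act_tv hF hp hc v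
      rw [hv, mul_zero, zero_smul, add_zero] at this
      exact this
  let D₀ := sysOf hF j hj hj' he he' G₀.subtype (Subgroup.subtype_injective _) hT0
  have hf0 : ∀ p, hermForm N F q p p = 0 → D₀.f p p = 0 := by
    intro p hp
    show e * hermForm N F q p p = 0
    rw [hp, mul_zero]
  have hf0' : ∀ p, D₀.f p p = 0 → hermForm N F q p p = 0 :=
    fun p h => (mul_eq_zero.1 h).resolve_left he
  have hsub : ∀ p, p ≠ 0 → hermForm N F q p p = 0 → (Subgroup.closure (gens N F q p)).subgroupOf G₀ = D₀.T p := by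
    intro p hp0 hp
    ext g
    rw [Subgroup.mem_subgroupOf, hTS p hp0 hp]
    have h1 : (g : SU N F q) ∈ Subgroup.closure (D₁.TS p) ↔ (g : SU N F q) ∈ D₁.TS p := D₁.mem_T (hf0 p hp)
    rw [h1, D₀.mem_T (hf0 p hp)]
    rfl
  have hCl : Img N F q = D₀.Cl := by
    ext A
    constructor
    · rintro ⟨B, ⟨p, hp0, hp, rfl⟩, rfl⟩
      exact ⟨p, hp0, hf0 p hp, hsub p hp0 hp⟩
    · rintro ⟨p, hp0, hp, rfl⟩
      exact ⟨_, ⟨p, hp0, hf0' p hp, rfl⟩, hsub p hp0 (hf0' p hp)⟩
  have hgen : (⨆ A ∈ D₀.Cl, A) = ⊤ := by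
    rw [← hCl]
    exact iSup_subgroupOf_image _
  have hne : ∃ p, p ≠ 0 ∧ D₀.f p p = 0 := by
    obtain ⟨θ, hθ⟩ := Cfsg.Agent.Lib.Classical.Herm.Gen.exists_theta hF
    let i₀ : Fin N := ⟨0, by omega⟩
    let i₁ : Fin N := ⟨1, by omega⟩
    have h01 : i₀ ≠ i₁ := by
      simp [i₀, i₁, Fin.ext_iff]
    refine ⟨Pi.single i₀ 1 + θ • Pi.single i₁ 1, ?_, hf0 _ ?_⟩
    · intro h
      have := congrFun h i₀
      simp [Pi.single_apply, h01.symm] at this
    · have hq0 : q ≠ 0 := by omega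
      simp only [hermForm_add_left, hermForm_add_right hF, hermForm_smul_left, hermForm_smul_right, form_single hq0, h01,
        h01.symm, if_true, if_false]
      linear_combination hθ
  have hconn : ∀ p r, p ≠ 0 → D₀.f p p = 0 → r ≠ 0 → D₀.f r r = 0 → D₀.f p r = 0 → D₀.T r = D₀.T p ∨
        ∃ s, s ≠ 0 ∧ D₀.f s s = 0 ∧ D₀.f p s ≠ 0 ∧ D₀.f s r ≠ 0 := by
    intro p r hp0 hp hr0 _ hpr
    right
    obtain ⟨z, hz, h1, h2⟩ := Cfsg.Agent.Lib.Classical.Herm.Simple.exists_iso_not_perp hF (hf0' p hp) hp0 hr0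
      ((mul_eq_zero.1 hpr).resolve_left he)
    refine ⟨z, ?_, hf0 z hz, ?_, mul_ne_zero he h2⟩
    · rintro rfl
      exact h1 (hermForm_zero_left _ _)
    · refine mul_ne_zero he ?_
      rw [← hermForm_pow_q hF]
      exact pow_ne_zero _ h1
  have hmain := D₀.main hne hgen hconn
  rw [← hCl] at hmain
  exact ⟨hmain.1, hmain.2.1, ⟨GaloisField P m, inferInstance, instL, hK, hmain.2.2.1⟩, hmain.2.2.2⟩

end Aux

/-- Let F be a finite field with q² elements, n a natural number, and h the Hermitian form Σ uᵢ vᵢ^q on F^{n+2}. For a non-zero isotropic vector p let T(p) be the group of unitary transvections with centre ⟨p⟩: the elements of SU_{n+2}(q) moving every vector by a multiple of p and fixing every vector perpendicular to p. Let Σ be the set of these T(p) and G₀ the subgroup they generate. Then, viewed inside G₀, the members of Σ form a degenerate class of abstract k-root subgroups of G₀ for some field k with q elements (any two commute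 or are the unipotent subgroups of a rank one group that is an image of SL₂(k) with central kernel, never the commutator case), and their graph of rank one pairs is connected. -/
theorem result (F : Type*) [Field F] [Fintype F] (q n : ℕ) (hF : Fintype.card F = q ^ 2) :
    Cfsg.IsRootSubgroupClass ((fun A : Subgroup ↥(Cfsg.SU (n + 2) F q) => A.subgroupOf (⨆ B ∈ {A : Subgroup ↥(Cfsg.SU (n + 2) F q) | ∃ p : Fin (n + 2) → F, p ≠ 0 ∧ Cfsg.hermForm (n + 2) F q p p = 0 ∧
          A = Subgroup.closure {g : ↥(Cfsg.SU (n + 2) F q) |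
            (∀ v : Fin (n + 2) → F, ∃ c : F, ((g : Matrix.SpecialLinearGroup (Fin (n + 2)) F) : Matrix (Fin (n + 2)) (Fin (n + 2)) F) *ᵥ v = v + c • p) ∧
            ∀ v : Fin (n + 2) → F, Cfsg.hermForm (n + 2) F q v p = 0 →
              ((g : Matrix.SpecialLinearGroup (Fin (n + 2)) F) : Matrix (Fin (n + 2)) (Fin (n + 2)) F) *ᵥ v = v}}, B)) ''
      {A : Subgroup ↥(Cfsg.SU (n + 2) F q) | ∃ p : Fin (n + 2) → F, p ≠ 0 ∧ Cfsg.hermForm (n + 2) F q p p = 0 ∧
          A = Subgroup.closure {g : ↥(Cfsg.SU (n + 2) F q) |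
            (∀ v : Fin (n + 2) → F, ∃ c : F, ((g : Matrix.SpecialLinearGroup (Fin (n + 2)) F) : Matrix (Fin (n + 2)) (Fin (n + 2)) F) *ᵥ v = v + c • p) ∧
            ∀ v : Fin (n + 2) → F, Cfsg.hermForm (n + 2) F q v p = 0 →
              ((g : Matrix.SpecialLinearGroup (Fin (n + 2)) F) : Matrix (Fin (n + 2)) (Fin (n + 2)) F) *ᵥ v = v}}) ∧
    Cfsg.IsDegenerateRootSet ((fun A : Subgroup ↥(Cfsg.SU (n + 2) F q) => A.subgroupOf (⨆ B ∈ {A : Subgroup ↥(Cfsg.SU (n + 2) F q) | ∃ p : Fin (n + 2) → F, p ≠ 0 ∧ Cfsg.hermForm (n + 2) F q p p = 0 ∧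
          A = Subgroup.closure {g : ↥(Cfsg.SU (n + 2) F q) |
            (∀ v : Fin (n + 2) → F, ∃ c : F, ((g : Matrix.SpecialLinearGroup (Fin (n + 2)) F) : Matrix (Fin (n + 2)) (Fin (n + 2)) F) *ᵥ v = v + c • p) ∧
            ∀ v : Fin (n + 2) → F, Cfsg.hermForm (n + 2) F q v p = 0 →
              ((g : Matrix.SpecialLinearGroup (Fin (n + 2)) F) : Matrix (Fin (n + 2)) (Fin (n + 2)) F) *ᵥ v = v}}, B)) ''
      {A : Subgroup ↥(Cfsg.SU (n + 2) F q) | ∃ p : Fin (n + 2) → F, p ≠ 0 ∧ Cfsg.hermForm (n + 2) F q p p = 0 ∧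
          A = Subgroup.closure {g : ↥(Cfsg.SU (n + 2) F q) |
            (∀ v : Fin (n + 2) → F, ∃ c : F, ((g : Matrix.SpecialLinearGroup (Fin (n + 2)) F) : Matrix (Fin (n + 2)) (Fin (n + 2)) F) *ᵥ v = v + c • p) ∧
            ∀ v : Fin (n + 2) → F, Cfsg.hermForm (n + 2) F q v p = 0 →
              ((g : Matrix.SpecialLinearGroup (Fin (n + 2)) F) : Matrix (Fin (n + 2)) (Fin (n + 2)) F) *ᵥ v = v}}) ∧
    (∃ (L : Type) (_ : Field L) (_ : Fintype L), Fintype.card L = q ∧ Cfsg.IsKRootSubgroupSet L ((fun A : Subgroup ↥(Cfsg.SU (n + 2) F q) => A.subgroupOf (⨆ B ∈ {A : Subgroup ↥(Cfsg.SU (n + 2) F q) | ∃ p : Fin (n + 2) → F, p ≠ 0 ∧ Cfsg.hermForm (n + 2) F q p p = 0 ∧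
          A = Subgroup.closure {g : ↥(Cfsg.SU (n + 2) F q) |
            (∀ v : Fin (n + 2) → F, ∃ c : F, ((g : Matrix.SpecialLinearGroup (Fin (n + 2)) F) : Matrix (Fin (n + 2)) (Fin (n + 2)) F) *ᵥ v = v + c • p) ∧
            ∀ v : Fin (n + 2) → F, Cfsg.hermForm (n + 2) F q v p = 0 →
              ((g : Matrix.SpecialLinearGroup (Fin (n + 2)) F) : Matrix (Fin (n + 2)) (Fin (n + 2)) F) *ᵥ v = v}}, B)) ''
      {A : Subgroup ↥(Cfsg.SU (n + 2) F q) | ∃ p : Fin (n + 2) → F, p ≠ 0 ∧ Cfsg.hermForm (n + 2) F q p p = 0 ∧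
          A = Subgroup.closure {g : ↥(Cfsg.SU (n + 2) F q) |
            (∀ v : Fin (n + 2) → F, ∃ c : F, ((g : Matrix.SpecialLinearGroup (Fin (n + 2)) F) : Matrix (Fin (n + 2)) (Fin (n + 2)) F) *ᵥ v = v + c • p) ∧
            ∀ v : Fin (n + 2) → F, Cfsg.hermForm (n + 2) F q v p = 0 →
              ((g : Matrix.SpecialLinearGroup (Fin (n + 2)) F) : Matrix (Fin (n + 2)) (Fin (n + 2)) F) *ᵥ v = v}})) ∧
    Cfsg.IsConnectedFamily (Cfsg.FAdj ((fun A : Subgroup ↥(Cfsg.SU (n + 2) F q) => A.subgroupOf (⨆ B ∈ {A : Subgroup ↥(Cfsg.SU (n + 2) F q) | ∃ p : Fin (n + 2) → F, p ≠ 0 ∧ Cfsg.hermForm (n + 2) F q p p = 0 ∧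
          A = Subgroup.closure {g : ↥(Cfsg.SU (n + 2) F q) |
            (∀ v : Fin (n + 2) → F, ∃ c : F, ((g : Matrix.SpecialLinearGroup (Fin (n + 2)) F) : Matrix (Fin (n + 2)) (Fin (n + 2)) F) *ᵥ v = v + c • p) ∧
            ∀ v : Fin (n + 2) → F, Cfsg.hermForm (n + 2) F q v p = 0 →
              ((g : Matrix.SpecialLinearGroup (Fin (n + 2)) F) : Matrix (Fin (n + 2)) (Fin (n + 2)) F) *ᵥ v = v}}, B)) ''
      {A : Subgroup ↥(Cfsg.SU (n + 2) F q) | ∃ p : Fin (n + 2) → F, p ≠ 0 ∧ Cfsg.hermForm (n + 2) F q p p = 0 ∧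
          A = Subgroup.closure {g : ↥(Cfsg.SU (n + 2) F q) |
            (∀ v : Fin (n + 2) → F, ∃ c : F, ((g : Matrix.SpecialLinearGroup (Fin (n + 2)) F) : Matrix (Fin (n + 2)) (Fin (n + 2)) F) *ᵥ v = v + c • p) ∧
            ∀ v : Fin (n + 2) → F, Cfsg.hermForm (n + 2) F q v p = 0 →
              ((g : Matrix.SpecialLinearGroup (Fin (n + 2)) F) : Matrix (Fin (n + 2)) (Fin (n + 2)) F) *ᵥ v = v}})) ((fun A : Subgroup ↥(Cfsg.SU (n + 2) F q) => A.subgroupOf (⨆ B ∈ {A : Subgroup ↥(Cfsg.SU (n + 2) F q) | ∃ p : Fin (n + 2) → F, p ≠ 0 ∧ Cfsg.hermForm (n + 2) F q p p = 0 ∧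
          A = Subgroup.closure {g : ↥(Cfsg.SU (n + 2) F q) |
            (∀ v : Fin (n + 2) → F, ∃ c : F, ((g : Matrix.SpecialLinearGroup (Fin (n + 2)) F) : Matrix (Fin (n + 2)) (Fin (n + 2)) F) *ᵥ v = v + c • p) ∧
            ∀ v : Fin (n + 2) → F, Cfsg.hermForm (n + 2) F q v p = 0 →
              ((g : Matrix.SpecialLinearGroup (Fin (n + 2)) F) : Matrix (Fin (n + 2)) (Fin (n + 2)) F) *ᵥ v = v}}, B)) ''
      {A : Subgroup ↥(Cfsg.SU (n + 2) F q) | ∃ p : Fin (n + 2) → F, p ≠ 0 ∧ Cfsg.hermForm (n + 2) F q p p = 0 ∧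
          A = Subgroup.closure {g : ↥(Cfsg.SU (n + 2) F q) |
            (∀ v : Fin (n + 2) → F, ∃ c : F, ((g : Matrix.SpecialLinearGroup (Fin (n + 2)) F) : Matrix (Fin (n + 2)) (Fin (n + 2)) F) *ᵥ v = v + c • p) ∧
            ∀ v : Fin (n + 2) → F, Cfsg.hermForm (n + 2) F q v p = 0 →
              ((g : Matrix.SpecialLinearGroup (Fin (n + 2)) F) : Matrix (Fin (n + 2)) (Fin (n + 2)) F) *ᵥ v = v}}) := by
  exact aux F q (n + 2) hF (by omega)

end Cfsg.Agent.S5071
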