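import Cfsg.Statements.S5086
import Cfsg.Agent.Lib.Fusion.NormalCR
-- import your own Cfsg.Agent.* helpers here

set_option autoImplicit false
open Cfsg

namespace Cfsg.Agent.S5086

/-- In a saturated fusion system over a finite p-group, a subgroup Q is normal in the system if and only if Q is strongly closed in the system and is contained in every centric-radical subgroup. -/
theorem result {Ω : Type*} [Group Ω] {S : Subgroup Ω} [Finite S] (p : ℕ) [Fact p.Prime] (hS : IsPGroup p S) (F : Cfsg.FusionSystem S) (hF : F.IsSaturated p) (Q : Subgroup Ω) : F.IsNormal Q ↔ (F.StronglyClosed Q ∧ ∀ P : Subgroup Ω, F.IsCentric P → F.IsRadical p P → Q ≤ P) := by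
  constructor
  · intro h
    exact ⟨Cfsg.Agent.Lib.Fusion.NormalCR.IsNormal.stronglyClosed h, fun P h1 h2 =>
      Cfsg.Agent.Lib.Fusion.NormalCR.IsNormal.le_of_centric_radical hS h h1 h2⟩
  · rintro ⟨h1, h2⟩
    exact Cfsg.Agent.Lib.Fusion.NormalCR.isNormal_of_stronglyClosed_of_le hS hF h1 h2

end Cfsg.Agent.S5086
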