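import Cfsg.Statements.S5088
import Cfsg.Agent.Lib.Fusion.Chain
-- import your own Cfsg.Agent.* helpers here

set_option autoImplicit false
open Cfsg

namespace Cfsg.Agent.S5088

/-- In a saturated fusion system over a finite p-group, a subgroup Q is normal in the system if and only if there is a chain of subgroups 1 = Q₀ ≤ Q₁ ≤ ⋯ ≤ Qₙ = Q such that each Qᵢ with i ≥ 1 is strongly closed in the system and [Q, Qᵢ] ≤ Qᵢ₋₁. -/
theorem result {Ω : Type*} [Group Ω] {S : Subgroup Ω} [Finite S] (p : ℕ) [Fact p.Prime] (hS : IsPGroup p S) (F : Cfsg.FusionSystem S) (hF : F.IsSaturated p) (Q : Subgroup Ω) : F.IsNormal Q ↔ ∃ (n : ℕ) (Qs : Fin (n + 1) → Subgroup Ω), Qs 0 = ⊥ ∧ Qs (Fin.last n) = Q ∧ Monotone Qs ∧ ∀ i : Fin n, F.StronglyClosed (Qs i.succ) ∧ ⁅Q, Qs i.succ⁆ ≤ Qs (Fin.castSucc i) := by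
  classical
  constructor
  · intro hQ
    obtain ⟨n, C, h0, hl, hm, hN, hc⟩ := Cfsg.Agent.Lib.Fusion.Chain.exists_central_chain hS hQ
    refine ⟨n, C, h0, hl, hm, fun i => ⟨Cfsg.Agent.Lib.Fusion.NormalCR.IsNormal.stronglyClosed (hN _), ?_⟩⟩
    rw [Subgroup.commutator_comm]
    exact hc i
  · rintro ⟨n, Qs, h0, hl, -, h⟩
    let E : ℕ → Subgroup Ω := fun j => if hj : j ≤ n then Qs ⟨j, Nat.lt_succ_of_le hj⟩ else ⊥
    have hE : ∀ (j : ℕ) (hj : j ≤ n), E j = Qs ⟨j, Nat.lt_succ_of_le hj⟩ := fun j hj => dif_pos hj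
    have hE0 : E 0 = ⊥ := by
      rw [hE 0 (Nat.zero_le n)]
      exact h0
    have hEn : E n = Q := by
      rw [hE n le_rfl]
      exact hl
    have hsc : ∀ i ≤ n, F.StronglyClosed (E i) := by
      intro i hi
      cases i with
      | zero =>
        rw [hE0]
        exact Cfsg.Agent.Lib.Fusion.Chain.stronglyClosed_bot
      | succ i =>
        rw [hE (i + 1) hi]
        exact (h ⟨i, by omega⟩).1
    have hcomm : ∀ i < n, ⁅Q, E (i + 1)⁆ ≤ E i := by
      intro i hi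
      rw [hE (i + 1) (by omega), hE i (by omega)]
      exact (h ⟨i, hi⟩).2
    exact Cfsg.Agent.Lib.Fusion.Chain.isNormal_of_series hS hF (hEn ▸ hsc n le_rfl) hE0 hEn hsc hcomm

end Cfsg.Agent.S5088
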