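import Cfsg.Statements.S5089
import Cfsg.Agent.Lib.Fusion.Chain
-- import your own Cfsg.Agent.* helpers here

set_option autoImplicit false
open Cfsg

namespace Cfsg.Agent.S5089

/-- A saturated fusion system over a finite p-group has a nontrivial subgroup that is normal in the system (O_p(F) ≠ 1) if and only if some nontrivial abelian subgroup is strongly closed in the system. -/
theorem result {Ω : Type*} [Group Ω] {S : Subgroup Ω} [Finite S] (p : ℕ) [Fact p.Prime] (hS : IsPGroup p S) (F : Cfsg.FusionSystem S) (hF : F.IsSaturated p) : F.core ≠ ⊥ ↔ ∃ Q : Subgroup Ω, Q ≠ ⊥ ∧ IsMulCommutative Q ∧ F.StronglyClosed Q := by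
  constructor
  · intro h
    have hex : ∃ Q : Subgroup Ω, F.IsNormal Q ∧ Q ≠ ⊥ := by
      by_contra hcon
      push Not at hcon
      exact h (sSup_eq_bot.2 fun Q hQ => hcon Q hQ)
    obtain ⟨Q, hQ, hne⟩ := hex
    exact Cfsg.Agent.Lib.Fusion.Chain.exists_abelian_of_isNormal hS hQ hne
  · rintro ⟨Q, hne, hab, hsc⟩ h
    have hQ := Cfsg.Agent.Lib.Fusion.Chain.isNormal_of_abelian hS hF hsc hab
    have hle : Q ≤ F.core := le_sSup hQ
    rw [h] at hle
    exact hne (le_bot_iff.1 hle)

end Cfsg.Agent.S5089
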