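import Cfsg.Statements.S5102
import Mathlib
-- import your own Cfsg.Agent.* helpers here

set_option autoImplicit false
open Cfsg

namespace Cfsg.Agent.S5102

/-- A normal p-subgroup of a finite group G is normal in the fusion system of G on a Sylow p-subgroup. -/
theorem result {G : Type*} [Group G] [Finite G] (p : ℕ) [Fact p.Prime] (S : Sylow p G) (R : Subgroup G) [R.Normal] (hR : IsPGroup p R) : (Cfsg.groupFusionSystem (S : Subgroup G)).IsNormal R := by
  have hRS : R ≤ (S : Subgroup G) := by
    have h1 : IsPGroup p ↥(R ⊔ (S : Subgroup G)) :=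
      IsPGroup.to_sup_of_normal_left hR S.isPGroup'
    have h2 := S.is_maximal' h1 le_sup_right
    exact le_sup_left.trans h2.le
  refine ⟨hRS, ?_⟩
  rintro P φ ⟨hP, hφS, g, hg⟩
  have hsup : P ⊔ R ≤ (S : Subgroup G) := sup_le hP hRS
  have hconj : P ⊔ R ≤ (S : Subgroup G).comap (MulAut.conj g).toMonoidHom := by
    refine sup_le ?_ ?_
    · intro x hx
      have := hφS ⟨x, hx⟩
      rw [hg] at this
      simpa [MulAut.conj_apply] using this
    · intro x hx
      have : g * x * g⁻¹ ∈ R := ‹R.Normal›.conj_mem x hx g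
      simpa [MulAut.conj_apply] using hRS this
  refine ⟨conjHom (P ⊔ R) g, ⟨hsup, ?_, g, fun x => rfl⟩, ?_, ?_⟩
  · intro x
    simpa [conjHom, MulAut.conj_apply] using hconj x.2
  · intro x
    rw [hg]
    rfl
  · ext y
    simp only [Subgroup.mem_map, Subgroup.mem_subgroupOf]
    constructor
    · rintro ⟨x, hx, rfl⟩
      exact ‹R.Normal›.conj_mem _ hx g
    · intro hy
      have hx : g⁻¹ * y * g ∈ R := by
        simpa using ‹R.Normal›.conj_mem y hy g⁻¹
      refine ⟨⟨g⁻¹ * y * g, le_sup_right (a := P) hx⟩, hx, ?_⟩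
      simp [conjHom, MulAut.conj_apply, mul_assoc]

end Cfsg.Agent.S5102
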