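import Cfsg.Statements.S5105
import Mathlib
import Cfsg.Agent.Lib.Fusion.Model
import Cfsg.Agent.Lib.Basic.PCore

set_option autoImplicit false
open Cfsg

namespace Cfsg.Agent.S5105

open scoped IsMulCommutative in
/-- Averaging: an automorphism fixing a subgroup `H` of index prime to `p` elementwise, such that `ψ(g) g⁻¹` always lies in a normal abelian `p`-subgroup `V`, is conjugation by an element of `V`. -/
theorem exists_conj_of_fix {G : Type*} [Group G] [Finite G] {p : ℕ} [Fact p.Prime] (H V : Subgroup G) [V.Normal]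
    [IsMulCommutative V] (hV : IsPGroup p V) (hH : ¬ p ∣ H.index) (ψ : G ≃* G) (hψ : ∀ x ∈ H, ψ x = x)
    (hv : ∀ g, ψ g * g⁻¹ ∈ V) : ∃ u ∈ V, ∀ g, ψ g = u * g * u⁻¹ := by
  classical
  let v : G → V := fun g => ⟨ψ g * g⁻¹, hv g⟩
  have hvr : ∀ g (x : H), v (g * x) = v g := fun g x => by
    apply Subtype.ext
    show ψ (g * x) * (g * x)⁻¹ = ψ g * g⁻¹
    rw [map_mul, hψ x x.2]
    group
  have hvl : ∀ h g, v (h * g) = v h * MulAut.conjNormal h (v g) := fun h g => by
    apply Subtype.ext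
    show ψ (h * g) * (h * g)⁻¹ = ψ h * h⁻¹ * (h * (ψ g * g⁻¹) * h⁻¹)
    rw [map_mul]
    group
  let vb : G ⧸ H → V := fun c => Quotient.liftOn' c v (fun a b hab => by
    have h1 : a⁻¹ * b ∈ H := QuotientGroup.leftRel_apply.1 hab
    have h2 := hvr a ⟨_, h1⟩
    rw [← h2]
    congr 1
    group)
  have hvb : ∀ g : G, vb (g : G ⧸ H) = v g := fun g => rfl
  have : Fintype (G ⧸ H) := Fintype.ofFinite _
  let t : V := ∏ c : G ⧸ H, vb c
  have hcop : (Nat.card V).Coprime H.index := by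
    obtain ⟨k, hk⟩ := IsPGroup.iff_card.1 hV
    rw [hk]
    exact Nat.Coprime.pow_left k ((Nat.Prime.coprime_iff_not_dvd Fact.out).2 hH)
  have hcard : Fintype.card (G ⧸ H) = H.index := by
    rw [← Nat.card_eq_fintype_card]
    rfl
  have key : ∀ h : G, t = v h ^ H.index * MulAut.conjNormal h t := fun h => by
    have h1 : ∀ c : G ⧸ H, vb (h • c) = v h * MulAut.conjNormal h (vb c) := fun c => by
      induction c using QuotientGroup.induction_on with
      | H g =>
        rw [MulAction.Quotient.smul_mk, hvb, hvb, smul_eq_mul, hvl]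
    calc t = ∏ c : G ⧸ H, vb (h • c) := (Equiv.prod_comp (MulAction.toPerm h) vb).symm
      _ = ∏ c : G ⧸ H, (v h * MulAut.conjNormal h (vb c)) := Finset.prod_congr rfl fun c _ => h1 c
      _ = v h ^ H.index * MulAut.conjNormal h t := by
        rw [Finset.prod_mul_distrib, Finset.prod_const, Finset.card_univ, hcard, map_prod]
  obtain ⟨u, hu⟩ := (powCoprime hcop).surjective t
  have hu' : u ^ H.index = t := hu
  refine ⟨u, u.2, fun h => ?_⟩
  have h2 : (v h) ^ H.index = (u * (MulAut.conjNormal h u)⁻¹) ^ H.index := by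
    rw [mul_pow, inv_pow, ← map_pow, hu']
    exact eq_mul_inv_of_mul_eq (key h).symm
  have h3 : v h = u * (MulAut.conjNormal h u)⁻¹ := (powCoprime hcop).injective h2
  have h4 := congrArg Subtype.val h3
  have h5 : ψ h * h⁻¹ = u * (h * u * h⁻¹)⁻¹ := h4
  have h6 : ψ h = u * (h * u * h⁻¹)⁻¹ * h := eq_mul_of_mul_inv_eq h5
  rw [h6]
  group


/-- Model Theorem, rigidity: if G is a model of a constrained fusion system over a finite p-group S (through ι : S → G), then every automorphism of G fixing ι(S) elementwise is conjugation by ι(z) for some z in the centre of S. -/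
theorem result {Ω : Type*} [Group Ω] {S : Subgroup Ω} [Finite S] (p : ℕ) [Fact p.Prime] (hS : IsPGroup p S) (F : Cfsg.FusionSystem S) (hF : F.IsConstrained p) {G : Type*} [Group G] (ι : S →* G) (hG : F.IsModel p G ι) (ψ : G ≃* G) (hψ : ∀ x : S, ψ (ι x) = ι x) : ∃ z : S, z ∈ Subgroup.center S ∧ ∀ g : G, ψ g = ι z * g * (ι z)⁻¹ := by
  obtain ⟨hfin, hreal, ⟨T, hT⟩, hcent⟩ := hG
  have : Finite G := hfin
  set O := Cfsg.pCore p G with hO
  have hOr : O ≤ ι.range := Cfsg.Agent.Lib.Fusion.Model.pCore_le_range hT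
  have hOfix : ∀ x ∈ O, ψ x = x := fun x hx => by
    obtain ⟨y, rfl⟩ := hOr hx
    exact hψ y
  have hOn : O.Normal := Cfsg.Agent.Lib.Basic.PCore.pCore_normal p G
  let V : Subgroup G := Subgroup.centralizer (O : Set G)
  have hVO : V ≤ O := hcent
  have hVn : V.Normal := Subgroup.normal_centralizer (H := O)
  have hVc : IsMulCommutative V := ⟨⟨fun a b => by
    apply Subtype.ext
    exact Subgroup.mem_centralizer_iff.1 b.2 a (hVO a.2)⟩⟩
  have hVp : IsPGroup p V := (Cfsg.Agent.Lib.Basic.PCore.pCore_isPGroup p).to_le hVO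
  have hH : ¬ p ∣ ι.range.index := by
    rw [← hT]
    exact T.not_dvd_index
  have hv : ∀ g, ψ g * g⁻¹ ∈ V := fun g => by
    refine Subgroup.mem_centralizer_iff.2 fun x hx => ?_
    have h1 : g⁻¹ * x * g⁻¹⁻¹ ∈ O := hOn.conj_mem x hx g⁻¹
    have h2 := hOfix _ h1
    rw [map_mul, map_mul, hOfix x hx, map_inv, inv_inv] at h2
    have h3 : x * ψ g = ψ g * (g⁻¹ * x * g) := by
      rw [← h2]
      group
    rw [← mul_assoc, h3]
    group
  obtain ⟨u, huV, hu⟩ := exists_conj_of_fix ι.range V hVp hH ψ (by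
    rintro _ ⟨x, rfl⟩
    exact hψ x) hv
  obtain ⟨z, rfl⟩ := hOr (hVO huV)
  refine ⟨z, Subgroup.mem_center_iff.2 fun x => ?_, hu⟩
  apply hreal.1
  have h1 := hu (ι x)
  rw [hψ] at h1
  rw [map_mul, map_mul]
  exact eq_mul_inv_iff_mul_eq.1 h1

end Cfsg.Agent.S5105
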