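import Cfsg.Statements.S5106
import Cfsg.Agent.Lib.Fusion.Chain
-- import your own Cfsg.Agent.* helpers here

set_option autoImplicit false
open Cfsg

open scoped commutatorElement

namespace Cfsg.Agent.S5106

/-- In a saturated fusion system over a finite p-group S, a subgroup R ≤ S is normal in the system if and only if every map of the system whose source is a subgroup of R is the restriction of an element of Aut_F(R). -/
theorem result {Ω : Type*} [Group Ω] {S : Subgroup Ω} [Finite S] (p : ℕ) [Fact p.Prime] (hS : IsPGroup p S) (F : Cfsg.FusionSystem S) (hF : F.IsSaturated p) (R : Subgroup Ω) (hRS : R ≤ S) : F.IsNormal R ↔ ∀ (P : Subgroup Ω) (hPR : P ≤ R) (φ : P →* Ω), φ ∈ F.Hom P → ∃ α ∈ F.autGroup R, ∀ x : P, ((α (Subgroup.inclusion hPR x) : R) : Ω) = φ x := by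
  classical
  constructor
  · intro hR P hPR φ hφ
    obtain ⟨ψ, hψ, hag, himg⟩ := hR.2 P φ hφ
    have hle : R ≤ P ⊔ R := le_sup_right
    have hres := Cfsg.Agent.Lib.Fusion.Basic.res_mem hψ hle
    have hr : (ψ.comp (Subgroup.inclusion hle)).range = R := by
      refine Eq.trans ?_ himg
      ext y
      constructor
      · rintro ⟨x, rfl⟩
        exact ⟨Subgroup.inclusion hle x, by simp [Subgroup.mem_subgroupOf], rfl⟩
      · rintro ⟨x, hx, rfl⟩
        exact ⟨⟨x, hx⟩, rfl⟩
    let α : MulAut R := Cfsg.Agent.Lib.Fusion.Saturated.isoOfRange (F.injective_of_mem hres) hr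
    have hα : α ∈ F.autGroup R := by
      apply Cfsg.Agent.Lib.Fusion.Basic.mem_autGroup_of_mem
      have e : R.subtype.comp α.toMonoidHom = ψ.comp (Subgroup.inclusion hle) := by
        ext x
        rfl
      rwa [e]
    refine ⟨α, hα, fun x => ?_⟩
    rw [← hag x]
    show ψ (Subgroup.inclusion hle (Subgroup.inclusion hPR x)) = _
    congr 1
  · intro h
    have hfin : Finite R := Cfsg.Agent.Lib.Fusion.Basic.finite_of_le hRS
    have hRp : IsPGroup p R := hS.to_le hRS
    have hnil : Group.IsNilpotent R := hRp.isNilpotent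
    obtain ⟨n, hn⟩ := Group.IsNilpotent.nilpotent' (G := R)
    let E : ℕ → Subgroup Ω := fun i => (Subgroup.upperCentralSeries R i).map R.subtype
    have hE0 : E 0 = ⊥ := by simp [E, Subgroup.upperCentralSeries_zero]
    have hEn : E n = R := by
      show Subgroup.map R.subtype (Subgroup.upperCentralSeries R n) = R
      rw [hn, ← MonoidHom.range_eq_map, Subgroup.range_subtype]
    have hsc : ∀ i ≤ n, F.StronglyClosed (E i) := by
      intro i _
      refine ⟨(Subgroup.map_subtype_le _).trans hRS, fun T hT φ hφ x => ?_⟩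
      have hTR : T ≤ R := hT.trans (Subgroup.map_subtype_le _)
      obtain ⟨α, -, hα⟩ := h T hTR φ hφ
      rw [← hα x]
      obtain ⟨z, hz, hze⟩ := hT x.2
      have hchar : (Subgroup.upperCentralSeries R i).Characteristic := inferInstance
      have h2 := (Subgroup.characteristic_iff_comap_eq.1 hchar) α.symm
      have hz2 : α (Subgroup.inclusion hTR x) ∈ Subgroup.upperCentralSeries R i := by
        have e : Subgroup.inclusion hTR x = z := Subtype.ext hze.symm
        rw [e]
        have h3 : α z ∈ (Subgroup.upperCentralSeries R i).comap α.symm.toMonoidHom := by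
          show α.symm (α z) ∈ Subgroup.upperCentralSeries R i
          simpa using hz
        rwa [h2] at h3
      exact ⟨_, hz2, rfl⟩
    have hcomm : ∀ i < n, ⁅R, E (i + 1)⁆ ≤ E i := by
      intro i _
      rw [Subgroup.commutator_le]
      rintro g₁ h₁ _ ⟨z, hz, rfl⟩
      have h1 := (Subgroup.mem_upperCentralSeries_succ_iff (G := R) (n := i) (x := z)).1 hz
        ⟨g₁, h₁⟩
      have h2 := Subgroup.inv_mem _ h1
      refine ⟨_, h2, ?_⟩
      simp [commutatorElement_def, mul_assoc]
    exact Cfsg.Agent.Lib.Fusion.Chain.isNormal_of_series hS hF (hEn ▸ hsc n le_rfl) hE0 hEn hsc hcomm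

end Cfsg.Agent.S5106
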