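import Cfsg.Statements.S5107
import Mathlib
import Cfsg.Prelude.Def_FusionSystem
import Cfsg.Prelude.Def_TwoFusion
import Cfsg.Agent.Lib.Fusion.Basic
import Cfsg.Agent.Lib.Fusion.GroupSylow
import Cfsg.Agent.Lib.Fusion.AlperinInduct
import Cfsg.Agent.Lib.Fusion.Chain
import Cfsg.Agent.Lib.Fusion.NormalCR

set_option autoImplicit false

open Pointwise
open Cfsg

namespace Cfsg.Agent.S5107

open Cfsg.FusionSystem Cfsg.Agent.Lib.Fusion.Basic Cfsg.Agent.Lib.Fusion.AlperinInduct
open Cfsg.Agent.Lib.Fusion.Chain Cfsg.Agent.Lib.Fusion.NormalCR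
open scoped commutatorElement

variable {G : Type*} [Group G] [Finite G] (p : ℕ) [Fact p.Prime] (S : Sylow p G)

/-- In the fusion system of `G`, the group strong closure gives the system's one. -/
theorem stronglyClosed_of {Q : Subgroup G} (hQ : Cfsg.IsStronglyClosed Q (S : Subgroup G)) :
    (groupFusionSystem (S : Subgroup G)).StronglyClosed Q := by
  refine ⟨hQ.1, fun R hR φ hφ x => ?_⟩
  obtain ⟨-, h2, g, hg⟩ := hφ
  have h3 := hg x
  rw [h3]
  apply hQ.2 _ (hR x.2)
  rw [← h3]
  exact h2 x

/-- Only `S` is centric radical. -/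
theorem eq_of_centric_radical
    (hcl : ⁅(S : Subgroup G), (S : Subgroup G)⁆ ≤
      (S : Subgroup G) ⊓ Subgroup.centralizer ((S : Subgroup G) : Set G))
    (hZ : Cfsg.IsStronglyClosed ((S : Subgroup G) ⊓ Subgroup.centralizer ((S : Subgroup G) : Set G))
      (S : Subgroup G)) {P : Subgroup G}
    (hC : (groupFusionSystem (S : Subgroup G)).IsCentric P)
    (hR : (groupFusionSystem (S : Subgroup G)).IsRadical p P) : P = S := by
  have hS : IsPGroup p (S : Subgroup G) := S.isPGroup'
  have hPS : P ≤ S := hC.1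
  by_contra hne
  have hlt : P < S := lt_of_le_of_ne hPS hne
  obtain ⟨a, ha1, ha2⟩ := exists_mem_normalizerIn_of_lt hS hlt
  apply ha2
  let Z : Subgroup G := (S : Subgroup G) ⊓ Subgroup.centralizer ((S : Subgroup G) : Set G)
  have hZc := stronglyClosed_of p S hZ
  refine mem_of_stab_chain (F := groupFusionSystem (S : Subgroup G))
    (E := fun i => if i = 0 then ⊥ else if i = 1 then Z else ⊤) (m := 2) hS hC hR
    rfl (by simp) ?_ ha1.1 ha1.2 ?_
  · intro i hi α hα x hx
    match i, hi with
    | 0, _ =>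
      have hx1 : (x : G) = 1 := hx
      have hx2 : x = 1 := Subtype.ext hx1
      rw [hx2, map_one]
      exact one_mem _
    | 1, _ => exact StronglyClosed.aut_mem hZc hPS hα x hx
    | 2, _ => trivial
  · intro i hi x hxP hx
    match i, hi with
    | 0, _ =>
      have hxZ : x ∈ Z := hx
      have e : a * x * a⁻¹ = x := by
        have := (Subgroup.mem_centralizer_iff.1 hxZ.2) a ha1.1
        rw [this]
        group
      rw [e]
      simp
    | 1, _ =>
      have h1 : ⁅x⁻¹, a⁆ ∈ ⁅(S : Subgroup G), (S : Subgroup G)⁆ :=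
        Subgroup.commutator_mem_commutator ((S : Subgroup G).inv_mem (hPS hxP)) ha1.1
      have h2 := hcl h1
      have e : x⁻¹ * (a * x * a⁻¹) = ⁅x⁻¹, a⁆ := by
        rw [commutatorElement_def]
        group
      rw [e]
      exact h2


/-- If a Sylow p-subgroup S of a finite group G has nilpotency class at most two and its centre is strongly closed in S with respect to G, then every map of the fusion system of G on S is conjugation by an element of N_G(S), and S is the largest subgroup normal in that fusion system. -/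
theorem result {G : Type*} [Group G] [Finite G] (p : ℕ) [Fact p.Prime] (S : Sylow p G) (hcl : ⁅(S : Subgroup G), (S : Subgroup G)⁆ ≤ (S : Subgroup G) ⊓ Subgroup.centralizer ((S : Subgroup G) : Set G)) (hZ : Cfsg.IsStronglyClosed ((S : Subgroup G) ⊓ Subgroup.centralizer ((S : Subgroup G) : Set G)) (S : Subgroup G)) : (∀ (P : Subgroup G) (φ : P →* G), φ ∈ (Cfsg.groupFusionSystem (S : Subgroup G)).Hom P → ∃ g ∈ Subgroup.normalizer ((S : Subgroup G) : Set G), ∀ x : P, φ x = g * (x : G) * g⁻¹) ∧ (Cfsg.groupFusionSystem (S : Subgroup G)).core = S := by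
  have hS : IsPGroup p (S : Subgroup G) := S.isPGroup'
  have hF := Cfsg.Agent.Lib.Fusion.GroupSylow.isSaturated_groupFusionSystem S
  have main : ∀ {P : Subgroup G} {φ : P →* G}, φ ∈ (groupFusionSystem (S : Subgroup G)).Hom P →
      ∃ g ∈ Subgroup.normalizer ((S : Subgroup G) : Set G), ∀ x : P, φ x = g * (x : G) * g⁻¹ := by
    refine alperin_induction hS hF
      (fun P φ => ∃ g ∈ Subgroup.normalizer ((S : Subgroup G) : Set G),
        ∀ x : P, φ x = g * (x : G) * g⁻¹) ?_ ?_ ?_ ?_
    · rintro P R φ - ⟨g, hg, hgx⟩ h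
      exact ⟨g, hg, fun x => hgx (Subgroup.inclusion h x)⟩
    · rintro P Q φ ψ - - ⟨g, hg, hgx⟩ ⟨k, hk, hkx⟩ h
      refine ⟨k * g, Subgroup.mul_mem _ hk hg, fun x => ?_⟩
      show ψ ⟨φ x, h x⟩ = _
      rw [hkx]
      show k * φ x * k⁻¹ = _
      rw [hgx]
      group
    · rintro P Q φ ψ hφ hψ hr hinv ⟨g, hg, hgx⟩
      refine ⟨g⁻¹, Subgroup.inv_mem _ hg, fun y => ?_⟩
      have hy : (y : G) ∈ φ.range := by rw [hr]; exact y.2
      obtain ⟨x, hx⟩ := hy
      have h1 := hinv x (by rw [hx]; exact y.2)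
      have e : (⟨φ x, by rw [hx]; exact y.2⟩ : Q) = y := Subtype.ext hx
      rw [e] at h1
      rw [h1, ← hx, hgx]
      group
    · intro P φ hP hφ hr
      have hPS : P = S := by
        rcases hP with h | ⟨-, hC, hR⟩
        · exact h
        · exact eq_of_centric_radical p S hcl hZ hC hR
      subst hPS
      obtain ⟨-, -, g, hg⟩ := hφ
      refine ⟨g, ?_, hg⟩
      rw [Subgroup.mem_normalizer_iff]
      intro h
      constructor
      · intro hh
        have h1 : φ ⟨h, hh⟩ ∈ φ.range := ⟨_, rfl⟩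
        rw [hr, hg] at h1
        exact h1
      · intro hh
        have hh' : g * h * g⁻¹ ∈ φ.range := by rw [hr]; exact hh
        obtain ⟨x, hx⟩ := hh'
        rw [hg] at hx
        have : (x : G) = h := mul_left_cancel (mul_right_cancel hx)
        rw [← this]
        exact x.2
  refine ⟨fun P φ hφ => main hφ, ?_⟩
  have hnorm : (groupFusionSystem (S : Subgroup G)).IsNormal (S : Subgroup G) := by
    refine Cfsg.Agent.Lib.Fusion.NormalCR.isNormal_of_stronglyClosed_of_le hS hF ?_ ?_
    · exact ⟨le_rfl, fun R hR φ hφ x => hφ.2.1 x⟩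
    · intro P hC hR
      exact (eq_of_centric_radical p S hcl hZ hC hR).ge
  refine le_antisymm ?_ ?_
  · exact sSup_le fun Q hQ => hQ.1
  · exact le_sSup hnorm

end Cfsg.Agent.S5107
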