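import Cfsg.Statements.S5112
import Mathlib
import Cfsg.Agent.Lib.Fusion.Saturated
-- import your own Cfsg.Agent.* helpers here

set_option autoImplicit false
open Cfsg

namespace Cfsg.Agent.S5112

/-- An abstract "dihedral-like" group: automorphisms of odd order are trivial. -/
theorem fix_of_odd {G : Type*} [Group G] {N K : ℕ} (hN : N = 2 ^ K) (hK : 3 ≤ K) (ρ τ : ZMod N → G)
    (h1 : ∀ g : G, (∃ i, g = ρ i) ∨ (∃ i, g = τ i))
    (h2 : ∀ i j, ρ (i + j) = ρ i * ρ j) (h3 : ∀ i j, τ i * ρ j = τ (i + j))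
    (h4 : ∀ i j, ρ i * τ j = τ (j - i)) (h5 : ∀ i, orderOf (τ i) ≠ orderOf (ρ 1))
    (hρ : Function.Injective ρ) (hτ : Function.Injective τ)
    (β : MulAut G) {m : ℕ} (hm : Odd m) (hβ : β ^ m = 1) : β = 1 := by
  classical
  subst hN
  haveI : NeZero (2 ^ K) := ⟨by positivity⟩
  have hρ0 : ρ 0 = 1 := by
    have := h2 0 0
    simpa using this
  have hρn : ∀ v : ℕ, ρ (v : ZMod (2 ^ K)) = ρ 1 ^ v := by
    intro v
    induction v with
    | zero => simpa using hρ0
    | succ v ih =>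
      push_cast
      rw [h2, ih, pow_succ]
  -- `β (ρ 1)` is a rotation
  have hord : orderOf (β (ρ 1)) = orderOf (ρ 1) :=
    orderOf_injective β.toMonoidHom β.injective _
  obtain ⟨k, hk⟩ : ∃ k, β (ρ 1) = ρ k := by
    rcases h1 (β (ρ 1)) with h | ⟨i, hi⟩
    · exact h
    · exact absurd (by rw [← hi, hord]) (h5 i)
  have hβρ : ∀ i, β (ρ i) = ρ (k * i) := by
    intro i
    obtain ⟨v, rfl⟩ : ∃ v : ℕ, i = (v : ZMod (2 ^ K)) := ⟨i.val, (ZMod.natCast_zmod_val i).symm⟩
    rw [hρn, map_pow, hk]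
    have h6 : ∀ w : ℕ, ρ k ^ w = ρ (k * (w : ZMod (2 ^ K))) := by
      intro w
      induction w with
      | zero => simpa using hρ0.symm
      | succ w ih =>
        rw [pow_succ, ih, ← h2]
        congr 1
        push_cast
        ring
    exact h6 v
  have hiter : ∀ t : ℕ, (β ^ t) (ρ 1) = ρ (k ^ t) := by
    intro t
    induction t with
    | zero => simp
    | succ t ih =>
      rw [pow_succ', MulAut.mul_apply, ih, hβρ, pow_succ']
  have hkm : k ^ m = 1 := by
    have := hiter m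
    rw [hβ] at this
    exact (hρ this).symm
  -- `k = 1`
  have hk1 : k = 1 := by
    have hm0 : m ≠ 0 := by
      rintro rfl
      simp at hm
    let u : (ZMod (2 ^ K))ˣ :=
      ⟨k, k ^ (m - 1), by rw [← pow_succ', Nat.sub_add_cancel (Nat.pos_of_ne_zero hm0), hkm],
        by rw [← pow_succ, Nat.sub_add_cancel (Nat.pos_of_ne_zero hm0), hkm]⟩
    have hu1 : u ^ m = 1 := Units.ext hkm
    have hu2 : u ^ (2 ^ K).totient = 1 := ZMod.pow_totient u
    have hcop : Nat.gcd m (2 ^ K).totient = 1 := by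
      rw [Nat.totient_prime_pow Nat.prime_two (by omega)]
      simp only [Nat.add_one_sub_one, pow_one, mul_one]
      exact Nat.Coprime.pow_right _ (Nat.coprime_two_right.2 hm)
    have hu3 := (pow_gcd_eq_one (a := u)).2 ⟨hu1, hu2⟩
    rw [hcop, pow_one] at hu3
    exact congrArg Units.val hu3
  subst hk1
  have hβρ' : ∀ i, β (ρ i) = ρ i := fun i => by rw [hβρ, one_mul]
  -- `β (τ 0)` is a reflection
  have htwo : (2 : ZMod (2 ^ K)) ≠ 0 := by
    intro h
    have h7 : ((2 : ℕ) : ZMod (2 ^ K)) = 0 := by exact_mod_cast h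
    rw [ZMod.natCast_eq_zero_iff] at h7
    have h8 : 2 ^ K ≤ 2 := Nat.le_of_dvd (by norm_num) h7
    have h9 : 2 ^ 3 ≤ 2 ^ K := Nat.pow_le_pow_right (by norm_num) hK
    omega
  have hne : ∀ j, τ j * ρ 1 ≠ ρ 1 * τ j := by
    intro j h
    rw [h3, h4] at h
    have h7 := hτ h
    apply htwo
    have h8 : j + 1 - (j - 1) = 0 := by rw [h7]; ring
    rw [← h8]
    ring
  obtain ⟨j, hj⟩ : ∃ j, β (τ 0) = τ j := by
    rcases h1 (β (τ 0)) with ⟨l, hl⟩ | h
    · exfalso
      apply hne 0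
      apply β.injective
      rw [map_mul, map_mul, hl, hβρ', ← h2, ← h2, add_comm]
    · exact h
  have hβτ : ∀ i, β (τ i) = τ (j + i) := by
    intro i
    have e : τ i = τ 0 * ρ i := by rw [h3, zero_add]
    rw [e, map_mul, hj, hβρ', h3]
  have hitert : ∀ t : ℕ, (β ^ t) (τ 0) = τ ((t : ZMod (2 ^ K)) * j) := by
    intro t
    induction t with
    | zero => simp
    | succ t ih =>
      rw [pow_succ', MulAut.mul_apply, ih, hβτ]
      congr 1
      push_cast
      ring
  have hj0 : j = 0 := by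
    have h7 := hitert m
    rw [hβ] at h7
    have h8 : (m : ZMod (2 ^ K)) * j = 0 := (hτ h7).symm
    have hcop : Nat.Coprime m (2 ^ K) := Nat.Coprime.pow_right _ (Nat.coprime_two_right.2 hm)
    have hunit : IsUnit (m : ZMod (2 ^ K)) := (ZMod.isUnit_iff_coprime m (2 ^ K)).2 hcop
    exact (hunit.mul_right_eq_zero).1 h8
  subst hj0
  ext g
  rcases h1 g with ⟨i, rfl⟩ | ⟨i, rfl⟩
  · simp [hβρ']
  · simp [hβτ]

/-- An automorphism of odd order of a dihedral group of order `≥ 16` is trivial. -/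
theorem dihedral_fix {K : ℕ} (hK : 3 ≤ K) (β : MulAut (DihedralGroup (2 ^ K))) {m : ℕ}
    (hm : Odd m) (hβ : β ^ m = 1) : β = 1 := by
  haveI : NeZero (2 ^ K) := ⟨by positivity⟩
  have h8 : 2 ^ 3 ≤ 2 ^ K := Nat.pow_le_pow_right (by norm_num) hK
  refine fix_of_odd rfl hK DihedralGroup.r DihedralGroup.sr ?_ ?_ ?_ ?_ ?_ ?_ ?_ β hm hβ
  · rintro (i | i)
    · exact Or.inl ⟨i, rfl⟩
    · exact Or.inr ⟨i, rfl⟩
  · intro i j
    rw [DihedralGroup.r_mul_r]
  · intro i j
    rw [DihedralGroup.sr_mul_r]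
  · intro i j
    rw [DihedralGroup.r_mul_sr]
  · intro i
    rw [DihedralGroup.orderOf_sr, DihedralGroup.orderOf_r_one]
    omega
  · intro i j h
    exact DihedralGroup.r.inj h
  · intro i j h
    exact DihedralGroup.sr.inj h

/-- An automorphism of odd order of a generalized quaternion group of order `≥ 16` is trivial. -/
theorem quaternion_fix {K : ℕ} (hK : 2 ≤ K) (β : MulAut (QuaternionGroup (2 ^ K))) {m : ℕ}
    (hm : Odd m) (hβ : β ^ m = 1) : β = 1 := by
  haveI : NeZero (2 ^ K) := ⟨by positivity⟩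
  have h8 : 2 ^ 2 ≤ 2 ^ K := Nat.pow_le_pow_right (by norm_num) hK
  have hpow : 2 * 2 ^ K = 2 ^ (K + 1) := (pow_succ' 2 K).symm
  refine fix_of_odd hpow (by omega) QuaternionGroup.a QuaternionGroup.xa ?_ ?_ ?_ ?_ ?_ ?_ ?_ β hm hβ
  · rintro (i | i)
    · exact Or.inl ⟨i, rfl⟩
    · exact Or.inr ⟨i, rfl⟩
  · intro i j
    rw [QuaternionGroup.a_mul_a]
  · intro i j
    rw [QuaternionGroup.xa_mul_a]
  · intro i j
    rw [QuaternionGroup.a_mul_xa]
  · intro i
    rw [QuaternionGroup.orderOf_xa, QuaternionGroup.orderOf_a_one]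
    omega
  · intro i j h
    exact QuaternionGroup.a.inj h
  · intro i j h
    exact QuaternionGroup.xa.inj h

open Cfsg.FusionSystem Cfsg.Agent.Lib.Fusion.Basic Cfsg.Agent.Lib.Fusion.Saturated in
/-- If automorphisms of `S` of odd order are trivial, then `Aut_F(S) = Inn(S)`. -/
theorem autGroup_eq_inn {Ω : Type*} [Group Ω] {S : Subgroup Ω} [Finite S]
    (hS : IsPGroup 2 S) (hodd : ∀ (β : MulAut S) (m : ℕ), Odd m → β ^ m = 1 → β = 1)
    (F : Cfsg.FusionSystem S) (hF : F.IsSaturated 2) : F.autGroup S = Cfsg.Inn S := by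
  classical
  have hfa : Finite (F.autGroup S) := finite_autGroup le_rfl
  refine le_antisymm ?_ (inn_le_autGroup le_rfl)
  -- `Aut_F(S)` is a `2`-group
  have hp : IsPGroup 2 (F.autGroup S) := by
    intro α
    have hpos : 0 < orderOf α := orderOf_pos α
    obtain ⟨k, m, hm, he⟩ := Nat.exists_eq_two_pow_mul_odd hpos.ne'
    refine ⟨k, ?_⟩
    have h1 : ((α : MulAut S) ^ 2 ^ k) ^ m = 1 := by
      rw [← pow_mul, ← he]
      have := pow_orderOf_eq_one α
      exact congrArg Subtype.val this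
    have h2 := hodd _ m hm h1
    exact Subtype.ext h2
  obtain ⟨Q, hQ, hQa, -⟩ := hF S le_rfl
  have hQS : Q = S := by
    have hc := Cfsg.Agent.Lib.Fusion.Basic.IsConj.card_eq hQ
    exact Subgroup.eq_of_le_of_card_ge (Cfsg.Agent.Lib.Fusion.Basic.IsConj.le_right hQ) hc.le
  subst hQS
  have h1 : ¬ 2 ∣ (autInducedBy Q Q).relIndex (F.autGroup Q) :=
    (isFullyAutomized_iff hS le_rfl).1 hQa
  obtain ⟨j, hj⟩ := hp.index ((autInducedBy Q Q).subgroupOf (F.autGroup Q))
  have h2 : (autInducedBy Q Q).relIndex (F.autGroup Q) = 1 := by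
    show ((autInducedBy Q Q).subgroupOf (F.autGroup Q)).index = 1
    rw [hj]
    rcases Nat.eq_zero_or_pos j with rfl | hj0
    · simp
    · exfalso
      apply h1
      show 2 ∣ ((autInducedBy Q Q).subgroupOf (F.autGroup Q)).index
      rw [hj]
      exact dvd_pow_self 2 hj0.ne'
  have h3 : F.autGroup Q ≤ autInducedBy Q Q := Subgroup.relIndex_eq_one.1 h2
  refine h3.trans ?_
  intro α hα
  obtain ⟨g, hg, hgc⟩ := mem_autInducedBy_iff.1 hα
  refine ⟨⟨g, hg⟩, ?_⟩
  ext y
  exact (hgc y).symm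

/-- If S is a dihedral or generalized quaternion 2-group of order at least 16, then in every saturated fusion system over S (at the prime 2) the automorphism group Aut_F(S) consists of the inner automorphisms of S. -/
theorem result {Ω : Type*} [Group Ω] {S : Subgroup Ω} [Finite S] (n : ℕ) (hn : 4 ≤ n) (hshape : Nonempty (S ≃* DihedralGroup (2 ^ (n - 1))) ∨ Nonempty (S ≃* QuaternionGroup (2 ^ (n - 2)))) (F : Cfsg.FusionSystem S) (hF : F.IsSaturated 2) : F.autGroup S = Cfsg.Inn S := by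
  classical
  have hS : IsPGroup 2 S := by
    rcases hshape with ⟨⟨e⟩⟩ | ⟨⟨e⟩⟩
    · have h1 : IsPGroup 2 (DihedralGroup (2 ^ (n - 1))) := by
        haveI : NeZero (2 ^ (n - 1)) := ⟨by positivity⟩
        refine IsPGroup.of_card (n := n) ?_
        rw [DihedralGroup.nat_card, ← pow_succ']
        congr 1
        omega
      exact h1.of_equiv e.symm
    · have h1 : IsPGroup 2 (QuaternionGroup (2 ^ (n - 2))) := by
        haveI : NeZero (2 ^ (n - 2)) := ⟨by positivity⟩
        refine IsPGroup.of_card (n := n) ?_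
        rw [Nat.card_eq_fintype_card, QuaternionGroup.card]
        have h4 : (4 : ℕ) = 2 ^ 2 := by norm_num
        rw [h4, ← pow_add]
        congr 1
        omega
      exact h1.of_equiv e.symm
  refine autGroup_eq_inn hS ?_ F hF
  intro β m hm hβ
  rcases hshape with ⟨⟨e⟩⟩ | ⟨⟨e⟩⟩
  · have h1 := dihedral_fix (K := n - 1) (by omega) (MulAut.congr e β) hm (by
      rw [← map_pow, hβ, map_one])
    exact (MulAut.congr e).injective (h1.trans (map_one _).symm)
  · have h1 := quaternion_fix (K := n - 2) (by omega) (MulAut.congr e β) hm (by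
      rw [← map_pow, hβ, map_one])
    exact (MulAut.congr e).injective (h1.trans (map_one _).symm)

end Cfsg.Agent.S5112
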