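import Cfsg.Statements.S5128
import Mathlib
import Cfsg.Agent.Lib.Fusion.Lift
-- import your own Cfsg.Agent.* helpers here

set_option autoImplicit false
open Cfsg

namespace Cfsg.Agent.S5128

open Cfsg.FusionSystem Cfsg.Agent.Lib.Fusion.Basic Cfsg.Agent.Lib.Fusion.Factor
open Cfsg.Agent.Lib.Fusion.NormalCR Cfsg.Agent.Lib.Fusion.Lift

/-- In a saturated fusion system over a finite p-group S, the product of two strongly closed subgroups is strongly closed. -/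
theorem result {Ω : Type*} [Group Ω] {S : Subgroup Ω} [Finite S] (p : ℕ) [Fact p.Prime] (hS : IsPGroup p S) (F : Cfsg.FusionSystem S) (hF : F.IsSaturated p) (T₁ T₂ : Subgroup Ω) (h₁ : F.StronglyClosed T₁) (h₂ : F.StronglyClosed T₂) : F.StronglyClosed (T₁ ⊔ T₂) := by
  refine ⟨sup_le h₁.1 h₂.1, fun R hR φ hφ x => ?_⟩
  obtain ⟨ψ, hψ, hag⟩ := exists_lift hS hF h₁ hφ
  have h1 := hag x
  have hT₂n : T₁ ≤ Subgroup.normalizer (T₂ : Set Ω) := h₁.1.trans (StronglyClosed.le_normalizer h₂)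
  obtain ⟨a, ha, b, hb, hab⟩ := Cfsg.Agent.Lib.Fusion.GroupSylow.exists_mul_of_mem_sup hT₂n (hR x.2)
  have haR : a ∈ R ⊔ T₁ := Subgroup.mem_sup_right ha
  have hbR : b ∈ R ⊔ T₁ := by
    have e : b = a⁻¹ * x := by rw [hab]; group
    rw [e]
    exact Subgroup.mul_mem _ (Subgroup.inv_mem _ haR) (Subgroup.mem_sup_left x.2)
  have e : Subgroup.inclusion le_sup_left x = (⟨a, haR⟩ : ↥(R ⊔ T₁)) * ⟨b, hbR⟩ := Subtype.ext hab
  rw [e, map_mul] at h1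
  have h2 : ψ ⟨a, haR⟩ ∈ T₁ := map_mem_of_stronglyClosed F h₁ le_sup_right hψ ha
  have hle : T₂ ⊓ (R ⊔ T₁) ≤ R ⊔ T₁ := inf_le_right
  have h3 : ψ ⟨b, hbR⟩ ∈ T₂ :=
    h₂.2 (T₂ ⊓ (R ⊔ T₁)) inf_le_left (ψ.comp (Subgroup.inclusion hle)) (res_mem hψ hle) ⟨b, hb, hbR⟩
  have e2 : φ x = (ψ ⟨a, haR⟩ * ψ ⟨b, hbR⟩) * ((φ x)⁻¹ * (ψ ⟨a, haR⟩ * ψ ⟨b, hbR⟩))⁻¹ := by group
  rw [e2]
  refine Subgroup.mul_mem _ (Subgroup.mul_mem _ (Subgroup.mem_sup_left h2) (Subgroup.mem_sup_right h3)) ?_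
  exact Subgroup.inv_mem _ (Subgroup.mem_sup_left h1)

end Cfsg.Agent.S5128
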