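import Cfsg.Statements.S5130
import Mathlib
import Cfsg.Agent.Lib.Fusion.KNormalizer
import Cfsg.Agent.Lib.Fusion.LocalSystems
import Cfsg.Agent.Lib.Fusion.ModelF
import Cfsg.Agent.Lib.Fusion.NormalCR
import Cfsg.Agent.Lib.Fusion.Joins
import Cfsg.Agent.Lib.Fusion.GroupSylow
import Cfsg.Agent.Lib.Fusion.Saturated
import Cfsg.Agent.Lib.Fusion.Saturated2
-- import your own Cfsg.Agent.* helpers here

set_option autoImplicit false
open Cfsg

namespace Cfsg.Agent.S5130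


open Cfsg.FusionSystem Cfsg.Agent.Lib.Fusion.Basic Cfsg.Agent.Lib.Fusion.Saturated
  Cfsg.Agent.Lib.Fusion.Saturated2 Cfsg.Agent.Lib.Fusion.LocalSystems

section Helpers

variable {Ω : Type*} [Group Ω] {S : Subgroup Ω} [Finite S] {p : ℕ} [hp : Fact p.Prime]
  {F : Cfsg.FusionSystem S} {S₁ S₂ : Subgroup Ω}

/-- `Aut_S(P) = Aut_{S₁}(P)` for `P ≤ S₁`. -/
theorem autInducedBy_factor (hprod : Cfsg.IsInternalDirectProduct S₁ S₂ S) (hcomm : S₁ ≤ Subgroup.normalizer (S₂ : Set Ω))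
    {Q : Subgroup Ω} (hQ : Q ≤ S₁) : autInducedBy S₁ Q = autInducedBy S Q := by
  obtain ⟨h1, h2, hc, -, hsup⟩ := hprod
  apply le_antisymm
  · refine (Subgroup.closure_le _).2 ?_
    rintro α ⟨g, hg, hα⟩
    exact Subgroup.subset_closure ⟨g, h1 hg, hα⟩
  · refine (Subgroup.closure_le _).2 ?_
    rintro α ⟨g, hg, hα⟩
    rw [← hsup] at hg
    obtain ⟨a, ha, b, hb, rfl⟩ := Cfsg.Agent.Lib.Fusion.GroupSylow.exists_mul_of_mem_sup hcomm hg
    refine Subgroup.subset_closure ⟨a, ha, fun x => ?_⟩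
    rw [hα x]
    have hb' : (x : Ω) * b = b * x := hc _ (hQ x.2) _ hb
    calc a * b * (x : Ω) * (a * b)⁻¹ = a * (b * x) * b⁻¹ * a⁻¹ := by group
      _ = a * (x * b) * b⁻¹ * a⁻¹ := by rw [hb']
      _ = a * x * a⁻¹ := by group

/-- The full subsystem on a strongly closed direct factor is saturated. -/
theorem full_factor_saturated (hS : IsPGroup p S) (hF : F.IsSaturated p)
    (hprod : Cfsg.IsInternalDirectProduct S₁ S₂ S) (h₁ : F.StronglyClosed S₁)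
    (R : Cfsg.FusionSystem S₁) (hR : ∀ P : Subgroup Ω, P ≤ S₁ → R.Hom P = F.Hom P) : R.IsSaturated p := by
  classical
  have hS₁S := hprod.1
  have hS₂S := hprod.2.1
  have hcomm : S₁ ≤ Subgroup.normalizer (S₂ : Set Ω) := by
    intro a ha
    refine Subgroup.mem_normalizer_iff.2 fun b => ?_
    have h : a * b * a⁻¹ = b → (b ∈ S₂ ↔ a * b * a⁻¹ ∈ S₂) := fun h => by rw [h]
    by_cases hb : b ∈ S₂
    · rw [h (by rw [(hprod.2.2.1 a ha b hb), mul_inv_cancel_right])]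
    · constructor
      · exact fun h' => absurd h' hb
      · intro h'
        have h3 := hprod.2.2.1 a ha _ h'
        have h4 : b = a⁻¹ * (a * b * a⁻¹) * a := by group
        rw [h4]
        have h5 : a⁻¹ * (a * b * a⁻¹) * a = a * b * a⁻¹ := by
          rw [mul_assoc, inv_mul_eq_iff_eq_mul, ← h3]
        rw [h5]
        exact h'
  intro P hP
  obtain ⟨Q, hQ, hQn⟩ := exists_fullyNormalized (F := F) (hP.trans hS₁S)
  obtain ⟨φ, hφ, hφr⟩ := hQ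
  have hQ1 : Q ≤ S₁ := by
    rw [← hφr]
    rintro _ ⟨x, rfl⟩
    exact h₁.2 P hP φ hφ x
  refine ⟨Q, ⟨φ, by rw [hR P hP]; exact hφ, hφr⟩, ?_, ?_⟩
  · obtain ⟨-, -, T₀, hT₀⟩ := fullyNormalized_props hS hF hQn
    have e1 : R.autGroup Q = F.autGroup Q := by
      show Subgroup.closure _ = Subgroup.closure _
      rw [hR Q hQ1]
    have e2 := autInducedBy_factor hprod hcomm hQ1
    refine ⟨hQ1, ?_⟩
    rw [e1, e2]
    exact ⟨T₀, hT₀⟩
  · refine ⟨hQ1, fun P' ψ hψ hr => ?_⟩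
    have hP' : P' ≤ S₁ := source_le hψ
    have hψF : ψ ∈ F.Hom P' := by rw [← hR P' hP']; exact hψ
    obtain ⟨χ, hχ, hag⟩ := (fullyNormalized_receptive hS hF hQn).2 P' ψ hψF hr
    have hle : extender S₁ P' ψ ≤ extender S P' ψ := by
      refine Subgroup.closure_mono ?_
      rintro g ⟨hg1, hg2, h, hh, hgh⟩
      exact ⟨hS₁S hg1, hg2, h, hS₁S hh, hgh⟩
    have hle1 : extender S₁ P' ψ ≤ S₁ := by
      refine (Subgroup.closure_le _).2 ?_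
      rintro g ⟨hg1, -⟩
      exact hg1
    refine ⟨χ.comp (Subgroup.inclusion hle), ?_, fun x hx hN => hag x hx (hle hN)⟩
    rw [hR _ hle1]
    exact res_mem hχ hle

/-- An automorphism of a strongly closed direct factor extends to `S`. -/
theorem exists_ext_aut (hS : IsPGroup p S) (hF : F.IsSaturated p) {T U : Subgroup Ω} (hTU : T ⊔ U = S)
    (hc : ∀ a ∈ T, ∀ b ∈ U, a * b = b * a) (hT : F.StronglyClosed T)
    {α : T →* Ω} (hα : α ∈ F.Hom T) (hαr : α.range = T) :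
    ∃ θ ∈ F.Hom S, (∀ x : T, θ ⟨x, hT.1 x.2⟩ = α x) ∧ θ.range = S := by
  have hUS : U ≤ S := hTU ▸ le_sup_right
  have hFN : F.IsFullyNormalized T :=
    Cfsg.Agent.Lib.Fusion.ModelF.isFullyNormalized_of_le_normalizer hT.1
      (Cfsg.Agent.Lib.Fusion.NormalCR.StronglyClosed.le_normalizer hT)
  obtain ⟨ψ, hψ, hag⟩ := (fullyNormalized_receptive hS hF hFN).2 T α hα hαr
  have h1 : T ≤ extender S T α := le_extender hT.1 (map_mem_S hα)
  have h2 : U ≤ extender S T α := by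
    intro g hg
    refine extender_closure_mem (hUS hg) ?_ S.one_mem fun x hx => ?_
    · exact (centralizerIn_le_normalizerIn (S := S) (P := T) ⟨hUS hg,
        Subgroup.mem_centralizer_iff.2 fun a ha => hc a ha g hg⟩).2
    · have h3 : (⟨g * (x : Ω) * g⁻¹, hx⟩ : T) = x := by
        apply Subtype.ext
        show g * (x : Ω) * g⁻¹ = x
        rw [← hc x x.2 g hg, mul_inv_cancel_right]
      rw [h3]
      simp
  have hle : S ≤ extender S T α := hTU.symm.le.trans (sup_le h1 h2)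
  have hθ : ψ.comp (Subgroup.inclusion hle) ∈ F.Hom S := res_mem hψ hle
  refine ⟨ψ.comp (Subgroup.inclusion hle), hθ, fun x => ?_, ?_⟩
  · exact hag x x.2 (hle (hT.1 x.2))
  · exact range_eq_of_card hθ (fun x => map_mem_S hθ x) le_rfl

theorem ext_of_fn (hS : IsPGroup p S) (hF : F.IsSaturated p) {P Q U : Subgroup Ω}
    (hQn : F.IsFullyNormalized Q) {φ : P →* Ω} (hφ : φ ∈ F.Hom P) (hr : φ.range = Q) (hU : U ≤ S)
    (hc : ∀ a ∈ P, ∀ b ∈ U, a * b = b * a) :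
    ∃ ψ ∈ F.Hom (P ⊔ U), ∀ x : P, ψ (Subgroup.inclusion le_sup_left x) = φ x := by
  have hPS : P ≤ S := source_le hφ
  obtain ⟨ψ, hψ, hag⟩ := (fullyNormalized_receptive hS hF hQn).2 P φ hφ hr
  have h1 : P ≤ extender S P φ := le_extender hPS (map_mem_S hφ)
  have h2 : U ≤ extender S P φ := by
    intro g hg
    refine extender_closure_mem (hU hg) ?_ S.one_mem fun x hx => ?_
    · exact (centralizerIn_le_normalizerIn (S := S) (P := P) ⟨hU hg,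
        Subgroup.mem_centralizer_iff.2 fun a ha => hc a ha g hg⟩).2
    · have h3 : (⟨g * (x : Ω) * g⁻¹, hx⟩ : P) = x := by
        apply Subtype.ext
        show g * (x : Ω) * g⁻¹ = x
        rw [← hc x x.2 g hg, mul_inv_cancel_right]
      rw [h3]
      simp
  have hle : P ⊔ U ≤ extender S P φ := sup_le h1 h2
  refine ⟨ψ.comp (Subgroup.inclusion hle), res_mem hψ hle, fun x => ?_⟩
  exact hag x x.2 (h1 x.2)

/-- Every map on a subgroup of `S₁` extends to the join with `S₂`. -/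
theorem exists_ext_sup (hS : IsPGroup p S) (hF : F.IsSaturated p)
    (hprod : Cfsg.IsInternalDirectProduct S₁ S₂ S) (h₁ : F.StronglyClosed S₁) (h₂ : F.StronglyClosed S₂)
    {P : Subgroup Ω} (hP : P ≤ S₁) {φ : P →* Ω} (hφ : φ ∈ F.Hom P) :
    ∃ χ ∈ F.Hom (P ⊔ S₂), ∀ x : P, χ (Subgroup.inclusion le_sup_left x) = φ x := by
  classical
  obtain ⟨hS₁S, hS₂S, hc, -, -⟩ := hprod
  haveI : Finite S₂ := finite_of_le hS₂S
  have hQS₁ : φ.range ≤ S₁ := by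
    rintro _ ⟨x, rfl⟩
    exact h₁.2 P hP φ hφ x
  obtain ⟨Q', ⟨ρ, hρ, hρr⟩, hQ'n⟩ := exists_fullyNormalized (F := F) (hQS₁.trans hS₁S)
  have hθ : ρ.comp φ.rangeRestrict ∈ F.Hom P := comp_mem' hφ hρ (fun x => ⟨x, rfl⟩) (fun _ => rfl)
  have hθr : (ρ.comp φ.rangeRestrict).range = Q' := by
    rw [MonoidHom.range_comp, MonoidHom.range_eq_top.2 φ.rangeRestrict_surjective,
      ← MonoidHom.range_eq_map]
    exact hρr
  obtain ⟨ψ₁, hψ₁, hag₁⟩ := ext_of_fn hS hF hQ'n hθ hθr hS₂S (fun a ha b hb => hc a (hP ha) b hb)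
  obtain ⟨ψ₂, hψ₂, hag₂⟩ := ext_of_fn hS hF hQ'n hρ hρr hS₂S (fun a ha b hb => hc a (hQS₁ ha) b hb)
  -- `ψ₂` maps `S₂` onto `S₂`
  have hβ : ψ₂.comp (Subgroup.inclusion (le_sup_right : S₂ ≤ φ.range ⊔ S₂)) ∈ F.Hom S₂ := res_mem hψ₂ _
  have hβv : ∀ y : S₂, ψ₂.comp (Subgroup.inclusion (le_sup_right : S₂ ≤ φ.range ⊔ S₂)) y ∈ S₂ :=
    fun y => h₂.2 S₂ le_rfl _ hβ y
  have hβr := range_eq_of_card hβ hβv le_rfl
  have hval : ∀ x : ↥(P ⊔ S₂), ψ₁ x ∈ ψ₂.range := by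
    refine map_mem_sup_of_ext ψ₁ (fun x => ?_) (fun y => ?_)
    · rw [hag₁ x]
      exact ⟨Subgroup.inclusion le_sup_left ⟨φ x, ⟨x, rfl⟩⟩, hag₂ _⟩
    · have h3 : ψ₁ (Subgroup.inclusion le_sup_right y) ∈ S₂ :=
        h₂.2 S₂ le_rfl _ (res_mem hψ₁ (le_sup_right : S₂ ≤ P ⊔ S₂)) y
      have h3' : ψ₁ (Subgroup.inclusion le_sup_right y) ∈
          (ψ₂.comp (Subgroup.inclusion (le_sup_right : S₂ ≤ φ.range ⊔ S₂))).range := by
        rw [hβr]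
        exact h3
      obtain ⟨z, hz⟩ := h3'
      exact ⟨_, hz⟩
  obtain ⟨ι, hι, -, hι1, -⟩ := exists_inv hψ₂ rfl
  refine ⟨ι.comp (ψ₁.codRestrict ψ₂.range hval), comp_mem' hψ₁ hι hval (fun _ => rfl), fun x => ?_⟩
  have h3 : (⟨ψ₁ (Subgroup.inclusion le_sup_left x), hval _⟩ : ψ₂.range) =
      ⟨ψ₂ (Subgroup.inclusion le_sup_left ⟨φ x, ⟨x, rfl⟩⟩), ⟨_, rfl⟩⟩ := by
    apply Subtype.ext
    show ψ₁ _ = ψ₂ _
    rw [hag₁ x, hag₂]
    rfl
  show ι (⟨ψ₁ (Subgroup.inclusion le_sup_left x), hval _⟩ : ψ₂.range) = φ x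
  rw [h3]
  exact hι1 _ _

/-- Decomposition of a map on a subgroup of `S₁`. -/
theorem frattini_decomp (hS : IsPGroup p S) (hF : F.IsSaturated p)
    (hprod : Cfsg.IsInternalDirectProduct S₁ S₂ S) (h₁ : F.StronglyClosed S₁) (h₂ : F.StronglyClosed S₂)
    {P : Subgroup Ω} (hP : P ≤ S₁) {φ : P →* Ω} (hφ : φ ∈ F.Hom P) :
    ∃ θ ∈ F.Hom S, θ.range = S ∧ ∃ χ₀ ∈ F.Hom (P ⊔ S₂),
      (∀ y : S₂, χ₀ (Subgroup.inclusion le_sup_right y) = y) ∧
      ∀ (x : P) (hs : χ₀ (Subgroup.inclusion le_sup_left x) ∈ S), φ x = θ ⟨_, hs⟩ := by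
  classical
  haveI : Finite S₂ := finite_of_le hprod.2.1
  obtain ⟨χ, hχ, hag⟩ := exists_ext_sup hS hF hprod h₁ h₂ hP hφ
  have hsup : S₂ ⊔ S₁ = S := by rw [sup_comm]; exact hprod.2.2.2.2
  have hβ : χ.comp (Subgroup.inclusion (le_sup_right : S₂ ≤ P ⊔ S₂)) ∈ F.Hom S₂ := res_mem hχ _
  have hβv : ∀ y : S₂, χ.comp (Subgroup.inclusion (le_sup_right : S₂ ≤ P ⊔ S₂)) y ∈ S₂ :=
    fun y => h₂.2 S₂ le_rfl _ hβ y
  have hβr := range_eq_of_card hβ hβv le_rfl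
  obtain ⟨θ, hθ, hθβ, hθr⟩ := exists_ext_aut hS hF hsup
    (fun a ha b hb => (hprod.2.2.1 b hb a ha).symm) h₂ hβ hβr
  obtain ⟨ι, hι, -, hι1, hι2⟩ := exists_inv hθ hθr
  refine ⟨θ, hθ, hθr, ι.comp (χ.codRestrict S (map_mem_S hχ)),
    comp_mem' hχ hι (map_mem_S hχ) (fun _ => rfl), fun y => ?_, fun x hs => ?_⟩
  · have h3 : (⟨χ (Subgroup.inclusion le_sup_right y), map_mem_S hχ _⟩ : S) =
        ⟨θ ⟨y, h₂.1 y.2⟩, map_mem_S hθ _⟩ := by
      apply Subtype.ext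
      show χ _ = θ _
      rw [hθβ y]
      rfl
    show ι (⟨χ (Subgroup.inclusion le_sup_right y), map_mem_S hχ _⟩ : S) = y
    rw [h3]
    exact hι1 _ _
  · have h4 := hι2 ⟨χ (Subgroup.inclusion le_sup_left x), map_mem_S hχ _⟩ hs
    rw [← hag x]
    exact h4.symm

theorem le_centralizerIn (hprod : Cfsg.IsInternalDirectProduct S₁ S₂ S) : S₁ ≤ centralizerIn S S₂ := by
  intro a ha
  refine ⟨hprod.1 ha, Subgroup.mem_centralizer_iff.2 fun b hb => ?_⟩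
  exact (hprod.2.2.1 a ha b hb).symm

theorem normalizer_factor (hprod : Cfsg.IsInternalDirectProduct S₁ S₂ S) :
    S₁ ≤ Subgroup.normalizer (S₂ : Set Ω) := by
  intro a ha
  exact (centralizerIn_le_normalizerIn (le_centralizerIn hprod ha)).2

/-- The subsystem of the maps centralizing `S₂` is saturated. -/
theorem centr_saturated (hS : IsPGroup p S) (hF : F.IsSaturated p)
    (hprod : Cfsg.IsInternalDirectProduct S₁ S₂ S) (h₁ : F.StronglyClosed S₁) (h₂ : F.StronglyClosed S₂)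
    (R' : Cfsg.FusionSystem S₁) (hR' : ∀ P : Subgroup Ω, P ≤ S₁ → R'.Hom P = F.centralizerHom S₂ P) :
    R'.IsSaturated p := by
  classical
  obtain ⟨hS₁S, hS₂S, hc, hinf, hsup⟩ := id hprod
  haveI : Finite S₂ := finite_of_le hS₂S
  have hFC : F.IsFullyCentralized S₂ := by
    refine ⟨hS₂S, fun Q ⟨φ, hφ, hr⟩ => ?_⟩
    have hQ : Q = S₂ := by
      rw [← hr]
      refine range_eq_of_card hφ (fun y => h₂.2 S₂ le_rfl φ hφ y) le_rfl
    rw [hQ]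
  let C : Subgroup Ω := centralizerIn S S₂
  let F' : Cfsg.FusionSystem C := centralizerSystem F S₂ hS₂S
  have hCS : C ≤ S := inf_le_left
  haveI : Finite C := finite_of_le hCS
  have hF'C : F.IsCentralizerSystem S₂ F' := centralizerSystem_isCentralizerSystem F S₂ hS₂S
  have hF' : F'.IsSaturated p := Cfsg.Agent.Lib.Fusion.KNormalizer.isSaturated_centralizerSystem hS hF hFC hF'C
  have hCp : IsPGroup p C := isPGroup_of_le hS hCS
  have hS₁C : S₁ ≤ C := le_centralizerIn hprod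
  have hprod' : Cfsg.IsInternalDirectProduct S₁ (S₂ ⊓ C) C := by
    refine ⟨hS₁C, inf_le_right, fun a ha b hb => hc a ha b hb.1, ?_, ?_⟩
    · rw [eq_bot_iff, ← hinf]
      exact inf_le_inf_left _ inf_le_left
    · apply le_antisymm (sup_le hS₁C inf_le_right)
      intro c hc'
      have hcS : c ∈ S₁ ⊔ S₂ := by rw [hsup]; exact hc'.1
      obtain ⟨a, ha, b, hb, rfl⟩ := Cfsg.Agent.Lib.Fusion.GroupSylow.exists_mul_of_mem_sup
        (normalizer_factor hprod) hcS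
      refine Subgroup.mul_mem_sup ha ⟨hb, hS₂S hb, Subgroup.mem_centralizer_iff.2 fun y hy => ?_⟩
      have h3 := Subgroup.mem_centralizer_iff.1 hc'.2 y hy
      have h4 := hc a ha y hy
      have h5 : y * a * b = a * y * b := by rw [h4.symm]
      have h6 : y * (a * b) = a * b * y := h3
      calc y * b = a⁻¹ * (a * y * b) := by group
        _ = a⁻¹ * (y * a * b) := by rw [h5]
        _ = a⁻¹ * (y * (a * b)) := by group
        _ = a⁻¹ * (a * b * y) := by rw [h6]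
        _ = b * y := by group
  have hsc : F'.StronglyClosed S₁ := by
    refine ⟨hS₁C, fun R₀ hR₀ φ hφ x => ?_⟩
    rw [hF'C R₀] at hφ
    exact h₁.2 R₀ hR₀ φ hφ.1 x
  exact full_factor_saturated hCp hF' hprod' hsc R' (fun P hP => by rw [hR' P hP, hF'C P])

/-- The Frattini condition. -/
theorem frattini_step (hS : IsPGroup p S) (hF : F.IsSaturated p)
    (hprod : Cfsg.IsInternalDirectProduct S₁ S₂ S) (h₁ : F.StronglyClosed S₁) (h₂ : F.StronglyClosed S₂)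
    (R' : Cfsg.FusionSystem S₁) (hR' : ∀ P : Subgroup Ω, P ≤ S₁ → R'.Hom P = F.centralizerHom S₂ P)
    {P : Subgroup Ω} (hP : P ≤ S₁) {φ : P →* Ω} (hφ : φ ∈ F.Hom P) :
    ∃ α ∈ F.autGroup S₁, ∃ φ₀ ∈ R'.Hom P, ∀ (x : P) (hx : φ₀ x ∈ S₁), φ x = ((α ⟨φ₀ x, hx⟩ : S₁) : Ω) := by
  classical
  haveI : Finite S₁ := finite_of_le hprod.1
  obtain ⟨θ, hθ, hθr, χ₀, hχ₀, hfix, hdec⟩ := frattini_decomp hS hF hprod h₁ h₂ hP hφ
  have ha : θ.comp (Subgroup.inclusion hprod.1) ∈ F.Hom S₁ := res_mem hθ hprod.1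
  have hav : ∀ x, θ.comp (Subgroup.inclusion hprod.1) x ∈ S₁ := fun x => h₁.2 S₁ le_rfl _ ha x
  have hφ₀ : χ₀.comp (Subgroup.inclusion (le_sup_left : P ≤ P ⊔ S₂)) ∈ F.Hom P := res_mem hχ₀ le_sup_left
  refine ⟨autOfHom _ (F.injective_of_mem ha) hav, autOfHom_mem ha hav,
    χ₀.comp (Subgroup.inclusion (le_sup_left : P ≤ P ⊔ S₂)), ?_, fun x hx => ?_⟩
  · rw [hR' P hP]
    refine ⟨hφ₀, hP.trans (le_centralizerIn hprod), fun x => le_centralizerIn hprod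
      (h₁.2 P hP _ hφ₀ x), χ₀, hχ₀, fun _ => rfl, hfix⟩
  · exact hdec x (hprod.1 hx)

/-- The invariance condition. -/
theorem invariance_step (hS : IsPGroup p S) (hF : F.IsSaturated p)
    (hprod : Cfsg.IsInternalDirectProduct S₁ S₂ S) (h₁ : F.StronglyClosed S₁) (h₂ : F.StronglyClosed S₂)
    (R' : Cfsg.FusionSystem S₁) (hR' : ∀ P : Subgroup Ω, P ≤ S₁ → R'.Hom P = F.centralizerHom S₂ P)
    {P : Subgroup Ω} (hPT : P ≤ S₁) {φ : P →* Ω} (hφ : φ ∈ R'.Hom P) {α : MulAut S₁}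
    (hα : α ∈ F.autGroup S₁) :
    ∃ χ ∈ R'.Hom ((P.subgroupOf S₁).map (S₁.subtype.comp α.toMonoidHom)),
      ∀ (x : P) (hφx : φ x ∈ S₁)
        (hαx : ((α ⟨x, hPT x.2⟩ : S₁) : Ω) ∈ (P.subgroupOf S₁).map (S₁.subtype.comp α.toMonoidHom)),
        χ ⟨(α ⟨x, hPT x.2⟩ : S₁), hαx⟩ = ((α ⟨φ x, hφx⟩ : S₁) : Ω) := by
  classical
  obtain ⟨hS₁S, hS₂S, hc, hinf, hsup⟩ := id hprod
  haveI : Finite S₁ := finite_of_le hS₁S
  haveI : Finite S₂ := finite_of_le hS₂S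
  have ha : S₁.subtype.comp α.toMonoidHom ∈ F.Hom S₁ := autGroup_mem_hom hS₁S hα
  have har : (S₁.subtype.comp α.toMonoidHom).range = S₁ := by
    ext y
    constructor
    · rintro ⟨x, rfl⟩
      exact (α x).2
    · intro hy
      exact ⟨α.symm ⟨y, hy⟩, by simp⟩
  obtain ⟨θ, hθ, hθα, hθr⟩ := exists_ext_aut hS hF hsup hc h₁ ha har
  obtain ⟨ι, hι, -, hι1, hι2⟩ := exists_inv hθ hθr
  have hφ' := hφ
  rw [hR' P hPT] at hφ'
  obtain ⟨hφF, -, -, φh, hφh, hφh1, hφh2⟩ := hφ'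
  set P' := (P.subgroupOf S₁).map (S₁.subtype.comp α.toMonoidHom) with hP'
  have hP'S₁ : P' ≤ S₁ := by
    rintro _ ⟨x, -, rfl⟩
    exact (α x).2
  have hle : P' ⊔ S₂ ≤ S := sup_le (hP'S₁.trans hS₁S) hS₂S
  have hι' : ι.comp (Subgroup.inclusion hle) ∈ F.Hom (P' ⊔ S₂) := res_mem hι hle
  have hιθ : ∀ x : S₁, ι ⟨((α x : S₁) : Ω), hS₁S (α x).2⟩ = x := by
    intro x
    have h3 : (⟨((α x : S₁) : Ω), hS₁S (α x).2⟩ : S) = ⟨θ ⟨x, hS₁S x.2⟩, map_mem_S hθ _⟩ := by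
      apply Subtype.ext
      exact (hθα x).symm
    rw [h3]
    exact hι1 _ _
  have hιv : ∀ w : ↥(P' ⊔ S₂), ι.comp (Subgroup.inclusion hle) w ∈ P ⊔ S₂ := by
    refine map_mem_sup_of_ext _ (fun x => ?_) (fun y => ?_)
    · obtain ⟨x₀, hx₀, hx₀e⟩ := x.2
      have h3 : Subgroup.inclusion hle (Subgroup.inclusion le_sup_left x) =
          (⟨((α x₀ : S₁) : Ω), hS₁S (α x₀).2⟩ : S) := by
        apply Subtype.ext
        exact hx₀e.symm
      show ι (Subgroup.inclusion hle (Subgroup.inclusion le_sup_left x)) ∈ _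
      rw [h3, hιθ x₀]
      exact (le_sup_left : P ≤ P ⊔ S₂) hx₀
    · have h3 := h₂.2 S₂ le_rfl _ (res_mem hι' (le_sup_right : S₂ ≤ P' ⊔ S₂)) y
      exact (le_sup_right : S₂ ≤ P ⊔ S₂) h3
  let ψ₀ : ↥(P' ⊔ S₂) →* Ω := φh.comp ((ι.comp (Subgroup.inclusion hle)).codRestrict (P ⊔ S₂) hιv)
  have hψ₀ : ψ₀ ∈ F.Hom (P' ⊔ S₂) := comp_mem' hι' hφh hιv (fun _ => rfl)
  let ψ : ↥(P' ⊔ S₂) →* Ω := θ.comp (ψ₀.codRestrict S (map_mem_S hψ₀))
  have hψ : ψ ∈ F.Hom (P' ⊔ S₂) := comp_mem' hψ₀ hθ (map_mem_S hψ₀) (fun _ => rfl)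
  have hχ : ψ.comp (Subgroup.inclusion (le_sup_left : P' ≤ P' ⊔ S₂)) ∈ F.Hom P' := res_mem hψ le_sup_left
  refine ⟨ψ.comp (Subgroup.inclusion (le_sup_left : P' ≤ P' ⊔ S₂)), ?_, fun x hφx hαx => ?_⟩
  · rw [hR' P' hP'S₁]
    refine ⟨hχ, hP'S₁.trans (le_centralizerIn hprod), fun x => le_centralizerIn hprod
      (h₁.2 P' hP'S₁ _ hχ x), ψ, hψ, fun _ => rfl, fun y => ?_⟩
    -- `ψ` fixes `S₂`
    have hy' : ι.comp (Subgroup.inclusion hle) (Subgroup.inclusion le_sup_right y) ∈ S₂ :=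
      h₂.2 S₂ le_rfl _ (res_mem hι' (le_sup_right : S₂ ≤ P' ⊔ S₂)) y
    have h3 : ψ₀ (Subgroup.inclusion le_sup_right y) =
        ι.comp (Subgroup.inclusion hle) (Subgroup.inclusion le_sup_right y) := by
      have h4 := hφh2 ⟨_, hy'⟩
      have h5 : (Subgroup.inclusion (le_sup_right : S₂ ≤ P ⊔ S₂) (⟨_, hy'⟩ : S₂)) =
          (ι.comp (Subgroup.inclusion hle)).codRestrict (P ⊔ S₂) hιv (Subgroup.inclusion le_sup_right y) :=
        Subtype.ext rfl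
      rw [h5] at h4
      exact h4
    have h6 : ψ₀.codRestrict S (map_mem_S hψ₀) (Subgroup.inclusion le_sup_right y) =
        ⟨ι (Subgroup.inclusion hle (Subgroup.inclusion le_sup_right y)), map_mem_S hι _⟩ := by
      apply Subtype.ext
      exact h3
    show θ (ψ₀.codRestrict S (map_mem_S hψ₀) (Subgroup.inclusion le_sup_right y)) = y
    rw [h6]
    exact hι2 _ _
  · -- the value
    have h1 : Subgroup.inclusion hle (Subgroup.inclusion le_sup_left (⟨((α ⟨x, hPT x.2⟩ : S₁) : Ω), hαx⟩ : P')) =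
        (⟨((α ⟨x, hPT x.2⟩ : S₁) : Ω), hS₁S (α _).2⟩ : S) := rfl
    have h2 : ι (Subgroup.inclusion hle (Subgroup.inclusion le_sup_left (⟨((α ⟨x, hPT x.2⟩ : S₁) : Ω), hαx⟩ : P'))) = x := by
      rw [h1, hιθ]
    have h5 : (ι.comp (Subgroup.inclusion hle)).codRestrict (P ⊔ S₂) hιv
        (Subgroup.inclusion le_sup_left (⟨((α ⟨x, hPT x.2⟩ : S₁) : Ω), hαx⟩ : P')) =
        Subgroup.inclusion (le_sup_left : P ≤ P ⊔ S₂) x := Subtype.ext h2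
    have h3 : ψ₀ (Subgroup.inclusion le_sup_left (⟨((α ⟨x, hPT x.2⟩ : S₁) : Ω), hαx⟩ : P')) = φ x := by
      show φh _ = φ x
      rw [h5]
      exact hφh1 x
    have h6 : ψ₀.codRestrict S (map_mem_S hψ₀)
        (Subgroup.inclusion le_sup_left (⟨((α ⟨x, hPT x.2⟩ : S₁) : Ω), hαx⟩ : P')) =
        ⟨φ x, hS₁S hφx⟩ := Subtype.ext h3
    show θ (ψ₀.codRestrict S (map_mem_S hψ₀) (Subgroup.inclusion le_sup_left _)) = _
    rw [h6]
    exact hθα ⟨φ x, hφx⟩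

/-- An automorphism fixes the centre. -/
theorem aut_center_mem {α : MulAut S₁} {a : S₁} (ha : ∀ s : S₁, s * a = a * s) :
    ((a : Ω)⁻¹ * ((α a : S₁) : Ω)) ∈ S₁ ⊓ Subgroup.centralizer (S₁ : Set Ω) := by
  refine ⟨S₁.mul_mem (S₁.inv_mem a.2) (α a).2, Subgroup.mem_centralizer_iff.2 fun s hs => ?_⟩
  have h1 : ((⟨s, hs⟩ : S₁)) * (α a) = (α a) * ⟨s, hs⟩ := by
    have h2 := ha (α.symm ⟨s, hs⟩)
    have h3 := congrArg α h2
    rw [map_mul, map_mul, MulEquiv.apply_symm_apply] at h3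
    exact h3
  have h4 : s * ((α a : S₁) : Ω) = ((α a : S₁) : Ω) * s := congrArg (fun t : S₁ => (t : Ω)) h1
  have h5 : s * (a : Ω) = a * s := congrArg (fun t : S₁ => (t : Ω)) (ha ⟨s, hs⟩)
  calc s * ((a : Ω)⁻¹ * ((α a : S₁) : Ω)) = (a : Ω)⁻¹ * (a * s * (a : Ω)⁻¹) * ((α a : S₁) : Ω) := by group
    _ = (a : Ω)⁻¹ * (s * a * (a : Ω)⁻¹) * ((α a : S₁) : Ω) := by rw [h5]
    _ = (a : Ω)⁻¹ * (s * ((α a : S₁) : Ω)) := by group
    _ = (a : Ω)⁻¹ * (((α a : S₁) : Ω) * s) := by rw [h4]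
    _ = _ := by group

/-- The extension condition in `F`. -/
theorem ext_step_F (hprod : Cfsg.IsInternalDirectProduct S₁ S₂ S)
    (R' : Cfsg.FusionSystem S₁) (hR' : ∀ P : Subgroup Ω, P ≤ S₁ → R'.Hom P = F.centralizerHom S₂ P)
    {α : MulAut S₁} (hα : α ∈ R'.autGroup S₁) :
    ∃ β ∈ F.autGroup (S₁ ⊔ centralizerIn S S₁),
      (∀ x : S₁, ((β (Subgroup.inclusion le_sup_left x) : ↥(S₁ ⊔ centralizerIn S S₁)) : Ω) = ((α x : S₁) : Ω)) ∧
      ∀ c : ↥(S₁ ⊔ centralizerIn S S₁), (c : Ω) ∈ centralizerIn S S₁ →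
        (c : Ω)⁻¹ * ((β c : ↥(S₁ ⊔ centralizerIn S S₁)) : Ω) ∈ S₁ ⊓ Subgroup.centralizer (S₁ : Set Ω) := by
  classical
  obtain ⟨hS₁S, hS₂S, hc, hinf, hsup⟩ := id hprod
  have ha : S₁.subtype.comp α.toMonoidHom ∈ R'.Hom S₁ := autGroup_mem_hom le_rfl hα
  rw [hR' S₁ le_rfl] at ha
  obtain ⟨-, -, -, ψ, hψ, hψ1, hψ2⟩ := ha
  have hS₂C : S₂ ≤ centralizerIn S S₁ := fun b hb =>
    ⟨hS₂S hb, Subgroup.mem_centralizer_iff.2 fun a ha => hc a ha b hb⟩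
  have hCS : centralizerIn S S₁ ≤ S := inf_le_left
  have heq : S₁ ⊔ S₂ = S₁ ⊔ centralizerIn S S₁ :=
    le_antisymm (sup_le le_sup_left (hS₂C.trans le_sup_right))
      (sup_le le_sup_left (hCS.trans hsup.ge))
  obtain ⟨ψ', hψ', hag⟩ := Cfsg.Agent.Lib.Fusion.Joins.exists_hom_of_eq F heq ψ hψ
  have hWS : S₁ ⊔ centralizerIn S S₁ ≤ S := sup_le hS₁S hCS
  haveI : Finite ↥(S₁ ⊔ centralizerIn S S₁) := finite_of_le hWS
  have hSW : S ≤ S₁ ⊔ centralizerIn S S₁ := hsup.ge.trans heq.le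
  have hv : ∀ w, ψ' w ∈ S₁ ⊔ centralizerIn S S₁ := fun w => hSW (map_mem_S hψ' w)
  refine ⟨autOfHom ψ' (F.injective_of_mem hψ') hv, autOfHom_mem hψ' hv, fun x => ?_, fun c hcC => ?_⟩
  · show ψ' _ = _
    have h1 := hag x ((le_sup_left : S₁ ≤ S₁ ⊔ S₂) x.2) ((le_sup_left : S₁ ≤ S₁ ⊔ centralizerIn S S₁) x.2)
    have h2 := hψ1 x
    exact h1.trans h2
  · have hcS : (c : Ω) ∈ S₁ ⊔ S₂ := by rw [hsup]; exact hWS c.2
    obtain ⟨a, ha, b, hb, hab⟩ := Cfsg.Agent.Lib.Fusion.GroupSylow.exists_mul_of_mem_sup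
      (normalizer_factor hprod) hcS
    have h1 : ψ' c = ψ ⟨c, hcS⟩ := hag c hcS c.2
    have h2 : (⟨c, hcS⟩ : ↥(S₁ ⊔ S₂)) = Subgroup.inclusion le_sup_left (⟨a, ha⟩ : S₁) *
        Subgroup.inclusion le_sup_right (⟨b, hb⟩ : S₂) := Subtype.ext hab
    have h3 : ψ ⟨c, hcS⟩ = ((α ⟨a, ha⟩ : S₁) : Ω) * b := by
      rw [h2, map_mul, hψ1, hψ2]
      rfl
    have hbcomm : ∀ s ∈ S₁, s * b = b * s := fun s hs => hc s hs b hb
    have hacen : ∀ s : S₁, s * (⟨a, ha⟩ : S₁) = (⟨a, ha⟩ : S₁) * s := by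
      intro s
      apply Subtype.ext
      show (s : Ω) * a = a * s
      have h4 := Subgroup.mem_centralizer_iff.1 hcC.2 s s.2
      rw [hab] at h4
      have h5 := hbcomm s s.2
      have h6 : (s : Ω) * a * b = a * s * b := by
        calc (s : Ω) * a * b = s * (a * b) := by group
          _ = a * b * s := h4
          _ = a * (b * s) := by group
          _ = a * (s * b) := by rw [h5]
          _ = _ := by group
      exact mul_right_cancel h6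
    have h7 := aut_center_mem (α := α) hacen
    have h8 : (c : Ω)⁻¹ * ψ' c = (a : Ω)⁻¹ * ((α ⟨a, ha⟩ : S₁) : Ω) := by
      rw [h1, h3, hab]
      have h9 := hbcomm _ (α ⟨a, ha⟩ : S₁).2
      calc (a * b)⁻¹ * (((α ⟨a, ha⟩ : S₁) : Ω) * b) = b⁻¹ * a⁻¹ * (((α ⟨a, ha⟩ : S₁) : Ω) * b) := by group
        _ = b⁻¹ * a⁻¹ * (b * ((α ⟨a, ha⟩ : S₁) : Ω)) := by rw [h9]
        _ = b⁻¹ * (a⁻¹ * b) * ((α ⟨a, ha⟩ : S₁) : Ω) := by group
        _ = b⁻¹ * (b * a⁻¹) * ((α ⟨a, ha⟩ : S₁) : Ω) := by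
          have h10 := hbcomm _ (S₁.inv_mem ha)
          rw [h10]
        _ = _ := by group
    show (c : Ω)⁻¹ * ψ' c ∈ _
    rw [h8]
    exact h7

/-- The extension condition in `R`. -/
theorem ext_step_R [Finite S₁] (R : Cfsg.FusionSystem S₁)
    {α : MulAut S₁} (hα : α ∈ R.autGroup S₁) :
    ∃ β ∈ R.autGroup (S₁ ⊔ centralizerIn S₁ S₁),
      (∀ x : S₁, ((β (Subgroup.inclusion le_sup_left x) : ↥(S₁ ⊔ centralizerIn S₁ S₁)) : Ω) = ((α x : S₁) : Ω)) ∧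
      ∀ c : ↥(S₁ ⊔ centralizerIn S₁ S₁), (c : Ω) ∈ centralizerIn S₁ S₁ →
        (c : Ω)⁻¹ * ((β c : ↥(S₁ ⊔ centralizerIn S₁ S₁)) : Ω) ∈ S₁ ⊓ Subgroup.centralizer (S₁ : Set Ω) := by
  classical
  have ha : S₁.subtype.comp α.toMonoidHom ∈ R.Hom S₁ := autGroup_mem_hom le_rfl hα
  have hle : centralizerIn S₁ S₁ ≤ S₁ := inf_le_left
  have heq : S₁ = S₁ ⊔ centralizerIn S₁ S₁ := (sup_eq_left.2 hle).symm
  obtain ⟨ψ', hψ', hag⟩ := Cfsg.Agent.Lib.Fusion.Joins.exists_hom_of_eq R heq _ ha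
  have hWS : S₁ ⊔ centralizerIn S₁ S₁ ≤ S₁ := heq.ge
  haveI : Finite ↥(S₁ ⊔ centralizerIn S₁ S₁) := finite_of_le hWS
  have hv : ∀ w, ψ' w ∈ S₁ ⊔ centralizerIn S₁ S₁ := fun w => heq.le (map_mem_S hψ' w)
  refine ⟨autOfHom ψ' (R.injective_of_mem hψ') hv, autOfHom_mem hψ' hv, fun x => ?_, fun c hcC => ?_⟩
  · show ψ' _ = _
    exact hag x x.2 ((le_sup_left : S₁ ≤ S₁ ⊔ centralizerIn S₁ S₁) x.2)
  · have hacen : ∀ s : S₁, s * (⟨c, hcC.1⟩ : S₁) = (⟨c, hcC.1⟩ : S₁) * s := by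
      intro s
      apply Subtype.ext
      exact Subgroup.mem_centralizer_iff.1 hcC.2 s s.2
    have h7 := aut_center_mem (α := α) hacen
    have h1 : ψ' c = ((α ⟨c, hcC.1⟩ : S₁) : Ω) := hag c hcC.1 c.2
    show (c : Ω)⁻¹ * ψ' c ∈ _
    rw [h1]
    exact h7

theorem autGroup_eq (R : Cfsg.FusionSystem S₁) (hS₁S : S₁ ≤ S)
    (hR : ∀ P : Subgroup Ω, P ≤ S₁ → R.Hom P = F.Hom P) : R.autGroup S₁ = F.autGroup S₁ := by
  show Subgroup.closure _ = Subgroup.closure _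
  rw [hR S₁ le_rfl]

/-- Conjugation of maps inside the full subsystem. -/
theorem invariance_full (hS₁S : S₁ ≤ S) (R : Cfsg.FusionSystem S₁)
    (hR : ∀ P : Subgroup Ω, P ≤ S₁ → R.Hom P = F.Hom P)
    {P : Subgroup Ω} (hPT : P ≤ S₁) {φ : P →* Ω} (hφ : φ ∈ R.Hom P) {α : MulAut S₁}
    (hα : α ∈ F.autGroup S₁) :
    ∃ χ ∈ R.Hom ((P.subgroupOf S₁).map (S₁.subtype.comp α.toMonoidHom)),
      ∀ (x : P) (hφx : φ x ∈ S₁)
        (hαx : ((α ⟨x, hPT x.2⟩ : S₁) : Ω) ∈ (P.subgroupOf S₁).map (S₁.subtype.comp α.toMonoidHom)),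
        χ ⟨(α ⟨x, hPT x.2⟩ : S₁), hαx⟩ = ((α ⟨φ x, hφx⟩ : S₁) : Ω) := by
  classical
  have hφF : φ ∈ F.Hom P := by rw [← hR P hPT]; exact hφ
  have hvφ : ∀ x : P, φ x ∈ S₁ := fun x => map_mem_S hφ x
  have ha : S₁.subtype.comp α.toMonoidHom ∈ F.Hom S₁ := autGroup_mem_hom hS₁S hα
  have hb : S₁.subtype.comp α.symm.toMonoidHom ∈ F.Hom S₁ := by
    have h1 : α⁻¹ ∈ F.autGroup S₁ := inv_mem hα
    exact autGroup_mem_hom hS₁S h1
  set P' := (P.subgroupOf S₁).map (S₁.subtype.comp α.toMonoidHom) with hP'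
  have hP'S₁ : P' ≤ S₁ := by
    rintro _ ⟨x, -, rfl⟩
    exact (α x).2
  have hb' : (S₁.subtype.comp α.symm.toMonoidHom).comp (Subgroup.inclusion hP'S₁) ∈ F.Hom P' :=
    res_mem hb hP'S₁
  have hbv : ∀ y : P', (S₁.subtype.comp α.symm.toMonoidHom).comp (Subgroup.inclusion hP'S₁) y ∈ P := by
    rintro ⟨_, x, hx, rfl⟩
    have h1 : (S₁.subtype.comp α.symm.toMonoidHom).comp (Subgroup.inclusion hP'S₁)
        ⟨(S₁.subtype.comp α.toMonoidHom) x, ⟨x, hx, rfl⟩⟩ = (x : Ω) := by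
      have h2 : Subgroup.inclusion hP'S₁ ⟨(S₁.subtype.comp α.toMonoidHom) x, ⟨x, hx, rfl⟩⟩ = α x := rfl
      show ((α.symm (Subgroup.inclusion hP'S₁ ⟨(S₁.subtype.comp α.toMonoidHom) x, ⟨x, hx, rfl⟩⟩) : S₁) : Ω) = _
      rw [h2, MulEquiv.symm_apply_apply]
    rw [h1]
    exact hx
  let χ₀ : P' →* Ω := φ.comp (((S₁.subtype.comp α.symm.toMonoidHom).comp (Subgroup.inclusion hP'S₁)).codRestrict P hbv)
  have hχ₀ : χ₀ ∈ F.Hom P' := comp_mem' hb' hφF hbv (fun _ => rfl)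
  have hχ₀v : ∀ y : P', χ₀ y ∈ S₁ := fun y => hvφ _
  let χ : P' →* Ω := (S₁.subtype.comp α.toMonoidHom).comp (χ₀.codRestrict S₁ hχ₀v)
  have hχ : χ ∈ F.Hom P' := comp_mem' hχ₀ ha hχ₀v (fun _ => rfl)
  refine ⟨χ, by rw [hR P' hP'S₁]; exact hχ, fun x hφx hαx => ?_⟩
  have h3 : ((S₁.subtype.comp α.symm.toMonoidHom).comp (Subgroup.inclusion hP'S₁)).codRestrict P hbv
      ⟨((α ⟨x, hPT x.2⟩ : S₁) : Ω), hαx⟩ = x := by
    apply Subtype.ext
    show ((α.symm (Subgroup.inclusion hP'S₁ ⟨((α ⟨x, hPT x.2⟩ : S₁) : Ω), hαx⟩) : S₁) : Ω) = x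
    have h2 : Subgroup.inclusion hP'S₁ ⟨((α ⟨x, hPT x.2⟩ : S₁) : Ω), hαx⟩ = α ⟨x, hPT x.2⟩ := rfl
    rw [h2, MulEquiv.symm_apply_apply]
  have h4 : χ₀.codRestrict S₁ hχ₀v ⟨((α ⟨x, hPT x.2⟩ : S₁) : Ω), hαx⟩ = ⟨φ x, hφx⟩ := by
    apply Subtype.ext
    show φ _ = φ x
    rw [h3]
  show (S₁.subtype.comp α.toMonoidHom) (χ₀.codRestrict S₁ hχ₀v ⟨((α ⟨x, hPT x.2⟩ : S₁) : Ω), hαx⟩) = _
  rw [h4]
  rfl

end Helpers

/-- Let F be a saturated fusion system over a finite p-group S that is the direct product of two subgroups S₁ and S₂, each strongly closed in F. Let R be the full subsystem of F over S₁ (all maps of F between subgroups of S₁) and R′ the subsystem over S₁ of those maps that extend to the subgroup generated with S₂ fixing S₂ elementwise. Then R and R′ are saturated, R′ is normal in F and in R, and R is weakly normal in F. -/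
theorem result {Ω : Type*} [Group Ω] {S : Subgroup Ω} [Finite S] (p : ℕ) [Fact p.Prime] (hS : IsPGroup p S) (F : Cfsg.FusionSystem S) (hF : F.IsSaturated p) (S₁ S₂ : Subgroup Ω) (hprod : Cfsg.IsInternalDirectProduct S₁ S₂ S) (h₁ : F.StronglyClosed S₁) (h₂ : F.StronglyClosed S₂) (R R' : Cfsg.FusionSystem S₁) (hR : ∀ P : Subgroup Ω, P ≤ S₁ → R.Hom P = F.Hom P) (hR' : ∀ P : Subgroup Ω, P ≤ S₁ → R'.Hom P = F.centralizerHom S₂ P) : R.IsSaturated p ∧ R'.IsSaturated p ∧ R'.IsNormalIn F p ∧ R'.IsNormalIn R p ∧ R.IsWeaklyNormalIn F p := by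
  classical
  obtain ⟨hS₁S, hS₂S, hc, hinf, hsup⟩ := id hprod
  haveI hf₁ : Finite S₁ := finite_of_le hS₁S
  have hRsat : R.IsSaturated p := full_factor_saturated hS hF hprod h₁ R hR
  have hR'sat : R'.IsSaturated p := centr_saturated hS hF hprod h₁ h₂ R' hR'
  have hR'F : R'.IsSubsystemOf F := by
    intro P φ hφ
    have hP : P ≤ S₁ := source_le hφ
    rw [hR' P hP] at hφ
    exact hφ.1
  have hRF : R.IsSubsystemOf F := by
    intro P φ hφ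
    have hP : P ≤ S₁ := source_le hφ
    rw [hR P hP] at hφ
    exact hφ
  have hR'R : R'.IsSubsystemOf R := by
    intro P φ hφ
    have hP : P ≤ S₁ := source_le hφ
    rw [hR P hP]
    exact hR'F P hφ
  have hscR : R.StronglyClosed S₁ := ⟨le_rfl, fun P _ φ hφ x => map_mem_S hφ x⟩
  have hauteq := autGroup_eq R hS₁S hR
  refine ⟨hRsat, hR'sat, ⟨⟨hR'sat, hF, hR'F, h₁, ?_, ?_⟩, ?_⟩, ⟨⟨hR'sat, hRsat, hR'R, hscR, ?_, ?_⟩, ?_⟩,
    ⟨hRsat, hF, hRF, h₁, ?_, ?_⟩⟩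
  · intro P hPT φ hφ α hα
    exact invariance_step hS hF hprod h₁ h₂ R' hR' hPT hφ hα
  · intro P hP φ hφ
    exact frattini_step hS hF hprod h₁ h₂ R' hR' hP hφ
  · intro α hα
    exact ext_step_F hprod R' hR' hα
  · intro P hPT φ hφ α hα
    rw [hauteq] at hα
    exact invariance_step hS hF hprod h₁ h₂ R' hR' hPT hφ hα
  · intro P hP φ hφ
    rw [hR P hP] at hφ
    obtain ⟨α, hα, h⟩ := frattini_step hS hF hprod h₁ h₂ R' hR' hP hφ
    exact ⟨α, by rw [hauteq]; exact hα, h⟩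
  · intro α hα
    have h1 : S₁.subtype.comp α.toMonoidHom ∈ R'.Hom S₁ := autGroup_mem_hom le_rfl hα
    have h2 : α ∈ R.autGroup S₁ := mem_autGroup_of_mem (hR'R S₁ h1)
    exact ext_step_R R h2
  · intro P hPT φ hφ α hα
    exact invariance_full hS₁S R hR hPT hφ hα
  · intro P hP φ hφ
    refine ⟨1, one_mem _, φ, by rw [hR P hP]; exact hφ, fun x hx => rfl⟩

end Cfsg.Agent.S5130
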