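import Cfsg.Statements.S5142
import Cfsg.Agent.Lib.Fusion.ZCor
import Mathlib
-- import your own Cfsg.Agent.* helpers here

set_option autoImplicit false
open Cfsg

namespace Cfsg.Agent.S5142

/-- Let F be a saturated fusion system over a finite p-group S and E a normal subsystem of F over T. Then the p'-residual subsystem of E (the least saturated subsystem of E over T of index prime to p) is contained in every normal subsystem of F over T; together with its normality in F (the case of a weakly normal E) this makes it the least normal subsystem of F over T. -/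
theorem result {Ω : Type*} [Group Ω] {S : Subgroup Ω} [Finite S] (p : ℕ) [Fact p.Prime] (hS : IsPGroup p S) (F : Cfsg.FusionSystem S) (hF : F.IsSaturated p) {T : Subgroup Ω} (E : Cfsg.FusionSystem T) (hE : E.IsNormalIn F p) (D : Cfsg.FusionSystem T) (hD : E.IsPPrimeResidual p D) : ∀ D' : Cfsg.FusionSystem T, D'.IsNormalIn F p → D.IsSubsystemOf D' := by
  intro D' hD'
  have hTS : T ≤ S := hE.1.2.2.2.1.1
  haveI : Finite T := Cfsg.Agent.Lib.Fusion.Basic.finite_of_le hTS
  have hT : IsPGroup p T := Cfsg.Agent.Lib.Fusion.Basic.isPGroup_of_le hS hTS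
  have hEs := hE.1.1
  have h1 : D.IsSubsystemOf (Cfsg.Agent.Lib.Fusion.PPrime.residSys E p) :=
    hD.2.2 _ (Cfsg.Agent.Lib.Fusion.PPrime.residSys_saturated hT hEs)
      (Cfsg.Agent.Lib.Fusion.PPrime.residSys_main hT hEs).1
  have h2 := Cfsg.Agent.Lib.Fusion.ZLemma.residSys_le_of_invariant hT hEs hD'.1.1 hE.1.2.2 hD'.1.2.2
  exact fun P => (h1 P).trans (h2 P)

end Cfsg.Agent.S5142
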