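import Cfsg.Statements.S5164
import Mathlib

set_option autoImplicit false
open Cfsg

namespace Cfsg.Agent.S5164

open Equiv Equiv.Perm MulAction
open scoped Pointwise

/-- In a `p`-group acting on fewer than `p²` points, commutators act trivially. -/
theorem comm_fix {P X : Type*} [Group P] [Finite P] [MulAction P X] [Finite X] {p : ℕ}
    [hp : Fact p.Prime] (hP : IsPGroup p P) (hX : Nat.card X < p ^ 2) (x y : P) (a : X) :
    (x * y * x⁻¹ * y⁻¹) • a = a := by
  set H := stabilizer P a with hH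
  obtain ⟨k, hk⟩ := hP.index H
  have hle : H.index ≤ Nat.card X := by
    rw [hH, index_stabilizer]
    exact Set.ncard_le_card _
  have hk2 : k < 2 := by
    rw [hk] at hle
    exact (Nat.pow_lt_pow_iff_right hp.out.one_lt).mp (lt_of_le_of_lt hle hX)
  suffices h : x * y * x⁻¹ * y⁻¹ ∈ H from h
  interval_cases k
  · rw [pow_zero, Subgroup.index_eq_one] at hk
    rw [hk]
    exact Subgroup.mem_top _
  · rw [pow_one] at hk
    obtain ⟨m, hm⟩ := IsPGroup.iff_card.mp hP
    have hm0 : m ≠ 0 := by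
      rintro rfl
      rw [pow_zero] at hm
      have := H.index_dvd_card
      rw [hk, hm] at this
      exact hp.out.one_lt.ne' (Nat.dvd_one.mp this)
    have hN : H.Normal := by
      apply Subgroup.normal_of_index_eq_minFac_card
      rw [hk, hm, hp.out.pow_minFac hm0]
    have hcard : Nat.card (P ⧸ H) = p := by
      rw [← hk]; rfl
    have hcyc : IsCyclic (P ⧸ H) := isCyclic_of_prime_card hcard
    have hcomm : ∀ u v : P ⧸ H, u * v = v * u := by
      obtain ⟨g, hg⟩ := IsCyclic.exists_generator (α := P ⧸ H)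
      intro u v
      obtain ⟨i, rfl⟩ := Subgroup.mem_zpowers_iff.mp (hg u)
      obtain ⟨j, rfl⟩ := Subgroup.mem_zpowers_iff.mp (hg v)
      exact (Commute.refl g).zpow_zpow i j
    rw [← QuotientGroup.eq_one_iff]
    have e : (((x * y * x⁻¹ * y⁻¹ : P) : P ⧸ H)) =
        (x : P ⧸ H) * (y : P ⧸ H) * (x : P ⧸ H)⁻¹ * (y : P ⧸ H)⁻¹ := rfl
    rw [e, hcomm (x : P ⧸ H) (y : P ⧸ H)]
    group

/-- Every `p`-subgroup of `A_n` is abelian when `n < p²`. -/
theorem comm_of_lt {n p : ℕ} [Fact p.Prime] (hn : n < p ^ 2)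
    (Q : Subgroup (alternatingGroup (Fin n))) (hQ : IsPGroup p Q) (x y : Q) : x * y = y * x := by
  have key : ∀ a : Fin n, (x * y * x⁻¹ * y⁻¹) • a = a :=
    fun a => comm_fix hQ (by simpa using hn) x y a
  have h1 : x * y * x⁻¹ * y⁻¹ = 1 := by
    apply Subtype.ext
    apply Subtype.ext
    ext a
    exact congrArg _ (key a)
  have h2 : x * y = (x * y * x⁻¹ * y⁻¹) * (y * x) := by group
  rw [h2, h1, one_mul]

/-- A transfer of non-abelian even `p`-subgroups to the alternating group. -/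
theorem transfer {R : Type*} [Fintype R] [DecidableEq R] {n p : ℕ} [Fact p.Prime] (ι : R ↪ Fin n)
    (Q₀ : Subgroup (Perm R)) (hp : IsPGroup p Q₀) (heven : ∀ g ∈ Q₀, sign g = 1)
    {a b : Perm R} (ha : a ∈ Q₀) (hb : b ∈ Q₀) (hab : a * b ≠ b * a) :
    ∃ Q : Subgroup (alternatingGroup (Fin n)), IsPGroup p Q ∧ ∃ a ∈ Q, ∃ b ∈ Q, a * b ≠ b * a := by
  classical
  let φ : Perm R →* Perm (Fin n) := viaEmbeddingHom ι
  have hφinj : Function.Injective φ := viaEmbeddingHom_injective ι
  have hsign : ∀ g ∈ Q₀, φ g ∈ alternatingGroup (Fin n) := by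
    intro g hg
    rw [mem_alternatingGroup]
    change sign (viaEmbedding g ι) = 1
    unfold viaEmbedding
    rw [sign_extendDomain]
    exact heven g hg
  refine ⟨(Q₀.map φ).comap (alternatingGroup (Fin n)).subtype, ?_, ⟨φ a, hsign a ha⟩, ?_,
    ⟨φ b, hsign b hb⟩, ?_, ?_⟩
  · rintro ⟨g, g₀, hg₀, hg⟩
    obtain ⟨k, hk⟩ := hp ⟨g₀, hg₀⟩
    refine ⟨k, ?_⟩
    apply Subtype.ext
    apply Subtype.ext
    have hk' : g₀ ^ (p ^ k) = 1 := congrArg Subtype.val hk
    have e : ((g : Perm (Fin n))) = φ g₀ := hg.symm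
    change (g : Perm (Fin n)) ^ (p ^ k) = 1
    rw [e, ← map_pow, hk', map_one]
  · exact ⟨a, ha, rfl⟩
  · exact ⟨b, hb, rfl⟩
  · intro h
    apply hab
    apply hφinj
    rw [map_mul, map_mul]
    exact congrArg Subtype.val h

section wreath

variable (p : ℕ) [hp : Fact p.Prime]

/-- The wreath product `C_p ≀ C_p` on `ZMod p × ZMod p`. -/
def wreath : Subgroup (Perm (ZMod p × ZMod p)) where
  carrier := {g | ∃ (t : ZMod p) (v : ZMod p → ZMod p), ∀ x, g x = (x.1 + t, x.2 + v x.1)}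
  mul_mem' := by
    rintro g h ⟨t, v, hg⟩ ⟨t', v', hh⟩
    refine ⟨t' + t, fun i => v' i + v (i + t'), fun x => ?_⟩
    rw [Perm.mul_apply, hh, hg]
    simp only [Prod.mk.injEq]
    constructor <;> ring
  one_mem' := ⟨0, fun _ => 0, fun x => by simp⟩
  inv_mem' := by
    rintro g ⟨t, v, hg⟩
    refine ⟨-t, fun i => - v (i + -t), fun x => ?_⟩
    rw [Perm.inv_eq_iff_eq, hg]
    ext <;> simp

theorem pow_first {g : Perm (ZMod p × ZMod p)} {t : ZMod p} {v : ZMod p → ZMod p}
    (hg : ∀ x, g x = (x.1 + t, x.2 + v x.1)) (m : ℕ) :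
    ∃ w : ZMod p → ZMod p, ∀ x, (g ^ m) x = (x.1 + m * t, x.2 + w x.1) := by
  induction m with
  | zero => exact ⟨fun _ => 0, fun x => by simp⟩
  | succ m ih =>
    obtain ⟨w, hw⟩ := ih
    refine ⟨fun i => w i + v (i + m * t), fun x => ?_⟩
    rw [pow_succ', Perm.mul_apply, hw, hg]
    simp only [Prod.mk.injEq]
    push_cast
    constructor <;> ring

theorem pow_second {h : Perm (ZMod p × ZMod p)} {w : ZMod p → ZMod p}
    (hh : ∀ x, h x = (x.1, x.2 + w x.1)) (m : ℕ) :
    ∀ x, (h ^ m) x = (x.1, x.2 + m * w x.1) := by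
  induction m with
  | zero => intro x; simp
  | succ m ih =>
    intro x
    rw [pow_succ', Perm.mul_apply, ih, hh]
    simp only [Prod.mk.injEq, true_and]
    push_cast
    ring

theorem wreath_isPGroup : IsPGroup p (wreath p) := by
  rintro ⟨g, t, v, hg⟩
  refine ⟨2, ?_⟩
  apply Subtype.ext
  obtain ⟨w, hw⟩ := pow_first p hg p
  have hw' : ∀ x, (g ^ p) x = (x.1, x.2 + w x.1) := by
    intro x
    rw [hw]
    simp
  have h2 := pow_second p hw' p
  change g ^ (p ^ 2) = 1
  rw [pow_two, pow_mul]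
  ext1 x
  rw [h2]
  simp

/-- The generator acting in the base. -/
def wA : Perm (ZMod p × ZMod p) where
  toFun x := (x.1, x.2 + if x.1 = 0 then 1 else 0)
  invFun x := (x.1, x.2 - if x.1 = 0 then 1 else 0)
  left_inv x := by simp
  right_inv x := by simp

/-- The generator permuting the blocks. -/
def wB : Perm (ZMod p × ZMod p) where
  toFun x := (x.1 + 1, x.2)
  invFun x := (x.1 - 1, x.2)
  left_inv x := by simp
  right_inv x := by simp

theorem wA_mem : wA p ∈ wreath p := ⟨0, fun i => if i = 0 then 1 else 0, fun x => by simp [wA]⟩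

theorem wB_mem : wB p ∈ wreath p := ⟨1, fun _ => 0, fun x => by simp [wB]⟩

theorem wA_wB_ne : wA p * wB p ≠ wB p * wA p := by
  intro h
  have h1 := congrArg (fun f : Perm (ZMod p × ZMod p) => f (0, 0)) h
  simp only [Perm.mul_apply, wA, wB, Equiv.coe_fn_mk] at h1
  have h2 := congrArg Prod.snd h1
  simp at h2

end wreath

/-- The eight elements of a dihedral group inside `A₆`. -/
def d8list : List (Perm (Fin 6)) :=
  let x : Perm (Fin 6) := swap 0 1 * swap 1 2 * swap 2 3 * swap 4 5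
  let y : Perm (Fin 6) := swap 0 2 * swap 4 5
  [1, x, x * x, x * x * x, y, x * y, x * x * y, x * x * x * y]

set_option maxRecDepth 100000 in
theorem d8_mul : ∀ g ∈ d8list, ∀ h ∈ d8list, g * h ∈ d8list := by decide +kernel

set_option maxRecDepth 100000 in
theorem d8_inv : ∀ g ∈ d8list, g⁻¹ ∈ d8list := by decide +kernel

set_option maxRecDepth 100000 in
theorem d8_pow : ∀ g ∈ d8list, g ^ 4 = 1 := by decide +kernel

set_option maxRecDepth 100000 in
theorem d8_sign : ∀ g ∈ d8list, sign g = 1 := by decide +kernel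

set_option maxRecDepth 100000 in
theorem d8_ne : ∃ a ∈ d8list, ∃ b ∈ d8list, a * b ≠ b * a := by decide +kernel

set_option maxRecDepth 100000 in
theorem d8_one : (1 : Perm (Fin 6)) ∈ d8list := by decide +kernel

/-- The dihedral group inside `A₆`. -/
def d8 : Subgroup (Perm (Fin 6)) where
  carrier := {g | g ∈ d8list}
  mul_mem' := fun {a b} ha hb => d8_mul a ha b hb
  one_mem' := d8_one
  inv_mem' := fun {a} ha => d8_inv a ha

theorem exists_nonabelian {n p : ℕ} (hn : 6 ≤ n) [hp : Fact p.Prime] (h : p ^ 2 ≤ n) :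
    ∃ Q : Subgroup (alternatingGroup (Fin n)), IsPGroup p Q ∧ ∃ a ∈ Q, ∃ b ∈ Q, a * b ≠ b * a := by
  rcases hp.out.eq_two_or_odd' with rfl | hodd
  · obtain ⟨a, ha, b, hb, hab⟩ := d8_ne
    refine transfer (Fin.castLEEmb hn) d8 ?_ (fun g hg => d8_sign g hg) ha hb hab
    rintro ⟨g, hg⟩
    refine ⟨2, ?_⟩
    apply Subtype.ext
    exact d8_pow g hg
  · have hcard : Fintype.card (ZMod p × ZMod p) ≤ Fintype.card (Fin n) := by
      rw [Fintype.card_prod, ZMod.card, Fintype.card_fin, ← pow_two]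
      exact h
    obtain ⟨ι⟩ := Function.Embedding.nonempty_of_card_le hcard
    refine transfer ι (wreath p) (wreath_isPGroup p) ?_ (wA_mem p) (wB_mem p) (wA_wB_ne p)
    intro g hg
    obtain ⟨k, hk⟩ := wreath_isPGroup p ⟨g, hg⟩
    have hk' : g ^ (p ^ k) = 1 := congrArg Subtype.val hk
    have h1 : (sign g) ^ (p ^ k) = 1 := by
      rw [← map_pow, hk', map_one]
    rcases Int.units_eq_one_or (sign g) with h2 | h2
    · exact h2
    · rw [h2] at h1
      have h3 : (-1 : ℤˣ) ^ (p ^ k) = -1 := Odd.neg_one_pow (hodd.pow (n := k))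
      rw [h3] at h1
      exact absurd h1 (by decide)

/-- For n ≥ 6 and a prime p, a nontrivial Sylow p-subgroup of the alternating group of degree n is abelian if and only if n < p². -/
theorem result (n p : ℕ) (hn : 6 ≤ n) [Fact p.Prime] (S : Sylow p (alternatingGroup (Fin n))) (hS : (S : Subgroup (alternatingGroup (Fin n))) ≠ ⊥) : IsMulCommutative S ↔ n < p ^ 2 := by
  constructor
  · intro hcomm
    by_contra hlt
    push Not at hlt
    obtain ⟨Q, hQ, a, ha, b, hb, hab⟩ := exists_nonabelian hn hlt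
    obtain ⟨T, hT⟩ := hQ.exists_le_sylow
    obtain ⟨g, hg⟩ := MulAction.exists_smul_eq (alternatingGroup (Fin n)) T S
    have hmem : ∀ c ∈ Q, g * c * g⁻¹ ∈ (S : Subgroup (alternatingGroup (Fin n))) := by
      intro c hc
      rw [← hg, Sylow.coe_subgroup_smul]
      exact Subgroup.mem_pointwise_smul_iff_inv_smul_mem.mpr (by
        simpa [MulAut.smul_def, MulAut.conj_symm_apply, mul_assoc] using hT hc)
    have h1 := hcomm.is_comm.comm ⟨g * a * g⁻¹, hmem a ha⟩ ⟨g * b * g⁻¹, hmem b hb⟩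
    have h2 : (g * a * g⁻¹) * (g * b * g⁻¹) = (g * b * g⁻¹) * (g * a * g⁻¹) :=
      congrArg Subtype.val h1
    apply hab
    have h3 : g * (a * b) * g⁻¹ = g * (b * a) * g⁻¹ := by
      calc g * (a * b) * g⁻¹ = (g * a * g⁻¹) * (g * b * g⁻¹) := by group
        _ = (g * b * g⁻¹) * (g * a * g⁻¹) := h2
        _ = g * (b * a) * g⁻¹ := by group
    simpa using h3
  · intro hlt
    exact ⟨⟨fun x y => comm_of_lt hlt _ S.2 x y⟩⟩

end Cfsg.Agent.S5164
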