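import Cfsg.Statements.S5346
import Cfsg.Agent.Lib.Fischer.Width1

set_option autoImplicit false
open Cfsg

namespace Cfsg.Agent.S5346

/-- Let D be a conjugation-invariant generating set of 3-transpositions of a finite group G and d a member of D. Then D has width 1 (no two different members of D commute) if and only if G is the product of the subgroup generated by d with the largest normal 3-subgroup of G. -/
theorem result {G : Type*} [Group G] [Finite G] {D : Set G} (hD : Cfsg.IsThreeTranspositionGroup D) {d : G} (hd : d ∈ D) : Cfsg.commutingWidth D = 1 ↔ Subgroup.zpowers d ⊔ Cfsg.pCore 3 G = ⊤ := by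
  have h := Cfsg.Agent.Lib.Fischer.Basic.TT.of_group hD
  have hne : D.Nonempty := ⟨d, hd⟩
  rw [Cfsg.Agent.Lib.Fischer.Width1.width_eq_one_iff hne]
  have : Fact (Nat.Prime 3) := ⟨Nat.prime_three⟩
  have hdi : d⁻¹ = d := h.inv_eq hd
  constructor
  · intro hw
    have hW := Cfsg.Agent.Lib.Fischer.Width1.W1.of_TT h hw
    have hall : ∀ x ∈ D, x ∈ Subgroup.zpowers d ⊔ Cfsg.pCore 3 G := by
      intro x hx
      have h1 : d * x ∈ Cfsg.pCore 3 G :=
        Cfsg.Agent.Lib.Fischer.Width1.mul_mem_pCore_of_W1 h hW hd hx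
      have h2 : x = d * (d * x) := by
        rw [← mul_assoc, h.sq d hd, one_mul]
      rw [h2]
      exact Subgroup.mul_mem _
        (Subgroup.mem_sup_left (Subgroup.mem_zpowers d)) (Subgroup.mem_sup_right h1)
    rw [eq_top_iff, ← hD.2.2, Subgroup.closure_le]
    exact hall
  · intro htop x hx y hy hxy hc
    -- every member lies in the coset of `d`
    have hP := Cfsg.Agent.Lib.Basic.PCore.pCore_isPGroup (G := G) 3
    have hcoset : ∀ z ∈ D, d * z ∈ Cfsg.pCore 3 G := by
      intro z hz
      have hzt : z ∈ Subgroup.zpowers d ⊔ Cfsg.pCore 3 G := by rw [htop]; trivial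
      have hn : (Cfsg.pCore 3 G).Normal := Cfsg.pCore_normal 3 G
      obtain ⟨u, hu, o, ho, rfl⟩ := Subgroup.mem_sup_of_normal_right.1 hzt
      obtain ⟨k, rfl⟩ := Subgroup.mem_zpowers_iff.1 hu
      have hdd : d ^ (2 : ℤ) = 1 := by
        rw [zpow_two]; exact h.sq d hd
      rcases Int.even_or_odd' k with ⟨m, rfl | rfl⟩
      · exfalso
        rw [zpow_mul, hdd, one_zpow, one_mul] at hz
        have := Cfsg.Agent.Lib.Fischer.Width1.eq_one_of_sq_of_isPGroup hP ho (h.sq o hz)
        exact h.ne_one o hz this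
      · rw [zpow_add, zpow_mul, hdd, one_zpow, one_mul, zpow_one, ← mul_assoc, h.sq d hd, one_mul]
        exact ho
    have h1 : (d * x)⁻¹ * (d * y) ∈ Cfsg.pCore 3 G :=
      Subgroup.mul_mem _ (Subgroup.inv_mem _ (hcoset x hx)) (hcoset y hy)
    have h2 : (d * x)⁻¹ * (d * y) = x * y := by
      rw [mul_inv_rev, h.inv_eq hx]
      group
    rw [h2] at h1
    have h3 : x * y * (x * y) = 1 := by
      calc x * y * (x * y) = x * (y * x) * y := by group
        _ = x * (x * y) * y := by rw [hc.symm.eq]
        _ = (x * x) * (y * y) := by group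
        _ = 1 := by rw [h.sq x hx, h.sq y hy, one_mul]
    have h4 := Cfsg.Agent.Lib.Fischer.Width1.eq_one_of_sq_of_isPGroup hP h1 h3
    apply hxy
    have h5 : x⁻¹ = x := h.inv_eq hx
    have : x = y⁻¹ := eq_inv_of_mul_eq_one_left h4
    rwa [h.inv_eq hy] at this

end Cfsg.Agent.S5346
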