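import Cfsg.Statements.S5348
import Mathlib
-- import your own Cfsg.Agent.* helpers here

set_option autoImplicit false
open Cfsg

namespace Cfsg.Agent.S5348

/-- Let D be a conjugation-invariant generating set of 3-transpositions of a finite group G and d a member of D. Let V be the set of members of D commuting with exactly the same members of D as d, and W the set of members w of D such that the members of D other than w commuting with w are precisely the members of D other than d commuting with d. Then V = {d} or W = {d}. -/
theorem result {G : Type*} [Group G] [Finite G] {D : Set G} (hD : Cfsg.IsThreeTranspositionGroup D) {d : G} (hd : d ∈ D) : {v : G | v ∈ D ∧ ∀ e ∈ D, Commute v e ↔ Commute d e} = {d} ∨ {w : G | w ∈ D ∧ {y : G | y ∈ D ∧ y ≠ d ∧ Commute d y} = {y : G | y ∈ D ∧ y ≠ w ∧ Commute w y}} = {d} := by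
  classical
  by_cases hV : ∃ v : G, v ∈ D ∧ (∀ e ∈ D, Commute v e ↔ Commute d e) ∧ v ≠ d
  · right
    obtain ⟨v, hvD, hv, hvd⟩ := hV
    ext w
    simp only [Set.mem_setOf_eq, Set.mem_singleton_iff]
    constructor
    · rintro ⟨hwD, hw⟩
      by_contra hwd
      have hdv : Commute d v := (hv v hvD).mp (Commute.refl v)
      have hndw : ¬ Commute d w := by
        intro hdw
        have : w ∈ {y : G | y ∈ D ∧ y ≠ d ∧ Commute d y} := ⟨hwD, hwd, hdw⟩
        rw [hw] at this
        exact this.2.1 rfl
      have hvm : v ∈ {y : G | y ∈ D ∧ y ≠ d ∧ Commute d y} := ⟨hvD, hvd, hdv⟩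
      rw [hw] at hvm
      exact hndw ((hv w hwD).mp hvm.2.2.symm)
    · rintro rfl
      exact ⟨hd, rfl⟩
  · left
    push_neg at hV
    ext v
    simp only [Set.mem_setOf_eq, Set.mem_singleton_iff]
    constructor
    · rintro ⟨hvD, hv⟩
      exact hV v hvD hv
    · rintro rfl
      exact ⟨hd, fun e _ => Iff.rfl⟩

end Cfsg.Agent.S5348
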