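import Cfsg.Statements.S5350
import Cfsg.Agent.Lib.Fischer.WClass

set_option autoImplicit false
open Cfsg

namespace Cfsg.Agent.S5350

/-- Let D be a conjugacy class of 3-transpositions generating the finite group G, with at least two members, and d a member of D. Then the set of members w of D whose commuting partners in D (other than w) are exactly those of d (other than d) coincides with the set of members of D lying in the coset of d modulo the largest normal 3-subgroup of G, and also with the orbit of d under conjugation by that normal 3-subgroup. -/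
theorem result {G : Type*} [Group G] [Finite G] {D : Set G} (hD : Cfsg.IsThreeTranspositionClass D) (hD2 : ∃ a ∈ D, ∃ b ∈ D, a ≠ b) {d : G} (hd : d ∈ D) : {w : G | w ∈ D ∧ {y : G | y ∈ D ∧ y ≠ d ∧ Commute d y} = {y : G | y ∈ D ∧ y ≠ w ∧ Commute w y}} = {w : G | w ∈ D ∧ d⁻¹ * w ∈ Cfsg.pCore 3 G} ∧ {w : G | w ∈ D ∧ {y : G | y ∈ D ∧ y ≠ d ∧ Commute d y} = {y : G | y ∈ D ∧ y ≠ w ∧ Commute w y}} = {w : G | ∃ g ∈ Cfsg.pCore 3 G, w = g * d * g⁻¹} := by
  open Cfsg.Agent.Lib.Fischer.Basic Cfsg.Agent.Lib.Fischer.WClass in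
  have h := TT.of_class hD
  have hdi : d⁻¹ = d := h.inv_eq hd
  have hn : (Cfsg.pCore 3 G).Normal := Cfsg.Agent.Lib.Basic.PCore.pCore_normal 3 G
  have e1 : {w : G | w ∈ D ∧ {y : G | y ∈ D ∧ y ≠ d ∧ Commute d y} = {y : G | y ∈ D ∧ y ≠ w ∧ Commute w y}} =
      {w : G | w ∈ D ∧ d⁻¹ * w ∈ Cfsg.pCore 3 G} := by
    ext w
    constructor
    · rintro ⟨hw, ht⟩
      refine ⟨hw, ?_⟩
      rw [hdi]
      exact mul_mem_pCore_of_tw h hd hw ht
    · rintro ⟨hw, hk⟩
      rw [hdi] at hk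
      exact ⟨hw, tw_of_coset h hd hw hk⟩
  refine ⟨e1, ?_⟩
  rw [e1]
  ext w
  constructor
  · rintro ⟨hw, hk⟩
    rw [hdi] at hk
    exact exists_conj_of_coset h hd hw hk
  · rintro ⟨g, hg, rfl⟩
    refine ⟨h.conj g d hd, ?_⟩
    have e2 : d⁻¹ * (g * d * g⁻¹) = (d⁻¹ * g * d) * g⁻¹ := by group
    rw [e2]
    refine Subgroup.mul_mem _ ?_ (Subgroup.inv_mem _ hg)
    have := hn.conj_mem g hg d⁻¹
    rwa [inv_inv] at this

end Cfsg.Agent.S5350
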