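import Cfsg.Statements.S5355
import Cfsg.Agent.S5344
import Cfsg.Agent.Lib.Fischer.Basic

set_option autoImplicit false
open Cfsg

namespace Cfsg.Agent.S5355

open Cfsg.Agent.Lib.Fischer.Basic

variable {G : Type*} [Group G]

/-- `x'` is the partner of `x`. -/
structure Pn (D : Set G) (x x' : G) : Prop where
  mem : x' ∈ D
  ne : x' ≠ x
  comm : Commute x x'
  only : ∀ y ∈ D, Commute x y → y = x ∨ y = x'
  same : ∀ e ∈ D, Commute x' e ↔ Commute x e

theorem Pn.symm {D : Set G} {x x' : G} (hx : x ∈ D) (h : Pn D x x') : Pn D x' x where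
  mem := hx
  ne := h.ne.symm
  comm := h.comm.symm
  only := by
    intro y hy hc
    rcases h.only y hy ((h.same y hy).1 hc) with r | r
    · exact Or.inr r
    · exact Or.inl r
  same := fun e he => (h.same e he).symm

theorem Pn.conj {D : Set G} (hT : TT D) {x x' : G} (h : Pn D x x') (g : G) :
    Pn D (g * x * g⁻¹) (g * x' * g⁻¹) where
  mem := hT.conj g x' h.mem
  ne := fun k => h.ne (mul_left_cancel (mul_right_cancel k))
  comm := (commute_conj_iff g x x').2 h.comm
  only := by
    intro y hy hc
    have hy' : g⁻¹ * y * g ∈ D := by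
      have := hT.conj g⁻¹ y hy
      rwa [inv_inv] at this
    have e : y = g * (g⁻¹ * y * g) * g⁻¹ := by group
    have hc' : Commute x (g⁻¹ * y * g) := by
      rw [e] at hc
      exact (commute_conj_iff g _ _).1 hc
    rcases h.only _ hy' hc' with r | r
    · left; rw [e, r]
    · right; rw [e, r]
  same := by
    intro w hw
    have hy' : g⁻¹ * w * g ∈ D := by
      have := hT.conj g⁻¹ w hw
      rwa [inv_inv] at this
    have e : w = g * (g⁻¹ * w * g) * g⁻¹ := by group
    have h1 := h.same _ hy'
    rw [e, commute_conj_iff, commute_conj_iff]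
    exact h1

/-- The partner is unique. -/
theorem Pn.unique {D : Set G} {x x' y : G} (h : Pn D x x') (hy : y ∈ D) (hne : y ≠ x)
    (hc : Commute x y) : y = x' := by
  rcases h.only y hy hc with r | r
  · exact absurd r hne
  · exact r

theorem perm_c1 : Commute ((Equiv.swap (0 : Fin 4) 1 * Equiv.swap 2 3) * Equiv.swap 1 2 *
    (Equiv.swap 0 1 * Equiv.swap 2 3)⁻¹) (Equiv.swap 1 2) := by
  show _ * _ = _ * _
  decide +kernel

theorem perm_c2 : ((Equiv.swap (0 : Fin 4) 1 * Equiv.swap 2 3) * Equiv.swap 1 2 *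
    (Equiv.swap 0 1 * Equiv.swap 2 3)⁻¹) ≠ (Equiv.swap 1 2) := by decide +kernel

/-- **(F2)** The action of `y y'` on the members not commuting with `y`. -/
theorem act {D : Set G} (hD : IsThreeTranspositionSet D) (hT : TT D) {x x' y y' : G} (hx : x ∈ D)
    (hy : y ∈ D) (hpx : Pn D x x') (hpy : Pn D y y') (hn : ¬ Commute x y) :
    (y * y') * x * (y * y')⁻¹ = x' := by
  have hn1 : ¬ Commute y x := fun k => hn k.symm
  have hn2 : ¬ Commute x y' := by
    intro k
    exact hn1 ((hpy.same x hx).1 k.symm)
  obtain ⟨φ, hinj, h0, h1, h2⟩ := Cfsg.Agent.S5344.result hD hy hx hpy.mem hpy.ne.symm hpy.comm hn1 hn2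
  have hval : φ ((Equiv.swap (0 : Fin 4) 1 * Equiv.swap 2 3) * Equiv.swap 1 2 *
    (Equiv.swap 0 1 * Equiv.swap 2 3)⁻¹) = (y * y') * x * (y * y')⁻¹ := by
    simp only [map_mul, map_inv, h0, h1, h2]
  have hc : Commute x ((y * y') * x * (y * y')⁻¹) := by
    rw [← hval, ← h1]
    have := perm_c1.map φ
    exact this.symm
  have hne : (y * y') * x * (y * y')⁻¹ ≠ x := by
    rw [← hval, ← h1]
    exact fun k => perm_c2 (hinj k)
  exact hpx.unique (by
    have := hT.conj (y * y') x hx
    exact this) hne hc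


/-- Let D be a conjugacy class of 3-transpositions generating the finite group G, with at least two members, and d a member of D. Suppose that every member of D commuting with d commutes with exactly the same members of D as d does, and that exactly one member of D other than d commutes with d. Then G is isomorphic to the symmetric group of degree 4. -/
theorem result {G : Type*} [Group G] [Finite G] {D : Set G} (hD : Cfsg.IsThreeTranspositionClass D) (hD2 : ∃ a ∈ D, ∃ b ∈ D, a ≠ b) {d : G} (hd : d ∈ D) (hV : {y : G | y ∈ D ∧ Commute d y} = {v : G | v ∈ D ∧ ∀ e ∈ D, Commute v e ↔ Commute d e}) (hm : {y : G | y ∈ D ∧ Commute d y}.ncard = 2) : Nonempty (G ≃* Equiv.Perm (Fin 4)) := by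
  classical
  have hT : TT D := TT.of_class hD
  have hS := hD.1
  -- the partner of `d`
  have hds : d ∈ {y : G | y ∈ D ∧ Commute d y} := ⟨hd, Commute.refl d⟩
  obtain ⟨p, q, hpq, hsq⟩ := Set.ncard_eq_two.1 hm
  obtain ⟨d', hd's, hd'ne, hsd⟩ : ∃ d', d' ∈ {y : G | y ∈ D ∧ Commute d y} ∧ d' ≠ d ∧
      {y : G | y ∈ D ∧ Commute d y} = {d, d'} := by
    rw [hsq] at hds ⊢
    rcases hds with rfl | rfl
    · exact ⟨q, Or.inr rfl, hpq.symm, rfl⟩
    · refine ⟨p, Or.inl rfl, hpq, ?_⟩
      exact Set.pair_comm _ _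
  have hpd : Pn D d d' := by
    have hd'mem := hd's.1
    have hd'c := hd's.2
    refine ⟨hd'mem, hd'ne, hd'c, ?_, ?_⟩
    · intro y hy hc
      have : y ∈ {y : G | y ∈ D ∧ Commute d y} := ⟨hy, hc⟩
      rw [hsd] at this
      exact this
    · have : d' ∈ {v : G | v ∈ D ∧ ∀ e ∈ D, Commute v e ↔ Commute d e} := by
        rw [← hV]; exact hd's
      exact this.2
  -- every member has a partner
  have hpart : ∀ x ∈ D, ∃ x', Pn D x x' := by
    intro x hx
    obtain ⟨g, rfl⟩ := exists_conj hD hd hx
    exact ⟨_, hpd.conj hT g⟩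
  -- a member not commuting with `d`
  obtain ⟨a, ha, hda⟩ := exists_anti hD hD2 hd
  obtain ⟨a', hpa⟩ := hpart a ha
  have had : ¬ Commute a d := fun k => hda k.symm
  have hd'a : ¬ Commute a d' := by
    intro k
    exact hda ((hpd.same a ha).1 k.symm)
  obtain ⟨φ, hinj, h0, h1, h2⟩ := Cfsg.Agent.S5344.result hS hd ha hpd.mem hpd.ne.symm hpd.comm hda hd'a
  have hdd := hT.sq d hd
  have hd'd' := hT.sq d' hpd.mem
  set b := d * a * d with hb
  have hbD : b ∈ D := hT.tp_mem hd ha
  have hpb : Pn D b (d * a' * d) := by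
    have := hpa.conj hT d
    rwa [hT.inv_eq hd] at this
  have hda'eq : (d * d') * a * (d * d')⁻¹ = a' := act hS hT ha hd hpa hpd had
  -- all of `D` is listed
  have hall : ∀ e ∈ D, e = d ∨ e = d' ∨ e = a ∨ e = a' ∨ e = b ∨ e = d * a' * d := by
    intro e he
    by_contra hne
    push Not at hne
    obtain ⟨hne1, hne2, hne3, hne4, hne5, hne6⟩ := hne
    obtain ⟨e', hpe⟩ := hpart e he
    have hed : ¬ Commute e d := by
      intro k
      rcases hpd.only e he k.symm with r | r
      · exact hne1 r
      · exact hne2 r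
    have hea : ¬ Commute e a := by
      intro k
      rcases hpa.only e he k.symm with r | r
      · exact hne3 r
      · exact hne4 r
    have heb : ¬ Commute e b := by
      intro k
      rcases hpb.only e he k.symm with r | r
      · exact hne5 r
      · exact hne6 r
    have hpe' := hpe.symm he
    have he'a : ¬ Commute e' a := fun k => hea ((hpe.same a ha).1 k)
    have s1 := act hS hT he hd hpe hpd hed
    have s2 := act hS hT hpe.mem ha hpe' hpa he'a
    have s3 := act hS hT he hbD hpe hpb heb
    -- `u(b) = u(a) * d' * d`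
    have hu : b * (d * a' * d) = (a * a') * (d' * d) := by
      have : d * (a * a') * d = (a * a') * ((a * a')⁻¹ * d * (a * a')) * d := by group
      have h3 : (a * a')⁻¹ = a * a' := by
        rw [mul_inv_rev, hT.inv_eq hpa.mem, hT.inv_eq ha]
        exact hpa.comm.symm.eq
      have h4 : (a * a') * d * (a * a')⁻¹ = d' := act hS hT hd ha hpd hpa hda
      have h5 : b * (d * a' * d) = d * (a * a') * d := by
        rw [hb]
        calc d * a * d * (d * a' * d) = d * a * (d * d) * a' * d := by group
          _ = d * (a * a') * d := by rw [hdd]; group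
      rw [h5, this, h3]
      have h6 : (a * a') * d * (a * a') = d' := by
        rw [h3] at h4
        exact h4
      rw [h6, mul_assoc]
    have hdd'c : d' * d = d * d' := hpd.comm.symm.eq
    have s4 : (b * (d * a' * d)) * e * (b * (d * a' * d))⁻¹ = e := by
      rw [hu, hdd'c]
      calc (a * a') * (d * d') * e * ((a * a') * (d * d'))⁻¹
          = (a * a') * ((d * d') * e * (d * d')⁻¹) * (a * a')⁻¹ := by group
        _ = (a * a') * e' * (a * a')⁻¹ := by rw [s1]
        _ = e := s2
    rw [s3] at s4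
    exact hpe.ne s4
  have hrange : (Subgroup.closure D) ≤ φ.range := by
    rw [Subgroup.closure_le]
    intro e he
    have m1 : d ∈ φ.range := ⟨_, h0⟩
    have m2 : a ∈ φ.range := ⟨_, h1⟩
    have m3 : d' ∈ φ.range := ⟨_, h2⟩
    have m4 : a' ∈ φ.range := by
      rw [← hda'eq]
      exact φ.range.mul_mem (φ.range.mul_mem (φ.range.mul_mem m1 m3) m2)
        (φ.range.inv_mem (φ.range.mul_mem m1 m3))
    have m5 : b ∈ φ.range := φ.range.mul_mem (φ.range.mul_mem m1 m2) m1
    have m6 : d * a' * d ∈ φ.range := φ.range.mul_mem (φ.range.mul_mem m1 m4) m1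
    rcases hall e he with r | r | r | r | r | r <;> rw [r] <;> assumption
  have hsurj : Function.Surjective φ := by
    rw [← MonoidHom.range_eq_top, eq_top_iff, ← hD.2.2]
    exact hrange
  exact ⟨(MulEquiv.ofBijective φ ⟨hinj, hsurj⟩).symm⟩

end Cfsg.Agent.S5355
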