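import Cfsg.Statements.S5356
import Cfsg.Agent.S5344
import Cfsg.Agent.S5346
import Cfsg.Agent.Lib.Fischer.Basic
import Cfsg.Agent.Lib.Fischer.VClass
import Cfsg.Agent.Lib.Fischer.Width1
import Cfsg.Agent.Lib.Basic.PCore

set_option autoImplicit false
open Cfsg

namespace Cfsg.Agent.S5356

open Cfsg.Agent.Lib.Fischer.Basic Cfsg.Agent.Lib.Fischer.VClass Cfsg.Agent.Lib.Basic.PCore
open scoped Pointwise

section abstractCore

variable {A Q : Type*} [CommGroup A] [Group Q] [Fintype Q]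

/-- the norm -/
def Nm (ρ : Q → A →* A) (x : A) : A := ∏ r : Q, ρ r x

theorem Nm_mul (ρ : Q → A →* A) (x y : A) : Nm ρ (x * y) = Nm ρ x * Nm ρ y := by
  simp only [Nm, map_mul, Finset.prod_mul_distrib]

theorem Nm_fix (ρ : Q → A →* A) (hρm : ∀ r s x, ρ (r * s) x = ρ r (ρ s x)) (s : Q) (x : A) :
    ρ s (Nm ρ x) = Nm ρ x := by
  simp only [Nm, map_prod, ← hρm]
  exact Fintype.prod_equiv (Equiv.mulLeft s) _ _ (fun r => rfl)

theorem Nm_of_fix (ρ : Q → A →* A) (hexp : ∀ x : A, x * x = 1) (hodd : Odd (Fintype.card Q))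
    {z : A} (hz : ∀ r, ρ r z = z) : Nm ρ z = z := by
  simp only [Nm, hz, Finset.prod_const, Finset.card_univ]
  obtain ⟨k, hk⟩ := hodd
  rw [hk, pow_succ, pow_mul, pow_two, hexp, one_pow, one_mul]

theorem abs_core (hexp : ∀ x : A, x * x = 1) (ρ : Q → A →* A)
    (hρm : ∀ r s x, ρ (r * s) x = ρ r (ρ s x)) (τ : A →* A) (σ : Q → Q)
    (hσσ : ∀ r, σ (σ r) = r) (hσ : ∀ r x, τ (ρ r x) = ρ (σ r) (τ x))
    (hodd : Odd (Fintype.card Q)) (u : A)
    (H1 : ∀ y : A, (∀ r, ρ r (y * u) = y * u) → ∀ r, ρ r (y * τ y) = y * τ y)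
    (H2 : ∀ y : A, (∀ r, ρ r (y * u) = y * u) → τ y = y → ∀ r, σ r = r →
      ∃ v : A, ρ r y * y = v * τ v) :
    ∃ y v : A, (∀ r, ρ r (y * u) = y * u) ∧ y = v * τ v := by
  classical
  set z := Nm ρ u with hz
  have hzfix : ∀ r, ρ r z = z := fun r => Nm_fix ρ hρm r u
  set y := u * z with hy
  have hyu : y * u = z := by
    rw [hy, mul_comm u z, mul_assoc, hexp, mul_one]
  have hfix : ∀ r, ρ r (y * u) = y * u := by
    intro r
    rw [hyu]
    exact hzfix r
  have hNy : Nm ρ y = 1 := by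
    rw [hy, Nm_mul, Nm_of_fix ρ hexp hodd hzfix, ← hz, hexp]
  have hNτ : ∀ x, Nm ρ (τ x) = τ (Nm ρ x) := by
    intro x
    simp only [Nm, map_prod, hσ]
    have hbij : Function.Involutive σ := hσσ
    exact Fintype.prod_equiv hbij.toPerm _ _ (fun r => rfl) |>.symm
  have hw := H1 y hfix
  have hw1 : y * τ y = 1 := by
    have h1 := Nm_of_fix ρ hexp hodd hw
    rw [Nm_mul, hNy, one_mul, hNτ, hNy, map_one] at h1
    exact h1.symm
  have hτy : τ y = y := by
    have h1 : y * τ y = y * y := by rw [hw1, hexp]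
    exact mul_left_cancel h1
  -- the subgroup `I`
  let φ : A →* A := MonoidHom.id A * τ
  have hφ : ∀ v, φ v = v * τ v := fun v => rfl
  let I : Subgroup A := φ.range
  have hI : ∀ x, x ∈ I ↔ ∃ v, x = v * τ v := by
    intro x
    constructor
    · rintro ⟨v, rfl⟩
      exact ⟨v, rfl⟩
    · rintro ⟨v, rfl⟩
      exact ⟨v, rfl⟩
  -- the quotient
  let mk : A →* A ⧸ I := QuotientGroup.mk' I
  have hmk : ∀ x, mk x = 1 ↔ x ∈ I := fun x => QuotientGroup.eq_one_iff x
  have hexpq : ∀ x : A ⧸ I, x * x = 1 := by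
    intro x
    obtain ⟨x, rfl⟩ := QuotientGroup.mk_surjective x
    exact congrArg mk (hexp x)
  let g : Q → A ⧸ I := fun r => mk (ρ r y) * mk y
  have hg1 : ∀ r, g r * g (σ r) = 1 := by
    intro r
    have h1 : mk (ρ r y) * mk (ρ (σ r) y) = 1 := by
      rw [← map_mul, hmk, hI]
      refine ⟨ρ r y, ?_⟩
      rw [hσ, hτy]
    calc g r * g (σ r) = (mk (ρ r y) * mk (ρ (σ r) y)) * (mk y * mk y) := by
          simp only [g]; rw [mul_mul_mul_comm]
      _ = 1 := by rw [h1, hexpq, one_mul]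
  have hg3 : ∀ r, g r ≠ 1 → σ r ≠ r := by
    intro r hr hsr
    apply hr
    obtain ⟨v, hv⟩ := H2 y hfix hτy r hsr
    show mk (ρ r y) * mk y = 1
    rw [← map_mul, hmk, hI]
    exact ⟨v, hv⟩
  have hprod : ∏ r : Q, g r = 1 :=
    Finset.prod_involution (fun r _ => σ r) (fun r _ => hg1 r) (fun r _ => hg3 r)
      (fun r _ => Finset.mem_univ _) (fun r _ => hσσ r)
  have hprod2 : ∏ r : Q, g r = mk y := by
    simp only [g, Finset.prod_mul_distrib, Finset.prod_const, Finset.card_univ]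
    rw [← map_prod]
    have : ∏ r : Q, ρ r y = Nm ρ y := rfl
    rw [this, hNy, map_one, one_mul]
    obtain ⟨k, hk⟩ := hodd
    rw [hk, pow_succ, pow_mul, pow_two, hexpq, one_pow, one_mul]
  have hyI : y ∈ I := by
    rw [← hmk, ← hprod2, hprod]
  obtain ⟨v, hv⟩ := (hI y).1 hyI
  exact ⟨y, v, hfix, hv⟩

end abstractCore

section groupLevel

variable {G : Type*} [Group G]

/-- A `U`-element normalizing `Q` centralizes it. -/
theorem fix_of_norm {U Q : Subgroup G} [U.Normal] (hs : ∀ x ∈ U, x * x = 1) (hQ : IsPGroup 3 Q)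
    {w r : G} (hwU : w ∈ U) (hwN : w ∈ Subgroup.normalizer (Q : Set G)) (hr : r ∈ Q) :
    r * w * r⁻¹ = w := by
  have h1 : w * r * w⁻¹ ∈ Q := (Subgroup.mem_normalizer_iff.1 hwN r).1 hr
  have h2 : w * r * w⁻¹ * r⁻¹ ∈ Q := Q.mul_mem h1 (Q.inv_mem hr)
  have h3 : r * w⁻¹ * r⁻¹ ∈ U := ‹U.Normal›.conj_mem _ (U.inv_mem hwU) r
  have h4 : w * (r * w⁻¹ * r⁻¹) ∈ U := U.mul_mem hwU h3
  have e : w * (r * w⁻¹ * r⁻¹) = w * r * w⁻¹ * r⁻¹ := by group
  rw [e] at h4
  set c := w * r * w⁻¹ * r⁻¹ with hc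
  obtain ⟨k, hk⟩ := hQ ⟨c, h2⟩
  have hk' : c ^ (3 ^ k) = 1 := by
    have := congrArg Subtype.val hk
    simpa using this
  have hodd : Odd (3 ^ k) := Odd.pow (by decide)
  obtain ⟨m, hm⟩ := hodd
  have hc1 : c = 1 := by
    rw [hm, pow_succ, pow_mul, pow_two, hs c h4, one_pow, one_mul] at hk'
    exact hk'
  have h5 : w * r * w⁻¹ = r := by
    rw [hc] at hc1
    have := mul_inv_eq_one.1 hc1
    exact this
  have h6 : w * r = r * w := mul_inv_eq_iff_eq_mul.1 h5
  calc r * w * r⁻¹ = w * r * r⁻¹ := by rw [h6]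
    _ = w := by group

/-- The abelian group structure on `U`. -/
@[reducible] def commU (U : Subgroup G) (hc : ∀ x ∈ U, ∀ y ∈ U, x * y = y * x) : CommGroup U :=
  { (inferInstance : Group U) with mul_comm := fun a b => Subtype.ext (hc a a.2 b b.2) }

theorem core [Finite G] {U : Subgroup G} [hU : U.Normal] (hc : ∀ x ∈ U, ∀ y ∈ U, x * y = y * x)
    (hs : ∀ x ∈ U, x * x = 1) {Q : Subgroup G} (hQ : IsPGroup 3 Q) {d u : G} (hdd : d * d = 1)
    (hu : u ∈ U) (ht : u * d ∈ Subgroup.normalizer (Q : Set G))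
    (hF : ∀ r ∈ Q, ∀ x₀ ∈ U, r * d * r⁻¹ = x₀ * d → ∃ v ∈ U, v * d * v⁻¹ = x₀ * d) :
    ∃ v ∈ U, v * d * v⁻¹ ∈ Subgroup.normalizer (Q : Set G) := by
  classical
  let _ : CommGroup U := commU U hc
  let _ : Fintype Q := Fintype.ofFinite Q
  have hdi : d⁻¹ = d := inv_eq_of_mul_eq_one_left hdd
  -- conjugation on `U`
  let c : G → U →* U := fun g =>
    { toFun := fun x => ⟨g * x * g⁻¹, hU.conj_mem x x.2 g⟩
      map_one' := Subtype.ext (by simp)
      map_mul' := fun x y => Subtype.ext (by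
        show g * ((x : G) * (y : G)) * g⁻¹ = g * x * g⁻¹ * (g * y * g⁻¹)
        group) }
  have hcv : ∀ g x, ((c g x : U) : G) = g * x * g⁻¹ := fun _ _ => rfl
  have hcm : ∀ g h x, c (g * h) x = c g (c h x) := by
    intro g h x
    apply Subtype.ext
    simp only [hcv]
    group
  have hcU : ∀ (a : U) (x : U), c a x = x := by
    intro a x
    apply Subtype.ext
    rw [hcv, hc a a.2 x x.2]
    group
  have hcdd : ∀ x, c d (c d x) = x := by
    intro x
    rw [← hcm]
    apply Subtype.ext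
    rw [hcv, hdd]
    group
  set t := u * d with htdef
  have hcu : ∀ g (hg : g ∈ U) (x : U), c (g * d) x = c d x := by
    intro g hg x
    rw [hcm]
    exact hcU ⟨g, hg⟩ _
  -- `σ`
  have htr : ∀ r ∈ Q, t * r * t⁻¹ ∈ Q := fun r hr =>
    (Subgroup.mem_normalizer_iff.1 ht r).1 hr
  let σ : Q → Q := fun r => ⟨t * r * t⁻¹, htr r r.2⟩
  have hσv : ∀ r, ((σ r : Q) : G) = t * r * t⁻¹ := fun _ => rfl
  -- `t ^ 2` centralizes `Q`
  have htt : t * t ∈ U := by
    have h1 : t * t = u * (d * u * d⁻¹) := by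
      rw [htdef, hdi]
      calc u * d * (u * d) = u * (d * u * d) * (d * d) * d⁻¹ * d := by
            rw [hdd]
            group
        _ = u * (d * u * d) := by rw [hdd]; group
    rw [h1]
    exact U.mul_mem hu (hU.conj_mem u hu d)
  have httN : t * t ∈ Subgroup.normalizer (Q : Set G) := Subgroup.mul_mem _ ht ht
  have hσσ : ∀ r, σ (σ r) = r := by
    intro r
    apply Subtype.ext
    simp only [hσv]
    have h1 := fix_of_norm hs hQ htt httN r.2
    have h2 : t * t * r * (t * t)⁻¹ = r := by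
      have h3 : (r : G) * (t * t) = t * t * r := by
        calc (r : G) * (t * t) = r * (t * t) * (r : G)⁻¹ * r := by group
          _ = t * t * r := by rw [h1]
      calc t * t * r * (t * t)⁻¹ = (r : G) * (t * t) * (t * t)⁻¹ := by rw [h3]
        _ = r := by group
    calc t * (t * r * t⁻¹) * t⁻¹ = t * t * r * (t * t)⁻¹ := by group
      _ = r := h2
  have hσ : ∀ (r : Q) x, c d (c r x) = c (σ r) (c d x) := by
    intro r x
    rw [← hcu u hu x, ← htdef]
    rw [← hcu u hu (c r x), ← htdef, ← hcm, ← hcm]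
    congr 1
    simp only [hσv]
    group
  have hodd : Odd (Fintype.card Q) := by
    rw [← Nat.card_eq_fintype_card]
    obtain ⟨k, hk⟩ := IsPGroup.iff_card.1 hQ
    rw [hk]
    exact Odd.pow (by decide)
  have hexp : ∀ x : U, x * x = 1 := fun x => Subtype.ext (hs x x.2)
  -- a fixed element normalizes `Q`
  have hfN : ∀ f : U, (∀ r : Q, c r f = f) → ∀ r : Q, (f : G) * r * (f : G)⁻¹ = r := by
    intro f hf r
    have h1 : (r : G) * f * (r : G)⁻¹ = f := congrArg Subtype.val (hf r)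
    have h2 : (r : G) * f = f * r := by
      calc (r : G) * f = (r : G) * f * (r : G)⁻¹ * r := by group
        _ = f * r := by rw [h1]
    calc (f : G) * r * (f : G)⁻¹ = (r : G) * f * (f : G)⁻¹ := by rw [h2]
      _ = r := by group
  have hfM : ∀ f : U, (∀ r : Q, c r f = f) → (f : G) ∈ Subgroup.normalizer (Q : Set G) := by
    intro f hf
    rw [Subgroup.mem_normalizer_iff]
    intro r
    constructor
    · intro hr
      have := hfN f hf ⟨r, hr⟩
      show (f : G) * r * (f : G)⁻¹ ∈ Q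
      rw [this]
      exact hr
    · intro hr
      have := hfN f hf ⟨_, hr⟩
      have e : (f : G) * r * (f : G)⁻¹ = r := by
        have e2 : (f : G) * ((f : G) * r * (f : G)⁻¹) * (f : G)⁻¹ = (f : G) * r * (f : G)⁻¹ := this
        have e3 := mul_left_cancel (mul_right_cancel e2)
        exact e3
      rw [← e]
      exact hr
  have hu2 : u * u = 1 := hs u hu
  have hyt : ∀ y : U, (y : G) * d = ((y * ⟨u, hu⟩ : U) : G) * t := by
    intro y
    show (y : G) * d = (y : G) * u * (u * d)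
    calc (y : G) * d = (y : G) * (u * u) * d := by rw [hu2, mul_one]
      _ = _ := by group
  have hww : ∀ y : U, (y : G) * d * ((y : G) * d) = ((y * c d y : U) : G) := by
    intro y
    show (y : G) * d * ((y : G) * d) = (y : G) * (d * y * d⁻¹)
    rw [hdi]
    group
  have H1 : ∀ y : U, (∀ r : Q, c r (y * ⟨u, hu⟩) = y * ⟨u, hu⟩) →
      ∀ r : Q, c r (y * c d y) = y * c d y := by
    intro y hf r
    have h1 : (y : G) * d ∈ Subgroup.normalizer (Q : Set G) := by
      rw [hyt y]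
      exact Subgroup.mul_mem _ (hfM _ hf) ht
    have h2 : ((y * c d y : U) : G) ∈ Subgroup.normalizer (Q : Set G) := by
      rw [← hww y]
      exact Subgroup.mul_mem _ h1 h1
    apply Subtype.ext
    exact fix_of_norm hs hQ (y * c d y).2 h2 r.2
  have H2 : ∀ y : U, (∀ r : Q, c r (y * ⟨u, hu⟩) = y * ⟨u, hu⟩) → c d y = y → ∀ r : Q, σ r = r →
      ∃ v : U, c r y * y = v * c d v := by
    intro y hf hdy r hsr
    have h1 : t * r * t⁻¹ = r := congrArg Subtype.val hsr
    have h2 := hfN _ hf r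
    have h3 : ((y : G) * d) * r * ((y : G) * d)⁻¹ = r := by
      rw [hyt y]
      calc ((y * ⟨u, hu⟩ : U) : G) * t * r * (((y * ⟨u, hu⟩ : U) : G) * t)⁻¹
          = ((y * ⟨u, hu⟩ : U) : G) * (t * r * t⁻¹) * (((y * ⟨u, hu⟩ : U) : G))⁻¹ := by group
        _ = r := by rw [h1, h2]
    have h4 : (r : G) * ((y : G) * d) * (r : G)⁻¹ = (y : G) * d := by
      have h5 : ((y : G) * d) * r = r * ((y : G) * d) := mul_inv_eq_iff_eq_mul.1 h3
      rw [← h5]
      group
    have hyy : (y : G) * y = 1 := hs y y.2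
    have hyi : (y : G)⁻¹ = y := inv_eq_of_mul_eq_one_left hyy
    have h6 : (r : G) * d * (r : G)⁻¹ = ((c r y * y : U) : G) * d := by
      show (r : G) * d * (r : G)⁻¹ = ((r : G) * y * (r : G)⁻¹) * y * d
      have h7 : (r : G) * d * (r : G)⁻¹ = (r : G) * y * (r : G)⁻¹ * ((r : G) * ((y : G) * d) * (r : G)⁻¹) := by
        calc (r : G) * d * (r : G)⁻¹ = (r : G) * ((y : G) * y) * d * (r : G)⁻¹ := by rw [hyy, mul_one]
          _ = _ := by group
      rw [h7, h4]
      group
    obtain ⟨v, hvU, hv⟩ := hF r r.2 _ (c r y * y).2 h6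
    refine ⟨⟨v, hvU⟩, ?_⟩
    apply Subtype.ext
    show ((c r y * y : U) : G) = v * (d * v * d⁻¹)
    have h8 : v⁻¹ = v := inv_eq_of_mul_eq_one_left (hs v hvU)
    rw [h8] at hv
    rw [hdi]
    calc ((c r y * y : U) : G) = ((c r y * y : U) : G) * d * d := by rw [mul_assoc, hdd, mul_one]
      _ = v * d * v * d := by rw [hv]
      _ = v * (d * v * d) := by group
  obtain ⟨y, v, hfix, hyv⟩ := abs_core hexp (fun r : Q => c r) (fun r s x => hcm r s x) (c d) σ hσσ hσ
    hodd ⟨u, hu⟩ H1 H2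
  refine ⟨v, v.2, ?_⟩
  have h1 : (v : G) * d * (v : G)⁻¹ = (y : G) * d := by
    have h2 : (y : G) = v * (d * v * d⁻¹) := congrArg Subtype.val hyv
    have h3 : (v : G)⁻¹ = v := inv_eq_of_mul_eq_one_left (hs v v.2)
    rw [h2, hdi, h3]
    have : (v : G) * (d * v * d) * d = v * d * v * (d * d) := by group
    rw [this, hdd, mul_one]
  rw [h1, hyt y]
  exact Subgroup.mul_mem _ (hfM _ hfix) ht

theorem perm_key : ∀ σ : Equiv.Perm (Fin 4), σ = Equiv.swap 1 2 * (Equiv.swap 2 3 * Equiv.swap 0 1) * (Equiv.swap 1 2)⁻¹ * (Equiv.swap 2 3 * Equiv.swap 0 1)⁻¹ →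
    σ * Equiv.swap 0 1 * σ⁻¹ = Equiv.swap 2 3 := by
  rintro _ rfl
  decide +kernel

/-- **Fact F**. -/
theorem factF {D : Set G} (hD : IsThreeTranspositionClass D) (hD2 : ∃ a ∈ D, ∃ b ∈ D, a ≠ b) {d : G}
    (hd : d ∈ D) (hV : {y : G | y ∈ D ∧ Commute d y} = {v : G | v ∈ D ∧ ∀ e ∈ D, Commute v e ↔ Commute d e})
    {U : Subgroup G} [hU : U.Normal] (hs : ∀ x ∈ U, x * x = 1) {x₀ : G} (hx₀ : x₀ ∈ U) (he : x₀ * d ∈ D) :
    ∃ v ∈ U, v * d * v⁻¹ = x₀ * d := by
  have hT : TT D := TT.of_class hD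
  have hdd := hT.sq d hd
  set e := x₀ * d with hedef
  by_cases hne : e = d
  · refine ⟨1, U.one_mem, ?_⟩
    rw [hne]
    group
  have hde : Commute d e := by
    have h1 : e * d = x₀ := by
      rw [hedef, mul_assoc, hdd, mul_one]
    have h2 : (e * d) * (e * d) = 1 := by
      rw [h1]
      exact hs x₀ hx₀
    have hei : e⁻¹ = e := hT.inv_eq he
    have hdi : d⁻¹ = d := hT.inv_eq hd
    have h3 : e * d = (e * d)⁻¹ := eq_inv_of_mul_eq_one_left h2
    rw [mul_inv_rev, hei, hdi] at h3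
    exact h3.symm
  have hmem : e ∈ {y : G | y ∈ D ∧ Commute d y} := ⟨he, hde⟩
  rw [hV] at hmem
  obtain ⟨a, ha, hda⟩ := exists_anti hD hD2 hd
  have hae : ¬ Commute a e := by
    intro k
    exact hda ((hmem.2 a ha).1 k.symm)
  obtain ⟨φ, -, h0, h1, h2⟩ := Cfsg.Agent.S5344.result hD.1 hd ha he (fun k => hne k.symm) hde hda hae
  have hx₀e : x₀ = e * d := by rw [hedef, mul_assoc, hdd, mul_one]
  refine ⟨a * x₀ * a⁻¹ * x₀⁻¹, U.mul_mem (hU.conj_mem _ hx₀ a) (U.inv_mem hx₀), ?_⟩
  have hkey := perm_key _ rfl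
  have hval := congrArg φ hkey
  simp only [map_mul, map_inv, h0, h1, h2] at hval
  rw [hx₀e]
  exact hval

/-- Two Sylow subgroups with the same product with a normal subgroup are conjugate by it. -/
theorem conj_of_sup [Finite G] {p : ℕ} [Fact p.Prime] {U : Subgroup G} [U.Normal] {P₁ P₂ : Sylow p G}
    (h : (P₁ : Subgroup G) ⊔ U = (P₂ : Subgroup G) ⊔ U) : ∃ u ∈ U, u • P₁ = P₂ := by
  set M : Subgroup G := (P₁ : Subgroup G) ⊔ U with hM
  have h1 : (P₁ : Subgroup G) ≤ M := le_sup_left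
  have h2 : (P₂ : Subgroup G) ≤ M := by rw [h]; exact le_sup_left
  obtain ⟨x, hx⟩ := MulAction.exists_smul_eq M (P₁.subtype h1) (P₂.subtype h2)
  rw [Sylow.smul_subtype] at hx
  have hx' : (x : G) • P₁ = P₂ := Sylow.subtype_injective hx
  have hxm : (x : G) ∈ ((U ⊔ (P₁ : Subgroup G) : Subgroup G) : Set G) := by
    rw [sup_comm]
    exact x.2
  rw [Subgroup.normal_mul] at hxm
  obtain ⟨u, hu, q, hq, hqu⟩ := Set.mem_mul.1 hxm
  refine ⟨u, hu, ?_⟩
  rw [← hx', ← hqu, mul_smul]
  congr 1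
  exact (Sylow.smul_eq_iff_mem_normalizer.2 (Subgroup.le_normalizer hq)).symm

end groupLevel


universe u

/-- the main induction -/
theorem main_ind (n : ℕ) : ∀ (G : Type u) [Group G] [Finite G] (D : Set G)
    (_ : IsThreeTranspositionClass D) (_ : ∃ a ∈ D, ∃ b ∈ D, a ≠ b) (d : G) (_ : d ∈ D)
    (_ : {y : G | y ∈ D ∧ Commute d y} = {v : G | v ∈ D ∧ ∀ e ∈ D, Commute v e ↔ Commute d e})
    (_ : Nat.card G = n),
    ∃ P : Sylow 3 G, d ∈ Subgroup.normalizer (P : Set G) ∧
      Subgroup.zpowers d ⊔ (P : Subgroup G) ⊔ Cfsg.pCore 2 G = ⊤ := by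
  induction n using Nat.strong_induction_on with
  | _ n ih =>
  intro G _ _ D hD hD2 d hd hV hn
  classical
  have hT : TT D := TT.of_class hD
  have hdd := hT.sq d hd
  haveI f2 : Fact (Nat.Prime 2) := ⟨Nat.prime_two⟩
  haveI f3 : Fact (Nat.Prime 3) := ⟨Nat.prime_three⟩
  by_cases h2 : Cfsg.pCore 2 G = ⊥
  · -- no normal 2-subgroup
    have hanti : ∀ x ∈ D, ∀ y ∈ D, x ≠ y → ¬ Commute x y := by
      intro x hx y hy hne hc
      obtain ⟨g, rfl⟩ := exists_conj hD hd hx
      have hy' : g⁻¹ * y * g ∈ D := by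
        have := hT.conj g⁻¹ y hy
        rwa [inv_inv] at this
      have e : y = g * (g⁻¹ * y * g) * g⁻¹ := by group
      have hc' : Commute d (g⁻¹ * y * g) := by
        rw [e] at hc
        exact (commute_conj_iff g _ _).1 hc
      have hm : g⁻¹ * y * g ∈ {y : G | y ∈ D ∧ Commute d y} := ⟨hy', hc'⟩
      rw [hV] at hm
      have hiv : IsV D d (g⁻¹ * y * g) := fun z hz => (hm.2 z hz).symm
      have h1 := Cfsg.Agent.Lib.Fischer.VClass.mul_mem_pCore hT hd hy' hiv
      rw [h2, Subgroup.mem_bot] at h1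
      have h3 : g⁻¹ * y * g = d := (eq_inv_of_mul_eq_one_right h1).trans (hT.inv_eq hd)
      apply hne
      rw [← h3] 
      group
    have hG : IsThreeTranspositionGroup D := ⟨hD.1, fun g x hx => hT.conj g x hx, hD.2.2⟩
    have hw : Cfsg.commutingWidth D = 1 :=
      (Cfsg.Agent.Lib.Fischer.Width1.width_eq_one_iff ⟨d, hd⟩).2 hanti
    have htop := (Cfsg.Agent.S5346.result hG hd).1 hw
    have hpg : IsPGroup 3 (Cfsg.pCore 3 G) := pCore_isPGroup 3
    have hnorm : (Cfsg.pCore 3 G).Normal := pCore_normal 3 G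
    have hidx : ¬ 3 ∣ (Cfsg.pCore 3 G).index := by
      intro h3
      have h4 : (Cfsg.pCore 3 G).relIndex (Subgroup.zpowers d ⊔ Cfsg.pCore 3 G) =
          (Cfsg.pCore 3 G).relIndex (Subgroup.zpowers d) := Subgroup.relIndex_sup_right _ _
      rw [htop, Subgroup.relIndex_top_right] at h4
      have h5 : (Cfsg.pCore 3 G).relIndex (Subgroup.zpowers d) ∣ Nat.card (Subgroup.zpowers d) :=
        Subgroup.relIndex_dvd_card _ _
      rw [← h4, Nat.card_zpowers] at h5
      have h6 : orderOf d = 2 := hD.1.1 d hd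
      rw [h6] at h5
      have := Nat.dvd_trans h3 h5
      omega
    refine ⟨hpg.toSylow hidx, ?_, ?_⟩
    · show d ∈ Subgroup.normalizer ((Cfsg.pCore 3 G : Subgroup G) : Set G)
      rw [Subgroup.mem_normalizer_iff]
      intro r
      exact ⟨fun hr => hnorm.conj_mem r hr d, fun hr => by
        have := hnorm.conj_mem _ hr d⁻¹
        have e : d⁻¹ * (d * r * d⁻¹) * d⁻¹⁻¹ = r := by group
        rwa [e] at this⟩
    · rw [eq_top_iff, ← htop]
      exact le_sup_left
  · -- a normal elementary abelian 2-subgroup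
    have hpg2 : IsPGroup 2 (Cfsg.pCore 2 G) := pCore_isPGroup 2
    have hnorm2 : (Cfsg.pCore 2 G).Normal := pCore_normal 2 G
    obtain ⟨z₀, hz₀O, hz₀c, hz₀2, hz₀ne⟩ : ∃ z : G, z ∈ Cfsg.pCore 2 G ∧ (∀ y ∈ Cfsg.pCore 2 G, z * y = y * z) ∧
        z * z = 1 ∧ z ≠ 1 := by
      haveI : Nontrivial ↥(Cfsg.pCore 2 G) := (Subgroup.nontrivial_iff_ne_bot _).2 h2
      haveI := hpg2.center_nontrivial
      have hpc : IsPGroup 2 (Subgroup.center ↥(Cfsg.pCore 2 G)) := hpg2.to_subgroup _
      obtain ⟨k, hk⟩ := IsPGroup.iff_card.1 hpc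
      have hk0 : k ≠ 0 := by
        rintro rfl
        have := Finite.one_lt_card (α := Subgroup.center ↥(Cfsg.pCore 2 G))
        rw [hk] at this
        simp at this
      have hdvd : 2 ∣ Nat.card (Subgroup.center ↥(Cfsg.pCore 2 G)) := by
        rw [hk]
        exact dvd_pow_self 2 hk0
      obtain ⟨x, hx⟩ := exists_prime_orderOf_dvd_card' 2 hdvd
      refine ⟨((x : ↥(Cfsg.pCore 2 G)) : G), (x : ↥(Cfsg.pCore 2 G)).2, ?_, ?_, ?_⟩
      · intro y hy
        have := (Subgroup.mem_center_iff.1 x.2) ⟨y, hy⟩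
        exact (congrArg Subtype.val this).symm
      · have h3 : x ^ 2 = 1 := by
          have h33 := pow_orderOf_eq_one x
          rwa [hx] at h33
        rw [pow_two] at h3
        exact congrArg (fun w : Subgroup.center ↥(Cfsg.pCore 2 G) => ((w : ↥(Cfsg.pCore 2 G)) : G)) h3
      · intro h3
        have h4 : x = 1 := by
          apply Subtype.ext
          apply Subtype.ext
          exact h3
        rw [h4, orderOf_one] at hx
        omega
    let U : Subgroup G :=
      { carrier := {x | x ∈ Cfsg.pCore 2 G ∧ (∀ y ∈ Cfsg.pCore 2 G, x * y = y * x) ∧ x * x = 1}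
        one_mem' := ⟨Subgroup.one_mem _, fun y _ => by simp, by simp⟩
        mul_mem' := by
          rintro a b ⟨ha, hac, has⟩ ⟨hb, hbc, hbs⟩
          refine ⟨Subgroup.mul_mem _ ha hb, ?_, ?_⟩
          · intro y hy
            rw [mul_assoc, hbc y hy, ← mul_assoc, hac y hy, mul_assoc]
          · calc a * b * (a * b) = a * (b * a) * b := by group
              _ = a * (a * b) * b := by rw [hac b hb]
              _ = (a * a) * (b * b) := by group
              _ = 1 := by rw [has, hbs, one_mul]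
        inv_mem' := by
          rintro a ⟨ha, hac, has⟩
          have hai : a⁻¹ = a := inv_eq_of_mul_eq_one_left has
          rw [Set.mem_setOf_eq, hai]
          exact ⟨ha, hac, has⟩ }
    have hUmem : ∀ x, x ∈ U ↔ x ∈ Cfsg.pCore 2 G ∧ (∀ y ∈ Cfsg.pCore 2 G, x * y = y * x) ∧ x * x = 1 :=
      fun x => Iff.rfl
    haveI hUn : U.Normal := by
      constructor
      rintro x ⟨hx, hxc, hxs⟩ g
      rw [hUmem]
      refine ⟨hnorm2.conj_mem x hx g, ?_, ?_⟩
      · intro y hy
        have h1 : g⁻¹ * y * g ∈ Cfsg.pCore 2 G := by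
          have := hnorm2.conj_mem y hy g⁻¹
          rwa [inv_inv] at this
        have h3 := hxc _ h1
        calc g * x * g⁻¹ * y = g * (x * (g⁻¹ * y * g)) * g⁻¹ := by group
          _ = g * ((g⁻¹ * y * g) * x) * g⁻¹ := by rw [h3]
          _ = y * (g * x * g⁻¹) := by group
      · calc g * x * g⁻¹ * (g * x * g⁻¹) = g * (x * x) * g⁻¹ := by group
          _ = 1 := by rw [hxs]; group
    have hUc : ∀ x ∈ U, ∀ y ∈ U, x * y = y * x := fun x hx y hy => hx.2.1 y hy.1
    have hUs : ∀ x ∈ U, x * x = 1 := fun x hx => hx.2.2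
    have hUO : U ≤ Cfsg.pCore 2 G := fun x hx => hx.1
    have hz₀U : z₀ ∈ U := ⟨hz₀O, hz₀c, hz₀2⟩
    let q : G →* G ⧸ U := QuotientGroup.mk' U
    have hq : Function.Surjective q := QuotientGroup.mk'_surjective U
    have hqk : ∀ x, q x = 1 ↔ x ∈ U := fun x => QuotientGroup.eq_one_iff x
    have hker : q.ker = U := QuotientGroup.ker_mk' U
    have hprodU : ∀ x ∈ D, ∀ y ∈ D, x * y ∈ U → Commute x y := by
      intro x hx y hy hxy
      have h1 := hUs _ hxy
      have h3 : x * y = (x * y)⁻¹ := eq_inv_of_mul_eq_one_left h1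
      rw [mul_inv_rev, hT.inv_eq hx, hT.inv_eq hy] at h3
      exact h3
    have hcq : ∀ x ∈ D, ∀ y ∈ D, Commute (q x) (q y) → Commute x y := by
      intro x hx y hy hc
      by_contra hn
      have h1 : (x * y) * (x * y) * (x * y) = 1 := by
        calc (x * y) * (x * y) * (x * y) = (x * y * x) * (y * x * y) := by group
          _ = (x * y * x) * (x * y * x) := by rw [hT.braid hx hy hn]
          _ = 1 := hT.sq _ (hT.tp_mem hx hy)
      have h3 : q ((x * y) * (x * y)) = 1 := by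
        have hxx : q x * q x = 1 := by rw [← map_mul, hT.sq x hx, map_one]
        have hyy : q y * q y = 1 := by rw [← map_mul, hT.sq y hy, map_one]
        simp only [map_mul]
        calc q x * q y * (q x * q y) = q x * (q y * q x) * q y := by group
          _ = q x * (q x * q y) * q y := by rw [hc.symm.eq]
          _ = (q x * q x) * (q y * q y) := by group
          _ = 1 := by rw [hxx, hyy, one_mul]
      have h4 := (hqk _).1 h3
      have h5 : x * y = ((x * y) * (x * y))⁻¹ := by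
        exact eq_inv_of_mul_eq_one_right h1
      have h6 : x * y ∈ U := by
        rw [h5]
        exact U.inv_mem h4
      exact hn (hprodU x hx y hy h6)
    have hnotU : ∀ x ∈ D, x ∉ U := by
      intro x hx hxU
      obtain ⟨a, ha, hxa⟩ := exists_anti hD hD2 hx
      have hax : ¬ Commute a x := fun k => hxa k.symm
      have h1 : a * x * a⁻¹ ∈ U := hUn.conj_mem x hxU a
      rw [hT.inv_eq ha] at h1
      exact hT.anti_tp_self ha hx hax (hprodU x hx _ (hT.tp_mem ha hx) (U.mul_mem hxU h1))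
    have hD' : IsThreeTranspositionClass (q '' D) := by
      refine ⟨⟨?_, ?_⟩, ⟨q d, ⟨d, hd, rfl⟩, ?_⟩, ?_⟩
      · rintro _ ⟨x, hx, rfl⟩
        apply orderOf_eq_prime
        · rw [pow_two, ← map_mul, hT.sq x hx, map_one]
        · intro h3
          exact hnotU x hx ((hqk x).1 h3)
      · rintro _ ⟨x, hx, rfl⟩ _ ⟨y, hy, rfl⟩
        rcases hD.1.2 x hx y hy with h3 | h3
        · left
          rw [← map_mul, ← map_pow, h3, map_one]
        · right
          rw [← map_mul, ← map_pow, h3, map_one]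
      · ext y
        constructor
        · rintro ⟨x, hx, rfl⟩
          obtain ⟨g, rfl⟩ := exists_conj hD hd hx
          show IsConj (q d) (q (g * d * g⁻¹))
          rw [isConj_iff]
          exact ⟨q g, by simp⟩
        · intro hy
          obtain ⟨gb, rfl⟩ := isConj_iff.1 (show IsConj (q d) y from hy)
          obtain ⟨g, rfl⟩ := hq gb
          exact ⟨g * d * g⁻¹, hT.conj g d hd, by simp⟩
      · rw [← MonoidHom.map_closure, hD.2.2, ← MonoidHom.range_eq_map, MonoidHom.range_eq_top]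
        exact hq
    obtain ⟨a₀, ha₀, hda₀⟩ := exists_anti hD hD2 hd
    have hD2' : ∃ a ∈ q '' D, ∃ b ∈ q '' D, a ≠ b := by
      refine ⟨q d, ⟨d, hd, rfl⟩, q a₀, ⟨a₀, ha₀, rfl⟩, ?_⟩
      intro h3
      apply hda₀
      apply hcq d hd a₀ ha₀
      rw [h3]
    have hV' : {y : G ⧸ U | y ∈ q '' D ∧ Commute (q d) y} =
        {v : G ⧸ U | v ∈ q '' D ∧ ∀ e ∈ q '' D, Commute v e ↔ Commute (q d) e} := by
      ext y
      constructor
      · rintro ⟨⟨y, hy, rfl⟩, hc⟩
        refine ⟨⟨y, hy, rfl⟩, ?_⟩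
        have hc' := hcq d hd y hy hc
        have hm : y ∈ {y : G | y ∈ D ∧ Commute d y} := ⟨hy, hc'⟩
        rw [hV] at hm
        rintro _ ⟨e, he, rfl⟩
        constructor
        · intro k
          exact ((hm.2 e he).1 (hcq y hy e he k)).map q
        · intro k
          exact ((hm.2 e he).2 (hcq d hd e he k)).map q
      · rintro ⟨hy, hc⟩
        refine ⟨hy, ?_⟩
        exact ((hc (q d) ⟨d, hd, rfl⟩).2 (Commute.refl _)).symm
    have hlt : Nat.card (G ⧸ U) < n := by
      have h3 := Subgroup.card_eq_card_quotient_mul_card_subgroup U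
      have h4 : 1 < Nat.card U := by
        rw [Subgroup.one_lt_card_iff_ne_bot]
        intro h5
        rw [h5, Subgroup.mem_bot] at hz₀U
        exact hz₀ne hz₀U
      have h5 : 0 < Nat.card (G ⧸ U) := Nat.card_pos
      rw [← hn, h3]
      nlinarith
    obtain ⟨Pb, hdb, hgen⟩ := ih _ hlt (G ⧸ U) (q '' D) hD' hD2' (q d) ⟨d, hd, rfl⟩ hV' rfl
    obtain ⟨Q, hQ⟩ := Sylow.mapSurjective_surjective hq 3 Pb
    have hQb : (Q : Subgroup G).map q = (Pb : Subgroup (G ⧸ U)) := by
      rw [← hQ]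
      rfl
    have hQm : ∀ x, x ∈ (Q : Subgroup G) ⊔ U ↔ q x ∈ (Pb : Subgroup (G ⧸ U)) := by
      intro x
      rw [← hQb, ← Subgroup.mem_comap, Subgroup.comap_map_eq, hker]
    have hdbm : ∀ y, y ∈ (Pb : Subgroup (G ⧸ U)) ↔ q d * y * (q d)⁻¹ ∈ (Pb : Subgroup (G ⧸ U)) := by
      have : q d ∈ Subgroup.normalizer (((Pb : Subgroup (G ⧸ U))) : Set (G ⧸ U)) := hdb
      exact Subgroup.mem_normalizer_iff.1 this
    have hsup : (Q : Subgroup G) ⊔ U = ((d • Q : Sylow 3 G) : Subgroup G) ⊔ U := by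
      apply le_antisymm
      · apply sup_le _ le_sup_right
        intro x hx
        -- `x` modulo `U` is a conjugate by `d`
        have h3 : q x ∈ (Pb : Subgroup (G ⧸ U)) := (hQm x).1 (Subgroup.mem_sup_left hx)
        have h4 : q (d⁻¹ * x * d) ∈ (Pb : Subgroup (G ⧸ U)) := by
          refine (hdbm (q (d⁻¹ * x * d))).2 ?_
          have e : q d * q (d⁻¹ * x * d) * (q d)⁻¹ = q x := by
            rw [← map_inv, ← map_mul, ← map_mul]
            congr 1
            group
          rw [e]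
          exact h3
        have h5 := (hQm _).2 h4
        have h6 : (x : G) ∈ ((d • Q : Sylow 3 G) : Subgroup G) ⊔ U := by
          have e : x = d * (d⁻¹ * x * d) * d⁻¹ := by group
          rw [e]
          obtain ⟨r, hr, w, hw, hrw⟩ : ∃ r ∈ (Q : Subgroup G), ∃ w ∈ U, r * w = d⁻¹ * x * d := by
            have : (d⁻¹ * x * d) ∈ (((Q : Subgroup G) : Set G) * (U : Set G)) := by
              rw [← Subgroup.mul_normal]
              exact h5
            exact Set.mem_mul.1 this
          rw [← hrw]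
          have e2 : d * (r * w) * d⁻¹ = (d * r * d⁻¹) * (d * w * d⁻¹) := by group
          rw [e2]
          refine Subgroup.mul_mem _ (Subgroup.mem_sup_left ?_) (Subgroup.mem_sup_right (hUn.conj_mem w hw d))
          exact ⟨r, hr, rfl⟩
        exact h6
      · apply sup_le _ le_sup_right
        rintro _ ⟨r, hr, rfl⟩
        rw [hQm]
        have h3 : q r ∈ (Pb : Subgroup (G ⧸ U)) := (hQm r).1 (Subgroup.mem_sup_left hr)
        have h4 := (hdbm _).1 h3
        have e : q ((MulAut.conj d) r) = q d * q r * (q d)⁻¹ := by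
          rw [MulAut.conj_apply, map_mul, map_mul, map_inv]
        exact e ▸ h4
    obtain ⟨u, hu, hsm⟩ := conj_of_sup hsup
    have hu2 : u⁻¹ = u := inv_eq_of_mul_eq_one_left (hUs u hu)
    have ht : u * d ∈ Subgroup.normalizer ((Q : Subgroup G) : Set G) := by
      have h3 : (u * d) • Q = Q := by
        rw [mul_smul, ← hsm, ← mul_smul, hUs u hu, one_smul]
      exact Sylow.smul_eq_iff_mem_normalizer.1 h3
    have hQp : IsPGroup 3 (Q : Subgroup G) := Q.isPGroup'
    obtain ⟨v, hvU, hv⟩ := core hUc hUs hQp hdd hu ht (by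
      intro r hr x₀ hx₀ hrx
      have he : x₀ * d ∈ D := by
        rw [← hrx]
        exact hT.conj r d hd
      exact factF hD hD2 hd hV hUs hx₀ he)
    have hvi : v⁻¹ = v := inv_eq_of_mul_eq_one_left (hUs v hvU)
    refine ⟨v⁻¹ • Q, ?_, ?_⟩
    · have h3 : d • (v⁻¹ • Q) = v⁻¹ • Q := by
        have h4 : (v * d * v⁻¹) • Q = Q := Sylow.smul_eq_iff_mem_normalizer.2 hv
        calc d • (v⁻¹ • Q) = (v⁻¹ * (v * d * v⁻¹)) • Q := by
              rw [← mul_smul]
              congr 1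
              group
          _ = v⁻¹ • Q := by rw [mul_smul, h4]
      exact Sylow.smul_eq_iff_mem_normalizer.1 h3
    · set K : Subgroup G := Subgroup.zpowers d ⊔ ((v⁻¹ • Q : Sylow 3 G) : Subgroup G) ⊔ Cfsg.pCore 2 G with hKdef
      have hO : Cfsg.pCore 2 G ≤ K := le_sup_right
      have hK : ∀ x, q x ∈ K.map q → x ∈ K := by
        rintro x ⟨k, hk, hkx⟩
        have h3 : k⁻¹ * x ∈ U := by
          rw [← hqk, map_mul, map_inv, hkx]
          group
        have h4 : x = k * (k⁻¹ * x) := by group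
        rw [h4]
        exact K.mul_mem hk (hO (hUO h3))
      rw [eq_top_iff]
      intro x _
      apply hK
      have h5 : (⊤ : Subgroup (G ⧸ U)) ≤ K.map q := by
        rw [← hgen]
        refine sup_le (sup_le ?_ ?_) ?_
        · rw [Subgroup.zpowers_le]
          exact ⟨d, Subgroup.mem_sup_left (Subgroup.mem_sup_left (Subgroup.mem_zpowers d)), rfl⟩
        · intro pb hpb
          have hpb' : pb ∈ (Pb : Subgroup (G ⧸ U)) := hpb
          rw [← hQb] at hpb'
          obtain ⟨r, hr, rfl⟩ := hpb'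
          refine ⟨v⁻¹ * r * v⁻¹⁻¹, Subgroup.mem_sup_left (Subgroup.mem_sup_right ?_), ?_⟩
          · exact ⟨r, hr, rfl⟩
          · rw [inv_inv, map_mul, map_mul, map_inv, (hqk v).2 hvU]
            group
        · intro ob hob
          obtain ⟨o, rfl⟩ := hq ob
          refine ⟨o, hO ?_, rfl⟩
          have hup : IsPGroup 2 q.ker := by
            rw [hker]
            intro g
            refine ⟨1, ?_⟩
            apply Subtype.ext
            have := hUs g g.2
            simpa [pow_two] using this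
          have hc1 : IsPGroup 2 ((Cfsg.pCore 2 (G ⧸ U)).comap q) :=
            IsPGroup.comap_of_ker_isPGroup (pCore_isPGroup 2) q hup
          have hc2 : ((Cfsg.pCore 2 (G ⧸ U)).comap q).Normal :=
            Subgroup.Normal.comap (pCore_normal 2 (G ⧸ U)) q
          exact le_pCore hc2 hc1 hob
      exact h5 (Subgroup.mem_top _)


/-- Let D be a conjugacy class of 3-transpositions generating the finite group G, with at least two members, and d a member of D such that every member of D commuting with d commutes with exactly the same members of D as d. Then there is a Sylow 3-subgroup P of G normalized by d such that G is generated by d, P and the largest normal 2-subgroup of G. -/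
theorem result {G : Type*} [Group G] [Finite G] {D : Set G} (hD : Cfsg.IsThreeTranspositionClass D) (hD2 : ∃ a ∈ D, ∃ b ∈ D, a ≠ b) {d : G} (hd : d ∈ D) (hV : {y : G | y ∈ D ∧ Commute d y} = {v : G | v ∈ D ∧ ∀ e ∈ D, Commute v e ↔ Commute d e}) : ∃ P : Sylow 3 G, d ∈ Subgroup.normalizer (P : Set G) ∧ Subgroup.zpowers d ⊔ (P : Subgroup G) ⊔ Cfsg.pCore 2 G = ⊤ := by
  exact main_ind _ G D hD hD2 d hd hV rfl

end Cfsg.Agent.S5356
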