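import Cfsg.Statements.S5358
import Mathlib
-- import your own Cfsg.Agent.* helpers here

set_option autoImplicit false
open scoped MatrixGroups
open Cfsg

namespace Cfsg.Agent.S5358

theorem polarVec_dot {ι : Type} [Fintype ι] [DecidableEq ι] {F : Type*} [Field F]
    (Q : QuadraticForm F (ι → F)) (w x : ι → F) :
    Cfsg.polarVec (⇑Q) w ⬝ᵥ x = QuadraticMap.polar (⇑Q) w x := by
  have h := LinearMap.pi_apply_eq_sum_univ (QuadraticMap.polarBilin Q w) x
  rw [QuadraticMap.polarBilin_apply_apply] at h
  rw [h]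
  simp only [dotProduct, Cfsg.polarVec]
  apply Finset.sum_congr rfl
  intro j _
  rw [QuadraticMap.polarBilin_apply_apply, smul_eq_mul, mul_comm]
  congr 2
  funext k
  simp [Pi.single_apply, eq_comm]

theorem reflection_mulVec {ι : Type} [Fintype ι] [DecidableEq ι] {F : Type*} [Field F]
    (Q : QuadraticForm F (ι → F)) (w x : ι → F) :
    (Cfsg.reflectionMatrix (⇑Q) w).mulVec x =
      x - ((Q w)⁻¹ * QuadraticMap.polar (⇑Q) w x) • w := by
  unfold Cfsg.reflectionMatrix
  rw [Matrix.sub_mulVec, Matrix.one_mulVec, Matrix.smul_mulVec, Matrix.vecMulVec_mulVec,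
    polarVec_dot]
  ext i
  simp [mul_comm, mul_assoc, mul_left_comm]

/-- Let Q be a non-degenerate quadratic form on the n-dimensional coordinate space over the field with three elements and u, v vectors of the same non-zero norm Q(u) = Q(v) spanning different lines (v ≠ u and v ≠ −u). Then the reflection matrices of u and v commute if and only if u and v are orthogonal for the polar form of Q. -/
theorem result (n : ℕ) (Q : QuadraticForm (ZMod 3) (Fin n → ZMod 3)) (hQ : (QuadraticMap.polarBilin Q).Nondegenerate) (u v : Fin n → ZMod 3) (hu : Q u ≠ 0) (huv : Q u = Q v) (h1 : v ≠ u) (h2 : v ≠ -u) : Commute (Cfsg.reflectionMatrix (⇑Q) u) (Cfsg.reflectionMatrix (⇑Q) v) ↔ QuadraticMap.polar (⇑Q) u v = 0 := by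
  have hz3 : ∀ x : ZMod 3, x ≠ 0 → x = 1 ∨ x = -1 := by decide
  have h23 : (2 : ZMod 3) = -1 := by decide
  set a := (Q u)⁻¹ with ha
  have ha' : (Q v)⁻¹ = a := by rw [ha, huv]
  have ha0 : a ≠ 0 := inv_ne_zero hu
  have hpuu : a * QuadraticMap.polar (⇑Q) u u = -1 := by
    rw [QuadraticMap.polar_self, ha, nsmul_eq_mul]
    push_cast
    rw [h23]
    field_simp
  have hsymm : QuadraticMap.polar (⇑Q) v u = QuadraticMap.polar (⇑Q) u v :=
    QuadraticMap.polar_comm _ _ _
  constructor
  · intro hc
    by_contra hne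
    set c := QuadraticMap.polar (⇑Q) u v with hcdef
    have hcomm := congrArg (fun M => M.mulVec u) hc.eq
    simp only [← Matrix.mulVec_mulVec] at hcomm
    have e1 := reflection_mulVec Q v u
    rw [hsymm, ha'] at e1
    have e2 := reflection_mulVec Q u u
    rw [← ha, hpuu] at e2
    have e3 := reflection_mulVec Q u v
    rw [← ha, ← hcdef] at e3
    rw [e1, e2, Matrix.mulVec_sub, Matrix.mulVec_smul, Matrix.mulVec_sub, e2, e3, Matrix.mulVec_smul, e1] at hcomm
    have hac : a * c ≠ 0 := mul_ne_zero ha0 hne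
    have hv : v = (-(a * c)) • u := by
      funext i
      have h3 := congrFun hcomm i
      simp only [Pi.sub_apply, Pi.smul_apply, smul_eq_mul] at h3
      have h4 : (a * c) * (v i + (a * c) * u i) = 0 := by linear_combination h3
      rcases mul_eq_zero.1 h4 with h | h
      · exact absurd h hac
      · simp only [Pi.smul_apply, smul_eq_mul]; linear_combination h
    rcases hz3 (-(a * c)) (neg_ne_zero.2 hac) with h | h
    · rw [h, one_smul] at hv; exact h1 hv
    · rw [h, neg_one_smul] at hv; exact h2 hv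
  · intro hc
    have hc' : QuadraticMap.polar (⇑Q) v u = 0 := by rw [hsymm]; exact hc
    have hUV : Matrix.vecMulVec u (Cfsg.polarVec (⇑Q) u) * Matrix.vecMulVec v (Cfsg.polarVec (⇑Q) v) = 0 := by
      rw [Matrix.vecMulVec_mul_vecMulVec, polarVec_dot, hc]; simp
    have hVU : Matrix.vecMulVec v (Cfsg.polarVec (⇑Q) v) * Matrix.vecMulVec u (Cfsg.polarVec (⇑Q) u) = 0 := by
      rw [Matrix.vecMulVec_mul_vecMulVec, polarVec_dot, hc']; simp
    unfold Commute SemiconjBy Cfsg.reflectionMatrix
    rw [ha', ← ha]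
    simp only [sub_mul, mul_sub, smul_mul_assoc, mul_smul_comm, hUV, hVU, one_mul, mul_one,
      smul_zero]
    abel_nf

end Cfsg.Agent.S5358
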