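import Cfsg.Statements.S5359
import Mathlib
import Cfsg.Agent.Lib.Classical.Orth.ReflClass
-- import your own Cfsg.Agent.* helpers here

set_option autoImplicit false
open scoped MatrixGroups
open Cfsg

namespace Cfsg.Agent.S5359

/-- Let Q be a non-degenerate quadratic form on the n-dimensional coordinate space over the field with three elements, n odd and at least 5, and c a non-zero scalar. Then the subgroup of the isometry group of Q generated by the reflections in vectors of norm c has index 2 in the isometry group. -/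
theorem result (n : ℕ) (hn : 5 ≤ n) (hodd : Odd n) (Q : QuadraticForm (ZMod 3) (Fin n → ZMod 3)) (hQ : (QuadraticMap.polarBilin Q).Nondegenerate) (c : ZMod 3) (hc : c ≠ 0) : (Cfsg.reflectionSubgroup (⇑Q) c).index = 2 := by
  have h2 : (2 : ZMod 3) ≠ 0 := by decide
  have hcard : 5 ≤ Fintype.card (Fin n) := by simpa using hn
  have h1 := Cfsg.Agent.Lib.Classical.Orth.ReflClass.classGroup_index (Q := Q) hQ h2 (by omega)
    (Or.inr (Or.inl hcard)) hc
  have hsq : ∀ t : ZMod 3, t ≠ 0 → t ^ 2 = 1 := by decide
  have h3 : Cfsg.reflectionSubgroup (⇑Q) c = Cfsg.Agent.Lib.Classical.Orth.ReflClass.classGroup Q c := by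
    unfold Cfsg.reflectionSubgroup Cfsg.Agent.Lib.Classical.Orth.ReflClass.classGroup
    congr 1
    ext g
    constructor
    · rintro ⟨v, hv, hg⟩
      exact ⟨v, 1, one_ne_zero, by rw [hv]; ring, hg⟩
    · rintro ⟨v, t, ht, hv, hg⟩
      exact ⟨v, by rw [hv, hsq t ht, mul_one], hg⟩
  rw [h3]
  exact h1

end Cfsg.Agent.S5359
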