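import Cfsg.Statements.S5361
import Mathlib
import Cfsg.Agent.Lib.Fischer.Struct3

set_option autoImplicit false
open Cfsg
open Cfsg.Agent.Lib.Fischer.Basic Cfsg.Agent.Lib.Basic.PCore Cfsg.Agent.Lib.Components
open Cfsg.Agent.Lib.Fischer.Struct Cfsg.Agent.Lib.Fischer.Struct2 Cfsg.Agent.Lib.Fischer.Struct3
open scoped commutatorElement

namespace Cfsg.Agent.S5361

/-- Let D be a conjugacy class of 3-transpositions generating the finite group G, and suppose the centre of G is trivial and some two different members of D commute. Then the following are equivalent: (1) the commutator subgroup of G is simple (possibly of prime order); (2) G acts primitively on D by conjugation; (3) the largest normal 2-subgroup and the largest normal 3-subgroup of G are trivial and the commuting graph of D is connected. -/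
theorem result {G : Type*} [Group G] [Finite G] {D : Set G} (hD : Cfsg.IsThreeTranspositionClass D) (hZ : Subgroup.center G = ⊥) (hw : ∃ a ∈ D, ∃ b ∈ D, a ≠ b ∧ Commute a b) : (IsSimpleGroup (commutator G) ↔ Cfsg.IsPrimitiveUnderConj D) ∧ (Cfsg.IsPrimitiveUnderConj D ↔ (Cfsg.pCore 2 G = ⊥ ∧ Cfsg.pCore 3 G = ⊥ ∧ (Cfsg.commutingGraph D).Connected)) := by
  have h := TT.of_class hD
  have hD2 : ∃ a ∈ D, ∃ b ∈ D, a ≠ b := by
    obtain ⟨a, ha, b, hb, hab, -⟩ := hw
    exact ⟨a, ha, b, hb, hab⟩
  have hprim2 : IsPrimitiveUnderConj D → pCore 2 G = ⊥ ∧ pCore 3 G = ⊥ ∧ (commutingGraph D).Connected := by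
    intro hprim
    refine ⟨?_, ?_, (prim_structure hD hprim hw).2⟩
    · rw [← le_bot_iff, ← hZ]
      exact pCore_two_central hD hprim
    · rw [← le_bot_iff, ← hZ]
      exact pCore_three_central hD hprim hw
  have hstr2 : pCore 2 G = ⊥ ∧ pCore 3 G = ⊥ ∧ (commutingGraph D).Connected → IsPrimitiveUnderConj D := by
    rintro ⟨h2, h3, hconn⟩
    have h2' : pCore 2 G ≤ Subgroup.center G := by rw [h2]; exact bot_le
    have h3' : pCore 3 G ≤ Subgroup.center G := by rw [h3]; exact bot_le
    obtain ⟨L, hLn, hq, hF, -⟩ := structure_of_central hD hD2 h2' h3'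
    have hfit := fitting_le_center_of_two_three hD h2' h3'
    have hC := centralizer_le_center hLn hF hfit
    exact primitive_of_index_le_two hD hD2 h2' hLn hq hC (index_le_two_of_connected hD hD2 hLn hq hC hconn)
  refine ⟨⟨?_, ?_⟩, hprim2, hstr2⟩
  · -- simple => primitive
    intro hs
    apply Cfsg.Agent.Lib.Fischer.Prim.prim_of_simple hD hs
    by_contra hab
    push Not at hab
    obtain ⟨a, ha, b, hb, hne, hc⟩ := hw
    obtain ⟨g, rfl⟩ := exists_conj hD ha hb
    set b := g * a * g⁻¹ with hbdef
    -- the product of the commuting pair is a central involution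
    have hz : a * b ∈ commutator G := by
      have := Subgroup.commutator_mem_commutator (Subgroup.mem_top a) (Subgroup.mem_top g)
      rw [← commutator_def, commutatorElement_def, h.inv_eq ha] at this
      rwa [show a * b = a * g * a * g⁻¹ by rw [hbdef]; group]
    have hzz : (a * b) * (a * b) = 1 := by
      calc (a * b) * (a * b) = a * (b * a) * b := by group
        _ = a * (a * b) * b := by rw [hc.eq.symm]
        _ = (a * a) * (b * b) := by group
        _ = 1 := by rw [h.sq a ha, h.sq b hb, one_mul]
    have hz1 : a * b ≠ 1 := by
      intro k
      apply hne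
      calc a = a * b * b := by rw [mul_assoc, h.sq b hb, mul_one]
        _ = b := by rw [k, one_mul]
    set z : commutator G := ⟨a * b, hz⟩ with hzdef
    have hnz : (Subgroup.zpowers z).Normal := by
      refine ⟨fun n hn k => ?_⟩
      rw [hab k n]
      simpa using hn
    have hzt : Subgroup.zpowers z = ⊤ := by
      rcases hs.eq_bot_or_eq_top_of_normal _ hnz with e | e
      · exfalso
        rw [Subgroup.zpowers_eq_bot] at e
        exact hz1 (congrArg Subtype.val e)
      · exact e
    have hcomm : ∀ k : G, k * (a * b) * k⁻¹ = a * b := by
      intro k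
      have hk : k * (a * b) * k⁻¹ ∈ commutator G :=
        (inferInstance : (commutator G).Normal).conj_mem _ hz k
      have hmem : (⟨k * (a * b) * k⁻¹, hk⟩ : commutator G) ∈ Subgroup.zpowers z := by
        rw [hzt]; trivial
      obtain ⟨n, hn⟩ := Subgroup.mem_zpowers_iff.mp hmem
      have hzsq : z * z = 1 := Subtype.ext hzz
      rcases zpow_eq_one_or_eq hzsq n with e | e
      · exfalso
        rw [e] at hn
        have h1 : k * (a * b) * k⁻¹ = 1 := (congrArg Subtype.val hn).symm
        apply hz1
        have : a * b = k⁻¹ * (k * (a * b) * k⁻¹) * k := by group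
        rw [this, h1]
        group
      · rw [e] at hn
        exact (congrArg Subtype.val hn).symm
    apply hz1
    have hmem : a * b ∈ Subgroup.center G := by
      rw [Subgroup.mem_center_iff]
      intro k
      have := hcomm k
      calc k * (a * b) = k * (a * b) * k⁻¹ * k := by group
        _ = a * b * k := by rw [this]
    rw [hZ] at hmem
    exact hmem
  · -- primitive => simple
    intro hprim
    obtain ⟨⟨L, hLn, hq, hidx, hF⟩, -⟩ := prim_structure hD hprim hw
    have h2 := pCore_two_central hD hprim
    have h3 := pCore_three_central hD hprim hw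
    have hfit := fitting_le_center_of_two_three hD h2 h3
    have hperf : ⁅L, L⁆ = L := Subgroup.isPerfect_iff.mp hq.1
    -- `L` is the derived group
    have hcomm : commutator G = L := by
      apply le_antisymm
      · have hq2 : ∀ a b : G, ⁅a, b⁆ ∈ L := by
          intro a b
          have hi0 : L.index ≠ 0 := Subgroup.index_ne_zero_of_finite
          have hcases : L.index = 1 ∨ L.index = 2 := by omega
          rcases hcases with h1 | h1
          · rw [Subgroup.index_eq_one] at h1
            rw [h1]; trivial
          · rw [commutatorElement_def, Subgroup.mul_mem_iff_of_index_two h1,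
              Subgroup.mul_mem_iff_of_index_two h1, Subgroup.mul_mem_iff_of_index_two h1,
              Subgroup.inv_mem_iff, Subgroup.inv_mem_iff]
            tauto
        rw [commutator_def, Subgroup.commutator_le]
        intro a _ b _
        exact hq2 a b
      · rw [← hperf]
        rw [commutator_def]
        exact Subgroup.commutator_mono le_top le_top
    rw [hcomm]
    -- the centre of `L` is trivial
    have hZL : Subgroup.center L = ⊥ := by
      have hn : ((Subgroup.center L).map L.subtype).Normal :=
        map_subtype_normal_of_characteristic _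
      have hnil : Group.IsNilpotent ((Subgroup.center L).map L.subtype) := by
        letI : CommGroup ((Subgroup.center L).map L.subtype) :=
          { (inferInstance : Group ((Subgroup.center L).map L.subtype)) with
            mul_comm := by
              rintro ⟨_, x, hx, rfl⟩ ⟨_, y, hy, rfl⟩
              apply Subtype.ext
              show (x : G) * y = y * x
              exact congrArg Subtype.val (Subgroup.mem_center_iff.mp hy x) }
        exact CommGroup.isNilpotent
      have hle := (le_fittingSubgroup hn hnil).trans hfit
      rw [hZ] at hle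
      rw [eq_bot_iff]
      intro x hx
      have := hle ⟨x, hx, rfl⟩
      rw [Subgroup.mem_bot] at this
      rw [Subgroup.mem_bot]
      exact Subtype.ext this
    have hnt := Quasisimple.nontrivial_of_isQuasisimple hq
    refine ⟨fun H hH => ?_⟩
    rcases Quasisimple.eq_top_or_le_center_of_normal hq hH with e | e
    · exact Or.inr e
    · left
      rw [hZL] at e
      exact le_bot_iff.mp e

end Cfsg.Agent.S5361
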