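import Cfsg.Statements.S5363
import Mathlib
-- import your own Cfsg.Agent.* helpers here

set_option autoImplicit false
open Cfsg

namespace Cfsg.Agent.S5363

/-- Let D be a conjugation-invariant set of involutions of a finite group G. Then every product of two members of D has odd order or order 2 if and only if, for every a in D and every b in D different from a and commuting with a, the members of D commuting with a b are exactly those commuting with both a and b. -/
theorem result {G : Type*} [Group G] [Finite G] {D : Set G} (hinv : ∀ d ∈ D, orderOf d = 2) (hconj : ∀ g : G, ∀ d ∈ D, g * d * g⁻¹ ∈ D) : (∀ a ∈ D, ∀ b ∈ D, Odd (orderOf (a * b)) ∨ orderOf (a * b) = 2) ↔ ∀ a ∈ D, ∀ b ∈ D, b ≠ a → Commute a b → {y : G | y ∈ D ∧ Commute (a * b) y} = {y : G | y ∈ D ∧ Commute a y} ∩ {y : G | y ∈ D ∧ Commute b y} := by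
  classical
  have hsq : ∀ d ∈ D, d * d = 1 := by
    intro d hd
    have := pow_orderOf_eq_one d
    rw [hinv d hd, pow_two] at this
    exact this
  have hinv' : ∀ d ∈ D, d⁻¹ = d := fun d hd => inv_eq_of_mul_eq_one_left (hsq d hd)
  constructor
  · intro hyp a ha b hb hne hab
    ext y
    constructor
    · rintro ⟨hy, hcy⟩
      have hcay : Commute a y := by
        rcases hyp a ha y hy with hodd | h2
        · by_contra hnc
          have hm1 : orderOf (a * y) ≠ 1 := by
            intro h1
            apply hnc
            have h2 := orderOf_eq_one_iff.1 h1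
            have h3 : y = a := by
              have h4 : y = a⁻¹ := eq_inv_of_mul_eq_one_right h2
              rw [h4, hinv' a ha]
            rw [h3]
          have hyb : y * b * y⁻¹ ∈ D := hconj y b hb
          have hz1 : a * b ≠ 1 := by
            intro h
            apply hne
            have h4 : b = a⁻¹ := eq_inv_of_mul_eq_one_right h
            rw [h4, hinv' a ha]
          have hz2 : (a * b) ^ 2 = 1 := by
            rw [hab.mul_pow, pow_two, pow_two, hsq a ha, hsq b hb, one_mul]
          have hoz : orderOf (a * b) = 2 := orderOf_eq_prime hz2 hz1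
          have hcaz : Commute a (a * b) := (Commute.refl a).mul_right hab
          have hcw : Commute (a * y) (a * b) := hcaz.mul_left hcy.symm
          have hq : a * (y * b * y⁻¹) = (a * y) ^ 2 * (a * b) := by
            have hb' : b = a * (a * b) := by
              rw [← mul_assoc, hsq a ha, one_mul]
            have h5 : y * (a * (a * b)) * y⁻¹ = y * a * y⁻¹ * (a * b) := by
              have h6 : (a * b) * y⁻¹ = y⁻¹ * (a * b) := (hcy.inv_right).eq
              calc y * (a * (a * b)) * y⁻¹ = y * a * ((a * b) * y⁻¹) := by group
                _ = y * a * (y⁻¹ * (a * b)) := by rw [h6]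
                _ = y * a * y⁻¹ * (a * b) := by group
            nth_rewrite 1 [hb']
            rw [h5, hinv' y hy, pow_two]
            group
          have hcop : Nat.Coprime (orderOf (a * y)) 2 := Nat.coprime_two_right.2 hodd
          have hW : orderOf ((a * y) ^ 2) = orderOf (a * y) := hcop.orderOf_pow
          have hcW : Commute ((a * y) ^ 2) (a * b) := hcw.pow_left 2
          have hord : orderOf (a * (y * b * y⁻¹)) = orderOf (a * y) * 2 := by
            rw [hq, hcW.orderOf_mul_eq_mul_orderOf_of_coprime (by rw [hW, hoz]; exact hcop), hW, hoz]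
          rcases hyp a ha _ hyb with h7 | h7
          · rw [hord] at h7
            exact (Nat.not_odd_iff_even.2 (even_two.mul_left _)) h7
          · rw [hord] at h7
            apply hm1
            omega
        · have h3 : (a * y) ^ 2 = 1 := by
            rw [← h2]
            exact pow_orderOf_eq_one _
          rw [pow_two] at h3
          have h4 : a * y = y⁻¹ * a⁻¹ := by
            rw [← mul_inv_rev]
            exact eq_inv_of_mul_eq_one_left h3
          rw [hinv' a ha, hinv' y hy] at h4
          exact h4
      have hcby : Commute b y := by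
        have hb' : b = a * (a * b) := by
          rw [← mul_assoc, hsq a ha, one_mul]
        rw [hb']
        exact hcay.mul_left hcy
      exact ⟨⟨hy, hcay⟩, ⟨hy, hcby⟩⟩
    · rintro ⟨⟨hy, h1⟩, ⟨_, h2⟩⟩
      exact ⟨hy, h1.mul_left h2⟩
  · intro hyp a ha b hb
    by_contra hcon
    push Not at hcon
    obtain ⟨hnodd, hn2⟩ := hcon
    set r := a * b with hr
    clear_value r
    have hn0 : orderOf r ≠ 0 := (orderOf_pos r).ne'
    obtain ⟨k, hk⟩ := Nat.not_odd_iff_even.1 hnodd
    have hk0 : k ≠ 0 := by
      rintro rfl
      exact hn0 (by simpa using hk)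
    have hk1 : k ≠ 1 := by
      rintro rfl
      exact hn2 (by simpa using hk)
    have hrinv : r⁻¹ = b * a := by
      rw [hr, mul_inv_rev, hinv' a ha, hinv' b hb]
    have hsa : SemiconjBy a r r⁻¹ := by
      show a * r = r⁻¹ * a
      rw [hrinv, hr, ← mul_assoc, hsq a ha, one_mul, mul_assoc, hsq a ha, mul_one]
    have hxD : ∀ m : ℕ, a * r ^ m ∈ D ∧ a * r ^ (m + 1) ∈ D := by
      intro m
      induction m with
      | zero =>
        refine ⟨by simpa using ha, ?_⟩
        have : a * r ^ (0 + 1) = b := by
          rw [zero_add, pow_one, hr, ← mul_assoc, hsq a ha, one_mul]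
        rw [this]
        exact hb
      | succ m ih =>
        refine ⟨ih.2, ?_⟩
        have h1 : a * r ^ (m + 1 + 1) = r⁻¹ * (a * r ^ m) * r⁻¹⁻¹ := by
          have h2 : r⁻¹ * a = a * r := hsa.eq.symm
          calc a * r ^ (m + 1 + 1) = (a * r) * (r ^ m * r) := by group
            _ = (r⁻¹ * a) * (r ^ m * r⁻¹⁻¹) := by rw [h2, inv_inv]
            _ = r⁻¹ * (a * r ^ m) * r⁻¹⁻¹ := by group
        rw [h1]
        exact hconj _ _ ih.1
    set t := r ^ k with ht
    have ht2 : t * t = 1 := by
      rw [ht, ← pow_add, ← hk, pow_orderOf_eq_one]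
    have htinv : t⁻¹ = t := inv_eq_of_mul_eq_one_left ht2
    have ht1 : t ≠ 1 := by
      refine pow_ne_one_of_lt_orderOf hk0 ?_
      omega
    have hat : Commute a t := by
      have h1 : SemiconjBy a (r ^ k) (r⁻¹ ^ k) := hsa.pow_right k
      show a * t = t * a
      have h2 : r⁻¹ ^ k = t := by rw [inv_pow, ← ht, htinv]
      rw [h2] at h1
      exact h1.eq
    have hrt : Commute r t := (Commute.refl r).pow_right k
    have hbt : Commute b t := by
      have hb' : b = a * r := by rw [hr, ← mul_assoc, hsq a ha, one_mul]
      rw [hb']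
      exact hat.mul_left hrt
    have ha' : a * t ∈ D := (hxD k).1
    have hne : a * t ≠ a := by
      intro h
      exact ht1 (by simpa using h)
    have hcomm : Commute a (a * t) := (Commute.refl a).mul_right hat
    have hset := hyp a ha (a * t) ha' hne hcomm
    have hprod : a * (a * t) = t := by rw [← mul_assoc, hsq a ha, one_mul]
    rw [hprod] at hset
    have hbmem : b ∈ {y : G | y ∈ D ∧ Commute t y} := ⟨hb, hbt.symm⟩
    rw [hset] at hbmem
    have hab : Commute a b := hbmem.1.2
    have hr2 : r ^ 2 = 1 := by
      rw [hr, hab.mul_pow, pow_two, pow_two, hsq a ha, hsq b hb, one_mul]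
    have hdvd : orderOf r ∣ 2 := orderOf_dvd_of_pow_eq_one hr2
    have := Nat.le_of_dvd (by norm_num) hdvd
    omega

end Cfsg.Agent.S5363
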