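import Cfsg.Statements.S5364
import Mathlib
-- import your own Cfsg.Agent.* helpers here

set_option autoImplicit false
open Cfsg

namespace Cfsg.Agent.S5364

/-- Let D be a conjugation-invariant set of involutions of a finite group G and t an involution in the centre of G such that d t does not lie in D for any d in D. If the images of the members of D in G modulo the subgroup generated by t satisfy the 3-transposition order conditions (each has order 2 and any two have product of order at most 3), then so do the members of D. -/
theorem result {G : Type*} [Group G] [Finite G] {D : Set G} (hinv : ∀ d ∈ D, orderOf d = 2) (hconj : ∀ g : G, ∀ d ∈ D, g * d * g⁻¹ ∈ D) (t : G) (ht : orderOf t = 2) (htZ : t ∈ Subgroup.center G) (hDt : ∀ d ∈ D, d * t ∉ D) [(Subgroup.zpowers t).Normal] (himg : Cfsg.IsThreeTranspositionSet ((QuotientGroup.mk : G → G ⧸ Subgroup.zpowers t) '' D)) : Cfsg.IsThreeTranspositionSet D := by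
  have htt : t ^ 2 = 1 := by
    have := pow_orderOf_eq_one t
    rwa [ht] at this
  have hz : ∀ x ∈ Subgroup.zpowers t, x = 1 ∨ x = t := by
    rintro x ⟨k, hk⟩
    obtain rfl : t ^ k = x := hk
    have ht2 : t ^ (2 : ℤ) = 1 := by exact_mod_cast htt
    rcases Int.even_or_odd' k with ⟨c, rfl | rfl⟩
    · left
      rw [zpow_mul, ht2, one_zpow]
    · right
      rw [zpow_add, zpow_mul, ht2, one_zpow, one_mul, zpow_one]
  have hcomm : ∀ x : G, x * t = t * x := fun x => (Subgroup.mem_center_iff.mp htZ) x
  refine ⟨hinv, ?_⟩
  intro d hd e he
  have hdd : d * d = 1 := by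
    have := pow_orderOf_eq_one d
    rwa [hinv d hd, pow_two] at this
  have hee : e * e = 1 := by
    have := pow_orderOf_eq_one e
    rwa [hinv e he, pow_two] at this
  have hdinv : d⁻¹ = d := inv_eq_of_mul_eq_one_left hdd
  have heinv : e⁻¹ = e := inv_eq_of_mul_eq_one_left hee
  have hded : d * e * d ∈ D := by
    have := hconj d e he
    rwa [hdinv] at this
  have hede : e * d * e ∈ D := by
    have := hconj e d hd
    rwa [heinv] at this
  have himg2 := himg.2 (d : G ⧸ Subgroup.zpowers t) ⟨d, hd, rfl⟩ (e : G ⧸ Subgroup.zpowers t) ⟨e, he, rfl⟩
  rcases himg2 with h2 | h3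
  · have h : (d * e) ^ 2 ∈ Subgroup.zpowers t := by
      rw [← QuotientGroup.eq_one_iff]
      exact_mod_cast h2
    rcases hz _ h with h | h
    · exact Or.inl h
    · exfalso
      apply hDt e he
      have : e * t = d * e * d := by
        calc e * t = t * e := hcomm e
          _ = (d * e) ^ 2 * e := by rw [h]
          _ = d * e * d * (e * e) := by rw [pow_two]; group
          _ = d * e * d := by rw [hee, mul_one]
      rw [this]
      exact hded
  · have h : (d * e) ^ 3 ∈ Subgroup.zpowers t := by
      rw [← QuotientGroup.eq_one_iff]
      exact_mod_cast h3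
    rcases hz _ h with h | h
    · exact Or.inr h
    · exfalso
      apply hDt (e * d * e) hede
      have hyy : e * d * e * (e * d * e) = 1 := by
        have : e * d * e * (e * d * e) = e * d * (e * e) * d * e := by group
        rw [this, hee, mul_one, mul_assoc e d d, hdd, mul_one, hee]
      have : e * d * e * t = d * e * d := by
        calc e * d * e * t = t * (e * d * e) := hcomm _
          _ = (d * e) ^ 3 * (e * d * e) := by rw [h]
          _ = d * e * d * (e * d * e * (e * d * e)) := by
            rw [pow_succ, pow_two]; group
          _ = d * e * d := by rw [hyy, mul_one]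
      rw [this]
      exact hded

end Cfsg.Agent.S5364
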