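import Cfsg.Statements.S5366
import Mathlib
import Cfsg.Prelude.Def_FischerSpaces
-- import your own Cfsg.Agent.* helpers here

set_option autoImplicit false
open Cfsg

namespace Cfsg.Agent.S5366

open Cfsg.LineSystem

open Cfsg.LineSystem in
/-- third point relation -/
def Th {X : Type*} (L : Set (Set X)) (x y z : X) : Prop :=
  z ≠ x ∧ z ≠ y ∧ x ≠ y ∧ ({x, y, z} : Set X) ∈ L

section basics

variable {X : Type*} {L : Set (Set X)}

lemma th_swap {x y z : X} (h : Th L x y z) : Th L y x z := by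
  obtain ⟨h1, h2, h3, h4⟩ := h
  refine ⟨h2, h1, h3.symm, ?_⟩
  rwa [Set.insert_comm]

lemma th_rot {x y z : X} (h : Th L x y z) : Th L x z y := by
  obtain ⟨h1, h2, h3, h4⟩ := h
  refine ⟨h3.symm, h2.symm, h1.symm, ?_⟩
  rwa [Set.pair_comm]

lemma th_rot' {x y z : X} (h : Th L x y z) : Th L z y x :=
  th_swap (th_rot (th_swap h))

lemma th_unique (hPL : IsPartialLinear L) {x y z z' : X} (h : Th L x y z) (h' : Th L x y z') : z = z' := by
  obtain ⟨h1, h2, h3, h4⟩ := h
  obtain ⟨h1', h2', _, h4'⟩ := h'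
  have := hPL _ h4 _ h4' x y h3 (by simp) (by simp) (by simp) (by simp)
  have hz : z ∈ ({x, y, z'} : Set X) := by rw [← this]; simp
  simp only [Set.mem_insert_iff, Set.mem_singleton_iff] at hz
  rcases hz with hz | hz | hz
  · exact absurd hz h1
  · exact absurd hz h2
  · exact hz

lemma th_of_line (h3 : ∀ l ∈ L, l.ncard = 3) {l : Set X} (hl : l ∈ L) {x y : X} (hx : x ∈ l) (hy : y ∈ l) (hxy : x ≠ y) :
    ∃ z, Th L x y z ∧ l = {x, y, z} := by
  obtain ⟨a, b, c, hab, hac, hbc, rfl⟩ := Set.ncard_eq_three.mp (h3 l hl)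
  simp only [Set.mem_insert_iff, Set.mem_singleton_iff] at hx hy
  have key : ∀ z, ({x, y, z} : Set X) = {a, b, c} → z ≠ x → z ≠ y → ∃ z, Th L x y z ∧ ({a, b, c} : Set X) = {x, y, z} := by
    intro z hz h1 h2
    exact ⟨z, ⟨h1, h2, hxy, hz ▸ hl⟩, hz.symm⟩
  rcases hx with rfl | rfl | rfl <;> rcases hy with rfl | rfl | rfl <;> first | exact absurd rfl hxy | skip
  · exact key c rfl hac.symm hbc.symm
  · exact key b (by ext; simp; tauto) hab.symm hbc
  · exact key c (by ext; simp; tauto) hbc.symm hac.symm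
  · exact key a (by ext; simp; tauto) hab hac
  · exact key b (by ext; simp; tauto) hbc hab.symm
  · exact key a (by ext; simp; tauto) hac hab

lemma lineMap_of_th (hPL : IsPartialLinear L) {x y z : X} (h : Th L x y z) : lineMap L x y = z := by
  unfold lineMap
  have hex : ∃ z : X, z ≠ x ∧ z ≠ y ∧ x ≠ y ∧ ({x, y, z} : Set X) ∈ L := ⟨z, h⟩
  rw [dif_pos hex]
  exact th_unique hPL hex.choose_spec h

lemma lineMap_of_not {x y : X} (h : ¬ ∃ z, Th L x y z) : lineMap L x y = y := by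
  unfold lineMap
  have h' : ¬ ∃ z : X, z ≠ x ∧ z ≠ y ∧ x ≠ y ∧ ({x, y, z} : Set X) ∈ L := h
  rw [dif_neg h']

lemma lineMap_self {x : X} : lineMap L x x = x := by
  apply lineMap_of_not
  rintro ⟨z, _, _, h, _⟩
  exact h rfl

lemma lineMap_invol (hPL : IsPartialLinear L) (x y : X) : lineMap L x (lineMap L x y) = y := by
  by_cases h : ∃ z, Th L x y z
  · obtain ⟨z, hz⟩ := h
    rw [lineMap_of_th hPL hz, lineMap_of_th hPL (th_rot hz)]
  · rw [lineMap_of_not h, lineMap_of_not h]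

lemma isSubspace_span (S : Set X) : IsSubspace L (span L S) := by
  intro l hl x hx y hy hxy hxl hyl q hq
  simp only [span, Set.mem_sInter, Set.mem_setOf_eq] at hx hy ⊢
  intro T hT
  exact hT.2 l hl x (hx T hT) y (hy T hT) hxy hxl hyl hq

lemma subset_span (S : Set X) : S ⊆ span L S := by
  intro q hq
  simp only [span, Set.mem_sInter, Set.mem_setOf_eq]
  exact fun T hT => hT.1 hq

end basics

/-- what we need from a model plane -/
structure IsModel {Y : Type} (M : Set (Set Y)) (t : Y → Y → Y) : Prop where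
  t1 : ∀ x y z, Th M x y z → t x y = z
  t2 : ∀ x y, (¬ ∃ z, Th M x y z) → t x y = y
  m1 : ∀ x, ∀ n ∈ M, t x '' n ∈ M
  m2 : ∀ x y, (∃ z, Th M x y z) → ∀ u, t x (t y (t x (t y (t x (t y u))))) = u
  m3 : ∀ x y, x ≠ y → (¬ ∃ z, Th M x y z) → ∀ u, t x (t y u) = t y (t x u) ∧
    (u ≠ x → u ≠ y → (∃ z, Th M x u z) ∧ (∃ z, Th M y u z))

section affine

lemma affine_aux1 : ∀ x y : Fin 2 → ZMod 3, x ≠ y → -x - y ≠ x := by decide
lemma affine_aux2 : ∀ x y : Fin 2 → ZMod 3, x ≠ y → -x - y ≠ y := by decide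
lemma affine_aux3 : ∀ c₁ c₂ c₃ : ZMod 3, c₁ ≠ c₂ → c₁ ≠ c₃ → c₂ ≠ c₃ → c₁ + c₂ + c₃ = 0 := by decide

lemma th_affine_iff (x y z : Fin 2 → ZMod 3) : Th affinePlaneThree x y z ↔ x ≠ y ∧ z = -x - y := by
  constructor
  · rintro ⟨h1, h2, h3, v, w, hw, hl⟩
    refine ⟨h3, ?_⟩
    have hx : x ∈ ({x, y, z} : Set _) := by simp
    have hy : y ∈ ({x, y, z} : Set _) := by simp
    have hz : z ∈ ({x, y, z} : Set _) := by simp
    rw [hl] at hx hy hz
    obtain ⟨c₁, rfl⟩ := hx
    obtain ⟨c₂, rfl⟩ := hy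
    obtain ⟨c₃, rfl⟩ := hz
    have h12 : c₁ ≠ c₂ := by rintro rfl; exact h3 rfl
    have h13 : c₁ ≠ c₃ := by rintro rfl; exact h1 rfl
    have h23 : c₂ ≠ c₃ := by rintro rfl; exact h2 rfl
    have hs := affine_aux3 c₁ c₂ c₃ h12 h13 h23
    ext i
    have h30 : (3 : ZMod 3) = 0 := by decide
    simp only [Pi.add_apply, Pi.smul_apply, smul_eq_mul, Pi.sub_apply, Pi.neg_apply]
    linear_combination h30 * v i + hs * w i
  · rintro ⟨h3, rfl⟩
    refine ⟨affine_aux1 x y h3, affine_aux2 x y h3, h3, x, y - x, sub_ne_zero.mpr h3.symm, ?_⟩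
    have h30 : (3 : ZMod 3) = 0 := by decide
    ext p
    simp only [Set.mem_insert_iff, Set.mem_singleton_iff, Set.mem_setOf_eq]
    constructor
    · rintro (rfl | rfl | rfl)
      · exact ⟨0, by simp⟩
      · exact ⟨1, by simp⟩
      · refine ⟨2, ?_⟩
        ext i
        simp only [Pi.add_apply, Pi.smul_apply, smul_eq_mul, Pi.sub_apply, Pi.neg_apply]
        linear_combination (-(y i)) * h30
    · rintro ⟨c, rfl⟩
      fin_cases c
      · left
        show x + (0 : ZMod 3) • (y - x) = x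
        simp
      · right; left
        show x + (1 : ZMod 3) • (y - x) = y
        simp
      · right; right
        show x + (2 : ZMod 3) • (y - x) = -x - y
        ext i
        simp only [Pi.add_apply, Pi.smul_apply, smul_eq_mul, Pi.sub_apply, Pi.neg_apply]
        linear_combination (y i) * h30

lemma affine_three (x : Fin 2 → ZMod 3) : ∀ x : Fin 2 → ZMod 3, -x - x = x := by decide

lemma affine_cube : ∀ x y u : Fin 2 → ZMod 3,
    -x - (-y - (-x - (-y - (-x - (-y - u))))) = u := by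
  intro x y u
  have h30 : (3 : ZMod 3) = 0 := by decide
  ext i
  simp only [Pi.sub_apply, Pi.neg_apply]
  linear_combination (y i - x i) * h30

theorem affine_model : IsModel affinePlaneThree (fun x y => -x - y) where
  t1 x y z h := ((th_affine_iff x y z).mp h).2.symm
  t2 x y h := by
    have hxy : x = y := by
      by_contra hne
      exact h ⟨-x - y, (th_affine_iff _ _ _).mpr ⟨hne, rfl⟩⟩
    subst hxy
    exact affine_three x x
  m1 x n hn := by
    obtain ⟨v, w, hw, rfl⟩ := hn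
    refine ⟨-x - v, -w, neg_ne_zero.mpr hw, ?_⟩
    ext p
    simp only [Set.mem_image, Set.mem_setOf_eq]
    constructor
    · rintro ⟨q, ⟨c, rfl⟩, rfl⟩
      refine ⟨c, ?_⟩
      ext i
      simp only [Pi.add_apply, Pi.smul_apply, smul_eq_mul, Pi.sub_apply, Pi.neg_apply]
      ring
    · rintro ⟨c, rfl⟩
      refine ⟨v + c • w, ⟨c, rfl⟩, ?_⟩
      ext i
      simp only [Pi.add_apply, Pi.smul_apply, smul_eq_mul, Pi.sub_apply, Pi.neg_apply]
      ring
  m2 x y _ u := affine_cube x y u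
  m3 x y hxy h := absurd ⟨-x - y, (th_affine_iff _ _ _).mpr ⟨hxy, rfl⟩⟩ h

end affine

section dual

/-- decidable third point relation in the dual affine plane -/
def ThD (x y z : DualAffinePoint) : Prop :=
  z ≠ x ∧ z ≠ y ∧ x ≠ y ∧ ∃ i : Fin 4, i ∉ x.1 ∧ i ∉ y.1 ∧ i ∉ z.1

instance (x y z : DualAffinePoint) : Decidable (ThD x y z) := by unfold ThD; infer_instance

/-- model map -/
def tD (x y : DualAffinePoint) : DualAffinePoint :=
  if h : (symmDiff x.1 y.1).card = 2 then ⟨symmDiff x.1 y.1, h⟩ else y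

set_option maxRecDepth 100000 in
set_option synthInstance.maxHeartbeats 200000 in
set_option synthInstance.maxSize 2000 in
lemma tD_t1 : ∀ x y z, ThD x y z → tD x y = z := by decide

set_option maxRecDepth 100000 in
set_option synthInstance.maxHeartbeats 200000 in
set_option synthInstance.maxSize 2000 in
lemma tD_t2 : ∀ x y, (¬ ∃ z, ThD x y z) → tD x y = y := by decide

set_option maxRecDepth 100000 in
set_option synthInstance.maxHeartbeats 200000 in
set_option synthInstance.maxSize 2000 in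
lemma tD_m2 : ∀ x y, (∃ z, ThD x y z) → ∀ u, tD x (tD y (tD x (tD y (tD x (tD y u))))) = u := by decide

set_option maxRecDepth 100000 in
set_option synthInstance.maxHeartbeats 200000 in
set_option synthInstance.maxSize 2000 in
lemma tD_m3 : ∀ x y, x ≠ y → (¬ ∃ z, ThD x y z) → ∀ u, tD x (tD y u) = tD y (tD x u) ∧
    (u ≠ x → u ≠ y → (∃ z, ThD x u z) ∧ (∃ z, ThD y u z)) := by decide

set_option maxRecDepth 100000 in
set_option synthInstance.maxHeartbeats 200000 in
set_option synthInstance.maxSize 2000 in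
lemma tD_m1 : ∀ (x : DualAffinePoint) (i : Fin 4), ∃ j : Fin 4, ∀ s : DualAffinePoint, (∃ s' : DualAffinePoint, i ∉ s'.1 ∧ tD x s' = s) ↔ j ∉ s.1 := by decide

set_option maxRecDepth 100000 in
set_option synthInstance.maxHeartbeats 200000 in
set_option synthInstance.maxSize 2000 in
lemma thD_line : ∀ (x y z : DualAffinePoint) (i : Fin 4), z ≠ x → z ≠ y → x ≠ y → i ∉ x.1 → i ∉ y.1 → i ∉ z.1 → ∀ s : DualAffinePoint, (s = x ∨ s = y ∨ s = z) ↔ i ∉ s.1 := by decide

lemma th_dual_iff (x y z : DualAffinePoint) : Th dualAffinePlaneTwo x y z ↔ ThD x y z := by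
  constructor
  · rintro ⟨h1, h2, h3, i, hl⟩
    refine ⟨h1, h2, h3, i, ?_, ?_, ?_⟩
    · have : x ∈ ({x, y, z} : Set _) := by simp
      rw [hl] at this; exact this
    · have : y ∈ ({x, y, z} : Set _) := by simp
      rw [hl] at this; exact this
    · have : z ∈ ({x, y, z} : Set _) := by simp
      rw [hl] at this; exact this
  · rintro ⟨h1, h2, h3, i, hx, hy, hz⟩
    refine ⟨h1, h2, h3, i, ?_⟩
    ext s
    simp only [Set.mem_insert_iff, Set.mem_singleton_iff, Set.mem_setOf_eq]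
    exact thD_line x y z i h1 h2 h3 hx hy hz s

theorem dual_model : IsModel dualAffinePlaneTwo tD where
  t1 x y z h := tD_t1 x y z ((th_dual_iff _ _ _).mp h)
  t2 x y h := tD_t2 x y (fun ⟨z, hz⟩ => h ⟨z, (th_dual_iff _ _ _).mpr hz⟩)
  m1 x n hn := by
    obtain ⟨i, rfl⟩ := hn
    obtain ⟨j, hj⟩ := tD_m1 x i
    refine ⟨j, ?_⟩
    ext s
    simp only [Set.mem_image, Set.mem_setOf_eq]
    exact hj s
  m2 x y h u := tD_m2 x y (by
    obtain ⟨z, hz⟩ := h
    exact ⟨z, (th_dual_iff _ _ _).mp hz⟩) u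
  m3 x y hxy h u := by
    have h' : ¬ ∃ z, ThD x y z := fun ⟨z, hz⟩ => h ⟨z, (th_dual_iff _ _ _).mpr hz⟩
    obtain ⟨h1, h2⟩ := tD_m3 x y hxy h' u
    refine ⟨h1, fun hx hy => ?_⟩
    obtain ⟨⟨z₁, hz₁⟩, ⟨z₂, hz₂⟩⟩ := h2 hx hy
    exact ⟨⟨z₁, (th_dual_iff _ _ _).mpr hz₁⟩, ⟨z₂, (th_dual_iff _ _ _).mpr hz₂⟩⟩

end dual

section transport

variable {X : Type*} {L : Set (Set X)} {P : Set X} {Y : Type} {M : Set (Set Y)}

lemma th_down (hP : IsSubspace L P) (e : P ≃ Y) (hiso : IsIso (restrict L P) M e) (a b : P) (c : X)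
    (h : Th L a.1 b.1 c) : ∃ hc : c ∈ P, Th M (e a) (e b) (e ⟨c, hc⟩) := by
  obtain ⟨h1, h2, h3, h4⟩ := h
  have hsub : ({a.1, b.1, c} : Set X) ⊆ P := hP _ h4 a.1 a.2 b.1 b.2 h3 (by simp) (by simp)
  have hc : c ∈ P := hsub (by simp)
  refine ⟨hc, ?_, ?_, ?_, ?_⟩
  · intro he
    have := e.injective he
    exact h1 (congrArg Subtype.val this)
  · intro he
    have := e.injective he
    exact h2 (congrArg Subtype.val this)
  · intro he
    have := e.injective he
    exact h3 (congrArg Subtype.val this)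
  · have hs : ({x : P | (x : X) ∈ ({a.1, b.1, c} : Set X)}) ∈ restrict L P := ⟨_, h4, hsub, rfl⟩
    have := (hiso _).mp hs
    have he : e '' {x : P | (x : X) ∈ ({a.1, b.1, c} : Set X)} = {e a, e b, e ⟨c, hc⟩} := by
      have hset : {x : P | (x : X) ∈ ({a.1, b.1, c} : Set X)} = {a, b, ⟨c, hc⟩} := by
        ext x
        simp only [Set.mem_setOf_eq, Set.mem_insert_iff, Set.mem_singleton_iff, Subtype.ext_iff]
      rw [hset, Set.image_insert_eq, Set.image_pair]
    rwa [he] at this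

lemma th_up (e : P ≃ Y) (hiso : IsIso (restrict L P) M e) (a b : P) (w : Y)
    (h : Th M (e a) (e b) w) : Th L a.1 b.1 (e.symm w).1 := by
  obtain ⟨h1, h2, h3, h4⟩ := h
  refine ⟨?_, ?_, ?_, ?_⟩
  · intro he
    apply h1
    have : e.symm w = a := Subtype.ext he
    rw [← this]; simp
  · intro he
    apply h2
    have : e.symm w = b := Subtype.ext he
    rw [← this]; simp
  · intro he
    apply h3
    rw [Subtype.ext he]
  · have he : e '' {a, b, e.symm w} = {e a, e b, w} := by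
      rw [Set.image_insert_eq, Set.image_pair]; simp
    have hs := (hiso {a, b, e.symm w}).mpr (by rw [he]; exact h4)
    obtain ⟨l, hl, hlP, hm⟩ := hs
    have hset : l = {a.1, b.1, (e.symm w).1} := by
      ext p
      constructor
      · intro hp
        have : (⟨p, hlP hp⟩ : P) ∈ ({a, b, e.symm w} : Set P) := by rw [hm]; exact hp
        simp only [Set.mem_insert_iff, Set.mem_singleton_iff, Subtype.ext_iff] at this
        simpa using this
      · intro hp
        simp only [Set.mem_insert_iff, Set.mem_singleton_iff] at hp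
        have key : ∀ q ∈ ({a, b, e.symm w} : Set P), q.1 ∈ l := by
          intro q hq
          rw [hm] at hq
          exact hq
        rcases hp with rfl | rfl | rfl
        · exact key a (by simp)
        · exact key b (by simp)
        · exact key _ (by simp)
    rw [← hset]; exact hl

lemma map_eq (hPL : IsPartialLinear L) (hP : IsSubspace L P) (e : P ≃ Y) (hiso : IsIso (restrict L P) M e)
    {t : Y → Y → Y} (ht : IsModel M t) (a b : P) :
    lineMap L a.1 b.1 = (e.symm (t (e a) (e b))).1 := by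
  by_cases h : ∃ z, Th L a.1 b.1 z
  · obtain ⟨z, hz⟩ := h
    obtain ⟨hc, hth⟩ := th_down hP e hiso a b z hz
    rw [lineMap_of_th hPL hz, ht.t1 _ _ _ hth]
    simp
  · rw [lineMap_of_not h, ht.t2]
    · simp
    · rintro ⟨w, hw⟩
      exact h ⟨_, th_up e hiso a b w hw⟩

/-- `P` is a plane -/
def GoodPlane (L : Set (Set X)) (P : Set X) : Prop :=
  IsSubspace L P ∧ ∃ (Y : Type) (M : Set (Set Y)) (t : Y → Y → Y) (e : P ≃ Y), IsModel M t ∧ IsIso (restrict L P) M e

lemma goodPlane_span (hL : IsFischerSpace L) {l m : Set X} (hl : l ∈ L) (hm : m ∈ L) (hlm : l ≠ m) (hne : (l ∩ m).Nonempty) :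
    GoodPlane L (span L (l ∪ m)) := by
  refine ⟨isSubspace_span _, ?_⟩
  rcases hL.2.2 l hl m hm hlm hne with ⟨e, he⟩ | ⟨e, he⟩
  · exact ⟨_, _, tD, e, dual_model, he⟩
  · exact ⟨_, _, _, e, affine_model, he⟩

lemma GoodPlane.mem (hPL : IsPartialLinear L) (hP : GoodPlane L P) {a b : X} (ha : a ∈ P) (hb : b ∈ P) : lineMap L a b ∈ P := by
  obtain ⟨hS, Y, M, t, e, hm, hi⟩ := hP
  have := map_eq hPL hS e hi hm ⟨a, ha⟩ ⟨b, hb⟩
  simp only at this
  rw [this]
  exact Subtype.coe_prop _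

lemma GoodPlane.image (hPL : IsPartialLinear L) (hP : GoodPlane L P) {x : X} (hx : x ∈ P) {l : Set X} (hl : l ∈ L)
    (hlP : l ⊆ P) : lineMap L x '' l ∈ L := by
  obtain ⟨hS, Y, M, t, e, hm, hi⟩ := hP
  have hs : {p : P | (p : X) ∈ l} ∈ restrict L P := ⟨l, hl, hlP, rfl⟩
  have h1 := (hi _).mp hs
  have h2 := hm.m1 (e ⟨x, hx⟩) _ h1
  have h3 : e.symm '' (t (e ⟨x, hx⟩) '' (e '' {p : P | (p : X) ∈ l})) ∈ restrict L P := by
    apply (hi _).mpr
    rw [Set.image_image]
    simpa using h2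
  obtain ⟨l', hl', hlP', hm'⟩ := h3
  have hset : l' = lineMap L x '' l := by
    ext q
    constructor
    · intro hq
      have : (⟨q, hlP' hq⟩ : P) ∈ e.symm '' (t (e ⟨x, hx⟩) '' (e '' {p : P | (p : X) ∈ l})) := by
        rw [hm']; exact hq
      obtain ⟨w, ⟨w', ⟨p, hp, rfl⟩, rfl⟩, hw⟩ := this
      refine ⟨p.1, hp, ?_⟩
      rw [map_eq hPL hS e hi hm ⟨x, hx⟩ p, hw]
    · rintro ⟨p, hp, rfl⟩
      have hp' : p ∈ P := hlP hp
      rw [map_eq hPL hS e hi hm ⟨x, hx⟩ ⟨p, hp'⟩]
      have : e.symm (t (e ⟨x, hx⟩) (e ⟨p, hp'⟩)) ∈ {x : P | (x : X) ∈ l'} := by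
        rw [← hm']
        exact ⟨_, ⟨_, ⟨_, hp, rfl⟩, rfl⟩, rfl⟩
      exact this
  rw [← hset]; exact hl'

lemma GoodPlane.cube (hPL : IsPartialLinear L) (hP : GoodPlane L P) {a b u : X} (ha : a ∈ P) (hb : b ∈ P) (hu : u ∈ P)
    (h : ∃ z, Th L a b z) :
    lineMap L a (lineMap L b (lineMap L a (lineMap L b (lineMap L a (lineMap L b u))))) = u := by
  obtain ⟨hS, Y, M, t, e, hm, hi⟩ := hP
  obtain ⟨z, hz⟩ := h
  obtain ⟨hc, hth⟩ := th_down hS e hi ⟨a, ha⟩ ⟨b, hb⟩ z hz
  have key := hm.m2 _ _ ⟨_, hth⟩ (e ⟨u, hu⟩)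
  have m1 : ∀ p : P, lineMap L a p.1 = (e.symm (t (e ⟨a, ha⟩) (e p))).1 := fun p => map_eq hPL hS e hi hm ⟨a, ha⟩ p
  have m2 : ∀ p : P, lineMap L b p.1 = (e.symm (t (e ⟨b, hb⟩) (e p))).1 := fun p => map_eq hPL hS e hi hm ⟨b, hb⟩ p
  have hu' : u = (⟨u, hu⟩ : P).1 := rfl
  rw [hu', m2, m1, m2, m1, m2, m1]
  simp only [Equiv.apply_symm_apply]
  rw [key]
  simp

lemma GoodPlane.comm (hPL : IsPartialLinear L) (hP : GoodPlane L P) {a b u : X} (ha : a ∈ P) (hb : b ∈ P) (hu : u ∈ P)
    (hab : a ≠ b) (h : ¬ ∃ z, Th L a b z) :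
    lineMap L a (lineMap L b u) = lineMap L b (lineMap L a u) ∧
      (u ≠ a → u ≠ b → (∃ z, Th L a u z) ∧ (∃ z, Th L b u z)) := by
  obtain ⟨hS, Y, M, t, e, hm, hi⟩ := hP
  have hne : e ⟨a, ha⟩ ≠ e ⟨b, hb⟩ := fun he => hab (congrArg Subtype.val (e.injective he))
  have hno : ¬ ∃ z, Th M (e ⟨a, ha⟩) (e ⟨b, hb⟩) z := by
    rintro ⟨w, hw⟩
    exact h ⟨_, th_up e hi ⟨a, ha⟩ ⟨b, hb⟩ w hw⟩
  obtain ⟨k1, k2⟩ := hm.m3 _ _ hne hno (e ⟨u, hu⟩)
  have m1 : ∀ p : P, lineMap L a p.1 = (e.symm (t (e ⟨a, ha⟩) (e p))).1 := fun p => map_eq hPL hS e hi hm ⟨a, ha⟩ p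
  have m2 : ∀ p : P, lineMap L b p.1 = (e.symm (t (e ⟨b, hb⟩) (e p))).1 := fun p => map_eq hPL hS e hi hm ⟨b, hb⟩ p
  have hu' : u = (⟨u, hu⟩ : P).1 := rfl
  constructor
  · rw [hu', m2, m1, m1, m2]
    simp only [Equiv.apply_symm_apply]
    rw [k1]
  · intro hua hub
    have hua' : e ⟨u, hu⟩ ≠ e ⟨a, ha⟩ := fun he => hua (congrArg Subtype.val (e.injective he))
    have hub' : e ⟨u, hu⟩ ≠ e ⟨b, hb⟩ := fun he => hub (congrArg Subtype.val (e.injective he))
    obtain ⟨⟨z₁, hz₁⟩, ⟨z₂, hz₂⟩⟩ := k2 hua' hub'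
    exact ⟨⟨_, th_up e hi ⟨a, ha⟩ ⟨u, hu⟩ z₁ hz₁⟩, ⟨_, th_up e hi ⟨b, hb⟩ ⟨u, hu⟩ z₂ hz₂⟩⟩

end transport

section main

variable {X : Type*} {L : Set (Set X)}

lemma image_line (hL : IsFischerSpace L) (x : X) {l : Set X} (hl : l ∈ L) : lineMap L x '' l ∈ L := by
  have hPL := hL.1
  have h3 := hL.2.1
  by_cases hx : x ∈ l
  · -- x on l
    obtain ⟨a, b, c, hab, hac, hbc, rfl⟩ := Set.ncard_eq_three.mp (h3 l hl)
    by_cases hcases : ∃ y ∈ ({a, b, c} : Set X), y ≠ x
    · obtain ⟨y, hy, hyx⟩ := hcases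
      obtain ⟨z, hz, hset⟩ := th_of_line h3 hl hx hy hyx.symm
      have : lineMap L x '' ({a, b, c} : Set X) = {a, b, c} := by
        rw [hset, Set.image_insert_eq, Set.image_pair, lineMap_self, lineMap_of_th hPL hz, lineMap_of_th hPL (th_rot hz)]
        ext; simp; tauto
      rwa [this]
    · exfalso
      push Not at hcases
      have h1 := hcases a (by simp)
      have h2 := hcases b (by simp)
      exact hab (h1.trans h2.symm)
  · by_cases h : ∃ y ∈ l, ∃ z, Th L x y z
    · obtain ⟨y, hy, z, hz⟩ := h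
      have hm : ({x, y, z} : Set X) ∈ L := hz.2.2.2
      have hne : l ≠ {x, y, z} := by
        rintro rfl; exact hx (by simp)
      have hP := goodPlane_span hL hl hm hne ⟨y, hy, by simp⟩
      apply hP.image hPL _ hl
      · exact fun q hq => subset_span _ (Or.inl hq)
      · exact subset_span _ (Or.inr (by simp))
    · push Not at h
      have : lineMap L x '' l = l := by
        have hid : ∀ y ∈ l, lineMap L x y = y := by
          intro y hy
          apply lineMap_of_not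
          rintro ⟨z, hz⟩
          exact h y hy z hz
        ext q
        constructor
        · rintro ⟨p, hp, rfl⟩
          rwa [hid p hp]
        · intro hq
          exact ⟨q, hq, hid q hq⟩
      rwa [this]

lemma cube_all (hL : IsFischerSpace L) {x y z : X} (h : Th L x y z) (u : X) :
    lineMap L x (lineMap L y (lineMap L x (lineMap L y (lineMap L x (lineMap L y u))))) = u := by
  have hPL := hL.1
  have hm : ({x, y, z} : Set X) ∈ L := h.2.2.2
  have e1 : lineMap L y x = z := lineMap_of_th hPL (th_swap h)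
  have e2 : lineMap L x z = y := lineMap_of_th hPL (th_rot h)
  have e3 : lineMap L y y = y := lineMap_self
  have e4 : lineMap L x y = z := lineMap_of_th hPL h
  have e5 : lineMap L y z = x := lineMap_of_th hPL (th_rot (th_swap h))
  have e6 : lineMap L x x = x := lineMap_self
  by_cases hux : u = x
  · subst hux; simp only [e1, e2, e3, e4, e5, e6]
  by_cases huy : u = y
  · subst huy; simp only [e1, e2, e3, e4, e5, e6]
  by_cases huz : u = z
  · subst huz; simp only [e1, e2, e3, e4, e5, e6]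
  have hnot : u ∉ ({x, y, z} : Set X) := by
    simp [hux, huy, huz]
  by_cases c1 : ∃ w, Th L x u w
  · obtain ⟨w, hw⟩ := c1
    have hn : ({x, u, w} : Set X) ∈ L := hw.2.2.2
    have hne : ({x, y, z} : Set X) ≠ {x, u, w} := by
      intro he
      apply hnot
      rw [he]; simp
    have hP := goodPlane_span hL hm hn hne ⟨x, by simp, by simp⟩
    exact hP.cube hPL (subset_span _ (Or.inl (by simp))) (subset_span _ (Or.inl (by simp)))
      (subset_span _ (Or.inr (by simp))) ⟨z, h⟩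
  by_cases c2 : ∃ w, Th L y u w
  · obtain ⟨w, hw⟩ := c2
    have hn : ({y, u, w} : Set X) ∈ L := hw.2.2.2
    have hne : ({x, y, z} : Set X) ≠ {y, u, w} := by
      intro he
      apply hnot
      rw [he]; simp
    have hP := goodPlane_span hL hm hn hne ⟨y, by simp, by simp⟩
    exact hP.cube hPL (subset_span _ (Or.inl (by simp))) (subset_span _ (Or.inl (by simp)))
      (subset_span _ (Or.inr (by simp))) ⟨z, h⟩
  · rw [lineMap_of_not c2, lineMap_of_not c1, lineMap_of_not c2, lineMap_of_not c1, lineMap_of_not c2, lineMap_of_not c1]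

lemma comm_half (hL : IsFischerSpace L) {x y u w : X} (hxy : x ≠ y) (hno : ¬ ∃ z, Th L x y z)
    (hw : Th L x u w) (c2 : ¬ ∃ z, Th L y u z) :
    lineMap L x (lineMap L y u) = lineMap L y (lineMap L x u) := by
  have hPL := hL.1
  rw [lineMap_of_not c2, lineMap_of_th hPL hw]
  symm
  apply lineMap_of_not
  rintro ⟨w', hw'⟩
  -- lines through w
  have hn₁ : ({x, u, w} : Set X) ∈ L := hw.2.2.2
  have hn₂ : ({y, w, w'} : Set X) ∈ L := hw'.2.2.2
  have hne : ({x, u, w} : Set X) ≠ {y, w, w'} := by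
    intro he
    have hxin : x ∈ ({y, w, w'} : Set X) := by rw [← he]; simp
    have hyin : y ∈ ({x, u, w} : Set X) := by rw [he]; simp
    obtain ⟨z, hz, _⟩ := th_of_line hL.2.1 hn₁ (by simp : x ∈ ({x, u, w} : Set X)) hyin hxy
    exact hno ⟨z, hz⟩
  have hP := goodPlane_span hL hn₁ hn₂ hne ⟨w, by simp, by simp⟩
  have hxP : x ∈ span L (({x, u, w} : Set X) ∪ {y, w, w'}) := subset_span _ (Or.inl (by simp))
  have hyP : y ∈ span L (({x, u, w} : Set X) ∪ {y, w, w'}) := subset_span _ (Or.inr (by simp))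
  have huP : u ∈ span L (({x, u, w} : Set X) ∪ {y, w, w'}) := subset_span _ (Or.inl (by simp))
  have hux : u ≠ x := hw.2.2.1.symm
  have huy : u ≠ y := by
    rintro rfl
    exact hno ⟨w, hw⟩
  obtain ⟨_, k⟩ := hP.comm hPL hxP hyP huP hxy hno
  exact c2 (k hux huy).2

lemma comm_all (hL : IsFischerSpace L) {x y : X} (hxy : x ≠ y) (hno : ¬ ∃ z, Th L x y z) (u : X) :
    lineMap L x (lineMap L y u) = lineMap L y (lineMap L x u) := by
  have hPL := hL.1
  have hno' : ¬ ∃ z, Th L y x z := fun ⟨z, hz⟩ => hno ⟨z, th_swap hz⟩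
  by_cases c1 : ∃ w, Th L x u w
  · by_cases c2 : ∃ w, Th L y u w
    · obtain ⟨w₁, hw₁⟩ := c1
      obtain ⟨w₂, hw₂⟩ := c2
      have hn₁ : ({x, u, w₁} : Set X) ∈ L := hw₁.2.2.2
      have hn₂ : ({y, u, w₂} : Set X) ∈ L := hw₂.2.2.2
      have hne : ({x, u, w₁} : Set X) ≠ {y, u, w₂} := by
        intro he
        have hyin : y ∈ ({x, u, w₁} : Set X) := by rw [he]; simp
        obtain ⟨z, hz, _⟩ := th_of_line hL.2.1 hn₁ (by simp : x ∈ ({x, u, w₁} : Set X)) hyin hxy
        exact hno ⟨z, hz⟩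
      have hP := goodPlane_span hL hn₁ hn₂ hne ⟨u, by simp, by simp⟩
      exact (hP.comm hPL (subset_span _ (Or.inl (by simp))) (subset_span _ (Or.inr (by simp)))
        (subset_span _ (Or.inl (by simp))) hxy hno).1
    · obtain ⟨w, hw⟩ := c1
      exact comm_half hL hxy hno hw c2
  · by_cases c2 : ∃ w, Th L y u w
    · obtain ⟨w, hw⟩ := c2
      exact (comm_half hL hxy.symm hno' hw c1).symm
    · rw [lineMap_of_not c1, lineMap_of_not c2, lineMap_of_not c1]

lemma order_two (hL : IsFischerSpace L) (hnd : IsNondegenerate L) (x : X) (σ : Equiv.Perm X) (hσ : ⇑σ = lineMap L x) :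
    orderOf σ = 2 := by
  have hPL := hL.1
  haveI : Fact (Nat.Prime 2) := ⟨Nat.prime_two⟩
  apply orderOf_eq_prime
  · ext u
    simp [pow_two, hσ, lineMap_invol hPL]
  · intro h1
    obtain ⟨l, hl, hxl⟩ := hnd x
    obtain ⟨a, b, c, hab, hac, hbc, rfl⟩ := Set.ncard_eq_three.mp (hL.2.1 l hl)
    have hex : ∃ y ∈ ({a, b, c} : Set X), y ≠ x := by
      by_contra hcon
      push Not at hcon
      exact hab ((hcon a (by simp)).trans (hcon b (by simp)).symm)
    obtain ⟨y, hy, hyx⟩ := hex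
    obtain ⟨z, hz, _⟩ := th_of_line hL.2.1 hl hxl hy hyx.symm
    have : σ y = y := by rw [h1]; rfl
    rw [hσ, lineMap_of_th hPL hz] at this
    exact hz.2.1 this

end main

/-- Let L be a nondegenerate Fischer space on the point type X (every point on a line). Then for every point x the map t(x) — sending a point collinear with x to the third point of their common line and fixing every other point — is a permutation of X of order 2 and an automorphism of the line system; and the set of all t(x) satisfies the 3-transposition order conditions in the permutation group of X (any two have product of order at most 3). -/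
theorem result {X : Type*} (L : Set (Set X)) (hL : Cfsg.IsFischerSpace L) (hnd : Cfsg.LineSystem.IsNondegenerate L) : (∀ x : X, ∃ σ : Equiv.Perm X, ⇑σ = Cfsg.LineSystem.lineMap L x ∧ orderOf σ = 2 ∧ Cfsg.LineSystem.IsIso L L σ) ∧ Cfsg.IsThreeTranspositionSet {σ : Equiv.Perm X | ∃ x : X, ⇑σ = Cfsg.LineSystem.lineMap L x} := by
  have hPL := hL.1
  refine ⟨fun x => ?_, ?_, ?_⟩
  · let σ : Equiv.Perm X := Function.Involutive.toPerm (lineMap L x) (lineMap_invol hPL x)
    refine ⟨σ, rfl, order_two hL hnd x σ rfl, ?_⟩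
    intro l
    constructor
    · intro hl
      exact image_line hL x hl
    · intro hl
      have h1 := image_line hL x hl
      have h2 : lineMap L x '' (⇑σ '' l) = l := by
        rw [Set.image_image]
        have h3 : ∀ v, lineMap L x (σ v) = v := fun v => lineMap_invol hPL x v
        simp only [h3, Set.image_id']
      rwa [h2] at h1
  · rintro σ ⟨x, hx⟩
    exact order_two hL hnd x σ hx
  · rintro σ ⟨x, hx⟩ τ ⟨y, hy⟩
    have hσ : ∀ v, σ v = lineMap L x v := fun v => congrFun hx v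
    have hτ : ∀ v, τ v = lineMap L y v := fun v => congrFun hy v
    by_cases hxy : x = y
    · subst hxy
      left
      ext u
      simp only [pow_two, Equiv.Perm.mul_apply, hσ, hτ, Equiv.Perm.one_apply, lineMap_invol hPL]
    by_cases h : ∃ z, Th L x y z
    · right
      obtain ⟨z, hz⟩ := h
      ext u
      simp only [pow_three, Equiv.Perm.mul_apply, hσ, hτ, Equiv.Perm.one_apply]
      exact cube_all hL hz u
    · left
      ext u
      simp only [pow_two, Equiv.Perm.mul_apply, hσ, hτ, Equiv.Perm.one_apply]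
      have := comm_all hL hxy h (lineMap L y u)
      rw [lineMap_invol hPL] at this
      have h2 : lineMap L y (lineMap L x (lineMap L y u)) = lineMap L x u := this.symm
      rw [h2, lineMap_invol hPL]

end Cfsg.Agent.S5366
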