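import Cfsg.Statements.S5387
import Cfsg.Agent.Lib.Compute.TC.L34U.Final
import Cfsg.Agent.Lib.Compute.PSL34Three
import Cfsg.Agent.Lib.Linalg.Transvection

set_option autoImplicit false
open Cfsg

namespace Cfsg.Agent.S5387

open Matrix
open Cfsg.Agent.Lib.Compute.GFModel Cfsg.Agent.Lib.Compute.SmallField Cfsg.Agent.Lib.Compute.PSL34
open Cfsg.Agent.Lib.Compute.ToddCoxeterPresented
open Cfsg.Agent.Lib.Fischer.L34.Words
open Cfsg.Agent.Lib.Compute.TC
open scoped commutatorElement

/-- The matrix of the letter `a`. -/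
def Am : Matrix (Fin 3) (Fin 3) GF4 := !![w, w + 1, 0; w, 0, w; 0, 1, w]
/-- The matrix of the inverse of `a`. -/
def Ai : Matrix (Fin 3) (Fin 3) GF4 := !![w, 1, 1; w + 1, w + 1, w + 1; w, w, 1]
/-- The matrix of the letter `b`. -/
def Bm : Matrix (Fin 3) (Fin 3) GF4 := !![1, w, 0; 0, w + 1, w + 1; 1, w, w]
/-- The matrix of the inverse of `b`. -/
def Bi : Matrix (Fin 3) (Fin 3) GF4 := !![0, w + 1, 1; w + 1, w, w + 1; w + 1, 0, w + 1]

/-- The words of the transvections: row, column, entry, word, scalar. -/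
def TL : List (Fin 3 × Fin 3 × GF4 × List (Fin 2 × Bool) × GF4) :=
  [(0,1,1,[(0,true),(1,false),(0,true),(1,true),(0,false),(1,false),(1,false),(1,false),(0,false),(1,true),(0,true)],w + 1),
    (0,1,w,[(0,true),(1,true),(0,false),(1,false),(0,false),(1,false),(1,false),(0,true),(1,false),(1,false)],w),
    (0,1,w + 1,[(0,true),(1,false),(0,true),(1,false),(0,false),(1,false),(1,false),(1,false),(0,true),(1,true),(1,true)],w),
    (0,2,1,[(0,false),(1,true),(0,true),(1,false),(0,true),(1,true),(1,true),(1,true),(0,true),(1,false)],w),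
    (0,2,w,[(1,true),(0,true),(1,false),(1,false),(1,false),(0,true),(1,true),(1,true),(1,true)],w),
    (0,2,w + 1,[(0,false),(1,true),(0,false),(1,false),(1,false),(0,false),(1,true),(1,true),(1,true),(0,true),(1,true)],w + 1),
    (1,0,1,[(0,false),(1,true),(1,true),(0,false),(1,false),(0,false),(1,false),(1,false),(1,false),(0,true)],w),
    (1,0,w,[(0,true),(1,false),(0,false),(1,true),(1,true),(0,true),(1,false),(1,false),(0,true),(1,false),(1,false)],w),
    (1,0,w + 1,[(0,true),(1,false),(0,false),(1,true),(0,true),(1,false),(1,false),(0,false),(1,false),(0,true),(1,true),(1,true),(0,true)],w + 1),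
    (1,2,1,[(0,false),(1,false),(0,false),(1,false),(1,false),(0,true),(1,false),(1,false),(0,true),(1,true)],w),
    (1,2,w,[(0,false),(1,true),(0,true),(1,false),(1,false),(0,false),(1,false),(1,false),(0,true),(1,false),(0,true)],1),
    (1,2,w + 1,[(0,true),(1,false),(0,true),(1,false),(0,false),(1,false),(1,false),(1,false),(0,true),(1,false),(0,false),(1,false)],w + 1),
    (2,0,1,[(1,true),(0,false),(1,false),(1,false),(0,false),(1,false),(0,true),(1,false),(0,true),(1,true),(1,true)],w + 1),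
    (2,0,w,[(0,true),(1,true),(1,true),(0,false),(1,false),(1,false),(0,false),(1,true),(1,true),(1,true),(0,false)],1),
    (2,0,w + 1,[(0,true),(1,true),(1,true),(1,true),(0,false),(1,true),(0,false),(1,false),(0,false),(1,true),(1,true)],w + 1),
    (2,1,1,[(0,false),(1,false),(0,true),(1,false),(0,false),(1,false),(0,true),(1,true),(0,true)],w),
    (2,1,w,[(0,false),(1,true),(1,true),(0,true),(1,true),(1,true),(1,true),(0,true),(1,false),(0,true),(1,false)],1),
    (2,1,w + 1,[(0,true),(1,true),(1,true),(0,false),(1,false),(1,false),(0,true),(1,true),(1,true),(0,false),(1,true),(0,true)],w)]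

theorem Am_det : Am.det = 1 := by decide +kernel
theorem Bm_det : Bm.det = 1 := by decide +kernel
theorem Ai_det : Ai.det = 1 := by decide +kernel
theorem Bi_det : Bi.det = 1 := by decide +kernel
theorem Am_inv : Am * Ai = 1 := by decide +kernel
theorem Bm_inv : Bm * Bi = 1 := by decide +kernel
theorem Am_pow : Am ^ 3 = 1 := by decide +kernel
theorem Bm_pow : Bm ^ 7 = 1 := by decide +kernel

/-- The letter `a` in `SL₃(4)`. -/
def A0 : S3 := ⟨Am, Am_det⟩
/-- The letter `b` in `SL₃(4)`. -/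
def B0 : S3 := ⟨Bm, Bm_det⟩
/-- The inverse of the letter `a`. -/
def Ai0 : S3 := ⟨Ai, Ai_det⟩
/-- The inverse of the letter `b`. -/
def Bi0 : S3 := ⟨Bi, Bi_det⟩

theorem A0_inv : A0⁻¹ = Ai0 := (inv_eq_of_mul_eq_one_right (Subtype.ext Am_inv))
theorem B0_inv : B0⁻¹ = Bi0 := (inv_eq_of_mul_eq_one_right (Subtype.ext Bm_inv))

/-- The letters in `SL₃(4)`. -/
def fS : Fin 2 → S3 := ![A0, B0]

/-- The matrix of a signed letter. -/
def lM (p : Fin 2 × Bool) : Matrix (Fin 3) (Fin 3) GF4 :=
  if p.1 = 0 then (if p.2 then Am else Ai) else (if p.2 then Bm else Bi)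

/-- The matrix of a word. -/
def evM : List (Fin 2 × Bool) → Matrix (Fin 3) (Fin 3) GF4
  | [] => 1
  | p :: l => lM p * evM l

theorem lift_coe (l : List (Fin 2 × Bool)) :
    ((FreeGroup.lift fS (FreeGroup.mk l) : S3) : Matrix (Fin 3) (Fin 3) GF4) = evM l := by
  induction l with
  | nil =>
    have : (FreeGroup.mk [] : FreeGroup (Fin 2)) = 1 := rfl
    rw [this, map_one]
    rfl
  | cons p l ih =>
    have e : (FreeGroup.mk (p :: l) : FreeGroup (Fin 2)) = FreeGroup.mk [p] * FreeGroup.mk l := by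
      rw [FreeGroup.mul_mk]; rfl
    rw [e, map_mul, Matrix.SpecialLinearGroup.coe_mul, ih]
    have h1 : ((FreeGroup.lift fS (FreeGroup.mk [p]) : S3) : Matrix (Fin 3) (Fin 3) GF4) = lM p := by
      rcases p with ⟨i, b⟩
      fin_cases i <;> cases b
      · simp only [FreeGroup.lift_mk, List.map_cons, List.map_nil, List.prod_cons, List.prod_nil, mul_one]
        change ((fS 0)⁻¹ : S3).1 = Ai
        change (A0⁻¹ : S3).1 = Ai
        rw [A0_inv]; rfl
      · simp only [FreeGroup.lift_mk, List.map_cons, List.map_nil, List.prod_cons, List.prod_nil, mul_one]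
        rfl
      · simp only [FreeGroup.lift_mk, List.map_cons, List.map_nil, List.prod_cons, List.prod_nil, mul_one]
        change ((fS 1)⁻¹ : S3).1 = Bi
        change (B0⁻¹ : S3).1 = Bi
        rw [B0_inv]; rfl
      · simp only [FreeGroup.lift_mk, List.map_cons, List.map_nil, List.prod_cons, List.prod_nil, mul_one]
        rfl
    rw [h1]
    rfl

/-- A matrix is a nonzero scalar. -/
def isScal (M : Matrix (Fin 3) (Fin 3) GF4) : Prop :=
  M 0 1 = 0 ∧ M 0 2 = 0 ∧ M 1 0 = 0 ∧ M 1 2 = 0 ∧ M 2 0 = 0 ∧ M 2 1 = 0 ∧ M 0 0 = M 1 1 ∧ M 1 1 = M 2 2 ∧ M 0 0 ≠ 0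

instance (M : Matrix (Fin 3) (Fin 3) GF4) : Decidable (isScal M) := by
  unfold isScal; infer_instance

theorem scal_WL : ∀ l ∈ WL, isScal (evM l) := by decide +kernel

/-- The letters in `PSL₃(4)`. -/
def fP : Fin 2 → P3 := fun i => pi (fS i)

theorem map_lift {α G H : Type*} [Group G] [Group H] (ψ : G →* H) (f : α → G) (w : FreeGroup α) :
    ψ (FreeGroup.lift f w) = FreeGroup.lift (fun i => ψ (f i)) w := by
  have : ψ.comp (FreeGroup.lift f) = FreeGroup.lift (fun i => ψ (f i)) := by
    ext a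
    simp
  exact DFunLike.congr_fun this w

theorem lift_WL : ∀ l ∈ WL, FreeGroup.lift fP (wF l) = 1 := by
  intro l hl
  have h := scal_WL l hl
  obtain ⟨h01, h02, h10, h12, h20, h21, h00, h11, hne⟩ := h
  have e : FreeGroup.lift fP (wF l) = pi (FreeGroup.lift fS (FreeGroup.mk l)) := by
    rw [map_lift]; rfl
  rw [e, pi_eq_one_iff]
  refine mem_center_of_scalar (r := evM l 0 0) (cube_one _ hne) ?_
  rw [lift_coe]
  apply Matrix.ext
  intro i j
  fin_cases i <;> fin_cases j <;> simp [Matrix.scalar_apply, *]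

theorem fP0_pow : fP 0 ^ 3 = 1 := by
  have : fS 0 ^ 3 = 1 := by
    apply Subtype.ext
    have h : ((A0 ^ 3 : S3) : Matrix (Fin 3) (Fin 3) GF4) = Am ^ 3 :=
      Matrix.SpecialLinearGroup.coe_pow A0 3
    exact h.trans Am_pow
  change pi (fS 0) ^ 3 = 1
  rw [← map_pow, this, map_one]

theorem fP1_pow : fP 1 ^ 7 = 1 := by
  have : fS 1 ^ 7 = 1 := by
    apply Subtype.ext
    have h : ((B0 ^ 7 : S3) : Matrix (Fin 3) (Fin 3) GF4) = Bm ^ 7 :=
      Matrix.SpecialLinearGroup.coe_pow B0 7
    exact h.trans Bm_pow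
  change pi (fS 1) ^ 7 = 1
  rw [← map_pow, this, map_one]

/-- An entry of the table is right. -/
def tOK (e : Fin 3 × Fin 3 × GF4 × List (Fin 2 × Bool) × GF4) : Prop :=
  evM e.2.2.2.1 = Matrix.scalar (Fin 3) e.2.2.2.2 * Matrix.transvection e.1 e.2.1 e.2.2.1 ∧ e.2.2.2.2 ≠ 0

instance (e : Fin 3 × Fin 3 × GF4 × List (Fin 2 × Bool) × GF4) : Decidable (tOK e) := by
  unfold tOK; infer_instance

theorem TL_ok : ∀ e ∈ TL, tOK e := by decide +kernel

theorem TL_cover : ∀ i j : Fin 3, i ≠ j → ∀ c : GF4, c ≠ 0 → ∃ e ∈ TL, e.1 = i ∧ e.2.1 = j ∧ e.2.2.1 = c := by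
  decide +kernel

theorem closure_fP : Subgroup.closure (Set.range fP) = ⊤ := by
  have hK : ∀ T : S3, pi T ∈ Subgroup.closure (Set.range fP) := by
    intro T
    have hT : T ∈ Subgroup.closure {t : S3 | ∃ (i j : Fin 3) (hij : i ≠ j) (a : GF4),
        t = SpecialLinearGroup.transvection hij a} := by
      rw [Cfsg.Agent.Lib.Linalg.Transvection.closure_transvections]
      trivial
    induction hT using Subgroup.closure_induction with
    | mem t ht =>
      obtain ⟨i, j, hij, c, rfl⟩ := ht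
      by_cases hc : c = 0
      · subst hc
        have : SpecialLinearGroup.transvection hij (0 : GF4) = 1 := by
          apply Subtype.ext
          exact Matrix.transvection_zero i j
        rw [this, map_one]
        exact one_mem _
      · obtain ⟨e, he, rfl, rfl, rfl⟩ := TL_cover i j hij c hc
        obtain ⟨h1, h2⟩ := TL_ok e he
        have h3 : pi (FreeGroup.lift fS (FreeGroup.mk e.2.2.2.1)) =
            pi (SpecialLinearGroup.transvection hij e.2.2.1) := by
          apply pi_eq_of_scalar h2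
          rw [lift_coe, h1]
          rfl
        rw [← h3, map_lift]
        have h4 : FreeGroup.lift (fun i => pi (fS i)) (FreeGroup.mk e.2.2.2.1) ∈
            (FreeGroup.lift fP).range := ⟨_, rfl⟩
        rw [FreeGroup.range_lift_eq_closure] at h4
        exact h4
    | one => rw [map_one]; exact one_mem _
    | mul x y _ _ hx hy => rw [map_mul]; exact mul_mem hx hy
    | inv x _ hx => rw [map_inv]; exact inv_mem hx
  rw [eq_top_iff]
  intro x _
  obtain ⟨T, rfl⟩ := pi_surjective x
  exact hK T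

/-- A small subgroup. -/
theorem card_closure_le {G : Type*} [Group G] (x z1 z2 : G) (hx : x ^ 7 = 1) (h1 : z1 * z1 = 1) (h2 : z2 * z2 = 1)
    (c1 : Commute x z1) (c2 : Commute x z2) (c3 : Commute z1 z2) (S : Set G) (hS : S ⊆ {x, z1, z2}) :
    Nat.card (Subgroup.closure S) ≤ 28 ∧ 0 < Nat.card (Subgroup.closure S) := by
  have hxi : x⁻¹ = x ^ 6 := by
    apply inv_eq_of_mul_eq_one_right
    rw [← pow_succ']
    exact hx
  have hz1i : z1⁻¹ = z1 := inv_eq_of_mul_eq_one_right h1
  have hz2i : z2⁻¹ = z2 := inv_eq_of_mul_eq_one_right h2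
  have hz1p : z1 ^ 2 = 1 := by rw [pow_two]; exact h1
  have hz2p : z2 ^ 2 = 1 := by rw [pow_two]; exact h2
  let P : G → Prop := fun g => ∃ i j k : ℕ, g = x ^ i * z1 ^ j * z2 ^ k
  have hstep : ∀ g, P g → ∀ y ∈ ({x, z1, z2} : Set G), P (g * y) := by
    rintro g ⟨i, j, k, rfl⟩ y hy
    rcases hy with hy | hy | hy
    · rw [hy]
      refine ⟨i + 1, j, k, ?_⟩
      have e1 : Commute x (z1 ^ j * z2 ^ k) := (c1.pow_right j).mul_right (c2.pow_right k)
      calc x ^ i * z1 ^ j * z2 ^ k * x = x ^ i * (z1 ^ j * z2 ^ k * x) := by simp only [mul_assoc]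
        _ = x ^ i * (x * (z1 ^ j * z2 ^ k)) := by rw [e1.eq]
        _ = x ^ (i + 1) * z1 ^ j * z2 ^ k := by rw [pow_succ]; simp only [mul_assoc]
    · have hy' : y = z1 := hy
      rw [hy']
      refine ⟨i, j + 1, k, ?_⟩
      have e1 : Commute z1 (z2 ^ k) := c3.pow_right k
      calc x ^ i * z1 ^ j * z2 ^ k * z1 = x ^ i * z1 ^ j * (z2 ^ k * z1) := by simp only [mul_assoc]
        _ = x ^ i * z1 ^ j * (z1 * z2 ^ k) := by rw [e1.eq]
        _ = x ^ i * z1 ^ (j + 1) * z2 ^ k := by rw [pow_succ]; simp only [mul_assoc]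
    · have hy' : y = z2 := hy
      rw [hy']
      exact ⟨i, j, k + 1, by rw [pow_succ]; simp only [mul_assoc]⟩
  have hall : ∀ g ∈ Subgroup.closure S, P g := by
    intro g hg
    induction hg using Subgroup.closure_induction_right with
    | one => exact ⟨0, 0, 0, by simp⟩
    | mul_right g _ y hy ih => exact hstep g ih y (hS hy)
    | mul_inv_cancel g _ y hy ih =>
      have hS' := hS hy
      rcases hS' with h | h | h
      · rw [h, hxi, pow_succ x 5, pow_succ x 4, pow_succ x 3, pow_succ x 2, pow_succ x 1, pow_one]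
        simp only [← mul_assoc]
        have m : x ∈ ({x, z1, z2} : Set G) := Or.inl rfl
        have h0 := hstep g ih x m
        have h' := hstep _ h0 x m
        have h'' := hstep _ h' x m
        have h3 := hstep _ h'' x m
        have h4 := hstep _ h3 x m
        exact hstep _ h4 x m
      · have h' : y = z1 := h
        rw [h', hz1i]
        exact hstep g ih z1 (Or.inr (Or.inl rfl))
      · have h' : y = z2 := h
        rw [h', hz2i]
        exact hstep g ih z2 (Or.inr (Or.inr rfl))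
  let f : Fin 7 × Fin 2 × Fin 2 → G := fun t => x ^ (t.1 : ℕ) * z1 ^ (t.2.1 : ℕ) * z2 ^ (t.2.2 : ℕ)
  have hsub : (Subgroup.closure S : Set G) ⊆ Set.range f := by
    intro g hg
    obtain ⟨i, j, k, rfl⟩ := hall g hg
    refine ⟨(⟨i % 7, Nat.mod_lt _ (by norm_num)⟩, ⟨j % 2, Nat.mod_lt _ (by norm_num)⟩, ⟨k % 2, Nat.mod_lt _ (by norm_num)⟩), ?_⟩
    change x ^ (i % 7) * z1 ^ (j % 2) * z2 ^ (k % 2) = _
    rw [← pow_eq_pow_mod i hx, ← pow_eq_pow_mod j hz1p, ← pow_eq_pow_mod k hz2p]
  have hfin : (Set.range f).Finite := Set.finite_range f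
  have hle : Set.ncard (Subgroup.closure S : Set G) ≤ 28 := by
    have h1 := Set.ncard_le_ncard hsub hfin
    have h2 : (Set.range f).ncard ≤ Nat.card (Fin 7 × Fin 2 × Fin 2) := by
      rw [← Nat.card_coe_set_eq]
      exact Nat.card_le_card_of_surjective (fun t => (⟨f t, t, rfl⟩ : Set.range f)) (fun ⟨_, t, rfl⟩ => ⟨t, rfl⟩)
    have h3 : Nat.card (Fin 7 × Fin 2 × Fin 2) = 28 := by simp
    omega
  have hfin2 : Finite (Subgroup.closure S) := (hfin.subset hsub).to_subtype
  refine ⟨?_, Nat.card_pos⟩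
  have : Nat.card (Subgroup.closure S) = Set.ncard (Subgroup.closure S : Set G) := (Nat.card_coe_set_eq _)
  omega

/-- The presented group. -/
abbrev U : Type := PresentedGroup L34U.RR

theorem rel_mem {r : FreeGroup (Fin 2)} (h : r ∈ rsAll) : PresentedGroup.mk L34U.RR r = 1 :=
  PresentedGroup.one_of_mem h

theorem central_of_mem {l : List (Fin 2 × Bool)} (hl : l ∈ WL) :
    PresentedGroup.mk L34U.RR (wF l) * PresentedGroup.mk L34U.RR (wF l) = 1 ∧
      PresentedGroup.mk L34U.RR (wF l) ∈ Subgroup.center U := by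
  have hmem : ∀ r ∈ relsOf (wF l), r ∈ rsAll := by
    intro r hr
    refine List.mem_cons_of_mem _ (List.mem_cons_of_mem _ (List.mem_flatMap.2 ⟨l, hl, hr⟩))
  have h1 := rel_mem (hmem (wF l * wF l) (by simp [relsOf]))
  have h2 := rel_mem (hmem (wF l * aF * (wF l)⁻¹ * aF⁻¹) (by simp [relsOf]))
  have h3 := rel_mem (hmem (wF l * bF * (wF l)⁻¹ * bF⁻¹) (by simp [relsOf]))
  rw [map_mul] at h1
  refine ⟨h1, ?_⟩
  set z := PresentedGroup.mk L34U.RR (wF l) with hz
  rw [map_mul, map_mul, map_mul, map_inv, map_inv, ← hz] at h2 h3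
  have hc0 : z * PresentedGroup.of (rels := L34U.RR) 0 = PresentedGroup.of 0 * z := by
    have : z * (PresentedGroup.mk L34U.RR aF) * z⁻¹ * (PresentedGroup.mk L34U.RR aF)⁻¹ = 1 := h2
    exact (mul_inv_eq_one.1 this ▸ (inv_mul_cancel_right _ _).symm : _)
  have hc1 : z * PresentedGroup.of (rels := L34U.RR) 1 = PresentedGroup.of 1 * z := by
    have : z * (PresentedGroup.mk L34U.RR bF) * z⁻¹ * (PresentedGroup.mk L34U.RR bF)⁻¹ = 1 := h3
    exact (mul_inv_eq_one.1 this ▸ (inv_mul_cancel_right _ _).symm : _)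
  have hcl : Subgroup.closure (Set.range (PresentedGroup.of (rels := L34U.RR))) ≤ Subgroup.centralizer {z} := by
    rw [Subgroup.closure_le]
    rintro _ ⟨i, rfl⟩
    rw [SetLike.mem_coe, Subgroup.mem_centralizer_singleton_iff]
    fin_cases i
    · exact hc0.symm
    · exact hc1.symm
  rw [PresentedGroup.closure_range_of, top_le_iff] at hcl
  rw [Subgroup.mem_center_iff]
  intro g
  have : g ∈ Subgroup.centralizer {z} := by rw [hcl]; trivial
  exact (Subgroup.mem_centralizer_singleton_iff.1 this)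

theorem card_U : Nat.card U ≤ 80640 ∧ 0 < Nat.card U := by
  have hl0 : WL.getD 0 [] ∈ WL := by decide +kernel
  have hl2 : WL.getD 2 [] ∈ WL := by decide +kernel
  obtain ⟨s1, s2⟩ := central_of_mem hl0
  obtain ⟨t1, t2⟩ := central_of_mem hl2
  have hx : (PresentedGroup.mk L34U.RR bF) ^ 7 = 1 := by
    rw [← map_pow]
    exact rel_mem (List.mem_cons_of_mem _ (List.mem_cons_self ..))
  have hH : HOf L34U.RR L34U.D.Hs = Subgroup.closure (PresentedGroup.mk L34U.RR '' {h | h ∈ HsAll}) := by
    rw [HOf, MonoidHom.map_closure]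
    rfl
  have hS : (PresentedGroup.mk L34U.RR '' {h | h ∈ HsAll}) ⊆
      {PresentedGroup.mk L34U.RR bF, PresentedGroup.mk L34U.RR (wF (WL.getD 0 [])), PresentedGroup.mk L34U.RR (wF (WL.getD 2 []))} := by
    rintro _ ⟨h, hh, rfl⟩
    simp only [HsAll, List.mem_cons, List.not_mem_nil, or_false] at hh
    rcases hh with rfl | rfl | rfl
    · exact Or.inl rfl
    · exact Or.inr (Or.inl rfl)
    · exact Or.inr (Or.inr rfl)
  obtain ⟨h1, h2⟩ := card_closure_le _ _ _ hx s1 t1
    (Subgroup.mem_center_iff.1 s2 _) (Subgroup.mem_center_iff.1 t2 _)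
    (Subgroup.mem_center_iff.1 t2 _) _ hS
  rw [← hH] at h1 h2
  have h3 := Subgroup.card_mul_index (HOf L34U.RR L34U.D.Hs)
  rw [L34U.index] at h3
  have h3' : Nat.card U = Nat.card (HOf L34U.RR L34U.D.Hs) * 2880 := h3.symm
  constructor
  · rw [h3']
    exact le_trans (Nat.mul_le_mul_right 2880 h1) (by norm_num)
  · rw [h3']
    exact Nat.mul_pos h2 (by norm_num)

/-- Central factors do not change a commutator. -/
theorem comm_central {G : Type*} [Group G] (a b u v : G) (hu : u ∈ Subgroup.center G) (hv : v ∈ Subgroup.center G) :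
    ⁅a * u, b * v⁆ = ⁅a, b⁆ := by
  have cu := Subgroup.mem_center_iff.1 hu
  have cv := Subgroup.mem_center_iff.1 hv
  have e1 : a * u * (b * v) = a * b * (u * v) := by
    rw [mul_assoc a u, ← mul_assoc u b v, ← cu b, mul_assoc b u v, ← mul_assoc a b]
  have e1' : b * v * (a * u) = b * a * (v * u) := by
    rw [mul_assoc b v, ← mul_assoc v a u, ← cv a, mul_assoc a v u, ← mul_assoc b a]
  have e3 : u * v = v * u := (cu v).symm
  rw [commutatorElement_def, commutatorElement_def, e1, mul_assoc _ (a * u)⁻¹, ← _root_.mul_inv_rev, e1', e3, _root_.mul_inv_rev]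
  group

section Main

variable {L : Type*} [Group L] [Finite L]

/-- The main step. -/
theorem main (hq : IsQuasisimple L) (hc : Nat.card (Subgroup.center L) = 4)
    (he : ∀ x ∈ Subgroup.center L, x * x = 1) (e : L ⧸ Subgroup.center L ≃* P3) :
    Nonempty (U ≃* L) := by
  let π : L →* P3 := e.toMonoidHom.comp (QuotientGroup.mk' (Subgroup.center L))
  have hπs : Function.Surjective π := e.surjective.comp (QuotientGroup.mk'_surjective _)
  have hπk : ∀ g, π g = 1 → g ∈ Subgroup.center L := by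
    intro g hg
    have h1 : (QuotientGroup.mk' (Subgroup.center L)) g = 1 := e.injective (by rw [map_one]; exact hg)
    rwa [← MonoidHom.mem_ker, QuotientGroup.ker_mk'] at h1
  obtain ⟨x0, hx0⟩ := hπs (fP 0)
  obtain ⟨y0, hy0⟩ := hπs (fP 1)
  have hx3 : (x0 ^ 4) ^ 3 = 1 := by
    have h1 : x0 ^ 3 ∈ Subgroup.center L := hπk _ (by rw [map_pow, hx0, fP0_pow])
    have h2 := he _ h1
    calc (x0 ^ 4) ^ 3 = (x0 ^ 3 * x0 ^ 3) ^ 2 := by
          rw [← pow_add, ← pow_mul, ← pow_mul]
      _ = 1 := by rw [h2, one_pow]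
  have hy7 : (y0 ^ 8) ^ 7 = 1 := by
    have h1 : y0 ^ 7 ∈ Subgroup.center L := hπk _ (by rw [map_pow, hy0, fP1_pow])
    have h2 := he _ h1
    calc (y0 ^ 8) ^ 7 = (y0 ^ 7 * y0 ^ 7) ^ 4 := by
          rw [← pow_add, ← pow_mul, ← pow_mul]
      _ = 1 := by rw [h2, one_pow]
  let f : Fin 2 → L := ![x0 ^ 4, y0 ^ 8]
  have hf : ∀ i, π (f i) = fP i := by
    intro i
    fin_cases i
    · change π (x0 ^ 4) = fP 0
      rw [map_pow, hx0, pow_succ, fP0_pow, one_mul]
    · change π (y0 ^ 8) = fP 1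
      rw [map_pow, hy0, pow_succ, fP1_pow, one_mul]
  have hmap : ∀ w, π (FreeGroup.lift f w) = FreeGroup.lift fP w := by
    intro w
    rw [map_lift]
    congr 2
    funext i
    exact hf i
  have hZ : ∀ l ∈ WL, FreeGroup.lift f (wF l) ∈ Subgroup.center L := by
    intro l hl
    apply hπk
    rw [hmap, lift_WL l hl]
  have hrel : ∀ r ∈ L34U.RR, FreeGroup.lift f r = 1 := by
    intro r hr
    have hr' : r ∈ rsAll := hr
    simp only [rsAll, List.mem_cons, List.mem_flatMap] at hr'
    rcases hr' with rfl | rfl | ⟨l, hl, hr'⟩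
    · rw [map_pow]
      change (FreeGroup.lift f (FreeGroup.of 0)) ^ 3 = 1
      rw [FreeGroup.lift_apply_of]
      exact hx3
    · rw [map_pow]
      change (FreeGroup.lift f (FreeGroup.of 1)) ^ 7 = 1
      rw [FreeGroup.lift_apply_of]
      exact hy7
    · have hz := hZ l hl
      set z := FreeGroup.lift f (wF l) with hzd
      simp only [relsOf, List.mem_cons, List.not_mem_nil, or_false] at hr'
      rcases hr' with rfl | rfl | rfl
      · rw [map_mul, ← hzd]
        exact he z hz
      · rw [map_mul, map_mul, map_mul, map_inv, map_inv, ← hzd]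
        rw [(Subgroup.mem_center_iff.1 hz _).symm]
        group
      · rw [map_mul, map_mul, map_mul, map_inv, map_inv, ← hzd]
        rw [(Subgroup.mem_center_iff.1 hz _).symm]
        group
  let φ : U →* L := PresentedGroup.toGroup hrel
  have hcl : ∀ g : L, ∃ h ∈ φ.range, π h = π g := by
    have hle : Subgroup.closure (Set.range fP) ≤ φ.range.map π := by
      rw [Subgroup.closure_le]
      rintro _ ⟨i, rfl⟩
      exact ⟨f i, ⟨PresentedGroup.of i, PresentedGroup.toGroup.of hrel⟩, hf i⟩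
    rw [closure_fP, top_le_iff] at hle
    intro g
    have : π g ∈ φ.range.map π := by rw [hle]; trivial
    obtain ⟨h, hh, e'⟩ := this
    exact ⟨h, hh, e'⟩
  have hsurj : Function.Surjective φ := by
    have htop : commutator L ≤ φ.range := by
      rw [commutator_def, Subgroup.commutator_le]
      intro g _ h _
      obtain ⟨g1, hg1, eg⟩ := hcl g
      obtain ⟨h1, hh1, eh⟩ := hcl h
      have zg : g1⁻¹ * g ∈ Subgroup.center L := hπk _ (by rw [map_mul, map_inv, eg, inv_mul_cancel])
      have zh : h1⁻¹ * h ∈ Subgroup.center L := hπk _ (by rw [map_mul, map_inv, eh, inv_mul_cancel])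
      have eg' : g = g1 * (g1⁻¹ * g) := by group
      have eh' : h = h1 * (h1⁻¹ * h) := by group
      rw [eg', eh', comm_central _ _ _ _ zg zh, commutatorElement_def]
      exact mul_mem (mul_mem (mul_mem hg1 hh1) (inv_mem hg1)) (inv_mem hh1)
    have hp : commutator L = ⊤ := hq.1.commutator_eq_top
    rw [hp, top_le_iff] at htop
    exact MonoidHom.range_eq_top.1 htop
  have hcardL : Nat.card L = 80640 := by
    have h1 := Subgroup.card_eq_card_quotient_mul_card_subgroup (Subgroup.center L)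
    rw [hc, Nat.card_congr e.toEquiv, card_P3] at h1
    omega
  obtain ⟨hU1, hU2⟩ := card_U
  have hfinU : Finite U := Nat.finite_of_card_ne_zero hU2.ne'
  have hbij : Function.Bijective φ :=
    hsurj.bijective_of_nat_card_le (by rw [hcardL]; exact hU1)
  exact ⟨MulEquiv.ofBijective φ hbij⟩

end Main

/-- Up to isomorphism there is at most one quasisimple group whose centre is elementary abelian of order 4 and whose central quotient is isomorphic to the projective special linear group of dimension 3 over the field with four elements: any two such groups are isomorphic. -/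
theorem result {L₁ L₂ : Type*} [Group L₁] [Finite L₁] [Group L₂] [Finite L₂] (F : Type) [Field F] [Fintype F] (hF : Fintype.card F = 4) (h₁ : Cfsg.IsQuasisimple L₁) (h₂ : Cfsg.IsQuasisimple L₂) (hc₁ : Nat.card (Subgroup.center L₁) = 4) (hc₂ : Nat.card (Subgroup.center L₂) = 4) (he₁ : ∀ x ∈ Subgroup.center L₁, x * x = 1) (he₂ : ∀ x ∈ Subgroup.center L₂, x * x = 1) (e₁ : L₁ ⧸ Subgroup.center L₁ ≃* Matrix.ProjectiveSpecialLinearGroup (Fin 3) F) (e₂ : L₂ ⧸ Subgroup.center L₂ ≃* Matrix.ProjectiveSpecialLinearGroup (Fin 3) F) : Nonempty (L₁ ≃* L₂) := by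
  let ε : ProjectiveSpecialLinearGroup (Fin 3) GF4 ≃* ProjectiveSpecialLinearGroup (Fin 3) F :=
    pslCongr (equivOfCard (F := GF4) (K := F) (by rw [card_GF4, hF]))
  obtain ⟨u₁⟩ := main h₁ hc₁ he₁ (e₁.trans ε.symm)
  obtain ⟨u₂⟩ := main h₂ hc₂ he₂ (e₂.trans ε.symm)
  exact ⟨u₁.symm.trans u₂⟩

end Cfsg.Agent.S5387
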