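import Cfsg.Statements.S5388
import Cfsg.Agent.Lib.Sporadic.Co1Cent.FStar

set_option autoImplicit false
open Cfsg

namespace Cfsg.Agent.S5388

open Cfsg.Agent.Lib.Sporadic.Co1Cent.Lift Cfsg.Agent.Lib.Sporadic.Co1Cent.FStar
  Cfsg.Agent.Lib.Sporadic.Co2Cent.PGrp

/-- The first Conway group, the automorphism group of the Leech lattice modulo its centre, satisfies the large extraspecial hypothesis of plus type in dimension 8: it has an involution z whose centralizer C has generalized Fitting subgroup Q extraspecial of order 2^9, with C/Q isomorphic to the commutator subgroup of the isometry group of the hyperbolic quadratic form in dimension 8 over the field with two elements, and some conjugate of z other than z lies in Q. -/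
theorem result : ∃ z : Cfsg.Spor.Co1, orderOf z = 2 ∧ ∃ (Q : Subgroup (Subgroup.centralizer ({z} : Set Cfsg.Spor.Co1))) (_ : Q.Normal), Cfsg.generalizedFittingSubgroup (Subgroup.centralizer ({z} : Set Cfsg.Spor.Co1)) = Q ∧ Cfsg.IsExtraspecial 2 Q ∧ Nat.card Q = 2 ^ 9 ∧ Nonempty ((Subgroup.centralizer ({z} : Set Cfsg.Spor.Co1)) ⧸ Q ≃* Cfsg.Omega (ZMod 2) (Cfsg.quadFormPlus 4 (ZMod 2))) ∧ ∃ g : Cfsg.Spor.Co1, (∃ hq : g * z * g⁻¹ ∈ Subgroup.centralizer ({z} : Set Cfsg.Spor.Co1), (⟨g * z * g⁻¹, hq⟩ : Subgroup.centralizer ({z} : Set Cfsg.Spor.Co1)) ∈ Q) ∧ g * z * g⁻¹ ≠ z := by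
  refine ⟨zC, zC_order, psiO.ker, inferInstance, fstar_HC, extra_ker, card_kerO, quot_ker, ?_⟩
  refine ⟨Cfsg.Agent.Lib.Sporadic.LeechLocal.mkC gD, ?_, ?_⟩
  · have hq : Cfsg.Agent.Lib.Sporadic.LeechLocal.mkC gD * zC * (Cfsg.Agent.Lib.Sporadic.LeechLocal.mkC gD)⁻¹ ∈
        Subgroup.centralizer ({zC} : Set Cfsg.Spor.Co1) := by
      rw [mkC_conj]
      exact (piC ⟨eD, P_le_C0 eD_P⟩).2
    refine ⟨hq, mem_kerO_iff.2 ⟨⟨eD, P_le_C0 eD_P⟩, eD_P, ?_⟩⟩
    apply Subtype.ext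
    exact mkC_conj.symm
  · rw [mkC_conj]
    exact eD_ne

end Cfsg.Agent.S5388
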