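import Cfsg.Statements.S5394
import Cfsg.Agent.Lib.Compute.M24ClassFacts
import Cfsg.Agent.Lib.Compute.M24Fix

set_option autoImplicit false
open Cfsg

namespace Cfsg.Agent.S5394

open Cfsg.Agent.Lib.Compute.M24

open scoped Pointwise in
theorem fix_conj (k t : Equiv.Perm Cfsg.GolayPt) :
    (Finset.univ.filter fun p => (k * t * k⁻¹) p = p) = k • (Finset.univ.filter fun p => t p = p) := by
  classical
  ext p
  rw [Finset.mem_filter, Finset.mem_smul_finset]
  constructor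
  · rintro ⟨-, h⟩
    refine ⟨k⁻¹ p, Finset.mem_filter.2 ⟨Finset.mem_univ _, ?_⟩, by simp⟩
    rw [Equiv.Perm.mul_apply, Equiv.Perm.mul_apply] at h
    rw [Equiv.Perm.eq_inv_iff_eq]
    exact h
  · rintro ⟨q, hq, rfl⟩
    refine ⟨Finset.mem_univ _, ?_⟩
    have hq' := (Finset.mem_filter.1 hq).2
    simp [hq']

open scoped Pointwise in
theorem fix_conj_oct {k : Equiv.Perm Cfsg.GolayPt} (hk : k ∈ Cfsg.M24) {t : Equiv.Perm Cfsg.GolayPt}
    (h : (Finset.univ.filter fun p => t p = p) ∈ Cfsg.octads) :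
    (Finset.univ.filter fun p => (k * t * k⁻¹) p = p) ∈ Cfsg.octads := by
  rw [fix_conj]
  exact smul_mem_octads hk h

def fixMask : ℕ := 1 + 2 + 4 + 8 + 32 + 16384 + 131072 + 8388608

theorem fixMask_bits : ∀ i : Fin 24, fixMask.testBit i.val = (t8L.getD i.val 0 == i.val) := by decide +kernel

theorem fix_t8_eq : (Finset.univ.filter fun p => t8P p = p) = Cfsg.Agent.Lib.Compute.Golay.maskSupport fixMask := by
  ext p
  rw [Finset.mem_filter, mem_maskSupport_iff]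
  have h1 := fixMask_bits ⟨_, Cfsg.Agent.Lib.Compute.Golay.ptIdx_lt p⟩
  simp only at h1
  rw [h1]
  have h2 := getD_toL t8P (Cfsg.Agent.Lib.Compute.Golay.ptIdx_lt p)
  rw [t8P_toL, Cfsg.Agent.Lib.Compute.Golay.idxPt_ptIdx] at h2
  rw [h2]
  constructor
  · rintro ⟨-, h⟩
    rw [h]
    simp
  · intro h
    refine ⟨Finset.mem_univ _, ?_⟩
    exact Cfsg.Agent.Lib.Compute.Golay.ptIdx_injective (by simpa using h)

theorem fix_t8_oct : (Finset.univ.filter fun p => t8P p = p) ∈ Cfsg.octads := by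
  rw [fix_t8_eq]
  exact maskSupport_mem_octads (by decide +kernel) (by decide +kernel)

theorem conj_of_two {g h t k l : Equiv.Perm Cfsg.GolayPt} (hk : k ∈ Cfsg.M24) (hl : l ∈ Cfsg.M24)
    (hg : k * t * k⁻¹ = g) (hh : l * t * l⁻¹ = h) : ∃ m ∈ Cfsg.M24, m * g * m⁻¹ = h := by
  refine ⟨l * k⁻¹, Cfsg.M24.mul_mem hl (Cfsg.M24.inv_mem hk), ?_⟩
  rw [← hg, ← hh]
  group


/-- The automorphism group of the length-24 code built from the squares modulo 23 has exactly two conjugacy classes of involutions: an involution either fixes exactly the eight points of an octad or has no fixed points, both kinds occur, and any two involutions of the same kind are conjugate in the group. -/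
theorem result : (∀ g ∈ Cfsg.M24, orderOf g = 2 → (Finset.univ.filter fun p => g p = p) ∈ Cfsg.octads ∨ ∀ p, g p ≠ p) ∧ (∃ g ∈ Cfsg.M24, orderOf g = 2 ∧ (Finset.univ.filter fun p => g p = p) ∈ Cfsg.octads) ∧ (∃ g ∈ Cfsg.M24, orderOf g = 2 ∧ ∀ p, g p ≠ p) ∧ ∀ g ∈ Cfsg.M24, ∀ h ∈ Cfsg.M24, orderOf g = 2 → orderOf h = 2 → ((∀ p, g p ≠ p) ↔ (∀ p, h p ≠ p)) → ∃ k ∈ Cfsg.M24, k * g * k⁻¹ = h := by
  refine ⟨?_, ?_, ?_, ?_⟩
  · intro g hg h2
    rcases inv_class' hg h2 with ⟨⟨k, hk, rfl⟩, -⟩ | ⟨-, h0⟩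
    · left
      exact fix_conj_oct hk fix_t8_oct
    · right
      exact (fpf_iff_card g).2 h0
  · exact ⟨t8P, t8P_mem, orderOf_eq_two_of t8_sq t8_ne, fix_t8_oct⟩
  · exact ⟨t0P, t0P_mem, orderOf_eq_two_of t0_sq t0_ne, (fpf_iff_card _).2 card_fix_t0⟩
  · intro g hg h hh hg2 hh2 hiff
    rcases inv_class' hg hg2 with ⟨⟨k, hk, hk'⟩, hc⟩ | ⟨⟨k, hk, hk'⟩, hc⟩ <;>
      rcases inv_class' hh hh2 with ⟨⟨l, hl, hl'⟩, hd⟩ | ⟨⟨l, hl, hl'⟩, hd⟩
    · exact conj_of_two hk hl hk' hl'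
    · exfalso
      have := (fpf_iff_card g).1 (hiff.2 ((fpf_iff_card h).2 hd))
      omega
    · exfalso
      have := (fpf_iff_card h).1 (hiff.1 ((fpf_iff_card g).2 hc))
      omega
    · exact conj_of_two hk hl hk' hl'

end Cfsg.Agent.S5394
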