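import Cfsg.Statements.S5395
import Mathlib
import Cfsg.Agent.Lib.PGroup.ExtraQuad
-- import your own Cfsg.Agent.* helpers here

set_option autoImplicit false
open Cfsg

namespace Cfsg.Agent.S5395

open Cfsg.Agent.Lib.PGroup.ExtraQuad
open scoped commutatorElement

/-- For a finite extraspecial 2-group E, an automorphism of E that induces the identity on E modulo its centre is inner (so these automorphisms form exactly the inner automorphism group, an elementary abelian 2-group of order |E|/2). -/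
theorem result {E : Type*} [Group E] [Finite E] (hE : Cfsg.IsExtraspecial 2 E) (φ : E ≃* E) (hφ : ∀ x : E, φ x * x⁻¹ ∈ Subgroup.center E) : ∃ g : E, ∀ x : E, φ x = g * x * g⁻¹ := by
  classical
  letI : Fintype E := Fintype.ofFinite E
  have h := quadPair_of_extraspecial hE
  set Z := Subgroup.center E with hZ
  -- the cocycle
  let c : E → E := fun x => φ x * x⁻¹
  have hc_mem : ∀ x, c x ∈ Z := hφ
  have hc_mul : ∀ x y, c (x * y) = c x * c y := by
    intro x y
    have h1 := h.mem_center_of_mem (hc_mem y) (φ x)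
    simp only [c, map_mul] at h1 ⊢
    calc φ x * φ y * (x * y)⁻¹ = φ x * (φ y * y⁻¹) * x⁻¹ := by group
      _ = (φ y * y⁻¹) * φ x * x⁻¹ := by rw [h1]
      _ = (φ y * y⁻¹) * (φ x * x⁻¹) := by group
      _ = (φ x * x⁻¹) * (φ y * y⁻¹) := (h.mem_center_of_mem (hc_mem x) (φ y * y⁻¹)).symm ▸ rfl
  have hc_Z : ∀ x ∈ Z, c x = 1 := by
    intro x hx
    by_cases hx1 : x = 1
    · subst hx1; simp [c]
    have h1 : φ x ∈ Z := by
      rw [hZ, Subgroup.mem_center_iff]
      intro g
      have h2 := (Subgroup.mem_center_iff.1 hx) (φ.symm g)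
      have h3 := congrArg φ h2
      simpa using h3
    have h2 : φ x ≠ 1 := fun h3 => hx1 (by simpa using h3)
    have h3 := h.eq_of_ne_one h1 hx h2 hx1
    simp [c, h3]
  -- double sum
  have hdouble : ∑ g : E, ∑ x : E, sgn (c x) * sgn ⁅g, x⁆ = (Fintype.card E : ℤ) * 2 := by
    rw [Finset.sum_comm]
    have h1 : ∀ x : E, ∑ g : E, sgn (c x) * sgn ⁅g, x⁆ =
        if x ∈ Z then (Fintype.card E : ℤ) else 0 := by
      intro x
      rw [← Finset.mul_sum]
      have h2 : ∑ g : E, sgn ⁅g, x⁆ = ∑ g : E, sgn ⁅x, g⁆ := by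
        refine Finset.sum_congr rfl fun g _ => ?_
        rw [h.comm_symm x g]
      rw [h2, h.sum_sgn_comm x]
      split_ifs with hx
      · rw [hc_Z x hx, sgn_one, one_mul]
      · rw [mul_zero]
    simp only [h1]
    rw [Finset.sum_ite]
    simp only [Finset.sum_const_zero, add_zero, Finset.sum_const, nsmul_eq_mul]
    have h3 : (Finset.univ.filter (fun x : E => x ∈ Z)).card = 2 := by
      have := hE.2
      rw [Nat.card_eq_fintype_card] at this
      rw [← this, Fintype.card_subtype]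
    rw [h3]
    push_cast
    ring
  have hne : ∑ g : E, ∑ x : E, sgn (c x) * sgn ⁅g, x⁆ ≠ 0 := by
    rw [hdouble]
    have : (0 : ℤ) < Fintype.card E := by exact_mod_cast Fintype.card_pos
    positivity
  obtain ⟨g, -, hg⟩ := Finset.exists_ne_zero_of_sum_ne_zero hne
  refine ⟨g, ?_⟩
  -- the map is trivial
  have hf_mul : ∀ a b : E, sgn (c (a * b)) * sgn ⁅g, a * b⁆ =
      (sgn (c a) * sgn ⁅g, a⁆) * (sgn (c b) * sgn ⁅g, b⁆) := by
    intro a b
    rw [hc_mul, h.sgn_mul (hc_mem a) (hc_mem b), h.sgn_comm_mul_right]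
    ring
  have hall : ∀ x : E, sgn (c x) * sgn ⁅g, x⁆ = 1 := by
    intro x
    by_contra hx
    have hx' : sgn (c x) * sgn ⁅g, x⁆ = -1 := by
      have h1 := sgn_mul_self (c x)
      have h2 := sgn_mul_self ⁅g, x⁆
      have h3 : (sgn (c x) * sgn ⁅g, x⁆) * (sgn (c x) * sgn ⁅g, x⁆) = 1 := by
        calc _ = (sgn (c x) * sgn (c x)) * (sgn ⁅g, x⁆ * sgn ⁅g, x⁆) := by ring
          _ = 1 := by rw [h1, h2, one_mul]
      rcases mul_self_eq_one_iff.1 h3 with h4 | h4
      · exact absurd h4 hx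
      · exact h4
    exact hg (QuadPair.sum_sgn_of_ne _ hf_mul x hx')
  intro x
  have h1 : sgn (c x) = sgn ⁅g, x⁆ := by
    have h2 := hall x
    have h3 := sgn_mul_self ⁅g, x⁆
    calc sgn (c x) = sgn (c x) * (sgn ⁅g, x⁆ * sgn ⁅g, x⁆) := by rw [h3, mul_one]
      _ = (sgn (c x) * sgn ⁅g, x⁆) * sgn ⁅g, x⁆ := by ring
      _ = sgn ⁅g, x⁆ := by rw [h2, one_mul]
  have h2 : c x = ⁅g, x⁆ := by
    by_cases h3 : c x = 1
    · rw [h3, sgn_one] at h1
      have := sgn_eq_one_iff.1 h1.symm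
      rw [h3, this]
    · have h4 : ⁅g, x⁆ ≠ 1 := by
        intro h5
        rw [h5, sgn_one, sgn_of_ne h3] at h1
        norm_num at h1
      exact h.eq_of_ne_one (hc_mem x) (h.comm_mem g x) h3 h4
  have h3 : φ x = c x * x := by simp [c]
  rw [h3, h2, commutatorElement_def]
  group

end Cfsg.Agent.S5395
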