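import Cfsg.Statements.S5396
import Mathlib
import Cfsg.Agent.Lib.PGroup.ExtraRank
-- import your own Cfsg.Agent.* helpers here

set_option autoImplicit false
open Cfsg

namespace Cfsg.Agent.S5396

open Cfsg.Agent.Lib.PGroup.ExtraQuad Cfsg.Agent.Lib.PGroup.ExtraClass Cfsg.Agent.Lib.PGroup.ExtraRank
open scoped commutatorElement

/-- A Heisenberg type group, with `e = 1` for the twisted form. -/
@[ext]
structure HG (k : ℕ) (e : ZMod 2) where
  c : ZMod 2
  a : Fin (k + 1) → ZMod 2
  b : Fin (k + 1) → ZMod 2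

variable {k : ℕ} {e : ZMod 2}

/-- The cocycle. -/
def F (x y : HG k e) : ZMod 2 :=
  ∑ i, x.a i * y.b i + e * (x.a 0 * y.a 0 + x.b 0 * y.b 0)

instance : Mul (HG k e) := ⟨fun x y => ⟨x.c + y.c + F x y, x.a + y.a, x.b + y.b⟩⟩
instance : One (HG k e) := ⟨⟨0, 0, 0⟩⟩
instance : Inv (HG k e) := ⟨fun x => ⟨-x.c - F (⟨0, -x.a, -x.b⟩ : HG k e) x, -x.a, -x.b⟩⟩

@[simp] lemma mul_c (x y : HG k e) : (x * y).c = x.c + y.c + F x y := rfl
@[simp] lemma mul_a (x y : HG k e) : (x * y).a = x.a + y.a := rfl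
@[simp] lemma mul_b (x y : HG k e) : (x * y).b = x.b + y.b := rfl
@[simp] lemma one_c : (1 : HG k e).c = 0 := rfl
@[simp] lemma one_a : (1 : HG k e).a = 0 := rfl
@[simp] lemma one_b : (1 : HG k e).b = 0 := rfl
@[simp] lemma inv_c (x : HG k e) : (x⁻¹).c = -x.c - F (⟨0, -x.a, -x.b⟩ : HG k e) x := rfl
@[simp] lemma inv_a (x : HG k e) : (x⁻¹).a = -x.a := rfl
@[simp] lemma inv_b (x : HG k e) : (x⁻¹).b = -x.b := rfl

lemma F_add_left (x y z : HG k e) : F (x * y) z = F x z + F y z := by
  simp only [F, mul_a, mul_b, Pi.add_apply, add_mul, Finset.sum_add_distrib]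
  ring

lemma F_add_right (x y z : HG k e) : F z (x * y) = F z x + F z y := by
  simp only [F, mul_a, mul_b, Pi.add_apply, mul_add, Finset.sum_add_distrib]
  ring

instance : Group (HG k e) :=
  Group.ofLeftAxioms
    (by
      intro x y z
      ext1
      · simp only [mul_c, F_add_left, F_add_right]; ring
      · simp only [mul_a]; ring
      · simp only [mul_b]; ring)
    (by
      intro x
      ext1
      · simp [F]
      · simp
      · simp)
    (by
      intro x
      ext1
      · simp only [mul_c, inv_c, one_c]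
        have h : F x⁻¹ x = F (⟨0, -x.a, -x.b⟩ : HG k e) x := rfl
        rw [h]
        ring
      · simp
      · simp)

instance : Finite (HG k e) :=
  Finite.of_equiv (ZMod 2 × (Fin (k + 1) → ZMod 2) × (Fin (k + 1) → ZMod 2))
    { toFun := fun x => ⟨x.1, x.2.1, x.2.2⟩
      invFun := fun x => (x.c, x.a, x.b)
      left_inv := fun _ => rfl
      right_inv := fun _ => rfl }

lemma card_HG : Nat.card (HG k e) = 2 ^ (2 * (k + 1) + 1) := by
  have h : Nat.card (HG k e) = Nat.card (ZMod 2 × (Fin (k + 1) → ZMod 2) × (Fin (k + 1) → ZMod 2)) :=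
    Nat.card_congr
      { toFun := fun x => (x.c, x.a, x.b)
        invFun := fun x => ⟨x.1, x.2.1, x.2.2⟩
        left_inv := fun _ => rfl
        right_inv := fun _ => rfl }
  rw [h]
  rw [Nat.card_eq_fintype_card]
  simp only [Fintype.card_prod, Fintype.card_pi, ZMod.card, Finset.prod_const,
    Finset.card_univ, Fintype.card_fin]
  ring

/-- Central elements. -/
def mkZ (t : ZMod 2) : HG k e := ⟨t, 0, 0⟩

@[simp] lemma mkZ_c (t : ZMod 2) : (mkZ t : HG k e).c = t := rfl
@[simp] lemma mkZ_a (t : ZMod 2) : (mkZ t : HG k e).a = 0 := rfl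
@[simp] lemma mkZ_b (t : ZMod 2) : (mkZ t : HG k e).b = 0 := rfl

lemma mkZ_zero : (mkZ 0 : HG k e) = 1 := rfl

lemma mkZ_one_ne : (mkZ 1 : HG k e) ≠ 1 := by
  intro h
  have := congrArg HG.c h
  simp [mkZ] at this

lemma F_mkZ_left (t : ZMod 2) (y : HG k e) : F (mkZ t : HG k e) y = 0 := by
  simp [F, mkZ]

lemma F_mkZ_right (t : ZMod 2) (y : HG k e) : F y (mkZ t : HG k e) = 0 := by
  simp [F, mkZ]

lemma two_eq_zero' (t : ZMod 2) : t + t = 0 := CharTwo.add_self_eq_zero t

lemma comm_eq (x y : HG k e) : ⁅x, y⁆ = mkZ (F x y + F y x) := by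
  have h : x * y = mkZ (F x y + F y x) * (y * x) := by
    ext1
    · simp only [mul_c, F_mkZ_left, mkZ_c]
      have := two_eq_zero' (F y x)
      linear_combination -this
    · simp only [mul_a, mkZ_a]; ring
    · simp only [mul_b, mkZ_b]; ring
  rw [commutatorElement_def, h]
  group

lemma sq_eq (x : HG k e) : x ^ 2 = mkZ (F x x) := by
  rw [pow_two]
  ext1
  · simp only [mul_c, mkZ_c]
    have := two_eq_zero' x.c
    linear_combination this
  · funext i
    simp only [mul_a, mkZ_a, Pi.add_apply, Pi.zero_apply]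
    exact two_eq_zero' _
  · funext i
    simp only [mul_b, mkZ_b, Pi.add_apply, Pi.zero_apply]
    exact two_eq_zero' _

lemma B_eq (x y : HG k e) : F x y + F y x = ∑ i, (x.a i * y.b i + y.a i * x.b i) := by
  have h1 : e * (x.a 0 * y.a 0 + x.b 0 * y.b 0) + e * (y.a 0 * x.a 0 + y.b 0 * x.b 0) = 0 := by
    have := two_eq_zero' (e * (x.a 0 * y.a 0 + x.b 0 * y.b 0))
    linear_combination this
  simp only [F]
  rw [Finset.sum_add_distrib]
  linear_combination h1

lemma mkZ_mem_center (t : ZMod 2) : (mkZ t : HG k e) ∈ Subgroup.center (HG k e) := by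
  rw [Subgroup.mem_center_iff]
  intro g
  have h := comm_eq (mkZ t : HG k e) g
  rw [F_mkZ_left, F_mkZ_right, add_zero, mkZ_zero, commutatorElement_eq_one_iff_mul_comm] at h
  exact h.symm

lemma eq_mkZ_of_mem_center {x : HG k e} (hx : x ∈ Subgroup.center (HG k e)) : x = mkZ x.c := by
  have h1 : ∀ y : HG k e, F x y + F y x = 0 := by
    intro y
    have h2 : ⁅x, y⁆ = 1 := QuadPair.comm_eq_one_of_mem_center hx
    rw [comm_eq] at h2
    have := congrArg HG.c h2
    simpa [mkZ] using this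
  ext1
  · rfl
  · funext i
    have h2 := h1 ⟨0, 0, Pi.single i 1⟩
    rw [B_eq] at h2
    simp only [Pi.zero_apply, zero_mul, add_zero] at h2
    simpa [Pi.single_apply, mkZ] using h2
  · funext i
    have h2 := h1 ⟨0, Pi.single i 1, 0⟩
    rw [B_eq] at h2
    simp only [Pi.zero_apply, mul_zero, zero_add] at h2
    simpa [Pi.single_apply, mkZ] using h2

lemma card_center : Nat.card (Subgroup.center (HG k e)) = 2 := by
  have : Nat.card (Subgroup.center (HG k e)) = Nat.card (ZMod 2) :=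
    Nat.card_congr
      { toFun := fun x => x.1.c
        invFun := fun t => ⟨mkZ t, mkZ_mem_center t⟩
        left_inv := fun x => Subtype.ext (eq_mkZ_of_mem_center x.2).symm
        right_inv := fun _ => rfl }
  rw [this]
  simp

/-- The two standard generators. -/
def x₀ : HG k e := ⟨0, Pi.single 0 1, 0⟩
/-- The two standard generators. -/
def y₀ : HG k e := ⟨0, 0, Pi.single 0 1⟩

lemma comm_x₀_y₀ : ⁅(x₀ : HG k e), (y₀ : HG k e)⁆ = mkZ 1 := by
  rw [comm_eq, B_eq]
  simp [x₀, y₀, Pi.single_apply]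

lemma comm_ne : ⁅(x₀ : HG k e), (y₀ : HG k e)⁆ ≠ 1 := by
  rw [comm_x₀_y₀]; exact mkZ_one_ne

lemma zmod2_cases : ∀ t : ZMod 2, t = 0 ∨ t = 1 := by decide

theorem isExtraspecial : Cfsg.IsExtraspecial 2 (HG k e) := by
  haveI : Fact (Nat.Prime 2) := ⟨Nat.prime_two⟩
  have hp : IsPGroup 2 (HG k e) := IsPGroup.of_card card_HG
  have hco : commutator (HG k e) = Subgroup.center (HG k e) := by
    apply le_antisymm
    · rw [commutator_def, Subgroup.commutator_le]
      intro g _ h _
      rw [comm_eq]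
      exact mkZ_mem_center _
    · intro x hx
      rw [eq_mkZ_of_mem_center hx]
      rcases zmod2_cases x.c with h | h
      · rw [h, mkZ_zero]; exact Subgroup.one_mem _
      · rw [h, ← comm_x₀_y₀]
        exact Subgroup.commutator_mem_commutator (Subgroup.mem_top _) (Subgroup.mem_top _)
  have hfr : frattini (HG k e) = Subgroup.center (HG k e) := by
    apply le_antisymm
    · rw [Cfsg.Agent.Lib.PGroup.Basic.frattini_le_iff hp]
      refine ⟨fun x => ?_, fun x y => ?_⟩
      · rw [sq_eq]; exact mkZ_mem_center _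
      · rw [comm_eq]; exact mkZ_mem_center _
    · rw [← hco]
      exact Cfsg.Agent.Lib.PGroup.Basic.commutator_le_frattini hp
  exact ⟨⟨hp, hfr, hco⟩, card_center⟩

lemma gauss_pos_of_large {E : Type*} [Group E] [Finite E] (h : QuadPair E (Subgroup.center E))
    {m : ℕ} (hcard : Nat.card E = 2 ^ (2 * m + 1)) {A : Subgroup E}
    (hA : Cfsg.IsElementaryAbelian 2 A) (hA2 : 2 ^ (m + 1) ≤ Nat.card A) : 0 < gaussT E := by
  obtain ⟨B, hB, hmax⟩ := exists_max_elementary E
  rcases rank_analysis h hcard hB hmax with ⟨-, h2⟩ | ⟨h1, -⟩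
  · rw [h2]; positivity
  · have h3 := hmax A hA
    rw [h1] at h3
    have h4 : (2:ℕ) ^ m < 2 ^ (m + 1) := Nat.pow_lt_pow_right (by norm_num) (by omega)
    omega

/-- The rank from the sign: a greatest element of the set of ranks. -/
lemma sSup_rank {E : Type*} [Group E] [Finite E] {A : Subgroup E} (hA : Cfsg.IsElementaryAbelian 2 A)
    (hmax : ∀ B : Subgroup E, Cfsg.IsElementaryAbelian 2 B → Nat.card B ≤ Nat.card A) {r : ℕ}
    (hr : Nat.card A = 2 ^ r) :
    sSup {k : ℕ | ∃ A : Subgroup E, Cfsg.IsElementaryAbelian 2 A ∧ Nat.card A = 2 ^ k} = r := by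
  apply IsGreatest.csSup_eq
  refine ⟨⟨A, hA, hr⟩, ?_⟩
  rintro k ⟨B, hB, hB2⟩
  have h1 := hmax B hB
  rw [hB2, hr] at h1
  exact (Nat.pow_le_pow_iff_right (by norm_num)).1 h1

/-- The subgroup of the plus type. -/
def A₀ : Subgroup (HG k e) where
  carrier := {x | x.b = 0}
  mul_mem' := by
    intro x y hx hy
    simp only [Set.mem_ofPred_eq] at hx hy ⊢
    simp [hx, hy]
  one_mem' := rfl
  inv_mem' := by
    intro x hx
    simp only [Set.mem_ofPred_eq] at hx ⊢
    simp [hx]

lemma elem_of_F_zero {A : Subgroup (HG k e)} (hF : ∀ x ∈ A, ∀ y ∈ A, F x y = 0) :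
    Cfsg.IsElementaryAbelian 2 A := by
  rw [Cfsg.Agent.Lib.PGroup.Basic.isElementaryAbelian_iff]
  refine ⟨fun x hx y hy => ?_, fun x hx => ?_⟩
  · have h1 := comm_eq x y
    rw [hF x hx y hy, hF y hy x hx, add_zero, mkZ_zero,
      commutatorElement_eq_one_iff_mul_comm] at h1
    exact h1
  · rw [sq_eq, hF x hx x hx, mkZ_zero]

theorem plus_rank :
    sSup {j : ℕ | ∃ A : Subgroup (HG k 0), Cfsg.IsElementaryAbelian 2 A ∧ Nat.card A = 2 ^ j} = k + 2 := by
  have h := quadPair_of_extraspecial (isExtraspecial (k := k) (e := 0))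
  have hcard : Nat.card (HG k 0) = 2 ^ (2 * (k + 1) + 1) := card_HG
  have helem : Cfsg.IsElementaryAbelian 2 (A₀ : Subgroup (HG k 0)) := by
    refine elem_of_F_zero fun x hx y hy => ?_
    have hy' : y.b = 0 := hy
    simp [F, hy']
  have hcardA : 2 ^ (k + 1 + 1) ≤ Nat.card (A₀ : Subgroup (HG k 0)) := by
    have h1 : Nat.card (ZMod 2 × (Fin (k + 1) → ZMod 2)) ≤ Nat.card (A₀ : Subgroup (HG k 0)) := by
      refine Nat.card_le_card_of_injective
        (fun p => (⟨⟨p.1, p.2, 0⟩, rfl⟩ : (A₀ : Subgroup (HG k 0)))) ?_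
      intro p q hpq
      have h2 := congrArg Subtype.val hpq
      have h3 := congrArg HG.c h2
      have h4 := congrArg HG.a h2
      exact Prod.ext h3 h4
    refine le_trans (le_of_eq ?_) h1
    rw [Nat.card_eq_fintype_card]
    simp only [Fintype.card_prod, Fintype.card_pi, ZMod.card, Finset.prod_const,
      Finset.card_univ, Fintype.card_fin]
    ring
  obtain ⟨B, hB, hmax⟩ := exists_max_elementary (HG k 0)
  rcases rank_analysis h hcard hB hmax with ⟨h1, -⟩ | ⟨h1, -⟩
  · exact sSup_rank hB hmax h1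
  · exfalso
    have h3 := hmax _ helem
    rw [h1] at h3
    have h4 : (2:ℕ) ^ (k + 1) < 2 ^ (k + 1 + 1) := Nat.pow_lt_pow_right (by norm_num) (by omega)
    omega

/-- The subgroup used for the minus type. -/
def A₁ : Subgroup (HG k e) where
  carrier := {x | x.b = 0 ∧ x.a 0 = 0}
  mul_mem' := by
    rintro x y ⟨hx, hx'⟩ ⟨hy, hy'⟩
    exact ⟨by simp [hx, hy], by simp [hx', hy']⟩
  one_mem' := ⟨rfl, rfl⟩
  inv_mem' := by
    rintro x ⟨hx, hx'⟩
    exact ⟨by simp [hx], by simp [hx']⟩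

lemma A₁_le : (A₁ : Subgroup (HG k e)) ≤ pairC (x₀ : HG k e) (y₀ : HG k e) := by
  rintro x ⟨hx, hx'⟩
  rw [mem_pairC, comm_eq, comm_eq, B_eq, B_eq]
  constructor
  · simp [x₀, hx]
    rfl
  · simp [y₀, hx, Pi.single_apply, hx']
    rfl

theorem minus_gauss : gaussT (HG k 1) < 0 := by
  classical
  letI : Fintype (HG k 1) := Fintype.ofFinite _
  have h := quadPair_of_extraspecial (isExtraspecial (k := k) (e := 1))
  have hcard : Nat.card (HG k 1) = 2 ^ (2 * (k + 1) + 1) := card_HG
  have hxy := comm_ne (k := k) (e := 1)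
  have hC := quadPair_pairC h rfl hxy
  have hcardC : Nat.card (pairC (x₀ : HG k 1) (y₀ : HG k 1)) = 2 ^ (2 * k + 1) := by
    have h1 := card_pairC_mul_four h hxy
    rw [hcard] at h1
    have h2 : (2:ℕ) ^ (2 * (k + 1) + 1) = 4 * 2 ^ (2 * k + 1) := by ring
    omega
  have helem : Cfsg.IsElementaryAbelian 2 (A₁ : Subgroup (HG k 1)) := by
    refine elem_of_F_zero fun x hx y hy => ?_
    simp [F, hy.1, hy.2]
  have hT : 0 < gaussT (pairC (x₀ : HG k 1) (y₀ : HG k 1)) := by
    refine gauss_pos_of_large hC hcardC (A := (A₁ : Subgroup (HG k 1)).subgroupOf _) ?_ ?_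
    · rw [Cfsg.Agent.Lib.PGroup.Basic.isElementaryAbelian_iff] at helem ⊢
      refine ⟨fun a ha b hb => ?_, fun a ha => ?_⟩
      · exact Subtype.ext (helem.1 a ha b hb)
      · exact Subtype.ext (helem.2 a ha)
    · have h1 : Nat.card ((A₁ : Subgroup (HG k 1)).subgroupOf (pairC (x₀ : HG k 1) (y₀ : HG k 1))) =
          Nat.card (A₁ : Subgroup (HG k 1)) :=
        Nat.card_congr (Subgroup.subgroupOfEquivOfLe A₁_le).toEquiv
      rw [h1]
      have h2 : Nat.card (ZMod 2 × (Fin k → ZMod 2)) ≤ Nat.card (A₁ : Subgroup (HG k 1)) := by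
        refine Nat.card_le_card_of_injective
          (fun p => (⟨⟨p.1, Fin.cons 0 p.2, 0⟩, rfl, rfl⟩ : (A₁ : Subgroup (HG k 1)))) ?_
        intro p q hpq
        have h3 := congrArg Subtype.val hpq
        have h4 := congrArg HG.c h3
        have h5 := congrArg HG.a h3
        refine Prod.ext h4 ?_
        simpa using h5
      refine le_trans (le_of_eq ?_) h2
      rw [Nat.card_eq_fintype_card]
      simp only [Fintype.card_prod, Fintype.card_pi, ZMod.card, Finset.prod_const,
        Finset.card_univ, Fintype.card_fin]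
      ring
  have hfor := gaussT_pairC h hxy
  have hx : sgn ((x₀ : HG k 1) ^ 2) = -1 := by
    apply sgn_of_ne
    rw [sq_eq]
    have : F (x₀ : HG k 1) x₀ = 1 := by simp [F, x₀]
    rw [this]; exact mkZ_one_ne
  have hy : sgn ((y₀ : HG k 1) ^ 2) = -1 := by
    apply sgn_of_ne
    rw [sq_eq]
    have : F (y₀ : HG k 1) y₀ = 1 := by simp [F, y₀]
    rw [this]; exact mkZ_one_ne
  have hxy2 : sgn (((x₀ : HG k 1) * y₀) ^ 2) = -1 := by
    apply sgn_of_ne
    rw [sq_eq]
    have h2 : (1 : ZMod 2) + 1 = 0 := by decide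
    have : F ((x₀ : HG k 1) * y₀) (x₀ * y₀) = 1 := by
      simp [F, x₀, y₀, Pi.single_apply, h2]
    rw [this]; exact mkZ_one_ne
  rw [hx, hy, hxy2] at hfor
  linarith

theorem minus_rank :
    sSup {j : ℕ | ∃ A : Subgroup (HG k 1), Cfsg.IsElementaryAbelian 2 A ∧ Nat.card A = 2 ^ j} = k + 1 := by
  have h := quadPair_of_extraspecial (isExtraspecial (k := k) (e := 1))
  have hcard : Nat.card (HG k 1) = 2 ^ (2 * (k + 1) + 1) := card_HG
  obtain ⟨B, hB, hmax⟩ := exists_max_elementary (HG k 1)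
  rcases rank_analysis h hcard hB hmax with ⟨-, h1⟩ | ⟨h1, -⟩
  · exfalso
    have h2 := minus_gauss (k := k)
    rw [h1] at h2
    have : (0:ℤ) < 2 ^ (k + 1 + 1) := by positivity
    linarith
  · exact sSup_rank hB hmax h1

/-- For every n ≥ 1 there exist finite extraspecial 2-groups of order 2^(2n+1) whose 2-rank (the largest rank of an elementary abelian subgroup) is n, and ones whose 2-rank is n + 1 (so for each such order there are two non-isomorphic extraspecial 2-groups, told apart by their 2-rank). -/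
theorem result (n : ℕ) (hn : 1 ≤ n) : ∀ r ∈ ({n, n + 1} : Set ℕ), ∃ (E : Type) (_ : Group E) (_ : Finite E), Cfsg.IsExtraspecial 2 E ∧ Nat.card E = 2 ^ (2 * n + 1) ∧ sSup {k : ℕ | ∃ A : Subgroup E, Cfsg.IsElementaryAbelian 2 A ∧ Nat.card A = 2 ^ k} = r := by
  obtain ⟨k, rfl⟩ : ∃ k, n = k + 1 := ⟨n - 1, by omega⟩
  intro r hr
  rcases hr with rfl | hr
  · exact ⟨HG k 1, inferInstance, inferInstance, isExtraspecial, card_HG, minus_rank⟩
  · rw [Set.mem_singleton_iff] at hr
    subst hr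
    exact ⟨HG k 0, inferInstance, inferInstance, isExtraspecial, card_HG, plus_rank⟩

end Cfsg.Agent.S5396
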