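-- Existence of the types `M(22)`, `M(23)`, `M(24)`: the explicit Fischer groups.
import Cfsg.Statements.S5401
import Cfsg.Agent.Lib.Fischer.M24.O8.Types24

set_option autoImplicit false
open Cfsg

namespace Cfsg.Agent.S5401

/-- Existence of the Fischer 3-transposition groups: there exist finite groups generated by a conjugacy class of 3-transpositions on which they act primitively that are of type M(22), of type M(23), and of type M(24) respectively. -/
theorem result : (∃ (X : Type) (_ : Group X) (_ : Finite X) (E : Set X), Cfsg.IsThreeTranspositionClass E ∧ Cfsg.IsPrimitiveUnderConj E ∧ Cfsg.IsOfTypeM22 X E) ∧ (∃ (X : Type) (_ : Group X) (_ : Finite X) (E : Set X), Cfsg.IsThreeTranspositionClass E ∧ Cfsg.IsPrimitiveUnderConj E ∧ Cfsg.IsOfTypeM23 X E) ∧ (∃ (X : Type) (_ : Group X) (_ : Finite X) (E : Set X), Cfsg.IsThreeTranspositionClass E ∧ Cfsg.IsPrimitiveUnderConj E ∧ Cfsg.IsOfTypeM24 X E) := by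
  refine ⟨⟨Cfsg.Agent.Lib.Fischer.M22.Explicit.G0, inferInstance, inferInstance, Cfsg.Agent.Lib.Fischer.M22.Explicit.D0,
      Cfsg.Agent.Lib.Fischer.M22.Explicit.class0, Cfsg.Agent.Lib.Fischer.M22.Explicit.prim0, Cfsg.Agent.Lib.Fischer.M24.O8.Ty.type22⟩,
    ⟨Cfsg.Agent.Lib.Fischer.M23.Explicit.G1, inferInstance, inferInstance, Cfsg.Agent.Lib.Fischer.M23.Explicit.D1,
      Cfsg.Agent.Lib.Fischer.M23.Explicit.class1, Cfsg.Agent.Lib.Fischer.M23.Explicit.prim1, Cfsg.Agent.Lib.Fischer.M24.O8.Ty.type23⟩,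
    ⟨Cfsg.Agent.Lib.Fischer.M24.Explicit.G2, inferInstance, inferInstance, Cfsg.Agent.Lib.Fischer.M24.Explicit.D2,
      Cfsg.Agent.Lib.Fischer.M24.Explicit.class2, Cfsg.Agent.Lib.Fischer.M24.Explicit.prim2, Cfsg.Agent.Lib.Fischer.M24.O8.Ty.type24⟩⟩

end Cfsg.Agent.S5401
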