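import Cfsg.Statements.S5405
import Mathlib
import Cfsg.Agent.Lib.H1Orth.Data
-- import your own Cfsg.Agent.* helpers here

set_option autoImplicit false
open scoped MatrixGroups
open Cfsg

namespace Cfsg.Agent.S5405

open Cfsg.Agent.Lib.H1Orth Cfsg.Agent.Lib.H1Orth.Data Cfsg.Agent.Lib.Classical.Orth.Models
open Cfsg.Agent.Lib.Classical.Orth.CartanDieudonne

/-- Vanishing of first cohomology on the natural module for three small orthogonal groups over the field with two elements: for the commutator subgroup of the isometry group of the elliptic quadratic form in dimension 4, of the elliptic form in dimension 6, and of the hyperbolic form in dimension 8, every crossed homomorphism into the natural module (a map f with f(gh) = f(g) + g·f(h)) is principal (of the form g ↦ g·v − v). -/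
theorem result : (∀ f : ↥(Cfsg.Omega (ZMod 2) (Cfsg.quadFormMinus 1 (ZMod 2) 1 1)) → ((Fin 1 ⊕ Fin 1) ⊕ Fin 2 → ZMod 2), (∀ g h : ↥(Cfsg.Omega (ZMod 2) (Cfsg.quadFormMinus 1 (ZMod 2) 1 1)), f (g * h) = f g + Matrix.mulVec (((g : ↥(Cfsg.isometryGroup (ZMod 2) (Cfsg.quadFormMinus 1 (ZMod 2) 1 1))) : GL ((Fin 1 ⊕ Fin 1) ⊕ Fin 2) (ZMod 2)) : Matrix ((Fin 1 ⊕ Fin 1) ⊕ Fin 2) ((Fin 1 ⊕ Fin 1) ⊕ Fin 2) (ZMod 2)) (f h)) → ∃ v : (Fin 1 ⊕ Fin 1) ⊕ Fin 2 → ZMod 2, ∀ g : ↥(Cfsg.Omega (ZMod 2) (Cfsg.quadFormMinus 1 (ZMod 2) 1 1)), f g = Matrix.mulVec (((g : ↥(Cfsg.isometryGroup (ZMod 2) (Cfsg.quadFormMinus 1 (ZMod 2) 1 1))) : GL ((Fin 1 ⊕ Fin 1) ⊕ Fin 2) (ZMod 2)) : Matrix ((Fin 1 ⊕ Fin 1) ⊕ Fin 2) ((Fin 1 ⊕ Fin 1) ⊕ Fin 2) (ZMod 2)) v - v) ∧ (∀ f : ↥(Cfsg.Omega (ZMod 2) (Cfsg.quadFormMinus 2 (ZMod 2) 1 1)) → ((Fin 2 ⊕ Fin 2) ⊕ Fin 2 →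 ZMod 2), (∀ g h : ↥(Cfsg.Omega (ZMod 2) (Cfsg.quadFormMinus 2 (ZMod 2) 1 1)), f (g * h) = f g + Matrix.mulVec (((g : ↥(Cfsg.isometryGroup (ZMod 2) (Cfsg.quadFormMinus 2 (ZMod 2) 1 1))) : GL ((Fin 2 ⊕ Fin 2) ⊕ Fin 2) (ZMod 2)) : Matrix ((Fin 2 ⊕ Fin 2) ⊕ Fin 2) ((Fin 2 ⊕ Fin 2) ⊕ Fin 2) (ZMod 2)) (f h)) → ∃ v : (Fin 2 ⊕ Fin 2) ⊕ Fin 2 → ZMod 2, ∀ g : ↥(Cfsg.Omega (ZMod 2) (Cfsg.quadFormMinus 2 (ZMod 2) 1 1)), f g = Matrix.mulVec (((g : ↥(Cfsg.isometryGroup (ZMod 2) (Cfsg.quadFormMinus 2 (ZMod 2) 1 1))) : GL ((Fin 2 ⊕ Fin 2) ⊕ Fin 2) (ZMod 2)) : Matrix ((Fin 2 ⊕ Fin 2) ⊕ Fin 2) ((Fin 2 ⊕ Fin 2) ⊕ Fin 2) (ZMod 2)) v - v) ∧ (∀ f : ↥(Cfsg.Omega (ZMod 2) (Cfsg.quadFormPlus 4 (ZMod 2))) → (Fin 4 ⊕ Fin 4 → ZMod 2), (∀ g h : ↥(Cfsg.Omega (ZMod 2) (Cfsg.quadFormPlus 4 (ZMod 2))), f (g * h) = f g + Matrix.mulVec (((g : ↥(Cfsg.isometryGroup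 (ZMod 2) (Cfsg.quadFormPlus 4 (ZMod 2)))) : GL (Fin 4 ⊕ Fin 4) (ZMod 2)) : Matrix (Fin 4 ⊕ Fin 4) (Fin 4 ⊕ Fin 4) (ZMod 2)) (f h)) → ∃ v : Fin 4 ⊕ Fin 4 → ZMod 2, ∀ g : ↥(Cfsg.Omega (ZMod 2) (Cfsg.quadFormPlus 4 (ZMod 2))), f g = Matrix.mulVec (((g : ↥(Cfsg.isometryGroup (ZMod 2) (Cfsg.quadFormPlus 4 (ZMod 2)))) : GL (Fin 4 ⊕ Fin 4) (ZMod 2)) : Matrix (Fin 4 ⊕ Fin 4) (Fin 4 ⊕ Fin 4) (ZMod 2)) v - v) := by
  refine ⟨?_, ?_, ?_⟩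
  · have hgen : reflGroup (minusForm 1 (ZMod 2) 1 1) = ⊤ :=
      reflGroup_top_of_chk _ e4 QT4 hQT4 (fuel := 8) (by
        have h : (2 : ℕ) ^ 4 = 16 := by norm_num
        rw [h]
        exact r4)
    exact transfer (coe_minusForm 1 (ZMod 2) 1 1) fun f hf =>
      h1_vanish (minusForm 1 (ZMod 2) 1 1) e4 QT4 hQT4 hgen
        (t₀ := t4) (steps := steps4) (a₀ := 3) (b₀ := 5) (fuel := 15) (by
          have h : (2 : ℕ) ^ 4 = 16 := by norm_num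
          rw [h]
          exact m4) f hf
  · have hgen : reflGroup (minusForm 2 (ZMod 2) 1 1) = ⊤ :=
      reflGroup_eq_top (minusForm_nondegenerate 2 1 1 aniso) (Or.inr (by simp))
    exact transfer (coe_minusForm 2 (ZMod 2) 1 1) fun f hf =>
      h1_vanish (minusForm 2 (ZMod 2) 1 1) e6 QT6 hQT6 hgen
        (t₀ := t6) (steps := steps6) (a₀ := 5) (b₀ := 11) (fuel := 15) (by
          have h : (2 : ℕ) ^ 6 = 64 := by norm_num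
          rw [h]
          exact m6) f hf
  · have hgen : reflGroup (plusForm 4 (ZMod 2)) = ⊤ :=
      reflGroup_eq_top (plusForm_nondegenerate 4) (Or.inr (by simp))
    exact transfer (coe_plusForm 4 (ZMod 2)) fun f hf =>
      h1_vanish (plusForm 4 (ZMod 2)) e8 QT8 hQT8 hgen
        (t₀ := t8) (steps := steps8) (a₀ := 17) (b₀ := 35) (fuel := 15) (by
          have h : (2 : ℕ) ^ 8 = 256 := by norm_num
          rw [h]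
          exact m8) f hf

end Cfsg.Agent.S5405
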