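import Cfsg.Statements.S5408
import Mathlib
import Cfsg.Agent.Lib.Sporadic.MonsterPlus

set_option autoImplicit false
open Cfsg

namespace Cfsg.Agent.S5408

open Cfsg.Agent.Lib.Sporadic.MonsterModel

/-- Let G be a finite group of Monster type at the involution z with Q the extraspecial normal subgroup of order 2^25 of C = C_G(z) (so C/Q is identified with the first Conway group with Q modulo its centre the Leech lattice modulo 2, and z is not weakly closed in Q). Then Q is of plus type: it contains an elementary abelian subgroup of order 2^13. -/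
theorem result {G : Type*} [Group G] [Finite G] (z : G) (Q : Subgroup (Subgroup.centralizer ({z} : Set G))) [Q.Normal] (hM : Cfsg.IsOfMonsterType z Q) : ∃ E : Subgroup Q, Cfsg.IsElementaryAbelian 2 E ∧ Nat.card E = 2 ^ 13 := by
  obtain ⟨hset, e, ψ, hψ⟩ := hM
  let M := ofMonster hset hψ
  let E : Subgroup ↥Q := ((M.EL).subgroupOf (Subgroup.centralizer ({z} : Set G))).subgroupOf Q
  have hmem : ∀ q : ↥Q, q ∈ E ↔ ((q : ↥(Subgroup.centralizer ({z} : Set G))) : G) ∈ M.EL := by
    intro q
    simp only [E, Subgroup.mem_subgroupOf]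
  refine ⟨E, ⟨⟨⟨?_⟩⟩, ?_⟩, ?_⟩
  · rintro ⟨a, ha⟩ ⟨b, hb⟩
    apply Subtype.ext
    apply Subtype.ext
    apply Subtype.ext
    exact M.EL_comm ((hmem a).1 ha) ((hmem b).1 hb)
  · intro a ha
    apply Subtype.ext
    apply Subtype.ext
    rw [pow_two]
    exact M.EL_sq ((hmem a).1 ha)
  · rw [← M.card_EL]
    apply Nat.card_congr
    refine Equiv.ofBijective (fun x => ⟨_, (hmem x.1).1 x.2⟩) ⟨?_, ?_⟩
    · rintro ⟨a, ha⟩ ⟨b, hb⟩ h
      apply Subtype.ext
      apply Subtype.ext
      apply Subtype.ext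
      have h' := congrArg Subtype.val h
      exact h'
    · rintro ⟨x, hx⟩
      obtain ⟨h1, h2⟩ := mem_QG.1 (M.EL_le hx)
      exact ⟨⟨⟨⟨x, h1⟩, h2⟩, (hmem _).2 hx⟩, rfl⟩

end Cfsg.Agent.S5408
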