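import Cfsg.Statements.S5410
import Mathlib
import Cfsg.Agent.Lib.Sporadic.MonsterSplit

set_option autoImplicit false
open Cfsg

namespace Cfsg.Agent.S5410

open Cfsg.Agent.Lib.Sporadic.MonsterModel

/-- Let G be a finite group of Monster type at the involution z with Q the extraspecial normal subgroup of order 2^25 of C = C_G(z) (so C/Q is identified with the first Conway group with Q modulo its centre the Leech lattice modulo 2, and z is not weakly closed in Q). Let g in G with s = g z g⁻¹ a member of Q other than z, let X be the image in C/Q of the centralizer of s in C, and let E be the image in C/Q of the intersection of g Q g⁻¹ with C. Then E is a normal subgroup of X, elementary abelian of order 2^11, and it has a complement in X isomorphic to the Mathieu group of degree 24 (the automorphism group of the length-24 binary Golay code). -/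
theorem result {G : Type*} [Group G] [Finite G] (z : G) (Q : Subgroup (Subgroup.centralizer ({z} : Set G))) [Q.Normal] (hM : Cfsg.IsOfMonsterType z Q) (s : G) (hsQ : ∃ hsc : s ∈ Subgroup.centralizer ({z} : Set G), (⟨s, hsc⟩ : Subgroup.centralizer ({z} : Set G)) ∈ Q) (hs : IsConj z s) (hs1 : s ≠ z) (g : G) (hg : g * z * g⁻¹ = s) (X E : Subgroup ((Subgroup.centralizer ({z} : Set G)) ⧸ Q)) (hX : X = ((Subgroup.centralizer ({z} : Set G) ⊓ Subgroup.centralizer ({s} : Set G)).subgroupOf (Subgroup.centralizer ({z} : Set G))).map (QuotientGroup.mk' Q)) (hE : E = (((Q.map (Subgroup.centralizer ({z} : Set G)).subtype).map (MulAut.conj g).toMonoidHom ⊓ Subgroup.centralizer ({z} : Set G)).subgroupOf (Subgroup.centralizer ({z} : Set G))).map (QuotientGroup.mk' Q)) : E ≤ X ∧ (∀ x ∈ X, ∀ y ∈ E, x * y * x⁻¹ ∈ E) ∧ Cfsg.IsElementaryAbelian 2 E ∧ Nat.card E = 2 ^ 11 ∧ ∃ K : Subgroup ((Subgroup.centralizer ({z} : Set G)) ⧸ Q), K ≤ X ∧ E ⊓ K = ⊥ ∧ E ⊔ K = X ∧ Nonempty (K ≃* Cfsg.M24) := by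
  obtain ⟨hset, e, ψ, hψ⟩ := hM
  subst hg
  subst hX hE
  have hgQ := mem_QG.2 hsQ
  let M := ofMonster hset hψ
  have h1 : ∀ Y : Subgroup ↥(Subgroup.centralizer ({z} : Set G)),
      (Y.map (QuotientGroup.mk' Q)).map e.toMonoidHom = Y.map M.pi := by
    intro Y
    rw [Subgroup.map_map]
    rfl
  obtain ⟨K, h3, h4, h5, h6, h7, h8⟩ := M.split hgQ hs1
  apply transport_split e
  · rw [h1, h1]
    exact M.Eb_le_Xb hgQ hs1
  · rw [h1, h1]
    exact fun x hx y hy => M.Eb_normal hgQ hs1 hx hy
  · rw [h1]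
    exact h7
  · rw [h1]
    exact h8
  · rw [h1]
    exact M.card_Eb hgQ hs1
  · rw [h1, h1]
    exact ⟨K, h3, h4, h5, h6⟩

end Cfsg.Agent.S5410
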