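import Cfsg.Statements.S5412
import Mathlib
import Cfsg.Agent.Lib.Sporadic.MonsterBaby2

set_option autoImplicit false
open Cfsg

namespace Cfsg.Agent.S5412

open Cfsg.Agent.Lib.Sporadic.MonsterModel

/-- Let G be a finite group of Monster type at the involution z with Q the extraspecial normal subgroup of order 2^25 of C = C_G(z) (so C/Q is identified with the first Conway group with Q modulo its centre the Leech lattice modulo 2, and z is not weakly closed in Q). Let t be an involution of Q not conjugate to z in G. Then the centralizer of t modulo the subgroup generated by t is a group of Baby Monster type (an involution whose centralizer D has generalized Fitting subgroup R extraspecial of order 2^23 with D/R identified with the second Conway group acting on R modulo its centre as on the vectors of the Leech lattice modulo 2 orthogonal to a short vector, modulo that vector; the involution not weakly closed in R). -/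
theorem result {G : Type*} [Group G] [Finite G] (z : G) (Q : Subgroup (Subgroup.centralizer ({z} : Set G))) [Q.Normal] (hM : Cfsg.IsOfMonsterType z Q) (t : G) (htQ : ∃ htc : t ∈ Subgroup.centralizer ({z} : Set G), (⟨t, htc⟩ : Subgroup.centralizer ({z} : Set G)) ∈ Q) (ht2 : orderOf t = 2) (ht : ¬ IsConj z t) [hn : ((Subgroup.zpowers t).subgroupOf (Subgroup.centralizer ({t} : Set G))).Normal] : Cfsg.IsOfBabyMonsterType (↥(Subgroup.centralizer ({t} : Set G)) ⧸ (Subgroup.zpowers t).subgroupOf (Subgroup.centralizer ({t} : Set G))) := by
  obtain ⟨hset, e, ψ, hψ⟩ := hM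
  obtain ⟨g0, ⟨hq0, hm0⟩, hne0⟩ := hset.2.2.2.2
  set M0 := ofMonster hset hψ with hM0
  have hg0 : g0 * z * g0⁻¹ ∈ QG Q := mem_QG.2 ⟨hq0, hm0⟩
  have htm : t ∈ QG Q := mem_QG.2 htQ
  have ht1 := inv_two ht2
  obtain ⟨v, hv, hn⟩ := M0.exists_min_rel hg0 hne0 htm ht1.1 ht1.2 ht
  obtain ⟨k, hk⟩ := Cfsg.Agent.Lib.Sporadic.LeechMin.co0_transitive_min Spor.leechU v sqNorm_leechU hn
  have hT : TD (M0.twist k) t :=
    { mem := htm
      sq := ht1.1
      ne1 := ht1.2
      nez := by
        rintro rfl
        exact ht (IsConj.refl _)
      rel := by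
        show M0.Rel (k • Spor.leechU) t
        rw [hk]
        exact hv
      nc := by
        intro g hg
        exact M0.not_conj_of_min (M0.rel_z hv) hn (isConj_iff.2 ⟨g, hg⟩)
      nw := M0.exists_conj_in_Qt hg0 hne0 htm ht1.1 ht1.2 ht }
  exact baby_of_TD hT

end Cfsg.Agent.S5412
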