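import Cfsg.Statements.S5420
import Mathlib

set_option autoImplicit false
open Cfsg

namespace Cfsg.Agent.S5420

theorem pCore_spec (p : ℕ) (G : Type*) [Group G] [Finite G] :
    (Cfsg.pCore p G).Normal ∧ IsPGroup p (Cfsg.pCore p G) := by
  classical
  have hS : {N : Subgroup G | N.Normal ∧ IsPGroup p N}.Finite := Set.toFinite _
  have hne : {N : Subgroup G | N.Normal ∧ IsPGroup p N}.Nonempty :=
    ⟨⊥, inferInstance, IsPGroup.of_bot⟩
  obtain ⟨M, hM⟩ := hS.exists_maximal hne
  have key : Cfsg.pCore p G = M := by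
    unfold Cfsg.pCore
    apply le_antisymm
    · apply sSup_le
      intro N hN
      have := hN.1
      have := hM.prop.1
      have h1 : M ⊔ N ∈ {N : Subgroup G | N.Normal ∧ IsPGroup p N} :=
        ⟨inferInstance, IsPGroup.to_sup_of_normal_right hM.prop.2 hN.2⟩
      have h2 := hM.le_of_ge h1 le_sup_left
      exact le_trans le_sup_right h2
    · exact le_sSup hM.prop
  rw [key]
  exact hM.prop

/-- Let Q be an extraspecial 2-subgroup of the finite group G whose centralizer in G is its centre Z and which is normal in the centralizer of Z. If Z lies in the largest normal 2-subgroup of G, then Q is a large extraspecial 2-subgroup of G: it normalizes no non-trivial subgroup of G of odd order. -/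
theorem result {G : Type*} [Group G] [Finite G] (Q : Subgroup G) (hL1 : Cfsg.IsExtraspecial 2 ↥Q) (hL2 : Subgroup.centralizer (Q : Set G) = ((Subgroup.center ↥Q).map Q.subtype)) (hL3 : Subgroup.centralizer (((Subgroup.center ↥Q).map Q.subtype) : Set G) ≤ Subgroup.normalizer (Q : Set G)) (hZ : ((Subgroup.center ↥Q).map Q.subtype) ≤ Cfsg.pCore 2 G) : Cfsg.IsLargeExtraspecial Q := by
  refine ⟨hL1, hL2, hL3, ?_⟩
  intro K hKodd hQK
  -- an element of K in a 2-subgroup is trivial
  have hcop : ∀ (T : Subgroup G), IsPGroup 2 T → ∀ y, y ∈ K → y ∈ T → y = 1 := by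
    intro T hT y hyK hyT
    obtain ⟨n, hn⟩ := hT ⟨y, hyT⟩
    have h1 : orderOf y ∣ 2 ^ n := by
      apply orderOf_dvd_of_pow_eq_one
      simpa [Subtype.ext_iff] using hn
    have h2 : orderOf y ∣ Nat.card K := Subgroup.orderOf_dvd_natCard K hyK
    have h3 : Nat.Coprime (2 ^ n) (Nat.card K) :=
      Nat.Coprime.pow_left n (Nat.coprime_two_left.mpr hKodd)
    have h4 : orderOf y = 1 := Nat.eq_one_of_dvd_coprimes h3 h1 h2
    exact orderOf_eq_one_iff.mp h4
  obtain ⟨hcN, hcP⟩ := pCore_spec 2 G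
  have hnormK : ∀ q ∈ Q, ∀ x ∈ K, q * x * q⁻¹ ∈ K := by
    intro q hq x hx
    have := (Subgroup.mem_normalizer_iff.mp (hQK hq)) x
    exact this.mp hx
  -- K centralizes Z
  have h1 : K ≤ Subgroup.centralizer (((Subgroup.center ↥Q).map Q.subtype) : Set G) := by
    intro x hx
    rw [Subgroup.mem_centralizer_iff]
    intro z hz
    have hzQ : z ∈ Q := by
      obtain ⟨w, _, rfl⟩ := hz
      exact w.2
    have hzP : z ∈ Cfsg.pCore 2 G := hZ hz
    have ha : z * x * z⁻¹ * x⁻¹ ∈ K := mul_mem (hnormK z hzQ x hx) (inv_mem hx)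
    have hb : z * x * z⁻¹ * x⁻¹ ∈ Cfsg.pCore 2 G := by
      have : z * x * z⁻¹ * x⁻¹ = z * (x * z⁻¹ * x⁻¹) := by group
      rw [this]
      exact mul_mem hzP (hcN.conj_mem _ (inv_mem hzP) x)
    have := hcop _ hcP _ ha hb
    have h' : z * x * z⁻¹ = x := by
      calc z * x * z⁻¹ = z * x * z⁻¹ * x⁻¹ * x := by group
        _ = x := by rw [this, one_mul]
    calc z * x = z * x * z⁻¹ * z := by group
      _ = x * z := by rw [h']
  -- K centralizes Q
  have h2 : K ≤ Subgroup.centralizer (Q : Set G) := by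
    intro x hx
    rw [Subgroup.mem_centralizer_iff]
    intro q hq
    have hxN := hL3 (h1 hx)
    have hq' : x * q * x⁻¹ ∈ Q := (Subgroup.mem_normalizer_iff.mp hxN q).mp hq
    have ha : x * q * x⁻¹ * q⁻¹ ∈ Q := mul_mem hq' (inv_mem hq)
    have hb : x * q * x⁻¹ * q⁻¹ ∈ K := by
      have : x * q * x⁻¹ * q⁻¹ = x * (q * x⁻¹ * q⁻¹) := by group
      rw [this]
      exact mul_mem hx (hnormK q hq _ (inv_mem hx))
    have hQ2 : IsPGroup 2 Q := hL1.1.1
    have := hcop Q hQ2 _ hb ha
    have h' : x * q * x⁻¹ = q := by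
      calc x * q * x⁻¹ = x * q * x⁻¹ * q⁻¹ * q := by group
        _ = q := by rw [this, one_mul]
    calc q * x = x * q * x⁻¹ * x := by rw [h']
      _ = x * q := by group
  -- K ≤ Z ≤ Q so K trivial
  rw [eq_bot_iff]
  intro x hx
  have hxZ := h2 hx
  rw [hL2] at hxZ
  have hxQ : x ∈ Q := by
    obtain ⟨w, _, rfl⟩ := hxZ
    exact w.2
  exact (Subgroup.mem_bot).mpr (hcop Q hL1.1.1 x hx hxQ)

end Cfsg.Agent.S5420
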