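import Cfsg.Statements.S5424
import Mathlib
import Cfsg.Agent.Lib.PGroup.ExtraMk
import Cfsg.Agent.Lib.PGroup.Basic
import Cfsg.Agent.Lib.Basic.PCore
import Cfsg.Agent.Lib.Frobenius.Even
import Cfsg.Agent.Lib.Linalg.TransvectionForm

set_option autoImplicit false
open Cfsg

namespace Cfsg.Agent.S5424

open Cfsg.Agent.Lib.PGroup.ExtraMk
open scoped commutatorElement

/-- Matrices. -/
abbrev Mx (n : ℕ) := Matrix (Fin (n + 2)) (Fin (n + 2)) (ZMod 2)
/-- The group. -/
abbrev Gp (n : ℕ) := Matrix.SpecialLinearGroup (Fin (n + 2)) (ZMod 2)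
/-- Small matrices. -/
abbrev Md (n : ℕ) := Matrix (Fin n) (Fin n) (ZMod 2)

/-- The last `n` indices. -/
def s2 {n : ℕ} (i : Fin n) : Fin (n + 2) := i.succ.succ

lemma idx_cases {n : ℕ} {P : Fin (n + 2) → Prop} (h0 : P 0) (h1 : P 1) (h2 : ∀ i, P (s2 i)) :
    ∀ r, P r := by
  intro r
  refine Fin.cases h0 (fun r' => ?_) r
  refine Fin.cases ?_ (fun r'' => h2 r'') r'
  rw [Fin.succ_zero_eq_one]
  exact h1

lemma sum_idx {n : ℕ} (f : Fin (n + 2) → ZMod 2) : ∑ r, f r = f 0 + f 1 + ∑ i, f (s2 i) := by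
  rw [Fin.sum_univ_succ, Fin.sum_univ_succ]
  simp [add_assoc, s2]

lemma s2_ne_zero {n : ℕ} (i : Fin n) : s2 i ≠ 0 := Fin.succ_ne_zero _

lemma s2_ne_one {n : ℕ} (i : Fin n) : s2 i ≠ 1 := by
  intro h
  have h1 := congrArg Fin.val h
  simp [s2] at h1

lemma zero_ne_one' {n : ℕ} : (0 : Fin (n + 2)) ≠ 1 := by
  intro h
  have h1 := congrArg Fin.val h
  simp at h1

lemma s2_inj {n : ℕ} {i j : Fin n} : s2 i = s2 j ↔ i = j := by
  constructor
  · intro h
    exact Fin.succ_injective _ (Fin.succ_injective _ h)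
  · rintro rfl; rfl

/-- The block matrices. -/
def blk {n : ℕ} (a : ZMod 2) (b c : Fin n → ZMod 2) (D : Md n) : Mx n :=
  Matrix.of fun r s =>
    Fin.cases (motive := fun _ => ZMod 2)
      (Fin.cases (motive := fun _ => ZMod 2) 1
        (fun s' => Fin.cases (motive := fun _ => ZMod 2) a b s') s)
      (fun r' => Fin.cases (motive := fun _ => ZMod 2)
        (Fin.cases (motive := fun _ => ZMod 2) 0
          (fun s' => Fin.cases (motive := fun _ => ZMod 2) 1 (fun _ => 0) s') s)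
        (fun r'' => Fin.cases (motive := fun _ => ZMod 2) 0
          (fun s' => Fin.cases (motive := fun _ => ZMod 2) (c r'') (fun j => D r'' j) s') s) r') r

section entries
variable {n : ℕ} (a : ZMod 2) (b c : Fin n → ZMod 2) (D : Md n) (i j : Fin n)

@[simp] lemma blk_00 : blk a b c D 0 0 = 1 := rfl
@[simp] lemma blk_01 : blk a b c D 0 1 = a := by
  rw [← Fin.succ_zero_eq_one]; rfl
@[simp] lemma blk_0s : blk a b c D 0 (s2 j) = b j := rfl
@[simp] lemma blk_10 : blk a b c D 1 0 = 0 := by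
  rw [← Fin.succ_zero_eq_one]; rfl
@[simp] lemma blk_11 : blk a b c D 1 1 = 1 := by
  rw [← Fin.succ_zero_eq_one]; rfl
@[simp] lemma blk_1s : blk a b c D 1 (s2 j) = 0 := by
  rw [← Fin.succ_zero_eq_one]; rfl
@[simp] lemma blk_s0 : blk a b c D (s2 i) 0 = 0 := rfl
@[simp] lemma blk_s1 : blk a b c D (s2 i) 1 = c i := by
  rw [← Fin.succ_zero_eq_one]; rfl
@[simp] lemma blk_ss : blk a b c D (s2 i) (s2 j) = D i j := rfl

end entries

lemma blk_mul {n : ℕ} (a a' : ZMod 2) (b c b' c' : Fin n → ZMod 2) (D D' : Md n) :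
    blk a b c D * blk a' b' c' D' =
      blk (a + a' + b ⬝ᵥ c') (b' + Matrix.vecMul b D') (c + D.mulVec c') (D * D') := by
  ext r s
  rw [Matrix.mul_apply, sum_idx]
  revert r
  refine idx_cases ?_ ?_ ?_
  · revert s
    refine idx_cases ?_ ?_ ?_
    · simp
    · simp [dotProduct]; ring
    · intro j
      simp [Matrix.vecMul, dotProduct]
  · revert s
    refine idx_cases ?_ ?_ ?_
    · simp
    · simp
    · intro j
      simp
  · intro i
    revert s
    refine idx_cases ?_ ?_ ?_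
    · simp
    · simp [Matrix.mulVec, dotProduct]
    · intro j
      simp [Matrix.mul_apply]

lemma blk_one {n : ℕ} : blk (0 : ZMod 2) (0 : Fin n → ZMod 2) 0 1 = (1 : Mx n) := by
  ext r s
  revert r
  refine idx_cases ?_ ?_ ?_
  · revert s
    refine idx_cases ?_ ?_ ?_
    · simp
    · simp [zero_ne_one']
    · intro j
      simp [(s2_ne_zero j).symm]
  · revert s
    refine idx_cases ?_ ?_ ?_
    · simp [zero_ne_one'.symm]
    · simp
    · intro j
      simp [(s2_ne_one j).symm]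
  · intro i
    revert s
    refine idx_cases ?_ ?_ ?_
    · simp [s2_ne_zero]
    · simp [s2_ne_one]
    · intro j
      simp [Matrix.one_apply, s2_inj]

lemma z2_eq_one {x : ZMod 2} (h : x ≠ 0) : x = 1 := by
  revert x; decide

lemma z2_add_self (x : ZMod 2) : x + x = 0 := by
  revert x; decide

lemma z2_cases (x : ZMod 2) : x = 0 ∨ x = 1 := by
  revert x; decide

lemma z2_neg (x : ZMod 2) : -x = x := by
  revert x; decide

lemma det_one_of_mul {m : ℕ} {A B : Matrix (Fin m) (Fin m) (ZMod 2)} (h : A * B = 1) : A.det = 1 := by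
  apply z2_eq_one
  intro h0
  have := congrArg Matrix.det h
  rw [Matrix.det_mul, h0, zero_mul, Matrix.det_one] at this
  exact zero_ne_one this

lemma blk_mul_one {n : ℕ} (a a' : ZMod 2) (b c b' c' : Fin n → ZMod 2) :
    blk a b c 1 * blk a' b' c' 1 = blk (a + a' + b ⬝ᵥ c') (b + b') (c + c') 1 := by
  rw [blk_mul, Matrix.vecMul_one, Matrix.one_mulVec, mul_one, add_comm b']

lemma Qinv {n : ℕ} (a : ZMod 2) (b c : Fin n → ZMod 2) :
    blk a b c 1 * blk (a + b ⬝ᵥ c) b c 1 = 1 := by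
  rw [blk_mul_one, ← blk_one]
  have h1 : a + (a + b ⬝ᵥ c) + b ⬝ᵥ c = 0 := by
    have := z2_add_self a
    have h2 := z2_add_self (b ⬝ᵥ c)
    linear_combination this + h2
  have h2 : b + b = 0 := by funext i; exact z2_add_self _
  have h3 : c + c = 0 := by funext i; exact z2_add_self _
  rw [h1, h2, h3]

/-- The elements of the extraspecial group. -/
def Qel {n : ℕ} (a : ZMod 2) (b c : Fin n → ZMod 2) : Gp n :=
  ⟨blk a b c 1, det_one_of_mul (Qinv a b c)⟩

lemma Qel_coe {n : ℕ} (a : ZMod 2) (b c : Fin n → ZMod 2) : (Qel a b c : Mx n) = blk a b c 1 := rfl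

lemma Qel_mul {n : ℕ} (a a' : ZMod 2) (b c b' c' : Fin n → ZMod 2) :
    Qel a b c * Qel a' b' c' = Qel (a + a' + b ⬝ᵥ c') (b + b') (c + c') :=
  Subtype.ext (blk_mul_one a a' b c b' c')

lemma Qel_zero {n : ℕ} : Qel (0 : ZMod 2) (0 : Fin n → ZMod 2) 0 = 1 := Subtype.ext blk_one

lemma Qel_inv {n : ℕ} (a : ZMod 2) (b c : Fin n → ZMod 2) :
    (Qel a b c)⁻¹ = Qel (a + b ⬝ᵥ c) b c := by
  rw [inv_eq_iff_mul_eq_one]
  exact Subtype.ext (Qinv a b c)

lemma Qel_inj {n : ℕ} {a a' : ZMod 2} {b c b' c' : Fin n → ZMod 2}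
    (h : Qel a b c = Qel a' b' c') : a = a' ∧ b = b' ∧ c = c' := by
  have h' : blk a b c 1 = blk a' b' c' 1 := congrArg Subtype.val h
  refine ⟨?_, ?_, ?_⟩
  · simpa using congrFun (congrFun h' 0) 1
  · funext j
    simpa using congrFun (congrFun h' 0) (s2 j)
  · funext i
    simpa using congrFun (congrFun h' (s2 i)) 1

/-- The extraspecial subgroup. -/
def Qgrp (n : ℕ) : Subgroup (Gp n) where
  carrier := {g | ∃ a b c, g = Qel a b c}
  mul_mem' := by
    rintro _ _ ⟨a, b, c, rfl⟩ ⟨a', b', c', rfl⟩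
    exact ⟨_, _, _, Qel_mul a a' b c b' c'⟩
  one_mem' := ⟨0, 0, 0, Qel_zero.symm⟩
  inv_mem' := by
    rintro _ ⟨a, b, c, rfl⟩
    exact ⟨_, _, _, Qel_inv a b c⟩

lemma mem_Qgrp {n : ℕ} {g : Gp n} : g ∈ Qgrp n ↔ ∃ a b c, g = Qel a b c := Iff.rfl

lemma card_Qgrp (n : ℕ) : Nat.card (Qgrp n) = 2 ^ (2 * n + 1) := by
  let f : ZMod 2 × (Fin n → ZMod 2) × (Fin n → ZMod 2) → Qgrp n :=
    fun t => ⟨Qel t.1 t.2.1 t.2.2, _, _, _, rfl⟩
  have hf : Function.Bijective f := by
    constructor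
    · rintro ⟨a, b, c⟩ ⟨a', b', c'⟩ h
      obtain ⟨h1, h2, h3⟩ := Qel_inj (congrArg Subtype.val h)
      simp only [Prod.mk.injEq]
      exact ⟨h1, h2, h3⟩
    · rintro ⟨_, a, b, c, rfl⟩
      exact ⟨(a, b, c), rfl⟩
  rw [← Nat.card_congr (Equiv.ofBijective f hf)]
  rw [Nat.card_eq_fintype_card]
  simp only [Fintype.card_prod, Fintype.card_fun, ZMod.card, Fintype.card_fin]
  ring

lemma comm_Qel {n : ℕ} (a a' : ZMod 2) (b c b' c' : Fin n → ZMod 2) :
    ⁅Qel a b c, Qel a' b' c'⁆ = Qel (b ⬝ᵥ c' + b' ⬝ᵥ c) 0 0 := by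
  rw [commutatorElement_def, Qel_inv, Qel_inv, Qel_mul, Qel_mul, Qel_mul]
  have hb : b + b' + b = b' := by
    funext i
    simp only [Pi.add_apply]
    have := z2_add_self (b i)
    linear_combination this
  have hc : c + c' + c = c' := by
    funext i
    simp only [Pi.add_apply]
    have := z2_add_self (c i)
    linear_combination this
  have hb2 : b' + b' = 0 := by funext i; exact z2_add_self _
  have hc2 : c' + c' = 0 := by funext i; exact z2_add_self _
  rw [hb, hc, hb2, hc2]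
  congr 1
  simp only [dotProduct_add, add_dotProduct]
  have h1 := z2_add_self a
  have h2 := z2_add_self a'
  have h3 := z2_add_self (b ⬝ᵥ c)
  have h4 := z2_add_self (b' ⬝ᵥ c')
  linear_combination h1 + h2 + h3 + h4

lemma sq_Qel {n : ℕ} (a : ZMod 2) (b c : Fin n → ZMod 2) :
    (Qel a b c) ^ 2 = Qel (b ⬝ᵥ c) 0 0 := by
  rw [pow_two, Qel_mul, z2_add_self]
  have hb2 : b + b = 0 := by funext i; exact z2_add_self _
  have hc2 : c + c = 0 := by funext i; exact z2_add_self _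
  rw [hb2, hc2, zero_add]

lemma Qel_zz_cases {n : ℕ} (s : ZMod 2) :
    Qel s (0 : Fin n → ZMod 2) 0 = 1 ∨ Qel s (0 : Fin n → ZMod 2) 0 = Qel 1 0 0 := by
  rcases z2_cases s with rfl | rfl
  · left; exact Qel_zero
  · right; rfl

lemma Qel_one_ne {n : ℕ} : Qel (1 : ZMod 2) (0 : Fin n → ZMod 2) 0 ≠ 1 := by
  rw [← Qel_zero]
  intro h
  exact one_ne_zero (Qel_inj h).1

lemma eq_zero_of_dot {n : ℕ} {b : Fin n → ZMod 2} (h : ∀ c, b ⬝ᵥ c = 0) : b = 0 := by
  funext j
  have := h (Pi.single j 1)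
  simpa using this

lemma eq_zero_of_dot' {n : ℕ} {c : Fin n → ZMod 2} (h : ∀ b, b ⬝ᵥ c = 0) : c = 0 := by
  funext j
  have := h (Pi.single j 1)
  simpa using this

/-- Central elements. -/
lemma central_of_comm {n : ℕ} {a : ZMod 2} {b c : Fin n → ZMod 2}
    (h : ∀ a' b' c', Qel a b c * Qel a' b' c' = Qel a' b' c' * Qel a b c) : b = 0 ∧ c = 0 := by
  have key : ∀ b' c' : Fin n → ZMod 2, b ⬝ᵥ c' = b' ⬝ᵥ c := by
    intro b' c'
    have h1 := h 0 b' c'
    rw [Qel_mul, Qel_mul] at h1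
    have h2 := (Qel_inj h1).1
    have h3 : a + 0 = 0 + a := by ring
    linear_combination h2 + h3 * 0
  constructor
  · apply eq_zero_of_dot
    intro c'
    rw [key 0 c']; simp
  · apply eq_zero_of_dot'
    intro b'
    rw [← key b' 0]; simp

lemma ne_zero_card : (2:ℕ) ≠ 0 := by norm_num

theorem isExtraspecial_Qgrp {n : ℕ} (hn : 1 ≤ n) : Cfsg.IsExtraspecial 2 (Qgrp n) := by
  haveI : Fact (Nat.Prime 2) := ⟨Nat.prime_two⟩
  let j₀ : Fin n := ⟨0, hn⟩
  refine isExtraspecial_of (IsPGroup.of_card (card_Qgrp n)) ⟨Qel 1 0 0, _, _, _, rfl⟩ ?_ ?_ ?_ ?_ ?_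
  · intro h
    exact Qel_one_ne (congrArg Subtype.val h)
  · rintro ⟨_, a, b, c, rfl⟩
    rw [Subgroup.mem_center_iff]
    constructor
    · intro hx
      have h1 : ∀ a' b' c', Qel a b c * Qel a' b' c' = Qel a' b' c' * Qel a b c := by
        intro a' b' c'
        have := hx ⟨Qel a' b' c', _, _, _, rfl⟩
        exact (congrArg Subtype.val this).symm
      obtain ⟨rfl, rfl⟩ := central_of_comm h1
      rcases Qel_zz_cases (n := n) a with h2 | h2
      · left; exact Subtype.ext h2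
      · right; exact Subtype.ext h2
    · rintro (h | h) ⟨_, a', b', c', rfl⟩
      · rw [h]; simp
      · have h1 := congrArg Subtype.val h
        simp only at h1
        apply Subtype.ext
        simp only [Subgroup.coe_mul]
        rw [h1, Qel_mul, Qel_mul]
        simp only [zero_dotProduct, dotProduct_zero, add_zero, zero_add]
        rw [add_comm a' 1]
  · rintro ⟨_, a, b, c, rfl⟩ ⟨_, a', b', c', rfl⟩
    rcases Qel_zz_cases (n := n) (b ⬝ᵥ c' + b' ⬝ᵥ c) with h | h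
    · left
      apply Subtype.ext
      have := comm_Qel a a' b c b' c'
      rw [h] at this
      exact this
    · right
      apply Subtype.ext
      have := comm_Qel a a' b c b' c'
      rw [h] at this
      exact this
  · rintro ⟨_, a, b, c, rfl⟩
    rcases Qel_zz_cases (n := n) (b ⬝ᵥ c) with h | h
    · left
      apply Subtype.ext
      have := sq_Qel a b c
      rw [h] at this
      exact this
    · right
      apply Subtype.ext
      have := sq_Qel a b c
      rw [h] at this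
      exact this
  · refine ⟨⟨Qel 0 (Pi.single j₀ 1) 0, _, _, _, rfl⟩, ⟨Qel 0 0 (Pi.single j₀ 1), _, _, _, rfl⟩, ?_⟩
    apply Subtype.ext
    have := comm_Qel (0 : ZMod 2) 0 (Pi.single j₀ 1) 0 0 (Pi.single j₀ 1)
    simp only [single_dotProduct, Pi.single_eq_same, mul_one, zero_dotProduct, add_zero] at this
    exact this


/-! ### The centralizer of the transvection -/

/-- Block shape. -/
def IsC {n : ℕ} (g : Mx n) : Prop :=
  (∀ r, r ≠ 0 → g r 0 = 0) ∧ g 0 0 = 1 ∧ (∀ s, s ≠ 1 → g 1 s = 0) ∧ g 1 1 = 1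

/-- The lower right block. -/
def Dm {n : ℕ} (g : Mx n) : Md n := Matrix.of fun i j => g (s2 i) (s2 j)

@[simp] lemma Dm_blk {n : ℕ} (a : ZMod 2) (b c : Fin n → ZMod 2) (D : Md n) : Dm (blk a b c D) = D := by
  ext i j
  simp [Dm]

lemma isC_blk {n : ℕ} (a : ZMod 2) (b c : Fin n → ZMod 2) (D : Md n) : IsC (blk a b c D) := by
  refine ⟨?_, blk_00 _ _ _ _, ?_, blk_11 _ _ _ _⟩
  · refine idx_cases ?_ ?_ ?_
    · intro h; exact absurd rfl h
    · intro _; simp
    · intro i _; simp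
  · refine idx_cases ?_ ?_ ?_
    · intro _; simp
    · intro h; exact absurd rfl h
    · intro i _; simp

lemma eq_blk {n : ℕ} {g : Mx n} (h : IsC g) :
    g = blk (g 0 1) (fun j => g 0 (s2 j)) (fun i => g (s2 i) 1) (Dm g) := by
  obtain ⟨h1, h2, h3, h4⟩ := h
  ext r s
  revert r
  refine idx_cases ?_ ?_ ?_
  · revert s
    refine idx_cases ?_ ?_ ?_
    · simp [h2]
    · simp
    · intro j; simp
  · revert s
    refine idx_cases ?_ ?_ ?_
    · simp [h3 0 zero_ne_one']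
    · simp [h4]
    · intro j; simp [h3 _ (s2_ne_one j)]
  · intro i
    revert s
    refine idx_cases ?_ ?_ ?_
    · simp [h1 _ (s2_ne_zero i)]
    · simp
    · intro j; simp [Dm]

lemma isC_mul {n : ℕ} {g h : Mx n} (hg : IsC g) (hh : IsC h) : IsC (g * h) := by
  rw [eq_blk hg, eq_blk hh, blk_mul]
  exact isC_blk _ _ _ _

lemma Dm_mul {n : ℕ} {g h : Mx n} (hg : IsC g) (hh : IsC h) : Dm (g * h) = Dm g * Dm h := by
  conv_lhs => rw [eq_blk hg, eq_blk hh, blk_mul]
  rw [Dm_blk]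

lemma Dm_one {n : ℕ} : Dm (1 : Mx n) = 1 := by
  rw [← blk_one, Dm_blk]

lemma isC_one {n : ℕ} : IsC (1 : Mx n) := by
  rw [← blk_one]; exact isC_blk _ _ _ _

/-- The transvection. -/
abbrev Z0 (n : ℕ) : Gp n := Qel 1 0 0

lemma Z0_coe (n : ℕ) : ((Z0 n : Gp n) : Mx n) = Matrix.transvection 0 1 1 := by
  ext r s
  rw [Qel_coe, Matrix.transvection]
  revert r
  refine idx_cases ?_ ?_ ?_
  · revert s
    refine idx_cases ?_ ?_ ?_
    · simp [zero_ne_one']
    · simp [zero_ne_one']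
    · intro j
      simp [(s2_ne_zero j).symm, (s2_ne_one j).symm, Matrix.single_apply]
  · revert s
    refine idx_cases ?_ ?_ ?_
    · simp [zero_ne_one'.symm, Matrix.single_apply]
    · simp [zero_ne_one'.symm, Matrix.single_apply]
    · intro j
      simp [(s2_ne_one j).symm, zero_ne_one'.symm, Matrix.single_apply]
  · intro i
    revert s
    refine idx_cases ?_ ?_ ?_
    · simp [s2_ne_zero, (s2_ne_zero i).symm, Matrix.single_apply]
    · simp [s2_ne_zero, (s2_ne_zero i).symm, s2_ne_one, Matrix.single_apply]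
    · intro j
      simp [s2_ne_zero, (s2_ne_zero i).symm, Matrix.one_apply, s2_inj, Matrix.single_apply]

/-- The centralizer. -/
abbrev Cz (n : ℕ) : Subgroup (Gp n) := Subgroup.centralizer ({Z0 n} : Set (Gp n))

lemma mem_Cz {n : ℕ} {g : Gp n} : g ∈ Cz n ↔ IsC (g : Mx n) := by
  rw [Subgroup.mem_centralizer_singleton_iff]
  constructor
  · intro h
    have h' : (g : Mx n) * Matrix.transvection 0 1 1 = Matrix.transvection 0 1 1 * (g : Mx n) := by
      rw [← Z0_coe]
      exact congrArg Subtype.val h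
    have e1 : ∀ r, r ≠ 0 → (g : Mx n) r 0 = 0 := by
      intro r hr
      have := congrFun (congrFun h' r) 1
      rw [Matrix.mul_transvection_apply_same, Matrix.transvection_mul_apply_of_ne _ _ _ _ hr] at this
      simpa using this
    have e2 : ∀ s, s ≠ 1 → (g : Mx n) 1 s = 0 := by
      intro s hs
      have := congrFun (congrFun h' 0) s
      rw [Matrix.mul_transvection_apply_of_ne _ _ _ _ hs, Matrix.transvection_mul_apply_same] at this
      simpa using this.symm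
    have e3 : (g : Mx n) 0 0 = (g : Mx n) 1 1 := by
      have := congrFun (congrFun h' 0) 1
      rw [Matrix.mul_transvection_apply_same, Matrix.transvection_mul_apply_same] at this
      simpa using this
    have e4 : (g : Mx n) 0 0 = 1 := by
      apply z2_eq_one
      intro h0
      have h1 : (g : Mx n).det = 0 := by
        apply Matrix.det_eq_zero_of_column_eq_zero 0
        intro r
        by_cases hr : r = 0
        · rw [hr]; exact h0
        · exact e1 r hr
      rw [g.2] at h1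
      exact one_ne_zero h1
    exact ⟨e1, e4, e2, e3 ▸ e4⟩
  · intro h
    obtain ⟨e1, e2, e3, e4⟩ := h
    apply Subtype.ext
    show (g : Mx n) * ((Z0 n : Gp n) : Mx n) = ((Z0 n : Gp n) : Mx n) * (g : Mx n)
    rw [Z0_coe]
    ext r s
    by_cases hs : s = 1
    · subst hs
      by_cases hr : r = 0
      · subst hr
        rw [Matrix.mul_transvection_apply_same, Matrix.transvection_mul_apply_same, e2, e4]
      · rw [Matrix.mul_transvection_apply_same, Matrix.transvection_mul_apply_of_ne _ _ _ _ hr,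
          e1 r hr]
        simp
    · by_cases hr : r = 0
      · subst hr
        rw [Matrix.mul_transvection_apply_of_ne _ _ _ _ hs, Matrix.transvection_mul_apply_same,
          e3 s hs]
        simp
      · rw [Matrix.mul_transvection_apply_of_ne _ _ _ _ hs,
          Matrix.transvection_mul_apply_of_ne _ _ _ _ hr]

lemma Qel_mem_Cz {n : ℕ} (a : ZMod 2) (b c : Fin n → ZMod 2) : Qel a b c ∈ Cz n :=
  mem_Cz.2 (isC_blk _ _ _ _)

lemma Qgrp_le_Cz (n : ℕ) : Qgrp n ≤ Cz n := by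
  rintro _ ⟨a, b, c, rfl⟩
  exact Qel_mem_Cz a b c

lemma mem_Qgrp_iff {n : ℕ} {g : Gp n} : g ∈ Qgrp n ↔ g ∈ Cz n ∧ Dm (g : Mx n) = 1 := by
  constructor
  · rintro ⟨a, b, c, rfl⟩
    exact ⟨Qel_mem_Cz a b c, Dm_blk _ _ _ _⟩
  · rintro ⟨h1, h2⟩
    have h3 := eq_blk (mem_Cz.1 h1)
    rw [h2] at h3
    exact ⟨_, _, _, Subtype.ext h3⟩

/-- The block map as a hom on the centralizer. -/
def DmHom (n : ℕ) : Cz n →* Md n where
  toFun g := Dm ((g : Gp n) : Mx n)
  map_one' := Dm_one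
  map_mul' g h := Dm_mul (mem_Cz.1 g.2) (mem_Cz.1 h.2)

lemma DmHom_apply {n : ℕ} (g : Cz n) : DmHom n g = Dm ((g : Gp n) : Mx n) := rfl

lemma mem_Qgrp_iff' {n : ℕ} (g : Cz n) : (g : Gp n) ∈ Qgrp n ↔ DmHom n g = 1 := by
  rw [mem_Qgrp_iff]
  exact ⟨fun h => h.2, fun h => ⟨g.2, h⟩⟩

lemma conj_mem_Qgrp {n : ℕ} {g q : Gp n} (hg : g ∈ Cz n) (hq : q ∈ Qgrp n) :
    g * q * g⁻¹ ∈ Qgrp n := by
  have hq' := Qgrp_le_Cz n hq
  have h1 : (⟨g, hg⟩ * ⟨q, hq'⟩ * (⟨g, hg⟩ : Cz n)⁻¹ : Cz n) = ⟨g * q * g⁻¹, by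
      exact (Cz n).mul_mem ((Cz n).mul_mem hg hq') ((Cz n).inv_mem hg)⟩ := rfl
  have h2 := (mem_Qgrp_iff' (⟨g, hg⟩ * ⟨q, hq'⟩ * (⟨g, hg⟩ : Cz n)⁻¹ : Cz n)).2 (by
    rw [map_mul, map_mul, (mem_Qgrp_iff' ⟨q, hq'⟩).1 hq, mul_one, ← map_mul, mul_inv_cancel,
      map_one])
  exact h2

/-- Embedding invertible small matrices. -/
lemma blkD_mul {n : ℕ} (D D' : Md n) :
    blk 0 0 0 D * blk 0 0 0 D' = blk 0 0 0 (D * D') := by
  rw [blk_mul]
  simp

/-- The element of the group attached to an invertible small matrix. -/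
def emG {n : ℕ} (A A' : Md n) (h : A * A' = 1) : Gp n :=
  ⟨blk 0 0 0 A, det_one_of_mul (A := blk 0 0 0 A) (B := blk 0 0 0 A') (by
    rw [blkD_mul, h, blk_one])⟩

lemma emG_coe {n : ℕ} (A A' : Md n) (h : A * A' = 1) : ((emG A A' h : Gp n) : Mx n) = blk 0 0 0 A := rfl

lemma emG_mem {n : ℕ} (A A' : Md n) (h : A * A' = 1) : emG A A' h ∈ Cz n :=
  mem_Cz.2 (isC_blk _ _ _ _)

/-- The complement as the image of a hom. -/
def Theta (n : ℕ) : Matrix.SpecialLinearGroup (Fin n) (ZMod 2) →* Gp n where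
  toFun D := emG (D : Md n) ((D⁻¹ : Matrix.SpecialLinearGroup (Fin n) (ZMod 2)) : Md n) (by
    have := congrArg Subtype.val (mul_inv_cancel D)
    exact this)
  map_one' := Subtype.ext blk_one
  map_mul' D D' := Subtype.ext (by
    show blk 0 0 0 ((D * D' : Matrix.SpecialLinearGroup (Fin n) (ZMod 2)) : Md n) =
      blk 0 0 0 (D : Md n) * blk 0 0 0 (D' : Md n)
    rw [blkD_mul]
    rfl)

lemma Theta_coe {n : ℕ} (D : Matrix.SpecialLinearGroup (Fin n) (ZMod 2)) :
    ((Theta n D : Gp n) : Mx n) = blk 0 0 0 (D : Md n) := rfl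

lemma Theta_inj (n : ℕ) : Function.Injective (Theta n) := by
  intro D D' h
  have h1 : blk 0 0 0 (D : Md n) = blk 0 0 0 (D' : Md n) := congrArg Subtype.val h
  have h2 := congrArg Dm h1
  rw [Dm_blk, Dm_blk] at h2
  exact Subtype.ext h2

/-! ### The 2-core -/

lemma pCore_eq_Qgrp {n : ℕ} (hn : 1 ≤ n) :
    (Cfsg.pCore 2 (Cz n)).map (Cz n).subtype = Qgrp n := by
  classical
  haveI : Fact (Nat.Prime 2) := ⟨Nat.prime_two⟩
  have hp : IsPGroup 2 (Qgrp n) := IsPGroup.of_card (card_Qgrp n)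
  apply le_antisymm
  · -- the core lies in the kernel
    rintro _ ⟨y, hy, rfl⟩
    let R : Subgroup (Cz n) := Cfsg.pCore 2 (Cz n)
    have hRp : IsPGroup 2 R := Cfsg.Agent.Lib.Basic.PCore.pCore_isPGroup 2
    let V := Fin n → ZMod 2
    letI act : MulAction R V :=
      { smul := fun y v => (DmHom n (y : Cz n)).mulVec v
        one_smul := fun v => by
          show (DmHom n ((1 : R) : Cz n)).mulVec v = v
          simp
        mul_smul := fun a b v => by
          show (DmHom n ((a * b : R) : Cz n)).mulVec v =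
            (DmHom n (a : Cz n)).mulVec ((DmHom n (b : Cz n)).mulVec v)
          rw [Matrix.mulVec_mulVec, ← map_mul]
          rfl }
    have hfix0 : (0 : V) ∈ MulAction.fixedPoints R V := by
      intro y
      show (DmHom n (y : Cz n)).mulVec 0 = 0
      exact Matrix.mulVec_zero _
    have hcard : 2 ∣ Nat.card V := by
      rw [Nat.card_eq_fintype_card, Fintype.card_fun, ZMod.card, Fintype.card_fin]
      exact dvd_pow_self 2 (by omega)
    obtain ⟨v, hv, hv0⟩ := hRp.exists_fixed_point_of_prime_dvd_card_of_fixed_point V hcard hfix0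
    have hv0' : v ≠ 0 := fun h => hv0 h.symm
    have key : ∀ w : V, (DmHom n y).mulVec w = w := by
      intro w
      by_cases hw : w = 0
      · rw [hw]; exact Matrix.mulVec_zero _
      obtain ⟨e, he⟩ := Cfsg.Agent.Lib.Linalg.TransvectionForm.exists_equiv_apply_eq
        (F := ZMod 2) (V := V) hv0' hw
      let A : Md n := LinearMap.toMatrix' (e : V →ₗ[ZMod 2] V)
      let A' : Md n := LinearMap.toMatrix' (e.symm : V →ₗ[ZMod 2] V)
      have hAA : A * A' = 1 := by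
        simp only [A, A']
        rw [← LinearMap.toMatrix'_comp]
        simp
      have hAv : A.mulVec v = w := by
        simp only [A]
        rw [LinearMap.toMatrix'_mulVec]
        exact he
      let g : Cz n := ⟨emG A A' hAA, emG_mem A A' hAA⟩
      have hDg : DmHom n g = A := Dm_blk _ _ _ _
      have hy' : g⁻¹ * y * g ∈ R := by
        have := (Cfsg.Agent.Lib.Basic.PCore.pCore_normal 2 (Cz n)).conj_mem y hy g⁻¹
        simpa using this
      have h1 : (DmHom n (g⁻¹ * y * g)).mulVec v = v :=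
        hv ⟨g⁻¹ * y * g, hy'⟩
      rw [map_mul, map_mul, hDg, ← Matrix.mulVec_mulVec, ← Matrix.mulVec_mulVec, hAv] at h1
      have h2 := congrArg (DmHom n g).mulVec h1
      rw [Matrix.mulVec_mulVec, ← map_mul, mul_inv_cancel, map_one, Matrix.one_mulVec, hDg, hAv] at h2
      exact h2
    have h1 : DmHom n y = 1 := by
      apply Matrix.mulVec_injective
      funext w
      rw [key w, Matrix.one_mulVec]
    exact (mem_Qgrp_iff' y).2 h1
  · intro q hq
    have hqC := Qgrp_le_Cz n hq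
    refine ⟨⟨q, hqC⟩, ?_, rfl⟩
    have hle : (Qgrp n).subgroupOf (Cz n) ≤ Cfsg.pCore 2 (Cz n) := by
      apply Cfsg.Agent.Lib.Basic.PCore.le_pCore
      · constructor
        intro x hx g
        rw [Subgroup.mem_subgroupOf] at hx ⊢
        exact conj_mem_Qgrp g.2 hx
      · rintro ⟨⟨x, hx⟩, hx'⟩
        rw [Subgroup.mem_subgroupOf] at hx'
        obtain ⟨k, hk⟩ := hp ⟨x, hx'⟩
        refine ⟨k, ?_⟩
        apply Subtype.ext
        apply Subtype.ext
        have := congrArg Subtype.val hk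
        simpa using this
    exact hle hq


/-! ### The elementary abelian subgroup -/

/-- Transvections with the given centre. -/
def Egrp (n : ℕ) : Subgroup (Gp n) where
  carrier := {g | ∃ a b, g = Qel a b 0}
  mul_mem' := by
    rintro _ _ ⟨a, b, rfl⟩ ⟨a', b', rfl⟩
    refine ⟨a + a' + b ⬝ᵥ 0, b + b', ?_⟩
    rw [Qel_mul, add_zero]
  one_mem' := ⟨0, 0, Qel_zero.symm⟩
  inv_mem' := by
    rintro _ ⟨a, b, rfl⟩
    exact ⟨_, _, Qel_inv a b 0⟩

lemma Egrp_le (n : ℕ) : Egrp n ≤ Qgrp n := by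
  rintro _ ⟨a, b, rfl⟩
  exact ⟨a, b, 0, rfl⟩

lemma sq_E {n : ℕ} {g : Gp n} (hg : g ∈ Egrp n) : g ^ 2 = 1 := by
  obtain ⟨a, b, rfl⟩ := hg
  rw [sq_Qel, dotProduct_zero, Qel_zero]

lemma comm_E {n : ℕ} {g h : Gp n} (hg : g ∈ Egrp n) (hh : h ∈ Egrp n) : g * h = h * g := by
  obtain ⟨a, b, rfl⟩ := hg
  obtain ⟨a', b', rfl⟩ := hh
  rw [Qel_mul, Qel_mul, add_zero, dotProduct_zero, dotProduct_zero, add_comm a a', add_comm b b']

lemma card_Egrp (n : ℕ) : Nat.card (Egrp n) = 2 ^ (n + 1) := by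
  let f : ZMod 2 × (Fin n → ZMod 2) → Egrp n := fun t => ⟨Qel t.1 t.2 0, _, _, rfl⟩
  have hf : Function.Bijective f := by
    constructor
    · rintro ⟨a, b⟩ ⟨a', b'⟩ h
      obtain ⟨h1, h2, -⟩ := Qel_inj (congrArg Subtype.val h)
      simp only [Prod.mk.injEq]
      exact ⟨h1, h2⟩
    · rintro ⟨_, a, b, rfl⟩
      exact ⟨(a, b), rfl⟩
  rw [← Nat.card_congr (Equiv.ofBijective f hf)]
  rw [Nat.card_eq_fintype_card]
  simp only [Fintype.card_prod, Fintype.card_fun, ZMod.card, Fintype.card_fin]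
  ring

lemma blk_inj {n : ℕ} {a a' : ZMod 2} {b c b' c' : Fin n → ZMod 2} {D D' : Md n}
    (h : blk a b c D = blk a' b' c' D') : a = a' ∧ b = b' ∧ c = c' ∧ D = D' := by
  refine ⟨?_, ?_, ?_, ?_⟩
  · simpa using congrFun (congrFun h 0) 1
  · funext j
    simpa using congrFun (congrFun h 0) (s2 j)
  · funext i
    simpa using congrFun (congrFun h (s2 i)) 1
  · ext i j
    simpa using congrFun (congrFun h (s2 i)) (s2 j)

lemma cent_E {n : ℕ} {x : Gp n} (hx : ∀ e ∈ Egrp n, x * e = e * x) : x ∈ Egrp n := by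
  have hC : x ∈ Cz n := Subgroup.mem_centralizer_singleton_iff.2 (hx (Z0 n) ⟨1, 0, rfl⟩)
  have h3 := eq_blk (mem_Cz.1 hC)
  set a := (x : Mx n) 0 1 with ha
  set b : Fin n → ZMod 2 := fun j => (x : Mx n) 0 (s2 j) with hb
  set c : Fin n → ZMod 2 := fun i => (x : Mx n) (s2 i) 1 with hc
  set D := Dm (x : Mx n) with hD
  have key : ∀ b' : Fin n → ZMod 2, b' ⬝ᵥ c = 0 ∧ Matrix.vecMul b' D = b' := by
    intro b'
    have h1 : (x : Mx n) * blk 0 b' 0 1 = blk 0 b' 0 1 * (x : Mx n) :=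
      congrArg Subtype.val (hx (Qel 0 b' 0) ⟨0, b', rfl⟩)
    rw [h3, blk_mul, blk_mul] at h1
    obtain ⟨h2, h4, -, -⟩ := blk_inj h1
    constructor
    · simp only [dotProduct_zero, add_zero, zero_add] at h2
      have : a + b' ⬝ᵥ c = a := h2.symm
      simpa using this
    · simp only [Matrix.vecMul_one] at h4
      funext j
      have h5 := congrFun h4 j
      simp only [Pi.add_apply] at h5
      linear_combination -h5
  have hc0 : c = 0 := eq_zero_of_dot' fun b' => (key b').1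
  have hD1 : D = 1 := by
    ext i j
    have := congrFun (key (Pi.single i 1)).2 j
    simpa [Matrix.one_apply, Pi.single_apply, eq_comm] using this
  refine ⟨a, b, Subtype.ext ?_⟩
  rw [Qel_coe, ← hc0, ← hD1]
  exact h3

lemma cent_Q {n : ℕ} {x : Gp n} (hx : ∀ e ∈ Qgrp n, x * e = e * x) : ∃ a, x = Qel a 0 0 := by
  obtain ⟨a, b, rfl⟩ := cent_E (fun e he => hx e (Egrp_le n he))
  have hb : b = 0 := by
    apply eq_zero_of_dot
    intro c'
    have h1 := hx (Qel 0 0 c') ⟨0, 0, c', rfl⟩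
    rw [Qel_mul, Qel_mul] at h1
    have h2 := (Qel_inj h1).1
    simp only [zero_dotProduct, add_zero, zero_add] at h2
    simpa using h2
  exact ⟨a, by rw [hb]⟩

lemma row_E {n : ℕ} (a : ZMod 2) (b : Fin n → ZMod 2) {r : Fin (n + 2)} (hr : r ≠ 0)
    (s : Fin (n + 2)) : blk a b 0 1 r s = (1 : Mx n) r s := by
  rw [← blk_one]
  have key : ∀ r : Fin (n + 2), r ≠ 0 → blk a b 0 1 r s = blk 0 0 0 1 r s := by
    refine idx_cases ?_ ?_ ?_
    · intro h; exact absurd rfl h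
    · intro _
      revert s
      refine idx_cases ?_ ?_ ?_ <;> simp
    · intro i _
      revert s
      refine idx_cases ?_ ?_ ?_ <;> simp
  exact key r hr

lemma col_E {n : ℕ} (a : ZMod 2) (b : Fin n → ZMod 2) (u : Fin (n + 2)) :
    blk a b 0 1 u 0 = (1 : Mx n) u 0 := by
  rw [← blk_one]
  revert u
  refine idx_cases ?_ ?_ ?_ <;> simp

lemma col0_of_comm {n : ℕ} {x : Gp n} {a : ZMod 2} {b : Fin n → ZMod 2} (hne : Qel a b 0 ≠ 1)
    (hx : x * Qel a b 0 = Qel a b 0 * x) : ∀ r, r ≠ 0 → (x : Mx n) r 0 = 0 := by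
  intro r hr
  have h1 : (x : Mx n) * blk a b 0 1 = blk a b 0 1 * (x : Mx n) := congrArg Subtype.val hx
  have hright : ∀ s, (blk a b 0 1 * (x : Mx n)) r s = (x : Mx n) r s := by
    intro s
    rw [Matrix.mul_apply]
    have : (x : Mx n) r s = ((1 : Mx n) * (x : Mx n)) r s := by rw [one_mul]
    rw [this, Matrix.mul_apply]
    exact Finset.sum_congr rfl fun t _ => by rw [row_E a b hr]
  by_contra h0
  have h01 := z2_eq_one h0
  have ha : a = 0 := by
    have h2 := congrFun (congrFun h1 r) 1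
    rw [hright, Matrix.mul_apply, sum_idx] at h2
    simp [h01] at h2
    exact h2
  have hb : b = 0 := by
    funext j
    have h2 := congrFun (congrFun h1 r) (s2 j)
    rw [hright, Matrix.mul_apply, sum_idx] at h2
    simp [h01, Matrix.one_apply] at h2
    simpa using h2
  apply hne
  rw [ha, hb, Qel_zero]

lemma col0_diag {n : ℕ} {x : Gp n} (hx : ∀ r, r ≠ 0 → (x : Mx n) r 0 = 0) : (x : Mx n) 0 0 = 1 := by
  apply z2_eq_one
  intro h0
  have h1 : (x : Mx n).det = 0 := by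
    apply Matrix.det_eq_zero_of_column_eq_zero 0
    intro r
    by_cases hr : r = 0
    · rw [hr]; exact h0
    · exact hx r hr
  rw [x.2] at h1
  exact one_ne_zero h1

lemma col0_inv {n : ℕ} {x : Gp n} (hx : ∀ r, r ≠ 0 → (x : Mx n) r 0 = 0) (r : Fin (n + 2)) :
    ((x⁻¹ : Gp n) : Mx n) r 0 = (1 : Mx n) r 0 := by
  have h1 : ((x⁻¹ : Gp n) : Mx n) * (x : Mx n) = 1 := congrArg Subtype.val (inv_mul_cancel x)
  have h2 := congrFun (congrFun h1 r) 0
  rw [Matrix.mul_apply, Finset.sum_eq_single 0] at h2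
  · rw [col0_diag hx, mul_one] at h2
    exact h2
  · intro t _ ht
    rw [hx t ht, mul_zero]
  · intro h; exact absurd (Finset.mem_univ _) h

lemma mem_E_of_rows {n : ℕ} {y : Gp n} (h : ∀ r, r ≠ 0 → ∀ s, (y : Mx n) r s = (1 : Mx n) r s)
    (h0 : (y : Mx n) 0 0 = 1) : y ∈ Egrp n := by
  refine ⟨(y : Mx n) 0 1, fun j => (y : Mx n) 0 (s2 j), Subtype.ext ?_⟩
  rw [Qel_coe]
  ext r s
  by_cases hr : r = 0
  · subst hr
    revert s
    refine idx_cases ?_ ?_ ?_
    · simp [h0]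
    · simp
    · intro j; simp
  · rw [h r hr s, row_E _ _ hr]

lemma conj_E {n : ℕ} {x e : Gp n} (hx : ∀ r, r ≠ 0 → (x : Mx n) r 0 = 0) (he : e ∈ Egrp n) :
    x * e * x⁻¹ ∈ Egrp n := by
  obtain ⟨a, b, rfl⟩ := he
  have hW : (x : Mx n) * ((x⁻¹ : Gp n) : Mx n) = 1 := congrArg Subtype.val (mul_inv_cancel x)
  have hrow : ∀ r, r ≠ 0 → ∀ t, ((x : Mx n) * blk a b 0 1) r t = (x : Mx n) r t := by
    intro r hr t
    have : (x : Mx n) r t = ((x : Mx n) * (1 : Mx n)) r t := by rw [mul_one]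
    rw [this, Matrix.mul_apply, Matrix.mul_apply]
    refine Finset.sum_congr rfl fun u _ => ?_
    by_cases hu : u = 0
    · rw [hu, hx r hr, zero_mul, zero_mul]
    · rw [row_E a b hu]
  apply mem_E_of_rows
  · intro r hr s
    show ((x : Mx n) * blk a b 0 1 * ((x⁻¹ : Gp n) : Mx n)) r s = (1 : Mx n) r s
    rw [← hW, Matrix.mul_apply, Matrix.mul_apply]
    exact Finset.sum_congr rfl fun t _ => by rw [hrow r hr t]
  · show ((x : Mx n) * blk a b 0 1 * ((x⁻¹ : Gp n) : Mx n)) 0 0 = 1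
    rw [Matrix.mul_apply, Finset.sum_eq_single 0]
    · rw [col0_inv hx, Matrix.one_apply_eq, mul_one, Matrix.mul_apply, Finset.sum_eq_single 0]
      · rw [col0_diag hx]
        simp
      · intro u _ hu
        rw [col_E, Matrix.one_apply_ne hu, mul_zero]
      · intro h; exact absurd (Finset.mem_univ _) h
    · intro t _ ht
      rw [col0_inv hx, Matrix.one_apply_ne ht, mul_zero]
    · intro h; exact absurd (Finset.mem_univ _) h

/-- An odd subgroup normalized by the extraspecial group is trivial. -/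
lemma odd_trivial {n : ℕ} (hn : 1 ≤ n) (K : Subgroup (Gp n)) (hK : Odd (Nat.card K))
    (hQK : Qgrp n ≤ Subgroup.normalizer (K : Set (Gp n))) : K = ⊥ := by
  have hnorm : ∀ f ∈ Qgrp n, ∀ y ∈ K, f * y * f⁻¹ ∈ K := by
    intro f hf y hy
    have := Subgroup.mem_normalizer_iff.1 (hQK hf) y
    exact this.1 hy
  have hinv : ∀ y ∈ K, y ^ 2 = 1 → y = 1 := by
    intro y hy hy2
    have h1 : orderOf y ∣ 2 := orderOf_dvd_of_pow_eq_one hy2
    have h2 : orderOf y ∣ Nat.card K := by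
      have h3 : orderOf (⟨y, hy⟩ : K) ∣ Nat.card K := orderOf_dvd_natCard _
      rwa [Subgroup.orderOf_mk] at h3
    have h3 : (orderOf y).Coprime 2 := by
      have h4 : (Nat.card K).Coprime 2 := Nat.coprime_two_right.2 hK
      exact Nat.Coprime.coprime_dvd_left h2 h4
    have h4 : orderOf y = 1 := Nat.Coprime.eq_one_of_dvd h3 h1
    exact orderOf_eq_one_iff.1 h4
  have fpf : ∀ a b, Qel a b 0 ≠ 1 → ∀ x ∈ K, x * Qel a b 0 = Qel a b 0 * x → x = 1 := by
    intro a b hne x hxK hxc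
    have hcol := col0_of_comm hne hxc
    have hcent : ∀ f ∈ Egrp n, x * f = f * x := by
      intro f hf
      have w1 : ⁅x, f⁆ ∈ Egrp n := by
        rw [commutatorElement_def]
        exact (Egrp n).mul_mem (conj_E hcol hf) ((Egrp n).inv_mem hf)
      have w2 : ⁅x, f⁆ ∈ K := by
        rw [commutatorElement_def, mul_assoc, mul_assoc]
        refine K.mul_mem hxK ?_
        rw [← mul_assoc]
        exact hnorm f (Egrp_le n hf) _ (K.inv_mem hxK)
      have := hinv _ w2 (sq_E w1)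
      exact commutatorElement_eq_one_iff_mul_comm.1 this
    exact hinv x hxK (sq_E (cent_E hcent))
  let j₀ : Fin n := ⟨0, hn⟩
  let d : Fin n → ZMod 2 := Pi.single j₀ 1
  have hz1 : Qel (1 : ZMod 2) (0 : Fin n → ZMod 2) 0 ≠ 1 := Qel_one_ne
  have hd : d ≠ 0 := by
    intro h
    have := congrFun h j₀
    simp [d] at this
  have ht1 : Qel (0 : ZMod 2) d 0 ≠ 1 := by
    rw [← Qel_zero]
    intro h
    exact hd (Qel_inj h).2.1
  have hzt1 : Qel (1 : ZMod 2) d 0 ≠ 1 := by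
    rw [← Qel_zero]
    intro h
    exact hd (Qel_inj h).2.1
  rw [eq_bot_iff]
  intro k hk
  have i1 := Cfsg.Agent.Lib.Frobenius.Even.inverts_of_fpf_involution (K := K)
    (s := Qel (1 : ZMod 2) (0 : Fin n → ZMod 2) 0) (hQK ⟨_, _, _, rfl⟩)
    (by rw [← pow_two]; exact sq_E ⟨_, _, rfl⟩)
    (fun y hy hc => fpf _ _ hz1 y hy hc.symm) hk
  have i2 := Cfsg.Agent.Lib.Frobenius.Even.inverts_of_fpf_involution (K := K)
    (s := Qel (0 : ZMod 2) d 0) (hQK ⟨_, _, _, rfl⟩)
    (by rw [← pow_two]; exact sq_E ⟨_, _, rfl⟩)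
    (fun y hy hc => fpf _ _ ht1 y hy hc.symm) hk
  have i3 : Qel (1 : ZMod 2) (0 : Fin n → ZMod 2) 0 * Qel (0 : ZMod 2) d 0 = Qel (1 : ZMod 2) d 0 := by
    rw [Qel_mul]
    simp
  have hcomm : k * Qel (1 : ZMod 2) d 0 = Qel (1 : ZMod 2) d 0 * k := by
    rw [← i3]
    have hinvk : Qel (0 : ZMod 2) d 0 * k = k⁻¹ * Qel (0 : ZMod 2) d 0 := by
      rw [← i2]; group
    have hinvk' : Qel (1 : ZMod 2) (0 : Fin n → ZMod 2) 0 * k⁻¹ =
        k * Qel (1 : ZMod 2) (0 : Fin n → ZMod 2) 0 := by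
      have : k = (Qel (1 : ZMod 2) (0 : Fin n → ZMod 2) 0 * k *
          (Qel (1 : ZMod 2) (0 : Fin n → ZMod 2) 0)⁻¹)⁻¹ := by rw [i1, inv_inv]
      conv_rhs => rw [this]
      group
    calc k * (Qel (1 : ZMod 2) (0 : Fin n → ZMod 2) 0 * Qel (0 : ZMod 2) d 0)
        = (k * Qel (1 : ZMod 2) (0 : Fin n → ZMod 2) 0) * Qel (0 : ZMod 2) d 0 := (mul_assoc _ _ _).symm
      _ = (Qel (1 : ZMod 2) (0 : Fin n → ZMod 2) 0 * k⁻¹) * Qel (0 : ZMod 2) d 0 := by rw [hinvk']
      _ = Qel (1 : ZMod 2) (0 : Fin n → ZMod 2) 0 * (k⁻¹ * Qel (0 : ZMod 2) d 0) := mul_assoc _ _ _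
      _ = Qel (1 : ZMod 2) (0 : Fin n → ZMod 2) 0 * (Qel (0 : ZMod 2) d 0 * k) := by rw [hinvk]
      _ = _ := (mul_assoc _ _ _).symm
  exact Subgroup.mem_bot.2 (fpf _ _ hzt1 k hk hcomm)



/-- Let G be the special linear group of degree n + 2 over the field with two elements, n ≥ 2, let z be a transvection, and let Q be the largest normal 2-subgroup of the centralizer C of z. Then Q is extraspecial of order 2^(2n+1) with an elementary abelian subgroup of order 2^(n+1) (plus type), Q is a large extraspecial 2-subgroup of G, and C is the split extension of Q by the special linear group of degree n over the field with two elements. -/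
theorem result (n : ℕ) (hn : 2 ≤ n) (z : Matrix.SpecialLinearGroup (Fin (n + 2)) (ZMod 2)) (hz : (z : Matrix (Fin (n + 2)) (Fin (n + 2)) (ZMod 2)) = Matrix.transvection 0 1 1) (Q : Subgroup (Matrix.SpecialLinearGroup (Fin (n + 2)) (ZMod 2))) (hQ : Q = (Cfsg.pCore 2 ↥(Subgroup.centralizer ({z} : Set (Matrix.SpecialLinearGroup (Fin (n + 2)) (ZMod 2))))).map (Subgroup.centralizer ({z} : Set (Matrix.SpecialLinearGroup (Fin (n + 2)) (ZMod 2)))).subtype) : Cfsg.IsExtraspecial 2 ↥Q ∧ Nat.card ↥Q = 2 ^ (2 * n + 1) ∧ (∃ E : Subgroup (Matrix.SpecialLinearGroup (Fin (n + 2)) (ZMod 2)), E ≤ Q ∧ Cfsg.IsElementaryAbelian 2 E ∧ Nat.card ↥E = 2 ^ (n + 1)) ∧ Cfsg.IsLargeExtraspecial Q ∧ ∃ K : Subgroup (Matrix.SpecialLinearGroup (Fin (n + 2)) (ZMod 2)), K ≤ Subgroup.centralizer ({z} : Set (Matrix.SpecialLinearGroup (Fin (n + 2)) (ZMod 2))) ∧ Q ⊓ K = ⊥ ∧ Q ⊔ K = Subgroup.centralizer ({z} : Set (Matrix.SpecialLinearGroup (Fin (n + 2)) (ZMod 2))) ∧ Nonempty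 (↥K ≃* Matrix.SpecialLinearGroup (Fin n) (ZMod 2)) := by
  have hn1 : 1 ≤ n := by omega
  obtain rfl : z = Z0 n := Subtype.ext (hz.trans (Z0_coe n).symm)
  have hQ' : Q = Qgrp n := hQ.trans (pCore_eq_Qgrp hn1)
  subst hQ'
  have hext := isExtraspecial_Qgrp hn1
  have hZcent : (⟨Z0 n, ⟨1, 0, 0, rfl⟩⟩ : Qgrp n) ∈ Subgroup.center (Qgrp n) := by
    rw [Subgroup.mem_center_iff]
    rintro ⟨_, a, b, c, rfl⟩
    apply Subtype.ext
    show Qel a b c * Qel 1 0 0 = Qel 1 0 0 * Qel a b c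
    rw [Qel_mul, Qel_mul]
    simp only [zero_dotProduct, dotProduct_zero, add_zero, zero_add]
    rw [add_comm a 1]
  have hN : ∀ g ∈ Cz n, g ∈ Subgroup.normalizer (Qgrp n : Set (Gp n)) := by
    intro g hg
    rw [Subgroup.mem_normalizer_iff]
    intro h
    constructor
    · exact fun hh => conj_mem_Qgrp hg hh
    · intro hh
      have := conj_mem_Qgrp ((Cz n).inv_mem hg) hh
      have h2 : g⁻¹ * (g * h * g⁻¹) * g⁻¹⁻¹ = h := by group
      rwa [h2] at this
  refine ⟨hext, card_Qgrp n, ⟨Egrp n, Egrp_le n,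
    Cfsg.Agent.Lib.PGroup.Basic.isElementaryAbelian_iff.2
      ⟨fun a ha b hb => comm_E ha hb, fun a ha => sq_E ha⟩, card_Egrp n⟩,
    ⟨hext, ?_, ?_, ?_⟩, (Theta n).range, ?_, ?_, ?_, ⟨(MonoidHom.ofInjective (Theta_inj n)).symm⟩⟩
  · ext x
    rw [Subgroup.mem_centralizer_iff]
    constructor
    · intro hx
      obtain ⟨a, rfl⟩ := cent_Q (fun e he => (hx e he).symm)
      refine ⟨⟨Qel a 0 0, a, 0, 0, rfl⟩, ?_, rfl⟩
      rw [SetLike.mem_coe, Subgroup.mem_center_iff]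
      rintro ⟨e, he⟩
      exact Subtype.ext (hx e he)
    · rintro ⟨c, hc, rfl⟩ h hh
      have := (Subgroup.mem_center_iff.1 hc) ⟨h, hh⟩
      exact congrArg Subtype.val this
  · intro g hg
    rw [Subgroup.mem_centralizer_iff] at hg
    apply hN
    rw [Subgroup.mem_centralizer_singleton_iff]
    exact (hg (Z0 n) ⟨⟨Z0 n, 1, 0, 0, rfl⟩, hZcent, rfl⟩).symm
  · exact fun K hK hQK => odd_trivial hn1 K hK hQK
  · rintro _ ⟨D, rfl⟩
    exact mem_Cz.2 (isC_blk _ _ _ _)
  · rw [eq_bot_iff]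
    rintro x ⟨hx, D, rfl⟩
    have h1 := (mem_Qgrp_iff.1 hx).2
    rw [Theta_coe, Dm_blk] at h1
    have h2 : D = 1 := Subtype.ext h1
    rw [h2, map_one]
    exact Subgroup.one_mem _
  · apply le_antisymm
    · refine sup_le (Qgrp_le_Cz n) ?_
      rintro _ ⟨D, rfl⟩
      exact mem_Cz.2 (isC_blk _ _ _ _)
    · intro g hg
      let g' : Cz n := ⟨g, hg⟩
      have hDD : DmHom n g' * DmHom n g'⁻¹ = 1 := by
        rw [← map_mul, mul_inv_cancel, map_one]
      let D : Matrix.SpecialLinearGroup (Fin n) (ZMod 2) := ⟨DmHom n g', det_one_of_mul hDD⟩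
      let k : Cz n := ⟨Theta n D, mem_Cz.2 (isC_blk _ _ _ _)⟩
      have hk : DmHom n k = DmHom n g' := Dm_blk _ _ _ _
      have hq : ((g' * k⁻¹ : Cz n) : Gp n) ∈ Qgrp n := by
        rw [mem_Qgrp_iff', map_mul, ← hk, ← map_mul, mul_inv_cancel, map_one]
      have h1 : g = ((g' * k⁻¹ : Cz n) : Gp n) * ((k : Cz n) : Gp n) := by
        show g = g * ((k : Cz n) : Gp n)⁻¹ * ((k : Cz n) : Gp n)
        group
      rw [h1]
      exact Subgroup.mul_mem_sup hq ⟨D, rfl⟩

end Cfsg.Agent.S5424
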