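import Cfsg.Statements.S5423
import Mathlib
import Cfsg.Agent.S5424
import Cfsg.Agent.Lib.PGroup.ExtraQuad

set_option autoImplicit false
open Cfsg

namespace Cfsg.Agent.S5423

open Cfsg.Agent.Lib.PGroup.ExtraMk Cfsg.Agent.S5424
open scoped commutatorElement

/-- Vectors. -/
abbrev V1 (n : ℕ) := Fin (n + 1) → ZMod 2

/-- Coordinates on an elementary abelian group sending a given nontrivial element to the first
basis vector. -/
theorem exists_coord {G : Type*} [Group G] {U : Subgroup G} {n : ℕ}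
    (hU : Cfsg.IsElementaryAbelian 2 U) (hcard : Nat.card U = 2 ^ (n + 1)) {z₀ : U} (hz : z₀ ≠ 1) :
    ∃ L : U → V1 n, Function.Bijective L ∧ (∀ a b, L (a * b) = L a + L b) ∧
      L z₀ = Pi.single 0 1 := by
  classical
  obtain ⟨h1, h2⟩ := hU
  letI : CommGroup U := { (inferInstance : Group U) with
    mul_comm := fun a b => h1.is_comm.comm a b }
  haveI : Finite U := Nat.finite_of_card_ne_zero (by rw [hcard]; positivity)
  have hx2 : ∀ x : Additive U, (2 : ℕ) • x = 0 := by
    intro x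
    have : (Additive.toMul x) ^ 2 = 1 := Subtype.ext (h2 _ (Additive.toMul x).2)
    exact congrArg Additive.ofMul this
  letI : Module (ZMod 2) (Additive U) := AddCommGroup.zmodModule hx2
  haveI : Finite (Additive U) := inferInstanceAs (Finite U)
  haveI : Module.Finite (ZMod 2) (Additive U) := Module.Finite.of_finite
  have hfin : Module.finrank (ZMod 2) (Additive U) = n + 1 := by
    have h3 := Module.natCard_eq_pow_finrank (K := ZMod 2) (V := Additive U)
    have h4 : Nat.card (Additive U) = Nat.card U := rfl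
    rw [h4, hcard, Nat.card_eq_fintype_card, ZMod.card] at h3
    exact (Nat.pow_right_injective (le_refl 2) h3).symm
  have hfin2 : Module.finrank (ZMod 2) (Additive U) = Module.finrank (ZMod 2) (V1 n) := by
    rw [hfin]; simp
  let L₀ : Additive U ≃ₗ[ZMod 2] V1 n := LinearEquiv.ofFinrankEq _ _ hfin2
  have hx0 : L₀ (Additive.ofMul z₀) ≠ 0 := by
    intro h
    apply hz
    have := L₀.map_eq_zero_iff.1 h
    exact Additive.ofMul.injective this
  have hy0 : (Pi.single 0 1 : V1 n) ≠ 0 := by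
    intro h
    have := congrFun h 0
    simp at this
  obtain ⟨e, he⟩ := Cfsg.Agent.Lib.Linalg.TransvectionForm.exists_equiv_apply_eq
    (F := ZMod 2) (V := V1 n) hx0 hy0
  refine ⟨fun a => e (L₀ (Additive.ofMul a)), ?_, ?_, he⟩
  · constructor
    · intro a b hab
      exact Additive.ofMul.injective (L₀.injective (e.injective hab))
    · intro v
      obtain ⟨w, hw⟩ := L₀.surjective (e.symm v)
      refine ⟨Additive.toMul w, ?_⟩
      show e (L₀ w) = v
      rw [hw]; simp
  · intro a b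
    show e (L₀ (Additive.ofMul a + Additive.ofMul b)) = _
    rw [map_add, map_add]

/-- The data of the split extension together with coordinates. -/
structure Dat (G : Type*) [Group G] (n : ℕ) where
  U : Subgroup G
  M : Subgroup G
  hN : U.Normal
  comm : ∀ a ∈ U, ∀ b ∈ U, a * b = b * a
  disj : U ⊓ M = ⊥
  top : U ⊔ M = ⊤
  faith : ∀ m ∈ M, (∀ u ∈ U, m * u * m⁻¹ = u) → m = 1
  full : ∀ φ : U ≃* U, ∃ m ∈ M, ∀ u : U, ((φ u : U) : G) = m * u * m⁻¹
  L : U → V1 n
  Lbij : Function.Bijective L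
  Ladd : ∀ a b, L (a * b) = L a + L b

namespace Dat

variable {G : Type*} [Group G] {n : ℕ} (D : Dat G n)

instance instN : D.U.Normal := D.hN

lemma L_one : D.L 1 = 0 := by
  have := D.Ladd 1 1
  rw [mul_one] at this
  simpa using this

lemma exists_dec (g : G) : ∃ u : D.U, ((u : G))⁻¹ * g ∈ D.M := by
  have hg : g ∈ ((D.U ⊔ D.M : Subgroup G) : Set G) := by
    rw [D.top]; exact Subgroup.mem_top g
  rw [Subgroup.normal_mul] at hg
  obtain ⟨u, hu, m, hm, rfl⟩ := hg
  refine ⟨⟨u, hu⟩, ?_⟩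
  simpa using hm

/-- The `U`-part of an element. -/
noncomputable def uP (g : G) : D.U := (D.exists_dec g).choose

lemma uP_spec (g : G) : ((D.uP g : D.U) : G)⁻¹ * g ∈ D.M := (D.exists_dec g).choose_spec

lemma uP_unique {g : G} {u : D.U} (h : (u : G)⁻¹ * g ∈ D.M) : u = D.uP g := by
  have h1 := D.M.mul_mem h (D.M.inv_mem (D.uP_spec g))
  have h2 : (u : G)⁻¹ * g * (((D.uP g : D.U) : G)⁻¹ * g)⁻¹ = (u : G)⁻¹ * ((D.uP g : D.U) : G) := by
    group
  rw [h2] at h1
  have h3 : (u : G)⁻¹ * ((D.uP g : D.U) : G) ∈ D.U ⊓ D.M :=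
    ⟨D.U.mul_mem (D.U.inv_mem u.2) (D.uP g).2, h1⟩
  rw [D.disj, Subgroup.mem_bot] at h3
  apply Subtype.ext
  calc (u : G) = (u : G) * ((u : G)⁻¹ * ((D.uP g : D.U) : G)) := by rw [h3, mul_one]
    _ = ((D.uP g : D.U) : G) := by group

/-- Conjugation on `U`. -/
noncomputable abbrev cj (g : G) : D.U ≃* D.U := MulAut.conjNormal g

lemma cj_coe (g : G) (a : D.U) : ((D.cj g a : D.U) : G) = g * a * g⁻¹ := MulAut.conjNormal_apply g a

lemma uP_mul (g g' : G) : D.uP (g * g') = D.uP g * D.cj g (D.uP g') := by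
  symm
  apply D.uP_unique
  have hm := D.uP_spec g
  have hm' := D.uP_spec g'
  set u := ((D.uP g : D.U) : G)
  set u' := ((D.uP g' : D.U) : G)
  have hc : g * u'⁻¹ * g⁻¹ * u⁻¹ = u⁻¹ * (g * u'⁻¹ * g⁻¹) := by
    apply D.comm
    · have := (D.cj g (D.uP g')⁻¹).2
      rw [D.cj_coe] at this
      simpa [u', mul_assoc] using this
    · exact D.U.inv_mem (D.uP g).2
  have h1 : (((D.uP g * D.cj g (D.uP g') : D.U) : G))⁻¹ * (g * g') = (u⁻¹ * g) * (u'⁻¹ * g') := by
    rw [Subgroup.coe_mul, D.cj_coe]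
    calc (u * (g * u' * g⁻¹))⁻¹ * (g * g') = (g * u'⁻¹ * g⁻¹ * u⁻¹) * (g * g') := by group
      _ = (u⁻¹ * (g * u'⁻¹ * g⁻¹)) * (g * g') := by rw [hc]
      _ = _ := by group
  rw [h1]
  exact D.M.mul_mem hm hm'

lemma uP_of_mem (a : D.U) : D.uP (a : G) = a := by
  symm
  apply D.uP_unique
  rw [inv_mul_cancel]
  exact D.M.one_mem

lemma uP_one : D.uP 1 = 1 := D.uP_of_mem 1

/-- The equivalence to vectors. -/
noncomputable def Leq : D.U ≃ V1 n := Equiv.ofBijective D.L D.Lbij

lemma Leq_apply (a : D.U) : D.Leq a = D.L a := rfl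

lemma L_Leq_symm (v : V1 n) : D.L (D.Leq.symm v) = v := D.Leq.apply_symm_apply v

/-- The linear map of an automorphism. -/
noncomputable def Lin (φ : D.U ≃* D.U) : V1 n →ₗ[ZMod 2] V1 n where
  toFun v := D.L (φ (D.Leq.symm v))
  map_add' u v := by
    rw [← D.Ladd, ← map_mul]
    congr 2
    apply D.Leq.injective
    rw [Equiv.apply_symm_apply, Leq_apply, D.Ladd, D.L_Leq_symm, D.L_Leq_symm]
  map_smul' c v := by
    rcases z2_cases c with rfl | rfl
    · have : D.Leq.symm ((0 : ZMod 2) • v) = 1 := by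
        apply D.Leq.injective
        rw [Equiv.apply_symm_apply, Leq_apply, D.L_one, zero_smul]
      simp only [RingHom.id_apply, zero_smul]
      rw [zero_smul] at this
      rw [this, map_one, D.L_one]
    · simp

lemma Lin_L (φ : D.U ≃* D.U) (a : D.U) : D.Lin φ (D.L a) = D.L (φ a) := by
  show D.L (φ (D.Leq.symm (D.L a))) = D.L (φ a)
  congr 2
  exact D.Leq.symm_apply_apply a

/-- The matrix of conjugation. -/
noncomputable def Amat (g : G) : Matrix (Fin (n + 1)) (Fin (n + 1)) (ZMod 2) :=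
  LinearMap.toMatrix' (D.Lin (D.cj g))

lemma Amat_L (g : G) (a : D.U) : (D.Amat g).mulVec (D.L a) = D.L (D.cj g a) := by
  rw [Amat, LinearMap.toMatrix'_mulVec, D.Lin_L]

lemma mat_ext {A B : Matrix (Fin (n + 1)) (Fin (n + 1)) (ZMod 2)}
    (h : ∀ a : D.U, A.mulVec (D.L a) = B.mulVec (D.L a)) : A = B := by
  apply Matrix.mulVec_injective
  funext v
  have := h (D.Leq.symm v)
  rwa [D.L_Leq_symm] at this

lemma cj_mul (g g' : G) (a : D.U) : D.cj (g * g') a = D.cj g (D.cj g' a) := by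
  apply Subtype.ext
  rw [D.cj_coe, D.cj_coe, D.cj_coe]
  group

lemma cj_one (a : D.U) : D.cj 1 a = a := by
  apply Subtype.ext
  rw [D.cj_coe]
  group

lemma Amat_mul (g g' : G) : D.Amat (g * g') = D.Amat g * D.Amat g' := by
  apply D.mat_ext
  intro a
  rw [← Matrix.mulVec_mulVec, D.Amat_L, D.Amat_L, D.Amat_L, D.cj_mul]

lemma Amat_one : D.Amat 1 = 1 := by
  apply D.mat_ext
  intro a
  rw [D.Amat_L, Matrix.one_mulVec, D.cj_one]

/-- The translation part. -/
noncomputable def xv (g : G) : V1 n := D.L (D.uP g)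

lemma xv_mul (g g' : G) : D.xv (g * g') = D.xv g + (D.Amat g).mulVec (D.xv g') := by
  simp only [xv]
  rw [D.uP_mul, D.Ladd, D.Amat_L]

lemma xv_one : D.xv 1 = 0 := by
  simp only [xv]
  rw [D.uP_one, D.L_one]

end Dat

/-- The index embedding. -/
abbrev sa {n : ℕ} (i : Fin (n + 1)) : Fin (n + 2) := Fin.succAbove 1 i

/-- Affine block matrices. -/
def aff {n : ℕ} (A : Matrix (Fin (n + 1)) (Fin (n + 1)) (ZMod 2)) (x : V1 n) : Mx n :=
  Matrix.of fun r s =>
    Fin.insertNth (α := fun _ => ZMod 2) 1 (if s = 1 then 1 else 0)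
      (fun r' => Fin.insertNth (α := fun _ => ZMod 2) 1 (x r') (A r') s) r

section affine

variable {n : ℕ} (A : Matrix (Fin (n + 1)) (Fin (n + 1)) (ZMod 2)) (x : V1 n)

@[simp] lemma aff_1 (s : Fin (n + 2)) : aff A x 1 s = if s = 1 then 1 else 0 := by
  simp [aff]

@[simp] lemma aff_r1 (r : Fin (n + 1)) : aff A x (sa r) 1 = x r := by
  simp [aff, sa]

@[simp] lemma aff_rs (r s : Fin (n + 1)) : aff A x (sa r) (sa s) = A r s := by
  simp [aff, sa]

lemma sa_cases {P : Fin (n + 2) → Prop} (h1 : P 1) (h2 : ∀ i, P (sa i)) : ∀ r, P r := by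
  intro r
  rcases Fin.eq_self_or_eq_succAbove 1 r with rfl | ⟨j, rfl⟩
  · exact h1
  · exact h2 j

lemma sa_ne_one (i : Fin (n + 1)) : sa i ≠ 1 := Fin.succAbove_ne 1 i

lemma sa_inj {i j : Fin (n + 1)} : sa i = sa j ↔ i = j := (Fin.succAbove_right_injective).eq_iff

lemma sum_sa (f : Fin (n + 2) → ZMod 2) : ∑ r, f r = f 1 + ∑ i, f (sa i) :=
  Fin.sum_univ_succAbove f 1

end affine

lemma aff_mul {n : ℕ} (A A' : Matrix (Fin (n + 1)) (Fin (n + 1)) (ZMod 2)) (x x' : V1 n) :
    aff A x * aff A' x' = aff (A * A') (x + A.mulVec x') := by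
  ext r s
  rw [Matrix.mul_apply]
  revert r
  refine sa_cases ?_ ?_
  · rw [Finset.sum_eq_single 1]
    · simp
    · intro t _ ht
      simp [ht]
    · intro h; exact absurd (Finset.mem_univ _) h
  · intro r
    rw [sum_sa]
    revert s
    refine sa_cases ?_ ?_
    · simp [Matrix.mulVec, dotProduct]
    · intro s
      simp [sa_ne_one, Matrix.mul_apply]

lemma aff_one {n : ℕ} : aff (1 : Matrix (Fin (n + 1)) (Fin (n + 1)) (ZMod 2)) 0 = (1 : Mx n) := by
  ext r s
  revert r
  refine sa_cases ?_ ?_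
  · rw [aff_1, Matrix.one_apply]
    by_cases h : s = 1
    · simp [h]
    · simp [h, Ne.symm h]
  · intro r
    revert s
    refine sa_cases ?_ ?_
    · simp [sa_ne_one]
    · intro s
      simp [Matrix.one_apply, sa_inj]

lemma aff_inj {n : ℕ} {A A' : Matrix (Fin (n + 1)) (Fin (n + 1)) (ZMod 2)} {x x' : V1 n}
    (h : aff A x = aff A' x') : A = A' ∧ x = x' := by
  constructor
  · ext r s
    simpa using congrFun (congrFun h (sa r)) (sa s)
  · funext r
    simpa using congrFun (congrFun h (sa r)) 1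

lemma eq_aff {n : ℕ} {h : Mx n} (hr : ∀ s, h 1 s = if s = 1 then 1 else 0) :
    h = aff (Matrix.of fun r s => h (sa r) (sa s)) (fun r => h (sa r) 1) := by
  ext r s
  revert r
  refine sa_cases ?_ ?_
  · rw [hr, aff_1]
  · intro r
    revert s
    refine sa_cases ?_ ?_
    · simp
    · intro s; simp

lemma sa_zero {n : ℕ} : sa (0 : Fin (n + 1)) = (0 : Fin (n + 2)) := by
  simp [sa]

lemma sa_succ {n : ℕ} (j : Fin n) : sa j.succ = s2 j := by
  apply Fin.ext
  simp [sa, s2, Fin.succAbove, Fin.lt_def]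

lemma idx1_cases {n : ℕ} {P : Fin (n + 1) → Prop} (h0 : P 0) (h1 : ∀ j : Fin n, P j.succ) :
    ∀ r, P r := fun r => Fin.cases h0 h1 r

lemma aff_Z0 {n : ℕ} : aff (1 : Matrix (Fin (n + 1)) (Fin (n + 1)) (ZMod 2)) (Pi.single 0 1) =
    ((Z0 n : Gp n) : Mx n) := by
  rw [Qel_coe]
  ext r s
  revert r
  refine sa_cases ?_ ?_
  · rw [aff_1]
    revert s
    refine idx_cases ?_ ?_ ?_
    · simp [S5424.zero_ne_one']
    · simp
    · intro j; simp [s2_ne_one]
  · refine idx1_cases ?_ ?_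
    · rw [sa_zero]
      revert s
      refine idx_cases ?_ ?_ ?_
      · rw [← sa_zero, aff_rs, sa_zero]; simp
      · rw [← sa_zero, aff_r1, sa_zero]; simp
      · intro j
        rw [← sa_zero, ← sa_succ, aff_rs, sa_zero, sa_succ]
        simp [Matrix.one_apply, Fin.succ_ne_zero, (Fin.succ_ne_zero j).symm]
    · intro i
      rw [sa_succ]
      revert s
      refine idx_cases ?_ ?_ ?_
      · rw [← sa_succ, ← sa_zero, aff_rs]
        simp [Matrix.one_apply, Fin.succ_ne_zero]
        exact (blk_s0 _ _ _ _ i).symm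
      · rw [← sa_succ, aff_r1]
        simp [Fin.succ_ne_zero]
        exact (blk_s1 1 0 0 1 i).symm
      · intro j
        rw [← sa_succ, ← sa_succ, aff_rs, sa_succ, sa_succ]
        simp [Matrix.one_apply, Fin.succ_inj]

namespace Dat

variable {G : Type*} [Group G] {n : ℕ} (D : Dat G n)

lemma aff_mul_G (g g' : G) :
    aff (D.Amat g) (D.xv g) * aff (D.Amat g') (D.xv g') = aff (D.Amat (g * g')) (D.xv (g * g')) := by
  rw [aff_mul, D.Amat_mul, D.xv_mul]

lemma aff_det (g : G) : (aff (D.Amat g) (D.xv g)).det = 1 := by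
  apply det_one_of_mul (B := aff (D.Amat g⁻¹) (D.xv g⁻¹))
  rw [D.aff_mul_G, mul_inv_cancel, D.Amat_one, D.xv_one, aff_one]

/-- The embedding into the special linear group. -/
noncomputable def iota : G →* Gp n :=
  MonoidHom.mk' (fun g => ⟨aff (D.Amat g) (D.xv g), D.aff_det g⟩)
    (fun g g' => Subtype.ext (D.aff_mul_G g g').symm)

lemma iota_coe (g : G) : ((D.iota g : Gp n) : Mx n) = aff (D.Amat g) (D.xv g) := rfl

lemma iota_inj : Function.Injective D.iota := by
  rw [injective_iff_map_eq_one]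
  intro g hg
  have h1 : aff (D.Amat g) (D.xv g) = aff 1 0 := by
    rw [aff_one]
    exact congrArg Subtype.val hg
  obtain ⟨hA, hx⟩ := aff_inj h1
  have hu : D.uP g = 1 := by
    apply D.Lbij.1
    rw [D.L_one]
    exact hx
  have hm : g ∈ D.M := by
    have := D.uP_spec g
    rw [hu] at this
    simpa using this
  apply D.faith g hm
  intro u hu'
  have h2 := D.Amat_L g ⟨u, hu'⟩
  rw [hA, Matrix.one_mulVec] at h2
  have h3 := D.Lbij.1 h2
  have h4 := congrArg Subtype.val h3
  rw [D.cj_coe] at h4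
  exact h4.symm

lemma iota_surj {h : Gp n} (hh : h ∈ Cz n) : ∃ g, D.iota g = h := by
  have hrow : ∀ k : Gp n, k ∈ Cz n → ∀ s, (k : Mx n) 1 s = if s = 1 then 1 else 0 := by
    intro k hk s
    obtain ⟨-, -, h3, h4⟩ := mem_Cz.1 hk
    by_cases hs : s = 1
    · rw [hs, if_pos rfl, h4]
    · rw [if_neg hs, h3 s hs]
  have e1 := eq_aff (hrow h hh)
  have e2 := eq_aff (hrow h⁻¹ ((Cz n).inv_mem hh))
  set A : Matrix (Fin (n + 1)) (Fin (n + 1)) (ZMod 2) := Matrix.of fun r s => (h : Mx n) (sa r) (sa s)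
  set x : V1 n := fun r => (h : Mx n) (sa r) 1
  set A' : Matrix (Fin (n + 1)) (Fin (n + 1)) (ZMod 2) :=
    Matrix.of fun r s => ((h⁻¹ : Gp n) : Mx n) (sa r) (sa s)
  set x' : V1 n := fun r => ((h⁻¹ : Gp n) : Mx n) (sa r) 1
  have hAA : A * A' = 1 := by
    have h1 : (h : Mx n) * ((h⁻¹ : Gp n) : Mx n) = 1 := congrArg Subtype.val (mul_inv_cancel h)
    rw [e1, e2, aff_mul, ← aff_one] at h1
    exact (aff_inj h1).1
  have hAA' : A' * A = 1 := mul_eq_one_comm.1 hAA
  let φ : D.U ≃* D.U :=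
    { toFun := fun a => D.Leq.symm (A.mulVec (D.L a))
      invFun := fun a => D.Leq.symm (A'.mulVec (D.L a))
      left_inv := fun a => by
        apply D.Leq.injective
        simp only [Equiv.apply_symm_apply, Leq_apply, D.L_Leq_symm]
        rw [Matrix.mulVec_mulVec, hAA', Matrix.one_mulVec]
      right_inv := fun a => by
        apply D.Leq.injective
        simp only [Equiv.apply_symm_apply, Leq_apply, D.L_Leq_symm]
        rw [Matrix.mulVec_mulVec, hAA, Matrix.one_mulVec]
      map_mul' := fun a b => by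
        apply D.Leq.injective
        simp only [Equiv.apply_symm_apply, Leq_apply, D.L_Leq_symm, D.Ladd]
        rw [Matrix.mulVec_add] }
  obtain ⟨m, hm, hφ⟩ := D.full φ
  let u : D.U := D.Leq.symm x
  refine ⟨(u : G) * m, Subtype.ext ?_⟩
  rw [iota_coe, e1]
  have hA : D.Amat ((u : G) * m) = A := by
    apply D.mat_ext
    intro a
    rw [D.Amat_L]
    have h1 : D.cj ((u : G) * m) a = φ a := by
      apply Subtype.ext
      rw [D.cj_coe, hφ]
      have hc : (u : G) * (m * a * m⁻¹) = (m * a * m⁻¹) * u :=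
        D.comm _ u.2 _ (by rw [← hφ]; exact (φ a).2)
      calc (u : G) * m * a * ((u : G) * m)⁻¹ = (u : G) * (m * a * m⁻¹) * (u : G)⁻¹ := by group
        _ = (m * a * m⁻¹) * u * (u : G)⁻¹ := by rw [hc]
        _ = _ := by group
    rw [h1]
    exact D.L_Leq_symm _
  have hx : D.xv ((u : G) * m) = x := by
    have : D.uP ((u : G) * m) = u := by
      symm
      apply D.uP_unique
      simpa using hm
    simp only [xv]
    rw [this]
    exact D.L_Leq_symm _
  rw [hA, hx]

end Dat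



/-- Preimage of a subgroup in the image of an injective hom. -/
noncomputable def comapEquiv {G H : Type*} [Group G] [Group H] (ι : G →* H)
    (hinj : Function.Injective ι) (A : Subgroup H) (hA : ∀ a ∈ A, ∃ g, ι g = a) :
    A.comap ι ≃* A :=
  MulEquiv.ofBijective
    ((ι.comp (A.comap ι).subtype).codRestrict A (fun x => x.2))
    ⟨fun x y h => Subtype.ext (hinj (congrArg Subtype.val h)),
     fun a => by
       obtain ⟨g, hg⟩ := hA a a.2
       exact ⟨⟨g, by show ι g ∈ A; rw [hg]; exact a.2⟩, Subtype.ext hg⟩⟩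

/-- Extraspecial transfers along isomorphisms. -/
lemma extra_of_equiv {X Y : Type*} [Group X] [Group Y] [Finite X] (e : X ≃* Y)
    (hY : Cfsg.IsExtraspecial 2 Y) : Cfsg.IsExtraspecial 2 X := by
  classical
  haveI : Finite Y := Finite.of_equiv X e.toEquiv
  haveI : Fact (Nat.Prime 2) := ⟨Nat.prime_two⟩
  obtain ⟨⟨hp, hfr, hcm⟩, hc⟩ := hY
  have hpX : IsPGroup 2 X := fun x => by
    obtain ⟨k, hk⟩ := hp (e x)
    refine ⟨k, e.injective ?_⟩
    rw [map_pow, hk, map_one]
  obtain ⟨z, hz, huniq⟩ := (Nat.card_eq_two_iff' (1 : Subgroup.center Y)).1 hc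
  have hz1 : (z : Y) ≠ 1 := fun h => hz (Subtype.ext h)
  have hcen : ∀ y : Y, y ∈ Subgroup.center Y ↔ y = 1 ∨ y = z := by
    intro y
    constructor
    · intro hy
      by_cases h1 : y = 1
      · exact Or.inl h1
      · right
        have := huniq ⟨y, hy⟩ (fun h => h1 (congrArg Subtype.val h))
        exact congrArg Subtype.val this
    · rintro (rfl | rfl)
      · exact Subgroup.one_mem _
      · exact z.2
  have hcm' : ∀ x y : Y, ⁅x, y⁆ = 1 ∨ ⁅x, y⁆ = z := by
    intro x y
    apply (hcen _).1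
    rw [← hcm]
    exact Subgroup.commutator_mem_commutator (Subgroup.mem_top x) (Subgroup.mem_top y)
  have hsq' : ∀ x : Y, x ^ 2 = 1 ∨ x ^ 2 = z := by
    intro x
    apply (hcen _).1
    rw [← hfr]
    exact Cfsg.Agent.Lib.PGroup.Basic.pow_mem_frattini hp x
  have hex : ∃ x y : Y, ⁅x, y⁆ = z := by
    by_contra hne
    push Not at hne
    have h1 : commutator Y = ⊥ := by
      rw [commutator_eq_closure, eq_bot_iff, Subgroup.closure_le]
      rintro _ ⟨x, y, rfl⟩
      rcases hcm' x y with h | h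
      · simpa using h
      · exact absurd h (hne x y)
    have h2 : (z : Y) ∈ commutator Y := by
      rw [hcm]; exact z.2
    rw [h1, Subgroup.mem_bot] at h2
    exact hz1 h2
  obtain ⟨a, b, hab⟩ := hex
  refine isExtraspecial_of hpX (e.symm z) ?_ ?_ ?_ ?_ ⟨e.symm a, e.symm b, ?_⟩
  · intro h
    apply hz1
    have := congrArg e h
    simpa using this
  · intro x
    constructor
    · intro hx
      have h1 : e x ∈ Subgroup.center Y := by
        rw [Subgroup.mem_center_iff]
        intro y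
        have := Subgroup.mem_center_iff.1 hx (e.symm y)
        have h2 := congrArg e this
        simpa using h2
      rcases (hcen _).1 h1 with h | h
      · left
        apply e.injective
        rw [h, map_one]
      · right
        apply e.injective
        rw [h]; simp
    · have key : ∀ y ∈ Subgroup.center Y, e.symm y ∈ Subgroup.center X := by
        intro y hy
        rw [Subgroup.mem_center_iff]
        intro x
        have := Subgroup.mem_center_iff.1 hy (e x)
        have h2 := congrArg e.symm this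
        simpa using h2
      rintro (rfl | rfl)
      · exact Subgroup.one_mem _
      · exact key _ z.2
  · intro x y
    rcases hcm' (e x) (e y) with h | h
    · left
      apply e.injective
      rw [map_one, ← h, map_commutatorElement]
    · right
      apply e.injective
      rw [← map_commutatorElement] at h
      rw [h]; simp
  · intro x
    rcases hsq' (e x) with h | h
    · left
      apply e.injective
      rw [map_pow, h, map_one]
    · right
      apply e.injective
      rw [map_pow, h]; simp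
  · apply e.injective
    rw [map_commutatorElement]
    simp [hab]

/-- Decomposition of the centralizer. -/
lemma cz_dec {n : ℕ} {g : Gp n} (hg : g ∈ Cz n) :
    ∃ q ∈ Qgrp n, ∃ D : Matrix.SpecialLinearGroup (Fin n) (ZMod 2), g = q * Theta n D := by
  let g' : Cz n := ⟨g, hg⟩
  have hDD : DmHom n g' * DmHom n g'⁻¹ = 1 := by
    rw [← map_mul, mul_inv_cancel, map_one]
  let D : Matrix.SpecialLinearGroup (Fin n) (ZMod 2) := ⟨DmHom n g', det_one_of_mul hDD⟩
  let k : Cz n := ⟨Theta n D, mem_Cz.2 (isC_blk _ _ _ _)⟩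
  have hk : DmHom n k = DmHom n g' := Dm_blk _ _ _ _
  have hq : ((g' * k⁻¹ : Cz n) : Gp n) ∈ Qgrp n := by
    rw [mem_Qgrp_iff', map_mul, ← hk, ← map_mul, mul_inv_cancel, map_one]
  refine ⟨_, hq, D, ?_⟩
  show g = g * ((k : Cz n) : Gp n)⁻¹ * ((k : Cz n) : Gp n)
  group

/-- The special linear group over the field of two elements is the general linear group. -/
noncomputable def slEquivGL (n : ℕ) :
    Matrix.SpecialLinearGroup (Fin n) (ZMod 2) ≃* Matrix.GeneralLinearGroup (Fin n) (ZMod 2) :=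
  MulEquiv.ofBijective Matrix.SpecialLinearGroup.toGL
    ⟨fun a b h => by
      apply Subtype.ext
      have := congrArg Units.val h
      exact this,
     fun a => by
      have hdet : (a : Matrix (Fin n) (Fin n) (ZMod 2)).det = 1 :=
        det_one_of_mul (B := ((a⁻¹ : Matrix.GeneralLinearGroup (Fin n) (ZMod 2)) :
          Matrix (Fin n) (Fin n) (ZMod 2))) (congrArg Units.val (mul_inv_cancel a))
      exact ⟨⟨a, hdet⟩, Units.ext rfl⟩⟩

namespace Dat

variable {G : Type*} [Group G] {n : ℕ} (D : Dat G n)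

lemma Amat_of_mem (a : D.U) : D.Amat (a : G) = 1 := by
  apply D.mat_ext
  intro b
  rw [D.Amat_L, Matrix.one_mulVec]
  congr 1
  apply Subtype.ext
  rw [D.cj_coe, D.comm _ a.2 _ b.2]
  group

lemma iota_of_mem (a : D.U) : ((D.iota (a : G) : Gp n) : Mx n) = aff 1 (D.L a) := by
  rw [iota_coe, D.Amat_of_mem]
  simp only [xv]
  rw [D.uP_of_mem]

lemma iota_z {z₀ : D.U} (hz₀ : D.L z₀ = Pi.single 0 1) : D.iota (z₀ : G) = Z0 n := by
  apply Subtype.ext
  rw [D.iota_of_mem, hz₀, aff_Z0]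

lemma mem_Q_iff [Finite G] (hn : 1 ≤ n) (C : Subgroup G) (hC : ∀ g, g ∈ C ↔ D.iota g ∈ Cz n) (x : G) :
    x ∈ (Cfsg.pCore 2 C).map C.subtype ↔ D.iota x ∈ Qgrp n := by
  classical
  haveI : Fact (Nat.Prime 2) := ⟨Nat.prime_two⟩
  let e : C ≃* Cz n := MulEquiv.ofBijective
    ((D.iota.comp C.subtype).codRestrict (Cz n) (fun x => (hC _).1 x.2))
    ⟨fun x y h => Subtype.ext (D.iota_inj (congrArg Subtype.val h)),
     fun a => by
       obtain ⟨g, hg⟩ := D.iota_surj a.2
       exact ⟨⟨g, (hC g).2 (by rw [hg]; exact a.2)⟩, Subtype.ext hg⟩⟩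
  have he : ∀ y : C, ((e y : Cz n) : Gp n) = D.iota (y : G) := fun _ => rfl
  have h1 : (Cfsg.pCore 2 C).map e.toMonoidHom ≤ Cfsg.pCore 2 (Cz n) :=
    Cfsg.Agent.Lib.Basic.PCore.map_pCore_le_of_surjective (f := e.toMonoidHom) e.surjective
  have h2 : (Cfsg.pCore 2 (Cz n)).map e.symm.toMonoidHom ≤ Cfsg.pCore 2 C :=
    Cfsg.Agent.Lib.Basic.PCore.map_pCore_le_of_surjective (f := e.symm.toMonoidHom) e.symm.surjective
  rw [← pCore_eq_Qgrp hn]
  constructor
  · rintro ⟨y, hy, rfl⟩
    exact ⟨e y, h1 ⟨y, hy, rfl⟩, rfl⟩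
  · rintro ⟨w, hw, hwx⟩
    refine ⟨e.symm w, h2 ⟨w, hw, rfl⟩, ?_⟩
    apply D.iota_inj
    rw [← hwx]
    show D.iota ((e.symm w : C) : G) = (w : Gp n)
    rw [← he]
    simp

end Dat


namespace Dat

variable {G : Type*} [Group G] {n : ℕ} (D : Dat G n)

lemma exists_of_mem {h : Gp n} (hh : h ∈ Cz n) : ∃ g, D.iota g = h := D.iota_surj hh

theorem main [Finite G] (hn : 1 ≤ n) {z₀ : D.U} (hz₀ : D.L z₀ = Pi.single 0 1) (C : Subgroup G)
    (hCm : ∀ g, g ∈ C ↔ g * (z₀ : G) = (z₀ : G) * g) :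
    let Q := (Cfsg.pCore 2 C).map C.subtype
    Cfsg.IsExtraspecial 2 ↥Q ∧ Nat.card ↥Q = 2 ^ (2 * n + 1) ∧
    (∃ E : Subgroup G, E ≤ Q ∧ Cfsg.IsElementaryAbelian 2 E ∧ Nat.card ↥E = 2 ^ (n + 1)) ∧
    Cfsg.IsLargeExtraspecial Q ∧
    ∃ K : Subgroup G, K ≤ C ∧ Q ⊓ K = ⊥ ∧ Q ⊔ K = C ∧
      Nonempty (↥K ≃* Matrix.GeneralLinearGroup (Fin n) (ZMod 2)) := by
  classical
  intro Q
  set ι := D.iota with hι
  have hinj : Function.Injective ι := D.iota_inj
  have hz : ι (z₀ : G) = Z0 n := D.iota_z hz₀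
  have hC : ∀ g, g ∈ C ↔ ι g ∈ Cz n := by
    intro g
    rw [hCm, Subgroup.mem_centralizer_singleton_iff, ← hz, ← map_mul, ← map_mul, hinj.eq_iff]
  have hQm : ∀ x, x ∈ Q ↔ ι x ∈ Qgrp n := D.mem_Q_iff hn C hC
  have hQe : Q = (Qgrp n).comap ι := by
    ext x
    exact hQm x
  have hsurjQ : ∀ a ∈ Qgrp n, ∃ g, ι g = a := fun a ha => D.iota_surj (Qgrp_le_Cz n ha)
  have hsurjE : ∀ a ∈ Egrp n, ∃ g, ι g = a := fun a ha => hsurjQ a (Egrp_le n ha)
  have hTh : ∀ a ∈ (Theta n).range, a ∈ Cz n := by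
    rintro _ ⟨D', rfl⟩
    exact mem_Cz.2 (isC_blk _ _ _ _)
  have hsurjT : ∀ a ∈ (Theta n).range, ∃ g, ι g = a := fun a ha => D.iota_surj (hTh a ha)
  have hext : Cfsg.IsExtraspecial 2 ↥Q := by
    rw [hQe]
    exact extra_of_equiv (comapEquiv ι hinj (Qgrp n) hsurjQ) (isExtraspecial_Qgrp hn)
  have hz₀Q : (z₀ : G) ∈ Q := by
    rw [hQm, hz]
    exact ⟨1, 0, 0, rfl⟩
  have hz₀c : ∀ q ∈ Q, q * (z₀ : G) = (z₀ : G) * q := by
    intro q hq
    apply hinj
    rw [map_mul, map_mul, hz]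
    obtain ⟨a, b, c, hq'⟩ := (hQm q).1 hq
    rw [hq', Qel_mul, Qel_mul]
    simp only [zero_dotProduct, dotProduct_zero, add_zero, zero_add]
    rw [add_comm a 1]
  refine ⟨hext, ?_, ⟨(Egrp n).comap ι, ?_, ?_, ?_⟩, ⟨hext, ?_, ?_, ?_⟩, (Theta n).range.comap ι,
    ?_, ?_, ?_, ⟨?_⟩⟩
  · rw [hQe, Nat.card_congr (comapEquiv ι hinj (Qgrp n) hsurjQ).toEquiv, card_Qgrp]
  · intro x hx
    exact (hQm x).2 (Egrp_le n hx)
  · rw [Cfsg.Agent.Lib.PGroup.Basic.isElementaryAbelian_iff]
    constructor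
    · intro a ha b hb
      apply hinj
      rw [map_mul, map_mul]
      exact comm_E ha hb
    · intro a ha
      apply hinj
      rw [map_pow, map_one]
      exact sq_E ha
  · rw [Nat.card_congr (comapEquiv ι hinj (Egrp n) hsurjE).toEquiv, card_Egrp]
  · ext x
    rw [Subgroup.mem_centralizer_iff]
    constructor
    · intro hx
      obtain ⟨a, ha⟩ := cent_Q (x := ι x) (fun e he => by
        obtain ⟨g, rfl⟩ := hsurjQ e he
        have := hx g ((hQm g).2 he)
        rw [← map_mul, ← map_mul, this])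
      have hxQ : x ∈ Q := by
        rw [hQm, ha]
        exact ⟨a, 0, 0, rfl⟩
      refine ⟨⟨x, hxQ⟩, ?_, rfl⟩
      rw [SetLike.mem_coe, Subgroup.mem_center_iff]
      rintro ⟨e, he⟩
      exact Subtype.ext (hx e he)
    · rintro ⟨c, hc, rfl⟩ h hh
      have := (Subgroup.mem_center_iff.1 hc) ⟨h, hh⟩
      exact congrArg Subtype.val this
  · intro g hg
    rw [Subgroup.mem_centralizer_iff] at hg
    have h1 : (z₀ : G) ∈ (((Subgroup.center Q).map Q.subtype : Subgroup G) : Set G) := by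
      refine ⟨⟨z₀, hz₀Q⟩, ?_, rfl⟩
      rw [SetLike.mem_coe, Subgroup.mem_center_iff]
      rintro ⟨q, hq⟩
      exact Subtype.ext (hz₀c q hq)
    have hgC : g ∈ C := (hCm g).2 (hg _ h1).symm
    have hgCz := (hC g).1 hgC
    rw [Subgroup.mem_normalizer_iff]
    intro h
    show h ∈ Q ↔ g * h * g⁻¹ ∈ Q
    rw [hQm, hQm, map_mul, map_mul, map_inv]
    constructor
    · exact fun hh => conj_mem_Qgrp hgCz hh
    · intro hh
      have := conj_mem_Qgrp ((Cz n).inv_mem hgCz) hh
      have h2 : (ι g)⁻¹ * (ι g * ι h * (ι g)⁻¹) * (ι g)⁻¹⁻¹ = ι h := by group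
      rwa [h2] at this
  · intro K hK hQK
    have hcard : Nat.card (K.map ι) = Nat.card K :=
      Subgroup.card_map_of_injective hinj
    have hQK' : Qgrp n ≤ Subgroup.normalizer ((K.map ι : Subgroup (Gp n)) : Set (Gp n)) := by
      intro q hq
      obtain ⟨g, rfl⟩ := hsurjQ q hq
      have hgN := hQK ((hQm g).2 hq)
      rw [Subgroup.mem_normalizer_iff] at hgN ⊢
      intro y
      constructor
      · rintro ⟨k, hk, rfl⟩
        refine ⟨g * k * g⁻¹, (hgN k).1 hk, ?_⟩
        simp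
      · rintro ⟨k, hk, hk'⟩
        have h1 : ι (g⁻¹ * k * g) = y := by
          rw [map_mul, map_mul, map_inv, hk']
          group
        rw [← h1]
        refine ⟨g⁻¹ * k * g, ?_, rfl⟩
        have h2 := (hgN (g⁻¹ * k * g)).2
        apply h2
        have h3 : g * (g⁻¹ * k * g) * g⁻¹ = k := by group
        rw [h3]
        exact hk
    have := odd_trivial hn (K.map ι) (by rw [hcard]; exact hK) hQK'
    exact (Subgroup.map_eq_bot_iff_of_injective K hinj).1 this
  · intro x hx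
    exact (hC x).2 (hTh _ hx)
  · rw [eq_bot_iff]
    rintro x ⟨hx, D', hD'⟩
    have h1 : ι x ∈ Qgrp n := (hQm x).1 hx
    rw [← hD'] at h1
    have h2 := (mem_Qgrp_iff.1 h1).2
    rw [Theta_coe, Dm_blk] at h2
    have h3 : D' = 1 := Subtype.ext h2
    have h4 : ι x = 1 := by
      rw [← hD', h3, map_one]
    exact Subgroup.mem_bot.2 (by
      apply hinj
      rw [h4, map_one])
  · apply le_antisymm
    · refine sup_le ?_ ?_
      · intro x hx
        exact (hC x).2 (Qgrp_le_Cz n ((hQm x).1 hx))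
      · intro x hx
        exact (hC x).2 (hTh _ hx)
    · intro g hg
      obtain ⟨q, hq, D', hgq⟩ := cz_dec ((hC g).1 hg)
      obtain ⟨x, hx⟩ := hsurjQ q hq
      obtain ⟨y, hy⟩ := hsurjT (Theta n D') ⟨D', rfl⟩
      have h1 : g = x * y := by
        apply hinj
        rw [map_mul, hx, hy, hgq]
      rw [h1]
      refine Subgroup.mul_mem_sup ((hQm x).2 (by rw [hx]; exact hq)) ?_
      show ι y ∈ (Theta n).range
      rw [hy]
      exact ⟨D', rfl⟩
  · exact (comapEquiv ι hinj (Theta n).range hsurjT).trans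
      ((MonoidHom.ofInjective (Theta_inj n)).symm.trans (slEquivGL n))

end Dat


/-- Let G be a finite group that is the split extension of an elementary abelian normal subgroup U of order 2^(n+1), n ≥ 1, by its full automorphism group: U has a complement M in G whose conjugation action on U is faithful and realizes every automorphism of U. Let Z be a subgroup of U of order 2 and Q the largest normal 2-subgroup of the centralizer C of Z. Then Q is extraspecial of order 2^(2n+1) with an elementary abelian subgroup of order 2^(n+1) (plus type), Q is a large extraspecial 2-subgroup of G, and C is the split extension of Q by the general linear group of degree n over the field with two elements. -/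
theorem result {G : Type*} [Group G] [Finite G] (n : ℕ) (hn : 1 ≤ n) (U M : Subgroup G) [U.Normal] (hU : Cfsg.IsElementaryAbelian 2 U) (hUcard : Nat.card ↥U = 2 ^ (n + 1)) (hUM : U ⊓ M = ⊥) (hUM' : U ⊔ M = ⊤) (hfaith : ∀ m ∈ M, (∀ u ∈ U, m * u * m⁻¹ = u) → m = 1) (hfull : ∀ φ : ↥U ≃* ↥U, ∃ m ∈ M, ∀ u : ↥U, ((φ u : ↥U) : G) = m * u * m⁻¹) (Z : Subgroup G) (hZU : Z ≤ U) (hZ : Nat.card ↥Z = 2) (Q : Subgroup G) (hQ : Q = (Cfsg.pCore 2 ↥(Subgroup.centralizer (Z : Set G))).map (Subgroup.centralizer (Z : Set G)).subtype) : Cfsg.IsExtraspecial 2 ↥Q ∧ Nat.card ↥Q = 2 ^ (2 * n + 1) ∧ (∃ E : Subgroup G, E ≤ Q ∧ Cfsg.IsElementaryAbelian 2 E ∧ Nat.card ↥E = 2 ^ (n + 1)) ∧ Cfsg.IsLargeExtraspecial Q ∧ ∃ K : Subgroup G, K ≤ Subgroup.centralizer (Z : Set G) ∧ Q ⊓ K = ⊥ ∧ Q ⊔ K = Subgroup.centralizer (Z : Set G) ∧ Nonempty (↥K ≃* Matrix.GeneralLinearGroup (Fin n) (ZMod 2)) := by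
  classical
  subst hQ
  -- the element of `Z`
  obtain ⟨z, hz, huniq⟩ := (Nat.card_eq_two_iff' (1 : Z)).1 hZ
  have hzne : (z : G) ≠ 1 := fun h => hz (Subtype.ext h)
  let z₀ : U := ⟨z, hZU z.2⟩
  have hz₀ : z₀ ≠ 1 := fun h => hzne (congrArg Subtype.val h)
  obtain ⟨L, hLb, hLa, hLz⟩ := exists_coord hU hUcard hz₀
  let D : Dat G n :=
    { U := U, M := M, hN := inferInstance,
      comm := fun a ha b hb => hU.1.is_comm.comm ⟨a, ha⟩ ⟨b, hb⟩ |> congrArg Subtype.val,
      disj := hUM, top := hUM', faith := hfaith, full := hfull, L := L, Lbij := hLb, Ladd := hLa }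
  have hCm : ∀ g, g ∈ Subgroup.centralizer (Z : Set G) ↔ g * (z : G) = (z : G) * g := by
    intro g
    rw [Subgroup.mem_centralizer_iff]
    constructor
    · intro h
      exact (h z z.2).symm
    · intro h y hy
      by_cases hy1 : y = 1
      · rw [hy1, one_mul, mul_one]
      · have h1 := huniq ⟨y, hy⟩ (fun h => hy1 (congrArg Subtype.val h))
        have h2 : y = (z : G) := congrArg Subtype.val h1
        rw [h2, h]
  exact D.main hn (z₀ := z₀) hLz _ hCm

end Cfsg.Agent.S5423
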