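import Cfsg.Statements.S5427
import Mathlib
import Cfsg.Agent.Lib.PGroup.LargeFz
import Cfsg.Agent.S5421

set_option autoImplicit false
open Cfsg

namespace Cfsg.Agent.S5427

open Cfsg.Agent.Lib.PGroup.LargeFz
open Cfsg.Agent.Lib.PGroup.FStarCentralizer
open Cfsg.Agent.Lib.PGroup.LargeExtraspecial

/-- Let z be an involution of the finite group G whose centralizer C has generalized Fitting subgroup Q, an extraspecial 2-group of width at least 2 (order 2^(2w+1), w ≥ 2). Let K be a subgroup of G such that the subgroup U generated by the K-conjugates of z is abelian and C is generated by the C-conjugates of U. Suppose that either some K-conjugate of z other than z lies in Q, or some element u of U ∩ Q outside the subgroup generated by z has z in the largest normal 2-subgroup of its centralizer. Then G is simple and Q is a large extraspecial 2-subgroup of G. -/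
theorem result {G : Type*} [Group G] [Finite G] (z : G) (hz : orderOf z = 2) (Q : Subgroup G) (hQC : Q ≤ Subgroup.centralizer ({z} : Set G)) (hF : (Cfsg.generalizedFittingSubgroup ↥(Subgroup.centralizer ({z} : Set G))).map (Subgroup.centralizer ({z} : Set G)).subtype = Q) (hQ : Cfsg.IsExtraspecial 2 ↥Q) (w : ℕ) (hw : 2 ≤ w) (hcard : Nat.card ↥Q = 2 ^ (2 * w + 1)) (K U : Subgroup G) (hU : U = Subgroup.closure {x : G | ∃ k ∈ K, x = k * z * k⁻¹}) (hUab : IsMulCommutative ↥U) (hgen : Subgroup.closure {x : G | ∃ c ∈ Subgroup.centralizer ({z} : Set G), ∃ u ∈ U, x = c * u * c⁻¹} = Subgroup.centralizer ({z} : Set G)) (h3 : (∃ k ∈ K, k * z * k⁻¹ ∈ Q ∧ k * z * k⁻¹ ≠ z) ∨ ∃ u ∈ U ⊓ Q, u ∉ Subgroup.zpowers z ∧ (∃ hz' : z ∈ Subgroup.centralizer ({u} : Set G), (⟨z, hz'⟩ : ↥(Subgroup.centralizer ({u} : Set G))) ∈ Cfsg.pCore 2 ↥(Subgroup.centralizer ({u} : Set G)))) : IsSimpleGroup G ∧ Cfsg.IsLargeExtraspecial Q := by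
  have hQf : Q = fz z := hF.symm
  subst hQf
  have L := large_fz hz ((extraspecial_fz_iff z).1 hQ)
  have hzmem : z ∈ U := by
    rw [hU]
    exact Subgroup.subset_closure ⟨1, K.one_mem, by group⟩
  have hLarge : Cfsg.IsLargeExtraspecial (fz z) := by
    rcases h3 with ⟨k, -, hkQ, hkne⟩ | ⟨u, ⟨huU, huQ⟩, hune, hz', hzp⟩
    · exact isLarge_of_conj hz hQ w hw hcard hkQ hkne
    · have hcomm : ∀ x ∈ U, ∀ y ∈ U, x * y = y * x := by
        intro x hx y hy
        have := hUab.is_comm.comm ⟨x, hx⟩ ⟨y, hy⟩
        exact congrArg Subtype.val this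
      have huu : u * u = 1 := by
        have : ∀ y ∈ U, y * y = 1 := by
          intro y hy
          have hy' := hy
          rw [hU] at hy'
          induction hy' using Subgroup.closure_induction with
          | mem x hx =>
            obtain ⟨k, -, rfl⟩ := hx
            calc k * z * k⁻¹ * (k * z * k⁻¹) = k * (z * z) * k⁻¹ := by group
              _ = 1 := by rw [L.z_sq]; group
          | one => simp
          | mul a b ha' hb' ha hb =>
            have ha1 : a ∈ U := by rw [hU]; exact ha'
            have hb1 : b ∈ U := by rw [hU]; exact hb'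
            calc a * b * (a * b) = a * (b * a) * b := by group
              _ = a * (a * b) * b := by rw [hcomm b hb1 a ha1]
              _ = (a * a) * (b * b) := by group
              _ = 1 := by rw [ha ha1, hb hb1, one_mul]
          | inv a ha' ha =>
            have ha1 : a ∈ U := by rw [hU]; exact ha'
            rw [← mul_inv_rev, ha ha1, inv_one]
        exact this u huU
      have hu1 : u ≠ 1 := by
        rintro rfl
        exact hune (one_mem _)
      have hu2 : orderOf u = 2 := by
        have : Fact (Nat.Prime 2) := ⟨Nat.prime_two⟩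
        exact orderOf_eq_prime (by rw [pow_two]; exact huu) hu1
      refine Cfsg.Agent.S5421.result (fz z) hQ (centralizer_eq L) centralizer_center_le_normalizer u huQ ?_ hu2 ?_
      · rw [center_map_eq L]; exact hune
      · rw [center_map_eq L, Subgroup.zpowers_le]
        exact ⟨⟨z, hz'⟩, hzp, rfl⟩
  refine ⟨?_, hLarge⟩
  haveI : Nontrivial G := ⟨z, 1, L.z_ne⟩
  refine ⟨fun N hN => ?_⟩
  by_cases hbot : N = ⊥
  · exact Or.inl hbot
  · right
    have hzN := z_mem_of_normal hz hQ hLarge hN hbot
    have hUN : U ≤ N := by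
      rw [hU, Subgroup.closure_le]
      rintro x ⟨k, -, rfl⟩
      exact hN.conj_mem z hzN k
    refine eq_top_of_centralizer_le hz hQ hN ?_
    rw [← hgen, Subgroup.closure_le]
    rintro x ⟨c, -, u, hu, rfl⟩
    exact hN.conj_mem u (hUN hu) c

end Cfsg.Agent.S5427
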