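import Cfsg.Statements.S5433
import Mathlib
-- import your own Cfsg.Agent.* helpers here

set_option autoImplicit false
open Cfsg

namespace Cfsg.Agent.S5433

/-- Let Q be a large extraspecial 2-subgroup of the finite group G (extraspecial; centralizer equal to its centre; normal in the centralizer of its centre; normalizing no non-trivial subgroup of odd order), and L a normal subgroup of G containing Q. Then G is the product of L and the normalizer of Q. -/
theorem result {G : Type*} [Group G] [Finite G] (Q : Subgroup G) (hQ : Cfsg.IsLargeExtraspecial Q) (L : Subgroup G) [L.Normal] (hQL : Q ≤ L) : L ⊔ Subgroup.normalizer (Q : Set G) = ⊤ := by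
  obtain ⟨hE, hC, hN, -⟩ := hQ
  obtain ⟨⟨hp, -, -⟩, hcard⟩ := hE
  have hQ2 : IsPGroup 2 (Q.subgroupOf L) := hp.comap_of_injective L.subtype L.subtype_injective
  obtain ⟨P, hP⟩ := hQ2.exists_le_sylow
  have hfr := Sylow.normalizer_sup_eq_top P
  set PG : Subgroup G := (P : Subgroup L).map L.subtype with hPG
  have hQP : Q ≤ PG := by
    intro q hq
    exact ⟨⟨q, hQL hq⟩, hP (Subgroup.mem_subgroupOf.mpr hq), rfl⟩
  set Z : Subgroup G := (Subgroup.center Q).map Q.subtype with hZdef
  have hZ : Nat.card Z = 2 := by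
    rw [hZdef, Subgroup.card_map_of_injective Q.subtype_injective, hcard]
  have hZ2 : ∀ z ∈ Z, ∀ z' ∈ Z, z ≠ 1 → z' ≠ 1 → z = z' := by
    intro z hz z' hz' h1 h2
    obtain ⟨y, -, huniq⟩ := (Nat.card_eq_two_iff' (1 : Z)).mp hZ
    have h3 : (⟨z, hz⟩ : Z) = y := huniq _ (fun h => h1 (congrArg Subtype.val h))
    have h4 : (⟨z', hz'⟩ : Z) = y := huniq _ (fun h => h2 (congrArg Subtype.val h))
    exact congrArg Subtype.val (h3.trans h4.symm)
  have hPp : IsPGroup 2 PG := P.isPGroup'.map _
  have hQnt : Nontrivial Q := by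
    by_contra h
    rw [not_nontrivial_iff_subsingleton] at h
    have : Nat.card (Subgroup.center Q) = 1 := by
      have : Subsingleton (Subgroup.center Q) := inferInstance
      exact Nat.card_unique
    omega
  have hPnt : Nontrivial PG := by
    obtain ⟨a, b, hab⟩ := hQnt
    exact ⟨⟨⟨a.1, hQP a.2⟩, ⟨b.1, hQP b.2⟩, fun h => hab (Subtype.ext (congrArg (fun x : PG => (x : G)) h))⟩⟩
  have hcen : ∃ z : G, z ∈ PG ∧ z ∈ Subgroup.centralizer (PG : Set G) ∧ z ≠ 1 := by
    have := hPp.center_nontrivial
    obtain ⟨x, hx⟩ := exists_ne (1 : Subgroup.center PG)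
    refine ⟨(x : PG), (x : PG).2, ?_, ?_⟩
    · rw [Subgroup.mem_centralizer_iff]
      intro y hy
      have := (Subgroup.mem_center_iff.mp x.2) ⟨y, hy⟩
      exact congrArg Subtype.val this
    · intro h
      apply hx
      exact Subtype.ext (Subtype.ext h)
  obtain ⟨z0, hz0P, hz0C, hz0⟩ := hcen
  have hCZ : ∀ z, z ∈ Subgroup.centralizer (PG : Set G) → z ∈ Z := by
    intro z hz
    rw [← hC]
    rw [Subgroup.mem_centralizer_iff] at hz ⊢
    intro q hq
    exact hz q (hQP hq)
  have hz0Z : z0 ∈ Z := hCZ z0 hz0C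
  have hNle : Subgroup.normalizer (PG : Set G) ≤ Subgroup.normalizer (Q : Set G) := by
    intro n hn
    apply hN
    rw [Subgroup.mem_centralizer_iff]
    intro z hz
    -- n commutes with z
    have hnz0 : n * z0 * n⁻¹ = z0 := by
      have h1 : n * z0 * n⁻¹ ∈ Subgroup.centralizer (PG : Set G) := by
        rw [Subgroup.mem_centralizer_iff]
        intro y hy
        have h2 : n⁻¹ * y * n ∈ PG := by
          have := (Subgroup.mem_normalizer_iff.mp (Subgroup.inv_mem _ hn) y).mp hy
          simpa using this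
        have h3 := (Subgroup.mem_centralizer_iff.mp hz0C) _ h2
        calc y * (n * z0 * n⁻¹) = n * ((n⁻¹ * y * n) * z0) * n⁻¹ := by group
          _ = n * (z0 * (n⁻¹ * y * n)) * n⁻¹ := by rw [h3]
          _ = n * z0 * n⁻¹ * y := by group
      apply hZ2 _ (hCZ _ h1) _ hz0Z _ hz0
      intro h
      apply hz0
      have : z0 = n⁻¹ * (n * z0 * n⁻¹) * n := by group
      rw [this, h]
      group
    by_cases hz1 : z = 1
    · subst hz1
      simp
    · have := hZ2 z hz z0 hz0Z hz1 hz0
      subst this
      calc z * n = n * z * n⁻¹ * n := by rw [hnz0]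
        _ = n * z := by group
  rw [sup_comm, eq_top_iff, ← hfr]
  exact sup_le_sup_right hNle L

end Cfsg.Agent.S5433
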