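import Cfsg.Statements.S5434
import Cfsg.Agent.Lib.Coprime.Coset
import Cfsg.Agent.Lib.Coprime.Three
import Cfsg.Agent.Lib.Coprime.StabilityElem
import Cfsg.Agent.Lib.PGroup.Basic
import Cfsg.Agent.Lib.Coprime.OmegaOne
import Mathlib

set_option autoImplicit false
open Cfsg

namespace Cfsg.Agent.S5434

open Cfsg.Agent.Lib.Coprime.Three Cfsg.Agent.Lib.Coprime.StabilityElem Cfsg.Agent.Lib.PGroup.Basic
open scoped commutatorElement

/-- A central factor `S` of an extraspecial 2-group `Q = S ∗ T`, containing the centre properly,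
is extraspecial. -/
theorem extraspecial_of_central_factor {G : Type*} [Group G] [Finite G] {Q S T : Subgroup G}
    (hQ : Cfsg.IsExtraspecial 2 ↥Q) (hSQ : S ≤ Q) (hST : ∀ x ∈ S, ∀ y ∈ T, x * y = y * x)
    (hsup : S ⊔ T = Q) (hZS : (Subgroup.center ↥Q).map Q.subtype ≤ S)
    (hne : S ≠ (Subgroup.center ↥Q).map Q.subtype) : Cfsg.IsExtraspecial 2 ↥S := by
  obtain ⟨⟨hp, hΦ, hcomm⟩, hcard⟩ := hQ
  have : Fact (Nat.Prime 2) := ⟨Nat.prime_two⟩
  set Z := (Subgroup.center ↥Q).map Q.subtype with hZdef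
  have hpS : IsPGroup 2 ↥S := by
    have h1 : IsPGroup 2 ↥Q := hp
    exact (IsPGroup.to_le (K := Q) (by exact h1) hSQ)
  have hmemZ : ∀ x : G, x ∈ Z ↔ ∃ h : x ∈ Q, (⟨x, h⟩ : Q) ∈ Subgroup.center ↥Q := by
    intro x
    constructor
    · rintro ⟨y, hy, rfl⟩
      exact ⟨y.2, hy⟩
    · rintro ⟨h, hc⟩
      exact ⟨_, hc, rfl⟩
  -- the centre of `S`
  have hcen : ∀ x : S, x ∈ Subgroup.center ↥S ↔ (x : G) ∈ Z := by
    intro x
    constructor
    · intro hx
      have hxQ : (x : G) ∈ Q := hSQ x.2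
      have hle : S ⊔ T ≤ Subgroup.centralizer ({(x : G)} : Set G) := by
        refine sup_le ?_ ?_
        · intro s hs
          refine Subgroup.mem_centralizer_iff.mpr ?_
          intro y hy
          rw [Set.mem_singleton_iff] at hy
          subst hy
          have := (Subgroup.mem_center_iff.mp hx) ⟨s, hs⟩
          exact (congrArg (fun y : S => (y : G)) this).symm
        · intro t ht
          refine Subgroup.mem_centralizer_iff.mpr ?_
          intro y hy
          rw [Set.mem_singleton_iff] at hy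
          subst hy
          exact hST _ x.2 t ht
      rw [hsup] at hle
      refine (hmemZ _).mpr ⟨hxQ, ?_⟩
      rw [Subgroup.mem_center_iff]
      intro q
      have h1 := (Subgroup.mem_centralizer_iff.mp (hle q.2)) (x : G) rfl
      apply Subtype.ext
      exact h1.symm
    · intro hx
      obtain ⟨hxQ, hc⟩ := (hmemZ _).mp hx
      rw [Subgroup.mem_center_iff]
      intro s
      have h1 := (Subgroup.mem_center_iff.mp hc) ⟨(s : G), hSQ s.2⟩
      apply Subtype.ext
      exact congrArg (fun y : Q => (y : G)) h1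
  have hmapeq : (Subgroup.center ↥S).map S.subtype = Z := by
    ext x
    constructor
    · rintro ⟨y, hy, rfl⟩
      exact (hcen y).mp hy
    · intro hx
      exact ⟨⟨x, hZS hx⟩, (hcen ⟨x, hZS hx⟩).mpr hx, rfl⟩
  have hcardS : Nat.card (Subgroup.center ↥S) = 2 := by
    have h1 : Nat.card ((Subgroup.center ↥S).map S.subtype) = Nat.card (Subgroup.center ↥S) :=
      Nat.card_congr (Subgroup.equivMapOfInjective _ _ S.subtype_injective).symm.toEquiv
    have h2 : Nat.card Z = Nat.card (Subgroup.center ↥Q) :=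
      Nat.card_congr (Subgroup.equivMapOfInjective _ _ Q.subtype_injective).symm.toEquiv
    rw [← h1, hmapeq, h2, hcard]
  -- commutators
  have hcommZ : ∀ x y : S, ⁅x, y⁆ ∈ Subgroup.center ↥S := by
    intro x y
    rw [hcen]
    refine (hmemZ _).mpr ⟨hSQ (⁅x, y⁆).2, ?_⟩
    rw [← hcomm]
    have h1 : ⁅(⟨(x : G), hSQ x.2⟩ : Q), ⟨(y : G), hSQ y.2⟩⁆ ∈ commutator ↥Q := by
      rw [commutator_def]
      exact Subgroup.commutator_mem_commutator trivial trivial
    convert h1 using 1
    apply Subtype.ext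
    simp [commutatorElement_def]
  have hcomm_le : commutator ↥S ≤ Subgroup.center ↥S := by
    rw [commutator_def, Subgroup.commutator_le]
    intro x _ y _
    exact hcommZ x y
  have hcomm_ne : commutator ↥S ≠ ⊥ := by
    intro hbot
    apply hne
    refine le_antisymm ?_ hZS
    intro x hx
    refine (hcen ⟨x, hx⟩).mp ?_
    rw [Subgroup.mem_center_iff]
    intro y
    have h1 : ⁅y, (⟨x, hx⟩ : S)⁆ ∈ commutator ↥S := by
      rw [commutator_def]
      exact Subgroup.commutator_mem_commutator trivial trivial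
    rw [hbot, Subgroup.mem_bot] at h1
    exact commutatorElement_eq_one_iff_mul_comm.mp h1
  have hcommeq : commutator ↥S = Subgroup.center ↥S := by
    apply Subgroup.eq_of_le_of_card_ge hcomm_le
    rw [hcardS]
    exact (Subgroup.one_lt_card_iff_ne_bot _).mpr hcomm_ne
  have hΦS : frattini ↥S = Subgroup.center ↥S := by
    apply le_antisymm
    · refine (frattini_le_iff hpS).mpr ⟨?_, hcommZ⟩
      intro x
      rw [hcen]
      refine (hmemZ _).mpr ⟨hSQ (x ^ 2).2, ?_⟩
      rw [← hΦ]
      have h1 := pow_mem_frattini (by exact hp) (⟨(x : G), hSQ x.2⟩ : Q)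
      convert h1 using 1
      apply Subtype.ext
      simp
    · rw [← hcommeq]
      exact commutator_le_frattini hpS
  exact ⟨⟨hpS, hΦS, hcommeq⟩, hcardS⟩

/-- Let Q be a large extraspecial 2-subgroup of the finite group G (extraspecial; centralizer equal to its centre; normal in the centralizer of its centre; normalizing no non-trivial subgroup of odd order), and A a non-trivial subgroup of odd order of the normalizer of Q. Then Q is the central product of the centralizer of A in Q and the commutator subgroup [Q, A] (they generate Q and commute elementwise), [Q, A] is extraspecial, and the centralizer of A in Q is either the centre of Q or extraspecial. -/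
theorem result {G : Type*} [Group G] [Finite G] (Q : Subgroup G) (hQ : Cfsg.IsLargeExtraspecial Q) (A : Subgroup G) (hA : A ≤ Subgroup.normalizer (Q : Set G)) (hAodd : Odd (Nat.card ↥A)) (hA1 : A ≠ ⊥) : (Q ⊓ Subgroup.centralizer (A : Set G)) ⊔ ⁅Q, A⁆ = Q ∧ (∀ x ∈ Q ⊓ Subgroup.centralizer (A : Set G), ∀ y ∈ ⁅Q, A⁆, x * y = y * x) ∧ Cfsg.IsExtraspecial 2 ↥⁅Q, A⁆ ∧ (Q ⊓ Subgroup.centralizer (A : Set G) = ((Subgroup.center ↥Q).map Q.subtype) ∨ Cfsg.IsExtraspecial 2 ↥(Q ⊓ Subgroup.centralizer (A : Set G))) := by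
  classical
  have hfact : Fact (Nat.Prime 2) := ⟨Nat.prime_two⟩
  obtain ⟨hE, -, -, hodd⟩ := hQ
  have hE' := hE
  obtain ⟨⟨hp, hΦ, hcomm⟩, hcard⟩ := hE'
  have hpQ : IsPGroup 2 ↥Q := hp
  set Z := (Subgroup.center ↥Q).map Q.subtype with hZdef
  have hcop2 : (Nat.card A).Coprime 2 := Nat.coprime_two_right.mpr hAodd
  have hcop : (Nat.card A).Coprime (Nat.card Q) := by
    obtain ⟨k, hk⟩ := IsPGroup.iff_card.mp hpQ
    rw [hk]
    exact Nat.Coprime.pow_right k hcop2
  have hsolv : Group.IsSolvable A ∨ Group.IsSolvable Q := by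
    right
    have := hpQ.isNilpotent
    infer_instance
  have h1 := Cfsg.Agent.Lib.Coprime.Coset.commutator_sup_centralizer hA hcop hsolv
  have hD_le : ⁅Q, A⁆ ≤ Q := Cfsg.Agent.Lib.Coprime.Coset.commutator_le_left_of_le_normalizer hA
  -- `A` centralizes `Z`
  have hmemZ : ∀ x : G, x ∈ Z ↔ ∃ h : x ∈ Q, (⟨x, h⟩ : Q) ∈ Subgroup.center ↥Q := by
    intro x
    constructor
    · rintro ⟨y, hy, rfl⟩
      exact ⟨y.2, hy⟩
    · rintro ⟨h, hc⟩
      exact ⟨_, hc, rfl⟩
  -- the centre has a unique nontrivial element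
  have hz2 : ∀ u v : Subgroup.center ↥Q, u ≠ 1 → v ≠ 1 → u = v := by
    intro u v hu hv
    obtain ⟨w, -, hw⟩ := (Nat.card_eq_two_iff' (1 : Subgroup.center ↥Q)).mp hcard
    rw [hw u hu, hw v hv]
  have hZA : ∀ z ∈ Z, ∀ a ∈ A, a * z = z * a := by
    intro z hz a ha
    obtain ⟨hzQ, hzc⟩ := (hmemZ z).mp hz
    by_cases hz1 : z = 1
    · simp [hz1]
    have hφ := Cfsg.Agent.Lib.Coprime.OmegaOne.conjAut Q a (hA ha)
    have hchar := (Subgroup.characteristic_iff_map_le.mp
      (inferInstance : (Subgroup.center ↥Q).Characteristic)) (Cfsg.Agent.Lib.Coprime.OmegaOne.conjAut Q a (hA ha))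
    have h2 : Cfsg.Agent.Lib.Coprime.OmegaOne.conjAut Q a (hA ha) ⟨z, hzQ⟩ ∈ Subgroup.center ↥Q :=
      hchar ⟨⟨z, hzQ⟩, hzc, rfl⟩
    have hne1 : (⟨_, h2⟩ : Subgroup.center ↥Q) ≠ 1 := by
      intro h3
      have h4 := congrArg (fun y : Subgroup.center ↥Q => (((y : Q)) : G)) h3
      simp only [Cfsg.Agent.Lib.Coprime.OmegaOne.conjAut_apply_coe, Subgroup.coe_one] at h4
      apply hz1
      have h5 : a * z * a⁻¹ = a * 1 * a⁻¹ := by rw [h4]; group
      simpa using h5
    have hne2 : (⟨⟨z, hzQ⟩, hzc⟩ : Subgroup.center ↥Q) ≠ 1 := by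
      intro h3
      have h4 := congrArg (fun y : Subgroup.center ↥Q => (((y : Q)) : G)) h3
      exact hz1 h4
    have h6 := hz2 _ _ hne1 hne2
    have h7 := congrArg (fun y : Subgroup.center ↥Q => (((y : Q)) : G)) h6
    simp only [Cfsg.Agent.Lib.Coprime.OmegaOne.conjAut_apply_coe] at h7
    calc a * z = a * z * a⁻¹ * a := by group
      _ = z * a := by rw [h7]
  -- `[Q, A] ≠ 1`
  have hDne : ⁅Q, A⁆ ≠ ⊥ := by
    intro hbot
    apply hA1
    apply hodd A hAodd
    intro q hq
    apply mem_normalizer_of_conj_mem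
    intro a ha
    have h2 : ⁅q, a⁆ = 1 := by
      have := Subgroup.commutator_mem_commutator hq ha
      rw [hbot] at this
      simpa using this
    have h3 : q * a * q⁻¹ = a := by
      rw [commutatorElement_def] at h2
      exact mul_inv_eq_one.mp h2
    rwa [h3]
  -- `Z ≤ [Q, A]`
  have hDnorm : Q ≤ Subgroup.normalizer ((⁅Q, A⁆ : Subgroup G) : Set G) :=
    Cfsg.Agent.Lib.Coprime.Coset.commutator_le_normalizer_left hA
  have hD'normal : (⁅Q, A⁆.subgroupOf Q).Normal := Subgroup.normal_subgroupOf_of_le_normalizer hDnorm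
  have hD'ne : ⁅Q, A⁆.subgroupOf Q ≠ ⊥ := by
    intro hb
    apply hDne
    have h2 := congrArg (Subgroup.map Q.subtype) hb
    rw [Subgroup.subgroupOf_map_subtype, Subgroup.map_bot, inf_eq_left.mpr hD_le] at h2
    exact h2
  have hZD : Z ≤ ⁅Q, A⁆ := by
    have h2 := inf_center_ne_bot hpQ hD'ne
    obtain ⟨⟨w, hw⟩, hw1⟩ := Subgroup.ne_bot_iff_exists_ne_one.mp h2
    replace hw1 : w ≠ 1 := fun h => hw1 (Subtype.ext h)
    rintro _ ⟨y, hy, rfl⟩
    by_cases hy1 : y = 1
    · simp [hy1]
    have h3 : (⟨y, hy⟩ : Subgroup.center ↥Q) = ⟨w, hw.2⟩ := by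
      apply hz2
      · intro h4
        exact hy1 (congrArg Subtype.val h4)
      · intro h4
        exact hw1 (congrArg Subtype.val h4)
    have h4 : y = w := congrArg Subtype.val h3
    rw [h4]
    exact hw.1
  -- `[Q, A] ≠ Z`
  have hDZ : ⁅Q, A⁆ ≠ Z := by
    intro heq
    apply hDne
    rw [← le_bot_iff, Subgroup.commutator_le]
    intro x hx a ha
    have hcomm' : a * x = x * a :=
      comm_of_mem_centralized (N := Z) (a := a) (x := x) (m := orderOf a)
        (by
          rw [← heq]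
          have := Subgroup.commutator_mem_commutator (inv_mem hx) ha
          simpa [commutatorElement_def] using this)
        (hZA · · a ha) (by
          have h2 : Nat.card Z = 2 := by
            have : Nat.card Z = Nat.card (Subgroup.center ↥Q) :=
              Nat.card_congr (Subgroup.equivMapOfInjective _ _ Q.subtype_injective).symm.toEquiv
            rw [this, hcard]
          rw [h2]
          exact (Nat.Coprime.coprime_dvd_left (Subgroup.orderOf_dvd_natCard A ha) hcop2).symm)
        (by simp [pow_orderOf_eq_one])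
    have : ⁅x, a⁆ = 1 := commutatorElement_eq_one_iff_mul_comm.mpr hcomm'.symm
    simp [this]
  -- `[C, [Q, A]] = 1`
  have hCD : ⁅⁅Q, A⁆, Q ⊓ Subgroup.centralizer (A : Set G)⁆ = ⊥ := by
    apply Subgroup.commutator_commutator_eq_bot_of_rotate
    · have h2 : ⁅A, Q ⊓ Subgroup.centralizer (A : Set G)⁆ = ⊥ := by
        rw [Subgroup.commutator_eq_bot_iff_le_centralizer]
        intro a ha
        refine Subgroup.mem_centralizer_iff.mpr ?_
        intro c hc
        exact ((Subgroup.mem_centralizer_iff.mp hc.2) a ha).symm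
      rw [h2, Subgroup.commutator_bot_left]
    · have h2 : ⁅Q ⊓ Subgroup.centralizer (A : Set G), Q⁆ ≤ Z := by
        rw [Subgroup.commutator_le]
        intro c hc q hq
        refine (hmemZ _).mpr ⟨Q.mul_mem (Q.mul_mem (Q.mul_mem hc.1 hq) (Q.inv_mem hc.1)) (Q.inv_mem hq), ?_⟩
        rw [← hcomm]
        have h3 : ⁅(⟨c, hc.1⟩ : Q), (⟨q, hq⟩ : Q)⁆ ∈ commutator ↥Q := by
          rw [commutator_def]
          exact Subgroup.commutator_mem_commutator trivial trivial
        convert h3 using 1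
        apply Subtype.ext
        simp [commutatorElement_def]
      have h3 : ⁅Z, A⁆ = ⊥ := by
        rw [← le_bot_iff, Subgroup.commutator_le]
        intro z hz a ha
        have : ⁅z, a⁆ = 1 := commutatorElement_eq_one_iff_mul_comm.mpr (hZA z hz a ha).symm
        simp [this]
      exact le_bot_iff.mp (h3 ▸ Subgroup.commutator_mono h2 le_rfl)
  have hcommCD : ∀ x ∈ Q ⊓ Subgroup.centralizer (A : Set G), ∀ y ∈ ⁅Q, A⁆, x * y = y * x := by
    intro x hx y hy
    have : ⁅y, x⁆ = 1 := by
      have h2 := Subgroup.commutator_mem_commutator hy hx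
      rw [hCD] at h2
      simpa using h2
    exact (commutatorElement_eq_one_iff_mul_comm.mp this).symm
  have hsup : (Q ⊓ Subgroup.centralizer (A : Set G)) ⊔ ⁅Q, A⁆ = Q := by
    rw [sup_comm]; exact h1
  refine ⟨hsup, hcommCD, ?_, ?_⟩
  · refine extraspecial_of_central_factor (T := Q ⊓ Subgroup.centralizer (A : Set G)) hE hD_le
      (fun x hx y hy => (hcommCD y hy x hx).symm) ?_ hZD hDZ
    rw [sup_comm]; exact hsup
  · by_cases hC : Q ⊓ Subgroup.centralizer (A : Set G) = Z
    · exact Or.inl hC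
    · right
      refine extraspecial_of_central_factor (T := ⁅Q, A⁆) hE inf_le_left hcommCD hsup ?_ hC
      intro z hz
      refine ⟨((hmemZ z).mp hz).1, ?_⟩
      refine Subgroup.mem_centralizer_iff.mpr ?_
      intro a ha
      exact hZA z hz a ha

end Cfsg.Agent.S5434
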