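import Cfsg.Statements.S5435
import Mathlib
import Cfsg.Agent.S0215
import Cfsg.Agent.Lib.Fusion.ThompsonTransfer
import Cfsg.Agent.Lib.PGroup.Basic
import Cfsg.Agent.Lib.PGroup.CyclicMax
-- import your own Cfsg.Agent.* helpers here

set_option autoImplicit false
open Cfsg

namespace Cfsg.Agent.S5435


open Cfsg.Agent.Lib.PGroup.Basic in
/-- Recognition of `D₈` from the commutator data. -/
theorem d8_of_data {P : Type*} [Group P] [Finite P] (z y ρ : P) (hz1 : z ≠ 1) (hzz : z * z = 1)
    (hzc : ∀ x, x * z = z * x) (hyy : y * y = 1) (hρ : ρ * y * ρ⁻¹ = z * y)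
    (hsq : ∀ x : P, x * x = 1 ∨ x * x = z)
    (hcomm : ∀ x w : P, x * w * x⁻¹ * w⁻¹ = 1 ∨ x * w * x⁻¹ * w⁻¹ = z)
    (hD : ∀ d : P, d * y = y * d → d * d = 1)
    (hC : ∀ c : P, (∀ x, c * x = x * c) → c = 1 ∨ c = z) :
    Nonempty (P ≃* DihedralGroup 4) := by
  classical
  have hyi : y⁻¹ = y := by
    rw [inv_eq_iff_mul_eq_one]; exact hyy
  have hzi : z⁻¹ = z := by
    rw [inv_eq_iff_mul_eq_one]; exact hzz
  obtain ⟨a, haa, hay⟩ : ∃ a : P, a * a = z ∧ a * y * a⁻¹ = z * y := by
    rcases hsq ρ with h | h
    · refine ⟨ρ * y, ?_, ?_⟩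
      · have h1 : ρ * y = z * y * ρ := by
          rw [← hρ]; group
        calc ρ * y * (ρ * y) = (ρ * y) * ρ * y := by group
          _ = z * y * (ρ * ρ) * y := by rw [h1]; group
          _ = z * (y * y) := by rw [h]; group
          _ = z := by rw [hyy, mul_one]
      · calc ρ * y * y * (ρ * y)⁻¹ = ρ * y * ρ⁻¹ := by group
          _ = z * y := hρ
    · exact ⟨ρ, h, hρ⟩
  -- relations
  have hya : y * a = z * a * y := by
    have h1 : a * y = z * y * a := by
      rw [← hay]; group
    calc y * a = z * (z * y * a) := by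
          rw [← mul_assoc, ← mul_assoc, hzz, one_mul]
      _ = z * (a * y) := by rw [h1]
      _ = z * a * y := by group
  have hay' : a⁻¹ * y * a = z * y := by
    have h1 : y = a⁻¹ * (z * y) * a := by
      rw [← hay]; group
    have h2 : a⁻¹ * (z * y) * a = z * (a⁻¹ * y * a) := by
      have := hzc a⁻¹
      calc a⁻¹ * (z * y) * a = (a⁻¹ * z) * y * a := by group
        _ = z * (a⁻¹ * y * a) := by rw [this]; group
    rw [h2] at h1
    calc a⁻¹ * y * a = z * (z * (a⁻¹ * y * a)) := by
          rw [← mul_assoc, hzz, one_mul]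
      _ = z * y := by rw [← h1]
  -- D abelian
  have hDab : ∀ d e : P, d * y = y * d → e * y = y * e → d * e = e * d := by
    intro d e hd he
    have h1 : (d * e) * y = y * (d * e) := by
      rw [mul_assoc, he, ← mul_assoc, hd, mul_assoc]
    have h2 := hD _ h1
    have h3 := hD d hd
    have h4 := hD e he
    calc d * e = d * e * (d * e * (e * d)) := by
          rw [mul_assoc d e (e * d), ← mul_assoc e e d, h4, one_mul, h3, mul_one]
      _ = (d * e * (d * e)) * (e * d) := by group
      _ = e * d := by rw [h2, one_mul]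
  -- cover
  have hcover : ∀ r : P, r * y = y * r ∨ (r * a⁻¹) * y = y * (r * a⁻¹) := by
    intro r
    rcases hcomm r y with h | h
    · left
      have : r * y * r⁻¹ = y := by
        have := mul_eq_one_iff_eq_inv.mp h
        rwa [inv_inv] at this
      calc r * y = r * y * r⁻¹ * r := by group
        _ = y * r := by rw [this]
    · right
      have h1 : r * y * r⁻¹ = z * y := by
        have : r * y * r⁻¹ * y⁻¹ * y = z * y := by rw [h]
        simpa using this
      have h2 : r * (z * y) * r⁻¹ = y := by
        have h3 : r * z = z * r := hzc r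
        calc r * (z * y) * r⁻¹ = (r * z) * y * r⁻¹ := by group
          _ = z * (r * y * r⁻¹) := by rw [h3]; group
          _ = y := by rw [h1, ← mul_assoc, hzz, one_mul]
      have h3 : (r * a⁻¹) * y * (r * a⁻¹)⁻¹ = y := by
        calc (r * a⁻¹) * y * (r * a⁻¹)⁻¹ = r * (a⁻¹ * y * a) * r⁻¹ := by group
          _ = y := by rw [hay', h2]
      calc r * a⁻¹ * y = (r * a⁻¹) * y * (r * a⁻¹)⁻¹ * (r * a⁻¹) := by group
        _ = y * (r * a⁻¹) := by rw [h3]
  -- classification in D
  have hDclass : ∀ d : P, d * y = y * d → d = 1 ∨ d = z ∨ d = y ∨ d = z * y := by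
    intro d hd
    have hcentral : ∀ e : P, e * y = y * e → e * a = a * e → e = 1 ∨ e = z := by
      intro e he hea
      apply hC
      intro x
      rcases hcover x with hx | hx
      · exact hDab e x he hx
      · have h1 := hDab e _ he hx
        calc e * x = e * (x * a⁻¹) * a := by group
          _ = (x * a⁻¹) * e * a := by rw [h1]
          _ = (x * a⁻¹) * (e * a) := by group
          _ = (x * a⁻¹) * (a * e) := by rw [hea]
          _ = x * e := by group
    rcases hcomm d a with h | h
    · have h1 : d * a = a * d := by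
        have h2 : d * a * d⁻¹ = a := by
          have := mul_eq_one_iff_eq_inv.mp h
          rwa [inv_inv] at this
        calc d * a = d * a * d⁻¹ * d := by group
          _ = a * d := by rw [h2]
      rcases hcentral d hd h1 with h2 | h2
      · exact Or.inl h2
      · exact Or.inr (Or.inl h2)
    · have h1 : d * a = z * a * d := by
        have h2 : d * a * d⁻¹ = z * a := by
          have : d * a * d⁻¹ * a⁻¹ * a = z * a := by rw [h]
          simpa using this
        calc d * a = d * a * d⁻¹ * d := by group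
          _ = z * a * d := by rw [h2]
      have h2 : (d * y) * y = y * (d * y) := by
        rw [mul_assoc, hyy, mul_one, ← mul_assoc, ← hd, mul_assoc, hyy, mul_one]
      have h3 : (d * y) * a = a * (d * y) := by
        calc (d * y) * a = d * (y * a) := by group
          _ = d * (z * a * y) := by rw [hya]
          _ = (d * z) * (a * y) := by group
          _ = z * (d * a) * y := by rw [hzc d]; group
          _ = z * (z * a * d) * y := by rw [h1]
          _ = (z * z) * a * (d * y) := by group
          _ = a * (d * y) := by rw [hzz, one_mul]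
      rcases hcentral _ h2 h3 with h4 | h4
      · right; right; left
        calc d = (d * y) * y := by rw [mul_assoc, hyy, mul_one]
          _ = y := by rw [h4, one_mul]
      · right; right; right
        calc d = (d * y) * y := by rw [mul_assoc, hyy, mul_one]
          _ = z * y := by rw [h4]
  -- the card
  let l : List P := [1, z, y, z * y, a, z * a, y * a, z * y * a]
  have hmem : ∀ r : P, r ∈ l := by
    intro r
    have hl : ∀ x : P, x = 1 ∨ x = z ∨ x = y ∨ x = z * y → x ∈ l ∧ x * a ∈ l := by
      rintro x (rfl | rfl | rfl | rfl) <;> simp [l]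
    rcases hcover r with h | h
    · exact (hl r (hDclass r h)).1
    · have := (hl _ (hDclass _ h)).2
      simpa using this
  have hcardle : Nat.card P ≤ 8 := by
    haveI := Fintype.ofFinite P
    rw [Nat.card_eq_fintype_card]
    have h1 : (Finset.univ : Finset P) ⊆ l.toFinset := fun r _ => List.mem_toFinset.2 (hmem r)
    calc Fintype.card P = (Finset.univ : Finset P).card := rfl
      _ ≤ l.toFinset.card := Finset.card_le_card h1
      _ ≤ l.length := List.toFinset_card_le l
      _ = 8 := rfl
  have hao : orderOf a = 4 := by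
    have h : orderOf a = 2 ^ (1 + 1) := by
      apply orderOf_eq_prime_pow
      · rw [pow_one, pow_two, haa]; exact hz1
      · have : a ^ 2 ^ (1 + 1) = (a * a) * (a * a) := by
          show a ^ 4 = _
          simp only [pow_succ, pow_zero, one_mul, mul_assoc]
        rw [this, haa, hzz]
    simpa using h
  have hycomm : y * a ≠ a * y := by
    intro h
    rw [hya] at h
    exact hz1 (mul_right_cancel (mul_right_cancel (h.trans (one_mul _).symm |>.trans (by rw [mul_assoc]))))
  have hynot : y ∉ Subgroup.zpowers a := by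
    intro h
    obtain ⟨k, hk⟩ := Subgroup.mem_zpowers_iff.1 h
    apply hycomm
    rw [← hk]
    exact ((Commute.refl a).zpow_left k).eq
  have hcard : Nat.card P = 2 * 4 := by
    have hd : 4 ∣ Nat.card P := by
      rw [← hao]; exact orderOf_dvd_natCard a
    have hpos : 0 < Nat.card P := Nat.card_pos
    obtain ⟨k, hk⟩ := hd
    have hk' : k = 1 ∨ k = 2 := by omega
    rcases hk' with rfl | rfl
    · exfalso
      apply hynot
      have htop : Subgroup.zpowers a = ⊤ := by
        apply Subgroup.eq_top_of_card_eq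
        rw [Nat.card_zpowers, hao, hk]
      rw [htop]; exact Subgroup.mem_top y
    · omega
  have hvu : y * a * y⁻¹ = a⁻¹ := by
    rw [hya, hyi, mul_assoc, mul_assoc, hyy, mul_one]
    rw [eq_inv_iff_mul_eq_one]
    calc z * a * a = z * (a * a) := by group
      _ = 1 := by rw [haa, hzz]
  exact Cfsg.Agent.Lib.PGroup.CyclicMax.dihedralEquivOfGens 4 hcard a y hao hyy hvu hynot


/-- Let L be a finite non-abelian simple group with an involution z whose centralizer R is a Sylow 2-subgroup of L whose Frattini subgroup is the subgroup generated by z. Then R is dihedral of order 8. -/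
theorem result {L : Type*} [Group L] [Finite L] [IsSimpleGroup L] (hL : ¬ IsMulCommutative L) (z : L) (hz : orderOf z = 2) (R : Sylow 2 L) (hR : (R : Subgroup L) = Subgroup.centralizer ({z} : Set L)) (hΦ : (frattini ↥(R : Subgroup L)).map (R : Subgroup L).subtype = Subgroup.zpowers z) : Nonempty (↥(R : Subgroup L) ≃* DihedralGroup 4) := by
  classical
  haveI hf2 : Fact (Nat.Prime 2) := ⟨Nat.prime_two⟩
  set P : Subgroup L := (R : Subgroup L) with hPdef
  have hP2 : IsPGroup 2 ↥P := R.isPGroup'
  have hzz : z * z = 1 := by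
    rw [← pow_two, ← hz]; exact pow_orderOf_eq_one z
  have hz1 : z ≠ 1 := by
    rintro rfl
    simp at hz
  have hzR : z ∈ P := by
    rw [hR, Subgroup.mem_centralizer_singleton_iff]
  have memP : ∀ x : L, x ∈ P ↔ x * z = z * x := by
    intro x
    rw [hR, Subgroup.mem_centralizer_singleton_iff]
  have hzp : ∀ w : L, w ∈ Subgroup.zpowers z → w = 1 ∨ w = z := by
    rintro w ⟨k, rfl⟩
    rcases Int.even_or_odd k with ⟨m, rfl⟩ | ⟨m, rfl⟩
    · left
      show z ^ (m + m) = 1
      rw [← two_mul, zpow_mul, zpow_two, hzz, one_zpow]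
    · right
      show z ^ (2 * m + 1) = z
      rw [zpow_add, zpow_mul, zpow_two, hzz, one_zpow, one_mul, zpow_one]
  have hfr : ∀ x : ↥P, x ∈ frattini ↥P ↔ (x : L) ∈ Subgroup.zpowers z := by
    intro x
    rw [← hΦ]
    constructor
    · intro h; exact Subgroup.mem_map_of_mem _ h
    · rintro ⟨w, hw, hwx⟩
      have : w = x := Subtype.ext hwx
      rwa [← this]
  have hfr1 : ∀ x : ↥P, x ∈ frattini ↥P → (x : L) = 1 ∨ (x : L) = z := fun x hx =>
    hzp _ ((hfr x).1 hx)
  -- the normalizer
  have hN : ∀ x : L, (∀ c ∈ P, x⁻¹ * c * x ∈ P) → x ∈ P := by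
    intro x hx
    let f : ↥P →* ↥P :=
      { toFun := fun c => ⟨x⁻¹ * c * x, hx c c.2⟩
        map_one' := by
          apply Subtype.ext
          simp
        map_mul' := by
          intro a b
          apply Subtype.ext
          simp only [Subgroup.coe_mul]
          group }
    have hf : Function.Injective f := by
      intro a b hab
      have : x⁻¹ * (a : L) * x = x⁻¹ * (b : L) * x := congrArg Subtype.val hab
      apply Subtype.ext
      simpa using this
    have hb : Function.Bijective f := Finite.injective_iff_bijective.1 hf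
    let e : ↥P ≃* ↥P := MulEquiv.ofBijective f hb
    have hchar : (frattini ↥P).Characteristic := inferInstance
    have hz0 : (⟨z, hzR⟩ : ↥P) ∈ frattini ↥P := (hfr _).2 (Subgroup.mem_zpowers z)
    have h1 : e ⟨z, hzR⟩ ∈ frattini ↥P := by
      have := hchar.fixed e
      rw [← this] at hz0
      exact hz0
    have h2 : x⁻¹ * z * x = 1 ∨ x⁻¹ * z * x = z := hfr1 _ h1
    rcases h2 with h2 | h2
    · exfalso
      apply hz1
      have : z = x * (x⁻¹ * z * x) * x⁻¹ := by group
      rw [this, h2]; group
    · rw [memP]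
      have h3 : x * (x⁻¹ * z * x) = z * x := by group
      rw [h2] at h3
      exact h3
  -- the transfer
  have hNo : ∀ u : L, u ∈ P → (∀ r ∈ P, r * u = u * r) → u * u = 1 → u ∈ Subgroup.zpowers z := by
    intro u huP hcen huu
    by_contra hu
    have hu' : (⟨u, huP⟩ : ↥P) ∉ frattini ↥P := fun h => hu ((hfr _).1 h)
    obtain ⟨M, hMn, hMi, -, hMu⟩ :=
      Cfsg.Agent.Lib.PGroup.Basic.exists_normal_index_notMem_of_notMem_frattini hP2 hu'
    let lam : ↥P →* ℤˣ := MonoidHom.mk' (fun r => if r ∈ M then 1 else -1) (by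
      intro a b
      have h2 := Subgroup.mul_mem_iff_of_index_two hMi (a := a) (b := b)
      by_cases ha : a ∈ M <;> by_cases hb : b ∈ M <;> simp [ha, hb, h2])
    have hlam : lam ⟨u, huP⟩ = -1 := by
      show (if (⟨u, huP⟩ : ↥P) ∈ M then (1 : ℤˣ) else -1) = -1
      rw [if_neg hMu]
    haveI : P.FiniteIndex := inferInstance
    have htr : lam.transfer u = (-1) ^ P.index :=
      Cfsg.Agent.Lib.Fusion.ThompsonTransfer.transfer_eq_neg_one_pow lam u huu P hP2 hcen
        (by
          intro x hx hv hc
          have hxP := hN x hc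
          have h1 : x⁻¹ * u * x = u := by
            have := hcen x hxP
            calc x⁻¹ * u * x = x⁻¹ * (u * x) := by group
              _ = x⁻¹ * (x * u) := by rw [this]
              _ = u := by group
          have h2 : (⟨x⁻¹ * u * x, hx⟩ : ↥P) = ⟨u, huP⟩ := Subtype.ext h1
          rw [h2, hlam] at hv
          exact absurd hv (by decide))
    have hodd : Odd P.index := by
      have := R.card_coprime_index
      have h3 : ¬ 2 ∣ P.index := R.not_dvd_index
      exact Nat.odd_iff.2 (by omega)
    rw [hodd.neg_one_pow] at htr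
    have hker : lam.transfer.ker = ⊤ := by
      rcases IsSimpleGroup.eq_bot_or_eq_top_of_normal lam.transfer.ker inferInstance with h | h
      · exfalso
        apply hL
        have hinj : Function.Injective lam.transfer := (MonoidHom.ker_eq_bot_iff _).1 h
        refine ⟨⟨fun a b => hinj ?_⟩⟩
        rw [map_mul, map_mul, mul_comm]
      · exact h
    have h1 : u ∈ lam.transfer.ker := by rw [hker]; exact Subgroup.mem_top u
    rw [MonoidHom.mem_ker, htr] at h1
    exact absurd h1 (by decide)
  -- Z*
  obtain ⟨g, hgP, hgne⟩ : ∃ g : L, g * z * g⁻¹ ∈ P ∧ g * z * g⁻¹ ≠ z := by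
    by_contra hno
    have hiso : ∀ g : L, g * z * g⁻¹ ∈ R → g * z * g⁻¹ = z := by
      intro g hg
      by_contra h
      exact hno ⟨g, hg, h⟩
    obtain ⟨N, hNn, hodd, hcomm⟩ := Cfsg.Agent.S0215.result R z hz hzR hiso
    rcases IsSimpleGroup.eq_bot_or_eq_top_of_normal N hNn with h | h
    · have hc : z ∈ Subgroup.center L := by
        rw [Subgroup.mem_center_iff]
        intro g
        have h1 := hcomm g
        rw [h, Subgroup.mem_bot] at h1
        have h2 : z * g * z⁻¹ = g := by
          have := mul_eq_one_iff_eq_inv.mp h1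
          rwa [inv_inv] at this
        calc g * z = z * g * z⁻¹ * z := by rw [h2]
          _ = z * g := by group
      rcases IsSimpleGroup.eq_bot_or_eq_top_of_normal (Subgroup.center L) inferInstance with h3 | h3
      · rw [h3, Subgroup.mem_bot] at hc
        exact hz1 hc
      · apply hL
        refine ⟨⟨fun a b => ?_⟩⟩
        have : b ∈ Subgroup.center L := by rw [h3]; exact Subgroup.mem_top b
        exact (Subgroup.mem_center_iff.1 this a)
    · rw [h, Subgroup.card_top] at hodd
      have hd : 2 ∣ Nat.card L := by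
        rw [← hz]; exact orderOf_dvd_natCard z
      exact (Nat.not_even_iff_odd.2 hodd) (even_iff_two_dvd.2 hd)
  set y : L := g * z * g⁻¹ with hydef
  have hyy : y * y = 1 := by
    rw [hydef]
    calc g * z * g⁻¹ * (g * z * g⁻¹) = g * (z * z) * g⁻¹ := by group
      _ = 1 := by rw [hzz]; group
  have hy1 : y ≠ 1 := by
    intro h
    apply hz1
    have : z = g⁻¹ * y * g := by rw [hydef]; group
    rw [this, h]; group
  -- centralizer of y
  have hcy : ∀ d : L, d * y = y * d → g⁻¹ * d * g ∈ P := by
    intro d hd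
    rw [memP]
    have : z = g⁻¹ * y * g := by rw [hydef]; group
    rw [this]
    calc g⁻¹ * d * g * (g⁻¹ * y * g) = g⁻¹ * (d * y) * g := by group
      _ = g⁻¹ * (y * d) * g := by rw [hd]
      _ = g⁻¹ * y * g * (g⁻¹ * d * g) := by group
  -- squares
  have hsq : ∀ x : ↥P, x * x = 1 ∨ x * x = ⟨z, hzR⟩ := by
    intro x
    have h1 : x * x ∈ frattini ↥P := by
      have := Cfsg.Agent.Lib.PGroup.Basic.pow_mem_frattini hP2 x
      rwa [pow_two] at this
    rcases hfr1 _ h1 with h | h
    · left; exact Subtype.ext h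
    · right; exact Subtype.ext h
  have hcm : ∀ x w : ↥P, x * w * x⁻¹ * w⁻¹ = 1 ∨ x * w * x⁻¹ * w⁻¹ = ⟨z, hzR⟩ := by
    intro x w
    have h1 := Cfsg.Agent.Lib.PGroup.Basic.commutatorElement_mem_frattini hP2 x w
    rw [commutatorElement_def] at h1
    rcases hfr1 _ h1 with h | h
    · left; exact Subtype.ext h
    · right; exact Subtype.ext h
  -- elements of C_R(y) are involutions
  have hDsq : ∀ d : ↥P, d * ⟨y, hgP⟩ = ⟨y, hgP⟩ * d → d * d = 1 := by
    intro d hd
    have hd' : (d : L) * y = y * d := congrArg Subtype.val hd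
    have h1 := hsq d
    have h2 := hsq ⟨_, hcy d hd'⟩
    rcases h1 with h1 | h1
    · exact h1
    · exfalso
      have h1' : (d : L) * d = z := congrArg Subtype.val h1
      rcases h2 with h2 | h2
      · have h3 : g⁻¹ * (d : L) * g * (g⁻¹ * d * g) = 1 := congrArg Subtype.val h2
        have h4 : g⁻¹ * ((d : L) * d) * g = 1 := by
          rw [← h3]; group
        rw [h1'] at h4
        apply hz1
        have : z = g * (g⁻¹ * z * g) * g⁻¹ := by group
        rw [this, h4]; group
      · have h3 : g⁻¹ * (d : L) * g * (g⁻¹ * d * g) = z := congrArg Subtype.val h2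
        have h4 : g⁻¹ * ((d : L) * d) * g = z := by
          rw [← h3]; group
        rw [h1'] at h4
        apply hgne
        rw [hydef]
        calc g * z * g⁻¹ = g * (g⁻¹ * z * g) * g⁻¹ := by rw [h4]
          _ = z := by group
  -- the centre
  have hCen : ∀ c : ↥P, (∀ x, c * x = x * c) → c = 1 ∨ c = ⟨z, hzR⟩ := by
    intro c hc
    have hcc : c * c = 1 := hDsq c (hc _)
    have h1 := hNo c c.2 (fun r hr => (congrArg Subtype.val (hc ⟨r, hr⟩)).symm)
      (congrArg Subtype.val hcc)
    rcases hzp _ h1 with h | h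
    · left; exact Subtype.ext h
    · right; exact Subtype.ext h
  -- y is not central
  obtain ⟨ρ, hρ⟩ : ∃ ρ : ↥P, ρ * ⟨y, hgP⟩ ≠ ⟨y, hgP⟩ * ρ := by
    by_contra hno
    push Not at hno
    have hgg : g ∈ P := by
      apply hN
      intro c hc
      exact hcy c (congrArg Subtype.val (hno ⟨c, hc⟩))
    apply hgne
    rw [hydef, (memP g).1 hgg]
    group
  have hρ1 : ρ * ⟨y, hgP⟩ * ρ⁻¹ = ⟨z, hzR⟩ * ⟨y, hgP⟩ := by
    rcases hcm ρ ⟨y, hgP⟩ with h | h
    · exfalso
      apply hρ
      have h2 : ρ * ⟨y, hgP⟩ * ρ⁻¹ = ⟨y, hgP⟩ := by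
        have := mul_eq_one_iff_eq_inv.mp h
        rwa [inv_inv] at this
      calc ρ * ⟨y, hgP⟩ = ρ * ⟨y, hgP⟩ * ρ⁻¹ * ρ := by group
        _ = ⟨y, hgP⟩ * ρ := by rw [h2]
    · have : ρ * ⟨y, hgP⟩ * ρ⁻¹ * (⟨y, hgP⟩ : ↥P)⁻¹ * ⟨y, hgP⟩ = ⟨z, hzR⟩ * ⟨y, hgP⟩ := by rw [h]
      simpa using this
  have hzc : ∀ x : ↥P, x * ⟨z, hzR⟩ = ⟨z, hzR⟩ * x := fun x =>
    Subtype.ext ((memP x).1 x.2)
  exact d8_of_data ⟨z, hzR⟩ ⟨y, hgP⟩ ρ (fun h => hz1 (congrArg Subtype.val h))
    (Subtype.ext hzz) hzc (Subtype.ext hyy) hρ1 hsq hcm hDsq hCen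


end Cfsg.Agent.S5435
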