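import Cfsg.Statements.S5436
import Mathlib
import Cfsg.Agent.Lib.PGroup.LargeFz

set_option autoImplicit false
open Cfsg

namespace Cfsg.Agent.S5436

open Cfsg.Agent.Lib.PGroup.LargeFz
open Cfsg.Agent.Lib.PGroup.FStarCentralizer
open Cfsg.Agent.Lib.PGroup.LargeExtraspecial

/-- Let z be an involution of the finite group G with centralizer H whose generalized Fitting subgroup Q is extraspecial of width at least 2 (order 2^(2w+1), w ≥ 2); suppose some conjugate of z other than z lies in Q, H/Q is a non-abelian simple group, H acts irreducibly by conjugation on Q modulo the subgroup generated by z (the only H-invariant subgroups of Q containing z are that subgroup and Q), and Q is not the subgroup generated by the conjugates of z lying in H. Then G is simple. -/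
theorem result {G : Type*} [Group G] [Finite G] (z : G) (hz : orderOf z = 2) (Q : Subgroup (Subgroup.centralizer ({z} : Set G))) [Q.Normal] (hF : Cfsg.generalizedFittingSubgroup ↥(Subgroup.centralizer ({z} : Set G)) = Q) (hQ : Cfsg.IsExtraspecial 2 ↥Q) (w : ℕ) (hw : 2 ≤ w) (hcard : Nat.card ↥Q = 2 ^ (2 * w + 1)) (hnwc : ∃ g : G, (∃ hq : g * z * g⁻¹ ∈ Subgroup.centralizer ({z} : Set G), (⟨g * z * g⁻¹, hq⟩ : Subgroup.centralizer ({z} : Set G)) ∈ Q) ∧ g * z * g⁻¹ ≠ z) (hsimp : IsSimpleGroup (↥(Subgroup.centralizer ({z} : Set G)) ⧸ Q)) (hna : ¬ IsMulCommutative (↥(Subgroup.centralizer ({z} : Set G)) ⧸ Q)) (hirr : ∀ W : Subgroup (Subgroup.centralizer ({z} : Set G)), W.Normal → W ≤ Q → (W = Q ∨ ∀ x ∈ W, (x : G) ∈ Subgroup.zpowers z)) (hwcl : Subgroup.closure {x : Subgroup.centralizer ({z} : Set G) | IsConj z (x : G)} ≠ Q) : IsSimpleGroup G := by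
  have hfz : fz z = Q.map (Subgroup.centralizer ({z} : Set G)).subtype := by
    unfold fz; rw [hF]
  have hE0 : Cfsg.IsExtraspecial 2 ↥(Cfsg.generalizedFittingSubgroup ↥(Subgroup.centralizer ({z} : Set G))) := by
    rw [hF]; exact hQ
  have hE : Cfsg.IsExtraspecial 2 ↥(fz z) := (extraspecial_fz_iff z).2 hE0
  have hcard' : Nat.card ↥(fz z) = 2 ^ (2 * w + 1) := by
    rw [hfz, ← hcard]
    exact Nat.card_congr (Q.equivMapOfInjective _ (Subgroup.centralizer ({z} : Set G)).subtype_injective).symm.toEquiv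
  have L := large_fz hz hE0
  obtain ⟨g, ⟨hq, hgQ⟩, hgz⟩ := hnwc
  have hg : g * z * g⁻¹ ∈ fz z := by
    rw [hfz]; exact ⟨⟨_, hq⟩, hgQ, rfl⟩
  have hLarge := isLarge_of_conj hz hE w hw hcard' hg hgz
  have hanot : g * z * g⁻¹ ∉ Subgroup.zpowers z := by
    intro h
    rcases (mem_zpowers_iff_invol L.z_sq).1 h with h1 | h1
    · apply L.z_ne
      have : z = g⁻¹ * (g * z * g⁻¹) * g := by group
      rw [this, h1]; group
    · exact hgz h1
  haveI : Nontrivial G := ⟨z, 1, L.z_ne⟩
  refine ⟨fun N hN => ?_⟩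
  by_cases hbot : N = ⊥
  · exact Or.inl hbot
  right
  have hzN := z_mem_of_normal hz hE hLarge hN hbot
  have haN : g * z * g⁻¹ ∈ N := hN.conj_mem z hzN g
  obtain ⟨C, hC⟩ : ∃ C, C = Subgroup.centralizer ({z} : Set G) := ⟨_, rfl⟩
  have hKn : (N.subgroupOf (Subgroup.centralizer ({z} : Set G))).Normal := Subgroup.Normal.subgroupOf hN _
  have hW := hirr (N.subgroupOf (Subgroup.centralizer ({z} : Set G)) ⊓ Q) inferInstance inf_le_right
  have hQK : Q ≤ N.subgroupOf (Subgroup.centralizer ({z} : Set G)) := by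
    rcases hW with hW | hW
    · rw [← hW]; exact inf_le_left
    · exfalso
      apply hanot
      exact hW ⟨_, hq⟩ ⟨Subgroup.mem_subgroupOf.2 haN, hgQ⟩
  have hT : Subgroup.closure {x : Subgroup.centralizer ({z} : Set G) | IsConj z (x : G)} ≤
      N.subgroupOf (Subgroup.centralizer ({z} : Set G)) := by
    rw [Subgroup.closure_le]
    intro x hx
    obtain ⟨h, hh⟩ := isConj_iff.1 hx
    rw [SetLike.mem_coe, Subgroup.mem_subgroupOf, ← hh]
    exact hN.conj_mem z hzN h
  rcases hsimp.eq_bot_or_eq_top_of_normal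
      ((N.subgroupOf (Subgroup.centralizer ({z} : Set G))).map (QuotientGroup.mk' Q))
      (Subgroup.Normal.map hKn _ (QuotientGroup.mk'_surjective Q)) with h | h
  · exfalso
    have hKQ : N.subgroupOf (Subgroup.centralizer ({z} : Set G)) ≤ Q := by
      intro k hk
      have h1 : QuotientGroup.mk' Q k ∈ (N.subgroupOf (Subgroup.centralizer ({z} : Set G))).map (QuotientGroup.mk' Q) :=
        ⟨k, hk, rfl⟩
      rw [h, Subgroup.mem_bot] at h1
      exact (QuotientGroup.eq_one_iff k).1 h1
    have hTn : (Subgroup.closure {x : Subgroup.centralizer ({z} : Set G) | IsConj z (x : G)}).Normal := by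
      constructor
      intro n hn c
      induction hn using Subgroup.closure_induction with
      | mem x hx =>
        apply Subgroup.subset_closure
        have hx' : IsConj z (x : G) := hx
        refine hx'.trans ?_
        exact isConj_iff.2 ⟨c, rfl⟩
      | one => simp
      | mul a b _ _ ha hb =>
        have e : c * (a * b) * c⁻¹ = (c * a * c⁻¹) * (c * b * c⁻¹) := by group
        rw [e]
        exact Subgroup.mul_mem _ ha hb
      | inv a _ ha =>
        have e : c * a⁻¹ * c⁻¹ = (c * a * c⁻¹)⁻¹ := by group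
        rw [e]
        exact Subgroup.inv_mem _ ha
    rcases hirr _ hTn (hT.trans hKQ) with h2 | h2
    · exact hwcl h2
    · apply hanot
      exact h2 ⟨_, hq⟩ (Subgroup.subset_closure (isConj_iff.2 ⟨g, rfl⟩))
  · refine eq_top_of_centralizer_le hz hE hN ?_
    intro c hc
    have h1 : QuotientGroup.mk' Q ⟨c, hc⟩ ∈ (N.subgroupOf (Subgroup.centralizer ({z} : Set G))).map (QuotientGroup.mk' Q) := by
      rw [h]; trivial
    obtain ⟨k, hk, hke⟩ := h1
    have h2 : k⁻¹ * ⟨c, hc⟩ ∈ Q := by
      have := (QuotientGroup.eq (s := Q) (a := k) (b := ⟨c, hc⟩)).1 hke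
      exact this
    have h3 := Subgroup.mem_subgroupOf.1 (hQK h2)
    have hk := Subgroup.mem_subgroupOf.1 (SetLike.mem_coe.1 hk)
    have h4 : c = (k : G) * ((k⁻¹ * ⟨c, hc⟩ : ↥(Subgroup.centralizer ({z} : Set G))) : G) := by
      simp
    rw [h4]
    exact N.mul_mem hk h3

end Cfsg.Agent.S5436
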