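import Cfsg.Statements.S5437
import Mathlib
-- import your own Cfsg.Agent.* helpers here

set_option autoImplicit false
open Cfsg

namespace Cfsg.Agent.S5437

/-- Let I be a set of involutions of the finite group G closed under conjugation, and H a subgroup of G. The following are equivalent: (1) for every member x of I lying in H, the conjugates of x lying in H form a single H-class and the centralizer of x lies in H; (2) for every g outside H, no member of I lies in both H and g H g⁻¹; (3) every member of I lying in H fixes exactly one coset in the action of G on the cosets of H. -/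
theorem result {G : Type*} [Group G] [Finite G] (I : Set G) (hI : ∀ x ∈ I, orderOf x = 2) (hIc : ∀ g : G, ∀ x ∈ I, g * x * g⁻¹ ∈ I) (H : Subgroup G) : ((∀ x ∈ I, x ∈ H → (∀ g : G, g * x * g⁻¹ ∈ H → ∃ h ∈ H, h * x * h⁻¹ = g * x * g⁻¹) ∧ Subgroup.centralizer ({x} : Set G) ≤ H) ↔ (∀ g : G, g ∉ H → ∀ x ∈ I, ¬ (x ∈ H ∧ x ∈ (H : Subgroup G).map (MulAut.conj g).toMonoidHom))) ∧ ((∀ g : G, g ∉ H → ∀ x ∈ I, ¬ (x ∈ H ∧ x ∈ (H : Subgroup G).map (MulAut.conj g).toMonoidHom)) ↔ ∀ x ∈ I, x ∈ H → ∃! c : G ⧸ H, x • c = c) := by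
  have hmapconj : ∀ (g z : G), z ∈ H.map (MulAut.conj g).toMonoidHom ↔ g⁻¹ * z * g ∈ H := by
    intro g z
    simp only [Subgroup.mem_map]
    constructor
    · rintro ⟨w, hw, rfl⟩
      simpa [MulAut.conj_apply, mul_assoc] using hw
    · intro h
      exact ⟨_, h, by simp [MulAut.conj_apply, mul_assoc]⟩
  have hfix : ∀ (g x : G), x • (QuotientGroup.mk g : G ⧸ H) = (QuotientGroup.mk g : G ⧸ H) ↔ g⁻¹ * x * g ∈ H := by
    intro g x
    rw [MulAction.Quotient.smul_mk, QuotientGroup.eq]
    have hinv : (x • g)⁻¹ * g = (g⁻¹ * x * g)⁻¹ := by simp [mul_assoc]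
    rw [hinv, H.inv_mem_iff]
  refine ⟨⟨?_, ?_⟩, ⟨?_, ?_⟩⟩
  · intro h1 g hg x hxI ⟨hxH, hxg⟩
    rw [hmapconj] at hxg
    obtain ⟨hfus, hcent⟩ := h1 x hxI hxH
    obtain ⟨h, hh, hhe⟩ := hfus g⁻¹ (by simpa using hxg)
    have : g * h ∈ Subgroup.centralizer ({x} : Set G) := by
      rw [Subgroup.mem_centralizer_singleton_iff]
      have h2 : g * (h * x * h⁻¹) * g⁻¹ = x := by rw [hhe]; simp [mul_assoc]
      calc g * h * x = g * (h * x * h⁻¹) * g⁻¹ * (g * h) := by simp [mul_assoc]
        _ = x * (g * h) := by rw [h2]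
    have h3 := hcent this
    exact hg (by simpa using H.mul_mem h3 (H.inv_mem hh))
  · intro h2 x hxI hxH
    constructor
    · intro g hg
      have : g ∈ H := by
        by_contra hgH
        have hgH' : g⁻¹ ∉ H := fun h => hgH (by simpa using H.inv_mem h)
        apply h2 g⁻¹ hgH' x hxI
        refine ⟨hxH, ?_⟩
        rw [hmapconj]
        simpa using hg
      exact ⟨g, this, rfl⟩
    · intro g hg
      by_contra hgH
      apply h2 g hgH x hxI
      refine ⟨hxH, ?_⟩
      rw [hmapconj]
      have : x * g = g * x := (Subgroup.mem_centralizer_singleton_iff.mp hg).symm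
      have h5 : g⁻¹ * x * g = x := by
        rw [mul_assoc, this]; simp
      rwa [h5]
  · intro h2 x hxI hxH
    refine ⟨(QuotientGroup.mk 1 : G ⧸ H), ?_, ?_⟩
    · show x • (QuotientGroup.mk 1 : G ⧸ H) = _
      rw [hfix]
      simpa using hxH
    · intro c hc
      induction c using QuotientGroup.induction_on with
      | H g =>
        rw [hfix] at hc
        have hg : g ∈ H := by
          by_contra hgH
          apply h2 g hgH x hxI
          exact ⟨hxH, (hmapconj _ _).mpr hc⟩
        rw [QuotientGroup.eq]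
        simpa using H.inv_mem hg
  · intro h3 g hg x hxI ⟨hxH, hxg⟩
    rw [hmapconj] at hxg
    obtain ⟨c, _, huniq⟩ := h3 x hxI hxH
    have h1 := huniq (QuotientGroup.mk 1 : G ⧸ H) (by show x • (QuotientGroup.mk 1 : G ⧸ H) = _; rw [hfix]; simpa using hxH)
    have h4 := huniq (QuotientGroup.mk g : G ⧸ H) (by show x • (QuotientGroup.mk g : G ⧸ H) = _; rw [hfix]; exact hxg)
    have h5 : (QuotientGroup.mk g : G ⧸ H) = QuotientGroup.mk 1 := h4.trans h1.symm
    rw [QuotientGroup.eq] at h5
    apply hg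
    simpa using H.inv_mem h5

end Cfsg.Agent.S5437
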