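import Cfsg.Statements.S5438
import Mathlib
import Cfsg.Agent.Lib.Basic.SylowUtil
import Cfsg.Agent.Lib.Transfer.Basic

set_option autoImplicit false
open Cfsg

namespace Cfsg.Agent.S5438

open Subgroup
open Cfsg.Agent.Lib.Basic.SylowUtil

section

variable {G : Type*} [Group G] [Finite G]

/-- A `2`-element of a subgroup `L` can be conjugated in `L` into any given Sylow `2`-subgroup of `L`. -/
theorem exists_conj_mem_sylow {L : Subgroup G} (S : Sylow 2 L) {b : G} (hb : b ∈ L) {k : ℕ}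
    (hk : orderOf b = 2 ^ k) : ∃ c ∈ L, ∃ hm : c * b * c⁻¹ ∈ L, (⟨c * b * c⁻¹, hm⟩ : L) ∈ S := by
  haveI : Fact (Nat.Prime 2) := ⟨Nat.prime_two⟩
  have hk' : orderOf (⟨b, hb⟩ : L) = 2 ^ k := by rw [Subgroup.orderOf_mk, hk]
  obtain ⟨S₂, hS₂⟩ := exists_sylow_of_orderOf hk'
  obtain ⟨c, hc⟩ := MulAction.exists_smul_eq L S₂ S
  refine ⟨c, c.2, mul_mem (mul_mem c.2 hb) (inv_mem c.2), ?_⟩
  rw [← hc]
  show _ ∈ ((c • S₂ : Sylow 2 L) : Subgroup L)
  rw [Sylow.coe_subgroup_smul]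
  exact Subgroup.smul_mem_pointwise_smul _ (MulAut.conj c) (S₂ : Subgroup L) hS₂

end

/-- Let z be a 2-central involution of the finite group G (an involution central in some Sylow 2-subgroup) and H a subgroup containing z such that the coset H is the only coset of H fixed by z (in the action of G on the cosets of H). Then H has odd index in G, and for every 2-element x of H the conjugates of x lying in H form a single H-class. -/
theorem result {G : Type*} [Group G] [Finite G] (z : G) (hz : Cfsg.IsTwoCentralInvolution z) (H : Subgroup G) (hzH : z ∈ H) (hfix : ∀ g : G, g⁻¹ * z * g ∈ H → g ∈ H) : Odd H.index ∧ ∀ x ∈ H, (∃ k : ℕ, orderOf x = 2 ^ k) → ∀ g : G, g * x * g⁻¹ ∈ H → ∃ h ∈ H, h * x * h⁻¹ = g * x * g⁻¹ := by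
  classical
  haveI : Fact (Nat.Prime 2) := ⟨Nat.prime_two⟩
  obtain ⟨hz2, P, hzP, hzc⟩ := hz
  have hzz : z * z = 1 := by
    rw [← sq, ← hz2]
    exact pow_orderOf_eq_one z
  have hzi : z⁻¹ = z := inv_eq_of_mul_eq_one_left hzz
  -- the index is odd
  have hzp : IsPGroup 2 (zpowers z) := by
    apply IsPGroup.of_card (n := 1)
    rw [Nat.card_zpowers, hz2]
    rfl
  have hmemfix : ∀ t : G, (z • (QuotientGroup.mk t : G ⧸ H) = QuotientGroup.mk t) → t ∈ H := by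
    intro t ht
    apply hfix
    have h1 : (QuotientGroup.mk (z * t) : G ⧸ H) = QuotientGroup.mk t := ht
    rw [QuotientGroup.eq] at h1
    have h2 : (z * t)⁻¹ * t = t⁻¹ * z⁻¹ * t := by group
    rw [h2, hzi] at h1
    exact h1
  have hodd : ¬ 2 ∣ H.index := by
    intro hd
    have h1 := hzp.card_modEq_card_fixedPoints (G ⧸ H)
    have h2 : Nat.card (MulAction.fixedPoints (zpowers z) (G ⧸ H)) = 1 := by
      rw [Nat.card_eq_one_iff_unique]
      refine ⟨⟨?_⟩, ⟨⟨QuotientGroup.mk 1, ?_⟩⟩⟩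
      · rintro ⟨a, ha⟩ ⟨b, hb⟩
        have key : ∀ q : G ⧸ H, q ∈ MulAction.fixedPoints (zpowers z) (G ⧸ H) → q = QuotientGroup.mk 1 := by
          intro q hq
          obtain ⟨t, rfl⟩ := QuotientGroup.mk_surjective q
          have h3 := hq ⟨z, mem_zpowers z⟩
          have h4 := hmemfix t h3
          rw [QuotientGroup.eq]
          simpa using h4
        exact Subtype.ext ((key a ha).trans (key b hb).symm)
      · rintro ⟨_, ⟨n, rfl⟩⟩
        show (z ^ n) • (QuotientGroup.mk 1 : G ⧸ H) = QuotientGroup.mk 1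
        have h3 : z ^ n ∈ H := zpow_mem hzH n
        show (QuotientGroup.mk (z ^ n * 1) : G ⧸ H) = QuotientGroup.mk 1
        rw [QuotientGroup.eq]
        simpa using h3
    rw [h2] at h1
    have h3 : Nat.card (G ⧸ H) % 2 = 1 := h1
    have h4 : Nat.card (G ⧸ H) % 2 = 0 := Nat.mod_eq_zero_of_dvd hd
    omega
  refine ⟨Nat.odd_iff.mpr (by omega), ?_⟩
  -- `P` lies in `H`
  have hPH : (P : Subgroup G) ≤ H := by
    intro c hc
    apply hfix
    have h1 : c⁻¹ * z * c = z := by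
      calc c⁻¹ * z * c = c⁻¹ * (z * c) := by group
        _ = c⁻¹ * (c * z) := by rw [hzc c hc]
        _ = z := by group
    rw [h1]
    exact hzH
  -- 2-subgroups containing `z` lie in `H`
  have h2grp : ∀ R : Subgroup G, IsPGroup 2 R → z ∈ R → R ≤ H := by
    intro R hR hzR
    haveI : Finite (G ⧸ H) := inferInstance
    obtain ⟨q, hq⟩ := hR.nonempty_fixed_point_of_prime_not_dvd_card (G ⧸ H) hodd
    obtain ⟨t, rfl⟩ := QuotientGroup.mk_surjective q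
    have htH : t ∈ H := hmemfix t (hq ⟨z, hzR⟩)
    intro r hr
    have h1 : (QuotientGroup.mk (r * t) : G ⧸ H) = QuotientGroup.mk t := hq ⟨r, hr⟩
    rw [QuotientGroup.eq] at h1
    have h2 : r⁻¹ = t * ((r * t)⁻¹ * t) * t⁻¹ := by group
    have h3 : r⁻¹ ∈ H := by
      rw [h2]
      exact mul_mem (mul_mem htH h1) (inv_mem htH)
    simpa using h3
  intro x hxH hx2 g hgx
  obtain ⟨k, hk⟩ := hx2
  have hk2 : orderOf (g * x * g⁻¹) = 2 ^ k := by
    rw [← hk]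
    exact Cfsg.Agent.Lib.Transfer.Basic.orderOf_conj_eq g x
  -- conjugate into `P`
  let S : Sylow 2 H := P.subtype hPH
  have hSmem : ∀ u : H, u ∈ S → (u : G) ∈ (P : Subgroup G) := by
    intro u hu
    have h1 : u ∈ (S : Subgroup H) := hu
    rw [Sylow.coe_subtype] at h1
    exact h1
  obtain ⟨h₁, hh₁, hm₁, hS₁⟩ := exists_conj_mem_sylow S hxH hk
  obtain ⟨h₂, hh₂, hm₂, hS₂⟩ := exists_conj_mem_sylow S hgx hk2
  have hx₁ := hSmem _ hS₁
  have hy₁ := hSmem _ hS₂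
  simp only at hx₁ hy₁
  set x₁ := h₁ * x * h₁⁻¹ with hx₁def
  set y₁ := h₂ * (g * x * g⁻¹) * h₂⁻¹ with hy₁def
  set g₁ := h₂ * g * h₁⁻¹ with hg₁def
  have hg₁y : g₁ * x₁ * g₁⁻¹ = y₁ := by
    rw [hg₁def, hx₁def, hy₁def]
    group
  -- `z` and its `g₁`-conjugate lie in `C(y₁)`
  let L : Subgroup G := centralizer ({y₁} : Set G)
  have hzL : z ∈ L := by
    rw [mem_centralizer_singleton_iff]
    exact (hzc y₁ hy₁).symm
  have hz'L : g₁ * z * g₁⁻¹ ∈ L := by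
    rw [mem_centralizer_singleton_iff, ← hg₁y]
    have h1 := hzc x₁ hx₁
    calc g₁ * z * g₁⁻¹ * (g₁ * x₁ * g₁⁻¹) = g₁ * (z * x₁) * g₁⁻¹ := by group
      _ = g₁ * (x₁ * z) * g₁⁻¹ := by rw [h1]
      _ = g₁ * x₁ * g₁⁻¹ * (g₁ * z * g₁⁻¹) := by group
  have hz'o : orderOf (g₁ * z * g₁⁻¹) = 2 ^ 1 := by
    rw [Cfsg.Agent.Lib.Transfer.Basic.orderOf_conj_eq, hz2]
    rfl
  have hzo : orderOf (⟨z, hzL⟩ : L) = 2 ^ 1 := by
    rw [Subgroup.orderOf_mk, hz2]
    rfl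
  obtain ⟨R₀, hR₀⟩ := exists_sylow_of_orderOf hzo
  obtain ⟨c, hcL, hm, hcS⟩ := exists_conj_mem_sylow R₀ hz'L hz'o
  have hRH := h2grp ((R₀ : Subgroup L).map L.subtype) (R₀.isPGroup'.map _) ⟨⟨z, hzL⟩, hR₀, rfl⟩
  have hc1 : c * (g₁ * z * g₁⁻¹) * c⁻¹ ∈ H := hRH ⟨_, hcS, rfl⟩
  have hcg : c * g₁ ∈ H := by
    rw [← inv_mem_iff]
    apply hfix
    have e : (c * g₁)⁻¹⁻¹ * z * (c * g₁)⁻¹ = c * (g₁ * z * g₁⁻¹) * c⁻¹ := by group
    rw [e]
    exact hc1
  have hcy : c * y₁ * c⁻¹ = y₁ := by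
    have h1 : c * y₁ = y₁ * c := mem_centralizer_singleton_iff.mp hcL
    rw [h1]
    group
  refine ⟨h₂⁻¹ * (c * g₁) * h₁, mul_mem (mul_mem (inv_mem hh₂) hcg) hh₁, ?_⟩
  have e1 : h₂⁻¹ * (c * g₁) * h₁ * x * (h₂⁻¹ * (c * g₁) * h₁)⁻¹
      = h₂⁻¹ * (c * (g₁ * x₁ * g₁⁻¹) * c⁻¹) * h₂ := by
    rw [hx₁def]
    group
  rw [e1, hg₁y, hcy, hy₁def]
  group

end Cfsg.Agent.S5438
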