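import Cfsg.Statements.S5439
import Mathlib
import Cfsg.Agent.Lib.Basic.InvolutionPairs
import Cfsg.Agent.Lib.Basic.ConjCount
-- import your own Cfsg.Agent.* helpers here

set_option autoImplicit false
open Cfsg

namespace Cfsg.Agent.S5439

/-- Let I and J be two different conjugacy classes of involutions of the finite group G and H a subgroup such that every member of I ∪ J fixes exactly one coset in the action on the cosets of H, and such that for every a in I ∩ H and every b in (I ∪ J) ∩ H different from a and commuting with it, the centralizer of a b lies in H. Then H = G. -/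
theorem result {G : Type*} [Group G] [Finite G] (I J : Set G) (a₀ b₀ : G) (ha₀ : orderOf a₀ = 2) (hb₀ : orderOf b₀ = 2) (hI : I = {x | IsConj a₀ x}) (hJ : J = {x | IsConj b₀ x}) (hIJ : I ≠ J) (H : Subgroup G) (hfix : ∀ x ∈ I ∪ J, ∃! c : G ⧸ H, x • c = c) (hcent : ∀ a ∈ I, a ∈ H → ∀ b ∈ I ∪ J, b ∈ H → a ≠ b → a * b = b * a → Subgroup.centralizer ({a * b} : Set G) ≤ H) : H = ⊤ := by
  classical
  have hsm : ∀ x y : G, x • (y : G ⧸ H) = ((x * y : G) : G ⧸ H) := fun _ _ => rfl
  have ha0I : a₀ ∈ I := by rw [hI]; exact IsConj.refl _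
  have hb0J : b₀ ∈ J := by rw [hJ]; exact IsConj.refl _
  -- conjugates into `H`
  have hconjH : ∀ x ∈ I ∪ J, ∃ g : G, g⁻¹ * x * g ∈ H := by
    intro x hx
    obtain ⟨c, hc, _⟩ := hfix x hx
    obtain ⟨g, rfl⟩ := QuotientGroup.mk_surjective c
    refine ⟨g, ?_⟩
    rw [hsm] at hc
    have := QuotientGroup.eq.mp hc.symm
    simpa [mul_assoc] using this
  obtain ⟨g0, hg0⟩ := hconjH a₀ (Or.inl ha0I)
  obtain ⟨g1, hg1⟩ := hconjH b₀ (Or.inr hb0J)
  set a := g0⁻¹ * a₀ * g0 with ha
  set b1 := g1⁻¹ * b₀ * g1 with hb1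
  clear_value a b1
  have hconj : ∀ (g x : G), IsConj x (g⁻¹ * x * g) := by
    intro g x
    rw [isConj_iff]
    exact ⟨g⁻¹, by simp⟩
  have haI : a ∈ I := by rw [hI, ha]; exact hconj g0 a₀
  have hb1J : b1 ∈ J := by rw [hJ, hb1]; exact hconj g1 b₀
  have hoa : orderOf a = 2 := by
    rw [← ha₀]
    rw [ha]
    exact (Cfsg.Agent.Lib.Basic.ConjCount.orderOf_eq_of_isConj (hconj g0 a₀)).symm
  by_contra hne
  obtain ⟨g, hg⟩ : ∃ g : G, g ∉ H := by
    by_contra hall
    push Not at hall
    exact hne (eq_top_iff.mpr fun x _ => hall x)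
  set b := g * b1 * g⁻¹ with hb
  clear_value b
  have hbJ : b ∈ J := by
    rw [hJ]
    have h1 : IsConj b₀ b1 := by rw [hb1]; exact hconj g1 b₀
    have h2 : IsConj b1 b := by
      rw [isConj_iff]
      exact ⟨g, hb.symm⟩
    exact h1.trans h2
  have hob : orderOf b = 2 := by
    rw [← hb₀]
    rw [hJ] at hbJ
    exact (Cfsg.Agent.Lib.Basic.ConjCount.orderOf_eq_of_isConj hbJ).symm
  have hbg : b • (g : G ⧸ H) = (g : G ⧸ H) := by
    rw [hsm]
    symm
    rw [QuotientGroup.eq]
    have : g⁻¹ * (b * g) = b1 := by rw [hb]; group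
    rw [this]
    exact hg1
  have haa : a * a = 1 := by rw [← pow_two, ← hoa, pow_orderOf_eq_one]
  have hbb : b * b = 1 := by rw [← pow_two, ← hob, pow_orderOf_eq_one]
  have hainv : a⁻¹ = a := inv_eq_of_mul_eq_one_left haa
  have hbinv : b⁻¹ = b := inv_eq_of_mul_eq_one_left hbb
  set w := a * b with hw
  clear_value w
  -- `a` and `b` are not conjugate, so `w` has even order
  have hnotconj : ¬ IsConj a b := by
    intro h
    apply hIJ
    rw [hI, hJ]
    have hab0 : IsConj a₀ b₀ := by
      have h1 : IsConj a₀ a := by rw [ha]; exact hconj g0 a₀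
      have h2 : IsConj b₀ b := by rw [hJ] at hbJ; exact hbJ
      exact (h1.trans h).trans h2.symm
    ext x
    exact ⟨fun hx => hab0.symm.trans hx, fun hx => hab0.trans hx⟩
  have heven : Even (orderOf w) := by
    rw [← Nat.not_odd_iff_even]
    intro hodd
    exact hnotconj (Cfsg.Agent.Lib.Basic.InvolutionPairs.isConj_of_odd_orderOf_mul hoa hob (by rw [← hw]; exact hodd))
  obtain ⟨m, hm⟩ := heven
  have hwm : w ^ (m + m) = 1 := by rw [← hm, pow_orderOf_eq_one]
  have hordpos : 0 < orderOf w := orderOf_pos w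
  have ht1 : w ^ m ≠ 1 := pow_ne_one_of_lt_orderOf (by omega) (by omega)
  have hsa : SemiconjBy a w w⁻¹ := by
    show a * w = w⁻¹ * a
    rw [hw, mul_inv_rev, hbinv, hainv, ← mul_assoc, haa, one_mul, mul_assoc, haa, mul_one]
  have hsb : SemiconjBy b w w⁻¹ := by
    show b * w = w⁻¹ * b
    rw [hw, mul_inv_rev, hbinv, hainv, mul_assoc]
  have hinvm : (w⁻¹) ^ m = w ^ m := by
    rw [inv_pow]
    exact inv_eq_of_mul_eq_one_left (by rw [← pow_add, hwm])
  set t := w ^ m with ht
  clear_value t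
  have hta : a * t = t * a := by
    have := (hsa.pow_right m).eq
    rw [hinvm, ← ht] at this
    exact this
  have htb : b * t = t * b := by
    have := (hsb.pow_right m).eq
    rw [hinvm, ← ht] at this
    exact this
  have haH : a ∈ H := hg0
  -- `t` lies in `H`, since `a` fixes only the trivial coset
  have htH : t ∈ H := by
    obtain ⟨c, _, hcu⟩ := hfix a (Or.inl haI)
    have h1 : a • ((1 : G) : G ⧸ H) = ((1 : G) : G ⧸ H) := by
      rw [hsm, QuotientGroup.eq]
      simpa using haH
    have h2 : a • (t : G ⧸ H) = (t : G ⧸ H) := by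
      rw [hsm, QuotientGroup.eq, hta]
      simpa using haH
    have h3 := (hcu _ h1).trans (hcu _ h2).symm
    have := QuotientGroup.eq.mp h3
    simpa using this
  -- `a * t` lies in `I ∪ J`
  have hat : a * t ∈ I ∪ J := by
    rcases Nat.even_or_odd' m with ⟨k, hk | hk⟩
    · left
      rw [hI]
      have h1 : IsConj a₀ a := by rw [ha]; exact hconj g0 a₀
      refine h1.trans ?_
      rw [isConj_iff]
      refine ⟨w ^ k, ?_⟩
      have h2 : a * (w⁻¹) ^ k = w ^ k * a := by
        have := (hsa.inv_right.pow_right k).eq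
        simpa using this
      calc w ^ k * a * (w ^ k)⁻¹ = w ^ k * (a * (w⁻¹) ^ k) := by rw [inv_pow, mul_assoc]
        _ = w ^ k * (w ^ k * a) := by rw [h2]
        _ = w ^ (k + k) * a := by rw [pow_add, mul_assoc]
        _ = t * a := by rw [ht, hk, two_mul]
        _ = a * t := hta.symm
    · right
      rw [hJ]
      have h1 : IsConj b₀ b := by rw [hJ] at hbJ; exact hbJ
      refine h1.trans ?_
      rw [isConj_iff]
      refine ⟨(w⁻¹) ^ k, ?_⟩
      have h2 : b * w ^ k = (w⁻¹) ^ k * b := (hsb.pow_right k).eq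
      have h3 : a * w = b := by rw [hw, ← mul_assoc, haa, one_mul]
      have h4 : ((w⁻¹) ^ k)⁻¹ = w ^ k := by simp
      have h2k : b * w ^ (2 * k) = (w⁻¹) ^ (2 * k) * b := (hsb.pow_right (2 * k)).eq
      have e1 : a * t = b * w ^ (2 * k) := by
        rw [ht, hk, pow_succ', ← mul_assoc, h3]
      have e2 : (w⁻¹) ^ k * b * ((w⁻¹) ^ k)⁻¹ = (w⁻¹) ^ (2 * k) * b := by
        rw [h4, mul_assoc, h2, ← mul_assoc, ← pow_add, two_mul]
      rw [e2, e1, h2k]
  have hatH : a * t ∈ H := mul_mem haH htH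
  have hane : a ≠ a * t := by
    intro h
    apply ht1
    have : a * t = a * 1 := by rw [mul_one]; exact h.symm
    exact mul_left_cancel this
  have hcomm : a * (a * t) = (a * t) * a := by
    rw [mul_assoc, ← hta]
  have hCle := hcent a haI haH (a * t) hat hatH hane hcomm
  have hbmem : b ∈ Subgroup.centralizer ({a * (a * t)} : Set G) := by
    have h0 : a * (a * t) = t := by rw [← mul_assoc, haa, one_mul]
    rw [h0, Subgroup.mem_centralizer_singleton_iff]
    exact htb
  have hbH : b ∈ H := hCle hbmem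
  -- `b` fixes both the trivial coset and the coset of `g`
  obtain ⟨c, _, hcu⟩ := hfix b (Or.inr hbJ)
  have h1 : b • ((1 : G) : G ⧸ H) = ((1 : G) : G ⧸ H) := by
    rw [hsm, QuotientGroup.eq]
    simpa using hbH
  have h3 := (hcu _ h1).trans (hcu _ hbg).symm
  have := QuotientGroup.eq.mp h3
  exact hg (by simpa using this)

end Cfsg.Agent.S5439
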