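import Cfsg.Statements.S5453
import Mathlib
import Cfsg.Agent.Lib.Fischer.LiftCent
import Cfsg.Agent.Lib.Fischer.LiftPrim
import Cfsg.Agent.Lib.Fischer.M22.LiftFi22
import Cfsg.Agent.Lib.Fischer.M22.ExplicitTransport
-- import your own Cfsg.Agent.* helpers here

set_option autoImplicit false
open Cfsg

namespace Cfsg.Agent.S5453



/-- Let G be a finite group with an involution d whose centralizer C is quasisimple, such that C modulo the subgroup generated by d is of type M(22) with respect to some conjugacy class of 3-transpositions generating it and also has an involution whose own centralizer is quasisimple with quotient by it isomorphic to the projective special unitary group of dimension 6 over the field with four elements and which is not weakly closed in that centralizer; and suppose some conjugate of d other than d commutes with d. Then every involution of C modulo the subgroup generated by d is the image of an involution of C, and d is not a square in G. -/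
theorem result {G : Type*} [Group G] [Finite G] (d : G) (hd : orderOf d = 2) (hq : Cfsg.IsQuasisimple ↥(Subgroup.centralizer ({d} : Set G))) [hzn : ((Subgroup.zpowers d).subgroupOf (Subgroup.centralizer ({d} : Set G))).Normal] (htype : ∃ E : Set (↥(Subgroup.centralizer ({d} : Set G)) ⧸ (Subgroup.zpowers d).subgroupOf (Subgroup.centralizer ({d} : Set G))), Cfsg.IsThreeTranspositionClass E ∧ Cfsg.IsOfTypeM22 _ E) (hinvol : ∃ d' : ↥(Subgroup.centralizer ({d} : Set G)) ⧸ (Subgroup.zpowers d).subgroupOf (Subgroup.centralizer ({d} : Set G)), orderOf d' = 2 ∧ Cfsg.IsQuasisimple ↥(Subgroup.centralizer ({d'} : Set _)) ∧ (∃ (K : Type) (_ : Field K) (_ : Fintype K), Fintype.card K = 4 ∧ ∃ _ : ((Subgroup.zpowers d').subgroupOf (Subgroup.centralizer ({d'} : Set _))).Normal, Nonempty (↥(Subgroup.centralizer ({d'} : Set _)) ⧸ (Subgroup.zpowers d').subgroupOf (Subgroup.centralizer ({d'} : Set _)) ≃* Cfsg.PSU 6 K 2)) ∧ ∃ g, g * d' * g⁻¹ ∈ Subgroup.centralizer ({d'} : Set _) ∧ g * d' * g⁻¹ ≠ d') (hnwc : ∃ g : G, g * d * g⁻¹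 ∈ Subgroup.centralizer ({d} : Set G) ∧ g * d * g⁻¹ ≠ d) : (∀ x : ↥(Subgroup.centralizer ({d} : Set G)) ⧸ (Subgroup.zpowers d).subgroupOf (Subgroup.centralizer ({d} : Set G)), orderOf x = 2 → ∃ y : ↥(Subgroup.centralizer ({d} : Set G)), orderOf y = 2 ∧ (QuotientGroup.mk y : ↥(Subgroup.centralizer ({d} : Set G)) ⧸ (Subgroup.zpowers d).subgroupOf (Subgroup.centralizer ({d} : Set G))) = x) ∧ ¬ ∃ g : G, g ^ 2 = d := by
  obtain ⟨E, hE, ht⟩ := htype
  have hZ := ht.1
  have hle : (Subgroup.zpowers d).subgroupOf (Subgroup.centralizer ({d} : Set G)) ≤ Subgroup.center ↥(Subgroup.centralizer ({d} : Set G)) := by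
    intro z hz
    rw [Subgroup.mem_center_iff]
    intro c
    have h1 : (z : G) ∈ Subgroup.zpowers d := Subgroup.mem_subgroupOf.1 hz
    obtain ⟨k, hk⟩ := Subgroup.mem_zpowers_iff.1 h1
    apply Subtype.ext
    show (c : G) * (z : G) = (z : G) * (c : G)
    rw [← hk]
    have hc : Commute (c : G) d := (Subgroup.mem_centralizer_singleton_iff.1 c.2)
    exact (hc.zpow_right k).eq
  have hs := Cfsg.Agent.Lib.Fischer.LiftPrim.simple_quot hq _ hle hZ
  have hD2 : ∃ a ∈ E, ∃ b ∈ E, a ≠ b := by
    obtain ⟨-, a, ha, b, hb, hab, -⟩ := ht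
    exact ⟨a, ha, b, hb, fun e => hab (e ▸ Commute.refl a)⟩
  have hcore : Cfsg.pCore 2 (↥(Subgroup.centralizer ({d} : Set G)) ⧸ (Subgroup.zpowers d).subgroupOf (Subgroup.centralizer ({d} : Set G))) ≤ Subgroup.center _ := by
    have hn : (Cfsg.pCore 2 (↥(Subgroup.centralizer ({d} : Set G)) ⧸ (Subgroup.zpowers d).subgroupOf (Subgroup.centralizer ({d} : Set G)))).Normal := inferInstance
    rcases hs.eq_bot_or_eq_top_of_normal _ hn with h | h
    · rw [h]
      exact bot_le
    · exfalso
      have hp : IsPGroup 2 (↥(Subgroup.centralizer ({d} : Set G)) ⧸ (Subgroup.zpowers d).subgroupOf (Subgroup.centralizer ({d} : Set G))) := by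
        have h2 := Cfsg.Agent.Lib.Basic.PCore.pCore_isPGroup (G := ↥(Subgroup.centralizer ({d} : Set G)) ⧸ (Subgroup.zpowers d).subgroupOf (Subgroup.centralizer ({d} : Set G))) 2
        rw [h] at h2
        exact IsPGroup.of_equiv h2 Subgroup.topEquiv
      have hnt := hp.center_nontrivial
      rw [hZ] at hnt
      exact not_subsingleton_iff_nontrivial.2 hnt (by infer_instance)
  have hprim := Cfsg.Agent.Lib.Fischer.LiftPrim.primitive_of_simple hs hZ hE hD2 hcore
  obtain ⟨e, he⟩ := Cfsg.Agent.Lib.Fischer.M22.Explicit.exists_iso (Cfsg.Agent.Lib.Fischer.Struct.toGroup hE) hprim ht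
  refine Cfsg.Agent.Lib.Fischer.LiftCent.conclusion d hd e ?_
  intro π dh E' x hx
  exact Cfsg.Agent.Lib.Fischer.M22.LiftFi22.lift_G0 E' x hx

end Cfsg.Agent.S5453
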