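import Cfsg.Statements.S5458
import Cfsg.Agent.Lib.Fischer.M22.Final
import Cfsg.Agent.Lib.Fischer.M22.Rows.FrobRow
import Cfsg.Agent.Lib.Fischer.M22.Rows.SylTwoJ

set_option autoImplicit false
open Cfsg

namespace Cfsg.Agent.S5458

open Cfsg.Agent.Lib.Fischer.M22 Cfsg.Agent.Lib.Fischer.M22.Rows Cfsg.Agent.Lib.Fischer.M22.Rows.SylTwo

section general

variable {G H : Type*} [Group G] [Group H]

theorem elem_map (e : G ≃* H) (p : ℕ) {A : Subgroup G} (hA : IsElementaryAbelian p A) :
    IsElementaryAbelian p (A.map e.toMonoidHom) := by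
  obtain ⟨h1, h2⟩ := hA
  refine ⟨⟨⟨?_⟩⟩, ?_⟩
  · rintro ⟨_, a, ha, rfl⟩ ⟨_, b, hb, rfl⟩
    apply Subtype.ext
    have := h1.is_comm.comm (⟨a, ha⟩ : A) ⟨b, hb⟩
    have h3 : a * b = b * a := congrArg Subtype.val this
    show e a * e b = e b * e a
    rw [← map_mul, h3, map_mul]
  · rintro _ ⟨a, ha, rfl⟩
    show (e a) ^ p = 1
    rw [← map_pow, h2 a ha, map_one]

theorem elem_of_map (e : G ≃* H) (p : ℕ) {A : Subgroup G} (hA : IsElementaryAbelian p (A.map e.toMonoidHom)) :
    IsElementaryAbelian p A := by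
  have h := elem_map e.symm p hA
  rwa [map_symm_map] at h

/-- Characterization of the Thompson subgroup by a unique largest elementary abelian subgroup. -/
theorem thompson_eq {p : ℕ} {P Q : Subgroup G} (hQP : Q ≤ P) (hQ : IsElementaryAbelian p Q)
    (h : ∀ A : Subgroup G, A ≤ P → IsElementaryAbelian p A →
      Nat.card A ≤ Nat.card Q ∧ (Nat.card A = Nat.card Q → A = Q)) :
    thompsonSubgroupOf p P = Q := by
  have hmapE : ∀ A' : Subgroup P, IsElementaryAbelian p A' → IsElementaryAbelian p (A'.map P.subtype) := by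
    intro A' hA'
    obtain ⟨h1, h2⟩ := hA'
    refine ⟨⟨⟨?_⟩⟩, ?_⟩
    · rintro ⟨_, a, ha, rfl⟩ ⟨_, b, hb, rfl⟩
      apply Subtype.ext
      have := h1.is_comm.comm (⟨a, ha⟩ : A') ⟨b, hb⟩
      have h3 : a * b = b * a := congrArg Subtype.val this
      have h5 := congrArg (Subtype.val) h3
      exact h5
    · rintro _ ⟨a, ha, rfl⟩
      have := h2 a ha
      exact congrArg Subtype.val this
  have hcardmap : ∀ A' : Subgroup P, Nat.card (A'.map P.subtype) = Nat.card A' := fun A' =>
    Nat.card_congr (A'.equivMapOfInjective _ P.subtype_injective).symm.toEquiv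
  have hQ' : IsElementaryAbelian p (Q.subgroupOf P) := by
    obtain ⟨h1, h2⟩ := hQ
    refine ⟨⟨⟨?_⟩⟩, ?_⟩
    · rintro ⟨a, ha⟩ ⟨b, hb⟩
      apply Subtype.ext
      apply Subtype.ext
      have := h1.is_comm.comm (⟨a, ha⟩ : Q) ⟨b, hb⟩
      have h5 := congrArg (Subtype.val) this
      exact h5
    · rintro a ha
      apply Subtype.ext
      exact h2 a ha
  have hmapQ : (Q.subgroupOf P).map P.subtype = Q := Subgroup.map_subgroupOf_eq_of_le hQP
  have hset : maxElementaryAbelianSubgroups p P = {Q.subgroupOf P} := by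
    ext B
    rw [Set.mem_singleton_iff]
    constructor
    · rintro ⟨hB, hmax⟩
      have h1 := hmax _ hQ'
      have h2 := hcardmap (Q.subgroupOf P)
      rw [hmapQ] at h2
      have h3 := h (B.map P.subtype) (Subgroup.map_subtype_le B) (hmapE B hB)
      rw [hcardmap B] at h3
      have h4 : B.map P.subtype = Q := h3.2 (le_antisymm h3.1 (by rw [h2]; exact h1))
      apply Subgroup.map_injective P.subtype_injective
      rw [h4, hmapQ]
    · rintro rfl
      refine ⟨hQ', fun B hB => ?_⟩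
      have h2 := hcardmap (Q.subgroupOf P)
      rw [hmapQ] at h2
      have h3 := h (B.map P.subtype) (Subgroup.map_subtype_le B) (hmapE B hB)
      rw [hcardmap B] at h3
      rw [← h2]
      exact h3.1
  unfold thompsonSubgroupOf thompsonSubgroup
  rw [hset, sSup_singleton, hmapQ]

end general

theorem result {G : Type*} [Group G] [Finite G] {D : Set G} (hD : Cfsg.IsThreeTranspositionGroup D) (hprim : Cfsg.IsPrimitiveUnderConj D) (h22 : Cfsg.IsOfTypeM22 G D) (hM : ∃ d : G, orderOf d = 2 ∧ Cfsg.IsQuasisimple ↥(Subgroup.centralizer ({d} : Set G)) ∧ (∃ (_ : ((Subgroup.zpowers d).subgroupOf (Subgroup.centralizer ({d} : Set G))).Normal) (K : Type) (_ : Field K) (_ : Fintype K), Fintype.card K = 4 ∧ Nonempty (↥(Subgroup.centralizer ({d} : Set G)) ⧸ (Subgroup.zpowers d).subgroupOf (Subgroup.centralizer ({d} : Set G)) ≃* Cfsg.PSU 6 K 2)) ∧ ∃ g : G, g * d * g⁻¹ ∈ Subgroup.centralizer ({d} : Set G) ∧ g * d * g⁻¹ ≠ d) (T : Sylow 2 G) : Subgroup.closure {x : G | x ∈ D ∧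 x ∈ (T : Subgroup G)} = Cfsg.thompsonSubgroupOf 2 (T : Subgroup G) := by
  obtain ⟨_, _, e, _, he⟩ := Cfsg.Agent.Lib.Fischer.M22.Final.exists_iso_G0 hD hprim h22
  haveI : Fact (Nat.Prime 2) := ⟨Nat.prime_two⟩
  have hcard : Nat.card G = Nat.card Explicit.G0 := Nat.card_congr e.toEquiv
  -- conjugate to `T0`
  have hS : Nat.card ((T : Subgroup G).map e.toMonoidHom) = 2 ^ (Nat.card Explicit.G0).factorization 2 := by
    rw [card_map_equiv, Sylow.card_eq_multiplicity, hcard]
  let S : Sylow 2 Explicit.G0 := Sylow.ofCard _ hS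
  obtain ⟨g, hg⟩ := MulAction.exists_smul_eq Explicit.G0 S T0S
  have hg' : ((T : Subgroup G).map e.toMonoidHom).map (MulAut.conj g).toMonoidHom = T0 := by
    have := congrArg (fun X : Sylow 2 Explicit.G0 => (X : Subgroup Explicit.G0)) hg
    exact this
  obtain ⟨e', he', he2⟩ := exists_equiv_map_D e he Explicit.D0_conj hg'
  set Q : Subgroup G := Subgroup.closure {x : G | x ∈ D ∧ x ∈ (T : Subgroup G)} with hQ
  have hmemT : ∀ x, x ∈ (T : Subgroup G) ↔ e' x ∈ T0 := by
    intro x
    rw [← he']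
    constructor
    · intro h
      exact ⟨x, h, rfl⟩
    · rintro ⟨y, hy, hyx⟩
      have : y = x := e'.injective hyx
      rwa [← this]
  have hmemD : ∀ x, x ∈ D ↔ e' x ∈ Explicit.D0 := by
    intro x
    rw [← he2]
    constructor
    · intro h
      exact ⟨x, h, rfl⟩
    · rintro ⟨y, hy, hyx⟩
      have : y = x := e'.injective hyx
      rwa [← this]
  have hQmap : Q.map e'.toMonoidHom = K := by
    rw [hQ, MonoidHom.map_closure, ← closure_trans]
    congr 1
    ext y
    constructor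
    · rintro ⟨x, ⟨h1, h2⟩, rfl⟩
      exact ⟨(hmemD x).1 h1, (hmemT x).1 h2⟩
    · rintro ⟨h1, h2⟩
      refine ⟨e'.symm y, ⟨?_, ?_⟩, e'.apply_symm_apply y⟩
      · rw [hmemD, MulEquiv.apply_symm_apply]; exact h1
      · rw [hmemT, MulEquiv.apply_symm_apply]; exact h2
  have hQT : Q ≤ (T : Subgroup G) := by
    rw [hQ, Subgroup.closure_le]
    exact fun x hx => hx.2
  have hQcard : Nat.card Q = 1024 := by
    rw [← card_map_equiv e', hQmap, card_K]
  symm
  apply thompson_eq hQT
  · apply elem_of_map e'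
    rw [hQmap]
    exact K_elem
  · intro A hA hE
    have h1 : A.map e'.toMonoidHom ≤ T0 := by
      rw [← he']
      exact Subgroup.map_mono hA
    obtain ⟨h2, h3⟩ := elem_T0 _ h1 (elem_map e' 2 hE)
    rw [card_map_equiv] at h2 h3
    rw [hQcard]
    refine ⟨h2, fun h4 => ?_⟩
    apply map_injective_equiv e'
    rw [h3 h4, hQmap]

end Cfsg.Agent.S5458
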