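import Cfsg.Statements.S5459
import Mathlib

set_option autoImplicit false
open Cfsg

namespace Cfsg.Agent.S5459

open scoped commutatorElement

variable {G : Type*} [Group G]

/-- conjugation as a graph homomorphism -/
def cjHom {D : Set G} (hc : ∀ g : G, ∀ x ∈ D, g * x * g⁻¹ ∈ D) (g : G) :
    Cfsg.commutingGraph D →g Cfsg.commutingGraph D where
  toFun x := ⟨g * x.1 * g⁻¹, hc g x.1 x.2⟩
  map_rel' := by
    intro a b hab
    rw [Cfsg.commutingGraph, SimpleGraph.fromRel_adj] at hab ⊢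
    obtain ⟨hne, hor⟩ := hab
    refine ⟨?_, ?_⟩
    · intro k
      apply hne
      apply Subtype.ext
      have k' := congrArg Subtype.val k
      exact mul_left_cancel (mul_right_cancel k')
    · have key : ∀ u v : G, Commute u v → Commute (g * u * g⁻¹) (g * v * g⁻¹) := by
        intro u v huv
        show g * u * g⁻¹ * (g * v * g⁻¹) = g * v * g⁻¹ * (g * u * g⁻¹)
        calc g * u * g⁻¹ * (g * v * g⁻¹) = g * (u * v) * g⁻¹ := by group
          _ = g * (v * u) * g⁻¹ := by rw [huv.eq]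
          _ = g * v * g⁻¹ * (g * u * g⁻¹) := by group
      rcases hor with h | h
      · exact Or.inl (key _ _ h)
      · exact Or.inr (key _ _ h)

theorem conjugatesOf_conj (d g : G) {x : G} (hx : x ∈ conjugatesOf d) :
    g * x * g⁻¹ ∈ conjugatesOf d :=
  IsConj.trans (show IsConj d x from hx) (isConj_iff.2 ⟨g, rfl⟩)

/-- The stabilizer of the connected component of `d`. -/
def compStab (d : G) : Subgroup G where
  carrier := {g | (Cfsg.commutingGraph (conjugatesOf d)).Reachable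
    ⟨d, IsConj.refl d⟩ ⟨g * d * g⁻¹, conjugatesOf_conj d g (IsConj.refl d)⟩}
  one_mem' := by
    show (Cfsg.commutingGraph (conjugatesOf d)).Reachable _ _
    have : (⟨1 * d * 1⁻¹, conjugatesOf_conj d 1 (IsConj.refl d)⟩ : conjugatesOf d) =
      ⟨d, IsConj.refl d⟩ := Subtype.ext (by group)
    rw [this]
  mul_mem' := by
    intro a b ha hb
    have h1 := hb.map (cjHom (fun g x hx => conjugatesOf_conj d g hx) a)
    refine ha.trans ?_
    have e : (⟨a * b * d * (a * b)⁻¹, conjugatesOf_conj d (a * b) (IsConj.refl d)⟩ : conjugatesOf d)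
        = (cjHom (fun g x hx => conjugatesOf_conj d g hx) a)
          ⟨b * d * b⁻¹, conjugatesOf_conj d b (IsConj.refl d)⟩ := Subtype.ext (by
            show a * b * d * (a * b)⁻¹ = a * (b * d * b⁻¹) * a⁻¹
            group)
    rw [e]
    exact h1
  inv_mem' := by
    intro a ha
    have h1 := ha.map (cjHom (fun g x hx => conjugatesOf_conj d g hx) a⁻¹)
    have e : (⟨a⁻¹ * d * a⁻¹⁻¹, conjugatesOf_conj d a⁻¹ (IsConj.refl d)⟩ : conjugatesOf d)
        = (cjHom (fun g x hx => conjugatesOf_conj d g hx) a⁻¹) ⟨d, IsConj.refl d⟩ := rfl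
    show (Cfsg.commutingGraph (conjugatesOf d)).Reachable _ _
    rw [e]
    have e2 : (⟨d, IsConj.refl d⟩ : conjugatesOf d) =
        (cjHom (fun g x hx => conjugatesOf_conj d g hx) a⁻¹)
          ⟨a * d * a⁻¹, conjugatesOf_conj d a (IsConj.refl d)⟩ := Subtype.ext (by
            show d = a⁻¹ * (a * d * a⁻¹) * a⁻¹⁻¹
            group)
    conv_lhs => rw [e2]
    exact h1.symm


/-- Let G be a finite group with a quasisimple normal subgroup L and an involution d such that G is generated by L and d, the centre of L has odd order, and d inverts every element of the centre of L. If the commuting graph on the conjugacy class of the image of d in G modulo the centre of L is connected, then the commuting graph on the conjugacy class of d is connected. -/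
theorem result {G : Type*} [Group G] [Finite G] (L : Subgroup G) [L.Normal] (hL : Cfsg.IsQuasisimple ↥L) (d : G) (hd : orderOf d = 2) (hgen : L ⊔ Subgroup.zpowers d = ⊤) (hodd : Odd (Nat.card ↥(Subgroup.center ↥L))) (hinv : ∀ c ∈ (Subgroup.center ↥L).map L.subtype, d * c * d⁻¹ = c⁻¹) [hn : ((Subgroup.center ↥L).map L.subtype).Normal] (hconn : (Cfsg.commutingGraph (conjugatesOf (QuotientGroup.mk d : G ⧸ (Subgroup.center ↥L).map L.subtype))).Connected) : (Cfsg.commutingGraph (conjugatesOf d)).Connected := by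
  classical
  set Z : Subgroup G := (Subgroup.center ↥L).map L.subtype with hZ
  have hdd : d * d = 1 := by rw [← pow_two, ← hd]; exact pow_orderOf_eq_one d
  -- every conjugate of `d` inverts `Z`
  have hinvC : ∀ a ∈ conjugatesOf d, ∀ c ∈ Z, a * c * a⁻¹ = c⁻¹ := by
    intro a ha c hc
    obtain ⟨g, rfl⟩ := isConj_iff.1 (show IsConj d a from ha)
    have h1 : g⁻¹ * c * g ∈ Z := by
      have := hn.conj_mem c hc g⁻¹
      rwa [inv_inv] at this
    have h2 := hinv _ h1
    calc g * d * g⁻¹ * c * (g * d * g⁻¹)⁻¹ = g * (d * (g⁻¹ * c * g) * d⁻¹) * g⁻¹ := by group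
      _ = c⁻¹ := by rw [h2]; group
  -- elements of `Z` commute
  have hZcomm : ∀ u ∈ Z, ∀ v ∈ Z, u * v = v * u := by
    rintro _ ⟨u, hu, rfl⟩ _ ⟨v, hv, rfl⟩
    have := (Subgroup.mem_center_iff.1 hu) v
    show (u : G) * v = v * u
    exact_mod_cast this.symm
  -- square roots in `Z`
  have hsqrt : ∀ z ∈ Z, ∃ c ∈ Z, c * c = z := by
    rintro _ ⟨u, hu, rfl⟩
    obtain ⟨m, hm⟩ := hodd
    let w : ↥(Subgroup.center ↥L) := ⟨u, hu⟩
    have h1 : w ^ (Nat.card ↥(Subgroup.center ↥L)) = 1 := pow_card_eq_one'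
    have h2 : (w ^ (m + 1)) * (w ^ (m + 1)) = w := by
      rw [← pow_add]
      have : m + 1 + (m + 1) = Nat.card ↥(Subgroup.center ↥L) + 1 := by omega
      rw [this, pow_succ, h1, one_mul]
    refine ⟨L.subtype ((w ^ (m + 1) : ↥(Subgroup.center ↥L)) : ↥L), ⟨_, (w ^ (m + 1)).2, rfl⟩, ?_⟩
    have h3 := congrArg (fun t : ↥(Subgroup.center ↥L) => L.subtype (t : ↥L)) h2
    simpa using h3
  -- edge lifting
  have hlift : ∀ e ∈ conjugatesOf d, ∀ xb : G ⧸ Z, xb ∈ conjugatesOf (QuotientGroup.mk d : G ⧸ Z) →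
      xb ≠ (QuotientGroup.mk e : G ⧸ Z) → Commute (QuotientGroup.mk e : G ⧸ Z) xb →
      ∃ b ∈ conjugatesOf d, (QuotientGroup.mk b : G ⧸ Z) = xb ∧ e ≠ b ∧ Commute e b := by
    intro e he xb hx hne hcomm
    obtain ⟨gb, rfl⟩ := isConj_iff.1 (show IsConj _ xb from hx)
    obtain ⟨g, rfl⟩ := QuotientGroup.mk_surjective gb
    set b := g * d * g⁻¹ with hb
    have hbC : b ∈ conjugatesOf d := conjugatesOf_conj d g (IsConj.refl d)
    have hbq : (QuotientGroup.mk b : G ⧸ Z) =
        (QuotientGroup.mk g : G ⧸ Z) * QuotientGroup.mk d * (QuotientGroup.mk g : G ⧸ Z)⁻¹ := rfl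
    rw [← hbq] at hne hcomm ⊢
    -- the commutator lies in `Z`
    have hz : e * b * e⁻¹ * b⁻¹ ∈ Z := by
      rw [← QuotientGroup.eq_one_iff]
      have : (QuotientGroup.mk (e * b * e⁻¹ * b⁻¹) : G ⧸ Z) =
          (QuotientGroup.mk e : G ⧸ Z) * QuotientGroup.mk b * (QuotientGroup.mk e : G ⧸ Z)⁻¹ *
            (QuotientGroup.mk b : G ⧸ Z)⁻¹ := rfl
      rw [this, hcomm.eq]
      group
    set z := e * b * e⁻¹ * b⁻¹ with hzdef
    obtain ⟨c₁, hc₁, hc₁z⟩ := hsqrt z hz
    obtain ⟨c, hc, hcc₁⟩ := hsqrt c₁ hc₁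
    have hcc : c * c ∈ Z := Z.mul_mem hc hc
    have hb' : c * b * c⁻¹ = c * c * b := by
      have := hinvC b hbC c⁻¹ (Z.inv_mem hc)
      rw [inv_inv] at this
      calc c * b * c⁻¹ = c * (b * c⁻¹ * b⁻¹) * b := by group
        _ = c * c * b := by rw [this]
    refine ⟨c * b * c⁻¹, conjugatesOf_conj d c hbC, ?_, ?_, ?_⟩
    · rw [hb']
      have : (QuotientGroup.mk (c * c * b) : G ⧸ Z) = (QuotientGroup.mk (c * c) : G ⧸ Z) * QuotientGroup.mk b := rfl
      rw [this, (QuotientGroup.eq_one_iff (c * c)).2 hcc, one_mul]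
    · intro k
      apply hne
      rw [k, hb']
      have : (QuotientGroup.mk (c * c * b) : G ⧸ Z) = (QuotientGroup.mk (c * c) : G ⧸ Z) * QuotientGroup.mk b := rfl
      rw [this, (QuotientGroup.eq_one_iff (c * c)).2 hcc, one_mul]
    · rw [hb']
      show e * (c * c * b) = c * c * b * e
      have h1 := hinvC e he c hc
      have h2 : e * b = z * b * e := by
        rw [hzdef]; group
      have h3 : e * (c * c) = c⁻¹ * c⁻¹ * e := by
        calc e * (c * c) = (e * c * e⁻¹) * (e * c * e⁻¹) * e := by group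
          _ = c⁻¹ * c⁻¹ * e := by rw [h1]
      rw [← hc₁z, ← hcc₁] at h2
      calc e * (c * c * b) = (e * (c * c)) * b := by group
        _ = c⁻¹ * c⁻¹ * (e * b) := by rw [h3]; group
        _ = c⁻¹ * c⁻¹ * (c * c * (c * c) * b * e) := by rw [h2]
        _ = c * c * b * e := by simp [mul_assoc]
  -- path lifting
  have hpath : ∀ xb : conjugatesOf (QuotientGroup.mk d : G ⧸ Z),
      ∃ e : conjugatesOf d, (Cfsg.commutingGraph (conjugatesOf d)).Reachable ⟨d, IsConj.refl d⟩ e ∧
        (QuotientGroup.mk (e : G) : G ⧸ Z) = xb := by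
    intro xb
    have hr := hconn.preconnected ⟨(QuotientGroup.mk d : G ⧸ Z), IsConj.refl _⟩ xb
    rw [SimpleGraph.reachable_iff_reflTransGen] at hr
    induction hr with
    | refl => exact ⟨⟨d, IsConj.refl d⟩, SimpleGraph.Reachable.refl _, rfl⟩
    | @tail xb1 xb2 _ hstep ih =>
      obtain ⟨e, he, hq⟩ := ih
      rw [Cfsg.commutingGraph, SimpleGraph.fromRel_adj] at hstep
      obtain ⟨hne, hor⟩ := hstep
      have hcomm : Commute (QuotientGroup.mk (e : G) : G ⧸ Z) (xb2 : G ⧸ Z) := by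
        rw [hq]
        rcases hor with h | h
        · exact h
        · exact h.symm
      have hne' : (xb2 : G ⧸ Z) ≠ QuotientGroup.mk (e : G) := by
        rw [hq]
        exact fun k => hne (Subtype.ext k.symm)
      obtain ⟨b, hb, hbq, hebne, hcb⟩ := hlift e e.2 xb2 xb2.2 hne' hcomm
      refine ⟨⟨b, hb⟩, he.trans (SimpleGraph.Adj.reachable ?_), hbq⟩
      rw [Cfsg.commutingGraph, SimpleGraph.fromRel_adj]
      exact ⟨fun k => hebne (congrArg Subtype.val k), Or.inl hcb⟩
  -- `G = Z H`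
  have hfact : ∀ g : G, ∃ c ∈ Z, c * g ∈ compStab d := by
    intro g
    obtain ⟨e, he, hq⟩ := hpath ⟨(QuotientGroup.mk (g * d * g⁻¹) : G ⧸ Z), by
      exact IsConj.trans (IsConj.refl _) (isConj_iff.2 ⟨(QuotientGroup.mk g : G ⧸ Z), rfl⟩)⟩
    have hq' : (QuotientGroup.mk (e : G) : G ⧸ Z) = QuotientGroup.mk (g * d * g⁻¹) := hq
    have h1 : (e : G) * (g * d * g⁻¹)⁻¹ ∈ Z := by
      rw [← QuotientGroup.eq_one_iff]
      have : (QuotientGroup.mk ((e : G) * (g * d * g⁻¹)⁻¹) : G ⧸ Z) =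
        (QuotientGroup.mk (e : G) : G ⧸ Z) * (QuotientGroup.mk (g * d * g⁻¹) : G ⧸ Z)⁻¹ := rfl
      rw [this, hq', mul_inv_cancel]
    set y := (e : G) * (g * d * g⁻¹)⁻¹ with hy
    obtain ⟨c, hc, hcc⟩ := hsqrt y h1
    have hbC : g * d * g⁻¹ ∈ conjugatesOf d := conjugatesOf_conj d g (IsConj.refl d)
    have hb' : c * (g * d * g⁻¹) * c⁻¹ = c * c * (g * d * g⁻¹) := by
      have := hinvC _ hbC c⁻¹ (Z.inv_mem hc)
      rw [inv_inv] at this
      calc c * (g * d * g⁻¹) * c⁻¹ = c * ((g * d * g⁻¹) * c⁻¹ * (g * d * g⁻¹)⁻¹) * (g * d * g⁻¹) := by group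
        _ = c * c * (g * d * g⁻¹) := by rw [this]
    refine ⟨c, hc, ?_⟩
    show (Cfsg.commutingGraph (conjugatesOf d)).Reachable _ _
    have e1 : (⟨c * g * d * (c * g)⁻¹, conjugatesOf_conj d (c * g) (IsConj.refl d)⟩ : conjugatesOf d) = e := by
      apply Subtype.ext
      show c * g * d * (c * g)⁻¹ = (e : G)
      calc c * g * d * (c * g)⁻¹ = c * (g * d * g⁻¹) * c⁻¹ := by group
        _ = c * c * (g * d * g⁻¹) := hb'
        _ = (e : G) := by rw [hcc, hy]; group
    rw [e1]
    exact he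
  -- `L ≤ H`
  have hLH : L ≤ compStab d := by
    have hperf : commutator ↥L = ⊤ := hL.1.commutator_eq_top
    intro l hl
    have hl' : (⟨l, hl⟩ : ↥L) ∈ commutator ↥L := by rw [hperf]; trivial
    have hle : commutator ↥L ≤ (compStab d).comap L.subtype := by
      rw [commutator_def, Subgroup.commutator_le]
      rintro x - y -
      obtain ⟨c, hc, hcx⟩ := hfact x
      obtain ⟨c', hc', hcy⟩ := hfact y
      obtain ⟨u, hu, rfl⟩ := hc
      obtain ⟨v, hv, rfl⟩ := hc'
      have hu' := Subgroup.mem_center_iff.1 hu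
      have hv' := Subgroup.mem_center_iff.1 hv
      have e1 : ((⁅x, y⁆ : ↥L) : G) = ⁅(L.subtype u) * (x : G), (L.subtype v) * (y : G)⁆ := by
        have h1 : (⁅u * x, v * y⁆ : ↥L) = ⁅x, y⁆ := by
          rw [commutatorElement_def, commutatorElement_def]
          have c1 : ∀ w : ↥L, w * u = u * w := fun w => (hu' w)
          have c2 : ∀ w : ↥L, w * v = v * w := fun w => (hv' w)
          have c3 : ∀ w : ↥L, w * u⁻¹ = u⁻¹ * w := by
            intro w
            calc w * u⁻¹ = u⁻¹ * (u * w) * u⁻¹ := by group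
              _ = u⁻¹ * (w * u) * u⁻¹ := by rw [c1]
              _ = u⁻¹ * w := by group
          have c4 : ∀ w : ↥L, w * v⁻¹ = v⁻¹ * w := by
            intro w
            calc w * v⁻¹ = v⁻¹ * (v * w) * v⁻¹ := by group
              _ = v⁻¹ * (w * v) * v⁻¹ := by rw [c2]
              _ = v⁻¹ * w := by group
          calc u * x * (v * y) * (u * x)⁻¹ * (v * y)⁻¹
              = u * (x * v) * y * (x⁻¹ * u⁻¹) * (y⁻¹ * v⁻¹) := by group
            _ = u * (v * x) * y * (u⁻¹ * x⁻¹) * (v⁻¹ * y⁻¹) := by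
                rw [c2 x, c3 x⁻¹, c4 y⁻¹]
            _ = u * v * (x * y) * u⁻¹ * x⁻¹ * v⁻¹ * y⁻¹ := by group
            _ = u * v * u⁻¹ * (x * y) * x⁻¹ * v⁻¹ * y⁻¹ := by
                rw [mul_assoc (u * v), c3 (x * y)]; group
            _ = u * v * u⁻¹ * (x * y * x⁻¹ * v⁻¹) * y⁻¹ := by group
            _ = u * v * u⁻¹ * (v⁻¹ * (x * y * x⁻¹)) * y⁻¹ := by rw [c4 (x * y * x⁻¹)]
            _ = (u * v * u⁻¹ * v⁻¹) * (x * y * x⁻¹ * y⁻¹) := by group
            _ = x * y * x⁻¹ * y⁻¹ := by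
                have : u * v * u⁻¹ * v⁻¹ = 1 := by
                  rw [c2 u]
                  group
                rw [this, one_mul]
        rw [← h1]
        rfl
      show ((⁅x, y⁆ : ↥L) : G) ∈ compStab d
      rw [e1]
      rw [commutatorElement_def]
      exact (compStab d).mul_mem ((compStab d).mul_mem ((compStab d).mul_mem hcx hcy)
        ((compStab d).inv_mem hcx)) ((compStab d).inv_mem hcy)
    exact hle hl'
  have htop : compStab d = ⊤ := by
    rw [eq_top_iff, ← hgen, sup_le_iff]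
    refine ⟨hLH, ?_⟩
    rw [Subgroup.zpowers_le]
    show (Cfsg.commutingGraph (conjugatesOf d)).Reachable _ _
    have e1 : (⟨d * d * d⁻¹, conjugatesOf_conj d d (IsConj.refl d)⟩ : conjugatesOf d) = ⟨d, IsConj.refl d⟩ :=
      Subtype.ext (by group)
    rw [e1]
  have : Nonempty (conjugatesOf d) := ⟨⟨d, IsConj.refl d⟩⟩
  have hpre : (Cfsg.commutingGraph (conjugatesOf d)).Preconnected := by
    have key : ∀ e : conjugatesOf d, (Cfsg.commutingGraph (conjugatesOf d)).Reachable ⟨d, IsConj.refl d⟩ e := by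
      intro e
      obtain ⟨g, hg⟩ := isConj_iff.1 (show IsConj d (e : G) from e.2)
      have hgm : g ∈ compStab d := by rw [htop]; trivial
      have e1 : (⟨g * d * g⁻¹, conjugatesOf_conj d g (IsConj.refl d)⟩ : conjugatesOf d) = e := Subtype.ext hg
      rw [← e1]
      exact hgm
    intro x y
    exact (key x).symm.trans (key y)
  exact ⟨hpre⟩

end Cfsg.Agent.S5459
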