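import Cfsg.Statements.S5462
import Cfsg.Agent.Lib.Fischer.M22.Final
import Cfsg.Agent.Lib.Fischer.M22.Rows.AutFix

set_option autoImplicit false
open Cfsg

namespace Cfsg.Agent.S5462

/-- Let G be a finite group with trivial centre generated by a conjugation-invariant set D of 3-transpositions on which it acts primitively, such that for some d in D the subgroup generated by the members of D other than d commuting with d has central largest normal 2- and 3-subgroups, and suppose G with D is of type M(22). Then every automorphism of G of order 2 fixes some member of D. -/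
theorem result {G : Type*} [Group G] [Finite G] {D : Set G} (hD : Cfsg.IsThreeTranspositionGroup D) (hprim : Cfsg.IsPrimitiveUnderConj D) (d₀ : G) (hd₀ : d₀ ∈ D) (h3 : Cfsg.pCore 3 ↥(Subgroup.closure {y : G | y ∈ D ∧ y ≠ d₀ ∧ Commute d₀ y}) ≤ Subgroup.center ↥(Subgroup.closure {y : G | y ∈ D ∧ y ≠ d₀ ∧ Commute d₀ y})) (h2 : Cfsg.pCore 2 ↥(Subgroup.closure {y : G | y ∈ D ∧ y ≠ d₀ ∧ Commute d₀ y}) ≤ Subgroup.center ↥(Subgroup.closure {y : G | y ∈ D ∧ y ≠ d₀ ∧ Commute d₀ y})) (h22 : Cfsg.IsOfTypeM22 G D) (φ : MulAut G) (hφ : orderOf φ = 2) : ∃ d ∈ D, φ d = d := by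
  classical
  obtain ⟨_, _, e, _, he⟩ := Cfsg.Agent.Lib.Fischer.M22.Final.exists_iso_G0 hD hprim h22
  have hφ2 : ∀ x, φ (φ x) = x := by
    intro x
    have h1 : φ ^ 2 = 1 := by
      rw [← hφ]
      exact pow_orderOf_eq_one φ
    have h2 : (φ ^ 2) x = x := by rw [h1]; rfl
    rw [pow_two] at h2
    exact h2
  let ψ : Cfsg.Agent.Lib.Fischer.M22.Explicit.G0 ≃* Cfsg.Agent.Lib.Fischer.M22.Explicit.G0 :=
    e.symm.trans ((φ : G ≃* G).trans e)
  have hψ : ∀ x, ψ x = e (φ (e.symm x)) := fun _ => rfl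
  have hinv : ∀ x, ψ (ψ x) = x := by
    intro x
    rw [hψ, hψ, MulEquiv.symm_apply_apply, hφ2, MulEquiv.apply_symm_apply]
  obtain ⟨t, ht, hft⟩ := Cfsg.Agent.Lib.Fischer.M22.Rows.AutFix.main ψ hinv
  rw [← he] at ht
  obtain ⟨d, hd, rfl⟩ := ht
  refine ⟨d, hd, ?_⟩
  rw [hψ, MulEquiv.symm_apply_apply] at hft
  exact e.injective hft

end Cfsg.Agent.S5462
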