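import Cfsg.Statements.S5464
import Cfsg.Agent.Lib.Fischer.M24.E.Rows

set_option autoImplicit false
open Cfsg

namespace Cfsg.Agent.S5464

/-- The two uniqueness facts. -/
def FP2Both {G : Type*} [Group G] (D : Set G) : Prop :=
  Cfsg.Agent.Lib.Fischer.M22.Explicit.FP2 D ∧
    ∀ (j : G) (l l' : List G), Cfsg.Agent.Lib.Fischer.M22.Explicit.PMl D 3 j l →
      Cfsg.Agent.Lib.Fischer.M22.Explicit.PMl D 3 j l' → ∀ x : G, x ∈ l ↔ x ∈ l'

/-- Let G be a finite group with trivial centre generated by a conjugation-invariant set D of 3-transpositions on which it acts primitively, such that for some d in D the subgroup generated by the members of D other than d commuting with d has central largest normal 2- and 3-subgroups, and suppose G with D is of type M(23) or of type M(24). Then for m ≤ 3, a product of m distinct pairwise commuting members of D determines the set of factors: any two m-element sets of pairwise commuting members of D with the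 same product coincide. -/
theorem result {G : Type*} [Group G] [Finite G] {D : Set G} (hD : Cfsg.IsThreeTranspositionGroup D) (hprim : Cfsg.IsPrimitiveUnderConj D) (d₀ : G) (hd₀ : d₀ ∈ D) (h3 : Cfsg.pCore 3 ↥(Subgroup.closure {y : G | y ∈ D ∧ y ≠ d₀ ∧ Commute d₀ y}) ≤ Subgroup.center ↥(Subgroup.closure {y : G | y ∈ D ∧ y ≠ d₀ ∧ Commute d₀ y})) (h2 : Cfsg.pCore 2 ↥(Subgroup.closure {y : G | y ∈ D ∧ y ≠ d₀ ∧ Commute d₀ y}) ≤ Subgroup.center ↥(Subgroup.closure {y : G | y ∈ D ∧ y ≠ d₀ ∧ Commute d₀ y})) (h : Cfsg.IsOfTypeM23 G D ∨ Cfsg.IsOfTypeM24 G D) (m : ℕ) (hm : m ≤ 3) (j : G) (l l' : List G) (hl : (l.Nodup ∧ l.length = m ∧ (∀ a ∈ l, a ∈ D) ∧ (∀ a ∈ l, ∀ b ∈ l, Commute a b) ∧ l.prod = j)) (hl' : (l'.Nodup ∧ l'.length = m ∧ (∀ a ∈ l', a ∈ D) ∧ (∀ a ∈ l', ∀ b ∈ l', Commute a b) ∧ l'.prod = j)) : (∀ x : G, x ∈ l ↔ x ∈ l') := by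
  have key : FP2Both D := by
    rcases h with h23 | h24
    · obtain ⟨e, he⟩ := Cfsg.Agent.Lib.Fischer.M23.Explicit.exists_iso_G1 hD hprim h23
      exact ⟨Cfsg.Agent.Lib.Fischer.M23.Explicit.fp2_of_iso1 e he, Cfsg.Agent.Lib.Fischer.M23.Explicit.fp3_of_iso1 e he⟩
    · obtain ⟨e, he⟩ := Cfsg.Agent.Lib.Fischer.M24.Explicit.exists_iso_G2 hD hprim h24
      exact ⟨Cfsg.Agent.Lib.Fischer.M24.Explicit.fp2_of_iso2 e he, Cfsg.Agent.Lib.Fischer.M24.Explicit.fp3_of_iso2 e he⟩
  obtain ⟨h2', h3'⟩ := key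
  obtain rfl | rfl | rfl | rfl : m = 0 ∨ m = 1 ∨ m = 2 ∨ m = 3 := by omega
  · obtain rfl : l = [] := List.length_eq_zero_iff.1 hl.2.1
    obtain rfl : l' = [] := List.length_eq_zero_iff.1 hl'.2.1
    intro x
    exact Iff.rfl
  · obtain ⟨a, rfl⟩ := List.length_eq_one_iff.1 hl.2.1
    obtain ⟨b, rfl⟩ := List.length_eq_one_iff.1 hl'.2.1
    have h1 : a = j := by simpa using hl.2.2.2.2
    have h2 : b = j := by simpa using hl'.2.2.2.2
    subst h1
    subst h2
    intro x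
    exact Iff.rfl
  · exact h2' j l l' hl hl'
  · exact h3' j l l' hl hl'

end Cfsg.Agent.S5464
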