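import Cfsg.Statements.S5467
import Cfsg.Agent.Lib.Fischer.M24.C4.Main

set_option autoImplicit false
open Cfsg

namespace Cfsg.Agent.S5467

open Cfsg.Agent.Lib.Fischer.M24.Explicit Cfsg.Agent.Lib.Fischer.M24.C4

/-- Let G be a finite group with trivial centre generated by a conjugation-invariant set D of 3-transpositions on which it acts primitively, such that for some d in D the subgroup generated by the members of D other than d commuting with d has central largest normal 2- and 3-subgroups, and suppose G with D is of type M(24), and let L be the commutator subgroup of G. Let z be the product of four distinct pairwise commuting members of D (an involution of L) and C its centralizer in L. Then the generalized Fitting subgroup Q of C is extraspecial of order 2^13, and C has normal subgroups Q ≤ N ≤ M with N/Q of order 3, M/N isomorphic to the projective special unitary group of dimension 4 over the field with nine elements, and M of index 2 in C. -/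
theorem result {G : Type*} [Group G] [Finite G] {D : Set G} (hD : Cfsg.IsThreeTranspositionGroup D) (hprim : Cfsg.IsPrimitiveUnderConj D) (d₀ : G) (hd₀ : d₀ ∈ D) (h3 : Cfsg.pCore 3 ↥(Subgroup.closure {y : G | y ∈ D ∧ y ≠ d₀ ∧ Commute d₀ y}) ≤ Subgroup.center ↥(Subgroup.closure {y : G | y ∈ D ∧ y ≠ d₀ ∧ Commute d₀ y})) (h2 : Cfsg.pCore 2 ↥(Subgroup.closure {y : G | y ∈ D ∧ y ≠ d₀ ∧ Commute d₀ y}) ≤ Subgroup.center ↥(Subgroup.closure {y : G | y ∈ D ∧ y ≠ d₀ ∧ Commute d₀ y})) (h24 : Cfsg.IsOfTypeM24 G D) (L : Subgroup G) (hL : L = commutator G) (z : G) (l : List G) (hl : (l.Nodup ∧ l.length = 4 ∧ (∀ a ∈ l, a ∈ D) ∧ (∀ a ∈ l, ∀ b ∈ l, Commute a b) ∧ l.prod = z)) (C : Subgroup G) (hC : C = L ⊓ Subgroup.centralizer ({z} : Set G)) : ∃ (Q : Subgroup ↥C) (_ : Q.Normal), Cfsg.generalizedFittingSubgroup ↥C = Q ∧ Cfsg.IsExtraspecial 2 ↥Q ∧ Nat.card Q = 2 ^ 13 ∧ ∃ (N M : Subgroup ↥C) (_ : N.Normal) (_ : M.Normal), Q ≤ N ∧ N ≤ M ∧ Nat.card N = 3 * Nat.card Q ∧ (∃ (K : Type) (_ : Field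 K) (_ : Fintype K), Fintype.card K = 9 ∧ Nonempty (↥M ⧸ N.subgroupOf M ≃* Cfsg.PSU 4 K 3)) ∧ M.index = 2 := by
  obtain ⟨e, he⟩ := exists_iso_G2 hD hprim h24
  obtain ⟨hnd, hlen, hmem, hcomm, hprod⟩ := hl
  obtain ⟨a, b, c, d, rfl⟩ : ∃ a b c d, l = [a, b, c, d] := by
    rcases l with _ | ⟨a, _ | ⟨b, _ | ⟨c, _ | ⟨d, _ | ⟨_, _⟩⟩⟩⟩⟩ <;> simp at hlen
    exact ⟨a, b, c, d, rfl⟩
  simp only [List.nodup_cons, List.mem_cons, List.not_mem_nil, or_false, not_or, List.nodup_nil, and_true,
    not_false_eq_true] at hnd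
  obtain ⟨⟨n12, n13, n14⟩, ⟨n23, n24⟩, n34⟩ := hnd
  have m1 := (he _).1 (hmem a (by simp))
  have m2 := (he _).1 (hmem b (by simp))
  have m3 := (he _).1 (hmem c (by simp))
  have m4 := (he _).1 (hmem d (by simp))
  have cm : ∀ {x y : G}, x ∈ [a, b, c, d] → y ∈ [a, b, c, d] → Commute (e x) (e y) := fun hx hy =>
    (hcomm _ hx _ hy).map e
  have ne : ∀ {x y : G}, x ≠ y → e x ≠ e y := fun h k => h (e.injective k)
  obtain ⟨g, g1, g2, g3, g4⟩ := quad_nf2 m1 m2 m3 m4 (cm (by simp) (by simp)) (cm (by simp) (by simp))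
    (cm (by simp) (by simp)) (cm (by simp) (by simp)) (cm (by simp) (by simp)) (cm (by simp) (by simp))
    (ne n12) (ne n13) (ne n14) (ne n23) (ne n24) (ne n34)
  let e' : G ≃* G2 := e.trans (MulAut.conj g)
  have he' : ∀ x, e' x = g * e x * g⁻¹ := fun x => rfl
  have hz : e' z = z0 := by
    rw [← hprod, z0_eq, ← g1, ← g2, ← g3, ← g4]
    simp only [List.prod_cons, List.prod_nil, mul_one, map_mul, he']
    group
  have hcm : (commutator G).map e'.toMonoidHom = F2 := by
    rw [← commutator2, commutator_def, commutator_def, Subgroup.map_commutator,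
      Subgroup.map_top_of_surjective _ e'.surjective]
  have hmap : C.map e'.toMonoidHom = XX := by
    rw [hC, hL]
    ext x
    constructor
    · rintro ⟨y, ⟨hy1, hy2⟩, rfl⟩
      refine ⟨?_, ?_⟩
      · rw [← hcm]
        exact ⟨y, hy1, rfl⟩
      · refine mem_Γ.2 ?_
        rw [← hz]
        have h5 := Subgroup.mem_centralizer_singleton_iff.1 hy2
        show e' y * e' z = e' z * e' y
        rw [← map_mul, ← map_mul, h5]
    · rintro ⟨h5, h6⟩
      rw [← hcm] at h5
      obtain ⟨y, hy, rfl⟩ := h5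
      refine ⟨y, ⟨hy, ?_⟩, rfl⟩
      have h7 := mem_Γ.1 h6
      rw [← hz] at h7
      refine Subgroup.mem_centralizer_singleton_iff.2 ?_
      apply e'.injective
      rw [map_mul, map_mul]
      exact h7
  have hfin : Concl ↥C := by
    apply Concl.of_equiv ((e'.subgroupMap C).trans (MulEquiv.subgroupCongr hmap)) concl
  exact hfin

end Cfsg.Agent.S5467
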