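import Cfsg.Statements.S5514
import Cfsg.Agent.Lib.Compute.O73Cl.Check

set_option autoImplicit false
set_option maxRecDepth 100000
open Cfsg

namespace Cfsg.Agent.S5514

open Cfsg.Agent.Lib.Compute.PermCert Cfsg.Agent.Lib.Compute.LinOrbit Cfsg.Agent.Lib.Compute.O73
open Cfsg.Agent.Lib.Compute.ToddCoxeterCore Cfsg.Agent.Lib.Compute.ToddCoxeterPresented
open Cfsg.Agent.Lib.Compute.O73Cl

/-! ### Fixed points -/

/-- The number of fixed points. -/
noncomputable def fixN {N : ℕ} (σ : Equiv.Perm (Fin N)) : ℕ := (Finset.univ.filter fun y => σ y = y).card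

theorem fixN_conj {N : ℕ} (τ σ : Equiv.Perm (Fin N)) : fixN (τ * σ * τ⁻¹) = fixN σ := by
  unfold fixN
  symm
  apply Finset.card_bij (fun y _ => τ y)
  · intro y hy
    simp only [Finset.mem_filter, Finset.mem_univ, true_and] at hy ⊢
    simp [hy]
  · intro a _ b _ h
    exact τ.injective h
  · intro b hb
    refine ⟨τ⁻¹ b, ?_, by simp⟩
    simp only [Finset.mem_filter, Finset.mem_univ, true_and] at hb ⊢
    have h1 : τ (σ (τ⁻¹ b)) = b := hb
    rw [Equiv.Perm.eq_inv_iff_eq]
    exact h1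

theorem fixN_inv {N : ℕ} (σ : Equiv.Perm (Fin N)) : fixN σ⁻¹ = fixN σ := by
  unfold fixN
  congr 1
  ext y
  simp only [Finset.mem_filter, Finset.mem_univ, true_and]
  rw [Equiv.Perm.inv_eq_iff_eq]
  exact eq_comm

/-- The count of the fixed points of a function. -/
def cntB (h : ℕ → ℕ) : ℕ → ℕ
  | 0 => 0
  | k + 1 => cntB h k + bif Nat.beq (h k) k then 1 else 0

theorem cntB_eq (h : ℕ → ℕ) (n : ℕ) : cntB h n = ∑ k ∈ Finset.range n, if h k = k then 1 else 0 := by
  induction n with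
  | zero => rfl
  | succ n ih =>
    rw [Finset.sum_range_succ, ← ih]
    show cntB h n + _ = _
    congr 1
    by_cases e : h n = n
    · rw [if_pos e, e]
      simp
    · rw [if_neg e]
      have : Nat.beq (h n) n = false := beq_ne e
      rw [this]
      rfl

theorem fixN_eq {N : ℕ} (σ : Equiv.Perm (Fin N)) (h : ℕ → ℕ) (hh : ∀ y : Fin N, ((σ y : Fin N) : ℕ) = h y) :
    fixN σ = cntB h N := by
  classical
  rw [cntB_eq, ← Fin.sum_univ_eq_sum_range (fun k => if h k = k then 1 else 0) N]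
  unfold fixN
  rw [Finset.card_filter]
  apply Finset.sum_congr rfl
  intro y _
  have : (σ y = y) ↔ h y = y := by
    rw [Fin.ext_iff, hh]
  simp only [this]

/-! ### The action on the forms -/

/-- The action of a power of a letter on the forms. -/
def actQ (k e y : ℕ) : ℕ :=
  bif Nat.beq e 0 then y else bif Nat.beq e 1 then wordPt evQ' (lwL.getD k []) y
    else wordPt evQ' (lwL.getD k []).reverse y

/-- The action of a product on the forms. -/
def evQL : ℕ → List ℕ → ℕ → ℕ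
  | _, [], y => y
  | k, e :: es, y => actQ k e (evQL (k + 1) es y)

theorem word_inv {A : Type} [Group A] (el : ℕ → A) (a : List ℕ) (hs : ∀ x ∈ a, el x * el x = 1) :
    (wordEl el a)⁻¹ = wordEl el a.reverse := by
  induction a with
  | nil =>
    show (1 : A)⁻¹ = 1
    exact inv_one
  | cons x u ih =>
    rw [wordEl_cons, mul_inv_rev, ih (fun y hy => hs y (by simp [hy])), List.reverse_cons, wordEl_append, wordEl_cons,
      wordEl_nil, one_mul]
    congr 1
    exact inv_eq_of_mul_eq_one_left (hs x (by simp))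

theorem pi_xE {k : ℕ} (hk : k < 12) (e : ℕ) (y : Fin 1080) : ((pi' (xE k e) y : Fin 1080) : ℕ) = actQ k e y := by
  have hlt := lw_lt hk
  have hL : pi' (Lg k) = wordEl elQ (lwL.getD k []) := pi_word _ hlt
  have hev : ∀ j, j < 8 → ∀ i : Fin 1080, ((elQ j i : Fin 1080) : ℕ) = evQ' j i := fun j _ i => evQ'_eq j i
  unfold xE actQ
  by_cases h0 : e = 0
  · subst h0
    simp
  · by_cases h1 : e = 1
    · subst h1
      show ((pi' (Lg k) y : Fin 1080) : ℕ) = _
      rw [hL]
      exact wordEl_apply hev _ hlt y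
    · have e0 : Nat.beq e 0 = false := beq_ne h0
      have e1 : Nat.beq e 1 = false := beq_ne h1
      rw [e0, e1]
      simp only [cond_false]
      rw [map_inv, hL, word_inv elQ _ (fun x hx => elQ_sq (hlt x hx))]
      exact wordEl_apply hev _ (fun x hx => hlt x (List.mem_reverse.mp hx)) y

theorem pi_xL {k : ℕ} {es : List ℕ} (h : k + es.length ≤ 12) (y : Fin 1080) :
    ((pi' (xL k es) y : Fin 1080) : ℕ) = evQL k es y := by
  induction es generalizing k with
  | nil =>
    simp [xL, evQL]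
  | cons e es ih =>
    simp only [List.length_cons] at h
    show ((pi' (xE k e * xL (k + 1) es) y : Fin 1080) : ℕ) = actQ k e (evQL (k + 1) es y)
    rw [map_mul, Equiv.Perm.mul_apply, pi_xE (by omega), ih (by omega)]

theorem pi_Xn (n : ℕ) (y : Fin 1080) : ((pi' (Xn n) y : Fin 1080) : ℕ) = evQL 0 (dig 9 n) y :=
  pi_xL (by rw [dig_length]; norm_num) y

/-! ### The representatives -/

/-- The invariant on the vectors. -/
def F702 (n : ℕ) : ℕ := cntB (evL 0 (dig 9 n)) 702

/-- The invariant on the forms. -/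
def F1080 (n : ℕ) : ℕ := cntB (evQL 0 (dig 9 n)) 1080

theorem inv_chk : ∀ i : Fin 7, F702 (rootsL.getD i 0) = [54, 72, 0, 0, 0, 90, 18].getD i 0 ∧
    F1080 (rootsL.getD i 0) = [108, 0, 9, 0, 27, 0, 18].getD i 0 := by decide +kernel

theorem root_chk : ∀ i : Fin 7, (baseL.all fun b =>
      let es := dig 9 (rootsL.getD i 0)
      Nat.beq (evL 0 es (evL 0 es (evL 0 es b))) b) = true ∧
    (baseL.any fun b => !(Nat.beq (evL 0 (dig 9 (rootsL.getD i 0)) b) b)) = true := by decide +kernel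

theorem base_lt' : ∀ b ∈ baseL, b < 702 := by decide

theorem rootE_cube (i : Fin 7) : rootE i * rootE i * rootE i = 1 := by
  apply G_ext
  intro y hy
  apply Fin.ext
  rw [map_mul, map_mul, Equiv.Perm.mul_apply, Equiv.Perm.mul_apply, map_one]
  unfold rootE
  rw [rho_Xn, rho_Xn, rho_Xn]
  have h := List.all_eq_true.mp (root_chk i).1 y hy
  exact Nat.eq_of_beq_eq_true h

theorem rootE_ne (i : Fin 7) : rootE i ≠ 1 := by
  intro h
  obtain ⟨b, hb, hm⟩ := List.any_eq_true.mp (root_chk i).2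
  have h1 := rho_Xn (rootsL.getD i 0) ⟨b, base_lt' b hb⟩
  have h2 : Xn (rootsL.getD i 0) = 1 := h
  rw [h2, map_one] at h1
  simp only [Equiv.Perm.one_apply] at h1
  rw [← h1] at hm
  simp at hm

theorem rootE_pow (i : Fin 7) : rootE i ^ 3 = 1 := by
  rw [pow_succ, pow_two]
  exact rootE_cube i

theorem rootE_order (i : Fin 7) : orderOf (rootE i) = 3 :=
  haveI : Fact (Nat.Prime 3) := ⟨Nat.prime_three⟩
  orderOf_eq_prime (rootE_pow i) (rootE_ne i)

theorem mem_zp {A : Type} [Group A] {r y : A} (h3 : r ^ 3 = 1) (hy : y ∈ Subgroup.zpowers r) :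
    y = 1 ∨ y = r ∨ y = r⁻¹ := by
  obtain ⟨k, rfl⟩ := Subgroup.mem_zpowers_iff.mp hy
  have h3' : r ^ (3 : ℤ) = 1 := by exact_mod_cast h3
  rw [zpow_eq_zpow_emod' (n := 3) k h3, show ((3 : ℕ) : ℤ) = 3 from rfl]
  have h1 : k % 3 = 0 ∨ k % 3 = 1 ∨ k % 3 = 2 := by omega
  rcases h1 with h | h | h
  · left
    rw [h, zpow_zero]
  · right
    left
    rw [h, zpow_one]
  · right
    right
    rw [h]
    apply eq_inv_of_mul_eq_one_left
    have : r ^ (2 : ℤ) * r = r ^ (3 : ℤ) := by
      rw [← zpow_add_one]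
      rfl
    rw [this, h3']

/-- The groups of the statement. -/
noncomputable def YY (i : Fin 7) : Subgroup G := Subgroup.zpowers (rootE i)

theorem card_YY (i : Fin 7) : Nat.card (YY i) = 3 := by
  rw [YY, Nat.card_zpowers, rootE_order]

theorem fix_rho (i : Fin 7) : fixN (rho (rootE i)) = [54, 72, 0, 0, 0, 90, 18].getD i 0 := by
  rw [← (inv_chk i).1]
  exact fixN_eq _ _ (fun y => rho_Xn _ y)

theorem fix_pi (i : Fin 7) : fixN (pi' (rootE i)) = [108, 0, 9, 0, 27, 0, 18].getD i 0 := by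
  rw [← (inv_chk i).2]
  exact fixN_eq _ _ (fun y => pi_Xn _ y)

theorem inv_sep : ∀ i j : Fin 7, [54, 72, 0, 0, 0, 90, 18].getD i 0 = [54, 72, 0, 0, 0, 90, 18].getD j 0 →
    [108, 0, 9, 0, 27, 0, 18].getD i 0 = [108, 0, 9, 0, 27, 0, 18].getD j 0 → i = j := by decide

theorem YY_sep (i j : Fin 7) (h : ∃ g : G, (YY i).map (MulAut.conj g).toMonoidHom = YY j) : i = j := by
  obtain ⟨g, hg⟩ := h
  have h1 : g * rootE i * g⁻¹ ∈ YY j := by
    rw [← hg]
    exact ⟨rootE i, Subgroup.mem_zpowers _, rfl⟩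
  have hne : g * rootE i * g⁻¹ ≠ 1 := by
    intro h2
    apply rootE_ne i
    have : rootE i = g⁻¹ * (g * rootE i * g⁻¹) * g := by group
    rw [this, h2]
    group
  have key : ∀ {M : ℕ} (φ : G →* Equiv.Perm (Fin M)), fixN (φ (rootE i)) = fixN (φ (rootE j)) := by
    intro M φ
    have e1 : fixN (φ (g * rootE i * g⁻¹)) = fixN (φ (rootE i)) := by
      rw [map_mul, map_mul, map_inv]
      exact fixN_conj _ _
    rcases mem_zp (rootE_pow j) h1 with h2 | h2 | h2
    · exact absurd h2 hne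
    · rw [← e1, h2]
    · rw [← e1, h2, map_inv, fixN_inv]
  have e1 := key rho
  have e2 := key pi'
  rw [fix_rho, fix_rho] at e1
  rw [fix_pi, fix_pi] at e2
  exact inv_sep i j e1 e2

instance : Finite G := Nat.finite_of_card_ne_zero (by rw [Cfsg.Agent.S1686.card_Omega]; norm_num)

theorem fac_G : (Nat.card G).factorization 3 = 9 := by
  rw [Cfsg.Agent.S1686.card_Omega]
  have h : (4585351680 : ℕ) = 3 ^ 9 * 232960 := by norm_num
  rw [h, Nat.factorization_mul (by norm_num) (by norm_num), Nat.factorization_pow]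
  have h0 : (232960 : ℕ).factorization 3 = 0 := Nat.factorization_eq_zero_of_not_dvd (by norm_num)
  simp [h0, Nat.Prime.factorization_self Nat.prime_three]

theorem YY_cover (X : Subgroup G) (hX : Nat.card X = 3) : ∃ i : Fin 7, ∃ g : G, X.map (MulAut.conj g).toMonoidHom = YY i := by
  haveI : Fact (Nat.Prime 3) := ⟨Nat.prime_three⟩
  let S : Sylow 3 G := Sylow.ofCard PP (by rw [card_PP, fac_G]; norm_num)
  have hXp : IsPGroup 3 X := IsPGroup.of_card (n := 1) (by simpa using hX)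
  obtain ⟨Q, hQ⟩ := hXp.exists_le_sylow
  obtain ⟨g, hg⟩ := MulAction.exists_smul_eq G Q S
  haveI : Nontrivial X := by
    apply Finite.one_lt_card_iff_nontrivial.mp
    rw [hX]
    norm_num
  obtain ⟨⟨x, hx⟩, hne⟩ := exists_ne (1 : X)
  have hne' : x ≠ 1 := fun h => hne (Subtype.ext h)
  have hx3 : x ^ 3 = 1 := by
    have h := pow_card_eq_one' (x := (⟨x, hx⟩ : X))
    rw [hX] at h
    exact congrArg Subtype.val h
  have hx' : g * x * g⁻¹ ∈ PP := by
    have h1 : g * x * g⁻¹ ∈ ((g • Q : Sylow 3 G) : Subgroup G) := by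
      rw [Sylow.coe_subgroup_smul]
      exact (Subgroup.mem_smul_pointwise_iff_exists _ _ _).mpr ⟨x, hQ hx, rfl⟩
    rw [hg] at h1
    exact h1
  have h3 : (g * x * g⁻¹) * (g * x * g⁻¹) * (g * x * g⁻¹) = 1 := by
    have : (g * x * g⁻¹) * (g * x * g⁻¹) * (g * x * g⁻¹) = g * (x * x * x) * g⁻¹ := by group
    have h4 : x * x * x = 1 := by
      rw [← hx3, pow_succ, pow_two]
    rw [this, h4]
    group
  have hne2 : g * x * g⁻¹ ≠ 1 := by
    intro h2
    apply hne'
    have : x = g⁻¹ * (g * x * g⁻¹) * g := by group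
    rw [this, h2]
    group
  obtain ⟨i, hi, h, hh⟩ := cover hx' h3 hne2
  refine ⟨⟨i, hi⟩, h * g, ?_⟩
  have hord : orderOf x = 3 := orderOf_eq_prime hx3 hne'
  have hXz : X = Subgroup.zpowers x := by
    symm
    apply Subgroup.eq_of_le_of_card_ge (Subgroup.zpowers_le.mpr hx)
    rw [hX, Nat.card_zpowers, hord]
  rw [hXz, MonoidHom.map_zpowers]
  have e : (MulAut.conj (h * g)).toMonoidHom x = rootE i := by
    rw [← hh]
    show h * g * x * (h * g)⁻¹ = _
    group
  rw [e]
  rfl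

/-- Transport along an isomorphism. -/
theorem transport {A B : Type*} [Group A] [Group B] (e : A ≃* B)
    (hB : ∃ Y : Fin 7 → Subgroup B, (∀ i, Nat.card (Y i) = 3) ∧
      (∀ i j, (∃ g : B, (Y i).map (MulAut.conj g).toMonoidHom = Y j) → i = j) ∧
      (∀ X : Subgroup B, Nat.card X = 3 → ∃ i, ∃ g : B, X.map (MulAut.conj g).toMonoidHom = Y i)) :
    ∃ Y : Fin 7 → Subgroup A, (∀ i, Nat.card (Y i) = 3) ∧
      (∀ i j, (∃ g : A, (Y i).map (MulAut.conj g).toMonoidHom = Y j) → i = j) ∧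
      (∀ X : Subgroup A, Nat.card X = 3 → ∃ i, ∃ g : A, X.map (MulAut.conj g).toMonoidHom = Y i) := by
  obtain ⟨Y, h1, h2, h3⟩ := hB
  have key : ∀ (U : Subgroup B) (g : A), (U.map e.symm.toMonoidHom).map (MulAut.conj g).toMonoidHom =
      (U.map (MulAut.conj (e g)).toMonoidHom).map e.symm.toMonoidHom := by
    intro U g
    rw [Subgroup.map_map, Subgroup.map_map]
    congr 1
    ext u
    show g * e.symm u * g⁻¹ = e.symm (e g * u * (e g)⁻¹)
    simp
  have hinj : Function.Injective (Subgroup.map e.symm.toMonoidHom) := Subgroup.map_injective e.symm.injective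
  refine ⟨fun i => (Y i).map e.symm.toMonoidHom, ?_, ?_, ?_⟩
  · intro i
    show Nat.card ((Y i).map e.symm.toMonoidHom) = 3
    rw [← h1 i]
    exact Nat.card_congr (e.symm.subgroupMap (Y i)).symm.toEquiv
  · rintro i j ⟨g, hg⟩
    apply h2 i j
    refine ⟨e g, hinj ?_⟩
    rw [← key, hg]
  · intro X hX
    have hU : Nat.card (X.map e.toMonoidHom) = 3 := by
      rw [← hX]
      exact Nat.card_congr (e.subgroupMap X).symm.toEquiv
    obtain ⟨i, g, hg⟩ := h3 _ hU
    refine ⟨i, e.symm g, ?_⟩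
    have hXU : X = (X.map e.toMonoidHom).map e.symm.toMonoidHom := by
      rw [Subgroup.map_map]
      ext a
      simp
    rw [hXU, key]
    simp only [MulEquiv.apply_symm_apply]
    rw [hg]

/-- The commutator subgroup of the isometry group of a non-degenerate 7-dimensional quadratic form over the field with three elements, modulo its (trivial) centre — the simple group Ω(7, 3) — has exactly seven conjugacy classes of subgroups of order 3. -/
theorem result : ∃ Y : Fin 7 → Subgroup (Cfsg.POmega (ZMod 3) (Cfsg.quadFormOdd 3 (ZMod 3))), (∀ i, Nat.card (Y i) = 3) ∧ (∀ i j, (∃ g : Cfsg.POmega (ZMod 3) (Cfsg.quadFormOdd 3 (ZMod 3)), (Y i).map (MulAut.conj g).toMonoidHom = Y j) → i = j) ∧ (∀ X : Subgroup (Cfsg.POmega (ZMod 3) (Cfsg.quadFormOdd 3 (ZMod 3))), Nat.card X = 3 → ∃ i, ∃ g : Cfsg.POmega (ZMod 3) (Cfsg.quadFormOdd 3 (ZMod 3)), X.map (MulAut.conj g).toMonoidHom = Y i) := by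
  have h : ∃ Y : Fin 7 → Subgroup G, (∀ i, Nat.card (Y i) = 3) ∧
      (∀ i j, (∃ g : G, (Y i).map (MulAut.conj g).toMonoidHom = Y j) → i = j) ∧
      (∀ X : Subgroup G, Nat.card X = 3 → ∃ i, ∃ g : G, X.map (MulAut.conj g).toMonoidHom = Y i) :=
    ⟨YY, card_YY, YY_sep, YY_cover⟩
  exact @transport (Cfsg.POmega (ZMod 3) (Cfsg.quadFormOdd 3 (ZMod 3))) G _ (Subgroup.toGroup _) Cfsg.Agent.S1686.poEquiv h

end Cfsg.Agent.S5514
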