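import Cfsg.Statements.S5515
import Mathlib
import Cfsg.Agent.Lib.Classical.OrthAut.OctUniq

set_option autoImplicit false
open Cfsg

namespace Cfsg.Agent.S5515

/-- Let G and G′ be finite groups whose generalized Fitting subgroups are isomorphic to PΩ⁺(8, 3) (the commutator subgroup of the isometry group of the hyperbolic quadratic form in dimension 8 over the field with three elements, modulo its centre) with quotients isomorphic to the symmetric group of degree 3. Then G and G′ are isomorphic. -/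
theorem result {G G' : Type*} [Group G] [Finite G] [Group G'] [Finite G'] (hF : Nonempty (↥(Cfsg.generalizedFittingSubgroup G) ≃* Cfsg.POmega (ZMod 3) (Cfsg.quadFormPlus 4 (ZMod 3)))) (hF' : Nonempty (↥(Cfsg.generalizedFittingSubgroup G') ≃* Cfsg.POmega (ZMod 3) (Cfsg.quadFormPlus 4 (ZMod 3)))) [hn : (Cfsg.generalizedFittingSubgroup G).Normal] [hn' : (Cfsg.generalizedFittingSubgroup G').Normal] (hq : Nonempty (G ⧸ Cfsg.generalizedFittingSubgroup G ≃* Equiv.Perm (Fin 3))) (hq' : Nonempty (G' ⧸ Cfsg.generalizedFittingSubgroup G' ≃* Equiv.Perm (Fin 3))) : Nonempty (G ≃* G') := by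
  have h3 : Fintype.card (ZMod 3) = 3 ^ 1 := by simp [ZMod.card]
  haveI : Fact (Nat.Prime 3) := ⟨by norm_num⟩
  obtain ⟨e⟩ := Cfsg.Agent.Lib.Classical.OrthAut.Oct.out_four_odd (F := ZMod 3) (m := 4) (p := 3) (f := 1) le_rfl h3 (by norm_num) rfl
  rw [Cfsg.Agent.Lib.Classical.Orth.Models.coe_plusForm] at e
  have hQ := Cfsg.Agent.Lib.Classical.Orth.Models.plusForm_nondegenerate (F := ZMod 3) 4
  have hn : 7 ≤ Fintype.card (Fin 4 ⊕ Fin 4) := by simp
  have hI := Cfsg.Agent.Lib.Classical.Orth.Semi.card_inn hQ hn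
  have hinj := Cfsg.Agent.Lib.Classical.OrthAut.Oct.conj_injective hQ hn
  rw [Cfsg.Agent.Lib.Classical.Orth.Models.coe_plusForm] at hI hinj
  have hZ : Subgroup.center (Cfsg.POmega (ZMod 3) (Cfsg.quadFormPlus 4 (ZMod 3))) = ⊥ := by
    rw [eq_bot_iff]
    intro x hx
    rw [Subgroup.mem_bot]
    apply hinj
    rw [map_one]
    apply MulEquiv.ext
    intro y
    rw [MulAut.conj_apply, ← Subgroup.mem_center_iff.1 hx y, mul_inv_cancel_right]
    rfl
  let e' : Cfsg.Out (Cfsg.POmega (ZMod 3) (Cfsg.quadFormPlus 4 (ZMod 3))) ≃* Equiv.Perm (Fin 4) :=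
    e.trans (MulEquiv.prodUnique)
  obtain ⟨φ, h1, h2, h4⟩ := Cfsg.Agent.Lib.Classical.OrthAut.OctUniq.exists_embed hZ hF hq
  obtain ⟨φ', h1', h2', h4'⟩ := Cfsg.Agent.Lib.Classical.OrthAut.OctUniq.exists_embed hZ hF' hq'
  exact Cfsg.Agent.Lib.Classical.OrthAut.OctUniq.unique_of_out_S4 e' hI φ φ' h1 h1' h2 h2' h4 h4'

end Cfsg.Agent.S5515
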