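import Cfsg.Statements.S5516
import Mathlib
import Cfsg.Agent.S5515
import Cfsg.Agent.Lib.Fischer.M23.R3.O8Main

set_option autoImplicit false
open Cfsg

namespace Cfsg.Agent.S5516

open Cfsg.Agent.Lib.Fischer.M23.R3.O8C Cfsg.Agent.Lib.Fischer.M24.O8
open Cfsg.Agent.Lib.Fischer.M23.Explicit

/-- PΩ⁺(8, 3) (the commutator subgroup of the isometry group of the hyperbolic quadratic form in dimension 8 over the field with three elements, modulo its centre) has exactly 13 conjugacy classes of subgroups of order 3; and a finite group G whose generalized Fitting subgroup L is isomorphic to PΩ⁺(8, 3) with G/L the symmetric group of degree 3 has exactly 7 orbits, under conjugation, on the subgroups of L of order 3. -/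
theorem result {G : Type*} [Group G] [Finite G] (L : Subgroup G) (hL : L = Cfsg.generalizedFittingSubgroup G) (hF : Nonempty (↥L ≃* Cfsg.POmega (ZMod 3) (Cfsg.quadFormPlus 4 (ZMod 3)))) [hn : L.Normal] (hq : Nonempty (G ⧸ L ≃* Equiv.Perm (Fin 3))) : (∃ Y : Fin 13 → Subgroup (Cfsg.POmega (ZMod 3) (Cfsg.quadFormPlus 4 (ZMod 3))), (∀ i, Nat.card (Y i) = 3) ∧ (∀ i j, (∃ g : Cfsg.POmega (ZMod 3) (Cfsg.quadFormPlus 4 (ZMod 3)), (Y i).map (MulAut.conj g).toMonoidHom = Y j) → i = j) ∧ (∀ X : Subgroup (Cfsg.POmega (ZMod 3) (Cfsg.quadFormPlus 4 (ZMod 3))), Nat.card X = 3 → ∃ i, ∃ g : Cfsg.POmega (ZMod 3) (Cfsg.quadFormPlus 4 (ZMod 3)), X.map (MulAut.conj g).toMonoidHom = Y i)) ∧ ∃ Y : Fin 7 → Subgroup G, (∀ i, Y i ≤ L ∧ Nat.card (Y i) = 3) ∧ (∀ i j, (∃ g : G, (Y i).map (MulAut.conj g).toMonoidHom = Y j) → i = j) ∧ ∀ X : Subgroup G, X ≤ L → Nat.card X = 3 → ∃ i, ∃ g : G, X.map (MulAut.conj g).toMonoidHom = Y i := by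
  subst hL
  constructor
  · obtain ⟨e1⟩ := N1_iso
    let f1 : Cfsg.POmega (ZMod 3) (Cfsg.quadFormPlus 4 (ZMod 3)) →* G1 := N1.subtype.comp e1.symm.toMonoidHom
    have hf1 : Function.Injective f1 := N1.subtype_injective.comp e1.symm.injective
    have hr1 : f1.range = N1 := by
      ext x
      constructor
      · rintro ⟨y, rfl⟩
        exact (e1.symm y).2
      · intro hx
        refine ⟨e1 ⟨x, hx⟩, ?_⟩
        show ((e1.symm (e1 ⟨x, hx⟩) : ↥N1) : G1) = x
        rw [e1.symm_apply_apply]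
    obtain ⟨Y, -, h1, h2, h3⟩ := transport f1 hf1 (fun i : Fin 13 => Y13 i) N1
      (fun i => by rw [hr1]; exact Y13_le _) (fun i => card_Y13 i.2)
      (fun i j g hg h => Fin.ext (dist13 i.2 j.2 (by rw [← hr1]; exact hg) h))
      (fun X hX hc => by
        obtain ⟨c, hc', u, hu, h⟩ := cls13 X hX hc
        exact ⟨⟨c, hc'⟩, u, by rw [hr1]; exact hu, h⟩)
    refine ⟨Y, h1, h2, fun X hX => h3 X ?_ hX⟩
    rw [← hr1]
    exact Subgroup.map_le_range _ _
  · obtain ⟨-, hF', ⟨hn', hq'⟩, -⟩ := main_G1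
    obtain ⟨e⟩ : Nonempty (G ≃* ↥LL) := Cfsg.Agent.S5515.result hF hF' hq hq'
    let f : G →* G1 := LL.subtype.comp e.toMonoidHom
    have hf : Function.Injective f := LL.subtype_injective.comp e.injective
    have hr : f.range = LL := by
      ext x
      constructor
      · rintro ⟨y, rfl⟩
        exact (e y).2
      · intro hx
        refine ⟨e.symm ⟨x, hx⟩, ?_⟩
        show ((e (e.symm ⟨x, hx⟩) : ↥LL) : G1) = x
        rw [e.apply_symm_apply]
    have hLm : (Cfsg.generalizedFittingSubgroup G).map f = N1 := by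
      have h1 := Cfsg.Agent.Lib.Components.Transport.generalizedFittingSubgroup_map_equiv e
      rw [fstar_LL] at h1
      have h2 : (Cfsg.generalizedFittingSubgroup G).map f =
          ((Cfsg.generalizedFittingSubgroup G).map e.toMonoidHom).map LL.subtype := by
        rw [Subgroup.map_map]
      rw [h2, h1, Subgroup.map_subgroupOf_eq_of_le N1_le_LL]
    obtain ⟨Y, hY, h1, h2, h3⟩ := transport f hf (fun i : Fin 7 => Y13 (sel.getD i 0)) N1
      (fun i => by rw [hr]; exact (Y13_le _).trans N1_le_LL) (fun i => card_Y13 (sel_lt i))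
      (fun i j g hg h => dist7 (by rw [← hr]; exact hg) h)
      (fun X hX hc => by
        obtain ⟨d, g, hg, h⟩ := cls7 X hX hc
        exact ⟨d, g, by rw [hr]; exact hg, h⟩)
    refine ⟨Y, fun i => ⟨?_, h1 i⟩, h2, fun X hX hc => h3 X ?_ hc⟩
    · intro x hx
      rw [hY] at hx
      have h4 : f x ∈ N1 := Y13_le _ hx
      rw [← hLm] at h4
      obtain ⟨y, hy, hyx⟩ := h4
      rwa [← hf hyx]
    · rw [← hLm]
      exact Subgroup.map_mono hX

end Cfsg.Agent.S5516
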