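import Cfsg.Statements.S5518
import Cfsg.Agent.Lib.Fischer.M24.Th13.IsoK
import Cfsg.Agent.Lib.Fischer.M24.E.Iso

set_option autoImplicit false
open Cfsg

namespace Cfsg.Agent.S5518

/-- Let G be a finite group with trivial centre generated by a conjugation-invariant set D of 3-transpositions on which it acts primitively, such that for some d in D the subgroup generated by the members of D other than d commuting with d has central largest normal 2- and 3-subgroups, and suppose G with D is of type M(24). Then any two subgroups of order 13 are conjugate; and there are members a, b, c, d of D generating the direct product T of two symmetric groups of degree 3 (a, d non-commuting; b, c non-commuting; b and c commuting with a and d) whose centralizer K is isomorphic to the Chevalley group G₂(3), such that for every subgroup B of K of order 13: the normalizer of B lies in the normalizer of K, the normalizer F of B in K is a Frobenius group of order 78 with kernel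 B (order 78, centralizer of B in it equal to B), and the subgroup generated by F and T has index 2 in the normalizer of B. -/
theorem result {G : Type*} [Group G] [Finite G] {D : Set G} (hD : Cfsg.IsThreeTranspositionGroup D) (hprim : Cfsg.IsPrimitiveUnderConj D) (d₀ : G) (hd₀ : d₀ ∈ D) (h3 : Cfsg.pCore 3 ↥(Subgroup.closure {y : G | y ∈ D ∧ y ≠ d₀ ∧ Commute d₀ y}) ≤ Subgroup.center ↥(Subgroup.closure {y : G | y ∈ D ∧ y ≠ d₀ ∧ Commute d₀ y})) (h2 : Cfsg.pCore 2 ↥(Subgroup.closure {y : G | y ∈ D ∧ y ≠ d₀ ∧ Commute d₀ y}) ≤ Subgroup.center ↥(Subgroup.closure {y : G | y ∈ D ∧ y ≠ d₀ ∧ Commute d₀ y})) (h24 : Cfsg.IsOfTypeM24 G D) : (∀ X Y : Subgroup G, Nat.card X = 13 → Nat.card Y = 13 → ∃ g : G, X.map (MulAut.conj g).toMonoidHom = Y) ∧ ∃ (a b c d : G) (T K : Subgroup G), (∀ x ∈ [a, b, c, d], x ∈ D) ∧ ¬ Commute a d ∧ ¬ Commute b c ∧ Commute a b ∧ Commute a c ∧ Commute d b ∧ Commute d c ∧ T = Subgroup.closure ({a, b, c, d} : Set G) ∧ K = Subgroup.centralizer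 (T : Set G) ∧ Nonempty (↥K ≃* ↥(Cfsg.Lie.chevG2.group (ZMod 3))) ∧ ∀ B : Subgroup G, B ≤ K → Nat.card B = 13 → Subgroup.normalizer ((B : Subgroup G) : Set G) ≤ Subgroup.normalizer ((K : Subgroup G) : Set G) ∧ Nat.card ↥(K ⊓ Subgroup.normalizer ((B : Subgroup G) : Set G)) = 78 ∧ K ⊓ Subgroup.centralizer ((B : Subgroup G) : Set G) = B ∧ (((K ⊓ Subgroup.normalizer ((B : Subgroup G) : Set G)) ⊔ T).subgroupOf (Subgroup.normalizer ((B : Subgroup G) : Set G))).index = 2 := by
  obtain ⟨e, he⟩ := Cfsg.Agent.Lib.Fischer.M24.Explicit.exists_iso_G2 hD hprim h24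
  let a := e.symm Cfsg.Agent.Lib.Fischer.M24.Explicit.z2
  let d := e.symm Cfsg.Agent.Lib.Fischer.M24.Th13.dG
  let b := e.symm (Cfsg.Agent.Lib.Fischer.M24.Explicit.L 6)
  let c := e.symm (Cfsg.Agent.Lib.Fischer.M24.Explicit.L 7)
  let x0 := e.symm (Cfsg.Agent.Lib.Fischer.M24.Explicit.Lw Cfsg.Agent.Lib.Fischer.M24.Th13.w_x0)
  let s1 := e.symm (Cfsg.Agent.Lib.Fischer.M24.Explicit.Lw Cfsg.Agent.Lib.Fischer.M24.Th13.w_s1)
  have P : Cfsg.Agent.Lib.Fischer.M24.Th13.Pack D Cfsg.Agent.Lib.Compute.G23.GR a d b c x0 s1 :=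
    Cfsg.Agent.Lib.Fischer.M24.Th13.Pack.transfer e he (by
      simpa only [a, d, b, c, x0, s1, MulEquiv.apply_symm_apply] using Cfsg.Agent.Lib.Fischer.M24.Th13.pack2)
  have hcard : Nat.card G = 2 ^ 22 * 3 ^ 16 * 5 ^ 2 * 7 ^ 3 * 11 * 13 * 17 * 23 * 29 :=
    (Nat.card_congr e.toEquiv).trans Cfsg.Agent.Lib.Fischer.M24.Explicit.card2
  have hf : (Nat.card G).factorization 13 = 1 := by
    rw [hcard, show (2 ^ 22 * 3 ^ 16 * 5 ^ 2 * 7 ^ 3 * 11 * 13 * 17 * 23 * 29 : ℕ) =
      13 * (2 ^ 22 * 3 ^ 16 * 5 ^ 2 * 7 ^ 3 * 11 * 17 * 23 * 29) by norm_num,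
      Nat.factorization_mul (by norm_num) (by norm_num), Finsupp.add_apply, Nat.Prime.factorization_self (by norm_num)]
    have : (2 ^ 22 * 3 ^ 16 * 5 ^ 2 * 7 ^ 3 * 11 * 17 * 23 * 29 : ℕ).factorization 13 = 0 :=
      Nat.factorization_eq_zero_of_not_dvd (by norm_num)
    omega
  refine ⟨fun X Y hX hY => Cfsg.Agent.Lib.Fischer.M22.Rows.Prime.conj_of_card hf hX hY, a, b, c, d,
    Cfsg.Agent.Lib.Fischer.M24.Th13.TS a d b c, Cfsg.Agent.Lib.Fischer.M24.Th13.KS a d b c, ?_, P.C.nad, P.C.nbc,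
    P.C.ab, P.C.ac, P.C.db, P.C.dc, rfl, rfl, P.iso, ?_⟩
  · intro x hx
    simp only [List.mem_cons, List.not_mem_nil, or_false] at hx
    rcases hx with rfl | rfl | rfl | rfl
    · exact P.C.ha
    · exact P.C.hb
    · exact P.C.hc
    · exact P.C.hd
  · intro B hBK hB
    exact P.main Cfsg.Agent.Lib.Compute.G23.card_GR Cfsg.Agent.Lib.Compute.G23.order_thirteen hBK hB

end Cfsg.Agent.S5518
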