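import Cfsg.Statements.S5541
import Mathlib
-- import your own Cfsg.Agent.* helpers here

set_option autoImplicit false
open Cfsg

namespace Cfsg.Agent.S5541

/-- Let ρ be a representation of a group H on a finite-dimensional real vector space U whose only ρ-invariant subspaces are the zero subspace and U, and suppose U carries a non-zero ρ-invariant symmetric bilinear form. Then the following are equivalent: (1) there is a non-zero ρ-equivariant commutative bilinear product on U of which every ρ-equivariant bilinear product is a scalar multiple; (2) there is a non-zero ρ-invariant trilinear form on U that is symmetric under all permutations of its arguments and of which every ρ-invariant trilinear form is a scalar multiple. -/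
theorem result {H : Type*} [Group H] {U : Type*} [AddCommGroup U] [Module ℝ U] [FiniteDimensional ℝ U] (ρ : Representation ℝ H U) (hirr : ∀ W : Submodule ℝ U, (∀ g : H, W.map (ρ g) ≤ W) → W = ⊥ ∨ W = ⊤) (B : LinearMap.BilinForm ℝ U) (hB0 : B ≠ 0) (hBs : ∀ u v, B u v = B v u) (hBi : ∀ (g : H) (u v : U), B (ρ g u) (ρ g v) = B u v) : (∃ m : U →ₗ[ℝ] U →ₗ[ℝ] U, m ≠ 0 ∧ (∀ u v, m u v = m v u) ∧ (∀ (g : H) (u v : U), m (ρ g u) (ρ g v) = ρ g (m u v)) ∧ ∀ m' : U →ₗ[ℝ] U →ₗ[ℝ] U, (∀ (g : H) (u v : U), m' (ρ g u) (ρ g v) = ρ g (m' u v)) → ∃ c : ℝ, m' = c • m) ↔ (∃ t : U →ₗ[ℝ] U →ₗ[ℝ] U →ₗ[ℝ] ℝ, t ≠ 0 ∧ (∀ u v w, t u v w = t v u w ∧ t u v w = t u w v) ∧ (∀ (g : H) (u v w : U), t (ρ g u) (ρ g v) (ρ g w) = t u v w) ∧ ∀ t' : U →ₗ[ℝ] U →ₗ[ℝ] U →ₗ[ℝ] ℝ, (∀ (g : H) (u v w : U), t' (ρ g u) (ρ g v) (ρ g w) = t' u v w) → ∃ c : ℝ, t' = c • t) := by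
  -- nondegeneracy of `B` from irreducibility
  have hinv : ∀ (g : H) (v : U), ρ g (ρ g⁻¹ v) = v := by
    intro g v
    have : ρ g * ρ g⁻¹ = 1 := by rw [← map_mul, mul_inv_cancel, map_one]
    exact LinearMap.congr_fun this v
  have hinv' : ∀ (g : H) (v : U), ρ g⁻¹ (ρ g v) = v := by
    intro g v
    have := hinv g⁻¹ v
    rwa [inv_inv] at this
  have hsep : ∀ x : U, (∀ w, B x w = 0) → x = 0 := by
    let W : Submodule ℝ U :=
      { carrier := {x | ∀ w, B x w = 0}
        add_mem' := by
          intro a b ha hb w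
          simp [ha w, hb w]
        zero_mem' := by intro w; simp
        smul_mem' := by
          intro c a ha w
          simp [ha w] }
    have hW : ∀ g : H, W.map (ρ g) ≤ W := by
      rintro g _ ⟨x, hx, rfl⟩ w
      have := hBi g x (ρ g⁻¹ w)
      rw [hinv] at this
      rw [this]
      exact hx _
    rcases hirr W hW with h | h
    · intro x hx
      have : x ∈ W := hx
      rw [h] at this
      simpa using this
    · exfalso
      apply hB0
      ext x w
      have : x ∈ W := by rw [h]; trivial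
      simpa using this w
  have hND : B.Nondegenerate := by
    constructor
    · intro x hx
      exact hsep x hx
    · intro x hx
      exact hsep x (fun w => by rw [hBs]; exact hx w)
  have hext : ∀ x y : U, (∀ w, B x w = B y w) → x = y := by
    intro x y h
    have : x - y = 0 := hsep _ (fun w => by simp [h w])
    exact sub_eq_zero.mp this
  -- trilinear forms come from products
  have hm : ∀ t' : U →ₗ[ℝ] U →ₗ[ℝ] U →ₗ[ℝ] ℝ, ∃ m' : U →ₗ[ℝ] U →ₗ[ℝ] U,
      ∀ u v w, B (m' u v) w = t' u v w := by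
    intro t'
    refine ⟨t'.compr₂ (B.toDual hND).symm.toLinearMap, ?_⟩
    intro u v w
    simp [LinearMap.BilinForm.apply_toDual_symm_apply]
  -- products from forms are equivariant
  have heq : ∀ (t' : U →ₗ[ℝ] U →ₗ[ℝ] U →ₗ[ℝ] ℝ) (m' : U →ₗ[ℝ] U →ₗ[ℝ] U),
      (∀ u v w, B (m' u v) w = t' u v w) →
      (∀ (g : H) (u v w : U), t' (ρ g u) (ρ g v) (ρ g w) = t' u v w) →
      ∀ (g : H) (u v : U), m' (ρ g u) (ρ g v) = ρ g (m' u v) := by
    intro t' m' hm' hinvt g u v
    apply hext
    intro w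
    rw [hm']
    have h1 := hBi g (m' u v) (ρ g⁻¹ w)
    rw [hinv] at h1
    rw [h1, hm']
    have h2 := hinvt g u v (ρ g⁻¹ w)
    rw [hinv] at h2
    exact h2
  have hinvm : ∀ (t' : U →ₗ[ℝ] U →ₗ[ℝ] U →ₗ[ℝ] ℝ) (m' : U →ₗ[ℝ] U →ₗ[ℝ] U),
      (∀ u v w, B (m' u v) w = t' u v w) →
      (∀ (g : H) (u v : U), m' (ρ g u) (ρ g v) = ρ g (m' u v)) →
      ∀ (g : H) (u v w : U), t' (ρ g u) (ρ g v) (ρ g w) = t' u v w := by
    intro t' m' hm' heqm g u v w
    rw [← hm', heqm, hBi, hm']
  constructor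
  · rintro ⟨m, hm0, hmc, hme, hmu⟩
    let t : U →ₗ[ℝ] U →ₗ[ℝ] U →ₗ[ℝ] ℝ := m.compr₂ B
    have ht : ∀ u v w, B (m u v) w = t u v w := fun u v w => rfl
    have hti := hinvm t m ht hme
    have ht0 : t ≠ 0 := by
      intro h
      apply hm0
      ext u v
      have : m u v = 0 := hsep _ (fun w => by rw [ht, h]; simp)
      simpa using this
    -- uniqueness of t
    have htu : ∀ t' : U →ₗ[ℝ] U →ₗ[ℝ] U →ₗ[ℝ] ℝ,
        (∀ (g : H) (u v w : U), t' (ρ g u) (ρ g v) (ρ g w) = t' u v w) → ∃ c : ℝ, t' = c • t := by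
      intro t' hinvt
      obtain ⟨m', hm'⟩ := hm t'
      obtain ⟨c, hc⟩ := hmu m' (heq t' m' hm' hinvt)
      refine ⟨c, ?_⟩
      ext u v w
      rw [← hm', hc]
      simp [ht]
    have ht12 : ∀ u v w, t u v w = t v u w := by
      intro u v w
      rw [← ht, ← ht, hmc]
    -- the cyclic shift
    let s : U →ₗ[ℝ] U →ₗ[ℝ] U →ₗ[ℝ] ℝ := LinearMap.mk₂ ℝ (fun u v => (t v).flip u)
      (by intro a b v; ext w; simp)
      (by intro c a v; ext w; simp)
      (by intro u a b; ext w; simp)
      (by intro c u a; ext w; simp)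
    have hs : ∀ u v w, s u v w = t v w u := fun u v w => rfl
    obtain ⟨c, hc⟩ := htu s (by
      intro g u v w
      rw [hs, hs, hti])
    have hcyc : ∀ u v w, t v w u = c * t u v w := by
      intro u v w
      rw [← hs, hc]
      simp
    have hc3 : c ^ 3 = 1 := by
      by_contra hne
      apply ht0
      ext u v w
      have h1 := hcyc w u v
      have h2 := hcyc v w u
      have h3 := hcyc u v w
      have h4 : (1 - c ^ 3) * t u v w = 0 := by
        have : t u v w = c ^ 3 * t u v w := by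
          calc t u v w = c * t w u v := h1
            _ = c * (c * t v w u) := by rw [h2]
            _ = c * (c * (c * t u v w)) := by rw [h3]
            _ = c ^ 3 * t u v w := by ring
        linarith
      rcases mul_eq_zero.mp h4 with h5 | h5
      · exfalso
        apply hne
        linarith
      · simpa using h5
    have hc1 : c = 1 := by
      have h6 : (c - 1) * (c ^ 2 + c + 1) = 0 := by ring_nf; linarith
      rcases mul_eq_zero.mp h6 with h7 | h7
      · linarith
      · nlinarith [sq_nonneg (c + 1 / 2)]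
    subst hc1
    simp only [one_mul] at hcyc
    refine ⟨t, ht0, ?_, hti, htu⟩
    intro u v w
    refine ⟨ht12 u v w, ?_⟩
    rw [ht12 u w v, hcyc v w u]
    exact (hcyc u v w).symm
  · rintro ⟨t, ht0, hts, hti, htu⟩
    obtain ⟨m, hmt⟩ := hm t
    refine ⟨m, ?_, ?_, heq t m hmt hti, ?_⟩
    · intro h
      apply ht0
      ext u v w
      rw [← hmt, h]
      simp
    · intro u v
      apply hext
      intro w
      rw [hmt, hmt]
      exact (hts u v w).1
    · intro m' hm'e
      let t' : U →ₗ[ℝ] U →ₗ[ℝ] U →ₗ[ℝ] ℝ := m'.compr₂ B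
      have ht' : ∀ u v w, B (m' u v) w = t' u v w := fun u v w => rfl
      obtain ⟨c, hc⟩ := htu t' (hinvm t' m' ht' hm'e)
      refine ⟨c, ?_⟩
      ext u v
      apply hext
      intro w
      rw [ht', hc]
      simp [hmt]

end Cfsg.Agent.S5541
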