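import Cfsg.Statements.S5545
import Mathlib
-- import your own Cfsg.Agent.* helpers here

set_option autoImplicit false
open Cfsg

namespace Cfsg.Agent.S5545

open Cfsg.Axial

section Aux

variable {V : Type*} [AddCommGroup V] [Module ℝ V] (mul : V →ₗ[ℝ] V →ₗ[ℝ] V)

lemma mem_eigen' {a v : V} {c : ℝ} : v ∈ eigen mul a c ↔ mul a v = c • v := by
  simp [eigen]

lemma eigen_le_eigenSum' {a : V} {S : Set ℝ} {c : ℝ} (hc : c ∈ S) :
    eigen mul a c ≤ eigenSum mul a S :=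
  le_iSup₂_of_le c hc le_rfl

lemma eigen_map' (μ : V ≃ₗ[ℝ] V) (hμ : ∀ u v : V, μ (mul u v) = mul (μ u) (μ v)) (a : V) (c : ℝ) :
    eigen mul (μ a) c = (eigen mul a c).map (μ : V →ₗ[ℝ] V) := by
  ext v
  simp only [Submodule.mem_map, mem_eigen']
  constructor
  · intro h
    refine ⟨μ.symm v, ?_, by simp⟩
    apply μ.injective
    rw [hμ]
    simpa using h
  · rintro ⟨w, hw, rfl⟩
    have := congrArg μ hw
    rw [hμ] at this
    simpa using this

lemma eigenSum_map' (μ : V ≃ₗ[ℝ] V) (hμ : ∀ u v : V, μ (mul u v) = mul (μ u) (μ v)) (a : V)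
    (S : Set ℝ) :
    eigenSum mul (μ a) S = (eigenSum mul a S).map (μ : V →ₗ[ℝ] V) := by
  simp only [eigenSum, Submodule.map_iSup, eigen_map' mul μ hμ]

/-- Transport of a Majorana pair along an automorphism commuting with the involution. -/
lemma transport' (B : LinearMap.BilinForm ℝ V) (μ τ : V ≃ₗ[ℝ] V)
    (hμ : ∀ u v : V, μ (mul u v) = mul (μ u) (μ v))
    (hc : ∀ v, μ (τ v) = τ (μ v)) (a : V) (h : IsMajoranaPair mul B τ a) :
    IsMajoranaPair mul B τ (μ a) := by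
  obtain ⟨h1, h2, ⟨⟨ha0, haa, hsum, hfus⟩, hprim⟩, hm1, hm2⟩ := h
  refine ⟨h1, h2, ⟨⟨?_, ?_, ?_, ?_⟩, ?_⟩, ?_, ?_⟩
  · simpa using ha0
  · rw [← hμ, haa]
  · rw [eigenSum_map' mul μ hμ, hsum]
    simp
  · intro c hc' d hd u hu v hv
    rw [eigen_map' mul μ hμ] at hu hv
    obtain ⟨u', hu', rfl⟩ := hu
    obtain ⟨v', hv', rfl⟩ := hv
    rw [eigenSum_map' mul μ hμ]
    refine ⟨mul u' v', hfus c hc' d hd u' hu' v' hv', ?_⟩
    simp [hμ]
  · rw [eigen_map' mul μ hμ, hprim, Submodule.map_span]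
    simp
  · intro v hv
    rw [eigenSum_map' mul μ hμ] at hv
    obtain ⟨w, hw, rfl⟩ := hv
    have := hm1 w hw
    simp only [LinearEquiv.coe_coe] at this ⊢
    rw [← hc, this]
  · intro v hv
    rw [eigen_map' mul μ hμ] at hv
    obtain ⟨w, hw, rfl⟩ := hv
    have := hm2 w hw
    simp only [LinearEquiv.coe_coe] at this ⊢
    rw [← hc, this]
    simp

/-- Three-term independence of eigenspaces for `1`, `0`, `1/4`. -/
lemma comps' (a u v w : V) (hu : mul a u = u) (hv : mul a v = 0) (hw : mul a w = (1 / 4 : ℝ) • w)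
    (h : u + v + w = 0) : w = 0 := by
  have h1 : u + (1 / 4 : ℝ) • w = 0 := by
    have := congrArg (mul a) h
    simpa [hu, hv, hw] using this
  have h2 : u + (1 / 16 : ℝ) • w = 0 := by
    have := congrArg (mul a) h1
    simp only [map_add, map_smul, hu, hw, map_zero, smul_smul] at this
    norm_num at this
    exact this
  have h3 : (3 / 16 : ℝ) • w = 0 := by
    linear_combination (norm := module) h1 - h2
  rcases smul_eq_zero.mp h3 with h4 | h4
  · norm_num at h4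
  · exact h4

/-- Decomposition of a `μ`-fixed vector for a Majorana pair `(μ, a)`. -/
lemma decomp' (B : LinearMap.BilinForm ℝ V) (μ : V ≃ₗ[ℝ] V) (a b : V)
    (h : IsMajoranaPair mul B μ a) (hb : μ b = b) :
    ∃ (β : ℝ) (x y : V), b = β • a + x + y ∧ mul a x = 0 ∧ mul a y = (1 / 4 : ℝ) • y := by
  obtain ⟨h1, h2, ⟨⟨ha0, haa, hsum, hfus⟩, hprim⟩, hm1, hm2⟩ := h
  have hmem : b ∈ eigenSum mul a majoranaSpectrum := by rw [hsum]; trivial
  have hsplit : eigenSum mul a majoranaSpectrum =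
      eigen mul a 1 ⊔ (eigen mul a 0 ⊔ (eigen mul a (1 / 4) ⊔ eigen mul a (1 / 32))) := by
    unfold eigenSum majoranaSpectrum
    rw [iSup_insert, iSup_insert, iSup_insert, iSup_singleton]
  rw [hsplit] at hmem
  obtain ⟨v1, hv1, r1, hr1, e1⟩ := Submodule.mem_sup.mp hmem
  obtain ⟨v0, hv0, r0, hr0, e0⟩ := Submodule.mem_sup.mp hr1
  obtain ⟨v4, hv4, v32, hv32, e4⟩ := Submodule.mem_sup.mp hr0
  have hS : (1 : ℝ) ∈ ({1, 0, 1 / 4} : Set ℝ) := by simp
  have hS0 : (0 : ℝ) ∈ ({1, 0, 1 / 4} : Set ℝ) := by simp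
  have hS4 : (1 / 4 : ℝ) ∈ ({1, 0, 1 / 4} : Set ℝ) := by simp
  have f1 : μ v1 = v1 := hm1 v1 (eigen_le_eigenSum' mul hS hv1)
  have f0 : μ v0 = v0 := hm1 v0 (eigen_le_eigenSum' mul hS0 hv0)
  have f4 : μ v4 = v4 := hm1 v4 (eigen_le_eigenSum' mul hS4 hv4)
  have f32 : μ v32 = -v32 := hm2 v32 hv32
  have hb' : b = v1 + (v0 + (v4 + v32)) := by rw [← e1, ← e0, ← e4]
  have hzero : v32 = 0 := by
    have := congrArg μ hb'
    rw [hb] at this
    simp only [map_add, f1, f0, f4, f32] at this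
    have h3 : (2 : ℝ) • v32 = 0 := by
      have h4 : v1 + (v0 + (v4 + v32)) = v1 + (v0 + (v4 + -v32)) := by rw [← hb', ← this]
      linear_combination (norm := module) h4
    rcases smul_eq_zero.mp h3 with h4 | h4
    · norm_num at h4
    · exact h4
  rw [hprim] at hv1
  obtain ⟨β, rfl⟩ := Submodule.mem_span_singleton.mp hv1
  refine ⟨β, v0, v4, ?_, ?_, ?_⟩
  · rw [hb', hzero]; abel
  · have := (mem_eigen' mul).mp hv0
    simpa using this
  · exact (mem_eigen' mul).mp hv4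

lemma law_qq' : monsterLaw (1 / 4 : ℝ) (1 / 32) (1 / 4) (1 / 4) = {1, 0} := by
  simp [monsterLaw]

lemma law_zq' : monsterLaw (1 / 4 : ℝ) (1 / 32) 0 (1 / 4) = {1 / 4} := by
  simp [monsterLaw]

lemma law_zz' : monsterLaw (1 / 4 : ℝ) (1 / 32) 0 0 = {0} := by
  simp [monsterLaw]

/-- The half of the Sakuma-type computation for `a0` relative to the axis `a1`. -/
lemma half' (B : LinearMap.BilinForm ℝ V) (hV : IsMajoranaAmbient mul B) (a0 a1 : V)
    (hA : IsPrimitiveAxis mul (monsterLaw (1 / 4) (1 / 32)) majoranaSpectrum a1)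
    (h0 : mul a0 a0 = a0) (hn : B a1 a1 = 1) (β : ℝ) (x y : V)
    (hdec : a0 = β • a1 + x + y) (hx : mul a1 x = 0) (hy : mul a1 y = (1 / 4 : ℝ) • y) :
    mul a1 (mul a0 a1) = ((3 / 4 : ℝ) * B a0 a1) • a1 + (1 / 4 : ℝ) • mul a0 a1 ∧
    (1 - B a0 a1 / 2) • ((4 : ℝ) • mul a0 a1 - (4 * B a0 a1) • a1) =
      (2 : ℝ) • mul (a0 + (3 * B a0 a1) • a1 - (4 : ℝ) • mul a0 a1)
        ((4 : ℝ) • mul a0 a1 - (4 * B a0 a1) • a1) := by
  obtain ⟨hcomm, -, -, hassoc, -⟩ := hV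
  obtain ⟨⟨ha0, haa, hsum, hfus⟩, hprim⟩ := hA
  have hBx : B x a1 = 0 := by
    have := hassoc x a1 a1
    rw [haa, hcomm x a1, hx] at this
    simpa using this
  have hBy : B y a1 = 0 := by
    have := hassoc y a1 a1
    rw [haa, hcomm y a1, hy] at this
    simp only [map_smul, LinearMap.smul_apply, smul_eq_mul] at this
    linarith
  have hβ : B a0 a1 = β := by
    rw [hdec]
    simp [hBx, hBy, hn]
  rw [hβ]
  have hz : mul a0 a1 = β • a1 + (1 / 4 : ℝ) • y := by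
    rw [hcomm a0 a1, hdec]
    simp only [map_add, map_smul, haa, hx, hy, add_zero]
  have hyz : y = (4 : ℝ) • mul a0 a1 - (4 * β) • a1 := by
    rw [hz]; module
  have hxz : x = a0 + (3 * β) • a1 - (4 : ℝ) • mul a0 a1 := by
    rw [hz]
    linear_combination (norm := module) -hdec
  rw [← hyz, ← hxz]
  constructor
  · rw [hz]
    simp only [map_add, map_smul, haa, hy]
    module
  -- the fusion rules
  have hex1 : x ∈ eigen mul a1 0 := (mem_eigen' mul).mpr (by simpa using hx)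
  have hey : y ∈ eigen mul a1 (1 / 4) := (mem_eigen' mul).mpr hy
  have hS0 : (0 : ℝ) ∈ majoranaSpectrum := by simp [majoranaSpectrum]
  have hS4 : (1 / 4 : ℝ) ∈ majoranaSpectrum := by simp [majoranaSpectrum]
  have hyy := hfus _ hS4 _ hS4 y hey y hey
  have hxy := hfus _ hS0 _ hS4 x hex1 y hey
  have hxx := hfus _ hS0 _ hS0 x hex1 x hex1
  rw [law_qq'] at hyy
  rw [law_zq'] at hxy
  rw [law_zz'] at hxx
  have hsplit : eigenSum mul a1 ({1, 0} : Set ℝ) = eigen mul a1 1 ⊔ eigen mul a1 0 := by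
    unfold eigenSum
    rw [iSup_insert, iSup_singleton]
  have hs1 : eigenSum mul a1 ({1 / 4} : Set ℝ) = eigen mul a1 (1 / 4) := by
    unfold eigenSum
    rw [iSup_singleton]
  have hs0 : eigenSum mul a1 ({0} : Set ℝ) = eigen mul a1 0 := by
    unfold eigenSum
    rw [iSup_singleton]
  rw [hsplit] at hyy
  rw [hs1] at hxy
  rw [hs0] at hxx
  obtain ⟨u, hu, s, hs, hus⟩ := Submodule.mem_sup.mp hyy
  have hu' : mul a1 u = u := by simpa using (mem_eigen' mul).mp hu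
  have hs' : mul a1 s = 0 := by simpa using (mem_eigen' mul).mp hs
  have hxy' := (mem_eigen' mul).mp hxy
  have hxx' : mul a1 (mul x x) = 0 := by simpa using (mem_eigen' mul).mp hxx
  have e : mul a0 a0 = (β * β) • a1 + (2 * β) • mul a1 x + (2 * β) • mul a1 y + mul x x
      + (2 : ℝ) • mul x y + mul y y := by
    have e' : mul (β • a1 + x + y) (β • a1 + x + y) = (β * β) • a1 + (2 * β) • mul a1 x
        + (2 * β) • mul a1 y + mul x x + (2 : ℝ) • mul x y + mul y y := by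
      simp only [map_add, map_smul, LinearMap.add_apply, LinearMap.smul_apply, haa,
        hcomm x a1, hcomm y a1, hcomm y x]
      module
    rwa [← hdec] at e'
  rw [h0, hx, hy, ← hus] at e
  have hw := comps' mul a1 ((β - β * β) • a1 - u) (x - mul x x - s)
    ((1 - β / 2) • y - (2 : ℝ) • mul x y)
    (by simp only [map_sub, map_smul, haa, hu'])
    (by simp only [map_sub, map_smul, hx, hxx', hs']; simp)
    (by
      simp only [map_sub, map_smul, hy, hxy']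
      module)
    (by
      have e2 := e
      rw [hdec] at e2
      linear_combination (norm := module) e2)
  linear_combination (norm := module) hw

end Aux

/-- Let V be a finite-dimensional real vector space with a commutative bilinear product and a positive-definite symmetric bilinear form that associates with the product and satisfies the Norton inequality (the Majorana setting of the definitions). Let μ₀, μ₁ be commuting Majorana involutions with distinct axial vectors a₀ ≠ a₁ of squared length 1, each involution having no other axial vector. Then either a₀ and a₁ are orthogonal with a₀ ∘ a₁ = 0 (type 2B), or their inner product is 1/8 and, with a₂ = a₀ + a₁ − 8 a₀ ∘ a₁, the vector a₂ is an idempotent and a₀ ∘ a₂ = (1/8)(a₀ + a₂ − a₁), a₁ ∘ a₂ = (1/8)(a₁ + a₂ − a₀) (type 2A: the three idempotents span a subalgebra with aᵢ ∘ aⱼ = (1/8)(aᵢ + aⱼ − aₖ)). -/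
theorem result {V : Type*} [AddCommGroup V] [Module ℝ V] [FiniteDimensional ℝ V] (mul : V →ₗ[ℝ] V →ₗ[ℝ] V) (B : LinearMap.BilinForm ℝ V) (hV : Cfsg.Axial.IsMajoranaAmbient mul B) (μ₀ μ₁ : V ≃ₗ[ℝ] V) (a₀ a₁ : V) (h₀ : Cfsg.Axial.IsMajoranaPair mul B μ₀ a₀) (h₁ : Cfsg.Axial.IsMajoranaPair mul B μ₁ a₁) (hu₀ : ∀ a : V, Cfsg.Axial.IsMajoranaPair mul B μ₀ a → a = a₀) (hu₁ : ∀ a : V, Cfsg.Axial.IsMajoranaPair mul B μ₁ a → a = a₁) (hn₀ : B a₀ a₀ = 1) (hn₁ : B a₁ a₁ = 1) (hc : μ₀ * μ₁ = μ₁ * μ₀) (hne : a₀ ≠ a₁) : (B a₀ a₁ = 0 ∧ mul a₀ a₁ = 0) ∨ (B a₀ a₁ = 1 / 8 ∧ mul (a₀ + a₁ - (8 : ℝ) • mul a₀ a₁) (a₀ + a₁ - (8 : ℝ) • mul a₀ a₁) = a₀ + a₁ - (8 : ℝ) • mul a₀ a₁ ∧ mul a₀ (a₀ + a₁ - (8 : ℝ) • mul a₀ a₁) = (1 / 8 : ℝ) • (a₀ + (a₀ + a₁ - (8 : ℝ) • mul a₀ a₁) - a₁) ∧ mul a₁ (a₀ + a₁ - (8 : ℝ) • mul a₀ a₁) = (1 / 8 : ℝ) • (a₁ + (a₀ + a₁ - (8 : ℝ) • mul a₀ a₁) - a₀)) := by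
  obtain ⟨hcomm, hsym, hpos, hassoc, hnorton⟩ := id hV
  have hc0 : ∀ v, μ₁ (μ₀ v) = μ₀ (μ₁ v) := fun v => by
    have := LinearEquiv.congr_fun hc v
    simpa [LinearEquiv.mul_apply] using this.symm
  have hfix0 : μ₁ a₀ = a₀ := hu₀ _ (transport' mul B μ₁ μ₀ h₁.1 hc0 a₀ h₀)
  have hfix1 : μ₀ a₁ = a₁ := hu₁ _ (transport' mul B μ₀ μ₁ h₀.1 (fun v => (hc0 v).symm) a₁ h₁)
  obtain ⟨β, x, y, hd, hx, hy⟩ := decomp' mul B μ₁ a₁ a₀ h₁ hfix0
  obtain ⟨β', x', y', hd', hx', hy'⟩ := decomp' mul B μ₀ a₀ a₁ h₀ hfix1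
  have h00 : mul a₀ a₀ = a₀ := h₀.2.2.1.1.2.1
  have h11 : mul a₁ a₁ = a₁ := h₁.2.2.1.1.2.1
  obtain ⟨r1, q1⟩ := half' mul B hV a₀ a₁ h₁.2.2.1 h00 hn₁ β x y hd hx hy
  obtain ⟨r0, q0⟩ := half' mul B hV a₁ a₀ h₀.2.2.1 h11 hn₀ β' x' y' hd' hx' hy'
  have hsymB : B a₁ a₀ = B a₀ a₁ := hsym _ _
  have hm : mul a₁ a₀ = mul a₀ a₁ := hcomm _ _
  rw [hsymB, hm] at r0 q0
  generalize hα : B a₀ a₁ = α at *
  generalize hz : mul a₀ a₁ = z at *
  have hza0 : mul z a₀ = mul a₀ z := hcomm _ _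
  have hza1 : mul z a₁ = mul a₁ z := hcomm _ _
  simp only [map_add, map_sub, map_smul, LinearMap.add_apply, LinearMap.sub_apply,
    LinearMap.smul_apply, h00, h11, hm, hz, hza0, hza1, r0, r1] at q0 q1
  have E1 : (32 : ℝ) • mul z z =
      (6 * α) • a₀ + (16 * α ^ 2 + 4 * α) • a₁ + (8 * α - 2) • z := by
    linear_combination (norm := module) q1
  have E2 : (32 : ℝ) • mul z z =
      (6 * α) • a₁ + (16 * α ^ 2 + 4 * α) • a₀ + (8 * α - 2) • z := by
    linear_combination (norm := module) q0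
  have E3 : (2 * α - 16 * α ^ 2) • (a₀ - a₁) = 0 := by
    linear_combination (norm := module) E2 - E1
  have hsub : a₀ - a₁ ≠ 0 := sub_ne_zero.mpr hne
  have hαeq : 2 * α - 16 * α ^ 2 = 0 := (smul_eq_zero.mp E3).resolve_right hsub
  have hcases : α = 0 ∨ α = 1 / 8 := by
    have : α * (8 * α - 1) = 0 := by nlinarith
    rcases mul_eq_zero.mp this with h | h
    · exact Or.inl h
    · right; linarith
  rcases hcases with h0 | h8
  · left
    refine ⟨h0, ?_⟩
    by_contra hne'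
    have hp := hpos z hne'
    have hn := hnorton a₀ a₁
    rw [h00, h11, hz, hα, h0] at hn
    linarith
  · right
    refine ⟨h8, ?_, ?_, ?_⟩
    · subst h8
      simp only [map_add, map_sub, map_smul, LinearMap.add_apply, LinearMap.sub_apply,
        LinearMap.smul_apply, h00, h11, hm, hz, hza0, hza1, r0, r1]
      linear_combination (norm := module) (2 : ℝ) • E1
    · subst h8
      simp only [map_add, map_sub, map_smul, h00, hz, r0]
      module
    · subst h8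
      simp only [map_add, map_sub, map_smul, h11, hm, hz, r1]
      module

end Cfsg.Agent.S5545
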