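import Cfsg.Statements.S5543
import Mathlib
import Cfsg.Agent.S5545
-- import your own Cfsg.Agent.* helpers here

set_option autoImplicit false
open Cfsg

namespace Cfsg.Agent.S5543

/-- Let V be a finite-dimensional real vector space with a commutative bilinear product and a positive-definite symmetric bilinear form that associates with the product and satisfies the Norton inequality (the Majorana setting of the definitions). Let X be a group of linear automorphisms of V in which every element squares to the identity, and suppose every non-identity element x of X is a Majorana involution with an axial vector a(x) of squared length 1, such that for any two distinct non-identity x, y the product a(x) ∘ a(y) equals (1/8)(a(x) + a(y) − a(xy)) (the dihedral subalgebra of type 2A whose third axis belongs to the involution xy). Then X has order at most 4. -/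
theorem result {V : Type*} [AddCommGroup V] [Module ℝ V] [FiniteDimensional ℝ V] (mul : V →ₗ[ℝ] V →ₗ[ℝ] V) (B : LinearMap.BilinForm ℝ V) (hV : Cfsg.Axial.IsMajoranaAmbient mul B) (X : Subgroup (V ≃ₗ[ℝ] V)) (hX : ∀ x ∈ X, x * x = 1) (ax : (V ≃ₗ[ℝ] V) → V) (hax : ∀ x ∈ X, x ≠ 1 → Cfsg.Axial.IsMajoranaPair mul B x (ax x)) (h1 : ∀ x ∈ X, x ≠ 1 → B (ax x) (ax x) = 1) (h2A : ∀ x ∈ X, ∀ y ∈ X, x ≠ 1 → y ≠ 1 → x ≠ y → mul (ax x) (ax y) = (1 / 8 : ℝ) • (ax x + ax y - ax (x * y))) : Nat.card ↥X ≤ 4 := by
  classical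
  by_contra hcard
  push Not at hcard
  have hfin : Finite X := Nat.finite_of_card_ne_zero (by omega)
  have hcomm : ∀ a ∈ X, ∀ b ∈ X, a * b = b * a := by
    intro a ha b hb
    have h1 := hX a ha
    have h2 := hX b hb
    have h3 := hX (a * b) (X.mul_mem ha hb)
    calc a * b = a * (a * b * (a * b)) * b := by rw [h3]; simp
      _ = (a * a) * b * (a * b) * b := by simp only [mul_assoc]
      _ = b * (a * (b * b)) := by rw [h1]; simp only [one_mul, mul_assoc]
      _ = b * a := by rw [h2]; simp
  have hout : ∀ F : Finset ↥X, F.card ≤ 4 → ∃ w : ↥X, w ∉ F := by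
    intro F hF
    have : Fintype X := Fintype.ofFinite X
    have h5 : F.card < (Finset.univ : Finset ↥X).card := by
      rw [Finset.card_univ, ← Nat.card_eq_fintype_card]; omega
    obtain ⟨e, -, he⟩ := Finset.exists_mem_notMem_of_card_lt_card h5
    exact ⟨e, he⟩
  obtain ⟨⟨x, hxX⟩, hx⟩ := hout {1} (by simp)
  obtain ⟨⟨y, hyX⟩, hy⟩ := hout {1, ⟨x, hxX⟩} (Finset.card_le_two.trans (by norm_num))
  obtain ⟨⟨z, hzX⟩, hz⟩ := hout {1, ⟨x, hxX⟩, ⟨y, hyX⟩, ⟨x * y, X.mul_mem hxX hyX⟩}
    (Finset.card_le_four)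
  simp only [Finset.mem_singleton, Finset.mem_insert, not_or,
    Subtype.ext_iff] at hx hy hz
  obtain ⟨hy1, hyx⟩ := hy
  obtain ⟨hz1, hzx, hzy, hzxy⟩ := hz
  simp only [Subgroup.coe_one] at hx hy1 hz1
  have hx2 := hX x hxX
  have hy2 := hX y hyX
  have hz2 := hX z hzX
  have hxy := X.mul_mem hxX hyX
  have hxz := X.mul_mem hxX hzX
  have hyz := X.mul_mem hyX hzX
  have hxyz := X.mul_mem hxX hyz
  have hcxy := hcomm x hxX y hyX
  have e1 : x * (x * y) = y := by rw [← mul_assoc, hx2, one_mul]
  have e2 : x * (x * z) = z := by rw [← mul_assoc, hx2, one_mul]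
  have e3 : x * (x * (y * z)) = y * z := by rw [← mul_assoc, hx2, one_mul]
  have e4 : y * (x * z) = x * (y * z) := by
    rw [← mul_assoc, ← mul_assoc, hcxy]
  have e5 : x * y * z = x * (y * z) := by rw [mul_assoc]
  have e6 : x * y * (x * z) = y * z := by
    rw [hcxy, mul_assoc, e2]
  have e7 : y * z * (x * (y * z)) = x := by
    have h1 : y * z * (x * (y * z)) = x * (y * z * (y * z)) := by
      rw [← mul_assoc (y * z) x (y * z), hcomm _ hyz x hxX, mul_assoc]
    rw [h1, hX _ hyz, mul_one]
  have hxy1 : x * y ≠ 1 := by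
    intro h
    apply hyx
    have : x * (x * y) = x * 1 := by rw [h]
    rwa [e1, mul_one] at this
  have hxz1 : x * z ≠ 1 := by
    intro h
    apply hzx
    have : x * (x * z) = x * 1 := by rw [h]
    rwa [e2, mul_one] at this
  have hyz1 : y * z ≠ 1 := by
    intro h
    apply hzy
    have : y * (y * z) = y * 1 := by rw [h]
    rwa [← mul_assoc, hy2, one_mul, mul_one] at this
  have hxyz1 : x * (y * z) ≠ 1 := by
    intro h
    apply hzxy
    have : x * y * (x * (y * z)) = x * y * 1 := by rw [h]
    rw [mul_one, e5.symm, ← mul_assoc, hX _ hxy, one_mul] at this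
    exact this
  have n1 : x ≠ y := fun h => hyx h.symm
  have n2 : x ≠ x * y := by
    intro h
    apply hy1
    have : x * x = x * (x * y) := congrArg (fun t => x * t) h
    rw [hx2, e1] at this
    exact this.symm
  have n3 : x ≠ z := fun h => hzx h.symm
  have n4 : x ≠ x * z := by
    intro h
    apply hz1
    have : x * x = x * (x * z) := congrArg (fun t => x * t) h
    rw [hx2, e2] at this
    exact this.symm
  have n5 : x ≠ y * z := by
    intro h
    apply hzxy
    have : y * x = y * (y * z) := congrArg (fun t => y * t) h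
    rw [← mul_assoc y y z, hy2, one_mul, ← hcxy] at this
    exact this.symm
  have n6 : x ≠ x * (y * z) := by
    intro h
    apply hyz1
    have : x * x = x * (x * (y * z)) := congrArg (fun t => x * t) h
    rw [hx2, e3] at this
    exact this.symm
  have n7 : y ≠ z := fun h => hzy h.symm
  have n8 : y ≠ x * z := by
    intro h
    apply hzxy
    have : x * y = x * (x * z) := congrArg (fun t => x * t) h
    rw [e2] at this
    exact this.symm
  have n9 : x * y ≠ z := fun h => hzxy h.symm
  have n10 : x * y ≠ x * z := by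
    intro h
    exact n7 (mul_left_cancel h)
  have n11 : y * z ≠ x * (y * z) := by
    intro h
    apply hx
    have : (y * z) * (y * z) = x * (y * z) * (y * z) := congrArg (fun t => t * (y * z)) h
    rw [hX _ hyz, mul_assoc, hX _ hyz, mul_one] at this
    exact this.symm
  have r1 := h2A x hxX y hyX hx hy1 n1
  have r2 := h2A x hxX (x * y) hxy hx hxy1 n2
  have r3 := h2A x hxX z hzX hx hz1 n3
  have r4 := h2A x hxX (x * z) hxz hx hxz1 n4
  have r5 := h2A x hxX (y * z) hyz hx hyz1 n5
  have r6 := h2A x hxX (x * (y * z)) hxyz hx hxyz1 n6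
  have r7 := h2A y hyX z hzX hy1 hz1 n7
  have r8 := h2A y hyX (x * z) hxz hy1 hxz1 n8
  have r9 := h2A (x * y) hxy z hzX hxy1 hz1 n9
  have r10 := h2A (x * y) hxy (x * z) hxz hxy1 hxz1 n10
  have r11 := h2A (y * z) hyz (x * (y * z)) hxyz hyz1 hxyz1 n11
  rw [e1] at r2
  rw [e2] at r4
  rw [e3] at r6
  rw [e4] at r8
  rw [e5] at r9
  rw [e6] at r10
  rw [e7] at r11
  have hpair := hax x hxX hx
  obtain ⟨-, -, ⟨⟨-, haa, -, hfus⟩, -⟩, -, -⟩ := hpair
  generalize ax x = a at *
  generalize ax y = b at *
  generalize ax (x * y) = c at *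
  generalize ax z = d at *
  generalize ax (x * z) = e at *
  generalize hf : ax (y * z) = f at *
  generalize ax (x * (y * z)) = g at *
  have hbc : mul a (b - c) = (1 / 4 : ℝ) • (b - c) := by
    rw [map_sub, r1, r2]; module
  have hde : mul a (d - e) = (1 / 4 : ℝ) • (d - e) := by
    rw [map_sub, r3, r4]; module
  have hfg : mul a (g - f) = (1 / 4 : ℝ) • (g - f) := by
    rw [map_sub, r5, r6]; module
  have hprod : mul (b - c) (d - e) = (1 / 4 : ℝ) • (g - f) := by
    simp only [map_sub, LinearMap.sub_apply, r7, r8, r9, r10]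
    module
  have hS4 : (1 / 4 : ℝ) ∈ Cfsg.Axial.majoranaSpectrum := by simp [Cfsg.Axial.majoranaSpectrum]
  have hfu := hfus _ hS4 _ hS4 (b - c) ((Cfsg.Agent.S5545.mem_eigen' mul).mpr hbc) (d - e)
    ((Cfsg.Agent.S5545.mem_eigen' mul).mpr hde)
  rw [Cfsg.Agent.S5545.law_qq', hprod] at hfu
  have hsplit : Cfsg.Axial.eigenSum mul a ({1, 0} : Set ℝ) =
      Cfsg.Axial.eigen mul a 1 ⊔ Cfsg.Axial.eigen mul a 0 := by
    unfold Cfsg.Axial.eigenSum
    rw [iSup_insert, iSup_singleton]
  rw [hsplit] at hfu
  obtain ⟨u, hu, v, hv, huv⟩ := Submodule.mem_sup.mp hfu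
  have hu' : mul a u = u := by simpa using (Cfsg.Agent.S5545.mem_eigen' mul).mp hu
  have hv' : mul a v = 0 := by simpa using (Cfsg.Agent.S5545.mem_eigen' mul).mp hv
  have hw := Cfsg.Agent.S5545.comps' mul a u v (-((1 / 4 : ℝ) • (g - f))) hu' hv'
    (by simp only [map_neg, map_smul, hfg]; module) (by rw [huv]; abel)
  have hgf : g = f := by
    have h1 : (1 / 4 : ℝ) • (g - f) = 0 := by simpa using hw
    rcases smul_eq_zero.mp h1 with h2 | h2
    · norm_num at h2
    · exact sub_eq_zero.mp h2
  subst hgf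
  have hnorm : B g g = 1 := by
    rw [← hf]
    exact h1 (y * z) hyz hyz1
  have hidem : mul a a = a := haa
  have haf : a = (-6 : ℝ) • g := by
    have hgg := (hax (y * z) hyz hyz1).2.2.1.1.2.1
    rw [hf] at hgg
    rw [hgg] at r11
    linear_combination (norm := module) (8 : ℝ) • r11
  have hg0 : g = 0 := by
    have hgg := (hax (y * z) hyz hyz1).2.2.1.1.2.1
    rw [hf] at hgg
    rw [haf] at hidem
    simp only [map_smul, LinearMap.smul_apply, hgg, smul_smul] at hidem
    have h42 : (42 : ℝ) • g = 0 := by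
      linear_combination (norm := module) hidem
    rcases smul_eq_zero.mp h42 with h2 | h2
    · norm_num at h2
    · exact h2
  rw [hg0] at hnorm
  simp at hnorm

end Cfsg.Agent.S5543
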