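import Cfsg.Statements.S5544
import Mathlib
import Cfsg.Agent.Lib.Linalg.MajoranaDihedral
-- import your own Cfsg.Agent.* helpers here

set_option autoImplicit false
open Cfsg

namespace Cfsg.Agent.S5544

open Cfsg.Agent.Lib.Linalg.Majorana Cfsg.Axial

section Build

variable {V : Type*} [AddCommGroup V] [Module ℝ V]
  {mul : V →ₗ[ℝ] V →ₗ[ℝ] V} {B : LinearMap.BilinForm ℝ V}

/-- The group of automorphisms of the structure. -/
def autG (mul : V →ₗ[ℝ] V →ₗ[ℝ] V) (B : LinearMap.BilinForm ℝ V) : Subgroup (V ≃ₗ[ℝ] V) where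
  carrier := {g | (∀ u v, g (mul u v) = mul (g u) (g v)) ∧ ∀ u v, B (g u) (g v) = B u v}
  one_mem' := ⟨fun _ _ => rfl, fun _ _ => rfl⟩
  mul_mem' := by
    rintro g h ⟨hg1, hg2⟩ ⟨hh1, hh2⟩
    refine ⟨fun u v => ?_, fun u v => ?_⟩
    · change g (h (mul u v)) = mul (g (h u)) (g (h v))
      rw [hh1, hg1]
    · change B (g (h u)) (g (h v)) = B u v
      rw [hg2, hh2]
  inv_mem' := by
    rintro g ⟨hg1, hg2⟩
    have e1 : ∀ x, g (g⁻¹ x) = x := fun x => g.apply_symm_apply x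
    refine ⟨fun u v => g.injective ?_, fun u v => ?_⟩
    · rw [hg1, e1, e1, e1]
    · rw [← hg2 (g⁻¹ u), e1, e1]

variable (σ : V ≃ₗ[ℝ] V) (a₀ a₁ : V)

/-- The family of axes. -/
noncomputable def axF (i : ℤ) : V := (σ ^ (i / 2)) (if i % 2 = 0 then a₀ else a₁)

lemma axF_even (k : ℤ) : axF σ a₀ a₁ (2 * k) = (σ ^ k) a₀ := by
  unfold axF
  rw [Int.mul_ediv_cancel_left _ (by norm_num : (2 : ℤ) ≠ 0)]
  simp

lemma axF_odd (k : ℤ) : axF σ a₀ a₁ (2 * k + 1) = (σ ^ k) a₁ := by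
  unfold axF
  have h1 : (2 * k + 1) / 2 = k := by omega
  have h2 : (2 * k + 1) % 2 ≠ 0 := by omega
  rw [h1, if_neg h2]

end Build

/-- Let V be a finite-dimensional real vector space with a commutative bilinear product and a positive-definite symmetric bilinear form that associates with the product and satisfies the Norton inequality (the Majorana setting of the definitions). Let μ₀ and μ₁ be Majorana involutions with axial vectors a₀ and a₁ of squared length 1, each involution having no other axial vector. Then the product μ₀μ₁ has order at most 6: some power (μ₀μ₁)^n with 1 ≤ n ≤ 6 is the identity (so the two involutions generate a dihedral group of order at most 12). This is the 6-transposition property of Majorana involutions. -/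
theorem result {V : Type*} [AddCommGroup V] [Module ℝ V] [FiniteDimensional ℝ V] (mul : V →ₗ[ℝ] V →ₗ[ℝ] V) (B : LinearMap.BilinForm ℝ V) (hV : Cfsg.Axial.IsMajoranaAmbient mul B) (μ₀ μ₁ : V ≃ₗ[ℝ] V) (a₀ a₁ : V) (h₀ : Cfsg.Axial.IsMajoranaPair mul B μ₀ a₀) (h₁ : Cfsg.Axial.IsMajoranaPair mul B μ₁ a₁) (hu₀ : ∀ a : V, Cfsg.Axial.IsMajoranaPair mul B μ₀ a → a = a₀) (hu₁ : ∀ a : V, Cfsg.Axial.IsMajoranaPair mul B μ₁ a → a = a₁) (hn₀ : B a₀ a₀ = 1) (hn₁ : B a₁ a₁ = 1) : ∃ n : ℕ, 1 ≤ n ∧ n ≤ 6 ∧ (μ₀ * μ₁) ^ n = 1 := by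
  classical
  obtain ⟨hcomm, hsymm, hpos, hassoc, -⟩ := id hV
  have A0 := axisFacts_of_pair hV h₀ hn₀
  have A1 := axisFacts_of_pair hV h₁ hn₁
  -- the rotation
  let σ : V ≃ₗ[ℝ] V := μ₁ * μ₀
  have h00 : μ₀ * μ₀ = 1 := by
    ext x
    exact invol_of_pair h₀ x
  have h11 : μ₁ * μ₁ = 1 := by
    ext x
    exact invol_of_pair h₁ x
  have hinv0 : μ₀⁻¹ = μ₀ := inv_eq_of_mul_eq_one_left h00
  have hinv1 : μ₁⁻¹ = μ₁ := inv_eq_of_mul_eq_one_left h11
  have hσinv : σ⁻¹ = μ₀ * μ₁ := by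
    change (μ₁ * μ₀)⁻¹ = _
    rw [mul_inv_rev, hinv0, hinv1]
  have hμσ : μ₁ = σ * μ₀ := by
    change μ₁ = μ₁ * μ₀ * μ₀
    rw [mul_assoc, h00, mul_one]
  have hconj : μ₀ * σ * μ₀⁻¹ = σ⁻¹ := by
    rw [hσinv, hinv0]
    change μ₀ * (μ₁ * μ₀) * μ₀ = μ₀ * μ₁
    rw [mul_assoc, mul_assoc, h00, mul_one]
  have hconjz : ∀ k : ℤ, μ₀ * σ ^ k = σ ^ (-k) * μ₀ := by
    intro k
    have := conj_zpow (a := μ₀) (b := σ) (i := k)
    rw [hconj, inv_zpow'] at this
    rw [this]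
    group
  have hσmem : σ ∈ autG mul B :=
    mul_mem (show μ₁ ∈ autG mul B from ⟨A1.mulμ, A1.Bμ⟩) (show μ₀ ∈ autG mul B from ⟨A0.mulμ, A0.Bμ⟩)
  let a : ℤ → V := axF σ a₀ a₁
  let τ : ℤ → V ≃ₗ[ℝ] V := fun i => σ ^ i * μ₀
  have hax : ∀ i, AxisFacts mul B (τ i) (a i) := by
    intro i
    obtain ⟨k, rfl | rfl⟩ := Int.even_or_odd' i
    · have h1 := A0.conj (σ ^ k) (zpow_mem hσmem k).1 (zpow_mem hσmem k).2
      have e : τ (2 * k) = σ ^ k * μ₀ * (σ ^ k)⁻¹ := by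
        change σ ^ (2 * k) * μ₀ = _
        rw [← zpow_neg, mul_assoc, hconjz, neg_neg, ← mul_assoc, ← zpow_add, two_mul]
      rw [e]
      change AxisFacts mul B _ (axF σ a₀ a₁ (2 * k))
      rw [axF_even]
      exact h1
    · have h1 := A1.conj (σ ^ k) (zpow_mem hσmem k).1 (zpow_mem hσmem k).2
      have e : τ (2 * k + 1) = σ ^ k * μ₁ * (σ ^ k)⁻¹ := by
        change σ ^ (2 * k + 1) * μ₀ = _
        rw [hμσ, ← zpow_neg, mul_assoc, mul_assoc, hconjz, neg_neg, ← mul_assoc σ, ← mul_assoc (σ ^ k),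
          ← zpow_one_add, ← zpow_add]
        congr 2
        ring
      rw [e]
      change AxisFacts mul B _ (axF σ a₀ a₁ (2 * k + 1))
      rw [axF_odd]
      exact h1
  have hrefl : ∀ i j, τ i (a j) = a (2 * i - j) := by
    intro i j
    obtain ⟨k, rfl | rfl⟩ := Int.even_or_odd' j
    · change (σ ^ i * μ₀) (axF σ a₀ a₁ (2 * k)) = axF σ a₀ a₁ (2 * i - 2 * k)
      rw [axF_even, show 2 * i - 2 * k = 2 * (i - k) by ring, axF_even]
      have e : σ ^ i * μ₀ * σ ^ k = σ ^ (i - k) * μ₀ := by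
        rw [mul_assoc, hconjz, ← mul_assoc, ← zpow_add, sub_eq_add_neg]
      have e2 := congrArg (fun f : V ≃ₗ[ℝ] V => f a₀) e
      have e3 : (σ ^ (i - k) * μ₀) a₀ = (σ ^ (i - k)) (μ₀ a₀) := rfl
      rw [e3, A0.fix] at e2
      exact e2
    · change (σ ^ i * μ₀) (axF σ a₀ a₁ (2 * k + 1)) = axF σ a₀ a₁ (2 * i - (2 * k + 1))
      rw [axF_odd, show 2 * i - (2 * k + 1) = 2 * (i - k - 1) + 1 by ring, axF_odd]
      have e : σ ^ i * μ₀ * σ ^ k = σ ^ (i - k - 1) * (σ * μ₀) := by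
        rw [mul_assoc, hconjz, ← mul_assoc, ← zpow_add, ← mul_assoc, ← zpow_add_one]
        congr 2
        ring
      have e2 := congrArg (fun f : V ≃ₗ[ℝ] V => f a₁) e
      rw [← hμσ] at e2
      have e3 : (σ ^ (i - k - 1) * μ₁) a₁ = (σ ^ (i - k - 1)) (μ₁ a₁) := rfl
      rw [e3, A1.fix] at e2
      exact e2
  have D : Dih mul B a τ := ⟨hcomm, hsymm, hassoc, hax, hrefl⟩
  have key : ∀ (i j : ℤ) (n : ℕ), j = i + n → B (a i) (a j) = 1 → (μ₀ * μ₁) ^ n = 1 := by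
    intro i j n hj h1
    have e1 : B (a i - a j) (a i - a j) = 0 := by
      simp only [map_sub, LinearMap.sub_apply, D.norm_eq, h1, hsymm (a j) (a i)]
      ring
    have e2 : a i = a j := by
      by_contra hne
      have := hpos _ (sub_ne_zero.mpr hne)
      rw [e1] at this
      exact lt_irrefl _ this
    have e3 : τ i = τ j := by
      have h3 := hax i
      rw [e2] at h3
      exact h3.unique (hax j)
    have e4 : σ ^ i = σ ^ j := mul_right_cancel e3
    have e5 : σ ^ (n : ℤ) = 1 := by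
      rw [hj, zpow_add] at e4
      exact (mul_eq_left.mp e4.symm)
    rw [← hσinv, inv_pow, ← zpow_natCast, e5, inv_one]
  rcases D.exists_inner_one with h | h | h | h | h | h
  · exact ⟨1, by norm_num, by norm_num, key 0 1 1 (by norm_num) h⟩
  · exact ⟨2, by norm_num, by norm_num, key 0 2 2 (by norm_num) h⟩
  · exact ⟨3, by norm_num, by norm_num, key 0 3 3 (by norm_num) h⟩
  · exact ⟨4, by norm_num, by norm_num, key 0 4 4 (by norm_num) h⟩
  · exact ⟨5, by norm_num, by norm_num, key 0 5 5 (by norm_num) h⟩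
  · exact ⟨6, by norm_num, by norm_num, key (-3) 3 6 (by norm_num) h⟩

end Cfsg.Agent.S5544
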