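import Cfsg.Statements.S5546
import Mathlib
-- import your own Cfsg.Agent.* helpers here

set_option autoImplicit false
open Cfsg

namespace Cfsg.Agent.S5546

set_option linter.style.haveILetI false
set_option linter.deprecated false

open Cfsg Cfsg.Spor Matrix

local instance : Fact (Nat.Prime 13) := ⟨by norm_num⟩

/-- `8 e_j` as a lattice vector. -/
def e8 (j : GolayPt) : leechLattice :=
  ⟨fun i => if i = j then 8 else 0, AddSubgroup.subset_closure (by
    refine mem_leechSet_of_const_mod_four _ 0 0 (by decide) ?_ ?_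
    · intro i
      split_ifs <;> decide
    · rw [Finset.sum_ite_eq' Finset.univ j]
      simp only [Finset.mem_univ, if_true]
      decide)⟩

theorem e8_apply (i j : GolayPt) : ((e8 j : leechLattice) : GolayPt → ℤ) i = if i = j then 8 else 0 := rfl

/-- the integer matrix of `8 g`. -/
def A (g : Equiv.Perm leechLattice) : Matrix GolayPt GolayPt ℤ :=
  fun i j => ((g (e8 j) : leechLattice) : GolayPt → ℤ) i

theorem A_apply (g : Equiv.Perm leechLattice) (i j : GolayPt) :
    A g i j = ((g (e8 j) : leechLattice) : GolayPt → ℤ) i := rfl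

theorem smul8 (x : leechLattice) : (8 : ℤ) • x = ∑ j : GolayPt, ((x : GolayPt → ℤ) j) • e8 j := by
  apply Subtype.ext
  funext i
  rw [AddSubgroup.val_finset_sum]
  rw [Finset.sum_apply]
  have : ∀ j : GolayPt, ((((x : GolayPt → ℤ) j) • e8 j : leechLattice) : GolayPt → ℤ) i =
      (x : GolayPt → ℤ) j * (if i = j then 8 else 0) := fun j => rfl
  simp only [this, mul_ite, mul_zero]
  rw [Finset.sum_ite_eq Finset.univ i]
  simp only [Finset.mem_univ, if_true]
  change (8 : ℤ) * (x : GolayPt → ℤ) i = _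
  ring

theorem A_mulVec {g : Equiv.Perm leechLattice} (hg : g ∈ Co0) (x : leechLattice) :
    A g *ᵥ (x : GolayPt → ℤ) = (8 : ℤ) • ((g x : leechLattice) : GolayPt → ℤ) := by
  let gA : leechLattice →+ leechLattice := AddMonoidHom.mk' g hg.1
  have h1 : (8 : ℤ) • g x = ∑ j : GolayPt, ((x : GolayPt → ℤ) j) • g (e8 j) := by
    have := congrArg gA (smul8 x)
    rw [map_zsmul, map_sum] at this
    simp only [map_zsmul] at this
    exact this
  funext i
  have h2 := congrArg (fun y : leechLattice => (y : GolayPt → ℤ) i) h1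
  simp only [AddSubgroup.val_finset_sum, Finset.sum_apply] at h2
  have h3 : ∀ j : GolayPt, (((x : GolayPt → ℤ) j • g (e8 j) : leechLattice) : GolayPt → ℤ) i =
      (x : GolayPt → ℤ) j * A g i j := fun j => rfl
  simp only [h3] at h2
  change ∑ j, A g i j * (x : GolayPt → ℤ) j = (8 : ℤ) * ((g x : leechLattice) : GolayPt → ℤ) i
  have h4 : (((8 : ℤ) • g x : leechLattice) : GolayPt → ℤ) i = (8 : ℤ) * ((g x : leechLattice) : GolayPt → ℤ) i := rfl
  rw [← h4, h2]
  exact Finset.sum_congr rfl fun j _ => mul_comm _ _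

theorem A_mul {g h : Equiv.Perm leechLattice} (hg : g ∈ Co0) :
    A g * A h = (8 : ℤ) • A (g * h) := by
  ext i j
  have := congrFun (A_mulVec hg (h (e8 j))) i
  exact this

theorem A_one : A (1 : Equiv.Perm leechLattice) = (8 : ℤ) • (1 : Matrix GolayPt GolayPt ℤ) := by
  ext i j
  change (if i = j then (8 : ℤ) else 0) = 8 * (1 : Matrix GolayPt GolayPt ℤ) i j
  rw [Matrix.one_apply]
  split_ifs <;> simp

theorem sqNorm_add (a b : GolayPt → ℤ) : sqNorm (a + b) = sqNorm a + sqNorm b + 2 * dotInt a b := by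
  unfold sqNorm dotInt
  rw [Finset.mul_sum, ← Finset.sum_add_distrib, ← Finset.sum_add_distrib]
  exact Finset.sum_congr rfl fun i _ => by simp only [Pi.add_apply]; ring

theorem dot_pres {g : Equiv.Perm leechLattice} (hg : g ∈ Co0) (v w : leechLattice) :
    dotInt ((g v : leechLattice) : GolayPt → ℤ) ((g w : leechLattice) : GolayPt → ℤ) =
      dotInt (v : GolayPt → ℤ) (w : GolayPt → ℤ) := by
  have h1 := hg.2 (v + w)
  rw [hg.1] at h1
  have h2 : ((g v + g w : leechLattice) : GolayPt → ℤ) = (g v : leechLattice).1 + (g w : leechLattice).1 := rfl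
  have h3 : ((v + w : leechLattice) : GolayPt → ℤ) = v.1 + w.1 := rfl
  rw [h2, h3, sqNorm_add, sqNorm_add, hg.2 v, hg.2 w] at h1
  linarith

theorem A_transpose_mul {g : Equiv.Perm leechLattice} (hg : g ∈ Co0) :
    (A g)ᵀ * A g = (64 : ℤ) • (1 : Matrix GolayPt GolayPt ℤ) := by
  ext i j
  have := dot_pres hg (e8 i) (e8 j)
  have h1 : ((A g)ᵀ * A g) i j = dotInt ((g (e8 i) : leechLattice) : GolayPt → ℤ)
      ((g (e8 j) : leechLattice) : GolayPt → ℤ) := rfl
  rw [h1, this]
  unfold dotInt
  simp only [e8_apply, Matrix.smul_apply, Matrix.one_apply, smul_eq_mul, mul_ite, mul_zero, ite_mul, zero_mul]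
  rw [Finset.sum_ite_eq' Finset.univ j]
  simp only [Finset.mem_univ, if_true]
  by_cases hij : i = j
  · subst hij; simp
  · simp [hij, Ne.symm hij]

/-- The reduction mod 13 of `8⁻¹ A`. -/
def B (g : Equiv.Perm leechLattice) : Matrix GolayPt GolayPt (ZMod 13) :=
  (5 : ZMod 13) • (A g).map (Int.castRingHom (ZMod 13))

theorem B_mul {g h : Equiv.Perm leechLattice} (hg : g ∈ Co0) : B (g * h) = B g * B h := by
  unfold B
  rw [Matrix.smul_mul, Matrix.mul_smul, ← Matrix.map_mul, A_mul hg]
  ext i j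
  simp only [Matrix.smul_apply, Matrix.map_apply, smul_eq_mul, Int.coe_castRingHom, Int.cast_mul]
  have : (5 : ZMod 13) = 5 * (5 * ((8 : ℤ) : ZMod 13)) := by decide
  calc (5 : ZMod 13) * ((A (g * h) i j : ℤ) : ZMod 13)
      = (5 * (5 * ((8 : ℤ) : ZMod 13))) * ((A (g * h) i j : ℤ) : ZMod 13) := by rw [← this]
    _ = _ := by ring

theorem B_one : B (1 : Equiv.Perm leechLattice) = 1 := by
  unfold B
  rw [A_one]
  ext i j
  simp only [Matrix.smul_apply, Matrix.map_apply, smul_eq_mul, Int.coe_castRingHom, Int.cast_mul, Matrix.one_apply]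
  split_ifs
  · decide
  · simp

theorem B_transpose_mul {g : Equiv.Perm leechLattice} (hg : g ∈ Co0) : (B g)ᵀ * B g = 1 := by
  unfold B
  rw [Matrix.transpose_smul, Matrix.smul_mul, Matrix.mul_smul, ← Matrix.transpose_map, ← Matrix.map_mul,
    A_transpose_mul hg]
  ext i j
  simp only [Matrix.smul_apply, Matrix.map_apply, smul_eq_mul, Int.coe_castRingHom, Int.cast_mul, Matrix.one_apply]
  split_ifs
  · decide
  · simp


/-- `u` mod 13 -/
def ubar : GolayPt → ZMod 13 := fun i => ((vecU i : ℤ) : ZMod 13)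

theorem map_mulVec_cast (M : Matrix GolayPt GolayPt ℤ) (v : GolayPt → ℤ) (i : GolayPt) :
    (M.map (Int.castRingHom (ZMod 13)) *ᵥ fun j => ((v j : ℤ) : ZMod 13)) i = (((M *ᵥ v) i : ℤ) : ZMod 13) := by
  simp only [Matrix.mulVec, dotProduct, Matrix.map_apply, Int.coe_castRingHom]
  push_cast
  rfl

theorem B_mulVec_ubar {g : Equiv.Perm leechLattice} (hg : g ∈ Co2) : B g *ᵥ ubar = ubar := by
  have h1 := A_mulVec hg.1 leechU
  have hfix : g leechU = leechU := hg.2
  rw [hfix] at h1
  funext i
  have h2 := congrFun h1 i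
  unfold B
  rw [Matrix.smul_mulVec]
  change (5 : ZMod 13) * ((A g).map (Int.castRingHom (ZMod 13)) *ᵥ fun j => ((vecU j : ℤ) : ZMod 13)) i = ubar i
  rw [map_mulVec_cast]
  have h3 : (A g *ᵥ vecU) i = 8 * vecU i := h2
  rw [h3]
  change (5 : ZMod 13) * (((8 * vecU i : ℤ)) : ZMod 13) = ((vecU i : ℤ) : ZMod 13)
  push_cast
  rw [← mul_assoc]
  have : (5 : ZMod 13) * 8 = 1 := by decide
  rw [this, one_mul]

theorem dot_of_orth (M : Matrix GolayPt GolayPt (ZMod 13)) (hM : Mᵀ * M = 1) (x y : GolayPt → ZMod 13) :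
    (M *ᵥ x) ⬝ᵥ (M *ᵥ y) = x ⬝ᵥ y := by
  rw [Matrix.dotProduct_mulVec, ← Matrix.vecMul_transpose M x, Matrix.vecMul_vecMul, hM, Matrix.vecMul_one]

/-- pairing with `u` -/
def φ : Module.Dual (ZMod 13) (GolayPt → ZMod 13) where
  toFun x := x ⬝ᵥ ubar
  map_add' x y := add_dotProduct x y ubar
  map_smul' c x := smul_dotProduct c x ubar

theorem φ_apply (x : GolayPt → ZMod 13) : φ x = x ⬝ᵥ ubar := rfl

theorem φ_ubar : φ ubar = 6 := by
  rw [φ_apply]
  decide

/-- `u^⊥` -/
def W : Submodule (ZMod 13) (GolayPt → ZMod 13) := LinearMap.ker φ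

theorem mem_W {x : GolayPt → ZMod 13} : x ∈ W ↔ x ⬝ᵥ ubar = 0 := LinearMap.mem_ker

theorem finrank_W : Module.finrank (ZMod 13) W = 23 := by
  have hne : φ ≠ 0 := by
    intro h
    have := φ_ubar
    rw [h] at this
    exact absurd this (by decide)
  have := Module.Dual.finrank_ker_add_one_of_ne_zero hne
  rw [Module.finrank_fintype_fun_eq_card] at this
  have h2 : Fintype.card GolayPt = 24 := by
    simp [GolayPt, ZMod.card]
  rw [h2] at this
  have h3 : Module.finrank (ZMod 13) W = Module.finrank (ZMod 13) (LinearMap.ker φ) := rfl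
  omega

theorem B_mem_W {g : Equiv.Perm leechLattice} (hg : g ∈ Co2) {x : GolayPt → ZMod 13} (hx : x ∈ W) :
    B g *ᵥ x ∈ W := by
  rw [mem_W] at hx ⊢
  have := dot_of_orth (B g) (B_transpose_mul hg.1) x ubar
  rwa [B_mulVec_ubar hg, hx] at this

/-- The representation on `u^⊥`. -/
def rho : ↥Co2 →* Module.End (ZMod 13) W where
  toFun g := LinearMap.restrict (B g.1).mulVecLin (fun x hx => B_mem_W g.2 hx)
  map_one' := by
    ext x i
    change (B (1 : Equiv.Perm leechLattice) *ᵥ (x : GolayPt → ZMod 13)) i = (x : GolayPt → ZMod 13) i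
    rw [B_one, Matrix.one_mulVec]
  map_mul' a b := by
    ext x i
    change (B (a.1 * b.1) *ᵥ (x : GolayPt → ZMod 13)) i = (B a.1 *ᵥ (B b.1 *ᵥ (x : GolayPt → ZMod 13))) i
    rw [B_mul a.2.1, Matrix.mulVec_mulVec]

theorem rho_apply (g : ↥Co2) (x : W) : ((rho g x : W) : GolayPt → ZMod 13) = B g.1 *ᵥ (x : GolayPt → ZMod 13) := rfl

/-- The key faithfulness statement. -/
theorem eq_one_of_rho {g : Equiv.Perm leechLattice} (hg : g ∈ Co2)
    (h : ∀ x ∈ W, B g *ᵥ x = x) : g = 1 := by
  have hall : ∀ x : GolayPt → ZMod 13, B g *ᵥ x = x := by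
    intro x
    set c : ZMod 13 := φ x * 11 with hc
    have hx' : x - c • ubar ∈ W := by
      rw [mem_W, sub_dotProduct, smul_dotProduct]
      have : ubar ⬝ᵥ ubar = 6 := φ_ubar
      rw [this, smul_eq_mul, hc, mul_assoc]
      have : (11 : ZMod 13) * 6 = 1 := by decide
      rw [this, mul_one]
      exact sub_self _
    have h1 := h _ hx'
    rw [Matrix.mulVec_sub, Matrix.mulVec_smul, B_mulVec_ubar hg] at h1
    exact sub_left_inj.mp h1
  have hB : B g = 1 := by
    ext i j
    have := congrFun (hall (Pi.single j 1)) i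
    rw [Matrix.mulVec_single_one] at this
    rw [Matrix.one_apply]
    simp only [Matrix.col_apply] at this
    rw [this, Pi.single_apply]
  -- cast
  have hcast : ∀ i j, ((A g i j : ℤ) : ZMod 13) = if i = j then 8 else 0 := by
    intro i j
    have h1 := congrFun (congrFun hB i) j
    unfold B at h1
    simp only [Matrix.smul_apply, Matrix.map_apply, smul_eq_mul, Int.coe_castRingHom, Matrix.one_apply] at h1
    have h2 : ((A g i j : ℤ) : ZMod 13) = 8 * (5 * ((A g i j : ℤ) : ZMod 13)) := by
      rw [← mul_assoc]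
      have : (8 : ZMod 13) * 5 = 1 := by decide
      rw [this, one_mul]
    rw [h2, h1]
    split_ifs <;> simp
  have hnorm : ∀ j, ∑ i, (A g i j) ^ 2 = 64 := by
    intro j
    have h1 := congrFun (congrFun (A_transpose_mul hg.1) j) j
    simp only [Matrix.mul_apply, Matrix.transpose_apply, Matrix.smul_apply, Matrix.one_apply_eq, smul_eq_mul, mul_one] at h1
    rw [← h1]
    exact Finset.sum_congr rfl fun i _ => (pow_two _)
  have hbound : ∀ i j, (A g i j) ^ 2 ≤ 64 := by
    intro i j
    rw [← hnorm j]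
    exact Finset.single_le_sum (f := fun i => (A g i j) ^ 2) (fun k _ => sq_nonneg _) (Finset.mem_univ i)
  have habs : ∀ i j, |A g i j| ≤ 8 := by
    intro i j
    apply abs_le_of_sq_le_sq _ (by norm_num)
    have := hbound i j
    norm_num
    exact this
  have hoff : ∀ i j, i ≠ j → A g i j = 0 := by
    intro i j hij
    have h1 := hcast i j
    rw [if_neg hij] at h1
    have h2 : (13 : ℤ) ∣ A g i j := (ZMod.intCast_zmod_eq_zero_iff_dvd _ 13).mp h1
    apply Int.eq_zero_of_abs_lt_dvd h2
    have := habs i j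
    omega
  have hdiag : ∀ j, A g j j = 8 := by
    intro j
    have h1 := hnorm j
    rw [Finset.sum_eq_single j (fun i _ hij => by rw [hoff i j hij]; norm_num)
      (fun h => absurd (Finset.mem_univ j) h)] at h1
    have h2 : (A g j j - 8) * (A g j j + 8) = 0 := by nlinarith
    rcases mul_eq_zero.mp h2 with h3 | h3
    · omega
    · have h4 : A g j j = -8 := by omega
      have h5 := hcast j j
      rw [if_pos rfl, h4] at h5
      exact absurd h5 (by decide)
  have hA : A g = (8 : ℤ) • (1 : Matrix GolayPt GolayPt ℤ) := by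
    ext i j
    rw [Matrix.smul_apply, Matrix.one_apply]
    by_cases hij : i = j
    · subst hij; simp [hdiag]
    · simp [hij, hoff i j hij]
  apply Equiv.ext
  intro x
  have h1 := A_mulVec hg.1 x
  rw [hA, Matrix.smul_mulVec, Matrix.one_mulVec] at h1
  have h2 : (x : GolayPt → ℤ) = ((g x : leechLattice) : GolayPt → ℤ) := by
    funext i
    have := congrFun h1 i
    simp only [Pi.smul_apply, smul_eq_mul] at this
    omega
  exact (Subtype.ext h2).symm


/-- The second Conway group (the stabilizer in the Leech lattice automorphism group of the short vector fixed in the definitions) is isomorphic to a subgroup of the general linear group of degree 23 over the field with 13 elements: there is an injective homomorphism into it. -/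
theorem result : ∃ f : ↥Cfsg.Spor.Co2 →* GL (Fin 23) (ZMod 13), Function.Injective f := by
  classical
  let b : Module.Basis (Fin 23) (ZMod 13) W := Module.finBasisOfFinrankEq _ _ finrank_W
  let toM : Module.End (ZMod 13) W ≃* Matrix (Fin 23) (Fin 23) (ZMod 13) :=
    (LinearMap.toMatrixAlgEquiv b).toMulEquiv
  refine ⟨(Units.map (toM : Module.End (ZMod 13) W →* Matrix (Fin 23) (Fin 23) (ZMod 13))).comp rho.toHomUnits, ?_⟩
  rw [injective_iff_map_eq_one]
  intro g hg
  have h1 : rho g = 1 := by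
    have h2 := congrArg (fun u : (Matrix (Fin 23) (Fin 23) (ZMod 13))ˣ => (u : Matrix (Fin 23) (Fin 23) (ZMod 13))) hg
    have h3 : toM (rho g) = 1 := h2
    apply toM.injective
    rw [h3, map_one]
  have h4 : g.1 = 1 := by
    apply eq_one_of_rho g.2
    intro x hx
    have := congrArg (fun e : Module.End (ZMod 13) W => ((e ⟨x, hx⟩ : W) : GolayPt → ZMod 13)) h1
    exact this
  exact Subtype.ext h4

end Cfsg.Agent.S5546
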