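import Cfsg.Statements.S5550
import Cfsg.Agent.Lib.Compute.M24Tools
import Cfsg.Agent.Lib.Compute.GolayDual

set_option autoImplicit false
open Cfsg

namespace Cfsg.Agent.S5550

open Cfsg.Agent.Lib.Compute.M24 Cfsg.Agent.Lib.Compute.Golay Cfsg.Agent.Lib.Compute.GolayFast Cfsg.Agent.Lib.Compute.GolayDual
open Cfsg.Agent.Lib.Sporadic.M24Dodecad (exists_smul_dodecad)
open Cfsg.Agent.Lib.Sporadic.M24Act (exists_smul_octad)
open scoped Pointwise

/-- The base octad. -/
def o0 : ℕ := 8391797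

/-- Elements stabilizing the octad and code words. -/
def certO : List (List ℕ × ℕ) := [([11,20,2,1,23,5,10,17,12,18,6,4,13,21,7,15,14,16,9,3,19,8,22,0],262637),
  ([11,20,2,1,23,5,10,17,12,18,6,4,13,21,7,15,14,16,9,3,19,8,22,0],525274),
  ([11,20,2,1,23,5,10,17,12,18,6,4,13,21,7,15,14,16,9,3,19,8,22,0],2101096),
  ([11,20,2,1,23,5,10,17,12,18,6,4,13,21,7,15,14,16,9,3,19,8,22,0],4196943),
  ([11,20,2,1,23,5,10,17,12,18,6,4,13,21,7,15,14,16,9,3,19,8,22,0],69395),
  ([11,20,2,1,23,5,10,17,12,18,6,4,13,21,7,15,14,16,9,3,19,8,22,0],133817),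
  ([11,20,2,1,23,5,10,17,12,18,6,4,13,21,7,15,14,16,9,3,19,8,22,0],5279),
  ([5,7,11,12,10,6,2,8,22,18,0,4,13,9,3,19,16,1,20,17,14,21,15,23],262637),
  ([5,7,11,12,10,6,2,8,22,18,0,4,13,9,3,19,16,1,20,17,14,21,15,23],525274),
  ([5,7,11,12,10,6,2,8,22,18,0,4,13,9,3,19,16,1,20,17,14,21,15,23],1050548),
  ([5,7,11,12,10,6,2,8,22,18,0,4,13,9,3,19,16,1,20,17,14,21,15,23],4196943),
  ([5,7,11,12,10,6,2,8,22,18,0,4,13,9,3,19,16,1,20,17,14,21,15,23],69395)]

/-- The reduced basis in terms of the commutators. -/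
def selO : List ℕ := [696, 3001, 688, 2188, 2744, 1584, 2962, 2185, 2608, 2371, 2224, 2314]

/-- Elements stabilizing the dodecad and code words. -/
def certD : List (List ℕ × ℕ) := [([6,0,7,12,22,11,23,1,3,15,16,18,8,20,14,9,13,17,5,21,4,19,10,2],8391797),
  ([6,0,7,12,22,11,23,1,3,15,16,18,8,20,14,9,13,17,5,21,4,19,10,2],262637),
  ([6,0,7,12,22,11,23,1,3,15,16,18,8,20,14,9,13,17,5,21,4,19,10,2],525274),
  ([6,0,7,12,22,11,23,1,3,15,16,18,8,20,14,9,13,17,5,21,4,19,10,2],1050548),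
  ([6,0,7,12,22,11,23,1,3,15,16,18,8,20,14,9,13,17,5,21,4,19,10,2],4196943),
  ([6,0,7,12,22,11,23,1,3,15,16,18,8,20,14,9,13,17,5,21,4,19,10,2],36294),
  ([6,0,7,12,22,11,23,1,3,15,16,18,8,20,14,9,13,17,5,21,4,19,10,2],69395),
  ([6,0,7,12,22,11,23,1,3,15,16,18,8,20,14,9,13,17,5,21,4,19,10,2],5279),
  ([23,15,9,7,21,22,2,0,12,8,17,18,14,16,6,3,4,13,5,20,11,10,19,1],8391797),
  ([23,15,9,7,21,22,2,0,12,8,17,18,14,16,6,3,4,13,5,20,11,10,19,1],262637),
  ([23,15,9,7,21,22,2,0,12,8,17,18,14,16,6,3,4,13,5,20,11,10,19,1],4196943),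
  ([23,15,9,7,21,22,2,0,12,8,17,18,14,16,6,3,4,13,5,20,11,10,19,1],5279)]

/-- The reduced basis in terms of the commutators. -/
def selD : List ℕ := [129, 1184, 664, 1077, 514, 528, 642, 1974, 176, 211, 2320, 51]

theorem certO_ok : certO.all (fun x => inM24 x.1 && imgMask x.1 o0 == o0 && isCode x.2) = true := by decide +kernel

theorem certD_ok : certD.all (fun x => inM24 x.1 && imgMask x.1 dm == dm && isCode x.2) = true := by decide +kernel

theorem selO_ok : redBasis = selO.map (encodeAux (certO.map fun x => imgMask x.1 x.2 ^^^ x.2)) := by decide +kernel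

theorem selD_ok : redBasis = selD.map (encodeAux (certD.map fun x => imgMask x.1 x.2 ^^^ x.2)) := by decide +kernel

/-- The general form of the base case. -/
theorem base_of_cert (m₀ : ℕ) (cert : List (List ℕ × ℕ)) (sel : List ℕ)
    (h1 : cert.all (fun x => inM24 x.1 && imgMask x.1 m₀ == m₀ && isCode x.2) = true)
    (h2 : redBasis = sel.map (encodeAux (cert.map fun x => imgMask x.1 x.2 ^^^ x.2)))
    (w : GolayPt → ZMod 2) (hw : w ∉ golayCode) :
    ∃ σ ∈ Cfsg.M24, σ • maskSupport m₀ = maskSupport m₀ ∧ (fun p => w (σ.symm p)) - w ∉ golayCode := by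
  by_contra hcon
  push Not at hcon
  apply hw
  -- orthogonality to the commutators
  have h3 : ∀ x ∈ cert, ∑ p, maskWord (imgMask x.1 x.2 ^^^ x.2) p * w p = 0 := by
    intro x hx
    have h4 := List.all_eq_true.1 h1 x hx
    simp only [Bool.and_eq_true, beq_iff_eq] at h4
    obtain ⟨⟨h5, h6⟩, h7⟩ := h4
    have hv : validL x.1 = true := by
      simp only [inM24, Bool.and_eq_true] at h5
      exact h5.1
    obtain ⟨τ, hτ⟩ := exists_perm_of_validL hv
    have hτM := mem_M24_of_inM24 hτ h5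
    have hτS : τ • maskSupport m₀ = maskSupport m₀ := by
      rw [smul_maskSupport hτ hv, h6]
    have hστ : (τ⁻¹ : P) • maskSupport m₀ = maskSupport m₀ := by
      rw [inv_smul_eq_iff, hτS]
    have h8 := hcon (τ⁻¹ : P) (Cfsg.M24.inv_mem hτM) hστ
    have h9 := golay_orth _ (maskWord_mem_of_isCode h7) _ h8
    -- moving the permutation
    have h10 : ∑ p, maskWord x.2 p * w (τ p) = ∑ q, maskWord (imgMask x.1 x.2) q * w q := by
      rw [← maskWord_comp_inv hτ hv]
      rw [← Equiv.sum_comp τ (fun q => (maskWord x.2 ∘ (τ⁻¹ : P)) q * w q)]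
      refine Finset.sum_congr rfl fun p _ => ?_
      simp
    have h11 : ∑ p, maskWord x.2 p * (((fun p => w ((τ⁻¹ : P).symm p)) - w) p) =
        ∑ q, maskWord (imgMask x.1 x.2) q * w q - ∑ p, maskWord x.2 p * w p := by
      rw [← h10, ← Finset.sum_sub_distrib]
      refine Finset.sum_congr rfl fun p _ => ?_
      simp only [Pi.sub_apply, mul_sub]
      rfl
    rw [h11] at h9
    rw [maskWord_xor]
    simp only [Pi.add_apply, add_mul]
    rw [Finset.sum_add_distrib]
    have h12 := sub_eq_zero.1 h9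
    rw [h12]
    have htwo : ∀ a : ZMod 2, a + a = 0 := by decide
    exact htwo _
  refine golay_perp fun c hc => ?_
  have h4 : ∀ v ∈ Submodule.span (ZMod 2) (maskWord '' {b | b ∈ cert.map fun x => imgMask x.1 x.2 ^^^ x.2}),
      ∑ p, v p * w p = 0 := by
    intro v hv
    induction hv using Submodule.span_induction with
    | mem x hx =>
      obtain ⟨b, hb, rfl⟩ := hx
      obtain ⟨y, hy, rfl⟩ := List.mem_map.1 hb
      exact h3 y hy
    | zero => simp
    | add x y _ _ hx hy =>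
      simp only [Pi.add_apply, add_mul]
      rw [Finset.sum_add_distrib, hx, hy, add_zero]
    | smul a x _ hx =>
      simp only [Pi.smul_apply, smul_eq_mul]
      have : ∀ p, a * x p * w p = a * (x p * w p) := fun p => by ring
      simp_rw [this]
      rw [← Finset.mul_sum, hx, mul_zero]
  apply h4
  rw [golayCode_eq_span] at hc
  refine Submodule.span_le.2 ?_ hc
  rintro _ ⟨b, hb, rfl⟩
  have hb' : b ∈ sel.map (encodeAux (cert.map fun x => imgMask x.1 x.2 ^^^ x.2)) := by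
    rw [← h2]
    exact hb
  obtain ⟨k, _, rfl⟩ := List.mem_map.1 hb'
  exact maskWord_encodeAux_mem_span _ _

/-- Transport to a conjugate. -/
theorem conj_step {s : Finset GolayPt}
    (hs : ∀ w : GolayPt → ZMod 2, w ∉ golayCode →
      ∃ σ ∈ Cfsg.M24, σ • s = s ∧ (fun p => w (σ.symm p)) - w ∉ golayCode)
    (τ : P) (hτ : τ ∈ Cfsg.M24) (w : GolayPt → ZMod 2) (hw : w ∉ golayCode) :
    ∃ σ ∈ Cfsg.M24, σ • (τ • s) = τ • s ∧ (fun p => w (σ.symm p)) - w ∉ golayCode := by
  have hw' : w ∘ τ ∉ golayCode := by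
    intro h
    apply hw
    have h2 := (mem_M24_iff τ).1 hτ _ h
    have h3 : (w ∘ τ) ∘ (τ⁻¹ : P) = w := by
      funext p
      simp
    rwa [h3] at h2
  obtain ⟨σ', hσ', hσs, hσw⟩ := hs _ hw'
  refine ⟨τ * σ' * τ⁻¹, Cfsg.M24.mul_mem (Cfsg.M24.mul_mem hτ hσ') (Cfsg.M24.inv_mem hτ), ?_, ?_⟩
  · rw [mul_smul, mul_smul, inv_smul_smul, hσs]
  · intro h
    apply hσw
    have h2 := (mem_M24_iff (τ⁻¹ : P)).1 (Cfsg.M24.inv_mem hτ) _ h
    have h3 : ((fun p => w ((τ * σ' * τ⁻¹ : P).symm p)) - w) ∘ ((τ⁻¹ : P)⁻¹ : P) =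
        (fun p => (w ∘ τ) (σ'.symm p)) - w ∘ τ := by
      funext p
      simp only [Function.comp, inv_inv, Pi.sub_apply]
      congr 2
      show (τ * σ' * τ⁻¹ : P)⁻¹ (τ p) = τ ((σ'⁻¹ : P) p)
      simp [mul_inv_rev, Equiv.Perm.mul_apply]
    rwa [h3] at h2

theorem o0_mem : maskSupport o0 ∈ octads :=
  mem_wordsOfWeight_iff.2 ⟨o0, mem_codeMasks_of_isCode (by decide +kernel), by decide +kernel, rfl⟩

theorem support_one_add (u : GolayPt → ZMod 2) : support₂ (1 + u) = (support₂ u)ᶜ := by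
  ext p
  have h : ∀ a : ZMod 2, (1 + a ≠ 0) ↔ ¬ (a ≠ 0) := by decide
  simp [support₂, h]

theorem hnorm (u : GolayPt → ZMod 2) : hammingNorm u = (support₂ u).card := by
  simp [hammingNorm, support₂]

theorem one_mem : (1 : GolayPt → ZMod 2) ∈ golayCode :=
  Submodule.subset_span (Or.inr rfl)

/-- The case of weight `0` or `8` or `12`. -/
theorem main_low (u : GolayPt → ZMod 2) (hu : u ∈ golayCode) (hc : hammingNorm u = 0 ∨ hammingNorm u = 8 ∨ hammingNorm u = 12)
    (w : GolayPt → ZMod 2) (hw : w ∉ golayCode) :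
    ∃ σ ∈ Cfsg.M24, (fun p => u (σ.symm p)) = u ∧ (fun p => w (σ.symm p)) - w ∉ golayCode := by
  have key : ∀ σ : P, σ • support₂ u = support₂ u → (fun p => u (σ.symm p)) = u := by
    intro σ hσ
    have h1 : support₂ (u ∘ (σ⁻¹ : P)) = support₂ u := by rw [support₂_comp_inv, hσ]
    exact word_eq_of_support_eq h1
  rcases hc with h0 | h8 | h12
  · have hz : u = 0 := hammingNorm_eq_zero.1 h0
    obtain ⟨σ, hσ, -, h⟩ := base_of_cert o0 certO selO certO_ok selO_ok w hw
    refine ⟨σ, hσ, ?_, h⟩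
    rw [hz]
    rfl
  · have hs : support₂ u ∈ octads := ⟨⟨u, hu, rfl⟩, by rw [← hnorm, h8]⟩
    obtain ⟨τ, hτ, hτs⟩ := exists_smul_octad o0_mem hs
    obtain ⟨σ, hσ, h1, h2⟩ := conj_step (base_of_cert o0 certO selO certO_ok selO_ok) τ hτ w hw
    rw [hτs] at h1
    exact ⟨σ, hσ, key σ h1, h2⟩
  · have hs : support₂ u ∈ dodecads := ⟨⟨u, hu, rfl⟩, by rw [← hnorm, h12]⟩
    obtain ⟨τ, hτ, hτs⟩ := exists_smul_dodecad dd_mem hs
    obtain ⟨σ, hσ, h1, h2⟩ := conj_step (base_of_cert dm certD selD certD_ok selD_ok) τ hτ w hw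
    rw [hτs] at h1
    exact ⟨σ, hσ, key σ h1, h2⟩

/-- The statement. -/
theorem main (u : GolayPt → ZMod 2) (hu : u ∈ golayCode) (w : GolayPt → ZMod 2) (hw : w ∉ golayCode) :
    ∃ σ ∈ Cfsg.M24, (fun p => u (σ.symm p)) = u ∧ (fun p => w (σ.symm p)) - w ∉ golayCode := by
  rcases hammingNorm_code u hu with h | h | h | h | h
  · exact main_low u hu (Or.inl h) w hw
  · exact main_low u hu (Or.inr (Or.inl h)) w hw
  · exact main_low u hu (Or.inr (Or.inr h)) w hw
  all_goals
    have hu' : 1 + u ∈ golayCode := golayCode.add_mem one_mem hu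
    have hn : hammingNorm (1 + u) = 24 - hammingNorm u := by
      rw [hnorm, hnorm, support_one_add, Finset.card_compl]
      rfl
    rw [h] at hn
    have hc : hammingNorm (1 + u) = 0 ∨ hammingNorm (1 + u) = 8 ∨ hammingNorm (1 + u) = 12 := by
      rw [hn]
      simp
    obtain ⟨σ, hσ, h1, h2⟩ := main_low _ hu' hc w hw
    refine ⟨σ, hσ, ?_, h2⟩
    funext p
    have h3 := congrFun h1 p
    have h4 : ∀ a b : ZMod 2, 1 + a = 1 + b → a = b := by decide
    exact h4 _ _ h3

/-- Let u be a word of the length-24 binary Golay code of the definitions (possibly zero or all-ones) and w any binary word of length 24 outside the code. Then some automorphism of the code (a coordinate permutation preserving it) fixes u but moves w to a word not congruent to w modulo the code: the stabilizer of a codeword fixes no non-zero element of the quotient of the space of all words by the code. -/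
theorem result (u : (Cfsg.GolayPt → ZMod 2)) (hu : u ∈ Cfsg.golayCode) (w : (Cfsg.GolayPt → ZMod 2)) (hw : w ∉ Cfsg.golayCode) : ∃ σ ∈ Cfsg.M24, (fun p => u (σ.symm p)) = u ∧ (fun p => w (σ.symm p)) - w ∉ Cfsg.golayCode := by
  exact main u hu w hw

end Cfsg.Agent.S5550
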