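import Cfsg.Statements.S5553
import Mathlib
import Cfsg.Agent.Lib.Sporadic.LeechFacts
-- import your own Cfsg.Agent.* helpers here

set_option autoImplicit false
open Cfsg

namespace Cfsg.Agent.S5553

open Cfsg.Agent.Lib.Compute.Golay Cfsg.Agent.Lib.Sporadic.LeechBasic
  Cfsg.Agent.Lib.Sporadic.LeechNorm Cfsg.Agent.Lib.Sporadic.LeechFacts

/-- The code words vanishing at the extra point. -/
def D : Submodule (ZMod 2) (GolayPt → ZMod 2) :=
  golayCode ⊓ LinearMap.ker (LinearMap.proj (none : GolayPt))

theorem mem_D {w : GolayPt → ZMod 2} : w ∈ D ↔ w ∈ golayCode ∧ w none = 0 := by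
  simp [D]

theorem D_masks_aux : (codeMasks.filter (fun m => !m.testBit 23)).length = 2048 := by
  decide +kernel

theorem card_D : Nat.card D = 2048 := by
  classical
  have h1 : (D : Set (GolayPt → ZMod 2)) =
      ↑(((codeMasks.filter (fun m => !m.testBit 23)).toFinset).image maskWord) := by
    ext w
    simp only [SetLike.mem_coe, mem_D, Finset.coe_image, Set.mem_image,
      List.mem_toFinset, List.mem_filter, Bool.not_eq_true']
    constructor
    · rintro ⟨hw, h0⟩
      obtain ⟨m, hm, rfl⟩ := exists_mask_of_mem_code hw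
      refine ⟨m, ⟨hm, ?_⟩, rfl⟩
      have : m.testBit (ptIdx none) = false := by
        by_contra h
        simp only [maskWord] at h0
        simp at h
        simp [h] at h0
      simpa [ptIdx] using this
    · rintro ⟨m, ⟨hm, h0⟩, rfl⟩
      refine ⟨mem_code_of_mem_codeMasks hm, ?_⟩
      simp only [maskWord, ptIdx]
      simp [h0]
  have h2 : Nat.card D = (D : Set (GolayPt → ZMod 2)).ncard := by
    rw [Set.ncard_eq_toFinset_card']
    simp [Nat.card_eq_fintype_card]
  rw [h2, h1, Set.ncard_coe_finset, Finset.card_image_of_injOn,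
    List.toFinset_card_of_nodup (codeMasks_nodup.filter _), D_masks_aux]
  intro a ha b hb h
  simp only [Finset.mem_coe, List.mem_toFinset, List.mem_filter] at ha hb
  exact maskWord_injOn (codeMasks_lt a ha.1) (codeMasks_lt b hb.1) h

/-- explicit description of lattice membership with a fixed parity -/
theorem L_even {x : GolayPt → ℤ} (hx : x ∈ leechLattice) (h : ∀ i, x i % 2 = 0) :
    (∑ i, x i) % 8 = 0 ∧ wd x ∈ golayCode := by
  rw [mem_leechLattice_iff] at hx
  obtain ⟨m, hm, hp, hs, hw⟩ := hx
  have : m = 0 := by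
    rw [← hp none, h none]
  subst this
  exact ⟨by simpa using hs, hw⟩

theorem wd_add_apply {x y : GolayPt → ℤ} {m n : ℤ} (hm : m = 0 ∨ m = 1) (hn : n = 0 ∨ n = 1)
    (hx : ∀ i, x i % 2 = m) (hy : ∀ i, y i % 2 = n) (i : GolayPt) :
    wd (x + y) i = wd x i + wd y i + ((m * n : ℤ) : ZMod 2) := by
  have h1 := hx i
  have h2 := hy i
  simp only [wd, Pi.add_apply]
  have e : (x i + y i) / 2 = x i / 2 + y i / 2 + m * n := by
    rcases hm with rfl | rfl <;> rcases hn with rfl | rfl <;> simp <;> omega
  rw [e]; push_cast; rfl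

/-- The subgroup of the statement. -/
def A : AddSubgroup (GolayPt → ℤ) where
  carrier := {x | x ∈ leechLattice ∧ (∀ i, x i % 2 = 0) ∧ (wd x = 0 ∨ wd x = 1)}
  zero_mem' := by
    refine ⟨leechLattice.zero_mem, by simp, Or.inl ?_⟩
    funext i; simp [wd]
  add_mem' := by
    rintro x y ⟨hx, hx2, hx3⟩ ⟨hy, hy2, hy3⟩
    refine ⟨leechLattice.add_mem hx hy, fun i => ?_, ?_⟩
    · have := hx2 i; have := hy2 i; simp only [Pi.add_apply]; omega
    · have e : wd (x + y) = wd x + wd y := by
        funext i
        have := wd_add_apply (Or.inl rfl) (Or.inl rfl) hx2 hy2 i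
        simpa using this
      rw [e]
      have h2 : ∀ a : GolayPt → ZMod 2, a + a = 0 := by
        intro a; funext i
        have : ∀ a : ZMod 2, a + a = 0 := by decide
        exact this _
      rcases hx3 with h | h <;> rcases hy3 with h' | h' <;> rw [h, h'] <;> simp [h2]
  neg_mem' := by
    rintro x ⟨hx, hx2, hx3⟩
    refine ⟨leechLattice.neg_mem hx, fun i => ?_, ?_⟩
    · have := hx2 i; simp only [Pi.neg_apply]; omega
    · have e : wd (-x) = wd x := by
        funext i
        have h1 := hx2 i
        simp only [wd, Pi.neg_apply]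
        have e : (-x i) / 2 = -(x i / 2) := by omega
        rw [e]; push_cast
        exact (neg_eq_of_add_eq_zero_left (by
          have : ∀ a : ZMod 2, a + a = 0 := by decide
          exact this _))
      rw [e]; exact hx3

theorem A_le : A ≤ leechLattice := fun _ h => h.1

theorem two_smul_mem (v : GolayPt → ℤ) (hv : v ∈ leechLattice) : (2 : ℤ) • v ∈ A := by
  refine ⟨?_, ?_, ?_⟩
  · have : (2 : ℤ) • v = v + v := two_smul ℤ v
    rw [this]
    exact leechLattice.add_mem hv hv
  · intro i
    simp only [Pi.smul_apply, smul_eq_mul]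
    omega
  · rw [mem_leechLattice_iff] at hv
    obtain ⟨m, hm, hp, _, _⟩ := hv
    rcases hm with rfl | rfl
    · left
      funext i
      have h1 := hp i
      simp only [wd, Pi.smul_apply, smul_eq_mul, Pi.zero_apply]
      have e : (2 * v i) / 2 = v i := by omega
      rw [e, ZMod.intCast_zmod_eq_zero_iff_dvd]
      push_cast
      omega
    · right
      funext i
      have h1 := hp i
      simp only [wd, Pi.smul_apply, smul_eq_mul, Pi.one_apply]
      have e : (2 * v i) / 2 = v i := by omega
      rw [e]
      have : ((v i : ℤ) : ZMod 2) = ((1 : ℤ) : ZMod 2) := by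
        rw [ZMod.intCast_eq_intCast_iff]
        show v i % (2 : ℕ) = 1 % (2 : ℕ)
        push_cast
        omega
      rw [this]; simp

theorem norm_A (v : GolayPt → ℤ) (hv : v ∈ A) : (32 : ℤ) ∣ sqNorm v := by
  obtain ⟨hL, h2, h3⟩ := hv
  obtain ⟨hs, _⟩ := L_even hL h2
  rcases h3 with h0 | h1
  · apply thirtytwo_dvd_of_four_dvd
    · intro i
      have h := congrFun h0 i
      simp only [wd, Pi.zero_apply] at h
      rw [ZMod.intCast_zmod_eq_zero_iff_dvd] at h
      push_cast at h
      have := h2 i
      omega
    · omega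
  · have key : (32 : ℤ) ∣ ∑ i, (v i ^ 2 - 4) := by
      apply Finset.dvd_sum
      intro i _
      have h := congrFun h1 i
      simp only [wd, Pi.one_apply] at h
      have h' : ((v i / 2 : ℤ) : ZMod 2) ≠ 0 := by rw [h]; exact one_ne_zero
      rw [zmod2_cast_ne_zero_iff] at h'
      have h4 := h2 i
      obtain ⟨t, ht⟩ : ∃ t, v i = 4 * t + 2 := ⟨v i / 4, by omega⟩
      rw [ht]
      have : (2 : ℤ) ∣ t ^ 2 + t := by
        have := Int.even_mul_succ_self t
        rw [even_iff_two_dvd] at this
        have e : t ^ 2 + t = t * (t + 1) := by ring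
        rw [e]; exact this
      obtain ⟨c, hc⟩ := this
      exact ⟨c, by linear_combination 16 * hc⟩
    rw [Finset.sum_sub_distrib] at key
    have hc : (∑ i : GolayPt, (4 : ℤ)) = 96 := by
      simp [Finset.card_univ, ZMod.card]
    rw [hc] at key
    unfold sqNorm
    omega

/-- The additive map on the lattice whose kernel is `A`. -/
noncomputable def phi : leechLattice →+ (ZMod 2 × D) where
  toFun x := (((x : GolayPt → ℤ) none : ZMod 2),
    ⟨fun i => wd (x : GolayPt → ℤ) i + wd (x : GolayPt → ℤ) none, by
      have hx := x.2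
      rw [mem_leechLattice_iff] at hx
      obtain ⟨m, hm, hp, hs, hw⟩ := hx
      have h1 : (1 : GolayPt → ZMod 2) ∈ golayCode := Submodule.subset_span (Or.inr rfl)
      rw [mem_D]
      refine ⟨?_, ?_⟩
      · have : (fun i => wd (x : GolayPt → ℤ) i + wd (x : GolayPt → ℤ) none) =
            wd (x : GolayPt → ℤ) + (wd (x : GolayPt → ℤ) none) • (1 : GolayPt → ZMod 2) := by
          funext i; simp
        rw [this]
        exact golayCode.add_mem hw (golayCode.smul_mem _ h1)
      · have : ∀ a : ZMod 2, a + a = 0 := by decide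
        exact this _⟩)
  map_zero' := by
    ext i
    · simp
    · simp [wd]
  map_add' := by
    intro x y
    have hx := x.2
    have hy := y.2
    rw [mem_leechLattice_iff] at hx hy
    obtain ⟨m, hm, hp, -, -⟩ := hx
    obtain ⟨n, hn, hq, -, -⟩ := hy
    ext i
    · simp
    · simp only [AddSubgroup.coe_add, Prod.mk_add_mk, AddMemClass.mk_add_mk]
      rw [wd_add_apply hm hn hp hq, wd_add_apply hm hn hp hq]
      have : ∀ a b c d e : ZMod 2, a + b + e + (c + d + e) = a + c + (b + d) := by decide
      exact this _ _ _ _ _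

theorem phi_ker : phi.ker = A.addSubgroupOf leechLattice := by
  ext x
  rw [AddMonoidHom.mem_ker, AddSubgroup.mem_addSubgroupOf]
  have hx := x.2
  constructor
  · intro h
    have h1 : (((x : GolayPt → ℤ) none : ℤ) : ZMod 2) = 0 := congrArg Prod.fst h
    have h2 : ∀ i, wd (x : GolayPt → ℤ) i + wd (x : GolayPt → ℤ) none = 0 := by
      intro i
      have := congrArg (fun p => (p.2 : GolayPt → ZMod 2) i) h
      exact this
    rw [mem_leechLattice_iff] at hx
    obtain ⟨m, hm, hp, -, -⟩ := hx
    rw [ZMod.intCast_zmod_eq_zero_iff_dvd] at h1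
    push_cast at h1
    have hm0 : m = 0 := by
      have := hp none
      omega
    subst hm0
    refine ⟨x.2, hp, ?_⟩
    have key : ∀ a b : ZMod 2, a + b = 0 → a = b := by decide
    have h3 : ∀ i, wd (x : GolayPt → ℤ) i = wd (x : GolayPt → ℤ) none := fun i => key _ _ (h2 i)
    have h4 : ∀ b : ZMod 2, b = 0 ∨ b = 1 := by decide
    rcases h4 (wd (x : GolayPt → ℤ) none) with h5 | h5
    · left; funext i; rw [h3, h5]; rfl
    · right; funext i; rw [h3, h5]; rfl
  · rintro ⟨-, h2, h3⟩
    refine Prod.ext ?_ (Subtype.ext ?_)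
    · show (((x : GolayPt → ℤ) none : ℤ) : ZMod 2) = 0
      rw [ZMod.intCast_zmod_eq_zero_iff_dvd]
      push_cast
      have := h2 none
      omega
    · funext i
      show wd (x : GolayPt → ℤ) i + wd (x : GolayPt → ℤ) none = 0
      rcases h3 with h | h <;> rw [h] <;> simp
      decide

/-- Integer lift of a binary word. -/
def lift01 (d : GolayPt → ZMod 2) (i : GolayPt) : ℤ := ((d i).val : ℤ)

theorem lift01_cases (d : GolayPt → ZMod 2) (i : GolayPt) :
    lift01 d i = 0 ∨ lift01 d i = 1 := by
  unfold lift01
  have : ∀ a : ZMod 2, ((a.val : ℕ) : ℤ) = 0 ∨ ((a.val : ℕ) : ℤ) = 1 := by decide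
  exact this _

theorem lift01_cast (d : GolayPt → ZMod 2) (i : GolayPt) : ((lift01 d i : ℤ) : ZMod 2) = d i := by
  unfold lift01
  have : ∀ a : ZMod 2, (((a.val : ℕ) : ℤ) : ZMod 2) = a := by decide
  exact this _

theorem sum_lift01 (d : GolayPt → ZMod 2) : ∑ i, lift01 d i = ((support₂ d).card : ℤ) := by
  classical
  have : (support₂ d) = Finset.univ.filter (fun i => d i ≠ 0) := rfl
  rw [this, Finset.card_filter]
  push_cast
  apply Finset.sum_congr rfl
  intro i _
  unfold lift01
  have : ∀ a : ZMod 2, ((a.val : ℕ) : ℤ) = if a ≠ 0 then 1 else 0 := by decide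
  exact this _

theorem phi_surj : Function.Surjective phi := by
  rintro ⟨e, ⟨d, hd⟩⟩
  obtain ⟨hdC, hd0⟩ := mem_D.mp hd
  have hw4 : ((4 : ℕ) : ℤ) ∣ ((support₂ d).card : ℤ) := by exact_mod_cast code_four_dvd d hdC
  have hs := sum_lift01 d
  have hsplit : ∀ e : ZMod 2, e = 0 ∨ e = 1 := by decide
  rcases hsplit e with rfl | rfl
  · -- even vector 2 * lift
    let x : GolayPt → ℤ := fun i => 2 * lift01 d i
    have hwd : wd x = d := by
      funext i
      simp only [wd, x]
      have e : (2 * lift01 d i) / 2 = lift01 d i := by omega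
      rw [e, lift01_cast]
    have hxL : x ∈ leechLattice := by
      rw [mem_leechLattice_iff]
      refine ⟨0, Or.inl rfl, fun i => by simp only [x]; omega, ?_, by rw [hwd]; exact hdC⟩
      have : ∑ i, x i = 2 * ∑ i, lift01 d i := by
        simp only [x, Finset.mul_sum]
      rw [this, hs]
      push_cast at hw4
      omega
    refine ⟨⟨x, hxL⟩, Prod.ext ?_ (Subtype.ext ?_)⟩
    · show ((x none : ℤ) : ZMod 2) = 0
      rw [ZMod.intCast_zmod_eq_zero_iff_dvd]
      simp only [x]
      push_cast
      omega
    · funext i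
      show wd x i + wd x none = d i
      rw [hwd, hd0, add_zero]
  · -- odd vector 1 + 2 * lift + 4 * e_none
    let x : GolayPt → ℤ := fun i => 1 + 2 * lift01 d i + (if i = none then 4 else 0)
    have hwd : wd x = d := by
      funext i
      simp only [wd, x]
      by_cases hi : i = none
      · have e : (1 + 2 * lift01 d i + (if i = none then 4 else 0)) / 2 = lift01 d i + 2 := by
          simp only [hi, if_true]
          omega
        rw [e]
        push_cast
        rw [lift01_cast]
        have : (2 : ZMod 2) = 0 := by decide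
        rw [this, add_zero]
      · have e : (1 + 2 * lift01 d i + (if i = none then 4 else 0)) / 2 = lift01 d i := by
          simp only [hi, if_false]
          omega
        rw [e, lift01_cast]
    have hxL : x ∈ leechLattice := by
      rw [mem_leechLattice_iff]
      refine ⟨1, Or.inr rfl, fun i => ?_, ?_, by rw [hwd]; exact hdC⟩
      · simp only [x]
        split_ifs <;> omega
      · have : ∑ i, x i = 24 + 2 * ∑ i, lift01 d i + 4 := by
          simp only [x, Finset.sum_add_distrib, Finset.mul_sum]
          have h1 : ∑ i : GolayPt, (1 : ℤ) = 24 := by simp [Finset.card_univ, ZMod.card]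
          rw [h1]
          simp
        rw [this, hs]
        push_cast at hw4
        omega
    refine ⟨⟨x, hxL⟩, Prod.ext ?_ (Subtype.ext ?_)⟩
    · show ((x none : ℤ) : ZMod 2) = 1
      have h0 : lift01 d none = 0 := by
        unfold lift01; rw [hd0]; rfl
      simp only [x, h0]
      decide
    · funext i
      show wd x i + wd x none = d i
      rw [hwd, hd0, add_zero]

theorem index_A : (A.addSubgroupOf leechLattice).index = 2 ^ 12 := by
  rw [← phi_ker, AddSubgroup.index_ker, AddMonoidHom.range_eq_top.mpr phi_surj]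
  rw [Nat.card_congr (AddSubgroup.topEquiv : (⊤ : AddSubgroup (ZMod 2 × D)) ≃+ _).toEquiv]
  rw [Nat.card_prod, card_D]
  simp [ZMod.card]

/-- The Leech lattice of the definitions has an additive subgroup A containing twice the lattice, of index 2^12 in the lattice, all of whose vectors have squared length divisible by 32: the invariant quadratic form 'squared length over 16 modulo 2' on the lattice modulo twice the lattice (a 24-dimensional space over the field with two elements) vanishes on a 12-dimensional subspace, so it is of plus type. -/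
theorem result : ∃ A : AddSubgroup (Cfsg.GolayPt → ℤ), A ≤ Cfsg.leechLattice ∧ (∀ v ∈ Cfsg.leechLattice, (2 : ℤ) • v ∈ A) ∧ (A.addSubgroupOf Cfsg.leechLattice).index = 2 ^ 12 ∧ ∀ v ∈ A, (32 : ℤ) ∣ Cfsg.sqNorm v :=
  ⟨A, A_le, two_smul_mem, index_A, norm_A⟩

end Cfsg.Agent.S5553
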