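import Cfsg.Statements.S5588
import Cfsg.Agent.Lib.Compute.Y5Core

set_option autoImplicit false
open Cfsg

namespace Cfsg.Agent.S5588

open Cfsg.Agent.Lib.Compute.ToddCoxeterCore Cfsg.Agent.Lib.Compute.ToddCoxeterPresented
  Cfsg.Agent.Lib.Compute.Y5Core
open Cfsg.Agent.Lib.Compute.TC
open Cfsg.Spor.Bimonster (Gen)

/-- the spider of the statement -/
abbrev Sp : FreeGroup Gen :=
  (Cfsg.Spor.Bimonster.a * Cfsg.Spor.Bimonster.b1 * Cfsg.Spor.Bimonster.c1 * Cfsg.Spor.Bimonster.a *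
    Cfsg.Spor.Bimonster.b2 * Cfsg.Spor.Bimonster.c2 * Cfsg.Spor.Bimonster.a * Cfsg.Spor.Bimonster.b3 *
    Cfsg.Spor.Bimonster.c3) ^ 10

/-- the relators of the statement -/
abbrev RG : Set (FreeGroup Gen) := Cfsg.Spor.coxRelators Cfsg.Spor.Bimonster.edges ∪ {r' | r' ∈ [Sp]}

/-- the group of the statement -/
abbrev GG := PresentedGroup RG

/-- the arms of the diagram -/
def armL (i : Fin 3) : List Gen :=
  List.getD [[.b1, .c1, .d1, .e1, .f1], [.b2, .c2, .d2, .e2, .f2], [.b3, .c3, .d3, .e3, .f3]] i []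

/-- the letters of P in the diagram: long arm `i`, medium arm `j`, short arm `k` -/
def mS (i j k : Fin 3) (x : Fin 11) : Gen :=
  List.getD [(armL j).getD 2 .a, (armL j).getD 1 .a, (armL j).getD 0 .a, .a,
    (armL i).getD 0 .a, (armL i).getD 1 .a, (armL i).getD 2 .a, (armL i).getD 3 .a, (armL i).getD 4 .a,
    (armL k).getD 0 .a, (armL k).getD 1 .a] x .a

/-- the spider of P -/
def spP : FreeGroup (Fin 11) :=
  (FreeGroup.of 3 * FreeGroup.of 2 * FreeGroup.of 1 * FreeGroup.of 3 * FreeGroup.of 4 * FreeGroup.of 5 *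
    FreeGroup.of 3 * FreeGroup.of 9 * FreeGroup.of 10) ^ 10

theorem relsG : ∀ i j k : Fin 3, i ≠ j → j ≠ k → i ≠ k → ∀ r ∈ Y5A.D.rs,
    r = spP ∨ FreeGroup.map (mS i j k) r ∈ coxList Cfsg.Spor.Bimonster.edges := by decide +kernel

/-- Relations of P hold in the group of the statement, given the image of the spider. -/
theorem psi (i j k : Fin 3) (hij : i ≠ j) (hjk : j ≠ k) (hik : i ≠ k)
    (hsp : PresentedGroup.mk RG (FreeGroup.map (mS i j k) spP) = 1) (w : FreeGroup (Fin 11))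
    (hw : PresentedGroup.mk RP w = 1) : PresentedGroup.mk RG (FreeGroup.map (mS i j k) w) = 1 := by
  have hf : (FreeGroup.lift (fun x => (PresentedGroup.of (mS i j k x) : GG))) =
      (PresentedGroup.mk RG).comp (FreeGroup.map (mS i j k)) := by
    ext x
    simp [PresentedGroup.of]
  have hrel : ∀ r ∈ RP, FreeGroup.lift (fun x => (PresentedGroup.of (mS i j k x) : GG)) r = 1 := by
    intro r hr
    rw [hf]
    rcases relsG i j k hij hjk hik r ((Y5A.hR r).1 hr) with rfl | h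
    · exact hsp
    · exact PresentedGroup.one_of_mem ((mem_coxR _ [Sp] _).2 (List.mem_append_left _ h))
  let ψ : P →* GG := PresentedGroup.toGroup hrel
  have h1 : ψ (PresentedGroup.mk RP w) =
      FreeGroup.lift (fun x => (PresentedGroup.of (mS i j k x) : GG)) w := rfl
  rw [hw, map_one, hf] at h1
  exact h1.symm

/-- the spider with the arms in the order `p, q, r` -/
def spW (p q r : Fin 3) : FreeGroup Gen :=
  (Cfsg.Spor.Bimonster.a * FreeGroup.of ((armL p).getD 0 .a) * FreeGroup.of ((armL p).getD 1 .a) *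
    Cfsg.Spor.Bimonster.a * FreeGroup.of ((armL q).getD 0 .a) * FreeGroup.of ((armL q).getD 1 .a) *
    Cfsg.Spor.Bimonster.a * FreeGroup.of ((armL r).getD 0 .a) * FreeGroup.of ((armL r).getD 1 .a)) ^ 10

theorem spP_map : ∀ i j k : Fin 3, FreeGroup.map (mS i j k) spP = spW j i k := by decide +kernel

theorem soW_map : ∀ i j k : Fin 3, FreeGroup.map (mS i j k) soW = spW i j k := by decide +kernel

theorem rot_one {G : Type*} [Group G] (u v : G) (n : ℕ) (h : (u * v) ^ n = 1) : (v * u) ^ n = 1 := by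
  have h1 : (u⁻¹ * (u * v) * u⁻¹⁻¹) ^ n = u⁻¹ * (u * v) ^ n * u⁻¹⁻¹ := conj_pow
  rw [h] at h1
  simp only [mul_one, inv_inv, inv_mul_cancel, inv_mul_cancel_left] at h1
  exact h1

theorem rot9 {G : Type*} [Group G] (x1 x2 x3 x4 x5 x6 x7 x8 x9 : G)
    (h : (x1 * x2 * x3 * x4 * x5 * x6 * x7 * x8 * x9) ^ 10 = 1) :
    (x4 * x5 * x6 * x7 * x8 * x9 * x1 * x2 * x3) ^ 10 = 1 := by
  have h1 := rot_one (x1 * x2 * x3) (x4 * x5 * x6 * x7 * x8 * x9) 10 (by simpa only [mul_assoc] using h)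
  simpa only [mul_assoc] using h1

theorem rotS (p q r : Fin 3) (h : PresentedGroup.mk RG (spW p q r) = 1) :
    PresentedGroup.mk RG (spW q r p) = 1 := by
  simp only [spW, map_pow, map_mul] at h ⊢
  exact rot9 _ _ _ _ _ _ _ _ _ h

theorem s012 : PresentedGroup.mk RG (spW 0 1 2) = 1 := by
  have h : spW 0 1 2 = Sp := by decide +kernel
  rw [h]
  exact PresentedGroup.one_of_mem (Or.inr (by simp))

theorem s120 : PresentedGroup.mk RG (spW 1 2 0) = 1 := rotS _ _ _ s012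

theorem s201 : PresentedGroup.mk RG (spW 2 0 1) = 1 := rotS _ _ _ s120

theorem s102 : PresentedGroup.mk RG (spW 1 0 2) = 1 := by
  have h := psi 1 0 2 (by decide) (by decide) (by decide) (by rw [spP_map]; exact s012) soW soW_one
  rw [soW_map] at h
  exact h

theorem s021 : PresentedGroup.mk RG (spW 0 2 1) = 1 := rotS _ _ _ s102

theorem s210 : PresentedGroup.mk RG (spW 2 1 0) = 1 := rotS _ _ _ s021

/-- The relation of the end node of the long arm `i`. -/
theorem endRel (i j k : Fin 3) (hij : i ≠ j) (hjk : j ≠ k) (hik : i ≠ k)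
    (hs : PresentedGroup.mk RG (spW j i k) = 1) :
    PresentedGroup.mk RG (FreeGroup.map (mS i j k) rW) = 1 :=
  psi i j k hij hjk hik (by rw [spP_map]; exact hs) rW rW_one

theorem rW_map1 : FreeGroup.map (mS 0 1 2) rW = Cfsg.Spor.Bimonster.f1 * (((Cfsg.Spor.Bimonster.a * Cfsg.Spor.Bimonster.b1 * Cfsg.Spor.Bimonster.b2 * Cfsg.Spor.Bimonster.b3 * Cfsg.Spor.Bimonster.c1 * Cfsg.Spor.Bimonster.c2 * Cfsg.Spor.Bimonster.d1) ^ 9)⁻¹) := by decide +kernel

theorem rW_map2 : FreeGroup.map (mS 0 2 1) rW = Cfsg.Spor.Bimonster.f1 * (((Cfsg.Spor.Bimonster.a * Cfsg.Spor.Bimonster.b1 * Cfsg.Spor.Bimonster.b3 * Cfsg.Spor.Bimonster.b2 * Cfsg.Spor.Bimonster.c1 * Cfsg.Spor.Bimonster.c3 * Cfsg.Spor.Bimonster.d1) ^ 9)⁻¹) := by decide +kernel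

theorem rW_map3 : FreeGroup.map (mS 1 0 2) rW = Cfsg.Spor.Bimonster.f2 * (((Cfsg.Spor.Bimonster.a * Cfsg.Spor.Bimonster.b2 * Cfsg.Spor.Bimonster.b1 * Cfsg.Spor.Bimonster.b3 * Cfsg.Spor.Bimonster.c2 * Cfsg.Spor.Bimonster.c1 * Cfsg.Spor.Bimonster.d2) ^ 9)⁻¹) := by decide +kernel

theorem rW_map4 : FreeGroup.map (mS 1 2 0) rW = Cfsg.Spor.Bimonster.f2 * (((Cfsg.Spor.Bimonster.a * Cfsg.Spor.Bimonster.b2 * Cfsg.Spor.Bimonster.b3 * Cfsg.Spor.Bimonster.b1 * Cfsg.Spor.Bimonster.c2 * Cfsg.Spor.Bimonster.c3 * Cfsg.Spor.Bimonster.d2) ^ 9)⁻¹) := by decide +kernel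

theorem rW_map5 : FreeGroup.map (mS 2 0 1) rW = Cfsg.Spor.Bimonster.f3 * (((Cfsg.Spor.Bimonster.a * Cfsg.Spor.Bimonster.b3 * Cfsg.Spor.Bimonster.b1 * Cfsg.Spor.Bimonster.b2 * Cfsg.Spor.Bimonster.c3 * Cfsg.Spor.Bimonster.c1 * Cfsg.Spor.Bimonster.d3) ^ 9)⁻¹) := by decide +kernel

theorem rW_map6 : FreeGroup.map (mS 2 1 0) rW = Cfsg.Spor.Bimonster.f3 * (((Cfsg.Spor.Bimonster.a * Cfsg.Spor.Bimonster.b3 * Cfsg.Spor.Bimonster.b2 * Cfsg.Spor.Bimonster.b1 * Cfsg.Spor.Bimonster.c3 * Cfsg.Spor.Bimonster.c2 * Cfsg.Spor.Bimonster.d3) ^ 9)⁻¹) := by decide +kernel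

/-- In the group presented by the sixteen involutions of the Y₅₅₅ Coxeter diagram subject only to the Coxeter relations and the single spider relation (a b₁ c₁ a b₂ c₂ a b₃ c₃)^10 = 1, each of the further relators used in the definitions' presentation of the Bimonster (each end node equals the ninth power of the Coxeter element of a sub-diagram of type E₇) already holds. Equivalently, the Y₅₅₅ diagram with the spider relation alone presents the Bimonster. -/
theorem result :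
    ∀ r ∈ Cfsg.Spor.Bimonster.extra,
      (PresentedGroup.mk (Cfsg.Spor.coxRelators Cfsg.Spor.Bimonster.edges ∪ {r' | r' ∈ [(Cfsg.Spor.Bimonster.a * Cfsg.Spor.Bimonster.b1 * Cfsg.Spor.Bimonster.c1 * Cfsg.Spor.Bimonster.a * Cfsg.Spor.Bimonster.b2 * Cfsg.Spor.Bimonster.c2 * Cfsg.Spor.Bimonster.a * Cfsg.Spor.Bimonster.b3 * Cfsg.Spor.Bimonster.c3) ^ 10]}) r) = 1 := by
  intro r hr
  simp only [Cfsg.Spor.Bimonster.extra, List.mem_cons, List.not_mem_nil, or_false] at hr
  rcases hr with rfl | rfl | rfl | rfl | rfl | rfl | rfl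
  · exact PresentedGroup.one_of_mem (Or.inr (by simp))
  · rw [← rW_map1]; exact endRel 0 1 2 (by decide) (by decide) (by decide) s102
  · rw [← rW_map2]; exact endRel 0 2 1 (by decide) (by decide) (by decide) s201
  · rw [← rW_map3]; exact endRel 1 0 2 (by decide) (by decide) (by decide) s012
  · rw [← rW_map4]; exact endRel 1 2 0 (by decide) (by decide) (by decide) s210
  · rw [← rW_map5]; exact endRel 2 0 1 (by decide) (by decide) (by decide) s021
  · rw [← rW_map6]; exact endRel 2 1 0 (by decide) (by decide) (by decide) s120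

end Cfsg.Agent.S5588
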