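import Cfsg.Statements.S5594
import Mathlib
import Cfsg.Agent.Lib.Sporadic.LeechAut
-- import your own Cfsg.Agent.* helpers here

set_option autoImplicit false
open Cfsg

namespace Cfsg.Agent.S5594

open Cfsg.Agent.Lib.Sporadic.GolayCore Cfsg.Agent.Lib.Sporadic.M24Tbl Cfsg.Agent.Lib.Sporadic.LeechBasic
  Cfsg.Agent.Lib.Sporadic.LeechNorm Cfsg.Agent.Lib.Sporadic.LeechFacts Cfsg.Agent.Lib.Sporadic.LeechAut

/-- A fixed-point-free involution of `M24` swapping a dodecad and its complement. -/
def T : List ℕ := [23, 10, 20, 5, 11, 3, 19, 14, 12, 15, 1, 4, 8, 16, 7, 9, 13, 21, 22, 6, 2, 17, 18, 0]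

def dMask : ℕ := 7906737

theorem hT : ValidTbl T := by decide

theorem hT24 : m24Check T = true := by decide +kernel

noncomputable def σ : Equiv.Perm GolayPt := tblPerm T hT

theorem hσ : σ ∈ M24 := tblPerm_mem_M24 hT hT24

theorem dMask_mem : dMask ∈ codeList := by decide +kernel

theorem hc : ofMask dMask ∈ supports (golayCode : Set (GolayPt → ZMod 2)) :=
  (ofMask_mem_supports_iff (codeList_lt dMask_mem)).mpr dMask_mem

theorem h_inv : ∀ p : GolayPt, tblFn T (tblFn T p) = p := by decide

theorem h_sw : ∀ p : GolayPt, dMask.testBit (idx (tblFn T p)) = !(dMask.testBit (idx p)) := by decide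

theorem σ_σ (p : GolayPt) : σ (σ p) = p := h_inv p

theorem σ_symm (p : GolayPt) : σ.symm p = σ p := by
  rw [Equiv.symm_apply_eq, σ_σ]

theorem mem_c_σ (p : GolayPt) : σ p ∈ ofMask dMask ↔ p ∉ ofMask dMask := by
  rw [mem_ofMask, mem_ofMask]
  show dMask.testBit (idx (tblFn T p)) = true ↔ ¬ dMask.testBit (idx p) = true
  rw [h_sw]
  simp

/-- The square root of negation. -/
noncomputable def g : Co0 := signCo0 (ofMask dMask) hc * permCo0 σ hσ

theorem g_mul_g : g * g = negCo0 := by
  apply Subtype.ext
  apply Equiv.ext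
  intro v
  apply Subtype.ext
  funext i
  show signChange (ofMask dMask) (permV σ (signChange (ofMask dMask) (permV σ (v : GolayPt → ℤ)))) i
    = -(v : GolayPt → ℤ) i
  simp only [signChange, permV, σ_symm, σ_σ]
  by_cases h : i ∈ ofMask dMask
  · have h' : σ i ∉ ofMask dMask := fun h2 => (mem_c_σ i).mp h2 h
    rw [if_pos h, if_neg h']
  · have h' : σ i ∈ ofMask dMask := (mem_c_σ i).mpr h
    rw [if_neg h, if_pos h']

/-- The automorphism group of the Leech lattice contains the negation map, and the subgroup of order 2 it generates has no complement: the automorphism group is a non-split extension of its quotient by that subgroup (it is not the direct product of a group of order 2 with the first Conway group). -/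
theorem result :
    ∃ n : ↥Cfsg.Co0, (∀ v : ↥Cfsg.leechLattice, ((n • v : ↥Cfsg.leechLattice) : Cfsg.GolayPt → ℤ) = -(v : Cfsg.GolayPt → ℤ)) ∧
    ∀ K : Subgroup ↥Cfsg.Co0, ¬ (Subgroup.zpowers n).IsComplement' K := by
  refine ⟨negCo0, coe_negCo0_smul, ?_⟩
  intro K hK
  have hn2 : negCo0 * negCo0 = 1 := by
    apply Subtype.ext
    apply Equiv.ext
    intro v
    apply Subtype.ext
    funext i
    show - - (v : GolayPt → ℤ) i = (v : GolayPt → ℤ) i
    exact neg_neg _
  -- decompose `g`
  obtain ⟨⟨⟨z, hz⟩, ⟨k, hk⟩⟩, hzk⟩ := hK.2 g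
  simp only at hzk
  have hzc : z ∈ Subgroup.center Co0 := by
    obtain ⟨e, rfl⟩ := hz
    exact (Subgroup.center Co0).zpow_mem negCo0_mem_center e
  have hz2 : z * z = 1 := by
    obtain ⟨e, rfl⟩ := hz
    show (negCo0 ^ e) * (negCo0 ^ e) = 1
    rw [← zpow_add, ← two_mul, zpow_mul, zpow_two, hn2, one_zpow]
  have hkk : k * k = negCo0 := by
    rw [← g_mul_g, ← hzk]
    have hc' := Subgroup.mem_center_iff.mp hzc k
    calc k * k = (z * z) * (k * k) := by rw [hz2, one_mul]
      _ = z * (z * k) * k := by group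
      _ = z * (k * z) * k := by rw [← hc']
      _ = z * k * (z * k) := by group
  have hmem : negCo0 ∈ K := by
    rw [← hkk]; exact K.mul_mem hk hk
  have hdisj := hK.disjoint
  have : negCo0 = 1 := by
    have h := Subgroup.disjoint_def.mp hdisj (Subgroup.mem_zpowers negCo0) hmem
    exact h
  exact negCo0_ne_one this

end Cfsg.Agent.S5594
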