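import Cfsg.Statements.S5599
import Mathlib
import Cfsg.Agent.Lib.Sporadic.M24Classes

set_option autoImplicit false
open scoped Pointwise
open Cfsg

namespace Cfsg.Agent.S5599

open Cfsg.Agent.Lib.Sporadic.GolayCore Cfsg.Agent.Lib.Sporadic.M24Tbl
open Cfsg.Agent.Lib.Sporadic.M24Chain Cfsg.Agent.Lib.Sporadic.M24Basic
open Cfsg.Agent.Lib.Sporadic.M24Act Cfsg.Agent.Lib.Sporadic.M24Lists
open Cfsg.Agent.Lib.Sporadic.M24Orbit Cfsg.Agent.Lib.Sporadic.M24Count
open Cfsg.Agent.Lib.Sporadic.M24Sextet Cfsg.Agent.Lib.Sporadic.M24Fast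
open Cfsg.Agent.Lib.Sporadic.M24Classes
open scoped Pointwise

/-- In the automorphism group of the length-24 code, the two-point Mathieu group (permutations of the code's group fixing the extra point and the residue 0) has index 2 in the setwise stabiliser of that pair of points, and an element of the code's group interchanging the two points normalises the two-point group and induces on it, by conjugation, an automorphism that is not inner. -/
theorem result (g : Equiv.Perm Cfsg.GolayPt) (hg : g ∈ Cfsg.M24) (h₁ : g none = some 0) (h₂ : g (some 0) = none) : Cfsg.Spor.M22.relIndex (Cfsg.M24 ⊓ MulAction.stabilizer (Equiv.Perm Cfsg.GolayPt) ({none, some 0} : Finset Cfsg.GolayPt)) = 2 ∧ (∀ x ∈ Cfsg.Spor.M22, g * x * g⁻¹ ∈ Cfsg.Spor.M22) ∧ ¬ ∃ h ∈ Cfsg.Spor.M22, ∀ x ∈ Cfsg.Spor.M22, g * x * g⁻¹ = h * x * h⁻¹ := by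
  have hmem : ∀ x : Equiv.Perm Cfsg.GolayPt, x ∈ Cfsg.Spor.M22 ↔ x ∈ Cfsg.M24 ∧ x none = none ∧ x (some 0) = some 0 := by
    intro x
    simp only [Cfsg.Spor.M22, Cfsg.Spor.M23, Subgroup.mem_inf, MulAction.mem_stabilizer_iff, Equiv.Perm.smul_def]
    tauto
  have hab : (none : Cfsg.GolayPt) ≠ some 0 := by simp
  have hinvg1 : g⁻¹ (some 0) = none := by rw [Equiv.Perm.inv_eq_iff_eq]; exact h₁.symm
  have hinvg2 : g⁻¹ none = some 0 := by rw [Equiv.Perm.inv_eq_iff_eq]; exact h₂.symm
  have hset : g • ({none, some 0} : Finset Cfsg.GolayPt) = {none, some 0} := by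
    rw [Finset.smul_finset_insert, Finset.smul_finset_singleton]
    show ({g none, g (some 0)} : Finset Cfsg.GolayPt) = _
    rw [h₁, h₂]
    exact Finset.pair_comm _ _
  refine ⟨?_, ?_, ?_⟩
  · unfold Subgroup.relIndex
    rw [Subgroup.index_eq_two_iff]
    refine ⟨⟨g, hg, hset⟩, ?_⟩
    rintro ⟨b, hb1, hb2⟩
    have hb2' : b • ({none, some 0} : Finset Cfsg.GolayPt) = {none, some 0} := hb2
    have hb3 : b none = none ∨ b none = some 0 := by
      have : b none ∈ b • ({none, some 0} : Finset Cfsg.GolayPt) :=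
        Finset.smul_mem_smul_finset (a := b) (by simp)
      rw [hb2'] at this
      simpa using this
    have hb4 : b (some 0) = none ∨ b (some 0) = some 0 := by
      have : b (some 0) ∈ b • ({none, some 0} : Finset Cfsg.GolayPt) :=
        Finset.smul_mem_smul_finset (a := b) (by simp)
      rw [hb2'] at this
      simpa using this
    simp only [Subgroup.mem_subgroupOf, hmem, Subgroup.coe_mul]
    simp only [Equiv.Perm.mul_apply, h₁, h₂]
    rcases hb3 with h3 | h3
    · have h4 : b (some 0) = some 0 := by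
        rcases hb4 with h4 | h4
        · exact absurd (b.injective (h3.trans h4.symm)) hab
        · exact h4
      right
      exact ⟨⟨hb1, h3, h4⟩, fun h => hab (by have := h.2.1; rw [h4] at this; exact this.symm)⟩
    · have h4 : b (some 0) = none := by
        rcases hb4 with h4 | h4
        · exact h4
        · exact absurd (b.injective (h3.trans h4.symm)) hab
      left
      exact ⟨⟨M24.mul_mem hb1 hg, h4, h3⟩, fun h => hab (by have := h.2.1; rw [h3] at this; exact this.symm)⟩
  · intro x hx
    obtain ⟨h1, h2, h3⟩ := (hmem x).1 hx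
    refine (hmem _).2 ⟨M24.mul_mem (M24.mul_mem hg h1) (M24.inv_mem hg), ?_, ?_⟩
    · simp only [Equiv.Perm.mul_apply, hinvg2, h3, h₂]
    · simp only [Equiv.Perm.mul_apply, hinvg1, h2, h₁]
  · rintro ⟨h, hh, hc⟩
    obtain ⟨h1, h2, h3⟩ := (hmem h).1 hh
    set c := h⁻¹ * g with hcdef
    have hcm : c ∈ M24 := M24.mul_mem (M24.inv_mem h1) hg
    have hcomm : ∀ x ∈ Cfsg.Spor.M22, c * x = x * c := by
      intro x hx
      have h4 := hc x hx
      have h5 : g * x = h * x * h⁻¹ * g := by
        rw [← h4]
        group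
      rw [hcdef, mul_assoc, h5]
      group
    have hc1 : c none = some 0 := by
      show h⁻¹ (g none) = some 0
      rw [h₁, Equiv.Perm.inv_eq_iff_eq, h3]
    have hc2 : c (some 0) = none := by
      show h⁻¹ (g (some 0)) = none
      rw [h₂, Equiv.Perm.inv_eq_iff_eq, h2]
    have hfix : ∀ y : Cfsg.GolayPt, y ≠ none → y ≠ some 0 → c y = y := by
      intro y hy1 hy2
      by_contra hne
      set z := c y with hz
      have hz1 : z ≠ none := fun e => hy2 (c.injective (e.trans hc2.symm))
      have hz2 : z ≠ some 0 := fun e => hy1 (c.injective (e.trans hc1.symm))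
      -- a fifth point
      obtain ⟨w, hw⟩ : ∃ w : Cfsg.GolayPt, w ∉ ({none, some 0, y, z} : Finset Cfsg.GolayPt) := by
        by_contra hall
        have hall' : ∀ a : Cfsg.GolayPt, a ∈ ({none, some 0, y, z} : Finset Cfsg.GolayPt) :=
          fun a => by_contra fun h => hall ⟨a, h⟩
        have : (Finset.univ : Finset Cfsg.GolayPt) ⊆ {none, some 0, y, z} := fun a _ => hall' a
        have h6 := Finset.card_le_card this
        have h7 : (Finset.univ : Finset Cfsg.GolayPt).card = 24 := rfl
        have h8 : ({none, some 0, y, z} : Finset Cfsg.GolayPt).card ≤ 4 := Finset.card_le_four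
        omega
      simp only [Finset.mem_insert, Finset.mem_singleton, not_or] at hw
      obtain ⟨hw1, hw2, hw3, hw4⟩ := hw
      obtain ⟨x, hx, hxL⟩ := exists_map_lists (L := [none, some 0, y, z]) (L' := [none, some 0, y, w])
        (by simp; tauto) (by simp; tauto) rfl (by norm_num)
      simp only [List.map_cons, List.map_nil, List.cons.injEq, and_true] at hxL
      obtain ⟨x1, x2, x3, x4⟩ := hxL
      have hx22 : x ∈ Cfsg.Spor.M22 := (hmem x).2 ⟨hx, x1, x2⟩
      have h9 := congrFun (congrArg DFunLike.coe (hcomm x hx22)) y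
      simp only [Equiv.Perm.mul_apply] at h9
      rw [x3, ← hz, x4] at h9
      exact hw4 h9.symm
    -- an octad through `none` missing `some 0`
    have ho : ofMask 8394986 ∈ octads := ofMask_mem_octads_of_fOct (by decide +kernel)
    have hn : (none : Cfsg.GolayPt) ∈ ofMask 8394986 := by decide +kernel
    have hs : (some 0 : Cfsg.GolayPt) ∉ ofMask 8394986 := by decide +kernel
    have hco : c • ofMask 8394986 ∈ octads := smul_mem_octads hcm ho
    have h10 : c • ofMask 8394986 = ofMask 8394986 := by
      apply eq_of_octads_of_five hco ho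
      have h11 : (ofMask 8394986).erase none ⊆ (c • ofMask 8394986) ∩ ofMask 8394986 := by
        intro q hq
        have hq1 := Finset.mem_erase.1 hq
        refine Finset.mem_inter.2 ⟨?_, hq1.2⟩
        have hq2 : q ≠ some 0 := fun e => hs (e ▸ hq1.2)
        rw [Finset.mem_smul_finset]
        exact ⟨q, hq1.2, hfix q hq1.1 hq2⟩
      have h12 := Finset.card_le_card h11
      rw [Finset.card_erase_of_mem hn, ho.2] at h12
      omega
    have h13 : c none ∈ c • ofMask 8394986 := Finset.mem_smul_finset.2 ⟨none, hn, rfl⟩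
    rw [h10, hc1] at h13
    exact hs h13

end Cfsg.Agent.S5599
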