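import Cfsg.Statements.S5601
import Cfsg.Agent.Lib.Compute.M24ClassFacts

set_option autoImplicit false
open scoped Pointwise
open Cfsg

namespace Cfsg.Agent.S5601

open Cfsg.Agent.Lib.Compute.M24

abbrev Pm := Equiv.Perm Cfsg.GolayPt

theorem exists_gen (X : Subgroup ↥Cfsg.M24) (h : Nat.card X = 3) :
    ∃ x : ↥Cfsg.M24, orderOf (x : Pm) = 3 ∧ X = Subgroup.zpowers x := by
  haveI : Fact (Nat.Prime 3) := ⟨Nat.prime_three⟩
  haveI : Finite X := Nat.finite_of_card_ne_zero (by omega)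
  haveI : Nontrivial X := Finite.one_lt_card_iff_nontrivial.1 (by omega)
  obtain ⟨a, ha⟩ := exists_ne (1 : X)
  have h1 : orderOf a ∣ 3 := h ▸ orderOf_dvd_natCard a
  have h2 : orderOf a = 3 := by
    rcases (Nat.dvd_prime Nat.prime_three).1 h1 with h3 | h3
    · exact absurd (orderOf_eq_one_iff.1 h3) ha
    · exact h3
  have h4 : orderOf (a : ↥Cfsg.M24) = 3 := by
    rw [Subgroup.orderOf_coe, h2]
  refine ⟨a, by rw [Subgroup.orderOf_coe, h4], ?_⟩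
  symm
  apply Subgroup.eq_of_le_of_card_ge
  · rw [Subgroup.zpowers_le]
    exact a.2
  · rw [h, Nat.card_zpowers, h4]

theorem fix_eq (x : ↥Cfsg.M24) :
    {p : Cfsg.GolayPt | ∀ y ∈ Subgroup.zpowers x, ((y : ↥Cfsg.M24) : Pm) p = p}.ncard =
      (Finset.univ.filter fun p => (x : Pm) p = p).card := by
  classical
  have : {p : Cfsg.GolayPt | ∀ y ∈ Subgroup.zpowers x, ((y : ↥Cfsg.M24) : Pm) p = p} =
      ((Finset.univ.filter fun p => (x : Pm) p = p : Finset Cfsg.GolayPt) : Set Cfsg.GolayPt) := by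
    ext p
    simp only [Set.mem_setOf_eq, Finset.coe_filter, Finset.mem_univ, true_and]
    constructor
    · intro h
      exact h x (Subgroup.mem_zpowers x)
    · intro h y hy
      obtain ⟨n, rfl⟩ := Subgroup.mem_zpowers_iff.1 hy
      simp only [Subgroup.coe_zpow]
      exact Equiv.Perm.zpow_apply_eq_self_of_apply_eq_self h n
  rw [this, Set.ncard_coe_finset]

theorem card_zp {x : ↥Cfsg.M24} (h : orderOf (x : Pm) = 3) : Nat.card (Subgroup.zpowers x) = 3 := by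
  rw [Nat.card_zpowers, ← Subgroup.orderOf_coe, h]

theorem conj_zp {x y : ↥Cfsg.M24} {t k l : Pm} (hk : k ∈ Cfsg.M24) (hl : l ∈ Cfsg.M24)
    (hx : k * t * k⁻¹ = x) (hy : l * t * l⁻¹ = y) :
    ∃ m : ↥Cfsg.M24, MulAut.conj m • Subgroup.zpowers x = Subgroup.zpowers y := by
  refine ⟨⟨l * k⁻¹, Cfsg.M24.mul_mem hl (Cfsg.M24.inv_mem hk)⟩, ?_⟩
  rw [Subgroup.pointwise_smul_def]
  have := MonoidHom.map_zpowers (MulDistribMulAction.toMonoidEnd (MulAut ↥Cfsg.M24) ↥Cfsg.M24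
    (MulAut.conj (⟨l * k⁻¹, Cfsg.M24.mul_mem hl (Cfsg.M24.inv_mem hk)⟩ : ↥Cfsg.M24))) x
  refine Eq.trans this ?_
  congr 1
  apply Subtype.ext
  show (l * k⁻¹) * (x : Pm) * (l * k⁻¹)⁻¹ = y
  rw [← hx, ← hy]
  group


/-- The group of the length-24 code has exactly two conjugacy classes of subgroups of order 3: a subgroup of order 3 fixes either exactly 6 of the 24 points or none of them, both cases occur, and two subgroups of order 3 with the same number of fixed points are conjugate. -/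
theorem result : (∀ X : Subgroup ↥Cfsg.M24, Nat.card X = 3 → {p : Cfsg.GolayPt | ∀ x ∈ X, ((x : ↥Cfsg.M24) : Equiv.Perm Cfsg.GolayPt) p = p}.ncard = 6 ∨ {p : Cfsg.GolayPt | ∀ x ∈ X, ((x : ↥Cfsg.M24) : Equiv.Perm Cfsg.GolayPt) p = p}.ncard = 0) ∧ (∃ X : Subgroup ↥Cfsg.M24, Nat.card X = 3 ∧ {p : Cfsg.GolayPt | ∀ x ∈ X, ((x : ↥Cfsg.M24) : Equiv.Perm Cfsg.GolayPt) p = p}.ncard = 6) ∧ (∃ X : Subgroup ↥Cfsg.M24, Nat.card X = 3 ∧ {p : Cfsg.GolayPt | ∀ x ∈ X, ((x : ↥Cfsg.M24) : Equiv.Perm Cfsg.GolayPt) p = p}.ncard = 0) ∧ ∀ X Y : Subgroup ↥Cfsg.M24, Nat.card X = 3 → Nat.card Y = 3 → {p : Cfsg.GolayPt | ∀ x ∈ X, ((x : ↥Cfsg.M24) : Equiv.Perm Cfsg.GolayPt) p = p}.ncard = {p : Cfsg.GolayPt | ∀ x ∈ Y, ((x : ↥Cfsg.M24) : Equiv.Perm Cfsg.GolayPt) p = p}.ncard → ∃ k : ↥Cfsg.M24, MulAut.conj k • X = Y := by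
  refine ⟨?_, ⟨Subgroup.zpowers ⟨c6P, c6P_mem⟩, card_zp (orderOf_eq_three_of c6_cu c6_ne), ?_⟩,
    ⟨Subgroup.zpowers ⟨c0P, c0P_mem⟩, card_zp (orderOf_eq_three_of c0_cu c0_ne), ?_⟩, ?_⟩
  · intro X hX
    obtain ⟨x, hx, rfl⟩ := exists_gen X hX
    rw [fix_eq]
    rcases ord3_class' x.2 hx with ⟨-, h⟩ | ⟨-, h⟩
    · exact Or.inl h
    · exact Or.inr h
  · rw [fix_eq]
    exact card_fix_c6
  · rw [fix_eq]
    exact card_fix_c0
  · intro X Y hX hY hXY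
    obtain ⟨x, hx, rfl⟩ := exists_gen X hX
    obtain ⟨y, hy, rfl⟩ := exists_gen Y hY
    rw [fix_eq, fix_eq] at hXY
    rcases ord3_class' x.2 hx with ⟨⟨k, hk, hk'⟩, h⟩ | ⟨⟨k, hk, hk'⟩, h⟩ <;>
      rcases ord3_class' y.2 hy with ⟨⟨l, hl, hl'⟩, h'⟩ | ⟨⟨l, hl, hl'⟩, h'⟩
    · exact conj_zp hk hl hk' hl'
    · omega
    · omega
    · exact conj_zp hk hl hk' hl'

end Cfsg.Agent.S5601
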