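import Cfsg.Statements.S5608
import Cfsg.Agent.Lib.Compute.M24Commute

set_option autoImplicit false
open scoped Pointwise
open Cfsg

namespace Cfsg.Agent.S5608

open Cfsg.Agent.Lib.Compute.M24


/-- If an element of order 3 and an involution of the group of the length-24 code commute, then either the element of order 3 has exactly 6 fixed points and the involution exactly 8, or both are fixed-point-free. -/
theorem result (x s : Equiv.Perm Cfsg.GolayPt) (hx : x ∈ Cfsg.M24) (hs : s ∈ Cfsg.M24) (h₃ : orderOf x = 3) (h₂ : orderOf s = 2) (hc : Commute x s) : ((Finset.univ.filter fun p => x p = p).card = 6 ∧ (Finset.univ.filter fun p => s p = p).card = 8) ∨ ((Finset.univ.filter fun p => x p = p).card = 0 ∧ (Finset.univ.filter fun p => s p = p).card = 0) := by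
  have hinvx := cu_of_orderOf h₃
  rcases inv_class' hs h₂ with ⟨-, hs8⟩ | ⟨⟨l, hl, hsl⟩, hs0⟩ <;>
    rcases ord3_class' hx h₃ with ⟨⟨k, hk, hxk⟩, hx6⟩ | ⟨-, hx0⟩
  · exact Or.inl ⟨hx6, hs8⟩
  · exfalso
    classical
    have hfpf : ∀ p, x p ≠ p := (fpf_iff_card x).2 hx0
    have hcomm : ∀ p, x (s p) = s (x p) := fun p => by
      have := congrArg (fun f : Equiv.Perm Cfsg.GolayPt => f p) hc.eq
      simpa using this
    let f : Function.End {p : Cfsg.GolayPt // s p = p} := fun a =>
      ⟨x a.1, by rw [← hcomm, a.2]⟩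
    have hxxx : ∀ p, x (x (x p)) = p := fun p => by
      have := congrArg (fun f : Equiv.Perm Cfsg.GolayPt => f p) hinvx
      simpa using this
    have hf3 : f ^ 3 ^ 1 = 1 := by
      funext a
      apply Subtype.ext
      simp only [pow_one, pow_succ, pow_zero, one_mul, Function.End.mul_def, Function.comp_apply]
      exact hxxx a.1
    haveI : Fact (Nat.Prime 3) := ⟨Nat.prime_three⟩
    have hm := Equiv.Perm.card_fixedPoints_modEq hf3
    have h0 : Fintype.card (Function.fixedPoints f) = 0 := by
      rw [Fintype.card_eq_zero_iff]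
      refine ⟨fun a => ?_⟩
      have h1 : f a.1 = a.1 := a.2
      apply hfpf a.1.1
      exact congrArg Subtype.val h1
    have h8 : Fintype.card {p : Cfsg.GolayPt // s p = p} = 8 := by
      rw [Fintype.card_subtype]
      exact hs8
    rw [h0, h8] at hm
    exact absurd hm (by decide)
  · exfalso
    have hinvs := sq_of_orderOf h₂
    have hs0' : ∀ p, s p ≠ p := (fpf_iff_card s).2 hs0
    refine no_fpf_commuting_c6 (s := k⁻¹ * s * k)
      (M24.mul_mem (M24.mul_mem (M24.inv_mem hk) hs) hk) ?_ ?_ ?_
    · have : k⁻¹ * s * k * (k⁻¹ * s * k) = k⁻¹ * (s * s) * k := by group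
      rw [this, hinvs]
      group
    · have h1 : c6P = k⁻¹ * x * k := by rw [← hxk]; group
      have h2 : k⁻¹ * s * k * (k⁻¹ * x * k) = k⁻¹ * (s * x) * k := by group
      have h3 : k⁻¹ * x * k * (k⁻¹ * s * k) = k⁻¹ * (x * s) * k := by group
      rw [h1, h2, h3, hc.eq]
    · intro p h
      apply hs0' (k p)
      have h1 := congrArg k h
      simpa using h1
  · exact Or.inr ⟨hx0, hs0⟩

end Cfsg.Agent.S5608
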