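import Cfsg.Statements.S5609
import Cfsg.Agent.Lib.Sporadic.M24Octad
import Mathlib

set_option autoImplicit false
open scoped Pointwise
open Cfsg

namespace Cfsg.Agent.S5609

open Cfsg.Agent.Lib.Sporadic.GolayCore Cfsg.Agent.Lib.Sporadic.M24Tbl
open Cfsg.Agent.Lib.Sporadic.M24Chain Cfsg.Agent.Lib.Sporadic.M24Basic
open Cfsg.Agent.Lib.Sporadic.M24Act Cfsg.Agent.Lib.Sporadic.M24Lists
open Cfsg.Agent.Lib.Sporadic.M24Orbit Cfsg.Agent.Lib.Sporadic.M24Count
open Cfsg.Agent.Lib.Sporadic.M24Octad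

/-- Cardinality of an intersection of mask sets. -/
private lemma card_inter_ofMask {a b : ℕ} (ha : a < 2 ^ 24) (hb : b < 2 ^ 24) :
    (ofMask a ∩ ofMask b).card = popc (a &&& b) := by
  rw [card_eq_popc, toMask_inter, toMask_ofMask ha, toMask_ofMask hb]

private lemma disjoint_iff_card {s t : Finset GolayPt} : Disjoint s t ↔ (s ∩ t).card = 0 := by
  rw [Finset.card_eq_zero, Finset.disjoint_iff_inter_eq_empty]

private lemma disjoint_smul {s t : Finset GolayPt} (u : Equiv.Perm GolayPt) :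
    Disjoint (u • s) (u • t) ↔ Disjoint s t := by
  rw [disjoint_iff_card, disjoint_iff_card, card_smul_inter]

/-- Pairs of octads with the intersection size of a reference pair are images of that pair. -/
private lemma pair_transport {o o' : Finset GolayPt} {r : ℕ} (ho : o ∈ octads) (ho' : o' ∈ octads)
    (hr : ofMask r ∈ octads)
    (h : (o ∩ o').card = (ofMask octad0 ∩ ofMask r).card) :
    ∃ u ∈ M24, u • ofMask octad0 = o ∧ u • ofMask r = o' := by
  obtain ⟨k, hk, rfl⟩ := exists_smul_octad octad0_mem ho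
  have hc : (ofMask octad0 ∩ k⁻¹ • o').card = (ofMask octad0 ∩ ofMask r).card := by
    rw [← h, ← card_smul_inter k, smul_inv_smul]
  obtain ⟨g, hg, h1, h2⟩ := octad_orbit octad0_mem
    (smul_mem_octads (M24.inv_mem hk) ho') hr hc
  refine ⟨k * g⁻¹, M24.mul_mem hk (M24.inv_mem hg), ?_, ?_⟩
  · rw [mul_smul, inv_smul_eq_iff.2 h1.symm]
  · rw [mul_smul, inv_smul_eq_iff.2 h2.symm, smul_inv_smul]

private lemma o4 : ofMask 5279 ∈ octads := isOctad_ofMask (by decide +kernel)
private lemma o2 : ofMask 15777 ∈ octads := isOctad_ofMask (by decide +kernel)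
private lemma ox4 : ofMask 4038912 ∈ octads := isOctad_ofMask (by decide +kernel)
private lemma oy1 : ofMask 337856 ∈ octads := isOctad_ofMask (by decide +kernel)
private lemma oy2 : ofMask 6832158 ∈ octads := isOctad_ofMask (by decide +kernel)

private lemma dj {a b : ℕ} (ha : a < 2 ^ 24) (hb : b < 2 ^ 24) (h : popc (a &&& b) = 0) :
    Disjoint (ofMask a) (ofMask b) := by
  rw [disjoint_iff_card, card_inter_ofMask ha hb, h]

private lemma case4 {o o' : Finset GolayPt} (ho : o ∈ octads) (ho' : o' ∈ octads)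
    (h : (o ∩ o').card = 4) : ∃ x ∈ octads, Disjoint o x ∧ Disjoint x o' := by
  obtain ⟨u, hu, rfl, rfl⟩ := pair_transport (r := 5279) ho ho' o4 (by
    rw [h, card_inter_ofMask (by decide +kernel) (by decide +kernel)]; decide +kernel)
  refine ⟨u • ofMask 4038912, smul_mem_octads hu ox4, ?_, ?_⟩
  · rw [disjoint_smul]; exact dj (by decide +kernel) (by decide +kernel) (by decide +kernel)
  · rw [disjoint_smul]; exact dj (by decide +kernel) (by decide +kernel) (by decide +kernel)

private lemma case2a {o o' : Finset GolayPt} (ho : o ∈ octads) (ho' : o' ∈ octads)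
    (h : (o ∩ o').card = 2) : ∃ x ∈ octads, ∃ y ∈ octads, Disjoint o x ∧ Disjoint x y ∧ Disjoint y o' := by
  obtain ⟨u, hu, rfl, rfl⟩ := pair_transport (r := 15777) ho ho' o2 (by
    rw [h, card_inter_ofMask (by decide +kernel) (by decide +kernel)]; decide +kernel)
  refine ⟨u • ofMask 337856, smul_mem_octads hu oy1, u • ofMask 6832158, smul_mem_octads hu oy2, ?_, ?_, ?_⟩
  · rw [disjoint_smul]; exact dj (by decide +kernel) (by decide +kernel) (by decide +kernel)
  · rw [disjoint_smul]; exact dj (by decide +kernel) (by decide +kernel) (by decide +kernel)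
  · rw [disjoint_smul]; exact dj (by decide +kernel) (by decide +kernel) (by decide +kernel)

private lemma nocommon : codeAll (fun m => popc m != 8 || popc (m &&& octad0) != 0 ||
    popc (m &&& 15777) != 0) = true := by decide +kernel

private lemma case2b {o o' : Finset GolayPt} (ho : o ∈ octads) (ho' : o' ∈ octads)
    (h : (o ∩ o').card = 2) {x : Finset GolayPt} (hx : x ∈ octads) (h1 : Disjoint o x)
    (h2 : Disjoint x o') : False := by
  obtain ⟨u, hu, rfl, rfl⟩ := pair_transport (r := 15777) ho ho' o2 (by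
    rw [h, card_inter_ofMask (by decide +kernel) (by decide +kernel)]; decide +kernel)
  have hx' : u⁻¹ • x ∈ octads := smul_mem_octads (M24.inv_mem hu) hx
  have hm := (mem_octads_iff _).1 hx'
  have h3 := octad_all (P := fun m => popc (m &&& octad0) != 0 || popc (m &&& 15777) != 0)
    (by
      have := nocommon
      simpa [Bool.or_assoc] using this) _ hm
  have e : ∀ s : Finset GolayPt, popc (toMask s &&& toMask (ofMask (toMask s))) = s.card := by
    intro s; rw [toMask_ofMask (toMask_lt s), Nat.and_self, card_eq_popc]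
  have h4 : popc (toMask (u⁻¹ • x) &&& octad0) = 0 := by
    have : Disjoint (u⁻¹ • x) (ofMask octad0) := by
      have := (disjoint_smul (s := ofMask octad0) (t := u⁻¹ • x) u).1 (by rwa [smul_inv_smul])
      exact this.symm
    rw [disjoint_iff_card, card_eq_popc, toMask_inter, toMask_ofMask (by decide +kernel)] at this
    exact this
  have h5 : popc (toMask (u⁻¹ • x) &&& 15777) = 0 := by
    have : Disjoint (u⁻¹ • x) (ofMask 15777) := by
      have := (disjoint_smul (s := u⁻¹ • x) (t := ofMask 15777) u).1 (by rwa [smul_inv_smul])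
      exact this
    rw [disjoint_iff_card, card_eq_popc, toMask_inter, toMask_ofMask (by decide +kernel)] at this
    exact this
  simp [h4, h5] at h3

private lemma inter_cases {o o' : Finset GolayPt} (ho : o ∈ octads) (ho' : o' ∈ octads) (hne : o ≠ o') :
    (o ∩ o').card = 0 ∨ (o ∩ o').card = 2 ∨ (o ∩ o').card = 4 := by
  obtain ⟨k, hk, rfl⟩ := exists_smul_octad octad0_mem ho
  have hm := (mem_octads_iff _).1 (smul_mem_octads (M24.inv_mem hk) ho')
  have hc : (k • ofMask octad0 ∩ o').card = popc (octad0 &&& toMask (k⁻¹ • o')) := by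
    have h0 : popc (octad0 &&& toMask (k⁻¹ • o')) = (ofMask octad0 ∩ k⁻¹ • o').card := by
      rw [card_eq_popc, toMask_inter, toMask_ofMask (by decide +kernel)]
    rw [h0, ← card_smul_inter k (ofMask octad0) (k⁻¹ • o'), smul_inv_smul]
  rw [hc]
  rcases octad_inter_cases hm with h | h | h | h
  · exfalso
    rw [← hc] at h
    apply hne
    have hs : k • ofMask octad0 ⊆ o' := by
      have h1 : k • ofMask octad0 ∩ o' = k • ofMask octad0 := by
        apply Finset.eq_of_subset_of_card_le Finset.inter_subset_left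
        rw [h, (smul_mem_octads hk octad0_mem).2]
      exact Finset.inter_eq_left.1 h1
    apply Finset.eq_of_subset_of_card_le hs
    rw [ho'.2, (smul_mem_octads hk octad0_mem).2]
  · exact Or.inr (Or.inr h)
  · exact Or.inr (Or.inl h)
  · exact Or.inl h

private lemma walk_two {V : Type*} {G : SimpleGraph V} {u v : V} (p : G.Walk u v) (hp : p.length = 2) :
    ∃ w, G.Adj u w ∧ G.Adj w v := by
  cases p with
  | nil => simp at hp
  | cons h1 q =>
    cases q with
    | nil => simp at hp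
    | cons h2 r =>
      cases r with
      | nil => exact ⟨_, h1, h2⟩
      | cons h3 s => simp at hp

private lemma adj_iff (u v : (octads : Set (Finset GolayPt))) :
    (blockGraph octads).Adj u v ↔ Disjoint (u : Finset GolayPt) (v : Finset GolayPt) := by
  unfold blockGraph
  rw [SimpleGraph.fromRel_adj]
  constructor
  · rintro ⟨_, h | h⟩
    · exact h
    · exact h.symm
  · intro h
    refine ⟨?_, Or.inl h⟩
    rintro rfl
    have h1 := u.2.2
    rw [disjoint_self] at h
    have : (u : Finset GolayPt) = ∅ := h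
    rw [this] at h1
    simp at h1

/-- In the graph on the 759 octads of the length-24 code in which two octads are adjacent when they are disjoint, the graph is connected (of diameter 3) and two distinct octads are at distance 1, 2 or 3 exactly when they meet in 0, 4 or 2 points respectively. -/
theorem result (o o' : Finset Cfsg.GolayPt) (ho : o ∈ Cfsg.octads) (ho' : o' ∈ Cfsg.octads) (hne : o ≠ o') : (Cfsg.blockGraph Cfsg.octads).Connected ∧ ((Cfsg.blockGraph Cfsg.octads).dist ⟨o, ho⟩ ⟨o', ho'⟩ = 1 ↔ (o ∩ o').card = 0) ∧ ((Cfsg.blockGraph Cfsg.octads).dist ⟨o, ho⟩ ⟨o', ho'⟩ = 2 ↔ (o ∩ o').card = 4) ∧ ((Cfsg.blockGraph Cfsg.octads).dist ⟨o, ho⟩ ⟨o', ho'⟩ = 3 ↔ (o ∩ o').card = 2) := by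
  set G := blockGraph (octads) with hG
  -- walks
  have wk0 : ∀ (a b : Finset GolayPt) (ha : a ∈ octads) (hb : b ∈ octads),
      (a ∩ b).card = 0 → ∃ p : G.Walk ⟨a, ha⟩ ⟨b, hb⟩, p.length = 1 := by
    intro a b ha hb h
    have hadj : G.Adj ⟨a, ha⟩ ⟨b, hb⟩ := (adj_iff _ _).2 (disjoint_iff_card.2 h)
    exact ⟨hadj.toWalk, rfl⟩
  have wk4 : ∀ (a b : Finset GolayPt) (ha : a ∈ octads) (hb : b ∈ octads),
      (a ∩ b).card = 4 → ∃ p : G.Walk ⟨a, ha⟩ ⟨b, hb⟩, p.length = 2 := by
    intro a b ha hb h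
    obtain ⟨x, hx, h1, h2⟩ := case4 ha hb h
    have a1 : G.Adj ⟨a, ha⟩ ⟨x, hx⟩ := (adj_iff _ _).2 h1
    have a2 : G.Adj ⟨x, hx⟩ ⟨b, hb⟩ := (adj_iff _ _).2 h2
    exact ⟨.cons a1 (.cons a2 .nil), rfl⟩
  have wk2 : ∀ (a b : Finset GolayPt) (ha : a ∈ octads) (hb : b ∈ octads),
      (a ∩ b).card = 2 → ∃ p : G.Walk ⟨a, ha⟩ ⟨b, hb⟩, p.length = 3 := by
    intro a b ha hb h
    obtain ⟨x, hx, y, hy, h1, h2, h3⟩ := case2a ha hb h
    have a1 : G.Adj ⟨a, ha⟩ ⟨x, hx⟩ := (adj_iff _ _).2 h1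
    have a2 : G.Adj ⟨x, hx⟩ ⟨y, hy⟩ := (adj_iff _ _).2 h2
    have a3 : G.Adj ⟨y, hy⟩ ⟨b, hb⟩ := (adj_iff _ _).2 h3
    exact ⟨.cons a1 (.cons a2 (.cons a3 .nil)), rfl⟩
  have hconn : G.Connected := by
    refine { preconnected := ?_, nonempty := ⟨⟨_, octad0_mem⟩⟩ }
    rintro ⟨a, ha⟩ ⟨b, hb⟩
    by_cases hab : a = b
    · subst hab; exact SimpleGraph.Reachable.refl _
    rcases inter_cases ha hb hab with h | h | h
    · obtain ⟨p, _⟩ := wk0 a b ha hb h; exact ⟨p⟩
    · obtain ⟨p, _⟩ := wk2 a b ha hb h; exact ⟨p⟩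
    · obtain ⟨p, _⟩ := wk4 a b ha hb h; exact ⟨p⟩
  have hd0 : G.dist ⟨o, ho⟩ ⟨o', ho'⟩ ≠ 0 := by
    intro h
    rw [hconn.dist_eq_zero_iff] at h
    exact hne (congrArg Subtype.val h)
  have hd1 : G.dist ⟨o, ho⟩ ⟨o', ho'⟩ = 1 ↔ (o ∩ o').card = 0 := by
    rw [SimpleGraph.dist_eq_one_iff_adj, adj_iff]
    exact disjoint_iff_card
  have hd4 : (o ∩ o').card = 4 → G.dist ⟨o, ho⟩ ⟨o', ho'⟩ = 2 := by
    intro h
    obtain ⟨p, hp⟩ := wk4 o o' ho ho' h
    have h1 := SimpleGraph.dist_le p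
    rw [hp] at h1
    have h2 : G.dist ⟨o, ho⟩ ⟨o', ho'⟩ ≠ 1 := by
      rw [Ne, hd1, h]; norm_num
    omega
  have hd2 : (o ∩ o').card = 2 → G.dist ⟨o, ho⟩ ⟨o', ho'⟩ = 3 := by
    intro h
    obtain ⟨p, hp⟩ := wk2 o o' ho ho' h
    have h1 := SimpleGraph.dist_le p
    rw [hp] at h1
    have h2 : G.dist ⟨o, ho⟩ ⟨o', ho'⟩ ≠ 1 := by
      rw [Ne, hd1, h]; norm_num
    have h3 : G.dist ⟨o, ho⟩ ⟨o', ho'⟩ ≠ 2 := by
      intro h3
      obtain ⟨q, hq⟩ := hconn.exists_walk_length_eq_dist ⟨o, ho⟩ ⟨o', ho'⟩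
      rw [h3] at hq
      obtain ⟨⟨x, hx⟩, a1, a2⟩ := walk_two q hq
      exact case2b ho ho' h hx ((adj_iff _ _).1 a1) ((adj_iff _ _).1 a2)
    omega
  refine ⟨hconn, hd1, ⟨?_, hd4⟩, ⟨?_, hd2⟩⟩
  · intro h
    rcases inter_cases ho ho' hne with h' | h' | h'
    · rw [hd1.2 h'] at h; omega
    · rw [hd2 h'] at h; omega
    · exact h'
  · intro h
    rcases inter_cases ho ho' hne with h' | h' | h'
    · rw [hd1.2 h'] at h; omega
    · exact h'
    · rw [hd4 h'] at h; omega

end Cfsg.Agent.S5609
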