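import Cfsg.Statements.S5610
import Mathlib
import Cfsg.Agent.Lib.Sporadic.M24OcOnSx
import Cfsg.Agent.Lib.Sporadic.M24OcOnTr

set_option autoImplicit false
open scoped Pointwise
open Cfsg

namespace Cfsg.Agent.S5610

open Cfsg.Agent.Lib.Sporadic.GolayCore Cfsg.Agent.Lib.Sporadic.M24Tbl
open Cfsg.Agent.Lib.Sporadic.M24Chain Cfsg.Agent.Lib.Sporadic.M24Basic
open Cfsg.Agent.Lib.Sporadic.M24Act Cfsg.Agent.Lib.Sporadic.M24Lists
open Cfsg.Agent.Lib.Sporadic.M24Orbit Cfsg.Agent.Lib.Sporadic.M24Count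
open Cfsg.Agent.Lib.Sporadic.M24Sextet Cfsg.Agent.Lib.Sporadic.M24Fast
open Cfsg.Agent.Lib.Sporadic.M24Classes Cfsg.Agent.Lib.Sporadic.M24Cert
open scoped Pointwise
open Cfsg.Agent.Lib.Sporadic.M24OcStab Cfsg.Agent.Lib.Sporadic.M24OcOnSx Cfsg.Agent.Lib.Sporadic.M24OcOnTr Cfsg.Agent.Lib.Sporadic.M24SextetTab Cfsg.Agent.Lib.Sporadic.M24TrioTab

/-- The stabiliser of an octad in the group of the length-24 code has exactly three orbits on the 3795 trios, of sizes 15, 420 and 3360, and exactly three orbits on the 1771 sextets, of sizes 35, 840 and 896. -/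
theorem result (o : Finset Cfsg.GolayPt) (ho : o ∈ Cfsg.octads) : (∃ X₁ ∈ Cfsg.trios, ∃ X₂ ∈ Cfsg.trios, ∃ X₃ ∈ Cfsg.trios, (MulAction.orbit ↥(MulAction.stabilizer Cfsg.M24 o) X₁).ncard = 15 ∧ (MulAction.orbit ↥(MulAction.stabilizer Cfsg.M24 o) X₂).ncard = 420 ∧ (MulAction.orbit ↥(MulAction.stabilizer Cfsg.M24 o) X₃).ncard = 3360 ∧ Cfsg.trios = MulAction.orbit ↥(MulAction.stabilizer Cfsg.M24 o) X₁ ∪ MulAction.orbit ↥(MulAction.stabilizer Cfsg.M24 o) X₂ ∪ MulAction.orbit ↥(MulAction.stabilizer Cfsg.M24 o) X₃) ∧ (∃ Y₁ ∈ Cfsg.sextets, ∃ Y₂ ∈ Cfsg.sextets, ∃ Y₃ ∈ Cfsg.sextets, (MulAction.orbit ↥(MulAction.stabilizer Cfsg.M24 o) Y₁).ncard = 35 ∧ (MulAction.orbit ↥(MulAction.stabilizer Cfsg.M24 o) Y₂).ncard = 840 ∧ (MulAction.orbit ↥(MulAction.stabilizer Cfsg.M24 o) Y₃).ncard = 896 ∧ Cfsg.sextets = MulAction.orbit ↥(MulAction.stabilizer Cfsg.M24 o) Y₁ ∪ MulAction.orbit ↥(MulAction.stabilizer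 Cfsg.M24 o) Y₂ ∪ MulAction.orbit ↥(MulAction.stabilizer Cfsg.M24 o) Y₃) := by
  have ho0 : ofMask 8536111 ∈ octads := ofMask_mem_octads_of_fOct (by decide +kernel)
  have ho' : o ∈ MulAction.orbit M24 (ofMask 8536111) := by
    rw [Cfsg.Agent.Lib.Sporadic.M24OctadStab.orbit_octad ho0]
    exact ho
  obtain ⟨⟨k, hk⟩, rfl⟩ := ho'
  have he : ∀ g : Equiv.Perm GolayPt, g ∈ M24 →
      (g • famOf famO = famOf famO ↔ g • ofMask 8536111 = ofMask 8536111) := by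
    intro g _
    have h1 : famOf famO = {ofMask 8536111} := by simp [famOf, famO]
    rw [h1, Finset.smul_finset_singleton, Finset.singleton_inj]
  exact ⟨(CO_T.congr he).three hk rfl hcvO_T nO_T0 nO_T1 nO_T2,
    (CO_S.congr he).three hk rfl hcvO_S nO_S0 nO_S1 nO_S2⟩

end Cfsg.Agent.S5610
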