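import Cfsg.Statements.S5615
import Mathlib
import Cfsg.Agent.Lib.Sporadic.M24TrOct

set_option autoImplicit false
open scoped Pointwise
open Cfsg

namespace Cfsg.Agent.S5615

open Cfsg.Agent.Lib.Sporadic.GolayCore Cfsg.Agent.Lib.Sporadic.M24Tbl
open Cfsg.Agent.Lib.Sporadic.M24Chain Cfsg.Agent.Lib.Sporadic.M24Basic
open Cfsg.Agent.Lib.Sporadic.M24Act Cfsg.Agent.Lib.Sporadic.M24Lists
open Cfsg.Agent.Lib.Sporadic.M24Orbit Cfsg.Agent.Lib.Sporadic.M24Count
open Cfsg.Agent.Lib.Sporadic.M24Sextet Cfsg.Agent.Lib.Sporadic.M24Fast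
open Cfsg.Agent.Lib.Sporadic.M24Classes Cfsg.Agent.Lib.Sporadic.M24Cert
open scoped Pointwise
open Cfsg.Agent.Lib.Sporadic.M24TrioTab Cfsg.Agent.Lib.Sporadic.M24TrOct

/-- An octad of the length-24 code lies in exactly 15 trios; the stabiliser of the octad in the code's group acts doubly transitively on these 15 trios, and the kernel of this action is the pointwise stabiliser of the octad. -/
theorem result (o : Finset Cfsg.GolayPt) (ho : o ∈ Cfsg.octads) : {T : Finset (Finset Cfsg.GolayPt) | T ∈ Cfsg.trios ∧ o ∈ T}.ncard = 15 ∧ (∀ T₁ T₂ T₁' T₂' : Finset (Finset Cfsg.GolayPt), T₁ ∈ Cfsg.trios → T₂ ∈ Cfsg.trios → T₁' ∈ Cfsg.trios → T₂' ∈ Cfsg.trios → o ∈ T₁ → o ∈ T₂ → o ∈ T₁' → o ∈ T₂' → T₁ ≠ T₂ → T₁' ≠ T₂' → ∃ g ∈ Cfsg.M24, g • o = o ∧ g • T₁ = T₁' ∧ g • T₂ = T₂') ∧ ∀ g ∈ Cfsg.M24, g • o = o → ((∀ T ∈ Cfsg.trios, o ∈ T → g • T = T) ↔ ∀ p ∈ o, g p = p) := by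
  have ho' : o ∈ MulAction.orbit M24 o0 := by
    rw [Cfsg.Agent.Lib.Sporadic.M24OctadStab.orbit_octad o0_mem]
    exact ho
  obtain ⟨⟨k, hk⟩, hko⟩ := ho'
  have hko' : k • o0 = o := hko
  clear hko
  subst hko'
  have hk' : k⁻¹ ∈ M24 := M24.inv_mem hk
  have hmem : ∀ T : Finset (Finset GolayPt), k • o0 ∈ T ↔ o0 ∈ k⁻¹ • T := by
    intro T
    constructor
    · intro h
      have := Finset.smul_mem_smul_finset (a := k⁻¹) h
      rwa [inv_smul_smul] at this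
    · intro h
      have := Finset.smul_mem_smul_finset (a := k) h
      rwa [smul_inv_smul] at this
  refine ⟨?_, ?_, ?_⟩
  · have h1 : {T : Finset (Finset GolayPt) | T ∈ trios ∧ k • o0 ∈ T} =
        (fun y => k • y) '' {T | T ∈ trios ∧ o0 ∈ T} := by
      ext T
      constructor
      · rintro ⟨h2, h3⟩
        exact ⟨k⁻¹ • T, ⟨smul_mem_trios hk' h2, (hmem T).1 h3⟩, smul_inv_smul k T⟩
      · rintro ⟨y, ⟨h2, h3⟩, rfl⟩
        exact ⟨smul_mem_trios hk h2, Finset.smul_mem_smul_finset h3⟩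
    rw [h1, ncard_translate, ncard_trios_o0]
  · intro T₁ T₂ T₁' T₂' h₁ h₂ h₁' h₂' m₁ m₂ m₁' m₂' hne hne'
    obtain ⟨g, hg, g0, g1, g2⟩ := two_trans_o0 (smul_mem_trios hk' h₁) (smul_mem_trios hk' h₂)
      (smul_mem_trios hk' h₁') (smul_mem_trios hk' h₂') ((hmem _).1 m₁) ((hmem _).1 m₂)
      ((hmem _).1 m₁') ((hmem _).1 m₂')
      (fun h => hne (by simpa using congrArg (fun x => k • x) h))
      (fun h => hne' (by simpa using congrArg (fun x => k • x) h))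
    refine ⟨k * g * k⁻¹, M24.mul_mem (M24.mul_mem hk hg) hk', ?_, ?_, ?_⟩
    · rw [mul_smul, mul_smul, inv_smul_smul, g0]
    · rw [mul_smul, mul_smul, g1, smul_inv_smul]
    · rw [mul_smul, mul_smul, g2, smul_inv_smul]
  · intro g hg h0
    have hg' : k⁻¹ * g * k ∈ M24 := M24.mul_mem (M24.mul_mem hk' hg) hk
    have h0' : (k⁻¹ * g * k) • o0 = o0 := by
      rw [mul_smul, mul_smul, h0, inv_smul_smul]
    constructor
    · intro hT p hp
      have h1 := fix_of_fix_trios hg' h0' (fun T hT' h2 => by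
        rw [mul_smul, mul_smul, hT _ (smul_mem_trios hk hT') (Finset.smul_mem_smul_finset h2),
          inv_smul_smul]) (k⁻¹ p) (by
        obtain ⟨q, hq, rfl⟩ := Finset.mem_smul_finset.1 hp
        simpa using hq)
      have h2 : k⁻¹ (g (k (k⁻¹ p))) = k⁻¹ p := h1
      simpa using h2
    · intro hfix T hT h2
      have h3 : ∀ p ∈ o0, (k⁻¹ * g * k) p = p := by
        intro p hp
        show k⁻¹ (g (k p)) = p
        rw [hfix (k p) (Finset.mem_smul_finset.2 ⟨p, hp, rfl⟩)]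
        simp
      have h4 := fix_trios_of_fix hg' h3 (smul_mem_trios hk' hT) ((hmem T).1 h2)
      rw [mul_smul, mul_smul, smul_inv_smul] at h4
      exact MulAction.injective k⁻¹ h4

end Cfsg.Agent.S5615
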