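import Cfsg.Statements.S5616
import Mathlib
import Cfsg.Agent.Lib.Sporadic.M24YtOnSx

set_option autoImplicit false
open scoped Pointwise
open Cfsg

namespace Cfsg.Agent.S5616

open Cfsg.Agent.Lib.Sporadic.GolayCore Cfsg.Agent.Lib.Sporadic.M24Tbl
open Cfsg.Agent.Lib.Sporadic.M24Chain Cfsg.Agent.Lib.Sporadic.M24Basic
open Cfsg.Agent.Lib.Sporadic.M24Act Cfsg.Agent.Lib.Sporadic.M24Lists
open Cfsg.Agent.Lib.Sporadic.M24Orbit Cfsg.Agent.Lib.Sporadic.M24Count
open Cfsg.Agent.Lib.Sporadic.M24Sextet Cfsg.Agent.Lib.Sporadic.M24Fast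
open Cfsg.Agent.Lib.Sporadic.M24Classes Cfsg.Agent.Lib.Sporadic.M24Cert
open scoped Pointwise
open Cfsg.Agent.Lib.Sporadic.M24YtStab Cfsg.Agent.Lib.Sporadic.M24YtOnSx Cfsg.Agent.Lib.Sporadic.M24SextetTab

/-- Let Y be a set of 3 of the 24 points. The sextets of the length-24 code whose tetrads meeting Y number 1, 2 or 3 are respectively 21, 630 and 1120 in number, and two sextets with the same number of tetrads meeting Y are conjugate under the setwise stabiliser of Y in the code's group. -/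
theorem result (Y : Finset Cfsg.GolayPt) (hY : Y.card = 3) : {S : Finset (Finset Cfsg.GolayPt) | S ∈ Cfsg.sextets ∧ (S.filter fun t => (t ∩ Y).Nonempty).card = 1}.ncard = 21 ∧ {S : Finset (Finset Cfsg.GolayPt) | S ∈ Cfsg.sextets ∧ (S.filter fun t => (t ∩ Y).Nonempty).card = 2}.ncard = 630 ∧ {S : Finset (Finset Cfsg.GolayPt) | S ∈ Cfsg.sextets ∧ (S.filter fun t => (t ∩ Y).Nonempty).card = 3}.ncard = 1120 ∧ ∀ S S' : Finset (Finset Cfsg.GolayPt), S ∈ Cfsg.sextets → S' ∈ Cfsg.sextets → (S.filter fun t => (t ∩ Y).Nonempty).card = (S'.filter fun t => (t ∩ Y).Nonempty).card → ∃ g ∈ Cfsg.M24, g • Y = Y ∧ g • S = S' := by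
  have hY0 : (ofMask 8388611).card = 3 := by decide +kernel
  obtain ⟨k, hk, rfl⟩ := exists_smul_eq_of_card (s := ofMask 8388611) (t := Y) (by rw [hY, hY0]) (by rw [hY0]; norm_num)
  have key : ∀ c : ℕ, {S : Finset (Finset GolayPt) | S ∈ sextets ∧ meetCount (k • ofMask 8388611) S = c} =
      (fun y => k • y) '' {y | y ∈ sextets ∧ meetCount (ofMask 8388611) y = c} := by
    intro c
    ext S
    constructor
    · rintro ⟨h1, h2⟩
      refine ⟨k⁻¹ • S, ⟨smul_mem_sextets (M24.inv_mem hk) h1, ?_⟩, smul_inv_smul k S⟩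
      rw [← meetCount_smul k, smul_inv_smul, h2]
    · rintro ⟨y, ⟨h1, h2⟩, rfl⟩
      exact ⟨smul_mem_sextets hk h1, by rw [meetCount_smul, h2]⟩
  have cnt : ∀ c n : ℕ, ctCount (fun m _ => Nat.beq (clsOf treeY_S m) c) Cfsg.Agent.Lib.Sporadic.M24SextetTree.sxTree = n →
      {S : Finset (Finset GolayPt) | S ∈ sextets ∧ meetCount (k • ofMask 8388611) S = c}.ncard = n := by
    intro c n hn
    rw [key, ncard_translate, CY_S.count, hn]
  refine ⟨cnt 1 21 nY_S1, cnt 2 630 nY_S2, cnt 3 1120 nY_S3, ?_⟩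
  intro S S' hS hS' hc
  have h1 := smul_mem_sextets (M24.inv_mem hk) hS
  have h2 := smul_mem_sextets (M24.inv_mem hk) hS'
  obtain ⟨g, hg, h3, h4⟩ := CY_S.classes.hconj _ h1 _ h2 (by
    rw [← meetCount_smul k, ← meetCount_smul k _ (k⁻¹ • S'), smul_inv_smul, smul_inv_smul]
    exact hc)
  refine ⟨k * g * k⁻¹, M24.mul_mem (M24.mul_mem hk hg) (M24.inv_mem hk), ?_, ?_⟩
  · rw [mul_smul, mul_smul, inv_smul_smul, h3]
  · rw [mul_smul, mul_smul, h4, smul_inv_smul]

end Cfsg.Agent.S5616
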