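import Cfsg.Statements.S5617
import Mathlib
import Cfsg.Agent.Lib.Sporadic.M24DpOnSx
import Cfsg.Agent.Lib.Sporadic.M24DodFlag

set_option autoImplicit false
open scoped Pointwise
open Cfsg

namespace Cfsg.Agent.S5617

open Cfsg.Agent.Lib.Sporadic.GolayCore Cfsg.Agent.Lib.Sporadic.M24Tbl
open Cfsg.Agent.Lib.Sporadic.M24Chain Cfsg.Agent.Lib.Sporadic.M24Basic
open Cfsg.Agent.Lib.Sporadic.M24Act Cfsg.Agent.Lib.Sporadic.M24Lists
open Cfsg.Agent.Lib.Sporadic.M24Orbit Cfsg.Agent.Lib.Sporadic.M24Count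
open Cfsg.Agent.Lib.Sporadic.M24Sextet Cfsg.Agent.Lib.Sporadic.M24Fast
open Cfsg.Agent.Lib.Sporadic.M24Classes Cfsg.Agent.Lib.Sporadic.M24Cert
open scoped Pointwise
open Cfsg.Agent.Lib.Sporadic.M24DpStab Cfsg.Agent.Lib.Sporadic.M24DpOnSx Cfsg.Agent.Lib.Sporadic.M24SextetTab Cfsg.Agent.Lib.Sporadic.M24Dodecad

/-- The setwise stabiliser, in the group of the length-24 code, of a complementary pair of dodecads has exactly three orbits on the 1771 sextets, of sizes 396, 495 and 880. -/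
theorem result (d : Finset Cfsg.GolayPt) (hd : d ∈ Cfsg.dodecads) : ∃ X₁ ∈ Cfsg.sextets, ∃ X₂ ∈ Cfsg.sextets, ∃ X₃ ∈ Cfsg.sextets, (MulAction.orbit ↥(MulAction.stabilizer Cfsg.M24 ({d, Finset.univ \ d} : Finset (Finset Cfsg.GolayPt))) X₁).ncard = 396 ∧ (MulAction.orbit ↥(MulAction.stabilizer Cfsg.M24 ({d, Finset.univ \ d} : Finset (Finset Cfsg.GolayPt))) X₂).ncard = 495 ∧ (MulAction.orbit ↥(MulAction.stabilizer Cfsg.M24 ({d, Finset.univ \ d} : Finset (Finset Cfsg.GolayPt))) X₃).ncard = 880 ∧ Cfsg.sextets = MulAction.orbit ↥(MulAction.stabilizer Cfsg.M24 ({d, Finset.univ \ d} : Finset (Finset Cfsg.GolayPt))) X₁ ∪ MulAction.orbit ↥(MulAction.stabilizer Cfsg.M24 ({d, Finset.univ \ d} : Finset (Finset Cfsg.GolayPt))) X₂ ∪ MulAction.orbit ↥(MulAction.stabilizer Cfsg.M24 ({d, Finset.univ \ d} : Finset (Finset Cfsg.GolayPt))) X₃ := by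
  have hd0 : ofMask dod0 ∈ dodecads := dod0_mem
  obtain ⟨k, hk, rfl⟩ := exists_smul_dodecad hd0 hd
  have h1 : famOf famD = {ofMask dod0, Finset.univ \ ofMask dod0} := by
    have h2 : ofMask 8334384 = Finset.univ \ ofMask dod0 := by decide +kernel
    rw [← h2]
    simp [famOf, famD, dod0]
  have h3 : ({k • ofMask dod0, Finset.univ \ (k • ofMask dod0)} : Finset (Finset GolayPt)) =
      k • famOf famD := by
    rw [h1, Finset.smul_finset_insert, Finset.smul_finset_singleton, Finset.smul_finset_sdiff,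
      Finset.smul_finset_univ]
  rw [h3]
  exact CD_S.three hk rfl hcvD_S nD_S0 nD_S1 nD_S2

end Cfsg.Agent.S5617
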