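import Cfsg.Statements.S5620
import Mathlib
import Cfsg.Agent.Lib.Sporadic.M24DodFlag
import Cfsg.Agent.Lib.Sporadic.M24DodPair

set_option autoImplicit false
open scoped Pointwise
open Cfsg

namespace Cfsg.Agent.S5620

open Cfsg.Agent.Lib.Sporadic.GolayCore Cfsg.Agent.Lib.Sporadic.M24Tbl
open Cfsg.Agent.Lib.Sporadic.M24Chain Cfsg.Agent.Lib.Sporadic.M24Basic
open Cfsg.Agent.Lib.Sporadic.M24Act Cfsg.Agent.Lib.Sporadic.M24Lists
open Cfsg.Agent.Lib.Sporadic.M24Orbit Cfsg.Agent.Lib.Sporadic.M24Count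
open Cfsg.Agent.Lib.Sporadic.M24Dodecad Cfsg.Agent.Lib.Sporadic.M24DodPair Cfsg.Agent.Lib.Sporadic.M24DodFlag
open scoped Pointwise

/-- Inside the stabiliser of the dodecad of squares (a Mathieu group of degree 12), the stabiliser of the residue 0 (a point of the dodecad) and the stabiliser of the extra point (a point outside the dodecad) are isomorphic but not conjugate; conjugation by a suitable element of the code's group that maps the dodecad of squares onto its complement carries the first onto the second. -/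
theorem result : Nonempty (↥(Cfsg.Spor.M12 ⊓ MulAction.stabilizer (Equiv.Perm Cfsg.GolayPt) (none : Cfsg.GolayPt)) ≃* ↥Cfsg.Spor.M11) ∧ (¬ ∃ k ∈ Cfsg.Spor.M12, MulAut.conj k • Cfsg.Spor.M11 = Cfsg.Spor.M12 ⊓ MulAction.stabilizer (Equiv.Perm Cfsg.GolayPt) (none : Cfsg.GolayPt)) ∧ ∃ g ∈ Cfsg.M24, g • Cfsg.Spor.squareDodecad = Finset.univ \ Cfsg.Spor.squareDodecad ∧ MulAut.conj g • Cfsg.Spor.M11 = Cfsg.Spor.M12 ⊓ MulAction.stabilizer (Equiv.Perm Cfsg.GolayPt) (none : Cfsg.GolayPt) := by
  have hsq : Cfsg.Spor.squareDodecad = ofMask 340831 := by decide +kernel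
  have hd : Cfsg.Spor.squareDodecad ∈ dodecads := by
    rw [hsq]
    exact (ofMask_mem_dodecads_iff (by decide +kernel)).2 (by decide +kernel)
  set d := Cfsg.Spor.squareDodecad with hddef
  have hdc : Finset.univ \ d ∈ dodecads := by
    have := compl_mem_dodecads hd
    exact this
  have h0d : (some 0 : Cfsg.GolayPt) ∈ d := by rw [hsq]; decide +kernel
  have hnd : (none : Cfsg.GolayPt) ∉ d := by rw [hsq]; decide +kernel
  have hM11 : ∀ x : Equiv.Perm Cfsg.GolayPt, x ∈ Cfsg.Spor.M11 ↔ x ∈ M24 ∧ x • d = d ∧ x (some 0) = some 0 := by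
    intro x
    simp only [Cfsg.Spor.M11, Cfsg.Spor.M12, Subgroup.mem_inf, MulAction.mem_stabilizer_iff, Equiv.Perm.smul_def, and_assoc]
    rfl
  have hM12' : ∀ x : Equiv.Perm Cfsg.GolayPt, x ∈ Cfsg.Spor.M12 ⊓ MulAction.stabilizer (Equiv.Perm Cfsg.GolayPt) (none : Cfsg.GolayPt) ↔
      x ∈ M24 ∧ x • d = d ∧ x none = none := by
    intro x
    simp only [Cfsg.Spor.M12, Subgroup.mem_inf, MulAction.mem_stabilizer_iff, Equiv.Perm.smul_def, and_assoc]
    rfl
  obtain ⟨g, hg, hgd, hgL⟩ := exists_transport_dod hd hdc (L := [some 0]) (L' := [none])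
    (by simp) (by simp) rfl (by simpa using h0d) (by simpa using hnd) (by norm_num)
  have hg0 : g (some 0) = none := by simpa using hgL
  have hginv0 : g⁻¹ none = some 0 := by rw [Equiv.Perm.inv_eq_iff_eq]; exact hg0.symm
  have hcompl : ∀ x : Equiv.Perm Cfsg.GolayPt, x • (Finset.univ \ d) = Finset.univ \ d ↔ x • d = d := by
    intro x
    rw [Finset.smul_finset_sdiff, Finset.smul_finset_univ]
    constructor
    · intro h
      have := congrArg (fun s => Finset.univ \ s) h
      simpa using this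
    · intro h
      rw [h]
  have hconj : MulAut.conj g • Cfsg.Spor.M11 = Cfsg.Spor.M12 ⊓ MulAction.stabilizer (Equiv.Perm Cfsg.GolayPt) (none : Cfsg.GolayPt) := by
    ext x
    rw [Subgroup.mem_pointwise_smul_iff_inv_smul_mem]
    have e : (MulAut.conj g)⁻¹ • x = g⁻¹ * x * g := by
      rw [MulAut.smul_def, ← MulAut.conj_inv_apply]
    rw [e, hM11, hM12']
    have hgm := M24.inv_mem hg
    have e2 : ∀ y : Equiv.Perm Cfsg.GolayPt, (g⁻¹ * y * g) • d = d ↔ y • d = d := by
      intro y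
      rw [mul_smul, mul_smul, hgd, inv_smul_eq_iff, hgd]
      exact hcompl y
    constructor
    · rintro ⟨h1, h2, h3⟩
      have hx : x ∈ M24 := by
        have := M24.mul_mem (M24.mul_mem hg h1) hgm
        have e3 : g * (g⁻¹ * x * g) * g⁻¹ = x := by group
        rwa [e3] at this
      refine ⟨hx, (e2 x).1 h2, ?_⟩
      have h4 : g⁻¹ (x (g (some 0))) = some 0 := h3
      rw [hg0, Equiv.Perm.inv_eq_iff_eq, hg0] at h4
      exact h4
    · rintro ⟨h1, h2, h3⟩
      refine ⟨M24.mul_mem (M24.mul_mem hgm h1) hg, (e2 x).2 h2, ?_⟩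
      show g⁻¹ (x (g (some 0))) = some 0
      rw [hg0, h3, hginv0]
  refine ⟨⟨((MulEquiv.subgroupCongr hconj.symm).trans (Subgroup.equivSMul (MulAut.conj g) Cfsg.Spor.M11).symm)⟩, ?_, g, hg, hgd, hconj⟩
  rintro ⟨k, hk, hk2⟩
  have hkm : k ∈ M24 := hk.1
  have hkd : k • d = d := hk.2
  set y := k (some 0) with hy
  have hyd : y ∈ d := by
    rw [← hkd]
    exact Finset.mem_smul_finset.2 ⟨_, h0d, rfl⟩
  -- choose three points of `d` and three others, with `y` moved
  obtain ⟨y', hy', hne⟩ : ∃ y' ∈ d, y' ≠ y := by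
    by_contra hall
    have hall' : ∀ a ∈ d, a = y := fun a ha => by_contra fun h => hall ⟨a, ha, h⟩
    have : d ⊆ {y} := fun a ha => Finset.mem_singleton.2 (hall' a ha)
    have h1 := Finset.card_le_card this
    rw [hd.2] at h1
    simp at h1
  obtain ⟨A, hA1, hA2, hA3⟩ := Finset.exists_subsuperset_card_eq (s := {y, y'}) (t := d) (n := 3)
    (by
      intro a ha
      simp only [Finset.mem_insert, Finset.mem_singleton] at ha
      rcases ha with rfl | rfl
      · exact hyd
      · exact hy')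
    (by rw [Finset.card_pair (Ne.symm hne)]; norm_num) (by rw [hd.2]; norm_num)
  obtain ⟨z, hz⟩ : ∃ z, A = {y, y', z} ∧ z ≠ y ∧ z ≠ y' := by
    have hy1 : y ∈ A := hA1 (by simp)
    have hy2 : y' ∈ A := hA1 (by simp)
    have h4 : (A \ {y, y'}).card = 1 := by
      rw [Finset.card_sdiff_of_subset hA1, hA3, Finset.card_pair (Ne.symm hne)]
    obtain ⟨z, hz⟩ := Finset.card_eq_one.1 h4
    have hz1 : z ∈ A \ {y, y'} := by rw [hz]; simp
    simp only [Finset.mem_sdiff, Finset.mem_insert, Finset.mem_singleton, not_or] at hz1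
    refine ⟨z, ?_, hz1.2.1, hz1.2.2⟩
    ext a
    simp only [Finset.mem_insert, Finset.mem_singleton]
    constructor
    · intro ha
      by_cases h5 : a = y
      · exact Or.inl h5
      by_cases h6 : a = y'
      · exact Or.inr (Or.inl h6)
      have : a ∈ A \ {y, y'} := by
        simp [ha, h5, h6]
      rw [hz] at this
      exact Or.inr (Or.inr (Finset.mem_singleton.1 this))
    · rintro (rfl | rfl | rfl)
      · exact hy1
      · exact hy2
      · exact hz1.1
  obtain ⟨hA, hzy, hzy'⟩ := hz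
  have hzd : z ∈ d := hA2 (by rw [hA]; simp)
  have hinj3 : ∀ a b c : Cfsg.GolayPt, a ≠ b → a ≠ c → b ≠ c → Function.Injective ![a, b, c] := by
    intro a b c hab hac hbc i j h
    fin_cases i <;> fin_cases j <;> first
      | rfl
      | (exfalso
         first
          | exact hab h
          | exact hac h
          | exact hbc h
          | exact hab h.symm
          | exact hac h.symm
          | exact hbc h.symm)
  let X : Fin 3 ↪ Cfsg.GolayPt := ⟨![y, y', z], hinj3 _ _ _ (Ne.symm hne) (Ne.symm hzy) (Ne.symm hzy')⟩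
  let Y : Fin 3 ↪ Cfsg.GolayPt := ⟨![y', y, z], hinj3 _ _ _ hne (Ne.symm hzy') (Ne.symm hzy)⟩
  have hXout : ∀ i, X i ∉ Finset.univ \ d := by
    intro i
    simp only [Finset.mem_sdiff, Finset.mem_univ, true_and, not_not]
    fin_cases i
    · exact hyd
    · exact hy'
    · exact hzd
  have hYout : ∀ i, Y i ∉ Finset.univ \ d := by
    intro i
    simp only [Finset.mem_sdiff, Finset.mem_univ, true_and, not_not]
    fin_cases i
    · exact hy'
    · exact hyd
    · exact hzd
  obtain ⟨u, hu, hu0⟩ := s0389 hdc (p := none) (by simp [hnd]) X Y hXout hYout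
  have hu1 : (u : Equiv.Perm Cfsg.GolayPt) y = y' := hu0 0
  have hud : (u : Equiv.Perm Cfsg.GolayPt) • d = d := by
    have h1 : u ∈ MulAction.stabilizer M24 (Finset.univ \ d) := hu.1
    exact (hcompl _).1 ((mem_stabilizer_M24_finset _ _).1 h1)
  have hun : (u : Equiv.Perm Cfsg.GolayPt) none = none := hu.2
  have h2 : (u : Equiv.Perm Cfsg.GolayPt) ∈ MulAut.conj k • Cfsg.Spor.M11 := by
    rw [hk2]
    exact (hM12' _).2 ⟨u.2, hud, hun⟩
  rw [Subgroup.mem_pointwise_smul_iff_inv_smul_mem] at h2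
  have e : (MulAut.conj k)⁻¹ • (u : Equiv.Perm Cfsg.GolayPt) = k⁻¹ * u * k := by
    rw [MulAut.smul_def, ← MulAut.conj_inv_apply]
  rw [e, hM11] at h2
  have h3 : k⁻¹ ((u : Equiv.Perm Cfsg.GolayPt) (k (some 0))) = some 0 := h2.2.2
  rw [Equiv.Perm.inv_eq_iff_eq, ← hy, hu1] at h3
  exact hne h3

end Cfsg.Agent.S5620
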