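import Cfsg.Statements.S5625
import Mathlib
import Cfsg.Agent.Lib.BasicSteiner.Count

set_option autoImplicit false
open Cfsg

namespace Cfsg.Agent.S5625

open Cfsg.Agent.Lib.BasicSteiner.Count

/-- In any Steiner system S(5, 8, 24) and for any set Y of three points, the blocks meeting Y in exactly 3, 2, 1 and 0 points number 21, 168, 360 and 210 respectively (so there are 759 blocks in all). -/
theorem result (α : Type*) [Fintype α] [DecidableEq α] (hα : Fintype.card α = 24) (B : Set (Finset α)) (hB : Cfsg.IsSteinerSystem 5 8 B) (Y : Finset α) (hY : Y.card = 3) : {b : Finset α | b ∈ B ∧ (b ∩ Y).card = 3}.ncard = 21 ∧ {b : Finset α | b ∈ B ∧ (b ∩ Y).card = 2}.ncard = 168 ∧ {b : Finset α | b ∈ B ∧ (b ∩ Y).card = 1}.ncard = 360 ∧ {b : Finset α | b ∈ B ∧ (b ∩ Y).card = 0}.ncard = 210 := by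
  classical
  have hK : ∀ c ∈ blocks B, (c ∩ Y).card < 4 := by
    intro c _
    have h1 : (c ∩ Y).card ≤ Y.card := Finset.card_le_card Finset.inter_subset_right
    omega
  have heq : ∀ j lam : ℕ, j ≤ 5 → 0 < (8 - j).choose (5 - j) →
      lam * (8 - j).choose (5 - j) = (24 - j).choose (5 - j) →
      ∑ i ∈ Finset.range 4, ((blocks B).filter (fun c => (c ∩ Y).card = i)).card * i.choose j =
        (3).choose j * lam := by
    intro j lam hj hpos hlam
    rw [← sum_choose_fiberwise B Y j 4 hK,
      sum_choose_inter_eq hB Y j lam hj hpos (by rw [hα]; exact hlam), hY]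
  have e0 := heq 0 759 (by norm_num) (by decide) (by decide)
  have e1 := heq 1 253 (by norm_num) (by decide) (by decide)
  have e2 := heq 2 77 (by norm_num) (by decide) (by decide)
  have e3 := heq 3 21 (by norm_num) (by decide) (by decide)
  simp only [Finset.sum_range_succ, Finset.sum_range_zero] at e0 e1 e2 e3
  have conv : ∀ i, {b : Finset α | b ∈ B ∧ (b ∩ Y).card = i}.ncard =
      ((blocks B).filter (fun c => (c ∩ Y).card = i)).card := by
    intro i
    rw [← Set.ncard_coe_finset]
    congr 1
    ext c
    simp [mem_blocks]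
  rw [conv, conv, conv, conv]
  generalize ((blocks B).filter (fun c => (c ∩ Y).card = 0)).card = x0 at *
  generalize ((blocks B).filter (fun c => (c ∩ Y).card = 1)).card = x1 at *
  generalize ((blocks B).filter (fun c => (c ∩ Y).card = 2)).card = x2 at *
  generalize ((blocks B).filter (fun c => (c ∩ Y).card = 3)).card = x3 at *
  norm_num [Nat.choose] at e0 e1 e2 e3
  omega

end Cfsg.Agent.S5625
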