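import Cfsg.Statements.S5627
import Cfsg.Agent.Lib.BasicSteiner.Plane4

set_option autoImplicit false

open Cfsg

namespace Cfsg.Agent.S5627

open Cfsg.Agent.Lib.BasicSteiner.Plane4

theorem result {α : Type*} [Fintype α] [DecidableEq α] (hα : Fintype.card α = 21) (L : Set (Finset α)) (hL : Cfsg.IsSteinerSystem 2 5 L) : {S : Finset α | (S.card = 4 ∧ ∀ l ∈ L, (l ∩ S).card ≤ 2)}.ncard = 2520 ∧ {H : Finset α | (H.card = 6 ∧ ∀ l ∈ L, (l ∩ H).card ≤ 2)}.ncard = 168 ∧ ∀ S : Finset α, (S.card = 4 ∧ ∀ l ∈ L, (l ∩ S).card ≤ 2) → ∃! H : Finset α, (H.card = 6 ∧ ∀ l ∈ L, (l ∩ H).card ≤ 2) ∧ S ⊆ H := by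
  have hP : Plane L := ⟨hα, hL⟩
  have key : ∀ k : ℕ, {S : Finset α | (S.card = k ∧ ∀ l ∈ L, (l ∩ S).card ≤ 2)} = ↑(I L k) := by
    intro k
    ext S
    simp only [Finset.mem_coe, mem_I]
    rfl
  refine ⟨?_, ?_, ?_⟩
  · rw [key, Set.ncard_coe_finset]; exact card_I_four hP
  · rw [key, Set.ncard_coe_finset]; exact card_I_six hP
  · rintro S ⟨hS, hI⟩
    exact existsUnique_hyperoval hP hS hI

end Cfsg.Agent.S5627
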