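import Cfsg.Statements.S5628
import Cfsg.Agent.Lib.BasicSteiner.Plane4

set_option autoImplicit false

open Cfsg Finset

namespace Cfsg.Agent.S5628

open Cfsg.Agent.Lib.BasicSteiner.Plane4

variable {α : Type*} [Fintype α] [DecidableEq α] {L : Set (Finset α)}

/-- Hyperoval hypotheses. -/
structure Hyp (L : Set (Finset α)) (H : Finset α) : Prop where
  plane : Plane L
  card : H.card = 6
  indep : Indep L H

variable {H : Finset α}

theorem Hyp.coll (h : Hyp L H) {p q r : α} (hp : p ∈ H) (hq : q ∈ H) (hr : r ∈ H)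
    (hpq : p ≠ q) (hpr : p ≠ r) (hqr : q ≠ r) : r ∉ ln L p q :=
  (h.plane.indep_iff.1 h.indep) p hp q hq r hr hpq hpr hqr

/-- Every line through a point of the hyperoval contains another one. -/
theorem Hyp.exists_second (h : Hyp L H) {u : α} (hu : u ∈ H) {l : Finset α} (hl : l ∈ L)
    (hul : u ∈ l) : ∃ v ∈ H, v ≠ u ∧ l = ln L u v := by
  classical
  have hP := h.plane
  have himg : (H.erase u).image (ln L u) = pencil L u := by
    apply eq_of_subset_of_card_le
    · intro m hm
      obtain ⟨v, hv, rfl⟩ := mem_image.1 hm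
      have hne : u ≠ v := (ne_of_mem_erase hv).symm
      exact mem_pencil.2 ⟨hP.ln_mem hne, hP.left_mem hne⟩
    · rw [hP.card_pencil, card_image_of_injOn, card_erase_of_mem hu, h.card]
      intro v hv v' hv' heq
      by_contra hne
      have hv1 := mem_erase.1 hv
      have hv2 := mem_erase.1 hv'
      have heq' : ln L u v = ln L u v' := heq
      apply h.coll hu hv1.2 hv2.2 hv1.1.symm hv2.1.symm hne
      rw [heq']
      exact hP.right_mem hv2.1.symm
  have hm : l ∈ (H.erase u).image (ln L u) := by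
    rw [himg]; exact mem_pencil.2 ⟨hl, hul⟩
  obtain ⟨v, hv, hvl⟩ := mem_image.1 hm
  exact ⟨v, (mem_erase.1 hv).2, (mem_erase.1 hv).1, hvl.symm⟩

/-- The partner of a point of the hyperoval with respect to a point off it. -/
theorem Hyp.exists_partner (h : Hyp L H) {p : α} (hp : p ∉ H) (u : H) :
    ∃ v : H, v ≠ u ∧ p ∈ ln L u v := by
  have hP := h.plane
  have hpu : p ≠ u := fun e => hp (e ▸ u.2)
  obtain ⟨v, hv, hvu, hl⟩ := h.exists_second u.2 (hP.ln_mem hpu) (hP.right_mem hpu)
  refine ⟨⟨v, hv⟩, fun e => hvu (congrArg Subtype.val e), ?_⟩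
  change p ∈ ln L u v
  rw [← hl]
  exact hP.left_mem hpu

theorem Hyp.partner_unique (h : Hyp L H) {p : α} (hp : p ∉ H) {u v v' : H}
    (hv : v ≠ u) (hv' : v' ≠ u) (h1 : p ∈ ln L u v) (h2 : p ∈ ln L u v') : v = v' := by
  by_contra hne
  have hP := h.plane
  have hne0 : (v : α) ≠ v' := fun e => hne (Subtype.ext e)
  have huv : (u : α) ≠ v := fun e => hv (Subtype.ext e.symm)
  have huv' : (u : α) ≠ v' := fun e => hv' (Subtype.ext e.symm)
  have hpu : p ≠ u := fun e => hp (e ▸ u.2)
  have h3 := hP.line_eq_of_two (hP.ln_mem huv) (hP.ln_mem huv') hpu h1 (hP.left_mem huv) h2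
    (hP.left_mem huv')
  apply h.coll u.2 v.2 v'.2 huv huv' hne0
  rw [h3]
  exact hP.right_mem huv'

open Classical in
/-- The partner function. -/
noncomputable def part (L : Set (Finset α)) (H : Finset α) (p : α) (u : H) : H :=
  if e : ∃ v : H, v ≠ u ∧ p ∈ ln L u v then e.choose else u

theorem Hyp.part_spec (h : Hyp L H) {p : α} (hp : p ∉ H) (u : H) :
    part L H p u ≠ u ∧ p ∈ ln L u (part L H p u) := by
  have e := h.exists_partner hp u
  rw [part, dif_pos e]
  exact e.choose_spec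

theorem Hyp.part_eq (h : Hyp L H) {p : α} (hp : p ∉ H) {u v : H} (hv : v ≠ u)
    (h1 : p ∈ ln L u v) : part L H p u = v :=
  h.partner_unique hp (h.part_spec hp u).1 hv (h.part_spec hp u).2 h1

theorem Hyp.part_invol (h : Hyp L H) {p : α} (hp : p ∉ H) (u : H) :
    part L H p (part L H p u) = u := by
  have hP := h.plane
  obtain ⟨h1, h2⟩ := h.part_spec hp u
  have huv : (u : α) ≠ part L H p u := fun e => h1 (Subtype.ext e.symm)
  apply h.part_eq hp h1.symm
  rw [hP.ln_comm huv.symm]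
  exact h2

/-- Points off the hyperoval are determined by their partner functions. -/
theorem Hyp.eq_of_part (h : Hyp L H) {p q : α} (hp : p ∉ H) (hq : q ∉ H)
    (hpq : ∀ u, part L H p u = part L H q u) : p = q := by
  classical
  have hP := h.plane
  have hne : (univ : Finset H).Nonempty := by
    rw [← card_pos, card_univ, Fintype.card_coe, h.card]; omega
  obtain ⟨u, -⟩ := hne
  set v := part L H p u with hv
  obtain ⟨w, hw⟩ : ∃ w : H, w ≠ u ∧ w ≠ v := by
    have hc : ((univ : Finset H).erase u).erase v ≠ ∅ := by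
      intro he
      have := card_le_card (show (univ : Finset H) ⊆ insert v (insert u ∅) by
        intro x _
        by_contra hx
        simp only [mem_insert, notMem_empty, or_false, not_or] at hx
        have : x ∈ ((univ : Finset H).erase u).erase v := by
          simp [hx.1, hx.2]
        rw [he] at this
        simp at this)
      rw [card_univ, Fintype.card_coe, h.card] at this
      have h2 := card_insert_le v (insert u (∅ : Finset H))
      have h3 := card_insert_le u (∅ : Finset H)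
      simp only [card_empty] at h2 h3
      omega
    obtain ⟨w, hw⟩ := nonempty_iff_ne_empty.2 hc
    simp only [mem_erase, mem_univ, and_true] at hw
    exact ⟨w, hw.2, hw.1⟩
  obtain ⟨huv1, huv2⟩ := h.part_spec hp u
  obtain ⟨hw1, hw2⟩ := h.part_spec hp w
  have huv3 := h.part_spec hq u
  have hw3 := h.part_spec hq w
  rw [← hpq u] at huv3
  rw [← hpq w] at hw3
  by_contra hne
  have huv' : (u : α) ≠ part L H p u := fun e => huv1 (Subtype.ext e.symm)
  have hww' : (w : α) ≠ part L H p w := fun e => hw1 (Subtype.ext e.symm)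
  have h1 := hP.line_eq_of_two (hP.ln_mem huv') (hP.ln_mem hww') hne huv2 huv3.2 hw2 hw3.2
  apply h.coll u.2 (part L H p u).2 w.2 huv' (fun e => hw.1 (Subtype.ext e.symm))
    (fun e => hw.2 (Subtype.ext e.symm))
  rw [h1]
  exact hP.left_mem hww'

/-- Concurrency: each fixed-point-free involution of the hyperoval comes from a point off it. -/
theorem Hyp.exists_point (h : Hyp L H) (π : H → H) (hinv : ∀ u, π (π u) = u) (hfix : ∀ u, π u ≠ u) :
    ∃ p, p ∉ H ∧ ∀ u, part L H p u = π u := by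
  classical
  have hP := h.plane
  have hcard : Fintype.card H = 6 := by rw [Fintype.card_coe, h.card]
  have hπinj : Function.Injective π := fun a b hab => by rw [← hinv a, hab, hinv b]
  obtain ⟨u₁⟩ : Nonempty H := Fintype.card_pos_iff.1 (by omega)
  obtain ⟨u₂, hu₂⟩ : ∃ u₂ : H, u₂ ∉ ({u₁, π u₁} : Finset H) := by
    by_contra hcon
    push Not at hcon
    have := card_le_card (show (univ : Finset H) ⊆ {u₁, π u₁} from fun x _ => hcon x)
    rw [card_univ, hcard] at this
    have h2 := card_le_two (a := u₁) (b := π u₁)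
    omega
  simp only [mem_insert, mem_singleton, not_or] at hu₂
  have h12 : (u₁ : α) ≠ π u₁ := fun e => hfix u₁ (Subtype.ext e.symm)
  have h34 : (u₂ : α) ≠ π u₂ := fun e => hfix u₂ (Subtype.ext e.symm)
  have h13 : (u₁ : α) ≠ u₂ := fun e => hu₂.1 (Subtype.ext e.symm)
  have h23 : ((π u₁ : H) : α) ≠ u₂ := fun e => hu₂.2 (Subtype.ext e.symm)
  have hv₂1 : π u₂ ≠ u₁ := fun e => hu₂.2 (by rw [← e, hinv])
  have hv₂2 : π u₂ ≠ π u₁ := fun e => hu₂.1 (hπinj e)
  have hlne : ln L (u₁ : α) (π u₁) ≠ ln L (u₂ : α) (π u₂) := by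
    intro e
    apply h.coll u₁.2 (π u₁).2 u₂.2 h12 h13 h23
    rw [e]; exact hP.left_mem h34
  obtain ⟨p, hp1, hp2⟩ := hP.exists_meet (hP.ln_mem h12) (hP.ln_mem h34) hlne
  -- a point of the hyperoval on a secant is one of the two ends
  have hsec : ∀ {a b : H} {z : α}, (a : α) ≠ b → z ∈ H → z ∈ ln L (a : α) b → z = a ∨ z = b := by
    intro a b z hab hz hzl
    by_contra hcon
    push Not at hcon
    exact h.coll a.2 b.2 hz hab (Ne.symm hcon.1) (Ne.symm hcon.2) hzl
  have hpH : p ∉ H := by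
    intro hpH
    rcases hsec h12 hpH hp1 with h1 | h1 <;> rcases hsec h34 hpH hp2 with h2 | h2
    · exact h13 (h1.symm.trans h2)
    · exact hv₂1 (Subtype.ext (h2.symm.trans h1))
    · exact h23 (h1.symm.trans h2)
    · exact hv₂2 (Subtype.ext (h2.symm.trans h1))
  refine ⟨p, hpH, ?_⟩
  have hp₁ : part L H p u₁ = π u₁ := h.part_eq hpH (hfix u₁) hp1
  have hp₂ : part L H p u₂ = π u₂ := h.part_eq hpH (hfix u₂) hp2
  have hp₃ : part L H p (π u₁) = u₁ := by rw [← hp₁, h.part_invol hpH]
  have hp₄ : part L H p (π u₂) = u₂ := by rw [← hp₂, h.part_invol hpH]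
  intro u
  by_cases hu1 : u = u₁
  · rw [hu1]; exact hp₁
  by_cases hu2 : u = π u₁
  · rw [hu2, hp₃, hinv]
  by_cases hu3 : u = u₂
  · rw [hu3]; exact hp₂
  by_cases hu4 : u = π u₂
  · rw [hu4, hp₄, hinv]
  -- the remaining two points
  set v := part L H p u with hv
  have hvu : v ≠ u := (h.part_spec hpH u).1
  have hvinv : part L H p v = u := h.part_invol hpH u
  have hO : ∀ w : H, w ≠ u₁ → w ≠ π u₁ → w ≠ u₂ → w ≠ π u₂ →
      w ∈ (univ : Finset H) \ {u₁, π u₁, u₂, π u₂} := by
    intro w h1 h2 h3 h4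
    simp [h1, h2, h3, h4]
  have hOc : ((univ : Finset H) \ {u₁, π u₁, u₂, π u₂}).card = 2 := by
    rw [card_sdiff_of_subset (subset_univ _), card_univ, hcard]
    have : ({u₁, π u₁, u₂, π u₂} : Finset H).card = 4 := by
      rw [card_insert_of_notMem, card_insert_of_notMem, card_pair]
      · exact hfix u₂ |>.symm
      · simp only [mem_insert, mem_singleton, not_or]
        exact ⟨fun e => hu₂.2 e.symm, hv₂2.symm⟩
      · simp only [mem_insert, mem_singleton, not_or]
        exact ⟨(hfix u₁).symm, fun e => hu₂.1 e.symm, hv₂1.symm⟩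
    omega
  have hvO : v ∈ (univ : Finset H) \ {u₁, π u₁, u₂, π u₂} := by
    apply hO
    · intro e; apply hu2; rw [← hvinv, e, hp₁]
    · intro e; apply hu1; rw [← hvinv, e, hp₃]
    · intro e; apply hu4; rw [← hvinv, e, hp₂]
    · intro e; apply hu3; rw [← hvinv, e, hp₄]
  have hπO : π u ∈ (univ : Finset H) \ {u₁, π u₁, u₂, π u₂} := by
    apply hO
    · intro e; apply hu2; rw [← hinv u, e]
    · intro e; apply hu1; exact hπinj e
    · intro e; apply hu4; rw [← hinv u, e]
    · intro e; apply hu3; exact hπinj e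
  have huO := hO u hu1 hu2 hu3 hu4
  by_contra hne
  have : 2 < ((univ : Finset H) \ {u₁, π u₁, u₂, π u₂}).card :=
    two_lt_card.2 ⟨u, huO, v, hvO, π u, hπO, hvu.symm, (hfix u).symm, hne⟩
  omega

/-- At most two lines through a point off the hyperoval miss it. -/
theorem Hyp.three_ext_false (h : Hyp L H) {q : α} (hq : q ∉ H) {e₁ e₂ e₃ : Finset α}
    (h1 : e₁ ∈ L) (h2 : e₂ ∈ L) (h3 : e₃ ∈ L) (q1 : q ∈ e₁) (q2 : q ∈ e₂) (q3 : q ∈ e₃)
    (d1 : ∀ u ∈ H, u ∉ e₁) (d2 : ∀ u ∈ H, u ∉ e₂) (d3 : ∀ u ∈ H, u ∉ e₃)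
    (h12 : e₁ ≠ e₂) (h13 : e₁ ≠ e₃) (h23 : e₂ ≠ e₃) : False := by
  classical
  have hP := h.plane
  have hqne : ∀ u ∈ H, q ≠ u := fun u hu e => hq (e ▸ hu)
  have himg : H.image (ln L q) ⊆ pencil L q \ {e₁, e₂, e₃} := by
    intro m hm
    obtain ⟨u, hu, rfl⟩ := mem_image.1 hm
    refine mem_sdiff.2 ⟨mem_pencil.2 ⟨hP.ln_mem (hqne u hu), hP.left_mem (hqne u hu)⟩, ?_⟩
    simp only [mem_insert, mem_singleton, not_or]
    refine ⟨fun e => d1 u hu (e ▸ hP.right_mem (hqne u hu)),
      fun e => d2 u hu (e ▸ hP.right_mem (hqne u hu)),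
      fun e => d3 u hu (e ▸ hP.right_mem (hqne u hu))⟩
  have hc : (pencil L q \ {e₁, e₂, e₃}).card = 2 := by
    rw [card_sdiff_of_subset, hP.card_pencil, card_eq_three.2 ⟨e₁, e₂, e₃, h12, h13, h23, rfl⟩]
    intro m hm
    simp only [mem_insert, mem_singleton] at hm
    rcases hm with rfl | rfl | rfl
    · exact mem_pencil.2 ⟨h1, q1⟩
    · exact mem_pencil.2 ⟨h2, q2⟩
    · exact mem_pencil.2 ⟨h3, q3⟩
  have h4 := card_le_mul_card_image (f := ln L q) H 2 (by
    intro m hm
    obtain ⟨u, hu, rfl⟩ := mem_image.1 hm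
    refine le_trans (card_le_card ?_) (h.indep _ (hP.ln_mem (hqne u hu)))
    intro v hv
    obtain ⟨hvH, hvl⟩ := mem_filter.1 hv
    exact mem_inter.2 ⟨hvl ▸ hP.right_mem (hqne v hvH), hvH⟩)
  have h5 := card_le_card himg
  rw [hc] at h5
  rw [h.card] at h4
  omega

/-- A 5-clique of the non-secant graph is a line. -/
theorem Hyp.clique (h : Hyp L H) {X : Finset α} (hXc : X.card = 5) (hXH : ∀ x ∈ X, x ∉ H)
    (hadj : ∀ x ∈ X, ∀ y ∈ X, x ≠ y → ∀ u ∈ H, u ∉ ln L x y) : ∃ l ∈ L, X ⊆ l := by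
  classical
  have hP := h.plane
  -- the configuration to exclude
  have hT : ∀ q a c b : α, q ∈ X → a ∈ X → c ∈ X → b ∈ X → q ≠ a → q ≠ c → a ≠ c → q ≠ b →
      a ≠ b → c ≠ b → c ∈ ln L q a → b ∉ ln L q a → False := by
    intro q a c b hq ha hc hb hqa hqc hac hqb hab hcb hcl hbl
    have hlqa := hP.ln_mem hqa
    have hql := hP.left_mem hqa
    have hal := hP.right_mem hqa
    have hbq : b ≠ q := hqb.symm
    have hba : b ≠ a := hab.symm
    have hbc : b ≠ c := hcb.symm
    have key : ∀ l ∈ L, ∀ x y : α, x ≠ y → x ∈ ln L q a → y ∈ ln L q a → x ∈ l → y ∈ l → b ∉ l := by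
      intro l hl x y hxy hx hy hxl hyl hbl'
      have := hP.line_eq_of_two hl hlqa hxy hxl hyl hx hy
      exact hbl (this ▸ hbl')
    refine h.three_ext_false (hXH b hb) (hP.ln_mem hbq) (hP.ln_mem hba) (hP.ln_mem hbc)
      (hP.left_mem hbq) (hP.left_mem hba) (hP.left_mem hbc) (hadj b hb q hq hbq)
      (hadj b hb a ha hba) (hadj b hb c hc hbc) ?_ ?_ ?_
    · intro e
      exact key _ (hP.ln_mem hbq) q a hqa hql hal (hP.right_mem hbq)
        (e ▸ hP.right_mem hba) (hP.left_mem hbq)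
    · intro e
      exact key _ (hP.ln_mem hbq) q c hqc hql hcl (hP.right_mem hbq)
        (e ▸ hP.right_mem hbc) (hP.left_mem hbq)
    · intro e
      exact key _ (hP.ln_mem hba) a c hac hal hcl (hP.right_mem hba)
        (e ▸ hP.right_mem hbc) (hP.left_mem hba)
  obtain ⟨q, a, hq, ha, hqa⟩ : ∃ q a, q ∈ X ∧ a ∈ X ∧ q ≠ a := by
    obtain ⟨q, hq, a, ha, hqa⟩ := one_lt_card.1 (by omega : 1 < X.card)
    exact ⟨q, a, hq, ha, hqa⟩
  by_contra hcon
  push Not at hcon
  obtain ⟨b, hb, hbl⟩ : ∃ b ∈ X, b ∉ ln L q a := by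
    have := hcon _ (hP.ln_mem hqa)
    exact not_subset.1 this
  have hql := hP.left_mem hqa
  have hal := hP.right_mem hqa
  have hqb : q ≠ b := fun e => hbl (e ▸ hql)
  have hab : a ≠ b := fun e => hbl (e ▸ hal)
  obtain ⟨c, hc, hcne⟩ : ∃ c ∈ X, c ∉ ({q, a, b} : Finset α) := by
    by_contra hcon2
    push Not at hcon2
    have := card_le_card (show X ⊆ {q, a, b} from hcon2)
    rw [card_eq_three.2 ⟨q, a, b, hqa, hqb, hab, rfl⟩] at this
    omega
  simp only [mem_insert, mem_singleton, not_or] at hcne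
  obtain ⟨hcq, hca, hcb⟩ := hcne
  have hne12 : ln L q a ≠ ln L q b := fun e => hbl (e ▸ hP.right_mem hqb)
  have hqc : q ≠ c := fun e => hcq e.symm
  by_cases hc1 : c ∈ ln L q a
  · exact hT q a c b hq ha hc hb hqa hqc (fun e => hca e.symm) hqb hab hcb hc1 hbl
  by_cases hc2 : c ∈ ln L q b
  · refine hT q b c a hq hb hc ha hqb hqc (fun e => hcb e.symm) hqa hab.symm hca hc2 ?_
    intro hal2
    apply hne12
    exact (hP.ln_eq hqa (hP.ln_mem hqb) (hP.left_mem hqb) hal2)
  · refine h.three_ext_false (hXH q hq) (hP.ln_mem hqa) (hP.ln_mem hqb) (hP.ln_mem hqc)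
      (hP.left_mem hqa) (hP.left_mem hqb) (hP.left_mem hqc) (hadj q hq a ha hqa)
      (hadj q hq b hb hqb) (hadj q hq c hc hqc) hne12 ?_ ?_
    · intro e; exact hc1 (e ▸ hP.right_mem hqc)
    · intro e; exact hc2 (e ▸ hP.right_mem hqc)

open scoped Pointwise

theorem image_mem_of_aut {g : Equiv.Perm α} (hg : g ∈ setSystemAut L) {l : Finset α} (hl : l ∈ L) :
    l.image g ∈ L := by
  have h1 : g • L = L := MulAction.mem_stabilizer_iff.1 hg
  have h2 : g • l ∈ g • L := Set.smul_mem_smul_set hl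
  rw [h1] at h2
  have h3 : g • l = l.image g := by
    rw [Finset.smul_finset_def]
    rfl
  rwa [h3] at h2

theorem mem_aut_of_image {g : Equiv.Perm α} (hg : ∀ l ∈ L, l.image g ∈ L) :
    g ∈ setSystemAut L := by
  have hfin : L.Finite := Set.toFinite L
  have hsub : g • L ⊆ L := by
    intro x hx
    obtain ⟨l, hl, rfl⟩ := Set.mem_smul_set.1 hx
    have h3 : g • l = l.image g := by
      rw [Finset.smul_finset_def]
      rfl
    rw [h3]
    exact hg l hl
  exact MulAction.mem_stabilizer_iff.2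
    (Set.eq_of_subset_of_ncard_le hsub (by rw [Set.ncard_smul_set]) hfin)

/-- An automorphism fixing the hyperoval pointwise is trivial. -/
theorem Hyp.aut_eq_one (h : Hyp L H) {g : Equiv.Perm α} (hg : g ∈ setSystemAut L)
    (hfix : ∀ p ∈ H, g p = p) : g = 1 := by
  classical
  have hP := h.plane
  -- secants are fixed
  have hsec : ∀ {u v x : α}, u ∈ H → v ∈ H → u ≠ v → x ∈ ln L u v → g x ∈ ln L u v := by
    intro u v x hu hv huv hx
    have h1 := image_mem_of_aut hg (hP.ln_mem huv)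
    have h2 : u ∈ (ln L u v).image g := mem_image.2 ⟨u, hP.left_mem huv, hfix u hu⟩
    have h3 : v ∈ (ln L u v).image g := mem_image.2 ⟨v, hP.right_mem huv, hfix v hv⟩
    have h4 : g x ∈ (ln L u v).image g := mem_image.2 ⟨x, hx, rfl⟩
    rwa [← hP.ln_eq huv h1 h2 h3] at h4
  ext x
  change g x = x
  by_cases hx : x ∈ H
  · exact hfix x hx
  by_contra hne
  have hcard : Fintype.card H = 6 := by rw [Fintype.card_coe, h.card]
  obtain ⟨u⟩ : Nonempty H := Fintype.card_pos_iff.1 (by omega)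
  obtain ⟨w, hw⟩ : ∃ w : H, w ∉ ({u, part L H x u} : Finset H) := by
    by_contra hcon
    push Not at hcon
    have := card_le_card (show (univ : Finset H) ⊆ {u, part L H x u} from fun y _ => hcon y)
    rw [card_univ, hcard] at this
    have h2 := card_le_two (a := u) (b := part L H x u)
    omega
  simp only [mem_insert, mem_singleton, not_or] at hw
  obtain ⟨hu1, hu2⟩ := h.part_spec hx u
  obtain ⟨hw1, hw2⟩ := h.part_spec hx w
  have huv : (u : α) ≠ part L H x u := fun e => hu1 (Subtype.ext e.symm)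
  have hwv : (w : α) ≠ part L H x w := fun e => hw1 (Subtype.ext e.symm)
  have h1 := hsec u.2 (part L H x u).2 huv hu2
  have h2 := hsec w.2 (part L H x w).2 hwv hw2
  have h3 := hP.line_eq_of_two (hP.ln_mem huv) (hP.ln_mem hwv) hne h1 hu2 h2 hw2
  apply h.coll u.2 (part L H x u).2 w.2 huv (fun e => hw.1 (Subtype.ext e.symm))
    (fun e => hw.2 (Subtype.ext e.symm))
  rw [h3]
  exact hP.left_mem hwv

theorem result {α : Type*} [Fintype α] [DecidableEq α] (hα : Fintype.card α = 21) (L : Set (Finset α)) (hL : Cfsg.IsSteinerSystem 2 5 L) (H : Finset α) (hH : (H.card = 6 ∧ ∀ l ∈ L, (l ∩ H).card ≤ 2)) (σ : Equiv.Perm ↥H) : ∃! g : Equiv.Perm α, g ∈ Cfsg.setSystemAut L ∧ ∀ p : ↥H, g p = σ p := by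
  classical
  have hP : Plane L := ⟨hα, hL⟩
  have h : Hyp L H := ⟨hP, hH.1, hH.2⟩
  have hs1 : ∀ a, σ⁻¹ (σ a) = a := fun a => by simp
  have hs2 : ∀ a, σ (σ⁻¹ a) = a := fun a => by simp
  -- the action on points off the hyperoval
  have key : ∀ x, x ∉ H → ∃ x', x' ∉ H ∧ ∀ u, part L H x' u = σ (part L H x (σ⁻¹ u)) := by
    intro x hx
    refine h.exists_point (fun u => σ (part L H x (σ⁻¹ u))) ?_ ?_
    · intro u
      simp only [hs1, h.part_invol hx, hs2]
    · intro u e
      apply (h.part_spec hx (σ⁻¹ u)).1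
      apply σ.injective
      rw [e, hs2]
  haveI : Nonempty α := by
    rw [← Fintype.card_pos_iff, hα]; omega
  choose! Θ hΘ1 hΘ2 using key
  let g : α → α := fun x => if hx : x ∈ H then ((σ ⟨x, hx⟩ : H) : α) else Θ x
  have g1 : ∀ p : H, g p = σ p := by
    intro p
    simp only [g, dif_pos p.2]
  have g2 : ∀ x, x ∉ H → g x = Θ x := fun x hx => by simp only [g, dif_neg hx]
  have ginj : Function.Injective g := by
    intro x y hxy
    by_cases hx : x ∈ H <;> by_cases hy : y ∈ H
    · have h1 := g1 ⟨x, hx⟩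
      have h2 := g1 ⟨y, hy⟩
      simp only at h1 h2
      rw [hxy, h2] at h1
      have := σ.injective (Subtype.ext h1)
      exact (congrArg Subtype.val this).symm
    · exfalso
      have h1 := g1 ⟨x, hx⟩
      simp only at h1
      rw [hxy, g2 y hy] at h1
      exact hΘ1 y hy (h1 ▸ (σ ⟨x, hx⟩).2)
    · exfalso
      have h1 := g1 ⟨y, hy⟩
      simp only at h1
      rw [← hxy, g2 x hx] at h1
      exact hΘ1 x hx (h1 ▸ (σ ⟨y, hy⟩).2)
    · rw [g2 x hx, g2 y hy] at hxy
      apply h.eq_of_part hx hy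
      intro u
      have h1 := hΘ2 x hx (σ u)
      have h2 := hΘ2 y hy (σ u)
      rw [hxy, h2] at h1
      simp only [hs1] at h1
      exact (σ.injective h1).symm
  have gbij : Function.Bijective g := Finite.injective_iff_bijective.1 ginj
  let gE : Equiv.Perm α := Equiv.ofBijective g gbij
  have gE1 : ∀ x, gE x = g x := fun x => rfl
  -- lines map to lines
  have hline : ∀ l ∈ L, l.image gE ∈ L := by
    intro l hl
    have hcard : (l.image gE).card = 5 := by
      rw [card_image_of_injective _ gE.injective, hP.card_line hl]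
    by_cases hex : ∃ u ∈ H, u ∈ l
    · obtain ⟨u, hu, hul⟩ := hex
      obtain ⟨v, hv, hvu, hlv⟩ := h.exists_second hu hl hul
      set u' : H := σ ⟨u, hu⟩ with hu'
      set v' : H := σ ⟨v, hv⟩ with hv'
      have huv' : (u' : α) ≠ v' := by
        intro e
        have := σ.injective (Subtype.ext e)
        exact hvu (congrArg Subtype.val this).symm
      suffices hsub : l.image gE ⊆ ln L (u' : α) v' by
        have := eq_of_subset_of_card_le hsub (by rw [hcard, hP.card_line (hP.ln_mem huv')])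
        rw [this]
        exact hP.ln_mem huv'
      intro y hy
      obtain ⟨x, hx, rfl⟩ := mem_image.1 hy
      rw [gE1]
      by_cases hxH : x ∈ H
      · have : x = u ∨ x = v := by
          by_contra hcon
          push Not at hcon
          apply h.coll hu hv hxH (Ne.symm hvu) (Ne.symm hcon.1) (Ne.symm hcon.2)
          rw [← hlv]; exact hx
        rcases this with rfl | rfl
        · have := g1 ⟨x, hu⟩
          simp only at this
          rw [this]
          exact hP.left_mem huv'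
        · have := g1 ⟨x, hv⟩
          simp only at this
          rw [this]
          exact hP.right_mem huv'
      · rw [g2 x hxH]
        have h1 : part L H x ⟨u, hu⟩ = ⟨v, hv⟩ := by
          apply h.part_eq hxH (fun e => hvu (congrArg Subtype.val e))
          change x ∈ ln L u v
          rw [← hlv]; exact hx
        have h2 := hΘ2 x hxH u'
        have h3 : σ⁻¹ u' = ⟨u, hu⟩ := by rw [hu', hs1]
        rw [h3, h1] at h2
        have h4 := (h.part_spec (hΘ1 x hxH) u').2
        rw [h2] at h4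
        exact h4
    · push Not at hex
      have hne : ∀ x ∈ l, x ∉ H := fun x hx hxH => hex x hxH hx
      have hfam := h.clique (X := l.image gE) hcard (by
        intro y hy
        obtain ⟨x, hx, rfl⟩ := mem_image.1 hy
        rw [gE1, g2 x (hne x hx)]
        exact hΘ1 x (hne x hx)) (by
        intro y hy z hz hyz u' hu' hu'l
        obtain ⟨x₁, hx₁, rfl⟩ := mem_image.1 hy
        obtain ⟨x₂, hx₂, rfl⟩ := mem_image.1 hz
        have hne12 : x₁ ≠ x₂ := fun e => hyz (by rw [e])
        rw [gE1, gE1] at hyz hu'l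
        have hH1 := hne x₁ hx₁
        have hH2 := hne x₂ hx₂
        rw [g2 x₁ hH1, g2 x₂ hH2] at hyz hu'l
        obtain ⟨v', hv', hvu', hlv⟩ := h.exists_second hu' (hP.ln_mem hyz) hu'l
        have hUV : ∀ x, x ∉ H → Θ x ∈ ln L u' v' →
            x ∈ ln L ((σ⁻¹ ⟨u', hu'⟩ : H) : α) ((σ⁻¹ ⟨v', hv'⟩ : H) : α) := by
          intro x hx hΘx
          have h1 : part L H (Θ x) ⟨u', hu'⟩ = ⟨v', hv'⟩ :=
            h.part_eq (hΘ1 x hx) (fun e => hvu' (congrArg Subtype.val e)) hΘx
          rw [hΘ2 x hx] at h1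
          have h2 : part L H x (σ⁻¹ ⟨u', hu'⟩) = σ⁻¹ ⟨v', hv'⟩ := by
            rw [← h1, hs1]
          have h3 := (h.part_spec hx (σ⁻¹ ⟨u', hu'⟩)).2
          rwa [h2] at h3
        have hab : ((σ⁻¹ ⟨u', hu'⟩ : H) : α) ≠ ((σ⁻¹ ⟨v', hv'⟩ : H) : α) := by
          intro e
          have h1 := σ⁻¹.injective (Subtype.ext e)
          exact hvu' (congrArg Subtype.val h1).symm
        have h1 := hUV x₁ hH1 (by rw [← hlv]; exact hP.left_mem hyz)
        have h2 := hUV x₂ hH2 (by rw [← hlv]; exact hP.right_mem hyz)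
        have h3 := hP.line_eq_of_two (hP.ln_mem hab) hl hne12 h1 h2 hx₁ hx₂
        exact hex _ (σ⁻¹ ⟨u', hu'⟩).2 (h3 ▸ hP.left_mem hab))
      obtain ⟨l', hl', hsub⟩ := hfam
      have := eq_of_subset_of_card_le hsub (by rw [hcard, hP.card_line hl'])
      rw [this]
      exact hl'
  have hgE : gE ∈ setSystemAut L := mem_aut_of_image hline
  have hres : ∀ p : H, gE p = σ p := fun p => g1 p
  refine ⟨gE, ⟨hgE, hres⟩, ?_⟩
  rintro g' ⟨hg', hres'⟩
  have : gE⁻¹ * g' = 1 := by
    apply h.aut_eq_one (mul_mem (inv_mem hgE) hg')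
    intro p hp
    have h1 := hres' ⟨p, hp⟩
    have h2 := hres ⟨p, hp⟩
    simp only at h1 h2
    rw [Equiv.Perm.mul_apply, h1, ← h2]
    simp
  exact (inv_mul_eq_one.1 this).symm

end Cfsg.Agent.S5628
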