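import Cfsg.Statements.S5632
import Mathlib
import Cfsg.Agent.Lib.Classical.Geo.Basic
-- import your own Cfsg.Agent.* helpers here

set_option autoImplicit false
open Cfsg

namespace Cfsg.Agent.S5632

open Cfsg.Agent.Lib.Classical.Geo.Basic

/-- For a finite field F and subspaces 0 < W < U of F^n with dim W + dim U = n, the elements of SL_n(F) stabilising both W and U form a subgroup that is not maximal in SL_n(F): some subgroup lies strictly between it and SL_n(F). -/
theorem result {F : Type*} [Field F] [Fintype F] (n : ℕ) (W U : Submodule F (Fin n → F)) (hW0 : W ≠ ⊥) (hWU : W < U) (hdim : Module.finrank F W + Module.finrank F U = n) : ∃ K : Subgroup (Matrix.GeneralLinearGroup (Fin n) F), Cfsg.Geo.subspaceStabilizer W ⊓ Cfsg.Geo.subspaceStabilizer U ⊓ Cfsg.Geo.specialLinear (Fin n) F < K ∧ K < Cfsg.Geo.specialLinear (Fin n) F := by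
  have hWtop : W ≠ ⊤ := ne_top_of_lt hWU
  have hUtop : U ≠ ⊤ := by
    rintro rfl
    have hfw : Module.finrank F (⊤ : Submodule F (Fin n → F)) = n := by simp
    have hpos : 0 < Module.finrank F W := by
      rw [Module.finrank_pos_iff]
      exact Submodule.nontrivial_iff_ne_bot.2 hW0
    omega
  -- K is the stabiliser of W in SL
  refine ⟨Cfsg.Geo.subspaceStabilizer W ⊓ Cfsg.Geo.specialLinear (Fin n) F, ?_, ?_⟩
  · obtain ⟨u, huU, huW⟩ := SetLike.exists_of_lt hWU
    obtain ⟨t, htS, htfix, htu⟩ := exists_tv_fix_move huU huW hUtop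
    refine lt_of_le_of_mem_not_mem (x := t) ?_ ⟨mem_subspaceStabilizer_of_fix t W htfix, htS⟩ ?_
    · exact inf_le_inf_right _ inf_le_left
    · rintro ⟨⟨_, hU⟩, _⟩
      exact htu ((hU u).1 huU)
  · obtain ⟨w, hwW, hw0⟩ := Submodule.exists_mem_ne_zero_of_ne_bot hW0
    have hw0' : w ∉ (⊥ : Submodule F (Fin n → F)) := by simpa using hw0
    obtain ⟨t, htS, -, htw⟩ := exists_tv_fix_move hwW hw0' hWtop
    refine lt_of_le_of_mem_not_mem (x := t) inf_le_right htS ?_
    rintro ⟨hW, _⟩
    exact htw ((hW w).1 hwW)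

end Cfsg.Agent.S5632
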