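import Cfsg.Statements.S5633
import Mathlib
import Cfsg.Agent.Lib.Classical.Geo.Basic
-- import your own Cfsg.Agent.* helpers here

set_option autoImplicit false
open Cfsg

namespace Cfsg.Agent.S5633

open Cfsg.Agent.Lib.Classical.Geo.Basic

/-- For a finite field F and complementary non-zero subspaces W ⊕ U = F^n with dim W < dim U, the elements of SL_n(F) stabilising both W and U form a subgroup that is not maximal in SL_n(F): some subgroup lies strictly between it and SL_n(F). -/
theorem result {F : Type*} [Field F] [Fintype F] (n : ℕ) (W U : Submodule F (Fin n → F)) (hW0 : W ≠ ⊥) (hWU : W ⊓ U = ⊥) (hWU' : W ⊔ U = ⊤) (hdim : Module.finrank F W < Module.finrank F U) : ∃ K : Subgroup (Matrix.GeneralLinearGroup (Fin n) F), Cfsg.Geo.subspaceStabilizer W ⊓ Cfsg.Geo.subspaceStabilizer U ⊓ Cfsg.Geo.specialLinear (Fin n) F < K ∧ K < Cfsg.Geo.specialLinear (Fin n) F := by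
  have hWtop : W ≠ ⊤ := by
    rintro rfl
    have hU : U = ⊥ := by simpa using hWU
    rw [hU] at hdim
    simp at hdim
  have hUtop : U ≠ ⊤ := by
    rintro rfl
    exact hW0 (by simpa using hWU)
  have hUne : U ≠ ⊥ := by
    rintro rfl
    simp at hdim
  refine ⟨Cfsg.Geo.subspaceStabilizer W ⊓ Cfsg.Geo.specialLinear (Fin n) F, ?_, ?_⟩
  · obtain ⟨u, huU, hu0⟩ := Submodule.exists_mem_ne_zero_of_ne_bot hUne
    have huW : u ∉ W := by
      intro huW
      have : u ∈ W ⊓ U := ⟨huW, huU⟩
      rw [hWU] at this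
      exact hu0 (by simpa using this)
    obtain ⟨t, htS, htfix, htu⟩ := exists_tv_fix_move huU huW hUtop
    refine lt_of_le_of_mem_not_mem (x := t) ?_ ⟨mem_subspaceStabilizer_of_fix t W htfix, htS⟩ ?_
    · exact inf_le_inf_right _ inf_le_left
    · rintro ⟨⟨_, hU⟩, _⟩
      exact htu ((hU u).1 huU)
  · obtain ⟨w, hwW, hw0⟩ := Submodule.exists_mem_ne_zero_of_ne_bot hW0
    have hw0' : w ∉ (⊥ : Submodule F (Fin n → F)) := by simpa using hw0
    obtain ⟨t, htS, -, htw⟩ := exists_tv_fix_move hwW hw0' hWtop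
    refine lt_of_le_of_mem_not_mem (x := t) inf_le_right htS ?_
    rintro ⟨hW, _⟩
    exact htw ((hW w).1 hwW)

end Cfsg.Agent.S5633
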