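import Cfsg.Statements.S5635
import Mathlib
import Cfsg.Agent.Lib.Classical.Geo.Basic
-- import your own Cfsg.Agent.* helpers here

set_option autoImplicit false
open Cfsg

namespace Cfsg.Agent.S5635

open scoped MatrixGroups Matrix
open Module Cfsg.Geo Cfsg.Agent.Lib.Classical.Geo.Basic

section general

variable {F : Type*} [Field F] {n t m : ℕ} {D : Fin t → Submodule F (Fin n → F)}

/-- The sum of all members but the `i`-th. -/
def co (D : Fin t → Submodule F (Fin n → F)) (i : Fin t) : Submodule F (Fin n → F) :=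
  ⨆ k : {k : Fin t // k ≠ i}, D k

lemma le_co {k i : Fin t} (h : k ≠ i) : D k ≤ co D i :=
  le_iSup (fun k : {k : Fin t // k ≠ i} => D k) ⟨k, h⟩

open Classical in
/-- The number of members of the decomposition on which a vector has a nonzero component. -/
noncomputable def wt (D : Fin t → Submodule F (Fin n → F)) (x : Fin n → F) : ℕ :=
  (Finset.univ.filter fun i => x ∉ co D i).card

lemma co_map {g : GL (Fin n) F} {σ : Equiv.Perm (Fin t)}
    (hσ : ∀ i, (D i).map (Matrix.toLin' (g : Matrix (Fin n) (Fin n) F)) = D (σ i)) (i : Fin t) :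
    (co D i).map (Matrix.toLin' (g : Matrix (Fin n) (Fin n) F)) = co D (σ i) := by
  rw [co, Submodule.map_iSup]
  apply le_antisymm
  · apply iSup_le
    rintro ⟨k, hk⟩
    rw [hσ k]
    exact le_co (σ.injective.ne hk)
  · apply iSup_le
    rintro ⟨k, hk⟩
    have hk' : σ.symm k ≠ i := by
      rintro rfl
      exact hk (by simp)
    have h1 : D k = (D (σ.symm k)).map (Matrix.toLin' (g : Matrix (Fin n) (Fin n) F)) := by
      rw [hσ, Equiv.apply_symm_apply]
    rw [h1]
    exact le_iSup (fun k : {k : Fin t // k ≠ i} =>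
      (D k).map (Matrix.toLin' (g : Matrix (Fin n) (Fin n) F))) ⟨σ.symm k, hk'⟩

lemma wt_stab {g : GL (Fin n) F} (hg : g ∈ decompositionStabilizer D) (x : Fin n → F) :
    wt D ((g : Matrix (Fin n) (Fin n) F) *ᵥ x) = wt D x := by
  classical
  obtain ⟨σ, hσ⟩ := hg
  symm
  unfold wt
  apply Finset.card_equiv σ
  intro i
  simp only [Finset.mem_filter, Finset.mem_univ, true_and, not_iff_not]
  rw [← co_map hσ i, Submodule.mem_map]
  constructor
  · intro h
    exact ⟨x, h, by rw [Matrix.toLin'_apply]⟩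
  · rintro ⟨y, hy, hyx⟩
    rw [Matrix.toLin'_apply] at hyx
    have := mulVec_injective g hyx
    rwa [← this]

/-- The group of elements preserving a function. -/
def isoSub (Q : (Fin n → F) → F) : Subgroup (GL (Fin n) F) where
  carrier := {g | ∀ x, Q ((g : Matrix (Fin n) (Fin n) F) *ᵥ x) = Q x}
  mul_mem' := by
    intro a b ha hb x
    rw [Units.val_mul, ← Matrix.mulVec_mulVec, ha, hb]
  one_mem' := by
    intro x
    simp
  inv_mem' := by
    intro a ha x
    rw [← ha (((a⁻¹ : GL (Fin n) F) : Matrix (Fin n) (Fin n) F) *ᵥ x), mulVec_inv_mulVec]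

lemma mem_isoSub {Q : (Fin n → F) → F} {g : GL (Fin n) F} :
    g ∈ isoSub Q ↔ ∀ x, Q ((g : Matrix (Fin n) (Fin n) F) *ᵥ x) = Q x := Iff.rfl

/-- Assembling. -/
lemma final (Q : (Fin n → F) → F)
    (hQ : ∀ g ∈ decompositionStabilizer D, g ∈ isoSub Q)
    (g₁ : GL (Fin n) F) (hg₁ : g₁ ∈ specialLinear (Fin n) F) (hg₁Q : g₁ ∈ isoSub Q)
    (hg₁S : g₁ ∉ decompositionStabilizer D)
    (T : GL (Fin n) F) (hT : T ∈ specialLinear (Fin n) F) (hTQ : T ∉ isoSub Q) :
    ∃ K : Subgroup (Matrix.GeneralLinearGroup (Fin n) F),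
      decompositionStabilizer D ⊓ specialLinear (Fin n) F < K ∧ K < specialLinear (Fin n) F := by
  refine ⟨isoSub Q ⊓ specialLinear (Fin n) F, ?_, ?_⟩
  · rw [SetLike.lt_iff_le_and_exists]
    refine ⟨fun g hg => ⟨hQ g hg.1, hg.2⟩, g₁, ⟨hg₁Q, hg₁⟩, fun h => hg₁S h.1⟩
  · rw [SetLike.lt_iff_le_and_exists]
    exact ⟨inf_le_right, T, hT, fun h => hTQ h.1⟩

/-- A basis adapted to a decomposition. -/
lemma exists_basis (hD : IsMDecomposition m D) :
    ∃ b : Basis (Σ _ : Fin t, Fin m) F (Fin n → F),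
      (∀ i j, b ⟨i, j⟩ ∈ D i) ∧ (∀ (k i : Fin t) (j : Fin m) (u : Fin n → F), u ∈ D k → k ≠ i →
        b.repr u ⟨i, j⟩ = 0) := by
  classical
  have hint := DirectSum.isInternal_submodule_of_iSupIndep_of_iSup_eq_top hD.indep hD.iSup_eq_top
  let v : ∀ i, Basis (Fin m) F (D i) := fun i => Module.finBasisOfFinrankEq F (D i) (hD.finrank_eq i)
  refine ⟨hint.collectedBasis v, fun i j => hint.collectedBasis_mem v ⟨i, j⟩, ?_⟩
  intro k i j u hu hki
  exact hint.collectedBasis_repr_of_mem_ne v hki hu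

lemma card_eq (b : Basis (Σ _ : Fin t, Fin m) F (Fin n → F)) : t * m = n := by
  have := Module.finrank_eq_card_basis b
  simpa using this.symm

variable {b : Basis (Σ _ : Fin t, Fin m) F (Fin n → F)}

lemma repr_of_mem_co (h2 : ∀ (k i : Fin t) (j : Fin m) (u : Fin n → F), u ∈ D k → k ≠ i →
      b.repr u ⟨i, j⟩ = 0) {i : Fin t} {x : Fin n → F} (hx : x ∈ co D i) (j : Fin m) :
    b.repr x ⟨i, j⟩ = 0 := by
  have hle : co D i ≤ LinearMap.ker (b.coord ⟨i, j⟩) := by
    apply iSup_le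
    rintro ⟨k, hk⟩ u hu
    rw [LinearMap.mem_ker, Basis.coord_apply]
    exact h2 k i j u hu hk
  have := hle hx
  rwa [LinearMap.mem_ker, Basis.coord_apply] at this

lemma mem_co_of_repr (h1 : ∀ i j, b ⟨i, j⟩ ∈ D i) {i : Fin t} {x : Fin n → F}
    (hx : ∀ j, b.repr x ⟨i, j⟩ = 0) : x ∈ co D i := by
  classical
  rw [← b.sum_repr x]
  apply Submodule.sum_mem
  rintro ⟨k, j⟩ -
  by_cases hk : k = i
  · subst hk
    rw [hx, zero_smul]
    exact Submodule.zero_mem _
  · exact Submodule.smul_mem _ _ (le_co hk (h1 k j))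

lemma notMem_co_iff (h1 : ∀ i j, b ⟨i, j⟩ ∈ D i)
    (h2 : ∀ (k i : Fin t) (j : Fin m) (u : Fin n → F), u ∈ D k → k ≠ i → b.repr u ⟨i, j⟩ = 0)
    (i : Fin t) (x : Fin n → F) : x ∉ co D i ↔ ∃ j, b.repr x ⟨i, j⟩ ≠ 0 := by
  constructor
  · intro hx
    by_contra hall
    push Not at hall
    exact hx (mem_co_of_repr h1 hall)
  · rintro ⟨j, hj⟩ hx
    exact hj (repr_of_mem_co h2 hx j)

/-- A transvection which does not preserve the weight modulo the characteristic. -/
lemma exists_T (hD : IsMDecomposition m D)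
    (h1 : ∀ i j, b ⟨i, j⟩ ∈ D i)
    (h2 : ∀ (k i : Fin t) (j : Fin m) (u : Fin n → F), u ∈ D k → k ≠ i → b.repr u ⟨i, j⟩ = 0) :
    ∃ T : GL (Fin n) F, T ∈ specialLinear (Fin n) F ∧ T ∉ isoSub (fun x => (wt D x : F)) := by
  classical
  have hm : 0 < m := hD.pos
  have ht : 2 ≤ t := hD.two_le
  let i₀ : Fin t := ⟨0, by omega⟩
  let i₁ : Fin t := ⟨1, by omega⟩
  have hne : i₀ ≠ i₁ := by
    intro h
    have := congrArg Fin.val h
    simp [i₀, i₁] at this
  let j₀ : Fin m := ⟨0, hm⟩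
  let s₀ : (Σ _ : Fin t, Fin m) := ⟨i₀, j₀⟩
  let s₁ : (Σ _ : Fin t, Fin m) := ⟨i₁, j₀⟩
  have hs : s₀ ≠ s₁ := by
    intro h
    exact hne (congrArg Sigma.fst h)
  have hf : b.coord s₀ (b s₁) = 0 := by
    rw [Basis.coord_apply, Basis.repr_self, Finsupp.single_apply, if_neg hs.symm]
  refine ⟨tv (b.coord s₀) (b s₁) hf, tv_mem_specialLinear _ _ _, ?_⟩
  intro hmem
  have h3 := hmem (b s₀)
  rw [tv_mulVec, Basis.coord_apply, Basis.repr_self, Finsupp.single_eq_same, one_smul] at h3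
  have hw1 : wt D (b s₀) = 1 := by
    have : (Finset.univ.filter fun i => b s₀ ∉ co D i) = {i₀} := by
      ext i
      simp only [Finset.mem_filter, Finset.mem_univ, true_and, Finset.mem_singleton]
      constructor
      · intro hi
        by_contra hne'
        exact hi (le_co (Ne.symm hne') (h1 _ _))
      · rintro rfl
        rw [notMem_co_iff h1 h2]
        refine ⟨j₀, ?_⟩
        change b.repr (b s₀) s₀ ≠ 0
        rw [Basis.repr_self, Finsupp.single_eq_same]
        exact one_ne_zero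
    unfold wt
    convert (congrArg Finset.card this).trans (Finset.card_singleton i₀)
  have hw2 : wt D (b s₀ + b s₁) = 2 := by
    have : (Finset.univ.filter fun i => b s₀ + b s₁ ∉ co D i) = {i₀, i₁} := by
      ext i
      simp only [Finset.mem_filter, Finset.mem_univ, true_and, Finset.mem_insert,
        Finset.mem_singleton]
      constructor
      · intro hi
        by_contra hne'
        push Not at hne'
        exact hi (Submodule.add_mem _ (le_co (Ne.symm hne'.1) (h1 _ _))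
          (le_co (Ne.symm hne'.2) (h1 _ _)))
      · rintro (rfl | rfl)
        · rw [notMem_co_iff h1 h2]
          refine ⟨j₀, ?_⟩
          change b.repr (b s₀ + b s₁) s₀ ≠ 0
          rw [map_add, Finsupp.add_apply, Basis.repr_self, Basis.repr_self, Finsupp.single_eq_same,
            Finsupp.single_apply, if_neg hs.symm, add_zero]
          exact one_ne_zero
        · rw [notMem_co_iff h1 h2]
          refine ⟨j₀, ?_⟩
          change b.repr (b s₀ + b s₁) s₁ ≠ 0
          rw [map_add, Finsupp.add_apply, Basis.repr_self, Basis.repr_self, Finsupp.single_eq_same,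
            Finsupp.single_apply, if_neg hs, zero_add]
          exact one_ne_zero
    unfold wt
    have hc : ({i₀, i₁} : Finset (Fin t)).card = 2 := Finset.card_pair hne
    convert (congrArg Finset.card this).trans hc
  dsimp only at h3
  rw [hw1, hw2] at h3
  push_cast at h3
  have h4 : (1 : F) = 0 := by linear_combination h3
  exact one_ne_zero h4

/-- Moving a vector of a member to a vector which has nonzero coordinates in two distinct members. -/
lemma not_stab
    (h2 : ∀ (k i : Fin t) (j : Fin m) (u : Fin n → F), u ∈ D k → k ≠ i → b.repr u ⟨i, j⟩ = 0)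
    {g : GL (Fin n) F} {a : Fin t} {x : Fin n → F} (hx : x ∈ D a) {k₁ k₂ : Fin t} {j₁ j₂ : Fin m}
    (hk : k₁ ≠ k₂) (h₁ : b.repr ((g : Matrix (Fin n) (Fin n) F) *ᵥ x) ⟨k₁, j₁⟩ ≠ 0)
    (h₂ : b.repr ((g : Matrix (Fin n) (Fin n) F) *ᵥ x) ⟨k₂, j₂⟩ ≠ 0) :
    g ∉ decompositionStabilizer D := by
  rintro ⟨σ, hσ⟩
  have hy : (g : Matrix (Fin n) (Fin n) F) *ᵥ x ∈ D (σ a) := by
    rw [← hσ a, Submodule.mem_map]
    exact ⟨x, hx, by rw [Matrix.toLin'_apply]⟩
  have e1 : σ a = k₁ := by
    by_contra hne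
    exact h₁ (h2 _ _ _ _ hy hne)
  have e2 : σ a = k₂ := by
    by_contra hne
    exact h₂ (h2 _ _ _ _ hy hne)
  exact hk (e1.symm.trans e2)

end general

section fields

variable {F : Type*} [Field F] [Fintype F]

lemma card_facts (h : Fintype.card F ≤ 4) : (∀ a b : F, (a + b)⁻¹ = a⁻¹ + b⁻¹) ∧ (6 : F) = 0 := by
  have h2 : 2 ≤ Fintype.card F := Fintype.one_lt_card
  have hp := FiniteField.pow_card (K := F)
  have hc := FiniteField.cast_card_eq_zero F
  have hq : Fintype.card F = 2 ∨ Fintype.card F = 3 ∨ Fintype.card F = 4 := by omega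
  rcases hq with hq | hq | hq
  · rw [hq] at hc hp
    push_cast at hc
    have hi : ∀ a : F, a⁻¹ = a := by
      intro a
      by_cases ha : a = 0
      · simp [ha]
      · have h3 := hp a
        have h4 : a * (a - 1) = 0 := by linear_combination h3
        have h5 : a = 1 := by
          rcases mul_eq_zero.mp h4 with h6 | h6
          · exact absurd h6 ha
          · exact sub_eq_zero.mp h6
        rw [h5]
        simp
    refine ⟨fun a b => by rw [hi, hi, hi], ?_⟩
    linear_combination 3 * hc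
  · rw [hq] at hc hp
    push_cast at hc
    have hi : ∀ a : F, a⁻¹ = a := by
      intro a
      by_cases ha : a = 0
      · simp [ha]
      · have h3 := hp a
        have h4 : a * (a * a - 1) = 0 := by linear_combination h3
        have h5 : a * a = 1 := by
          rcases mul_eq_zero.mp h4 with h6 | h6
          · exact absurd h6 ha
          · exact sub_eq_zero.mp h6
        exact inv_eq_of_mul_eq_one_right h5
    refine ⟨fun a b => by rw [hi, hi, hi], ?_⟩
    linear_combination 2 * hc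
  · rw [hq] at hc hp
    push_cast at hc
    have h22 : (2 : F) = 0 := by
      have : (2 : F) * 2 = 0 := by linear_combination hc
      rcases mul_eq_zero.mp this with h | h <;> exact h
    have hi : ∀ a : F, a⁻¹ = a ^ 2 := by
      intro a
      by_cases ha : a = 0
      · simp [ha]
      · have h3 := hp a
        have h4 : a * (a ^ 3 - 1) = 0 := by linear_combination h3
        have h5 : a ^ 3 = 1 := by
          rcases mul_eq_zero.mp h4 with h6 | h6
          · exact absurd h6 ha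
          · exact sub_eq_zero.mp h6
        apply inv_eq_of_mul_eq_one_right
        linear_combination h5
    refine ⟨fun a b => ?_, ?_⟩
    · rw [hi, hi, hi]
      linear_combination a * b * h22
    · linear_combination 3 * h22

end fields

section one

variable {F : Type*} [Field F] {n t : ℕ} {D : Fin t → Submodule F (Fin n → F)}
  {b : Basis (Σ _ : Fin t, Fin 1) F (Fin n → F)}

lemma wt_eq_one
    (h1 : ∀ i j, b ⟨i, j⟩ ∈ D i)
    (h2 : ∀ (k i : Fin t) (j : Fin 1) (u : Fin n → F), u ∈ D k → k ≠ i → b.repr u ⟨i, j⟩ = 0)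
    (x : Fin n → F) :
    (wt D x : F) = ∑ i, b.coord ⟨i, 0⟩ x * (b.coord ⟨i, 0⟩ x)⁻¹ := by
  classical
  unfold wt
  rw [Finset.card_filter, Nat.cast_sum]
  apply Finset.sum_congr rfl
  intro i _
  have h3 : x ∉ co D i ↔ b.coord ⟨i, 0⟩ x ≠ 0 := by
    rw [notMem_co_iff h1 h2, Basis.coord_apply]
    constructor
    · rintro ⟨j, hj⟩
      have : j = 0 := Subsingleton.elim _ _
      rwa [this] at hj
    · intro hj
      exact ⟨0, hj⟩
  by_cases h : b.coord ⟨i, 0⟩ x = 0
  · rw [if_neg (fun hc => (h3.mp hc) h), h]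
    simp
  · rw [if_pos (h3.mpr h), mul_inv_cancel₀ h]
    simp

/-- The functional of a set of coordinates. -/
noncomputable def fS (b : Basis (Σ _ : Fin t, Fin 1) F (Fin n → F)) (S : Finset (Fin t)) :
    Dual F (Fin n → F) :=
  ∑ i ∈ S, b.coord ⟨i, 0⟩

/-- The sum of the basis vectors in a set of coordinates. -/
noncomputable def vS (b : Basis (Σ _ : Fin t, Fin 1) F (Fin n → F)) (S : Finset (Fin t)) :
    Fin n → F :=
  ∑ i ∈ S, b ⟨i, 0⟩

lemma fS_apply (S : Finset (Fin t)) (x : Fin n → F) :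
    fS b S x = ∑ i ∈ S, b.coord ⟨i, 0⟩ x := by
  simp [fS]

lemma coord_basis (i k : Fin t) : b.coord ⟨i, 0⟩ (b ⟨k, 0⟩) = if i = k then 1 else 0 := by
  classical
  rw [Basis.coord_apply, Basis.repr_self, Finsupp.single_apply]
  by_cases h : i = k
  · subst h
    simp
  · rw [if_neg h, if_neg]
    intro h'
    exact h (congrArg Sigma.fst h').symm

lemma coord_vS (i : Fin t) (S : Finset (Fin t)) :
    b.coord ⟨i, 0⟩ (vS b S) = if i ∈ S then 1 else 0 := by
  classical
  rw [vS, map_sum]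
  simp only [coord_basis]
  simp [Finset.sum_ite_eq]

lemma fS_vS (S S' : Finset (Fin t)) : fS b S (vS b S') = ((S ∩ S').card : F) := by
  classical
  rw [fS_apply]
  simp only [coord_vS]
  rw [Finset.sum_ite_mem]
  simp

/-- The key computation: the reflection preserves the Hermitian norm. -/
lemma norm_invariant (hadd : ∀ a b : F, (a + b)⁻¹ = a⁻¹ + b⁻¹) (S : Finset (Fin t))
    (hS : (2 : F) + (S.card : F) = 0) (x : Fin n → F) :
    (∑ i, b.coord ⟨i, 0⟩ (x + fS b S x • vS b S) * (b.coord ⟨i, 0⟩ (x + fS b S x • vS b S))⁻¹) =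
      ∑ i, b.coord ⟨i, 0⟩ x * (b.coord ⟨i, 0⟩ x)⁻¹ := by
  classical
  set a := fS b S x with ha
  let σ : F →+ F := AddMonoidHom.mk' (fun u => u⁻¹) hadd
  have hsum : ∑ i ∈ S, (b.coord ⟨i, 0⟩ x)⁻¹ = a⁻¹ := by
    rw [ha, fS_apply]
    exact (map_sum σ _ _).symm
  have key : ∀ i, b.coord ⟨i, 0⟩ (x + a • vS b S) * (b.coord ⟨i, 0⟩ (x + a • vS b S))⁻¹ =
      b.coord ⟨i, 0⟩ x * (b.coord ⟨i, 0⟩ x)⁻¹ +
        if i ∈ S then b.coord ⟨i, 0⟩ x * a⁻¹ + a * (b.coord ⟨i, 0⟩ x)⁻¹ + a * a⁻¹ else 0 := by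
    intro i
    rw [map_add, map_smul, coord_vS]
    by_cases hi : i ∈ S
    · rw [if_pos hi, if_pos hi, smul_eq_mul, mul_one, hadd]
      ring
    · rw [if_neg hi, if_neg hi, smul_zero, add_zero, add_zero]
  rw [Finset.sum_congr rfl (fun i _ => key i), Finset.sum_add_distrib, Finset.sum_ite_mem,
    Finset.univ_inter, Finset.sum_add_distrib, Finset.sum_add_distrib, ← Finset.sum_mul,
    ← Finset.mul_sum, hsum, Finset.sum_const, nsmul_eq_mul]
  have h3 : ∑ i ∈ S, b.coord ⟨i, 0⟩ x = a := by rw [ha, fS_apply]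
  rw [h3]
  have : a * a⁻¹ + a * a⁻¹ + (S.card : F) * (a * a⁻¹) = ((2 : F) + S.card) * (a * a⁻¹) := by ring
  rw [this, hS, zero_mul, add_zero]

/-- The reflection as an element of `GL`. -/
noncomputable def tS (b : Basis (Σ _ : Fin t, Fin 1) F (Fin n → F)) (S : Finset (Fin t))
    (h : IsUnit (1 + fS b S (vS b S))) : GL (Fin n) F :=
  glOfEquiv (LinearEquiv.dilatransvection h)

lemma tS_mulVec (S : Finset (Fin t)) (h : IsUnit (1 + fS b S (vS b S))) (x : Fin n → F) :
    ((tS b S h : GL (Fin n) F) : Matrix (Fin n) (Fin n) F) *ᵥ x = x + fS b S x • vS b S := by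
  rw [tS, glOfEquiv_mulVec, LinearEquiv.dilatransvection.apply]

lemma det_tS (S : Finset (Fin t)) (h : IsUnit (1 + fS b S (vS b S))) :
    ((tS b S h : GL (Fin n) F) : Matrix (Fin n) (Fin n) F).det = 1 + fS b S (vS b S) := by
  rw [tS, det_glOfEquiv, LinearEquiv.coe_det, LinearEquiv.dilatransvection.coe_toLinearMap,
    LinearMap.transvection.det]

/-- An element preserving the norm but not the decomposition. -/
lemma exists_g_one (h8 : 8 ≤ t) (hadd : ∀ a b : F, (a + b)⁻¹ = a⁻¹ + b⁻¹) (h6 : (6 : F) = 0)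
    (h1 : ∀ i j, b ⟨i, j⟩ ∈ D i)
    (h2 : ∀ (k i : Fin t) (j : Fin 1) (u : Fin n → F), u ∈ D k → k ≠ i → b.repr u ⟨i, j⟩ = 0) :
    ∃ g : GL (Fin n) F, g ∈ specialLinear (Fin n) F ∧ g ∈ isoSub (fun x => (wt D x : F)) ∧
      g ∉ decompositionStabilizer D := by
  classical
  let ι : Fin 8 ↪ Fin t := Fin.castLEEmb h8
  let S : Finset (Fin t) := Finset.map ι {0, 1, 2, 3}
  let S' : Finset (Fin t) := Finset.map ι {4, 5, 6, 7}
  have hS : S.card = 4 := by
    rw [Finset.card_map]
    decide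
  have hS' : S'.card = 4 := by
    rw [Finset.card_map]
    decide
  have hdisj : S' ∩ S = ∅ := by
    rw [← Finset.map_inter]
    simp only [Finset.map_eq_empty]
    decide
  have hSS : fS b S (vS b S) = 4 := by
    rw [fS_vS, Finset.inter_self, hS]
    norm_num
  have hSS' : fS b S' (vS b S') = 4 := by
    rw [fS_vS, Finset.inter_self, hS']
    norm_num
  have h55 : (5 : F) * 5 = 1 := by linear_combination 4 * h6
  have hu : IsUnit (1 + fS b S (vS b S)) := by
    rw [hSS]
    refine IsUnit.of_mul_eq_one 5 ?_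
    linear_combination h55
  have hu' : IsUnit (1 + fS b S' (vS b S')) := by
    rw [hSS']
    refine IsUnit.of_mul_eq_one 5 ?_
    linear_combination h55
  have h2S : (2 : F) + (S.card : F) = 0 := by
    rw [hS]
    push_cast
    linear_combination h6
  have h2S' : (2 : F) + (S'.card : F) = 0 := by
    rw [hS']
    push_cast
    linear_combination h6
  have hiso : ∀ (T : Finset (Fin t)) (hT : IsUnit (1 + fS b T (vS b T))),
      (2 : F) + (T.card : F) = 0 → tS b T hT ∈ isoSub (fun x => (wt D x : F)) := by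
    intro T hT h2T x
    rw [tS_mulVec]
    dsimp only
    rw [wt_eq_one h1 h2, wt_eq_one h1 h2, norm_invariant hadd T h2T]
  refine ⟨tS b S hu * tS b S' hu', ?_, mul_mem (hiso S hu h2S) (hiso S' hu' h2S'), ?_⟩
  · rw [mem_specialLinear_iff, Units.val_mul, Matrix.det_mul, det_tS, det_tS, hSS, hSS']
    linear_combination h55
  · have hmem : ∀ (x : Fin 8), ι x ∈ S ↔ x ∈ ({0, 1, 2, 3} : Finset (Fin 8)) := fun x =>
      Finset.mem_map' ι
    have hmem' : ∀ (x : Fin 8), ι x ∈ S' ↔ x ∈ ({4, 5, 6, 7} : Finset (Fin 8)) := fun x =>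
      Finset.mem_map' ι
    have hf0 : fS b S' (b ⟨ι 0, 0⟩) = 0 := by
      rw [fS_apply]
      apply Finset.sum_eq_zero
      intro i hi
      rw [coord_basis, if_neg]
      rintro rfl
      exact absurd ((hmem' 0).mp hi) (by decide)
    have hf1 : fS b S (b ⟨ι 0, 0⟩) = 1 := by
      rw [fS_apply, Finset.sum_eq_single (ι 0)]
      · rw [coord_basis, if_pos rfl]
      · intro i _ hi
        rw [coord_basis, if_neg hi]
      · intro h
        exact absurd ((hmem 0).mpr (by decide)) h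
    have hy : (((tS b S hu * tS b S' hu' : GL (Fin n) F) : Matrix (Fin n) (Fin n) F)) *ᵥ
        b ⟨ι 0, 0⟩ = b ⟨ι 0, 0⟩ + vS b S := by
      rw [Units.val_mul, ← Matrix.mulVec_mulVec, tS_mulVec, tS_mulVec, hf0, zero_smul, add_zero, hf1,
        one_smul]
    have hne : ∀ (x : Fin 8), x ≠ 0 → x ∈ ({0, 1, 2, 3} : Finset (Fin 8)) →
        b.repr (b ⟨ι 0, 0⟩ + vS b S) ⟨ι x, 0⟩ = 1 := by
      intro x hx hxS
      have := coord_vS (b := b) (ι x) S
      rw [if_pos ((hmem x).mpr hxS), Basis.coord_apply] at this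
      rw [map_add, Finsupp.add_apply, this]
      have h3 := coord_basis (b := b) (ι x) (ι 0)
      rw [if_neg (fun h => hx (ι.injective h)), Basis.coord_apply] at h3
      rw [h3, zero_add]
    refine not_stab h2 (a := ι 0) (x := b ⟨ι 0, 0⟩) (h1 _ _) (k₁ := ι 1) (k₂ := ι 2) (j₁ := 0)
      (j₂ := 0) (fun h => absurd (ι.injective h) (by decide)) ?_ ?_
    · rw [hy, hne 1 (by decide) (by decide)]
      exact one_ne_zero
    · rw [hy, hne 2 (by decide) (by decide)]
      exact one_ne_zero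

end one

section two

variable {F : Type*} [Field F] [Fintype F] {n t : ℕ} {D : Fin t → Submodule F (Fin n → F)}
  {b : Basis (Σ _ : Fin t, Fin 2) F (Fin n → F)}

lemma f2_sq (hq : Fintype.card F = 2) (a : F) : a * a = a := by
  have := FiniteField.pow_card a
  rwa [hq, sq] at this

lemma f2_cases (hq : Fintype.card F = 2) (a : F) : a = 0 ∨ a = 1 := by
  have h := f2_sq hq a
  have h4 : a * (a - 1) = 0 := by linear_combination h
  rcases mul_eq_zero.mp h4 with h6 | h6
  · exact Or.inl h6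
  · exact Or.inr (sub_eq_zero.mp h6)

lemma f2_two (hq : Fintype.card F = 2) : (2 : F) = 0 := by
  have := FiniteField.cast_card_eq_zero F
  rw [hq] at this
  exact_mod_cast this

lemma wt_eq_two (hq : Fintype.card F = 2)
    (h1 : ∀ i j, b ⟨i, j⟩ ∈ D i)
    (h2 : ∀ (k i : Fin t) (j : Fin 2) (u : Fin n → F), u ∈ D k → k ≠ i → b.repr u ⟨i, j⟩ = 0)
    (x : Fin n → F) :
    (wt D x : F) = ∑ i, (b.coord ⟨i, 0⟩ x + b.coord ⟨i, 0⟩ x * b.coord ⟨i, 1⟩ x + b.coord ⟨i, 1⟩ x) := by
  classical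
  unfold wt
  rw [Finset.card_filter, Nat.cast_sum]
  apply Finset.sum_congr rfl
  intro i _
  have h3 : x ∉ co D i ↔ (b.coord ⟨i, 0⟩ x ≠ 0 ∨ b.coord ⟨i, 1⟩ x ≠ 0) := by
    rw [notMem_co_iff h1 h2, Basis.coord_apply, Basis.coord_apply, Fin.exists_fin_two]
  have h22 := f2_two hq
  rcases f2_cases hq (b.coord ⟨i, 0⟩ x) with ha | ha <;>
    rcases f2_cases hq (b.coord ⟨i, 1⟩ x) with hb | hb <;> rw [ha, hb] at h3 ⊢
  · rw [if_neg (by simpa using h3)]
    simp
  · rw [if_pos (by simp [h3])]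
    simp
  · rw [if_pos (by simp [h3])]
    simp
  · rw [if_pos (by simp [h3])]
    push_cast
    linear_combination (-1 : F) * h22

/-- The functional of a set of coordinates. -/
noncomputable def fT (b : Basis (Σ _ : Fin t, Fin 2) F (Fin n → F)) (S : Finset (Fin t)) :
    Dual F (Fin n → F) :=
  ∑ i ∈ S, b.coord ⟨i, 1⟩

/-- The sum of the basis vectors in a set of coordinates. -/
noncomputable def vT (b : Basis (Σ _ : Fin t, Fin 2) F (Fin n → F)) (S : Finset (Fin t)) :
    Fin n → F :=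
  ∑ i ∈ S, b ⟨i, 0⟩

lemma fT_apply (S : Finset (Fin t)) (x : Fin n → F) :
    fT b S x = ∑ i ∈ S, b.coord ⟨i, 1⟩ x := by
  simp [fT]

lemma coord_basis₂ (i k : Fin t) (j j' : Fin 2) :
    b.coord ⟨i, j⟩ (b ⟨k, j'⟩) = if i = k ∧ j = j' then 1 else 0 := by
  classical
  rw [Basis.coord_apply, Basis.repr_self, Finsupp.single_apply]
  by_cases h : i = k
  · subst h
    by_cases h' : j = j'
    · subst h'
      simp
    · rw [if_neg, if_neg]
      · exact fun hh => h' hh.2
      · intro hh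
        exact h' (by simpa using hh.symm)
  · rw [if_neg, if_neg]
    · exact fun hh => h hh.1
    · intro hh
      exact h (congrArg Sigma.fst hh).symm

lemma coord_vT₀ (i : Fin t) (S : Finset (Fin t)) :
    b.coord ⟨i, 0⟩ (vT b S) = if i ∈ S then 1 else 0 := by
  classical
  rw [vT, map_sum]
  simp only [coord_basis₂]
  simp [Finset.sum_ite_eq]

lemma coord_vT₁ (i : Fin t) (S : Finset (Fin t)) :
    b.coord ⟨i, 1⟩ (vT b S) = 0 := by
  classical
  rw [vT, map_sum]
  simp only [coord_basis₂]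
  simp

lemma fT_vT (S : Finset (Fin t)) : fT b S (vT b S) = 0 := by
  rw [fT_apply]
  exact Finset.sum_eq_zero (fun i _ => coord_vT₁ i S)

lemma quad_invariant (hq : Fintype.card F = 2) (S : Finset (Fin t)) (hS : S.card = 3)
    (x : Fin n → F) :
    (∑ i, (b.coord ⟨i, 0⟩ (x + fT b S x • vT b S) + b.coord ⟨i, 0⟩ (x + fT b S x • vT b S) *
        b.coord ⟨i, 1⟩ (x + fT b S x • vT b S) + b.coord ⟨i, 1⟩ (x + fT b S x • vT b S))) =
      ∑ i, (b.coord ⟨i, 0⟩ x + b.coord ⟨i, 0⟩ x * b.coord ⟨i, 1⟩ x + b.coord ⟨i, 1⟩ x) := by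
  classical
  have h22 := f2_two hq
  set a := fT b S x with ha
  have key : ∀ i, (b.coord ⟨i, 0⟩ (x + a • vT b S) + b.coord ⟨i, 0⟩ (x + a • vT b S) *
        b.coord ⟨i, 1⟩ (x + a • vT b S) + b.coord ⟨i, 1⟩ (x + a • vT b S)) =
      (b.coord ⟨i, 0⟩ x + b.coord ⟨i, 0⟩ x * b.coord ⟨i, 1⟩ x + b.coord ⟨i, 1⟩ x) +
        if i ∈ S then a + a * b.coord ⟨i, 1⟩ x else 0 := by
    intro i
    rw [map_add, map_add, map_smul, map_smul, coord_vT₀, coord_vT₁, smul_zero, add_zero]
    by_cases hi : i ∈ S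
    · rw [if_pos hi, if_pos hi, smul_eq_mul, mul_one]
      ring
    · rw [if_neg hi, if_neg hi, smul_zero, add_zero, add_zero]
  have h3 : ∑ i ∈ S, b.coord ⟨i, 1⟩ x = a := by rw [ha, fT_apply]
  have h4 : ∑ i, (if i ∈ S then a + a * b.coord ⟨i, 1⟩ x else 0) = 0 := by
    rw [Finset.sum_ite_mem, Finset.univ_inter, Finset.sum_add_distrib, ← Finset.mul_sum,
      Finset.sum_const, nsmul_eq_mul, hS, h3, f2_sq hq a]
    push_cast
    have : (3 : F) * a + a = 2 * (2 * a) := by ring
    rw [this, h22, zero_mul]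
  rw [Finset.sum_congr rfl (fun i _ => key i), Finset.sum_add_distrib, h4, add_zero]

/-- An element preserving the quadratic form but not the decomposition. -/
lemma exists_g_two (hq : Fintype.card F = 2) (h3 : 3 ≤ t)
    (h1 : ∀ i j, b ⟨i, j⟩ ∈ D i)
    (h2 : ∀ (k i : Fin t) (j : Fin 2) (u : Fin n → F), u ∈ D k → k ≠ i → b.repr u ⟨i, j⟩ = 0) :
    ∃ g : GL (Fin n) F, g ∈ specialLinear (Fin n) F ∧ g ∈ isoSub (fun x => (wt D x : F)) ∧
      g ∉ decompositionStabilizer D := by
  classical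
  let ι : Fin 3 ↪ Fin t := Fin.castLEEmb h3
  let S : Finset (Fin t) := Finset.map ι Finset.univ
  have hS : S.card = 3 := by
    rw [Finset.card_map]
    decide
  have hf : fT b S (vT b S) = 0 := fT_vT S
  refine ⟨tv (fT b S) (vT b S) hf, tv_mem_specialLinear _ _ _, ?_, ?_⟩
  · intro x
    rw [tv_mulVec]
    dsimp only
    rw [wt_eq_two hq h1 h2, wt_eq_two hq h1 h2, quad_invariant hq S hS]
  · have hmem : ∀ (x : Fin 3), ι x ∈ S := fun x => Finset.mem_map_of_mem ι (Finset.mem_univ x)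
    have hf1 : fT b S (b ⟨ι 0, 1⟩) = 1 := by
      rw [fT_apply, Finset.sum_eq_single (ι 0)]
      · rw [coord_basis₂, if_pos ⟨rfl, rfl⟩]
      · intro i _ hi
        rw [coord_basis₂, if_neg (fun hh => hi hh.1)]
      · intro h
        exact absurd (hmem 0) h
    have hy : ((tv (fT b S) (vT b S) hf : GL (Fin n) F) : Matrix (Fin n) (Fin n) F) *ᵥ b ⟨ι 0, 1⟩ =
        b ⟨ι 0, 1⟩ + vT b S := by
      rw [tv_mulVec, hf1, one_smul]
    have hne : ∀ (x : Fin 3), b.repr (b ⟨ι 0, 1⟩ + vT b S) ⟨ι x, 0⟩ = 1 := by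
      intro x
      have := coord_vT₀ (b := b) (ι x) S
      rw [if_pos (hmem x), Basis.coord_apply] at this
      rw [map_add, Finsupp.add_apply, this]
      have h4 := coord_basis₂ (b := b) (ι x) (ι 0) 0 1
      rw [if_neg (fun hh => absurd hh.2 (by decide)), Basis.coord_apply] at h4
      rw [h4, zero_add]
    refine not_stab h2 (a := ι 0) (x := b ⟨ι 0, 1⟩) (h1 _ _) (k₁ := ι 1) (k₂ := ι 2) (j₁ := 0)
      (j₂ := 0) (fun h => absurd (ι.injective h) (by decide)) ?_ ?_
    · rw [hy, hne 1]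
      exact one_ne_zero
    · rw [hy, hne 2]
      exact one_ne_zero

end two

/-- For a finite field F with q elements and n ≥ 13, let D be a decomposition of F^n into t ≥ 2 independent subspaces of equal dimension m spanning F^n, where m = 1 and q ≤ 4, or m = 2 and q = 2. Then the elements of SL_n(F) permuting the members of D form a subgroup that is not maximal: some subgroup lies strictly between it and SL_n(F). -/
theorem result {F : Type*} [Field F] [Fintype F] (n : ℕ) (hn : 13 ≤ n) {t : ℕ} (m : ℕ) (D : Fin t → Submodule F (Fin n → F)) (hD : Cfsg.Geo.IsMDecomposition m D) (h : (m = 1 ∧ Fintype.card F ≤ 4) ∨ (m = 2 ∧ Fintype.card F = 2)) : ∃ K : Subgroup (Matrix.GeneralLinearGroup (Fin n) F), Cfsg.Geo.decompositionStabilizer D ⊓ Cfsg.Geo.specialLinear (Fin n) F < K ∧ K < Cfsg.Geo.specialLinear (Fin n) F := by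
  classical
  have hstab : ∀ g ∈ decompositionStabilizer D, g ∈ isoSub (fun x => (wt D x : F)) := by
    intro g hg x
    dsimp only
    rw [wt_stab hg]
  rcases h with ⟨rfl, hq⟩ | ⟨rfl, hq⟩
  · obtain ⟨b, h1, h2⟩ := exists_basis hD
    have htn := card_eq b
    have h8 : 8 ≤ t := by omega
    obtain ⟨hadd, h6⟩ := card_facts hq
    obtain ⟨g, hg1, hg2, hg3⟩ := exists_g_one h8 hadd h6 h1 h2
    obtain ⟨T, hT1, hT2⟩ := exists_T hD h1 h2
    exact final _ hstab g hg1 hg2 hg3 T hT1 hT2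
  · obtain ⟨b, h1, h2⟩ := exists_basis hD
    have htn := card_eq b
    have h3 : 3 ≤ t := by omega
    obtain ⟨g, hg1, hg2, hg3⟩ := exists_g_two hq h3 h1 h2
    obtain ⟨T, hT1, hT2⟩ := exists_T hD h1 h2
    exact final _ hstab g hg1 hg2 hg3 T hT1 hT2

end Cfsg.Agent.S5635
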