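import Cfsg.Statements.S5638
import Mathlib
-- import your own Cfsg.Agent.* helpers here

set_option autoImplicit false
open Cfsg

namespace Cfsg.Agent.S5638

set_option linter.style.haveILetI false

open Matrix Kronecker
open scoped MatrixGroups

set_option linter.deprecated false
set_option linter.unusedSimpArgs false
set_option linter.unreachableTactic false
set_option linter.unusedTactic false
set_option linter.unnecessarySimpa false

section Group

variable {G : Type*} [Group G]

/-- Elements conjugating `w` to `w` or `w⁻¹`. -/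
def invNorm (w : G) : Subgroup G where
  carrier := {g | g * w * g⁻¹ = w ∨ g * w * g⁻¹ = w⁻¹}
  one_mem' := by simp
  mul_mem' := by
    intro a b ha hb
    have e : a * b * w * (a * b)⁻¹ = a * (b * w * b⁻¹) * a⁻¹ := by group
    have e2 : a * w⁻¹ * a⁻¹ = (a * w * a⁻¹)⁻¹ := by group
    simp only [Set.mem_setOf_eq] at ha hb ⊢
    rw [e]
    rcases hb with hb | hb <;> rw [hb]
    · exact ha
    · rw [e2]
      rcases ha with ha | ha <;> rw [ha]
      · exact Or.inr rfl
      · exact Or.inl (inv_inv w)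
  inv_mem' := by
    intro a ha
    simp only [Set.mem_setOf_eq] at ha ⊢
    rcases ha with ha | ha
    · left
      calc a⁻¹ * w * a⁻¹⁻¹ = a⁻¹ * (a * w * a⁻¹) * a := by rw [ha, inv_inv]
        _ = w := by group
    · right
      calc a⁻¹ * w * a⁻¹⁻¹ = (a⁻¹ * w⁻¹ * a)⁻¹ := by group
        _ = (a⁻¹ * (a * w * a⁻¹) * a)⁻¹ := by rw [ha]
        _ = w⁻¹ := by group

theorem mem_invNorm_of {w g : G} (h : g * w = w * g ∨ g * w = w⁻¹ * g) : g ∈ invNorm w := by
  change g * w * g⁻¹ = w ∨ g * w * g⁻¹ = w⁻¹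
  rcases h with h | h
  · left; rw [h]; group
  · right; rw [h]; group

theorem of_mem_invNorm {w g : G} (h : g ∈ invNorm w) : g * w = w * g ∨ g * w = w⁻¹ * g := by
  have h' : g * w * g⁻¹ = w ∨ g * w * g⁻¹ = w⁻¹ := h
  rcases h' with h | h
  · left; exact mul_inv_eq_iff_eq_mul.mp h
  · right; exact mul_inv_eq_iff_eq_mul.mp h

end Group

section F2

variable {F : Type*} [Field F] [Fintype F]

theorem f2_cases (hq : Fintype.card F = 2) (x : F) : x = 0 ∨ x = 1 := by
  by_cases hx : x = 0
  · exact Or.inl hx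
  · right
    have := FiniteField.pow_card_sub_one_eq_one x hx
    rw [hq] at this
    simpa using this

theorem f2_two (hq : Fintype.card F = 2) : (1 : F) + 1 = 0 := by
  rcases f2_cases hq ((1 : F) + 1) with h | h
  · exact h
  · exfalso
    have : (1 : F) = 0 := by simpa using h
    exact one_ne_zero this

/-- `ω` -/
def om (F : Type*) [Field F] : Matrix (Fin 2) (Fin 2) F := !![0, 1; 1, 1]
/-- `ω⁻¹` -/
def omi (F : Type*) [Field F] : Matrix (Fin 2) (Fin 2) F := !![1, 1; 1, 0]

theorem om_mul_omi (hq : Fintype.card F = 2) : om F * omi F = 1 := by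
  have h2 := f2_two hq
  ext i j
  fin_cases i <;> fin_cases j <;> simp [om, omi, Matrix.mul_apply, Fin.sum_univ_two, h2]

theorem omi_mul_om (hq : Fintype.card F = 2) : omi F * om F = 1 := by
  have h2 := f2_two hq
  ext i j
  fin_cases i <;> fin_cases j <;> simp [om, omi, Matrix.mul_apply, Fin.sum_univ_two, h2]

/-- In `GL₂(2)`, `⟨ω⟩` is normal. -/
theorem gl2_norm (hq : Fintype.card F = 2) (a : Matrix (Fin 2) (Fin 2) F) (ha : a.det ≠ 0) :
    a * om F = om F * a ∨ a * om F = omi F * a := by
  have h2 := f2_two hq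
  rw [Matrix.det_fin_two] at ha
  have hcases := f2_cases hq
  rcases hcases (a 0 0) with h00 | h00 <;> rcases hcases (a 0 1) with h01 | h01 <;>
  rcases hcases (a 1 0) with h10 | h10 <;> rcases hcases (a 1 1) with h11 | h11 <;>
  simp only [h00, h01, h10, h11, mul_zero, zero_mul, mul_one, sub_zero, zero_sub, sub_self,
    neg_eq_zero, one_ne_zero, ne_eq, not_true_eq_false, not_false_eq_true] at ha <;>
  first
  | (left
     ext i j
     fin_cases i <;> fin_cases j <;>
       simp [om, omi, Matrix.mul_apply, Fin.sum_univ_two, h00, h01, h10, h11, h2]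
     done)
  | (right
     ext i j
     fin_cases i <;> fin_cases j <;>
       simp [om, omi, Matrix.mul_apply, Fin.sum_univ_two, h00, h01, h10, h11, h2]
     done)
  | (exfalso; simp [h2] at ha; done)

variable {m : ℕ}

/-- `w = ω ⊗ 1` -/
def wU (hq : Fintype.card F = 2) (m : ℕ) : GL (Fin 2 × Fin m) F :=
  ⟨om F ⊗ₖ (1 : Matrix (Fin m) (Fin m) F), omi F ⊗ₖ (1 : Matrix (Fin m) (Fin m) F),
    by rw [← Matrix.mul_kronecker_mul, om_mul_omi hq, one_mul, Matrix.one_kronecker_one],
    by rw [← Matrix.mul_kronecker_mul, omi_mul_om hq, one_mul, Matrix.one_kronecker_one]⟩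

theorem wU_val (hq : Fintype.card F = 2) (m : ℕ) :
    (wU hq m).val = om F ⊗ₖ (1 : Matrix (Fin m) (Fin m) F) := rfl

theorem wU_inv_val (hq : Fintype.card F = 2) (m : ℕ) :
    ((wU hq m)⁻¹).val = omi F ⊗ₖ (1 : Matrix (Fin m) (Fin m) F) := rfl

/-- Kronecker products normalise `⟨w⟩`. -/
theorem kron_le (hq : Fintype.card F = 2) (m : ℕ) :
    Cfsg.Geo.kroneckerSubgroup 2 m F ≤ invNorm (wU hq m) := by
  rintro g ⟨a, b, hg⟩
  apply mem_invNorm_of
  have hdet : (a : Matrix (Fin 2) (Fin 2) F).det ≠ 0 := by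
    have := a.isUnit
    exact ((Matrix.isUnit_iff_isUnit_det _).mp this).ne_zero
  rcases gl2_norm hq _ hdet with h | h
  · left
    apply Units.ext
    rw [Units.val_mul, Units.val_mul, hg, wU_val, ← Matrix.mul_kronecker_mul, ← Matrix.mul_kronecker_mul, h,
      mul_one, one_mul]
  · right
    apply Units.ext
    rw [Units.val_mul, Units.val_mul, hg, wU_val, wU_inv_val, ← Matrix.mul_kronecker_mul,
      ← Matrix.mul_kronecker_mul, h, mul_one, one_mul]

theorem exists_between (hq : Fintype.card F = 2) {m : ℕ} (i₀ i₁ : Fin m) (hi : i₀ ≠ i₁) :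
    ∃ K₀ : Subgroup (GL (Fin 2 × Fin m) F), Cfsg.Geo.kroneckerSubgroup 2 m F < K₀ ∧ K₀ < ⊤ := by
  classical
  have h2 := f2_two hq
  refine ⟨invNorm (wU hq m), lt_of_le_of_ne (kron_le hq m) ?_, lt_top_iff_ne_top.mpr ?_⟩
  · -- X
    let E : Matrix (Fin m) (Fin m) F := Matrix.single i₀ i₀ 1
    let D : Matrix (Fin m) (Fin m) F := 1 - E
    have hEE : E * E = E := by simp [E]
    have hED : E * D = 0 := by simp [D, mul_sub, hEE]
    have hDE : D * E = 0 := by simp [D, sub_mul, hEE]
    have hDD : D * D = D := by simp [D, mul_sub, sub_mul, hEE]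
    have hED1 : E + D = 1 := by simp [D]
    let X : GL (Fin 2 × Fin m) F :=
      ⟨om F ⊗ₖ E + 1 ⊗ₖ D, omi F ⊗ₖ E + 1 ⊗ₖ D, by
        rw [add_mul, mul_add, mul_add, ← Matrix.mul_kronecker_mul, ← Matrix.mul_kronecker_mul,
          ← Matrix.mul_kronecker_mul, ← Matrix.mul_kronecker_mul, om_mul_omi hq, hEE, hED, hDE, hDD,
          Matrix.kronecker_zero, Matrix.kronecker_zero, add_zero, zero_add, one_mul,
          ← Matrix.kronecker_add, hED1, Matrix.one_kronecker_one], by
        rw [add_mul, mul_add, mul_add, ← Matrix.mul_kronecker_mul, ← Matrix.mul_kronecker_mul,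
          ← Matrix.mul_kronecker_mul, ← Matrix.mul_kronecker_mul, omi_mul_om hq, hEE, hED, hDE, hDD,
          Matrix.kronecker_zero, Matrix.kronecker_zero, add_zero, zero_add, one_mul,
          ← Matrix.kronecker_add, hED1, Matrix.one_kronecker_one]⟩
    have hXval : (X : Matrix _ _ F) = om F ⊗ₖ E + 1 ⊗ₖ D := rfl
    have hXmem : X ∈ invNorm (wU hq m) := by
      apply mem_invNorm_of
      left
      apply Units.ext
      rw [Units.val_mul, Units.val_mul, hXval, wU_val, add_mul, mul_add, ← Matrix.mul_kronecker_mul,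
        ← Matrix.mul_kronecker_mul, ← Matrix.mul_kronecker_mul, ← Matrix.mul_kronecker_mul]
      simp only [mul_one, one_mul]
    intro heq
    rw [← heq] at hXmem
    obtain ⟨a, b, hab⟩ := hXmem
    rw [hXval] at hab
    have hE0 : E i₀ i₀ = 1 := by simp [E]
    have hE1 : E i₁ i₁ = 0 := by simp [E, Matrix.single_apply, hi]
    have hD0 : D i₀ i₀ = 0 := by simp [D, hE0]
    have hD1 : D i₁ i₁ = 1 := by simp [D, hE1]
    have e1 := congrFun (congrFun hab ((0 : Fin 2), i₁)) ((0 : Fin 2), i₁)
    have e2 := congrFun (congrFun hab ((0 : Fin 2), i₁)) ((1 : Fin 2), i₁)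
    have e3 := congrFun (congrFun hab ((0 : Fin 2), i₀)) ((1 : Fin 2), i₀)
    simp only [Matrix.add_apply, Matrix.kroneckerMap_apply, hE0, hE1, hD0, hD1, om, Matrix.one_apply] at e1 e2 e3
    simp at e1 e2 e3
    -- e1 : a 0 0 * b i₁ i₁ = 1, e2 : a 0 1 * b i₁ i₁ = 0, e3 : a 0 1 * b i₀ i₀ = 1
    have hb : (b : Matrix (Fin m) (Fin m) F) i₁ i₁ ≠ 0 := by
      intro h
      rw [h, mul_zero] at e1
      exact one_ne_zero e1
    have ha : (a : Matrix (Fin 2) (Fin 2) F) 0 1 = 0 := by
      rcases e2 with h | h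
      · exact h
      · exact absurd h hb
    rw [ha, zero_mul] at e3
    exact one_ne_zero e3
  · -- transvection
    intro htop
    let α : Fin 2 × Fin m := (0, i₀)
    let β : Fin 2 × Fin m := (0, i₁)
    let γ : Fin 2 × Fin m := (1, i₁)
    have hαβ : α ≠ β := fun h => hi (congrArg Prod.snd h)
    have hαγ : α ≠ γ := fun h => by simpa [α, γ] using congrArg Prod.fst h
    have hβγ : β ≠ γ := fun h => by simpa [β, γ] using congrArg Prod.fst h
    let T : Matrix (Fin 2 × Fin m) (Fin 2 × Fin m) F := 1 + Matrix.single α β 1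
    have hTT : T * T = 1 := by
      simp only [T, add_mul, mul_add, one_mul, mul_one, Matrix.single_mul_single_of_ne _ _ _ _ hαβ.symm]
      simp [← add_assoc]
      rw [add_assoc, ← Matrix.single_add, h2, Matrix.single_zero, add_zero]
    let g : GL (Fin 2 × Fin m) F := ⟨T, T, hTT, hTT⟩
    have hmem : g ∈ invNorm (wU hq m) := by rw [htop]; trivial
    have hw1 : (wU hq m).val α γ = 0 := by
      rw [wU_val]; simp [α, γ, Matrix.kroneckerMap_apply, om, hi]
    have hw2 : (wU hq m).val β γ = 1 := by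
      rw [wU_val]; simp [β, γ, Matrix.kroneckerMap_apply, om]
    have hw3 : ((wU hq m)⁻¹).val α γ = 0 := by
      rw [wU_inv_val]; simp [α, γ, Matrix.kroneckerMap_apply, omi, hi]
    have key : ∀ W : Matrix (Fin 2 × Fin m) (Fin 2 × Fin m) F, (W * T) α γ = W α γ := by
      intro W
      simp only [T, mul_add, mul_one, Matrix.add_apply]
      rw [Matrix.mul_single_apply_of_ne _ _ _ _ _ hβγ.symm]
      simp
    have key2 : (T * (wU hq m).val) α γ = 1 := by
      simp only [T, add_mul, one_mul, Matrix.add_apply]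
      rw [Matrix.single_mul_apply_same, hw1, hw2]
      simp
    rcases of_mem_invNorm hmem with h | h
    · have := congrArg (fun M : GL (Fin 2 × Fin m) F => M.val α γ) h
      simp only [Units.val_mul] at this
      change (T * (wU hq m).val) α γ = ((wU hq m).val * T) α γ at this
      rw [key, key2, hw1] at this
      exact one_ne_zero this
    · have := congrArg (fun M : GL (Fin 2 × Fin m) F => M.val α γ) h
      simp only [Units.val_mul] at this
      change (T * (wU hq m).val) α γ = (((wU hq m)⁻¹).val * T) α γ at this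
      rw [key, key2, hw3] at this
      exact one_ne_zero this

end F2

/-- Over the field with 2 elements, for n = 2 n₂ ≥ 13, the stabiliser in SL_n of a tensor decomposition with factors of dimensions 2 and n₂ (the conjugate by any P of the Kronecker-product subgroup transported along any bijection Fin n ≃ Fin 2 × Fin n₂, intersected with SL_n) is not a maximal subgroup: some subgroup lies strictly between it and SL_n. -/
theorem result {F : Type*} [Field F] [Fintype F] (n : ℕ) (hn : 13 ≤ n) (hq : Fintype.card F = 2) (n₂ : ℕ) (e : Fin n ≃ Fin 2 × Fin n₂) (P : Matrix.GeneralLinearGroup (Fin n) F) : ∃ K : Subgroup (Matrix.GeneralLinearGroup (Fin n) F), Cfsg.Geo.tensorProductSubgroup 2 n₂ e P ⊓ Cfsg.Geo.specialLinear (Fin n) F < K ∧ K < Cfsg.Geo.specialLinear (Fin n) F := by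
  classical
  have hcard : n = 2 * n₂ := by
    have := Fintype.card_congr e
    simpa using this
  have h0 : 0 < n₂ := by omega
  have h1 : 1 < n₂ := by omega
  obtain ⟨K₀, hlt, hlt2⟩ := exists_between (F := F) hq (⟨0, h0⟩ : Fin n₂) ⟨1, h1⟩
    (by simp [Fin.ext_iff])
  have hSL : Cfsg.Geo.specialLinear (Fin n) F = ⊤ := by
    rw [eq_top_iff]
    intro g _
    change Matrix.GeneralLinearGroup.det g = 1
    haveI : Subsingleton Fˣ := by
      rw [← Fintype.card_le_one_iff_subsingleton, Fintype.card_units, hq]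
    exact Subsingleton.elim _ _
  let θ₁ := (Cfsg.Geo.glReindex (F := F) e.symm).mapSubgroup
  let θ₂ := (MulAut.conj P).mapSubgroup
  refine ⟨θ₂ (θ₁ K₀), ?_, ?_⟩
  · rw [hSL, inf_top_eq]
    exact θ₂.strictMono (θ₁.strictMono hlt)
  · rw [hSL]
    have := θ₂.strictMono (θ₁.strictMono hlt2)
    simpa using this

end Cfsg.Agent.S5638
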