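import Cfsg.Statements.S5648
import Mathlib
import Cfsg.Agent.Lib.Classical.Geo.Decomp
import Cfsg.Agent.Lib.Classical.Geo.SympSim
import Cfsg.Agent.Lib.Classical.Symp.Basic

set_option autoImplicit false
open Cfsg

namespace Cfsg.Agent.S5648

open scoped MatrixGroups Matrix
open Module Cfsg.Geo Cfsg.Agent.Lib.Classical.Geo.Basic Cfsg.Agent.Lib.Classical.Geo.SympSim
open Cfsg.Agent.Lib.Classical.Geo.Decomp Cfsg.Agent.Lib.Classical.Symp.Basic

variable {F : Type*} [Field F] {m : ℕ}

theorem f2_cases [Fintype F] (hq : Fintype.card F = 2) (a : F) : a = 0 ∨ a = 1 := by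
  classical
  have h : (Finset.univ : Finset F) = {0, 1} := by
    apply (Finset.eq_of_subset_of_card_le (Finset.subset_univ _) _).symm
    rw [Finset.card_univ, hq, Finset.card_pair zero_ne_one]
  have : a ∈ (Finset.univ : Finset F) := Finset.mem_univ a
  rw [h] at this
  simpa using this

theorem f2_add_self [Fintype F] (hq : Fintype.card F = 2) (a : F) : a + a = 0 := by
  have h11 : (1 : F) + 1 = 0 := by
    rcases f2_cases hq ((1 : F) + 1) with h | h
    · exact h
    · exfalso
      exact one_ne_zero (by simpa using h : (1 : F) = 0)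
  rcases f2_cases hq a with rfl | rfl
  · simp
  · exact h11

/-- The function which is one at non-zero vectors. -/
noncomputable def q0 {V : Type*} [Zero V] (F : Type*) [Field F] (u : V) : F := by
  classical exact if u = 0 then 0 else 1

theorem q0_zero {V : Type*} [Zero V] : q0 (V := V) F 0 = 0 := by
  simp [q0]

theorem q0_ne {V : Type*} [Zero V] {u : V} (h : u ≠ 0) : q0 F u = 1 := by
  simp [q0, h]

section Main

variable [Fintype F] (hq : Fintype.card F = 2) {t : ℕ}
  {D : Fin t → Submodule F (Fin m ⊕ Fin m → F)}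
  (hD : IsNondegenerateMDecomposition (sympForm m F) 2 D)

include hq hD

/-- The plane identity. -/
theorem plane_id {i : Fin t} {u v : Fin m ⊕ Fin m → F} (hu : u ∈ D i) (hv : v ∈ D i) :
    q0 F (u + v) = q0 F u + q0 F v + sympForm m F u v := by
  by_cases hu0 : u = 0
  · subst hu0
    have : sympForm m F 0 v = 0 := by simp [sympForm]
    simp [q0_zero, this]
  by_cases hv0 : v = 0
  · subst hv0
    have : sympForm m F u 0 = 0 := by simp [sympForm]
    simp [q0_zero, this]
  by_cases huv : u = v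
  · subst huv
    have h0 : u + u = 0 := by
      ext x
      exact f2_add_self hq _
    rw [h0, q0_zero, q0_ne hu0, sympForm_self, f2_add_self hq]
    simp
  · have hne : u + v ≠ 0 := by
      intro h
      apply huv
      have h1 : v + v = 0 := by
        ext x
        exact f2_add_self hq _
      have := add_right_cancel (h.trans h1.symm)
      exact this
    rw [q0_ne hne, q0_ne hu0, q0_ne hv0, f2_add_self hq, zero_add]
    -- the form does not vanish on `u, v`
    have hind : LinearIndependent F ![u, v] := by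
      rw [LinearIndependent.pair_iff]
      intro s t hst
      rcases f2_cases hq s with rfl | rfl <;> rcases f2_cases hq t with rfl | rfl
      · exact ⟨rfl, rfl⟩
      · exact absurd (by simpa using hst) hv0
      · exact absurd (by simpa using hst) hu0
      · exact absurd (by simpa using hst) hne
    have hspan : Submodule.span F (Set.range ![u, v]) = D i := by
      apply Submodule.eq_of_le_of_finrank_eq
      · rw [Submodule.span_le]
        rintro _ ⟨j, rfl⟩
        fin_cases j
        · exact hu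
        · exact hv
      · rw [finrank_span_eq_card hind, hD.decomp.finrank_eq i]
        simp
    obtain ⟨x, hx, hxu⟩ := (hD.nondegenerate i u hu hu0).1
    rw [← hspan] at hx
    obtain ⟨c, hc⟩ := (Submodule.mem_span_range_iff_exists_fun F).1 hx
    have hne1 : sympForm m F v u ≠ 0 := by
      intro h0
      apply hxu
      rw [← hc, Fin.sum_univ_two]
      change sympBilin m F _ u = 0
      simp only [Matrix.cons_val_zero, Matrix.cons_val_one, map_add, map_smul, LinearMap.add_apply,
        LinearMap.smul_apply, smul_eq_mul]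
      change c 0 * sympForm m F u u + c 1 * sympForm m F v u = 0
      rw [sympForm_self, h0]
      simp
    have hswap : sympForm m F u v = - sympForm m F v u :=
      Cfsg.Agent.Lib.Classical.Symp.AltForm.alt_swap sympBilin_isAlt u v
    have hne2 : sympForm m F u v ≠ 0 := by
      rw [hswap]
      exact neg_ne_zero.2 hne1
    rcases f2_cases hq (sympForm m F u v) with h | h
    · exact absurd h hne2
    · exact h.symm

omit hD in
theorem q0_mul_eq {V : Type*} [Zero V] (u : V) : q0 F u + q0 F u = 0 := by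
  exact f2_add_self hq _

/-- The quadratic function attached to the projections. -/
noncomputable def QQ (π : Fin t → (Fin m ⊕ Fin m → F) →ₗ[F] (Fin m ⊕ Fin m → F))
    (x : Fin m ⊕ Fin m → F) : F := ∑ i, q0 F (π i x)

variable {π : Fin t → (Fin m ⊕ Fin m → F) →ₗ[F] (Fin m ⊕ Fin m → F)}
  (h1 : ∀ i x, π i x ∈ D i) (h2 : ∀ i x, x ∈ D i → π i x = x)
  (h3 : ∀ i j x, i ≠ j → x ∈ D j → π i x = 0) (h4 : ∀ x, ∑ i, π i x = x)

include h1 h2 h3 h4

omit hq in
theorem form_eq_sum (x y : Fin m ⊕ Fin m → F) :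
    sympForm m F x y = ∑ i, sympForm m F (π i x) (π i y) := by
  change sympBilin m F x y = _
  conv_lhs => rw [← h4 x, ← h4 y]
  simp only [map_sum, LinearMap.sum_apply]
  apply Finset.sum_congr rfl
  intro i _
  rw [Finset.sum_eq_single i]
  · rfl
  · intro j _ hji
    exact hD.orthogonal j i hji _ (h1 j x) _ (h1 i y)
  · simp

theorem QQ_add (x y : Fin m ⊕ Fin m → F) :
    QQ π (x + y) = QQ π x + QQ π y + sympForm m F x y := by
  rw [form_eq_sum hD h1 h2 h3 h4 x y]
  unfold QQ
  rw [← Finset.sum_add_distrib, ← Finset.sum_add_distrib]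
  apply Finset.sum_congr rfl
  intro i _
  rw [map_add]
  exact plane_id hq hD (h1 i x) (h1 i y)

omit hq in
theorem QQ_mem {i : Fin t} {x : Fin m ⊕ Fin m → F} (hx : x ∈ D i) (hx0 : x ≠ 0) : QQ π x = 1 := by
  unfold QQ
  rw [Finset.sum_eq_single i]
  · rw [h2 i x hx, q0_ne hx0]
  · intro j _ hji
    rw [h3 j i x hji hx, q0_zero]
  · simp

omit hq in
theorem QQ_stab (g : GL (Fin m ⊕ Fin m) F) (hg : g ∈ decompositionStabilizer D)
    (x : Fin m ⊕ Fin m → F) : QQ π ((g : Matrix (Fin m ⊕ Fin m) (Fin m ⊕ Fin m) F) *ᵥ x) = QQ π x := by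
  obtain ⟨σ, hσ⟩ := hg
  have hmem : ∀ i y, y ∈ D i → (g : Matrix (Fin m ⊕ Fin m) (Fin m ⊕ Fin m) F) *ᵥ y ∈ D (σ i) := by
    intro i y hy
    rw [← hσ i]
    exact ⟨y, hy, by simp [Matrix.toLin'_apply]⟩
  have hπ : ∀ k, π (σ k) ((g : Matrix (Fin m ⊕ Fin m) (Fin m ⊕ Fin m) F) *ᵥ x) = (g : Matrix (Fin m ⊕ Fin m) (Fin m ⊕ Fin m) F) *ᵥ (π k x) := by
    intro k
    have hx : (g : Matrix (Fin m ⊕ Fin m) (Fin m ⊕ Fin m) F) *ᵥ x = ∑ i, (g : Matrix (Fin m ⊕ Fin m) (Fin m ⊕ Fin m) F) *ᵥ (π i x) := by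
      conv_lhs => rw [← h4 x]
      rw [Matrix.mulVec_sum]
    rw [hx, map_sum, Finset.sum_eq_single k]
    · exact h2 _ _ (hmem k _ (h1 k x))
    · intro i _ hik
      exact h3 _ _ _ (fun h => hik (σ.injective h).symm) (hmem i _ (h1 i x))
    · simp
  unfold QQ
  rw [← Equiv.sum_comp σ]
  apply Finset.sum_congr rfl
  intro k _
  rw [hπ]
  by_cases h0 : π k x = 0
  · rw [h0, Matrix.mulVec_zero]
  · have : (g : Matrix (Fin m ⊕ Fin m) (Fin m ⊕ Fin m) F) *ᵥ (π k x) ≠ 0 := by
      intro h
      apply h0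
      apply mulVec_injective g
      simp only [Matrix.mulVec_zero]
      exact h
    rw [q0_ne h0, q0_ne this]

end Main

theorem result' {F : Type*} [Field F] [Fintype F] (m : ℕ) (hm : 7 ≤ m) (hq : Fintype.card F = 2) {t : ℕ}
    (D : Fin t → Submodule F (Fin m ⊕ Fin m → F))
    (hD : IsNondegenerateMDecomposition (sympForm m F) 2 D) :
    ∃ K : Subgroup (Matrix.GeneralLinearGroup (Fin m ⊕ Fin m) F),
      decompositionStabilizer D ⊓ spGL m F < K ∧ K < spGL m F := by
  classical
  obtain ⟨π, h1, h2, h3, h4⟩ := exists_projections hD.decomp.indep hD.decomp.iSup_eq_top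
  let Q := QQ π
  have hadd : ∀ x y, Q (x + y) = Q x + Q y + sympForm m F x y := QQ_add hq hD h1 h2 h3 h4
  have hmem : ∀ {i x}, x ∈ D i → x ≠ 0 → Q x = 1 := fun hx hx0 => QQ_mem hD h1 h2 h3 h4 hx hx0
  -- at least three pieces
  have hcard := card_le_mul hD.decomp.iSup_eq_top hD.decomp.finrank_eq
  simp only [Fintype.card_sum, Fintype.card_fin] at hcard
  have ht3 : 3 ≤ t := by omega
  let i₁ : Fin t := ⟨0, by omega⟩
  let i₂ : Fin t := ⟨1, by omega⟩
  let i₃ : Fin t := ⟨2, by omega⟩
  have h12 : i₁ ≠ i₂ := by simp [i₁, i₂, Fin.ext_iff]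
  have h13 : i₁ ≠ i₃ := by simp [i₁, i₃, Fin.ext_iff]
  have h23 : i₂ ≠ i₃ := by simp [i₂, i₃, Fin.ext_iff]
  have hne : ∀ i, ∃ x ∈ D i, x ≠ 0 := by
    intro i
    apply Submodule.exists_mem_ne_zero_of_ne_bot
    intro h
    have := hD.decomp.finrank_eq i
    rw [h] at this
    simp at this
  obtain ⟨x₁, hx₁, hx₁0⟩ := hne i₁
  obtain ⟨x₂, hx₂, hx₂0⟩ := hne i₂
  obtain ⟨x₃, hx₃, hx₃0⟩ := hne i₃
  have horth : ∀ {i j x y}, i ≠ j → x ∈ D i → y ∈ D j → sympForm m F x y = 0 :=
    fun hij hx hy => hD.orthogonal _ _ hij _ hx _ hy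
  have hA := sympBilin_isAlt (m := m) (F := F)
  have hB : ∀ x y, sympBilin m F x y = sympForm m F x y := fun _ _ => rfl
  -- the partner of `x₁`
  obtain ⟨y, hy, hyx₁⟩ := (hD.nondegenerate i₁ x₁ hx₁ hx₁0).1
  have hyx₁' : sympForm m F y x₁ = 1 := by
    rcases f2_cases hq (sympForm m F y x₁) with h | h
    · exact absurd h hyx₁
    · exact h
  have hyx₂ : sympForm m F y x₂ = 0 := horth h12 hy hx₂
  have hyx₃ : sympForm m F y x₃ = 0 := horth h13 hy hx₃
  -- vectors `a`, `b`
  set a := x₁ + x₂ with ha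
  set b := x₁ + x₂ + x₃ with hb
  have hform_add_right : ∀ u v w, sympForm m F u (v + w) = sympForm m F u v + sympForm m F u w := by
    intro u v w
    change sympBilin m F u (v + w) = _
    rw [map_add]
    rfl
  have hform_add_left : ∀ u v w, sympForm m F (u + v) w = sympForm m F u w + sympForm m F v w := by
    intro u v w
    change sympBilin m F (u + v) w = _
    rw [map_add]
    rfl
  have hQa : Q a = 0 := by
    rw [ha, hadd, hmem hx₁ hx₁0, hmem hx₂ hx₂0, horth h12 hx₁ hx₂, f2_add_self hq]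
    simp
  have hQb : Q b = 1 := by
    rw [hb, hadd, ← ha, hQa, hmem hx₃ hx₃0, ha, hform_add_left,
      horth h13 hx₁ hx₃, horth h23 hx₂ hx₃]
    simp
  have hya : sympForm m F y a = 1 := by
    rw [ha, hform_add_right, hyx₁', hyx₂]
    simp
  have hyb : sympForm m F y b = 1 := by
    rw [hb, hform_add_right, hya, hyx₃]
    simp
  -- the transvections
  have hbb : sympBilin m F b ((1 : F) • b) = 0 := by simpa using hA b
  have haa : sympBilin m F a ((1 : F) • a) = 0 := by simpa using hA a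
  have hTsp : ∀ (u : Fin m ⊕ Fin m → F) (h : sympBilin m F u ((1 : F) • u) = 0),
      tT (sympBilin m F) u _ h ∈ spGL m F := by
    intro u h v w
    exact tT_smul_isometry hA u 1 h v w
  have hTapp : ∀ (u : Fin m ⊕ Fin m → F) (h : sympBilin m F u ((1 : F) • u) = 0) (v),
      ((tT (sympBilin m F) u _ h : GL (Fin m ⊕ Fin m) F) : Matrix (Fin m ⊕ Fin m) (Fin m ⊕ Fin m) F) *ᵥ v = v + sympForm m F v u • u := by
    intro u h v
    rw [tT_mulVec, one_smul]
    rfl
  refine ⟨isometryGroup F Q ⊓ spGL m F, ?_, ?_⟩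
  · -- strictness on the left, `T_b`
    apply lt_of_le_of_mem_not_mem (x := tT (sympBilin m F) b _ hbb)
    · intro g hg
      refine ⟨?_, hg.2⟩
      intro u _
      exact QQ_stab hD h1 h2 h3 h4 g hg.1 u
    · refine ⟨?_, hTsp b hbb⟩
      intro u _
      change Q (((tT (sympBilin m F) b _ hbb : GL (Fin m ⊕ Fin m) F) : Matrix (Fin m ⊕ Fin m) (Fin m ⊕ Fin m) F) *ᵥ u) = Q u
      rw [hTapp]
      rcases f2_cases hq (sympForm m F u b) with h | h
      · rw [h, zero_smul, add_zero]
      · rw [h, one_smul, hadd, hQb, h]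
        have : Q u + 1 + 1 = Q u + (1 + 1) := by ring
        rw [this, f2_add_self hq, add_zero]
    · rintro ⟨⟨σ, hσ⟩, -⟩
      have hw : ((tT (sympBilin m F) b _ hbb : GL (Fin m ⊕ Fin m) F) : Matrix (Fin m ⊕ Fin m) (Fin m ⊕ Fin m) F) *ᵥ y ∈ D (σ i₁) := by
        rw [← hσ i₁]
        exact ⟨y, hy, by simp only [Matrix.toLin'_apply]⟩
      rw [hTapp, hyb, one_smul] at hw
      -- one of `i₂, i₃` differs from `σ i₁`
      have hproj : ∀ j, j ≠ σ i₁ → π j (y + b) = 0 := fun j hj => h3 j _ _ hj hw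
      have hexp : ∀ j, π j (y + b) = π j y + π j x₁ + π j x₂ + π j x₃ := by
        intro j
        rw [hb]
        simp only [map_add]
        abel
      by_cases hc : i₂ = σ i₁
      · have hj : i₃ ≠ σ i₁ := fun h => h23 (hc.trans h.symm)
        have := hproj i₃ hj
        rw [hexp, h3 _ i₁ _ h13.symm hy, h3 _ i₁ _ h13.symm hx₁, h3 _ i₂ _ h23.symm hx₂,
          h2 _ _ hx₃] at this
        exact hx₃0 (by simpa using this)
      · have := hproj i₂ hc
        rw [hexp, h3 _ i₁ _ h12.symm hy, h3 _ i₁ _ h12.symm hx₁, h2 _ _ hx₂,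
          h3 _ i₃ _ h23 hx₃] at this
        exact hx₂0 (by simpa using this)
  · -- strictness on the right, `T_a`
    apply lt_of_le_of_mem_not_mem (x := tT (sympBilin m F) a _ haa) inf_le_right (hTsp a haa)
    rintro ⟨hiso, -⟩
    have := hiso y 0
    change Q (((tT (sympBilin m F) a _ haa : GL (Fin m ⊕ Fin m) F) : Matrix (Fin m ⊕ Fin m) (Fin m ⊕ Fin m) F) *ᵥ y) = Q y at this
    rw [hTapp, hya, one_smul, hadd, hQa, hya, add_zero] at this
    exact (one_ne_zero (α := F)) (by simpa using this)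

theorem result {F : Type*} [Field F] [Fintype F] (m : ℕ) (hm : 7 ≤ m) (hq : Fintype.card F = 2) {t : ℕ} (D : Fin t → Submodule F (Fin m ⊕ Fin m → F)) (hD : Cfsg.Geo.IsNondegenerateMDecomposition (Cfsg.sympForm m F) 2 D) : ∃ K : Subgroup (Matrix.GeneralLinearGroup (Fin m ⊕ Fin m) F), Cfsg.Geo.decompositionStabilizer D ⊓ Cfsg.spGL m F < K ∧ K < Cfsg.spGL m F :=
  result' m hm hq D hD

end Cfsg.Agent.S5648
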