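import Cfsg.Statements.S5656
import Mathlib
import Cfsg.Agent.Lib.Classical.Geo.HermTv

set_option autoImplicit false
set_option linter.unusedSectionVars false
open Cfsg

namespace Cfsg.Agent.S5656

open scoped Matrix
open Module Cfsg.Geo Cfsg.Agent.Lib.Classical.Geo.Basic Cfsg.Agent.Lib.Classical.Geo.HermTv
open Cfsg.Agent.Lib.Classical.Herm.Basic Cfsg.Agent.Lib.Classical.Herm.GU

variable {F : Type*} [Field F] [Fintype F] {n : ℕ}

theorem card2 (hF : Fintype.card F = 4) : Fintype.card F = 2 ^ 2 := by rw [hF]; norm_num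

theorem two_eq_zero' (hF : Fintype.card F = 4) : (2 : F) = 0 := by
  have h4 : ((4 : ℕ) : F) = 0 := by
    rw [← hF]
    exact Nat.cast_card_eq_zero F
  have h : (2 : F) * 2 = 0 := by
    have : ((4 : ℕ) : F) = 2 * 2 := by norm_num
    rw [← this, h4]
  simpa using h

theorem add_self4 (hF : Fintype.card F = 4) (a : F) : a + a = 0 := by
  have := two_eq_zero' hF
  calc a + a = 2 * a := by ring
    _ = 0 := by rw [this, zero_mul]

theorem pow3 (hF : Fintype.card F = 4) {a : F} (ha : a ≠ 0) : a ^ 3 = 1 := by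
  have := FiniteField.pow_card_sub_one_eq_one a ha
  rwa [hF] at this

theorem norm_eq_one (hF : Fintype.card F = 4) {w : Fin n → F}
    (hw : hermForm n F 2 w w ≠ 0) : hermForm n F 2 w w = 1 := by
  have h := hermForm_self_pow_q (card2 hF) n w
  have : hermForm n F 2 w w * (hermForm n F 2 w w - 1) = 0 := by
    linear_combination h
  rcases mul_eq_zero.mp this with h0 | h0
  · exact absurd h0 hw
  · exact sub_eq_zero.mp h0

theorem swap_eq_zero (hF : Fintype.card F = 4) {u v : Fin n → F}
    (h : hermForm n F 2 u v = 0) : hermForm n F 2 v u = 0 := by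
  rw [← hermForm_pow_q (card2 hF), h]
  simp

section Frame

variable {W : Submodule F (Fin n → F)}

theorem exists_nonisotropic (hF : Fintype.card F = 4)
    (hnd : IsNondegenerateOn (hermForm n F 2) W) (hdim : finrank F W = 2) :
    ∃ e ∈ W, hermForm n F 2 e e ≠ 0 := by
  classical
  have hne : W ≠ ⊥ := by
    rintro rfl
    simp at hdim
  obtain ⟨x, hx, hx0⟩ := (Submodule.ne_bot_iff W).1 hne
  by_cases hxx : hermForm n F 2 x x = 0
  swap
  · exact ⟨x, hx, hxx⟩
  obtain ⟨y, hy, hyx⟩ := (hnd x hx hx0).1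
  by_cases hyy : hermForm n F 2 y y = 0
  swap
  · exact ⟨y, hy, hyy⟩
  -- choose `c ∉ {0, s}`
  set s := hermForm n F 2 y x with hs
  obtain ⟨c, hc0, hcs⟩ : ∃ c : F, c ≠ 0 ∧ c ≠ s := by
    have hcard : ({0, s} : Finset F).card < (Finset.univ : Finset F).card := by
      rw [Finset.card_univ, hF]
      exact lt_of_le_of_lt (Finset.card_le_two) (by norm_num)
    obtain ⟨c, -, hc⟩ := Finset.exists_mem_notMem_of_card_lt_card hcard
    simp only [Finset.mem_insert, Finset.mem_singleton, not_or] at hc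
    exact ⟨c, hc.1, hc.2⟩
  refine ⟨y + c • x, W.add_mem hy (W.smul_mem c hx), ?_⟩
  have h1 : hermForm n F 2 x y = s ^ 2 := by
    rw [hs, hermForm_pow_q (card2 hF)]
  rw [hermForm_add_left, hermForm_add_right (card2 hF), hermForm_add_right (card2 hF),
    hermForm_smul_left, hermForm_smul_left, hermForm_smul_right, hermForm_smul_right,
    hxx, hyy, ← hs, h1]
  have h2 : 0 + c ^ 2 * s + (c * s ^ 2 + c * (c ^ 2 * 0)) = c * s * (c + s) := by ring
  rw [h2]
  refine mul_ne_zero (mul_ne_zero hc0 hyx) ?_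
  intro h3
  apply hcs
  have := add_self4 hF s
  linear_combination h3 - this

/-- The orthonormal frame of a nondegenerate Hermitian plane over `𝔽₄`. -/
theorem exists_frame (hF : Fintype.card F = 4)
    (hnd : IsNondegenerateOn (hermForm n F 2) W) (hdim : finrank F W = 2) :
    ∃ e ∈ W, ∃ e' ∈ W, hermForm n F 2 e e = 1 ∧ hermForm n F 2 e' e' = 1 ∧
      hermForm n F 2 e e' = 0 ∧ hermForm n F 2 e' e = 0 ∧
      ∀ x ∈ W, ∃ α β : F, x = α • e + β • e' := by
  classical
  obtain ⟨e, he, hee⟩ := exists_nonisotropic hF hnd hdim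
  have hee1 := norm_eq_one hF hee
  have hlt : Submodule.span F {e} ≠ W := by
    intro h
    have := finrank_span_singleton (K := F) (v := e) (by
      rintro rfl
      exact hee (hermForm_zero_left _ _))
    rw [h, hdim] at this
    norm_num at this
  obtain ⟨y, hy, hyn⟩ : ∃ y ∈ W, y ∉ Submodule.span F {e} := by
    by_contra hcon
    push Not at hcon
    apply hlt
    apply le_antisymm
    · rw [Submodule.span_singleton_le_iff_mem]
      exact he
    · exact hcon
  set e' := y - hermForm n F 2 y e • e with he'def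
  have he'mem : e' ∈ W := W.sub_mem hy (W.smul_mem _ he)
  have h1 : hermForm n F 2 e' e = 0 := by
    rw [he'def, sub_eq_add_neg, ← neg_smul, hermForm_add_left, hermForm_smul_left, hee1]
    ring
  have h2 : hermForm n F 2 e e' = 0 := swap_eq_zero hF h1
  have he'0 : e' ≠ 0 := by
    intro h
    apply hyn
    rw [Submodule.mem_span_singleton]
    exact ⟨hermForm n F 2 y e, (sub_eq_zero.mp h).symm⟩
  have hind : LinearIndependent F ![e, e'] := by
    rw [LinearIndependent.pair_iff]
    intro s t hst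
    have h3 : hermForm n F 2 (s • e + t • e') e = 0 := by
      rw [hst, hermForm_zero_left]
    rw [hermForm_add_left, hermForm_smul_left, hermForm_smul_left, h1, hee1] at h3
    have hs0 : s = 0 := by simpa using h3
    refine ⟨hs0, ?_⟩
    rw [hs0, zero_smul, zero_add] at hst
    exact (smul_eq_zero.mp hst).resolve_right he'0
  have hspan : Submodule.span F (Set.range ![e, e']) = W := by
    apply Submodule.eq_of_le_of_finrank_eq
    · rw [Submodule.span_le]
      rintro _ ⟨j, rfl⟩
      fin_cases j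
      · exact he
      · exact he'mem
    · rw [finrank_span_eq_card hind, hdim]
      simp
  have hall : ∀ x ∈ W, ∃ α β : F, x = α • e + β • e' := by
    intro x hx
    rw [← hspan] at hx
    obtain ⟨c, hc⟩ := (Submodule.mem_span_range_iff_exists_fun F).1 hx
    refine ⟨c 0, c 1, ?_⟩
    rw [← hc, Fin.sum_univ_two]
    rfl
  have he'e' : hermForm n F 2 e' e' ≠ 0 := by
    intro h0
    obtain ⟨x, hx, hxe⟩ := (hnd e' he'mem he'0).1
    obtain ⟨α, β, rfl⟩ := hall x hx
    apply hxe
    rw [hermForm_add_left, hermForm_smul_left, hermForm_smul_left, h2, h0]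
    ring
  exact ⟨e, he, e', he'mem, hee1, norm_eq_one hF he'e', h2, h1, hall⟩

end Frame

section Main

variable {t : ℕ} {D : Fin t → Submodule F (Fin n → F)}

/-- The set of nonisotropic vectors of the members of `D`. -/
def AA (D : Fin t → Submodule F (Fin n → F)) : Set (Fin n → F) :=
  {x | ∃ i, x ∈ D i ∧ hermForm n F 2 x x ≠ 0}

theorem AA_fwd {g : Matrix.GeneralLinearGroup (Fin n) F} (hg : g ∈ decompositionStabilizer D)
    (hg' : g ∈ GU n F 2) {x : Fin n → F} (hx : x ∈ AA D) :
    (g : Matrix (Fin n) (Fin n) F) *ᵥ x ∈ AA D := by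
  obtain ⟨i, hi, hxx⟩ := hx
  obtain ⟨σ, hσ⟩ := hg
  refine ⟨σ i, ?_, ?_⟩
  · rw [← hσ i]
    exact ⟨x, hi, by simp [Matrix.toLin'_apply]⟩
  · rw [(mem_GU_iff g).1 hg' x x]
    exact hxx

variable (hF : Fintype.card F = 4) (hD : IsNondegenerateMDecomposition (hermForm n F 2) 2 D)

include hF hD

theorem result_aux : ∃ K : Subgroup (Matrix.GeneralLinearGroup (Fin n) F),
    decompositionStabilizer D ⊓ (GU n F 2 ⊓ specialLinear (Fin n) F) < K ∧
      K < (GU n F 2 ⊓ specialLinear (Fin n) F) := by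
  classical
  have hF2 := card2 hF
  let K : Subgroup (Matrix.GeneralLinearGroup (Fin n) F) :=
    Cfsg.stabilizing (Units.coeHom (Matrix (Fin n) (Fin n) F)) (AA D) ⊓ (GU n F 2 ⊓ specialLinear (Fin n) F)
  have hmemK : ∀ g : Matrix.GeneralLinearGroup (Fin n) F, g ∈ K ↔
      (∀ v, v ∈ AA D ↔ (g : Matrix (Fin n) (Fin n) F) *ᵥ v ∈ AA D) ∧
        g ∈ GU n F 2 ⊓ specialLinear (Fin n) F := fun g => Iff.rfl
  have htwo : 2 ≤ t := hD.decomp.two_le
  let i₁ : Fin t := ⟨0, by omega⟩
  let i₂ : Fin t := ⟨1, by omega⟩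
  have h12 : i₁ ≠ i₂ := by simp [i₁, i₂, Fin.ext_iff]
  obtain ⟨e₁, he₁, e₁', he₁', n₁, n₁', o₁, o₁', sp₁⟩ :=
    exists_frame hF (hD.nondegenerate i₁) (hD.decomp.finrank_eq i₁)
  obtain ⟨e₂, he₂, e₂', he₂', n₂, n₂', o₂, o₂', sp₂⟩ :=
    exists_frame hF (hD.nondegenerate i₂) (hD.decomp.finrank_eq i₂)
  have horth : ∀ {i j : Fin t} {u v : Fin n → F}, u ∈ D i → v ∈ D j → i ≠ j →
      hermForm n F 2 u v = 0 := fun {i j u v} hu hv hij => hD.orthogonal i j hij u hu v hv
  have c11 : hermForm n F 2 e₁ e₂ = 0 := horth he₁ he₂ h12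
  have c12 : hermForm n F 2 e₁ e₂' = 0 := horth he₁ he₂' h12
  have c21 : hermForm n F 2 e₁' e₂ = 0 := horth he₁' he₂ h12
  have c22 : hermForm n F 2 e₁' e₂' = 0 := horth he₁' he₂' h12
  have d11 : hermForm n F 2 e₂ e₁ = 0 := horth he₂ he₁ h12.symm
  have d12 : hermForm n F 2 e₂ e₁' = 0 := horth he₂ he₁' h12.symm
  have d21 : hermForm n F 2 e₂' e₁ = 0 := horth he₂' he₁ h12.symm
  have d22 : hermForm n F 2 e₂' e₁' = 0 := horth he₂' he₁' h12.symm
  have hA := add_self4 hF
  have hAV : ∀ v : Fin n → F, v + v = 0 := by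
    intro v
    ext x
    exact hA _
  refine ⟨K, ?_, ?_⟩
  · -- left strictness
    have hle : decompositionStabilizer D ⊓ (GU n F 2 ⊓ specialLinear (Fin n) F) ≤ K := by
      intro g hg
      obtain ⟨hg1, hg2⟩ := hg
      rw [hmemK]
      refine ⟨fun v => ⟨fun hv => AA_fwd hg1 hg2.1 hv, fun hv => ?_⟩, hg2⟩
      have := AA_fwd ((decompositionStabilizer D).inv_mem hg1) ((GU n F 2).inv_mem hg2.1) hv
      rwa [inv_mulVec_mulVec] at this
    set a := e₁ + e₂ with ha
    have haa : hermForm n F 2 a a = 0 := by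
      rw [ha, hermForm_add_left, hermForm_add_right hF2, hermForm_add_right hF2, n₁, n₂, c11, d11,
        zero_add, add_zero]
      exact hA 1
    set T := hT 2 (1 : F) a haa with hTdef
    have hTv : ∀ x, (T : Matrix (Fin n) (Fin n) F) *ᵥ x = x + hermForm n F 2 x a • a := by
      intro x
      rw [hTdef, hT_mulVec, one_mul]
    have hTG : T ∈ GU n F 2 ⊓ specialLinear (Fin n) F :=
      ⟨hT_mem_GU hF2 1 (by simpa using hA 1) a haa, hT_mem_specialLinear _ _ _⟩
    have hTT : ∀ x, (T : Matrix (Fin n) (Fin n) F) *ᵥ ((T : Matrix (Fin n) (Fin n) F) *ᵥ x) = x := by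
      intro x
      rw [hTv, hTv, hermForm_add_left, hermForm_smul_left, haa, mul_zero, add_zero, add_assoc,
        ← add_smul, hA, zero_smul, add_zero]
    have hxa1 : ∀ x ∈ D i₁, hermForm n F 2 x a = hermForm n F 2 x e₁ := by
      intro x hx
      rw [ha, hermForm_add_right hF2, horth hx he₂ h12, add_zero]
    have hxa2 : ∀ x ∈ D i₂, hermForm n F 2 x a = hermForm n F 2 x e₂ := by
      intro x hx
      rw [ha, hermForm_add_right hF2, horth hx he₁ h12.symm, zero_add]
    have hTe₁ : (T : Matrix (Fin n) (Fin n) F) *ᵥ e₁ = e₂ := by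
      rw [hTv, hxa1 _ he₁, n₁, one_smul, ha, ← add_assoc, hAV, zero_add]
    have hTe₂ : (T : Matrix (Fin n) (Fin n) F) *ᵥ e₂ = e₁ := by
      rw [hTv, hxa2 _ he₂, n₂, one_smul, ha, add_comm e₁ e₂, ← add_assoc, hAV, zero_add]
    have hTe₁' : (T : Matrix (Fin n) (Fin n) F) *ᵥ e₁' = e₁' := by
      rw [hTv, hxa1 _ he₁', o₁', zero_smul, add_zero]
    have hTe₂' : (T : Matrix (Fin n) (Fin n) F) *ᵥ e₂' = e₂' := by
      rw [hTv, hxa2 _ he₂', o₂', zero_smul, add_zero]
    have hfix : ∀ i, i ≠ i₁ → i ≠ i₂ → ∀ x ∈ D i, (T : Matrix (Fin n) (Fin n) F) *ᵥ x = x := by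
      intro i hi1 hi2 x hx
      rw [hTv, ha, hermForm_add_right hF2, horth hx he₁ hi1, horth hx he₂ hi2, add_zero, zero_smul,
        add_zero]
    -- the norm of a combination
    have hnorm : ∀ {e e' : Fin n → F}, hermForm n F 2 e e = 1 → hermForm n F 2 e' e' = 1 →
        hermForm n F 2 e e' = 0 → hermForm n F 2 e' e = 0 → ∀ α β : F,
        hermForm n F 2 (α • e + β • e') (α • e + β • e') ≠ 0 → α = 0 ∨ β = 0 := by
      intro e e' h1 h2 h3 h4 α β hne
      by_contra hcon
      push Not at hcon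
      apply hne
      rw [hermForm_add_left, hermForm_add_right hF2, hermForm_add_right hF2, hermForm_smul_left,
        hermForm_smul_left, hermForm_smul_right, hermForm_smul_right, hermForm_smul_left,
        hermForm_smul_left, hermForm_smul_right, hermForm_smul_right, h1, h2, h3, h4]
      have e1 := pow3 hF hcon.1
      have e2 := pow3 hF hcon.2
      have e3 := hA 1
      linear_combination e1 + e2 + e3
    have hTsmul : ∀ (c : F) (x : Fin n → F), (T : Matrix (Fin n) (Fin n) F) *ᵥ (c • x) =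
        c • ((T : Matrix (Fin n) (Fin n) F) *ᵥ x) := fun c x => Matrix.mulVec_smul _ _ _
    have hTA : ∀ x ∈ AA D, (T : Matrix (Fin n) (Fin n) F) *ᵥ x ∈ AA D := by
      rintro x ⟨i, hi, hxx⟩
      have hxx' : hermForm n F 2 ((T : Matrix (Fin n) (Fin n) F) *ᵥ x)
          ((T : Matrix (Fin n) (Fin n) F) *ᵥ x) ≠ 0 := by
        rw [(mem_GU_iff T).1 hTG.1 x x]
        exact hxx
      by_cases hi1 : i = i₁
      · subst hi1
        obtain ⟨α, β, rfl⟩ := sp₁ x hi
        rcases hnorm n₁ n₁' o₁ o₁' α β hxx with rfl | rfl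
        · rw [zero_smul, zero_add, hTsmul, hTe₁']
          exact ⟨i₁, (D i₁).smul_mem _ he₁', by simpa using hxx⟩
        · rw [zero_smul, add_zero, hTsmul, hTe₁]
          refine ⟨i₂, (D i₂).smul_mem _ he₂, ?_⟩
          rw [zero_smul, add_zero, hTsmul, hTe₁] at hxx'
          exact hxx'
      by_cases hi2 : i = i₂
      · subst hi2
        obtain ⟨α, β, rfl⟩ := sp₂ x hi
        rcases hnorm n₂ n₂' o₂ o₂' α β hxx with rfl | rfl
        · rw [zero_smul, zero_add, hTsmul, hTe₂']
          exact ⟨i₂, (D i₂).smul_mem _ he₂', by simpa using hxx⟩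
        · rw [zero_smul, add_zero, hTsmul, hTe₂]
          refine ⟨i₁, (D i₁).smul_mem _ he₁, ?_⟩
          rw [zero_smul, add_zero, hTsmul, hTe₂] at hxx'
          exact hxx'
      · rw [hfix i hi1 hi2 x hi]
        exact ⟨i, hi, hxx⟩
    have hTK : T ∈ K := by
      rw [hmemK]
      refine ⟨fun v => ⟨hTA v, fun hv => ?_⟩, hTG⟩
      have := hTA _ hv
      rwa [hTT] at this
    refine lt_of_le_of_mem_not_mem hle hTK ?_
    rintro ⟨⟨σ, hσ⟩, -⟩
    have hm1 : e₂ ∈ D (σ i₁) := by
      rw [← hσ i₁, ← hTe₁]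
      exact ⟨e₁, he₁, by simp [Matrix.toLin'_apply]⟩
    have hm2 : e₁' ∈ D (σ i₁) := by
      rw [← hσ i₁]
      refine ⟨e₁', he₁', ?_⟩
      simp only [Matrix.toLin'_apply]
      exact hTe₁'
    have k1 : σ i₁ = i₂ := by
      by_contra hne
      have := horth hm1 he₂ hne
      rw [n₂] at this
      exact one_ne_zero this
    have k2 : σ i₁ = i₁ := by
      by_contra hne
      have := horth hm2 he₁' hne
      rw [n₁'] at this
      exact one_ne_zero this
    exact h12 (k2.symm.trans k1)
  · -- right strictness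
    set b := e₁ + e₁' + (e₂ + e₂') with hb
    have hbe₁ : hermForm n F 2 b e₁ = 1 := by
      rw [hb, hermForm_add_left, hermForm_add_left, hermForm_add_left, n₁, o₁', d11, d21]
      simp
    have hbb : hermForm n F 2 b b = 0 := by
      rw [hb, hermForm_add_left, hermForm_add_left, hermForm_add_left, hermForm_add_right hF2,
        hermForm_add_right hF2, hermForm_add_right hF2, hermForm_add_right hF2,
        hermForm_add_right hF2, hermForm_add_right hF2, hermForm_add_right hF2,
        hermForm_add_right hF2, hermForm_add_right hF2, hermForm_add_right hF2,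
        hermForm_add_right hF2, hermForm_add_right hF2, n₁, n₁', n₂, n₂', o₁, o₁', o₂, o₂', c11, c12,
        c21, c22, d11, d12, d21, d22]
      have := hA 1
      linear_combination (2 : F) * this
    have hTG : hT 2 (1 : F) b hbb ∈ GU n F 2 ⊓ specialLinear (Fin n) F :=
      ⟨hT_mem_GU hF2 1 (by simpa using hA 1) b hbb, hT_mem_specialLinear _ _ _⟩
    refine lt_of_le_of_mem_not_mem inf_le_right hTG ?_
    intro hmem
    have hTe : ((hT 2 (1 : F) b hbb : Matrix.GeneralLinearGroup (Fin n) F) :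
        Matrix (Fin n) (Fin n) F) *ᵥ e₁ = e₁' + (e₂ + e₂') := by
      have h₁ : hermForm n F 2 e₁ b = 1 := by
        rw [← hermForm_pow_q hF2, hbe₁]
        simp
      rw [hT_mulVec, one_mul, h₁, one_smul, hb, add_assoc, ← add_assoc, hAV, zero_add]
    have he₁A : e₁ ∈ AA D := ⟨i₁, he₁, by rw [n₁]; exact one_ne_zero⟩
    have hyA := (((hmemK _).1 hmem).1 e₁).1 he₁A
    rw [hTe] at hyA
    obtain ⟨i, hi, -⟩ := hyA
    have k1 : i = i₁ := by
      by_contra hne
      have := horth hi he₁' hne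
      rw [hermForm_add_left, hermForm_add_left, n₁', d12, d22] at this
      simp at this
    have k2 : i = i₂ := by
      by_contra hne
      have := horth hi he₂ hne
      rw [hermForm_add_left, hermForm_add_left, n₂, c21, o₂'] at this
      simp at this
    exact h12 (k1.symm.trans k2)

end Main

/-- Let F be the field with 4 elements (q = 2) and n ≥ 13. Let D be a decomposition of F^n into t pairwise orthogonal 2-dimensional subspaces, each non-degenerate for the standard unitary form Σ u_i v_i². Then the elements of SU_n(2) permuting the members of D form a subgroup that is not maximal: some subgroup lies strictly between it and SU_n(2). -/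
theorem result {F : Type*} [Field F] [Fintype F] (n : ℕ) (hF : Fintype.card F = 4) (hn : 13 ≤ n) {t : ℕ} (D : Fin t → Submodule F (Fin n → F)) (hD : Cfsg.Geo.IsNondegenerateMDecomposition (Cfsg.hermForm n F 2) 2 D) : ∃ K : Subgroup (Matrix.GeneralLinearGroup (Fin n) F), Cfsg.Geo.decompositionStabilizer D ⊓ (Cfsg.GU n F 2 ⊓ Cfsg.Geo.specialLinear (Fin n) F) < K ∧ K < (Cfsg.GU n F 2 ⊓ Cfsg.Geo.specialLinear (Fin n) F) := by
  exact result_aux hF hD

end Cfsg.Agent.S5656
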