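import Cfsg.Statements.S5664
import Mathlib
import Cfsg.Agent.Lib.Classical.Spread.SpTransfer

set_option autoImplicit false
open Cfsg

namespace Cfsg.Agent.S5664

open Cfsg.Agent.Lib.Classical.Spread Module

section
variable {F : Type*} [Field F] {m : ℕ}

/-- A type synonym for the subalgebra, to carry a field structure with no competing instances. -/
def KT (K : Subalgebra F (Matrix (Fin m ⊕ Fin m) (Fin m ⊕ Fin m) F)) : Type _ := K

noncomputable instance (K : Subalgebra F (Matrix (Fin m ⊕ Fin m) (Fin m ⊕ Fin m) F)) : Ring (KT K) :=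
  inferInstanceAs (Ring K)

end

/-- For a finite field F and m ≥ 7, let K be a subfield of the algebra of 2m × 2m matrices over F containing the scalars, of prime degree r over F, whose elements k are self-adjoint for the standard alternating form f on F^(2m) (f(k u, v) = f(u, k v)) and satisfy f(k v, v) = 0 for all v. Then the elements of Sp_2m(F) normalising K form a maximal subgroup of Sp_2m(F). -/
theorem result {F : Type*} [Field F] [Fintype F] (m : ℕ) (hm : 7 ≤ m) (r : ℕ) (hr : r.Prime) (K : Subalgebra F (Matrix (Fin m ⊕ Fin m) (Fin m ⊕ Fin m) F)) (hK : Cfsg.Geo.IsFieldSubalgebra r K) (hsa : Cfsg.Geo.IsSelfAdjointFor (Cfsg.sympForm m F) K) (halt : ∀ k ∈ K, ∀ v : (Fin m ⊕ Fin m → F), Cfsg.sympForm m F (Matrix.mulVec k v) v = 0) : Cfsg.Geo.IsMaximalIn (Cfsg.spGL m F) (Cfsg.Geo.subalgebraNormalizer K ⊓ Cfsg.spGL m F) := by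
  classical
  have hnt : Nontrivial (Matrix (Fin m ⊕ Fin m) (Fin m ⊕ Fin m) F) := by
    have : Nonempty (Fin m ⊕ Fin m) := ⟨Sum.inl ⟨0, by omega⟩⟩
    infer_instance
  have hfield : IsField (KT K) := by
    refine ⟨⟨0, 1, ?_⟩, ?_, ?_⟩
    · intro h
      have : ((0 : K) : Matrix (Fin m ⊕ Fin m) (Fin m ⊕ Fin m) F)
          = ((1 : K) : Matrix (Fin m ⊕ Fin m) (Fin m ⊕ Fin m) F) :=
        congrArg Subtype.val h
      simp at this
    · intro a b
      exact Subtype.ext (hK.comm a.1 a.2 b.1 b.2)
    · intro a ha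
      have ha' : (a.1 : Matrix (Fin m ⊕ Fin m) (Fin m ⊕ Fin m) F) ≠ 0 := fun h => ha (Subtype.ext h)
      obtain ⟨y, hy, hxy⟩ := hK.inv a.1 a.2 ha'
      exact ⟨⟨y, hy⟩, Subtype.ext hxy⟩
  letI fK : Field (KT K) := hfield.toField
  let φ : F →+* KT K :=
    { toFun := fun s => ⟨algebraMap F (Matrix (Fin m ⊕ Fin m) (Fin m ⊕ Fin m) F) s, K.algebraMap_mem s⟩
      map_one' := Subtype.ext (map_one _)
      map_mul' := fun a b => Subtype.ext (map_mul _ a b)
      map_zero' := Subtype.ext (map_zero _)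
      map_add' := fun a b => Subtype.ext (map_add _ a b) }
  letI aK : Algebra F (KT K) := φ.toAlgebra
  let ι : KT K →ₐ[F] Matrix (Fin m ⊕ Fin m) (Fin m ⊕ Fin m) F :=
    { toFun := fun a => a.1
      map_one' := rfl
      map_mul' := fun _ _ => rfl
      map_zero' := rfl
      map_add' := fun _ _ => rfl
      commutes' := fun _ => rfl }
  have hrange : ι.range = K := by
    ext x
    constructor
    · rintro ⟨a, rfl⟩
      exact a.2
    · intro hx
      exact ⟨⟨x, hx⟩, rfl⟩
  letI mK : Module (KT K) (Fin m ⊕ Fin m → F) :=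
    Module.compHom _ ((Matrix.toLinAlgEquiv' : Matrix (Fin m ⊕ Fin m) (Fin m ⊕ Fin m) F ≃ₐ[F]
      Module.End F (Fin m ⊕ Fin m → F)).toRingEquiv.toRingHom.comp ι.toRingHom)
  have hι : ∀ (k : KT K) (x : Fin m ⊕ Fin m → F), k • x = (ι k).mulVec x := fun k x => rfl
  haveI tK : IsScalarTower F (KT K) (Fin m ⊕ Fin m → F) := by
    constructor
    intro s k x
    change (ι (s • k)).mulVec x = s • (ι k).mulVec x
    rw [map_smul, Matrix.smul_mulVec]
  let eK : KT K ≃ₗ[F] K :=
    { toFun := fun a => a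
      invFun := fun a => a
      left_inv := fun _ => rfl
      right_inv := fun _ => rfl
      map_add' := fun _ _ => rfl
      map_smul' := fun s a => by
        apply Subtype.ext
        change algebraMap F (Matrix (Fin m ⊕ Fin m) (Fin m ⊕ Fin m) F) s * a.1 = s • a.1
        rw [Algebra.smul_def] }
  have hrk : finrank F (KT K) = r := by
    rw [eK.finrank_eq]
    exact hK.finrank_eq
  haveI hfinK : Finite (KT K) :=
    Finite.of_injective (fun k => (ι k : Matrix (Fin m ⊕ Fin m) (Fin m ⊕ Fin m) F))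
      (fun a b h => Subtype.ext h)
  haveI : FiniteDimensional F (KT K) := Module.Finite.of_finite
  haveI : FiniteDimensional (KT K) (Fin m ⊕ Fin m → F) :=
    Module.Finite.of_restrictScalars_finite F (KT K) _
  have hmul : r * finrank (KT K) (Fin m ⊕ Fin m → F) = 2 * m := by
    have h1 := Module.finrank_mul_finrank F (KT K) (Fin m ⊕ Fin m → F)
    rw [hrk, Module.finrank_pi_fintype] at h1
    simp at h1
    rw [h1]
    ring
  have hdim2 : 2 ≤ finrank (KT K) (Fin m ⊕ Fin m → F) := by
    by_contra hlt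
    have hle : finrank (KT K) (Fin m ⊕ Fin m → F) ≤ 1 := by omega
    interval_cases h : finrank (KT K) (Fin m ⊕ Fin m → F)
    · omega
    · rw [mul_one] at hmul
      subst hmul
      have := (Nat.prime_mul_iff.mp hr)
      omega
  have hdim3 : finrank F (KT K) = 2 → 3 ≤ finrank (KT K) (Fin m ⊕ Fin m → F) := by
    intro h2
    rw [hrk] at h2
    subst h2
    omega
  haveI : Algebra.IsSeparable F (KT K) := inferInstance
  have := main_sp (ι := ι) hι (by rw [hrk]; exact hr) hdim2 hdim3
    (fun k u v => hsa k.1 k.2 u v) (fun k v => halt k.1 k.2 v)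
  rwa [hrange] at this

end Cfsg.Agent.S5664
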