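import Cfsg.Statements.S5675
import Mathlib
import Cfsg.Agent.Lib.Classical.Geo.ONondegMax
import Cfsg.Agent.Lib.Classical.Orth.Models
-- import your own Cfsg.Agent.* helpers here

set_option autoImplicit false
open Cfsg

namespace Cfsg.Agent.S5675

/-- Let F be a finite field of odd order q, m ≥ 6, Q the standard quadratic form on F^(2m+1) and Ω the commutator subgroup of its isometry group. Let W be a non-zero subspace of even dimension on which the polar form of Q is non-degenerate; exclude the case q = 3, dim W = 2 with Q vanishing on some line of W (a plus-type plane). Then the elements of Ω stabilising W (equivalently, stabilising its orthogonal complement, of odd dimension) form a maximal subgroup of Ω. -/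
theorem result {F : Type*} [Field F] [Fintype F] (hodd : Odd (Fintype.card F)) (m : ℕ) (hm : 6 ≤ m) (W : Submodule F (Unit ⊕ (Fin m ⊕ Fin m) → F)) (hW0 : W ≠ ⊥) (hev : Even (Module.finrank F W)) (hW : Cfsg.Geo.IsNondegenerateOn (QuadraticMap.polar (Cfsg.quadFormOdd m F)) W) (hex : ¬ (Fintype.card F = 3 ∧ Module.finrank F W = 2 ∧ Cfsg.Geo.IsPlusTypeOn (Cfsg.quadFormOdd m F) W)) : Cfsg.Geo.IsMaximalIn (Cfsg.Geo.omegaGL (Cfsg.quadFormOdd m F)) (Cfsg.Geo.subspaceStabilizer W ⊓ Cfsg.Geo.omegaGL (Cfsg.quadFormOdd m F)) := by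
  have h2 : (2 : F) ≠ 0 := Cfsg.Agent.Lib.Classical.Geo.OPts.two_ne_zero_of_odd hodd
  have hQ := Cfsg.Agent.Lib.Classical.Orth.Models.oddForm_nondegenerate (F := F) h2 m
  rw [← Cfsg.Agent.Lib.Classical.Orth.Models.coe_oddForm] at hW hex ⊢
  have hcard : Fintype.card (Unit ⊕ (Fin m ⊕ Fin m)) = 2 * m + 1 := by
    simp
    omega
  have hW1 : W ≠ ⊤ := by
    rintro rfl
    rw [finrank_top, Module.finrank_fintype_fun_eq_card, hcard] at hev
    rw [Nat.even_add_one] at hev
    exact hev (even_two_mul m)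
  have hne : 2 * Module.finrank F W ≠ Fintype.card (Unit ⊕ (Fin m ⊕ Fin m)) := by
    rw [hcard]
    omega
  refine Cfsg.Agent.Lib.Classical.Geo.ONondegMax.isMaximalIn_nondeg hQ hW0 hW1 hW (by omega) hne ?_
  rintro ⟨hq, U, hfU, hnd, hplus, hU | ⟨-, hU⟩⟩
  · subst hU
    have hq3 : Fintype.card F = 3 := by
      have h1 : 2 ≤ Fintype.card F := Fintype.one_lt_card
      obtain ⟨k, hk⟩ := hodd
      omega
    exact hex ⟨hq3, hfU, hplus⟩
  · obtain ⟨k, hk⟩ := hev
    omega

end Cfsg.Agent.S5675
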