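import Cfsg.Statements.S5676
import Mathlib
import Cfsg.Agent.Lib.Classical.Geo.OPlane
import Cfsg.Agent.Lib.Classical.Orth.Models
-- import your own Cfsg.Agent.* helpers here

set_option autoImplicit false
open Cfsg

namespace Cfsg.Agent.S5676

/-- Let F be the field with 3 elements, m ≥ 6, Q the standard quadratic form on F^(2m+1) and Ω the commutator subgroup of its isometry group. Let W be a 2-dimensional subspace on which the polar form is non-degenerate and which contains a line on which Q vanishes. Then the elements of Ω stabilising W form a subgroup that is not maximal: some subgroup lies strictly between it and Ω. -/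
theorem result {F : Type*} [Field F] [Fintype F] (hq : Fintype.card F = 3) (m : ℕ) (hm : 6 ≤ m) (W : Submodule F (Unit ⊕ (Fin m ⊕ Fin m) → F)) (hdim : Module.finrank F W = 2) (hW : Cfsg.Geo.IsNondegenerateOn (QuadraticMap.polar (Cfsg.quadFormOdd m F)) W) (hplus : Cfsg.Geo.IsPlusTypeOn (Cfsg.quadFormOdd m F) W) : ∃ K : Subgroup (Matrix.GeneralLinearGroup (Unit ⊕ (Fin m ⊕ Fin m)) F), Cfsg.Geo.subspaceStabilizer W ⊓ Cfsg.Geo.omegaGL (Cfsg.quadFormOdd m F) < K ∧ K < Cfsg.Geo.omegaGL (Cfsg.quadFormOdd m F) := by
  have h2 : (2 : F) ≠ 0 := Cfsg.Agent.Lib.Classical.Geo.OPts.two_ne_zero_of_odd (by rw [hq]; decide)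
  have hQ := Cfsg.Agent.Lib.Classical.Orth.Models.oddForm_nondegenerate (F := F) h2 m
  rw [← Cfsg.Agent.Lib.Classical.Orth.Models.coe_oddForm] at hW hplus ⊢
  exact Cfsg.Agent.Lib.Classical.Geo.OPlane.exists_between_plane hQ (by simp; omega) (by omega) hdim hW hplus

end Cfsg.Agent.S5676
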