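import Cfsg.Statements.S5677
import Mathlib
import Cfsg.Agent.Lib.Classical.Decomp.OddFinal
import Cfsg.Agent.Lib.Classical.Orth.Models
import Cfsg.Agent.Lib.Classical.Geo.OPts

set_option autoImplicit false
open Cfsg

namespace Cfsg.Agent.S5677

open Module QuadraticMap Cfsg.Geo
open Cfsg.Agent.Lib.Classical.Decomp
open Cfsg.Agent.Lib.Classical.Orth.Models

/-- Let F be a finite field of odd order q, m ≥ 6, Q the standard quadratic form on F^(2m+1) and Ω the commutator subgroup of its isometry group. Let D be a decomposition of F^(2m+1) into t ≥ 2 pairwise orthogonal, pairwise Q-isometric subspaces of equal dimension k > 1 on which the polar form is non-degenerate. Unless q = 3 and k = 3, the elements of Ω permuting the members of D form a maximal subgroup of Ω. -/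
theorem result {F : Type*} [Field F] [Fintype F] (hodd : Odd (Fintype.card F)) (m : ℕ) (hm : 6 ≤ m) {t : ℕ} (k : ℕ) (hk : 1 < k) (D : Fin t → Submodule F (Unit ⊕ (Fin m ⊕ Fin m) → F)) (hD : Cfsg.Geo.IsOrthogonalMDecomposition (Cfsg.quadFormOdd m F) k D) (hex : ¬ (Fintype.card F = 3 ∧ k = 3)) : Cfsg.Geo.IsMaximalIn (Cfsg.Geo.omegaGL (Cfsg.quadFormOdd m F)) (Cfsg.Geo.decompositionStabilizer D ⊓ Cfsg.Geo.omegaGL (Cfsg.quadFormOdd m F)) := by
  classical
  have h2 := Cfsg.Agent.Lib.Classical.Geo.OPts.two_ne_zero_of_odd hodd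
  have hc : Cfsg.quadFormOdd m F = ⇑(oddForm m F) := (coe_oddForm m F).symm
  rw [hc] at hD ⊢
  have hQ := oddForm_nondegenerate h2 m
  obtain ⟨π, hdec⟩ := exists_dec hD.decomp
  have hcard : Fintype.card (Unit ⊕ (Fin m ⊕ Fin m)) = 2 * m + 1 := by
    simp
    omega
  have hcardmul : 2 * m + 1 = t * k := by
    rw [← hcard]
    have hint : DirectSum.IsInternal D :=
      DirectSum.isInternal_submodule_of_iSupIndep_of_iSup_eq_top hD.decomp.decomp.indep
        hD.decomp.decomp.iSup_eq_top
    have e := LinearEquiv.ofBijective (DirectSum.coeLinearMap D) hint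
    have h1 := e.finrank_eq
    rw [Module.finrank_directSum, Module.finrank_pi] at h1
    rw [← h1]
    simp [hD.decomp.decomp.finrank_eq]
  have hkodd : Odd k := by
    have : Odd (t * k) := by
      rw [← hcardmul]
      exact ⟨m, rfl⟩
    exact (Nat.odd_mul.1 this).2
  have hk3 : 3 ≤ k := by
    obtain ⟨r, hr⟩ := hkodd
    omega
  exact maximal_odd hQ h2 (by rw [hcard]; exact ⟨m, rfl⟩) (by rw [hcard]; omega) hdec hD.isometric hk3
    hD.decomp.decomp.two_le hex

end Cfsg.Agent.S5677
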