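import Cfsg.Statements.S5679
import Mathlib
import Cfsg.Agent.Lib.Classical.Frame.Main3
import Cfsg.Agent.Lib.Classical.Orth.Models
import Cfsg.Agent.Lib.Classical.Geo.OPts

set_option autoImplicit false
open Cfsg

namespace Cfsg.Agent.S5679

open Module QuadraticMap Cfsg.Geo
open Cfsg.Agent.Lib.Classical.Decomp
open Cfsg.Agent.Lib.Classical.Orth.Models
open Cfsg.Agent.Lib.Classical.Frame

/-- Let F be a field of odd prime order p, m ≥ 6, Q the standard quadratic form on F^(2m+1) and Ω the commutator subgroup of its isometry group. Let D be a decomposition of F^(2m+1) into pairwise orthogonal lines on which Q takes non-zero values lying in one square class (pairwise Q-isometric non-degenerate 1-spaces). Then the elements of Ω permuting these lines form a maximal subgroup of Ω. -/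
theorem result {F : Type*} [Field F] [Fintype F] (hodd : Odd (Fintype.card F)) (m : ℕ) (hm : 6 ≤ m) (hprime : (Fintype.card F).Prime) {t : ℕ} (D : Fin t → Submodule F (Unit ⊕ (Fin m ⊕ Fin m) → F)) (hD : Cfsg.Geo.IsOrthogonalMDecomposition (Cfsg.quadFormOdd m F) 1 D) : Cfsg.Geo.IsMaximalIn (Cfsg.Geo.omegaGL (Cfsg.quadFormOdd m F)) (Cfsg.Geo.decompositionStabilizer D ⊓ Cfsg.Geo.omegaGL (Cfsg.quadFormOdd m F)) := by

  classical
  have h2 := Cfsg.Agent.Lib.Classical.Geo.OPts.two_ne_zero_of_odd hodd
  have hc : Cfsg.quadFormOdd m F = ⇑(oddForm m F) := (coe_oddForm m F).symm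
  rw [hc] at hD ⊢
  have hQ := oddForm_nondegenerate h2 m
  obtain ⟨π, hdec⟩ := exists_dec hD.decomp
  have hcard : Fintype.card (Unit ⊕ (Fin m ⊕ Fin m)) = 2 * m + 1 := by
    simp
    omega
  have hcardmul : 2 * m + 1 = t * 1 := by
    rw [← hcard]
    have hint : DirectSum.IsInternal D :=
      DirectSum.isInternal_submodule_of_iSupIndep_of_iSup_eq_top hD.decomp.decomp.indep
        hD.decomp.decomp.iSup_eq_top
    have e := LinearEquiv.ofBijective (DirectSum.coeLinearMap D) hint
    have h1 := e.finrank_eq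
    rw [Module.finrank_directSum, Module.finrank_pi] at h1
    rw [← h1]
    simp [hD.decomp.decomp.finrank_eq]
  have ht : t = 2 * m + 1 := by omega
  exact frame_maximal hprime hodd hQ h2 (by rw [hcard]; exact ⟨m, rfl⟩) (by omega) (by rw [ht]; exact ⟨m, rfl⟩)
    (by rw [hcard]; omega) hdec hD.isometric

end Cfsg.Agent.S5679
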