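import Cfsg.Statements.S5692
import Mathlib
import Cfsg.Agent.Lib.Classical.Decomp.Hyp.Main
import Cfsg.Agent.Lib.Classical.Geo.OPts

set_option autoImplicit false
open Cfsg

namespace Cfsg.Agent.S5692

open Module QuadraticMap Cfsg.Geo
open Cfsg.Agent.Lib.Classical.Decomp
open Cfsg.Agent.Lib.Classical.Decomp.Ev
open Cfsg.Agent.Lib.Classical.Decomp.Hyp

theorem plus_transfer {F : Type*} [Field F] {n : ℕ} {Q : (Fin n → F) → F} {W W' : Submodule F (Fin n → F)}
    (h : AreIsometricFor Q W W') (hp : IsPlusTypeOn Q W) : IsPlusTypeOn Q W' := by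
  obtain ⟨e, he⟩ := h
  obtain ⟨U, hU, hS, hd⟩ := hp
  let U₀ : Submodule F W := U.comap W.subtype
  let U₁ : Submodule F W' := U₀.map (e : W →ₗ[F] W')
  refine ⟨U₁.map W'.subtype, ?_, ?_, ?_⟩
  · rintro _ ⟨x, -, rfl⟩
    exact x.2
  · rintro _ ⟨x, hx, rfl⟩
    obtain ⟨y, hy, rfl⟩ := hx
    change Q ((e y : W') : Fin n → F) = 0
    rw [he]
    exact hS _ hy
  · have h1 : finrank F (U₁.map W'.subtype) = finrank F U₁ := Submodule.finrank_map_subtype_eq _ _
    have h2 : finrank F U₁ = finrank F U₀ := LinearEquiv.finrank_map_eq e U₀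
    have h3 : finrank F U₀ = finrank F U := (Submodule.comapSubtypeEquivOfLe hU).finrank_eq
    rw [h1, h2, h3, hd]
    exact e.finrank_eq

theorem not_six {F : Type*} [Field F] [Fintype F] : Fintype.card F ≠ 6 := by
  intro h
  have h1 : IsPrimePow (Fintype.card F) := Fintype.isPrimePow_card_of_field
  rw [h] at h1
  revert h1
  rw [isPrimePow_nat_iff_bounded]
  decide

/-- Let F be a finite field with q elements, n ≥ 13 even, Q a non-degenerate quadratic form on F^n of plus type (some subspace of dimension n/2 is totally singular), and Ω the commutator subgroup of the isometry group of Q, viewed inside GL_n(F). Let D be a decomposition of F^n into t ≥ 2 pairwise orthogonal, pairwise Q-isometric subspaces of equal dimension k ≥ 2 on which the polar form is non-degenerate, such that: if k is even, either every member is of plus type or t is even; if k is odd, q is odd and the discriminant of Q is a square. Exclude the cases k = 2 with q = 3, k = 2 with plus-type members and q ∈ {2, 4, 5}, k = 3 with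 q = 3, and k = 4 with plus-type members and q = 2. Then the elements of Ω permuting the members of D form a maximal subgroup of Ω. -/
theorem result {F : Type*} [Field F] [Fintype F] {n : ℕ} (hn : 13 ≤ n) (heven : Even n) (Q : (Fin n → F) → F) (hQ : Cfsg.Geo.IsNondegenerateQuadraticForm Q) (hplus : Cfsg.Geo.IsPlusTypeOn Q ⊤) {t : ℕ} (k : ℕ) (hk : 2 ≤ k) (D : Fin t → Submodule F (Fin n → F)) (hD : Cfsg.Geo.IsOrthogonalMDecomposition Q k D) (hke : Even k → ((∀ i, Cfsg.Geo.IsPlusTypeOn Q (D i)) ∨ Even t)) (hko : Odd k → (Odd (Fintype.card F) ∧ Cfsg.Geo.HasSquareDiscriminant Q)) (hex : ¬ ((k = 2 ∧ (Fintype.card F = 3 ∨ ((∀ i, Cfsg.Geo.IsPlusTypeOn Q (D i)) ∧ (Fintype.card F = 2 ∨ Fintype.card F = 4 ∨ Fintype.card F = 5)))) ∨ (k = 3 ∧ Fintype.card F = 3) ∨ (k = 4 ∧ Fintype.card F = 2 ∧ ∀ i, Cfsg.Geo.IsPlusTypeOn Q (D i)))) : Cfsg.Geo.IsMaximalIn (Cfsg.Geo.omegaGL Q) (Cfsg.Geo.decompositionStabilizer D ⊓ Cfsg.Geo.omegaGL Q) := by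
  classical
  obtain ⟨Q', rfl, hQ'⟩ := Cfsg.Agent.Lib.Classical.Geo.OPts.exists_quadraticForm hQ
  obtain ⟨π, hdec⟩ := exists_dec hD.decomp
  have hcardmul : n = t * k := by
    have hint : DirectSum.IsInternal D :=
      DirectSum.isInternal_submodule_of_iSupIndep_of_iSup_eq_top hD.decomp.decomp.indep
        hD.decomp.decomp.iSup_eq_top
    have e := LinearEquiv.ofBijective (DirectSum.coeLinearMap D) hint
    have h1 := e.finrank_eq
    rw [Module.finrank_directSum, Module.finrank_pi] at h1
    simp only [Fintype.card_fin] at h1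
    rw [← h1]
    simp [hD.decomp.decomp.finrank_eq]
  have h14 : 14 ≤ n := by
    obtain ⟨r, hr⟩ := heven
    omega
  have ht2 : 2 ≤ t := hD.decomp.decomp.two_le
  have hn5 : 5 ≤ Fintype.card (Fin n) := by simp; omega
  have htrans : ∀ i j, IsPlusTypeOn (⇑Q') (D i) → IsPlusTypeOn (⇑Q') (D j) :=
    fun i j => plus_transfer (hD.isometric i j)
  by_cases hk2 : k = 2
  · -- planes
    subst hk2
    by_cases hall : ∀ i, IsPlusTypeOn (⇑Q') (D i)
    · have hq : 7 ≤ Fintype.card F := by
        have h1 := Fintype.one_lt_card (α := F)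
        have h2 : Fintype.card F ≠ 3 := fun h => hex (Or.inl ⟨rfl, Or.inl h⟩)
        have h3 : ¬ (Fintype.card F = 2 ∨ Fintype.card F = 4 ∨ Fintype.card F = 5) :=
          fun h => hex (Or.inl ⟨rfl, Or.inr ⟨hall, h⟩⟩)
        have h4 := not_six (F := F)
        omega
      have ht7 : 7 ≤ t := by nlinarith
      refine maximal_hyp hdec hQ' hn5 hD.isometric ht7 hq (fun i => ?_)
      obtain ⟨U, hU, hS, hd⟩ := hall i
      rw [hdec.dim] at hd
      have h1 : finrank F U = 1 := by omega
      obtain ⟨e, heU, he0⟩ : ∃ e ∈ U, e ≠ 0 := by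
        have : U ≠ ⊥ := by
          rintro rfl
          rw [finrank_bot] at h1
          omega
        exact Submodule.exists_mem_ne_zero_of_ne_bot this
      have heD := hU heU
      obtain ⟨f, hf, hb⟩ := exists_partner hdec heD he0 (hS e heU)
      exact ⟨e, f, heD, hf, hb⟩
    · push Not at hall
      obtain ⟨i₀, hi₀⟩ := hall
      have hpl : ∀ i, ¬ IsPlusTypeOn (⇑Q') (D i) := fun i h => hi₀ (htrans i i₀ h)
      refine maximal_even hdec hQ' hn5 hD.isometric ht2 (Or.inl ?_)
      refine ⟨rfl, by nlinarith, ?_, fun h => hex (Or.inl ⟨rfl, Or.inl h⟩)⟩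
      intro i x hx hx0 hQx
      apply hpl i
      refine ⟨Submodule.span F {x}, ?_, ?_, ?_⟩
      · rw [Submodule.span_le]
        rintro y rfl
        exact hx
      · intro w hw
        obtain ⟨l, rfl⟩ := Submodule.mem_span_singleton.1 hw
        rw [QuadraticMap.map_smul, hQx]
        simp
      · rw [finrank_span_singleton hx0, hdec.dim]
  · by_cases h2 : (2 : F) = 0
    · have hkeven : Even k := by
        by_contra hodd
        rw [Nat.not_even_iff_odd] at hodd
        exact Cfsg.Agent.Lib.Classical.Geo.OPts.two_ne_zero_of_odd (hko hodd).1 h2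
      have hk4 : 4 ≤ k := by
        obtain ⟨r, hr⟩ := hkeven
        omega
      refine maximal_two₂ hdec hQ' hn5 hD.isometric ht2 h2 hk4 ?_
      intro l a y ha hy ha0 hy0 hind hay
      refine exists_common₂ h2 (hdec.nd l) (by rw [hdec.dim]; exact hk4) ?_ ha hy ha0 hy0 hind hay
      by_cases hk5 : 5 ≤ k
      · right
        left
        rw [hdec.dim]
        exact hk5
      · by_cases hq2 : Fintype.card F = 2
        · left
          intro hpl
          exact hex (Or.inr (Or.inr ⟨by omega, hq2, fun i => htrans l i hpl⟩))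
        · right
          right
          exact hq2
    · refine maximal_even hdec hQ' hn5 hD.isometric ht2 (Or.inr (Or.inl ⟨h2, by omega, ?_⟩))
      rintro ⟨h3, h4⟩
      exact hex (Or.inr (Or.inl ⟨h4, h3⟩))

end Cfsg.Agent.S5692
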