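import Cfsg.Statements.S5693
import Mathlib
import Cfsg.Agent.Lib.Classical.Sub.OFrame2
import Cfsg.Agent.Lib.Classical.Asch.Block
-- import your own Cfsg.Agent.* helpers here

set_option autoImplicit false
open Cfsg

namespace Cfsg.Agent.S5693

/-- Let F be a finite field with q elements, n ≥ 13 even, Q a non-degenerate quadratic form on F^n of plus type (some subspace of dimension n/2 is totally singular), and Ω the commutator subgroup of the isometry group of Q, viewed inside GL_n(F). Let D be a decomposition of F^n into t ≥ 2 pairwise orthogonal, pairwise Q-isometric subspaces of equal dimension k on which the polar form is non-degenerate (with, for even k, all members of plus type or t even; for odd k, q odd and square discriminant), in one of the cases: k = 2 with q = 3; k = 2 with plus-type members and q ∈ {2, 4, 5}; k = 3 with q = 3; k = 4 with plus-type members and q = 2. Then the elements of Ω permuting the members of D form a subgroup that is not maximal: some subgroup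 lies strictly between it and Ω. -/
theorem result {F : Type*} [Field F] [Fintype F] {n : ℕ} (hn : 13 ≤ n) (heven : Even n) (Q : (Fin n → F) → F) (hQ : Cfsg.Geo.IsNondegenerateQuadraticForm Q) (hplus : Cfsg.Geo.IsPlusTypeOn Q ⊤) {t : ℕ} (k : ℕ) (D : Fin t → Submodule F (Fin n → F)) (hD : Cfsg.Geo.IsOrthogonalMDecomposition Q k D) (hke : Even k → ((∀ i, Cfsg.Geo.IsPlusTypeOn Q (D i)) ∨ Even t)) (hko : Odd k → (Odd (Fintype.card F) ∧ Cfsg.Geo.HasSquareDiscriminant Q)) (hcase : ((k = 2 ∧ (Fintype.card F = 3 ∨ ((∀ i, Cfsg.Geo.IsPlusTypeOn Q (D i)) ∧ (Fintype.card F = 2 ∨ Fintype.card F = 4 ∨ Fintype.card F = 5)))) ∨ (k = 3 ∧ Fintype.card F = 3) ∨ (k = 4 ∧ Fintype.card F = 2 ∧ ∀ i, Cfsg.Geo.IsPlusTypeOn Q (D i)))) : ∃ K : Subgroup (Matrix.GeneralLinearGroup (Fin n) F), Cfsg.Geo.decompositionStabilizer D ⊓ Cfsg.Geo.omegaGL Q < K ∧ K < Cfsg.Geo.omegaGL Q := by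
  obtain ⟨Q', rfl, hQ'⟩ := Cfsg.Agent.Lib.Classical.Geo.OPts.exists_quadraticForm hQ
  have hcard : n = t * k := by simpa using Cfsg.Agent.Lib.Classical.Asch.Block.card_eq_mul hD.decomp.decomp
  have hn5 : 5 ≤ Fintype.card (Fin n) := by simp; omega
  have h2t := hD.decomp.decomp.two_le
  rcases hcase with ⟨rfl, h | ⟨hp, h⟩⟩ | ⟨rfl, h⟩ | ⟨rfl, h, hp⟩
  · by_cases hall : ∀ i, Cfsg.Geo.IsPlusTypeOn (⇑Q') (D i)
    · obtain ⟨e, f, H⟩ := Cfsg.Agent.Lib.Classical.Sub.OFrame2.exists_HP hQ' rfl hD hall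
      exact Cfsg.Agent.Lib.Classical.Sub.OFrame2.between_three H h (by omega)
    · push Not at hall
      obtain ⟨i, hi⟩ := hall
      exact Cfsg.Agent.Lib.Classical.Sub.OFrame.exists_between_frame2' h hD hi
  · obtain ⟨e, f, H⟩ := Cfsg.Agent.Lib.Classical.Sub.OFrame2.exists_HP hQ' rfl hD hp
    rcases h with h | h | h
    · exact Cfsg.Agent.Lib.Classical.Sub.OFrame2.between_two hQ' hn5 H h (by omega)
    · exact Cfsg.Agent.Lib.Classical.Sub.OFrame2.between_four hQ' hn5 H h (by omega)
    · exact Cfsg.Agent.Lib.Classical.Sub.OFrame2.between_five H h (by omega)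
  · exact Cfsg.Agent.Lib.Classical.Sub.OFrame.exists_between_frame h hD
  · obtain ⟨A, B, H⟩ := Cfsg.Agent.Lib.Classical.Sub.OFrame2.exists_GD h hD hp
    exact H.between hQ' hn5 (i₀ := ⟨0, by omega⟩) (i₁ := ⟨1, by omega⟩) (by simp)

end Cfsg.Agent.S5693
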