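import Cfsg.Statements.S5694
import Mathlib
import Cfsg.Agent.Lib.Classical.Decomp.Ev.Main
import Cfsg.Agent.Lib.Classical.Geo.OPts

set_option autoImplicit false
open Cfsg

namespace Cfsg.Agent.S5694

open Module QuadraticMap Cfsg.Geo
open Cfsg.Agent.Lib.Classical.Decomp
open Cfsg.Agent.Lib.Classical.Decomp.Ev

/-- Let F be a finite field with q elements, n ≥ 13 even, Q a non-degenerate quadratic form on F^n of minus type (no subspace of dimension n/2 is totally singular), and Ω the commutator subgroup of the isometry group of Q, viewed inside GL_n(F). Let D be a decomposition of F^n into t ≥ 2 pairwise orthogonal, pairwise Q-isometric subspaces of equal dimension k ≥ 2 on which the polar form is non-degenerate, such that: if k is odd, q is odd and the discriminant of Q is a square; if k is even, t is odd and no member is of plus type. Unless q = 3 and k ∈ {2, 3}, the elements of Ω permuting the members of D form a maximal subgroup of Ω. -/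
theorem result {F : Type*} [Field F] [Fintype F] {n : ℕ} (hn : 13 ≤ n) (heven : Even n) (Q : (Fin n → F) → F) (hQ : Cfsg.Geo.IsNondegenerateQuadraticForm Q) (hminus : ¬ Cfsg.Geo.IsPlusTypeOn Q ⊤) {t : ℕ} (k : ℕ) (hk : 2 ≤ k) (D : Fin t → Submodule F (Fin n → F)) (hD : Cfsg.Geo.IsOrthogonalMDecomposition Q k D) (hko : Odd k → (Odd (Fintype.card F) ∧ Cfsg.Geo.HasSquareDiscriminant Q)) (hke : Even k → (Odd t ∧ ∀ i, ¬ Cfsg.Geo.IsPlusTypeOn Q (D i))) (hex : ¬ (Fintype.card F = 3 ∧ (k = 2 ∨ k = 3))) : Cfsg.Geo.IsMaximalIn (Cfsg.Geo.omegaGL Q) (Cfsg.Geo.decompositionStabilizer D ⊓ Cfsg.Geo.omegaGL Q) := by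
  classical
  obtain ⟨Q', rfl, hQ'⟩ := Cfsg.Agent.Lib.Classical.Geo.OPts.exists_quadraticForm hQ
  obtain ⟨π, hdec⟩ := exists_dec hD.decomp
  have hcardmul : n = t * k := by
    have hint : DirectSum.IsInternal D :=
      DirectSum.isInternal_submodule_of_iSupIndep_of_iSup_eq_top hD.decomp.decomp.indep
        hD.decomp.decomp.iSup_eq_top
    have e := LinearEquiv.ofBijective (DirectSum.coeLinearMap D) hint
    have h1 := e.finrank_eq
    rw [Module.finrank_directSum, Module.finrank_pi] at h1
    simp only [Fintype.card_fin] at h1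
    rw [← h1]
    simp [hD.decomp.decomp.finrank_eq]
  have h14 : 14 ≤ n := by
    obtain ⟨r, hr⟩ := heven
    omega
  have ht2 : 2 ≤ t := hD.decomp.decomp.two_le
  refine maximal_even hdec hQ' (by simp; omega) hD.isometric ht2 ?_
  by_cases hk2 : k = 2
  · -- planes
    subst hk2
    left
    have hpl := (hke (by decide)).2
    refine ⟨rfl, by nlinarith, ?_, fun h => hex ⟨h, Or.inl rfl⟩⟩
    intro i x hx hx0 hQx
    apply hpl i
    refine ⟨Submodule.span F {x}, ?_, ?_, ?_⟩
    · rw [Submodule.span_le]
      rintro y rfl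
      exact hx
    · intro w hw
      obtain ⟨l, rfl⟩ := Submodule.mem_span_singleton.1 hw
      rw [QuadraticMap.map_smul, hQx]
      simp
    · rw [finrank_span_singleton hx0, hdec.dim]
  · by_cases h2 : (2 : F) = 0
    · right
      right
      have hkeven : Even k := by
        by_contra hodd
        rw [Nat.not_even_iff_odd] at hodd
        exact Cfsg.Agent.Lib.Classical.Geo.OPts.two_ne_zero_of_odd (hko hodd).1 h2
      obtain ⟨r, hr⟩ := hkeven
      obtain ⟨hto, hpl⟩ := hke ⟨r, hr⟩
      obtain ⟨s, hs⟩ := hto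
      exact ⟨h2, by omega, by omega, hpl⟩
    · right
      left
      exact ⟨h2, by omega, fun h => hex ⟨h.1, Or.inr h.2⟩⟩

end Cfsg.Agent.S5694
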