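import Cfsg.Statements.S5696
import Mathlib
import Cfsg.Agent.Lib.Classical.Frame.Even6
import Cfsg.Agent.Lib.Classical.Geo.OPts

set_option autoImplicit false
open Cfsg

namespace Cfsg.Agent.S5696

open Module QuadraticMap Cfsg.Geo
open Cfsg.Agent.Lib.Classical.Decomp
open Cfsg.Agent.Lib.Classical.Frame.Even

/-- Let F be a finite field with q elements, n ≥ 13 even, Q a non-degenerate quadratic form on F^n (of either type), and Ω the commutator subgroup of the isometry group of Q, viewed inside GL_n(F). Suppose q = p is an odd prime and the discriminant of Q is a square, and let D be a decomposition of F^n into pairwise orthogonal lines on which Q takes non-zero values in one square class (pairwise Q-isometric non-degenerate 1-spaces). Then the elements of Ω permuting these lines form a maximal subgroup of Ω. -/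
theorem result {F : Type*} [Field F] [Fintype F] {n : ℕ} (hn : 13 ≤ n) (heven : Even n) (Q : (Fin n → F) → F) (hQ : Cfsg.Geo.IsNondegenerateQuadraticForm Q) (hprime : (Fintype.card F).Prime) (hodd : Odd (Fintype.card F)) (hdisc : Cfsg.Geo.HasSquareDiscriminant Q) {t : ℕ} (D : Fin t → Submodule F (Fin n → F)) (hD : Cfsg.Geo.IsOrthogonalMDecomposition Q 1 D) : Cfsg.Geo.IsMaximalIn (Cfsg.Geo.omegaGL Q) (Cfsg.Geo.decompositionStabilizer D ⊓ Cfsg.Geo.omegaGL Q) := by
  classical
  have h2 := Cfsg.Agent.Lib.Classical.Geo.OPts.two_ne_zero_of_odd hodd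
  obtain ⟨Q', rfl, hQ'⟩ := Cfsg.Agent.Lib.Classical.Geo.OPts.exists_quadraticForm hQ
  obtain ⟨π, hdec⟩ := exists_dec hD.decomp
  have hcardmul : n = t * 1 := by
    have hint : DirectSum.IsInternal D :=
      DirectSum.isInternal_submodule_of_iSupIndep_of_iSup_eq_top hD.decomp.decomp.indep
        hD.decomp.decomp.iSup_eq_top
    have e := LinearEquiv.ofBijective (DirectSum.coeLinearMap D) hint
    have h1 := e.finrank_eq
    rw [Module.finrank_directSum, Module.finrank_pi] at h1
    simp only [Fintype.card_fin] at h1
    rw [← h1]
    simp [hD.decomp.decomp.finrank_eq]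
  have h14 : 14 ≤ n := by
    obtain ⟨r, hr⟩ := heven
    omega
  have ht : t = n := by omega
  exact frame_maximal_even hprime hodd hQ' h2 (by omega) (by simp; omega) hdec hD.isometric

end Cfsg.Agent.S5696
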