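import Cfsg.Statements.S5778
import Cfsg.Agent.Lib.Classical.Asch.SUThreeHeis

set_option autoImplicit false
open Cfsg

namespace Cfsg.Agent.S5778

/-- Every maximal subgroup of SU_3(q), q ≥ 3, is of one of the listed geometric types or lies in the residual class. Let F be the field with q² elements, f the standard unitary form Σ u_i v_i^q on F^3, and H a maximal subgroup of SU_3(q) (the determinant-one isometries of f, inside GL_3(F)). Then H is the intersection with SU_3(q) of one of: the stabiliser of a non-zero subspace on which f vanishes; the stabiliser of a non-degenerate 1-space; for q ≠ 5, the stabiliser of a decomposition into three mutually orthogonal non-degenerate 1-spaces; for q ≠ 3, 5, the normaliser of an adjoint-closed degree-3 subfield of the matrix algebra; a subfield group of odd prime index whose F₀-structure carries f; for q odd, q ≥ 7, a subfield group of index 2 whose F₀-structure carries f; for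 q = p ≡ 2 mod 3 prime with p ≥ 11, the normaliser of an absolutely irreducible subgroup of order 27 with centre of order 3, exponent 3 and all characteristic abelian subgroups cyclic, contained in the similarity group of f — or else H lies in the residual class of the unitary case. -/
theorem result {F : Type*} [Field F] [Fintype F] (q : ℕ) (hF : Fintype.card F = q ^ 2) (hq : 3 ≤ q) (H : Subgroup (Matrix.GeneralLinearGroup (Fin 3) F)) (hH : Cfsg.Geo.IsMaximalIn (Cfsg.GU 3 F q ⊓ Cfsg.Geo.specialLinear (Fin 3) F) H) :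
    (∃ W : Submodule F (Fin 3 → F), W ≠ ⊥ ∧ Cfsg.Geo.IsTotallySingularFor (Cfsg.hermForm 3 F q) W ∧ H = Cfsg.Geo.subspaceStabilizer W ⊓ (Cfsg.GU 3 F q ⊓ Cfsg.Geo.specialLinear (Fin 3) F)) ∨
    (∃ W : Submodule F (Fin 3 → F), W ≠ ⊥ ∧ Cfsg.Geo.IsNondegenerateOn (Cfsg.hermForm 3 F q) W ∧ 2 * Module.finrank F W < 3 ∧ H = Cfsg.Geo.subspaceStabilizer W ⊓ (Cfsg.GU 3 F q ⊓ Cfsg.Geo.specialLinear (Fin 3) F)) ∨
    (q ≠ 5 ∧ ∃ D : Fin 3 → Submodule F (Fin 3 → F), Cfsg.Geo.IsNondegenerateMDecomposition (Cfsg.hermForm 3 F q) 1 D ∧ H = Cfsg.Geo.decompositionStabilizer D ⊓ (Cfsg.GU 3 F q ⊓ Cfsg.Geo.specialLinear (Fin 3) F)) ∨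
    (q ≠ 3 ∧ q ≠ 5 ∧ ∃ K : Subalgebra F (Matrix (Fin 3) (Fin 3) F), Cfsg.Geo.IsFieldSubalgebra 3 K ∧ Cfsg.Geo.IsAdjointClosedFor (Cfsg.hermForm 3 F q) K ∧ H = Cfsg.Geo.subalgebraNormalizer K ⊓ (Cfsg.GU 3 F q ⊓ Cfsg.Geo.specialLinear (Fin 3) F)) ∨
    (∃ (F₀ : Subfield F) (r : ℕ) (P : Matrix.GeneralLinearGroup (Fin 3) F), r.Prime ∧ Odd r ∧ Fintype.card F = Nat.card F₀ ^ r ∧ Cfsg.Geo.IsFormRationalStructure (Cfsg.hermForm 3 F q) F₀ 1 P ∧ H = Cfsg.Geo.subfieldSubgroup F₀ P ⊓ (Cfsg.GU 3 F q ⊓ Cfsg.Geo.specialLinear (Fin 3) F)) ∨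
    (Odd q ∧ 7 ≤ q ∧ ∃ (F₀ : Subfield F) (P : Matrix.GeneralLinearGroup (Fin 3) F), Fintype.card F = Nat.card F₀ ^ 2 ∧ Cfsg.Geo.IsFormRationalStructure (Cfsg.hermForm 3 F q) F₀ 1 P ∧ H = Cfsg.Geo.subfieldSubgroup F₀ P ⊓ (Cfsg.GU 3 F q ⊓ Cfsg.Geo.specialLinear (Fin 3) F)) ∨
    (∃ (p : ℕ) (R : Subgroup (Matrix.GeneralLinearGroup (Fin 3) F)), p.Prime ∧ q = p ∧ p % 3 = 2 ∧ 11 ≤ p ∧ Cfsg.Geo.IsSymplecticTypeGroup 3 R ∧ Cfsg.Geo.ActsAbsolutelyIrreducibly (Cfsg.Geo.matrixSet R) ∧ R ≤ Cfsg.Geo.similarityGroup (Cfsg.hermForm 3 F q) ∧ Nat.card R = 27 ∧ Nat.card (Subgroup.center R) = 3 ∧ H = Cfsg.Geo.subgroupNormalizer R ⊓ (Cfsg.GU 3 F q ⊓ Cfsg.Geo.specialLinear (Fin 3) F)) ∨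
    Cfsg.Geo.InUnitaryResidualClass H := by
  classical
  have hq2 := Cfsg.Agent.Lib.Classical.Herm.Basic.two_le_q hF
  rcases Cfsg.Agent.Lib.Classical.Asch.SURows.su_rows hF (by norm_num) (by omega) hH with h | hres
  swap
  · exact Or.inr (Or.inr (Or.inr (Or.inr (Or.inr (Or.inr (Or.inr hres))))))
  rcases h with
    (⟨W, h0, hts, hE⟩ | ⟨W, h0, hnd, hd, hE⟩ | ⟨t, k, D, hD, htk, hk, ht, hk2, hE⟩ | ⟨k, D, hk, hD, hts, hE⟩ |
    ⟨F₀, r, P, hr, ho, hc, hR, hE⟩ | ⟨F₀, P, ho, hc, hR, hE⟩ | ⟨F₀, P, ζ, hev, hc, hζ0, hζ, hR, halt, hE⟩ |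
    ⟨r, R, p, e, k, h1, h2, h3, h4, h5, h6, hE, h7, h8⟩ | ⟨r, K, hr, ho, hd, hK, hadj, hE⟩ |
    ⟨n₁, n₂, e, P, f₁, f₂, hn₁, hlt, h1, h2, h3, hs, hE⟩ | ⟨k, t, e, P, f₁, hk, ht, hcd, hne, h1, hs, hle⟩)
  · exact Or.inl ⟨W, h0, hts, hE⟩
  · exact Or.inr (Or.inl ⟨W, h0, hnd, hd, hE⟩)
  · have hcases : t = 3 ∧ k = 1 := by
      have hle : t ≤ 3 := by nlinarith
      interval_cases t <;> omega
    obtain ⟨rfl, rfl⟩ := hcases
    by_cases hq5 : q = 5
    · subst hq5
      obtain ⟨s, hs⟩ := Cfsg.Agent.Lib.Classical.Asch.SU3M.exists_ctx (Or.inr rfl) hF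
      exact (Cfsg.Agent.Lib.Classical.Asch.SU3F.frames_five hs hF hD hH hE).elim
    · exact Or.inr (Or.inr (Or.inl ⟨hq5, D, hD, hE⟩))
  · omega
  · exact Or.inr (Or.inr (Or.inr (Or.inr (Or.inl ⟨F₀, r, P, hr, ho, hc, hR, hE⟩))))
  · by_cases h7 : 7 ≤ q
    · exact Or.inr (Or.inr (Or.inr (Or.inr (Or.inr (Or.inl ⟨ho, h7, F₀, P, hc, hR, hE⟩)))))
    · exfalso
      have hq35 : q = 3 ∨ q = 5 := by
        obtain ⟨l, hl⟩ := ho
        omega
      rcases hq35 with rfl | rfl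
      · obtain ⟨s, hs⟩ := Cfsg.Agent.Lib.Classical.Asch.SU3M.exists_ctx (Or.inl rfl) hF
        exact Cfsg.Agent.Lib.Classical.Asch.SU3F.ortho_three hs hF hc hR hH hE
      · obtain ⟨s, hs⟩ := Cfsg.Agent.Lib.Classical.Asch.SU3M.exists_ctx (Or.inr rfl) hF
        exact Cfsg.Agent.Lib.Classical.Asch.SU3F.ortho_five hs hF hc hR hH hE
  · exact absurd hev (by decide)
  · have hrp := h1.prime
    have hk0 : k ≠ 0 := by
      rintro rfl
      simp at h7
    have hr3 : r = 3 := by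
      have h10 : r ∣ r ^ k := dvd_pow_self r hk0
      rw [← h7] at h10
      exact (Nat.prime_dvd_prime_iff_eq hrp (by norm_num)).mp h10
    subst hr3
    have hk1 : k = 1 := by
      have h10 : (3 : ℕ) ^ 1 = 3 ^ k := by simpa using h7
      exact (Nat.pow_right_injective (by norm_num) h10).symm
    subst hk1
    rcases h6 with ⟨-, hz, -, hcR⟩ | ⟨h9, -⟩
    swap
    · omega
    obtain ⟨hp, hcp, hqc, hdvd, hmin⟩ := h5
    rw [hz] at hdvd hmin
    have he0 : 1 ≤ e := by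
      by_contra hc
      have he : e = 0 := by omega
      subst he
      have h10 := Fintype.one_lt_card (α := F)
      rw [hqc] at h10
      simp at h10
    have hp3 : p % 3 ≠ 0 := by
      intro h0
      exact h4 ((Nat.prime_dvd_prime_iff_eq (by norm_num) hp).mp (Nat.dvd_of_mod_eq_zero h0))
    have hpow : ∀ d : ℕ, 0 < d → (3 ∣ p ^ d - 1 ↔ p ^ d % 3 = 1) := by
      intro d hd
      have h10 : 1 ≤ p ^ d := Nat.one_le_pow _ _ hp.pos
      omega
    have hq2e : q ^ 2 = p ^ e := by rw [← hF, hqc]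
    have h2le : e ≤ 2 := by
      by_contra hc
      apply hmin 2 (by norm_num) (by omega)
      rw [hpow 2 (by norm_num), Nat.pow_mod]
      have : p % 3 = 1 ∨ p % 3 = 2 := by omega
      rcases this with h | h <;> rw [h]
    have he2 : e = 2 := by
      by_contra hne
      have he1 : e = 1 := by omega
      subst he1
      rw [pow_one] at hq2e
      have h10 : q ∣ p := ⟨q, by rw [← hq2e]; ring⟩
      rcases (Nat.dvd_prime hp).mp h10 with h11 | h11
      · omega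
      · subst h11
        have : q * q = q * 1 := by rw [← pow_two, hq2e, mul_one]
        have := Nat.eq_of_mul_eq_mul_left (by omega) this
        omega
    subst he2
    have hqp : q = p := Nat.pow_left_injective (by norm_num : 2 ≠ 0) hq2e
    subst hqp
    have hm1 : q % 3 ≠ 1 := by
      intro h11
      apply hmin 1 one_pos (by norm_num)
      rw [hpow 1 one_pos, pow_one]
      exact h11
    have hm2 : q % 3 = 2 := by omega
    have hcard : Nat.card R = 27 := by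
      rw [hcR]
      norm_num
    by_cases hq5 : q = 5
    · subst hq5
      obtain ⟨s, hs⟩ := Cfsg.Agent.Lib.Classical.Asch.SU3M.exists_ctx (Or.inr rfl) hF
      exact (Cfsg.Agent.Lib.Classical.Asch.SU3H.class6_five hs hF h1 h2 h8 hcard hz hH hE).elim
    · have h11 : 11 ≤ q := by
        by_contra hlt
        have h10 : q = 5 ∨ q = 8 := by omega
        rcases h10 with h10 | h10
        · exact hq5 h10
        · subst h10
          exact absurd hp (by norm_num)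
      exact Or.inr (Or.inr (Or.inr (Or.inr (Or.inr (Or.inr (Or.inl ⟨q, R, hp, rfl, hm2, h11, h1, h2, h3, hcard, hz, hE⟩))))))
  · have h3r : r = 3 := (Nat.prime_dvd_prime_iff_eq hr (by norm_num)).mp hd
    subst h3r
    by_cases hq3 : q = 3
    · subst hq3
      obtain ⟨s, hs⟩ := Cfsg.Agent.Lib.Classical.Asch.SU3M.exists_ctx (Or.inl rfl) hF
      exact (Cfsg.Agent.Lib.Classical.Asch.SU3C.cubic_false (Or.inl rfl) hs hF Cfsg.Agent.Lib.Classical.Asch.SU3C.chk3 hK hadj hH hE).elim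
    · by_cases hq5 : q = 5
      · subst hq5
        obtain ⟨s, hs⟩ := Cfsg.Agent.Lib.Classical.Asch.SU3M.exists_ctx (Or.inr rfl) hF
        exact (Cfsg.Agent.Lib.Classical.Asch.SU3C.cubic_false (Or.inr rfl) hs hF Cfsg.Agent.Lib.Classical.Asch.SU3C.chk5 hK hadj hH hE).elim
      · exact Or.inr (Or.inr (Or.inr (Or.inl ⟨hq3, hq5, K, hK, hadj, hE⟩)))
  · exfalso
    have : n₁ * n₂ ≥ 2 * 3 := Nat.mul_le_mul hn₁ (by omega)
    omega
  · exfalso
    have h10 : 3 ^ 2 ≤ k ^ t := le_trans (Nat.pow_le_pow_left hk 2) (Nat.pow_le_pow_right (by omega) ht)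
    omega

end Cfsg.Agent.S5778
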