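import Cfsg.Statements.S5781
import Cfsg.Agent.Lib.Classical.Asch.Rows
import Cfsg.Agent.Lib.Classical.Asch.SLFour

set_option autoImplicit false
open Cfsg

namespace Cfsg.Agent.S5781

/-- Every maximal subgroup of SL_4(q) is of one of the listed geometric types or lies in the residual class. Let F be a finite field with q elements and H a maximal subgroup of SL_4(F) (inside GL_4(F)). Then H is the intersection with SL_4(F) of one of: the stabiliser of a proper non-zero subspace; for q ≥ 7, the stabiliser of a decomposition into four independent lines; for q ≥ 4, the stabiliser of a decomposition into two independent planes; the normaliser of a degree-2 subfield of the matrix algebra; a subfield group for a subfield F₀ with |F| = |F₀|^r, r prime; for q = p ≡ 1 mod 4 prime, the normaliser of an absolutely irreducible 2-subgroup R of exponent 4 with centre of order 4, all of whose characteristic abelian subgroups are cyclic, of order 2^(2+2m) for some m (here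 |R| = 64), with 4 dividing p − 1; for q odd, the similarity group of a non-degenerate quadratic form; the similarity group of a non-degenerate symplectic form; the similarity group of a non-degenerate unitary form — or else H lies in the residual class of the linear case. -/
theorem result {F : Type*} [Field F] [Fintype F] (H : Subgroup (Matrix.GeneralLinearGroup (Fin 4) F)) (hH : Cfsg.Geo.IsMaximalIn (Cfsg.Geo.specialLinear (Fin 4) F) H) :
    (∃ W : Submodule F (Fin 4 → F), W ≠ ⊥ ∧ W ≠ ⊤ ∧ H = Cfsg.Geo.subspaceStabilizer W ⊓ Cfsg.Geo.specialLinear (Fin 4) F) ∨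
    (7 ≤ Fintype.card F ∧ ∃ D : Fin 4 → Submodule F (Fin 4 → F), Cfsg.Geo.IsMDecomposition 1 D ∧ H = Cfsg.Geo.decompositionStabilizer D ⊓ Cfsg.Geo.specialLinear (Fin 4) F) ∨
    (4 ≤ Fintype.card F ∧ ∃ D : Fin 2 → Submodule F (Fin 4 → F), Cfsg.Geo.IsMDecomposition 2 D ∧ H = Cfsg.Geo.decompositionStabilizer D ⊓ Cfsg.Geo.specialLinear (Fin 4) F) ∨
    (∃ K : Subalgebra F (Matrix (Fin 4) (Fin 4) F), Cfsg.Geo.IsFieldSubalgebra 2 K ∧ H = Cfsg.Geo.subalgebraNormalizer K ⊓ Cfsg.Geo.specialLinear (Fin 4) F) ∨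
    (∃ (F₀ : Subfield F) (r : ℕ) (P : Matrix.GeneralLinearGroup (Fin 4) F), r.Prime ∧ Fintype.card F = Nat.card F₀ ^ r ∧ H = Cfsg.Geo.subfieldSubgroup F₀ P ⊓ Cfsg.Geo.specialLinear (Fin 4) F) ∨
    (∃ (p : ℕ) (R : Subgroup (Matrix.GeneralLinearGroup (Fin 4) F)), p.Prime ∧ Fintype.card F = p ∧ p % 4 = 1 ∧ Cfsg.Geo.IsLinearSymplecticTypeData 2 R ∧ H = Cfsg.Geo.subgroupNormalizer R ⊓ Cfsg.Geo.specialLinear (Fin 4) F) ∨
    (Odd (Fintype.card F) ∧ ∃ Q : (Fin 4 → F) → F, Cfsg.Geo.IsNondegenerateQuadraticForm Q ∧ H = Cfsg.Geo.quadSimilarityGroup Q ⊓ Cfsg.Geo.specialLinear (Fin 4) F) ∨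
    (∃ f : (Fin 4 → F) → (Fin 4 → F) → F, Cfsg.Geo.IsSymplecticForm f ∧ H = Cfsg.Geo.similarityGroup f ⊓ Cfsg.Geo.specialLinear (Fin 4) F) ∨
    (∃ (σ : F ≃+* F) (f : (Fin 4 → F) → (Fin 4 → F) → F), Cfsg.Geo.IsUnitaryForm σ f ∧ H = Cfsg.Geo.similarityGroup f ⊓ Cfsg.Geo.specialLinear (Fin 4) F) ∨
    Cfsg.Geo.InLinearResidualClass H := by
  classical
  open Cfsg.Agent.Lib.Classical.Asch.Rows in
  rcases max_cases' 4 (by norm_num) H hH with
    h | ⟨t, m, D, hD, h1, h2, htm, hH'⟩ | ⟨r, K, hr, hd, hK, hH'⟩ | ⟨d, k, e, P, hd, hk, h2, hdk, hH'⟩ | h |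
      ⟨r, R, m, hR, hn, hH'⟩ | ⟨d, t, e, P, hd, ht, hn, hH'⟩ | ⟨f, hf, hev, hH'⟩ | h | ⟨Q, hQ, ho, hH'⟩ | h
  · exact Or.inl h
  · have ht' := hD.two_le
    have hm' := hD.pos
    have hcases : (t = 4 ∧ m = 1) ∨ (t = 2 ∧ m = 2) := by
      have hle : t ≤ 4 := by nlinarith
      interval_cases t <;> omega
    rcases hcases with ⟨rfl, rfl⟩ | ⟨rfl, rfl⟩
    · have h5 := h1 rfl
      by_cases h7 : 7 ≤ Fintype.card F
      · exact Or.inr (Or.inl ⟨h7, D, hD, hH'⟩)
      · exfalso
        have hq : Fintype.card F = 5 ∨ Fintype.card F = 6 := by omega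
        rcases hq with hq | hq
        · exact Cfsg.Agent.Lib.Classical.Asch.SLFour.frames_five hq hD hH hH'
        · obtain ⟨p, hp⟩ := CharP.exists F
          obtain ⟨n, hpp, hn⟩ := FiniteField.card F p
          rw [hq] at hn
          have h3 : p ∣ 2 * 3 := by
            rw [show 2 * 3 = 6 from rfl, hn]
            exact dvd_pow_self _ n.ne_zero
          rcases (Nat.Prime.dvd_mul hpp).mp h3 with h4 | h4
          · have h6 := (Nat.prime_dvd_prime_iff_eq hpp Nat.prime_two).mp h4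
            subst h6
            have : 3 ∣ 2 ^ (n : ℕ) := by rw [← hn]; norm_num
            have := Nat.Prime.dvd_of_dvd_pow Nat.prime_three this
            omega
          · have h6 := (Nat.prime_dvd_prime_iff_eq hpp Nat.prime_three).mp h4
            subst h6
            have : 2 ∣ 3 ^ (n : ℕ) := by rw [← hn]; norm_num
            have := Nat.Prime.dvd_of_dvd_pow Nat.prime_two this
            omega
    · have h3 := h2 rfl
      by_cases h4 : 4 ≤ Fintype.card F
      · exact Or.inr (Or.inr (Or.inl ⟨h4, D, hD, hH'⟩))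
      · have hq : Fintype.card F = 3 := by omega
        obtain ⟨f, hf, hl⟩ := Cfsg.Agent.Lib.Classical.Asch.SLFour.planes_three hq hD
        have hH2 : H = Cfsg.Geo.similarityGroup f ⊓ Cfsg.Geo.specialLinear (Fin 4) F :=
          Cfsg.Agent.Lib.Classical.Asch.MaxCases.eq_inf_of_le hH (by rw [hH']; exact hl)
            (Cfsg.Agent.Lib.Classical.Asch.NotSL.not_le_similarity (by simp) hf.bilinear.add_left
              hf.bilinear.smul_left hf.nondegenerate)
        exact Or.inr (Or.inr (Or.inr (Or.inr (Or.inr (Or.inr (Or.inr (Or.inl ⟨f, hf, hH2⟩)))))))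
  · have hcases : r = 2 := by
      have h3 : r ∣ 2 ^ 2 := by simpa using hd
      exact (Nat.prime_dvd_prime_iff_eq hr Nat.prime_two).mp (hr.dvd_of_dvd_pow h3)
    subst hcases
    exact Or.inr (Or.inr (Or.inr (Or.inl ⟨K, hK, hH'⟩)))
  · exfalso
    have hk' : d < 3 := by nlinarith
    interval_cases d <;> omega
  · exact Or.inr (Or.inr (Or.inr (Or.inr (Or.inl h))))
  · obtain rfl : 2 = r := Cfsg.Agent.Lib.Classical.Asch.Rows.eq_of_dvd_pow Nat.prime_two hR.symplecticType.prime (by norm_num) hn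
    obtain ⟨p, hp, hq, hpm⟩ := Cfsg.Agent.Lib.Classical.Asch.Rows.data_two hR (by simp)
    exact Or.inr (Or.inr (Or.inr (Or.inr (Or.inr (Or.inl ⟨p, R, hp, hq, hpm, hR, hH'⟩)))))
  · have := Cfsg.Agent.Lib.Classical.Asch.Rows.wreath_num hd ht hn (by norm_num)
    omega
  · exact Or.inr (Or.inr (Or.inr (Or.inr (Or.inr (Or.inr (Or.inr (Or.inl ⟨f, hf, hH'⟩)))))))
  · exact Or.inr (Or.inr (Or.inr (Or.inr (Or.inr (Or.inr (Or.inr (Or.inr (Or.inl h))))))))
  · exact Or.inr (Or.inr (Or.inr (Or.inr (Or.inr (Or.inr (Or.inl ⟨ho, Q, hQ, hH'⟩))))))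
  · exact Or.inr (Or.inr (Or.inr (Or.inr (Or.inr (Or.inr (Or.inr (Or.inr (Or.inr h))))))))

end Cfsg.Agent.S5781
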