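import Cfsg.Statements.S5784
import Cfsg.Agent.Lib.Classical.Asch.SUFour

set_option autoImplicit false
open Cfsg

namespace Cfsg.Agent.S5784

/-- Every maximal subgroup of SU_4(q) is of one of the listed geometric types or lies in the residual class. Let F be the field with q² elements, f the standard unitary form Σ u_i v_i^q on F^4, and H a maximal subgroup of SU_4(q) (inside GL_4(F)). Then H is the intersection with SU_4(q) of one of: the stabiliser of a non-zero subspace on which f vanishes; the stabiliser of a non-degenerate 1-space; for q ≠ 3, the stabiliser of a decomposition into four mutually orthogonal non-degenerate 1-spaces; for q ≥ 3, of a decomposition into two orthogonal non-degenerate 2-spaces; for q ≥ 4, of a decomposition into two totally isotropic 2-spaces; a subfield group of odd prime index whose F₀-structure carries f; a subfield group of index 2 whose F₀-structure carries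 ζ f, vanishing on pairs (u, u), for some non-zero ζ with ζ + ζ^q = 0; for q odd, a subfield group of index 2 whose F₀-structure carries f; for q = p ≡ 3 mod 4 prime, the normaliser of an absolutely irreducible symplectic-type 2-group of exponent 4, order 64 and centre of order 4 inside the similarity group of f — or else H lies in the residual class of the unitary case. -/
theorem result {F : Type*} [Field F] [Fintype F] (q : ℕ) (hF : Fintype.card F = q ^ 2) (H : Subgroup (Matrix.GeneralLinearGroup (Fin 4) F)) (hH : Cfsg.Geo.IsMaximalIn (Cfsg.GU 4 F q ⊓ Cfsg.Geo.specialLinear (Fin 4) F) H) :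
    (∃ W : Submodule F (Fin 4 → F), W ≠ ⊥ ∧ Cfsg.Geo.IsTotallySingularFor (Cfsg.hermForm 4 F q) W ∧ H = Cfsg.Geo.subspaceStabilizer W ⊓ (Cfsg.GU 4 F q ⊓ Cfsg.Geo.specialLinear (Fin 4) F)) ∨
    (∃ W : Submodule F (Fin 4 → F), W ≠ ⊥ ∧ Cfsg.Geo.IsNondegenerateOn (Cfsg.hermForm 4 F q) W ∧ 2 * Module.finrank F W < 4 ∧ H = Cfsg.Geo.subspaceStabilizer W ⊓ (Cfsg.GU 4 F q ⊓ Cfsg.Geo.specialLinear (Fin 4) F)) ∨
    (q ≠ 3 ∧ ∃ D : Fin 4 → Submodule F (Fin 4 → F), Cfsg.Geo.IsNondegenerateMDecomposition (Cfsg.hermForm 4 F q) 1 D ∧ H = Cfsg.Geo.decompositionStabilizer D ⊓ (Cfsg.GU 4 F q ⊓ Cfsg.Geo.specialLinear (Fin 4) F)) ∨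
    (3 ≤ q ∧ ∃ D : Fin 2 → Submodule F (Fin 4 → F), Cfsg.Geo.IsNondegenerateMDecomposition (Cfsg.hermForm 4 F q) 2 D ∧ H = Cfsg.Geo.decompositionStabilizer D ⊓ (Cfsg.GU 4 F q ⊓ Cfsg.Geo.specialLinear (Fin 4) F)) ∨
    (4 ≤ q ∧ ∃ D : Fin 2 → Submodule F (Fin 4 → F), Cfsg.Geo.IsMDecomposition 2 D ∧ (∀ i, Cfsg.Geo.IsTotallySingularFor (Cfsg.hermForm 4 F q) (D i)) ∧ H = Cfsg.Geo.decompositionStabilizer D ⊓ (Cfsg.GU 4 F q ⊓ Cfsg.Geo.specialLinear (Fin 4) F)) ∨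
    (∃ (F₀ : Subfield F) (r : ℕ) (P : Matrix.GeneralLinearGroup (Fin 4) F), r.Prime ∧ Odd r ∧ Fintype.card F = Nat.card F₀ ^ r ∧ Cfsg.Geo.IsFormRationalStructure (Cfsg.hermForm 4 F q) F₀ 1 P ∧ H = Cfsg.Geo.subfieldSubgroup F₀ P ⊓ (Cfsg.GU 4 F q ⊓ Cfsg.Geo.specialLinear (Fin 4) F)) ∨
    (∃ (F₀ : Subfield F) (P : Matrix.GeneralLinearGroup (Fin 4) F) (ζ : F), Fintype.card F = Nat.card F₀ ^ 2 ∧ ζ ≠ 0 ∧ ζ + ζ ^ q = 0 ∧ Cfsg.Geo.IsFormRationalStructure (Cfsg.hermForm 4 F q) F₀ ζ P ∧ (∀ u : Fin 4 → F, (∀ i, u i ∈ F₀) → (Cfsg.hermForm 4 F q) (Matrix.mulVec (P : Matrix (Fin 4) (Fin 4) F) u) (Matrix.mulVec (P : Matrix (Fin 4) (Fin 4) F) u) = 0) ∧ H = Cfsg.Geo.subfieldSubgroup F₀ P ⊓ (Cfsg.GU 4 F q ⊓ Cfsg.Geo.specialLinear (Fin 4) F)) ∨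
    (Odd q ∧ ∃ (F₀ : Subfield F) (P : Matrix.GeneralLinearGroup (Fin 4) F), Fintype.card F = Nat.card F₀ ^ 2 ∧ Cfsg.Geo.IsFormRationalStructure (Cfsg.hermForm 4 F q) F₀ 1 P ∧ H = Cfsg.Geo.subfieldSubgroup F₀ P ⊓ (Cfsg.GU 4 F q ⊓ Cfsg.Geo.specialLinear (Fin 4) F)) ∨
    (∃ (p : ℕ) (R : Subgroup (Matrix.GeneralLinearGroup (Fin 4) F)), p.Prime ∧ q = p ∧ p % 4 = 3 ∧ Cfsg.Geo.IsSymplecticTypeGroup 2 R ∧ Cfsg.Geo.ActsAbsolutelyIrreducibly (Cfsg.Geo.matrixSet R) ∧ R ≤ Cfsg.Geo.similarityGroup (Cfsg.hermForm 4 F q) ∧ Nat.card R = 64 ∧ Nat.card (Subgroup.center R) = 4 ∧ H = Cfsg.Geo.subgroupNormalizer R ⊓ (Cfsg.GU 4 F q ⊓ Cfsg.Geo.specialLinear (Fin 4) F)) ∨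
    Cfsg.Geo.InUnitaryResidualClass H := by
  classical
  open Cfsg.Agent.Lib.Classical.Asch.SURows Cfsg.Agent.Lib.Classical.Asch in
  have hq2 := Cfsg.Agent.Lib.Classical.Herm.Basic.two_le_q hF
  rcases Cfsg.Agent.Lib.Classical.Asch.SURows.su_rows hF (by norm_num) (by simp) hH with h | hres
  swap
  · exact Or.inr (Or.inr (Or.inr (Or.inr (Or.inr (Or.inr (Or.inr (Or.inr (Or.inr hres))))))))
  rcases h with
    (⟨W, h0, hts, hE⟩ | ⟨W, h0, hnd, hd, hE⟩ | ⟨t, k, D, hD, htk, hk, ht, hk2, hE⟩ | ⟨k, D, hk, hD, hts, hE⟩ |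
    ⟨F₀, r, P, hr, ho, hc, hR, hE⟩ | ⟨F₀, P, ho, hc, hR, hE⟩ | ⟨F₀, P, ζ, hev, hc, hζ0, hζ, hR, halt, hE⟩ |
    ⟨r, R, p, e, k, h1, h2, h3, h4, h5, h6, hE, h7, h8⟩ | ⟨r, K, hr, ho, hd, hK, hadj, hE⟩ |
    ⟨n₁, n₂, e, P, f₁, f₂, hn₁, hlt, h1, h2, h3, hs, hE⟩ | ⟨k, t, e, P, f₁, hk, ht, hcd, hne, h1, hs, hle⟩)
  · exact Or.inl ⟨W, h0, hts, hE⟩
  · exact Or.inr (Or.inl ⟨W, h0, hnd, hd, hE⟩)
  · have hcases : (t = 4 ∧ k = 1) ∨ (t = 2 ∧ k = 2) := by
      have hle : t ≤ 4 := by nlinarith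
      interval_cases t <;> omega
    rcases hcases with ⟨rfl, rfl⟩ | ⟨rfl, rfl⟩
    · by_cases hq3 : q = 3
      · subst hq3
        exact (Cfsg.Agent.Lib.Classical.Asch.SUFour.frames_three hF hD hH hE).elim
      · exact Or.inr (Or.inr (Or.inl ⟨hq3, D, hD, hE⟩))
    · exact Or.inr (Or.inr (Or.inr (Or.inl ⟨hk2 rfl, D, hD, hE⟩)))
  · obtain rfl : k = 2 := by omega
    by_cases hq4 : 4 ≤ q
    · exact Or.inr (Or.inr (Or.inr (Or.inr (Or.inl ⟨hq4, D, hD, hts, hE⟩))))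
    · have hq : q = 2 ∨ q = 3 := by omega
      obtain ⟨P, ζ, hζ0, hζ, hR, halt, hle⟩ := Cfsg.Agent.Lib.Classical.Asch.SUPair.stab_le_subfield hF hq hD hts
      have hc := Cfsg.Agent.Lib.Classical.Asch.FormSU.card_fix_pow hF
      refine Or.inr (Or.inr (Or.inr (Or.inr (Or.inr (Or.inr (Or.inl ⟨_, P, ζ, hc, hζ0, hζ, hR, halt, ?_⟩))))))
      exact Cfsg.Agent.Lib.Classical.Asch.NotSp.eq_inf_of_le' hH (by rw [hE]; exact hle)
        (Cfsg.Agent.Lib.Classical.Asch.NotSU.not_le_subfieldSubgroup_su hF (by norm_num) le_rfl hc P)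
  · exact Or.inr (Or.inr (Or.inr (Or.inr (Or.inr (Or.inl ⟨F₀, r, P, hr, ho, hc, hR, hE⟩)))))
  · exact Or.inr (Or.inr (Or.inr (Or.inr (Or.inr (Or.inr (Or.inr (Or.inl ⟨ho, F₀, P, hc, hR, hE⟩)))))))
  · exact Or.inr (Or.inr (Or.inr (Or.inr (Or.inr (Or.inr (Or.inl ⟨F₀, P, ζ, hc, hζ0, hζ, hR, halt, hE⟩))))))
  · have hrp := h1.prime
    have hk0 : k ≠ 0 := by
      rintro rfl
      simp at h7
    have hr2 : r = 2 := by
      have h9 : r ∣ 2 ^ 2 := by
        have h10 : r ∣ r ^ k := dvd_pow_self r hk0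
        rw [← h7] at h10
        simpa using h10
      exact (Nat.prime_dvd_prime_iff_eq hrp Nat.prime_two).mp (hrp.dvd_of_dvd_pow h9)
    subst hr2
    have hk2 : k = 2 := by
      have h10 : (2 : ℕ) ^ 2 = 2 ^ k := by simpa using h7
      exact (Nat.pow_right_injective (le_refl 2) h10).symm
    subst hk2
    rcases h6 with ⟨hodd, -⟩ | ⟨-, rfl, hz, hcR⟩
    · exact absurd hodd (by decide)
    · obtain ⟨hp, hcp, hq, hdvd, hmin⟩ := h5
      have hqp : q = p := by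
        have h10 : q ^ 2 = p ^ 2 := by rw [← hF, hq]
        exact Nat.pow_left_injective (by norm_num : 2 ≠ 0) h10
      have hp3 : p % 4 = 3 := by
        have h11 := hmin 1 one_pos (by norm_num)
        rw [hz, pow_one] at h11
        have hodd : p % 2 = 1 := by
          rcases hp.eq_two_or_odd with h | h
          · exact absurd h.symm h4
          · exact h
        by_contra hne
        apply h11
        have hp1 : p % 4 = 1 := by omega
        have hp0 := hp.one_lt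
        omega
      exact Or.inr (Or.inr (Or.inr (Or.inr (Or.inr (Or.inr (Or.inr (Or.inr (Or.inl
        ⟨p, R, hp, hqp, hp3, h1, h2, h3, by rw [hcR]; norm_num, hz, hE⟩))))))))
  · exfalso
    have h4 : r ∣ 2 ^ 2 := by simpa using hd
    have := (Nat.prime_dvd_prime_iff_eq hr Nat.prime_two).mp (hr.dvd_of_dvd_pow h4)
    subst this
    exact absurd ho (by decide)
  · exfalso
    have hk' : n₁ < 3 := by nlinarith
    interval_cases n₁ <;> omega
  · exfalso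
    have h9 : 3 ^ 2 ≤ k ^ t := (Nat.pow_le_pow_left hk 2).trans (Nat.pow_le_pow_right (by omega) ht)
    omega

end Cfsg.Agent.S5784
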