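import Cfsg.Statements.S5787
import Cfsg.Agent.Lib.Classical.Asch.Sp4Three

set_option autoImplicit false
open Cfsg

namespace Cfsg.Agent.S5787

/-- Every maximal subgroup of Sp_4(q), q odd, is of one of the listed geometric types or lies in the residual class. Let F be a finite field of odd order q, f the standard alternating form on F^4 (coordinates Fin 2 ⊕ Fin 2), and H a maximal subgroup of the isometry group Sp_4(F) (inside GL_4(F)). Then H is the intersection with Sp_4(F) of one of: the stabiliser of a non-zero totally isotropic subspace; the stabiliser of a decomposition into two orthogonal non-degenerate 2-spaces; for q ≥ 5, of a decomposition into two totally isotropic 2-spaces; the normaliser of a degree-2 subfield K of the matrix algebra, self-adjoint with f(k v, v) = 0; for q ≥ 5, the normaliser of a degree-2 subfield closed under adjoints but not self-adjoint; a subfield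 group whose F₀-structure carries a non-zero multiple of f, |F| = |F₀|^r with r prime; for q = p prime, the normaliser of an absolutely irreducible symplectic-type 2-group of exponent 4, order 32, centre of order 2 and minus type inside the similarity group of f — or else H lies in the residual class of the symplectic case. -/
theorem result {F : Type*} [Field F] [Fintype F] (hodd : Odd (Fintype.card F)) (H : Subgroup (Matrix.GeneralLinearGroup (Fin 2 ⊕ Fin 2) F)) (hH : Cfsg.Geo.IsMaximalIn (Cfsg.spGL 2 F) H) :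
    (∃ W : Submodule F (Fin 2 ⊕ Fin 2 → F), W ≠ ⊥ ∧ Cfsg.Geo.IsTotallySingularFor (Cfsg.sympForm 2 F) W ∧ H = Cfsg.Geo.subspaceStabilizer W ⊓ Cfsg.spGL 2 F) ∨
    (∃ D : Fin 2 → Submodule F (Fin 2 ⊕ Fin 2 → F), Cfsg.Geo.IsNondegenerateMDecomposition (Cfsg.sympForm 2 F) 2 D ∧ H = Cfsg.Geo.decompositionStabilizer D ⊓ Cfsg.spGL 2 F) ∨
    (5 ≤ Fintype.card F ∧ ∃ D : Fin 2 → Submodule F (Fin 2 ⊕ Fin 2 → F), Cfsg.Geo.IsMDecomposition 2 D ∧ (∀ i, Cfsg.Geo.IsTotallySingularFor (Cfsg.sympForm 2 F) (D i)) ∧ H = Cfsg.Geo.decompositionStabilizer D ⊓ Cfsg.spGL 2 F) ∨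
    (∃ K : Subalgebra F (Matrix (Fin 2 ⊕ Fin 2) (Fin 2 ⊕ Fin 2) F), Cfsg.Geo.IsFieldSubalgebra 2 K ∧ Cfsg.Geo.IsSelfAdjointFor (Cfsg.sympForm 2 F) K ∧ (∀ k ∈ K, ∀ v : (Fin 2 ⊕ Fin 2 → F), (Cfsg.sympForm 2 F) (Matrix.mulVec k v) v = 0) ∧ H = Cfsg.Geo.subalgebraNormalizer K ⊓ Cfsg.spGL 2 F) ∨
    (5 ≤ Fintype.card F ∧ ∃ K : Subalgebra F (Matrix (Fin 2 ⊕ Fin 2) (Fin 2 ⊕ Fin 2) F), Cfsg.Geo.IsFieldSubalgebra 2 K ∧ Cfsg.Geo.IsAdjointClosedFor (Cfsg.sympForm 2 F) K ∧ ¬ Cfsg.Geo.IsSelfAdjointFor (Cfsg.sympForm 2 F) K ∧ H = Cfsg.Geo.subalgebraNormalizer K ⊓ Cfsg.spGL 2 F) ∨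
    (∃ (F₀ : Subfield F) (r : ℕ) (P : Matrix.GeneralLinearGroup (Fin 2 ⊕ Fin 2) F) (ζ : F), r.Prime ∧ Fintype.card F = Nat.card F₀ ^ r ∧ ζ ≠ 0 ∧ Cfsg.Geo.IsFormRationalStructure (Cfsg.sympForm 2 F) F₀ ζ P ∧ H = Cfsg.Geo.subfieldSubgroup F₀ P ⊓ Cfsg.spGL 2 F) ∨
    (∃ (p : ℕ) (R : Subgroup (Matrix.GeneralLinearGroup (Fin 2 ⊕ Fin 2) F)), p.Prime ∧ Fintype.card F = p ∧ Cfsg.Geo.IsSymplecticTypeGroup 2 R ∧ Cfsg.Geo.ActsAbsolutelyIrreducibly (Cfsg.Geo.matrixSet R) ∧ R ≤ Cfsg.Geo.similarityGroup (Cfsg.sympForm 2 F) ∧ Nat.card R = 32 ∧ Nat.card (Subgroup.center R) = 2 ∧ Cfsg.Geo.IsOfMinusType 2 R ∧ H = Cfsg.Geo.subgroupNormalizer R ⊓ Cfsg.spGL 2 F) ∨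
    Cfsg.Geo.InSymplecticResidualClass H := by
  classical
  open Cfsg.Agent.Lib.Classical.Asch Cfsg.Agent.Lib.Classical.Asch.NotSp Cfsg.Agent.Lib.Classical.Asch.SpRows Cfsg.Agent.Lib.Classical.Asch.SpThree Cfsg.Agent.Lib.Classical.Asch.Sp4Three in
  have hf := Cfsg.Agent.Lib.Classical.Asch.NotSp.isSymplecticForm_sympForm' (m := 2) (F := F)
  have hc4 : Fintype.card (Fin 2 ⊕ Fin 2) = 4 := by simp
  have hiso : ∀ g ∈ H, ∀ u v, (Cfsg.sympForm 2 F) ((g : Matrix (Fin 2 ⊕ Fin 2) (Fin 2 ⊕ Fin 2) F).mulVec u) ((g : Matrix (Fin 2 ⊕ Fin 2) (Fin 2 ⊕ Fin 2) F).mulVec v) = (Cfsg.sympForm 2 F) u v := fun g hg u v => hH.1.le hg u v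
  have h3or5 : Fintype.card F = 3 ∨ 5 ≤ Fintype.card F := by
    have h6 : 1 < Fintype.card F := Fintype.one_lt_card
    obtain ⟨a, ha⟩ := hodd
    omega
  rcases Cfsg.Agent.Lib.Classical.Asch.SpRows.sp_rows (by norm_num) hH with
    (⟨W, h0, hts, hE⟩ | ⟨W, h0, hn, hd, hE⟩ | ⟨t, k, D, hD, hk2, h1, h2, h3, h4, hE⟩ | ⟨D, hq, hD, hts, hE⟩ |
    ⟨F₀, r, P, ζ, hr, hc, hζ, hR, hE⟩ | ⟨R, p, k, h1, h2, h3, h4, h5, h6, h7, h8, h9, hE, hcd⟩ |
    ⟨Q, hq, hQ, hp, hE⟩ | ⟨r, K, hr, hrm, hK, h1, h2, hE⟩ | ⟨K, hq, hK, h1, h2, hE⟩ |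
    ⟨n₁, n₂, e, P, f₁, f₂, hq, h3, hcd, hev, hd, h1, h2, hs, hE⟩ | ⟨k, t, e, P, f₁, hq, ht, h3, hne, hcd, hev, hd, h1, hs, hE⟩) | hres
  · exact Or.inl (⟨W, h0, hts, hE⟩)
  · exfalso
    have hev := Cfsg.Agent.Lib.Classical.Asch.SpRows.even_finrank_of_nondegOn hn
    have hpos : 0 < Module.finrank F W := Module.finrank_pos_iff.mpr (Submodule.nontrivial_iff_ne_bot.mpr h0)
    obtain ⟨a, ha⟩ := hev
    omega
  · have hcases : t = 2 ∧ k = 2 := by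
      obtain ⟨a, ha⟩ := h2
      have hle : t ≤ 4 := by nlinarith
      interval_cases t <;> omega
    obtain ⟨rfl, rfl⟩ := hcases
    exact Or.inr (Or.inl (⟨D, hD, hE⟩))
  · rcases h3or5 with hq3 | h5
    · obtain ⟨D', hD', hle⟩ := ts_pair_three hq3 hf hc4 hD hts hiso (hE.le.trans inf_le_left)
      have hE' : H = Cfsg.Geo.decompositionStabilizer D' ⊓ Cfsg.spGL 2 F :=
        eq_inf_of_le' hH hle (not_le_decompositionStabilizer trans1_spGL (by simp) hD'.decomp)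
      exact Or.inr (Or.inl (⟨D', hD', hE'⟩))
    · exact Or.inr (Or.inr (Or.inl (⟨h5, D, hD, hts, hE⟩)))
  · exact Or.inr (Or.inr (Or.inr (Or.inr (Or.inr (Or.inl (⟨F₀, r, P, ζ, hr, hc, hζ, hR, hE⟩))))))
  · have hk2 : k = 2 := by
      have hk : k < 3 := by
        by_contra hk
        have h10 : 2 ^ 3 ≤ 2 ^ k := Nat.pow_le_pow_right (by norm_num) (by omega)
        omega
      interval_cases k <;> omega
    subst hk2
    exact Or.inr (Or.inr (Or.inr (Or.inr (Or.inr (Or.inr (Or.inl (⟨p, R, h4, h6, h1, h2, h3, by rw [h7]; norm_num, h8, h9, hE⟩)))))))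
  · exact absurd hodd hq
  · have hcases : r = 2 := (Nat.prime_dvd_prime_iff_eq hr Nat.prime_two).mp hrm
    subst hcases
    exact Or.inr (Or.inr (Or.inr (Or.inl (⟨K, hK, h1, h2, hE⟩))))
  · rcases h3or5 with hq3 | h5
    · obtain ⟨R, r1, r2, r3, r4, r5, r6, r7⟩ := out_K hq3 hH hK h1 h2 hE
      exact Or.inr (Or.inr (Or.inr (Or.inr (Or.inr (Or.inr (Or.inl (⟨3, R, Nat.prime_three, hq3, r1, r2, r3, r4, r5, r6, r7⟩)))))))
    · exact Or.inr (Or.inr (Or.inr (Or.inr (Or.inl (⟨h5, K, hK, h1, h2, hE⟩)))))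
  · exfalso
    nlinarith
  · exfalso
    have h8 : k ^ 3 ≤ k ^ t := Nat.pow_le_pow_right (by omega) h3
    have h9 : 2 ^ 3 ≤ k ^ 3 := Nat.pow_le_pow_left hd 3
    omega
  · exact Or.inr (Or.inr (Or.inr (Or.inr (Or.inr (Or.inr (Or.inr (hres)))))))

end Cfsg.Agent.S5787
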