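import Cfsg.Statements.S5790
import Cfsg.Agent.Lib.Classical.Asch.SpRows

set_option autoImplicit false
open Cfsg

namespace Cfsg.Agent.S5790

/-- Every maximal subgroup of Sp_4(q), q ≥ 4 even, is of one of the listed geometric types or lies in the residual class. Let F be a finite field of even order q ≥ 4, f the standard alternating form on F^4 (coordinates Fin 2 ⊕ Fin 2), and H a maximal subgroup of Sp_4(F) (inside GL_4(F)). Then H is the intersection with Sp_4(F) of one of: the stabiliser of a non-zero totally isotropic subspace; the stabiliser of a decomposition into two orthogonal non-degenerate 2-spaces; the normaliser of a degree-2 subfield K of the matrix algebra, self-adjoint with f(k v, v) = 0; a subfield group whose F₀-structure carries a non-zero multiple of f, |F| = |F₀|^r with r prime; the similarity group of a non-degenerate quadratic form whose polar form is f — or else H lies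 in the residual class of the symplectic case. -/
theorem result {F : Type*} [Field F] [Fintype F] (heven : ¬ Odd (Fintype.card F)) (h4 : 4 ≤ Fintype.card F) (H : Subgroup (Matrix.GeneralLinearGroup (Fin 2 ⊕ Fin 2) F)) (hH : Cfsg.Geo.IsMaximalIn (Cfsg.spGL 2 F) H) :
    (∃ W : Submodule F (Fin 2 ⊕ Fin 2 → F), W ≠ ⊥ ∧ Cfsg.Geo.IsTotallySingularFor (Cfsg.sympForm 2 F) W ∧ H = Cfsg.Geo.subspaceStabilizer W ⊓ Cfsg.spGL 2 F) ∨
    (∃ D : Fin 2 → Submodule F (Fin 2 ⊕ Fin 2 → F), Cfsg.Geo.IsNondegenerateMDecomposition (Cfsg.sympForm 2 F) 2 D ∧ H = Cfsg.Geo.decompositionStabilizer D ⊓ Cfsg.spGL 2 F) ∨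
    (∃ K : Subalgebra F (Matrix (Fin 2 ⊕ Fin 2) (Fin 2 ⊕ Fin 2) F), Cfsg.Geo.IsFieldSubalgebra 2 K ∧ Cfsg.Geo.IsSelfAdjointFor (Cfsg.sympForm 2 F) K ∧ (∀ k ∈ K, ∀ v : (Fin 2 ⊕ Fin 2 → F), (Cfsg.sympForm 2 F) (Matrix.mulVec k v) v = 0) ∧ H = Cfsg.Geo.subalgebraNormalizer K ⊓ Cfsg.spGL 2 F) ∨
    (∃ (F₀ : Subfield F) (r : ℕ) (P : Matrix.GeneralLinearGroup (Fin 2 ⊕ Fin 2) F) (ζ : F), r.Prime ∧ Fintype.card F = Nat.card F₀ ^ r ∧ ζ ≠ 0 ∧ Cfsg.Geo.IsFormRationalStructure (Cfsg.sympForm 2 F) F₀ ζ P ∧ H = Cfsg.Geo.subfieldSubgroup F₀ P ⊓ Cfsg.spGL 2 F) ∨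
    (∃ Q : (Fin 2 ⊕ Fin 2 → F) → F, Cfsg.Geo.IsNondegenerateQuadraticForm Q ∧ (∀ u v : (Fin 2 ⊕ Fin 2 → F), QuadraticMap.polar Q u v = (Cfsg.sympForm 2 F) u v) ∧ H = Cfsg.Geo.quadSimilarityGroup Q ⊓ Cfsg.spGL 2 F) ∨
    Cfsg.Geo.InSymplecticResidualClass H := by
  classical
  open Cfsg.Agent.Lib.Classical.Asch Cfsg.Agent.Lib.Classical.Asch.NotSp Cfsg.Agent.Lib.Classical.Asch.SpRows in
  rcases sp_max_cases (by norm_num) hH with
    (⟨W, h0, hts, hE⟩ | ⟨W, h0, hn, hd, hE⟩ | ⟨t, k, D, hD, hE⟩ | ⟨D, hq, hD, hts, hE⟩ |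
    ⟨F₀, r, P, ζ, hr, hc, hζ, hR, hE⟩ | ⟨R, p, k, h1, h2, h3, h4, h5, h6, h7, h8, h9, hE, hcd⟩ |
    ⟨Q, hq, hQ, hp, hE⟩ | ⟨r, K, hr, hK, h1, h2, hE⟩ | ⟨K, hq, hK, h1, h2, hE⟩ |
    ⟨n₁, n₂, e, P, f₁, f₂, hq, h3, h1, h2, hs, hE⟩ | ⟨k, t, e, P, f₁, hq, ht, h3, hne, h1, hs, hE⟩) | hres
  · exact Or.inl ⟨W, h0, hts, hE⟩
  · exfalso
    obtain ⟨a, ha⟩ := even_finrank_of_nondegOn hn
    have h1 : Module.finrank F W = 0 := by omega
    exact h0 (Submodule.finrank_eq_zero.mp h1)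
  · obtain ⟨h1, h2, h3, h4⟩ := decomp_numerics hD
    have hcases : t = 2 ∧ k = 2 := by
      obtain ⟨a, ha⟩ := h2
      have hle : t ≤ 4 := by nlinarith
      interval_cases t <;> omega
    obtain ⟨rfl, rfl⟩ := hcases
    exact Or.inr (Or.inl ⟨D, hD, hE⟩)
  · exact absurd hq heven
  · exact Or.inr (Or.inr (Or.inr (Or.inl ⟨F₀, r, P, ζ, hr, hc, hζ, hR, hE⟩)))
  · exact absurd (by rw [h6]; exact h5) heven
  · exact Or.inr (Or.inr (Or.inr (Or.inr (Or.inl ⟨Q, hQ, hp, hE⟩))))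
  · have hd := two_mul_dvd_of_selfAdj Cfsg.Agent.Lib.Classical.Asch.NotSp.isSymplecticForm_sympForm' hK h1 h2
    have hr2 : r = 2 := by
      have h3 : 2 * r ∣ 4 := by simpa using hd
      have h4 := Nat.le_of_dvd (by norm_num) h3
      have h5 := hr.two_le
      omega
    subst hr2
    exact Or.inr (Or.inr (Or.inl ⟨K, hK, h1, h2, hE⟩))
  · exact absurd hq heven
  · exact absurd hq heven
  · exact absurd hq heven
  · exact Or.inr (Or.inr (Or.inr (Or.inr (Or.inr hres))))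

end Cfsg.Agent.S5790
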