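import Cfsg.Statements.S5793
import Cfsg.Agent.Lib.Classical.Asch.Rows

set_option autoImplicit false
open Cfsg

namespace Cfsg.Agent.S5793

/-- Every maximal subgroup of SL_5(q) is of one of the listed geometric types or lies in the residual class. Let F be a finite field with q elements (p its characteristic) and H a maximal subgroup of SL_5(F) (inside GL_5(F)). Then H is the intersection with SL_5(F) of one of: the stabiliser of a proper non-zero subspace; for q ≥ 5, the stabiliser of a decomposition into 5 independent 1-spaces; the normaliser of a degree-5 subfield of the matrix algebra; a subfield group for a subfield F₀ with |F| = |F₀|^r, r prime; for q = p prime with p ≡ 1 mod 5, the normaliser of an absolutely irreducible 5-subgroup R of exponent 5 and order 5^(1+2m) with centre of order 5, all of whose characteristic abelian subgroups are cyclic, F being the smallest field of characteristic p containing the fifth roots of unity (here R is extraspecial of order 125); for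 q odd, the similarity group of a non-degenerate quadratic form; the similarity group of a non-degenerate unitary form — or else H lies in the residual class of the linear case (modulo scalars H is almost simple, with absolutely irreducible perfect socle preimage realisable over no proper subfield and fixing no non-degenerate quadratic, symplectic or unitary form). -/
theorem result {F : Type*} [Field F] [Fintype F] (H : Subgroup (Matrix.GeneralLinearGroup (Fin 5) F)) (hH : Cfsg.Geo.IsMaximalIn (Cfsg.Geo.specialLinear (Fin 5) F) H) :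
    (∃ W : Submodule F (Fin 5 → F), W ≠ ⊥ ∧ W ≠ ⊤ ∧ H = Cfsg.Geo.subspaceStabilizer W ⊓ Cfsg.Geo.specialLinear (Fin 5) F) ∨
    (5 ≤ Fintype.card F ∧ ∃ D : Fin 5 → Submodule F (Fin 5 → F), Cfsg.Geo.IsMDecomposition 1 D ∧ H = Cfsg.Geo.decompositionStabilizer D ⊓ Cfsg.Geo.specialLinear (Fin 5) F) ∨
    (∃ K : Subalgebra F (Matrix (Fin 5) (Fin 5) F), Cfsg.Geo.IsFieldSubalgebra 5 K ∧ H = Cfsg.Geo.subalgebraNormalizer K ⊓ Cfsg.Geo.specialLinear (Fin 5) F) ∨
    (∃ (F₀ : Subfield F) (r : ℕ) (P : Matrix.GeneralLinearGroup (Fin 5) F), r.Prime ∧ Fintype.card F = Nat.card F₀ ^ r ∧ H = Cfsg.Geo.subfieldSubgroup F₀ P ⊓ Cfsg.Geo.specialLinear (Fin 5) F) ∨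
    ((∃ p : ℕ, p.Prime ∧ Fintype.card F = p ∧ (p % 5 = 1)) ∧ ∃ R : Subgroup (Matrix.GeneralLinearGroup (Fin 5) F), Cfsg.Geo.IsLinearSymplecticTypeData 5 R ∧ H = Cfsg.Geo.subgroupNormalizer R ⊓ Cfsg.Geo.specialLinear (Fin 5) F) ∨
    (Odd (Fintype.card F) ∧ ∃ Q : (Fin 5 → F) → F, Cfsg.Geo.IsNondegenerateQuadraticForm Q ∧ H = Cfsg.Geo.quadSimilarityGroup Q ⊓ Cfsg.Geo.specialLinear (Fin 5) F) ∨
    (∃ (σ : F ≃+* F) (f : (Fin 5 → F) → (Fin 5 → F) → F), Cfsg.Geo.IsUnitaryForm σ f ∧ H = Cfsg.Geo.similarityGroup f ⊓ Cfsg.Geo.specialLinear (Fin 5) F) ∨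
    Cfsg.Geo.InLinearResidualClass H := by
  classical
  open Cfsg.Agent.Lib.Classical.Asch.Rows in
  rcases max_cases' 5 (by norm_num) H hH with
    h | ⟨t, m, D, hD, h1, h2, htm, hH'⟩ | ⟨r, K, hr, hd, hK, hH'⟩ | ⟨d, k, e, P, hd, hk, h2, hdk, hH'⟩ | h |
      ⟨r, R, m, hR, hn, hH'⟩ | ⟨d, t, e, P, hd, ht, hn, hH'⟩ | ⟨f, hf, hev, hH'⟩ | h | ⟨Q, hQ, ho, hH'⟩ | h
  · exact Or.inl (h)
  · have ht' := hD.two_le
    have hm' := hD.pos
    have hcases : (t = 5 ∧ m = 1) := by
      have hle : t ≤ 5 := by nlinarith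
      interval_cases t <;> omega
    rcases hcases with ⟨rfl, rfl⟩
    · exact Or.inr (Or.inl (⟨h1 rfl, D, hD, hH'⟩))
  · have hcases : r = 5 := by
      have hle := Nat.le_of_dvd (by norm_num) hd
      interval_cases r <;> first | omega | exact absurd hr (by norm_num)
    rcases hcases with rfl
    · exact Or.inr (Or.inr (Or.inl (⟨K, hK, hH'⟩)))
  · exfalso
    have hk' : d < 5 := by nlinarith
    interval_cases d <;> omega
  · exact Or.inr (Or.inr (Or.inr (Or.inl (h))))
  · obtain rfl : 5 = r := Cfsg.Agent.Lib.Classical.Asch.Rows.eq_of_dvd_pow (by norm_num) hR.symplecticType.prime (by norm_num) hn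
    obtain ⟨p, hp, hq, hpm⟩ := Cfsg.Agent.Lib.Classical.Asch.Rows.data_five hR
    exact Or.inr (Or.inr (Or.inr (Or.inr (Or.inl (⟨⟨p, hp, hq, hpm⟩, R, hR, hH'⟩)))))
  · have := Cfsg.Agent.Lib.Classical.Asch.Rows.wreath_num hd ht hn (by norm_num)
    omega
  · exact absurd hev (by decide)
  · exact Or.inr (Or.inr (Or.inr (Or.inr (Or.inr (Or.inr (Or.inl (h)))))))
  · exact Or.inr (Or.inr (Or.inr (Or.inr (Or.inr (Or.inl (⟨ho, Q, hQ, hH'⟩))))))
  · exact Or.inr (Or.inr (Or.inr (Or.inr (Or.inr (Or.inr (Or.inr (h)))))))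

end Cfsg.Agent.S5793
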