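import Cfsg.Statements.S5796
import Cfsg.Agent.Lib.Classical.Asch.SUFive

set_option autoImplicit false
open Cfsg

namespace Cfsg.Agent.S5796

/-- Every maximal subgroup of SU_5(q) is of one of the listed geometric types or lies in the residual class. Let F be the field with q² elements (characteristic p), f the standard unitary form Σ u_i v_i^q on F^5, and H a maximal subgroup of SU_5(q) (inside GL_5(F)). Then H is the intersection with SU_5(q) of one of: the stabiliser of a non-zero totally isotropic subspace; the stabiliser of a non-degenerate 1-space or 2-space; the stabiliser of a decomposition into five mutually orthogonal non-degenerate 1-spaces; for q ≥ 3, the normaliser of an adjoint-closed degree-5 subfield of the matrix algebra; a subfield group of odd prime index whose F₀-structure carries f; for q odd, a subfield group of index 2 whose F₀-structure carries f; for q = p ≡ 4 mod 5 or q = p² with p ≡ 2, 3 mod 5, the normaliser of an absolutely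 irreducible 5-group of exponent 5, order 125 and centre of order 5 with all characteristic abelian subgroups cyclic inside the similarity group of f — or else H lies in the residual class of the unitary case. -/
theorem result {F : Type*} [Field F] [Fintype F] (q : ℕ) (hF : Fintype.card F = q ^ 2) (H : Subgroup (Matrix.GeneralLinearGroup (Fin 5) F)) (hH : Cfsg.Geo.IsMaximalIn (Cfsg.GU 5 F q ⊓ Cfsg.Geo.specialLinear (Fin 5) F) H) :
    (∃ W : Submodule F (Fin 5 → F), W ≠ ⊥ ∧ Cfsg.Geo.IsTotallySingularFor (Cfsg.hermForm 5 F q) W ∧ H = Cfsg.Geo.subspaceStabilizer W ⊓ (Cfsg.GU 5 F q ⊓ Cfsg.Geo.specialLinear (Fin 5) F)) ∨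
    (∃ W : Submodule F (Fin 5 → F), W ≠ ⊥ ∧ Cfsg.Geo.IsNondegenerateOn (Cfsg.hermForm 5 F q) W ∧ 2 * Module.finrank F W < 5 ∧ H = Cfsg.Geo.subspaceStabilizer W ⊓ (Cfsg.GU 5 F q ⊓ Cfsg.Geo.specialLinear (Fin 5) F)) ∨
    (∃ D : Fin 5 → Submodule F (Fin 5 → F), Cfsg.Geo.IsNondegenerateMDecomposition (Cfsg.hermForm 5 F q) 1 D ∧ H = Cfsg.Geo.decompositionStabilizer D ⊓ (Cfsg.GU 5 F q ⊓ Cfsg.Geo.specialLinear (Fin 5) F)) ∨
    (3 ≤ q ∧ ∃ K : Subalgebra F (Matrix (Fin 5) (Fin 5) F), Cfsg.Geo.IsFieldSubalgebra 5 K ∧ Cfsg.Geo.IsAdjointClosedFor (Cfsg.hermForm 5 F q) K ∧ H = Cfsg.Geo.subalgebraNormalizer K ⊓ (Cfsg.GU 5 F q ⊓ Cfsg.Geo.specialLinear (Fin 5) F)) ∨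
    (∃ (F₀ : Subfield F) (r : ℕ) (P : Matrix.GeneralLinearGroup (Fin 5) F), r.Prime ∧ Odd r ∧ Fintype.card F = Nat.card F₀ ^ r ∧ Cfsg.Geo.IsFormRationalStructure (Cfsg.hermForm 5 F q) F₀ 1 P ∧ H = Cfsg.Geo.subfieldSubgroup F₀ P ⊓ (Cfsg.GU 5 F q ⊓ Cfsg.Geo.specialLinear (Fin 5) F)) ∨
    (Odd q ∧ ∃ (F₀ : Subfield F) (P : Matrix.GeneralLinearGroup (Fin 5) F), Fintype.card F = Nat.card F₀ ^ 2 ∧ Cfsg.Geo.IsFormRationalStructure (Cfsg.hermForm 5 F q) F₀ 1 P ∧ H = Cfsg.Geo.subfieldSubgroup F₀ P ⊓ (Cfsg.GU 5 F q ⊓ Cfsg.Geo.specialLinear (Fin 5) F)) ∨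
    (∃ (p : ℕ) (R : Subgroup (Matrix.GeneralLinearGroup (Fin 5) F)), p.Prime ∧ CharP F p ∧ ((q = p ∧ p % 5 = 4) ∨ (q = p ^ 2 ∧ (p % 5 = 2 ∨ p % 5 = 3))) ∧ Cfsg.Geo.IsSymplecticTypeGroup 5 R ∧ Cfsg.Geo.ActsAbsolutelyIrreducibly (Cfsg.Geo.matrixSet R) ∧ R ≤ Cfsg.Geo.similarityGroup (Cfsg.hermForm 5 F q) ∧ Nat.card R = 125 ∧ Nat.card (Subgroup.center R) = 5 ∧ H = Cfsg.Geo.subgroupNormalizer R ⊓ (Cfsg.GU 5 F q ⊓ Cfsg.Geo.specialLinear (Fin 5) F)) ∨
    Cfsg.Geo.InUnitaryResidualClass H := by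
  classical
  have hq2 := Cfsg.Agent.Lib.Classical.Herm.Basic.two_le_q hF
  rcases Cfsg.Agent.Lib.Classical.Asch.SURows.su_rows hF (by norm_num) (by simp) hH with h | hres
  swap
  · exact Or.inr (Or.inr (Or.inr (Or.inr (Or.inr (Or.inr (Or.inr hres))))))
  rcases h with
    (⟨W, h0, hts, hE⟩ | ⟨W, h0, hnd, hd, hE⟩ | ⟨t, k, D, hD, htk, hk, ht, hk2, hE⟩ | ⟨k, D, hk, hD, hts, hE⟩ |
    ⟨F₀, r, P, hr, ho, hc, hR, hE⟩ | ⟨F₀, P, ho, hc, hR, hE⟩ | ⟨F₀, P, ζ, hev, hc, hζ0, hζ, hR, halt, hE⟩ |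
    ⟨r, R, p, e, k, h1, h2, h3, h4, h5, h6, hE, h7, h8⟩ | ⟨r, K, hr, ho, hd, hK, hadj, hE⟩ |
    ⟨n₁, n₂, e, P, f₁, f₂, hn₁, hlt, h1, h2, h3, hs, hE⟩ | ⟨k, t, e, P, f₁, hk, ht, hcd, hne, h1, hs, hle⟩)
  · exact Or.inl ⟨W, h0, hts, hE⟩
  · exact Or.inr (Or.inl ⟨W, h0, hnd, hd, hE⟩)
  · have hcases : t = 5 ∧ k = 1 := by
      have hle : t ≤ 5 := by nlinarith
      interval_cases t <;> omega
    obtain ⟨rfl, rfl⟩ := hcases
    exact Or.inr (Or.inr (Or.inl ⟨D, hD, hE⟩))
  · omega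
  · exact Or.inr (Or.inr (Or.inr (Or.inr (Or.inl ⟨F₀, r, P, hr, ho, hc, hR, hE⟩))))
  · exact Or.inr (Or.inr (Or.inr (Or.inr (Or.inr (Or.inl ⟨ho, F₀, P, hc, hR, hE⟩)))))
  · exact absurd hev (by decide)
  · have hrp := h1.prime
    have hk0 : k ≠ 0 := by
      rintro rfl
      simp at h7
    have hr5 : r = 5 := by
      have h10 : r ∣ r ^ k := dvd_pow_self r hk0
      rw [← h7] at h10
      exact (Nat.prime_dvd_prime_iff_eq hrp (by norm_num)).mp h10
    subst hr5
    have hk1 : k = 1 := by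
      have h10 : (5 : ℕ) ^ 1 = 5 ^ k := by simpa using h7
      exact (Nat.pow_right_injective (by norm_num) h10).symm
    subst hk1
    rcases h6 with ⟨-, hz, -, hcR⟩ | ⟨h9, -⟩
    swap
    · omega
    obtain ⟨hp, hcp, hqc, hdvd, hmin⟩ := h5
    rw [hz] at hdvd hmin
    refine Or.inr (Or.inr (Or.inr (Or.inr (Or.inr (Or.inr (Or.inl
      ⟨p, R, hp, hcp, ?_, h1, h2, h3, by rw [hcR]; norm_num, hz, hE⟩))))))
    have he0 : 1 ≤ e := by
      by_contra hc
      have he : e = 0 := by omega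
      subst he
      have h10 := Fintype.one_lt_card (α := F)
      rw [hqc] at h10
      simp at h10
    have hp5 : p % 5 ≠ 0 := by
      intro h0
      exact h4 ((Nat.prime_dvd_prime_iff_eq (by norm_num) hp).mp (Nat.dvd_of_mod_eq_zero h0))
    have hpow : ∀ d : ℕ, 0 < d → (5 ∣ p ^ d - 1 ↔ p ^ d % 5 = 1) := by
      intro d hd
      have h10 : 1 ≤ p ^ d := Nat.one_le_pow _ _ hp.pos
      omega
    have hq2e : q ^ 2 = p ^ e := by rw [← hF, hqc]
    -- the order of `p` modulo five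
    have h4le : e ≤ 4 := by
      by_contra hc
      apply hmin 4 (by norm_num) (by omega)
      rw [hpow 4 (by norm_num), Nat.pow_mod]
      have : p % 5 = 1 ∨ p % 5 = 2 ∨ p % 5 = 3 ∨ p % 5 = 4 := by omega
      rcases this with h | h | h | h <;> rw [h]
    have hm1 : ¬ p % 5 = 1 ∨ e = 1 := by
      by_cases he1 : e = 1
      · exact Or.inr he1
      · left
        intro h
        apply hmin 1 one_pos (by omega)
        rw [hpow 1 one_pos, pow_one]
        exact h
    interval_cases e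
    · exfalso
      rw [pow_one] at hq2e
      have h10 : q ∣ p := ⟨q, by rw [← hq2e]; ring⟩
      rcases (Nat.dvd_prime hp).mp h10 with h11 | h11
      · omega
      · subst h11
        have : q * q = q * 1 := by rw [← pow_two, hq2e, mul_one]
        have := Nat.eq_of_mul_eq_mul_left (by omega) this
        omega
    · left
      have hqp : q = p := Nat.pow_left_injective (by norm_num : 2 ≠ 0) hq2e
      refine ⟨hqp, ?_⟩
      have h11 := (hpow 2 (by norm_num)).mp hdvd
      rw [Nat.pow_mod] at h11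
      have h12 := hm1.resolve_right (by norm_num)
      have : p % 5 = 1 ∨ p % 5 = 2 ∨ p % 5 = 3 ∨ p % 5 = 4 := by omega
      rcases this with h | h | h | h
      · exact absurd h h12
      · rw [h] at h11
        norm_num at h11
      · rw [h] at h11
        norm_num at h11
      · exact h
    · exfalso
      have h11 := (hpow 3 (by norm_num)).mp hdvd
      rw [Nat.pow_mod] at h11
      have h12 := hm1.resolve_right (by norm_num)
      have : p % 5 = 1 ∨ p % 5 = 2 ∨ p % 5 = 3 ∨ p % 5 = 4 := by omega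
      rcases this with h | h | h | h
      · exact h12 h
      · rw [h] at h11
        norm_num at h11
      · rw [h] at h11
        norm_num at h11
      · rw [h] at h11
        norm_num at h11
    · right
      have hqp : q = p ^ 2 := by
        have : q ^ 2 = (p ^ 2) ^ 2 := by rw [hq2e]; ring
        exact Nat.pow_left_injective (by norm_num : 2 ≠ 0) this
      refine ⟨hqp, ?_⟩
      have h12 := hm1.resolve_right (by norm_num)
      have h13 := hmin 2 (by norm_num) (by norm_num)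
      rw [hpow 2 (by norm_num), Nat.pow_mod] at h13
      have : p % 5 = 1 ∨ p % 5 = 2 ∨ p % 5 = 3 ∨ p % 5 = 4 := by omega
      rcases this with h | h | h | h
      · exact absurd h h12
      · exact Or.inl h
      · exact Or.inr h
      · rw [h] at h13
        norm_num at h13
  · have h5r : r = 5 := (Nat.prime_dvd_prime_iff_eq hr (by norm_num)).mp hd
    subst h5r
    by_cases hq3 : 3 ≤ q
    · exact Or.inr (Or.inr (Or.inr (Or.inl ⟨hq3, K, hK, hadj, hE⟩)))
    · have hq : q = 2 := by omega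
      subst hq
      exact (Cfsg.Agent.Lib.Classical.Asch.SUFive.quintic_two hF hK hadj hH hE).elim
  · exfalso
    have hk' : n₁ < 3 := by nlinarith
    interval_cases n₁ <;> omega
  · exfalso
    have h9 : 3 ^ 2 ≤ k ^ t := (Nat.pow_le_pow_left hk 2).trans (Nat.pow_le_pow_right (by omega) ht)
    omega

end Cfsg.Agent.S5796
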