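import Cfsg.Statements.S5802
import Cfsg.Agent.Lib.Classical.Asch.SUSix
import Cfsg.Agent.Lib.Classical.Asch.SUSixCubic

set_option autoImplicit false
open Cfsg

namespace Cfsg.Agent.S5802

/-- Every maximal subgroup of SU_6(q) is of one of the listed geometric types or lies in the residual class. Let F be the field with q² elements, f the standard unitary form Σ u_i v_i^q on F^6, and H a maximal subgroup of SU_6(q) (inside GL_6(F)). Then H is the intersection with SU_6(q) of one of: the stabiliser of a non-zero totally isotropic subspace; the stabiliser of a non-degenerate 1- or 2-space; for q ≥ 3, the stabiliser of a decomposition into six mutually orthogonal non-degenerate 1-spaces; for q ≥ 3, of a decomposition into three mutually orthogonal non-degenerate 2-spaces; of a decomposition into two orthogonal non-degenerate 3-spaces; of a decomposition into two totally isotropic 3-spaces;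 for q ≥ 3, the normaliser of an adjoint-closed degree-3 subfield of the matrix algebra; for q ≥ 3, the stabiliser of a tensor decomposition of f into unitary forms on F^2 and F^3; a subfield group of odd prime index whose F₀-structure carries f; a subfield group of index 2 and symplectic type; for q odd, a subfield group of index 2 and orthogonal type — or else H lies in the residual class of the unitary case. -/
theorem result {F : Type*} [Field F] [Fintype F] (q : ℕ) (hF : Fintype.card F = q ^ 2) (H : Subgroup (Matrix.GeneralLinearGroup (Fin 6) F)) (hH : Cfsg.Geo.IsMaximalIn (Cfsg.GU 6 F q ⊓ Cfsg.Geo.specialLinear (Fin 6) F) H) :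
    (∃ W : Submodule F (Fin 6 → F), W ≠ ⊥ ∧ Cfsg.Geo.IsTotallySingularFor (Cfsg.hermForm 6 F q) W ∧ H = Cfsg.Geo.subspaceStabilizer W ⊓ (Cfsg.GU 6 F q ⊓ Cfsg.Geo.specialLinear (Fin 6) F)) ∨
    (∃ W : Submodule F (Fin 6 → F), W ≠ ⊥ ∧ Cfsg.Geo.IsNondegenerateOn (Cfsg.hermForm 6 F q) W ∧ 2 * Module.finrank F W < 6 ∧ H = Cfsg.Geo.subspaceStabilizer W ⊓ (Cfsg.GU 6 F q ⊓ Cfsg.Geo.specialLinear (Fin 6) F)) ∨
    (3 ≤ q ∧ ∃ D : Fin 6 → Submodule F (Fin 6 → F), Cfsg.Geo.IsNondegenerateMDecomposition (Cfsg.hermForm 6 F q) 1 D ∧ H = Cfsg.Geo.decompositionStabilizer D ⊓ (Cfsg.GU 6 F q ⊓ Cfsg.Geo.specialLinear (Fin 6) F)) ∨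
    (3 ≤ q ∧ ∃ D : Fin 3 → Submodule F (Fin 6 → F), Cfsg.Geo.IsNondegenerateMDecomposition (Cfsg.hermForm 6 F q) 2 D ∧ H = Cfsg.Geo.decompositionStabilizer D ⊓ (Cfsg.GU 6 F q ⊓ Cfsg.Geo.specialLinear (Fin 6) F)) ∨
    (∃ D : Fin 2 → Submodule F (Fin 6 → F), Cfsg.Geo.IsNondegenerateMDecomposition (Cfsg.hermForm 6 F q) 3 D ∧ H = Cfsg.Geo.decompositionStabilizer D ⊓ (Cfsg.GU 6 F q ⊓ Cfsg.Geo.specialLinear (Fin 6) F)) ∨
    (∃ D : Fin 2 → Submodule F (Fin 6 → F), Cfsg.Geo.IsMDecomposition 3 D ∧ (∀ i, Cfsg.Geo.IsTotallySingularFor (Cfsg.hermForm 6 F q) (D i)) ∧ H = Cfsg.Geo.decompositionStabilizer D ⊓ (Cfsg.GU 6 F q ⊓ Cfsg.Geo.specialLinear (Fin 6) F)) ∨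
    (3 ≤ q ∧ ∃ K : Subalgebra F (Matrix (Fin 6) (Fin 6) F), Cfsg.Geo.IsFieldSubalgebra 3 K ∧ Cfsg.Geo.IsAdjointClosedFor (Cfsg.hermForm 6 F q) K ∧ H = Cfsg.Geo.subalgebraNormalizer K ⊓ (Cfsg.GU 6 F q ⊓ Cfsg.Geo.specialLinear (Fin 6) F)) ∨
    (3 ≤ q ∧ ∃ (e : Fin 6 ≃ Fin 2 × Fin 3) (P : Matrix.GeneralLinearGroup (Fin 6) F) (f₁ : (Fin 2 → F) → (Fin 2 → F) → F) (f₂ : (Fin 3 → F) → (Fin 3 → F) → F), Cfsg.Geo.IsUnitaryFormPow q f₁ ∧ Cfsg.Geo.IsUnitaryFormPow q f₂ ∧ Cfsg.Geo.IsTensorFormStructure (fun x : F => x ^ q) (Cfsg.hermForm 6 F q) f₁ f₂ e P ∧ H = Cfsg.Geo.tensorProductSubgroup 2 3 e P ⊓ (Cfsg.GU 6 F q ⊓ Cfsg.Geo.specialLinear (Fin 6) F)) ∨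
    (∃ (F₀ : Subfield F) (r : ℕ) (P : Matrix.GeneralLinearGroup (Fin 6) F), r.Prime ∧ Odd r ∧ Fintype.card F = Nat.card F₀ ^ r ∧ Cfsg.Geo.IsFormRationalStructure (Cfsg.hermForm 6 F q) F₀ 1 P ∧ H = Cfsg.Geo.subfieldSubgroup F₀ P ⊓ (Cfsg.GU 6 F q ⊓ Cfsg.Geo.specialLinear (Fin 6) F)) ∨
    (∃ (F₀ : Subfield F) (P : Matrix.GeneralLinearGroup (Fin 6) F) (ζ : F), Fintype.card F = Nat.card F₀ ^ 2 ∧ ζ ≠ 0 ∧ ζ + ζ ^ q = 0 ∧ Cfsg.Geo.IsFormRationalStructure (Cfsg.hermForm 6 F q) F₀ ζ P ∧ (∀ u : Fin 6 → F, (∀ i, u i ∈ F₀) → (Cfsg.hermForm 6 F q) (Matrix.mulVec (P : Matrix (Fin 6) (Fin 6) F) u) (Matrix.mulVec (P : Matrix (Fin 6) (Fin 6) F) u) = 0) ∧ H = Cfsg.Geo.subfieldSubgroup F₀ P ⊓ (Cfsg.GU 6 F q ⊓ Cfsg.Geo.specialLinear (Fin 6) F)) ∨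
    (Odd q ∧ ∃ (F₀ : Subfield F) (P : Matrix.GeneralLinearGroup (Fin 6) F), Fintype.card F = Nat.card F₀ ^ 2 ∧ Cfsg.Geo.IsFormRationalStructure (Cfsg.hermForm 6 F q) F₀ 1 P ∧ H = Cfsg.Geo.subfieldSubgroup F₀ P ⊓ (Cfsg.GU 6 F q ⊓ Cfsg.Geo.specialLinear (Fin 6) F)) ∨
    Cfsg.Geo.InUnitaryResidualClass H := by
  classical
  have hq2 := Cfsg.Agent.Lib.Classical.Herm.Basic.two_le_q hF
  rcases Cfsg.Agent.Lib.Classical.Asch.SURows.su_rows hF (by norm_num) (by simp) hH with h | hres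
  swap
  · exact Or.inr (Or.inr (Or.inr (Or.inr (Or.inr (Or.inr (Or.inr (Or.inr (Or.inr (Or.inr (Or.inr hres))))))))))
  rcases h with
    (⟨W, h0, hts, hE⟩ | ⟨W, h0, hnd, hd, hE⟩ | ⟨t, k, D, hD, htk, hk, ht, hk2, hE⟩ | ⟨k, D, hk, hD, hts, hE⟩ |
    ⟨F₀, r, P, hr, ho, hc, hR, hE⟩ | ⟨F₀, P, ho, hc, hR, hE⟩ | ⟨F₀, P, ζ, hev, hc, hζ0, hζ, hR, halt, hE⟩ |
    ⟨r, R, p, e, k, h1, h2, h3, h4, h5, h6, hE, h7, h8⟩ | ⟨r, K, hr, ho, hd, hK, hadj, hE⟩ |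
    ⟨n₁, n₂, e, P, f₁, f₂, hn₁, hlt, h1, h2, h3, h4, hs, hE⟩ | ⟨k, t, e, P, f₁, hk, ht, hcd, hne, h1, hs, hle⟩)
  · exact Or.inl ⟨W, h0, hts, hE⟩
  · exact Or.inr (Or.inl ⟨W, h0, hnd, hd, hE⟩)
  · have hcases : (t = 6 ∧ k = 1) ∨ (t = 3 ∧ k = 2) ∨ (t = 2 ∧ k = 3) := by
      have hle : t ≤ 6 := by nlinarith
      interval_cases t <;> omega
    rcases hcases with ⟨rfl, rfl⟩ | ⟨rfl, rfl⟩ | ⟨rfl, rfl⟩
    · by_cases hq3 : 3 ≤ q
      · exact Or.inr (Or.inr (Or.inl ⟨hq3, D, hD, hE⟩))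
      · have hq : q = 2 := by omega
        subst hq
        exact (Cfsg.Agent.Lib.Classical.Asch.SUSix.frames_two hF hD hH hE).elim
    · exact Or.inr (Or.inr (Or.inr (Or.inl ⟨hk2 rfl, D, hD, hE⟩)))
    · exact Or.inr (Or.inr (Or.inr (Or.inr (Or.inl ⟨D, hD, hE⟩))))
  · obtain rfl : k = 3 := by omega
    exact Or.inr (Or.inr (Or.inr (Or.inr (Or.inr (Or.inl ⟨D, hD, hts, hE⟩)))))
  · exact Or.inr (Or.inr (Or.inr (Or.inr (Or.inr (Or.inr (Or.inr (Or.inr (Or.inl ⟨F₀, r, P, hr, ho, hc, hR, hE⟩))))))))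
  · exact Or.inr (Or.inr (Or.inr (Or.inr (Or.inr (Or.inr (Or.inr (Or.inr (Or.inr (Or.inr (Or.inl ⟨ho, F₀, P, hc, hR, hE⟩))))))))))
  · exact Or.inr (Or.inr (Or.inr (Or.inr (Or.inr (Or.inr (Or.inr (Or.inr (Or.inr (Or.inl ⟨F₀, P, ζ, hc, hζ0, hζ, hR, halt, hE⟩)))))))))
  · exfalso
    have hrp := h1.prime
    have hr2 := hrp.two_le
    have hk3 : k < 3 := by
      by_contra hc
      have h9 : 2 ^ 3 ≤ r ^ k := (Nat.pow_le_pow_left hr2 3).trans (Nat.pow_le_pow_right (by omega) (by omega))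
      omega
    interval_cases k
    · simp at h7
    · have h9 : r = 6 := by simpa using h7.symm
      subst h9
      exact absurd hrp (by norm_num)
    · have h9 : r ≤ 2 := by
        by_contra hc
        have : 3 * 3 ≤ r * r := Nat.mul_le_mul (by omega) (by omega)
        nlinarith
      have h10 : r = 2 := by omega
      subst h10
      omega
  · have h3r : r = 3 := by
      have h10 : r ∣ 2 * 3 := by simpa using hd
      rcases (Nat.Prime.dvd_mul hr).mp h10 with h | h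
      · exfalso
        have := (Nat.prime_dvd_prime_iff_eq hr Nat.prime_two).mp h
        subst this
        exact absurd ho (by decide)
      · exact (Nat.prime_dvd_prime_iff_eq hr Nat.prime_three).mp h
    subst h3r
    by_cases hq3 : 3 ≤ q
    · exact Or.inr (Or.inr (Or.inr (Or.inr (Or.inr (Or.inr (Or.inl ⟨hq3, K, hK, hadj, hE⟩))))))
    · have hq : q = 2 := by omega
      subst hq
      obtain ⟨P, hR, halt, hle⟩ := Cfsg.Agent.Lib.Classical.Asch.SUSixCubic.cubic_le hF hK hadj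
      have hc := Cfsg.Agent.Lib.Classical.Asch.FormSU.card_fix_pow hF
      have h2 : (2 : F) = 0 := Cfsg.Agent.Lib.Classical.Asch.FormSU.two_of_parity hF (by decide)
      refine Or.inr (Or.inr (Or.inr (Or.inr (Or.inr (Or.inr (Or.inr (Or.inr (Or.inr (Or.inl
        ⟨_, P, 1, hc, one_ne_zero, ?_, hR, halt, ?_⟩)))))))))
      · rw [one_pow, one_add_one_eq_two, h2]
      · exact Cfsg.Agent.Lib.Classical.Asch.NotSp.eq_inf_of_le' hH (by rw [hE]; exact hle)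
          (Cfsg.Agent.Lib.Classical.Asch.NotSU.not_le_subfieldSubgroup_su hF (by norm_num) le_rfl hc P)
  · have h23 : n₁ = 2 ∧ n₂ = 3 := by
      have hk' : n₁ < 3 := by nlinarith
      interval_cases n₁ <;> omega
    obtain ⟨rfl, rfl⟩ := h23
    exact Or.inr (Or.inr (Or.inr (Or.inr (Or.inr (Or.inr (Or.inr (Or.inl ⟨h2 rfl, e, P, f₁, f₂, h3, h4, hs, hE⟩)))))))
  · exfalso
    have h9 : 3 ^ 2 ≤ k ^ t := (Nat.pow_le_pow_left hk 2).trans (Nat.pow_le_pow_right (by omega) ht)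
    omega

end Cfsg.Agent.S5802
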