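import Cfsg.Statements.S5826
import Cfsg.Agent.Lib.Classical.Asch.OEight

set_option autoImplicit false
open Cfsg
open Module
open Cfsg.Agent.Lib.Classical.Asch

namespace Cfsg.Agent.S5826

/-- Every maximal subgroup of Ω_8^-(q) is of one of the listed geometric types or lies in the residual class. Let F be a finite field with q elements, Q a non-degenerate quadratic form on F^8 of minus type (no totally singular 4-space), Ω the commutator subgroup of its isometry group, and H a maximal subgroup of Ω (inside GL_8(F)). Then H is the intersection with Ω of one of: the stabiliser of a non-zero totally singular subspace; for q odd, the stabiliser of a non-degenerate subspace of odd dimension; the stabiliser of a non-degenerate 2-space of minus type; for q ≥ 4, the stabiliser of a non-degenerate 2-space of plus type; the stabiliser of a non-degenerate 4-space; for q even, the stabiliser of the span of a non-singular vector; the normaliser of a degree-2 subfield of the matrix algebra; a subfield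 group of odd prime index whose F₀-structure carries a non-zero multiple of Q — or else H lies in the residual class of the orthogonal case (modulo scalars H is almost simple, with absolutely irreducible perfect socle preimage realisable over no proper subfield and fixing no non-degenerate unitary form). -/
theorem result {F : Type*} [Field F] [Fintype F] (Q : (Fin 8 → F) → F) (hQ : Cfsg.Geo.IsNondegenerateQuadraticForm Q) (hminus : ¬ Cfsg.Geo.IsPlusTypeOn Q ⊤) (H : Subgroup (Matrix.GeneralLinearGroup (Fin 8) F)) (hH : Cfsg.Geo.IsMaximalIn (Cfsg.Geo.omegaGL Q) H) :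
    (∃ W : Submodule F (Fin 8 → F), W ≠ ⊥ ∧ Cfsg.Geo.IsTotallySingularQuad Q W ∧ H = Cfsg.Geo.subspaceStabilizer W ⊓ Cfsg.Geo.omegaGL Q) ∨
    (Odd (Fintype.card F) ∧ ∃ W : Submodule F (Fin 8 → F), W ≠ ⊥ ∧ W ≠ ⊤ ∧ Odd (Module.finrank F W) ∧ Cfsg.Geo.IsNondegenerateOn (QuadraticMap.polar Q) W ∧ H = Cfsg.Geo.subspaceStabilizer W ⊓ Cfsg.Geo.omegaGL Q) ∨
    (∃ W : Submodule F (Fin 8 → F), Module.finrank F W = 2 ∧ Cfsg.Geo.IsNondegenerateOn (QuadraticMap.polar Q) W ∧ ¬ Cfsg.Geo.IsPlusTypeOn Q W ∧ H = Cfsg.Geo.subspaceStabilizer W ⊓ Cfsg.Geo.omegaGL Q) ∨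
    (4 ≤ Fintype.card F ∧ ∃ W : Submodule F (Fin 8 → F), Module.finrank F W = 2 ∧ Cfsg.Geo.IsNondegenerateOn (QuadraticMap.polar Q) W ∧ Cfsg.Geo.IsPlusTypeOn Q W ∧ H = Cfsg.Geo.subspaceStabilizer W ⊓ Cfsg.Geo.omegaGL Q) ∨
    (∃ W : Submodule F (Fin 8 → F), Module.finrank F W = 4 ∧ Cfsg.Geo.IsNondegenerateOn (QuadraticMap.polar Q) W ∧ H = Cfsg.Geo.subspaceStabilizer W ⊓ Cfsg.Geo.omegaGL Q) ∨
    (¬ Odd (Fintype.card F) ∧ ∃ v : (Fin 8 → F), Q v ≠ 0 ∧ H = Cfsg.Geo.subspaceStabilizer (Submodule.span F {v}) ⊓ Cfsg.Geo.omegaGL Q) ∨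
    (∃ K : Subalgebra F (Matrix (Fin 8) (Fin 8) F), Cfsg.Geo.IsFieldSubalgebra 2 K ∧ H = Cfsg.Geo.subalgebraNormalizer K ⊓ Cfsg.Geo.omegaGL Q) ∨
    (∃ (F₀ : Subfield F) (r : ℕ) (P : Matrix.GeneralLinearGroup (Fin 8) F) (ζ : F), r.Prime ∧ Odd r ∧ Fintype.card F = Nat.card F₀ ^ r ∧ ζ ≠ 0 ∧ Cfsg.Geo.IsQuadFormRationalStructure (fun v : Fin 8 → F => ζ * Q v) F₀ P ∧ H = Cfsg.Geo.subfieldSubgroup F₀ P ⊓ Cfsg.Geo.omegaGL Q) ∨
    Cfsg.Geo.InOrthogonalResidualClass H := by
  classical
  have hc : Fintype.card (Fin 8) = 8 := by simp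
  have hn : 5 ≤ Fintype.card (Fin 8) := by simp
  have hle : H ≤ isometryGroup F Q := hH.1.le.trans (OEMax.omega_le_iso Q)
  have h2iff := OEMax.odd_card_iff (F := F)
  rcases FormOE.oe_mainF hQ (by simp) hle with h | h
  swap
  · iterate 8 right
    exact h
  rcases h with ⟨W, h0, hts, hst⟩ | ⟨W, h0, h1, hnd, hst⟩ | ⟨h2, v, hv, hst⟩ | ⟨t, k, D, hD, hst⟩ | ⟨k, D, hD, hts, hst⟩ | ⟨r, K, hr, hK, -, hst⟩ |
    ⟨d, k, e, P, f₁, f₂, hd, hk, h2, h1, h3, hs, hG, hst⟩ | ⟨d, k, e, P, f₁, f₂, hd, hk, h1, h3, hs, hv, hst⟩ | ⟨F₀, r, P, ζ, hr, hc', hζ, hR, hst⟩ |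
    ⟨d, t, e, P, J₀, ε₀, c, T, hG, hX⟩ | ⟨R, r, s, D, hR⟩
  · exact Or.inl ⟨W, h0, hts, OEMax.eq_stab hQ hn hH h0 (OEMax.ts_ne_top hQ hn hts) hst⟩
  · obtain ⟨W', h0', h1', hnd', hst', hsm, -⟩ := OEMax.exists_small hQ hle (by rw [hc]; decide) h0 h1 hnd hst
    rw [hc] at hsm
    have hE := OEMax.eq_stab hQ hn hH h0' h1' hst'
    have hpos : 0 < Module.finrank F W' := Module.finrank_pos_iff.mpr (Submodule.nontrivial_iff_ne_bot.mpr h0')
    by_cases hodd : Odd (Module.finrank F W')
    · have hq : Odd (Fintype.card F) := h2iff.mpr fun h => (Nat.not_even_iff_odd.mpr hodd) (OEMax.even_of_two hQ h hnd')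
      right; left
      exact ⟨hq, W', h0', h1', hodd, hnd', hE⟩
    · have hev := Nat.not_odd_iff_even.mp hodd
      obtain ⟨a, ha⟩ := hev
      have h3 : Module.finrank F W' = 2 ∨ Module.finrank F W' = 4 := by omega
      rcases h3 with h3 | h3
      · by_cases hp : Cfsg.Geo.IsPlusTypeOn Q W'
        · have hq2 : 2 ≤ Fintype.card F := Fintype.one_lt_card
          by_cases hq4 : 4 ≤ Fintype.card F
          · iterate 3 right
            left
            exact ⟨hq4, W', h3, hnd', hp, hE⟩
          · have hq : Fintype.card F = 2 ∨ Fintype.card F = 3 := by omega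
            rcases hq with hq | hq
            · obtain ⟨v, hv, hvs⟩ := OField.stab_of_plus_two hQ hq h3 hnd' hp
              iterate 5 right
              left
              obtain ⟨h5, h6⟩ := OEMax.span_ne hQ hv (by rw [hc]; norm_num)
              have h7 : H ≤ Cfsg.Geo.subspaceStabilizer (Submodule.span F {v}) := fun g hg => hvs g (hle hg) (hst' hg)
              refine ⟨?_, v, hv, OEMax.eq_stab hQ hn hH h5 h6 h7⟩
              rw [hq]
              decide
            · exfalso
              obtain ⟨Q', rfl, hQ'⟩ := Cfsg.Agent.Lib.Classical.Geo.OPts.exists_quadraticForm hQ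
              exact OMax.not_plus_three hQ' hn hH hst' hnd' hq h3 hp
        · right; right; left
          exact ⟨W', h3, hnd', hp, hE⟩
      · iterate 4 right
        left
        exact ⟨W', h3, hnd', hE⟩
  · iterate 5 right
    left
    obtain ⟨h5, h6⟩ := OEMax.span_ne hQ hv (by rw [hc]; norm_num)
    refine ⟨fun h => h2iff.mp h h2, v, hv, OEMax.eq_stab hQ hn hH h5 h6 hst⟩
  · have hcd := Cfsg.Agent.Lib.Classical.Asch.Block.card_eq_mul hD.decomp.decomp
    rw [hc] at hcd
    have ht2 := hD.decomp.decomp.two_le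
    have hev : Even t := by
      have ht12 : t ≤ 8 := by
        have : 1 ≤ k := by
          rcases Nat.eq_zero_or_pos k with h | h
          · subst h
            omega
          · exact h
        nlinarith
      interval_cases t <;> first | decide | omega
    exact absurd (OType.plus_of_even_block' hQ hD (m := 4) (by norm_num) (by rw [hc]) hev (by decide)) hminus
  · exact absurd (OEMax.plus_of_pair hQ hD hts) hminus
  · have hdvd := Cfsg.Agent.Lib.Classical.Asch.Small.dvd_card_of_field hK
    rw [hc] at hdvd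
    have hE := OEMax.eq_normalizer hQ hn hH hr.two_le hK hst
    have hr' : r = 2 := by
      have h12 : r ≤ 8 := Nat.le_of_dvd (by norm_num) hdvd
      interval_cases r <;> first | omega | (exfalso; revert hr; decide) | (exfalso; revert hdvd; decide)
    subst hr'
    iterate 6 right
    left
    exact ⟨K, hK, hE⟩
  · -- symmetric tensor factors
    have hcd := Fintype.card_congr e
    rw [hc, Fintype.card_prod, Fintype.card_fin, Fintype.card_fin] at hcd
    have hfin : (d = 2 ∧ k = 4) ∨ (d = 4 ∧ k = 2) := by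
      have hd6 : d ≤ 4 := by nlinarith
      interval_cases d <;> omega
    rcases hfin with ⟨rfl, rfl⟩ | ⟨rfl, rfl⟩
    · obtain ⟨K, hK, hKst⟩ := OEMax.tensor_two_minus h2 hQ hminus h1 h3 hs hle hst
      iterate 6 right
      left
      exact ⟨K, hK, OEMax.eq_normalizer hQ hn hH (by norm_num) hK hKst⟩
    · obtain ⟨K, hK, hKst⟩ := OEMax.tensor_two_minus h2 hQ hminus h3 h1 (OType.tensor_swap hs) hle (hst.trans (Cfsg.Agent.Lib.Classical.Asch.Main.tensorProductSubgroup_le_swap e P))
      iterate 6 right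
      left
      exact ⟨K, hK, OEMax.eq_normalizer hQ hn hH (by norm_num) hK hKst⟩
  · -- alternating tensor factors
    have hcd := Fintype.card_congr e
    rw [hc, Fintype.card_prod, Fintype.card_fin, Fintype.card_fin] at hcd
    have hdk : d = 2 ∨ k = 2 := by
      have hd6 : d ≤ 4 := by nlinarith
      interval_cases d <;> omega
    exact absurd (OEMax.plus_of_alt hQ h1 h3 hs hv hdk) hminus
  · by_cases hr2 : r = 2
    · subst hr2
      exact absurd (OField.plus_of_subfield_two hQ (k := 3) (by rw [hc]) hc' hζ hR) hminus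
    · iterate 7 right
      left
      exact ⟨F₀, r, P, ζ, hr, hr.odd_of_ne_two hr2, hc', hζ, hR, OEMax.eq_subfield hQ hn hH hr.two_le hc' hst⟩
  · exfalso
    have hcd := Fintype.card_congr e
    rw [hc, Fintype.card_fun, Fintype.card_fin, Fintype.card_fin] at hcd
    have hd' := T.hd
    have ht' := T.ht
    have hdt : d = 2 ∧ t = 3 := by
      have h1 : d ^ 2 ≤ d ^ t := Nat.pow_le_pow_right (by omega) ht'
      have hd2 : d = 2 := by nlinarith
      subst hd2
      refine ⟨rfl, ?_⟩
      have h5 : t ≤ 3 := by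
        by_contra h6
        have h7 : 2 ^ 4 ≤ 2 ^ t := Nat.pow_le_pow_right (by norm_num) (by omega)
        omega
      interval_cases t <;> omega
    obtain ⟨rfl, rfl⟩ := hdt
    by_cases h2 : (2 : F) = 0
    · exact hminus (OEight.plus_of_cube_two h2 hQ hle (fun W hW => hG W (FormO.inv_sup hW)) T)
    · exact OEight.no_cube_odd h2 T hX
  · exact absurd (OEight.plus_of_sympData hQ D hR (m := 3) (by norm_num) (by rw [hc]; norm_num)) hminus

end Cfsg.Agent.S5826
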