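import Cfsg.Statements.S5835
import Cfsg.Agent.Lib.Classical.Asch.OMax

set_option autoImplicit false
open Cfsg

namespace Cfsg.Agent.S5835

/-- Every maximal subgroup of Ω_9(q), q odd, is of one of the listed geometric types or lies in the residual class. Let F be a finite field of odd order q, Q the standard quadratic form x₀² + Σ x_i y_i on F^9 (coordinates Unit ⊕ (Fin 4 ⊕ Fin 4)), Ω the commutator subgroup of its isometry group, and H a maximal subgroup of Ω (inside GL_9(F)). Then H is the intersection with Ω of one of: the stabiliser of a non-zero totally singular subspace; the stabiliser of a non-zero non-degenerate subspace of even dimension (not a plus-type plane when q = 3); for q prime, the stabiliser of a decomposition into nine pairwise orthogonal, pairwise isometric non-degenerate 1-spaces; for q ≥ 5, the stabiliser of a decomposition into three pairwise orthogonal, pairwise isometric non-degenerate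 3-spaces; the normaliser of a degree-3 subfield of the matrix algebra, self-adjoint for the polar form; a subfield group (|F| = |F₀|^r, r prime) whose F₀-structure carries Q; for q ≥ 5, the stabiliser of a tensor decomposition of the polar form as a tensor square of a symmetric form on F^3 — or else H lies in the residual class of the orthogonal case (modulo scalars H is almost simple, with absolutely irreducible perfect socle preimage realisable over no proper subfield and fixing no non-degenerate unitary form). -/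
theorem result {F : Type*} [Field F] [Fintype F] (hodd : Odd (Fintype.card F)) (H : Subgroup (Matrix.GeneralLinearGroup (Unit ⊕ (Fin 4 ⊕ Fin 4)) F)) (hH : Cfsg.Geo.IsMaximalIn (Cfsg.Geo.omegaGL (Cfsg.quadFormOdd 4 F)) H) :
    (∃ W : Submodule F (Unit ⊕ (Fin 4 ⊕ Fin 4) → F), W ≠ ⊥ ∧ Cfsg.Geo.IsTotallySingularQuad (Cfsg.quadFormOdd 4 F) W ∧ H = Cfsg.Geo.subspaceStabilizer W ⊓ Cfsg.Geo.omegaGL (Cfsg.quadFormOdd 4 F)) ∨
    (∃ W : Submodule F (Unit ⊕ (Fin 4 ⊕ Fin 4) → F), W ≠ ⊥ ∧ Even (Module.finrank F W) ∧ Cfsg.Geo.IsNondegenerateOn (QuadraticMap.polar (Cfsg.quadFormOdd 4 F)) W ∧ ¬ (Fintype.card F = 3 ∧ Module.finrank F W = 2 ∧ Cfsg.Geo.IsPlusTypeOn (Cfsg.quadFormOdd 4 F) W) ∧ H = Cfsg.Geo.subspaceStabilizer W ⊓ Cfsg.Geo.omegaGL (Cfsg.quadFormOdd 4 F)) ∨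
    ((Fintype.card F).Prime ∧ ∃ D : Fin 9 → Submodule F (Unit ⊕ (Fin 4 ⊕ Fin 4) → F), Cfsg.Geo.IsOrthogonalMDecomposition (Cfsg.quadFormOdd 4 F) 1 D ∧ H = Cfsg.Geo.decompositionStabilizer D ⊓ Cfsg.Geo.omegaGL (Cfsg.quadFormOdd 4 F)) ∨
    (5 ≤ Fintype.card F ∧ ∃ D : Fin 3 → Submodule F (Unit ⊕ (Fin 4 ⊕ Fin 4) → F), Cfsg.Geo.IsOrthogonalMDecomposition (Cfsg.quadFormOdd 4 F) 3 D ∧ H = Cfsg.Geo.decompositionStabilizer D ⊓ Cfsg.Geo.omegaGL (Cfsg.quadFormOdd 4 F)) ∨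
    (∃ K : Subalgebra F (Matrix (Unit ⊕ (Fin 4 ⊕ Fin 4)) (Unit ⊕ (Fin 4 ⊕ Fin 4)) F), Cfsg.Geo.IsFieldSubalgebra 3 K ∧ Cfsg.Geo.IsSelfAdjointFor (QuadraticMap.polar (Cfsg.quadFormOdd 4 F)) K ∧ H = Cfsg.Geo.subalgebraNormalizer K ⊓ Cfsg.Geo.omegaGL (Cfsg.quadFormOdd 4 F)) ∨
    (∃ (F₀ : Subfield F) (r : ℕ) (P : Matrix.GeneralLinearGroup (Unit ⊕ (Fin 4 ⊕ Fin 4)) F), r.Prime ∧ Fintype.card F = Nat.card F₀ ^ r ∧ Cfsg.Geo.IsQuadFormRationalStructure (Cfsg.quadFormOdd 4 F) F₀ P ∧ H = Cfsg.Geo.subfieldSubgroup F₀ P ⊓ Cfsg.Geo.omegaGL (Cfsg.quadFormOdd 4 F)) ∨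
    (5 ≤ Fintype.card F ∧ ∃ (e : (Unit ⊕ (Fin 4 ⊕ Fin 4)) ≃ (Fin 2 → Fin 3)) (P : Matrix.GeneralLinearGroup (Unit ⊕ (Fin 4 ⊕ Fin 4)) F) (f₁ : (Fin 3 → F) → (Fin 3 → F) → F), Cfsg.Geo.IsSymmetricForm f₁ ∧ Cfsg.Geo.IsTensorPowerFormStructure id (QuadraticMap.polar (Cfsg.quadFormOdd 4 F)) f₁ e P ∧ H = Cfsg.Geo.tensorWreathSubgroup 3 2 e P ⊓ Cfsg.Geo.omegaGL (Cfsg.quadFormOdd 4 F)) ∨
    Cfsg.Geo.InOrthogonalResidualClass H := by
  classical
  have hc : Fintype.card (Unit ⊕ (Fin 4 ⊕ Fin 4)) = 9 := Cfsg.Agent.Lib.Classical.Asch.FormO2.card_odd_index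
  have h2 := Cfsg.Agent.Lib.Classical.Asch.Forms.two_ne_zero_of_odd hodd
  obtain ⟨Q, hQ₀, hQ⟩ := Cfsg.Agent.Lib.Classical.Geo.OPts.exists_quadraticForm (Cfsg.Agent.Lib.Classical.Asch.FormO2.isNondeg_quadFormOdd (m := 4) h2)
  have hq2 : 2 ≤ Fintype.card F := Fintype.one_lt_card
  have hq5 : Fintype.card F ≠ 3 → 5 ≤ Fintype.card F := by
    intro h3
    obtain ⟨a, ha⟩ := hodd
    omega
  rcases Cfsg.Agent.Lib.Classical.Asch.OMax.o_rows hodd (by norm_num) hH with h | h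
  swap
  · exact Or.inr (Or.inr (Or.inr (Or.inr (Or.inr (Or.inr (Or.inr h))))))
  rcases h with ⟨W, h0, hts, hE⟩ | ⟨W, h0, he, hnd, hne, hE⟩ | ⟨t, k, D, hk, hD, hE⟩ | ⟨t, D, hp, hD, hE⟩ | ⟨r, K, hr, hne, hK, hs, hE⟩ |
    ⟨n₁, n₂, e, P, f₁, f₂, h3, hlt, h1, h2', hs, hE⟩ | ⟨F₀, r, P, hr, hc', hR, hE⟩ | ⟨k, t, e, P, f₁, hk, ht, hne, h1, hs, hE⟩
  · exact Or.inl ⟨W, h0, hts, hE⟩
  · exact Or.inr (Or.inl ⟨W, h0, he, hnd, hne, hE⟩)
  · have hcd := Cfsg.Agent.Lib.Classical.Asch.Block.card_eq_mul hD.decomp.decomp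
    rw [hc] at hcd
    have ht := hD.decomp.decomp.two_le
    have hk3 : k = 3 := by
      have h5 : k ≤ 4 := by nlinarith
      interval_cases k <;> omega
    subst hk3
    have ht3 : t = 3 := by omega
    subst ht3
    by_cases hq3 : Fintype.card F = 3
    · rw [← hQ₀] at hD hE hH
      obtain ⟨D', hD', hst⟩ := Cfsg.Agent.Lib.Classical.Asch.OMax.frame_of_three (n' := 9) hq3 hQ (by norm_num) hD
      refine Or.inr (Or.inr (Or.inl ⟨by rw [hq3]; norm_num, D', ?_, ?_⟩))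
      · rw [← hQ₀]
        exact hD'
      · rw [← hQ₀]
        refine Cfsg.Agent.Lib.Classical.Asch.NotSp.eq_inf_of_le' hH ?_ (Cfsg.Agent.Lib.Classical.Asch.NotO.not_le_decomp h2 hQ (by omega) hD'.decomp.decomp)
        intro g hg
        rw [hE] at hg
        exact hst g (Cfsg.Agent.Lib.Classical.Geo.OPts.omegaGL_le_iso hg.2) hg.1
    · exact Or.inr (Or.inr (Or.inr (Or.inl ⟨hq5 hq3, D, hD, hE⟩)))
  · have hcd := Cfsg.Agent.Lib.Classical.Asch.Block.card_eq_mul hD.decomp.decomp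
    rw [hc, mul_one] at hcd
    subst hcd
    exact Or.inr (Or.inr (Or.inl ⟨hp, D, hD, hE⟩))
  · have hdvd := Cfsg.Agent.Lib.Classical.Asch.Small.dvd_card_of_field hK
    rw [hc] at hdvd hne
    have hr3 : r = 3 := by
      have h5 : r ∣ 3 ^ 2 := by norm_num; exact hdvd
      have h6 := hr.dvd_of_dvd_pow h5
      exact (Nat.prime_dvd_prime_iff_eq hr (by norm_num)).mp h6
    subst hr3
    exact Or.inr (Or.inr (Or.inr (Or.inr (Or.inl ⟨K, hK, hs, hE⟩))))
  · exfalso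
    have hcd := Fintype.card_congr e
    rw [hc, Fintype.card_prod, Fintype.card_fin, Fintype.card_fin] at hcd
    nlinarith
  · exact Or.inr (Or.inr (Or.inr (Or.inr (Or.inr (Or.inl ⟨F₀, r, P, hr, hc', hR, hE⟩)))))
  · have hcd := Fintype.card_congr e
    rw [hc, Fintype.card_fun, Fintype.card_fin, Fintype.card_fin] at hcd
    have h5 : k ^ 2 ∣ 9 := by
      rw [hcd]
      exact pow_dvd_pow k ht
    have h6 := Nat.le_of_dvd (by norm_num) h5
    have h7 : k ≤ 3 := by nlinarith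
    have h8 : k = 3 := by omega
    subst h8
    have ht2 : t = 2 := Nat.pow_right_injective (le_refl 3 |>.trans' (by norm_num)) (by simpa using hcd.symm)
    subst ht2
    have hq3 : Fintype.card F ≠ 3 := fun h => hne ⟨h, rfl⟩
    refine Or.inr (Or.inr (Or.inr (Or.inr (Or.inr (Or.inr (Or.inl ⟨hq5 hq3, e, P, f₁, h1, hs, ?_⟩))))))
    rw [← hQ₀] at hs hH ⊢
    exact Cfsg.Agent.Lib.Classical.Asch.NotSp.eq_inf_of_le' hH hE (Cfsg.Agent.Lib.Classical.Asch.NotO.not_le_wreath_two h2 hQ (by omega) (le_refl 3) h1 hs)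

end Cfsg.Agent.S5835
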