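import Cfsg.Statements.S5858
import Mathlib
import Cfsg.Agent.Lib.Classical.Geo.OPts
import Cfsg.Agent.Lib.Classical.Geo.ONondegMax6
import Cfsg.Agent.Lib.Classical.Sub.OMain11
import Cfsg.Agent.Lib.Classical.Frame.Main3
import Cfsg.Agent.Lib.Classical.Orth.Models

set_option autoImplicit false
open Cfsg

namespace Cfsg.Agent.S5858

open Module QuadraticMap Cfsg.Geo
open Cfsg.Agent.Lib.Classical.Decomp
open Cfsg.Agent.Lib.Classical.Orth.Models
open Cfsg.Agent.Lib.Classical.Frame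

/-- Maximal subgroups of Ω_11(q) of geometric type, q odd. Let F be a finite field of odd order q, Q the standard quadratic form x₀² + Σ x_i y_i on F^11 (coordinates Unit ⊕ (Fin 5 ⊕ Fin 5)), and Ω = Ω_11(q) the commutator subgroup of its isometry group, inside GL_11(F). Each of the following, intersected with Ω, is a maximal subgroup of Ω: (1) the stabiliser of any non-zero subspace on which Q vanishes identically (totally singular 1- to 5-spaces); (2) the stabiliser of any non-zero even-dimensional subspace W (dimension 2 to 10) on which the polar form of Q is non-degenerate (equivalently of its odd-dimensional orthogonal complement), except when q = 3 and W is a 2-space containing a non-zero singular vector (a plus-type plane); (3) for q = p prime, the stabiliser of any decomposition of F^11 into eleven pairwise orthogonal, pairwise Q-isometric non-degenerate 1-spaces; (4) every subfield group for a subfield F₀ with |F| = |F₀|^r, r prime, whose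 F₀-structure carries Q. -/
theorem result {F : Type*} [Field F] [Fintype F] (hodd : Odd (Fintype.card F)) :
    (∀ W : Submodule F (Unit ⊕ (Fin 5 ⊕ Fin 5) → F), W ≠ ⊥ → Cfsg.Geo.IsTotallySingularQuad (Cfsg.quadFormOdd 5 F) W → Cfsg.Geo.IsMaximalIn (Cfsg.Geo.omegaGL (Cfsg.quadFormOdd 5 F)) (Cfsg.Geo.subspaceStabilizer W ⊓ Cfsg.Geo.omegaGL (Cfsg.quadFormOdd 5 F))) ∧
    (∀ W : Submodule F (Unit ⊕ (Fin 5 ⊕ Fin 5) → F), W ≠ ⊥ → Even (Module.finrank F W) → Cfsg.Geo.IsNondegenerateOn (QuadraticMap.polar (Cfsg.quadFormOdd 5 F)) W → ¬ (Fintype.card F = 3 ∧ Module.finrank F W = 2 ∧ Cfsg.Geo.IsPlusTypeOn (Cfsg.quadFormOdd 5 F) W) → Cfsg.Geo.IsMaximalIn (Cfsg.Geo.omegaGL (Cfsg.quadFormOdd 5 F)) (Cfsg.Geo.subspaceStabilizer W ⊓ Cfsg.Geo.omegaGL (Cfsg.quadFormOdd 5 F))) ∧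
    ((Fintype.card F).Prime → ∀ D : Fin 11 → Submodule F (Unit ⊕ (Fin 5 ⊕ Fin 5) → F), Cfsg.Geo.IsOrthogonalMDecomposition (Cfsg.quadFormOdd 5 F) 1 D → Cfsg.Geo.IsMaximalIn (Cfsg.Geo.omegaGL (Cfsg.quadFormOdd 5 F)) (Cfsg.Geo.decompositionStabilizer D ⊓ Cfsg.Geo.omegaGL (Cfsg.quadFormOdd 5 F))) ∧
    (∀ (F₀ : Subfield F) (r : ℕ) (P : Matrix.GeneralLinearGroup (Unit ⊕ (Fin 5 ⊕ Fin 5)) F), r.Prime → Fintype.card F = Nat.card F₀ ^ r → Cfsg.Geo.IsQuadFormRationalStructure (Cfsg.quadFormOdd 5 F) F₀ P → Cfsg.Geo.IsMaximalIn (Cfsg.Geo.omegaGL (Cfsg.quadFormOdd 5 F)) (Cfsg.Geo.subfieldSubgroup F₀ P ⊓ Cfsg.Geo.omegaGL (Cfsg.quadFormOdd 5 F))) := by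
  classical
  have h2 : (2 : F) ≠ 0 := Cfsg.Agent.Lib.Classical.Geo.OPts.two_ne_zero_of_odd hodd
  have hQ := oddForm_nondegenerate (F := F) h2 5
  have hc : Cfsg.quadFormOdd 5 F = ⇑(oddForm 5 F) := (coe_oddForm 5 F).symm
  rw [hc]
  have hcard : Fintype.card (Unit ⊕ (Fin 5 ⊕ Fin 5)) = 11 := by
    simp
  refine ⟨?_, ?_, ?_, ?_⟩
  · intro W hW0 hW
    refine Cfsg.Agent.Lib.Classical.Geo.OPts.isMaximalIn_parabolic hQ (by simp) hW0 hW ?_
    intro h
    simp at h
    omega
  · intro W hW0 hev hW hex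
    have hW1 : W ≠ ⊤ := by
      rintro rfl
      rw [finrank_top, Module.finrank_fintype_fun_eq_card, hcard] at hev
      exact absurd hev (by decide)
    have hne : 2 * Module.finrank F W ≠ Fintype.card (Unit ⊕ (Fin 5 ⊕ Fin 5)) := by
      rw [hcard]
      omega
    refine Cfsg.Agent.Lib.Classical.Geo.ONondegMax6.isMaximalIn_nondeg10 h2 hQ hW0 hW1 hW (by rw [hcard]; omega) hne ?_
    rintro ⟨hq, U, hfU, hnd, hplus, hU | ⟨-, hU⟩⟩
    · subst hU
      have hq3 : Fintype.card F = 3 := by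
        have h1 : 2 ≤ Fintype.card F := Fintype.one_lt_card
        obtain ⟨k, hk⟩ := hodd
        omega
      exact hex ⟨hq3, hfU, hplus⟩
    · obtain ⟨k, hk⟩ := hev
      rw [hcard] at hU
      omega
  · intro hprime D hD
    obtain ⟨π, hdec⟩ := exists_dec hD.decomp
    exact frame_maximal hprime hodd hQ h2 (by rw [hcard]; decide) (by omega) (by decide)
      (by rw [hcard]; omega) hdec hD.isometric
  · intro F₀ r P hr hcard' hP
    exact Cfsg.Agent.Lib.Classical.Sub.OMain11.isMaximal_rat11 hQ (by rw [hcard]) hr hcard' P hP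


end Cfsg.Agent.S5858
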