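import Cfsg.Statements.S5859
import Cfsg.Agent.Lib.Classical.Asch.OMax

set_option autoImplicit false
open Cfsg

namespace Cfsg.Agent.S5859

/-- Every maximal subgroup of Ω_11(q), q odd, is of one of the listed geometric types or lies in the residual class. Let F be a finite field of odd order q, Q the standard quadratic form x₀² + Σ x_i y_i on F^11 (coordinates Unit ⊕ (Fin 5 ⊕ Fin 5)), Ω the commutator subgroup of its isometry group, and H a maximal subgroup of Ω (inside GL_11(F)). Then H is the intersection with Ω of one of: the stabiliser of a non-zero totally singular subspace; the stabiliser of a non-zero non-degenerate subspace of even dimension (not a plus-type plane when q = 3); for q prime, the stabiliser of a decomposition into eleven pairwise orthogonal, pairwise isometric non-degenerate 1-spaces; a subfield group (|F| = |F₀|^r, r prime) whose F₀-structure carries Q — or else H lies in the residual class of the orthogonal case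 (modulo scalars H is almost simple, with absolutely irreducible perfect socle preimage realisable over no proper subfield and fixing no non-degenerate unitary form). -/
theorem result {F : Type*} [Field F] [Fintype F] (hodd : Odd (Fintype.card F)) (H : Subgroup (Matrix.GeneralLinearGroup (Unit ⊕ (Fin 5 ⊕ Fin 5)) F)) (hH : Cfsg.Geo.IsMaximalIn (Cfsg.Geo.omegaGL (Cfsg.quadFormOdd 5 F)) H) :
    (∃ W : Submodule F (Unit ⊕ (Fin 5 ⊕ Fin 5) → F), W ≠ ⊥ ∧ Cfsg.Geo.IsTotallySingularQuad (Cfsg.quadFormOdd 5 F) W ∧ H = Cfsg.Geo.subspaceStabilizer W ⊓ Cfsg.Geo.omegaGL (Cfsg.quadFormOdd 5 F)) ∨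
    (∃ W : Submodule F (Unit ⊕ (Fin 5 ⊕ Fin 5) → F), W ≠ ⊥ ∧ Even (Module.finrank F W) ∧ Cfsg.Geo.IsNondegenerateOn (QuadraticMap.polar (Cfsg.quadFormOdd 5 F)) W ∧ ¬ (Fintype.card F = 3 ∧ Module.finrank F W = 2 ∧ Cfsg.Geo.IsPlusTypeOn (Cfsg.quadFormOdd 5 F) W) ∧ H = Cfsg.Geo.subspaceStabilizer W ⊓ Cfsg.Geo.omegaGL (Cfsg.quadFormOdd 5 F)) ∨
    ((Fintype.card F).Prime ∧ ∃ D : Fin 11 → Submodule F (Unit ⊕ (Fin 5 ⊕ Fin 5) → F), Cfsg.Geo.IsOrthogonalMDecomposition (Cfsg.quadFormOdd 5 F) 1 D ∧ H = Cfsg.Geo.decompositionStabilizer D ⊓ Cfsg.Geo.omegaGL (Cfsg.quadFormOdd 5 F)) ∨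
    (∃ (F₀ : Subfield F) (r : ℕ) (P : Matrix.GeneralLinearGroup (Unit ⊕ (Fin 5 ⊕ Fin 5)) F), r.Prime ∧ Fintype.card F = Nat.card F₀ ^ r ∧ Cfsg.Geo.IsQuadFormRationalStructure (Cfsg.quadFormOdd 5 F) F₀ P ∧ H = Cfsg.Geo.subfieldSubgroup F₀ P ⊓ Cfsg.Geo.omegaGL (Cfsg.quadFormOdd 5 F)) ∨
    Cfsg.Geo.InOrthogonalResidualClass H := by
  classical
  have hc : Fintype.card (Unit ⊕ (Fin 5 ⊕ Fin 5)) = 11 := Cfsg.Agent.Lib.Classical.Asch.FormO2.card_odd_index
  rcases Cfsg.Agent.Lib.Classical.Asch.OMax.o_rows hodd (by norm_num) hH with h | h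
  swap
  · exact Or.inr (Or.inr (Or.inr (Or.inr h)))
  rcases h with ⟨W, h0, hts, hE⟩ | ⟨W, h0, he, hnd, hne, hE⟩ | ⟨t, k, D, hk, hD, hE⟩ | ⟨t, D, hp, hD, hE⟩ | ⟨r, K, hr, hne, hK, hs, hE⟩ |
    ⟨n₁, n₂, e, P, f₁, f₂, h3, hlt, h1, h2', hs, hE⟩ | ⟨F₀, r, P, hr, hc', hR, hE⟩ | ⟨k, t, e, P, f₁, hk, ht, hne, h1, hs, hE⟩
  · exact Or.inl ⟨W, h0, hts, hE⟩
  · exact Or.inr (Or.inl ⟨W, h0, he, hnd, hne, hE⟩)
  · exfalso
    have hcd := Cfsg.Agent.Lib.Classical.Asch.Block.card_eq_mul hD.decomp.decomp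
    rw [hc] at hcd
    have ht := hD.decomp.decomp.two_le
    have hk' : k ∣ 11 := ⟨t, by rw [hcd]; ring⟩
    rcases (Nat.Prime.eq_one_or_self_of_dvd (by norm_num) k hk') with h5 | h5
    · omega
    · subst h5
      omega
  · have hcd := Cfsg.Agent.Lib.Classical.Asch.Block.card_eq_mul hD.decomp.decomp
    rw [hc, mul_one] at hcd
    subst hcd
    exact Or.inr (Or.inr (Or.inl ⟨hp, D, hD, hE⟩))
  · exfalso
    have hdvd := Cfsg.Agent.Lib.Classical.Asch.Small.dvd_card_of_field hK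
    rw [hc] at hdvd hne
    rcases (Nat.Prime.eq_one_or_self_of_dvd (by norm_num) r hdvd) with h5 | h5
    · exact hr.one_lt.ne' h5
    · exact hne h5.symm
  · exfalso
    have hcd := Fintype.card_congr e
    rw [hc, Fintype.card_prod, Fintype.card_fin, Fintype.card_fin] at hcd
    nlinarith
  · exact Or.inr (Or.inr (Or.inr (Or.inl ⟨F₀, r, P, hr, hc', hR, hE⟩)))
  · exfalso
    have hcd := Fintype.card_congr e
    rw [hc, Fintype.card_fun, Fintype.card_fin, Fintype.card_fin] at hcd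
    have h5 : k ^ 2 ∣ 11 := by
      rw [hcd]
      exact pow_dvd_pow k ht
    have h6 := Nat.le_of_dvd (by norm_num) h5
    have h7 : k ≤ 3 := by nlinarith
    have h8 : k = 3 := by omega
    subst h8
    norm_num at h5

end Cfsg.Agent.S5859
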