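import Cfsg.Statements.S5876
import Mathlib
import Cfsg.Agent.Lib.Basic.PCore
import Cfsg.Agent.Lib.Components.Fitting

set_option autoImplicit false
open Cfsg

namespace Cfsg.Agent.S5876

set_option linter.style.haveILetI false
set_option linter.unusedSectionVars false
set_option linter.unusedVariables false

section Abstract

variable {k : Type*} [Field k] {V : Type*} [AddCommGroup V] [Module k V] [FiniteDimensional k V]
variable {Γ : Type*} [Group Γ] (ρ : Γ →* Module.End k V)

/-- Irreducibility. -/
def Irr : Prop := ∀ W : Submodule k V, (∀ g, ∀ w ∈ W, ρ g w ∈ W) → W = ⊥ ∨ W = ⊤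

/-- Primitivity. -/
def Prim : Prop := ∀ (t m : ℕ) (D : Fin t → Submodule k V), 2 ≤ t → 0 < m →
  (∀ i, Module.finrank k (D i) = m) → iSupIndep D → iSup D = ⊤ →
    ¬ ∀ g, ∃ σ : Equiv.Perm (Fin t), ∀ i, (D i).map (ρ g) = D (σ i)

variable {ρ}

theorem rho_inv_rho (g : Γ) (x : V) : ρ g⁻¹ (ρ g x) = x := by
  rw [← Module.End.mul_apply, ← map_mul, inv_mul_cancel, map_one, Module.End.one_apply]

theorem rho_rho_inv (g : Γ) (x : V) : ρ g (ρ g⁻¹ x) = x := by
  rw [← Module.End.mul_apply, ← map_mul, mul_inv_cancel, map_one, Module.End.one_apply]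

theorem range_conj (g : Γ) (e : Module.End k V) :
    LinearMap.range (ρ g * e * ρ g⁻¹) = (LinearMap.range e).map (ρ g) := by
  ext x
  constructor
  · rintro ⟨v, rfl⟩
    exact ⟨e (ρ g⁻¹ v), ⟨_, rfl⟩, rfl⟩
  · rintro ⟨_, ⟨u, rfl⟩, rfl⟩
    refine ⟨ρ g u, ?_⟩
    simp [Module.End.mul_apply, rho_inv_rho]

theorem finrank_map_rho (g : Γ) (W : Submodule k V) :
    Module.finrank k (W.map (ρ g)) = Module.finrank k W := by
  have hinj : Function.Injective (ρ g) := by
    intro a b h
    have := congrArg (ρ g⁻¹) h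
    rwa [rho_inv_rho, rho_inv_rho] at this
  exact (Submodule.equivMapOfInjective (ρ g) hinj W).finrank_eq.symm

theorem idem_fix {e : Module.End k V} (he : e * e = e) {x : V} (hx : x ∈ LinearMap.range e) : e x = x := by
  obtain ⟨v, rfl⟩ := hx
  rw [← Module.End.mul_apply, he]

/-- Invariant families of commuting idempotents are trivial. -/
theorem idem_trivial [Finite Γ] [Nontrivial V] (hI : Irr ρ) (hP : Prim ρ) (J : Set (Module.End k V))
    (h1 : (1 : Module.End k V) ∈ J) (hidem : ∀ e ∈ J, e * e = e)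
    (hcomm : ∀ e ∈ J, ∀ f ∈ J, e * f = f * e) (hmul : ∀ e ∈ J, ∀ f ∈ J, e * f ∈ J)
    (hconj : ∀ g, ∀ e ∈ J, ρ g * e * ρ g⁻¹ ∈ J) : ∀ e ∈ J, e = 0 ∨ e = 1 := by
  classical
  have hex : ∃ d, ∃ e ∈ J, e ≠ 0 ∧ Module.finrank k (LinearMap.range e) = d :=
    ⟨_, 1, h1, one_ne_zero, rfl⟩
  obtain ⟨ε, hεJ, hε0, hεr⟩ := Nat.find_spec hex
  set r := Nat.find hex with hr
  have hmin : ∀ e ∈ J, e ≠ 0 → r ≤ Module.finrank k (LinearMap.range e) :=
    fun e he he0 => Nat.find_min' hex ⟨e, he, he0, rfl⟩
  have hrpos : 0 < r := by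
    rw [← hεr]
    apply Nat.pos_of_ne_zero
    intro h
    apply hε0
    have := Submodule.finrank_eq_zero.mp h
    exact LinearMap.range_eq_bot.mp this
  -- two idempotents of minimal rank are equal or orthogonal
  have hclaim : ∀ e ∈ J, ∀ f ∈ J, Module.finrank k (LinearMap.range e) = r →
      Module.finrank k (LinearMap.range f) = r → e * f = 0 ∨ e = f := by
    intro e he f hf her hfr
    by_cases h : e * f = 0
    · exact Or.inl h
    right
    have h1' : LinearMap.range (e * f) ≤ LinearMap.range e := LinearMap.range_comp_le_range f e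
    have h2' : LinearMap.range (e * f) ≤ LinearMap.range f := by
      rw [hcomm e he f hf]
      exact LinearMap.range_comp_le_range e f
    have hm := hmin _ (hmul e he f hf) h
    have h3 : LinearMap.range (e * f) = LinearMap.range e :=
      Submodule.eq_of_le_of_finrank_le h1' (by omega)
    have h4 : LinearMap.range (e * f) = LinearMap.range f :=
      Submodule.eq_of_le_of_finrank_le h2' (by omega)
    have h5 : LinearMap.range e = LinearMap.range f := h3.symm.trans h4
    have h6 : f * e = e := by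
      ext v
      rw [Module.End.mul_apply]
      apply idem_fix (hidem f hf)
      rw [← h5]
      exact ⟨v, rfl⟩
    have h7 : e * f = f := by
      ext v
      rw [Module.End.mul_apply]
      apply idem_fix (hidem e he)
      rw [h5]
      exact ⟨v, rfl⟩
    calc e = f * e := h6.symm
      _ = e * f := hcomm f hf e he
      _ = f := h7
  have hconj_rank : ∀ g, Module.finrank k (LinearMap.range (ρ g * ε * ρ g⁻¹)) = r := by
    intro g
    rw [range_conj, finrank_map_rho, hεr]
  -- the orbit
  let O : Set (Module.End k V) := Set.range (fun g : Γ => ρ g * ε * ρ g⁻¹)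
  haveI hOfin : Finite O := Set.finite_range _ |>.to_subtype
  have hOJ : ∀ E ∈ O, E ∈ J := by
    rintro _ ⟨g, rfl⟩
    exact hconj g ε hεJ
  have hOr : ∀ E ∈ O, Module.finrank k (LinearMap.range E) = r := by
    rintro _ ⟨g, rfl⟩
    exact hconj_rank g
  have hεO : ε ∈ O := ⟨1, by simp⟩
  -- conjugation permutes the orbit
  have hOconj : ∀ g, ∀ E ∈ O, ρ g * E * ρ g⁻¹ ∈ O := by
    rintro g _ ⟨x, rfl⟩
    refine ⟨g * x, ?_⟩
    simp only [map_mul, mul_inv_rev, mul_assoc]
  have hstable : ∀ g, ρ g * ε * ρ g⁻¹ = ε := by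
    by_contra hcon
    push Not at hcon
    obtain ⟨g₀, hg₀⟩ := hcon
    let eO := Finite.equivFin O
    let t := Nat.card O
    have ht : 2 ≤ t := by
      have : Nontrivial O := ⟨⟨⟨_, ⟨g₀, rfl⟩⟩, ⟨ε, hεO⟩, fun h => hg₀ (congrArg Subtype.val h)⟩⟩
      exact Finite.one_lt_card
    let D : Fin t → Submodule k V := fun i => LinearMap.range (eO.symm i).1
    have hDr : ∀ i, Module.finrank k (D i) = r := fun i => hOr _ (eO.symm i).2
    have hzero : ∀ i j, i ≠ j → ∀ x ∈ D j, (eO.symm i).1 x = 0 := by
      intro i j hij x hx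
      obtain ⟨v, rfl⟩ := hx
      rw [← Module.End.mul_apply]
      rcases hclaim _ (hOJ _ (eO.symm i).2) _ (hOJ _ (eO.symm j).2) (hOr _ (eO.symm i).2)
        (hOr _ (eO.symm j).2) with h | h
      · rw [h]
        rfl
      · exact absurd (eO.symm.injective (Subtype.ext h)) hij
    have hind : iSupIndep D := by
      rw [iSupIndep_def]
      intro i
      rw [Submodule.disjoint_def]
      intro x hxi hx
      have hle : (⨆ j, ⨆ (_ : j ≠ i), D j) ≤ LinearMap.ker (eO.symm i).1 := by
        refine iSup₂_le fun j hj y hy => ?_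
        exact hzero i j (Ne.symm hj) y hy
      have h0 : (eO.symm i).1 x = 0 := hle hx
      rw [idem_fix (hidem _ (hOJ _ (eO.symm i).2)) hxi] at h0
      exact h0
    -- the permutation
    have hperm : ∀ g, ∃ σ : Equiv.Perm (Fin t), ∀ i, (D i).map (ρ g) = D (σ i) := by
      intro g
      let π : O ≃ O :=
        { toFun := fun E => ⟨ρ g * E.1 * ρ g⁻¹, hOconj g _ E.2⟩
          invFun := fun E => ⟨ρ g⁻¹ * E.1 * ρ g⁻¹⁻¹, hOconj g⁻¹ _ E.2⟩
          left_inv := by
            rintro ⟨E, hE⟩
            apply Subtype.ext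
            simp only [inv_inv]
            have e1 : ρ g⁻¹ * ρ g = 1 := by rw [← map_mul, inv_mul_cancel, map_one]
            have e2 : ρ g⁻¹ * (ρ g * E * ρ g⁻¹) * ρ g = (ρ g⁻¹ * ρ g) * E * (ρ g⁻¹ * ρ g) := by
              simp only [mul_assoc]
            rw [e2, e1]
            simp
          right_inv := by
            rintro ⟨E, hE⟩
            apply Subtype.ext
            simp only [inv_inv]
            have e1 : ρ g * ρ g⁻¹ = 1 := by rw [← map_mul, mul_inv_cancel, map_one]
            have e2 : ρ g * (ρ g⁻¹ * E * ρ g) * ρ g⁻¹ = (ρ g * ρ g⁻¹) * E * (ρ g * ρ g⁻¹) := by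
              simp only [mul_assoc]
            rw [e2, e1]
            simp }
      refine ⟨eO.symm.trans (π.trans eO), fun i => ?_⟩
      show (LinearMap.range (eO.symm i).1).map (ρ g) = LinearMap.range (eO.symm (eO (π (eO.symm i)))).1
      rw [Equiv.symm_apply_apply, ← range_conj]
      rfl
    have htop : iSup D = ⊤ := by
      have hinv : ∀ g, ∀ w ∈ iSup D, ρ g w ∈ iSup D := by
        intro g w hw
        have hle : iSup D ≤ (iSup D).comap (ρ g) := by
          refine iSup_le fun i x hx => ?_
          obtain ⟨σ, hσ⟩ := hperm g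
          have : ρ g x ∈ D (σ i) := by
            rw [← hσ i]
            exact ⟨x, hx, rfl⟩
          exact (le_iSup D (σ i)) this
        exact hle hw
      rcases hI _ hinv with h | h
      · exfalso
        have hi := le_iSup D (eO ⟨ε, hεO⟩)
        rw [h] at hi
        have : D (eO ⟨ε, hεO⟩) = ⊥ := le_bot_iff.mp hi
        simp only [D, Equiv.symm_apply_apply] at this
        exact hε0 (LinearMap.range_eq_bot.mp this)
      · exact h
    exact hP t r D ht hrpos hDr hind htop hperm
  -- the range of `ε` is invariant, so `ε = 1`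
  have hεone : ε = 1 := by
    have hinv : ∀ g, ∀ w ∈ LinearMap.range ε, ρ g w ∈ LinearMap.range ε := by
      rintro g _ ⟨v, rfl⟩
      refine ⟨ρ g v, ?_⟩
      have := congrArg (fun E => E (ρ g v)) (hstable g)
      simp only [Module.End.mul_apply, rho_inv_rho] at this
      exact this.symm
    rcases hI _ hinv with h | h
    · exact absurd (LinearMap.range_eq_bot.mp h) hε0
    · ext v
      rw [Module.End.one_apply]
      exact idem_fix (hidem ε hεJ) (by rw [h]; trivial)
  intro e he
  by_cases he0 : e = 0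
  · exact Or.inl he0
  right
  have h1r : r = Module.finrank k V := by
    rw [← hεr, hεone, Module.End.one_eq_id, LinearMap.range_id, finrank_top]
  have hm := hmin e he he0
  have h2 : LinearMap.range e = ⊤ := by
    apply Submodule.eq_top_of_finrank_eq
    exact le_antisymm (Submodule.finrank_le _) (by omega)
  ext v
  rw [Module.End.one_apply]
  exact idem_fix (hidem e he) (by rw [h2]; trivial)

/-- An element of prime order in an abelian normal subgroup has no fixed vector. -/
theorem no_fixed_of_abelian_normal [Finite Γ] (hρ : Function.Injective ρ) (hI : Irr ρ) (hP : Prim ρ)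
    {A : Subgroup Γ} (hA : A.Normal) (hab : ∀ a ∈ A, ∀ b ∈ A, a * b = b * a)
    {r : ℕ} (hr0 : (r : k) ≠ 0) {t : Γ} (ht : t ∈ A) (htr : t ^ r = 1) :
    t = 1 ∨ ∀ v, ρ t v = v → v = 0 := by
  classical
  rcases subsingleton_or_nontrivial V with hV | hV
  · exact Or.inr fun v _ => Subsingleton.elim _ _
  let S : Set (Module.End k V) := ρ '' (A : Set Γ)
  let B := Algebra.adjoin k S
  have hBcomm : ∀ a ∈ B, ∀ b ∈ B, a * b = b * a := by
    intro a ha b hb
    have h1 : ∀ x ∈ S, Commute x b := by
      intro x hx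
      refine Algebra.commute_of_mem_adjoin_of_forall_mem_commute hb ?_
      rintro _ ⟨y, hy, rfl⟩
      obtain ⟨x', hx', rfl⟩ := hx
      show ρ x' * ρ y = ρ y * ρ x'
      rw [← map_mul, ← map_mul, hab x' hx' y hy]
    have h2 : Commute b a := by
      refine Algebra.commute_of_mem_adjoin_of_forall_mem_commute ha ?_
      intro x hx
      exact (h1 x hx).symm
    exact h2.symm.eq
  have hBconj : ∀ g, ∀ a ∈ B, ρ g * a * ρ g⁻¹ ∈ B := by
    intro g a ha
    have e1 : ρ g * ρ g⁻¹ = 1 := by rw [← map_mul, mul_inv_cancel, map_one]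
    induction ha using Algebra.adjoin_induction with
    | mem x hx =>
      obtain ⟨y, hy, rfl⟩ := hx
      rw [← map_mul, ← map_mul]
      exact Algebra.subset_adjoin ⟨_, hA.conj_mem y hy g, rfl⟩
    | algebraMap c =>
      have : ρ g * (algebraMap k (Module.End k V) c) * ρ g⁻¹ = algebraMap k _ c := by
        rw [← Algebra.commutes, mul_assoc, e1, mul_one]
      rw [this]
      exact B.algebraMap_mem c
    | add x y _ _ hx hy =>
      rw [mul_add, add_mul]
      exact B.add_mem hx hy
    | mul x y _ _ hx hy =>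
      have : ρ g * (x * y) * ρ g⁻¹ = (ρ g * x * ρ g⁻¹) * (ρ g * y * ρ g⁻¹) := by
        calc ρ g * (x * y) * ρ g⁻¹ = ρ g * x * 1 * y * ρ g⁻¹ := by simp [mul_assoc]
          _ = ρ g * x * (ρ g⁻¹ * ρ g) * y * ρ g⁻¹ := by
            rw [← map_mul, inv_mul_cancel, map_one]
          _ = _ := by simp only [mul_assoc]
      rw [this]
      exact B.mul_mem hx hy
  let J : Set (Module.End k V) := {e | e ∈ B ∧ e * e = e}
  have hJ := idem_trivial hI hP J ⟨B.one_mem, one_mul 1⟩ (fun e he => he.2)
    (fun e he f hf => hBcomm e he.1 f hf.1)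
    (fun e he f hf => ⟨B.mul_mem he.1 hf.1, by
      have h := hBcomm e he.1 f hf.1
      calc e * f * (e * f) = e * (f * e) * f := by simp only [mul_assoc]
        _ = e * (e * f) * f := by rw [h]
        _ = (e * e) * (f * f) := by simp only [mul_assoc]
        _ = e * f := by rw [he.2, hf.2]⟩)
    (fun g e he => ⟨hBconj g e he.1, by
      calc ρ g * e * ρ g⁻¹ * (ρ g * e * ρ g⁻¹) = ρ g * e * (ρ g⁻¹ * ρ g) * e * ρ g⁻¹ := by
            simp only [mul_assoc]
        _ = ρ g * (e * e) * ρ g⁻¹ := by
            rw [← map_mul ρ g⁻¹ g, inv_mul_cancel, map_one]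
            simp only [mul_one, mul_assoc]
        _ = ρ g * e * ρ g⁻¹ := by rw [he.2]⟩)
  -- the averaging idempotent
  let s : Module.End k V := ∑ j ∈ Finset.range r, ρ (t ^ j)
  let e : Module.End k V := (r : k)⁻¹ • s
  have hts : ρ t * s = s := by
    simp only [s, Finset.mul_sum, ← map_mul]
    have h1 : ∀ j, t * t ^ j = t ^ (j + 1) := fun j => (pow_succ' t j).symm
    simp only [h1]
    have e1 := Finset.sum_range_succ (fun j => ρ (t ^ j)) r
    have e2 := Finset.sum_range_succ' (fun j => ρ (t ^ j)) r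
    simp only [htr, pow_zero, map_one] at e1 e2
    exact add_right_cancel (e2.symm.trans e1)
  have hpows : ∀ j, ρ (t ^ j) * s = s := by
    intro j
    induction j with
    | zero => simp
    | succ j ih =>
      rw [pow_succ, map_mul, mul_assoc, hts, ih]
  have hss : s * s = (r : k) • s := by
    simp only [s]
    conv_lhs => rw [Finset.sum_mul]
    simp only [show ∀ j, ρ (t ^ j) * (∑ j ∈ Finset.range r, ρ (t ^ j)) = ∑ j ∈ Finset.range r, ρ (t ^ j) from hpows]
    simp [Nat.cast_smul_eq_nsmul]
  have hee : e * e = e := by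
    simp only [e]
    rw [smul_mul_smul_comm, hss, smul_smul, mul_assoc, inv_mul_cancel₀ hr0, mul_one]
  have heB : e ∈ B := by
    apply B.smul_mem
    apply B.sum_mem
    intro j _
    exact Algebra.subset_adjoin ⟨_, A.pow_mem ht j, rfl⟩
  have hefix : ∀ v, ρ t v = v → e v = v := by
    intro v hv
    have hpow : ∀ j, ρ (t ^ j) v = v := by
      intro j
      induction j with
      | zero => simp
      | succ j ih => rw [pow_succ, map_mul, Module.End.mul_apply, hv, ih]
    have hs : s v = (r : k) • v := by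
      simp only [s, LinearMap.sum_apply, hpow]
      simp [Nat.cast_smul_eq_nsmul]
    simp only [e, LinearMap.smul_apply, hs, smul_smul, inv_mul_cancel₀ hr0, one_smul]
  rcases hJ e ⟨heB, hee⟩ with h0 | h1
  · right
    intro v hv
    have := hefix v hv
    rw [h0] at this
    exact this.symm
  · left
    apply hρ
    rw [map_one]
    -- `ρ t * e = e`
    have hte : ρ t * e = e := by
      simp only [e]
      rw [mul_smul_comm, hts]
    rw [h1, mul_one] at hte
    exact hte

/-- Normal `p`-subgroups in the characteristic are trivial. -/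
theorem pgroup_trivial [Finite Γ] [Finite V] (hρ : Function.Injective ρ) (hI : Irr ρ)
    {N : Subgroup Γ} (hN : N.Normal) {p : ℕ} [Fact p.Prime] (hp : IsPGroup p N) (hp0 : (p : k) = 0) :
    N = ⊥ := by
  classical
  rcases subsingleton_or_nontrivial V with hV | hV
  · -- ρ is injective into a trivial ring
    rw [eq_bot_iff]
    intro x _
    have : ρ x = ρ 1 := by
      ext v
      exact Subsingleton.elim _ _
    exact hρ this
  obtain ⟨v₀, hv₀⟩ := exists_ne (0 : V)
  letI : MulAction N V := MulAction.compHom V ((ρ.comp N.subtype))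
  have hact : ∀ (x : N) (v : V), x • v = ρ x.1 v := fun x v => rfl
  have hdvd : p ∣ Nat.card V := by
    have h1 : p • v₀ = 0 := by
      rw [← Nat.cast_smul_eq_nsmul k, hp0, zero_smul]
    have h2 : addOrderOf v₀ = p := addOrderOf_eq_prime h1 hv₀
    rw [← h2]
    exact addOrderOf_dvd_natCard v₀
  have h0 : (0 : V) ∈ MulAction.fixedPoints N V := by
    intro x
    rw [hact, map_zero]
  obtain ⟨b, hb, hb0⟩ := hp.exists_fixed_point_of_prime_dvd_card_of_fixed_point V hdvd h0
  -- the fixed space
  let W : Submodule k V :=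
    { carrier := {v | ∀ x ∈ N, ρ x v = v}
      add_mem' := by
        intro a c ha hc x hx
        rw [map_add, ha x hx, hc x hx]
      zero_mem' := by
        intro x _
        rw [map_zero]
      smul_mem' := by
        intro c a ha x hx
        rw [map_smul, ha x hx] }
  have hWinv : ∀ g, ∀ w ∈ W, ρ g w ∈ W := by
    intro g w hw x hx
    have h1 := hw _ (hN.conj_mem x hx g⁻¹)
    have h2 : g⁻¹ * x * g⁻¹⁻¹ = g⁻¹ * x * g := by simp
    rw [h2, map_mul, map_mul, Module.End.mul_apply, Module.End.mul_apply] at h1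
    have := congrArg (ρ g) h1
    rwa [rho_rho_inv] at this
  rcases hI W hWinv with h | h
  · exfalso
    have hbW : b ∈ W := fun x hx => hb ⟨x, hx⟩
    rw [h] at hbW
    exact hb0 ((Submodule.mem_bot k).mp hbW).symm
  · rw [eq_bot_iff]
    intro x hx
    apply hρ
    ext v
    have : v ∈ W := by
      rw [h]
      trivial
    rw [map_one, this x hx, Module.End.one_apply]

/-- The main estimate in a normal closure which is an `r`-group. -/
theorem fix_half [Finite Γ] (hρ : Function.Injective ρ) (hI : Irr ρ) (hP : Prim ρ) {c : Γ} {r : ℕ}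
    [Fact r.Prime] (hr0 : (r : k) ≠ 0) (hc : orderOf c = r)
    (hN : IsPGroup r (Subgroup.normalClosure ({c} : Set Γ))) :
    2 * Module.finrank k (Module.End.eigenspace (ρ c) 1) ≤ Module.finrank k V := by
  classical
  set N := Subgroup.normalClosure ({c} : Set Γ) with hNdef
  have hNn : N.Normal := Subgroup.normalClosure_normal
  have hcN : c ∈ N := Subgroup.subset_normalClosure rfl
  have hrp : r.Prime := Fact.out
  have hc1 : c ≠ 1 := by
    rintro rfl
    rw [orderOf_one] at hc
    exact hrp.one_lt.ne hc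
  have hcr : c ^ r = 1 := by
    rw [← hc]
    exact pow_orderOf_eq_one c
  by_cases hab : ∀ a ∈ N, ∀ b ∈ N, a * b = b * a
  · rcases no_fixed_of_abelian_normal hρ hI hP hNn hab hr0 hcN hcr with h | h
    · exact absurd h hc1
    · have : Module.End.eigenspace (ρ c) 1 = ⊥ := by
        rw [eq_bot_iff]
        intro v hv
        rw [Module.End.mem_eigenspace_iff, one_smul] at hv
        exact (Submodule.mem_bot k).mpr (h v hv)
      rw [this, finrank_bot]
      omega
  -- the non-abelian case
  let Z : Subgroup Γ := N ⊓ Subgroup.centralizer (N : Set Γ)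
  have hZn : Z.Normal := inferInstance
  have hZab : ∀ a ∈ Z, ∀ b ∈ Z, a * b = b * a := by
    intro a ha b hb
    exact Subgroup.mem_centralizer_iff.mp hb.2 a ha.1
  -- second centre
  have hy₀ : ∃ y₀ ∈ N, y₀ ∉ Z ∧ ∀ n ∈ N, y₀ * n * y₀⁻¹ * n⁻¹ ∈ Z := by
    let C := Subgroup.center ↥N
    have hQ : IsPGroup r (↥N ⧸ C) := hN.to_quotient C
    have hnt : Nontrivial (↥N ⧸ C) := by
      by_contra hcon
      rw [not_nontrivial_iff_subsingleton] at hcon
      apply hab
      intro a ha b hb
      have h1 : (QuotientGroup.mk (⟨a, ha⟩ : ↥N) : ↥N ⧸ C) = 1 := Subsingleton.elim _ _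
      have h2 : (⟨a, ha⟩ : ↥N) ∈ C := (QuotientGroup.eq_one_iff _).mp h1
      have h3 := Subgroup.mem_center_iff.mp h2 ⟨b, hb⟩
      exact (congrArg Subtype.val h3).symm
    have hcn := hQ.center_nontrivial
    obtain ⟨z, hz⟩ := exists_ne (1 : Subgroup.center (↥N ⧸ C))
    obtain ⟨y, hy⟩ := QuotientGroup.mk_surjective z.1
    have hyC : y ∉ C := by
      intro h
      apply hz
      apply Subtype.ext
      rw [← hy]
      exact (QuotientGroup.eq_one_iff _).mpr h
    have hcomm : ∀ n : ↥N, y * n * y⁻¹ * n⁻¹ ∈ C := by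
      intro n
      rw [← QuotientGroup.eq_one_iff]
      have h1 := Subgroup.mem_center_iff.mp z.2 (QuotientGroup.mk n)
      rw [← hy] at h1
      simp only [QuotientGroup.mk_mul, QuotientGroup.mk_inv]
      rw [← h1]
      group
    refine ⟨y.1, y.2, ?_, ?_⟩
    · intro h
      apply hyC
      rw [Subgroup.mem_center_iff]
      intro n
      apply Subtype.ext
      exact (Subgroup.mem_centralizer_iff.mp h.2 n.1 n.2)
    · intro n hn
      have h1 := hcomm ⟨n, hn⟩
      refine ⟨(y * ⟨n, hn⟩ * y⁻¹ * (⟨n, hn⟩ : ↥N)⁻¹ : ↥N).2, ?_⟩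
      refine Subgroup.mem_centralizer_iff.mpr ?_
      intro m hm
      have h2 := Subgroup.mem_center_iff.mp h1 ⟨m, hm⟩
      exact congrArg Subtype.val h2
  obtain ⟨y₀, hy₀N, hy₀Z, hy₀c⟩ := hy₀
  -- some conjugate of `c` does not commute with `y₀`
  have hx : ∃ x : Γ, y₀ * (x * c * x⁻¹) ≠ (x * c * x⁻¹) * y₀ := by
    by_contra hcon
    push Not at hcon
    apply hy₀Z
    refine ⟨hy₀N, ?_⟩
    refine Subgroup.mem_centralizer_iff.mpr ?_
    have hle : N ≤ Subgroup.centralizer ({y₀} : Set Γ) := by
      rw [hNdef, Subgroup.normalClosure, Subgroup.closure_le]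
      intro z hz
      obtain ⟨a, ha, hac⟩ := Group.mem_conjugatesOfSet_iff.mp hz
      obtain ⟨x, rfl⟩ := isConj_iff.mp hac
      rw [Set.mem_singleton_iff.mp ha]
      rw [SetLike.mem_coe, Subgroup.mem_centralizer_singleton_iff]
      exact (hcon x).symm
    intro n hn
    have := hle hn
    rw [Subgroup.mem_centralizer_singleton_iff] at this
    exact this
  obtain ⟨x, hxne⟩ := hx
  set n := x * c * x⁻¹ with hn
  have hnN : n ∈ N := hNn.conj_mem c hcN x
  set y := x⁻¹ * y₀ * x with hy
  have hyN : y ∈ N := by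
    have := hNn.conj_mem y₀ hy₀N x⁻¹
    simpa [hy] using this
  set t := y * c * y⁻¹ * c⁻¹ with ht
  have htZ : t ∈ Z := by
    have h1 := hZn.conj_mem _ (hy₀c n hnN) x⁻¹
    have e : x⁻¹ * (y₀ * n * y₀⁻¹ * n⁻¹) * x⁻¹⁻¹ = t := by
      rw [ht, hy, hn]
      group
    rwa [e] at h1
  have ht1 : t ≠ 1 := by
    intro h
    apply hxne
    have e : y₀ * n * y₀⁻¹ * n⁻¹ = x * t * x⁻¹ := by
      rw [ht, hy, hn]
      group
    rw [h, mul_one, mul_inv_cancel] at e
    have e2 : y₀ * n = (y₀ * n * y₀⁻¹ * n⁻¹) * (n * y₀) := by group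
    rw [e, one_mul] at e2
    exact e2
  have htc : Commute t c := (Subgroup.mem_centralizer_iff.mp htZ.2 c hcN).symm
  have hyc : y * c * y⁻¹ = t * c := by
    rw [ht]
    group
  have htr : t ^ r = 1 := by
    have h1 : (y * c * y⁻¹) ^ r = 1 := by
      rw [conj_pow, hcr, mul_one, mul_inv_cancel]
    rw [hyc, htc.mul_pow, hcr, mul_one] at h1
    exact h1
  have hfree : ∀ v, ρ t v = v → v = 0 := by
    rcases no_fixed_of_abelian_normal hρ hI hP hZn hZab hr0 htZ htr with h | h
    · exact absurd h ht1
    · exact h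
  set W := Module.End.eigenspace (ρ c) 1 with hW
  have hdisj : Disjoint W (W.map (ρ y)) := by
    rw [Submodule.disjoint_def]
    rintro v hv ⟨w, hw, rfl⟩
    rw [hW, SetLike.mem_coe, Module.End.mem_eigenspace_iff, one_smul] at hw
    rw [hW, Module.End.mem_eigenspace_iff, one_smul] at hv
    apply hfree
    have h1 : ρ (y * c * y⁻¹) (ρ y w) = ρ y w := by
      rw [map_mul, map_mul, Module.End.mul_apply, Module.End.mul_apply, rho_inv_rho, hw]
    rw [hyc, map_mul, Module.End.mul_apply, hv] at h1
    exact h1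
  have h1 := Submodule.finrank_add_finrank_le_of_disjoint hdisj
  rw [finrank_map_rho] at h1
  omega

/-- Nontrivial elements of the Fitting subgroup have at most half the space fixed. -/
theorem fitting_half [Finite Γ] [Finite V] (hρ : Function.Injective ρ) (hI : Irr ρ) (hP : Prim ρ) {c : Γ}
    (hc : c ∈ fittingSubgroup Γ) (hc1 : c ≠ 1) :
    2 * Module.finrank k (Module.End.eigenspace (ρ c) 1) ≤ Module.finrank k V := by
  classical
  have hord : orderOf c ≠ 1 := by
    rwa [Ne, orderOf_eq_one_iff]
  obtain ⟨r, hrp, hrd⟩ := Nat.exists_prime_and_dvd hord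
  haveI : Fact r.Prime := ⟨hrp⟩
  have hord0 : orderOf c ≠ 0 := (orderOf_pos c).ne'
  set c' := c ^ (orderOf c / r) with hc'
  have hc'ord : orderOf c' = r := orderOf_pow_orderOf_div hord0 hrd
  have hc'F : c' ∈ fittingSubgroup Γ := Subgroup.pow_mem _ hc _
  have hc'core : c' ∈ pCore r Γ :=
    Cfsg.Agent.Lib.Basic.PCore.mem_pCore_of_normal_nilpotent inferInstance
      Cfsg.Agent.Lib.Basic.PCore.fittingSubgroup_isNilpotent hc'F hrp (by rw [hc'ord, pow_one])
  have hcoreN : (pCore r Γ).Normal := Cfsg.Agent.Lib.Basic.PCore.pCore_normal r Γ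
  have hcoreP : IsPGroup r (pCore r Γ) := Cfsg.Agent.Lib.Basic.PCore.pCore_isPGroup r
  have hr0 : (r : k) ≠ 0 := by
    intro h0
    have := pgroup_trivial hρ hI hcoreN hcoreP h0
    rw [this, Subgroup.mem_bot] at hc'core
    rw [hc'core, orderOf_one] at hc'ord
    exact hrp.one_lt.ne hc'ord
  have hle : Subgroup.normalClosure ({c'} : Set Γ) ≤ pCore r Γ :=
    Subgroup.normalClosure_le_normal (Set.singleton_subset_iff.mpr hc'core)
  have hNp : IsPGroup r (Subgroup.normalClosure ({c'} : Set Γ)) := hcoreP.to_le hle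
  have h1 := fix_half hρ hI hP hr0 hc'ord hNp
  have h2 : Module.End.eigenspace (ρ c) 1 ≤ Module.End.eigenspace (ρ c') 1 := by
    intro v hv
    rw [Module.End.mem_eigenspace_iff, one_smul] at hv ⊢
    rw [hc', map_pow]
    have : ∀ m : ℕ, (ρ c ^ m) v = v := by
      intro m
      induction m with
      | zero => simp
      | succ m ih => rw [pow_succ, Module.End.mul_apply, hv, ih]
    exact this _
  have h3 := Submodule.finrank_mono h2
  omega

/-- The abstract form of the theorem. -/
theorem main_abstract [Finite Γ] [Finite V] (hsol : Group.IsSolvable Γ) (hρ : Function.Injective ρ)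
    (hI : Irr ρ) (hP : Prim ρ) {g : Γ} (hg : g ≠ 1) :
    4 * Module.finrank k (Module.End.eigenspace (ρ g) 1) ≤ 3 * Module.finrank k V := by
  classical
  by_cases hgF : g ∈ fittingSubgroup Γ
  · have := fitting_half hρ hI hP hgF hg
    omega
  have hC : Subgroup.centralizer (fittingSubgroup Γ : Set Γ) ≤ fittingSubgroup Γ := by
    apply Cfsg.Agent.Lib.Components.Fitting.le_fitting_of_solvable_of_le_centralizer _ le_rfl
    · exact Subgroup.le_normalizer_of_normal
    · infer_instance
  have hgC : g ∉ Subgroup.centralizer (fittingSubgroup Γ : Set Γ) := fun h => hgF (hC h)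
  rw [Subgroup.mem_centralizer_iff] at hgC
  push Not at hgC
  obtain ⟨f, hf, hfg⟩ := hgC
  have hFn : (fittingSubgroup Γ).Normal := inferInstance
  set c := g * f * g⁻¹ * f⁻¹ with hc
  have hcF : c ∈ fittingSubgroup Γ :=
    Subgroup.mul_mem _ (hFn.conj_mem f hf g) (Subgroup.inv_mem _ hf)
  have hc1 : c ≠ 1 := by
    intro h
    apply hfg
    have e : g * f = c * (f * g) := by
      rw [hc]
      group
    rw [h, one_mul] at e
    exact e.symm
  have h1 := fitting_half hρ hI hP hcF hc1
  set W := Module.End.eigenspace (ρ g) 1 with hW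
  have hinf : W ⊓ W.map (ρ f) ≤ Module.End.eigenspace (ρ c) 1 := by
    rintro v ⟨hv, w, hw, rfl⟩
    rw [hW, SetLike.mem_coe, Module.End.mem_eigenspace_iff, one_smul] at hv hw
    rw [Module.End.mem_eigenspace_iff, one_smul, hc, map_mul, map_mul, map_mul,
      Module.End.mul_apply, Module.End.mul_apply, Module.End.mul_apply, rho_inv_rho]
    have e : ρ g⁻¹ w = w := by
      conv_lhs => rw [← hw]
      exact rho_inv_rho g w
    rw [e, hv]
  have h2 := Submodule.finrank_mono hinf
  have h3 := Submodule.finrank_sup_add_finrank_inf_eq W (W.map (ρ f))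
  rw [finrank_map_rho] at h3
  have h4 : Module.finrank k ↥(W ⊔ W.map (ρ f)) ≤ Module.finrank k V := Submodule.finrank_le _
  omega

end Abstract

/-- Fixed-point spaces in primitive soluble linear groups. Let F be a finite field and G a soluble subgroup of GL_n(F) that acts irreducibly on F^n and primitively (G preserves no decomposition of F^n into two or more independent subspaces of equal dimension). Then every non-identity element g of G has fixed-point space {v : g v = v} of dimension at most 3n/4. -/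
theorem result {F : Type*} [Field F] [Fintype F] {n : ℕ} (G : Subgroup (Matrix.GeneralLinearGroup (Fin n) F)) (hsol : IsSolvable G) (hirr : Cfsg.Geo.ActsIrreducibly (Cfsg.Geo.matrixSet G)) (hprim : ∀ (m t : ℕ) (D : Fin t → Submodule F (Fin n → F)), 2 ≤ t → Cfsg.Geo.IsMDecomposition m D → ¬ G ≤ Cfsg.Geo.decompositionStabilizer D) (g : Matrix.GeneralLinearGroup (Fin n) F) (hg : g ∈ G) (hg1 : g ≠ 1) :
    4 * Module.finrank F (Module.End.eigenspace (Matrix.toLin' (g : Matrix (Fin n) (Fin n) F)) 1) ≤ 3 * n := by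
  classical
  let ρ : ↥G →* Module.End F (Fin n → F) :=
    { toFun := fun x => Matrix.toLin' ((x : Matrix.GeneralLinearGroup (Fin n) F) : Matrix (Fin n) (Fin n) F)
      map_one' := by
        simp only [OneMemClass.coe_one, Units.val_one, Matrix.toLin'_one]
        rfl
      map_mul' := by
        intro x y
        simp [Matrix.toLin'_mul, Module.End.mul_eq_comp] }
  have hρ : Function.Injective ρ := by
    intro x y h
    apply Subtype.ext
    apply Units.ext
    exact Matrix.toLin'.injective h
  have hI : Irr ρ := by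
    intro W hW
    apply hirr W
    rintro _ ⟨x, hx, rfl⟩
    rintro _ ⟨w, hw, rfl⟩
    exact hW ⟨x, hx⟩ w hw
  have hP : Prim ρ := by
    intro t m D h2 hm hfin hind htop hperm
    refine hprim m t D h2 ⟨h2, hm, hfin, hind, htop⟩ ?_
    intro x hx
    exact hperm ⟨x, hx⟩
  have hsol' : Group.IsSolvable ↥G := hsol
  have hg' : (⟨g, hg⟩ : ↥G) ≠ 1 := by
    intro h
    exact hg1 (congrArg Subtype.val h)
  have := main_abstract hsol' hρ hI hP hg'
  rw [Module.finrank_fin_fun] at this
  exact this

end Cfsg.Agent.S5876
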