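import Cfsg.Statements.S5877
import Mathlib
import Cfsg.Agent.Lib.Classical.Herm.XSBound
import Cfsg.Agent.Lib.Classical.Herm.XSGen

set_option autoImplicit false
open Cfsg

namespace Cfsg.Agent.S5877

open scoped commutatorElement

open Module Cfsg.Agent.Lib.Classical.Herm.XSBasic Cfsg.Agent.Lib.Classical.Herm.XSRep
  Cfsg.Agent.Lib.Classical.Herm.XSFix Cfsg.Agent.Lib.Classical.Herm.XSGen
  Cfsg.Agent.Lib.Classical.Herm.XSBound

/-- The natural representation. -/
noncomputable def rhoG (n : ℕ) (F : Type*) [Field F] :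
    Matrix.GeneralLinearGroup (Fin n) F →* End F (Fin n → F) where
  toFun x := Matrix.toLin' (x : Matrix (Fin n) (Fin n) F)
  map_one' := by
    rw [Units.val_one, Matrix.toLin'_one]
    rfl
  map_mul' := by
    intro x y
    rw [Units.val_mul, Matrix.toLin'_mul]
    rfl

theorem rhoG_apply (n : ℕ) (F : Type*) [Field F] (x : Matrix.GeneralLinearGroup (Fin n) F) :
    rhoG n F x = Matrix.toLin' (x : Matrix (Fin n) (Fin n) F) := rfl

theorem toLin'_smul_one {n : ℕ} {F : Type*} [Field F] (μ : F) :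
    Matrix.toLin' (μ • (1 : Matrix (Fin n) (Fin n) F)) = μ • (1 : End F (Fin n → F)) := by
  rw [map_smul, Matrix.toLin'_one]
  rfl

/-- Non-scalar in the group means non-scalar as an operator. -/
theorem ne_smul_of_not_mem {n : ℕ} {F : Type*} [Field F] {g : Matrix.GeneralLinearGroup (Fin n) F}
    (hns : g ∉ Cfsg.Geo.scalars (Fin n) F) (μ : F) : rhoG n F g ≠ μ • (1 : End F (Fin n → F)) := by
  intro h
  rw [rhoG_apply, ← toLin'_smul_one] at h
  have h1 : (g : Matrix (Fin n) (Fin n) F) = μ • 1 := Matrix.toLin'.injective h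
  apply hns
  rw [Cfsg.Geo.mem_scalars_iff]
  by_cases hμ : μ = 0
  · refine ⟨1, ?_⟩
    have h2 : (1 : Matrix (Fin n) (Fin n) F) = 0 := by
      have h3 := g.mul_inv
      rw [h1, hμ, zero_smul, zero_mul] at h3
      exact h3.symm
    rw [h1, h2]
    simp
  · exact ⟨Units.mk0 μ hμ, by simpa using h1⟩

/-- Central elements act as scalars. -/
theorem center_scalar {n : ℕ} {F : Type*} [Field F] {R : Subgroup (Matrix.GeneralLinearGroup (Fin n) F)}
    (hirr : Cfsg.Geo.ActsAbsolutelyIrreducibly (Cfsg.Geo.matrixSet R)) {z : R}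
    (hz : z ∈ Subgroup.center R) :
    ∃ μ : F, ((z : Matrix.GeneralLinearGroup (Fin n) F) : Matrix (Fin n) (Fin n) F) = μ • 1 := by
  refine hirr.2 _ ?_
  rintro _ ⟨w, hw, rfl⟩
  have h1 := Subgroup.mem_center_iff.1 hz ⟨w, hw⟩
  have h2 := congrArg (fun u : R => ((u : Matrix.GeneralLinearGroup (Fin n) F) : Matrix (Fin n) (Fin n) F)) h1
  simp only [Subgroup.coe_mul, Units.val_mul] at h2
  exact h2.symm


/-- Eigenspaces of elements normalising an absolutely irreducible extraspecial group. Let F be a finite field, r a prime, and R ≤ GL_n(F) an absolutely irreducible extraspecial r-group (an r-group whose centre equals its derived subgroup and has order r) of exponent r or 4. Let g ∈ GL_n(F) normalise the product of R with the scalar matrices, have prime order ϖ and not be scalar, and let W be the eigenspace of g for any c ∈ F (W may be the zero subspace). Then dim W ≤ 3n/4 if ϖ = 2, dim W ≤ 2n/3 if ϖ = 3, and dim W ≤ n/2 if ϖ > 3; moreover if ϖ = 3 and 3 does not divide n then dim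 W ≤ n/2. -/
theorem result {F : Type*} [Field F] [Fintype F] {n r ϖ : ℕ} (R : Subgroup (Matrix.GeneralLinearGroup (Fin n) F)) (hr : r.Prime) (hR : IsPGroup r R) (hZ : Nat.card (Subgroup.center R) = r) (hext : commutator R = Subgroup.center R) (hexp : Monoid.exponent R = r ∨ Monoid.exponent R = 4) (hirr : Cfsg.Geo.ActsAbsolutelyIrreducibly (Cfsg.Geo.matrixSet R)) (g : Matrix.GeneralLinearGroup (Fin n) F) (hg : g ∈ Cfsg.Geo.subgroupNormalizer (R ⊔ Cfsg.Geo.scalars (Fin n) F)) (hϖ : ϖ.Prime) (hord : orderOf g = ϖ) (hns : g ∉ Cfsg.Geo.scalars (Fin n) F) (c : F) :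
    (ϖ = 2 → 4 * Module.finrank F (Module.End.eigenspace (Matrix.toLin' (g : Matrix (Fin n) (Fin n) F)) c) ≤ 3 * n) ∧
    (ϖ = 3 → 3 * Module.finrank F (Module.End.eigenspace (Matrix.toLin' (g : Matrix (Fin n) (Fin n) F)) c) ≤ 2 * n) ∧
    (3 < ϖ → 2 * Module.finrank F (Module.End.eigenspace (Matrix.toLin' (g : Matrix (Fin n) (Fin n) F)) c) ≤ n) ∧
    (ϖ = 3 → ¬ 3 ∣ n → 2 * Module.finrank F (Module.End.eigenspace (Matrix.toLin' (g : Matrix (Fin n) (Fin n) F)) c) ≤ n) := by
  classical
  have hnsE := ne_smul_of_not_mem hns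
  haveI hnt : Nontrivial (Fin n → F) := by
    by_contra hcon
    rw [not_nontrivial_iff_subsingleton] at hcon
    apply hnsE 0
    apply LinearMap.ext
    intro v
    exact Subsingleton.elim _ _
  have hfr : finrank F (Fin n → F) = n := Module.finrank_fin_fun F
  set ρ : R →* End F (Fin n → F) := (rhoG n F).comp R.subtype with hρ
  have hρapp : ∀ x : R, ρ x = Matrix.toLin' ((x : Matrix.GeneralLinearGroup (Fin n) F) : Matrix (Fin n) (Fin n) F) :=
    fun x => rfl
  set gm : End F (Fin n → F) := rhoG n F g with hgm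
  have hgoal : Matrix.toLin' (g : Matrix (Fin n) (Fin n) F) = gm := rfl
  rw [hgoal]
  -- commutators
  have hcomm : ∀ x y : R, ∃ β : F, β ^ r = 1 ∧ TC β (ρ x) (ρ y) := by
    intro x y
    have hc : ⁅x, y⁆ ∈ Subgroup.center R := by
      rw [← hext]
      exact Subgroup.commutator_mem_commutator (Subgroup.mem_top x) (Subgroup.mem_top y)
    obtain ⟨μ, hμ⟩ := center_scalar hirr hc
    have hμρ : ρ ⁅x, y⁆ = μ • (1 : End F (Fin n → F)) := by
      rw [hρapp, hμ, toLin'_smul_one]
    refine ⟨μ, ?_, ?_⟩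
    · have h1 : (⟨⁅x, y⁆, hc⟩ : Subgroup.center R) ^ r = 1 := by
        rw [← hZ]; exact pow_card_eq_one'
      have h2 : ⁅x, y⁆ ^ r = 1 := congrArg Subtype.val h1
      have h3 : (ρ ⁅x, y⁆) ^ r = 1 := by rw [← map_pow, h2, map_one]
      rw [hμρ, smul_pow, one_pow] at h3
      obtain ⟨v, hv⟩ := exists_ne (0 : Fin n → F)
      have h4 := congrArg (fun f : End F (Fin n → F) => f v) h3
      simp only [LinearMap.smul_apply, Module.End.one_apply] at h4
      have h5 : (μ ^ r - 1) • v = 0 := by rw [sub_smul, one_smul, h4, sub_self]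
      rcases smul_eq_zero.1 h5 with h6 | h6
      · exact sub_eq_zero.1 h6
      · exact absurd h6 hv
    · unfold TC
      have h1 : x * y = ⁅x, y⁆ * (y * x) := by
        rw [commutatorElement_def]; group
      rw [← map_mul, ← map_mul, h1, map_mul, hμρ, smul_mul_assoc, one_mul]
  have hM : ∀ M : End F (Fin n → F), (∀ x : R, M * ρ x = ρ x * M) → ∃ μ : F, M = μ • (1 : End F (Fin n → F)) := by
    intro M hM
    obtain ⟨μ, hμ⟩ := hirr.2 (LinearMap.toMatrix' M) (by
      rintro _ ⟨w, hw, rfl⟩
      apply Matrix.toLin'.injective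
      have h1 := hM ⟨w, hw⟩
      rw [Matrix.toLin'_mul, Matrix.toLin'_mul, Matrix.toLin'_toMatrix']
      exact h1)
    refine ⟨μ, ?_⟩
    have h2 := congrArg Matrix.toLin' hμ
    rwa [Matrix.toLin'_toMatrix', toLin'_smul_one] at h2
  have hgen : IsGen ρ :=
    ⟨fun x y => (hcomm x y).imp (fun _ h => h.2), hM⟩
  have hroot : ∀ x y : R, ∀ β : F, TC β (ρ x) (ρ y) → β ^ r = 1 := by
    intro x y β hβ
    obtain ⟨β', h1, h2⟩ := hcomm x y
    rw [TC.unique hβ h2 (rho_mul_ne_zero ρ y x)]
    exact h1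
  have hirrρ : ∀ U : Submodule F (Fin n → F), (∀ x : R, ∀ v ∈ U, ρ x v ∈ U) → U = ⊥ ∨ U = ⊤ := by
    intro U hU
    refine hirr.1 U ?_
    rintro _ ⟨w, hw, rfl⟩
    rintro _ ⟨v, hv, rfl⟩
    exact hU ⟨w, hw⟩ v hv
  -- normalising
  have hn : ∀ x : R, ∃ (x' : R) (ν : F), gm * ρ x = ν • (ρ x' * gm) := by
    intro x
    have hx : (x : Matrix.GeneralLinearGroup (Fin n) F) ∈ R ⊔ Cfsg.Geo.scalars (Fin n) F :=
      (le_sup_left : R ≤ R ⊔ Cfsg.Geo.scalars (Fin n) F) x.2
    have h1 := (Subgroup.mem_normalizer_iff.1 hg _).1 hx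
    have h2 : g * (x : Matrix.GeneralLinearGroup (Fin n) F) * g⁻¹ ∈
        ((R ⊔ Cfsg.Geo.scalars (Fin n) F : Subgroup _) : Set (Matrix.GeneralLinearGroup (Fin n) F)) := h1
    rw [Subgroup.mul_normal, Set.mem_mul] at h2
    obtain ⟨a, ha, b, hb, hab⟩ := h2
    obtain ⟨ν, hν⟩ := (Cfsg.Geo.mem_scalars_iff b).1 hb
    refine ⟨⟨a, ha⟩, ν, ?_⟩
    have h3 : g * (x : Matrix.GeneralLinearGroup (Fin n) F) = a * b * g := by
      rw [hab]; group
    have h4 := congrArg (rhoG n F) h3
    rw [map_mul, map_mul, map_mul] at h4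
    have h5 : rhoG n F b = (ν : F) • (1 : End F (Fin n → F)) := by
      rw [rhoG_apply, hν, toLin'_smul_one]
    rw [h5, mul_smul_comm, mul_one, smul_mul_assoc] at h4
    exact h4
  have hgi : rhoG n F g⁻¹ * gm = 1 := by
    rw [hgm, ← map_mul, inv_mul_cancel, map_one]
  have hginj : Function.Injective gm := by
    intro u w huw
    have e : ∀ t, rhoG n F g⁻¹ (gm t) = t := fun t => by
      have := congrArg (fun f : End F (Fin n → F) => f t) hgi
      simpa using this
    have := congrArg (rhoG n F g⁻¹) huw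
    simpa [e] using this
  have hgpow : gm ^ ϖ = 1 := by
    rw [hgm, ← map_pow, ← hord, pow_orderOf_eq_one, map_one]
  have hfour := four_bound hgen hgi hginj hn hnsE c
  rw [hfr] at hfour
  have hcop : ϖ ≠ 2 → ϖ ≠ r → 2 * finrank F (End.eigenspace gm c) ≤ n := by
    intro h2 hne
    have := coprime_bound hr hϖ h2 hne hgen hroot hgpow hn hnsE c
    rwa [hfr] at this
  -- the case of equal primes
  have hXS : r ≠ 2 → IsXS r ρ := by
    intro hr2
    refine ⟨?_, fun x y => (hcomm x y).imp (fun _ h => h.2), ?_, hirrρ⟩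
    · intro x
      have hexp' : Monoid.exponent R = r := by
        rcases hexp with h | h
        · exact h
        · exfalso
          haveI : Fact r.Prime := ⟨hr⟩
          haveI : Finite (Matrix.GeneralLinearGroup (Fin n) F) := inferInstance
          obtain ⟨m, hm⟩ := (isPGroup_iff_exponent_dvd_pow.1 hR)
          rw [h] at hm
          have h2 : 2 ∣ r ^ m := (by norm_num : 2 ∣ 4).trans hm
          have h3 := Nat.prime_two.dvd_of_dvd_pow h2
          exact hr2 ((Nat.prime_dvd_prime_iff_eq Nat.prime_two hr).1 h3).symm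
      rw [← hexp']
      exact Monoid.pow_exponent_eq_one x
    · intro x hx
      exact hM _ (fun y => hx y)
  have hsame : r ≠ 2 → ϖ = r → r * finrank F (End.eigenspace gm c) ≤ 2 * n := by
    intro hr2 he
    subst he
    haveI : Finite (Matrix.GeneralLinearGroup (Fin n) F) := inferInstance
    exact xs_bound (F := F) hr hr2 n (Fin n → F) R ρ (hXS hr2) hfr gm hgpow hn hnsE c
  have hdvd : r ≠ 2 → r ∣ n := by
    intro hr2
    obtain ⟨a, ha⟩ := exists_nonscalar (hXS hr2) hnsE
    have := dvd_finrank hr (hXS hr2) ha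
    rwa [hfr] at this
  refine ⟨fun _ => hfour, ?_, ?_, ?_⟩
  · intro h3
    by_cases hr3 : r = 3
    · have := hsame (by omega) (by omega)
      rw [hr3] at this
      exact this
    · have := hcop (by omega) (by omega)
      omega
  · intro h3
    by_cases hre : ϖ = r
    · have hr2 : r ≠ 2 := by omega
      have := hsame hr2 hre
      have hr5 : 5 ≤ r := by
        have hr' : r ≠ 4 := by
          intro h4
          rw [h4] at hr
          exact absurd hr (by norm_num)
        omega
      have h5 := Nat.mul_le_mul_right (finrank F (End.eigenspace gm c)) hr5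
      omega
    · exact hcop (by omega) hre
  · intro h3 h3n
    by_cases hr3 : r = 3
    · exfalso
      have := hdvd (by omega)
      rw [hr3] at this
      exact h3n this
    · exact hcop (by omega) (by omega)

end Cfsg.Agent.S5877
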