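import Cfsg.Statements.S5938
import Cfsg.Agent.S0803
import Cfsg.Agent.Lib.PSL2.PolyMax

set_option autoImplicit false
open Cfsg

namespace Cfsg.Agent.S5938

section Aux

open scoped MatrixGroups
open Cfsg.Agent.Lib.PSL2.Basic Cfsg.Agent.Lib.PSL2.PolyMax Cfsg.Agent.Lib.PSL2.DicksonCor

theorem main_aux {F : Type*} [Field F] [Fintype F] (p : ℕ) [hpp : Fact p.Prime]
    (hF : Fintype.card F = p) (hp : p % 8 = 1 ∨ p % 8 = 7) :
    ∃ H : Subgroup PSL(2, F), IsCoatom H ∧ Nonempty (H ≃* Equiv.Perm (Fin 4)) := by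
  have hpr := hpp.out
  have : CharP F p := charP_of_card_prime hpr hF
  have hodd : p % 2 = 1 := by omega
  have h2 := two_ne_zero_of_card_odd hF hodd
  have hsq : p ^ 2 % 16 = 1 := by
    have h16 : p % 16 = 1 ∨ p % 16 = 7 ∨ p % 16 = 9 ∨ p % 16 = 15 := by omega
    rw [Nat.pow_mod]
    rcases h16 with h | h | h | h <;> rw [h]
  obtain ⟨H, ⟨e⟩⟩ := (Cfsg.Agent.S0803.result hF).2 hsq
  have hH : Nat.card H = 24 := by rw [Nat.card_congr e.toEquiv, card_perm4]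
  have hp7 : 7 ≤ p := by
    have h1 := hpr.two_le
    by_contra hlt
    have : p = 2 ∨ p = 3 ∨ p = 4 ∨ p = 5 ∨ p = 6 := by omega
    omega
  refine ⟨H, isCoatom_of p h2 (HasW.of_equiv e hasW_perm4) ?_ ?_ ?_ ?_ ?_, ⟨e⟩⟩
  · intro htop
    have h3 : 168 ≤ Nat.card PSL(2, F) := by
      apply card_PSL2_ge hF hodd
      have h4 : 48 ≤ p ^ 2 - 1 := by
        have : 7 ^ 2 ≤ p ^ 2 := Nat.pow_le_pow_left hp7 2
        omega
      calc 2 * 168 = 7 * 48 := by norm_num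
        _ ≤ p * (p ^ 2 - 1) := Nat.mul_le_mul hp7 h4
    rw [htop, Subgroup.card_top] at hH
    omega
  · rintro K hlt ⟨e'⟩
    obtain ⟨-, h4⟩ := card_eq_of_lt_equiv hlt
    rw [hH, Nat.card_congr e'.toEquiv, card_alt4] at h4
    omega
  · rintro K hlt ⟨e'⟩
    obtain ⟨-, h4⟩ := card_eq_of_lt_equiv hlt
    rw [hH, Nat.card_congr e'.toEquiv, card_perm4] at h4
    omega
  · rintro K hlt ⟨e'⟩
    obtain ⟨h4, -⟩ := card_eq_of_lt_equiv hlt
    rw [hH, Nat.card_congr e'.toEquiv, card_alt5] at h4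
    omega
  · rintro K hlt K₀ _ _ m hm h
    rw [hF] at hm
    obtain ⟨h1, -⟩ := (Nat.Prime.pow_eq_iff hpr).1 hm
    exact eq_top_of_card_eq (by rw [h1, hF]) h

end Aux

/-- Let p be a prime with p ≡ ±1 (mod 8) and F a field with p elements. Then PSL_2(F) has a maximal subgroup isomorphic to the symmetric group S_4. -/
theorem result {F : Type*} [Field F] [Fintype F] (p : ℕ) [Fact p.Prime] (hF : Fintype.card F = p) (hp : p % 8 = 1 ∨ p % 8 = 7) : ∃ H : Subgroup (Matrix.ProjectiveSpecialLinearGroup (Fin 2) F), IsCoatom H ∧ Nonempty (H ≃* Equiv.Perm (Fin 4)) :=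
  main_aux p hF hp

end Cfsg.Agent.S5938
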