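import Cfsg.Statements.S5944
import Mathlib
-- import your own Cfsg.Agent.* helpers here

set_option autoImplicit false
open Cfsg

namespace Cfsg.Agent.S5944

/-- For n ≠ 4, every proper subgroup of the symmetric group S_n other than the alternating group A_n has index at least n. -/
theorem result (n : ℕ) (hn : n ≠ 4) (H : Subgroup (Equiv.Perm (Fin n))) (hH : H ≠ ⊤) (hA : H ≠ alternatingGroup (Fin n)) : n ≤ H.index := by
  by_contra hlt
  push Not at hlt
  have hidx : H.index ≠ 0 := Subgroup.index_ne_zero_of_finite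
  have h3 : 3 ≤ H.index := by
    by_contra h
    have h12 : H.index = 1 ∨ H.index = 2 := by omega
    rcases h12 with h1 | h2
    · exact hH (Subgroup.index_eq_one.mp h1)
    · exact hA (Equiv.Perm.eq_alternatingGroup_of_index_eq_two h2)
  have hn5 : 5 ≤ n := by omega
  let φ := MulAction.toPermHom (Equiv.Perm (Fin n)) (Equiv.Perm (Fin n) ⧸ H)
  by_cases hinj : Function.Injective φ
  · have hle : Nat.card (Equiv.Perm (Fin n)) ≤ Nat.card (Equiv.Perm (Equiv.Perm (Fin n) ⧸ H)) :=
      Nat.card_le_card_of_injective φ hinj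
    have hc1 : Nat.card (Equiv.Perm (Fin n)) = n.factorial := by
      simp [Nat.card_eq_fintype_card, Fintype.card_perm]
    have hc2 : Nat.card (Equiv.Perm (Equiv.Perm (Fin n) ⧸ H)) = H.index.factorial := by
      rw [Subgroup.index]
      classical
      haveI : Fintype (Equiv.Perm (Fin n) ⧸ H) := Fintype.ofFinite _
      simp [Nat.card_eq_fintype_card, Fintype.card_perm]
    rw [hc1, hc2] at hle
    have := Nat.factorial_lt_of_lt (n := H.index) (m := n) (by omega) hlt
    omega
  · have hker : Nontrivial φ.ker := by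
      rw [Subgroup.nontrivial_iff_ne_bot]
      intro h
      exact hinj ((MonoidHom.ker_eq_bot_iff φ).mp h)
    have hA' : alternatingGroup (Fin n) ≤ φ.ker :=
      Equiv.Perm.alternatingGroup_le_of_normal (by simpa using hn5) hker
    have hkerH : φ.ker ≤ H := by
      intro x hx
      have hx1 : φ x = 1 := hx
      have hx2 : x • ((1 : Equiv.Perm (Fin n)) : Equiv.Perm (Fin n) ⧸ H) = ((1 : Equiv.Perm (Fin n)) : Equiv.Perm (Fin n) ⧸ H) := by
        have := congrArg (fun τ : Equiv.Perm (Equiv.Perm (Fin n) ⧸ H) => τ ((1 : Equiv.Perm (Fin n)) : Equiv.Perm (Fin n) ⧸ H)) hx1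
        simpa [φ] using this
      rw [MulAction.Quotient.smul_coe] at hx2
      simpa [QuotientGroup.eq] using hx2
    have hAH : alternatingGroup (Fin n) ≤ H := hA'.trans hkerH
    have hdvd : H.index ∣ (alternatingGroup (Fin n)).index := Subgroup.index_dvd_of_le hAH
    haveI : Nontrivial (Fin n) := Fin.nontrivial_iff_two_le.mpr (by omega)
    rw [alternatingGroup.index_eq_two] at hdvd
    have := Nat.le_of_dvd (by norm_num) hdvd
    omega

end Cfsg.Agent.S5944
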