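import Cfsg.Statements.S5945
import Cfsg.Agent.Lib.Perm.IndexSix
set_option autoImplicit false
open Cfsg

namespace Cfsg.Agent.S5945
open Equiv Equiv.Perm Cfsg.Agent.Lib.Perm.IndexN Cfsg.Agent.Lib.Perm.IndexSix

/-- The symmetric group S_6 has exactly 12 subgroups of index 6; each of them is isomorphic to S_5, and at least one of them is not the stabilizer of any point. -/
theorem result : Nat.card {H : Subgroup (Equiv.Perm (Fin 6)) // H.index = 6} = 12 ∧ (∀ H : Subgroup (Equiv.Perm (Fin 6)), H.index = 6 → Nonempty (H ≃* Equiv.Perm (Fin 5))) ∧ ∃ H : Subgroup (Equiv.Perm (Fin 6)), H.index = 6 ∧ ∀ a : Fin 6, H ≠ MulAction.stabilizer (Equiv.Perm (Fin 6)) a := by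
  have h6 : Fintype.card (Fin 6) = 6 := Fintype.card_fin 6
  obtain ⟨θ, hθ, hcl⟩ := classify h6
  have hidx1 : ∀ w : Fin 6, (MulAction.stabilizer (Perm (Fin 6)) w).index = 6 := by
    intro w; rw [index_stabilizer_perm, h6]
  have hidx2 : ∀ w : Fin 6, ((MulAction.stabilizer (Perm (Fin 6)) w).comap θ.toMonoidHom).index = 6 := by
    intro w
    rw [Subgroup.index_comap_of_surjective _ θ.surjective, index_stabilizer_perm, h6]
  have hstabiso : ∀ w : Fin 6, Nonempty (MulAction.stabilizer (Perm (Fin 6)) w ≃* Perm (Fin 5)) := by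
    intro w
    obtain ⟨e⟩ := stab_mulEquiv w
    have hc : Fintype.card {x // x ≠ w} = Fintype.card (Fin 5) := by simp
    exact ⟨e.trans (Equiv.permCongrHom (Fintype.equivOfCardEq hc))⟩
  refine ⟨?_, ?_, ?_⟩
  · let F : Fin 6 ⊕ Fin 6 → {H : Subgroup (Perm (Fin 6)) // H.index = 6} := fun s =>
      match s with
      | Sum.inl w => ⟨_, hidx1 w⟩
      | Sum.inr w => ⟨_, hidx2 w⟩
    have hF : Function.Bijective F := by
      constructor
      · rintro (w | w) (w' | w') h
        · have h1 : MulAction.stabilizer (Perm (Fin 6)) w = MulAction.stabilizer (Perm (Fin 6)) w' :=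
            congrArg Subtype.val h
          rw [stab_inj (by omega) h1]
        · have h1 : MulAction.stabilizer (Perm (Fin 6)) w =
              (MulAction.stabilizer (Perm (Fin 6)) w').comap θ.toMonoidHom := congrArg Subtype.val h
          exact absurd h1.symm (comap_stab_ne_stab h6 θ hθ w' w)
        · have h1 : (MulAction.stabilizer (Perm (Fin 6)) w).comap θ.toMonoidHom =
              MulAction.stabilizer (Perm (Fin 6)) w' := congrArg Subtype.val h
          exact absurd h1 (comap_stab_ne_stab h6 θ hθ w w')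
        · have h1 : (MulAction.stabilizer (Perm (Fin 6)) w).comap θ.toMonoidHom =
              (MulAction.stabilizer (Perm (Fin 6)) w').comap θ.toMonoidHom := congrArg Subtype.val h
          have h2 := congrArg (Subgroup.map θ.toMonoidHom) h1
          rw [Subgroup.map_comap_eq_self_of_surjective θ.surjective,
            Subgroup.map_comap_eq_self_of_surjective θ.surjective] at h2
          rw [stab_inj (by omega) h2]
      · rintro ⟨H, hH⟩
        rcases hcl H hH with ⟨w, rfl⟩ | ⟨w, rfl⟩
        · exact ⟨Sum.inl w, rfl⟩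
        · exact ⟨Sum.inr w, rfl⟩
    rw [← Nat.card_congr (Equiv.ofBijective F hF), Nat.card_sum]
    simp
  · intro H hH
    rcases hcl H hH with ⟨w, rfl⟩ | ⟨w, rfl⟩
    · exact hstabiso w
    · obtain ⟨e⟩ := hstabiso w
      have h1 : ((MulAction.stabilizer (Perm (Fin 6)) w).comap θ.toMonoidHom).map θ.toMonoidHom =
          MulAction.stabilizer (Perm (Fin 6)) w :=
        Subgroup.map_comap_eq_self_of_surjective θ.surjective _
      exact ⟨(θ.subgroupMap _).trans ((MulEquiv.subgroupCongr h1).trans e)⟩
  · exact ⟨(MulAction.stabilizer (Perm (Fin 6)) 0).comap θ.toMonoidHom, hidx2 0,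
      fun a => comap_stab_ne_stab h6 θ hθ 0 a⟩

end Cfsg.Agent.S5945
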