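import Cfsg.Statements.S5952
import Mathlib

set_option autoImplicit false
open Cfsg

namespace Cfsg.Agent.S5952

open Module

section
variable {F V : Type*} [Field F] [AddCommGroup V] [Module F V] [FiniteDimensional F V]

theorem finrank_split (P Q W : Submodule F V) (hPQ : P ⊓ Q = ⊥) (hW : W ≤ P ⊔ Q) :
    finrank F W = finrank F ↥(W ⊓ Q) + finrank F ↥(P ⊓ (W ⊔ Q)) := by
  have h1 := Submodule.finrank_sup_add_finrank_inf_eq W Q
  have h2 := Submodule.finrank_sup_add_finrank_inf_eq (P ⊓ (W ⊔ Q)) Q
  have h3 : (P ⊓ (W ⊔ Q)) ⊔ Q = W ⊔ Q := by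
    apply le_antisymm
    · exact sup_le inf_le_right le_sup_right
    · refine sup_le ?_ le_sup_right
      intro x hx
      obtain ⟨p, hp, q, hq, rfl⟩ := Submodule.mem_sup.mp (hW hx)
      refine Submodule.add_mem _ (Submodule.mem_sup_left ⟨hp, ?_⟩) (Submodule.mem_sup_right hq)
      have h7 : p = (p + q) - q := by abel
      rw [h7]
      exact Submodule.sub_mem _ (Submodule.mem_sup_left hx) (Submodule.mem_sup_right hq)
  have h4 : (P ⊓ (W ⊔ Q)) ⊓ Q = ⊥ := by
    apply le_bot_iff.mp
    rw [← hPQ]
    exact inf_le_inf_right Q inf_le_left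
  rw [h3, h4, finrank_bot] at h2
  omega

theorem inv_inf {f : V →ₗ[F] V} {A B : Submodule F V} (hA : A.map f ≤ A) (hB : B.map f ≤ B) :
    (A ⊓ B).map f ≤ A ⊓ B :=
  (Submodule.map_inf_le _).trans (inf_le_inf hA hB)

theorem inv_sup {f : V →ₗ[F] V} {A B : Submodule F V} (hA : A.map f ≤ A) (hB : B.map f ≤ B) :
    (A ⊔ B).map f ≤ A ⊔ B := by
  rw [Submodule.map_sup]; exact sup_le_sup hA hB

theorem inv_biSup {f : V →ₗ[F] V} {s : ℕ} {U : Fin s → Submodule F V} (h : ∀ j, (U j).map f ≤ U j)
    (T : Finset (Fin s)) : (⨆ i ∈ T, U i).map f ≤ ⨆ i ∈ T, U i := by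
  simp only [Submodule.map_iSup]
  exact iSup₂_le fun i hi => (h i).trans (le_iSup₂_of_le i hi le_rfl)

theorem dvd_finrank_of_inv (f : V →ₗ[F] V) {s a : ℕ} (U : Fin s → Submodule F V)
    (hUinv : ∀ j, (U j).map f ≤ U j) (hUdim : ∀ j, finrank F ↥(U j) = a)
    (hUirr : ∀ j, ∀ W : Submodule F V, W ≤ U j → W.map f ≤ W → W = ⊥ ∨ W = U j)
    (hind : ∀ (T : Finset (Fin s)) (j : Fin s), j ∉ T → U j ⊓ (⨆ i ∈ T, U i) = ⊥)
    (T : Finset (Fin s)) :
    ∀ W : Submodule F V, W ≤ ⨆ i ∈ T, U i → W.map f ≤ W → a ∣ finrank F W := by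
  induction T using Finset.induction_on with
  | empty =>
    intro W hW _
    simp only [Finset.notMem_empty, iSup_false, iSup_bot, le_bot_iff] at hW
    subst hW; simp
  | insert j T hj ih =>
    intro W hW hinv
    rw [Finset.iSup_insert] at hW
    have hQinv := inv_biSup hUinv T
    rw [finrank_split (U j) _ W (hind T j hj) hW]
    apply dvd_add (ih _ inf_le_right (inv_inf hinv hQinv))
    rcases hUirr j _ inf_le_left (inv_inf (hUinv j) (inv_sup hinv hQinv)) with h | h
    · rw [h]; simp
    · rw [h, hUdim]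

theorem finrank_biSup {s a : ℕ} (U : Fin s → Submodule F V)
    (hUdim : ∀ j, finrank F ↥(U j) = a)
    (hind : ∀ (T : Finset (Fin s)) (j : Fin s), j ∉ T → U j ⊓ (⨆ i ∈ T, U i) = ⊥)
    (T : Finset (Fin s)) : finrank F ↥(⨆ i ∈ T, U i) = T.card * a := by
  induction T using Finset.induction_on with
  | empty => simp
  | insert j T hj ih =>
    rw [Finset.iSup_insert, Finset.card_insert_of_notMem hj]
    have := Submodule.finrank_sup_add_finrank_inf_eq (U j) (⨆ i ∈ T, U i)
    rw [hind T j hj, finrank_bot, hUdim, ih] at this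
    rw [add_zero] at this
    rw [this]; ring

theorem exists_sub (C : Submodule F V) (m : ℕ) (h : m ≤ finrank F C) :
    ∃ C₀ : Submodule F V, C₀ ≤ C ∧ finrank F C₀ = m := by
  let b := Module.finBasis F C
  let v : Fin m → V := fun i => (b (Fin.castLE h i) : V)
  have hv : LinearIndependent F v := by
    have := (b.linearIndependent.comp _ (Fin.castLE_injective h)).map' C.subtype (Submodule.ker_subtype C)
    exact this
  refine ⟨Submodule.span F (Set.range v), ?_, ?_⟩
  · rw [Submodule.span_le]; rintro _ ⟨i, rfl⟩; exact (b _).2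
  · rw [finrank_span_eq_card hv]; simp

end

/-- Which dimensions of invariant subspaces a semisimple linear map has. Let `V` be a finite-dimensional vector space over a field `F` and `f` an invertible semisimple linear map of `V`. Suppose `V` is the internal direct sum of the fixed space `C_V(f)` (the eigenspace for 1) and subspaces `U_1, …, U_s`, each `f`-invariant of dimension `a ≥ 1` on which `f` acts irreducibly (no `f`-invariant subspaces other than 0 and `U_j`). Let `0 < m < dim V` and `ℓ = m mod a`. Then `f` leaves some `m`-dimensional subspace invariant if and only if `dim C_V(f) ≥ m`, or `a ≤ m` and `dim C_V(f) ≥ ℓ`. -/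
theorem result {F V : Type*} [Field F] [AddCommGroup V] [Module F V]
    [FiniteDimensional F V] (f : V →ₗ[F] V) (hf : Function.Bijective f) (hss : Module.End.IsSemisimple f)
    {s a : ℕ} (ha : 1 ≤ a) (U : Fin s → Submodule F V)
    (hUinv : ∀ j, (U j).map f ≤ U j) (hUdim : ∀ j, Module.finrank F ↥(U j) = a)
    (hUirr : ∀ j, ∀ W : Submodule F V, W ≤ U j → W.map f ≤ W → W = ⊥ ∨ W = U j)
    (hdec : DirectSum.IsInternal (fun o : Option (Fin s) => o.elim (Module.End.eigenspace f 1) U))
    (m : ℕ) (hm : 0 < m) (hmV : m < Module.finrank F V) :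
    (∃ W : Submodule F V, Module.finrank F ↥W = m ∧ W.map f ≤ W) ↔
    (m ≤ Module.finrank F ↥(Module.End.eigenspace f 1) ∨
      (a ≤ m ∧ m % a ≤ Module.finrank F ↥(Module.End.eigenspace f 1))) := by
  classical
  set C := Module.End.eigenspace f 1 with hC
  have hCinv : ∀ C₀ : Submodule F V, C₀ ≤ C → C₀.map f ≤ C₀ := by
    intro C₀ h
    rintro _ ⟨x, hx, rfl⟩
    have : f x = x := by
      have := h hx
      rw [hC, Module.End.mem_eigenspace_iff] at this
      simpa using this
    show f x ∈ C₀
    rw [this]; exact hx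
  have hI := hdec.submodule_iSupIndep
  have hT := hdec.submodule_iSup_eq_top
  have hind : ∀ (T : Finset (Fin s)) (j : Fin s), j ∉ T → U j ⊓ (⨆ i ∈ T, U i) = ⊥ := by
    intro T j hj
    have h1 := hI (some j)
    have h2 : (⨆ i ∈ T, U i) ≤ ⨆ (o : Option (Fin s)) (_ : o ≠ some j), o.elim C U := by
      refine iSup₂_le fun i hi => ?_
      refine le_iSup₂_of_le (some i) ?_ le_rfl
      intro h; apply hj; rw [Option.some.inj h] at hi; exact hi
    exact (h1.mono_right h2).eq_bot
  set Y := ⨆ i ∈ (Finset.univ : Finset (Fin s)), U i with hY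
  have hCY : Y ⊓ C = ⊥ := by
    have h1 := hI none
    have h2 : Y ≤ ⨆ (o : Option (Fin s)) (_ : o ≠ none), o.elim C U := by
      refine iSup₂_le fun i hi => ?_
      exact le_iSup₂_of_le (some i) (by simp) le_rfl
    rw [inf_comm]
    exact (h1.mono_right h2).eq_bot
  have hTop : Y ⊔ C = ⊤ := by
    apply top_le_iff.mp
    rw [← hT]
    refine iSup_le fun o => ?_
    cases o with
    | none => exact le_sup_right
    | some j => exact le_trans (le_iSup₂_of_le j (Finset.mem_univ j) le_rfl) le_sup_left
  have hdimV : finrank F V = s * a + finrank F C := by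
    have := Submodule.finrank_sup_add_finrank_inf_eq Y C
    rw [hCY, hTop, finrank_bot, finrank_top, add_zero, finrank_biSup U hUdim hind] at this
    simpa using this
  constructor
  · rintro ⟨W, hWm, hWinv⟩
    have hsplit := finrank_split Y C W hCY (by rw [hTop]; exact le_top)
    have hdvd : a ∣ finrank F ↥(Y ⊓ (W ⊔ C)) :=
      dvd_finrank_of_inv f U hUinv hUdim hUirr hind Finset.univ _ inf_le_left
        (inv_inf (inv_biSup hUinv _) (inv_sup hWinv (hCinv C le_rfl)))
    obtain ⟨t, ht⟩ := hdvd
    have hd : finrank F ↥(W ⊓ C) ≤ finrank F C :=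
      Submodule.finrank_mono inf_le_right
    rw [hWm, ht] at hsplit
    rcases Nat.eq_zero_or_pos t with h0 | hpos
    · left; subst h0; simp at hsplit; omega
    · right
      have h1 : a ≤ a * t := Nat.le_mul_of_pos_right a hpos
      refine ⟨by omega, ?_⟩
      have h2 : m % a = finrank F ↥(W ⊓ C) % a := by
        rw [hsplit]; simp
      rw [h2]
      exact (Nat.mod_le _ _).trans hd
  · rintro (h | ⟨h1, h2⟩)
    · obtain ⟨C₀, hC₀, hdim⟩ := exists_sub C m h
      exact ⟨C₀, hdim, hCinv C₀ hC₀⟩
    · -- choose t' = min (m / a) s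
      set t' := min (m / a) s with ht'
      have ht's : t' ≤ s := min_le_right _ _
      have ht'm : a * t' ≤ m := by
        calc a * t' ≤ a * (m / a) := Nat.mul_le_mul_left a (min_le_left _ _)
          _ ≤ m := Nat.mul_div_le m a
      have hrest : m - a * t' ≤ finrank F C := by
        rcases le_total (m / a) s with hle | hle
        · have : t' = m / a := min_eq_left hle
          rw [this]
          have h3 := Nat.div_add_mod m a
          have : m - a * (m / a) = m % a := by omega
          omega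
        · have : t' = s := min_eq_right hle
          rw [this]
          have h4 : s * a = a * s := Nat.mul_comm s a
          omega
      obtain ⟨C₀, hC₀, hdim⟩ := exists_sub C _ hrest
      obtain ⟨T, _, hTcard⟩ := Finset.exists_subset_card_eq (s := (Finset.univ : Finset (Fin s))) (n := t') (by simpa using ht's)
      refine ⟨(⨆ i ∈ T, U i) ⊔ C₀, ?_, inv_sup (inv_biSup hUinv T) (hCinv C₀ hC₀)⟩
      have h5 := Submodule.finrank_sup_add_finrank_inf_eq (⨆ i ∈ T, U i) C₀
      have h6 : (⨆ i ∈ T, U i) ⊓ C₀ = ⊥ := by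
        apply le_bot_iff.mp
        rw [← hCY]
        refine inf_le_inf ?_ hC₀
        exact iSup₂_le fun i _ => le_iSup₂_of_le i (Finset.mem_univ i) le_rfl
      rw [h6, finrank_bot, finrank_biSup U hUdim hind, hdim, hTcard, add_zero] at h5
      have h7 : t' * a = a * t' := Nat.mul_comm _ _
      omega

end Cfsg.Agent.S5952
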