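import Cfsg.Statements.S5954
import Mathlib
import Cfsg.Agent.Lib.Classical.ElusiveU.Main3

set_option autoImplicit false
open scoped MatrixGroups
open Cfsg

namespace Cfsg.Agent.S5954

/-- Elements of prime order of PSU_n(q) with no fixed nondegenerate `m`-space. Here `T = PSU_n(q)` (`n ≥ 3`, `(n, q) ≠ (3, 2)`), realised through the matrices of determinant 1 over the field `F` with `q²` elements preserving the Hermitian form `h(u, v) = Σ u_i v_i^q`; an element of `T` of prime order `r` is such a matrix `x` with `x^r` scalar and `x` not scalar. For `r ≠ p` let `i` be the multiplicative order of `q` modulo `r`, `b = i/2` for `i` even and `b = i` for `i` odd, `c = i, i/2, 2i` according as `i ≡ 0, 2 (mod 4)` or `i` odd, and write `k = n mod c`, `ℓ = m mod b`, `ℓ' = m mod c`, `n' = ⌊n/b⌋`, `m' = ⌊m/b⌋`, `s = (r−1)/b`; `(a)_r` is the `r`-part of `a`. Let `1 ≤ m < n/2` and let `r` be a prime dividing the number of nondegenerate `m`-spaces. Then every element of `T` of order `r` fixes a nondegenerate `m`-space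 if and only if one of: (i) `r = p > 2` and every partition of `n` into parts of size at most `p` contains (as a sub-multiset) a partition of `m`; (ii) `r = p = 2` and (`n` is odd or `m` is even); (iii) `r = 2 ≠ p` and (`n` is odd, or `m` is even, or `(q+1)_2 ≥ (n)_2` and `q ≡ 3 (mod 4)`); (iv) `r ≠ p`, `r > 2`, and either `i ≠ 2`, `c ≤ m` and `k ≥ ℓ'`, or `i = 2` and (`r ∣ m` or `(q+1)_r ≥ (n)_r`). -/
theorem result {F : Type*} [Field F] [Fintype F] {p : ℕ} [Fact p.Prime] [CharP F p] {q : ℕ} (hq : Fintype.card F = q ^ 2)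
    (n m : ℕ) (hn : 3 ≤ n) (hT : (n, q) ≠ (3, 2)) (hm : 1 ≤ m) (hmn : 2 * m < n)
    (r : ℕ) [Fact r.Prime]
    (hrΩ : r ∣ Nat.card {W : Submodule F (Fin n → F) // Module.finrank F ↥W = m ∧ (∀ u ∈ W, u ≠ 0 → ∃ v ∈ W, Cfsg.hermForm n F q u v ≠ 0)})
    (i b c : ℕ) (hi : i = orderOf (q : ZMod r)) (hb : b = if Even i then i / 2 else i)
    (hc : c = if i % 4 = 0 then i else if i % 4 = 2 then i / 2 else 2 * i) :
    (∀ x : Matrix.SpecialLinearGroup (Fin n) F, x ∈ Cfsg.SU n F q →
      (∃ z : F, ((x ^ r : Matrix.SpecialLinearGroup (Fin n) F) : Matrix (Fin n) (Fin n) F) = z • (1 : Matrix (Fin n) (Fin n) F)) →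
      (∀ z : F, (x : Matrix (Fin n) (Fin n) F) ≠ z • (1 : Matrix (Fin n) (Fin n) F)) →
      ∃ W : Submodule F (Fin n → F), Module.finrank F ↥W = m ∧ (∀ u ∈ W, u ≠ 0 → ∃ v ∈ W, Cfsg.hermForm n F q u v ≠ 0) ∧
        W.map (Matrix.toLin' (x : Matrix (Fin n) (Fin n) F)) ≤ W) ↔
    ((r = p ∧ 2 < p ∧ (∀ μ : Multiset ℕ, (∀ a ∈ μ, 0 < a ∧ a ≤ p) → μ.sum = n → ∃ ν : Multiset ℕ, ν ≤ μ ∧ ν.sum = m)) ∨
     (r = p ∧ p = 2 ∧ (Odd n ∨ Even m)) ∨
     (r = 2 ∧ p ≠ 2 ∧ (Odd n ∨ Even m ∨ (padicValNat 2 n ≤ padicValNat 2 (q + 1) ∧ q % 4 = 3))) ∨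
     (r ≠ p ∧ 2 < r ∧ ((i ≠ 2 ∧ c ≤ m ∧ m % c ≤ n % c) ∨ (i = 2 ∧ (r ∣ m ∨ padicValNat r n ≤ padicValNat r (q + 1)))))) := by
  classical
  have hn0 : n ≠ 0 := by omega
  have hmn' : m ≤ n := by omega
  change Cfsg.Agent.Lib.Classical.ElusiveU.Main.LHS F q n m r ↔ _
  have hr : r.Prime := Fact.out
  by_cases hrp : r = p
  · subst hrp
    have hmain := Cfsg.Agent.Lib.Classical.ElusiveU.Main.main_p (p := r) hq hn0 hmn'
    by_cases hp2 : r = 2
    · have hpart := Cfsg.Agent.Lib.Classical.Elusive.PslSplit.partition_two hmn'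
      constructor
      · intro H
        right
        left
        refine ⟨rfl, hp2, hpart.1 ?_⟩
        have := hmain.1 H
        rwa [hp2] at this
      · rintro (⟨-, h, -⟩ | ⟨-, -, h⟩ | ⟨-, h, -⟩ | ⟨h, -⟩)
        · omega
        · apply hmain.2
          rw [hp2]
          exact hpart.2 h
        · exact absurd hp2 h
        · exact absurd rfl h
    · have h2p : 2 < r := by
        have := hr.two_le
        omega
      constructor
      · intro H
        left
        exact ⟨rfl, h2p, hmain.1 H⟩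
      · rintro (⟨-, -, h⟩ | ⟨-, h, -⟩ | ⟨h, -⟩ | ⟨h, -⟩)
        · exact hmain.2 h
        · exact absurd h hp2
        · exact absurd h hp2
        · exact absurd rfl h
  · by_cases hr2 : r = 2
    · subst hr2
      have hp2 : p ≠ 2 := Ne.symm hrp
      have hmain := Cfsg.Agent.Lib.Classical.ElusiveU.Main.main_two (p := p) hq hp2 hn0 hmn'
      constructor
      · intro H
        right
        right
        left
        exact ⟨rfl, hp2, hmain.1 H⟩
      · rintro (⟨h, -⟩ | ⟨h, -⟩ | ⟨-, -, h⟩ | ⟨-, h, -⟩)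
        · exact absurd h hrp
        · exact absurd h hrp
        · exact hmain.2 h
        · omega
    · have h2r : 2 < r := by
        have := hr.two_le
        omega
      have hnegone : (-1 : ZMod r) ≠ 1 := by
        intro h
        have h1 : (2 : ZMod r) = 0 := by linear_combination -h
        have h2 : ((2 : ℕ) : ZMod r) = 0 := by exact_mod_cast h1
        rw [ZMod.natCast_eq_zero_iff] at h2
        exact hr2 ((Nat.prime_dvd_prime_iff_eq hr Nat.prime_two).1 h2)
      by_cases hrq : r ∣ q + 1
      · have hqm : (q : ZMod r) = -1 := by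
          have h1 : ((q + 1 : ℕ) : ZMod r) = 0 := (ZMod.natCast_eq_zero_iff _ _).2 hrq
          push_cast at h1
          linear_combination h1
        have hi2 : i = 2 := by
          rw [hi, hqm, orderOf_neg_one, ZMod.ringChar_zmod_n, if_neg hr2]
        have hmain := Cfsg.Agent.Lib.Classical.ElusiveU.Main.main_D (p := p) hq hrp hr2 hrq hn0 hmn'
        constructor
        · intro H
          right
          right
          right
          exact ⟨hrp, h2r, Or.inr ⟨hi2, hmain.1 H⟩⟩
        · rintro (⟨h, -⟩ | ⟨h, -⟩ | ⟨h, -⟩ | ⟨-, -, ⟨h, -⟩ | ⟨-, h⟩⟩)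
          · exact absurd h hrp
          · exact absurd h hrp
          · exact absurd h hr2
          · exact absurd hi2 h
          · exact hmain.2 h
      · have hi2 : i ≠ 2 := by
          intro h
          apply hrq
          have h1 : (q : ZMod r) ^ 2 = 1 := by
            have := pow_orderOf_eq_one (q : ZMod r)
            rwa [← hi, h] at this
          have h2 : (q : ZMod r) ≠ 1 := by
            intro h3
            have h4 := orderOf_eq_one_iff.2 h3
            omega
          have h3 : ((q : ZMod r) - 1) * ((q : ZMod r) + 1) = 0 := by linear_combination h1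
          have h4 := (mul_eq_zero.1 h3).resolve_left (sub_ne_zero.2 h2)
          rw [← ZMod.natCast_eq_zero_iff]
          push_cast
          exact h4
        have hmain := Cfsg.Agent.Lib.Classical.ElusiveU.Main.main_E (p := p) hq hrp hr2 hrq hn0 hmn' hrΩ hi hc
        constructor
        · intro H
          right
          right
          right
          exact ⟨hrp, h2r, Or.inl ⟨hi2, hmain.1 H⟩⟩
        · rintro (⟨h, -⟩ | ⟨h, -⟩ | ⟨h, -⟩ | ⟨-, -, ⟨-, h⟩ | ⟨h, -⟩⟩)
          · exact absurd h hrp
          · exact absurd h hrp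
          · exact absurd h hr2
          · exact hmain.2 h
          · exact absurd h hi2

end Cfsg.Agent.S5954
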