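import Cfsg.Statements.S5960
import Mathlib
import Cfsg.Agent.Lib.Classical.Elusive.DecompMain
import Cfsg.Agent.Lib.Classical.Symp.Basic
-- import your own Cfsg.Agent.* helpers here

set_option autoImplicit false
open scoped MatrixGroups
open Cfsg

namespace Cfsg.Agent.S5960

/-- Involutions of PSp_n(q) and imprimitive subgroups. Here `T = PSp_n(q)`, `n = 2d ≥ 4`, `(n, q) ≠ (4, 2)`, realised through the symplectic matrices over the field `F` with `q` elements and the standard alternating form; `n = a·t` with `a` even and `t ≥ 2`, and Ω is the (nonempty) set of orthogonal decompositions of `F^n` into `t` nondegenerate subspaces of dimension `a` (unordered; counted as ordered ones divided by `t!`), whose stabilizers are the imprimitive subgroups of type Sp_a(q) ≀ S_t (maximality is not assumed); an element of `T` of prime order `r` (a symplectic matrix `x` with `x^r` scalar, `x` not scalar) fixes a point of Ω when it permutes the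 summands of some such decomposition. If the number of such decompositions is even, then every involution of `T` stabilizes one of them (the action is 2-elusive). -/
theorem result {F : Type*} [Field F] [Fintype F] {p : ℕ} [Fact p.Prime] [CharP F p] {q : ℕ} (hq : Fintype.card F = q)
    (d : ℕ) (hd : 2 ≤ d) (hT : (d, q) ≠ (2, 2))
    (a t : ℕ) (hat : 2 * d = a * t) (ha : 2 ≤ a) (hae : Even a) (ht : 2 ≤ t) (hΩ : 2 ∣ Nat.card {D : Fin t → Submodule F (Fin d ⊕ Fin d → F) // (Cfsg.Geo.IsMDecomposition a D ∧ (∀ j, ∀ u ∈ D j, u ≠ 0 → ∃ v ∈ D j, Cfsg.sympForm d F u v ≠ 0) ∧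
          (∀ j j', j ≠ j' → ∀ u ∈ D j, ∀ v ∈ D j', Cfsg.sympForm d F u v = 0))} / Nat.factorial t)
    (x : ↥(Matrix.symplecticGroup (Fin d) F))
    (hx1 : ∃ z : F, ((x ^ 2 : ↥(Matrix.symplecticGroup (Fin d) F)) : Matrix (Fin d ⊕ Fin d) (Fin d ⊕ Fin d) F) = z • (1 : Matrix (Fin d ⊕ Fin d) (Fin d ⊕ Fin d) F))
    (hx2 : ∀ z : F, (x : Matrix (Fin d ⊕ Fin d) (Fin d ⊕ Fin d) F) ≠ z • (1 : Matrix (Fin d ⊕ Fin d) (Fin d ⊕ Fin d) F)) :
    ∃ D : Fin t → Submodule F (Fin d ⊕ Fin d → F), (Cfsg.Geo.IsMDecomposition a D ∧ (∀ j, ∀ u ∈ D j, u ≠ 0 → ∃ v ∈ D j, Cfsg.sympForm d F u v ≠ 0) ∧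
          (∀ j j', j ≠ j' → ∀ u ∈ D j, ∀ v ∈ D j', Cfsg.sympForm d F u v = 0)) ∧
        ∃ σ : Equiv.Perm (Fin t), ∀ j, (D j).map (Matrix.toLin' (x : Matrix (Fin d ⊕ Fin d) (Fin d ⊕ Fin d) F)) = D (σ j) := by
  classical
  obtain ⟨z, hz⟩ := hx1
  obtain ⟨a', rfl⟩ : ∃ a', a = 2 * a' := by
    obtain ⟨c, hc⟩ := hae
    exact ⟨c, by omega⟩
  have ha' : 0 < a' := by omega
  haveI : Nonempty (Fin d) := ⟨⟨0, by omega⟩⟩
  let T := Matrix.toLin' (x : Matrix (Fin d ⊕ Fin d) (Fin d ⊕ Fin d) F)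
  have hTB : ∀ u v, Cfsg.Agent.Lib.Classical.Symp.Basic.sympBilin d F (T u) (T v) = Cfsg.Agent.Lib.Classical.Symp.Basic.sympBilin d F u v := by
    intro u v
    simp only [Cfsg.Agent.Lib.Classical.Symp.Basic.sympBilin_apply]
    exact Cfsg.Agent.Lib.Classical.Symp.Basic.mem_symplecticGroup_iff_forall.1 x.2 u v
  have hT2 : T ^ 2 = z • 1 := by
    have h1 : (x : Matrix (Fin d ⊕ Fin d) (Fin d ⊕ Fin d) F) ^ 2 = z • 1 := by
      rw [← hz]
      rfl
    show (Matrix.toLin' (x : Matrix (Fin d ⊕ Fin d) (Fin d ⊕ Fin d) F)) ^ 2 = z • 1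
    rw [← Matrix.toLin'_pow, h1, map_smul, Matrix.toLin'_one]
    rfl
  have hnd : ∀ u : Fin d ⊕ Fin d → F, u ≠ 0 → ∃ v, Cfsg.Agent.Lib.Classical.Symp.Basic.sympBilin d F u v ≠ 0 := by
    intro u hu
    by_contra hcon
    push Not at hcon
    exact hu (Cfsg.Agent.Lib.Classical.Symp.Basic.sympBilin_nondegenerate.1 u hcon)
  have hz0 : z ≠ 0 := by
    rintro rfl
    have h0 : ∀ u, T (T u) = 0 := by
      intro u
      have := congrArg (fun S : Module.End F (Fin d ⊕ Fin d → F) => S u) hT2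
      simpa [_root_.sq] using this
    have hne : (Pi.single (Sum.inl ⟨0, by omega⟩) 1 : Fin d ⊕ Fin d → F) ≠ 0 := by
      intro h
      have := congrFun h (Sum.inl ⟨0, by omega⟩)
      simp at this
    obtain ⟨v, hv⟩ := hnd _ hne
    apply hv
    rw [← hTB, ← hTB, h0]
    simp
  obtain ⟨D, σ, h1, h2, h3, h4, h5, h6⟩ := Cfsg.Agent.Lib.Classical.Elusive.DecompMain.main_symp
    Cfsg.Agent.Lib.Classical.Symp.Basic.sympBilin_isAlt hTB hz0 hT2 hnd ha' (t := t) (by
      rw [Module.finrank_fintype_fun_eq_card, Fintype.card_sum, Fintype.card_fin, ← hat]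
      omega)
  refine ⟨D, ⟨⟨ht, by omega, h1, h2, h3⟩, ?_, ?_⟩, σ, h4⟩
  · intro j u hu hu0
    obtain ⟨v, hv, hv'⟩ := h5 j u hu hu0
    exact ⟨v, hv, hv'⟩
  · intro j j' hne u hu v hv
    exact h6 j j' hne u hu v hv

end Cfsg.Agent.S5960
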