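import Cfsg.Statements.S5962
import Cfsg.Agent.Lib.Classical.Symp.InvolSplit

set_option autoImplicit false
open scoped MatrixGroups
open Cfsg

namespace Cfsg.Agent.S5962

open Matrix Cfsg.Agent.Lib.Classical.Symp.Basic Cfsg.Agent.Lib.Classical.Symp.InvolSplit

/-- Involutions of PSp_n(q), q odd, and the subgroups GL_{n/2}(q).2. Here `T = PSp_n(q)`, `n = 2d ≥ 4`, `q` odd, realised through the symplectic matrices over the field `F` with `q` elements; Ω is the set of unordered pairs `{U, W}` of complementary totally isotropic `d`-spaces (`F^n = U ⊕ W`), whose stabilizers are the subgroups of type GL_d(q).2 (maximal except in some small cases; maximality is not assumed); an element of `T` of prime order `r` (a symplectic matrix `x` with `x^r` scalar, `x` not scalar) fixes such a pair when it fixes or interchanges `U` and `W`. If the number of such pairs is even, every involution of `T` fixes one of them (the action is 2-elusive). -/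
theorem result {F : Type*} [Field F] [Fintype F] {p : ℕ} [Fact p.Prime] [CharP F p] {q : ℕ} (hq : Fintype.card F = q)
    (d : ℕ) (hd : 2 ≤ d) (hT : (d, q) ≠ (2, 2)) (hodd : Odd q)
    (hΩ : 2 ∣ Nat.card {P : Submodule F (Fin d ⊕ Fin d → F) × Submodule F (Fin d ⊕ Fin d → F) // IsCompl P.1 P.2 ∧ (∀ u ∈ P.1, ∀ v ∈ P.1, Cfsg.sympForm d F u v = 0) ∧ (∀ u ∈ P.2, ∀ v ∈ P.2, Cfsg.sympForm d F u v = 0)} / 2)
    (x : ↥(Matrix.symplecticGroup (Fin d) F))
    (hx1 : ∃ z : F, ((x ^ 2 : ↥(Matrix.symplecticGroup (Fin d) F)) : Matrix (Fin d ⊕ Fin d) (Fin d ⊕ Fin d) F) = z • (1 : Matrix (Fin d ⊕ Fin d) (Fin d ⊕ Fin d) F))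
    (hx2 : ∀ z : F, (x : Matrix (Fin d ⊕ Fin d) (Fin d ⊕ Fin d) F) ≠ z • (1 : Matrix (Fin d ⊕ Fin d) (Fin d ⊕ Fin d) F)) :
    ∃ U W : Submodule F (Fin d ⊕ Fin d → F), IsCompl U W ∧ (∀ u ∈ U, ∀ v ∈ U, Cfsg.sympForm d F u v = 0) ∧ (∀ u ∈ W, ∀ v ∈ W, Cfsg.sympForm d F u v = 0) ∧
        ((U.map (Matrix.toLin' (x : Matrix (Fin d ⊕ Fin d) (Fin d ⊕ Fin d) F)) = U ∧ W.map (Matrix.toLin' (x : Matrix (Fin d ⊕ Fin d) (Fin d ⊕ Fin d) F)) = W) ∨
         (U.map (Matrix.toLin' (x : Matrix (Fin d ⊕ Fin d) (Fin d ⊕ Fin d) F)) = W ∧ W.map (Matrix.toLin' (x : Matrix (Fin d ⊕ Fin d) (Fin d ⊕ Fin d) F)) = U)) := by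
  classical
  have hF2 : (2 : F) ≠ 0 := by
    intro h20
    have hc : ringChar F = 2 := by
      apply (CharP.ringChar_of_prime_eq_zero Nat.prime_two _)
      exact_mod_cast h20
    have := FiniteField.even_card_iff_char_two.mp hc
    rw [hq] at this
    exact (Nat.not_even_iff_odd.mpr hodd) (Nat.even_iff.mpr this)
  obtain ⟨z, hz⟩ := hx1
  let X : Matrix (Fin d ⊕ Fin d) (Fin d ⊕ Fin d) F := (x : Matrix (Fin d ⊕ Fin d) (Fin d ⊕ Fin d) F)
  let f : (Fin d ⊕ Fin d → F) →ₗ[F] (Fin d ⊕ Fin d → F) := Matrix.toLin' X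
  have hf : ∀ v, f v = X *ᵥ v := fun v => rfl
  have hiso : ∀ a b, sympBilin d F (f a) (f b) = sympBilin d F a b := fun a b =>
    (mem_symplecticGroup_iff_forall.mp x.2) a b
  have hsqf : ∀ a, f (f a) = z • a := by
    intro a
    rw [hf, hf, Matrix.mulVec_mulVec]
    have h1 : X * X = z • 1 := by
      have := hz
      rw [pow_two] at this
      exact this
    rw [h1, Matrix.smul_mulVec, Matrix.one_mulVec]
  -- `z` is a sign
  have hzz : z = 1 ∨ z = -1 := by
    have hd0 : 0 < d := by omega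
    let i0 : Fin d := ⟨0, hd0⟩
    let u : Fin d ⊕ Fin d → F := Pi.single (Sum.inr i0) 1
    let v : Fin d ⊕ Fin d → F := Pi.single (Sum.inl i0) 1
    have h1 : sympBilin d F u v = 1 := by
      change sympForm d F u v = 1
      rw [sympForm_single_inl]
      simp [u]
    have h2 : sympBilin d F (f (f u)) (f (f v)) = sympBilin d F u v := by
      rw [hiso, hiso]
    rw [hsqf, hsqf, map_smul, LinearMap.map_smul₂, h1] at h2
    simp only [smul_eq_mul, mul_one] at h2
    exact mul_self_eq_one_iff.mp h2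
  have hdim : Module.finrank F (Fin d ⊕ Fin d → F) = 2 * d := by
    simp [Module.finrank_fintype_fun_eq_card]
    ring
  have hA := sympBilin_isAlt (m := d) (F := F)
  have hB := sympBilin_nondegenerate (m := d) (F := F)
  have hsp : ∀ {ι : Type} {t : ι → (Fin d ⊕ Fin d → F)},
      (∀ i j, sympBilin d F (t i) (t j) = 0) → ∀ u ∈ Submodule.span F (Set.range t),
        ∀ v ∈ Submodule.span F (Set.range t), sympForm d F u v = 0 :=
    fun h => span_isotropic_aux h
  rcases hzz with rfl | rfl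
  · -- `x^2 = 1`
    obtain ⟨a, b, h1, h2, h3, h4⟩ := exists_family_adapted (1 : F) one_ne_zero
      (fun p q r s => p = s ∧ q = 0 ∧ r = 0) (fun V _ _ _ B hA hB x hiso hsq _ =>
        split_plus hF2 V B hA hB x hiso hsq) d _ (sympBilin d F) hA hB hdim f hiso hsqf
    refine ⟨_, _, isCompl_span_family hA hB hdim h1 h2 h3, hsp h1, hsp h2, Or.inl ⟨?_, ?_⟩⟩
    · have hfi : ∀ i, ∃ ε : F, ε * ε = 1 ∧ f (a i) = ε • a i := by
        intro i
        obtain ⟨p, q, r, s, ⟨rfl, rfl, rfl⟩, h5, -⟩ := h4 i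
        simp only [zero_smul, add_zero] at h5
        refine ⟨p, ?_, h5⟩
        have h6 := hsqf (a i)
        rw [h5, map_smul, h5, smul_smul] at h6
        have h7 : a i ≠ 0 := by
          intro h0
          have := h3 i i
          rw [h0] at this
          simp at this
        have h8 : (p * p - 1) • a i = 0 := by
          rw [sub_smul, h6, sub_self]
        have h9 := (smul_eq_zero.mp h8).resolve_right h7
        exact sub_eq_zero.mp h9
      rw [Submodule.map_span]
      apply le_antisymm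
      · apply Submodule.span_le.mpr
        rintro _ ⟨_, ⟨i, rfl⟩, rfl⟩
        obtain ⟨ε, -, h5⟩ := hfi i
        change f (a i) ∈ _
        rw [h5]
        exact Submodule.smul_mem _ _ (Submodule.subset_span ⟨i, rfl⟩)
      · apply Submodule.span_le.mpr
        rintro _ ⟨i, rfl⟩
        obtain ⟨ε, h6, h5⟩ := hfi i
        have h7 : a i = ε • f (a i) := by
          rw [h5, smul_smul, h6, one_smul]
        rw [h7]
        exact Submodule.smul_mem _ _ (Submodule.subset_span ⟨a i, ⟨i, rfl⟩, rfl⟩)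
    · have hfi : ∀ i, ∃ ε : F, ε * ε = 1 ∧ f (b i) = ε • b i := by
        intro i
        obtain ⟨p, q, r, s, ⟨rfl, rfl, rfl⟩, -, h5⟩ := h4 i
        simp only [zero_smul, zero_add] at h5
        refine ⟨p, ?_, h5⟩
        have h6 := hsqf (b i)
        rw [h5, map_smul, h5, smul_smul] at h6
        have h7 : b i ≠ 0 := by
          intro h0
          have := h3 i i
          rw [h0, map_zero] at this
          simp at this
        have h8 : (p * p - 1) • b i = 0 := by
          rw [sub_smul, h6, sub_self]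
        have h9 := (smul_eq_zero.mp h8).resolve_right h7
        exact sub_eq_zero.mp h9
      rw [Submodule.map_span]
      apply le_antisymm
      · apply Submodule.span_le.mpr
        rintro _ ⟨_, ⟨i, rfl⟩, rfl⟩
        obtain ⟨ε, -, h5⟩ := hfi i
        change f (b i) ∈ _
        rw [h5]
        exact Submodule.smul_mem _ _ (Submodule.subset_span ⟨i, rfl⟩)
      · apply Submodule.span_le.mpr
        rintro _ ⟨i, rfl⟩
        obtain ⟨ε, h6, h5⟩ := hfi i
        have h7 : b i = ε • f (b i) := by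
          rw [h5, smul_smul, h6, one_smul]
        rw [h7]
        exact Submodule.smul_mem _ _ (Submodule.subset_span ⟨b i, ⟨i, rfl⟩, rfl⟩)
  · -- `x^2 = -1`
    obtain ⟨a, b, h1, h2, h3, h4⟩ := exists_family_adapted (-1 : F) (neg_ne_zero.mpr one_ne_zero)
      (fun p q r s => p = 0 ∧ s = 0 ∧ q ≠ 0 ∧ r ≠ 0) (fun V _ _ _ B hA hB x hiso hsq _ =>
        split_minus hF2 V B hA hB x hiso hsq) d _ (sympBilin d F) hA hB hdim f hiso hsqf
    have hab : ∀ i, ∃ q r : F, q ≠ 0 ∧ r ≠ 0 ∧ f (a i) = q • b i ∧ f (b i) = r • a i := by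
      intro i
      obtain ⟨p, q, r, s, ⟨rfl, rfl, hq0, hr0⟩, h5, h6⟩ := h4 i
      simp only [zero_smul, add_zero, zero_add] at h5 h6
      exact ⟨q, r, hq0, hr0, h5, h6⟩
    refine ⟨_, _, isCompl_span_family hA hB hdim h1 h2 h3, hsp h1, hsp h2, Or.inr ⟨?_, ?_⟩⟩
    · rw [Submodule.map_span]
      apply le_antisymm
      · apply Submodule.span_le.mpr
        rintro _ ⟨_, ⟨i, rfl⟩, rfl⟩
        obtain ⟨q, r, -, -, h5, -⟩ := hab i
        change f (a i) ∈ _
        rw [h5]
        exact Submodule.smul_mem _ _ (Submodule.subset_span ⟨i, rfl⟩)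
      · apply Submodule.span_le.mpr
        rintro _ ⟨i, rfl⟩
        obtain ⟨q, r, hq0, -, h5, -⟩ := hab i
        have h7 : b i = q⁻¹ • f (a i) := by
          rw [h5, smul_smul, inv_mul_cancel₀ hq0, one_smul]
        rw [h7]
        exact Submodule.smul_mem _ _ (Submodule.subset_span ⟨a i, ⟨i, rfl⟩, rfl⟩)
    · rw [Submodule.map_span]
      apply le_antisymm
      · apply Submodule.span_le.mpr
        rintro _ ⟨_, ⟨i, rfl⟩, rfl⟩
        obtain ⟨q, r, -, -, -, h5⟩ := hab i
        change f (b i) ∈ _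
        rw [h5]
        exact Submodule.smul_mem _ _ (Submodule.subset_span ⟨i, rfl⟩)
      · apply Submodule.span_le.mpr
        rintro _ ⟨i, rfl⟩
        obtain ⟨q, r, -, hr0, -, h5⟩ := hab i
        have h7 : a i = r⁻¹ • f (b i) := by
          rw [h5, smul_smul, inv_mul_cancel₀ hr0, one_smul]
        rw [h7]
        exact Submodule.smul_mem _ _ (Submodule.subset_span ⟨b i, ⟨i, rfl⟩, rfl⟩)

end Cfsg.Agent.S5962
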