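import Cfsg.Statements.S5966
import Cfsg.Agent.S5964
import Cfsg.Agent.Lib.Linalg.NilPeel
import Cfsg.Agent.Lib.Linalg.Unipotent

set_option autoImplicit false
open scoped MatrixGroups
open Cfsg
open Module
open Cfsg.Agent.Lib.Linalg.NilPeel
open Cfsg.Agent.S5964 (mem_sub_of_entries entries_of_mem_sub isSquare_of_mem_subfield)

namespace Cfsg.Agent.S5966

section Mat

variable {F : Type*} [Field F] {n : ℕ}

theorem toLin'_pow_eq (N : Matrix (Fin n) (Fin n) F) (m : ℕ) :
    (Matrix.toLin' N) ^ m = Matrix.toLin' (N ^ m) := by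
  induction m with
  | zero => simp [Module.End.one_eq_id]
  | succ m ih => rw [pow_succ, ih, pow_succ, Matrix.toLin'_mul, Module.End.mul_eq_comp]

/-- A nilpotent matrix is conjugate to a matrix with entries `0` and `1`. -/
theorem exists_mat_shift (N : Matrix (Fin n) (Fin n) F) (hN : IsNilpotent N) :
    ∃ (P : GL (Fin n) F) (M : Matrix (Fin n) (Fin n) F), (∀ i j, M i j = 0 ∨ M i j = 1) ∧
      N * (P : Matrix (Fin n) (Fin n) F) = (P : Matrix (Fin n) (Fin n) F) * M := by
  classical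
  have hN' : IsNilpotent (Matrix.toLin' N) := by
    obtain ⟨m, hm⟩ := hN
    refine ⟨m, ?_⟩
    rw [toLin'_pow_eq, hm, map_zero]
  obtain ⟨ι, _, _, b, M, hM, hb⟩ := exists_shift _ (Fin n → F) rfl (Matrix.toLin' N) hN'
  have hcard : Fintype.card ι = n := by
    have := Module.finrank_eq_card_basis b
    simpa using this.symm
  let eqv : ι ≃ Fin n := Fintype.equivFinOfCardEq hcard
  let b' := b.reindex eqv
  let std := Pi.basisFun F (Fin n)
  let P : GL (Fin n) F := ⟨std.toMatrix b', b'.toMatrix std, Basis.toMatrix_mul_toMatrix_flip _ _,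
    Basis.toMatrix_mul_toMatrix_flip _ _⟩
  have hP : ∀ i j, (P : Matrix (Fin n) (Fin n) F) i j = b (eqv.symm j) i := by
    intro i j
    change std.toMatrix b' i j = _
    rw [Basis.toMatrix_apply]
    simp [std, b', Basis.reindex_apply]
  refine ⟨P, M.submatrix eqv.symm eqv.symm, fun i j => hM _ _, ?_⟩
  ext i j
  have h1 : (N * (P : Matrix (Fin n) (Fin n) F)) i j = (Matrix.toLin' N (b (eqv.symm j))) i := by
    rw [Matrix.mul_apply, Matrix.toLin'_apply, Matrix.mulVec, dotProduct]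
    exact Finset.sum_congr rfl fun l _ => by rw [hP]
  rw [h1, hb, Matrix.mul_apply]
  rw [Finset.sum_apply]
  rw [← Equiv.sum_comp eqv]
  refine Finset.sum_congr rfl fun t _ => ?_
  rw [hP]
  simp [mul_comm]

/-- Commuting scalings at matrix level. -/
theorem exists_mat_scaling {g : (Fin n → F) →ₗ[F] (Fin n → F)} {N : Matrix (Fin n) (Fin n) F} (hg : g = Matrix.toLin' N)
    {φ : (Fin n → F) →ₗ[F] F} {v : Fin n → F} {e : ℕ} (he : 1 ≤ e) (hv : (g ^ e) v = 0)
    (hφ : ∀ u, φ ((g ^ e) u) = 0) (hφv : φ ((g ^ (e - 1)) v) ≠ 0) {c : F} (hc : c ≠ 0) :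
    ∃ T : GL (Fin n) F, (T : Matrix (Fin n) (Fin n) F) * N = N * (T : Matrix (Fin n) (Fin n) F) ∧
      (T : Matrix (Fin n) (Fin n) F).det = c ^ e := by
  obtain ⟨T, h1, h2⟩ := exists_commuting_scaling he hv hφ hφv c
  have hd : (LinearMap.toMatrix' T).det ≠ 0 := by
    rw [LinearMap.det_toMatrix', h2]
    exact pow_ne_zero _ hc
  refine ⟨Matrix.GeneralLinearGroup.mkOfDetNeZero _ hd, ?_, ?_⟩
  · have h3 := congrArg LinearMap.toMatrix' h1
    rw [LinearMap.toMatrix'_comp, LinearMap.toMatrix'_comp, hg, LinearMap.toMatrix'_toLin'] at h3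
    exact h3
  · change (LinearMap.toMatrix' T).det = _
    rw [LinearMap.det_toMatrix', h2]

/-- The trichotomy for a nilpotent matrix of cube zero. -/
theorem cases_of_cube (N : Matrix (Fin n) (Fin n) F) (hN3 : N ^ 3 = 0) (hN0 : N ≠ 0) :
    (∀ c : F, c ≠ 0 → ∃ T : GL (Fin n) F, (T : Matrix (Fin n) (Fin n) F) * N = N * (T : Matrix (Fin n) (Fin n) F) ∧
      (T : Matrix (Fin n) (Fin n) F).det = c ^ 3) ∨
    (∀ c : F, c ≠ 0 → ∃ T : GL (Fin n) F, (T : Matrix (Fin n) (Fin n) F) * N = N * (T : Matrix (Fin n) (Fin n) F) ∧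
      (T : Matrix (Fin n) (Fin n) F).det = c ^ 1) ∨
    ((∀ c : F, c ≠ 0 → ∃ T : GL (Fin n) F, (T : Matrix (Fin n) (Fin n) F) * N = N * (T : Matrix (Fin n) (Fin n) F) ∧
      (T : Matrix (Fin n) (Fin n) F).det = c ^ 2) ∧ Even n) := by
  classical
  set g : (Fin n → F) →ₗ[F] (Fin n → F) := Matrix.toLin' N with hg
  have hg3 : g ^ 3 = 0 := by rw [hg, toLin'_pow_eq, hN3, map_zero]
  have hg0 : g ≠ 0 := by
    intro h
    apply hN0
    have : Matrix.toLin' N = Matrix.toLin' 0 := by rw [map_zero]; exact h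
    exact Matrix.toLin'.injective this
  by_cases hg2 : g ^ 2 = 0
  · by_cases hk : ∀ v, g v = 0 → v ∈ LinearMap.range g
    · -- kernel equals image
      right; right
      constructor
      · intro c hc
        obtain ⟨v, hv⟩ : ∃ v, g v ≠ 0 := by
          by_contra h
          push Not at h
          exact hg0 (LinearMap.ext h)
        obtain ⟨φ, hφ⟩ : ∃ φ : Module.Dual F (Fin n → F), φ (g v) ≠ 0 := by
          by_contra h
          push Not at h
          exact hv ((Module.forall_dual_apply_eq_zero_iff F _).mp h)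
        refine exists_mat_scaling hg (e := 2) (φ := φ) (v := v) (by norm_num) ?_ ?_ ?_ hc
        · rw [hg2]; rfl
        · intro u; rw [hg2]; simp
        · simpa using hφ
      · have h1 : LinearMap.range g = LinearMap.ker g := by
          apply le_antisymm
          · rintro _ ⟨u, rfl⟩
            rw [LinearMap.mem_ker]
            have := congrArg (fun f => f u) hg2
            simpa [pow_two] using this
          · intro v hv
            exact hk v hv
        have h2 := LinearMap.finrank_range_add_finrank_ker g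
        rw [h1] at h2
        simp only [finrank_fin_fun] at h2
        exact ⟨_, h2.symm⟩
    · right; left
      push Not at hk
      obtain ⟨v, hv, hr⟩ := hk
      intro c hc
      obtain ⟨φ, hφ, hφ'⟩ := Submodule.exists_le_ker_of_notMem hr
      have hφz : ∀ u, φ (g u) = 0 := fun u => hφ' ⟨u, rfl⟩
      refine exists_mat_scaling hg (e := 1) (φ := φ) (v := v) le_rfl ?_ ?_ ?_ hc
      · simpa using hv
      · intro u; simpa using hφz u
      · simpa using hφ
  · left
    intro c hc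
    obtain ⟨v, hv⟩ : ∃ v, (g ^ 2) v ≠ 0 := by
      by_contra h
      push Not at h
      exact hg2 (LinearMap.ext h)
    obtain ⟨φ, hφ⟩ : ∃ φ : Module.Dual F (Fin n → F), φ ((g ^ 2) v) ≠ 0 := by
      by_contra h
      push Not at h
      exact hv ((Module.forall_dual_apply_eq_zero_iff F _).mp h)
    refine exists_mat_scaling hg (e := 3) (φ := φ) (v := v) (by norm_num) ?_ ?_ ?_ hc
    · rw [hg3]; rfl
    · intro u; rw [hg3]; simp
    · simpa using hφ

end Mat

section Chain

variable {K : Type*} [Field K] {m : ℕ}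

/-- The standard square-zero matrix of rank `m` in dimension `m + m`. -/
def J₀ (K : Type*) [Field K] (m : ℕ) : Matrix (Fin (m + m)) (Fin (m + m)) K :=
  (Matrix.fromBlocks 0 0 1 0).submatrix finSumFinEquiv.symm finSumFinEquiv.symm

theorem J₀_apply (a b : Fin m ⊕ Fin m) :
    J₀ K m (finSumFinEquiv a) (finSumFinEquiv b) =
      (Matrix.fromBlocks (0 : Matrix (Fin m) (Fin m) K) 0 1 0) a b := by
  simp [J₀]

theorem J₀_mul_self : J₀ K m * J₀ K m = 0 := by
  rw [J₀, Matrix.submatrix_mul_equiv, Matrix.fromBlocks_multiply]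
  ext i j
  simp

theorem J₀_map {L : Type*} [Field L] (f : K →+* L) : (J₀ K m).map f = J₀ L m := by
  ext i j
  obtain ⟨a, rfl⟩ := finSumFinEquiv.surjective i
  obtain ⟨b, rfl⟩ := finSumFinEquiv.surjective j
  rw [Matrix.map_apply, J₀_apply, J₀_apply]
  rcases a with a | a <;> rcases b with b | b <;> simp [Matrix.one_apply, apply_ite f]

/-- Matrices commuting with `J₀` have square determinant. -/
theorem isSquare_det_of_commute {C : Matrix (Fin (m + m)) (Fin (m + m)) K} (h : C * J₀ K m = J₀ K m * C) :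
    IsSquare C.det := by
  let e : Fin m ⊕ Fin m ≃ Fin (m + m) := finSumFinEquiv
  let C' := C.submatrix e e
  let Jb : Matrix (Fin m ⊕ Fin m) (Fin m ⊕ Fin m) K := Matrix.fromBlocks 0 0 1 0
  have hdet : C'.det = C.det := Matrix.det_submatrix_equiv_self _ _
  have hJ : (J₀ K m).submatrix e e = Jb := by
    ext a b
    exact J₀_apply a b
  have hc : C' * Jb = Jb * C' := by
    rw [← hJ, Matrix.submatrix_mul_equiv, Matrix.submatrix_mul_equiv, h]
  have hC : C' = Matrix.fromBlocks C'.toBlocks₁₁ C'.toBlocks₁₂ C'.toBlocks₂₁ C'.toBlocks₂₂ :=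
    (Matrix.fromBlocks_toBlocks C').symm
  rw [hC] at hc
  simp only [Jb, Matrix.fromBlocks_multiply] at hc
  simp only [mul_zero, mul_one, zero_mul, one_mul, add_zero, zero_add] at hc
  obtain ⟨h1, -, h3, -⟩ := Matrix.fromBlocks_inj.mp hc
  rw [← hdet, hC]
  have h12 : C'.toBlocks₁₂ = 0 := h1
  rw [h12, Matrix.det_fromBlocks_zero₁₂, h3]
  exact ⟨_, rfl⟩

theorem J₀_mulVec (u : Fin (m + m) → K) (t : Fin m ⊕ Fin m) :
    (J₀ K m).mulVec u (finSumFinEquiv t) = Sum.elim (fun _ => 0) (fun a => u (finSumFinEquiv (Sum.inl a))) t := by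
  rw [Matrix.mulVec, dotProduct, ← Equiv.sum_comp (finSumFinEquiv : Fin m ⊕ Fin m ≃ Fin (m + m))]
  simp_rw [J₀_apply]
  rw [Fintype.sum_sum_type]
  rcases t with a | a
  · simp
  · simp [Matrix.one_apply]

theorem J₀_ker (v : Fin (m + m) → K) (hv : (J₀ K m).mulVec v = 0) : ∃ u, (J₀ K m).mulVec u = v := by
  refine ⟨fun i => Sum.elim (fun a => v (finSumFinEquiv (Sum.inr a))) (fun _ => 0) (finSumFinEquiv.symm i), ?_⟩
  ext i
  obtain ⟨t, rfl⟩ := finSumFinEquiv.surjective i
  rw [J₀_mulVec]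
  rcases t with a | a
  · have := congrFun hv (finSumFinEquiv (Sum.inr a))
    rw [J₀_mulVec] at this
    simpa using this.symm
  · simp

/-- A square-zero matrix whose kernel is its image is conjugate to `J₀`. -/
theorem exists_chain_basis (N : Matrix (Fin (m + m)) (Fin (m + m)) K) (h2 : N * N = 0)
    (hker : ∀ v, N.mulVec v = 0 → ∃ u, N.mulVec u = v) :
    ∃ B : GL (Fin (m + m)) K, N * (B : Matrix (Fin (m + m)) (Fin (m + m)) K) =
      (B : Matrix (Fin (m + m)) (Fin (m + m)) K) * J₀ K m := by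
  classical
  set g : (Fin (m + m) → K) →ₗ[K] (Fin (m + m) → K) := Matrix.toLin' N with hg
  have hgg : ∀ v, g (g v) = 0 := by
    intro v
    change N.mulVec (N.mulVec v) = 0
    rw [Matrix.mulVec_mulVec, h2, Matrix.zero_mulVec]
  have hr : LinearMap.range g = LinearMap.ker g := by
    apply le_antisymm
    · rintro _ ⟨u, rfl⟩
      exact hgg u
    · intro v hv
      obtain ⟨u, hu⟩ := hker v hv
      exact ⟨u, hu⟩
  obtain ⟨U, hU⟩ := Submodule.exists_isCompl (LinearMap.ker g)
  have h3 := LinearMap.finrank_range_add_finrank_ker g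
  have h4 := Submodule.finrank_add_eq_of_isCompl hU
  rw [hr] at h3
  simp only [finrank_fin_fun] at h3 h4
  have hfU : finrank K U = m := by omega
  let u : Basis (Fin m) K U := Module.finBasisOfFinrankEq K U hfU
  let f : Fin m ⊕ Fin m → (Fin (m + m) → K) := Sum.elim (fun i => (u i : Fin (m + m) → K)) (fun i => g (u i))
  have hS : ∀ a : U, (a : Fin (m + m) → K) ∈ Submodule.span K (Set.range f) ∧ g a ∈ Submodule.span K (Set.range f) := by
    intro a
    have ha : (a : Fin (m + m) → K) = ∑ i, u.repr a i • (u i : Fin (m + m) → K) := by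
      have h := congrArg Subtype.val (u.sum_repr a)
      simp only [Submodule.coe_sum, Submodule.coe_smul] at h
      exact h.symm
    constructor
    · rw [ha]
      exact Submodule.sum_mem _ fun i _ => Submodule.smul_mem _ _ (Submodule.subset_span ⟨Sum.inl i, rfl⟩)
    · rw [ha, map_sum]
      refine Submodule.sum_mem _ fun i _ => ?_
      rw [map_smul]
      exact Submodule.smul_mem _ _ (Submodule.subset_span ⟨Sum.inr i, rfl⟩)
  have hspan : ⊤ ≤ Submodule.span K (Set.range f) := by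
    intro v _
    have hv : v ∈ LinearMap.ker g ⊔ U := by rw [hU.sup_eq_top]; trivial
    obtain ⟨k, hk, a, ha, rfl⟩ := Submodule.mem_sup.mp hv
    refine Submodule.add_mem _ ?_ (hS ⟨a, ha⟩).1
    rw [← hr] at hk
    obtain ⟨v', rfl⟩ := hk
    have hv' : v' ∈ LinearMap.ker g ⊔ U := by rw [hU.sup_eq_top]; trivial
    obtain ⟨k', hk', a', ha', rfl⟩ := Submodule.mem_sup.mp hv'
    rw [map_add, LinearMap.mem_ker.mp hk', zero_add]
    exact (hS ⟨a', ha'⟩).2
  have hcard : Fintype.card (Fin m ⊕ Fin m) = finrank K (Fin (m + m) → K) := by simp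
  let b₀ : Basis (Fin m ⊕ Fin m) K (Fin (m + m) → K) := basisOfTopLeSpanOfCardEqFinrank f hspan hcard
  have hb₀ : ∀ t, b₀ t = f t := fun t => by
    simp [b₀, basisOfTopLeSpanOfCardEqFinrank]
  let b := b₀.reindex (finSumFinEquiv : Fin m ⊕ Fin m ≃ Fin (m + m))
  have hb : ∀ t, b (finSumFinEquiv t) = f t := fun t => by
    simp [b, Basis.reindex_apply, hb₀]
  let std := Pi.basisFun K (Fin (m + m))
  let P : GL (Fin (m + m)) K := ⟨std.toMatrix b, b.toMatrix std, Basis.toMatrix_mul_toMatrix_flip _ _,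
    Basis.toMatrix_mul_toMatrix_flip _ _⟩
  have hP : ∀ i t, (P : Matrix (Fin (m + m)) (Fin (m + m)) K) i (finSumFinEquiv t) = f t i := by
    intro i t
    change std.toMatrix b i _ = _
    rw [Basis.toMatrix_apply, hb]
    simp [std]
  refine ⟨P, ?_⟩
  ext i j
  obtain ⟨t, rfl⟩ := finSumFinEquiv.surjective j
  have h5 : (N * (P : Matrix (Fin (m + m)) (Fin (m + m)) K)) i (finSumFinEquiv t) = (g (f t)) i := by
    rw [Matrix.mul_apply]
    change _ = (N.mulVec (f t)) i
    rw [Matrix.mulVec, dotProduct]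
    exact Finset.sum_congr rfl fun l _ => by rw [hP]
  rw [h5, Matrix.mul_apply, ← Equiv.sum_comp (finSumFinEquiv : Fin m ⊕ Fin m ≃ Fin (m + m))]
  simp_rw [hP, J₀_apply]
  rw [Fintype.sum_sum_type]
  rcases t with a | a
  · simp [f, Matrix.one_apply]
  · simp [f, hgg]

end Chain

section Cube

variable {F : Type*} [Field F] [Finite F] [CharP F 3]

theorem cube_injective : Function.Injective (fun a : F => a ^ 3) := by
  haveI : Fact (Nat.Prime 3) := ⟨by norm_num⟩
  exact (frobenius F 3).injective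

theorem cube_surjective : Function.Surjective (fun a : F => a ^ 3) :=
  Finite.surjective_of_injective cube_injective

theorem mem_of_cube_mem (F₀ : Subfield F) {a : F} (h : a ^ 3 ∈ F₀) : a ∈ F₀ := by
  let f : F₀ → F₀ := fun c => ⟨(c : F) ^ 3, F₀.pow_mem c.2 3⟩
  have hf : Function.Injective f := by
    intro c d hcd
    have h1 : (c : F) ^ 3 = (d : F) ^ 3 := congrArg Subtype.val hcd
    exact Subtype.ext (cube_injective h1)
  obtain ⟨c, hc⟩ := Finite.surjective_of_injective hf ⟨a ^ 3, h⟩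
  have h1 : (c : F) ^ 3 = a ^ 3 := congrArg Subtype.val hc
  rw [← cube_injective h1]
  exact c.2

end Cube

section Bad

variable {F : Type*} [Field F] [Fintype F] [CharP F 3]

/-- The bad element for a quadratic subfield. -/
theorem exists_bad3 (F₀ : Subfield F) {q₀ : ℕ} (hF₀ : Nat.card F₀ = q₀) (hq : Fintype.card F = q₀ ^ 2) {m : ℕ}
    (hm : 1 ≤ m) :
    ∃ x : Matrix.SpecialLinearGroup (Fin (m + m)) F,
      (∃ z : F, ((x ^ 3 : Matrix.SpecialLinearGroup (Fin (m + m)) F) : Matrix (Fin (m + m)) (Fin (m + m)) F) =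
        z • (1 : Matrix (Fin (m + m)) (Fin (m + m)) F)) ∧
      (∀ z : F, (x : Matrix (Fin (m + m)) (Fin (m + m)) F) ≠ z • (1 : Matrix (Fin (m + m)) (Fin (m + m)) F)) ∧
      ∀ P : Matrix.SpecialLinearGroup (Fin (m + m)) F, P⁻¹ * x * P ∉
        ((Cfsg.Geo.subfieldSubgroup F₀ 1).comap
          (Matrix.SpecialLinearGroup.toGL : Matrix.SpecialLinearGroup (Fin (m + m)) F →* GL (Fin (m + m)) F)) := by
  classical
  have h2 : ringChar F ≠ 2 := by
    rw [ringChar.eq F 3]
    norm_num
  have h30 : (3 : F) = 0 := by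
    have := CharP.cast_eq_zero F 3
    exact_mod_cast this
  obtain ⟨ν, hν⟩ := FiniteField.exists_nonsquare h2
  have hν0 : ν ≠ 0 := by
    rintro rfl
    exact hν IsSquare.zero
  let i₀ : Fin (m + m) := ⟨0, by omega⟩
  let d : Fin (m + m) → F := fun i => if i = i₀ then ν else 1
  have hd : (Matrix.diagonal d).det = ν := by
    rw [Matrix.det_diagonal, Finset.prod_ite]
    simp [Finset.filter_eq', Finset.filter_ne']
  let P₁ : GL (Fin (m + m)) F := Matrix.GeneralLinearGroup.mkOfDetNeZero (Matrix.diagonal d) (by rw [hd]; exact hν0)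
  have hP₁ : (P₁ : Matrix (Fin (m + m)) (Fin (m + m)) F).det = ν := hd
  set J := J₀ F m with hJ
  have hJ2 : J * J = 0 := J₀_mul_self
  set Y : Matrix (Fin (m + m)) (Fin (m + m)) F := 1 + J with hY
  have hY3 : Y * Y * Y = 1 := by
    have h1 : Y * Y * Y = 1 + (3 : F) • J := by
      rw [hY]
      simp only [add_mul, mul_add, one_mul, mul_one, hJ2, zero_add, add_zero, zero_mul, mul_zero]
      have : (3 : F) • J = J + J + J := by
        rw [show (3 : F) = 1 + 1 + 1 by norm_num, add_smul, add_smul, one_smul]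
      rw [this]
      abel
    rw [h1, h30, zero_smul, add_zero]
  have hdetY : Y.det = 1 := by
    have h1 : (Y.det) ^ 3 = 1 := by
      have := congrArg Matrix.det hY3
      rw [Matrix.det_mul, Matrix.det_mul, Matrix.det_one] at this
      rw [← this]
      ring
    apply cube_injective
    simp only [one_pow]
    exact h1
  set X : Matrix (Fin (m + m)) (Fin (m + m)) F :=
    (P₁ : Matrix (Fin (m + m)) (Fin (m + m)) F) * Y * ((P₁⁻¹ : GL (Fin (m + m)) F) : Matrix (Fin (m + m)) (Fin (m + m)) F) with hX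
  have hPP : (P₁ : Matrix (Fin (m + m)) (Fin (m + m)) F) * ((P₁⁻¹ : GL (Fin (m + m)) F) : Matrix (Fin (m + m)) (Fin (m + m)) F) = 1 := by
    rw [← Units.val_mul, mul_inv_cancel, Units.val_one]
  have hPP' : ((P₁⁻¹ : GL (Fin (m + m)) F) : Matrix (Fin (m + m)) (Fin (m + m)) F) * (P₁ : Matrix (Fin (m + m)) (Fin (m + m)) F) = 1 := by
    rw [← Units.val_mul, inv_mul_cancel, Units.val_one]
  have hdetX : X.det = 1 := by
    rw [hX, Matrix.det_mul, Matrix.det_mul, hdetY, mul_one, ← Matrix.det_mul, hPP, Matrix.det_one]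
  let x : Matrix.SpecialLinearGroup (Fin (m + m)) F := ⟨X, hdetX⟩
  have hX3 : X * X * X = 1 := by
    have : X * X * X = (P₁ : Matrix (Fin (m + m)) (Fin (m + m)) F) * (Y * Y * Y) * ((P₁⁻¹ : GL (Fin (m + m)) F) : Matrix (Fin (m + m)) (Fin (m + m)) F) := by
      rw [hX]
      simp only [Matrix.mul_assoc]
      simp only [← Matrix.mul_assoc _ (P₁ : Matrix (Fin (m + m)) (Fin (m + m)) F), hPP', Matrix.one_mul]
    rw [this, hY3, Matrix.mul_one, hPP]
  refine ⟨x, ⟨1, ?_⟩, ?_, ?_⟩
  · rw [one_smul]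
    change X ^ 3 = 1
    rw [pow_succ, pow_two, hX3]
  · intro z hz
    have hz' : X = z • 1 := hz
    have hYz : Y = z • 1 := by
      have : Y = ((P₁⁻¹ : GL (Fin (m + m)) F) : Matrix (Fin (m + m)) (Fin (m + m)) F) * X * (P₁ : Matrix (Fin (m + m)) (Fin (m + m)) F) := by
        rw [hX]
        simp only [Matrix.mul_assoc, hPP', Matrix.mul_one]
        simp only [← Matrix.mul_assoc, hPP', Matrix.one_mul]
      rw [this, hz']
      simp only [Matrix.mul_smul, Matrix.smul_mul, Matrix.mul_one, hPP']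
    let a : Fin m := ⟨0, by omega⟩
    have hne : (finSumFinEquiv (Sum.inr a) : Fin (m + m)) ≠ finSumFinEquiv (Sum.inl a) := by
      intro h
      exact absurd (finSumFinEquiv.injective h) (by simp)
    have h1 := congrFun (congrFun hYz (finSumFinEquiv (Sum.inr a))) (finSumFinEquiv (Sum.inl a))
    rw [hY, Matrix.add_apply, Matrix.one_apply_ne hne, hJ, J₀_apply, Matrix.smul_apply, Matrix.one_apply_ne hne] at h1
    simp at h1
  · intro P hP
    rw [Subgroup.mem_comap] at hP
    let PG : GL (Fin (m + m)) F := Matrix.SpecialLinearGroup.toGL P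
    have hPGdet : (PG : Matrix (Fin (m + m)) (Fin (m + m)) F).det = 1 := P.2
    let Q : GL (Fin (m + m)) F := P₁⁻¹ * PG
    let y : GL (Fin (m + m)) F := Matrix.SpecialLinearGroup.toGL (P⁻¹ * x * P)
    have hy : (y : Matrix (Fin (m + m)) (Fin (m + m)) F) = ((Q⁻¹ : GL (Fin (m + m)) F) : Matrix (Fin (m + m)) (Fin (m + m)) F) * Y * (Q : Matrix (Fin (m + m)) (Fin (m + m)) F) := by
      have h1 : y = PG⁻¹ * Matrix.SpecialLinearGroup.toGL x * PG := by
        simp only [y, PG, map_mul, map_inv]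
      have h2 : ((Matrix.SpecialLinearGroup.toGL x : GL (Fin (m + m)) F) : Matrix (Fin (m + m)) (Fin (m + m)) F) = X := rfl
      have h3 : (Q⁻¹ : GL (Fin (m + m)) F) = PG⁻¹ * P₁ := by simp [Q]
      rw [h1, h3]
      simp only [Units.val_mul, h2, Q]
      rw [hX]
      simp only [Matrix.mul_assoc]
    have hQQ : ((Q⁻¹ : GL (Fin (m + m)) F) : Matrix (Fin (m + m)) (Fin (m + m)) F) * (Q : Matrix (Fin (m + m)) (Fin (m + m)) F) = 1 := by
      rw [← Units.val_mul, inv_mul_cancel, Units.val_one]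
    have hQQ' : (Q : Matrix (Fin (m + m)) (Fin (m + m)) F) * ((Q⁻¹ : GL (Fin (m + m)) F) : Matrix (Fin (m + m)) (Fin (m + m)) F) = 1 := by
      rw [← Units.val_mul, mul_inv_cancel, Units.val_one]
    set Ym := (y : Matrix (Fin (m + m)) (Fin (m + m)) F) with hYm
    have hYm3 : Ym * Ym * Ym = 1 := by
      have : Ym * Ym * Ym = ((Q⁻¹ : GL (Fin (m + m)) F) : Matrix (Fin (m + m)) (Fin (m + m)) F) * (Y * Y * Y) * (Q : Matrix (Fin (m + m)) (Fin (m + m)) F) := by
        rw [hy]
        simp only [Matrix.mul_assoc]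
        simp only [← Matrix.mul_assoc _ ((Q⁻¹ : GL (Fin (m + m)) F) : Matrix (Fin (m + m)) (Fin (m + m)) F), hQQ', Matrix.one_mul]
      rw [this, hY3, Matrix.mul_one, hQQ]
    set N' : Matrix (Fin (m + m)) (Fin (m + m)) F := Ym - 1 with hN'
    have hQN : J * (Q : Matrix (Fin (m + m)) (Fin (m + m)) F) = (Q : Matrix (Fin (m + m)) (Fin (m + m)) F) * N' := by
      rw [hN', Matrix.mul_sub, Matrix.mul_one, hy]
      simp only [← Matrix.mul_assoc, hQQ', Matrix.one_mul]
      rw [hY, Matrix.add_mul, Matrix.one_mul]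
      simp
    have hN2 : N' * N' = 0 := by
      have h1 : (Q : Matrix (Fin (m + m)) (Fin (m + m)) F) * (N' * N') = 0 := by
        rw [← Matrix.mul_assoc, ← hQN, Matrix.mul_assoc, ← hQN, ← Matrix.mul_assoc, hJ2, Matrix.zero_mul]
      have h3 := congrArg (fun M => ((Q⁻¹ : GL (Fin (m + m)) F) : Matrix (Fin (m + m)) (Fin (m + m)) F) * M) h1
      simpa [← Matrix.mul_assoc, hQQ] using h3
    have hJker : ∀ v : Fin (m + m) → F, J.mulVec v = 0 → ∃ u, J.mulVec u = v := fun v hv => J₀_ker v hv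
    have hker : ∀ v, N'.mulVec v = 0 → ∃ u, N'.mulVec u = v := by
      intro v hv
      have h1 : J.mulVec ((Q : Matrix (Fin (m + m)) (Fin (m + m)) F).mulVec v) = 0 := by
        rw [Matrix.mulVec_mulVec, hQN, ← Matrix.mulVec_mulVec, hv, Matrix.mulVec_zero]
      obtain ⟨u, hu⟩ := hJker _ h1
      refine ⟨((Q⁻¹ : GL (Fin (m + m)) F) : Matrix (Fin (m + m)) (Fin (m + m)) F).mulVec u, ?_⟩
      have h3 : (Q : Matrix (Fin (m + m)) (Fin (m + m)) F).mulVec (N'.mulVec (((Q⁻¹ : GL (Fin (m + m)) F) : Matrix (Fin (m + m)) (Fin (m + m)) F).mulVec u)) = (Q : Matrix (Fin (m + m)) (Fin (m + m)) F).mulVec v := by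
        rw [Matrix.mulVec_mulVec, ← hQN, ← hu, ← Matrix.mulVec_mulVec, Matrix.mulVec_mulVec u, hQQ', Matrix.one_mulVec]
      have h4 := congrArg (((Q⁻¹ : GL (Fin (m + m)) F) : Matrix (Fin (m + m)) (Fin (m + m)) F).mulVec) h3
      simpa [Matrix.mulVec_mulVec, hQQ] using h4
    obtain ⟨a, ha, hent⟩ := entries_of_mem_sub F₀ hP
    have hent' : ∀ i j, a * Ym i j ∈ F₀ := hent
    have ha3 : a ^ 3 ∈ F₀ := by
      have h1 : (a • Ym) * (a • Ym) * (a • Ym) = a ^ 3 • (1 : Matrix (Fin (m + m)) (Fin (m + m)) F) := by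
        simp only [Matrix.smul_mul, Matrix.mul_smul, smul_smul, hYm3]
        congr 1
        ring
      have h3 := congrFun (congrFun h1 i₀) i₀
      rw [Matrix.smul_apply, Matrix.one_apply_eq, smul_eq_mul, mul_one] at h3
      rw [← h3, Matrix.mul_apply]
      refine F₀.sum_mem fun l _ => F₀.mul_mem ?_ (hent' _ _)
      rw [Matrix.mul_apply]
      exact F₀.sum_mem fun l' _ => F₀.mul_mem (hent' _ _) (hent' _ _)
    have haF : a ∈ F₀ := mem_of_cube_mem F₀ ha3
    have hYent : ∀ i j, Ym i j ∈ F₀ := by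
      intro i j
      have : Ym i j = a⁻¹ * (a * Ym i j) := by field_simp
      rw [this]
      exact F₀.mul_mem (F₀.inv_mem haF) (hent' i j)
    have hNent : ∀ i j, N' i j ∈ F₀ := by
      intro i j
      rw [hN', Matrix.sub_apply]
      refine F₀.sub_mem (hYent i j) ?_
      rw [Matrix.one_apply]
      split_ifs
      · exact F₀.one_mem
      · exact F₀.zero_mem
    let N₀ : Matrix (Fin (m + m)) (Fin (m + m)) F₀ := Matrix.of fun i j => ⟨N' i j, hNent i j⟩
    have hN₀ : N₀.map F₀.subtype = N' := by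
      ext i j
      rfl
    have hinj : Function.Injective (fun M : Matrix (Fin (m + m)) (Fin (m + m)) F₀ => M.map F₀.subtype) :=
      Matrix.map_injective F₀.subtype.injective
    have hN₀2 : N₀ * N₀ = 0 := by
      apply hinj
      simp only [Matrix.map_mul, hN₀, hN2]
      ext i j
      simp
    obtain ⟨lam, hlam⟩ := LinearMap.exists_leftInverse_of_injective (Algebra.linearMap F₀ F)
      (LinearMap.ker_eq_bot.mpr (FaithfulSMul.algebraMap_injective F₀ F))
    have hlam' : ∀ c : F₀, lam (c : F) = c := fun c => congrArg (fun f => f c) hlam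
    have hker₀ : ∀ v, N₀.mulVec v = 0 → ∃ u, N₀.mulVec u = v := by
      intro v hv
      have h1 : N'.mulVec (fun i => (v i : F)) = 0 := by
        funext i
        have h := congrFun hv i
        simp only [Matrix.mulVec, dotProduct, Pi.zero_apply] at h
        have h' := congrArg F₀.subtype h
        rw [map_sum, map_zero] at h'
        exact h'
      obtain ⟨u, hu⟩ := hker _ h1
      refine ⟨fun i => lam (u i), ?_⟩
      funext i
      have h3 := congrFun hu i
      simp only [Matrix.mulVec, dotProduct] at h3 ⊢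
      have h4 := congrArg lam h3
      rw [hlam', map_sum] at h4
      rw [← h4]
      refine Finset.sum_congr rfl fun j _ => ?_
      have : N' i j * u j = (N₀ i j) • u j := rfl
      rw [this, map_smul]
      rfl
    obtain ⟨B₀, hB₀⟩ := exists_chain_basis N₀ hN₀2 hker₀
    let B : Matrix (Fin (m + m)) (Fin (m + m)) F := (B₀ : Matrix (Fin (m + m)) (Fin (m + m)) F₀).map F₀.subtype
    have hB : N' * B = B * J := by
      have := congrArg (fun M : Matrix (Fin (m + m)) (Fin (m + m)) F₀ => M.map F₀.subtype) hB₀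
      simp only [Matrix.map_mul, hN₀, J₀_map] at this
      exact this
    have hdetB : B.det = ((B₀ : Matrix (Fin (m + m)) (Fin (m + m)) F₀).det : F) := by
      have : B = F₀.subtype.mapMatrix (B₀ : Matrix (Fin (m + m)) (Fin (m + m)) F₀) := rfl
      rw [this, ← RingHom.map_det]
      rfl
    have hB₀det : (B₀ : Matrix (Fin (m + m)) (Fin (m + m)) F₀).det ≠ 0 := (Matrix.GeneralLinearGroup.det B₀).ne_zero
    have hBsq : IsSquare B.det := by
      rw [hdetB]
      exact isSquare_of_mem_subfield h2 F₀ hF₀ hq (SetLike.coe_mem _)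
    have hBne : B.det ≠ 0 := by
      rw [hdetB]
      simpa using hB₀det
    set C := (Q : Matrix (Fin (m + m)) (Fin (m + m)) F) * B with hC
    have hCJ : C * J = J * C := by
      rw [hC, Matrix.mul_assoc, ← hB, ← Matrix.mul_assoc, ← hQN, Matrix.mul_assoc]
    have hCsq := isSquare_det_of_commute hCJ
    have hdetC : C.det = ν⁻¹ * B.det := by
      rw [hC, Matrix.det_mul]
      congr 1
      have h5 : (Q : Matrix (Fin (m + m)) (Fin (m + m)) F) = ((P₁⁻¹ : GL (Fin (m + m)) F) : Matrix (Fin (m + m)) (Fin (m + m)) F) * PG := rfl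
      rw [h5, Matrix.det_mul, hPGdet, mul_one]
      have h6 : ((P₁⁻¹ : GL (Fin (m + m)) F) : Matrix (Fin (m + m)) (Fin (m + m)) F).det * ν = 1 := by
        rw [← hP₁, ← Matrix.det_mul, hPP', Matrix.det_one]
      exact eq_inv_of_mul_eq_one_left h6
    have hν' : IsSquare ν⁻¹ := by
      have : ν⁻¹ = C.det / B.det := by
        rw [hdetC]
        field_simp
      rw [this]
      exact hCsq.div hBsq
    exact hν (isSquare_inv.mp hν')

end Bad

section Good

variable {F : Type*} [Field F] [Fintype F] [CharP F 3] {n : ℕ}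

theorem isSquare_mul_of_not' {d z : F} (h2 : ringChar F ≠ 2) (hd : ¬ IsSquare d) (hz : ¬ IsSquare z) : IsSquare (d * z) := by
  classical
  have hd0 : d ≠ 0 := by
    rintro rfl
    exact hd IsSquare.zero
  have hz0 : z ≠ 0 := by
    rintro rfl
    exact hz IsSquare.zero
  rw [← quadraticChar_one_iff_isSquare (mul_ne_zero hd0 hz0), map_mul,
    quadraticChar_neg_one_iff_not_isSquare.mpr hd, quadraticChar_neg_one_iff_not_isSquare.mpr hz]
  norm_num

/-- Conjugating into the subfield subgroup. -/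
theorem exists_conj (F₀ : Subfield F) (hn : 1 ≤ n) (x : Matrix.SpecialLinearGroup (Fin n) F) {z : F}
    (hz : ((x ^ 3 : Matrix.SpecialLinearGroup (Fin n) F) : Matrix (Fin n) (Fin n) F) = z • (1 : Matrix (Fin n) (Fin n) F))
    (hx : ∀ z : F, (x : Matrix (Fin n) (Fin n) F) ≠ z • (1 : Matrix (Fin n) (Fin n) F))
    (hcase : Even n → ∃ ν ∈ F₀, ¬ IsSquare ν) :
    ∃ P : Matrix.SpecialLinearGroup (Fin n) F, P⁻¹ * x * P ∈
      ((Cfsg.Geo.subfieldSubgroup F₀ 1).comap
        (Matrix.SpecialLinearGroup.toGL : Matrix.SpecialLinearGroup (Fin n) F →* GL (Fin n) F)) := by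
  classical
  haveI : Fact (Nat.Prime 3) := ⟨by norm_num⟩
  have h2 : ringChar F ≠ 2 := by
    rw [ringChar.eq F 3]
    norm_num
  let i₀ : Fin n := ⟨0, by omega⟩
  set X : Matrix (Fin n) (Fin n) F := x.1 with hXdef
  have hX3 : X ^ 3 = z • 1 := hz
  have hz0 : z ≠ 0 := by
    rintro rfl
    have h1 : (X ^ 3).det = 1 := by rw [Matrix.det_pow, x.2, one_pow]
    haveI : Nonempty (Fin n) := ⟨i₀⟩
    rw [hX3, zero_smul, Matrix.det_zero] at h1
    exact zero_ne_one h1
  obtain ⟨w, hw⟩ := cube_surjective (F := F) z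
  have hw' : w ^ 3 = z := hw
  have hw0 : w ≠ 0 := by
    rintro rfl
    apply hz0
    rw [← hw']
    simp
  set Y : Matrix (Fin n) (Fin n) F := w⁻¹ • X with hY
  have hY3 : Y ^ 3 = 1 := by
    rw [hY, smul_pow, hX3, smul_smul, inv_pow, hw', inv_mul_cancel₀ hz0, one_smul]
  set N : Matrix (Fin n) (Fin n) F := Y - 1 with hN
  have hN3 : N ^ 3 = 0 := by
    have := Cfsg.Agent.Lib.Linalg.Unipotent.sub_one_pow_char_pow 3 Y 1
    simp only [pow_one] at this
    rw [hN, this, hY3, sub_self]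
  have hN0 : N ≠ 0 := by
    intro h
    apply hx w
    have h1 : Y = 1 := sub_eq_zero.mp h
    have h3 : X = w • Y := by rw [hY, smul_smul, mul_inv_cancel₀ hw0, one_smul]
    exact h3.trans (by rw [h1])
  obtain ⟨P₁, M, hM, hP₁⟩ := exists_mat_shift N ⟨3, hN3⟩
  have hP₁det : (P₁ : Matrix (Fin n) (Fin n) F).det ≠ 0 := (Matrix.GeneralLinearGroup.det P₁).ne_zero
  set δ₀ := (P₁ : Matrix (Fin n) (Fin n) F).det with hδ₀
  -- the determinant adjustment
  have hadj : ∃ (T : GL (Fin n) F) (δ : F), (T : Matrix (Fin n) (Fin n) F) * N = N * (T : Matrix (Fin n) (Fin n) F) ∧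
      δ ∈ F₀ ∧ δ ≠ 0 ∧ (T : Matrix (Fin n) (Fin n) F).det * δ₀ * δ = 1 := by
    rcases cases_of_cube N hN3 hN0 with h | h | ⟨h, hev⟩
    · obtain ⟨c, hc⟩ := cube_surjective (F := F) δ₀⁻¹
      have hc' : c ^ 3 = δ₀⁻¹ := hc
      have hc0 : c ≠ 0 := by
        rintro rfl
        simp at hc'
        exact hP₁det hc'.symm
      obtain ⟨T, hT1, hT2⟩ := h c hc0
      refine ⟨T, 1, hT1, F₀.one_mem, one_ne_zero, ?_⟩
      rw [hT2, hc', mul_one, inv_mul_cancel₀ hP₁det]
    · obtain ⟨T, hT1, hT2⟩ := h δ₀⁻¹ (inv_ne_zero hP₁det)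
      refine ⟨T, 1, hT1, F₀.one_mem, one_ne_zero, ?_⟩
      rw [hT2, pow_one, mul_one, inv_mul_cancel₀ hP₁det]
    · by_cases hs : IsSquare δ₀
      · obtain ⟨c, hc⟩ := hs
        have hc0 : c ≠ 0 := by
          rintro rfl
          simp at hc
          exact hP₁det hc
        obtain ⟨T, hT1, hT2⟩ := h c⁻¹ (inv_ne_zero hc0)
        refine ⟨T, 1, hT1, F₀.one_mem, one_ne_zero, ?_⟩
        rw [hT2, hc]
        field_simp
      · obtain ⟨ν, hνF, hν⟩ := hcase hev
        have hν0 : ν ≠ 0 := by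
          rintro rfl
          exact hν IsSquare.zero
        obtain ⟨c, hc⟩ := isSquare_mul_of_not' h2 hs hν
        have hc0 : c ≠ 0 := by
          rintro rfl
          simp at hc
          rcases hc with h' | h'
          · exact hP₁det h'
          · exact hν0 h'
        obtain ⟨T, hT1, hT2⟩ := h c⁻¹ (inv_ne_zero hc0)
        refine ⟨T, ν, hT1, hνF, hν0, ?_⟩
        rw [hT2, mul_assoc, hc]
        field_simp
  obtain ⟨T, δ, hT, hδF, hδ0, hdet⟩ := hadj
  let d : Fin n → F := fun i => if i = i₀ then δ else 1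
  have hd0 : ∀ i, d i ≠ 0 := by
    intro i
    simp only [d]
    split_ifs
    · exact hδ0
    · exact one_ne_zero
  have hdF : ∀ i, d i ∈ F₀ := by
    intro i
    simp only [d]
    split_ifs
    · exact hδF
    · exact F₀.one_mem
  have hdd : (Matrix.diagonal d).det = δ := by
    rw [Matrix.det_diagonal, Finset.prod_ite]
    simp [Finset.filter_eq', Finset.filter_ne']
  let D : GL (Fin n) F := Matrix.GeneralLinearGroup.mkOfDetNeZero (Matrix.diagonal d) (by rw [hdd]; exact hδ0)
  have hD : (D : Matrix (Fin n) (Fin n) F) = Matrix.diagonal d := rfl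
  have hDinv : ((D⁻¹ : GL (Fin n) F) : Matrix (Fin n) (Fin n) F) = Matrix.diagonal (fun i => (d i)⁻¹) := by
    have h1 : (D : Matrix (Fin n) (Fin n) F) * Matrix.diagonal (fun i => (d i)⁻¹) = 1 := by
      rw [hD, Matrix.diagonal_mul_diagonal]
      simp [hd0]
    have h3 : ((D⁻¹ : GL (Fin n) F) : Matrix (Fin n) (Fin n) F) * (D : Matrix (Fin n) (Fin n) F) = 1 := by
      rw [← Units.val_mul, inv_mul_cancel, Units.val_one]
    calc ((D⁻¹ : GL (Fin n) F) : Matrix (Fin n) (Fin n) F)
        = ((D⁻¹ : GL (Fin n) F) : Matrix (Fin n) (Fin n) F) * ((D : Matrix (Fin n) (Fin n) F) * Matrix.diagonal (fun i => (d i)⁻¹)) := by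
          rw [h1, Matrix.mul_one]
      _ = _ := by rw [← Matrix.mul_assoc, h3, Matrix.one_mul]
  let PG : GL (Fin n) F := T * P₁ * D
  have hPGdet : (PG : Matrix (Fin n) (Fin n) F).det = 1 := by
    have : (PG : Matrix (Fin n) (Fin n) F) = (T : Matrix (Fin n) (Fin n) F) * P₁ * D := rfl
    rw [this, Matrix.det_mul, Matrix.det_mul, ← hδ₀, hD, hdd]
    exact hdet
  let P : Matrix.SpecialLinearGroup (Fin n) F := ⟨PG, hPGdet⟩
  have hPG : Matrix.SpecialLinearGroup.toGL P = PG := by
    apply Units.ext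
    rfl
  refine ⟨P, ?_⟩
  rw [Subgroup.mem_comap]
  have hval : Matrix.SpecialLinearGroup.toGL (P⁻¹ * x * P) = PG⁻¹ * Matrix.SpecialLinearGroup.toGL x * PG := by
    simp only [map_mul, map_inv, hPG]
  have hXval : ((Matrix.SpecialLinearGroup.toGL x : GL (Fin n) F) : Matrix (Fin n) (Fin n) F) = X := rfl
  set y : GL (Fin n) F := Matrix.SpecialLinearGroup.toGL (P⁻¹ * x * P) with hy
  -- the key identity
  have hXY : X = w • (1 + N) := by
    rw [hN, add_sub_cancel, hY, smul_smul, mul_inv_cancel₀ hw0, one_smul]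
  have hP₁inv : N * (P₁ : Matrix (Fin n) (Fin n) F) = (P₁ : Matrix (Fin n) (Fin n) F) * M := hP₁
  have hkey : (PG : Matrix (Fin n) (Fin n) F) * (y : Matrix (Fin n) (Fin n) F) =
      (PG : Matrix (Fin n) (Fin n) F) * (w • (1 + ((D⁻¹ : GL (Fin n) F) : Matrix (Fin n) (Fin n) F) * M * D)) := by
    have h1 : (y : Matrix (Fin n) (Fin n) F) = ((PG⁻¹ : GL (Fin n) F) : Matrix (Fin n) (Fin n) F) * X * PG := by
      rw [hval]
      rfl
    have h3 : (PG : Matrix (Fin n) (Fin n) F) * ((PG⁻¹ : GL (Fin n) F) : Matrix (Fin n) (Fin n) F) = 1 := by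
      rw [← Units.val_mul, mul_inv_cancel, Units.val_one]
    have h4 : (PG : Matrix (Fin n) (Fin n) F) = (T : Matrix (Fin n) (Fin n) F) * P₁ * D := rfl
    have h5 : (D : Matrix (Fin n) (Fin n) F) * ((D⁻¹ : GL (Fin n) F) : Matrix (Fin n) (Fin n) F) = 1 := by
      rw [← Units.val_mul, mul_inv_cancel, Units.val_one]
    rw [h1, ← Matrix.mul_assoc, ← Matrix.mul_assoc, h3, Matrix.one_mul, hXY]
    rw [Matrix.smul_mul, Matrix.mul_smul]
    congr 1
    rw [Matrix.add_mul, Matrix.mul_add, Matrix.one_mul, Matrix.mul_one]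
    congr 1
    rw [h4]
    calc N * ((T : Matrix (Fin n) (Fin n) F) * P₁ * D) = (N * T) * P₁ * D := by simp only [Matrix.mul_assoc]
      _ = T * (N * P₁) * D := by rw [← hT]; simp only [Matrix.mul_assoc]
      _ = T * (P₁ * M) * D := by rw [hP₁inv]
      _ = T * P₁ * (D * ((D⁻¹ : GL (Fin n) F) : Matrix (Fin n) (Fin n) F)) * M * D := by
        rw [h5, Matrix.mul_one]
        simp only [Matrix.mul_assoc]
      _ = _ := by simp only [Matrix.mul_assoc]
  have hyval : (y : Matrix (Fin n) (Fin n) F) = w • (1 + ((D⁻¹ : GL (Fin n) F) : Matrix (Fin n) (Fin n) F) * M * D) := by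
    have h3 : ((PG⁻¹ : GL (Fin n) F) : Matrix (Fin n) (Fin n) F) * (PG : Matrix (Fin n) (Fin n) F) = 1 := by
      rw [← Units.val_mul, inv_mul_cancel, Units.val_one]
    have := congrArg (fun A => ((PG⁻¹ : GL (Fin n) F) : Matrix (Fin n) (Fin n) F) * A) hkey
    simpa only [← Matrix.mul_assoc, h3, Matrix.one_mul] using this
  refine Cfsg.Agent.S5964.mem_sub_of_entries F₀ (inv_ne_zero hw0) (fun i j => ?_)
  rw [hyval, Matrix.smul_apply, smul_eq_mul, ← mul_assoc, inv_mul_cancel₀ hw0, one_mul, Matrix.add_apply]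
  refine F₀.add_mem ?_ ?_
  · rw [Matrix.one_apply]
    split_ifs
    · exact F₀.one_mem
    · exact F₀.zero_mem
  · rw [hDinv, hD, Matrix.mul_diagonal, Matrix.diagonal_mul]
    refine F₀.mul_mem (F₀.mul_mem (F₀.inv_mem (hdF i)) ?_) (hdF j)
    rcases hM i j with h | h <;> rw [h]
    · exact F₀.zero_mem
    · exact F₀.one_mem

/-- A non-square of the big field in a subfield of odd degree. -/
theorem exists_nonsquare_mem {F : Type*} [Field F] [Fintype F] (h2 : ringChar F ≠ 2) (F₀ : Subfield F) {k q₀ : ℕ}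
    (hF₀ : Nat.card F₀ = q₀) (hq : Fintype.card F = q₀ ^ k) (hk : Odd k) : ∃ ν ∈ F₀, ¬ IsSquare ν := by
  classical
  by_contra hcon
  push Not at hcon
  letI : Fintype F₀ := Fintype.ofFinite _
  have hc : Fintype.card F₀ = q₀ := by rw [← Nat.card_eq_fintype_card, hF₀]
  have hodd : Fintype.card F % 2 = 1 := FiniteField.odd_card_of_char_ne_two h2
  have hq₀ : Odd q₀ := by
    rw [hq, Nat.odd_iff.symm] at hodd
    exact (Nat.odd_pow_iff (by exact hk.pos.ne')).mp hodd
  have hq₀2 : 2 ≤ q₀ := by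
    rw [← hc]
    exact Fintype.one_lt_card
  obtain ⟨g, hg⟩ := IsCyclic.exists_generator (α := F₀ˣ)
  have hord : orderOf g = q₀ - 1 := by
    rw [orderOf_eq_card_of_forall_mem_zpowers hg, Nat.card_eq_fintype_card, Fintype.card_units, hc]
  have hg0 : ((g : F₀) : F) ≠ 0 := by simp
  have h1 := hcon _ (g : F₀).2
  rw [FiniteField.isSquare_iff h2 hg0] at h1
  have h3 : g ^ (Fintype.card F / 2) = 1 := by
    apply Units.ext
    apply Subtype.ext
    simpa using h1
  have h4 : q₀ - 1 ∣ Fintype.card F / 2 := by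
    rw [← hord]
    exact orderOf_dvd_of_pow_eq_one h3
  obtain ⟨x, hx⟩ : ∃ x, q₀ = x + 1 := ⟨q₀ - 1, by omega⟩
  have hS := geom_sum_mul_add x k
  set S := ∑ i ∈ Finset.range k, (x + 1) ^ i with hSdef
  have hSodd : Odd S := by
    rw [hSdef, Finset.odd_sum_iff_odd_card_odd]
    have : (Finset.range k).filter (fun j => Odd ((x + 1) ^ j)) = Finset.range k := by
      apply Finset.filter_true_of_mem
      intro j _
      rw [← hx]
      exact hq₀.pow
    rw [this, Finset.card_range]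
    exact hk
  rw [hx, Nat.add_sub_cancel] at h4
  rw [← hx] at hS
  obtain ⟨t, ht⟩ := h4
  have h5 : Fintype.card F = 2 * (x * t) + 1 := by
    have := Nat.div_add_mod (Fintype.card F) 2
    rw [ht, hodd] at this
    exact this.symm
  rw [hq, ← hS] at h5
  have h6 : S * x = 2 * (x * t) := by omega
  have hx0 : 0 < x := by omega
  have h7 : S = 2 * t := by
    apply Nat.eq_of_mul_eq_mul_right hx0
    rw [h6]
    ring
  rw [h7] at hSodd
  exact (Nat.not_odd_iff_even.mpr (even_two_mul t)) hSodd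

end Good

/-- Elements of order 3 of PSL_n(q) in characteristic 3 and subfield subgroups. -/
theorem result {F : Type*} [Field F] [Fintype F] [CharP F 3] {q : ℕ} (hq : Fintype.card F = q)
    (n : ℕ) (hn : 2 ≤ n) (hT : (n, q) ≠ (2, 3))
    (F₀ : Subfield F) (k q₀ : ℕ) (hk : k.Prime) (hF₀ : Nat.card ↥F₀ = q₀) (hqk : q = q₀ ^ k) (hC5 : ¬ (n = 2 ∧ q₀ = 2)) (hΩ : 3 ∣ ((Cfsg.Geo.subfieldSubgroup F₀ 1).comap (Matrix.SpecialLinearGroup.toGL : Matrix.SpecialLinearGroup (Fin n) F →* GL (Fin n) F)).index) :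
    (∀ x : Matrix.SpecialLinearGroup (Fin n) F,
      (∃ z : F, ((x ^ 3 : Matrix.SpecialLinearGroup (Fin n) F) : Matrix (Fin n) (Fin n) F) = z • (1 : Matrix (Fin n) (Fin n) F)) →
      (∀ z : F, (x : Matrix (Fin n) (Fin n) F) ≠ z • (1 : Matrix (Fin n) (Fin n) F)) →
      ∃ P : Matrix.SpecialLinearGroup (Fin n) F, P⁻¹ * x * P ∈ ((Cfsg.Geo.subfieldSubgroup F₀ 1).comap (Matrix.SpecialLinearGroup.toGL : Matrix.SpecialLinearGroup (Fin n) F →* GL (Fin n) F))) ↔
    (Odd n ∨ (Even n ∧ 2 < k)) := by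
  classical
  have h2 : ringChar F ≠ 2 := by
    rw [ringChar.eq F 3]
    norm_num
  subst hqk
  constructor
  · intro hL
    by_contra hR
    push Not at hR
    obtain ⟨hodd, hR⟩ := hR
    rw [Nat.not_odd_iff_even] at hodd
    have hk2 : k = 2 := by
      have := hR hodd
      have := hk.two_le
      omega
    subst hk2
    obtain ⟨m, rfl⟩ := hodd
    obtain ⟨x, hx1, hx2, hx3⟩ := exists_bad3 F₀ hF₀ hq (m := m) (by omega)
    obtain ⟨z, hz⟩ := hx1
    obtain ⟨P, hP⟩ := hL x ⟨z, hz⟩ hx2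
    exact hx3 P hP
  · rintro hR x ⟨z, hz⟩ hx
    refine exists_conj F₀ (by omega) x hz hx ?_
    intro hev
    rcases hR with h | ⟨-, h⟩
    · exact absurd hev (Nat.not_even_iff_odd.mpr h)
    · exact exists_nonsquare_mem h2 F₀ hF₀ hq (hk.odd_of_ne_two (by omega))

end Cfsg.Agent.S5966
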