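import Cfsg.Statements.S5967
import Cfsg.Agent.Lib.Classical.Elusive.SqScalar
import Cfsg.Agent.Lib.Linalg.Forms
import Mathlib

set_option autoImplicit false
open scoped MatrixGroups
open Cfsg

namespace Cfsg.Agent.S5967

open Module Matrix Cfsg.Agent.Lib.Classical.Elusive.SqScalar

variable {F : Type*} [Field F] {n : ℕ}

/-- The bilinear form of a symplectic form. -/
noncomputable def bil {f : (Fin n → F) → (Fin n → F) → F} (hf : Cfsg.Geo.IsSymplecticForm f) :
    LinearMap.BilinForm F (Fin n → F) :=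
  LinearMap.mk₂ F f hf.bilinear.add_left hf.bilinear.smul_left hf.bilinear.add_right
    hf.bilinear.smul_right

theorem bil_apply {f : (Fin n → F) → (Fin n → F) → F} (hf : Cfsg.Geo.IsSymplecticForm f)
    (u v : Fin n → F) : bil hf u v = f u v := rfl

/-- A hyperbolic basis. -/
theorem exists_hyperbolic {T : Type} [Fintype T] [DecidableEq T]
    {f : (Fin n → F) → (Fin n → F) → F} (hf : Cfsg.Geo.IsSymplecticForm f)
    (hT : 2 * Fintype.card T = n) :
    ∃ c : Basis (Fin 2 × T) F (Fin n → F), ∀ l l' t t', bil hf (c (l, t)) (c (l', t')) =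
      if t = t' then (!![0, 1; -1, 0] : Matrix (Fin 2) (Fin 2) F) l l' else 0 := by
  classical
  obtain ⟨m, k, b, hef, hee, hff, hrad⟩ :=
    Cfsg.Agent.Lib.Linalg.Forms.exists_symplectic_basis (bil hf) (fun v => hf.alternating v)
  have hk : IsEmpty (Fin k) := by
    constructor
    intro j
    obtain ⟨-, ⟨y, hy⟩⟩ := hf.nondegenerate _ (b.ne_zero (.inr j))
    exact hy (hrad j y)
  have hcard : m + m = n := by
    have h := finrank_eq_card_basis b
    simpa using h.symm
  have hTm : Fintype.card T = m := by omega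
  let e : T ≃ Fin m := Fintype.equivFinOfCardEq hTm
  let φ : Fin 2 × T → (Fin m ⊕ Fin m) ⊕ Fin k :=
    fun p => .inl (if p.1 = 0 then .inl (e p.2) else .inr (e p.2))
  have hφ : Function.Bijective φ := by
    constructor
    · rintro ⟨l, t⟩ ⟨l', t'⟩ h
      fin_cases l <;> fin_cases l' <;> simp [φ] at h ⊢ <;> exact h
    · rintro ((i | i) | j)
      · exact ⟨(0, e.symm i), by simp [φ]⟩
      · exact ⟨(1, e.symm i), by simp [φ]⟩
      · exact hk.elim j
  let E := Equiv.ofBijective φ hφ
  refine ⟨b.reindex E.symm, fun l l' t t' => ?_⟩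
  have hc : ∀ p, (b.reindex E.symm) p = b (φ p) := fun p => by
    rw [Basis.reindex_apply]; rfl
  have hinj : ∀ t t' : T, (e t = e t') ↔ t = t' := fun t t' => e.injective.eq_iff
  rw [hc, hc]
  by_cases htt : t = t'
  · subst htt
    fin_cases l <;> fin_cases l' <;> simp [φ, hef, hee, hff]
    rw [Cfsg.Agent.Lib.Linalg.Forms.alt_skew (fun v => hf.alternating v), hef]
    simp
  · fin_cases l <;> fin_cases l' <;> simp [φ, hef, hee, hff, htt, hinj]
    rw [Cfsg.Agent.Lib.Linalg.Forms.alt_skew (fun v => hf.alternating v), hef]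
    simp [hinj, Ne.symm htt]

/-- Planes with constant determinant scale a hyperbolic form. -/
theorem scale_of_block {V : Type*} [AddCommGroup V] [Module F V] {T : Type} [DecidableEq T]
    (Bf : LinearMap.BilinForm F V) (c : Basis (Fin 2 × T) F V)
    (hc : ∀ l l' t t', Bf (c (l, t)) (c (l', t')) =
      if t = t' then (!![0, 1; -1, 0] : Matrix (Fin 2) (Fin 2) F) l l' else 0)
    (G : V →ₗ[F] V) (B : T → Matrix (Fin 2) (Fin 2) F) (hG : IsBlock G c B) (c₀ : F)
    (hdet : ∀ t, (B t).det = c₀) (u v : V) : Bf (G u) (G v) = c₀ * Bf u v := by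
  have h : Bf.compl₁₂ G G = c₀ • Bf := by
    apply LinearMap.BilinForm.ext_basis c
    rintro ⟨l, t⟩ ⟨l', t'⟩
    rw [LinearMap.compl₁₂_apply, hG, hG]
    simp only [map_add, map_smul, LinearMap.add_apply, LinearMap.smul_apply, hc, smul_eq_mul]
    by_cases htt : t = t'
    · subst htt
      have hd := hdet t
      rw [det_fin_two] at hd
      subst hd
      fin_cases l <;> fin_cases l' <;> simp <;> ring
    · simp [htt]
  have := congrArg (fun C => C u v) h
  simpa using this

/-- From the normal form to a conjugate in the similarity group. -/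
theorem exists_conj_of_good [Fintype F] {f : (Fin n → F) → (Fin n → F) → F}
    (hf : Cfsg.Geo.IsSymplecticForm f) (x : Matrix.SpecialLinearGroup (Fin n) F) {c₀ : F}
    (hc₀ : c₀ ≠ 0) (hg : Good (toLin' (x : Matrix (Fin n) (Fin n) F)) c₀) :
    ∃ P : Matrix.SpecialLinearGroup (Fin n) F, P⁻¹ * x * P ∈
      ((Cfsg.Geo.similarityGroup f).comap
        (Matrix.SpecialLinearGroup.toGL : Matrix.SpecialLinearGroup (Fin n) F →* GL (Fin n) F)) := by
  classical
  obtain ⟨T, _, _, b, B, hb, hdet, hA⟩ := hg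
  have hT : 2 * Fintype.card T = n := by
    have h := finrank_eq_card_basis b
    simpa using h.symm
  obtain ⟨c, hc⟩ := exists_hyperbolic hf hT
  let P₀ : (Fin n → F) →ₗ[F] (Fin n → F) := (c.equiv b (Equiv.refl _)).toLinearMap
  have hP₀ : ∀ i, P₀ (c i) = b i := fun i => by simp [P₀]
  have hP₀d : LinearMap.det P₀ ≠ 0 := by
    have h1 : P₀ ∘ₗ (b.equiv c (Equiv.refl _)).toLinearMap = LinearMap.id := by
      apply b.ext
      intro i
      simp [P₀]
    intro h0
    have h2 := congrArg LinearMap.det h1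
    rw [LinearMap.det_comp, h0, zero_mul, LinearMap.det_id] at h2
    exact zero_ne_one h2
  obtain ⟨t, A, hAc, hAd⟩ := hA (LinearMap.det P₀)⁻¹
  obtain ⟨D, hDc, hDd⟩ := hb.exists_commuting_det t A hAc
  let Q : (Fin n → F) →ₗ[F] (Fin n → F) := D ∘ₗ P₀
  have hQd : LinearMap.det Q = 1 := by
    rw [LinearMap.det_comp, hDd, hAd, inv_mul_cancel₀ hP₀d]
  let P : Matrix.SpecialLinearGroup (Fin n) F := ⟨LinearMap.toMatrix' Q, by
    rw [LinearMap.det_toMatrix', hQd]⟩
  have hPv : ∀ v, (P : Matrix (Fin n) (Fin n) F) *ᵥ v = Q v := fun v => by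
    show LinearMap.toMatrix' Q *ᵥ v = Q v
    rw [← toLin'_apply, toLin'_toMatrix']
  have hPinv : ∀ v, ((P⁻¹ : Matrix.SpecialLinearGroup (Fin n) F) : Matrix (Fin n) (Fin n) F) *ᵥ
      ((P : Matrix (Fin n) (Fin n) F) *ᵥ v) = v := fun v => by
    rw [mulVec_mulVec]
    have : ((P⁻¹ : Matrix.SpecialLinearGroup (Fin n) F) : Matrix (Fin n) (Fin n) F) *
        (P : Matrix (Fin n) (Fin n) F) = 1 := by
      rw [← Matrix.SpecialLinearGroup.coe_mul, inv_mul_cancel, Matrix.SpecialLinearGroup.coe_one]
    rw [this, one_mulVec]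
  have hQinj : ∀ v w, Q v = Q w → v = w := fun v w h => by
    rw [← hPinv v, ← hPinv w, hPv, hPv, h]
  let Y : Matrix.SpecialLinearGroup (Fin n) F := P⁻¹ * x * P
  have hY : ∀ v, (P : Matrix (Fin n) (Fin n) F) *ᵥ ((Y : Matrix (Fin n) (Fin n) F) *ᵥ v) =
      (x : Matrix (Fin n) (Fin n) F) *ᵥ ((P : Matrix (Fin n) (Fin n) F) *ᵥ v) := fun v => by
    rw [mulVec_mulVec, mulVec_mulVec, ← Matrix.SpecialLinearGroup.coe_mul,
      ← Matrix.SpecialLinearGroup.coe_mul]
    have : P * Y = x * P := by simp [Y, mul_assoc]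
    rw [this]
  have hQc : ∀ i, Q (c i) = D (b i) := fun i => by simp [Q, hP₀]
  have hblock : IsBlock (toLin' (Y : Matrix (Fin n) (Fin n) F)) c B := by
    intro l u
    apply hQinj
    rw [toLin'_apply, ← hPv, hY, hPv, hQc, ← toLin'_apply, ← hDc, hb l u, map_add, map_add, map_smul,
      map_smul, map_smul, map_smul, hQc, hQc]
  refine ⟨P, Units.mk0 c₀ hc₀, fun u v => ?_⟩
  exact scale_of_block (bil hf) c hc _ B hblock c₀ hdet u v

/-- The obstruction: `diag (-s, s, ..., s)` scales no nondegenerate alternating form. -/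
theorem no_similarity (hn : 3 ≤ n) {s c : F} (h2 : (2 : F) ≠ 0) (hs : s ≠ 0)
    (g : LinearMap.BilinForm F (Fin n → F)) (halt : g.IsAlt)
    (hnd : ∀ v, (∀ i, g v (Pi.single i 1) = 0) → v = 0) (i₀ : Fin n)
    (hc : ∀ u v, g (diagonal (fun i => if i = i₀ then -s else s) *ᵥ u)
      (diagonal (fun i => if i = i₀ then -s else s) *ᵥ v) = c * g u v) : False := by
  classical
  let d : Fin n → F := fun i => if i = i₀ then -s else s
  let E : Fin n → Fin n → F := fun i => Pi.single i 1
  have he : ∀ i, diagonal d *ᵥ E i = d i • E i := by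
    intro i
    simp only [E]
    rw [diagonal_mulVec_single]
    ext j
    by_cases hj : j = i
    · subst hj; simp
    · simp [hj]
  let G : Fin n → Fin n → F := fun i j => g (E i) (E j)
  have hG : ∀ i j, d i * d j * G i j = c * G i j := by
    intro i j
    have := hc (E i) (E j)
    change g (diagonal d *ᵥ E i) (diagonal d *ᵥ E j) = c * g (E i) (E j) at this
    rw [he, he] at this
    simp only [map_smul, LinearMap.smul_apply, smul_eq_mul] at this
    simp only [G]
    linear_combination this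
  have hskew : ∀ i j, G j i = - G i j := fun i j =>
    Cfsg.Agent.Lib.Linalg.Forms.alt_skew halt (E i) (E j)
  have h00 : ∀ i, G i i = 0 := fun i => halt (E i)
  have hE : ∀ i, E i ≠ 0 := by
    intro i h
    have := congrFun h i
    simp [E] at this
  by_cases hcs : c = - s ^ 2
  · subst hcs
    obtain ⟨i₁, i₂, h1, h2', h12⟩ : ∃ i₁ i₂ : Fin n, i₁ ≠ i₀ ∧ i₂ ≠ i₀ ∧ i₁ ≠ i₂ := by
      have hcard : 1 < (Finset.univ.erase i₀).card := by
        rw [Finset.card_erase_of_mem (Finset.mem_univ _), Finset.card_univ, Fintype.card_fin]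
        omega
      obtain ⟨a, ha, b, hb, hab⟩ := Finset.one_lt_card.1 hcard
      exact ⟨a, b, Finset.ne_of_mem_erase ha, Finset.ne_of_mem_erase hb, hab⟩
    have hzero : ∀ i j, i ≠ i₀ → j ≠ i₀ → G i j = 0 := by
      intro i j hi hj
      have h3 := hG i j
      simp only [d, hi, hj, if_false] at h3
      have h4 : 2 * s ^ 2 * G i j = 0 := by linear_combination h3
      exact (mul_eq_zero.1 h4).resolve_left (mul_ne_zero h2 (pow_ne_zero _ hs))
    have hv : ∀ j, g (G i₀ i₂ • E i₁ - G i₀ i₁ • E i₂) (E j) = 0 := by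
      intro j
      simp only [map_sub, map_smul, LinearMap.sub_apply, LinearMap.smul_apply, smul_eq_mul]
      change G i₀ i₂ * G i₁ j - G i₀ i₁ * G i₂ j = 0
      by_cases hj : j = i₀
      · subst hj
        rw [hskew j i₁, hskew j i₂]
        ring
      · rw [hzero _ _ h1 hj, hzero _ _ h2' hj]
        ring
    have hv0 := hnd _ hv
    have h3 : G i₀ i₂ = 0 := by
      have := congrFun hv0 i₁
      simpa [E, h12, Pi.single_apply] using this
    have h4 : G i₀ i₁ = 0 := by
      have := congrFun hv0 i₂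
      simpa [E, Ne.symm h12, Pi.single_apply] using this
    refine hE i₁ (hnd _ fun j => ?_)
    change G i₁ j = 0
    by_cases hj : j = i₀
    · subst hj
      rw [hskew j i₁, h4, neg_zero]
    · exact hzero _ _ h1 hj
  · refine hE i₀ (hnd _ fun j => ?_)
    change G i₀ j = 0
    by_cases hj : j = i₀
    · subst hj; exact h00 _
    · have h3 := hG i₀ j
      simp only [d, hj, if_true, if_false] at h3
      have h4 : (c + s ^ 2) * G i₀ j = 0 := by linear_combination -h3
      refine (mul_eq_zero.1 h4).resolve_left fun h5 => hcs ?_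
      linear_combination h5

/-- Statement S5967. -/
theorem result {F : Type*} [Field F] [Fintype F] {p : ℕ} [Fact p.Prime] [CharP F p] {q : ℕ} (hq : Fintype.card F = q)
    (n : ℕ) (hn : 4 ≤ n) (he : Even n) (f : (Fin n → F) → (Fin n → F) → F) (hf : Cfsg.Geo.IsSymplecticForm f)
    (hΩ : 2 ∣ ((Cfsg.Geo.similarityGroup f).comap (Matrix.SpecialLinearGroup.toGL : Matrix.SpecialLinearGroup (Fin n) F →* GL (Fin n) F)).index) :
    (∀ x : Matrix.SpecialLinearGroup (Fin n) F,
      (∃ z : F, ((x ^ 2 : Matrix.SpecialLinearGroup (Fin n) F) : Matrix (Fin n) (Fin n) F) = z • (1 : Matrix (Fin n) (Fin n) F)) →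
      (∀ z : F, (x : Matrix (Fin n) (Fin n) F) ≠ z • (1 : Matrix (Fin n) (Fin n) F)) →
      ∃ P : Matrix.SpecialLinearGroup (Fin n) F, P⁻¹ * x * P ∈ ((Cfsg.Geo.similarityGroup f).comap (Matrix.SpecialLinearGroup.toGL : Matrix.SpecialLinearGroup (Fin n) F →* GL (Fin n) F))) ↔
    padicValNat 2 (q - 1) ≤ padicValNat 2 n := by
  classical
  subst hq
  have hn0 : n ≠ 0 := by omega
  constructor
  · intro H
    by_contra hv
    rw [not_le] at hv
    obtain ⟨s, hs, hsn⟩ := exists_pow_eq_neg_one hn0 hv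
    haveI : Fact (Nat.Prime 2) := ⟨Nat.prime_two⟩
    have h2 : (2 : F) ≠ 0 := by
      intro h
      have hchar : ringChar F = 2 :=
        CharP.ringChar_of_prime_eq_zero Nat.prime_two (by exact_mod_cast h)
      have h3 := FiniteField.even_card_iff_char_two.1 hchar
      have h4 := Fintype.one_lt_card (α := F)
      have h5 : padicValNat 2 (Fintype.card F - 1) = 0 :=
        padicValNat.eq_zero_of_not_dvd (by omega)
      omega
    let i₀ : Fin n := ⟨0, by omega⟩
    let i₁ : Fin n := ⟨1, by omega⟩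
    have h01 : i₁ ≠ i₀ := by simp [i₀, i₁, Fin.ext_iff]
    let d : Fin n → F := fun i => if i = i₀ then -s else s
    have hdet : (diagonal d).det = 1 := by
      rw [det_diagonal]
      have : ∀ i, d i = (if i = i₀ then -1 else 1) * s := by
        intro i
        by_cases h : i = i₀ <;> simp [d, h]
      simp only [this]
      rw [Finset.prod_mul_distrib, Finset.prod_ite_eq' Finset.univ i₀ (fun _ => (-1 : F))]
      simp [hsn]
    let x : Matrix.SpecialLinearGroup (Fin n) F := ⟨diagonal d, hdet⟩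
    have hdd : ∀ i, d i * d i = s ^ 2 := by
      intro i
      by_cases h : i = i₀ <;> simp [d, h, sq]
    obtain ⟨P, c, hc⟩ := H x ⟨s ^ 2, by
        show diagonal d ^ 2 = _
        rw [sq, diagonal_mul_diagonal]
        ext i j
        by_cases hij : i = j
        · subst hij; simp [hdd]
        · simp [hij]⟩ (by
        intro z hz
        have h3 := congrFun (congrFun hz i₀) i₀
        have h4 := congrFun (congrFun hz i₁) i₁
        have h5 : (diagonal d) i₀ i₀ = -s := by simp [d]
        have h6 : (diagonal d) i₁ i₁ = s := by simp [d, h01]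
        change (diagonal d) i₀ i₀ = _ at h3
        change (diagonal d) i₁ i₁ = _ at h4
        rw [h5] at h3
        rw [h6] at h4
        simp at h3 h4
        have h7 : 2 * s = 0 := by linear_combination h4 - h3
        exact (mul_ne_zero h2 hs) h7)
    let Pn : (Fin n → F) →ₗ[F] (Fin n → F) :=
      toLin' ((P⁻¹ : Matrix.SpecialLinearGroup (Fin n) F) : Matrix (Fin n) (Fin n) F)
    have hPn : ∀ v, Pn v = ((P⁻¹ : Matrix.SpecialLinearGroup (Fin n) F) : Matrix (Fin n) (Fin n) F) *ᵥ v :=
      fun v => toLin'_apply _ _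
    have h1 : ∀ v, (P : Matrix (Fin n) (Fin n) F) *ᵥ Pn v = v := fun v => by
      rw [hPn, mulVec_mulVec, ← Matrix.SpecialLinearGroup.coe_mul, mul_inv_cancel,
        Matrix.SpecialLinearGroup.coe_one, one_mulVec]
    have h3 : ∀ v, Pn ((P : Matrix (Fin n) (Fin n) F) *ᵥ v) = v := fun v => by
      rw [hPn, mulVec_mulVec, ← Matrix.SpecialLinearGroup.coe_mul, inv_mul_cancel,
        Matrix.SpecialLinearGroup.coe_one, one_mulVec]
    let g : LinearMap.BilinForm F (Fin n → F) := (bil hf).compl₁₂ Pn Pn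
    have hg : ∀ u v, g u v = f (Pn u) (Pn v) := fun u v => rfl
    refine no_similarity (by omega) h2 hs g (fun u => ?_) ?_ i₀ ?_ (c := (c : F))
    · rw [hg]; exact hf.alternating _
    · intro v hv
      by_contra hv0
      have hPv : Pn v ≠ 0 := by
        intro h0
        apply hv0
        rw [← h1 v, h0, mulVec_zero]
      obtain ⟨-, ⟨w, hw⟩⟩ := hf.nondegenerate _ hPv
      have hφ : g v = 0 := (Pi.basisFun F (Fin n)).ext (fun i => by simpa using hv i)
      apply hw
      have h4 := congrArg (fun φ => φ ((P : Matrix (Fin n) (Fin n) F) *ᵥ w)) hφ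
      simp only [LinearMap.zero_apply] at h4
      rw [hg, h3] at h4
      exact h4
    · intro u v
      have h4 : ∀ u, Pn (x.1 *ᵥ u) = ((P⁻¹ * x * P : Matrix.SpecialLinearGroup (Fin n) F) :
          Matrix (Fin n) (Fin n) F) *ᵥ Pn u := by
        intro u
        rw [Matrix.SpecialLinearGroup.coe_mul, Matrix.SpecialLinearGroup.coe_mul, ← mulVec_mulVec,
          ← mulVec_mulVec, h1, hPn]
      rw [hg, hg]
      change f (Pn (x.1 *ᵥ u)) (Pn (x.1 *ᵥ v)) = _
      rw [h4, h4]
      exact hc _ _
  · intro hv x ⟨z, hz⟩ _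
    have hfin : finrank F (Fin n → F) = n := Module.finrank_fin_fun F
    obtain ⟨c₀, hc₀, hg⟩ := good_of_sq (X := toLin' (x : Matrix (Fin n) (Fin n) F)) (z := z)
      (by
        intro v
        rw [toLin'_apply, toLin'_apply, mulVec_mulVec, ← sq]
        have h3 : (x : Matrix (Fin n) (Fin n) F) ^ 2 = z • 1 := by
          rw [← hz]; rfl
        rw [h3, smul_mulVec, one_mulVec])
      (by rw [LinearMap.det_toLin']; exact x.2)
      (by rwa [hfin]) (by rw [hfin]; omega) (by rwa [hfin])
    exact exists_conj_of_good hf x hc₀ hg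

end Cfsg.Agent.S5967
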