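import Cfsg.Statements.S5969
import Cfsg.Agent.S5964
import Mathlib

set_option autoImplicit false
open scoped MatrixGroups
open Cfsg

namespace Cfsg.Agent.S5969

open Module Cfsg.Geo
open Cfsg.Agent.S5957 (Inv Split plane_split dichotomy line_split finrank_span_pair_of_li inv_sup)
open Cfsg.Agent.S5964 (HasBlocks exists_blocks exists_monomial_basis exists_sl_conj exists_norm_eq scalar_of_eigen)

section Field

variable {F : Type*} [Field F] {n : ℕ}

/-- `K` is spanned by `1` and any non-scalar element. -/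
theorem exists_gen (K : Subalgebra F (Matrix (Fin n) (Fin n) F)) (hK : IsFieldSubalgebra 2 K) :
    ∃ ω ∈ K, (∀ c : F, ω ≠ c • 1) ∧ ∀ k ∈ K, ∃ a b : F, k = a • 1 + b • ω := by
  classical
  have h1K : (1 : Matrix (Fin n) (Fin n) F) ∈ K := K.one_mem
  have hfr := hK.finrank_eq
  -- a non-scalar element
  have hex : ∃ ω ∈ K, ∀ c : F, ω ≠ c • 1 := by
    by_contra hcon
    push Not at hcon
    have hle : Subalgebra.toSubmodule K ≤ Submodule.span F {(1 : Matrix (Fin n) (Fin n) F)} := by
      intro k hk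
      obtain ⟨c, hc⟩ := hcon k hk
      rw [hc]
      exact Submodule.smul_mem _ _ (Submodule.mem_span_singleton_self _)
    have h2 := Submodule.finrank_mono hle
    have h3 : finrank F (Submodule.span F {(1 : Matrix (Fin n) (Fin n) F)}) ≤ 1 := by
      have := finrank_span_le_card (R := F) ({1} : Set (Matrix (Fin n) (Fin n) F))
      simpa using this
    have h4 : finrank F (Subalgebra.toSubmodule K) = 2 := hfr
    omega
  obtain ⟨ω, hω, hns⟩ := hex
  refine ⟨ω, hω, hns, ?_⟩
  have hli : LinearIndependent F ![(1 : Matrix (Fin n) (Fin n) F), ω] := by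
    rw [LinearIndependent.pair_iff]
    intro s t hst
    have ht : t = 0 := by
      by_contra ht
      apply hns (-(t⁻¹ * s))
      have h5 : t • ω = -(s • 1) := by
        rw [eq_neg_iff_add_eq_zero, add_comm]
        exact hst
      calc ω = t⁻¹ • (t • ω) := by rw [smul_smul, inv_mul_cancel₀ ht, one_smul]
        _ = _ := by rw [h5, smul_neg, smul_smul, neg_smul]
    subst ht
    rw [zero_smul, add_zero] at hst
    have h1ne : (1 : Matrix (Fin n) (Fin n) F) ≠ 0 := by
      intro h10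
      apply hns 0
      rw [zero_smul]
      have : ω = ω * 1 := (mul_one ω).symm
      rw [this, h10, mul_zero]
    refine ⟨?_, rfl⟩
    rcases smul_eq_zero.mp hst with h | h
    · exact h
    · exact absurd h h1ne
  have hspan : Submodule.span F (Set.range ![(1 : Matrix (Fin n) (Fin n) F), ω]) = Subalgebra.toSubmodule K := by
    apply Submodule.eq_of_le_of_finrank_eq
    · rw [Submodule.span_le]
      rintro _ ⟨i, rfl⟩
      fin_cases i
      · exact h1K
      · exact hω
    · rw [finrank_span_eq_card hli]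
      simpa using hfr.symm
  intro k hk
  have hk' : k ∈ Submodule.span F (Set.range ![(1 : Matrix (Fin n) (Fin n) F), ω]) := by
    rw [hspan]
    exact hk
  have hr : Set.range ![(1 : Matrix (Fin n) (Fin n) F), ω] = {1, ω} := by
    ext y
    simp only [Set.mem_range, Fin.exists_fin_two, Matrix.cons_val_zero, Matrix.cons_val_one,
      Set.mem_insert_iff, Set.mem_singleton_iff]
    constructor
    · rintro (h | h)
      · exact Or.inl h.symm
      · exact Or.inr h.symm
    · rintro (h | h)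
      · exact Or.inl h.symm
      · exact Or.inr h.symm
  rw [hr] at hk'
  obtain ⟨a, b, hab⟩ := Submodule.mem_span_pair.mp hk'
  exact ⟨a, b, hab.symm⟩

/-- Two-sided inverses in `K`. -/
theorem exists_inv (K : Subalgebra F (Matrix (Fin n) (Fin n) F)) (hK : IsFieldSubalgebra 2 K) {k : Matrix (Fin n) (Fin n) F}
    (hk : k ∈ K) (hk0 : k ≠ 0) : ∃ k' ∈ K, k * k' = 1 ∧ k' * k = 1 := by
  obtain ⟨k', hk', h⟩ := hK.inv k hk hk0
  exact ⟨k', hk', h, by rw [hK.comm k' hk' k hk]; exact h⟩

/-- The elements of `K` different from zero act injectively. -/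
theorem mulVec_eq_zero (K : Subalgebra F (Matrix (Fin n) (Fin n) F)) (hK : IsFieldSubalgebra 2 K)
    {k : Matrix (Fin n) (Fin n) F} (hk : k ∈ K) (hk0 : k ≠ 0) {v : Fin n → F} (hv : k.mulVec v = 0) : v = 0 := by
  obtain ⟨k', -, -, h⟩ := exists_inv K hK hk hk0
  have : (k' * k).mulVec v = 0 := by
    rw [← Matrix.mulVec_mulVec, hv, Matrix.mulVec_zero]
  rwa [h, Matrix.one_mulVec] at this

/-- No zero divisors. -/
theorem eq_zero_of_mul (K : Subalgebra F (Matrix (Fin n) (Fin n) F)) (hK : IsFieldSubalgebra 2 K)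
    {k l : Matrix (Fin n) (Fin n) F} (hk : k ∈ K) (hkl : k * l = 0) (hk0 : k ≠ 0) : l = 0 := by
  obtain ⟨k', -, -, h⟩ := exists_inv K hK hk hk0
  calc l = (k' * k) * l := by rw [h, one_mul]
    _ = 0 := by rw [mul_assoc, hkl, mul_zero]

/-- The polynomial of a generator has no roots. -/
theorem no_root (K : Subalgebra F (Matrix (Fin n) (Fin n) F)) (hK : IsFieldSubalgebra 2 K)
    {ω : Matrix (Fin n) (Fin n) F} (hω : ω ∈ K) (hns : ∀ c : F, ω ≠ c • 1) {α β : F}
    (hq : ω * ω = α • ω + β • 1) (c : F) : c * c ≠ α * c + β := by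
  intro hc
  have h1 : (ω - c • 1) * (ω - (α - c) • 1) = 0 := by
    have : (ω - c • 1) * (ω - (α - c) • 1) = ω * ω - α • ω + (c * (α - c)) • 1 := by
      simp only [mul_sub, sub_mul, Matrix.mul_smul, Matrix.smul_mul, mul_one, one_mul, smul_smul, sub_smul]
      rw [mul_comm α c]
      abel
    rw [this, hq]
    have h2 : c * (α - c) = - β := by rw [mul_sub, mul_comm c α]; linear_combination -hc
    rw [h2, neg_smul]
    abel
  have hmem : ω - c • 1 ∈ K := K.sub_mem hω (K.smul_mem K.one_mem c)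
  have hne : ω - c • 1 ≠ 0 := fun h => hns c (sub_eq_zero.mp h)
  have h3 := eq_zero_of_mul K hK hmem h1 hne
  exact hns _ (sub_eq_zero.mp h3)

/-- Membership in the normalizer from the action on a generator. -/
theorem mem_normalizer (K : Subalgebra F (Matrix (Fin n) (Fin n) F))
    {ω : Matrix (Fin n) (Fin n) F} (hgen : ∀ k ∈ K, ∃ a b : F, k = a • 1 + b • ω) (g : GL (Fin n) F)
    (h1 : (g : Matrix (Fin n) (Fin n) F) * ω * ((g⁻¹ : GL (Fin n) F) : Matrix (Fin n) (Fin n) F) ∈ K)
    (h2 : ((g⁻¹ : GL (Fin n) F) : Matrix (Fin n) (Fin n) F) * ω * (g : Matrix (Fin n) (Fin n) F) ∈ K) :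
    g ∈ subalgebraNormalizer K := by
  set A : Matrix (Fin n) (Fin n) F := (g : Matrix (Fin n) (Fin n) F) with hA
  set A' : Matrix (Fin n) (Fin n) F := ((g⁻¹ : GL (Fin n) F) : Matrix (Fin n) (Fin n) F) with hA'
  have h3 : A' * A = 1 := by
    rw [hA, hA', ← Units.val_mul, inv_mul_cancel, Units.val_one]
  have h4 : A * A' = 1 := by
    rw [hA, hA', ← Units.val_mul, mul_inv_cancel, Units.val_one]
  have key : ∀ (M M' : Matrix (Fin n) (Fin n) F), M * M' = 1 → M * ω * M' ∈ K → ∀ k ∈ K, M * k * M' ∈ K := by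
    intro M M' hM hω k hk
    obtain ⟨a, b, rfl⟩ := hgen k hk
    have : M * (a • 1 + b • ω) * M' = a • 1 + b • (M * ω * M') := by
      simp only [Matrix.mul_add, Matrix.add_mul, Matrix.mul_smul, Matrix.smul_mul, Matrix.mul_one, hM]
    rw [this]
    exact K.add_mem (K.smul_mem K.one_mem a) (K.smul_mem hω b)
  intro k
  constructor
  · exact key A A' h4 h1 k
  · intro hk
    have := key A' A h3 h2 _ hk
    have h5 : A' * (A * k * A') * A = k := by
      calc A' * (A * k * A') * A = (A' * A) * k * (A' * A) := by simp only [Matrix.mul_assoc]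
        _ = k := by rw [h3, Matrix.one_mul, Matrix.mul_one]
    rwa [h5] at this

end Field

section Conj

variable {F : Type*} [Field F] {n : ℕ}

/-- Linear equivalences of `F^n` are invertible matrices. -/
theorem conj_of_equiv {A B : Matrix (Fin n) (Fin n) F} (φ : (Fin n → F) ≃ₗ[F] (Fin n → F))
    (h : ∀ v, φ (A.mulVec v) = B.mulVec (φ v)) :
    ∃ P : GL (Fin n) F, (P : Matrix (Fin n) (Fin n) F) * A = B * (P : Matrix (Fin n) (Fin n) F) := by
  classical
  let P : GL (Fin n) F := ⟨LinearMap.toMatrix' (φ : (Fin n → F) →ₗ[F] (Fin n → F)),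
    LinearMap.toMatrix' (φ.symm : (Fin n → F) →ₗ[F] (Fin n → F)),
    by rw [← LinearMap.toMatrix'_comp]; simp, by rw [← LinearMap.toMatrix'_comp]; simp⟩
  refine ⟨P, ?_⟩
  apply Matrix.toLin'.injective
  apply LinearMap.ext
  intro v
  change (LinearMap.toMatrix' (φ : (Fin n → F) →ₗ[F] (Fin n → F)) * A).mulVec v =
    (B * LinearMap.toMatrix' (φ : (Fin n → F) →ₗ[F] (Fin n → F))).mulVec v
  rw [← Matrix.mulVec_mulVec, ← Matrix.mulVec_mulVec, LinearMap.toMatrix'_mulVec, LinearMap.toMatrix'_mulVec]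
  exact h v

/-- Basis made of planes for a matrix whose square is a non-square scalar. -/
theorem exists_plane_basis {A : Matrix (Fin n) (Fin n) F} {d : F} (hA : A * A = d • 1) (hd : ¬ IsSquare d) :
    ∃ (κ : Type) (_ : Fintype κ) (_ : DecidableEq κ) (b : Basis (Fin 2 × κ) F (Fin n → F)), 2 * Fintype.card κ = n ∧
      (∀ k, A.mulVec (b (0, k)) = b (1, k)) ∧ (∀ k, A.mulVec (b (1, k)) = d • b (0, k)) := by
  classical
  set g : (Fin n → F) →ₗ[F] (Fin n → F) := Matrix.toLin' A with hg
  have hgv : ∀ v, g v = A.mulVec v := fun v => rfl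
  have hgg : ∀ v, g (g v) = d • v := by
    intro v
    rw [hgv, hgv, Matrix.mulVec_mulVec, hA, Matrix.smul_mulVec, Matrix.one_mulVec]
  obtain ⟨ι, κ, _, _, u, c, e, h1, h2, h3, h4⟩ := exists_blocks hgg _ ⊤ rfl (fun _ _ => Submodule.mem_top)
  have hι : IsEmpty ι := ⟨fun i => hd ⟨c i, by rw [← h2 i, pow_two]⟩⟩
  let f : Fin 2 × κ → (Fin n → F) := fun t => if t.1 = 0 then e t.2 else g (e t.2)
  have hspan : ⊤ ≤ Submodule.span F (Set.range f) := by
    rw [← h3]
    rw [Submodule.span_le]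
    rintro x ((⟨i, rfl⟩ | ⟨k, rfl⟩) | ⟨k, rfl⟩)
    · exact hι.elim i
    · exact Submodule.subset_span ⟨(0, k), by simp [f]⟩
    · exact Submodule.subset_span ⟨(1, k), by simp [f]⟩
  have hfin : finrank F (Fin n → F) = n := by simp
  have hcard : Fintype.card (Fin 2 × κ) = finrank F (Fin n → F) := by
    rw [finrank_top] at h4
    simp only [Fintype.card_prod, Fintype.card_fin]
    simp only [Fintype.card_eq_zero, zero_add] at h4
    omega
  let b : Basis (Fin 2 × κ) F (Fin n → F) := basisOfTopLeSpanOfCardEqFinrank f hspan hcard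
  have hb : ∀ t, b t = f t := fun t => by
    simp [b, basisOfTopLeSpanOfCardEqFinrank]
  have hb0 : ∀ k, b (0, k) = e k := fun k => by rw [hb]; simp [f]
  have hb1 : ∀ k, b (1, k) = g (e k) := fun k => by rw [hb]; simp [f]
  refine ⟨κ, inferInstance, inferInstance, b, ?_, ?_, ?_⟩
  · rw [← hfin, ← hcard]
    simp
  · intro k
    rw [hb0, hb1]
    rfl
  · intro k
    rw [hb0, hb1, ← hgv, hgg]

/-- Two matrices with the same non-square scalar square are conjugate. -/
theorem conj_of_sq {A B : Matrix (Fin n) (Fin n) F} {d : F} (hA : A * A = d • 1) (hB : B * B = d • 1)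
    (hd : ¬ IsSquare d) :
    ∃ P : GL (Fin n) F, (P : Matrix (Fin n) (Fin n) F) * A = B * (P : Matrix (Fin n) (Fin n) F) := by
  classical
  obtain ⟨κ, _, _, b, hc, h1, h2⟩ := exists_plane_basis hA hd
  obtain ⟨κ', _, _, b', hc', h1', h2'⟩ := exists_plane_basis hB hd
  have e : κ ≃ κ' := Fintype.equivOfCardEq (by omega)
  let τ : Fin 2 × κ ≃ Fin 2 × κ' := Equiv.prodCongr (Equiv.refl _) e
  let φ : (Fin n → F) ≃ₗ[F] (Fin n → F) := b.equiv b' τ
  have hφ : ∀ t, φ (b t) = b' (τ t) := fun t => by simp [φ]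
  apply conj_of_equiv φ
  -- check on the basis
  have key : (φ : (Fin n → F) →ₗ[F] (Fin n → F)) ∘ₗ Matrix.toLin' A = Matrix.toLin' B ∘ₗ (φ : (Fin n → F) →ₗ[F] (Fin n → F)) := by
    apply b.ext
    rintro ⟨t, k⟩
    change φ (A.mulVec (b (t, k))) = B.mulVec (φ (b (t, k)))
    fin_cases t
    · change φ (A.mulVec (b (0, k))) = B.mulVec (φ (b (0, k)))
      rw [h1, hφ, hφ]
      exact (h1' (e k)).symm
    · change φ (A.mulVec (b (1, k))) = B.mulVec (φ (b (1, k)))
      rw [h2, map_smul, hφ, hφ]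
      exact (h2' (e k)).symm
  intro v
  exact LinearMap.congr_fun key v

/-- Commuting with a generator gives membership in the normalizer. -/
theorem mem_normalizer_of_commute (K : Subalgebra F (Matrix (Fin n) (Fin n) F))
    {ω : Matrix (Fin n) (Fin n) F} (hω : ω ∈ K) (hgen : ∀ k ∈ K, ∃ a b : F, k = a • 1 + b • ω) (g : GL (Fin n) F)
    (hg : (g : Matrix (Fin n) (Fin n) F) * ω = ω * (g : Matrix (Fin n) (Fin n) F)) :
    g ∈ subalgebraNormalizer K := by
  have h3 : ((g⁻¹ : GL (Fin n) F) : Matrix (Fin n) (Fin n) F) * (g : Matrix (Fin n) (Fin n) F) = 1 := by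
    rw [← Units.val_mul, inv_mul_cancel, Units.val_one]
  have h4 : (g : Matrix (Fin n) (Fin n) F) * ((g⁻¹ : GL (Fin n) F) : Matrix (Fin n) (Fin n) F) = 1 := by
    rw [← Units.val_mul, mul_inv_cancel, Units.val_one]
  apply mem_normalizer K hgen
  · rw [hg, Matrix.mul_assoc, h4, Matrix.mul_one]
    exact hω
  · have : ((g⁻¹ : GL (Fin n) F) : Matrix (Fin n) (Fin n) F) * ω * (g : Matrix (Fin n) (Fin n) F) = ω := by
      rw [Matrix.mul_assoc, ← hg, ← Matrix.mul_assoc, h3, Matrix.one_mul]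
    rw [this]
    exact hω

/-- Conjugates of commuting matrices. -/
theorem commute_of_conj {X ω W : Matrix (Fin n) (Fin n) F} (P : GL (Fin n) F)
    (hP : (P : Matrix (Fin n) (Fin n) F) * ω = W * (P : Matrix (Fin n) (Fin n) F)) (hX : X * W = W * X) :
    (((P⁻¹ : GL (Fin n) F) : Matrix (Fin n) (Fin n) F) * X * (P : Matrix (Fin n) (Fin n) F)) * ω =
      ω * (((P⁻¹ : GL (Fin n) F) : Matrix (Fin n) (Fin n) F) * X * (P : Matrix (Fin n) (Fin n) F)) := by
  have h3 : ((P⁻¹ : GL (Fin n) F) : Matrix (Fin n) (Fin n) F) * (P : Matrix (Fin n) (Fin n) F) = 1 := by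
    rw [← Units.val_mul, inv_mul_cancel, Units.val_one]
  have h5 : ω = ((P⁻¹ : GL (Fin n) F) : Matrix (Fin n) (Fin n) F) * W * (P : Matrix (Fin n) (Fin n) F) := by
    rw [Matrix.mul_assoc, ← hP, ← Matrix.mul_assoc, h3, Matrix.one_mul]
  calc _ = ((P⁻¹ : GL (Fin n) F) : Matrix (Fin n) (Fin n) F) * X * ((P : Matrix (Fin n) (Fin n) F) * ω) := by
        rw [Matrix.mul_assoc]
    _ = ((P⁻¹ : GL (Fin n) F) : Matrix (Fin n) (Fin n) F) * (X * W) * (P : Matrix (Fin n) (Fin n) F) := by
        rw [hP]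
        simp only [Matrix.mul_assoc]
    _ = ((P⁻¹ : GL (Fin n) F) : Matrix (Fin n) (Fin n) F) * (W * X) * (P : Matrix (Fin n) (Fin n) F) := by rw [hX]
    _ = ((P⁻¹ : GL (Fin n) F) : Matrix (Fin n) (Fin n) F) * W * ((P : Matrix (Fin n) (Fin n) F) *
          ((P⁻¹ : GL (Fin n) F) : Matrix (Fin n) (Fin n) F)) * X * (P : Matrix (Fin n) (Fin n) F) := by
        have h4 : (P : Matrix (Fin n) (Fin n) F) * ((P⁻¹ : GL (Fin n) F) : Matrix (Fin n) (Fin n) F) = 1 := by
          rw [← Units.val_mul, mul_inv_cancel, Units.val_one]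
        rw [h4, Matrix.mul_one]
        simp only [Matrix.mul_assoc]
    _ = _ := by
        conv_rhs => rw [h5]
        simp only [Matrix.mul_assoc]

end Conj

section OddChar

variable {F : Type*} [Field F] [Fintype F] {n : ℕ}

/-- The normalised generator in odd characteristic. -/
theorem exists_gen_sq (K : Subalgebra F (Matrix (Fin n) (Fin n) F)) (hK : IsFieldSubalgebra 2 K)
    (h2 : (2 : F) ≠ 0) :
    ∃ ω ∈ K, ∃ d : F, ¬ IsSquare d ∧ ω * ω = d • 1 ∧ ∀ k ∈ K, ∃ a b : F, k = a • 1 + b • ω := by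
  obtain ⟨ω, hω, hns, hgen⟩ := exists_gen K hK
  obtain ⟨a, b, hab⟩ := hgen (ω * ω) (K.mul_mem hω hω)
  -- `ω² = a + b ω`
  have hq : ω * ω = b • ω + a • 1 := by rw [hab, add_comm]
  set s : F := b / 2 with hs
  have hb : b = 2 * s := by rw [hs]; field_simp
  set d : F := a + s * s with hd
  refine ⟨ω - s • 1, K.sub_mem hω (K.smul_mem K.one_mem s), d, ?_, ?_, ?_⟩
  · rintro ⟨c, hc⟩
    refine no_root K hK hω hns hq (c + s) ?_
    rw [hb]
    have : c * c = a + s * s := by rw [← hc, hd]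
    linear_combination this
  · have : (ω - s • 1) * (ω - s • 1) = ω * ω - (2 * s) • ω + (s * s) • 1 := by
      simp only [mul_sub, sub_mul, Matrix.mul_smul, Matrix.smul_mul, mul_one, one_mul, smul_smul, two_mul, add_smul]
      abel
    rw [this, hq, hb, hd, add_smul]
    abel
  · intro k hk
    obtain ⟨u, v, rfl⟩ := hgen k hk
    refine ⟨u + v * s, v, ?_⟩
    simp only [smul_sub, smul_smul, add_smul]
    abel

theorem isSquare_mul_of_not {d z : F} (h2 : ringChar F ≠ 2) (hd : ¬ IsSquare d) (hz : ¬ IsSquare z) : IsSquare (d * z) := by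
  classical
  have hd0 : d ≠ 0 := by
    rintro rfl
    exact hd IsSquare.zero
  have hz0 : z ≠ 0 := by
    rintro rfl
    exact hz IsSquare.zero
  rw [← quadraticChar_one_iff_isSquare (mul_ne_zero hd0 hz0), map_mul,
    quadraticChar_neg_one_iff_not_isSquare.mpr hd, quadraticChar_neg_one_iff_not_isSquare.mpr hz]
  norm_num

/-- Non-square case. -/
theorem conj_of_not_square (K : Subalgebra F (Matrix (Fin n) (Fin n) F)) (hK : IsFieldSubalgebra 2 K)
    (h2 : ringChar F ≠ 2) (G : GL (Fin n) F) {z : F} (hz : ¬ IsSquare z)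
    (hG : (G : Matrix (Fin n) (Fin n) F) * (G : Matrix (Fin n) (Fin n) F) = z • 1) :
    ∃ P : GL (Fin n) F, P⁻¹ * G * P ∈ subalgebraNormalizer K := by
  have h2' : (2 : F) ≠ 0 := Ring.two_ne_zero h2
  obtain ⟨ω, hω, d, hd, hωω, hgen⟩ := exists_gen_sq K hK h2'
  obtain ⟨r, hr⟩ := isSquare_mul_of_not h2 hd hz
  have hz0 : z ≠ 0 := by
    rintro rfl
    exact hz IsSquare.zero
  set t : F := r / z with ht
  have htt : t * t * z = d := by
    rw [ht]
    field_simp
    rw [pow_two, ← hr]
    ring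
  have hW : (t • (G : Matrix (Fin n) (Fin n) F)) * (t • (G : Matrix (Fin n) (Fin n) F)) = d • 1 := by
    rw [Matrix.smul_mul, Matrix.mul_smul, hG, smul_smul, smul_smul, ← htt]
  obtain ⟨P, hP⟩ := conj_of_sq hωω hW hd
  refine ⟨P, mem_normalizer_of_commute K hω hgen _ ?_⟩
  simp only [Units.val_mul]
  apply commute_of_conj P hP
  simp only [Matrix.mul_smul, Matrix.smul_mul]

/-- A basis of eigenvectors for an involution in odd characteristic. -/
theorem exists_eigen_basis {V : Type*} [AddCommGroup V] [Module F V] [FiniteDimensional F V] {g : V →ₗ[F] V}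
    (h2 : (2 : F) ≠ 0) (hg : ∀ v, g (g v) = v) :
    ∃ (τ : Type) (_ : Fintype τ) (_ : DecidableEq τ) (b : Basis τ F V) (ε : τ → F),
      (∀ t, ε t = 1 ∨ ε t = -1) ∧ ∀ t, g (b t) = ε t • b t := by
  classical
  have hg' : ∀ v, g (g v) = (1 : F) • v := fun v => by rw [hg, one_smul]
  obtain ⟨ι, κ, _, _, u, c, e, h1, h3, h4, h5⟩ := exists_blocks hg' _ ⊤ rfl (fun _ _ => Submodule.mem_top)
  let f : ι ⊕ (κ ⊕ κ) → V := Sum.elim u (Sum.elim (fun k => e k + g (e k)) (fun k => e k - g (e k)))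
  have hspan : ⊤ ≤ Submodule.span F (Set.range f) := by
    rw [← h4]
    rw [Submodule.span_le]
    have h6 : ∀ k, e k + g (e k) ∈ Submodule.span F (Set.range f) := fun k =>
      Submodule.subset_span ⟨Sum.inr (Sum.inl k), rfl⟩
    have h7 : ∀ k, e k - g (e k) ∈ Submodule.span F (Set.range f) := fun k =>
      Submodule.subset_span ⟨Sum.inr (Sum.inr k), rfl⟩
    rintro x ((⟨i, rfl⟩ | ⟨k, rfl⟩) | ⟨k, rfl⟩)
    · exact Submodule.subset_span ⟨Sum.inl i, rfl⟩
    · have h8 : e k = (2 : F)⁻¹ • ((e k + g (e k)) + (e k - g (e k))) := by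
        rw [add_add_sub_cancel, ← two_smul F, smul_smul, inv_mul_cancel₀ h2, one_smul]
      rw [h8]
      exact Submodule.smul_mem _ _ (Submodule.add_mem _ (h6 k) (h7 k))
    · have h8 : g (e k) = (2 : F)⁻¹ • ((e k + g (e k)) - (e k - g (e k))) := by
        rw [add_sub_sub_cancel, ← two_smul F, smul_smul, inv_mul_cancel₀ h2, one_smul]
      change g (e k) ∈ _
      rw [h8]
      exact Submodule.smul_mem _ _ (Submodule.sub_mem _ (h6 k) (h7 k))
  have hcard : Fintype.card (ι ⊕ (κ ⊕ κ)) = finrank F V := by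
    rw [finrank_top] at h5
    simp only [Fintype.card_sum]
    omega
  let b : Basis (ι ⊕ (κ ⊕ κ)) F V := basisOfTopLeSpanOfCardEqFinrank f hspan hcard
  have hb : ∀ t, b t = f t := fun t => by
    simp [b, basisOfTopLeSpanOfCardEqFinrank]
  refine ⟨_, inferInstance, inferInstance, b, Sum.elim c (Sum.elim (fun _ => 1) (fun _ => -1)), ?_, ?_⟩
  · rintro (i | k | k)
    · have h5' := h3 i
      have h6 : (c i - 1) * (c i + 1) = 0 := by
        have : (c i - 1) * (c i + 1) = c i ^ 2 - 1 := by ring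
        rw [this, h5', sub_self]
      rcases mul_eq_zero.mp h6 with h7 | h7
      · exact Or.inl (sub_eq_zero.mp h7)
      · exact Or.inr (eq_neg_of_add_eq_zero_left h7)
    · exact Or.inl rfl
    · exact Or.inr rfl
  · rintro (i | k | k)
    · rw [hb]
      exact h1 i
    · rw [hb]
      change g (e k + g (e k)) = (1 : F) • (e k + g (e k))
      rw [map_add, hg, one_smul, add_comm]
    · rw [hb]
      change g (e k - g (e k)) = (-1 : F) • (e k - g (e k))
      rw [map_sub, hg, neg_smul, one_smul, neg_sub]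

/-- The determinant of a diagonalizable map. -/
theorem det_eq_prod {V : Type*} [AddCommGroup V] [Module F V] [FiniteDimensional F V] {g : V →ₗ[F] V}
    {τ : Type} [Fintype τ] [DecidableEq τ] (b : Basis τ F V) (ε : τ → F) (h : ∀ t, g (b t) = ε t • b t) :
    LinearMap.det g = ∏ t, ε t := by
  rw [← LinearMap.det_toMatrix b g]
  have : LinearMap.toMatrix b b g = Matrix.diagonal ε := by
    ext i j
    rw [LinearMap.toMatrix_apply, h, map_smul, Basis.repr_self, Finsupp.smul_single, Finsupp.single_apply,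
      Matrix.diagonal_apply]
    by_cases hij : j = i
    · subst hij
      simp
    · simp [hij, Ne.symm hij]
  rw [this, Matrix.det_diagonal]

/-- Even multiplicities give a pairing of an eigenbasis. -/
theorem exists_pair_basis [DecidableEq F] {V : Type*} [AddCommGroup V] [Module F V] [FiniteDimensional F V] {g : V →ₗ[F] V}
    {τ : Type} [Fintype τ] [DecidableEq τ] (b : Basis τ F V) (ε : τ → F) (hε : ∀ t, ε t = 1 ∨ ε t = -1)
    (h : ∀ t, g (b t) = ε t • b t)
    (h₁ : Even (Fintype.card {t // ε t = 1})) (h₂ : Even (Fintype.card {t // ¬ ε t = 1})) :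
    ∃ (κ : Type) (_ : Fintype κ) (_ : DecidableEq κ) (b' : Basis (Fin 2 × κ) F V) (ε' : κ → F),
      ∀ t k, g (b' (t, k)) = ε' k • b' (t, k) := by
  classical
  obtain ⟨a, ha⟩ := h₁
  obtain ⟨c, hc⟩ := h₂
  have e₁ : {t // ε t = 1} ≃ Fin 2 × Fin a := Fintype.equivOfCardEq (by rw [ha]; simp; omega)
  have e₂ : {t // ¬ ε t = 1} ≃ Fin 2 × Fin c := Fintype.equivOfCardEq (by rw [hc]; simp; omega)
  let ρ : Fin 2 × (Fin a ⊕ Fin c) ≃ τ :=
    (Equiv.prodSumDistrib (Fin 2) (Fin a) (Fin c)).trans ((Equiv.sumCongr e₁.symm e₂.symm).trans (Equiv.sumCompl _))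
  refine ⟨Fin a ⊕ Fin c, inferInstance, inferInstance, b.reindex ρ.symm, Sum.elim (fun _ => 1) (fun _ => -1), ?_⟩
  rintro t (k | k)
  · have h1 : ρ (t, Sum.inl k) = (e₁.symm (t, k)).1 := rfl
    have h3 : ε ((e₁.symm (t, k)).1) = 1 := (e₁.symm (t, k)).2
    rw [Basis.reindex_apply, Equiv.symm_symm, h1, h, h3]
    rfl
  · have h1 : ρ (t, Sum.inr k) = (e₂.symm (t, k)).1 := rfl
    have h3 : ε ((e₂.symm (t, k)).1) = -1 := (hε _).resolve_left (e₂.symm (t, k)).2
    rw [Basis.reindex_apply, Equiv.symm_symm, h1, h, h3]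
    rfl

/-- The case of even eigenspaces. -/
theorem conj_of_even (K : Subalgebra F (Matrix (Fin n) (Fin n) F)) (hK : IsFieldSubalgebra 2 K)
    (h2 : ringChar F ≠ 2) (G : GL (Fin n) F) {w : F} (hw : w ≠ 0)
    (hG : (G : Matrix (Fin n) (Fin n) F) * (G : Matrix (Fin n) (Fin n) F) = (w * w) • 1)
    (hdet : (G : Matrix (Fin n) (Fin n) F).det = 1) (hno : ∀ u : F, u ^ n ≠ -1) :
    ∃ P : GL (Fin n) F, P⁻¹ * G * P ∈ subalgebraNormalizer K := by
  classical
  have h2' : (2 : F) ≠ 0 := Ring.two_ne_zero h2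
  obtain ⟨ω, hω, d, hd, hωω, hgen⟩ := exists_gen_sq K hK h2'
  obtain ⟨κ₀, _, _, -, hκ₀, -, -⟩ := exists_plane_basis hωω hd
  set X : Matrix (Fin n) (Fin n) F := (G : Matrix (Fin n) (Fin n) F) with hX
  set H : Matrix (Fin n) (Fin n) F := w⁻¹ • X with hH
  set g : (Fin n → F) →ₗ[F] (Fin n → F) := Matrix.toLin' H with hg
  have hgv : ∀ v, g v = H.mulVec v := fun v => rfl
  have hHH : H * H = 1 := by
    rw [hH, Matrix.smul_mul, Matrix.mul_smul, hG, smul_smul, smul_smul]
    have : w⁻¹ * w⁻¹ * (w * w) = 1 := by field_simp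
    rw [this, one_smul]
  have hgg : ∀ v, g (g v) = v := by
    intro v
    rw [hgv, hgv, Matrix.mulVec_mulVec, hHH, Matrix.one_mulVec]
  obtain ⟨τ, _, _, b, ε, hε, hb⟩ := exists_eigen_basis h2' hgg
  have hcardτ : Fintype.card τ = n := by
    have := Module.finrank_eq_card_basis b
    simpa using this.symm
  -- the sign of the determinant
  have hdetH : ∏ t, ε t = H.det := by
    rw [← det_eq_prod b ε hb, hg, LinearMap.det_toLin']
  have hdetX : w ^ n * ∏ t, ε t = 1 := by
    rw [hdetH, hH, Matrix.det_smul]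
    simp only [Fintype.card_fin]
    rw [← mul_assoc, ← mul_pow, mul_inv_cancel₀ hw, one_pow, one_mul]
    exact hdet
  have hprod : ∏ t, ε t = (-1) ^ (Fintype.card {t // ¬ ε t = 1}) := by
    have h5 : ∀ t, ε t = if ε t = 1 then 1 else -1 := by
      intro t
      split_ifs with h6
      · exact h6
      · exact (hε t).resolve_left h6
    rw [Finset.prod_congr rfl (fun t _ => h5 t), Finset.prod_ite]
    simp only [Finset.prod_const_one, one_mul, Finset.prod_const]
    congr 1
    rw [Fintype.card_subtype]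
  have heven₂ : Even (Fintype.card {t // ¬ ε t = 1}) := by
    by_contra hodd
    rw [Nat.not_even_iff_odd] at hodd
    rw [hprod, hodd.neg_one_pow] at hdetX
    apply hno w
    linear_combination -hdetX
  have heven₁ : Even (Fintype.card {t // ε t = 1}) := by
    have h5 : Fintype.card {t // ε t = 1} + Fintype.card {t // ¬ ε t = 1} = n := by
      rw [Fintype.card_subtype_compl, ← hcardτ]
      have := Fintype.card_subtype_le (fun t => ε t = 1)
      omega
    have h6 : Even n := ⟨Fintype.card κ₀, by omega⟩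
    exact (Nat.even_add.mp (h5 ▸ h6)).mpr heven₂
  obtain ⟨κ, _, _, b', ε', hb'⟩ := exists_pair_basis b ε hε hb heven₁ heven₂
  -- the new generator
  let f : Fin 2 × κ → (Fin n → F) := fun t => if t.1 = 0 then b' (1, t.2) else d • b' (0, t.2)
  let Wl : (Fin n → F) →ₗ[F] (Fin n → F) := b'.constr F f
  have hW0 : ∀ k, Wl (b' (0, k)) = b' (1, k) := fun k => by
    rw [show Wl = b'.constr F f from rfl, Basis.constr_basis]
    simp [f]
  have hW1 : ∀ k, Wl (b' (1, k)) = d • b' (0, k) := fun k => by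
    rw [show Wl = b'.constr F f from rfl, Basis.constr_basis]
    simp [f]
  have hWW : Wl ∘ₗ Wl = d • LinearMap.id := by
    apply b'.ext
    rintro ⟨t, k⟩
    fin_cases t
    · change Wl (Wl (b' (0, k))) = d • b' (0, k)
      rw [hW0, hW1]
    · change Wl (Wl (b' (1, k))) = d • b' (1, k)
      rw [hW1, map_smul, hW0]
  have hWg : Wl ∘ₗ g = g ∘ₗ Wl := by
    apply b'.ext
    rintro ⟨t, k⟩
    fin_cases t
    · change Wl (g (b' (0, k))) = g (Wl (b' (0, k)))
      rw [hb', map_smul, hW0, hb']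
    · change Wl (g (b' (1, k))) = g (Wl (b' (1, k)))
      rw [hb', map_smul, hW1, map_smul, hb', smul_comm]
  set W : Matrix (Fin n) (Fin n) F := LinearMap.toMatrix' Wl with hWdef
  have hWsq : W * W = d • 1 := by
    rw [hWdef, ← LinearMap.toMatrix'_comp, hWW, map_smul, LinearMap.toMatrix'_id]
  have hWH : W * H = H * W := by
    have hH' : LinearMap.toMatrix' g = H := by rw [hg, LinearMap.toMatrix'_toLin']
    rw [← hH', hWdef, ← LinearMap.toMatrix'_comp, ← LinearMap.toMatrix'_comp, hWg]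
  have hXW : X * W = W * X := by
    have hX' : X = w • H := by
      rw [hH, smul_smul, mul_inv_cancel₀ hw, one_smul]
    rw [hX']
    simp only [Matrix.smul_mul, Matrix.mul_smul, hWH]
  obtain ⟨P, hP⟩ := conj_of_sq hωω hWsq hd
  refine ⟨P, mem_normalizer_of_commute K hω hgen _ ?_⟩
  simp only [Units.val_mul]
  exact commute_of_conj P hP hXW

end OddChar

section TwoDim

variable {F : Type*} [Field F] [Fintype F] {n : ℕ}

theorem exists_pr (α β : F) : ∃ p r : F, r * r = p * p - α * p - β := by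
  classical
  by_cases h2 : ringChar F = 2
  · obtain ⟨r, hr⟩ := FiniteField.isSquare_of_char_two h2 (-β)
    exact ⟨0, r, by rw [← hr]; ring⟩
  · have h2' : (2 : F) ≠ 0 := Ring.two_ne_zero h2
    obtain ⟨a, b, hab⟩ := exists_norm_eq (z := (1 : F)) (d := -(α / 2 * (α / 2)) - β) one_ne_zero
    refine ⟨b + α / 2, a, ?_⟩
    have hα : α = 2 * (α / 2) := by field_simp
    rw [one_mul] at hab
    set s := α / 2 with hs
    rw [hα]
    linear_combination hab

/-- Two matrices of size two with the same irreducible quadratic relation are conjugate. -/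
theorem conj_quad (hn2 : n = 2) {A B : Matrix (Fin n) (Fin n) F} {α β : F} (hA : A * A = α • A + β • 1)
    (hB : B * B = α • B + β • 1) (hno : ∀ c : F, c * c ≠ α * c + β) :
    ∃ P : GL (Fin n) F, (P : Matrix (Fin n) (Fin n) F) * A = B * (P : Matrix (Fin n) (Fin n) F) := by
  classical
  have hli : ∀ {C : Matrix (Fin n) (Fin n) F}, C * C = α • C + β • 1 → ∀ v : Fin n → F, v ≠ 0 →
      LinearIndependent F ![v, C.mulVec v] := by
    intro C hC v hv
    rw [LinearIndependent.pair_iff]
    intro s t hst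
    have ht : t = 0 := by
      by_contra ht
      set c : F := -(t⁻¹ * s) with hc
      have h1 : C.mulVec v = c • v := by
        have h5 : t • C.mulVec v = -(s • v) := by
          rw [eq_neg_iff_add_eq_zero, add_comm]
          exact hst
        calc C.mulVec v = t⁻¹ • (t • C.mulVec v) := by rw [smul_smul, inv_mul_cancel₀ ht, one_smul]
          _ = _ := by rw [h5, smul_neg, smul_smul, neg_smul]
      have h2 : C.mulVec (C.mulVec v) = (α • C + β • 1).mulVec v := by
        rw [Matrix.mulVec_mulVec, hC]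
      rw [h1, Matrix.mulVec_smul, h1, Matrix.add_mulVec, Matrix.smul_mulVec, Matrix.smul_mulVec, h1,
        Matrix.one_mulVec, smul_smul, smul_smul, ← add_smul] at h2
      have h3 : (c * c - (α * c + β)) • v = 0 := by rw [sub_smul, h2, sub_self]
      rcases smul_eq_zero.mp h3 with h4 | h4
      · exact hno c (sub_eq_zero.mp h4)
      · exact hv h4
    subst ht
    rw [zero_smul, add_zero] at hst
    refine ⟨?_, rfl⟩
    rcases smul_eq_zero.mp hst with h | h
    · exact h
    · exact absurd h hv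
  have hnpos : 0 < n := by omega
  set v : Fin n → F := Pi.single ⟨0, hnpos⟩ 1 with hv
  have hv0 : v ≠ 0 := by
    intro h
    have := congrFun h ⟨0, hnpos⟩
    simp [hv] at this
  have hcard : Fintype.card (Fin 2) = finrank F (Fin n → F) := by simp [hn2]
  let bA : Basis (Fin 2) F (Fin n → F) := basisOfLinearIndependentOfCardEqFinrank (hli hA v hv0) hcard
  let bB : Basis (Fin 2) F (Fin n → F) := basisOfLinearIndependentOfCardEqFinrank (hli hB v hv0) hcard
  have hbA0 : bA 0 = v := by simp [bA]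
  have hbA1 : bA 1 = A.mulVec v := by simp [bA]
  have hbB0 : bB 0 = v := by simp [bB]
  have hbB1 : bB 1 = B.mulVec v := by simp [bB]
  let φ : (Fin n → F) ≃ₗ[F] (Fin n → F) := bA.equiv bB (Equiv.refl _)
  have hφ0 : φ v = v := by
    have : φ (bA 0) = bB 0 := by simp [φ]
    rwa [hbA0, hbB0] at this
  have hφ1 : φ (A.mulVec v) = B.mulVec v := by
    have : φ (bA 1) = bB 1 := by simp [φ]
    rwa [hbA1, hbB1] at this
  apply conj_of_equiv φ
  have key : (φ : (Fin n → F) →ₗ[F] (Fin n → F)) ∘ₗ Matrix.toLin' A = Matrix.toLin' B ∘ₗ (φ : (Fin n → F) →ₗ[F] (Fin n → F)) := by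
    apply bA.ext
    intro i
    change φ (A.mulVec (bA i)) = B.mulVec (φ (bA i))
    fin_cases i
    · change φ (A.mulVec (bA 0)) = B.mulVec (φ (bA 0))
      rw [hbA0, hφ1, hφ0]
    · change φ (A.mulVec (bA 1)) = B.mulVec (φ (bA 1))
      rw [hbA1, hφ1, Matrix.mulVec_mulVec, hA, Matrix.add_mulVec, Matrix.smul_mulVec, Matrix.smul_mulVec,
        Matrix.one_mulVec, map_add, map_smul, map_smul, hφ1, hφ0, Matrix.mulVec_mulVec, hB, Matrix.add_mulVec,
        Matrix.smul_mulVec, Matrix.smul_mulVec, Matrix.one_mulVec]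
  intro u
  exact LinearMap.congr_fun key u

/-- The case of dimension two. -/
theorem conj_two (hn2 : n = 2) (K : Subalgebra F (Matrix (Fin n) (Fin n) F)) (hK : IsFieldSubalgebra 2 K)
    (G : GL (Fin n) F) {w : F} (hw : w ≠ 0)
    (hG : (G : Matrix (Fin n) (Fin n) F) * (G : Matrix (Fin n) (Fin n) F) = (w * w) • 1)
    (hns : ∀ c : F, (G : Matrix (Fin n) (Fin n) F) ≠ c • 1) :
    ∃ P : GL (Fin n) F, P⁻¹ * G * P ∈ subalgebraNormalizer K := by
  classical
  obtain ⟨ω, hω, hnsω, hgen⟩ := exists_gen K hK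
  obtain ⟨β, α, hab⟩ := hgen (ω * ω) (K.mul_mem hω hω)
  have hq : ω * ω = α • ω + β • 1 := by rw [hab, add_comm]
  have hno := no_root K hK hω hnsω hq
  set X : Matrix (Fin n) (Fin n) F := (G : Matrix (Fin n) (Fin n) F) with hX
  set H : Matrix (Fin n) (Fin n) F := w⁻¹ • X with hH
  set g : (Fin n → F) →ₗ[F] (Fin n → F) := Matrix.toLin' H with hg
  have hgv : ∀ v, g v = H.mulVec v := fun v => rfl
  have hHH : H * H = 1 := by
    rw [hH, Matrix.smul_mul, Matrix.mul_smul, hG, smul_smul, smul_smul]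
    have : w⁻¹ * w⁻¹ * (w * w) = 1 := by field_simp
    rw [this, one_smul]
  have hgg : ∀ v, g (g v) = v := by
    intro v
    rw [hgv, hgv, Matrix.mulVec_mulVec, hHH, Matrix.one_mulVec]
  rcases dichotomy (g := g) ⊤ with ⟨e, -, hli⟩ | hB
  swap
  · exfalso
    obtain ⟨c, hc⟩ := scalar_of_eigen (by omega : 1 ≤ n) H (fun u => hB u Submodule.mem_top)
    apply hns (w * c)
    have : X = w • H := by rw [hH, smul_smul, mul_inv_cancel₀ hw, one_smul]
    rw [this, hc, smul_smul]
  have hcard : Fintype.card (Fin 2) = finrank F (Fin n → F) := by simp [hn2]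
  let b₁ : Basis (Fin 2) F (Fin n → F) := basisOfLinearIndependentOfCardEqFinrank hli hcard
  have hb0 : b₁ 0 = e := by simp [b₁]
  have hb1 : b₁ 1 = g e := by simp [b₁]
  obtain ⟨p, r, hpr⟩ := exists_pr α β
  let Wl : (Fin n → F) →ₗ[F] (Fin n → F) := b₁.constr F ![p • e - r • g e, r • e + (α - p) • g e]
  have hW0 : Wl e = p • e - r • g e := by
    rw [← hb0, show Wl = b₁.constr F ![p • e - r • g e, r • e + (α - p) • g e] from rfl, Basis.constr_basis]
    simp [hb0, hb1]
  have hW1 : Wl (g e) = r • e + (α - p) • g e := by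
    rw [← hb1, show Wl = b₁.constr F ![p • e - r • g e, r • e + (α - p) • g e] from rfl, Basis.constr_basis]
    simp [hb0, hb1]
  have hWW : Wl ∘ₗ Wl = α • Wl + β • LinearMap.id := by
    apply b₁.ext
    intro i
    fin_cases i
    · change Wl (Wl (b₁ 0)) = α • Wl (b₁ 0) + β • b₁ 0
      rw [hb0, hW0, map_sub, map_smul, map_smul, hW0, hW1]
      have e₁ : p * p - r * r = α * p + β := by linear_combination -hpr
      have : p • (p • e - r • g e) - r • (r • e + (α - p) • g e) = (p * p - r * r) • e + (-(α * r)) • g e := by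
        module
      rw [this, e₁]
      module
    · change Wl (Wl (b₁ 1)) = α • Wl (b₁ 1) + β • b₁ 1
      rw [hb1, hW1, map_add, map_smul, map_smul, hW0, hW1]
      have e₁ : (α - p) * (α - p) - r * r = α * (α - p) + β := by linear_combination -hpr
      have : r • (p • e - r • g e) + (α - p) • (r • e + (α - p) • g e) =
          (α * r) • e + ((α - p) * (α - p) - r * r) • g e := by
        module
      rw [this, e₁]
      module
  have hgW : g ∘ₗ Wl = (α • LinearMap.id - Wl) ∘ₗ g := by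
    apply b₁.ext
    intro i
    fin_cases i
    · change g (Wl (b₁ 0)) = α • g (b₁ 0) - Wl (g (b₁ 0))
      rw [hb0, hW0, hW1, map_sub, map_smul, map_smul, hgg]
      module
    · change g (Wl (b₁ 1)) = α • g (b₁ 1) - Wl (g (b₁ 1))
      rw [hb1, hW1, hgg, hW0, map_add, map_smul, map_smul, hgg]
      module
  set W : Matrix (Fin n) (Fin n) F := LinearMap.toMatrix' Wl with hWdef
  have hH' : LinearMap.toMatrix' g = H := by rw [hg, LinearMap.toMatrix'_toLin']
  have hWsq : W * W = α • W + β • 1 := by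
    rw [hWdef, ← LinearMap.toMatrix'_comp, hWW, map_add, map_smul, map_smul, LinearMap.toMatrix'_id]
  have hHW : H * W = (α • 1 - W) * H := by
    rw [← hH', hWdef, ← LinearMap.toMatrix'_comp, hgW, LinearMap.toMatrix'_comp, map_sub, map_smul,
      LinearMap.toMatrix'_id]
  have hXW : X * W = (α • 1 - W) * X := by
    have hX' : X = w • H := by rw [hH, smul_smul, mul_inv_cancel₀ hw, one_smul]
    rw [hX']
    simp only [Matrix.smul_mul, Matrix.mul_smul, hHW]
  obtain ⟨P, hP⟩ := conj_quad hn2 hq hWsq hno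
  refine ⟨P, ?_⟩
  set y : GL (Fin n) F := P⁻¹ * G * P with hy
  set Q : Matrix (Fin n) (Fin n) F := ((P⁻¹ : GL (Fin n) F) : Matrix (Fin n) (Fin n) F) with hQ
  set R : Matrix (Fin n) (Fin n) F := (P : Matrix (Fin n) (Fin n) F) with hR
  have hQR : Q * R = 1 := by
    rw [hQ, hR, ← Units.val_mul, inv_mul_cancel, Units.val_one]
  have hRQ : R * Q = 1 := by
    rw [hQ, hR, ← Units.val_mul, mul_inv_cancel, Units.val_one]
  have hω' : ω = Q * W * R := by
    rw [Matrix.mul_assoc, ← hP, ← Matrix.mul_assoc, hQR, Matrix.one_mul]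
  have hyc : (y : Matrix (Fin n) (Fin n) F) = Q * X * R := rfl
  have hyω : (y : Matrix (Fin n) (Fin n) F) * ω = (α • 1 - ω) * (y : Matrix (Fin n) (Fin n) F) := by
    rw [hyc]
    calc Q * X * R * ω = Q * X * (R * ω) := by rw [Matrix.mul_assoc]
      _ = Q * (X * W) * R := by rw [hP]; simp only [Matrix.mul_assoc]
      _ = Q * ((α • 1 - W) * X) * R := by rw [hXW]
      _ = α • (Q * X * R) - (Q * W * R) * (Q * X * R) := by
        have : (Q * W * R) * (Q * X * R) = Q * W * (R * Q) * X * R := by simp only [Matrix.mul_assoc]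
        rw [this, hRQ, Matrix.mul_one]
        simp only [sub_mul, mul_sub, Matrix.smul_mul, Matrix.mul_smul, Matrix.one_mul, Matrix.mul_assoc]
      _ = _ := by
        rw [← hω']
        simp only [sub_mul, Matrix.smul_mul, Matrix.one_mul]
  have hyi1 : ((y⁻¹ : GL (Fin n) F) : Matrix (Fin n) (Fin n) F) * (y : Matrix (Fin n) (Fin n) F) = 1 := by
    rw [← Units.val_mul, inv_mul_cancel, Units.val_one]
  have hyi2 : (y : Matrix (Fin n) (Fin n) F) * ((y⁻¹ : GL (Fin n) F) : Matrix (Fin n) (Fin n) F) = 1 := by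
    rw [← Units.val_mul, mul_inv_cancel, Units.val_one]
  have hmem : α • 1 - ω ∈ K := K.sub_mem (K.smul_mem K.one_mem α) hω
  apply mem_normalizer K hgen
  · rw [hyω, Matrix.mul_assoc, hyi2, Matrix.mul_one]
    exact hmem
  · have : ((y⁻¹ : GL (Fin n) F) : Matrix (Fin n) (Fin n) F) * ω * (y : Matrix (Fin n) (Fin n) F) = α • 1 - ω := by
      set E : Matrix (Fin n) (Fin n) F := ((y⁻¹ : GL (Fin n) F) : Matrix (Fin n) (Fin n) F) * ω * (y : Matrix (Fin n) (Fin n) F) with hE
      have h6 : ω = α • 1 - E := by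
        calc ω = ((y⁻¹ : GL (Fin n) F) : Matrix (Fin n) (Fin n) F) * ((y : Matrix (Fin n) (Fin n) F) * ω) := by
              rw [← Matrix.mul_assoc, hyi1, Matrix.one_mul]
          _ = ((y⁻¹ : GL (Fin n) F) : Matrix (Fin n) (Fin n) F) * ((α • 1 - ω) * (y : Matrix (Fin n) (Fin n) F)) := by rw [hyω]
          _ = α • (((y⁻¹ : GL (Fin n) F) : Matrix (Fin n) (Fin n) F) * (y : Matrix (Fin n) (Fin n) F)) - E := by
              rw [hE]
              simp only [sub_mul, mul_sub, Matrix.smul_mul, Matrix.mul_smul, Matrix.one_mul, Matrix.mul_assoc]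
          _ = _ := by rw [hyi1]
      rw [eq_sub_iff_add_eq] at h6
      rw [eq_sub_iff_add_eq, add_comm]
      exact h6
    rw [this]
    exact hmem

end TwoDim

section Bad

variable {F : Type*} [Field F] {n : ℕ}

/-- A member of the normalizer of `K` has no eigenspace of codimension one. -/
theorem no_codim_one (hn3 : 3 ≤ n) (K : Subalgebra F (Matrix (Fin n) (Fin n) F)) (hK : IsFieldSubalgebra 2 K)
    (y : GL (Fin n) F) {c : F} (hc : c ≠ 0) (ℓ : (Fin n → F) →ₗ[F] F) (hℓ : ℓ ≠ 0)
    (h : ∀ v, ℓ v = 0 ↔ (y : Matrix (Fin n) (Fin n) F).mulVec v = c • v) : y ∉ subalgebraNormalizer K := by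
  classical
  intro hy
  obtain ⟨ω, hω, hns, hgen⟩ := exists_gen K hK
  set Y : Matrix (Fin n) (Fin n) F := (y : Matrix (Fin n) (Fin n) F) with hY
  set Y' : Matrix (Fin n) (Fin n) F := ((y⁻¹ : GL (Fin n) F) : Matrix (Fin n) (Fin n) F) with hY'
  have hYY' : Y * Y' = 1 := by
    rw [hY, hY', ← Units.val_mul, mul_inv_cancel, Units.val_one]
  have hY'Y : Y' * Y = 1 := by
    rw [hY, hY', ← Units.val_mul, inv_mul_cancel, Units.val_one]
  have hω₁ : Y * ω * Y' ∈ K := (hy ω).mp hω
  set ω₁ := Y * ω * Y' with hω₁def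
  have hYω : Y * ω = ω₁ * Y := by
    rw [hω₁def, Matrix.mul_assoc, Matrix.mul_assoc, hY'Y, Matrix.mul_one]
  -- a vector in the kernel of two functionals
  let Φ : (Fin n → F) →ₗ[F] (Fin 2 → F) := LinearMap.pi ![ℓ, ℓ ∘ₗ Matrix.toLin' ω]
  have hker : LinearMap.ker Φ ≠ ⊥ := by
    apply LinearMap.ker_ne_bot_of_finrank_lt
    simp
    omega
  obtain ⟨u, hu, hu0⟩ := Submodule.exists_mem_ne_zero_of_ne_bot hker
  have hu1 : ℓ u = 0 := congrFun (LinearMap.mem_ker.mp hu) 0
  have hu2 : ℓ (ω.mulVec u) = 0 := congrFun (LinearMap.mem_ker.mp hu) 1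
  have hYu : Y.mulVec u = c • u := (h u).mp hu1
  have hYωu : Y.mulVec (ω.mulVec u) = c • ω.mulVec u := (h _).mp hu2
  -- `Y` commutes with `ω`
  have hcomm : ω₁ = ω := by
    by_contra hne
    have h0 : (ω₁ - ω).mulVec u = 0 := by
      have h1 : Y.mulVec (ω.mulVec u) = ω₁.mulVec (Y.mulVec u) := by
        rw [Matrix.mulVec_mulVec, hYω, ← Matrix.mulVec_mulVec]
      rw [hYωu, hYu, Matrix.mulVec_smul] at h1
      have h2 : ω.mulVec u = ω₁.mulVec u := smul_right_injective _ hc h1
      rw [Matrix.sub_mulVec, ← h2, sub_self]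
    exact hu0 (mulVec_eq_zero K hK (K.sub_mem hω₁ hω) (sub_ne_zero.mpr hne) h0)
  rw [hcomm] at hYω
  -- the kernel is invariant
  have hinv : ∀ v, ℓ v = 0 → ℓ (ω.mulVec v) = 0 := by
    intro v hv
    apply (h _).mpr
    have := (h v).mp hv
    rw [Matrix.mulVec_mulVec, hYω, ← Matrix.mulVec_mulVec, this, Matrix.mulVec_smul]
  obtain ⟨v₀, hv₀⟩ : ∃ v, ℓ v ≠ 0 := by
    by_contra hcon
    push Not at hcon
    exact hℓ (LinearMap.ext hcon)
  set e : F := ℓ (ω.mulVec v₀) / ℓ v₀ with he
  have hscal : ∀ v, ℓ (ω.mulVec v) = e * ℓ v := by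
    intro v
    have h1 : ℓ (v - (ℓ v / ℓ v₀) • v₀) = 0 := by
      rw [map_sub, map_smul, smul_eq_mul]
      field_simp
      ring
    have h2 := hinv _ h1
    rw [Matrix.mulVec_sub, Matrix.mulVec_smul, map_sub, map_smul, smul_eq_mul, sub_eq_zero] at h2
    rw [h2, he]
    field_simp
  obtain ⟨τ, -, hτ, -⟩ := exists_inv K hK (K.sub_mem hω (K.smul_mem K.one_mem e)) (sub_ne_zero.mpr (hns e))
  have h3 : ℓ v₀ = 0 := by
    have h4 : v₀ = (ω - e • 1).mulVec (τ.mulVec v₀) := by
      rw [Matrix.mulVec_mulVec, hτ, Matrix.one_mulVec]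
    rw [h4, Matrix.sub_mulVec, Matrix.smul_mulVec, Matrix.one_mulVec, map_sub, map_smul, hscal, smul_eq_mul, sub_self]
  exact hv₀ h3

/-- An element with a codimension one eigenspace in coordinates. -/
theorem bad_conj (hn3 : 3 ≤ n) (K : Subalgebra F (Matrix (Fin n) (Fin n) F)) (hK : IsFieldSubalgebra 2 K)
    (x P : Matrix.SpecialLinearGroup (Fin n) F) {c : F} (hc : c ≠ 0) (i₀ : Fin n)
    (h : ∀ v : Fin n → F, v i₀ = 0 ↔ (x : Matrix (Fin n) (Fin n) F).mulVec v = c • v) :
    P⁻¹ * x * P ∉ (subalgebraNormalizer K).comap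
      (Matrix.SpecialLinearGroup.toGL : Matrix.SpecialLinearGroup (Fin n) F →* GL (Fin n) F) := by
  classical
  rw [Subgroup.mem_comap]
  have hPP : ((P⁻¹ : Matrix.SpecialLinearGroup (Fin n) F) : Matrix (Fin n) (Fin n) F) * (P : Matrix (Fin n) (Fin n) F) = 1 := by
    rw [← Matrix.SpecialLinearGroup.coe_mul, inv_mul_cancel]
    simp
  have hPP' : (P : Matrix (Fin n) (Fin n) F) * ((P⁻¹ : Matrix.SpecialLinearGroup (Fin n) F) : Matrix (Fin n) (Fin n) F) = 1 := by
    rw [← Matrix.SpecialLinearGroup.coe_mul, mul_inv_cancel]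
    simp
  refine no_codim_one hn3 K hK _ hc ((LinearMap.proj i₀) ∘ₗ Matrix.toLin' (P : Matrix (Fin n) (Fin n) F)) ?_ ?_
  · intro h0
    have h1 := LinearMap.congr_fun h0 (((P⁻¹ : Matrix.SpecialLinearGroup (Fin n) F) : Matrix (Fin n) (Fin n) F).mulVec (Pi.single i₀ 1))
    change ((P : Matrix (Fin n) (Fin n) F).mulVec _) i₀ = 0 at h1
    rw [Matrix.mulVec_mulVec, hPP', Matrix.one_mulVec] at h1
    simp at h1
  · intro v
    change ((P : Matrix (Fin n) (Fin n) F).mulVec v) i₀ = 0 ↔ _
    rw [h]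
    have hcoe : ((Matrix.SpecialLinearGroup.toGL (P⁻¹ * x * P) : GL (Fin n) F) : Matrix (Fin n) (Fin n) F) =
        ((P⁻¹ : Matrix.SpecialLinearGroup (Fin n) F) : Matrix (Fin n) (Fin n) F) * (x : Matrix (Fin n) (Fin n) F) * (P : Matrix (Fin n) (Fin n) F) := rfl
    rw [hcoe]
    constructor
    · intro h1
      rw [← Matrix.mulVec_mulVec, ← Matrix.mulVec_mulVec, h1, Matrix.mulVec_smul, Matrix.mulVec_mulVec, hPP, Matrix.one_mulVec]
    · intro h1
      rw [← Matrix.mulVec_mulVec, ← Matrix.mulVec_mulVec] at h1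
      have h2 := congrArg (fun u => (P : Matrix (Fin n) (Fin n) F).mulVec u) h1
      simp only [Matrix.mulVec_smul] at h2
      rw [Matrix.mulVec_mulVec, hPP', Matrix.one_mulVec] at h2
      exact h2

end Bad

section Numbers

variable {F : Type*} [Field F] [Fintype F] {n : ℕ}

theorem no_pow_eq_neg_one (h2 : ringChar F ≠ 2) (hn : n ≠ 0)
    (hv : padicValNat 2 (Fintype.card F - 1) ≤ padicValNat 2 n) (u : F) : u ^ n ≠ -1 := by
  classical
  haveI : Fact (Nat.Prime 2) := ⟨Nat.prime_two⟩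
  intro hu
  have hu0 : u ≠ 0 := by
    rintro rfl
    rw [zero_pow hn] at hu
    exact (neg_ne_zero.mpr one_ne_zero) hu.symm
  have hq1 : 1 < Fintype.card F := Fintype.one_lt_card
  have hN0 : Fintype.card F - 1 ≠ 0 := by omega
  obtain ⟨e, o, ho, hNe⟩ := Nat.exists_eq_two_pow_mul_odd hN0
  have hve : padicValNat 2 (Fintype.card F - 1) = e := by
    rw [hNe, padicValNat.mul (by positivity) (by rintro rfl; simp at ho), padicValNat.prime_pow]
    have : padicValNat 2 o = 0 := padicValNat.eq_zero_of_not_dvd (by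
      intro h
      exact (Nat.not_even_iff_odd.mpr ho) (even_iff_two_dvd.mpr h))
    omega
  rw [hve] at hv
  obtain ⟨m, hm⟩ : 2 ^ e ∣ n := (padicValNat_dvd_iff_le hn).mpr hv
  have h1 : u ^ (Fintype.card F - 1) = 1 := FiniteField.pow_card_sub_one_eq_one u hu0
  have h3 : (u ^ n) ^ o = 1 := by
    rw [hm, ← pow_mul, show 2 ^ e * m * o = (2 ^ e * o) * m by ring, ← hNe, pow_mul, h1, one_pow]
  rw [hu, ho.neg_one_pow] at h3
  have h4 : (2 : F) = 0 := by linear_combination -h3
  exact Ring.two_ne_zero h2 h4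

theorem exists_pow_eq_neg_one (h2 : ringChar F ≠ 2) (hn : n ≠ 0)
    (hv : padicValNat 2 n < padicValNat 2 (Fintype.card F - 1)) : ∃ w : F, w ^ n = -1 := by
  classical
  haveI : Fact (Nat.Prime 2) := ⟨Nat.prime_two⟩
  have hq1 : 1 < Fintype.card F := Fintype.one_lt_card
  set N := Fintype.card F - 1 with hN
  have hN0 : N ≠ 0 := by omega
  obtain ⟨γ, hγ⟩ := IsCyclic.exists_generator (α := Fˣ)
  have hγo : orderOf γ = N := by
    rw [orderOf_eq_card_of_forall_mem_zpowers hγ, Nat.card_eq_fintype_card, Fintype.card_units]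
  set d := Nat.gcd n N with hd
  obtain ⟨t, ht⟩ : d ∣ N := Nat.gcd_dvd_right _ _
  have hd0 : d ≠ 0 := by
    intro h
    rw [h, zero_mul] at ht
    exact hN0 ht
  have ht0 : t ≠ 0 := by
    rintro rfl
    rw [mul_zero] at ht
    exact hN0 ht
  have hv1 : padicValNat 2 N = padicValNat 2 d + padicValNat 2 t := by
    rw [ht, padicValNat.mul hd0 ht0]
  have hv2 : padicValNat 2 d ≤ padicValNat 2 n := by
    apply (padicValNat_dvd_iff_le hn).mp
    exact (pow_padicValNat_dvd).trans (Nat.gcd_dvd_left _ _)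
  have ht2 : 2 ∣ t := by
    apply dvd_of_one_le_padicValNat
    omega
  obtain ⟨t', rfl⟩ := ht2
  -- the element `γ^(N/2)` is `-1`
  have hhalf : (γ ^ (d * t')) ^ 2 = 1 := by
    rw [← pow_mul, show d * t' * 2 = d * (2 * t') by ring, ← ht, ← hγo, pow_orderOf_eq_one]
  have hhalf1 : γ ^ (d * t') ≠ 1 := by
    intro h
    have h3 := orderOf_dvd_of_pow_eq_one h
    rw [hγo, ht] at h3
    have hpos : 0 < d * t' := Nat.pos_of_ne_zero (mul_ne_zero hd0 (by rintro rfl; simp at ht0))
    have := Nat.le_of_dvd hpos h3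
    nlinarith
  have hm1 : ((γ ^ (d * t') : Fˣ) : F) = -1 := by
    have h3 : (((γ ^ (d * t') : Fˣ) : F)) ^ 2 = 1 := by
      have := congrArg Units.val hhalf
      simpa using this
    have h4 : ((γ ^ (d * t') : Fˣ) : F) ≠ 1 := fun h => hhalf1 (Units.ext (by simpa using h))
    have h5 : (((γ ^ (d * t') : Fˣ) : F) - 1) * (((γ ^ (d * t') : Fˣ) : F) + 1) = 0 := by
      linear_combination h3
    rcases mul_eq_zero.mp h5 with h6 | h6
    · exact absurd (sub_eq_zero.mp h6) h4
    · exact eq_neg_of_add_eq_zero_left h6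
  set A : ℤ := Nat.gcdA n N with hA
  set B : ℤ := Nat.gcdB n N with hB
  have hbez : (d : ℤ) = n * A + N * B := Nat.gcd_eq_gcd_ab n N
  have hz : (A * t' : ℤ) * n = ((d * t' : ℕ) : ℤ) + (N : ℤ) * (-(B * t')) := by
    push_cast
    linear_combination (-(t' : ℤ)) * hbez
  have hpow : (γ ^ (A * t' : ℤ)) ^ n = γ ^ (d * t') := by
    rw [← zpow_natCast, ← zpow_mul, hz, zpow_add, zpow_mul, zpow_natCast γ N, ← hγo, pow_orderOf_eq_one, one_zpow,
      mul_one, zpow_natCast]
  refine ⟨((γ ^ (A * t' : ℤ) : Fˣ) : F), ?_⟩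
  rw [← Units.val_pow_eq_pow_val, hpow, hm1]

end Numbers

/-- Involutions of `PSL_n(q)` and extension-field subgroups of degree 2. -/
theorem result {F : Type*} [Field F] [Fintype F] {p : ℕ} [Fact p.Prime] [CharP F p] {q : ℕ} (hq : Fintype.card F = q)
    (n : ℕ) (hn : 2 ≤ n) (hT : (n, q) ≠ (2, 2) ∧ (n, q) ≠ (2, 3))
    (k : ℕ) (hk : k.Prime) (hkn : k ∣ n) (K : Subalgebra F (Matrix (Fin n) (Fin n) F)) (hK : Cfsg.Geo.IsFieldSubalgebra k K) (hk2 : k = 2) (hΩ : 2 ∣ ((Cfsg.Geo.subalgebraNormalizer K).comap (Matrix.SpecialLinearGroup.toGL : Matrix.SpecialLinearGroup (Fin n) F →* GL (Fin n) F)).index) :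
    (∀ x : Matrix.SpecialLinearGroup (Fin n) F,
      (∃ z : F, ((x ^ 2 : Matrix.SpecialLinearGroup (Fin n) F) : Matrix (Fin n) (Fin n) F) = z • (1 : Matrix (Fin n) (Fin n) F)) →
      (∀ z : F, (x : Matrix (Fin n) (Fin n) F) ≠ z • (1 : Matrix (Fin n) (Fin n) F)) →
      ∃ P : Matrix.SpecialLinearGroup (Fin n) F, P⁻¹ * x * P ∈ ((Cfsg.Geo.subalgebraNormalizer K).comap (Matrix.SpecialLinearGroup.toGL : Matrix.SpecialLinearGroup (Fin n) F →* GL (Fin n) F))) ↔
    (n = 2 ∨ (Odd q ∧ padicValNat 2 (q - 1) ≤ padicValNat 2 n)) := by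
  classical
  subst hk2
  subst hq
  have hn1 : 1 ≤ n := by omega
  have hn0 : n ≠ 0 := by omega
  constructor
  · intro hL
    by_contra hR
    push Not at hR
    obtain ⟨hn2, hR⟩ := hR
    have hn3 : 3 ≤ n := by omega
    let i₀ : Fin n := ⟨0, by omega⟩
    let i₁ : Fin n := ⟨1, by omega⟩
    have h01 : i₀ ≠ i₁ := by simp [i₀, i₁, Fin.ext_iff]
    by_cases hodd : Odd (Fintype.card F)
    · have hchar : ringChar F ≠ 2 := by
        intro h
        have := FiniteField.even_card_iff_char_two.mp h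
        rw [Nat.odd_iff] at hodd
        omega
      have h2' : (2 : F) ≠ 0 := Ring.two_ne_zero hchar
      obtain ⟨w, hw⟩ := exists_pow_eq_neg_one (n := n) hchar hn0 (hR hodd)
      have hw0 : w ≠ 0 := by
        rintro rfl
        rw [zero_pow hn0] at hw
        exact (neg_ne_zero.mpr one_ne_zero) hw.symm
      set ε : Fin n → F := fun i => if i = i₀ then -1 else 1 with hε
      set X : Matrix (Fin n) (Fin n) F := w • Matrix.diagonal ε with hX
      have hdet : X.det = 1 := by
        rw [hX, Matrix.det_smul, Matrix.det_diagonal, Fintype.card_fin, hw]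
        have : ∏ i, ε i = -1 := by
          rw [hε, Finset.prod_ite]
          simp [Finset.filter_eq']
        rw [this]
        ring
      let x : Matrix.SpecialLinearGroup (Fin n) F := ⟨X, hdet⟩
      have hmul : ∀ v : Fin n → F, X.mulVec v = fun i => w * (ε i * v i) := by
        intro v
        ext i
        rw [hX, Matrix.smul_mulVec, Pi.smul_apply, Matrix.mulVec_diagonal, smul_eq_mul]
      have hXX : X * X = (w * w) • 1 := by
        rw [hX, Matrix.smul_mul, Matrix.mul_smul, Matrix.diagonal_mul_diagonal, smul_smul]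
        congr 1
        ext i j
        by_cases hij : i = j
        · subst hij
          by_cases hi : i = i₀ <;> simp [hε, hi]
        · simp [Matrix.diagonal_apply_ne, hij]
      have hns : ∀ c : F, X ≠ c • 1 := by
        intro c hc
        have h1 : X i₀ i₀ = c := by rw [hc]; simp
        have h3 : X i₁ i₁ = c := by rw [hc]; simp
        rw [hX] at h1 h3
        simp [hε, Matrix.diagonal_apply_eq, Ne.symm h01] at h1 h3
        have h4 : (2 : F) * w = 0 := by linear_combination h3 - h1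
        exact (mul_ne_zero h2' hw0) h4
      obtain ⟨P, hP⟩ := hL x ⟨w * w, by rw [pow_two]; exact hXX⟩ hns
      refine bad_conj hn3 K hK x P hw0 i₀ ?_ hP
      intro v
      change v i₀ = 0 ↔ X.mulVec v = w • v
      rw [hmul]
      constructor
      · intro h0
        ext i
        by_cases hi : i = i₀
        · subst hi
          simp [h0]
        · simp [hε, hi]
      · intro h0
        have h1 := congrFun h0 i₀
        have hε0 : ε i₀ = -1 := by simp [hε]
        simp only [hε0, Pi.smul_apply, smul_eq_mul] at h1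
        have h5 : ((2 : F) * w) * v i₀ = 0 := by linear_combination -h1
        exact (mul_eq_zero.mp h5).resolve_left (mul_ne_zero h2' hw0)
    · -- characteristic two
      have hchar : ringChar F = 2 := by
        rw [Nat.not_odd_iff_even] at hodd
        exact FiniteField.even_card_iff_char_two.mpr (Nat.even_iff.mp hodd)
      have h20 : (1 : F) + 1 = 0 := by
        have : (2 : F) = 0 := by
          have : CharP F 2 := by
            rw [← hchar]
            exact ringChar.charP F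
          exact CharTwo.two_eq_zero
        rw [← this]
        ring
      set X : Matrix (Fin n) (Fin n) F := Matrix.transvection i₀ i₁ 1 with hX
      have hdet : X.det = 1 := Matrix.det_transvection_of_ne _ _ h01 _
      let x : Matrix.SpecialLinearGroup (Fin n) F := ⟨X, hdet⟩
      have hXX : X * X = (1 * 1 : F) • 1 := by
        rw [hX, Matrix.transvection_mul_transvection_same _ _ h01, h20, Matrix.transvection_zero]
        simp
      have hmul : ∀ v : Fin n → F, X.mulVec v = v + Pi.single i₀ (v i₁) := by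
        intro v
        rw [hX, Matrix.transvection, Matrix.add_mulVec, Matrix.one_mulVec]
        congr 1
        ext i
        simp [Matrix.mulVec, dotProduct, Matrix.single_apply, Pi.single_apply]
        by_cases hi : i = i₀ <;> simp [hi, Finset.sum_ite_eq, eq_comm]
      have hns : ∀ c : F, X ≠ c • 1 := by
        intro c hc
        have h1 : X i₀ i₁ = c • (1 : Matrix (Fin n) (Fin n) F) i₀ i₁ := by rw [hc]; rfl
        rw [Matrix.one_apply_ne h01, hX, Matrix.transvection] at h1
        simp [Matrix.one_apply_ne h01, Matrix.single_apply] at h1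
      obtain ⟨P, hP⟩ := hL x ⟨1 * 1, by rw [pow_two]; exact hXX⟩ hns
      refine bad_conj hn3 K hK x P (one_ne_zero) i₁ ?_ hP
      intro v
      change v i₁ = 0 ↔ X.mulVec v = (1 : F) • v
      rw [hmul, one_smul]
      constructor
      · intro h0
        rw [h0]
        simp
      · intro h0
        have h1 := congrFun h0 i₀
        simpa using h1
  · rintro hR x ⟨z, hz⟩ hx2
    have hx : (x : Matrix (Fin n) (Fin n) F) * (x : Matrix (Fin n) (Fin n) F) = z • 1 := by
      rw [← hz, pow_two]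
      rfl
    have hz0 : z ≠ 0 := by
      rintro rfl
      have hd : ((x : Matrix (Fin n) (Fin n) F) * (x : Matrix (Fin n) (Fin n) F)).det = 1 := by
        rw [Matrix.det_mul, x.2, one_mul]
      haveI : Nonempty (Fin n) := ⟨⟨0, by omega⟩⟩
      rw [hx, zero_smul, Matrix.det_zero] at hd
      exact zero_ne_one hd
    have hG : ∃ P : GL (Fin n) F, P⁻¹ * Matrix.SpecialLinearGroup.toGL x * P ∈ subalgebraNormalizer K := by
      by_cases hs : IsSquare z
      · obtain ⟨w, rfl⟩ := hs
        have hw : w ≠ 0 := fun h => hz0 (by rw [h]; simp)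
        rcases hR with h2 | ⟨hodd, hv⟩
        · exact conj_two h2 K hK _ hw hx hx2
        · have hchar : ringChar F ≠ 2 := by
            intro h
            have := FiniteField.even_card_iff_char_two.mp h
            rw [Nat.odd_iff] at hodd
            omega
          exact conj_of_even K hK hchar _ hw hx x.2 (no_pow_eq_neg_one hchar hn0 hv)
      · have hchar : ringChar F ≠ 2 := fun h => hs (FiniteField.isSquare_of_char_two h z)
        exact conj_of_not_square K hK hchar _ hs hx
    obtain ⟨P, hP⟩ := hG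
    obtain ⟨P', hP'⟩ := exists_sl_conj hn1 x hz0 hx hx2 P
    refine ⟨P', ?_⟩
    rw [Subgroup.mem_comap, hP']
    exact hP

end Cfsg.Agent.S5969
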