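import Cfsg.Statements.S5970
import Cfsg.Agent.Lib.Classical.Elusive.Singer
import Mathlib

set_option autoImplicit false
open scoped MatrixGroups
open Cfsg

namespace Cfsg.Agent.S5970

open Module Matrix Cfsg.Geo Cfsg.Agent.Lib.Classical.Elusive Cfsg.Agent.Lib.Classical.Elusive.Singer

/-- The element of order `n`: a fixed point free block, a compensating eigenvalue and a big
eigenspace. -/
theorem exists_bad_element {F : Type*} [Field F] [Fintype F] (p : ℕ) [Fact p.Prime] [CharP F p]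
    {n e t : ℕ} (hn : n = e + (1 + t)) [Fact n.Prime] (he : 0 < e) (ht : 2 ≤ t)
    (hd : n ∣ Fintype.card F ^ e - 1) :
    ∃ x : Matrix.SpecialLinearGroup (Fin n) F,
      ((x ^ n : Matrix.SpecialLinearGroup (Fin n) F) : Matrix (Fin n) (Fin n) F) = (1 : F) • 1 ∧
      (∀ z : F, (x : Matrix (Fin n) (Fin n) F) ≠ z • 1) ∧
      ∃ v w : Fin n → F, v ≠ 0 ∧ (∀ c : F, w ≠ c • v) ∧ (x : Matrix (Fin n) (Fin n) F) *ᵥ v = (1 : F) • v ∧
        (x : Matrix (Fin n) (Fin n) F) *ᵥ w = (1 : F) • w := by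
  classical
  obtain ⟨A, hAn, hAf⟩ := exists_gl_fpf (F := F) p he hd
  let δ : F := (A : Matrix (Fin e) (Fin e) F).det
  have hδ : δ ≠ 0 := by
    have h1 : IsUnit (A : Matrix (Fin e) (Fin e) F) := A.isUnit
    exact ((Matrix.isUnit_iff_isUnit_det _).1 h1).ne_zero
  have hδn : δ ^ n = 1 := by
    change (A : Matrix (Fin e) (Fin e) F).det ^ n = 1
    rw [← det_pow, ← Units.val_pow_eq_pow_val, hAn, Units.val_one, det_one]
  let D : Matrix (Unit ⊕ Fin t) (Unit ⊕ Fin t) F := diagonal (Sum.elim (fun _ => δ⁻¹) (fun _ => 1))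
  let W : Matrix (Fin e ⊕ (Unit ⊕ Fin t)) (Fin e ⊕ (Unit ⊕ Fin t)) F :=
    fromBlocks (A : Matrix (Fin e) (Fin e) F) 0 0 D
  have hWpow : ∀ k : ℕ, W ^ k = fromBlocks ((A : Matrix (Fin e) (Fin e) F) ^ k) 0 0 (D ^ k) := by
    intro k
    induction k with
    | zero => simp
    | succ k ih =>
      rw [pow_succ, ih, fromBlocks_multiply, pow_succ, pow_succ]
      simp
  have hWn : W ^ n = 1 := by
    rw [hWpow, ← Units.val_pow_eq_pow_val, hAn, Units.val_one, diagonal_pow]
    have : (Sum.elim (fun _ => δ⁻¹) (fun _ => 1) : Unit ⊕ Fin t → F) ^ n = 1 := by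
      funext i
      rcases i with i | i
      · simp [hδn]
      · simp
    have h5 : diagonal (1 : Unit ⊕ Fin t → F) = 1 := diagonal_one
    rw [this, h5, fromBlocks_one]
  have hWd : W.det = 1 := by
    rw [det_fromBlocks_zero₁₂, det_diagonal, Fintype.prod_sum_type]
    simp
    exact mul_inv_cancel₀ hδ
  let E : Fin n ≃ Fin e ⊕ (Unit ⊕ Fin t) := Fintype.equivOfCardEq (by simp; omega)
  let X : Matrix (Fin n) (Fin n) F := W.submatrix E E
  have hXd : X.det = 1 := by
    rw [det_submatrix_equiv_self, hWd]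
  have hXpow : ∀ k : ℕ, X ^ k = (W ^ k).submatrix E E := by
    intro k
    induction k with
    | zero => simp [submatrix_one_equiv]
    | succ k ih => rw [pow_succ, pow_succ, ih, submatrix_mul_equiv]
  let x : Matrix.SpecialLinearGroup (Fin n) F := ⟨X, hXd⟩
  have hvec : ∀ (j : Fin t), X *ᵥ Pi.single (E.symm (.inr (.inr j))) 1 = Pi.single (E.symm (.inr (.inr j))) 1 := by
    intro j
    ext i
    rw [mulVec_single_one]
    change W (E i) (E (E.symm (.inr (.inr j)))) = _
    rw [Equiv.apply_symm_apply]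
    rcases hEi : E i with a | b | c
    · simp [W, Pi.single_apply, ← hEi, Equiv.eq_symm_apply]
      rw [hEi]; simp
    · simp [W, D, Equiv.eq_symm_apply, hEi]
    · by_cases hc : c = j
      · subst hc
        have hi : E.symm (.inr (.inr c)) = i := by rw [← hEi, Equiv.symm_apply_apply]
        simp [W, D, hi]
      · simp [W, D, Equiv.eq_symm_apply, hEi, hc]
  have hent : ∀ a b, X (E.symm a) (E.symm b) = W a b := by
    intro a b
    change W (E (E.symm a)) (E (E.symm b)) = W a b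
    rw [Equiv.apply_symm_apply, Equiv.apply_symm_apply]
  let j₀ : Fin t := ⟨0, by omega⟩
  let j₁ : Fin t := ⟨1, by omega⟩
  have hj : j₁ ≠ j₀ := by simp [j₀, j₁, Fin.ext_iff]
  have hne : (E.symm (.inr (.inr j₁))) ≠ (E.symm (.inr (.inr j₀))) := by
    intro h
    exact hj (by simpa using E.symm.injective h)
  refine ⟨x, ?_, ?_, Pi.single (E.symm (.inr (.inr j₀))) 1, Pi.single (E.symm (.inr (.inr j₁))) 1,
    ?_, ?_, ?_, ?_⟩
  · rw [Matrix.SpecialLinearGroup.coe_pow, one_smul]
    change X ^ n = 1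
    rw [hXpow, hWn, submatrix_one_equiv]
  · intro z hz
    have hzX : X = z • 1 := hz
    have h1 := hent (.inr (.inr j₀)) (.inr (.inr j₀))
    rw [hzX] at h1
    have h2 : z = 1 := by simpa [W, D] using h1
    subst h2
    rw [one_smul] at hzX
    have hA1 : (A : Matrix (Fin e) (Fin e) F) = 1 := by
      ext i i'
      have h3 := hent (.inl i) (.inl i')
      rw [hzX] at h3
      have h4 : W (.inl i) (.inl i') = (A : Matrix (Fin e) (Fin e) F) i i' := rfl
      rw [← h4, ← h3]
      by_cases hii : i = i'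
      · subst hii; simp
      · simp [hii]
    have h5 := hAf (Pi.single ⟨0, he⟩ 1) (by rw [hA1, one_mulVec])
    have h6 := congrFun h5 ⟨0, he⟩
    simp at h6
  · intro h
    have h6 := congrFun h (E.symm (.inr (.inr j₀)))
    simp at h6
  · intro c h
    have h6 := congrFun h (E.symm (.inr (.inr j₁)))
    rw [Pi.smul_apply, Pi.single_eq_same, Pi.single_eq_of_ne hne] at h6
    simp at h6
  · rw [one_smul]; exact hvec j₀
  · rw [one_smul]; exact hvec j₁

/-- Statement S5970. -/
theorem result {F : Type*} [Field F] [Fintype F] {p : ℕ} [Fact p.Prime] [CharP F p] {q : ℕ} (hq : Fintype.card F = q)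
    (n : ℕ) (hn : 2 ≤ n) (hT : (n, q) ≠ (2, 2) ∧ (n, q) ≠ (2, 3))
    (k : ℕ) (hk : k.Prime) (hkn : k ∣ n) (K : Subalgebra F (Matrix (Fin n) (Fin n) F)) (hK : Cfsg.Geo.IsFieldSubalgebra k K) (hkn' : k = n) (hn3 : 3 < n) (hnp : n ≠ p) (hΩ : n ∣ ((Cfsg.Geo.subalgebraNormalizer K).comap (Matrix.SpecialLinearGroup.toGL : Matrix.SpecialLinearGroup (Fin n) F →* GL (Fin n) F)).index) :
    (∀ x : Matrix.SpecialLinearGroup (Fin n) F,
      (∃ z : F, ((x ^ n : Matrix.SpecialLinearGroup (Fin n) F) : Matrix (Fin n) (Fin n) F) = z • (1 : Matrix (Fin n) (Fin n) F)) →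
      (∀ z : F, (x : Matrix (Fin n) (Fin n) F) ≠ z • (1 : Matrix (Fin n) (Fin n) F)) →
      ∃ P : Matrix.SpecialLinearGroup (Fin n) F, P⁻¹ * x * P ∈ ((Cfsg.Geo.subalgebraNormalizer K).comap (Matrix.SpecialLinearGroup.toGL : Matrix.SpecialLinearGroup (Fin n) F →* GL (Fin n) F))) ↔
    orderOf (q : ZMod n) = n - 1 := by
  classical
  subst hq
  subst hkn'
  have hprimep : p.Prime := Fact.out
  haveI : Fact k.Prime := ⟨hk⟩
  constructor
  · intro H
    by_contra hne
    set Q : ZMod k := ((Fintype.card F : ℕ) : ZMod k) with hQ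
    have hQ0 : Q ≠ 0 := by
      intro h0
      have h1 : k ∣ Fintype.card F := (ZMod.natCast_eq_zero_iff _ _).1 h0
      obtain ⟨f, -, hf⟩ := FiniteField.card F p
      rw [hf] at h1
      exact hnp ((Nat.prime_dvd_prime_iff_eq hk hprimep).1 (hk.dvd_of_dvd_pow h1))
    have h1 : Q ^ (k - 1) = 1 := ZMod.pow_card_sub_one_eq_one hQ0
    have h2 : orderOf Q ∣ k - 1 := orderOf_dvd_of_pow_eq_one h1
    have hepos : 0 < orderOf Q := by
      rcases Nat.eq_zero_or_pos (orderOf Q) with h3 | h3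
      · rw [h3, zero_dvd_iff] at h2
        omega
      · exact h3
    obtain ⟨c, hc⟩ := h2
    have hc2 : 2 ≤ c := by
      rcases c with _ | _ | c
      · simp at hc
        omega
      · exact (hne (by simpa using hc.symm)).elim
      · omega
    have hle : 2 * orderOf Q ≤ k - 1 := by
      rw [hc, mul_comm]
      exact Nat.mul_le_mul_left _ hc2
    have hd : k ∣ Fintype.card F ^ orderOf Q - 1 := by
      rw [← ZMod.natCast_eq_zero_iff, Nat.cast_sub (Nat.one_le_pow _ _ Fintype.card_pos)]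
      push_cast
      rw [← hQ, pow_orderOf_eq_one, sub_self]
    obtain ⟨x, h3, h4, v, w, hv, hw, hxv, hxw⟩ :=
      exists_bad_element (F := F) p (n := k) (e := orderOf Q) (t := k - 1 - orderOf Q)
        (by omega) hepos (by omega) hd
    obtain ⟨P, hP⟩ := H x ⟨1, h3⟩ h4
    exact not_conj_of_eigen hk hK x h4 hv hw hxv hxw P hP
  · intro hord x ⟨z, hz⟩ hnon
    obtain ⟨m, rfl⟩ : ∃ m, k = m + 1 := ⟨k - 1, by omega⟩
    have h0 : ((m + 1 : ℕ) : F) ≠ 0 := by
      intro h
      have h1 := (CharP.cast_eq_zero_iff F p _).1 h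
      exact hnp ((Nat.prime_dvd_prime_iff_eq hprimep hk).1 h1).symm
    obtain ⟨g, hg, hgn, hgnon⟩ := exists_frobenius (by omega) hK
    exact conj_of_cyclic m (by omega) h0 (by simpa using hord) x z hz hnon g hg hgn hgnon

end Cfsg.Agent.S5970
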