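import Cfsg.Statements.S5971
import Cfsg.Agent.Lib.Classical.Elusive.Singer
import Cfsg.Agent.Lib.Classical.Elusive.Eigen
import Cfsg.Agent.Lib.Linalg.Basic
import Mathlib

set_option autoImplicit false
open scoped MatrixGroups
open Cfsg

namespace Cfsg.Agent.S5971

open Module Matrix Cfsg.Geo Cfsg.Agent.Lib.Classical.Elusive.Singer
open Cfsg.Agent.Lib.Classical.Elusive.Eigen

section Top

variable {F V : Type*} [Field F] [AddCommGroup V] [Module F V]

/-- The eigenprojections of an endomorphism with `X ^ 3 = a ^ 3`. -/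
theorem proj_mem {X : V →ₗ[F] V} {a c d : F} (hX : ∀ v, X (X (X v)) = (a ^ 3) • v)
    (hc : c ^ 3 = a ^ 3) (hcd : c * d = 1) (v : V) :
    (3 : F)⁻¹ • (v + d • X v + (d ^ 2) • X (X v)) ∈ Module.End.eigenspace X c := by
  rw [Module.End.mem_eigenspace_iff]
  simp only [map_smul, map_add, hX]
  have e2 : d ^ 2 * a ^ 3 = c := by
    rw [← hc]
    calc d ^ 2 * c ^ 3 = (c * d) ^ 2 * c := by ring
      _ = c := by rw [hcd]; ring
  have e3 : c * d ^ 2 = d := by
    calc c * d ^ 2 = (c * d) * d := by ring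
      _ = d := by rw [hcd, one_mul]
  have h1 : (3 : F)⁻¹ • (X v + d • X (X v) + (d ^ 2) • (a ^ 3) • v)
      = (3 : F)⁻¹ • (X v + d • X (X v) + (d ^ 2 * a ^ 3) • v) := by module
  have h2 : c • (3 : F)⁻¹ • (v + d • X v + (d ^ 2) • X (X v))
      = (3 : F)⁻¹ • (c • v + (c * d) • X v + (c * d ^ 2) • X (X v)) := by module
  rw [h1, h2, e2, e3, hcd]
  module

theorem top_eigen (h3 : (3 : F) ≠ 0) {X : V →ₗ[F] V} {a ω : F} (ha : a ≠ 0)
    (hω : ω ^ 2 + ω + 1 = 0) (hX : ∀ v, X (X (X v)) = (a ^ 3) • v) :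
    ⨆ i, Module.End.eigenspace X ((![a, a * ω, a * ω ^ 2] : Fin 3 → F) i) = ⊤ := by
  have hω3 : ω ^ 3 = 1 := by linear_combination (ω - 1) * hω
  rw [eq_top_iff]
  intro v _
  let b := a⁻¹
  have hab : a * b = 1 := mul_inv_cancel₀ ha
  have h0 := proj_mem (c := a) (d := b) hX rfl hab v
  have h1 := proj_mem (c := a * ω) (d := b * ω ^ 2) hX (by rw [mul_pow, hω3, mul_one])
    (by linear_combination hab * ω ^ 3 + hω3) v
  have h2 := proj_mem (c := a * ω ^ 2) (d := b * ω) hX
    (by rw [mul_pow, ← pow_mul]; norm_num; rw [show ω ^ 6 = (ω ^ 3) ^ 2 by ring, hω3]; ring)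
    (by linear_combination hab * ω ^ 3 + hω3) v
  have hsum : v = (3 : F)⁻¹ • (v + b • X v + (b ^ 2) • X (X v))
      + (3 : F)⁻¹ • (v + (b * ω ^ 2) • X v + ((b * ω ^ 2) ^ 2) • X (X v))
      + (3 : F)⁻¹ • (v + (b * ω) • X v + ((b * ω) ^ 2) • X (X v)) := by
    have e1 : (3 : F)⁻¹ • (v + b • X v + (b ^ 2) • X (X v))
      + (3 : F)⁻¹ • (v + (b * ω ^ 2) • X v + ((b * ω ^ 2) ^ 2) • X (X v))
      + (3 : F)⁻¹ • (v + (b * ω) • X v + ((b * ω) ^ 2) • X (X v))
      = ((3 : F)⁻¹ * 3) • v + ((3 : F)⁻¹ * b * (ω ^ 2 + ω + 1)) • X v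
        + ((3 : F)⁻¹ * b ^ 2 * (ω ^ 4 + ω ^ 2 + 1)) • X (X v) := by module
    have e2 : ω ^ 4 + ω ^ 2 + 1 = 0 := by linear_combination ω * hω3 + hω
    rw [e1, hω, e2, inv_mul_cancel₀ h3]
    simp
  rw [hsum]
  refine Submodule.add_mem _ (Submodule.add_mem _ ?_ ?_) ?_
  · exact Submodule.mem_iSup_of_mem (0 : Fin 3) h0
  · exact Submodule.mem_iSup_of_mem (1 : Fin 3) h1
  · exact Submodule.mem_iSup_of_mem (2 : Fin 3) h2

/-- The values of `![a, a ω, a ω²]` are distinct. -/
theorem inj_vals {a ω : F} (ha : a ≠ 0) (h1 : ω ≠ 1) (hω : ω ^ 2 + ω + 1 = 0) :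
    Function.Injective (![a, a * ω, a * ω ^ 2] : Fin 3 → F) := by
  have hω3 : ω ^ 3 = 1 := by linear_combination (ω - 1) * hω
  have hω0 : ω ≠ 0 := by
    rintro rfl
    norm_num at hω3
  have h2 : ω ^ 2 ≠ 1 := by
    intro h
    apply h1
    linear_combination hω3 - ω * h
  have h01 : a ≠ a * ω := fun h => h1 (by
    have : a * ω = a * 1 := by rw [mul_one]; exact h.symm
    exact mul_left_cancel₀ ha this)
  have h02 : a ≠ a * ω ^ 2 := fun h => h2 (by
    have : a * ω ^ 2 = a * 1 := by rw [mul_one]; exact h.symm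
    exact mul_left_cancel₀ ha this)
  have h12 : a * ω ≠ a * ω ^ 2 := fun h => h1 (by
    have h3 := mul_left_cancel₀ ha h
    have : ω * ω = ω * 1 := by rw [mul_one, ← sq]; exact h3.symm
    exact mul_left_cancel₀ hω0 this)
  intro i j hij
  fin_cases i <;> fin_cases j <;> first
    | rfl
    | exact absurd hij h01
    | exact absurd hij h02
    | exact absurd hij h12
    | exact absurd hij.symm h01
    | exact absurd hij.symm h02
    | exact absurd hij.symm h12

/-- The arithmetic of the three eigenvalues. -/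
theorem arith_dims {a ω : F} (hω3 : ω ^ 3 = 1) {d₀ d₁ d₂ : ℕ} (hd : d₀ + d₁ + d₂ = 3)
    (hdet : a ^ d₀ * (a * ω) ^ d₁ * (a * ω ^ 2) ^ d₂ = 1) :
    (a ^ 3 = 1 ∧ ((d₀ = 1 ∧ d₁ = 1 ∧ d₂ = 1) ∨ d₀ = 3 ∨ d₁ = 3 ∨ d₂ = 3)) ∨ a ^ 3 = ω ∨ a ^ 3 = ω ^ 2 := by
  have h1 : d₀ ≤ 3 := by omega
  have h2 : d₁ ≤ 3 := by omega
  have h3 : d₂ ≤ 3 := by omega
  interval_cases d₁ <;> interval_cases d₂ <;> first
    | omega
    | (have h0 : d₀ = 3 := by omega
       subst h0
       left
       refine ⟨?_, by simp⟩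
       linear_combination hdet)
    | (have h0 : d₀ = 2 := by omega
       subst h0
       first
       | (right; right; linear_combination ω ^ 2 * hdet - a ^ 3 * hω3)
       | (right; left; linear_combination ω * hdet - a ^ 3 * hω3))
    | (have h0 : d₀ = 1 := by omega
       subst h0
       first
       | (left; refine ⟨?_, by simp⟩; linear_combination hdet - a ^ 3 * hω3)
       | (right; left; linear_combination ω * hdet - a ^ 3 * hω3)
       | (right; right; linear_combination ω ^ 2 * hdet - a ^ 3 * (ω ^ 3 + 1) * hω3))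
    | (have h0 : d₀ = 0 := by omega
       subst h0
       first
       | (left; refine ⟨?_, by simp⟩; linear_combination hdet - a ^ 3 * hω3)
       | (left; refine ⟨?_, by simp⟩; linear_combination hdet - a ^ 3 * (ω ^ 3 + 1) * hω3)
       | (right; right; linear_combination ω ^ 2 * hdet - a ^ 3 * (ω ^ 3 + 1) * hω3)
       | (right; left; linear_combination ω * hdet - a ^ 3 * (ω ^ 3 + 1) * hω3))

end Top

section Main

variable {F : Type*} [Field F] [Fintype F]

/-- Dimensions and determinant in terms of the three eigenvalues. -/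
theorem dims_of_cube {V : Type*} [AddCommGroup V] [Module F V] [FiniteDimensional F V]
    (h3 : (3 : F) ≠ 0) {X : V →ₗ[F] V} {a ω : F} (ha : a ≠ 0) (h1 : ω ≠ 1)
    (hω : ω ^ 2 + ω + 1 = 0) (hX : ∀ v, X (X (X v)) = (a ^ 3) • v) :
    finrank F (Module.End.eigenspace X a) + finrank F (Module.End.eigenspace X (a * ω))
      + finrank F (Module.End.eigenspace X (a * ω ^ 2)) = finrank F V ∧
    LinearMap.det X = a ^ finrank F (Module.End.eigenspace X a)
      * (a * ω) ^ finrank F (Module.End.eigenspace X (a * ω))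
      * (a * ω ^ 2) ^ finrank F (Module.End.eigenspace X (a * ω ^ 2)) := by
  have := eigen_data X _ (inj_vals ha h1 hω) (top_eigen h3 ha hω hX)
  simp only [Fin.sum_univ_three, Fin.prod_univ_three] at this
  exact this

/-- A matrix of determinant one whose cube is `z` has `z` a cube. -/
theorem cube_of_det (x : Matrix (Fin 3) (Fin 3) F) (z : F) (hx : x ^ 3 = z • 1) (hdet : x.det = 1) :
    ∃ s : F, s ^ 3 = z := by
  classical
  by_contra h
  push Not at h
  have hirr : Irreducible (Polynomial.X ^ 3 - Polynomial.C z : Polynomial F) :=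
    X_pow_sub_C_irreducible_of_prime Nat.prime_three h
  have hint : IsIntegral F x := Algebra.IsIntegral.isIntegral x
  have hdvd : minpoly F x ∣ (Polynomial.X ^ 3 - Polynomial.C z : Polynomial F) := by
    apply minpoly.dvd
    simp [hx, Algebra.algebraMap_eq_smul_one]
  have hmon : (Polynomial.X ^ 3 - Polynomial.C z : Polynomial F).Monic :=
    Polynomial.monic_X_pow_sub_C _ (by norm_num)
  have hm : minpoly F x = (Polynomial.X ^ 3 - Polynomial.C z : Polynomial F) := by
    rcases (hirr.dvd_iff).1 hdvd with hu | ha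
    · exact (minpoly.not_isUnit F x hu).elim
    · exact Polynomial.eq_of_monic_of_associated (minpoly.monic hint) hmon ha.symm
  have hdeg : (Polynomial.X ^ 3 - Polynomial.C z : Polynomial F).natDegree = 3 :=
    Polynomial.natDegree_X_pow_sub_C
  have hcp : x.charpoly = (Polynomial.X ^ 3 - Polynomial.C z : Polynomial F) := by
    have h1 : (Polynomial.X ^ 3 - Polynomial.C z : Polynomial F) ∣ x.charpoly := by
      rw [← hm]
      exact Matrix.minpoly_dvd_charpoly x
    refine Polynomial.eq_of_monic_of_dvd_of_natDegree_le hmon (Matrix.charpoly_monic x) h1 ?_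
    rw [Matrix.charpoly_natDegree_eq_dim, hdeg]
    simp
  have h2 := Matrix.det_eq_sign_charpoly_coeff x
  rw [hcp, hdet] at h2
  have h3 : z = 1 := by
    have h4 : -((-1 : F) ^ 3 * z) = 1 := by
      simpa [Polynomial.coeff_X_pow, Polynomial.coeff_C] using h2.symm
    linear_combination h4
  exact h 1 (by rw [h3, one_pow])

theorem mulVec_cube (M : Matrix (Fin 3) (Fin 3) F) (v : Fin 3 → F) :
    toLin' M (toLin' M (toLin' M v)) = (M ^ 3) *ᵥ v := by
  simp only [toLin'_apply, mulVec_mulVec]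
  congr 1
  rw [pow_succ, pow_two, mul_assoc]

/-- The eigenvectors of an element of `SL_3` whose cube is scalar, when the cube roots of unity are
in the field but are not cubes. -/
theorem eigen_x (h3 : (3 : F) ≠ 0) {ω : F} (h1 : ω ≠ 1) (hω : ω ^ 2 + ω + 1 = 0)
    (hcube : ∀ s : F, s ^ 3 ≠ ω ∧ s ^ 3 ≠ ω ^ 2) (x : Matrix (Fin 3) (Fin 3) F) (z : F)
    (hx : x ^ 3 = z • 1) (hdet : x.det = 1) (hnon : ∀ c : F, x ≠ c • 1) :
    ∃ b : Basis (Fin 3) F (Fin 3 → F), ∀ i, toLin' x (b i) = (![1, ω, ω ^ 2] : Fin 3 → F) i • b i := by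
  classical
  have hω3 : ω ^ 3 = 1 := by linear_combination (ω - 1) * hω
  have h2 : ω ^ 2 ≠ 1 := by
    intro h
    apply h1
    linear_combination hω3 - ω * h
  have hfin : finrank F (Fin 3 → F) = 3 := finrank_fin_fun F
  obtain ⟨s, hs⟩ := cube_of_det x z hx hdet
  have hs0 : s ≠ 0 := by
    rintro rfl
    rw [zero_pow (by norm_num)] at hs
    subst hs
    have h4 := congrArg det hx
    rw [det_pow, hdet, one_pow, zero_smul, det_zero] at h4
    exact one_ne_zero h4
  have hdetX : LinearMap.det (toLin' x) = 1 := by rw [LinearMap.det_toLin', hdet]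
  have hXs : ∀ v, toLin' x (toLin' x (toLin' x v)) = (s ^ 3) • v := by
    intro v
    rw [mulVec_cube, hx, hs, smul_mulVec, one_mulVec]
  obtain ⟨hsum, hd⟩ := dims_of_cube h3 hs0 h1 hω hXs
  rw [hfin] at hsum
  rw [hdetX] at hd
  have hz1 : z = 1 := by
    rcases arith_dims hω3 hsum hd.symm with ⟨h4, -⟩ | h4 | h4
    · rw [← hs, h4]
    · exact ((hcube s).1 h4).elim
    · exact ((hcube s).2 h4).elim
  subst hz1
  have hX1 : ∀ v, toLin' x (toLin' x (toLin' x v)) = ((1 : F) ^ 3) • v := by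
    intro v
    rw [mulVec_cube, hx, one_pow, one_smul, one_smul, one_mulVec]
  obtain ⟨hsum1, hd1⟩ := dims_of_cube h3 one_ne_zero h1 hω hX1
  rw [hfin] at hsum1
  rw [hdetX] at hd1
  have htop : ∀ c : F, finrank F (Module.End.eigenspace (toLin' x) c) = 3 → False := by
    intro c hc
    have h4 : Module.End.eigenspace (toLin' x) c = ⊤ :=
      Submodule.eq_top_of_finrank_eq (by rw [hc, hfin])
    apply hnon c
    apply mulVec_injective
    funext v
    have h5 : v ∈ Module.End.eigenspace (toLin' x) c := by rw [h4]; trivial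
    have h6 := Module.End.mem_eigenspace_iff.1 h5
    rw [toLin'_apply] at h6
    rw [h6, smul_mulVec, one_mulVec]
  rcases arith_dims hω3 hsum1 hd1.symm with ⟨-, h4⟩ | h4 | h4
  · have hne : ∀ c : F, finrank F (Module.End.eigenspace (toLin' x) c) = 1 →
        ∃ u, u ≠ 0 ∧ toLin' x u = c • u := by
      intro c hc
      obtain ⟨u, hu, hu0⟩ := Submodule.exists_mem_ne_zero_of_ne_bot (p := Module.End.eigenspace (toLin' x) c) (by
        intro h
        rw [h, finrank_bot] at hc
        exact zero_ne_one hc)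
      exact ⟨u, hu0, Module.End.mem_eigenspace_iff.1 hu⟩
    rcases h4 with ⟨h5, h6, h7⟩ | h5 | h5 | h5
    · refine exists_eigenbasis (toLin' x) _ ?_ (by simp [hfin]) ?_
      · have := inj_vals (a := (1 : F)) one_ne_zero h1 hω
        simpa using this
      · intro i
        fin_cases i
        · simpa using hne _ h5
        · simpa using hne _ h6
        · simpa using hne _ h7
    · exact (htop _ h5).elim
    · exact (htop _ h5).elim
    · exact (htop _ h5).elim
  · rw [one_pow] at h4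
    exact (h1 h4.symm).elim
  · rw [one_pow] at h4
    exact (h2 h4.symm).elim

/-- The same for the Frobenius of the field. -/
theorem eigen_g {K : Subalgebra F (Matrix (Fin 3) (Fin 3) F)} (hK : IsFieldSubalgebra 3 K)
    (h3 : (3 : F) ≠ 0) {ω : F} (h1 : ω ≠ 1) (hω : ω ^ 2 + ω + 1 = 0)
    (g : GL (Fin 3) F) (hg : g ∈ subalgebraNormalizer K) (hg3 : g ^ 3 = 1)
    (hnon : ∀ c : F, (g : Matrix (Fin 3) (Fin 3) F) ≠ c • 1) :
    (g : Matrix (Fin 3) (Fin 3) F).det = 1 ∧ ∃ b : Basis (Fin 3) F (Fin 3 → F),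
      ∀ i, toLin' (g : Matrix (Fin 3) (Fin 3) F) (b i) = (![1, ω, ω ^ 2] : Fin 3 → F) i • b i := by
  classical
  have hω3 : ω ^ 3 = 1 := by linear_combination (ω - 1) * hω
  have hfin : finrank F (Fin 3 → F) = 3 := finrank_fin_fun F
  have hgm : (g : Matrix (Fin 3) (Fin 3) F) ^ 3 = 1 := by
    rw [← Units.val_pow_eq_pow_val, hg3, Units.val_one]
  have hX1 : ∀ v, toLin' (g : Matrix (Fin 3) (Fin 3) F) (toLin' (g : Matrix (Fin 3) (Fin 3) F)
      (toLin' (g : Matrix (Fin 3) (Fin 3) F) v)) = ((1 : F) ^ 3) • v := by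
    intro v
    rw [mulVec_cube, hgm, one_pow, one_smul, one_mulVec]
  obtain ⟨hsum, hd⟩ := dims_of_cube h3 one_ne_zero h1 hω hX1
  rw [hfin] at hsum
  have hle : ∀ c : F, finrank F (Module.End.eigenspace (toLin' (g : Matrix (Fin 3) (Fin 3) F)) c) ≤ 1 := by
    intro c
    by_contra hc
    push Not at hc
    set E := Module.End.eigenspace (toLin' (g : Matrix (Fin 3) (Fin 3) F)) c with hE
    obtain ⟨v, hv, hv0⟩ := Submodule.exists_mem_ne_zero_of_ne_bot (p := E) (by
      intro h
      rw [h, finrank_bot] at hc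
      omega)
    have hlt : Submodule.span F {v} < E := by
      refine lt_of_le_of_ne ((Submodule.span_singleton_le_iff_mem _ _).2 hv) ?_
      intro h
      rw [← h, finrank_span_singleton hv0] at hc
      omega
    obtain ⟨w, hw, hw'⟩ := SetLike.exists_of_lt hlt
    have hgv := Module.End.mem_eigenspace_iff.1 hv
    have hgw := Module.End.mem_eigenspace_iff.1 hw
    rw [toLin'_apply] at hgv hgw
    refine hnon c (scalar_of_eigen Nat.prime_three hK hg hv0 (fun d hd' => hw' ?_) hgv hgw)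
    rw [hd']
    exact Submodule.smul_mem _ _ (Submodule.mem_span_singleton_self v)
  have h4 := hle 1
  have h5 := hle (1 * ω)
  have h6 := hle (1 * ω ^ 2)
  have h7 : finrank F (Module.End.eigenspace (toLin' (g : Matrix (Fin 3) (Fin 3) F)) 1) = 1 := by omega
  have h8 : finrank F (Module.End.eigenspace (toLin' (g : Matrix (Fin 3) (Fin 3) F)) (1 * ω)) = 1 := by omega
  have h9 : finrank F (Module.End.eigenspace (toLin' (g : Matrix (Fin 3) (Fin 3) F)) (1 * ω ^ 2)) = 1 := by
    omega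
  constructor
  · rw [LinearMap.det_toLin', h7, h8, h9] at hd
    rw [hd]
    linear_combination hω3
  · have hne : ∀ c : F, finrank F (Module.End.eigenspace (toLin' (g : Matrix (Fin 3) (Fin 3) F)) c) = 1 →
        ∃ u, u ≠ 0 ∧ toLin' (g : Matrix (Fin 3) (Fin 3) F) u = c • u := by
      intro c hc
      obtain ⟨u, hu, hu0⟩ := Submodule.exists_mem_ne_zero_of_ne_bot
        (p := Module.End.eigenspace (toLin' (g : Matrix (Fin 3) (Fin 3) F)) c) (by
        intro h
        rw [h, finrank_bot] at hc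
        exact zero_ne_one hc)
      exact ⟨u, hu0, Module.End.mem_eigenspace_iff.1 hu⟩
    refine exists_eigenbasis _ _ ?_ (by simp [hfin]) ?_
    · have := inj_vals (a := (1 : F)) one_ne_zero h1 hω
      simpa using this
    · intro i
      fin_cases i
      · simpa using hne _ h7
      · simpa using hne _ h8
      · simpa using hne _ h9

/-- The conjugacy, in the case of three eigenvalues in the field. -/
theorem conj_of_eigen {K : Subalgebra F (Matrix (Fin 3) (Fin 3) F)} (hK : IsFieldSubalgebra 3 K)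
    (h3 : (3 : F) ≠ 0) {ω : F} (h1 : ω ≠ 1) (hω : ω ^ 2 + ω + 1 = 0)
    (hcube : ∀ s : F, s ^ 3 ≠ ω ∧ s ^ 3 ≠ ω ^ 2)
    (g : GL (Fin 3) F) (hg : g ∈ subalgebraNormalizer K) (hg3 : g ^ 3 = 1)
    (hnon : ∀ c : F, (g : Matrix (Fin 3) (Fin 3) F) ≠ c • 1)
    (x : Matrix.SpecialLinearGroup (Fin 3) F) (z : F)
    (hx : ((x ^ 3 : Matrix.SpecialLinearGroup (Fin 3) F) : Matrix (Fin 3) (Fin 3) F) = z • 1)
    (hxnon : ∀ c : F, (x : Matrix (Fin 3) (Fin 3) F) ≠ c • 1) :
    ∃ P : Matrix.SpecialLinearGroup (Fin 3) F, P⁻¹ * x * P ∈ (subalgebraNormalizer K).comap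
      (Matrix.SpecialLinearGroup.toGL : Matrix.SpecialLinearGroup (Fin 3) F →* GL (Fin 3) F) := by
  classical
  obtain ⟨hgd, b₂, hb₂⟩ := eigen_g hK h3 h1 hω g hg hg3 hnon
  obtain ⟨b₁, hb₁⟩ := eigen_x h3 h1 hω hcube (x : Matrix (Fin 3) (Fin 3) F) z
    (by rw [← hx]; rfl) x.2 hxnon
  have hsum : ∀ (b : Basis (Fin 3) F (Fin 3 → F)) (i : Fin 3), (![1, ω, ω ^ 2] : Fin 3 → F) i • b i
      = ∑ j, (diagonal (![1, ω, ω ^ 2] : Fin 3 → F)) j i • b j := by
    intro b i
    rw [Finset.sum_eq_single i]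
    · simp
    · intro j _ hj
      simp [hj]
    · simp
  obtain ⟨Q, hQd, hQc⟩ := exists_conj_of_bases (toLin' (x : Matrix (Fin 3) (Fin 3) F))
    (toLin' (g : Matrix (Fin 3) (Fin 3) F)) (diagonal (![1, ω, ω ^ 2] : Fin 3 → F)) b₁ b₂
    (fun i => by rw [hb₁, hsum]) (fun i => by rw [hb₂, hsum]) (0 : Fin 3) (by
      intro j hj
      exact ⟨diagonal_apply_ne _ (Ne.symm hj), diagonal_apply_ne _ hj⟩)
  let G : Matrix.SpecialLinearGroup (Fin 3) F := ⟨g, hgd⟩
  have hGmem : Matrix.SpecialLinearGroup.toGL G = g := Units.ext rfl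
  obtain ⟨P, hP⟩ := sl_conj_of_linear x G Q hQd (fun v => by
    have := hQc v
    rwa [toLin'_apply, toLin'_apply] at this)
  refine ⟨P, ?_⟩
  rw [hP, Subgroup.mem_comap, hGmem]
  exact hg

/-- The elements with a plane of eigenvectors. -/
theorem exists_diag_bad {l u : F} (hl : l ≠ u) (hdet : l * l * u = 1) (hu : u ^ 3 = l ^ 3) :
    ∃ x : Matrix.SpecialLinearGroup (Fin 3) F,
      ((x ^ 3 : Matrix.SpecialLinearGroup (Fin 3) F) : Matrix (Fin 3) (Fin 3) F) = (l ^ 3) • 1 ∧
      (∀ z : F, (x : Matrix (Fin 3) (Fin 3) F) ≠ z • 1) ∧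
      ∃ v w : Fin 3 → F, v ≠ 0 ∧ (∀ c : F, w ≠ c • v) ∧
        (x : Matrix (Fin 3) (Fin 3) F) *ᵥ v = l • v ∧ (x : Matrix (Fin 3) (Fin 3) F) *ᵥ w = l • w := by
  classical
  let d : Fin 3 → F := ![l, l, u]
  refine ⟨⟨diagonal d, by simp [det_diagonal, Fin.prod_univ_three, d, hdet]⟩, ?_, ?_, Pi.single 0 1, Pi.single 1 1, ?_, ?_, ?_, ?_⟩
  · change (diagonal d) ^ 3 = _
    rw [diagonal_pow]
    ext i j
    by_cases hij : i = j
    · subst hij
      fin_cases i <;> simp [d, hu]
    · simp [hij]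
  · intro z hz
    have h1 := congrFun (congrFun hz 0) 0
    have h2 := congrFun (congrFun hz 2) 2
    change diagonal d 0 0 = _ at h1
    change diagonal d 2 2 = _ at h2
    simp [d] at h1 h2
    exact hl (h1.trans h2.symm)
  · intro h
    have := congrFun h 0
    simp at this
  · intro c h
    have := congrFun h 1
    simp at this
  · change diagonal d *ᵥ _ = _
    rw [diagonal_mulVec_single]
    ext i
    fin_cases i <;> simp [d]
  · change diagonal d *ᵥ _ = _
    rw [diagonal_mulVec_single]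
    ext i
    fin_cases i <;> simp [d]

/-- The transvection in characteristic three. -/
theorem exists_transv_bad (h3 : (3 : F) = 0) :
    ∃ x : Matrix.SpecialLinearGroup (Fin 3) F,
      ((x ^ 3 : Matrix.SpecialLinearGroup (Fin 3) F) : Matrix (Fin 3) (Fin 3) F) = (1 : F) • 1 ∧
      (∀ z : F, (x : Matrix (Fin 3) (Fin 3) F) ≠ z • 1) ∧
      ∃ v w : Fin 3 → F, v ≠ 0 ∧ (∀ c : F, w ≠ c • v) ∧
        (x : Matrix (Fin 3) (Fin 3) F) *ᵥ v = (1 : F) • v ∧ (x : Matrix (Fin 3) (Fin 3) F) *ᵥ w = (1 : F) • w := by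
  classical
  let M : Matrix (Fin 3) (Fin 3) F := !![1, 1, 0; 0, 1, 0; 0, 0, 1]
  refine ⟨⟨M, by simp [M, det_fin_three]⟩, ?_, ?_, ![1, 0, 0], ![0, 0, 1], ?_, ?_, ?_, ?_⟩
  · change M ^ 3 = _
    rw [one_smul]
    have h1 : M ^ 3 = !![1, 3, 0; 0, 1, 0; 0, 0, 1] := by
      rw [pow_succ, pow_two]
      ext i j
      fin_cases i <;> fin_cases j <;> simp [M, Matrix.mul_apply, Fin.sum_univ_three] <;> norm_num
    rw [h1, h3]
    ext i j
    fin_cases i <;> fin_cases j <;> simp
  · intro z hz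
    have h1 := congrFun (congrFun hz 0) 1
    change M 0 1 = _ at h1
    simp [M] at h1
  · intro h
    have := congrFun h 0
    simp at this
  · intro c h
    have := congrFun h 2
    simp at this
  · change M *ᵥ _ = _
    ext i
    fin_cases i <;> simp [M, mulVec, dotProduct, Fin.sum_univ_three]
  · change M *ᵥ _ = _
    ext i
    fin_cases i <;> simp [M, mulVec, dotProduct, Fin.sum_univ_three]

open Cfsg.Agent.Lib.Linalg.Basic in
/-- The index of the normalizer is prime to three for `q ≡ 2, 5 (mod 9)`. -/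
theorem not_dvd_index {K : Subalgebra F (Matrix (Fin 3) (Fin 3) F)} (hK : IsFieldSubalgebra 3 K)
    (hq : Fintype.card F % 9 = 2 ∨ Fintype.card F % 9 = 5) :
    ¬ 3 ∣ ((subalgebraNormalizer K).comap
      (Matrix.SpecialLinearGroup.toGL : Matrix.SpecialLinearGroup (Fin 3) F →* GL (Fin 3) F)).index := by
  classical
  intro hΩ
  obtain ⟨g, hg, hg3, hgnon⟩ := exists_frobenius (by norm_num) hK
  have hcop : Nat.Coprime 3 (Fintype.card F - 1) := by
    rw [Nat.Prime.coprime_iff_not_dvd Nat.prime_three]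
    omega
  have hdet : (g : Matrix (Fin 3) (Fin 3) F).det = 1 := by
    have h1 : (g : Matrix (Fin 3) (Fin 3) F).det ^ 3 = 1 := by
      rw [← det_pow, ← Units.val_pow_eq_pow_val, hg3, Units.val_one, det_one]
    have h0 : (g : Matrix (Fin 3) (Fin 3) F).det ≠ 0 := by
      rintro h
      rw [h, zero_pow (by norm_num)] at h1
      exact zero_ne_one h1
    have h2 := pow_gcd_eq_one.2 ⟨h1, FiniteField.pow_card_sub_one_eq_one _ h0⟩
    rwa [hcop.gcd_eq_one, pow_one] at h2
  let G : Matrix.SpecialLinearGroup (Fin 3) F := ⟨g, hdet⟩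
  have hGg : Matrix.SpecialLinearGroup.toGL G = g := Units.ext rfl
  set H := (subalgebraNormalizer K).comap
      (Matrix.SpecialLinearGroup.toGL : Matrix.SpecialLinearGroup (Fin 3) F →* GL (Fin 3) F) with hH
  have hGH : G ∈ H := by
    rw [hH, Subgroup.mem_comap, hGg]
    exact hg
  have hG3 : G ^ 3 = 1 := by
    apply Subtype.ext
    change (g : Matrix (Fin 3) (Fin 3) F) ^ 3 = 1
    rw [← Units.val_pow_eq_pow_val, hg3, Units.val_one]
  have hG1 : G ≠ 1 := by
    intro h
    apply hgnon 1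
    have h1 := congrArg Subtype.val h
    rw [one_smul]
    exact h1
  haveI : Fact (Nat.Prime 3) := ⟨Nat.prime_three⟩
  have hord : orderOf G = 3 := orderOf_eq_prime hG3 hG1
  have h3H : 3 ∣ Nat.card H := by
    have := Subgroup.orderOf_dvd_natCard H hGH
    rwa [hord] at this
  have h9 : 9 ∣ Nat.card (Matrix.SpecialLinearGroup (Fin 3) F) := by
    rw [← Subgroup.index_mul_card H]
    exact Nat.mul_dvd_mul hΩ h3H
  have hGL : 9 ∣ Nat.card (GL (Fin 3) F) := by
    rw [card_GL_eq_mul_card_SL]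
    exact Dvd.dvd.mul_left h9 _
  rw [Matrix.card_GL_field, Fin.prod_univ_three] at hGL
  have h0 := (ZMod.natCast_eq_zero_iff _ 9).2 hGL
  have hle : ∀ i : ℕ, i ≤ 3 → Fintype.card F ^ i ≤ Fintype.card F ^ 3 := fun i hi =>
    Nat.pow_le_pow_right Fintype.card_pos hi
  simp only [Fin.val_zero, Fin.val_one, Fin.val_two] at h0
  rw [Nat.cast_mul, Nat.cast_mul, Nat.cast_sub (hle _ (by norm_num)), Nat.cast_sub (hle _ (by norm_num)),
    Nat.cast_sub (hle _ (by norm_num))] at h0
  push_cast at h0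
  have hQ : ∀ r : ℕ, Fintype.card F % 9 = r → ((Fintype.card F : ℕ) : ZMod 9) = (r : ZMod 9) := by
    intro r hr
    rw [← hr, ZMod.natCast_mod]
  rcases hq with h | h
  · rw [hQ 2 h] at h0
    exact absurd h0 (by decide)
  · rw [hQ 5 h] at h0
    exact absurd h0 (by decide)

end Main

theorem order_two_mod_three : orderOf (2 : ZMod (2 + 1)) = 2 :=
  orderOf_eq_prime (by decide) (by decide)

/-- Statement S5971. -/
theorem result {F : Type*} [Field F] [Fintype F] {p : ℕ} [Fact p.Prime] [CharP F p] {q : ℕ} (hq : Fintype.card F = q)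
    (n : ℕ) (hn : n = 3) (k : ℕ) (hk : k.Prime) (hkn : k ∣ n) (K : Subalgebra F (Matrix (Fin n) (Fin n) F)) (hK : Cfsg.Geo.IsFieldSubalgebra k K) (hk3 : k = 3) (hΩ : 3 ∣ ((Cfsg.Geo.subalgebraNormalizer K).comap (Matrix.SpecialLinearGroup.toGL : Matrix.SpecialLinearGroup (Fin n) F →* GL (Fin n) F)).index) :
    (∀ x : Matrix.SpecialLinearGroup (Fin n) F,
      (∃ z : F, ((x ^ 3 : Matrix.SpecialLinearGroup (Fin n) F) : Matrix (Fin n) (Fin n) F) = z • (1 : Matrix (Fin n) (Fin n) F)) →
      (∀ z : F, (x : Matrix (Fin n) (Fin n) F) ≠ z • (1 : Matrix (Fin n) (Fin n) F)) →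
      ∃ P : Matrix.SpecialLinearGroup (Fin n) F, P⁻¹ * x * P ∈ ((Cfsg.Geo.subalgebraNormalizer K).comap (Matrix.SpecialLinearGroup.toGL : Matrix.SpecialLinearGroup (Fin n) F →* GL (Fin n) F))) ↔
    (q % 9 = 4 ∨ q % 9 = 7 ∨ q % 9 = 8) := by
  classical
  subst hq
  subst hn
  subst hk3
  have hprimep : p.Prime := Fact.out
  have hq2 : 2 ≤ Fintype.card F := Fintype.one_lt_card
  -- three is zero in the field exactly when it divides `q`
  have h3eq : (3 : F) = 0 → 3 ∣ Fintype.card F := by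
    intro h
    have h1 : p ∣ 3 := (CharP.cast_eq_zero_iff F p 3).1 (by exact_mod_cast h)
    obtain ⟨f, -, hf⟩ := FiniteField.card F p
    have h2 : p = 3 := (Nat.prime_dvd_prime_iff_eq hprimep Nat.prime_three).1 h1
    rw [hf, h2]
    exact dvd_pow_self 3 f.ne_zero
  have h3eq' : 3 ∣ Fintype.card F → (3 : F) = 0 := by
    intro h
    obtain ⟨f, -, hf⟩ := FiniteField.card F p
    rw [hf] at h
    have h1 : 3 = p := (Nat.prime_dvd_prime_iff_eq Nat.prime_three hprimep).1
      (Nat.prime_three.dvd_of_dvd_pow h)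
    have h2 := CharP.cast_eq_zero F p
    rw [← h1] at h2
    exact_mod_cast h2
  obtain ⟨g, hg, hg3, hgnon⟩ := exists_frobenius (by norm_num) hK
  -- a generator of the units
  obtain ⟨γ, hγ⟩ := IsCyclic.exists_generator (α := Fˣ)
  have hγord : orderOf γ = Fintype.card F - 1 := by
    rw [orderOf_eq_card_of_forall_mem_zpowers hγ, Nat.card_eq_fintype_card, Fintype.card_units]
  constructor
  · intro H
    by_contra hne
    push Not at hne
    obtain ⟨h4, h7, h8⟩ := hne
    have hcases : Fintype.card F % 3 = 0 ∨ Fintype.card F % 9 = 1 ∨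
        (Fintype.card F % 9 = 2 ∨ Fintype.card F % 9 = 5) := by omega
    rcases hcases with hc | hc | hc
    · obtain ⟨x, h1, h2, v, w, hv, hw, hxv, hxw⟩ := exists_transv_bad (h3eq' (Nat.dvd_of_mod_eq_zero hc))
      obtain ⟨P, hP⟩ := H x ⟨1, h1⟩ h2
      exact not_conj_of_eigen Nat.prime_three hK x h2 hv hw hxv hxw P hP
    · have h9 : 9 ∣ orderOf γ := by rw [hγord]; omega
      have hord : orderOf (γ ^ (orderOf γ / 9)) = 9 := by
        rw [orderOf_pow_of_dvd (Nat.div_ne_zero_iff.2 ⟨by norm_num, Nat.le_of_dvd (by rw [hγord]; omega) h9⟩)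
          (Nat.div_dvd_of_dvd h9)]
        exact Nat.div_div_self h9 (by rw [hγord]; omega)
      set l : Fˣ := γ ^ (orderOf γ / 9) with hl
      have hl9 : (l : F) ^ 9 = 1 := by
        rw [← Units.val_pow_eq_pow_val, ← hord, pow_orderOf_eq_one, Units.val_one]
      have hl6 : (l : F) ^ 6 ≠ 1 := by
        intro h
        have h1 : l ^ 6 = 1 := Units.ext (by simpa using h)
        have h2 := orderOf_dvd_of_pow_eq_one h1
        rw [hord] at h2
        omega
      obtain ⟨x, h1, h2, v, w, hv, hw, hxv, hxw⟩ := exists_diag_bad (F := F) (l := (l : F)) (u := (l : F) ^ 7)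
        (by
          intro h
          apply hl6
          have h3 : (l : F) * (l : F) ^ 6 = (l : F) * 1 := by linear_combination -h
          exact mul_left_cancel₀ l.ne_zero h3)
        (by linear_combination hl9)
        (by linear_combination (l : F) ^ 3 * ((l : F) ^ 9 + 1) * hl9)
      obtain ⟨P, hP⟩ := H x ⟨_, h1⟩ h2
      exact not_conj_of_eigen Nat.prime_three hK x h2 hv hw hxv hxw P hP
    · exact not_dvd_index hK hc hΩ
  · intro hq9 x ⟨z, hz⟩ hnon
    have h8 : Fintype.card F % 9 = 8 ∨ (Fintype.card F % 9 = 4 ∨ Fintype.card F % 9 = 7) := by tauto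
    rcases h8 with h8 | h47
    · haveI : Fact (Nat.Prime (2 + 1)) := ⟨Nat.prime_three⟩
      have h0 : ((2 + 1 : ℕ) : F) ≠ 0 := by
        intro h
        have := h3eq (by exact_mod_cast h)
        omega
      have hord : orderOf ((Fintype.card F : ℕ) : ZMod (2 + 1)) = 2 := by
        have h1 : ((Fintype.card F : ℕ) : ZMod (2 + 1)) = 2 := by
          have h2 : Fintype.card F % (2 + 1) = 2 := by omega
          rw [← ZMod.natCast_mod, h2]
          rfl
        rw [h1]
        exact order_two_mod_three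
      exact conj_of_cyclic 2 (le_refl _) h0 hord x z hz hnon g hg hg3 hgnon
    · have h3 : (3 : F) ≠ 0 := by
        intro h
        have := h3eq h
        omega
      have h3d : 3 ∣ orderOf γ := by rw [hγord]; omega
      have hord : orderOf (γ ^ (orderOf γ / 3)) = 3 := by
        rw [orderOf_pow_of_dvd (Nat.div_ne_zero_iff.2 ⟨by norm_num, Nat.le_of_dvd (by rw [hγord]; omega) h3d⟩)
          (Nat.div_dvd_of_dvd h3d)]
        exact Nat.div_div_self h3d (by rw [hγord]; omega)
      set w : Fˣ := γ ^ (orderOf γ / 3) with hw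
      have hw3 : (w : F) ^ 3 = 1 := by
        rw [← Units.val_pow_eq_pow_val, ← hord, pow_orderOf_eq_one, Units.val_one]
      have hw1 : (w : F) ≠ 1 := by
        intro h
        have h1 : w = 1 := Units.ext (by simpa using h)
        rw [h1, orderOf_one] at hord
        omega
      have hω : (w : F) ^ 2 + (w : F) + 1 = 0 := by
        have h1 : ((w : F) - 1) * ((w : F) ^ 2 + (w : F) + 1) = 0 := by linear_combination hw3
        exact (mul_eq_zero.1 h1).resolve_left (sub_ne_zero.2 hw1)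
      have hw21 : (w : F) ^ 2 ≠ 1 := by
        intro h
        apply hw1
        linear_combination hw3 - (w : F) * h
      have hcube : ∀ s : F, s ^ 3 ≠ w ∧ s ^ 3 ≠ (w : F) ^ 2 := by
        have key : ∀ s : F, s ^ 3 ≠ 1 → s ^ 9 = 1 → False := by
          intro s h1 h2
          haveI : Fact (Nat.Prime 3) := ⟨Nat.prime_three⟩
          have h5 : orderOf s = 3 ^ (1 + 1) := orderOf_eq_prime_pow (by simpa using h1) (by simpa using h2)
          have hs0 : s ≠ 0 := by
            rintro rfl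
            norm_num at h2
          have h6 := orderOf_dvd_of_pow_eq_one (FiniteField.pow_card_sub_one_eq_one s hs0)
          rw [h5] at h6
          omega
        intro s
        constructor
        · intro h
          exact key s (by rw [h]; exact hw1) (by linear_combination (s ^ 6 + s ^ 3 * (w : F) + (w : F) ^ 2) * h + hw3)
        · intro h
          exact key s (by rw [h]; exact hw21)
            (by linear_combination (s ^ 6 + s ^ 3 * (w : F) ^ 2 + (w : F) ^ 4) * h + ((w : F) ^ 3 + 1) * hw3)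
      exact conj_of_eigen hK h3 hw1 hω hcube g hg hg3 hgnon x z hz hnon

end Cfsg.Agent.S5971
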