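import Cfsg.Statements.S5972
import Cfsg.Agent.Lib.Classical.OSemi.SingOdd
import Cfsg.Agent.Lib.Classical.OSemi.SingInvol

set_option autoImplicit false
open scoped MatrixGroups
open Cfsg

namespace Cfsg.Agent.S5972

/-- Elements of prime order of Ω_n(q), n = 2d+1 ≥ 7, q odd, with no fixed totally singular `m`-space. Here `T = Ω_n(q)` is realised as the commutator subgroup of the isometry group of the quadratic form `x₀² + Σ xᵢyᵢ` over the field `F` with `q` elements (it has trivial centre, so its elements of prime order `r` are used directly); let `1 ≤ m ≤ d` and let `r` be a prime dividing the number of totally singular `m`-spaces. For `r ≠ p` let `i` be the multiplicative order of `q` modulo `r`, `c = i` for `i` even and `c = 2i` for `i` odd, and write `k = n mod c`, `ℓ = m mod i`, `n' = ⌊n/i⌋`, `m' = ⌊m/i⌋`, `t = (r−1)/i`. Then every element of `T` of order `r` fixes some totally singular `m`-space if and only if either (i) `r = 2` and (`m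 < (n−1)/2` or `q ≡ 1 (mod 4)`); or (ii) `r ≠ p` is odd, `i ≤ m`, `k > 2ℓ`, and (`i` is odd or `n' − 2m' ≥ t`). -/
theorem result {F : Type*} [Field F] [Fintype F] {p : ℕ} [Fact p.Prime] [CharP F p] {q : ℕ} (hq : Fintype.card F = q) (hqodd : Odd q)
    (d m : ℕ) (hd : 3 ≤ d) (hm : 1 ≤ m) (hmd : m ≤ d)
    (r : ℕ) [Fact r.Prime]
    (hrΩ : r ∣ Nat.card {W : Submodule F (Unit ⊕ (Fin d ⊕ Fin d) → F) // Module.finrank F ↥W = m ∧ (∀ w ∈ W, Cfsg.quadFormOdd d F w = 0)})
    (i c : ℕ) (hi : i = orderOf (q : ZMod r)) (hc : c = if Even i then i else 2 * i) :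
    (∀ x : GL (Unit ⊕ (Fin d ⊕ Fin d)) F, x ∈ Cfsg.Geo.omegaGL (Cfsg.quadFormOdd d F) → orderOf x = r →
      ∃ W : Submodule F (Unit ⊕ (Fin d ⊕ Fin d) → F), Module.finrank F ↥W = m ∧ (∀ w ∈ W, Cfsg.quadFormOdd d F w = 0) ∧
        W.map (Matrix.toLin' (x : Matrix (Unit ⊕ (Fin d ⊕ Fin d)) (Unit ⊕ (Fin d ⊕ Fin d)) F)) ≤ W) ↔
    ((r = 2 ∧ (m < d ∨ q % 4 = 1)) ∨
     (r ≠ p ∧ 2 < r ∧ i ≤ m ∧ 2 * (m % i) < (2 * d + 1) % c ∧ (Odd i ∨ (r - 1) / i + 2 * (m / i) ≤ (2 * d + 1) / i))) := by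
  classical
  open Cfsg.Agent.Lib.Classical.OSemi.Clause Cfsg.Agent.Lib.Linalg.OrthModels Cfsg.Agent.Lib.Classical.OSemi.SingOdd
    Cfsg.Agent.Lib.Classical.OSemi.SingInvol Cfsg.Agent.Lib.Classical.OSemi.OddForm Cfsg.Agent.Lib.Classical.OSemi.Coprime
    Cfsg.Agent.Lib.Classical.OJordan.Final Cfsg.Agent.Lib.Classical.Witt.Hyp in
  obtain ⟨h2F, hpo, hp1⟩ := char_facts (p := p) hq hqodd
  have hr : r.Prime := Fact.out
  have hrΩ' : r ∣ Nat.card {W : Submodule F (Unit ⊕ (Fin d ⊕ Fin d) → F) // Module.finrank F W = m ∧ ∀ w ∈ W, oddQ d F w = 0} := hrΩ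
  have hQ := polarNondeg_oddQ (F := F) d h2F
  by_cases hrp : r = p
  · subst hrp
    exact absurd hrΩ' (not_dvd_ts_char h2F d hmd)
  by_cases hr2 : r = 2
  · subst hr2
    constructor
    · intro H0
      left
      refine ⟨rfl, ?_⟩
      by_contra hcon
      push Not at hcon
      obtain ⟨h3, h4⟩ := hcon
      have hmd' : m = d := by omega
      have hq3 : Fintype.card F % 4 = 3 := by
        rw [hq]
        rw [Nat.odd_iff] at hqodd
        omega
      have hns : ¬ IsSquare (-1 : F) := by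
        rw [FiniteField.isSquare_neg_one_iff]
        simpa using hq3
      have hi₀ : 0 < d := by omega
      let i₀ : Fin d := ⟨0, hi₀⟩
      let u : Unit ⊕ (Fin d ⊕ Fin d) → F := Sum.elim (fun _ => 1) (fun _ => 0)
      let v : Unit ⊕ (Fin d ⊕ Fin d) → F :=
        Sum.elim (fun _ => 0) (Sum.elim (fun j => if j = i₀ then 1 else 0) (fun j => if j = i₀ then 1 else 0))
      have hQapp : ∀ w, oddQ d F w = w (Sum.inl ()) ^ 2 + ∑ j : Fin d, w (Sum.inr (Sum.inl j)) * w (Sum.inr (Sum.inr j)) := fun _ => rfl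
      have hu : oddQ d F u = 1 := by
        rw [hQapp]
        simp [u]
      have hv : oddQ d F v = 1 := by
        rw [hQapp]
        simp [v]
      have huv : QuadraticMap.polar (⇑(oddQ d F)) u v = 0 := by
        rw [QuadraticMap.polar, hu, hv, hQapp]
        simp [u, v]
      obtain ⟨x, hxΩ, hxo, hx⟩ := not_sing (oddQ d F) h2F hQ hu hv huv hns (m := m) (by rw [card_odd_index]; omega)
      obtain ⟨W, h5, h6, h7⟩ := H0 (x : GL (Unit ⊕ (Fin d ⊕ Fin d)) F) (Subgroup.mem_map_of_mem _ hxΩ)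
        (by rw [Subgroup.orderOf_coe]; exact hxo)
      exact hx W h5 h6 (fun w hw => h7 ⟨w, hw, rfl⟩)
    · rintro (⟨-, hcl⟩ | ⟨-, h, -⟩) x hx hxr
      · obtain ⟨g, hg, rfl⟩ := hx
        have hgo : orderOf g = 2 := by
          rw [← hxr]
          exact (Subgroup.orderOf_coe g).symm
        have hcl' : m < d ∨ IsSquare (-1 : F) := by
          rcases hcl with h | h
          · exact Or.inl h
          · right
            rw [FiniteField.isSquare_neg_one_iff, hq]
            omega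
        obtain ⟨U, h5, h6, h7⟩ := sing_invol (oddQ d F) h2F hQ (card_odd_index d) g hg (by rw [← hgo]; exact pow_orderOf_eq_one g) hmd hcl'
        refine ⟨U, h5, h6, ?_⟩
        rintro _ ⟨w, hw, rfl⟩
        exact h7 w hw
      · omega
  have hr3 : 2 < r := by
    have := hr.two_le
    omega
  obtain ⟨t, D, ⟨H⟩, ht, ht0, hi0⟩ := exists_setup hq hr2 hrp hi
  have htdiv : (r - 1) / i = t := Nat.div_eq_of_eq_mul_left hi0 ht.symm
  constructor
  · intro H0
    obtain ⟨h1, h3, h4⟩ := sing_forward H ht ht0 hq hr2 hrp h2F hi d hc hm hmd hrΩ' (fun x hx hxr => by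
      obtain ⟨W, h5, h6, h7⟩ := H0 (x : GL (Unit ⊕ (Fin d ⊕ Fin d)) F) (Subgroup.mem_map_of_mem _ hx)
        (by rw [Subgroup.orderOf_coe]; exact hxr)
      exact ⟨W, h5, h6, h7⟩)
    right
    refine ⟨hrp, hr3, h1, h3, ?_⟩
    rw [htdiv]
    exact h4
  · rintro (⟨h, -⟩ | ⟨-, -, h1, h3, h4⟩) x hx hxr
    · exact absurd h hr2
    · obtain ⟨g, hg, rfl⟩ := hx
      rw [htdiv] at h4
      exact sing_backward H hq hr2 hrp h2F d hc hmd h3 h4 g (by rw [← hxr]; exact (Subgroup.orderOf_coe g).symm)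

end Cfsg.Agent.S5972
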