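import Cfsg.Statements.S5973
import Cfsg.Agent.Lib.Classical.OSemi.SingFinal

set_option autoImplicit false
open scoped MatrixGroups
open Cfsg

namespace Cfsg.Agent.S5973

/-- Elements of prime order of PΩ⁺_n(q), n = 2d ≥ 8, with no fixed totally singular `m`-space, `m < n/2`. Here `T = PΩ⁺_n(q)` is realised through `Ω⁺_n(q)`, the commutator subgroup of the isometry group of the quadratic form `Σ xᵢyᵢ` over the field `F` with `q` elements; an element of `T` of prime order `r` is an element `x` of `Ω⁺_n(q)` with `x^r` scalar and `x` not scalar. Let `1 ≤ m < d` and let `r` be a prime dividing the number of totally singular `m`-spaces. For `r ≠ p` let `i` be the multiplicative order of `q` modulo `r`, `c = i` for `i` even and `c = 2i` for `i` odd, and write `k = n mod c`, `ℓ = m mod i`, `n' = ⌊n/i⌋`, `m' = ⌊m/i⌋`, `t = (r−1)/i`. Then every element of `T` of order `r` fixes some totally singular `m`-space if and only if one of: (i) `r = 2 ≠ p` and either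 `q ≡ 1 (mod 4)`, or `q ≡ 3 (mod 4)`, `m ≤ n/2 − 2` and (`m` even or `n ≡ 2 (mod 4)`); (ii) `r ≠ p` odd, `i` odd, `i ≤ m` and `k ≥ 2ℓ`; (iii) `r ≠ p` odd, `i` even, `i ≤ m`, `n' − 2m' ≥ t`, and one of: `i ≥ 2ℓ`, `k = 0`, `n/i` odd and `n' − 2m' > t`; or `k ≥ 2ℓ` and `n'` even; or `k > 2ℓ` and `n'` odd. -/
theorem result {F : Type*} [Field F] [Fintype F] {p : ℕ} [Fact p.Prime] [CharP F p] {q : ℕ} (hq : Fintype.card F = q)
    (d m : ℕ) (hd : 4 ≤ d) (hm : 1 ≤ m) (hmd : m < d)
    (r : ℕ) [Fact r.Prime]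
    (hrΩ : r ∣ Nat.card {W : Submodule F (Fin d ⊕ Fin d → F) // Module.finrank F ↥W = m ∧ (∀ w ∈ W, Cfsg.quadFormPlus d F w = 0)})
    (i c : ℕ) (hi : i = orderOf (q : ZMod r)) (hc : c = if Even i then i else 2 * i) :
    (∀ x : GL (Fin d ⊕ Fin d) F, x ∈ Cfsg.Geo.omegaGL (Cfsg.quadFormPlus d F) →
      (∃ z : F, ((x ^ r : GL (Fin d ⊕ Fin d) F) : Matrix (Fin d ⊕ Fin d) (Fin d ⊕ Fin d) F) = z • (1 : Matrix (Fin d ⊕ Fin d) (Fin d ⊕ Fin d) F)) →
      (∀ z : F, (x : Matrix (Fin d ⊕ Fin d) (Fin d ⊕ Fin d) F) ≠ z • (1 : Matrix (Fin d ⊕ Fin d) (Fin d ⊕ Fin d) F)) →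
      ∃ W : Submodule F (Fin d ⊕ Fin d → F), Module.finrank F ↥W = m ∧ (∀ w ∈ W, Cfsg.quadFormPlus d F w = 0) ∧
        W.map (Matrix.toLin' (x : Matrix (Fin d ⊕ Fin d) (Fin d ⊕ Fin d) F)) ≤ W) ↔
    ((r = 2 ∧ p ≠ 2 ∧ (q % 4 = 1 ∨ (q % 4 = 3 ∧ m + 2 ≤ d ∧ (Even m ∨ (2 * d) % 4 = 2)))) ∨
     (r ≠ p ∧ 2 < r ∧ Odd i ∧ i ≤ m ∧ 2 * (m % i) ≤ (2 * d) % c) ∨
     (r ≠ p ∧ 2 < r ∧ Even i ∧ i ≤ m ∧ (r - 1) / i + 2 * (m / i) ≤ (2 * d) / i ∧
       ((2 * (m % i) ≤ i ∧ (2 * d) % c = 0 ∧ Odd ((2 * d) / i) ∧ (r - 1) / i + 2 * (m / i) < (2 * d) / i) ∨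
        (2 * (m % i) ≤ (2 * d) % c ∧ Even ((2 * d) / i)) ∨
        (2 * (m % i) < (2 * d) % c ∧ Odd ((2 * d) / i))))) := by
  classical
  open Cfsg.Agent.Lib.Linalg.OrthModels Cfsg.Agent.Lib.Classical.OSemi.Lag Cfsg.Agent.Lib.Classical.OSemi.SingFinal
    Cfsg.Agent.Lib.Classical.OSemi.SingStep Cfsg.Agent.Lib.Classical.OSemi.SingJ Cfsg.Agent.Lib.Classical.OSemi.SingInvE
    Cfsg.Agent.Lib.Classical.Witt.Hyp Cfsg.Agent.Lib.Classical.Orth.Basic in
  have hr : r.Prime := Fact.out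
  have hQ := polarNondeg_plusQ (F := F) d
  have hcard : Fintype.card (Fin d ⊕ Fin d) = 2 * d := by
    simp [Fintype.card_sum]
    ring
  have hc4 : Fintype.card (Fin d ⊕ Fin d) ≠ 4 := by omega
  haveI hne : Nonempty (Fin d ⊕ Fin d) := ⟨Sum.inl ⟨0, by omega⟩⟩
  have hrΩ' : r ∣ Nat.card {W : Submodule F (Fin d ⊕ Fin d → F) // Module.finrank F W = m ∧ ∀ w ∈ W, plusQ d F w = 0} := hrΩ
  have hL : Lag (plusQ d F) := lag_plusQ d
  by_cases hrp : r = p
  · subst hrp
    exact absurd hrΩ' (not_dvd_ts_char_even hQ hcard hmd)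
  by_cases hr2 : r = 2
  · subst hr2
    have hp2 : p ≠ 2 := fun h => hrp h.symm
    obtain ⟨h2, hq2, hsq, hsq2⟩ := odd_facts (p := p) hq hp2
    constructor
    · intro H0
      refine Or.inl ⟨rfl, hp2, ?_⟩
      by_cases h1 : q % 4 = 1
      · exact Or.inl h1
      have hq3 : q % 4 = 3 := by omega
      have hns : ¬ IsSquare (-1 : F) := by
        rw [hsq]
        simpa using hq3
      refine Or.inr ⟨hq3, ?_, ?_⟩
      · by_contra hm2
        have hm3 : m + 1 = d := by omega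
        let j₀ : Fin d := ⟨0, by omega⟩
        let j₁ : Fin d := ⟨1, by omega⟩
        have hj : j₀ ≠ j₁ := by
          intro h
          have := congrArg Fin.val h
          simp [j₀, j₁] at this
        let u : Fin d ⊕ Fin d → F := Sum.elim (fun j => if j = j₀ then 1 else 0) (fun j => if j = j₀ then 1 else 0)
        let v : Fin d ⊕ Fin d → F := Sum.elim (fun j => if j = j₁ then 1 else 0) (fun j => if j = j₁ then 1 else 0)
        have hQapp : ∀ w, plusQ d F w = ∑ j : Fin d, w (Sum.inl j) * w (Sum.inr j) := fun _ => rfl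
        have hu : plusQ d F u = 1 := by
          rw [hQapp]
          simp [u]
        have hv : plusQ d F v = 1 := by
          rw [hQapp]
          simp [v]
        have huv : QuadraticMap.polar (⇑(plusQ d F)) u v = 0 := by
          rw [QuadraticMap.polar, hu, hv, hQapp]
          have h3 : ∀ j : Fin d, (u + v) (Sum.inl j) * (u + v) (Sum.inr j) =
              (if j = j₀ then 1 else 0) + (if j = j₁ then 1 else 0) := by
            intro j
            simp only [Pi.add_apply, u, v, Sum.elim_inl, Sum.elim_inr]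
            by_cases h4 : j = j₀
            · subst h4
              simp [hj]
            · by_cases h5 : j = j₁
              · subst h5
                simp [h4]
              · simp [h4, h5]
          rw [Finset.sum_congr rfl fun j _ => h3 j, Finset.sum_add_distrib]
          simp
        obtain ⟨x, hxΩ, hxx, hxs, hx⟩ := not_sing_even h2 hQ hcard (by omega) hL hu hv huv hns hm3
        have hxx' : (x : GL (Fin d ⊕ Fin d) F) ^ 2 = 1 := by
          rw [← Subgroup.coe_pow, hxx]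
          rfl
        obtain ⟨W, h5, h6, h7⟩ := H0 (x : GL (Fin d ⊕ Fin d) F) (Subgroup.mem_map_of_mem _ hxΩ) ⟨1, by rw [hxx']; simp⟩ hxs
        exact hx W h5 h6 (fun w hw => h7 ⟨w, hw, rfl⟩)
      · by_contra hcon
        push Not at hcon
        obtain ⟨h5, h6⟩ := hcon
        have hde : Even d := by
          rw [Nat.even_iff]
          omega
        obtain ⟨x, hx⟩ := exists_J h2 hns hQ hcard (by omega) (iff_of_true hL hde)
        have hxΩ := (J_facts h2 hQ hcard x hx).2.2 (by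
          obtain ⟨k, hk⟩ := hde
          exact ⟨2 ^ k, by rw [hk]; ring⟩)
        obtain ⟨h8, h9⟩ := J_statement hns hQ x hx
        obtain ⟨W, h10, h11, h12⟩ := H0 (x : GL (Fin d ⊕ Fin d) F) (Subgroup.mem_map_of_mem _ hxΩ) h8 h9
        have h13 := even_of_inv hns x hx W (fun w hw => h12 ⟨w, hw, rfl⟩)
        rw [h10] at h13
        exact h5 h13
    · rintro (⟨-, -, hcl⟩ | ⟨-, h, -⟩ | ⟨-, h, -⟩) x ⟨g, hg, rfl⟩ ⟨z, hz⟩ hns'
      · rcases hcl with h4 | ⟨h4, h5, h6⟩
        · have hs : IsSquare (-1 : F) := by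
            rw [hsq]
            omega
          obtain ⟨s, hs'⟩ := hs
          exact sing_two_back h2 hQ hcard g hg hz (Or.inr (Or.inr ⟨by omega, hL, ⟨s, hs'⟩⟩))
            (fun hJ => (J_split h2 hQ hcard g hJ hs'.symm).2 m (by omega))
        · have hns : ¬ IsSquare (-1 : F) := by
            rw [hsq]
            simpa using h4
          refine sing_two_back h2 hQ hcard g hg hz (Or.inl h5) (fun hJ => ?_)
          rcases h6 with h7 | h7
          · obtain ⟨j, hj⟩ := h7
            have h8 := exists_J_ts h2 hns hQ hcard g hJ (j := j) (by omega)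
            rw [show 2 * j = m by omega] at h8
            exact h8
          · exfalso
            have h8 := ((J_facts h2 hQ hcard g hJ).1 hns).1 hL
            rw [Nat.even_iff] at h8
            omega
      · omega
      · omega
  have hr3 : 2 < r := by
    have := hr.two_le
    omega
  refine Iff.trans (sing_odd_iff (p := p) hq hr2 hrp hi hQ hcard hc4 hc hm hmd hrΩ') ?_
  constructor
  · rintro ⟨him, h1, h3⟩
    by_cases hev : Even i
    · obtain ⟨h4, h5⟩ := h3 hev
      have hci : c = i := by rw [hc, if_pos hev]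
      rw [hci]
      have hρ : ∀ K : ℕ, (Lag (plusQ d F) ↔ Even K) ↔ Even K := fun K => ⟨fun h => h.1 hL, fun h => iff_of_true hL h⟩
      refine Or.inr (Or.inr ⟨hrp, hr3, hev, him, h4, ?_⟩)
      simpa only [hρ, Nat.not_even_iff_odd] using h5
    · exact Or.inr (Or.inl ⟨hrp, hr3, Nat.not_even_iff_odd.1 hev, him, (h1 hev).1 hL⟩)
  · rintro (⟨h, -⟩ | ⟨-, -, hodd, him, h4⟩ | ⟨-, -, hev, him, h4, h5⟩)
    · exact absurd h hr2
    · exact ⟨him, fun _ => ⟨fun _ => h4, fun h => absurd hL h⟩, fun hev => absurd hev (Nat.not_even_iff_odd.2 hodd)⟩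
    · have hci : c = i := by rw [hc, if_pos hev]
      rw [hci] at h5
      have hρ : ∀ K : ℕ, (Lag (plusQ d F) ↔ Even K) ↔ Even K := fun K => ⟨fun h => h.1 hL, fun h => iff_of_true hL h⟩
      refine ⟨him, fun h => absurd hev h, fun _ => ⟨h4, ?_⟩⟩
      simpa only [hρ, Nat.not_even_iff_odd] using h5

end Cfsg.Agent.S5973
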