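import Cfsg.Statements.S5974
import Cfsg.Agent.Lib.Classical.OSemi.NondegD

set_option autoImplicit false
open scoped MatrixGroups
open Cfsg

namespace Cfsg.Agent.S5974

/-- Elements of prime order of PΩ⁺_n(q), n = 2d ≥ 8, with no fixed nondegenerate hyperbolic `m`-space. Here `T = PΩ⁺_n(q)` is realised through `Ω⁺_n(q)`, the commutator subgroup of the isometry group of `Q = Σ xᵢyᵢ` over the field `F` with `q` elements; an element of `T` of prime order `r` is an element `x` of `Ω⁺_n(q)` with `x^r` scalar and `x` not scalar. A hyperbolic `m`-space is a subspace `W` of even dimension `m` on which the polar form of `Q` is nondegenerate and which contains a totally singular subspace of dimension `m/2`. Let `m` be even with `2 ≤ m < n/2`, and let `r` be a prime dividing the number of hyperbolic `m`-spaces, with `r = 2` or `r ≠ p`. For `r ≠ p` let `i` be the multiplicative order of `q` modulo `r`, `c = i` for `i` even and `c = 2i`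 for `i` odd, and write `k = n mod c`, `ℓ' = m mod c`. Then every element of `T` of order `r` fixes some hyperbolic `m`-space if and only if one of: (i) `r = 2` and (`n ≡ 2 (mod 4)`, or `m ≡ 0 (mod 4)`, or `q ≡ 1 (mod 4)`); (ii) `r ≠ p` odd, `i` odd, `c ≤ m` and `k ≥ ℓ'`; (iii) `r ≠ p` odd, `i` even, and either `k = 0` and (`n/i` odd, or `ℓ' = 0` and `m/i` even), or `i ≤ m` and (`k > ℓ' > 0`, or `k = ℓ' > 0` and `(n + m − 2k)/i` even, or `k > ℓ' = 0` and `m/i` even). -/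
theorem result {F : Type*} [Field F] [Fintype F] {p : ℕ} [Fact p.Prime] [CharP F p] {q : ℕ} (hq : Fintype.card F = q)
    (d m : ℕ) (hd : 4 ≤ d) (hm : 2 ≤ m) (hme : Even m) (hmd : m < d)
    (r : ℕ) [Fact r.Prime] (hr : r = 2 ∨ r ≠ p)
    (hrΩ : r ∣ Nat.card {W : Submodule F (Fin d ⊕ Fin d → F) // (Module.finrank F ↥W = m ∧ (∀ u ∈ W, u ≠ 0 → ∃ v ∈ W, QuadraticMap.polar (Cfsg.quadFormPlus d F) u v ≠ 0) ∧
          ∃ U : Submodule F (Fin d ⊕ Fin d → F), U ≤ W ∧ 2 * Module.finrank F ↥U = m ∧ ∀ u ∈ U, Cfsg.quadFormPlus d F u = 0)})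
    (i c : ℕ) (hi : i = orderOf (q : ZMod r)) (hc : c = if Even i then i else 2 * i) :
    (∀ x : GL (Fin d ⊕ Fin d) F, x ∈ Cfsg.Geo.omegaGL (Cfsg.quadFormPlus d F) →
      (∃ z : F, ((x ^ r : GL (Fin d ⊕ Fin d) F) : Matrix (Fin d ⊕ Fin d) (Fin d ⊕ Fin d) F) = z • (1 : Matrix (Fin d ⊕ Fin d) (Fin d ⊕ Fin d) F)) →
      (∀ z : F, (x : Matrix (Fin d ⊕ Fin d) (Fin d ⊕ Fin d) F) ≠ z • (1 : Matrix (Fin d ⊕ Fin d) (Fin d ⊕ Fin d) F)) →
      ∃ W : Submodule F (Fin d ⊕ Fin d → F), (Module.finrank F ↥W = m ∧ (∀ u ∈ W, u ≠ 0 → ∃ v ∈ W, QuadraticMap.polar (Cfsg.quadFormPlus d F) u v ≠ 0) ∧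
          ∃ U : Submodule F (Fin d ⊕ Fin d → F), U ≤ W ∧ 2 * Module.finrank F ↥U = m ∧ ∀ u ∈ U, Cfsg.quadFormPlus d F u = 0) ∧
        W.map (Matrix.toLin' (x : Matrix (Fin d ⊕ Fin d) (Fin d ⊕ Fin d) F)) ≤ W) ↔
    ((r = 2 ∧ ((2 * d) % 4 = 2 ∨ m % 4 = 0 ∨ q % 4 = 1)) ∨
     (r ≠ p ∧ 2 < r ∧ Odd i ∧ c ≤ m ∧ m % c ≤ (2 * d) % c) ∨
     (r ≠ p ∧ 2 < r ∧ Even i ∧
       (((2 * d) % c = 0 ∧ (Odd ((2 * d) / i) ∨ (m % c = 0 ∧ Even (m / i)))) ∨
        (i ≤ m ∧ ((m % c < (2 * d) % c ∧ 0 < m % c) ∨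
                  ((2 * d) % c = m % c ∧ 0 < m % c ∧ Even ((2 * d + m - 2 * ((2 * d) % c)) / i)) ∨
                  (0 < (2 * d) % c ∧ m % c = 0 ∧ Even (m / i))))))) := by
  classical
  open Cfsg.Agent.Lib.Linalg.OrthModels Cfsg.Agent.Lib.Classical.OSemi.Lag Cfsg.Agent.Lib.Classical.OSemi.NondegG
    Cfsg.Agent.Lib.Classical.OSemi.NondegR Cfsg.Agent.Lib.Classical.OSemi.NondegD Cfsg.Agent.Lib.Classical.Witt.Hyp in
  have hrpr : r.Prime := Fact.out
  have hQ := polarNondeg_plusQ (F := F) d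
  have hcard : Fintype.card (Fin d ⊕ Fin d) = 2 * d := by
    simp [Fintype.card_sum]
    ring
  have hc4 : Fintype.card (Fin d ⊕ Fin d) ≠ 4 := by omega
  haveI hne : Nonempty (Fin d ⊕ Fin d) := ⟨Sum.inl ⟨0, by omega⟩⟩
  have hL : Lag (plusQ d F) := lag_plusQ d
  have hconv : ∀ W : Submodule F (Fin d ⊕ Fin d → F), (Module.finrank F ↥W = m ∧ (∀ u ∈ W, u ≠ 0 → ∃ v ∈ W, QuadraticMap.polar (Cfsg.quadFormPlus d F) u v ≠ 0) ∧
          ∃ U : Submodule F (Fin d ⊕ Fin d → F), U ≤ W ∧ 2 * Module.finrank F ↥U = m ∧ ∀ u ∈ U, Cfsg.quadFormPlus d F u = 0) ↔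
      (Module.finrank F ↥W = m ∧ Cfsg.Geo.IsNondegenerateOn (QuadraticMap.polar (⇑(plusQ d F))) W ∧ Cfsg.Geo.IsPlusTypeOn (⇑(plusQ d F)) W) := by
    intro W
    constructor
    · rintro ⟨h1, h2, U, h3, h4, h5⟩
      refine ⟨h1, fun w hw hw0 => ?_, U, h3, h5, by rw [h4, h1]⟩
      obtain ⟨v, hv, hv0⟩ := h2 w hw hw0
      refine ⟨⟨v, hv, ?_⟩, ⟨v, hv, hv0⟩⟩
      rw [QuadraticMap.polar_comm]
      exact hv0
    · rintro ⟨h1, h2, U, h3, h5, h4⟩
      refine ⟨h1, fun u hu hu0 => ?_, U, h3, by rw [h4, h1], h5⟩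
      exact (h2 u hu hu0).2
  simp only [hconv]
  by_cases hr2 : r = 2
  · subst hr2
    by_cases hp2 : p = 2
    · subst hp2
      refine (char2_hyper_iff (F := F) hd hm hme hmd).trans ?_
      obtain ⟨n, -, hqn⟩ := FiniteField.card F 2
      have hq2 : q % 2 = 0 := by
        rw [← hq, hqn]
        obtain ⟨n', hn'⟩ := Nat.exists_eq_succ_of_ne_zero n.ne_zero
        rw [hn', pow_succ]
        exact Nat.mul_mod_left _ _
      constructor
      · rintro (h | h)
        · refine Or.inl ⟨rfl, Or.inl ?_⟩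
          rw [Nat.odd_iff] at h
          omega
        · exact Or.inl ⟨rfl, Or.inr (Or.inl h)⟩
      · rintro (⟨-, h | h | h⟩ | ⟨h, -⟩ | ⟨h, -⟩)
        · left
          rw [Nat.odd_iff]
          omega
        · exact Or.inr h
        · omega
        · exact absurd rfl h
        · exact absurd rfl h
    · refine (two_hyper_iff (p := p) hq hp2 hd hm hme hmd).trans ?_
      constructor
      · intro h
        exact Or.inl ⟨rfl, h⟩
      · rintro (⟨-, h⟩ | ⟨-, h, -⟩ | ⟨-, h, -⟩)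
        · exact h
        · omega
        · omega
  have hrp : r ≠ p := by
    rcases hr with h | h
    · exact absurd h hr2
    · exact h
  have hr3 : 2 < r := by
    have := hrpr.two_le
    omega
  have hcount : r ∣ Nat.card {W : Submodule F (Fin d ⊕ Fin d → F) // Module.finrank F W = m ∧ Cfsg.Geo.IsNondegenerateOn (QuadraticMap.polar ⇑(plusQ d F)) W ∧ (Cfsg.Geo.IsPlusTypeOn ⇑(plusQ d F) W ↔ True)} := by
    have h1 : Nat.card {W : Submodule F (Fin d ⊕ Fin d → F) // Module.finrank F W = m ∧ Cfsg.Geo.IsNondegenerateOn (QuadraticMap.polar ⇑(plusQ d F)) W ∧ (Cfsg.Geo.IsPlusTypeOn ⇑(plusQ d F) W ↔ True)} =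
        Nat.card {W : Submodule F (Fin d ⊕ Fin d → F) // (Module.finrank F ↥W = m ∧ (∀ u ∈ W, u ≠ 0 → ∃ v ∈ W, QuadraticMap.polar (Cfsg.quadFormPlus d F) u v ≠ 0) ∧
          ∃ U : Submodule F (Fin d ⊕ Fin d → F), U ≤ W ∧ 2 * Module.finrank F ↥U = m ∧ ∀ u ∈ U, Cfsg.quadFormPlus d F u = 0)} := by
      apply Nat.card_congr
      apply Equiv.subtypeEquivRight
      intro W
      rw [iff_true, hconv]
    rw [h1]
    exact hrΩ
  obtain ⟨t, D, ⟨H⟩, ht, ht0, hi0⟩ := Cfsg.Agent.Lib.Classical.OSemi.OddForm.exists_setup hq hr2 hrp hi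
  have hcpos := Cfsg.Agent.Lib.Classical.OSemi.Clause.c_pos hi0 hc
  have hdn := Nat.div_add_mod (2 * d) c
  have hdm := Nat.div_add_mod m c
  constructor
  · intro H0
    obtain ⟨hcm, hCrit⟩ := even_forward hq hr2 hrp hi hQ hcard hc4 hc hme hm (by omega) True hcount (fun x hx h1 h3 => by
      obtain ⟨W, ⟨h4, h5, h6⟩, h7⟩ := H0 x hx h1 h3
      exact ⟨W, ⟨h4, h5, iff_true_intro h6⟩, h7⟩)
    right
    rcases Nat.even_or_odd i with hev | hodd
    · right
      have hci : c = i := by rw [hc, if_pos hev]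
      subst hci
      simp only [hev, not_true_eq_false, false_or, hL, true_iff] at hCrit
      refine ⟨hrp, hr3, hev, ?_⟩
      by_cases hgood : 0 < (2 * d) % c ∨ Even ((2 * d) / c)
      · obtain ⟨h1, h3⟩ := hCrit hgood
        rcases Nat.eq_zero_or_pos (m % c) with hl0 | hlpos
        · have h4 := h3 hl0
          rcases Nat.eq_zero_or_pos ((2 * d) % c) with hk0 | hkpos
          · exact Or.inl ⟨hk0, Or.inr ⟨hl0, h4⟩⟩
          · exact Or.inr ⟨hcm, Or.inr (Or.inr ⟨hkpos, hl0, h4⟩)⟩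
        · rcases h1 hlpos with h4 | ⟨h4, h5⟩
          · exact Or.inr ⟨hcm, Or.inl ⟨h4, hlpos⟩⟩
          · refine Or.inr ⟨hcm, Or.inr (Or.inl ⟨h4.symm, hlpos, ?_⟩)⟩
            have h6 : 2 * d + m - 2 * ((2 * d) % c) = c * ((2 * d) / c + m / c) := by
              rw [Nat.mul_add c ((2 * d) / c) (m / c)]
              omega
            rw [h6, Nat.mul_div_cancel_left _ hcpos, Nat.even_add]
            exact h5
      · obtain ⟨h1, h3⟩ := not_or.1 hgood
        exact Or.inl ⟨by omega, Or.inl (Nat.not_even_iff_odd.1 h3)⟩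
    · left
      have hnev : ¬ Even i := Nat.not_even_iff_odd.2 hodd
      obtain ⟨h1, h3⟩ := hCrit (Or.inr ⟨fun _ => Or.inl hnev, fun _ => hL⟩)
      refine ⟨hrp, hr3, hodd, hcm, ?_⟩
      rcases Nat.eq_zero_or_pos (m % c) with hl0 | hlpos
      · omega
      · rcases h1 hlpos with h4 | ⟨h4, -⟩ <;> omega
  · intro hR
    have hb := even_backward hq hr2 hrp hi hQ hcard hc hme hm (by omega) True (by
      rcases hR with ⟨h1, -⟩ | ⟨-, -, hodd, hcm, h1⟩ | ⟨-, -, hev, hR⟩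
      · omega
      · have hnev : ¬ Even i := Nat.not_even_iff_odd.2 hodd
        intro _
        refine ⟨fun h3 => ?_, fun h0 => ⟨fun _ => Or.inl hnev, fun _ => trivial⟩⟩
        rcases Nat.lt_or_ge (m % c) ((2 * d) % c) with h4 | h4
        · exact Or.inl h4
        · refine Or.inr ⟨by omega, ?_⟩
          simp [hnev, hL]
      · have hci : c = i := by rw [hc, if_pos hev]
        subst hci
        simp only [hev, not_true_eq_false, false_or, hL, true_iff]
        intro hgood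
        rcases hR with ⟨hk0, h1⟩ | ⟨hcm, h1⟩
        · rcases hgood with h3 | h3
          · omega
          · rcases h1 with h1 | ⟨h4, h5⟩
            · exact absurd h3 (Nat.not_even_iff_odd.2 h1)
            · exact ⟨fun h0 => by omega, fun _ => h5⟩
        · rcases h1 with ⟨h3, h4⟩ | ⟨h3, h4, h5⟩ | ⟨h3, h4, h5⟩
          · exact ⟨fun _ => Or.inl h3, fun h0 => by omega⟩
          · refine ⟨fun _ => Or.inr ⟨h3.symm, ?_⟩, fun h0 => by omega⟩
            have h6 : 2 * d + m - 2 * ((2 * d) % c) = c * ((2 * d) / c + m / c) := by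
              rw [Nat.mul_add c ((2 * d) / c) (m / c)]
              omega
            rw [h6, Nat.mul_div_cancel_left _ hcpos, Nat.even_add] at h5
            exact h5
          · exact ⟨fun h0 => by omega, fun _ => h5⟩)
    intro x hx h1 h3
    obtain ⟨W, ⟨h4, h5, h6⟩, h7⟩ := hb x hx h1 h3
    exact ⟨W, ⟨h4, h5, h6.2 trivial⟩, h7⟩

end Cfsg.Agent.S5974
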