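import Cfsg.Statements.S5983
import Mathlib
import Cfsg.Agent.Lib.Classical.InvCent.SpOrth
import Cfsg.Agent.Lib.Classical.Geo.OPts

set_option autoImplicit false
open scoped MatrixGroups
open Cfsg

namespace Cfsg.Agent.S5983

open Module Cfsg.Agent.Lib.Classical.InvCent.SpOrth

/-- Elements of prime order of PSp_n(q), q even, and the subgroups of orthogonal type. Here `T = Sp_{2d}(F)` for a field `F` of characteristic 2 with `q` elements (`d ≥ 2`, `(d, q) ≠ (2, 2)`), realised as the invertible matrices preserving the standard alternating form; `Q` is a non-degenerate quadratic form on `F^{2d}` whose polar form is that alternating form, and `H` is the subgroup of `T` preserving `Q` up to a scalar (equivalently preserving `Q`) — a subgroup of type O^±_{2d}(q) (maximality is not assumed); `Q` is of plus type when `F^{2d}` contains a `d`-dimensional subspace on which `Q` vanishes, of minus type otherwise. Ω is the set of cosets of `H` in `T`, so an element of `T` of prime order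 `r` (`x ∈ T` with `x^r` scalar, `x` not scalar) fixes a point of Ω exactly when some `T`-conjugate of `x` preserves `Q`. Let `r` be a prime dividing the index of `H`. Then every element of `T` of order `r` fixes a point of Ω if and only if `r = 2` and either `Q` is of plus type or `d` is odd. -/
theorem result {F : Type*} [Field F] [Fintype F] {p : ℕ} [Fact p.Prime] [CharP F p] {q : ℕ} (hq : Fintype.card F = q)
    (hp : p = 2) (d : ℕ) (hd : 2 ≤ d) (hT : (d, q) ≠ (2, 2)) (Q : (Fin d ⊕ Fin d → F) → F) (hQ : Cfsg.Geo.IsNondegenerateQuadraticForm Q)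
    (hQf : ∀ u v, QuadraticMap.polar Q u v = Cfsg.sympForm d F u v)
    (r : ℕ) [Fact r.Prime]
    (hΩ : r ∣ (Cfsg.Geo.quadSimilarityGroup Q).relIndex (Cfsg.spGL d F)) :
    (∀ x ∈ Cfsg.spGL d F, (∃ z : F, ((x ^ r : GL (Fin d ⊕ Fin d) F) : Matrix (Fin d ⊕ Fin d) (Fin d ⊕ Fin d) F) = z • (1 : Matrix (Fin d ⊕ Fin d) (Fin d ⊕ Fin d) F)) →
      (∀ z : F, (x : Matrix (Fin d ⊕ Fin d) (Fin d ⊕ Fin d) F) ≠ z • (1 : Matrix (Fin d ⊕ Fin d) (Fin d ⊕ Fin d) F)) →
      ∃ g ∈ Cfsg.spGL d F, g⁻¹ * x * g ∈ Cfsg.Geo.quadSimilarityGroup Q) ↔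
    (r = 2 ∧ (Cfsg.Geo.IsPlusTypeOn Q ⊤ ∨ Odd d)) := by
  classical
  subst hp
  obtain ⟨Q', rfl, hQ'⟩ := Cfsg.Agent.Lib.Classical.Geo.OPts.exists_quadraticForm hQ
  have hd1 : 1 ≤ d := by omega
  have hV : finrank F (Fin d ⊕ Fin d → F) = 2 * d := by
    simp [Module.finrank_fintype_fun_eq_card]
    ring
  have hiff : Cfsg.Geo.IsPlusTypeOn (⇑Q') ⊤ ↔ ∃ U : Submodule F (Fin d ⊕ Fin d → F), (∀ w ∈ U, Q' w = 0) ∧ finrank F U = d := by
    constructor
    · rintro ⟨U, -, hU, hUd⟩
      rw [finrank_top, hV] at hUd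
      exact ⟨U, hU, by omega⟩
    · rintro ⟨U, hU, hUd⟩
      refine ⟨U, le_top, hU, ?_⟩
      rw [finrank_top, hV, hUd]
  rw [hiff]
  constructor
  · intro H
    by_cases hr2 : r = 2
    · refine ⟨hr2, ?_⟩
      subst hr2
      rcases Nat.even_or_odd d with he | ho
      · exact Or.inl (plus_of_elus hQf hd1 he H)
      · exact Or.inr ho
    · exact (false_of_odd hQ' hQf hd1 hq hr2 hΩ H).elim
  · rintro ⟨rfl, hT'⟩ x hx hz hns
    exact elus_two hQ' hQf hd1 hT' x hx hz hns

end Cfsg.Agent.S5983
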