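import Cfsg.Statements.S5987
import Cfsg.Agent.Lib.Classical.OSemi.SingFinal

set_option autoImplicit false
open scoped MatrixGroups
open Cfsg

namespace Cfsg.Agent.S5987

/-- Elements of prime order of PΩ⁻_n(q) with no fixed totally singular `m`-space. Here `T = PΩ⁻_n(F)`, `n = 2d ≥ 8`, realised through `Ω⁻_n(q)`, the commutator subgroup of the isometry group of `Q = Σ_{i<d−1} xᵢyᵢ + z₁² + a z₁z₂ + b z₂²` with `z₁² + a z₁z₂ + b z₂²` anisotropic, over the field `F` with `q` elements; an element of `T` of prime order `r` is an element `x` of `Ω⁻_n(q)` with `x^r` scalar and `x` not scalar. Let `1 ≤ m ≤ d − 1` and let `r` be a prime dividing the number of totally singular `m`-spaces (subspaces of dimension `m` on which `Q` vanishes); for `r ≠ p` let `i` be the multiplicative order of `q` modulo `r`, `c = i` for `i` even and `c = 2i` for `i` odd, and write `k = n mod c`, `ℓ = m mod i`, `n' =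 ⌊n/i⌋`, `m' = ⌊m/i⌋`, `t = (r−1)/i`. Then every element of `T` of order `r` fixes some totally singular `m`-space if and only if one of: (i) `r = 2 ≠ p` and (`n ≡ 0 (mod 4)`, or `m` is even, or `q ≢ 7 (mod 8)`); (ii) `r ≠ p` odd, `i` odd, `i ≤ m` and (`k = 0` or `k > 2ℓ`); (iii) `r ≠ p` odd, `i` even, `i ≤ m`, `n' − 2m' ≥ t`, and one of: (a) `i ≥ 2ℓ`, `k = 0`, `n/i` even and `n' − 2m' > t` (all four); (b) `k ≥ 2ℓ` and `n'` odd; (c) `k > 2ℓ` and `n'` even. -/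
theorem result {F : Type*} [Field F] [Fintype F] {p : ℕ} [Fact p.Prime] [CharP F p] {q : ℕ} (hq : Fintype.card F = q)
    (d m : ℕ) (hd : 4 ≤ d) (hm : 1 ≤ m) (hmd : m + 1 ≤ d) (a b : F) (hab : ∀ x y : F, x ^ 2 + a * x * y + b * y ^ 2 = 0 → x = 0 ∧ y = 0)
    (r : ℕ) [Fact r.Prime]
    (hrΩ : r ∣ Nat.card {W : Submodule F ((Fin (d - 1) ⊕ Fin (d - 1)) ⊕ Fin 2 → F) // Module.finrank F ↥W = m ∧ Cfsg.Geo.IsTotallySingularQuad (Cfsg.quadFormMinus (d - 1) F a b) W})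
    (i c : ℕ) (hi : i = orderOf (q : ZMod r)) (hc : c = if Even i then i else 2 * i) :
    (∀ x : GL ((Fin (d - 1) ⊕ Fin (d - 1)) ⊕ Fin 2) F, x ∈ Cfsg.Geo.omegaGL (Cfsg.quadFormMinus (d - 1) F a b) →
      (∃ z : F, ((x ^ r : GL ((Fin (d - 1) ⊕ Fin (d - 1)) ⊕ Fin 2) F) : Matrix ((Fin (d - 1) ⊕ Fin (d - 1)) ⊕ Fin 2) ((Fin (d - 1) ⊕ Fin (d - 1)) ⊕ Fin 2) F) = z • (1 : Matrix ((Fin (d - 1) ⊕ Fin (d - 1)) ⊕ Fin 2) ((Fin (d - 1) ⊕ Fin (d - 1)) ⊕ Fin 2) F)) →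
      (∀ z : F, (x : Matrix ((Fin (d - 1) ⊕ Fin (d - 1)) ⊕ Fin 2) ((Fin (d - 1) ⊕ Fin (d - 1)) ⊕ Fin 2) F) ≠ z • (1 : Matrix ((Fin (d - 1) ⊕ Fin (d - 1)) ⊕ Fin 2) ((Fin (d - 1) ⊕ Fin (d - 1)) ⊕ Fin 2) F)) →
      ∃ W : Submodule F ((Fin (d - 1) ⊕ Fin (d - 1)) ⊕ Fin 2 → F), (Module.finrank F ↥W = m ∧ Cfsg.Geo.IsTotallySingularQuad (Cfsg.quadFormMinus (d - 1) F a b) W) ∧ W.map (Matrix.toLin' (x : Matrix ((Fin (d - 1) ⊕ Fin (d - 1)) ⊕ Fin 2) ((Fin (d - 1) ⊕ Fin (d - 1)) ⊕ Fin 2) F)) ≤ W) ↔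
    ((r = 2 ∧ p ≠ 2 ∧ (Even d ∨ Even m ∨ q % 8 ≠ 7)) ∨
     (r ≠ p ∧ 2 < r ∧ Odd i ∧ i ≤ m ∧ ((2 * d) % c = 0 ∨ 2 * (m % i) < (2 * d) % c)) ∨
     (r ≠ p ∧ 2 < r ∧ Even i ∧ i ≤ m ∧ (r - 1) / i + 2 * (m / i) ≤ (2 * d) / i ∧
       ((2 * (m % i) ≤ i ∧ (2 * d) % c = 0 ∧ Even ((2 * d) / i) ∧ (r - 1) / i + 2 * (m / i) < (2 * d) / i) ∨
        (2 * (m % i) ≤ (2 * d) % c ∧ Odd ((2 * d) / i)) ∨
        (2 * (m % i) < (2 * d) % c ∧ Even ((2 * d) / i))))) := by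
  classical
  open Cfsg.Agent.Lib.Linalg.OrthModels Cfsg.Agent.Lib.Classical.OSemi.Lag Cfsg.Agent.Lib.Classical.OSemi.SingFinal
    Cfsg.Agent.Lib.Classical.OSemi.SingStep Cfsg.Agent.Lib.Classical.OSemi.SingJ Cfsg.Agent.Lib.Classical.OSemi.SingInvE
    Cfsg.Agent.Lib.Classical.Witt.Hyp Cfsg.Agent.Lib.Classical.Orth.Basic in
  have hr : r.Prime := Fact.out
  have hQ := polarNondeg_minusQ (F := F) (d - 1) hab
  have hcard : Fintype.card ((Fin (d - 1) ⊕ Fin (d - 1)) ⊕ Fin 2) = 2 * d := by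
    simp [Fintype.card_sum]
    omega
  have hc4 : Fintype.card ((Fin (d - 1) ⊕ Fin (d - 1)) ⊕ Fin 2) ≠ 4 := by omega
  haveI hne : Nonempty ((Fin (d - 1) ⊕ Fin (d - 1)) ⊕ Fin 2) := ⟨Sum.inr 0⟩
  have hrΩ' : r ∣ Nat.card {W : Submodule F ((Fin (d - 1) ⊕ Fin (d - 1)) ⊕ Fin 2 → F) // Module.finrank F W = m ∧ ∀ w ∈ W, minusQ (d - 1) F a b w = 0} := hrΩ
  have hL : ¬ Lag (minusQ (d - 1) F a b) := not_lag_minusQ (d - 1) hab
  have hmd' : m < d := by omega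
  by_cases hrp : r = p
  · subst hrp
    exact absurd hrΩ' (not_dvd_ts_char_even hQ hcard hmd')
  by_cases hr2 : r = 2
  · subst hr2
    have hp2 : p ≠ 2 := fun h => hrp h.symm
    obtain ⟨h2, hq2, hsq, hsq2⟩ := odd_facts (p := p) hq hp2
    constructor
    · intro H0
      refine Or.inl ⟨rfl, hp2, ?_⟩
      by_contra hcon
      push Not at hcon
      obtain ⟨h3, h4, h5⟩ := hcon
      have hns : ¬ IsSquare (-1 : F) := by
        rw [hsq]
        simp only [ne_eq, not_not]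
        omega
      have hs2 : IsSquare (2 : F) := by
        rw [hsq2]
        omega
      have hde : ¬ Even d := by
        simpa using h3
      obtain ⟨x, hx⟩ := exists_J h2 hns hQ hcard (by omega) (iff_of_false hL hde)
      have hxΩ := (J_facts h2 hQ hcard x hx).2.2 (hs2.pow d)
      obtain ⟨h8, h9⟩ := J_statement hns hQ x hx
      obtain ⟨W, ⟨h10, h11⟩, h12⟩ := H0 (x : GL ((Fin (d - 1) ⊕ Fin (d - 1)) ⊕ Fin 2) F) (Subgroup.mem_map_of_mem _ hxΩ) h8 h9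
      have h13 := even_of_inv hns x hx W (fun w hw => h12 ⟨w, hw, rfl⟩)
      rw [h10] at h13
      exact h4 h13
    · rintro (⟨-, -, hcl⟩ | ⟨-, h, -⟩ | ⟨-, h, -⟩) x ⟨g, hg, rfl⟩ ⟨z, hz⟩ hns'
      · obtain ⟨W, h3, h4, h5⟩ := sing_two_back (m := m) h2 hQ hcard g hg hz (Or.inr (Or.inl ⟨hmd, hL⟩)) (fun hJ => by
          by_cases hs : IsSquare (-1 : F)
          · obtain ⟨s, hs'⟩ := hs
            exact absurd (J_split h2 hQ hcard g hJ hs'.symm).1 hL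
          have hf := J_facts h2 hQ hcard g hJ
          have hde : ¬ Even d := fun h => hL ((hf.1 hs).2 h)
          have h2d := hf.2.1 hg
          rcases hcl with h3 | h3 | h3
          · exact absurd h3 hde
          · obtain ⟨j, hj⟩ := h3
            have h8 := exists_J_ts h2 hs hQ hcard g hJ (j := j) (by omega)
            rw [show 2 * j = m by omega] at h8
            exact h8
          · exfalso
            have h4 := hsq2.1 (isSquare_two_of_pow h2 hde h2d)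
            have h5 : q % 4 = 3 := by
              by_contra h6
              exact hs (hsq.2 h6)
            omega)
        exact ⟨W, ⟨h3, h4⟩, h5⟩
      · omega
      · omega
  have hr3 : 2 < r := by
    have := hr.two_le
    omega
  have key := sing_odd_iff (p := p) hq hr2 hrp hi hQ hcard hc4 hc hm hmd' hrΩ'
  have hρ : ∀ K : ℕ, (Lag (minusQ (d - 1) F a b) ↔ Even K) ↔ Odd K := fun K => by
    rw [← Nat.not_even_iff_odd]
    exact ⟨fun h h' => hL (h.2 h'), fun h => iff_of_false hL h⟩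
  have hρ' : ∀ K : ℕ, (¬ (Lag (minusQ (d - 1) F a b) ↔ Even K)) ↔ Even K := fun K => by
    rw [hρ, Nat.not_odd_iff_even]
  constructor
  · intro H0
    obtain ⟨him, h1, h3⟩ := key.1 (fun x h5 h6 h7 => by
      obtain ⟨W, ⟨h8, h9⟩, h10⟩ := H0 x h5 h6 h7
      exact ⟨W, h8, h9, h10⟩)
    by_cases hev : Even i
    · obtain ⟨h4, h5⟩ := h3 hev
      have hci : c = i := by rw [hc, if_pos hev]
      rw [hci]
      refine Or.inr (Or.inr ⟨hrp, hr3, hev, him, h4, ?_⟩)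
      simpa only [hρ, Nat.not_odd_iff_even] using h5
    · exact Or.inr (Or.inl ⟨hrp, hr3, Nat.not_even_iff_odd.1 hev, him, (h1 hev).2 hL⟩)
  · intro hR x h5 h6 h7
    obtain ⟨W, h8, h9, h10⟩ := key.2 (by
      rcases hR with ⟨h, -⟩ | ⟨-, -, hodd, him, h4⟩ | ⟨-, -, hev, him, h4, h5⟩
      · exact absurd h hr2
      · exact ⟨him, fun _ => ⟨fun h => absurd h hL, fun _ => h4⟩, fun hev => absurd hev (Nat.not_even_iff_odd.2 hodd)⟩
      · have hci : c = i := by rw [hc, if_pos hev]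
        rw [hci] at h5
        refine ⟨him, fun h => absurd hev h, fun _ => ⟨h4, ?_⟩⟩
        simpa only [hρ, Nat.not_odd_iff_even] using h5) x h5 h6 h7
    exact ⟨W, ⟨h8, h9⟩, h10⟩

end Cfsg.Agent.S5987
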