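import Cfsg.Statements.S5988
import Cfsg.Agent.Lib.Classical.OSemi.NondegP

set_option autoImplicit false
open scoped MatrixGroups
open Cfsg

namespace Cfsg.Agent.S5988

/-- Elements of prime order of PΩ⁺_n(q) with no fixed elliptic `m`-space. Here `T = PΩ⁺_n(F)`, `n = 2d ≥ 8`, realised through `Ω⁺_n(q)`, the commutator subgroup of the isometry group of `Q = Σ xᵢyᵢ` over the field `F` with `q` elements; an element of `T` of prime order `r` is an element `x` of `Ω⁺_n(q)` with `x^r` scalar and `x` not scalar; a nondegenerate `m`-space (even `m`) is a subspace on which the polar form of `Q` is nondegenerate; it is hyperbolic if it contains an `m/2`-dimensional subspace on which `Q` vanishes, elliptic otherwise. Let `m` be even with `2 ≤ m < n/2` and let `r` be a prime dividing the number of elliptic `m`-spaces; for `r ≠ p` let `i` be the multiplicative order of `q` modulo `r`, `c = i` for `i` even and `c = 2i` for `i` odd, and write `k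 = n mod c`, `ℓ = m mod i`, `ℓ' = m mod c`, `n' = ⌊n/i⌋`, `m' = ⌊m/i⌋`, `t = (r−1)/i`. Then every element of `T` of order `r` fixes some elliptic `m`-space if and only if one of: (i) `r = 2 ≠ p` and either `n ≡ 0 (mod 4)`, `q ≡ 3 (mod 4)` and `m ≡ 2 (mod 4)`, or `n ≡ 2 (mod 4)` and `q ≢ 1 (mod 8)`; (ii) `r ≠ p` odd, `i` odd, `c ≤ m` and `k > ℓ' > 0`; (iii) `r ≠ p` odd, `i` even, and either `k = 0` and (`n/i` odd, or `ℓ' = 0` and `m/i` odd), or `i ≤ m` and (`k > ℓ' > 0`, or `k = ℓ' > 0` and `(n + m − 2k)/i` odd, or `k > ℓ' = 0` and `m/i` odd). (For `r = p` there is always an element of order `p` fixing no elliptic `m`-space.) -/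
theorem result {F : Type*} [Field F] [Fintype F] {p : ℕ} [Fact p.Prime] [CharP F p] {q : ℕ} (hq : Fintype.card F = q)
    (d m : ℕ) (hd : 4 ≤ d) (hm : 2 ≤ m) (hme : Even m) (hmd : m < d)
    (r : ℕ) [Fact r.Prime]
    (hrΩ : r ∣ Nat.card {W : Submodule F (Fin d ⊕ Fin d → F) // Module.finrank F ↥W = m ∧ Cfsg.Geo.IsNondegenerateOn (QuadraticMap.polar (Cfsg.quadFormPlus d F)) W ∧ ¬ Cfsg.Geo.IsPlusTypeOn (Cfsg.quadFormPlus d F) W})
    (i c : ℕ) (hi : i = orderOf (q : ZMod r)) (hc : c = if Even i then i else 2 * i) :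
    (∀ x : GL (Fin d ⊕ Fin d) F, x ∈ Cfsg.Geo.omegaGL (Cfsg.quadFormPlus d F) →
      (∃ z : F, ((x ^ r : GL (Fin d ⊕ Fin d) F) : Matrix (Fin d ⊕ Fin d) (Fin d ⊕ Fin d) F) = z • (1 : Matrix (Fin d ⊕ Fin d) (Fin d ⊕ Fin d) F)) →
      (∀ z : F, (x : Matrix (Fin d ⊕ Fin d) (Fin d ⊕ Fin d) F) ≠ z • (1 : Matrix (Fin d ⊕ Fin d) (Fin d ⊕ Fin d) F)) →
      ∃ W : Submodule F (Fin d ⊕ Fin d → F), (Module.finrank F ↥W = m ∧ Cfsg.Geo.IsNondegenerateOn (QuadraticMap.polar (Cfsg.quadFormPlus d F)) W ∧ ¬ Cfsg.Geo.IsPlusTypeOn (Cfsg.quadFormPlus d F) W) ∧ W.map (Matrix.toLin' (x : Matrix (Fin d ⊕ Fin d) (Fin d ⊕ Fin d) F)) ≤ W) ↔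
    ((r = 2 ∧ p ≠ 2 ∧ ((Even d ∧ q % 4 = 3 ∧ m % 4 = 2) ∨ (Odd d ∧ q % 8 ≠ 1))) ∨
     (r ≠ p ∧ 2 < r ∧ Odd i ∧ c ≤ m ∧ 0 < m % c ∧ m % c < (2 * d) % c) ∨
     (r ≠ p ∧ 2 < r ∧ Even i ∧
       (((2 * d) % c = 0 ∧ (Odd ((2 * d) / i) ∨ (m % c = 0 ∧ Odd (m / i)))) ∨
        (i ≤ m ∧ ((0 < m % c ∧ m % c < (2 * d) % c) ∨
                  (0 < m % c ∧ m % c = (2 * d) % c ∧ Odd ((2 * d + m - 2 * ((2 * d) % c)) / i)) ∨
                  (m % c = 0 ∧ 0 < (2 * d) % c ∧ Odd (m / i))))))) := by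
  classical
  open Cfsg.Agent.Lib.Linalg.OrthModels Cfsg.Agent.Lib.Classical.OSemi.Lag Cfsg.Agent.Lib.Classical.OSemi.NondegG
    Cfsg.Agent.Lib.Classical.OSemi.NondegJ Cfsg.Agent.Lib.Classical.OSemi.NondegP Cfsg.Agent.Lib.Classical.Witt.Hyp in
  have hr : r.Prime := Fact.out
  have hQ := polarNondeg_plusQ (F := F) d
  have hcard : Fintype.card (Fin d ⊕ Fin d) = 2 * d := by
    simp [Fintype.card_sum]
    ring
  have hc4 : Fintype.card (Fin d ⊕ Fin d) ≠ 4 := by omega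
  haveI hne : Nonempty (Fin d ⊕ Fin d) := ⟨Sum.inl ⟨0, by omega⟩⟩
  have hL : Lag (plusQ d F) := lag_plusQ d
  by_cases hrp : r = p
  · subst hrp
    constructor
    · intro H0
      exact (unip_elliptic_false hd hme H0).elim
    · rintro (⟨h1, h2, -⟩ | ⟨h1, -⟩ | ⟨h1, -⟩)
      · exact absurd h1 h2
      · exact absurd rfl h1
      · exact absurd rfl h1
  by_cases hr2 : r = 2
  · subst hr2
    have hp2 : p ≠ 2 := fun h => hrp h.symm
    refine (two_elliptic_iff hq hp2 hd hm hme hmd).trans ?_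
    constructor
    · intro h
      exact Or.inl ⟨rfl, hp2, h⟩
    · rintro (⟨-, -, h⟩ | ⟨-, h, -⟩ | ⟨-, h, -⟩)
      · exact h
      · omega
      · omega
  have hr3 : 2 < r := by
    have := hr.two_le
    omega
  have hcount : r ∣ Nat.card {W : Submodule F (Fin d ⊕ Fin d → F) // Module.finrank F ↥W = m ∧ Cfsg.Geo.IsNondegenerateOn (QuadraticMap.polar ⇑(plusQ d F)) W ∧ (Cfsg.Geo.IsPlusTypeOn ⇑(plusQ d F) W ↔ False)} := by
    have h1 : Nat.card {W : Submodule F (Fin d ⊕ Fin d → F) // Module.finrank F ↥W = m ∧ Cfsg.Geo.IsNondegenerateOn (QuadraticMap.polar ⇑(plusQ d F)) W ∧ (Cfsg.Geo.IsPlusTypeOn ⇑(plusQ d F) W ↔ False)} =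
        Nat.card {W : Submodule F (Fin d ⊕ Fin d → F) // Module.finrank F ↥W = m ∧ Cfsg.Geo.IsNondegenerateOn (QuadraticMap.polar (Cfsg.quadFormPlus d F)) W ∧ ¬ Cfsg.Geo.IsPlusTypeOn (Cfsg.quadFormPlus d F) W} := by
      apply Nat.card_congr
      apply Equiv.subtypeEquivRight
      intro W
      rw [iff_false]
      rfl
    rw [h1]
    exact hrΩ
  obtain ⟨t, D, ⟨H⟩, ht, ht0, hi0⟩ := Cfsg.Agent.Lib.Classical.OSemi.OddForm.exists_setup hq hr2 hrp hi
  have hcpos := Cfsg.Agent.Lib.Classical.OSemi.Clause.c_pos hi0 hc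
  have hdn := Nat.div_add_mod (2 * d) c
  have hdm := Nat.div_add_mod m c
  constructor
  · intro H0
    obtain ⟨hcm, hCrit⟩ := even_forward hq hr2 hrp hi hQ hcard hc4 hc hme hm (by omega) False hcount (fun x hx h1 h3 => by
      obtain ⟨W, ⟨h4, h5, h6⟩, h7⟩ := H0 x hx h1 h3
      exact ⟨W, ⟨h4, h5, iff_false_intro h6⟩, h7⟩)
    right
    rcases Nat.even_or_odd i with hev | hodd
    · right
      have hci : c = i := by rw [hc, if_pos hev]
      subst hci
      simp only [hev, not_true_eq_false, false_or, hL, true_iff, false_iff] at hCrit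
      refine ⟨hrp, hr3, hev, ?_⟩
      by_cases hgood : 0 < (2 * d) % c ∨ Even ((2 * d) / c)
      · obtain ⟨h1, h3⟩ := hCrit hgood
        rcases Nat.eq_zero_or_pos (m % c) with hl0 | hlpos
        · have h4 := Nat.not_even_iff_odd.1 (h3 hl0)
          rcases Nat.eq_zero_or_pos ((2 * d) % c) with hk0 | hkpos
          · exact Or.inl ⟨hk0, Or.inr ⟨hl0, h4⟩⟩
          · exact Or.inr ⟨hcm, Or.inr (Or.inr ⟨hl0, hkpos, h4⟩)⟩
        · rcases h1 hlpos with h4 | ⟨h4, h5⟩
          · exact Or.inr ⟨hcm, Or.inl ⟨hlpos, h4⟩⟩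
          · refine Or.inr ⟨hcm, Or.inr (Or.inl ⟨hlpos, h4, ?_⟩)⟩
            have h6 : 2 * d + m - 2 * ((2 * d) % c) = c * ((2 * d) / c + m / c) := by
              rw [Nat.mul_add c ((2 * d) / c) (m / c)]
              omega
            rw [h6, Nat.mul_div_cancel_left _ hcpos, ← Nat.not_even_iff_odd, Nat.even_add]
            exact h5
      · obtain ⟨h1, h3⟩ := not_or.1 hgood
        exact Or.inl ⟨by omega, Or.inl (Nat.not_even_iff_odd.1 h3)⟩
    · left
      have hnev : ¬ Even i := Nat.not_even_iff_odd.2 hodd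
      simp only [hnev, not_false_eq_true, true_or, iff_true, hL, iff_self, true_iff, false_iff, not_true_eq_false, and_false, or_false] at hCrit
      obtain ⟨h1, h3⟩ := hCrit (Or.inr trivial)
      refine ⟨hrp, hr3, hodd, hcm, ?_⟩
      have h4 : 0 < m % c := by
        by_contra h0
        exact h3 (by omega)
      exact ⟨h4, h1 h4⟩
  · intro hR
    have hb := even_backward hq hr2 hrp hi hQ hcard hc hme hm (by omega) False (by
      rcases hR with ⟨h1, -⟩ | ⟨-, -, hodd, hcm, h1, h3⟩ | ⟨-, -, hev, hR⟩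
      · omega
      · have hnev : ¬ Even i := Nat.not_even_iff_odd.2 hodd
        intro _
        exact ⟨fun _ => Or.inl h3, fun h0 => by omega⟩
      · have hci : c = i := by rw [hc, if_pos hev]
        subst hci
        simp only [hev, not_true_eq_false, false_or, hL, true_iff, false_iff]
        intro hgood
        rcases hR with ⟨hk0, h1⟩ | ⟨hcm, h1⟩
        · rcases hgood with h3 | h3
          · omega
          · rcases h1 with h1 | ⟨h4, h5⟩
            · exact absurd h3 (Nat.not_even_iff_odd.2 h1)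
            · exact ⟨fun h0 => by omega, fun _ => Nat.not_even_iff_odd.2 h5⟩
        · rcases h1 with ⟨h3, h4⟩ | ⟨h3, h4, h5⟩ | ⟨h3, h4, h5⟩
          · exact ⟨fun _ => Or.inl h4, fun h0 => by omega⟩
          · refine ⟨fun _ => Or.inr ⟨h4, ?_⟩, fun h0 => by omega⟩
            have h6 : 2 * d + m - 2 * ((2 * d) % c) = c * ((2 * d) / c + m / c) := by
              rw [Nat.mul_add c ((2 * d) / c) (m / c)]
              omega
            rw [h6, Nat.mul_div_cancel_left _ hcpos, ← Nat.not_even_iff_odd, Nat.even_add] at h5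
            exact h5
          · exact ⟨fun h0 => by omega, fun _ => Nat.not_even_iff_odd.2 h5⟩)
    intro x hx h1 h3
    obtain ⟨W, ⟨h4, h5, h6⟩, h7⟩ := hb x hx h1 h3
    exact ⟨W, ⟨h4, h5, h6.1⟩, h7⟩

end Cfsg.Agent.S5988
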