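import Cfsg.Statements.S5989
import Cfsg.Agent.Lib.Classical.OSemi.NondegK

set_option autoImplicit false
open scoped MatrixGroups
open Cfsg

namespace Cfsg.Agent.S5989

/-- Elements of prime order of PΩ⁺_n(q), q odd, with no fixed nondegenerate `m`-space of odd dimension. Here `T = PΩ⁺_n(F)`, `n = 2d ≥ 8`, realised through `Ω⁺_n(q)`, the commutator subgroup of the isometry group of `Q = Σ xᵢyᵢ` over the field `F` with `q` elements; an element of `T` of prime order `r` is an element `x` of `Ω⁺_n(q)` with `x^r` scalar and `x` not scalar; `q` and `m` are odd, `1 ≤ m < n/2`. The nondegenerate `m`-spaces (subspaces on which the polar form is nondegenerate) fall into two isometry classes, each an orbit of `T`, and the two actions are equivalent; fix one such space `W₀` and let Ω be the set of nondegenerate `m`-spaces isometric to `W₀` (some linear isomorphism preserves `Q`). Let `r` be a prime dividing the size of Ω; for `r ≠ p` let `i` be the multiplicative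 order of `q` modulo `r`, `c = i` for `i` even and `c = 2i` for `i` odd, and write `k = n mod c`, `ℓ = m mod i`, `ℓ' = m mod c`, `n' = ⌊n/i⌋`, `m' = ⌊m/i⌋`, `t = (r−1)/i`. Then every element of `T` of order `r` fixes a member of Ω if and only if one of: (i) `r = 2`, `n ≡ 2 (mod 4)` and `q ≢ 1 (mod 8)`; (ii) `r ≠ p` odd, `i` odd, `c ≤ m` and `k > ℓ' > 0`; (iii) `r ≠ p` odd, `i` even, and either `k = 0` and `n/i` odd, or `i ≤ m` and `k > ℓ' > 0`. (For `r = p` there is always an element of order `p` fixing no member of Ω.) -/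
theorem result {F : Type*} [Field F] [Fintype F] {p : ℕ} [Fact p.Prime] [CharP F p] {q : ℕ} (hq : Fintype.card F = q)
    (hodd : Odd q) (d m : ℕ) (hd : 4 ≤ d) (hm : Odd m) (hmd : m < d)
    (W₀ : Submodule F (Fin d ⊕ Fin d → F)) (hW₀ : Module.finrank F ↥W₀ = m ∧ Cfsg.Geo.IsNondegenerateOn (QuadraticMap.polar (Cfsg.quadFormPlus d F)) W₀)
    (r : ℕ) [Fact r.Prime]
    (hrΩ : r ∣ Nat.card {W : Submodule F (Fin d ⊕ Fin d → F) // Module.finrank F ↥W = m ∧ Cfsg.Geo.IsNondegenerateOn (QuadraticMap.polar (Cfsg.quadFormPlus d F)) W ∧ Cfsg.Geo.AreIsometricFor (Cfsg.quadFormPlus d F) W W₀})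
    (i c : ℕ) (hi : i = orderOf (q : ZMod r)) (hc : c = if Even i then i else 2 * i) :
    (∀ x : GL (Fin d ⊕ Fin d) F, x ∈ Cfsg.Geo.omegaGL (Cfsg.quadFormPlus d F) →
      (∃ z : F, ((x ^ r : GL (Fin d ⊕ Fin d) F) : Matrix (Fin d ⊕ Fin d) (Fin d ⊕ Fin d) F) = z • (1 : Matrix (Fin d ⊕ Fin d) (Fin d ⊕ Fin d) F)) →
      (∀ z : F, (x : Matrix (Fin d ⊕ Fin d) (Fin d ⊕ Fin d) F) ≠ z • (1 : Matrix (Fin d ⊕ Fin d) (Fin d ⊕ Fin d) F)) →
      ∃ W : Submodule F (Fin d ⊕ Fin d → F), (Module.finrank F ↥W = m ∧ Cfsg.Geo.IsNondegenerateOn (QuadraticMap.polar (Cfsg.quadFormPlus d F)) W ∧ Cfsg.Geo.AreIsometricFor (Cfsg.quadFormPlus d F) W W₀) ∧ W.map (Matrix.toLin' (x : Matrix (Fin d ⊕ Fin d) (Fin d ⊕ Fin d) F)) ≤ W) ↔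
    ((r = 2 ∧ Odd d ∧ q % 8 ≠ 1) ∨
     (r ≠ p ∧ 2 < r ∧ Odd i ∧ c ≤ m ∧ 0 < m % c ∧ m % c < (2 * d) % c) ∨
     (r ≠ p ∧ 2 < r ∧ Even i ∧ (((2 * d) % c = 0 ∧ Odd ((2 * d) / i)) ∨ (i ≤ m ∧ 0 < m % c ∧ m % c < (2 * d) % c)))) := by
  classical
  open Cfsg.Agent.Lib.Linalg.OrthModels Cfsg.Agent.Lib.Classical.OSemi.Lag Cfsg.Agent.Lib.Classical.OSemi.NondegG
    Cfsg.Agent.Lib.Classical.OSemi.NondegJ Cfsg.Agent.Lib.Classical.OSemi.NondegP Cfsg.Agent.Lib.Classical.OSemi.NondegK
    Cfsg.Agent.Lib.Classical.Witt.Hyp Cfsg.Agent.Lib.Classical.OJordan.Final Cfsg.Agent.Lib.Classical.OSemi.Clause in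
  obtain ⟨h2F, hpo, hp1⟩ := char_facts (p := p) hq hodd
  have hr : r.Prime := Fact.out
  have hQ := polarNondeg_plusQ (F := F) d
  have hcard : Fintype.card (Fin d ⊕ Fin d) = 2 * d := by
    simp [Fintype.card_sum]
    ring
  have hc4 : Fintype.card (Fin d ⊕ Fin d) ≠ 4 := by omega
  haveI hne : Nonempty (Fin d ⊕ Fin d) := ⟨Sum.inl ⟨0, by omega⟩⟩
  have hL : Lag (plusQ d F) := lag_plusQ d
  have hp2 : p ≠ 2 := fun h => by
    subst h
    exact absurd hpo (by decide)
  have hmo : ¬ Even m := Nat.not_even_iff_odd.2 hm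
  obtain ⟨hW₀d, hW₀n⟩ := hW₀
  by_cases hrp : r = p
  · subst hrp
    constructor
    · intro H0
      rcases Nat.even_or_odd d with hdev | hdo
      · exact (unip_odd_false hd hdev hmo _ H0).elim
      · exact (odd_dim_false hQ h2F hpo hp1 hcard hd hdo hm _ (reduce_p _ H0)).elim
    · rintro (⟨h1, -⟩ | ⟨h1, -⟩ | ⟨h1, -⟩)
      · exact absurd h1 hp2
      · exact absurd rfl h1
      · exact absurd rfl h1
  by_cases hr2 : r = 2
  · subst hr2
    constructor
    · intro H0
      refine Or.inl ⟨rfl, ?_⟩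
      by_contra hcon
      obtain ⟨g, hg, hJ⟩ := exists_J_omega_plus (p := p) hq hp2 hd hcon
      exact two_odd_forward h2F hQ hmo _ H0 g hg hJ
    · rintro (⟨-, hR⟩ | ⟨-, h, -⟩ | ⟨-, h, -⟩)
      · exact two_odd_back h2F hQ hcard hmd W₀ hW₀d hW₀n (fun g hg hJ => no_J_plus (p := p) hq hp2 hd hR g hg hJ)
      · omega
      · omega
  have hr3 : 2 < r := by
    have := hr.two_le
    omega
  obtain ⟨t, D, ⟨H⟩, ht, ht0, hi0⟩ := Cfsg.Agent.Lib.Classical.OSemi.OddForm.exists_setup hq hr2 hrp hi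
  have hcpos := c_pos hi0 hc
  have hlpos : 0 < m % c := mod_pos_of_even hm (c_even hc)
  constructor
  · intro H0
    obtain ⟨h1, h3⟩ := odd_forward hq hr2 hrp hi hQ (by omega) hcard hc4 hc hmo W₀ hW₀d hW₀n hrΩ H0
    right
    rcases Nat.even_or_odd i with hev | hodd'
    · right
      have hci : c = i := by rw [hc, if_pos hev]
      have hi1 : i ≠ 1 := by
        rintro rfl
        exact absurd hev (by decide)
      have hcm := h1 hi1
      subst hci
      refine ⟨hrp, hr3, hev, ?_⟩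
      simp only [hev, not_true_eq_false, false_or, hL, true_iff] at h3
      by_cases hgood : 0 < (2 * d) % c ∨ Even ((2 * d) / c)
      · exact Or.inr ⟨hcm, hlpos, h3 (by omega) hgood⟩
      · obtain ⟨h4, h5⟩ := not_or.1 hgood
        exact Or.inl ⟨by omega, Nat.not_even_iff_odd.1 h5⟩
    · left
      have hnev : ¬ Even i := Nat.not_even_iff_odd.2 hodd'
      have hci : c = 2 * i := by rw [hc, if_neg hnev]
      by_cases hi1 : i = 1
      · exfalso
        have h4 : c = 2 := by rw [hci, hi1]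
        have h5 := h3 (by omega) (Or.inr (iff_of_true hL (Or.inl hnev)))
        rw [h4] at h5
        omega
      · have hcm := h1 hi1
        exact ⟨hrp, hr3, hodd', hcm, hlpos, h3 (by omega) (Or.inr (iff_of_true hL (Or.inl hnev)))⟩
  · intro hR
    refine odd_backward hq hr2 hrp hi h2F hQ hcard hc hmo (by omega) W₀ hW₀d hW₀n (fun hgood => ?_)
    rcases hR with ⟨h1, -⟩ | ⟨-, -, -, -, -, h1⟩ | ⟨-, -, hev, hR⟩
    · omega
    · exact h1
    · have hci : c = i := by rw [hc, if_pos hev]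
      subst hci
      rcases hR with ⟨h1, h3⟩ | ⟨-, -, h3⟩
      · rcases hgood with h4 | h4
        · omega
        · simp only [hev, not_true_eq_false, false_or, hL, true_iff] at h4
          exact absurd h4 (Nat.not_even_iff_odd.2 h3)
      · exact h3

end Cfsg.Agent.S5989
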