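import Cfsg.Statements.S5990
import Cfsg.Agent.Lib.Classical.OSemi.NondegD

set_option autoImplicit false
open scoped MatrixGroups
open Cfsg

namespace Cfsg.Agent.S5990

/-- Elements of prime order of PΩ⁻_n(q) with no fixed elliptic `m`-space. Here `T = PΩ⁻_n(F)`, `n = 2d ≥ 8`, realised through `Ω⁻_n(q)`, the commutator subgroup of the isometry group of `Q = Σ_{i<d−1} xᵢyᵢ + z₁² + a z₁z₂ + b z₂²` with `z₁² + a z₁z₂ + b z₂²` anisotropic, over the field `F` with `q` elements; an element of `T` of prime order `r` is an element `x` of `Ω⁻_n(q)` with `x^r` scalar and `x` not scalar; a nondegenerate `m`-space (even `m`) is a subspace on which the polar form of `Q` is nondegenerate; it is hyperbolic if it contains an `m/2`-dimensional subspace on which `Q` vanishes, elliptic otherwise. Let `m` be even with `2 ≤ m ≤ n − 2` (no restriction `m < n/2`: fixing an elliptic `m`-space is the same as fixing its hyperbolic orthogonal complement)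 and let `r` be a prime dividing the number of elliptic `m`-spaces, with `r = 2` or `r ≠ p`; for `r ≠ p` let `i` be the multiplicative order of `q` modulo `r`, `c = i` for `i` even and `c = 2i` for `i` odd, and write `k = n mod c`, `ℓ = m mod i`, `ℓ' = m mod c`, `n' = ⌊n/i⌋`, `m' = ⌊m/i⌋`, `t = (r−1)/i`. Then every element of `T` of order `r` fixes some elliptic `m`-space if and only if one of: (i) `r = p = 2` and (`n ≡ 0 (mod 4)` or `m ≡ 2 (mod 4)`); (ii) `r = 2 ≠ p` and (`n ≡ 0 (mod 4)`, or `q ≢ 7 (mod 8)`, or `m ≡ 2 (mod 4)`); (iii) `r ≠ p` odd, `i` odd, and `k = 0` or (`c ≤ m` and `k ≥ ℓ' > 0`); (iv) `r ≠ p` odd, `i` even, and either `k = 0` and (`n/i` even, or `ℓ' = 0` and `m/i` odd), or `k > 0`, `i ≤ m` and (`k > ℓ' > 0`, or `ℓ' = 0` and `m/i` odd, or `k = ℓ'` and `(n + m − 2k)/i` even). (Odd `r = p` is not covered by this statement.) -/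
theorem result {F : Type*} [Field F] [Fintype F] {p : ℕ} [Fact p.Prime] [CharP F p] {q : ℕ} (hq : Fintype.card F = q)
    (d m : ℕ) (hd : 4 ≤ d) (hm : 2 ≤ m) (hme : Even m) (hmn : m + 2 ≤ 2 * d) (a b : F) (hab : ∀ x y : F, x ^ 2 + a * x * y + b * y ^ 2 = 0 → x = 0 ∧ y = 0)
    (r : ℕ) [Fact r.Prime] (hr : r = 2 ∨ r ≠ p)
    (hrΩ : r ∣ Nat.card {W : Submodule F ((Fin (d - 1) ⊕ Fin (d - 1)) ⊕ Fin 2 → F) // Module.finrank F ↥W = m ∧ Cfsg.Geo.IsNondegenerateOn (QuadraticMap.polar (Cfsg.quadFormMinus (d - 1) F a b)) W ∧ ¬ Cfsg.Geo.IsPlusTypeOn (Cfsg.quadFormMinus (d - 1) F a b) W})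
    (i c : ℕ) (hi : i = orderOf (q : ZMod r)) (hc : c = if Even i then i else 2 * i) :
    (∀ x : GL ((Fin (d - 1) ⊕ Fin (d - 1)) ⊕ Fin 2) F, x ∈ Cfsg.Geo.omegaGL (Cfsg.quadFormMinus (d - 1) F a b) →
      (∃ z : F, ((x ^ r : GL ((Fin (d - 1) ⊕ Fin (d - 1)) ⊕ Fin 2) F) : Matrix ((Fin (d - 1) ⊕ Fin (d - 1)) ⊕ Fin 2) ((Fin (d - 1) ⊕ Fin (d - 1)) ⊕ Fin 2) F) = z • (1 : Matrix ((Fin (d - 1) ⊕ Fin (d - 1)) ⊕ Fin 2) ((Fin (d - 1) ⊕ Fin (d - 1)) ⊕ Fin 2) F)) →
      (∀ z : F, (x : Matrix ((Fin (d - 1) ⊕ Fin (d - 1)) ⊕ Fin 2) ((Fin (d - 1) ⊕ Fin (d - 1)) ⊕ Fin 2) F) ≠ z • (1 : Matrix ((Fin (d - 1) ⊕ Fin (d - 1)) ⊕ Fin 2) ((Fin (d - 1) ⊕ Fin (d - 1)) ⊕ Fin 2) F)) →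
      ∃ W : Submodule F ((Fin (d - 1) ⊕ Fin (d - 1)) ⊕ Fin 2 → F), (Module.finrank F ↥W = m ∧ Cfsg.Geo.IsNondegenerateOn (QuadraticMap.polar (Cfsg.quadFormMinus (d - 1) F a b)) W ∧ ¬ Cfsg.Geo.IsPlusTypeOn (Cfsg.quadFormMinus (d - 1) F a b) W) ∧ W.map (Matrix.toLin' (x : Matrix ((Fin (d - 1) ⊕ Fin (d - 1)) ⊕ Fin 2) ((Fin (d - 1) ⊕ Fin (d - 1)) ⊕ Fin 2) F)) ≤ W) ↔
    ((r = 2 ∧ p = 2 ∧ (Even d ∨ m % 4 = 2)) ∨
     (r = 2 ∧ p ≠ 2 ∧ (Even d ∨ q % 8 ≠ 7 ∨ m % 4 = 2)) ∨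
     (r ≠ p ∧ 2 < r ∧ Odd i ∧ ((2 * d) % c = 0 ∨ (c ≤ m ∧ 0 < m % c ∧ m % c ≤ (2 * d) % c))) ∨
     (r ≠ p ∧ 2 < r ∧ Even i ∧
       (((2 * d) % c = 0 ∧ (Even ((2 * d) / i) ∨ (m % c = 0 ∧ Odd (m / i)))) ∨
        (0 < (2 * d) % c ∧ i ≤ m ∧ ((0 < m % c ∧ m % c < (2 * d) % c) ∨ (m % c = 0 ∧ Odd (m / i)) ∨
                                    (m % c = (2 * d) % c ∧ Even ((2 * d + m - 2 * ((2 * d) % c)) / i))))))) := by
  classical
  open Cfsg.Agent.Lib.Linalg.OrthModels Cfsg.Agent.Lib.Classical.OSemi.Lag Cfsg.Agent.Lib.Classical.OSemi.NondegG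
    Cfsg.Agent.Lib.Classical.OSemi.NondegR Cfsg.Agent.Lib.Classical.OSemi.NondegD Cfsg.Agent.Lib.Classical.Witt.Hyp in
  have hrpr : r.Prime := Fact.out
  have hQ := polarNondeg_minusQ (d - 1) hab
  have hcard : Fintype.card ((Fin (d - 1) ⊕ Fin (d - 1)) ⊕ Fin 2) = 2 * d := by
    simp [Fintype.card_sum]
    omega
  have hc4 : Fintype.card ((Fin (d - 1) ⊕ Fin (d - 1)) ⊕ Fin 2) ≠ 4 := by omega
  haveI hne : Nonempty ((Fin (d - 1) ⊕ Fin (d - 1)) ⊕ Fin 2) := ⟨Sum.inr 0⟩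
  have hL : ¬ Lag (minusQ (d - 1) F a b) := not_lag_minusQ (d - 1) hab
  by_cases hr2 : r = 2
  · subst hr2
    by_cases hp2 : p = 2
    · subst hp2
      refine (char2_minus_iff (F := F) hd hm hme hmn hab).trans ?_
      constructor
      · intro h
        exact Or.inl ⟨rfl, rfl, h⟩
      · rintro (⟨-, -, h⟩ | ⟨-, h, -⟩ | ⟨h, -⟩ | ⟨h, -⟩)
        · exact h
        · exact absurd rfl h
        · exact absurd rfl h
        · exact absurd rfl h
    · refine (two_minus_iff (p := p) hq hp2 hd hm hme hmn hab).trans ?_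
      constructor
      · intro h
        exact Or.inr (Or.inl ⟨rfl, hp2, h⟩)
      · rintro (⟨-, h, -⟩ | ⟨-, -, h⟩ | ⟨-, h, -⟩ | ⟨-, h, -⟩)
        · exact absurd h hp2
        · exact h
        · omega
        · omega
  have hrp : r ≠ p := by
    rcases hr with h | h
    · exact absurd h hr2
    · exact h
  have hr3 : 2 < r := by
    have := hrpr.two_le
    omega
  have hcount : r ∣ Nat.card {W : Submodule F ((Fin (d - 1) ⊕ Fin (d - 1)) ⊕ Fin 2 → F) // Module.finrank F W = m ∧ Cfsg.Geo.IsNondegenerateOn (QuadraticMap.polar ⇑(minusQ (d - 1) F a b)) W ∧ (Cfsg.Geo.IsPlusTypeOn ⇑(minusQ (d - 1) F a b) W ↔ False)} := by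
    have h1 : Nat.card {W : Submodule F ((Fin (d - 1) ⊕ Fin (d - 1)) ⊕ Fin 2 → F) // Module.finrank F W = m ∧ Cfsg.Geo.IsNondegenerateOn (QuadraticMap.polar ⇑(minusQ (d - 1) F a b)) W ∧ (Cfsg.Geo.IsPlusTypeOn ⇑(minusQ (d - 1) F a b) W ↔ False)} =
        Nat.card {W : Submodule F ((Fin (d - 1) ⊕ Fin (d - 1)) ⊕ Fin 2 → F) // Module.finrank F ↥W = m ∧ Cfsg.Geo.IsNondegenerateOn (QuadraticMap.polar (Cfsg.quadFormMinus (d - 1) F a b)) W ∧ ¬ Cfsg.Geo.IsPlusTypeOn (Cfsg.quadFormMinus (d - 1) F a b) W} := by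
      apply Nat.card_congr
      apply Equiv.subtypeEquivRight
      intro W
      rw [iff_false]
      rfl
    rw [h1]
    exact hrΩ
  obtain ⟨t, D, ⟨H⟩, ht, ht0, hi0⟩ := Cfsg.Agent.Lib.Classical.OSemi.OddForm.exists_setup hq hr2 hrp hi
  have hcpos := Cfsg.Agent.Lib.Classical.OSemi.Clause.c_pos hi0 hc
  have hdn := Nat.div_add_mod (2 * d) c
  have hdm := Nat.div_add_mod m c
  constructor
  · intro H0
    obtain ⟨hcm, hCrit⟩ := even_forward hq hr2 hrp hi hQ hcard hc4 hc hme hm (by omega) False hcount (fun x hx h1 h3 => by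
      obtain ⟨W, ⟨h4, h5, h6⟩, h7⟩ := H0 x hx h1 h3
      exact ⟨W, ⟨h4, h5, iff_false_intro h6⟩, h7⟩)
    right
    right
    rcases Nat.even_or_odd i with hev | hodd
    · right
      have hci : c = i := by rw [hc, if_pos hev]
      subst hci
      simp only [hev, not_true_eq_false, false_or, hL, false_iff, not_not] at hCrit
      refine ⟨hrp, hr3, hev, ?_⟩
      by_cases hgood : 0 < (2 * d) % c ∨ ¬ Even ((2 * d) / c)
      · obtain ⟨h1, h3⟩ := hCrit hgood
        rcases Nat.eq_zero_or_pos ((2 * d) % c) with hk0 | hkpos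
        · have hl0 : m % c = 0 := by
            by_contra h4
            rcases h1 (by omega) with h5 | ⟨h5, -⟩ <;> omega
          exact Or.inl ⟨hk0, Or.inr ⟨hl0, Nat.not_even_iff_odd.1 (h3 hl0)⟩⟩
        · refine Or.inr ⟨hkpos, hcm, ?_⟩
          rcases Nat.eq_zero_or_pos (m % c) with hl0 | hlpos
          · exact Or.inr (Or.inl ⟨hl0, Nat.not_even_iff_odd.1 (h3 hl0)⟩)
          · rcases h1 hlpos with h4 | ⟨h4, h5⟩
            · exact Or.inl ⟨hlpos, h4⟩
            · refine Or.inr (Or.inr ⟨h4, ?_⟩)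
              have h6 : 2 * d + m - 2 * ((2 * d) % c) = c * ((2 * d) / c + m / c) := by
                rw [Nat.mul_add c ((2 * d) / c) (m / c)]
                omega
              rw [h6, Nat.mul_div_cancel_left _ hcpos, Nat.even_add]
              exact h5
      · obtain ⟨h1, h3⟩ := not_or.1 hgood
        exact Or.inl ⟨by omega, Or.inl (not_not.1 h3)⟩
    · left
      have hnev : ¬ Even i := Nat.not_even_iff_odd.2 hodd
      refine ⟨hrp, hr3, hodd, ?_⟩
      rcases Nat.eq_zero_or_pos ((2 * d) % c) with hk0 | hkpos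
      · exact Or.inl hk0
      · obtain ⟨h1, h3⟩ := hCrit (Or.inl hkpos)
        have hlpos : 0 < m % c := by
          by_contra h0
          have h4 := h3 (by omega)
          simp [hnev] at h4
        refine Or.inr ⟨hcm, hlpos, ?_⟩
        rcases h1 hlpos with h4 | ⟨h4, -⟩ <;> omega
  · intro hR
    have hb := even_backward hq hr2 hrp hi hQ hcard hc hme hm (by omega) False (by
      rcases hR with ⟨h1, -⟩ | ⟨h1, -⟩ | ⟨-, -, hodd, h1⟩ | ⟨-, -, hev, hR⟩
      · omega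
      · omega
      · have hnev : ¬ Even i := Nat.not_even_iff_odd.2 hodd
        intro hgood
        have hk : 0 < (2 * d) % c := by
          rcases hgood with h3 | h3
          · exact h3
          · exact absurd (h3.2 (Or.inl hnev)) hL
        rcases h1 with h1 | ⟨hcm, h3, h4⟩
        · omega
        · refine ⟨fun _ => ?_, fun h0 => by omega⟩
          rcases Nat.lt_or_ge (m % c) ((2 * d) % c) with h5 | h5
          · exact Or.inl h5
          · refine Or.inr ⟨by omega, ?_⟩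
            simp [hnev, hL]
      · have hci : c = i := by rw [hc, if_pos hev]
        subst hci
        simp only [hev, not_true_eq_false, false_or, hL, false_iff, not_not]
        intro hgood
        rcases hR with ⟨hk0, h1⟩ | ⟨hkpos, hcm, h1⟩
        · rcases h1 with h1 | ⟨h4, h5⟩
          · rcases hgood with h3 | h3
            · omega
            · exact absurd h1 h3
          · exact ⟨fun h0 => by omega, fun _ => Nat.not_even_iff_odd.2 h5⟩
        · rcases h1 with ⟨h3, h4⟩ | ⟨h3, h4⟩ | ⟨h3, h4⟩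
          · exact ⟨fun _ => Or.inl h4, fun h0 => by omega⟩
          · exact ⟨fun h0 => by omega, fun _ => Nat.not_even_iff_odd.2 h4⟩
          · refine ⟨fun _ => Or.inr ⟨h3, ?_⟩, fun h0 => by omega⟩
            have h6 : 2 * d + m - 2 * ((2 * d) % c) = c * ((2 * d) / c + m / c) := by
              rw [Nat.mul_add c ((2 * d) / c) (m / c)]
              omega
            rw [h6, Nat.mul_div_cancel_left _ hcpos, Nat.even_add] at h4
            exact h4)
    intro x hx h1 h3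
    obtain ⟨W, ⟨h4, h5, h6⟩, h7⟩ := hb x hx h1 h3
    exact ⟨W, ⟨h4, h5, h6.1⟩, h7⟩

end Cfsg.Agent.S5990
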