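import Cfsg.Statements.S5991
import Cfsg.Agent.Lib.Classical.OSemi.NondegN

set_option autoImplicit false
open scoped MatrixGroups
open Cfsg

namespace Cfsg.Agent.S5991

/-- Elements of prime order of PΩ⁻_n(q), q odd, with no fixed nondegenerate `m`-space of odd dimension. Here `T = PΩ⁻_n(F)`, `n = 2d ≥ 8`, realised through `Ω⁻_n(q)`, the commutator subgroup of the isometry group of `Q = Σ_{i<d−1} xᵢyᵢ + z₁² + a z₁z₂ + b z₂²` with `z₁² + a z₁z₂ + b z₂²` anisotropic, over the field `F` with `q` elements; an element of `T` of prime order `r` is an element `x` of `Ω⁻_n(q)` with `x^r` scalar and `x` not scalar; `q` and `m` are odd, `1 ≤ m < n/2`. The nondegenerate `m`-spaces fall into two isometry classes, each an orbit of `T`, with equivalent actions; fix one such space `W₀` and let Ω be the set of nondegenerate `m`-spaces isometric to `W₀`. Let `r` be a prime dividing the size of Ω; for `r ≠ p` let `i` be the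 multiplicative order of `q` modulo `r`, `c = i` for `i` even and `c = 2i` for `i` odd, and write `k = n mod c`, `ℓ = m mod i`, `ℓ' = m mod c`, `n' = ⌊n/i⌋`, `m' = ⌊m/i⌋`, `t = (r−1)/i`. Then every element of `T` of order `r` fixes a member of Ω if and only if one of: (i) `r = 2` and (`n ≡ 0 (mod 4)` or `q ≢ 7 (mod 8)`); (ii) `r ≠ p` odd, `i` odd, and `k = 0` or (`c ≤ m` and `k > ℓ' > 0`); (iii) `r ≠ p` odd, `i` even, and either `k = 0` and `n/i` even, or `k > 0`, `i ≤ m` and `k > ℓ' > 0`. (For `r = p` there is always an element of order `p` fixing no member of Ω.) -/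
theorem result {F : Type*} [Field F] [Fintype F] {p : ℕ} [Fact p.Prime] [CharP F p] {q : ℕ} (hq : Fintype.card F = q)
    (hodd : Odd q) (d m : ℕ) (hd : 4 ≤ d) (hm : Odd m) (hmd : m < d) (a b : F) (hab : ∀ x y : F, x ^ 2 + a * x * y + b * y ^ 2 = 0 → x = 0 ∧ y = 0)
    (W₀ : Submodule F ((Fin (d - 1) ⊕ Fin (d - 1)) ⊕ Fin 2 → F)) (hW₀ : Module.finrank F ↥W₀ = m ∧ Cfsg.Geo.IsNondegenerateOn (QuadraticMap.polar (Cfsg.quadFormMinus (d - 1) F a b)) W₀)
    (r : ℕ) [Fact r.Prime]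
    (hrΩ : r ∣ Nat.card {W : Submodule F ((Fin (d - 1) ⊕ Fin (d - 1)) ⊕ Fin 2 → F) // Module.finrank F ↥W = m ∧ Cfsg.Geo.IsNondegenerateOn (QuadraticMap.polar (Cfsg.quadFormMinus (d - 1) F a b)) W ∧ Cfsg.Geo.AreIsometricFor (Cfsg.quadFormMinus (d - 1) F a b) W W₀})
    (i c : ℕ) (hi : i = orderOf (q : ZMod r)) (hc : c = if Even i then i else 2 * i) :
    (∀ x : GL ((Fin (d - 1) ⊕ Fin (d - 1)) ⊕ Fin 2) F, x ∈ Cfsg.Geo.omegaGL (Cfsg.quadFormMinus (d - 1) F a b) →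
      (∃ z : F, ((x ^ r : GL ((Fin (d - 1) ⊕ Fin (d - 1)) ⊕ Fin 2) F) : Matrix ((Fin (d - 1) ⊕ Fin (d - 1)) ⊕ Fin 2) ((Fin (d - 1) ⊕ Fin (d - 1)) ⊕ Fin 2) F) = z • (1 : Matrix ((Fin (d - 1) ⊕ Fin (d - 1)) ⊕ Fin 2) ((Fin (d - 1) ⊕ Fin (d - 1)) ⊕ Fin 2) F)) →
      (∀ z : F, (x : Matrix ((Fin (d - 1) ⊕ Fin (d - 1)) ⊕ Fin 2) ((Fin (d - 1) ⊕ Fin (d - 1)) ⊕ Fin 2) F) ≠ z • (1 : Matrix ((Fin (d - 1) ⊕ Fin (d - 1)) ⊕ Fin 2) ((Fin (d - 1) ⊕ Fin (d - 1)) ⊕ Fin 2) F)) →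
      ∃ W : Submodule F ((Fin (d - 1) ⊕ Fin (d - 1)) ⊕ Fin 2 → F), (Module.finrank F ↥W = m ∧ Cfsg.Geo.IsNondegenerateOn (QuadraticMap.polar (Cfsg.quadFormMinus (d - 1) F a b)) W ∧ Cfsg.Geo.AreIsometricFor (Cfsg.quadFormMinus (d - 1) F a b) W W₀) ∧ W.map (Matrix.toLin' (x : Matrix ((Fin (d - 1) ⊕ Fin (d - 1)) ⊕ Fin 2) ((Fin (d - 1) ⊕ Fin (d - 1)) ⊕ Fin 2) F)) ≤ W) ↔
    ((r = 2 ∧ (Even d ∨ q % 8 ≠ 7)) ∨
     (r ≠ p ∧ 2 < r ∧ Odd i ∧ ((2 * d) % c = 0 ∨ (c ≤ m ∧ 0 < m % c ∧ m % c < (2 * d) % c))) ∨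
     (r ≠ p ∧ 2 < r ∧ Even i ∧ (((2 * d) % c = 0 ∧ Even ((2 * d) / i)) ∨ (0 < (2 * d) % c ∧ i ≤ m ∧ 0 < m % c ∧ m % c < (2 * d) % c)))) := by
  classical
  open Cfsg.Agent.Lib.Linalg.OrthModels Cfsg.Agent.Lib.Classical.OSemi.Lag Cfsg.Agent.Lib.Classical.OSemi.NondegG
    Cfsg.Agent.Lib.Classical.OSemi.NondegJ Cfsg.Agent.Lib.Classical.OSemi.NondegP Cfsg.Agent.Lib.Classical.OSemi.NondegK
    Cfsg.Agent.Lib.Classical.OSemi.NondegN
    Cfsg.Agent.Lib.Classical.Witt.Hyp Cfsg.Agent.Lib.Classical.OJordan.Final Cfsg.Agent.Lib.Classical.OSemi.Clause in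
  obtain ⟨h2F, hpo, hp1⟩ := char_facts (p := p) hq hodd
  have hr : r.Prime := Fact.out
  have hQ := polarNondeg_minusQ (F := F) (d - 1) hab
  have hcard : Fintype.card ((Fin (d - 1) ⊕ Fin (d - 1)) ⊕ Fin 2) = 2 * d := by
    simp [Fintype.card_sum]
    omega
  have hc4 : Fintype.card ((Fin (d - 1) ⊕ Fin (d - 1)) ⊕ Fin 2) ≠ 4 := by omega
  haveI hne : Nonempty ((Fin (d - 1) ⊕ Fin (d - 1)) ⊕ Fin 2) := ⟨Sum.inr 0⟩
  have hL : ¬ Lag (minusQ (d - 1) F a b) := not_lag_minusQ (d - 1) hab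
  have hp2 : p ≠ 2 := fun h => by
    subst h
    exact absurd hpo (by decide)
  have hmo : ¬ Even m := Nat.not_even_iff_odd.2 hm
  obtain ⟨hW₀d, hW₀n⟩ := hW₀
  by_cases hrp : r = p
  · subst hrp
    constructor
    · intro H0
      rcases Nat.even_or_odd d with hdev | hdo
      · exact (odd_even_d_false hQ h2F hpo hp1 hcard hd hdev hL hm W₀ hW₀d hW₀n (reduce_p _ H0)).elim
      · exact (odd_dim_false hQ h2F hpo hp1 hcard hd hdo hm _ (reduce_p _ H0)).elim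
    · rintro (⟨h1, -⟩ | ⟨h1, -⟩ | ⟨h1, -⟩)
      · exact absurd h1 hp2
      · exact absurd rfl h1
      · exact absurd rfl h1
  by_cases hr2 : r = 2
  · subst hr2
    constructor
    · intro H0
      refine Or.inl ⟨rfl, ?_⟩
      by_contra hcon
      obtain ⟨h3, h4⟩ := not_or.1 hcon
      obtain ⟨g, hg, hJ⟩ := exists_J_omega_minus (p := p) hq hp2 hQ hcard hd hL ⟨Nat.not_even_iff_odd.1 h3, not_not.1 h4⟩
      exact two_odd_forward h2F hQ hmo _ H0 g hg hJ
    · rintro (⟨-, hR⟩ | ⟨-, h, -⟩ | ⟨-, h, -⟩)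
      · exact two_odd_back h2F hQ hcard hmd W₀ hW₀d hW₀n (fun g hg hJ => no_J_minus (p := p) hq hp2 hQ hcard hL hR g hg hJ)
      · omega
      · omega
  have hr3 : 2 < r := by
    have := hr.two_le
    omega
  obtain ⟨t, D, ⟨H⟩, ht, ht0, hi0⟩ := Cfsg.Agent.Lib.Classical.OSemi.OddForm.exists_setup hq hr2 hrp hi
  have hcpos := c_pos hi0 hc
  have hlpos : 0 < m % c := mod_pos_of_even hm (c_even hc)
  constructor
  · intro H0
    obtain ⟨h1, h3⟩ := odd_forward hq hr2 hrp hi hQ (by omega) hcard hc4 hc hmo W₀ hW₀d hW₀n hrΩ H0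
    right
    rcases Nat.even_or_odd i with hev | hodd'
    · right
      have hci : c = i := by rw [hc, if_pos hev]
      have hi1 : i ≠ 1 := by
        rintro rfl
        exact absurd hev (by decide)
      have hcm := h1 hi1
      subst hci
      refine ⟨hrp, hr3, hev, ?_⟩
      rcases Nat.eq_zero_or_pos ((2 * d) % c) with hk0 | hkpos
      · left
        refine ⟨hk0, ?_⟩
        by_contra hcon
        have h4 := h3 (by omega) (Or.inr (iff_of_false hL (by simpa [hev] using hcon)))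
        omega
      · right
        exact ⟨hkpos, hcm, hlpos, h3 (by omega) (Or.inl hkpos)⟩
    · left
      have hnev : ¬ Even i := Nat.not_even_iff_odd.2 hodd'
      have hci : c = 2 * i := by rw [hc, if_neg hnev]
      refine ⟨hrp, hr3, hodd', ?_⟩
      rcases Nat.eq_zero_or_pos ((2 * d) % c) with hk0 | hkpos
      · exact Or.inl hk0
      · right
        have hi1 : i ≠ 1 := by
          rintro rfl
          have h4 : c = 2 := by rw [hci]
          rw [h4] at hkpos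
          omega
        have hcm := h1 hi1
        exact ⟨hcm, hlpos, h3 (by omega) (Or.inl hkpos)⟩
  · intro hR
    refine odd_backward hq hr2 hrp hi h2F hQ hcard hc hmo (by omega) W₀ hW₀d hW₀n (fun hgood => ?_)
    rcases hR with ⟨h1, -⟩ | ⟨-, -, hodd', h1⟩ | ⟨-, -, hev, hR⟩
    · omega
    · have hnev : ¬ Even i := Nat.not_even_iff_odd.2 hodd'
      rcases h1 with h1 | ⟨-, -, h1⟩
      · rcases hgood with h3 | h3
        · omega
        · exact absurd (h3.2 (Or.inl hnev)) hL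
      · exact h1
    · have hci : c = i := by rw [hc, if_pos hev]
      subst hci
      rcases hR with ⟨h1, h3⟩ | ⟨-, -, -, h3⟩
      · rcases hgood with h4 | h4
        · omega
        · exact absurd (h4.2 (Or.inr h3)) hL
      · exact h3

end Cfsg.Agent.S5991
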