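import Cfsg.Statements.S5992
import Cfsg.Agent.Lib.Classical.OSemi.Clause

set_option autoImplicit false
open scoped MatrixGroups
open Cfsg

namespace Cfsg.Agent.S5992

/-- Elements of prime order r ≠ p of Ω_n(q), nq odd, with no fixed hyperbolic `m`-space. Here `T = Ω_n(F)`, `n = 2d+1 ≥ 7`, `q` odd, realised as the commutator subgroup of the isometry group of `Q = x₀² + Σ xᵢyᵢ` over the field `F` with `q` elements (trivial centre, so its elements of prime order `r` are used directly); a nondegenerate `m`-space (even `m`) is a subspace on which the polar form of `Q` is nondegenerate; it is hyperbolic if it contains an `m/2`-dimensional subspace on which `Q` vanishes, elliptic otherwise. Let `m` be even with `2 ≤ m ≤ n − 1` (no restriction `m < n/2`) and let `r ≠ p` be a prime dividing the number of hyperbolic `m`-spaces; for `r ≠ p` let `i` be the multiplicative order of `q` modulo `r`, `c = i` for `i` even and `c = 2i` for `i` odd, and write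 `k = n mod c`, `ℓ' = m mod c`. Then every element of `T` of order `r` fixes some hyperbolic `m`-space if and only if `r = 2`, or `r` is odd and one of: (i) `i` odd, `c ≤ m` and either `k > ℓ' > 0` or `ℓ' = 0`; (ii) `i` even, `i ≤ m`, `k > ℓ'`, and `m/i` even whenever `ℓ' = 0`. (`r = p` is not covered by this statement.) -/
theorem result {F : Type*} [Field F] [Fintype F] {p : ℕ} [Fact p.Prime] [CharP F p] {q : ℕ} (hq : Fintype.card F = q) (hqodd : Odd q)
    (d m : ℕ) (hd : 3 ≤ d) (hm : 2 ≤ m) (hme : Even m) (hmn : m ≤ 2 * d)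
    (r : ℕ) [Fact r.Prime] (hrp : r ≠ p)
    (hrΩ : r ∣ Nat.card {W : Submodule F (Unit ⊕ (Fin d ⊕ Fin d) → F) // Module.finrank F ↥W = m ∧ Cfsg.Geo.IsNondegenerateOn (QuadraticMap.polar (Cfsg.quadFormOdd d F)) W ∧ Cfsg.Geo.IsPlusTypeOn (Cfsg.quadFormOdd d F) W})
    (i c : ℕ) (hi : i = orderOf (q : ZMod r)) (hc : c = if Even i then i else 2 * i) :
    (∀ x : GL (Unit ⊕ (Fin d ⊕ Fin d)) F, x ∈ Cfsg.Geo.omegaGL (Cfsg.quadFormOdd d F) → orderOf x = r →
      ∃ W : Submodule F (Unit ⊕ (Fin d ⊕ Fin d) → F), (Module.finrank F ↥W = m ∧ Cfsg.Geo.IsNondegenerateOn (QuadraticMap.polar (Cfsg.quadFormOdd d F)) W ∧ Cfsg.Geo.IsPlusTypeOn (Cfsg.quadFormOdd d F) W) ∧ W.map (Matrix.toLin' (x : Matrix (Unit ⊕ (Fin d ⊕ Fin d)) (Unit ⊕ (Fin d ⊕ Fin d)) F)) ≤ W) ↔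
    (r = 2 ∨
     (2 < r ∧ Odd i ∧ c ≤ m ∧ (m % c = 0 ∨ (0 < m % c ∧ m % c < (2 * d + 1) % c))) ∨
     (2 < r ∧ Even i ∧ i ≤ m ∧ m % c < (2 * d + 1) % c ∧ (0 < m % c ∨ Even (m / i)))) := by
  classical
  open Cfsg.Agent.Lib.Classical.OSemi.Clause Cfsg.Agent.Lib.Linalg.OrthModels Cfsg.Agent.Lib.Classical.OSemi.Invol
    Cfsg.Agent.Lib.Classical.OJordan.Final in
  obtain ⟨h2F, hpo, hp1⟩ := char_facts (p := p) hq hqodd
  have hr : r.Prime := Fact.out
  by_cases hr2 : r = 2
  · subst hr2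
    simp only [true_or, iff_true]
    rintro x ⟨g, hg, rfl⟩ hx
    have hgo : orderOf g = 2 := by
      rw [← hx]
      exact (Subgroup.orderOf_coe g).symm
    obtain ⟨W, ⟨h1, h3, h4⟩, h5⟩ := invol_nondeg h2F (oddQ d F) (polarNondeg_oddQ d h2F) g (by rw [← hgo]; exact pow_orderOf_eq_one g)
      (by rw [Cfsg.Agent.Lib.Classical.OSemi.OddForm.card_odd_index]; omega) hm hme (by rw [Cfsg.Agent.Lib.Classical.OSemi.OddForm.card_odd_index]; omega) True
    refine ⟨W, ⟨h1, h3, h4.2 trivial⟩, ?_⟩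
    rintro _ ⟨w, hw, rfl⟩
    exact h5 w hw
  have hr3 : 2 < r := by
    have := hr.two_le
    omega
  have hcount : Nat.card {W : Submodule F (Unit ⊕ (Fin d ⊕ Fin d) → F) // Module.finrank F ↥W = m ∧ Cfsg.Geo.IsNondegenerateOn (QuadraticMap.polar ⇑(oddQ d F)) W ∧ (Cfsg.Geo.IsPlusTypeOn ⇑(oddQ d F) W ↔ True)} =
      Nat.card {W : Submodule F (Unit ⊕ (Fin d ⊕ Fin d) → F) // Module.finrank F ↥W = m ∧ Cfsg.Geo.IsNondegenerateOn (QuadraticMap.polar (Cfsg.quadFormOdd d F)) W ∧ Cfsg.Geo.IsPlusTypeOn (Cfsg.quadFormOdd d F) W} := by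
    apply Nat.card_congr
    apply Equiv.subtypeEquivRight
    intro W
    rw [iff_true]
    rfl
  have key := nondeg_clause hq hr2 hrp h2F hi d hm hme hmn hc True (by rw [hcount]; exact hrΩ)
  have hn : 0 < (2 * d + 1) % c := mod_pos_of_even ⟨d, rfl⟩ (c_even hc)
  constructor
  · intro H0
    have h3 := key.1 (fun x hx hxr => by
      obtain ⟨W, ⟨h1, h3, h4⟩, h5⟩ := H0 (x : GL (Unit ⊕ (Fin d ⊕ Fin d)) F) (Subgroup.mem_map_of_mem _ hx)
        (by rw [Subgroup.orderOf_coe]; exact hxr)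
      exact ⟨W, h1, h3, iff_true_intro h4, h5⟩)
    obtain ⟨h4, h5, h6⟩ := h3
    right
    rcases Nat.even_or_odd i with hev | hodd
    · right
      have hci : c = i := by rw [hc, if_pos hev]
      refine ⟨hr3, hev, by omega, h5, ?_⟩
      by_cases h0 : 0 < m % c
      · exact Or.inl h0
      · have h7 := (h6 (by omega)).1 trivial
        rw [hci] at h7
        exact Or.inr (h7.resolve_left (fun h8 => h8 hev))
    · left
      refine ⟨hr3, hodd, h4, ?_⟩
      by_cases h0 : 0 < m % c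
      · exact Or.inr ⟨h0, h5⟩
      · exact Or.inl (by omega)
  · rintro (h | ⟨-, hodd, h1, h3⟩ | ⟨-, hev, h1, h3, h4⟩) x hx hxr
    · exact absurd h hr2
    · obtain ⟨g, hg, rfl⟩ := hx
      have hnev : ¬ Even i := Nat.not_even_iff_odd.2 hodd
      obtain ⟨W, h5, h6, h7, h8⟩ := key.2 ⟨h1, by
        rcases h3 with h3 | h3
        · omega
        · exact h3.2, fun _ => iff_of_true trivial (Or.inl hnev)⟩ g hg (by rw [← hxr]; exact (Subgroup.orderOf_coe g).symm)
      exact ⟨W, ⟨h5, h6, h7.2 trivial⟩, h8⟩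
    · obtain ⟨g, hg, rfl⟩ := hx
      have hci : c = i := by rw [hc, if_pos hev]
      obtain ⟨W, h5, h6, h7, h8⟩ := key.2 ⟨by omega, h3, fun h0 => iff_of_true trivial (Or.inr (by
        rw [hci]
        rcases h4 with h4 | h4
        · omega
        · exact h4))⟩ g hg (by rw [← hxr]; exact (Subgroup.orderOf_coe g).symm)
      exact ⟨W, ⟨h5, h6, h7.2 trivial⟩, h8⟩

end Cfsg.Agent.S5992
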