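import Cfsg.Statements.S5994
import Cfsg.Agent.Lib.Classical.OJordan.Final

set_option autoImplicit false
open scoped MatrixGroups
open Cfsg

namespace Cfsg.Agent.S5994

/-- A necessary condition for every element of order p of PΩ⁻_n(q), q odd, to fix an elliptic `m`-space. Here `T = PΩ⁻_n(F)`, `n = 2d ≥ 8`, realised through `Ω⁻_n(q)`, the commutator subgroup of the isometry group of `Q = Σ_{i<d−1} xᵢyᵢ + z₁² + a z₁z₂ + b z₂²` with `z₁² + a z₁z₂ + b z₂²` anisotropic, over the field `F` with `q` elements; an element of `T` of prime order `r` is an element `x` of `Ω⁻_n(q)` with `x^r` scalar and `x` not scalar; `q` is odd; a nondegenerate `m`-space (even `m`) is a subspace on which the polar form of `Q` is nondegenerate; it is hyperbolic if it contains an `m/2`-dimensional subspace on which `Q` vanishes, elliptic otherwise. Let `m` be even with `2 ≤ m ≤ n − 2` and suppose `p`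 divides the number of elliptic `m`-spaces. If every element of `T` of order `p` fixes some elliptic `m`-space, then `n ≡ m (mod 4)` and every partition of `n` into parts of size at most `p` in which every even part has even multiplicity contains (as a sub-multiset) a partition of `m` in which every even part has even multiplicity. -/
theorem result {F : Type*} [Field F] [Fintype F] {p : ℕ} [Fact p.Prime] [CharP F p] {q : ℕ} (hq : Fintype.card F = q) (hqodd : Odd q)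
    (d m : ℕ) (hd : 4 ≤ d) (hm : 2 ≤ m) (hme : Even m) (hmn : m + 2 ≤ 2 * d) (a b : F) (hab : ∀ x y : F, x ^ 2 + a * x * y + b * y ^ 2 = 0 → x = 0 ∧ y = 0)
    (hpΩ : p ∣ Nat.card {W : Submodule F ((Fin (d - 1) ⊕ Fin (d - 1)) ⊕ Fin 2 → F) // Module.finrank F ↥W = m ∧ Cfsg.Geo.IsNondegenerateOn (QuadraticMap.polar (Cfsg.quadFormMinus (d - 1) F a b)) W ∧ ¬ Cfsg.Geo.IsPlusTypeOn (Cfsg.quadFormMinus (d - 1) F a b) W}) :
    (∀ x : GL ((Fin (d - 1) ⊕ Fin (d - 1)) ⊕ Fin 2) F, x ∈ Cfsg.Geo.omegaGL (Cfsg.quadFormMinus (d - 1) F a b) →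
      (∃ z : F, ((x ^ p : GL ((Fin (d - 1) ⊕ Fin (d - 1)) ⊕ Fin 2) F) : Matrix ((Fin (d - 1) ⊕ Fin (d - 1)) ⊕ Fin 2) ((Fin (d - 1) ⊕ Fin (d - 1)) ⊕ Fin 2) F) = z • (1 : Matrix ((Fin (d - 1) ⊕ Fin (d - 1)) ⊕ Fin 2) ((Fin (d - 1) ⊕ Fin (d - 1)) ⊕ Fin 2) F)) →
      (∀ z : F, (x : Matrix ((Fin (d - 1) ⊕ Fin (d - 1)) ⊕ Fin 2) ((Fin (d - 1) ⊕ Fin (d - 1)) ⊕ Fin 2) F) ≠ z • (1 : Matrix ((Fin (d - 1) ⊕ Fin (d - 1)) ⊕ Fin 2) ((Fin (d - 1) ⊕ Fin (d - 1)) ⊕ Fin 2) F)) →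
      ∃ W : Submodule F ((Fin (d - 1) ⊕ Fin (d - 1)) ⊕ Fin 2 → F), (Module.finrank F ↥W = m ∧ Cfsg.Geo.IsNondegenerateOn (QuadraticMap.polar (Cfsg.quadFormMinus (d - 1) F a b)) W ∧ ¬ Cfsg.Geo.IsPlusTypeOn (Cfsg.quadFormMinus (d - 1) F a b) W) ∧ W.map (Matrix.toLin' (x : Matrix ((Fin (d - 1) ⊕ Fin (d - 1)) ⊕ Fin 2) ((Fin (d - 1) ⊕ Fin (d - 1)) ⊕ Fin 2) F)) ≤ W) →
    ((2 * d) % 4 = m % 4 ∧ (∀ μ : Multiset ℕ, (∀ e ∈ μ, 0 < e ∧ e ≤ p) → (∀ e : ℕ, Even e → Even (μ.count e)) → μ.sum = 2 * d →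
        ∃ ν : Multiset ℕ, ν ≤ μ ∧ ν.sum = m ∧ ∀ e : ℕ, Even e → Even (ν.count e))) := by
  classical
  open Cfsg.Agent.Lib.Classical.OJordan.Model Cfsg.Agent.Lib.Classical.OJordan.Plus
    Cfsg.Agent.Lib.Classical.OJordan.Final Cfsg.Agent.Lib.Classical.OJordan.Combi Cfsg.Agent.Lib.Linalg.OrthModels in
  obtain ⟨h2F, hpo, hp1⟩ := char_facts (p := p) hq hqodd
  intro H0
  have hQ : (QuadraticMap.polarBilin (minusQ (d - 1) F a b)).Nondegenerate :=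
    Cfsg.Agent.Lib.Classical.Witt.Hyp.nondeg_of_polarNondeg _ (polarNondeg_minusQ (d - 1) hab)
  have hcard : Module.finrank F ((Fin (d - 1) ⊕ Fin (d - 1)) ⊕ Fin 2 → F) = 2 * d := by
    rw [Module.finrank_fintype_fun_eq_card]
    simp
    omega
  have H : ∀ x : GL ((Fin (d - 1) ⊕ Fin (d - 1)) ⊕ Fin 2) F, x ∈ Cfsg.Geo.omegaGL (⇑(minusQ (d - 1) F a b)) → x ^ p = 1 →
      (∀ z : F, (x : Matrix ((Fin (d - 1) ⊕ Fin (d - 1)) ⊕ Fin 2) ((Fin (d - 1) ⊕ Fin (d - 1)) ⊕ Fin 2) F) ≠ z • (1 : Matrix ((Fin (d - 1) ⊕ Fin (d - 1)) ⊕ Fin 2) ((Fin (d - 1) ⊕ Fin (d - 1)) ⊕ Fin 2) F)) →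
      ∃ W : Submodule F ((Fin (d - 1) ⊕ Fin (d - 1)) ⊕ Fin 2 → F), (Module.finrank F ↥W = m ∧ Cfsg.Geo.IsNondegenerateOn (QuadraticMap.polar (⇑(minusQ (d - 1) F a b))) W ∧ ¬ Cfsg.Geo.IsPlusTypeOn (⇑(minusQ (d - 1) F a b)) W) ∧ W.map (Matrix.toLin' (x : Matrix ((Fin (d - 1) ⊕ Fin (d - 1)) ⊕ Fin 2) ((Fin (d - 1) ⊕ Fin (d - 1)) ⊕ Fin 2) F)) ≤ W :=
    fun x hx hxp hxs => H0 x hx ⟨1, by rw [hxp]; simp⟩ hxs
  have PC0 : ∀ μ : Multiset ℕ, (∀ e ∈ μ, 0 < e ∧ e ≤ p) → (∀ e : ℕ, Even e → Even (μ.count e)) → μ.sum = 2 * d →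
      (∃ a ∈ μ, Odd a) → ∃ ν : Multiset ℕ, ν ≤ μ ∧ ν.sum = m ∧ ∀ e : ℕ, Even e → Even (ν.count e) := by
    rintro μ hμ heven hs ⟨c, hc, hco⟩
    have hT : HasType (minusQ (d - 1) F a b) μ :=
      hasType_of_odd_part h2F _ hQ (by rw [hcard]; exact even_two_mul d) (fun a ha => (hμ a ha).1)
        (by rw [hcard, hs]) heven hc hco
    exact clause (minusQ (d - 1) F a b) hQ h2F hpo (fun W => ¬ Cfsg.Geo.IsPlusTypeOn (⇑(minusQ (d - 1) F a b)) W)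
      (m := m) (n := 2 * d) (by omega) H hμ hs hT
  have PC : ∀ μ : Multiset ℕ, (∀ e ∈ μ, 0 < e ∧ e ≤ p) → (∀ e : ℕ, Even e → Even (μ.count e)) → μ.sum = 2 * d →
      ∃ ν : Multiset ℕ, ν ≤ μ ∧ ν.sum = m ∧ ∀ e : ℕ, Even e → Even (ν.count e) :=
    fun μ hμ heven hs => patch hpo hme PC0 (by omega) μ hμ heven hs
  refine ⟨?_, PC⟩
  rcases Nat.even_or_odd d with hd | hd
  · have h1 := arith_even hpo hp1 hme (by omega) hd PC
    obtain ⟨c, hc⟩ := hd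
    omega
  · obtain ⟨c, hc⟩ := hd
    have hr : Even (d - 1) := ⟨c, by omega⟩
    have hT : HasType (minusQ (d - 1) F a b) (1 ::ₘ 1 ::ₘ Multiset.replicate (d - 1) 2) := by
      apply hasType_of_odd_part h2F _ hQ (by rw [hcard]; exact even_two_mul d) _ _ _ (Multiset.mem_cons_self 1 _) odd_one
      · intro x hx
        rw [Multiset.mem_cons, Multiset.mem_cons, Multiset.mem_replicate] at hx
        rcases hx with rfl | rfl | ⟨-, rfl⟩ <;> omega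
      · rw [hcard]
        simp only [Multiset.sum_cons, Multiset.sum_replicate, smul_eq_mul]
        omega
      · exact even_count_model odd_one odd_one hr
    have h1 := elliptic_arith (minusQ (d - 1) F a b) hQ h2F hpo hp1 hme hr (by omega) H hT
    omega

end Cfsg.Agent.S5994
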