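import Cfsg.Statements.S5996
import Cfsg.Agent.Lib.Classical.OJordan.Final

set_option autoImplicit false
open scoped MatrixGroups
open Cfsg

namespace Cfsg.Agent.S5996

/-- A necessary condition for every element of order p of PΩ⁺_n(q), q odd, to fix a hyperbolic `m`-space. Here `T = PΩ⁺_n(F)`, `n = 2d ≥ 8`, realised through `Ω⁺_n(q)`, the commutator subgroup of the isometry group of `Q = Σ xᵢyᵢ` over the field `F` with `q` elements; an element of `T` of prime order `r` is an element `x` of `Ω⁺_n(q)` with `x^r` scalar and `x` not scalar; `q` is odd; a nondegenerate `m`-space (even `m`) is a subspace on which the polar form of `Q` is nondegenerate; it is hyperbolic if it contains an `m/2`-dimensional subspace on which `Q` vanishes, elliptic otherwise. Let `m` be even with `2 ≤ m < n/2` and suppose `p` divides the number of hyperbolic `m`-spaces. If every element of `T` of order `p` fixes some hyperbolic `m`-space, then every partition of `n` into parts of size at most `p` in which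 every even part has even multiplicity contains (as a sub-multiset) a partition of `m` in which every even part has even multiplicity. -/
theorem result {F : Type*} [Field F] [Fintype F] {p : ℕ} [Fact p.Prime] [CharP F p] {q : ℕ} (hq : Fintype.card F = q) (hqodd : Odd q)
    (d m : ℕ) (hd : 4 ≤ d) (hm : 2 ≤ m) (hme : Even m) (hmd : m < d)
    (hpΩ : p ∣ Nat.card {W : Submodule F (Fin d ⊕ Fin d → F) // Module.finrank F ↥W = m ∧ Cfsg.Geo.IsNondegenerateOn (QuadraticMap.polar (Cfsg.quadFormPlus d F)) W ∧ Cfsg.Geo.IsPlusTypeOn (Cfsg.quadFormPlus d F) W}) :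
    (∀ x : GL (Fin d ⊕ Fin d) F, x ∈ Cfsg.Geo.omegaGL (Cfsg.quadFormPlus d F) →
      (∃ z : F, ((x ^ p : GL (Fin d ⊕ Fin d) F) : Matrix (Fin d ⊕ Fin d) (Fin d ⊕ Fin d) F) = z • (1 : Matrix (Fin d ⊕ Fin d) (Fin d ⊕ Fin d) F)) →
      (∀ z : F, (x : Matrix (Fin d ⊕ Fin d) (Fin d ⊕ Fin d) F) ≠ z • (1 : Matrix (Fin d ⊕ Fin d) (Fin d ⊕ Fin d) F)) →
      ∃ W : Submodule F (Fin d ⊕ Fin d → F), (Module.finrank F ↥W = m ∧ Cfsg.Geo.IsNondegenerateOn (QuadraticMap.polar (Cfsg.quadFormPlus d F)) W ∧ Cfsg.Geo.IsPlusTypeOn (Cfsg.quadFormPlus d F) W) ∧ W.map (Matrix.toLin' (x : Matrix (Fin d ⊕ Fin d) (Fin d ⊕ Fin d) F)) ≤ W) →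
    (∀ μ : Multiset ℕ, (∀ e ∈ μ, 0 < e ∧ e ≤ p) → (∀ e : ℕ, Even e → Even (μ.count e)) → μ.sum = 2 * d →
        ∃ ν : Multiset ℕ, ν ≤ μ ∧ ν.sum = m ∧ ∀ e : ℕ, Even e → Even (ν.count e)) := by
  classical
  open Cfsg.Agent.Lib.Classical.OJordan.Model Cfsg.Agent.Lib.Classical.OJordan.Plus
    Cfsg.Agent.Lib.Classical.OJordan.Final Cfsg.Agent.Lib.Linalg.OrthModels in
  obtain ⟨h2F, hpo, hp1⟩ := char_facts (p := p) hq hqodd
  intro H0 μ hμ heven hs
  have hQ : (QuadraticMap.polarBilin (plusQ d F)).Nondegenerate :=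
    Cfsg.Agent.Lib.Classical.Witt.Hyp.nondeg_of_polarNondeg _ (polarNondeg_plusQ d)
  have hcard : Module.finrank F (Fin d ⊕ Fin d → F) = 2 * d := by
    rw [Module.finrank_fintype_fun_eq_card]
    simp
    ring
  have hT : HasType (plusQ d F) μ := by
    by_cases ho : ∃ a ∈ μ, Odd a
    · obtain ⟨a, ha, hao⟩ := ho
      exact hasType_of_odd_part h2F _ hQ (by rw [hcard]; exact even_two_mul d) (fun a ha => (hμ a ha).1)
        (by rw [hcard, hs]) heven ha hao
    · have hall : ∀ e, Even (μ.count e) := by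
        intro e
        by_cases he : Even e
        · exact heven e he
        · rw [Multiset.count_eq_zero_of_notMem]
          · exact Even.zero
          · intro hm
            exact ho ⟨e, hm, Nat.not_even_iff_odd.1 he⟩
      obtain ⟨l, rfl⟩ := exists_half _ μ rfl hall
      refine hasType_plus (fun a ha => (hμ a (Multiset.mem_add.2 (Or.inl ha))).1) ?_
      rw [Multiset.sum_add] at hs
      omega
  exact clause (plusQ d F) hQ h2F hpo (Cfsg.Geo.IsPlusTypeOn (Cfsg.quadFormPlus d F)) (m := m) (n := 2 * d) (by omega)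
    (fun x hx hxp hxs => H0 x hx ⟨1, by rw [hxp]; simp⟩ hxs) hμ hs hT

end Cfsg.Agent.S5996
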