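import Cfsg.Statements.S5997
import Mathlib
import Cfsg.Agent.Lib.PSL2.KleinAut

set_option autoImplicit false
open scoped MatrixGroups
open Cfsg

namespace Cfsg.Agent.S5997

section Mat

variable {F : Type*} [Field F]

local notation "M2" => Matrix (Fin 2) (Fin 2) F

lemma ch (X : M2) : X * X = X.trace • X - X.det • (1 : M2) := by
  ext i j
  fin_cases i <;> fin_cases j <;>
    simp [Matrix.mul_apply, Fin.sum_univ_two, Matrix.trace_fin_two, Matrix.det_fin_two] <;> ring

lemma ch_polar (X Y : M2) :
    X * Y + Y * X = X.trace • Y + Y.trace • X + ((X * Y).trace - X.trace * Y.trace) • (1 : M2) := by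
  ext i j
  fin_cases i <;> fin_cases j <;>
    simp [Matrix.mul_apply, Fin.sum_univ_two, Matrix.trace_fin_two] <;> ring

/-- The central involution of a quaternion pair is `-1`. -/
lemma central_eq_neg_one (I J c : M2) (hI : I * I = c) (hJ : J * J = c) (hcc : c * c = 1)
    (hc1 : c ≠ 1) (hIJ : I * J ≠ J * I) : c = -1 := by
  have hI' := ch I
  have hJ' := ch J
  rw [hI] at hI'
  rw [hJ] at hJ'
  have scal : ∃ s : F, c = s • (1 : M2) := by
    by_contra hns
    push Not at hns
    have hti : I.trace ≠ 0 := by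
      intro h0
      apply hns (- I.det)
      rw [hI', h0]; simp
    have htj : J.trace ≠ 0 := by
      intro h0
      apply hns (- J.det)
      rw [hJ', h0]; simp
    have eI : I = (I.trace)⁻¹ • c + ((I.trace)⁻¹ * I.det) • (1 : M2) := by
      rw [hI', smul_sub, smul_smul, smul_smul, inv_mul_cancel₀ hti, one_smul]; abel
    have eJ : J = (J.trace)⁻¹ • c + ((J.trace)⁻¹ * J.det) • (1 : M2) := by
      rw [hJ', smul_sub, smul_smul, smul_smul, inv_mul_cancel₀ htj, one_smul]; abel
    apply hIJ
    rw [eI, eJ]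
    simp only [mul_add, add_mul, smul_mul_assoc, mul_smul_comm, mul_one, one_mul]
    module
  obtain ⟨s, hs⟩ := scal
  have hs2 : s * s = 1 := by
    have h := hcc
    rw [hs, smul_mul_assoc, mul_smul_comm, mul_one, smul_smul] at h
    have h2 := congrFun (congrFun h 0) 0
    simpa using h2
  have : (s - 1) * (s + 1) = 0 := by linear_combination hs2
  rcases mul_eq_zero.mp this with h | h
  · exfalso; apply hc1; rw [hs, sub_eq_zero.mp h, one_smul]
  · rw [hs, eq_neg_of_add_eq_zero_left h]; simp

lemma not_scalar_of_anti (I J : M2) (h2 : (2 : F) ≠ 0) (hI : I * I = -1) (hJ : J * J = -1)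
    (hIJ : I * J = -(J * I)) (z : F) : I ≠ z • (1 : M2) := by
  intro hz
  have h1 : J * I = I * J := by
    rw [hz]; simp
  have h3 : (2 : F) • (J * I) = 0 := by
    rw [two_smul]
    nth_rw 1 [h1]
    rw [hIJ]; abel
  have h4 : J * I = 0 := by
    rcases smul_eq_zero.mp h3 with h | h
    · exact absurd h h2
    · exact h
  have h5 : (J * I) * I = -J := by
    rw [mul_assoc, hI]; simp
  rw [h4] at h5
  have h6 : J = 0 := by
    simpa using h5.symm
  rw [h6] at hJ
  have h7 := congrFun (congrFun hJ 0) 0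
  simp at h7

lemma trace_det_of_anti (I J : M2) (h2 : (2 : F) ≠ 0) (hI : I * I = -1) (hJ : J * J = -1)
    (hIJ : I * J = -(J * I)) : I.trace = 0 ∧ I.det = 1 := by
  have h := ch I
  rw [hI] at h
  have hns := not_scalar_of_anti I J h2 hI hJ hIJ
  have ht : I.trace = 0 := by
    by_contra ht
    apply hns ((I.trace)⁻¹ * (I.det - 1))
    have : I.trace • I = (I.det - 1) • (1 : M2) := by
      rw [sub_smul, one_smul]
      have h' : I.trace • I - I.det • (1 : M2) = -1 := h.symm
      rw [← sub_eq_zero]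
      rw [← sub_eq_zero] at h'
      rw [← h']
      abel
    calc I = (I.trace)⁻¹ • (I.trace • I) := by
            rw [smul_smul, inv_mul_cancel₀ ht, one_smul]
      _ = _ := by rw [this, smul_smul]
  refine ⟨ht, ?_⟩
  rw [ht, zero_smul, zero_sub] at h
  have h' := congrFun (congrFun h 0) 0
  simpa using h'.symm

/-- A matrix commuting with a quaternion pair is scalar. -/
lemma scalar_of_comm (I J A : M2) (h2 : (2 : F) ≠ 0) (hI : I * I = -1) (hJ : J * J = -1)
    (hIJ : I * J = -(J * I)) (hAI : A * I = I * A) (hAJ : A * J = J * A) :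
    ∃ s : F, A = s • (1 : M2) := by
  have tI := (trace_det_of_anti I J h2 hI hJ hIJ).1
  have hJI : J * I = -(I * J) := by rw [hIJ]; simp
  have tJ := (trace_det_of_anti J I h2 hJ hI hJI).1
  have e1 : (2 : F) • A = A.trace • (1 : M2) - (A * I).trace • I := by
    have h := ch_polar A I
    rw [tI, zero_smul, add_zero, mul_zero, sub_zero, ← hAI] at h
    have h' : (A * I + A * I) * I = (A.trace • I + (A * I).trace • (1 : M2)) * I := by rw [h]
    rw [add_mul, add_mul, mul_assoc, hI, smul_mul_assoc, smul_mul_assoc, hI, one_mul] at h'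
    rw [two_smul]
    have h'' : A + A = -(A * -1 + A * -1) := by simp
    rw [h'', h', smul_neg]
    abel
  have e2 : (2 : F) • A = A.trace • (1 : M2) - (A * J).trace • J := by
    have h := ch_polar A J
    rw [tJ, zero_smul, add_zero, mul_zero, sub_zero, ← hAJ] at h
    have h' : (A * J + A * J) * J = (A.trace • J + (A * J).trace • (1 : M2)) * J := by rw [h]
    rw [add_mul, add_mul, mul_assoc, hJ, smul_mul_assoc, smul_mul_assoc, hJ, one_mul] at h'
    rw [two_smul]
    have h'' : A + A = -(A * -1 + A * -1) := by simp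
    rw [h'', h', smul_neg]
    abel
  have e3 : (A * I).trace • I = (A * J).trace • J := by
    have := e1.symm.trans e2
    exact sub_right_injective this
  have hs : (A * I).trace = 0 := by
    by_contra hs
    set s := (A * I).trace
    set s' := (A * J).trace
    have h1 : s • (I * J) = - s' • (1 : M2) := by
      rw [← smul_mul_assoc, e3, smul_mul_assoc, hJ]; simp
    have h3 : s • (J * I) = - s' • (1 : M2) := by
      rw [← mul_smul_comm, e3, mul_smul_comm, hJ]; simp
    have h4 : s • (I * J) = s • (J * I) := h1.trans h3.symm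
    have h5 : I * J = J * I := smul_right_injective _ hs h4
    have h6 : (2 : F) • (J * I) = 0 := by
      rw [two_smul]; nth_rw 1 [← h5]; rw [hIJ]; abel
    have h7 : J * I = 0 := by
      rcases smul_eq_zero.mp h6 with h | h
      · exact absurd h h2
      · exact h
    have h8 : (J * I) * I = -J := by
      rw [mul_assoc, hI]; simp
    rw [h7] at h8
    have h9 : J = 0 := by simpa using h8.symm
    rw [h9] at hJ
    have h10 := congrFun (congrFun hJ 0) 0
    simp at h10
  refine ⟨(2 : F)⁻¹ * A.trace, ?_⟩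
  rw [hs, zero_smul, sub_zero] at e1
  calc A = (2 : F)⁻¹ • ((2 : F) • A) := by rw [smul_smul, inv_mul_cancel₀ h2, one_smul]
    _ = _ := by rw [e1, smul_smul]

/-- Companion matrix. -/
def comp (t : F) : M2 := !![0, -1; 1, t]

lemma exists_P (X : M2) (hdet : X.det = 1) (hns : ∀ z : F, X ≠ z • (1 : M2)) :
    ∃ P : M2, P.det ≠ 0 ∧ X * P = P * comp X.trace := by
  have hd : X 0 0 * X 1 1 - X 0 1 * X 1 0 = 1 := by rw [← Matrix.det_fin_two]; exact hdet
  by_cases hb : X 0 1 = 0
  · by_cases hc : X 1 0 = 0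
    · have hae : X 0 0 ≠ X 1 1 := by
        intro h
        apply hns (X 0 0)
        ext i j
        fin_cases i <;> fin_cases j <;> simp [hb, hc, ← h]
      refine ⟨!![1, X 0 0; 1, X 1 1], ?_, ?_⟩
      · rw [Matrix.det_fin_two_of]
        intro h
        apply hae
        linear_combination -h
      · rw [hb, hc] at hd
        ext i j
        fin_cases i <;> fin_cases j <;>
          simp [comp, Matrix.mul_apply, Fin.sum_univ_two, Matrix.trace_fin_two, hb, hc] <;>
          first | ring1 | linear_combination hd | linear_combination -hd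
    · refine ⟨!![1, X 0 0; 0, X 1 0], ?_, ?_⟩
      · rw [Matrix.det_fin_two_of]; simpa using hc
      · ext i j
        fin_cases i <;> fin_cases j <;>
          simp [comp, Matrix.mul_apply, Fin.sum_univ_two, Matrix.trace_fin_two] <;>
          first | ring1 | linear_combination hd | linear_combination -hd
  · refine ⟨!![0, X 0 1; 1, X 1 1], ?_, ?_⟩
    · rw [Matrix.det_fin_two_of]; simpa using hb
    · ext i j
      fin_cases i <;> fin_cases j <;>
        simp [comp, Matrix.mul_apply, Fin.sum_univ_two, Matrix.trace_fin_two] <;>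
        first | ring1 | linear_combination hd | linear_combination -hd

lemma norm_surj [Fintype F] (h2 : (2 : F) ≠ 0) (hodd : Fintype.card F % 2 = 1) (t D : F)
    (ht : t * t ≠ 4) :
    ∃ α β : F, β * β + α * β * t + α * α = D := by
  classical
  obtain ⟨τ, rfl⟩ : ∃ τ : F, t = 2 * τ := ⟨t / 2, by field_simp⟩
  have hk : (1 - τ * τ : F) ≠ 0 := by
    intro h
    apply ht
    linear_combination (-4 : F) * h
  let f : Polynomial F := Polynomial.X ^ 2
  let g : Polynomial F := Polynomial.C (1 - τ * τ) * Polynomial.X ^ 2 - Polynomial.C D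
  have hf : f.degree = 2 := Polynomial.degree_X_pow 2
  have hg : g.degree = 2 :=
    (Polynomial.degree_sub_C (by rw [Polynomial.degree_C_mul_X_pow 2 hk]; norm_num)).trans
      (Polynomial.degree_C_mul_X_pow 2 hk)
  obtain ⟨u, α, h⟩ := FiniteField.exists_root_sum_quadratic hf hg hodd
  simp only [f, g, Polynomial.eval_pow, Polynomial.eval_X, Polynomial.eval_sub, Polynomial.eval_mul,
    Polynomial.eval_C] at h
  refine ⟨α, u - τ * α, ?_⟩
  linear_combination h

lemma det_add (X : M2) (α β : F) :
    (β • (1 : M2) + α • X).det = β * β + α * β * X.trace + α * α * X.det := by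
  rw [Matrix.det_fin_two, Matrix.det_fin_two, Matrix.trace_fin_two]
  simp
  ring

/-- Two non-scalar matrices of determinant one and the same trace are conjugate in `SL₂`. -/
lemma exists_conj [Fintype F] (h2 : (2 : F) ≠ 0) (hodd : Fintype.card F % 2 = 1) (X Y : M2)
    (hX : X.det = 1) (hY : Y.det = 1) (hXn : ∀ z : F, X ≠ z • (1 : M2))
    (hYn : ∀ z : F, Y ≠ z • (1 : M2)) (ht : X.trace = Y.trace) (htt : X.trace * X.trace ≠ 4) :
    ∃ g : M2, g.det = 1 ∧ X * g = g * Y := by
  obtain ⟨P, hP, hPX⟩ := exists_P X hX hXn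
  obtain ⟨Q, hQ, hQY⟩ := exists_P Y hY hYn
  rw [← ht] at hQY
  have hQu : IsUnit Q.det := isUnit_iff_ne_zero.mpr hQ
  have hQ1 : Q * Q⁻¹ = 1 := Matrix.mul_nonsing_inv _ hQu
  have hQ2 : Q⁻¹ * Q = 1 := Matrix.nonsing_inv_mul _ hQu
  set g0 : M2 := P * Q⁻¹ with hg0
  have hg0d : g0.det ≠ 0 := by
    rw [hg0, Matrix.det_mul]
    refine mul_ne_zero hP ?_
    rw [Matrix.det_nonsing_inv]
    simpa [Ring.inverse_eq_inv'] using hQ
  have hg0c : X * g0 = g0 * Y := by
    have h3 : Q⁻¹ * Y = comp X.trace * Q⁻¹ := by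
      calc Q⁻¹ * Y = Q⁻¹ * Y * (Q * Q⁻¹) := by rw [hQ1, mul_one]
        _ = Q⁻¹ * (Y * Q) * Q⁻¹ := by simp only [mul_assoc]
        _ = Q⁻¹ * (Q * comp X.trace) * Q⁻¹ := by rw [hQY]
        _ = (Q⁻¹ * Q) * comp X.trace * Q⁻¹ := by simp only [mul_assoc]
        _ = _ := by rw [hQ2, one_mul]
    rw [hg0, ← mul_assoc, hPX, mul_assoc, mul_assoc, h3]
  obtain ⟨α, β, hab⟩ := norm_surj h2 hodd X.trace (g0.det)⁻¹ htt
  refine ⟨(β • (1 : M2) + α • X) * g0, ?_, ?_⟩
  · rw [Matrix.det_mul, det_add, hX, mul_one, hab, inv_mul_cancel₀ hg0d]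
  · calc X * ((β • (1 : M2) + α • X) * g0) = (β • (1 : M2) + α • X) * (X * g0) := by
          simp only [← mul_assoc, mul_add, add_mul, smul_mul_assoc, mul_smul_comm, mul_one, one_mul]
      _ = _ := by rw [hg0c]; exact (mul_assoc _ _ _).symm

end Mat

section Quat

open QuaternionGroup

abbrev Q8 := QuaternionGroup 2

def fuv (u v : Q8) : Q8 → Q8
  | a i => u ^ (ZMod.val i)
  | xa i => v * u ^ (ZMod.val i)

lemma fuv_key : ∀ u v : Q8, u * u ≠ 1 → (u * u) * (u * u) = 1 → v * v = u * u → u ≠ v → u ≠ v⁻¹ →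
    ∀ q, (fuv u v)^[12] q = q := by
  decide

/-- Every automorphism of `Q₈` has order dividing `12`. -/
lemma aut_iter (f : Q8 → Q8) (hf : ∀ x y, f (x * y) = f x * f y) (hinj : Function.Injective f) :
    ∀ q, f^[12] q = q := by
  have h1 : f 1 = 1 := by
    have := hf 1 1
    rw [mul_one] at this
    exact (mul_eq_left.mp this.symm)
  have hpow : ∀ (x : Q8) (n : ℕ), f (x ^ n) = f x ^ n := by
    intro x n
    induction n with
    | zero => simp [h1]
    | succ n ih => rw [pow_succ, pow_succ, hf, ih]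
  have hfe : f = fuv (f (a 1)) (f (xa 0)) := by
    funext q
    cases q with
    | a i =>
      have : a i = (a 1 : Q8) ^ (ZMod.val i) := by
        rw [a_one_pow, ZMod.natCast_zmod_val]
      conv_lhs => rw [this]
      rw [hpow]
      rfl
    | xa i =>
      have : xa i = (xa 0 : Q8) * (a 1 : Q8) ^ (ZMod.val i) := by
        rw [a_one_pow, ZMod.natCast_zmod_val]
        simp
      conv_lhs => rw [this]
      rw [hf, hpow]
      rfl
  rw [hfe]
  apply fuv_key
  · rw [← hf]
    intro h
    rw [← h1] at h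
    have := hinj h
    revert this
    decide
  · rw [← hf, ← hf]
    have : (a 1 * a 1 * (a 1 * a 1) : Q8) = 1 := by decide
    rw [this, h1]
  · rw [← hf, ← hf]
    congr 1
  · intro h
    have := hinj h
    revert this
    decide
  · intro h
    have h3 : f (xa 0) * f (a 1) = 1 := by rw [h]; group
    rw [← hf, ← h1] at h3
    have := hinj h3
    revert this
    decide

end Quat

/-- Elements of prime order of PSL_2(p) and the normalizer of a quaternion subgroup. Here `T = PSL_2(F)` for the field `F` with `p` elements, `p ≥ 5` prime; `R` is a subgroup of GL_2(F) isomorphic to the quaternion group of order 8 (an absolutely irreducible 2-group of symplectic type), and `H` is the subgroup of matrices of determinant 1 normalizing `R` — a subgroup of type 2^{1+2}.O₂⁻(2), isomorphic modulo scalars to A₄ or S₄ (maximality is not assumed). Ω is the set of cosets of `H` in `T`, so an element of `T` of prime order `r` (a matrix `x` of determinant 1 with `x^r` scalar, `x` not scalar) fixes a point of Ω exactly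 when some conjugate of `x` by a matrix of determinant 1 normalizes `R`. Let `r` be a prime dividing the index of `H`. Then every element of `T` of order `r` fixes a point of Ω if and only if `r = 2` or `r = 3`. -/
theorem result {F : Type*} [Field F] [Fintype F] {p : ℕ} [Fact p.Prime] [CharP F p] (hF : Fintype.card F = p) (hp : 5 ≤ p)
    (R : Subgroup (GL (Fin 2) F)) (hR : Nonempty (↥R ≃* QuaternionGroup 2))
    (r : ℕ) [Fact r.Prime]
    (hΩ : r ∣ (Cfsg.Geo.subgroupNormalizer R).relIndex (Cfsg.Geo.specialLinear (Fin 2) F)) :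
    (∀ x ∈ Cfsg.Geo.specialLinear (Fin 2) F, (∃ z : F, ((x ^ r : GL (Fin 2) F) : Matrix (Fin 2) (Fin 2) F) = z • (1 : Matrix (Fin 2) (Fin 2) F)) →
      (∀ z : F, (x : Matrix (Fin 2) (Fin 2) F) ≠ z • (1 : Matrix (Fin 2) (Fin 2) F)) →
      ∃ g ∈ Cfsg.Geo.specialLinear (Fin 2) F, g⁻¹ * x * g ∈ Cfsg.Geo.subgroupNormalizer R) ↔ (r = 2 ∨ r = 3) := by

  classical
  obtain ⟨φ⟩ := hR
  have hp2 : (2 : F) ≠ 0 := by
    intro h
    have : ((2 : ℕ) : F) = 0 := by exact_mod_cast h
    have h' := (CharP.cast_eq_zero_iff F p 2).mp this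
    have := Nat.le_of_dvd (by norm_num) h'
    omega
  have hp3 : (3 : F) ≠ 0 := by
    intro h
    have : ((3 : ℕ) : F) = 0 := by exact_mod_cast h
    have h' := (CharP.cast_eq_zero_iff F p 3).mp this
    have := Nat.le_of_dvd (by norm_num) h'
    omega
  have hodd : Fintype.card F % 2 = 1 := by
    rw [hF]
    exact Nat.odd_iff.mp ((Fact.out : p.Prime).odd_of_ne_two (by omega))
  -- the generators
  set gi : R := φ.symm (QuaternionGroup.a 1) with hgi
  set gj : R := φ.symm (QuaternionGroup.xa 0) with hgj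
  set gc : R := φ.symm (QuaternionGroup.a 2) with hgc
  let I : Matrix (Fin 2) (Fin 2) F := ((gi : GL (Fin 2) F) : Matrix (Fin 2) (Fin 2) F)
  let J : Matrix (Fin 2) (Fin 2) F := ((gj : GL (Fin 2) F) : Matrix (Fin 2) (Fin 2) F)
  let C : Matrix (Fin 2) (Fin 2) F := ((gc : GL (Fin 2) F) : Matrix (Fin 2) (Fin 2) F)
  have rel1 : gi * gi = gc := by
    rw [hgi, hgc, ← map_mul]; congr 1
  have rel2 : gj * gj = gc := by
    rw [hgj, hgc, ← map_mul]; congr 1
  have rel3 : gc * gc = 1 := by
    rw [hgc, ← map_mul, ← map_one φ.symm]; congr 1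
  have rel4 : gc ≠ 1 := by
    intro h
    have := φ.symm.injective (h.trans (map_one φ.symm).symm)
    revert this; decide
  have rel5 : gi * gj ≠ gj * gi := by
    intro h
    rw [hgi, hgj, ← map_mul, ← map_mul] at h
    have := φ.symm.injective h
    revert this; decide
  have rel6 : gi * gj = gc * (gj * gi) := by
    rw [hgi, hgj, hgc, ← map_mul, ← map_mul, ← map_mul]; congr 1
  have val_mul' : ∀ u v : R, (((u * v : R) : GL (Fin 2) F) : Matrix (Fin 2) (Fin 2) F)
      = ((u : GL (Fin 2) F) : Matrix (Fin 2) (Fin 2) F) * ((v : GL (Fin 2) F) : Matrix (Fin 2) (Fin 2) F) := by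
    intro u v; simp
  have hCm : C = -1 := by
    apply central_eq_neg_one I J C
    · have := val_mul' gi gi; rw [rel1] at this; exact this.symm
    · have := val_mul' gj gj; rw [rel2] at this; exact this.symm
    · have := val_mul' gc gc; rw [rel3] at this; simpa using this.symm
    · intro h
      apply rel4
      apply Subtype.ext
      apply Units.ext
      exact h
    · intro h
      apply rel5
      apply Subtype.ext
      apply Units.ext
      simpa [I, J] using h
  have hII : I * I = -1 := by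
    have := val_mul' gi gi; rw [rel1] at this; rw [← hCm]; exact this.symm
  have hJJ : J * J = -1 := by
    have := val_mul' gj gj; rw [rel2] at this; rw [← hCm]; exact this.symm
  have hIJ : I * J = -(J * I) := by
    have := val_mul' gi gj
    rw [rel6, val_mul', val_mul'] at this
    rw [← this]
    show C * (J * I) = -(J * I)
    rw [hCm]; simp
  have hJI : J * I = -(I * J) := by rw [hIJ]; simp
  obtain ⟨tI, dI⟩ := trace_det_of_anti I J hp2 hII hJJ hIJ
  obtain ⟨tJ, dJ⟩ := trace_det_of_anti J I hp2 hJJ hII hJI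
  have hKK : (I * J) * (I * J) = -1 := by
    calc (I * J) * (I * J) = I * (J * I) * J := by simp only [mul_assoc]
      _ = I * (-(I * J)) * J := by rw [hJI]
      _ = -((I * I) * (J * J)) := by simp only [mul_neg, neg_mul, mul_assoc]
      _ = -1 := by rw [hII, hJJ]; simp
  have hKI : (I * J) * I = -(I * (I * J)) := by
    calc (I * J) * I = I * (J * I) := by rw [mul_assoc]
      _ = _ := by rw [hJI]; simp
  obtain ⟨tK, dK⟩ := trace_det_of_anti (I * J) I hp2 hKK hII hKI
  have hIns := not_scalar_of_anti I J hp2 hII hJJ hIJ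
  -- the element of order three
  let Qm : Matrix (Fin 2) (Fin 2) F := 1 + I + J + I * J
  let W : Matrix (Fin 2) (Fin 2) F := (-(2 : F)⁻¹) • Qm
  have hQI : Qm * I = J * Qm := Cfsg.Agent.Lib.PSL2.KleinAut.q_mul_a hII hJJ hIJ
  have hQJ : Qm * J = (I * J) * Qm := Cfsg.Agent.Lib.PSL2.KleinAut.q_mul_b hII hJJ hIJ
  have hQQ : Qm * Qm = (Qm + Qm) - (1 + 1 + 1 + 1) := Cfsg.Agent.Lib.PSL2.KleinAut.q_sq hII hJJ hIJ
  have hWI : W * I = J * W := by
    show ((-(2 : F)⁻¹) • Qm) * I = J * ((-(2 : F)⁻¹) • Qm)
    rw [smul_mul_assoc, mul_smul_comm, hQI]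
  have hWJ : W * J = (I * J) * W := by
    show ((-(2 : F)⁻¹) • Qm) * J = (I * J) * ((-(2 : F)⁻¹) • Qm)
    rw [smul_mul_assoc, mul_smul_comm, hQJ]
  have hWW : W * W = -W - 1 := by
    show ((-(2 : F)⁻¹) • Qm) * ((-(2 : F)⁻¹) • Qm) = -((-(2 : F)⁻¹) • Qm) - 1
    rw [smul_mul_assoc, mul_smul_comm, smul_smul, hQQ]
    have e : (-(2 : F)⁻¹ * -(2 : F)⁻¹) = (2 : F)⁻¹ * (2 : F)⁻¹ := by ring
    rw [e, smul_sub, ← two_smul F Qm, smul_smul]
    have e2 : (2 : F)⁻¹ * (2 : F)⁻¹ * 2 = (2 : F)⁻¹ := by field_simp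
    rw [e2, neg_smul, neg_neg]
    congr 1
    have e3 : ((1 : Matrix (Fin 2) (Fin 2) F) + 1 + 1 + 1) = (4 : F) • 1 := by
      ext i j
      fin_cases i <;> fin_cases j <;> simp <;> norm_num
    rw [e3, smul_smul]
    have e4 : (2 : F)⁻¹ * (2 : F)⁻¹ * 4 = 1 := by field_simp; norm_num
    rw [e4, one_smul]
  have tW : W.trace = -1 := by
    show ((-(2 : F)⁻¹) • Qm).trace = -1
    rw [Matrix.trace_smul]
    show -(2 : F)⁻¹ • (1 + I + J + I * J).trace = -1
    rw [Matrix.trace_add, Matrix.trace_add, Matrix.trace_add, tI, tJ, tK]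
    simp [Matrix.trace_one]
    field_simp
  have dW : W.det = 1 := by
    have h := ch W
    rw [hWW, tW] at h
    have h' : W.det • (1 : Matrix (Fin 2) (Fin 2) F) = 1 := by
      have : -W - 1 = -W - W.det • (1 : Matrix (Fin 2) (Fin 2) F) := by simpa using h
      have h2 := sub_right_injective this
      exact h2.symm
    have h3 := congrFun (congrFun h' 0) 0
    simpa using h3
  have hWn : ∀ z : F, W ≠ z • (1 : Matrix (Fin 2) (Fin 2) F) := by
    intro z hz
    have h1 : z • I = z • J := by
      have := hWI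
      rw [hz] at this
      simpa using this
    have hz0 : z ≠ 0 := by
      rintro rfl
      rw [zero_smul] at hz
      rw [hz] at dW
      simp at dW
    have h2 : I = J := smul_right_injective _ hz0 h1
    have h3 : I * J = J * I := by rw [h2]
    apply rel5
    apply Subtype.ext
    apply Units.ext
    simpa [I, J] using h3
  have hWu : W * (W * W) = 1 := by
    rw [hWW, mul_sub, mul_neg, hWW, mul_one]
    abel
  let w : GL (Fin 2) F := ⟨W, W * W, hWu, by rw [mul_assoc]; exact hWu⟩
  have hwv : (w : Matrix (Fin 2) (Fin 2) F) = W := rfl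
  have hw3 : w * w * w = 1 := by
    apply Units.ext
    show W * W * W = 1
    rw [mul_assoc]; exact hWu
  have hwi : w * (gi : GL (Fin 2) F) * w⁻¹ = (gj : GL (Fin 2) F) := by
    rw [mul_inv_eq_iff_eq_mul]; apply Units.ext; exact hWI
  have hwj : w * (gj : GL (Fin 2) F) * w⁻¹ = ((gi * gj : R) : GL (Fin 2) F) := by
    rw [mul_inv_eq_iff_eq_mul]; apply Units.ext; exact hWJ
  have hconj : ∀ h ∈ R, w * h * w⁻¹ ∈ R := by
    intro h hh
    obtain ⟨q, hq⟩ : ∃ q, φ.symm q = ⟨h, hh⟩ := φ.symm.surjective _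
    have hh' : h = ((φ.symm q : R) : GL (Fin 2) F) := by rw [hq]
    have pow_conj : ∀ n : ℕ, w * ((gi : GL (Fin 2) F)) ^ n * w⁻¹ ∈ R := by
      intro n
      rw [← conj_pow, hwi]
      exact R.pow_mem gj.2 n
    rw [hh']
    cases q with
    | a i =>
      have e : φ.symm (QuaternionGroup.a i) = gi ^ (ZMod.val i) := by
        rw [hgi, ← map_pow, QuaternionGroup.a_one_pow, ZMod.natCast_zmod_val]
      rw [e]
      simpa using pow_conj (ZMod.val i)
    | xa i =>
      have e : φ.symm (QuaternionGroup.xa i) = gj * gi ^ (ZMod.val i) := by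
        rw [hgj, hgi, ← map_pow, ← map_mul, QuaternionGroup.a_one_pow, ZMod.natCast_zmod_val]
        simp
      rw [e]
      have e2 : w * (((gj * gi ^ (ZMod.val i) : R)) : GL (Fin 2) F) * w⁻¹
          = (w * (gj : GL (Fin 2) F) * w⁻¹) * (w * ((gi : GL (Fin 2) F)) ^ (ZMod.val i) * w⁻¹) := by
        simp only [Subgroup.coe_mul, Subgroup.coe_pow]
        group
      rw [e2]
      refine R.mul_mem ?_ (pow_conj _)
      rw [hwj]
      exact (gi * gj).2
  have hwN : w ∈ Cfsg.Geo.subgroupNormalizer R := by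
    rw [Cfsg.Geo.subgroupNormalizer, Subgroup.mem_normalizer_iff]
    intro h
    refine ⟨hconj h, fun hh => ?_⟩
    have h1 := hconj _ (hconj _ hh)
    have e : w * (w * (w * h * w⁻¹) * w⁻¹) * w⁻¹ = (w * w * w) * h * (w * w * w)⁻¹ := by group
    rw [e, hw3] at h1
    simpa using h1
  have hRN : R ≤ Cfsg.Geo.subgroupNormalizer R := Subgroup.le_normalizer
  have mem_sl : ∀ g : GL (Fin 2) F, g ∈ Cfsg.Geo.specialLinear (Fin 2) F ↔
      (g : Matrix (Fin 2) (Fin 2) F).det = 1 := by
    intro g
    rw [Cfsg.Geo.specialLinear, MonoidHom.mem_ker, Units.ext_iff]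
    simp
  -- conjugacy in GL form
  have conj_gl : ∀ x y : GL (Fin 2) F, (x : Matrix (Fin 2) (Fin 2) F).det = 1 →
      (y : Matrix (Fin 2) (Fin 2) F).det = 1 →
      (∀ z : F, (x : Matrix (Fin 2) (Fin 2) F) ≠ z • (1 : Matrix (Fin 2) (Fin 2) F)) →
      (∀ z : F, (y : Matrix (Fin 2) (Fin 2) F) ≠ z • (1 : Matrix (Fin 2) (Fin 2) F)) →
      (x : Matrix (Fin 2) (Fin 2) F).trace = (y : Matrix (Fin 2) (Fin 2) F).trace →
      (x : Matrix (Fin 2) (Fin 2) F).trace * (x : Matrix (Fin 2) (Fin 2) F).trace ≠ 4 →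
      ∃ g ∈ Cfsg.Geo.specialLinear (Fin 2) F, g⁻¹ * x * g = y := by
    intro x y hx hy hxn hyn ht htt
    obtain ⟨g, hg, hxg⟩ := exists_conj hp2 hodd _ _ hx hy hxn hyn ht htt
    have hg0 : g.det ≠ 0 := by rw [hg]; exact one_ne_zero
    refine ⟨Matrix.GeneralLinearGroup.mkOfDetNeZero g hg0, ?_, ?_⟩
    · rw [mem_sl]; exact hg
    · have h : x * Matrix.GeneralLinearGroup.mkOfDetNeZero g hg0
          = Matrix.GeneralLinearGroup.mkOfDetNeZero g hg0 * y := by
        apply Units.ext
        exact hxg
      rw [mul_assoc, h]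
      group
  refine ⟨fun H => ?_, fun hr => ?_⟩
  · by_contra hne
    push Not at hne
    obtain ⟨hr2, hr3⟩ := hne
    have hrp : r.Prime := Fact.out
    have hdvd : r ∣ Nat.card (Cfsg.Geo.specialLinear (Fin 2) F) :=
      hΩ.trans (Subgroup.relIndex_dvd_card _ _)
    obtain ⟨x, hx⟩ := exists_prime_orderOf_dvd_card' r hdvd
    have hx0 : orderOf (x : GL (Fin 2) F) = r := by
      rw [← hx]; exact Subgroup.orderOf_coe x
    have hxr : (x : GL (Fin 2) F) ^ r = 1 := by
      rw [← hx0]; exact pow_orderOf_eq_one _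
    have two_of : (x : GL (Fin 2) F) * (x : GL (Fin 2) F) = 1 → False := by
      intro h
      have h2 : (x : GL (Fin 2) F) ^ 2 = 1 := by rw [pow_two]; exact h
      have := orderOf_dvd_of_pow_eq_one h2
      rw [hx0] at this
      exact hr2 ((Nat.prime_dvd_prime_iff_eq hrp Nat.prime_two).mp this)
    have sq_of_scal : ∀ (y : GL (Fin 2) F) (s : F), (y : Matrix (Fin 2) (Fin 2) F).det = 1 →
        (y : Matrix (Fin 2) (Fin 2) F) = s • (1 : Matrix (Fin 2) (Fin 2) F) → y * y = 1 := by
      intro y s hy hs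
      have hs2 : s * s = 1 := by
        rw [hs, Matrix.det_smul, Matrix.det_one] at hy
        simpa [Fintype.card_fin, pow_two] using hy
      apply Units.ext
      show (y : Matrix (Fin 2) (Fin 2) F) * (y : Matrix (Fin 2) (Fin 2) F) = 1
      rw [hs, smul_mul_assoc, mul_smul_comm, mul_one, smul_smul, hs2, one_smul]
    have hxd : ((x : GL (Fin 2) F) : Matrix (Fin 2) (Fin 2) F).det = 1 := (mem_sl _).mp x.2
    obtain ⟨g, hg, hgn⟩ := H (x : GL (Fin 2) F) x.2
      ⟨1, by rw [hxr]; simp⟩ (fun z hz => two_of (sq_of_scal _ z hxd hz))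
    set y : GL (Fin 2) F := g⁻¹ * (x : GL (Fin 2) F) * g with hy
    have hyr : y ^ r = 1 := by
      have e : y = g⁻¹ * (x : GL (Fin 2) F) * (g⁻¹)⁻¹ := by simp [hy]
      rw [e, conj_pow, hxr]; simp
    have hgd : (g : Matrix (Fin 2) (Fin 2) F).det = 1 := (mem_sl _).mp hg
    have hyd : (y : Matrix (Fin 2) (Fin 2) F).det = 1 := by
      rw [← mem_sl]
      exact (Cfsg.Geo.specialLinear (Fin 2) F).mul_mem
        ((Cfsg.Geo.specialLinear (Fin 2) F).mul_mem
          ((Cfsg.Geo.specialLinear (Fin 2) F).inv_mem hg) x.2) hg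
    have hyN := hgn
    rw [Cfsg.Geo.subgroupNormalizer, Subgroup.mem_normalizer_iff] at hyN
    let f : Q8 → Q8 := fun q => φ ⟨y * (φ.symm q : GL (Fin 2) F) * y⁻¹, (hyN _).mp (φ.symm q).2⟩
    have hfs : ∀ q, ((φ.symm (f q) : R) : GL (Fin 2) F) = y * (φ.symm q : GL (Fin 2) F) * y⁻¹ := by
      intro q
      simp [f]
    have hfm : ∀ q1 q2, f (q1 * q2) = f q1 * f q2 := by
      intro q1 q2
      apply φ.symm.injective
      apply Subtype.ext
      rw [map_mul, Subgroup.coe_mul, hfs, hfs, hfs, map_mul, Subgroup.coe_mul]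
      group
    have hfi : Function.Injective f := by
      intro q1 q2 h
      have h1 := congrArg (fun z => ((φ.symm z : R) : GL (Fin 2) F)) h
      simp only [hfs] at h1
      have h2 : ((φ.symm q1 : R) : GL (Fin 2) F) = (φ.symm q2 : R) := by
        simpa using h1
      exact φ.symm.injective (Subtype.ext h2)
    have hit : ∀ (n : ℕ) (q : Q8), ((φ.symm (f^[n] q) : R) : GL (Fin 2) F)
        = y ^ n * (φ.symm q : GL (Fin 2) F) * (y ^ n)⁻¹ := by
      intro n q
      induction n with
      | zero => simp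
      | succ n ih =>
        rw [Function.iterate_succ_apply', hfs, ih, pow_succ']
        group
    have hper : ∀ q, Function.IsPeriodicPt f r q := by
      intro q
      show f^[r] q = q
      apply φ.symm.injective
      apply Subtype.ext
      rw [hit, hyr]
      simp
    have hper12 : ∀ q, Function.IsPeriodicPt f 12 q := aut_iter f hfm hfi
    have hcop : Nat.gcd 12 r = 1 := by
      have : Nat.Coprime r 12 := by
        rw [Nat.Prime.coprime_iff_not_dvd hrp]
        intro h
        have h12 : (12 : ℕ) = 2 * 2 * 3 := by norm_num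
        rw [h12] at h
        rcases (Nat.Prime.dvd_mul hrp).mp h with h | h
        · rcases (Nat.Prime.dvd_mul hrp).mp h with h | h <;>
            exact hr2 ((Nat.prime_dvd_prime_iff_eq hrp Nat.prime_two).mp h)
        · exact hr3 ((Nat.prime_dvd_prime_iff_eq hrp Nat.prime_three).mp h)
      rw [Nat.gcd_comm]; exact this
    have hfix : ∀ q, f q = q := by
      intro q
      have := (hper12 q).gcd (hper q)
      rw [hcop] at this
      exact this
    have hyc : ∀ q, y * (φ.symm q : GL (Fin 2) F) = (φ.symm q : GL (Fin 2) F) * y := by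
      intro q
      have h := hfs q
      rw [hfix] at h
      rw [eq_comm, mul_inv_eq_iff_eq_mul] at h
      exact h
    have hYI : (y : Matrix (Fin 2) (Fin 2) F) * I = I * (y : Matrix (Fin 2) (Fin 2) F) :=
      congrArg Units.val (hyc (QuaternionGroup.a 1))
    have hYJ : (y : Matrix (Fin 2) (Fin 2) F) * J = J * (y : Matrix (Fin 2) (Fin 2) F) :=
      congrArg Units.val (hyc (QuaternionGroup.xa 0))
    obtain ⟨s, hs⟩ := scalar_of_comm I J _ hp2 hII hJJ hIJ hYI hYJ
    have hyy := sq_of_scal y s hyd hs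
    apply two_of
    have e : y * y = g⁻¹ * ((x : GL (Fin 2) F) * (x : GL (Fin 2) F)) * g := by
      rw [hy]; group
    rw [e] at hyy
    have : (x : GL (Fin 2) F) * (x : GL (Fin 2) F) = g * (g⁻¹ * ((x : GL (Fin 2) F) * (x : GL (Fin 2) F)) * g) * g⁻¹ := by
      group
    rw [this, hyy]
    group
  · rcases hr with rfl | rfl
    · rintro x hx ⟨z, hz⟩ hns
      have hdx := (mem_sl x).mp hx
      have hch := ch (x : Matrix (Fin 2) (Fin 2) F)
      rw [hdx, one_smul] at hch
      have ht : (x : Matrix (Fin 2) (Fin 2) F).trace = 0 := by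
        by_contra ht
        apply hns (((x : Matrix (Fin 2) (Fin 2) F).trace)⁻¹ * (z + 1))
        have h1 : (x : Matrix (Fin 2) (Fin 2) F) * (x : Matrix (Fin 2) (Fin 2) F)
            = z • (1 : Matrix (Fin 2) (Fin 2) F) := by
          rw [← hz, pow_two]; rfl
        rw [h1] at hch
        have h2 : (x : Matrix (Fin 2) (Fin 2) F).trace • (x : Matrix (Fin 2) (Fin 2) F)
            = (z + 1) • (1 : Matrix (Fin 2) (Fin 2) F) := by
          rw [add_smul, one_smul, hch]; abel
        calc (x : Matrix (Fin 2) (Fin 2) F)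
            = ((x : Matrix (Fin 2) (Fin 2) F).trace)⁻¹ •
                ((x : Matrix (Fin 2) (Fin 2) F).trace • (x : Matrix (Fin 2) (Fin 2) F)) := by
              rw [smul_smul, inv_mul_cancel₀ ht, one_smul]
          _ = _ := by rw [h2, smul_smul]
      obtain ⟨g, hg, hgx⟩ := conj_gl x (gi : GL (Fin 2) F) hdx dI hns hIns (ht.trans tI.symm) (by
        rw [ht, mul_zero]
        intro h
        apply hp2
        have h4 : (4 : F) = 2 * 2 := by norm_num
        rw [h4] at h
        rcases mul_eq_zero.mp h.symm with h | h <;> exact h)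
      exact ⟨g, hg, by rw [hgx]; exact hRN gi.2⟩
    · have hcube : ∀ y : GL (Fin 2) F, (y : Matrix (Fin 2) (Fin 2) F).det = 1 →
          (y : Matrix (Fin 2) (Fin 2) F) * (y : Matrix (Fin 2) (Fin 2) F) *
            (y : Matrix (Fin 2) (Fin 2) F) = 1 →
          (∀ z : F, (y : Matrix (Fin 2) (Fin 2) F) ≠ z • (1 : Matrix (Fin 2) (Fin 2) F)) →
          ∃ g ∈ Cfsg.Geo.specialLinear (Fin 2) F, g⁻¹ * y * g ∈ Cfsg.Geo.subgroupNormalizer R := by
        intro y hy hy3 hyn
        set Y : Matrix (Fin 2) (Fin 2) F := (y : Matrix (Fin 2) (Fin 2) F) with hYdef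
        set t := Y.trace with ht
        have hch := ch Y
        rw [hy, one_smul] at hch
        have h1 : (t * t - 1) • Y = (t + 1) • (1 : Matrix (Fin 2) (Fin 2) F) := by
          have h2 : Y * Y * Y = t • (Y * Y) - Y := by
            rw [hch, sub_mul, smul_mul_assoc, one_mul]
            rw [← hch]
          rw [h2, hch, smul_sub, smul_smul] at hy3
          have h3 : (t * t) • Y - t • (1 : Matrix (Fin 2) (Fin 2) F) - Y = 1 := hy3
          linear_combination (norm := module) h3
        have h4 : t * t - 1 = 0 := by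
          by_contra h5
          apply hyn ((t * t - 1)⁻¹ * (t + 1))
          calc Y = (t * t - 1)⁻¹ • ((t * t - 1) • Y) := by
                rw [smul_smul, inv_mul_cancel₀ h5, one_smul]
            _ = _ := by rw [h1, smul_smul]
        rw [h4, zero_smul] at h1
        have h5 : t + 1 = 0 := by
          have h6 := congrFun (congrFun h1 0) 0
          simpa using h6.symm
        have h6 : t = -1 := by linear_combination h5
        obtain ⟨g, hg, hgy⟩ := conj_gl y w hy dW hyn hWn (h6.trans tW.symm) (by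
          show t * t ≠ 4
          rw [h6]
          intro h
          apply hp3
          linear_combination -h)
        exact ⟨g, hg, by rw [hgy]; exact hwN⟩
      rintro x hx ⟨z, hz⟩ hns
      have hdx := (mem_sl x).mp hx
      have hX3 : (x : Matrix (Fin 2) (Fin 2) F) * (x : Matrix (Fin 2) (Fin 2) F) *
          (x : Matrix (Fin 2) (Fin 2) F) = z • (1 : Matrix (Fin 2) (Fin 2) F) := by
        rw [← hz, pow_succ, pow_two]; rfl
      have hz2 : z * z = 1 := by
        have h := congrArg Matrix.det hX3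
        rw [Matrix.det_mul, Matrix.det_mul, hdx, Matrix.det_smul, Matrix.det_one] at h
        simpa [Fintype.card_fin, pow_two] using h.symm
      have hzz : (z - 1) * (z + 1) = 0 := by linear_combination hz2
      rcases mul_eq_zero.mp hzz with h | h
      · have hz1 : z = 1 := sub_eq_zero.mp h
        apply hcube x hdx _ hns
        rw [hX3, hz1, one_smul]
      · have hz1 : z = -1 := eq_neg_of_add_eq_zero_left h
        have hcent : ∀ g : GL (Fin 2) F, (gc : GL (Fin 2) F) * g = g * gc := by
          intro g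
          apply Units.ext
          show C * (g : Matrix (Fin 2) (Fin 2) F) = (g : Matrix (Fin 2) (Fin 2) F) * C
          rw [hCm]; simp
        have hcc : (gc : GL (Fin 2) F) * gc = 1 := by
          have := congrArg (fun u : R => (u : GL (Fin 2) F)) rel3
          simpa using this
        have hYm : (((gc : GL (Fin 2) F) * x : GL (Fin 2) F) : Matrix (Fin 2) (Fin 2) F)
            = -(x : Matrix (Fin 2) (Fin 2) F) := by
          show C * (x : Matrix (Fin 2) (Fin 2) F) = _
          rw [hCm]; simp
        obtain ⟨g, hg, hgm⟩ := hcube ((gc : GL (Fin 2) F) * x) (by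
            rw [hYm, Matrix.det_neg, hdx]; simp [Fintype.card_fin]) (by
            rw [hYm]
            simp only [neg_mul, mul_neg, neg_neg]
            rw [hX3, hz1]; simp) (by
            intro z' hz'
            rw [hYm] at hz'
            apply hns (-z')
            rw [neg_smul, ← hz']; simp)
        refine ⟨g, hg, ?_⟩
        have e : g⁻¹ * x * g = (gc : GL (Fin 2) F) * (g⁻¹ * ((gc : GL (Fin 2) F) * x) * g) := by
          calc g⁻¹ * x * g = g⁻¹ * (((gc : GL (Fin 2) F) * gc) * x) * g := by rw [hcc, one_mul]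
            _ = ((g⁻¹ * gc) * (gc * x)) * g := by simp only [mul_assoc]
            _ = ((gc * g⁻¹) * (gc * x)) * g := by rw [← hcent g⁻¹]
            _ = _ := by simp only [mul_assoc]
        rw [e]
        exact (Cfsg.Geo.subgroupNormalizer R).mul_mem (hRN gc.2) hgm

end Cfsg.Agent.S5997
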