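import Cfsg.Statements.S5999
import Cfsg.Agent.S5998
import Cfsg.Agent.Lib.Classical.Herm.SSCent

set_option autoImplicit false
open scoped MatrixGroups Matrix
open Cfsg Module
open Cfsg.Agent.S5998
open Cfsg.Agent.Lib.Classical.Herm.Basic Cfsg.Agent.Lib.Classical.Herm.Form
open Cfsg.Agent.Lib.Classical.Herm.GU Cfsg.Agent.Lib.Classical.Herm.SU

namespace Cfsg.Agent.S5999

section Data

variable {F : Type*} [Field F]

theorem exists_data' [Fintype F] (h3 : (3 : F) ≠ 0) {ω₀ : F} (hω₀ : ω₀ * ω₀ + ω₀ + 1 = 0)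
    (R : Subgroup (GL (Fin 3) F)) (hR : Nat.card R = 27) (hRe : Monoid.exponent R = 3) (hRna : ¬ IsMulCommutative R) :
    ∃ (a b z : GL (Fin 3) F) (ω : F) (P : GL (Fin 3) F), Frame R a b z ω P := by
  classical
  haveI hfin : Finite R := Nat.finite_of_card_ne_zero (by rw [hR]; norm_num)
  obtain ⟨a', b', hab⟩ : ∃ a' b' : R, a' * b' ≠ b' * a' := by
    by_contra h
    push Not at h
    exact hRna ⟨⟨h⟩⟩
  have hcen := comm_central hR hab
  have hcub : ∀ g : R, g * g * g = 1 := by
    intro g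
    have := Monoid.pow_exponent_eq_one g
    rw [hRe, pow_succ, pow_two] at this
    exact this
  set z' : R := a' * b' * a'⁻¹ * b'⁻¹ with hz'
  have hz'ne : z' ≠ 1 := by
    intro h
    apply hab
    have h1 : a' * b' * a'⁻¹ * b'⁻¹ * (b' * a') = 1 * (b' * a') := by rw [← hz', h]
    simpa [mul_assoc] using h1
  have hABz : a' * b' = z' * b' * a' := by
    rw [hz']
    group
  let A : Matrix (Fin 3) (Fin 3) F := ((a' : GL (Fin 3) F) : Matrix (Fin 3) (Fin 3) F)
  let B : Matrix (Fin 3) (Fin 3) F := ((b' : GL (Fin 3) F) : Matrix (Fin 3) (Fin 3) F)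
  let Z : Matrix (Fin 3) (Fin 3) F := ((z' : GL (Fin 3) F) : Matrix (Fin 3) (Fin 3) F)
  have hval : ∀ g h k : R, g * h = k → ((g : GL (Fin 3) F) : Matrix (Fin 3) (Fin 3) F) * ((h : GL (Fin 3) F) : Matrix (Fin 3) (Fin 3) F) = ((k : GL (Fin 3) F) : Matrix (Fin 3) (Fin 3) F) := by
    rintro g h k rfl
    rfl
  have hcube : ∀ g : R, ((g : GL (Fin 3) F) : Matrix (Fin 3) (Fin 3) F) * ((g : GL (Fin 3) F) : Matrix (Fin 3) (Fin 3) F) * ((g : GL (Fin 3) F) : Matrix (Fin 3) (Fin 3) F) = 1 := by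
    intro g
    have := hcub g
    rw [hval g g (g * g) rfl, hval (g * g) g (g * g * g) rfl, this]
    rfl
  have hZcomm : ∀ g : R, ((g : GL (Fin 3) F) : Matrix (Fin 3) (Fin 3) F) * Z = Z * ((g : GL (Fin 3) F) : Matrix (Fin 3) (Fin 3) F) := by
    intro g
    have := Subgroup.mem_center_iff.mp hcen g
    rw [hval g z' (g * z') rfl, hval z' g (z' * g) rfl, this]
  have hAB : A * B = Z * B * A := by
    have h1 := congrArg (fun g : R => ((g : GL (Fin 3) F) : Matrix (Fin 3) (Fin 3) F)) hABz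
    simpa [A, B, Z] using h1
  have hZ1 : Z ≠ 1 := by
    intro h
    apply hz'ne
    apply Subtype.ext
    apply Units.ext
    exact h
  let fA := Matrix.toLin' A
  let fB := Matrix.toLin' B
  let fZ := Matrix.toLin' Z
  obtain ⟨ω, hω, bb, h1, h2, h3', h4, h5, h6, h7⟩ := exists_frame (V := Fin 3 → F) (by simp) h3 hω₀ fA fB fZ
    (fun v => by
      change A.mulVec (A.mulVec (A.mulVec v)) = v
      rw [Matrix.mulVec_mulVec, Matrix.mulVec_mulVec, hcube a', Matrix.one_mulVec])
    (fun v => by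
      change B.mulVec (B.mulVec (B.mulVec v)) = v
      rw [Matrix.mulVec_mulVec, Matrix.mulVec_mulVec, hcube b', Matrix.one_mulVec])
    (fun v => by
      change Z.mulVec (Z.mulVec (Z.mulVec v)) = v
      rw [Matrix.mulVec_mulVec, Matrix.mulVec_mulVec, hcube z', Matrix.one_mulVec])
    (by
      by_contra h
      push Not at h
      apply hZ1
      apply Matrix.toLin'.injective
      apply LinearMap.ext
      intro v
      have := h v
      simpa [fZ] using this)
    (fun v => by
      change A.mulVec (Z.mulVec v) = Z.mulVec (A.mulVec v)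
      rw [Matrix.mulVec_mulVec, Matrix.mulVec_mulVec, hZcomm a'])
    (fun v => by
      change B.mulVec (Z.mulVec v) = Z.mulVec (B.mulVec v)
      rw [Matrix.mulVec_mulVec, Matrix.mulVec_mulVec, hZcomm b'])
    (fun v => by
      change A.mulVec (B.mulVec v) = Z.mulVec (B.mulVec (A.mulVec v))
      rw [Matrix.mulVec_mulVec, Matrix.mulVec_mulVec, Matrix.mulVec_mulVec, hAB])
  let P := basisGL bb
  refine ⟨a', b', z', ω, P, ⟨hfin, a'.2, b'.2, z'.2, ?_, hω, ?_, ?_, ?_⟩⟩
  · intro K ha hb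
    have h8 := gens_of_card hR hab (K.comap R.subtype) ha hb
    intro g hg
    have : (⟨g, hg⟩ : R) ∈ K.comap R.subtype := by rw [h8]; trivial
    exact this
  · -- the centre acts by the scalar
    have h8 : Z * (P : Matrix (Fin 3) (Fin 3) F) = (P : Matrix (Fin 3) (Fin 3) F) * (ω • 1) := by
      apply mat_of_vec bb Z (ω • 1)
      intro j
      have h9 := h7 j
      rw [Finset.sum_eq_single j]
      · simpa [fZ] using h9
      · intro i _ hij
        simp [Matrix.one_apply_ne hij]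
      · simp
    have hPP' : (P : Matrix (Fin 3) (Fin 3) F) * ((P⁻¹ : GL (Fin 3) F) : Matrix (Fin 3) (Fin 3) F) = 1 := by
      rw [← Units.val_mul, mul_inv_cancel, Units.val_one]
    have h9 : Z = ω • 1 := by
      have h10 := congrArg (fun M => M * ((P⁻¹ : GL (Fin 3) F) : Matrix (Fin 3) (Fin 3) F)) h8
      simp only [Matrix.mul_assoc, hPP', Matrix.mul_one, Matrix.mul_smul, Matrix.smul_mul] at h10
      exact h10
    exact h9
  · apply mat_of_vec bb A (a₀ ω)
    intro j
    rw [a₀, sum_diagonal]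
    fin_cases j
    · simpa [fA] using h1
    · simpa [fA] using h2
    · simpa [fA] using h3'
  · apply mat_of_vec bb B (b₀ F)
    intro j
    rw [Fin.sum_univ_three]
    fin_cases j
    · simpa [fB, b₀] using h4
    · simpa [fB, b₀] using h5
    · simpa [fB, b₀] using h6

theorem conj_two' [Fintype F] {R : Subgroup (GL (Fin 3) F)} {a b z : GL (Fin 3) F} {ω : F} {P : GL (Fin 3) F}
    (hF : Frame R a b z ω P) (h2 : (2 : F) ≠ 0) (x : GL (Fin 3) F) (hx : (x : Matrix (Fin 3) (Fin 3) F).det = 1) {s : F}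
    (hs : (x : Matrix (Fin 3) (Fin 3) F) * x = s • 1)
    (hns : ∀ c : F, (x : Matrix (Fin 3) (Fin 3) F) ≠ c • 1) :
    ∃ G T c : GL (Fin 3) F, (T : Matrix (Fin 3) (Fin 3) F) = t₀ F ∧ (c : Matrix (Fin 3) (Fin 3) F) = (-(s * s)) • 1 ∧
      G * (c * (P * T * P⁻¹)) = x * G := by
  classical
  set X := (x : Matrix (Fin 3) (Fin 3) F) with hX
  have hs3 : s * s * s = 1 := by
    have h1 := congrArg Matrix.det hs
    rw [Matrix.det_mul, hx, Matrix.det_smul, Matrix.det_one] at h1
    simp only [Fintype.card_fin] at h1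
    linear_combination -h1
  set w := s * s with hw
  have hww : w * w = s := by
    rw [hw]
    linear_combination s * hs3
  have hwww : w * w * w = 1 := by
    rw [hw]
    calc s * s * (s * s) * (s * s) = (s * s * s) * (s * s * s) := by ring
      _ = 1 := by rw [hs3]; ring
  have hw0 : w ≠ 0 := by
    rintro h
    rw [h] at hwww
    simp at hwww
  let g := Matrix.toLin' X
  have hgg : ∀ v, g (g v) = s • v := by
    intro v
    change X.mulVec (X.mulVec v) = s • v
    rw [Matrix.mulVec_mulVec, hs, Matrix.smul_mulVec, Matrix.one_mulVec]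
  have h2w : w ≠ -w := by
    intro h
    apply mul_ne_zero h2 hw0
    linear_combination h
  obtain ⟨bb, ε, hε, hb⟩ := exists_eigenbasis (V := Fin 3 → F) (n := 3) (by simp) g h2w hw0 (neg_ne_zero.mpr hw0)
    (by
      intro v
      simp only [zero_smul, sub_zero, neg_smul, sub_neg_eq_add, map_add, map_smul, hgg]
      rw [← hww]
      module)
  have hb' : ∀ i, X.mulVec (bb i) = ε i • bb i := hb
  have hε' : ∀ i, ε i = w ∨ ε i = -w := by
    intro i
    rcases hε i with h | h | h
    · exact Or.inl h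
    · exact Or.inr h
    · exfalso
      have h3 := hgg (bb i)
      rw [hb, h, zero_smul, map_zero] at h3
      have hs0 : s ≠ 0 := by
        rintro rfl
        simp at hs3
      exact (smul_ne_zero hs0 (bb.ne_zero i)) h3.symm
  have hdet := det_of_eigenbasis X bb ε hb'
  rw [hx] at hdet
  have hneg : (1 : F) ≠ -1 := by
    intro h
    apply h2
    linear_combination h
  let d : Fin 3 → F := ![-w, -w, w]
  obtain ⟨b', hb''⟩ : ∃ b' : Basis (Fin 3) F (Fin 3 → F), ∀ i, X.mulVec (b' i) = d i • b' i := by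
    rcases hε' 0 with h0 | h0 <;> rcases hε' 1 with h1 | h1 <;> rcases hε' 2 with h3 | h3 <;>
      rw [h0, h1, h3] at hdet
    · exfalso
      apply hns w
      apply scalar_of_eigenbasis X bb
      intro t
      fin_cases t
      · rw [hb']; simp [h0]
      · rw [hb']; simp [h1]
      · rw [hb']; simp [h3]
    · exfalso
      apply hneg
      linear_combination hdet - hwww
    · exfalso
      apply hneg
      linear_combination hdet - hwww
    · refine ⟨bb.reindex (Equiv.swap 0 2), ?_⟩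
      intro i
      fin_cases i
      · have : (bb.reindex (Equiv.swap 0 2)) 0 = bb 2 := by simp [Basis.reindex_apply]
        change X.mulVec ((bb.reindex (Equiv.swap 0 2)) 0) = (-w) • (bb.reindex (Equiv.swap 0 2)) 0
        rw [this, hb', h3]
      · have : (bb.reindex (Equiv.swap 0 2)) 1 = bb 1 := by
          rw [Basis.reindex_apply]
          congr 1
        change X.mulVec ((bb.reindex (Equiv.swap 0 2)) 1) = (-w) • (bb.reindex (Equiv.swap 0 2)) 1
        rw [this, hb', h1]
      · have : (bb.reindex (Equiv.swap 0 2)) 2 = bb 0 := by simp [Basis.reindex_apply]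
        change X.mulVec ((bb.reindex (Equiv.swap 0 2)) 2) = w • (bb.reindex (Equiv.swap 0 2)) 2
        rw [this, hb', h0]
    · exfalso
      apply hneg
      linear_combination hdet - hwww
    · refine ⟨bb.reindex (Equiv.swap 1 2), ?_⟩
      intro i
      fin_cases i
      · have : (bb.reindex (Equiv.swap 1 2)) 0 = bb 0 := by
          rw [Basis.reindex_apply]
          congr 1
        change X.mulVec ((bb.reindex (Equiv.swap 1 2)) 0) = (-w) • (bb.reindex (Equiv.swap 1 2)) 0
        rw [this, hb', h0]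
      · have : (bb.reindex (Equiv.swap 1 2)) 1 = bb 2 := by simp [Basis.reindex_apply]
        change X.mulVec ((bb.reindex (Equiv.swap 1 2)) 1) = (-w) • (bb.reindex (Equiv.swap 1 2)) 1
        rw [this, hb', h3]
      · have : (bb.reindex (Equiv.swap 1 2)) 2 = bb 1 := by simp [Basis.reindex_apply]
        change X.mulVec ((bb.reindex (Equiv.swap 1 2)) 2) = w • (bb.reindex (Equiv.swap 1 2)) 2
        rw [this, hb', h1]
    · refine ⟨bb, ?_⟩
      intro i
      fin_cases i
      · change X.mulVec (bb 0) = (-w) • bb 0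
        rw [hb', h0]
      · change X.mulVec (bb 1) = (-w) • bb 1
        rw [hb', h1]
      · change X.mulVec (bb 2) = w • bb 2
        rw [hb', h3]
    · exfalso
      apply hneg
      linear_combination hdet - hwww
  -- the model
  let T : GL (Fin 3) F := ⟨t₀ F, t₀ F, t₀_mul_self, t₀_mul_self⟩
  have hSdet : (s₀ F).det ≠ 0 := by
    rw [det_s₀]
    exact neg_ne_zero.mpr h2
  let S : GL (Fin 3) F := Matrix.GeneralLinearGroup.mkOfDetNeZero (s₀ F) hSdet
  have hcdet : ((-w) • (1 : Matrix (Fin 3) (Fin 3) F)).det ≠ 0 := by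
    rw [Matrix.det_smul, Matrix.det_one]
    simp [hw0]
  let c : GL (Fin 3) F := Matrix.GeneralLinearGroup.mkOfDetNeZero _ hcdet
  have hc : (c : Matrix (Fin 3) (Fin 3) F) = (-w) • 1 := rfl
  have hPP : ((P⁻¹ : GL (Fin 3) F) : Matrix (Fin 3) (Fin 3) F) * (P : Matrix (Fin 3) (Fin 3) F) = 1 := by
    rw [← Units.val_mul, inv_mul_cancel, Units.val_one]
  obtain ⟨G, hG1, hG2⟩ := exists_conj_of_diag (T := ((c * (P * T * P⁻¹) : GL (Fin 3) F) : Matrix (Fin 3) (Fin 3) F)) b' d hb'' (P * S) (by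
    simp only [Units.val_mul, hc]
    have hT : (T : Matrix (Fin 3) (Fin 3) F) = t₀ F := rfl
    have hS : (S : Matrix (Fin 3) (Fin 3) F) = s₀ F := rfl
    rw [hT, hS]
    have h5 : (P : Matrix (Fin 3) (Fin 3) F) * t₀ F * ((P⁻¹ : GL (Fin 3) F) : Matrix (Fin 3) (Fin 3) F) * ((P : Matrix (Fin 3) (Fin 3) F) * s₀ F) =
        (P : Matrix (Fin 3) (Fin 3) F) * (s₀ F * Matrix.diagonal ![1, 1, -1]) := by
      rw [← t₀_mul_s₀]
      simp only [Matrix.mul_assoc]
      simp only [← Matrix.mul_assoc ((P⁻¹ : GL (Fin 3) F) : Matrix (Fin 3) (Fin 3) F), hPP, Matrix.one_mul]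
    have h6 : Matrix.diagonal d = (-w) • Matrix.diagonal ![1, 1, -1] := by
      ext i j
      by_cases hij : i = j
      · subst hij
        fin_cases i <;> simp [d]
      · simp [Matrix.diagonal_apply_ne _ hij]
    rw [h6, Matrix.smul_mul, Matrix.one_mul, Matrix.smul_mul, h5]
    simp only [Matrix.mul_smul, Matrix.mul_assoc])
  exact ⟨G, T, c, rfl, hc, Units.ext hG2⟩


theorem conj_three' [Fintype F] {R : Subgroup (GL (Fin 3) F)} {a b z : GL (Fin 3) F} {ω : F} {P : GL (Fin 3) F}
    (hF : Frame R a b z ω P) (h3 : (3 : F) ≠ 0) (x : GL (Fin 3) F) {s w : F} (hw0 : w ≠ 0) (hw : w * w * w = s)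
    (hs : (x : Matrix (Fin 3) (Fin 3) F) * x * x = s • 1) :
    ∃ G c D : GL (Fin 3) F, (c : Matrix (Fin 3) (Fin 3) F) = w • 1 ∧
      (∃ c₀ c₁ c₂ : F, c₀ * c₀ * c₀ = 1 ∧ c₁ * c₁ * c₁ = 1 ∧ c₂ * c₂ * c₂ = 1 ∧ (D : Matrix (Fin 3) (Fin 3) F) = Matrix.diagonal ![c₀, c₁, c₂]) ∧
      G * (c * (P * D * P⁻¹)) = x * G := by
  classical
  set X := (x : Matrix (Fin 3) (Fin 3) F) with hX
  have hω := hF.hω
  have hω1 : (1 : F) ≠ ω := hF.omega_ne_one h3
  have hω0 : ω ≠ 0 := by
    rintro rfl
    simp at hω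
  have hω2 : (1 : F) ≠ ω * ω := by
    intro h
    have e : ω = -2 := by linear_combination hω + h
    rw [e] at h
    apply h3
    linear_combination -h
  have hω4 : ω ≠ ω * ω := by
    intro h
    have : ω * (ω - 1) = 0 := by linear_combination -h
    exact hω1 (sub_eq_zero.mp ((mul_eq_zero.mp this).resolve_left hω0)).symm
  have hω3 : ω * ω * ω = 1 := by linear_combination (ω - 1) * hω
  let g := Matrix.toLin' X
  have hggg : ∀ v, g (g (g v)) = s • v := by
    intro v
    change X.mulVec (X.mulVec (X.mulVec v)) = s • v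
    rw [Matrix.mulVec_mulVec, Matrix.mulVec_mulVec, hs, Matrix.smul_mulVec, Matrix.one_mulVec]
  obtain ⟨bb, ε, hε, hb⟩ := exists_eigenbasis (V := Fin 3 → F) (n := 3) (by simp) g
    (α := w) (β := w * ω) (γ := w * (ω * ω))
    (fun h => hω1 (mul_left_cancel₀ hw0 (by rw [mul_one]; exact h)))
    (fun h => hω2 (mul_left_cancel₀ hw0 (by rw [mul_one]; exact h)))
    (fun h => hω4 (mul_left_cancel₀ hw0 h))
    (by
      intro v
      simp only [map_sub, map_smul, hggg]
      have e1 : s = w * w * w := hw.symm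
      have hc2 : -(w * (ω * ω)) - w * ω - w = 0 := by linear_combination -w * hω
      have hc1 : w * ω * (w * (ω * ω)) + w * (w * (ω * ω)) + w * (w * ω) = 0 := by
        linear_combination (w * w * ω) * hω
      have hc0 : w * w * w - w * (w * ω * (w * (ω * ω))) = 0 := by
        linear_combination (-(w * w * w)) * hω3
      rw [e1]
      have : ∀ A B : Fin 3 → F, (w * w * w) • v - (w * (ω * ω)) • A - (w * ω) • (A - (w * (ω * ω)) • B) - w • (A - (w * (ω * ω)) • B - (w * ω) • (B - (w * (ω * ω)) • v)) =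
          (-(w * (ω * ω)) - w * ω - w) • A + (w * ω * (w * (ω * ω)) + w * (w * (ω * ω)) + w * (w * ω)) • B + (w * w * w - w * (w * ω * (w * (ω * ω)))) • v := by
        intro A B
        module
      rw [this, hc2, hc1, hc0]
      simp)
  have hb' : ∀ i, X.mulVec (bb i) = ε i • bb i := hb
  have hc : ∀ i, ∃ c : F, c * c * c = 1 ∧ ε i = w * c := by
    intro i
    rcases hε i with h | h | h
    · exact ⟨1, by simp, by simp [h]⟩
    · exact ⟨ω, hω3, h⟩
    · refine ⟨ω * ω, ?_, h⟩
      calc ω * ω * (ω * ω) * (ω * ω) = (ω * ω * ω) * (ω * ω * ω) := by ring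
        _ = 1 := by rw [hω3]; ring
  obtain ⟨c₀, hc₀, h0⟩ := hc 0
  obtain ⟨c₁, hc₁, h1⟩ := hc 1
  obtain ⟨c₂, hc₂, h2⟩ := hc 2
  have hcne : ∀ c : F, c * c * c = 1 → c ≠ 0 := by
    rintro c hc rfl
    simp at hc
  have hDdet : (Matrix.diagonal ![c₀, c₁, c₂]).det ≠ 0 := by
    rw [Matrix.det_diagonal, Fin.prod_univ_three]
    simp [hcne _ hc₀, hcne _ hc₁, hcne _ hc₂]
  let D : GL (Fin 3) F := Matrix.GeneralLinearGroup.mkOfDetNeZero _ hDdet
  have hD : (D : Matrix (Fin 3) (Fin 3) F) = Matrix.diagonal ![c₀, c₁, c₂] := rfl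
  have hcdet : (w • (1 : Matrix (Fin 3) (Fin 3) F)).det ≠ 0 := by
    rw [Matrix.det_smul, Matrix.det_one]
    simp [hw0]
  let c : GL (Fin 3) F := Matrix.GeneralLinearGroup.mkOfDetNeZero _ hcdet
  have hcc : (c : Matrix (Fin 3) (Fin 3) F) = w • 1 := rfl
  have hPP : ((P⁻¹ : GL (Fin 3) F) : Matrix (Fin 3) (Fin 3) F) * (P : Matrix (Fin 3) (Fin 3) F) = 1 := by
    rw [← Units.val_mul, inv_mul_cancel, Units.val_one]
  obtain ⟨G, hG1, hG2⟩ := exists_conj_of_diag (T := ((c * (P * D * P⁻¹) : GL (Fin 3) F) : Matrix (Fin 3) (Fin 3) F)) bb ε hb' P (by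
    simp only [Units.val_mul, hcc, hD]
    have h6 : Matrix.diagonal ε = w • Matrix.diagonal ![c₀, c₁, c₂] := by
      ext i j
      by_cases hij : i = j
      · subst hij
        fin_cases i
        · simpa using h0
        · simpa using h1
        · simpa using h2
      · simp [Matrix.diagonal_apply_ne _ hij]
    rw [h6, Matrix.smul_mul, Matrix.one_mul, Matrix.smul_mul, Matrix.mul_assoc, hPP, Matrix.mul_one, Matrix.mul_smul])
  exact ⟨G, c, D, hcc, ⟨c₀, c₁, c₂, hc₀, hc₁, hc₂, hD⟩, Units.ext hG2⟩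


end Data

section Unitary

variable {F : Type*} [Field F] [Fintype F] {p : ℕ}

theorem omega_pow {ω : F} (hω : ω * ω + ω + 1 = 0) (hp3 : p % 3 = 2) : ω ^ p = ω * ω := by
  have hω3 : ω ^ 3 = 1 := by linear_combination (ω - 1) * hω
  have e : p = 3 * (p / 3) + 2 := by omega
  rw [e, pow_add, pow_mul, hω3, one_pow, one_mul, pow_two]

/-- A frame can be rescaled to a unitary one. -/
theorem exists_unitary_frame (hF : Fintype.card F = p ^ 2) (hp3 : p % 3 = 2) (h3 : (3 : F) ≠ 0)
    {R : Subgroup (GL (Fin 3) F)} (hRU : R ≤ Cfsg.GU 3 F p) {a b z : GL (Fin 3) F} {ω : F} {P₀ : GL (Fin 3) F}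
    (hFr : Frame R a b z ω P₀) : ∃ P : GL (Fin 3) F, Frame R a b z ω P ∧ P ∈ Cfsg.GU 3 F p := by
  classical
  have hω := hFr.hω
  have hω1 : (1 : F) ≠ ω := hFr.omega_ne_one h3
  have hω0 : ω ≠ 0 := by
    rintro rfl
    simp at hω
  have hω2 : (1 : F) ≠ ω * ω := by
    intro h
    have e : ω = -2 := by linear_combination hω + h
    rw [e] at h
    apply h3
    linear_combination -h
  have hωp := omega_pow (p := p) hω hp3
  have hωωp : (ω * ω) ^ p = ω := by
    rw [mul_pow, hωp]
    linear_combination (ω * ω - ω) * hω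
  set Pm : Matrix (Fin 3) (Fin 3) F := (P₀ : Matrix (Fin 3) (Fin 3) F) with hPm
  let v : Fin 3 → Fin 3 → F := fun j i => Pm i j
  let d : Fin 3 → F := ![1, ω, ω * ω]
  have hAv : ∀ j, ((a : Matrix (Fin 3) (Fin 3) F)) *ᵥ v j = d j • v j := by
    intro j
    funext i
    have h := congrFun (congrFun hFr.hA i) j
    rw [a₀, Matrix.mul_diagonal] at h
    rw [Pi.smul_apply, smul_eq_mul, mul_comm]
    exact h
  have hBv : ∀ j, ((b : Matrix (Fin 3) (Fin 3) F)) *ᵥ v j = v (j + 1) := by
    intro j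
    funext i
    have h := congrFun (congrFun hFr.hB i) j
    have e : (Pm * b₀ F) i j = v (j + 1) i := by
      fin_cases j <;> simp [b₀, Matrix.mul_apply, Fin.sum_univ_three, v]
    rw [← e, ← hPm] at *
    exact h
  let f : Fin 3 → Fin 3 → F := fun i j => hermForm 3 F p (v i) (v j)
  have ha : ∀ i j, d i * ((d j) ^ p * f i j) = f i j := by
    intro i j
    have h : hermForm 3 F p ((a : Matrix (Fin 3) (Fin 3) F) *ᵥ v i) ((a : Matrix (Fin 3) (Fin 3) F) *ᵥ v j) =
        hermForm 3 F p (v i) (v j) := hRU hFr.ha (v i) (v j)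
    rw [hAv, hAv, hermForm_smul_left, hermForm_smul_right] at h
    exact h
  have hb : ∀ i j, f (i + 1) (j + 1) = f i j := by
    intro i j
    have h : hermForm 3 F p ((b : Matrix (Fin 3) (Fin 3) F) *ᵥ v i) ((b : Matrix (Fin 3) (Fin 3) F) *ᵥ v j) =
        hermForm 3 F p (v i) (v j) := hRU hFr.hb (v i) (v j)
    rw [hBv, hBv] at h
    exact h
  have d0 : d 0 = 1 := rfl
  have d1 : d 1 = ω := rfl
  have d2 : d 2 = ω * ω := rfl
  have hzero : ∀ μ x : F, (1 : F) ≠ μ → μ * x = x → x = 0 := by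
    intro μ x hμ h
    have h' : (μ - 1) * x = 0 := by linear_combination h
    exact (mul_eq_zero.mp h').resolve_left (sub_ne_zero.mpr hμ.symm)
  have f01 : f 0 1 = 0 := by
    have h := ha 0 1
    rw [d0, d1, hωp, one_mul] at h
    exact hzero _ _ hω2 h
  have f02 : f 0 2 = 0 := by
    have h := ha 0 2
    rw [d0, d2, hωωp, one_mul] at h
    exact hzero _ _ hω1 h
  have f10 : f 1 0 = 0 := by
    have h := ha 1 0
    rw [d0, d1, one_pow, one_mul] at h
    exact hzero _ _ hω1 h
  have f12 : f 1 2 = 0 := by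
    have h := ha 1 2
    rw [d2, d1, hωωp, ← mul_assoc] at h
    exact hzero _ _ hω2 h
  have f20 : f 2 0 = 0 := by
    have h := ha 2 0
    rw [d0, d2, one_pow, one_mul] at h
    exact hzero _ _ hω2 h
  have f21 : f 2 1 = 0 := by
    have h := ha 2 1
    rw [d2, d1, hωp, ← mul_assoc] at h
    refine hzero (ω * ω * (ω * ω)) _ ?_ h
    have e : ω * ω * (ω * ω) = ω := by linear_combination (ω * ω - ω) * hω
    rw [e]
    exact hω1
  have f11 : f 1 1 = f 0 0 := hb 0 0
  have f22 : f 2 2 = f 0 0 := by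
    rw [← f11]
    exact hb 1 1
  set c := f 0 0 with hc
  have hPP : ((P₀⁻¹ : GL (Fin 3) F) : Matrix (Fin 3) (Fin 3) F) * Pm = 1 := by
    rw [hPm, ← Units.val_mul, inv_mul_cancel, Units.val_one]
  have hPP' : Pm * ((P₀⁻¹ : GL (Fin 3) F) : Matrix (Fin 3) (Fin 3) F) = 1 := by
    rw [hPm, ← Units.val_mul, mul_inv_cancel, Units.val_one]
  have hv0 : v 0 ≠ 0 := by
    intro h
    have h1 := congrFun (congrFun hPP 0) 0
    rw [Matrix.mul_apply] at h1
    have h2 : ∀ k, Pm k 0 = 0 := fun k => congrFun h k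
    simp [h2] at h1
  have hc0 : c ≠ 0 := by
    intro h0
    apply hv0
    apply hermForm_nondegenerate_left hF 3
    intro y
    have e : y = Pm *ᵥ (((P₀⁻¹ : GL (Fin 3) F) : Matrix (Fin 3) (Fin 3) F) *ᵥ y) := by
      rw [Matrix.mulVec_mulVec, hPP', Matrix.one_mulVec]
    rw [e, mulVec_eq_sum_col, hermForm_sum_right hF]
    rw [Fin.sum_univ_three]
    have e0 : hermForm 3 F p (v 0) (fun i => Pm i 0) = c := rfl
    have e1 : hermForm 3 F p (v 0) (fun i => Pm i 1) = f 0 1 := rfl
    have e2 : hermForm 3 F p (v 0) (fun i => Pm i 2) = f 0 2 := rfl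
    rw [e0, e1, e2, f01, f02, h0]
    simp
  have hcq : c ^ p = c := hermForm_pow_q hF 3 (v 0) (v 0)
  obtain ⟨s, hs⟩ := exists_norm_eq hF c⁻¹ (inv_ne_zero hc0) (by rw [inv_pow, hcq])
  have hs0 : s ≠ 0 := by
    rintro rfl
    rw [zero_pow (by omega)] at hs
    exact inv_ne_zero hc0 hs.symm
  have hSdet : (s • (1 : Matrix (Fin 3) (Fin 3) F)).det ≠ 0 := by
    rw [Matrix.det_smul, Matrix.det_one]
    simp [hs0]
  let S : GL (Fin 3) F := Matrix.GeneralLinearGroup.mkOfDetNeZero _ hSdet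
  have hS : (S : Matrix (Fin 3) (Fin 3) F) = s • 1 := rfl
  have hPval : ((S * P₀ : GL (Fin 3) F) : Matrix (Fin 3) (Fin 3) F) = s • Pm := by
    rw [Units.val_mul, hS, Matrix.smul_mul, Matrix.one_mul]
  refine ⟨S * P₀, ⟨hFr.fin, hFr.ha, hFr.hb, hFr.hz, hFr.gens, hFr.hω, hFr.hz1, ?_, ?_⟩, ?_⟩
  · rw [hPval, Matrix.mul_smul, Matrix.smul_mul, hFr.hA]
  · rw [hPval, Matrix.mul_smul, Matrix.smul_mul, hFr.hB]
  · change Preserves p ((S * P₀ : GL (Fin 3) F) : Matrix (Fin 3) (Fin 3) F)
    rw [hPval, preserves_iff_frame hF]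
    intro i j
    have e : ∀ j : Fin 3, (fun i => (s • Pm) i j) = s • v j := fun j => rfl
    change hermForm 3 F p (fun k => (s • Pm) k i) (fun k => (s • Pm) k j) = _
    rw [e, e, hermForm_smul_left, hermForm_smul_right]
    have e' : s * (s ^ p * f i j) = c⁻¹ * f i j := by
      rw [← hs]
      ring
    change s * (s ^ p * f i j) = _
    rw [e']
    fin_cases i <;> fin_cases j <;> simp [f01, f02, f10, f12, f20, f21, f11, f22, inv_mul_cancel₀ hc0, ← hc]

/-- Elements of order prime to the characteristic that are conjugate in `GL` are conjugate in `SU`. -/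
theorem conj_of_GL_conj [Fact p.Prime] [CharP F p] (hF : Fintype.card F = p ^ 2) {x T G : GL (Fin 3) F}
    (hx : x ∈ Cfsg.GU 3 F p) (hT : T ∈ Cfsg.GU 3 F p) (hord : (orderOf x).Coprime p) (hG : G * T = x * G) :
    ∃ g ∈ Cfsg.GU 3 F p ⊓ Cfsg.Geo.specialLinear (Fin 3) F, g⁻¹ * x * g = T := by
  classical
  have hconj : IsConj x T := by
    rw [isConj_iff]
    refine ⟨G⁻¹, ?_⟩
    rw [inv_inv, mul_assoc, ← hG, inv_mul_cancel_left]
  have hGU := Cfsg.Agent.Lib.Classical.Herm.NormMat.isConj_of_GL hF (⟨x, hx⟩ : Cfsg.GU 3 F p) ⟨T, hT⟩ hconj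
  obtain ⟨c, hc⟩ := isConj_iff.1 hGU
  have hdc : ((c : GL (Fin 3) F) : Matrix (Fin 3) (Fin 3) F).det ^ (p + 1) = 1 :=
    det_pow_succ hF _ c.2
  have hdc0 : ((c : GL (Fin 3) F) : Matrix (Fin 3) (Fin 3) F).det ≠ 0 := by
    intro h0
    rw [h0, zero_pow (by omega)] at hdc
    exact zero_ne_one hdc
  have hz : (((c : GL (Fin 3) F) : Matrix (Fin 3) (Fin 3) F).det)⁻¹ ^ (p + 1) = 1 := by
    rw [inv_pow, hdc, inv_one]
  obtain ⟨d, hd1, hd2⟩ := Cfsg.Agent.Lib.Classical.Herm.SSCent.exists_det_commute hF (n := 3) (by norm_num)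
    (⟨x, hx⟩ : Cfsg.GU 3 F p) ((Cfsg.Agent.Lib.Linalg.SemisimpleClasses.orderOf_coprime_iff p _).1 hord) hz
  set e : Cfsg.GU 3 F p := c * d with he
  have hdet : ((e : GL (Fin 3) F) : Matrix (Fin 3) (Fin 3) F).det = 1 := by
    change (((c : GL (Fin 3) F) * (d : GL (Fin 3) F) : GL (Fin 3) F) : Matrix (Fin 3) (Fin 3) F).det = 1
    rw [Units.val_mul, Matrix.det_mul, hd2, mul_inv_cancel₀ hdc0]
  refine ⟨(e : GL (Fin 3) F)⁻¹, ⟨(Cfsg.GU 3 F p).inv_mem e.2, ?_⟩, ?_⟩
  · refine (Cfsg.Geo.specialLinear (Fin 3) F).inv_mem ?_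
    change Matrix.GeneralLinearGroup.det _ = 1
    apply Units.ext
    simpa using hdet
  · have h1 : (c : GL (Fin 3) F) * x * (c : GL (Fin 3) F)⁻¹ = T := congrArg Subtype.val hc
    have h2 : (d : GL (Fin 3) F) * x = x * (d : GL (Fin 3) F) := congrArg Subtype.val hd1
    rw [inv_inv, ← h1]
    change ((c : GL (Fin 3) F) * d) * x * ((c : GL (Fin 3) F) * d)⁻¹ = _
    calc ((c : GL (Fin 3) F) * d) * x * ((c : GL (Fin 3) F) * d)⁻¹
        = (c : GL (Fin 3) F) * ((d : GL (Fin 3) F) * x) * (d : GL (Fin 3) F)⁻¹ * (c : GL (Fin 3) F)⁻¹ := by group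
      _ = _ := by rw [h2]; group

/-- The permutation matrix is unitary. -/
theorem t₀_preserves : Preserves p (t₀ F) := by
  intro u v
  simp only [hermForm, Fin.sum_univ_three, t₀, Matrix.mulVec, dotProduct]
  simp
  ring

theorem scalar_preserves {c : F} (hc : c ^ (p + 1) = 1) : Preserves p (c • (1 : Matrix (Fin 3) (Fin 3) F)) := by
  have e : c • (1 : Matrix (Fin 3) (Fin 3) F) = Matrix.scalar (Fin 3) c := by
    ext i j
    simp [Matrix.scalar_apply, Matrix.one_apply, Matrix.diagonal_apply]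
  rw [e]
  exact preserves_scalar c hc

/-- The order of the special unitary group. -/
theorem card_inf (hF : Fintype.card F = p ^ 2) :
    Nat.card (Cfsg.GU 3 F p ⊓ Cfsg.Geo.specialLinear (Fin 3) F : Subgroup (GL (Fin 3) F)) =
      p ^ 3 * ((p ^ 2 - 1) * (p ^ 3 + 1)) := by
  classical
  have h1 := card_SU hF (n := 3) (by norm_num)
  simp only [Finset.prod_range_succ, Finset.prod_range_zero, one_mul] at h1
  norm_num at h1
  have hq : p ≠ 0 := by
    rintro rfl
    have h2 : 1 < Fintype.card F := Fintype.one_lt_card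
    rw [hF] at h2
    norm_num at h2
  have h3 : (p + 1) * Nat.card (Cfsg.SU 3 F p) = (p + 1) * (p ^ 3 * ((p ^ 2 - 1) * (p ^ 3 + 1))) := by
    rw [Nat.card_eq_fintype_card, h1]
    ring
  have h4 := Nat.eq_of_mul_eq_mul_left (by omega) h3
  rw [← h4]
  symm
  let φ : Cfsg.SU 3 F p → (Cfsg.GU 3 F p ⊓ Cfsg.Geo.specialLinear (Fin 3) F : Subgroup (GL (Fin 3) F)) := fun s =>
    ⟨Matrix.SpecialLinearGroup.toGL s.1, s.2, by
      change Matrix.GeneralLinearGroup.det _ = 1
      apply Units.ext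
      simp⟩
  apply Nat.card_eq_of_bijective φ
  constructor
  · intro s t hst
    apply Subtype.ext
    apply Matrix.SpecialLinearGroup.toGL_injective
    exact congrArg Subtype.val hst
  · rintro ⟨x, hx1, hx2⟩
    have hdet : (x : Matrix (Fin 3) (Fin 3) F).det = 1 := by
      have h1 : Matrix.GeneralLinearGroup.det x = 1 := hx2
      have := congrArg Units.val h1
      simpa using this
    refine ⟨mkSU _ hdet hx1, ?_⟩
    apply Subtype.ext
    apply Units.ext
    rfl

theorem not_dvd_arith' {m : ℕ} (hm : m % 9 = 1 ∨ m % 9 = 4) :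
    ¬ 81 ∣ (m + 1) ^ 3 * (m * (m + 2) * ((m + 1) ^ 3 + 1)) := by
  intro h
  have key : ∀ s : ZMod 81, (s.val % 9 = 1 ∨ s.val % 9 = 4) → (s + 1) ^ 3 * (s * (s + 2) * ((s + 1) ^ 3 + 1)) ≠ 0 := by
    decide
  have hv : ((m : ZMod 81)).val % 9 = m % 9 := by
    rw [ZMod.val_natCast]
    omega
  apply key (m : ZMod 81) (by rw [hv]; exact hm)
  have := (ZMod.natCast_eq_zero_iff _ 81).mpr h
  push_cast at this
  exact this

/-- Cube roots of unity are cubes of norm one elements when `9` divides `p + 1`. -/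
theorem exists_cube_root' (hF : Fintype.card F = p ^ 2) (hp : 2 ≤ p) (hp9 : p % 9 = 8) {s : F} (hs : s * s * s = 1) :
    ∃ w : F, w ≠ 0 ∧ w * w * w = s ∧ w ^ (p + 1) = 1 := by
  have hs0 : s ≠ 0 := by
    rintro rfl
    simp at hs
  obtain ⟨g, hg⟩ := IsCyclic.exists_monoid_generator (α := Fˣ)
  obtain ⟨k, hk⟩ := hg (Units.mk0 s hs0)
  have hord : orderOf g = p ^ 2 - 1 := by
    rw [orderOf_eq_card_of_forall_mem_zpowers (fun x => by
      obtain ⟨n, hn⟩ := hg x
      exact ⟨n, by simpa using hn⟩), Nat.card_units, Nat.card_eq_fintype_card, hF]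
  have h1 : g ^ (3 * k) = 1 := by
    rw [mul_comm, pow_mul]
    have hk' : g ^ k = Units.mk0 s hs0 := hk
    rw [hk']
    apply Units.ext
    simp [pow_succ, hs]
  have h2 : p ^ 2 - 1 ∣ 3 * k := by
    rw [← hord]
    exact orderOf_dvd_of_pow_eq_one h1
  obtain ⟨t, ht⟩ : ∃ t, p + 1 = 9 * t := ⟨(p + 1) / 9, by omega⟩
  obtain ⟨l, hl⟩ : ∃ l, p - 1 = l := ⟨_, rfl⟩
  have hp1 : p = l + 1 := by omega
  have e : p ^ 2 - 1 = 3 * (3 * (t * l)) := by
    rw [hp1] at ht ⊢
    have : (l + 1) ^ 2 - 1 = (l + 1 + 1) * l := by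
      apply Nat.sub_eq_of_eq_add
      ring
    rw [this, ht]
    ring
  rw [e] at h2
  obtain ⟨u, hu⟩ := Nat.dvd_of_mul_dvd_mul_left (by norm_num) h2
  rw [hu] at hk
  refine ⟨((g ^ (t * l * u) : Fˣ) : F), Units.ne_zero _, ?_, ?_⟩
  · have hk' : g ^ (3 * (t * l) * u) = Units.mk0 s hs0 := hk
    have h5 := congrArg Units.val hk'
    simp only [Units.val_mk0] at h5
    rw [← h5]
    simp only [← Units.val_mul, ← pow_add]
    congr 2
    ring
  · have h6 : g ^ (p ^ 2 - 1) = 1 := by
      rw [← hord]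
      exact pow_orderOf_eq_one g
    have h7 : (g ^ (t * l * u)) ^ (p + 1) = 1 := by
      have e2 : t * l * u * (p + 1) = (p ^ 2 - 1) * (t * u) := by
        rw [e, ht]
        ring
      rw [← pow_mul, e2, pow_mul, h6, one_pow]
    have := congrArg Units.val h7
    simpa using this

end Unitary

/-- Elements of prime order of PSU_3(p), p ≡ 2 (mod 3), and the normalizer of an extraspecial subgroup of order 27. -/
theorem result {F : Type*} [Field F] [Fintype F] {p : ℕ} [Fact p.Prime] [CharP F p] (hF : Fintype.card F = p ^ 2) (hp : 5 ≤ p) (hp3 : p % 3 = 2)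
    (R : Subgroup (GL (Fin 3) F)) (hRU : R ≤ Cfsg.GU 3 F p) (hR : Nat.card R = 27) (hRe : Monoid.exponent R = 3) (hRna : ¬ IsMulCommutative R)
    (r : ℕ) [Fact r.Prime]
    (hΩ : r ∣ (Cfsg.Geo.subgroupNormalizer R).relIndex (Cfsg.GU 3 F p ⊓ Cfsg.Geo.specialLinear (Fin 3) F)) :
    (∀ x ∈ Cfsg.GU 3 F p ⊓ Cfsg.Geo.specialLinear (Fin 3) F, (∃ z : F, ((x ^ r : GL (Fin 3) F) : Matrix (Fin 3) (Fin 3) F) = z • (1 : Matrix (Fin 3) (Fin 3) F)) →
      (∀ z : F, (x : Matrix (Fin 3) (Fin 3) F) ≠ z • (1 : Matrix (Fin 3) (Fin 3) F)) →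
      ∃ g ∈ Cfsg.GU 3 F p ⊓ Cfsg.Geo.specialLinear (Fin 3) F, g⁻¹ * x * g ∈ Cfsg.Geo.subgroupNormalizer R) ↔ (r = 2 ∨ (r = 3 ∧ p % 9 = 8)) := by
  classical
  have hpp : p.Prime := Fact.out
  have hcast : ∀ n : ℕ, ¬ p ∣ n → (n : F) ≠ 0 := by
    intro n hn h
    exact hn ((CharP.cast_eq_zero_iff F p n).mp h)
  have h3 : (3 : F) ≠ 0 := by
    have := hcast 3 (fun h => by have := Nat.le_of_dvd (by norm_num) h; omega)
    exact_mod_cast this
  have h2 : (2 : F) ≠ 0 := by
    have := hcast 2 (fun h => by have := Nat.le_of_dvd (by norm_num) h; omega)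
    exact_mod_cast this
  -- a primitive cube root of unity
  obtain ⟨ω₀, hω₀⟩ : ∃ ω₀ : F, ω₀ * ω₀ + ω₀ + 1 = 0 := by
    haveI : Fact (Nat.Prime 3) := ⟨Nat.prime_three⟩
    have hd : 3 ∣ Nat.card Fˣ := by
      rw [Nat.card_units, Nat.card_eq_fintype_card, hF]
      obtain ⟨l, rfl⟩ : ∃ l, p = 3 * l + 2 := ⟨p / 3, by omega⟩
      refine ⟨3 * l * l + 4 * l + 1, ?_⟩
      apply Nat.sub_eq_of_eq_add
      ring
    obtain ⟨u, hu⟩ := exists_prime_orderOf_dvd_card' 3 hd
    refine ⟨u, ?_⟩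
    have h1 : u ^ 3 = 1 := by rw [← hu]; exact pow_orderOf_eq_one u
    have h2 : ((u : F)) ^ 3 = 1 := by
      have := congrArg Units.val h1
      simpa using this
    have h3 : (u : F) ≠ 1 := by
      intro h
      have : u = 1 := Units.ext h
      rw [this, orderOf_one] at hu
      omega
    have h4 : ((u : F) - 1) * ((u : F) * (u : F) + (u : F) + 1) = 0 := by linear_combination h2
    exact (mul_eq_zero.mp h4).resolve_left (sub_ne_zero.mpr h3)
  obtain ⟨a, b, z, ω, P₀, hFr₀⟩ := exists_data' h3 hω₀ R hR hRe hRna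
  obtain ⟨P, hFr, hPU⟩ := exists_unitary_frame hF hp3 h3 hRU hFr₀
  have hdet : ∀ x ∈ Cfsg.Geo.specialLinear (Fin 3) F, (x : Matrix (Fin 3) (Fin 3) F).det = 1 := by
    intro x hx
    have h1 : Matrix.GeneralLinearGroup.det x = 1 := hx
    have := congrArg Units.val h1
    simpa using this
  have hmem : ∀ x : GL (Fin 3) F, (x : Matrix (Fin 3) (Fin 3) F).det = 1 → x ∈ Cfsg.Geo.specialLinear (Fin 3) F := by
    intro x hx
    change Matrix.GeneralLinearGroup.det x = 1
    apply Units.ext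
    simpa using hx
  have hPd : (P : Matrix (Fin 3) (Fin 3) F).det ≠ 0 := (Matrix.GeneralLinearGroup.det P).ne_zero
  set S : Subgroup (GL (Fin 3) F) := Cfsg.GU 3 F p ⊓ Cfsg.Geo.specialLinear (Fin 3) F with hS
  constructor
  · intro hL
    by_contra hcon
    push Not at hcon
    obtain ⟨hr2, hr3⟩ := hcon
    by_cases hr : r = 3
    · subst hr
      have h9 : p % 9 ≠ 8 := hr3 rfl
      -- the group lies in the special unitary group
      have hRK : R ≤ S := by
        refine le_inf hRU ?_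
        apply hFr.gens
        · apply hmem
          have h1 := congrArg Matrix.det hFr.hA
          rw [Matrix.det_mul, Matrix.det_mul, det_a₀ hFr.hω, mul_one, mul_comm] at h1
          exact mul_left_cancel₀ hPd (by rw [h1, mul_one])
        · apply hmem
          have h1 := congrArg Matrix.det hFr.hB
          rw [Matrix.det_mul, Matrix.det_mul, det_b₀, mul_one, mul_comm] at h1
          exact mul_left_cancel₀ hPd (by rw [h1, mul_one])
      have hRN : R ≤ Cfsg.Geo.subgroupNormalizer R := by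
        intro g hg
        exact mem_normalizer_of_conj hFr.fin fun h hh => R.mul_mem (R.mul_mem hg hh) (R.inv_mem hg)
      have h27 : 27 ∣ Nat.card ((Cfsg.Geo.subgroupNormalizer R).subgroupOf S) := by
        have h1 : R.subgroupOf S ≤ (Cfsg.Geo.subgroupNormalizer R).subgroupOf S :=
          fun g hg => Subgroup.mem_subgroupOf.mpr (hRN (Subgroup.mem_subgroupOf.mp hg))
        have h4 : Nat.card (R.subgroupOf S) = 27 := by
          rw [← hR]
          exact Nat.card_congr (Subgroup.subgroupOfEquivOfLe hRK).toEquiv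
        rw [← h4]
        exact Subgroup.card_dvd_of_le h1
      have hidx := Subgroup.index_mul_card ((Cfsg.Geo.subgroupNormalizer R).subgroupOf S)
      have h81 : 81 ∣ Nat.card S := by
        rw [← hidx]
        exact mul_dvd_mul hΩ h27
      rw [hS, card_inf hF] at h81
      obtain ⟨m, rfl⟩ : ∃ m, p = m + 1 := ⟨p - 1, by omega⟩
      have e : (m + 1) ^ 2 - 1 = m * (m + 2) := by
        apply Nat.sub_eq_of_eq_add
        ring
      rw [e] at h81
      exact not_dvd_arith' (by omega) h81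
    · have hdvd : r ∣ Nat.card S := hΩ.trans (Subgroup.relIndex_dvd_card _ _)
      obtain ⟨x, hx⟩ := exists_prime_orderOf_dvd_card' r hdvd
      have hxr : x ^ r = 1 := by rw [← hx]; exact pow_orderOf_eq_one x
      have hX : (x : GL (Fin 3) F) ^ r = 1 := by
        have := congrArg Subtype.val hxr
        simpa using this
      have hns : ∀ c : F, ((x : GL (Fin 3) F) : Matrix (Fin 3) (Fin 3) F) ≠ c • 1 := by
        intro c hc
        have hd := hdet x x.2.2
        rw [hc, Matrix.det_smul, Matrix.det_one] at hd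
        simp only [Fintype.card_fin, mul_one] at hd
        have h1 : (x : GL (Fin 3) F) ^ 3 = 1 := by
          apply Units.ext
          rw [Units.val_pow_eq_pow_val, hc, smul_pow, hd]
          simp
        have h4 : x ^ 3 = 1 := by
          apply Subtype.ext
          simpa using h1
        have h5 : r ∣ 3 := by
          rw [← hx]
          exact orderOf_dvd_of_pow_eq_one h4
        exact hr ((Nat.prime_dvd_prime_iff_eq Fact.out Nat.prime_three).mp h5)
      obtain ⟨g, hg, hy⟩ := hL x x.2 ⟨1, by rw [hX]; simp⟩ hns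
      have hyr : (g⁻¹ * (x : GL (Fin 3) F) * g) ^ r = 1 := by
        have := conj_pow (a := g⁻¹) (b := (x : GL (Fin 3) F)) (i := r)
        rw [inv_inv] at this
        rw [this, hX]
        simp
      obtain ⟨c, hc⟩ := scalar_of_norm hFr hR h3 hr2 hr hy hyr
      apply hns c
      have e : (x : GL (Fin 3) F) = g * (g⁻¹ * (x : GL (Fin 3) F) * g) * g⁻¹ := by group
      rw [e, Units.val_mul, Units.val_mul, hc]
      have hgg : (g : Matrix (Fin 3) (Fin 3) F) * ((g⁻¹ : GL (Fin 3) F) : Matrix (Fin 3) (Fin 3) F) = 1 := by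
        rw [← Units.val_mul, mul_inv_cancel, Units.val_one]
      simp only [Matrix.mul_smul, Matrix.smul_mul, Matrix.mul_one, hgg]
  · have hcub : ∀ w : F, w * w * w = 1 → w ^ (p + 1) = 1 := by
      intro w hw
      obtain ⟨l, hl⟩ : ∃ l, p + 1 = 3 * l := ⟨(p + 1) / 3, by omega⟩
      rw [hl, pow_mul, show w ^ 3 = 1 by rw [pow_succ, pow_two]; exact hw, one_pow]
    have hodd : Odd (p + 1) → False := by
      intro h
      rcases hpp.eq_two_or_odd' with h2 | h2
      · omega
      · obtain ⟨k, hk⟩ := h2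
        obtain ⟨m, hm⟩ := h
        omega
    rintro (rfl | ⟨rfl, h9⟩) x hx ⟨s, hs⟩ hns
    · obtain ⟨G, T, c, hT, hc, hG⟩ := conj_two' hFr h2 x (hdet x hx.2) (s := s) (by
        rw [← hs, pow_two]
        rfl) hns
      have hs' : (x : Matrix (Fin 3) (Fin 3) F) * x = s • 1 := by
        rw [← hs, pow_two]
        rfl
      have hs3 : s * s * s = 1 := by
        have h1 := congrArg Matrix.det hs'
        rw [Matrix.det_mul, hdet x hx.2, Matrix.det_smul, Matrix.det_one] at h1
        simp only [Fintype.card_fin] at h1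
        linear_combination -h1
      have hTU : T ∈ Cfsg.GU 3 F p := by
        change Preserves p (T : Matrix (Fin 3) (Fin 3) F)
        rw [hT]
        exact t₀_preserves
      have hwn : (-(s * s)) ^ (p + 1) = 1 := by
        rw [neg_pow, (by
          rcases Nat.even_or_odd (p + 1) with h | h
          · exact h.neg_one_pow
          · exact (hodd h).elim : (-1 : F) ^ (p + 1) = 1), one_mul]
        apply hcub
        calc s * s * (s * s) * (s * s) = (s * s * s) * (s * s * s) := by ring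
          _ = 1 := by rw [hs3]; ring
      have hcU : c ∈ Cfsg.GU 3 F p := by
        change Preserves p (c : Matrix (Fin 3) (Fin 3) F)
        rw [hc]
        exact scalar_preserves hwn
      have hTm : c * (P * T * P⁻¹) ∈ Cfsg.GU 3 F p :=
        (Cfsg.GU 3 F p).mul_mem hcU ((Cfsg.GU 3 F p).mul_mem ((Cfsg.GU 3 F p).mul_mem hPU hTU) ((Cfsg.GU 3 F p).inv_mem hPU))
      have hN : c * (P * T * P⁻¹) ∈ Cfsg.Geo.subgroupNormalizer R :=
        Subgroup.mul_mem _ (hFr.scalar_norm c hc) (hFr.t_norm T hT)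
      have hord : (orderOf x).Coprime p := by
        have h6 : x ^ 6 = 1 := by
          apply Units.ext
          rw [Units.val_pow_eq_pow_val, show (6 : ℕ) = 2 * 3 by norm_num, pow_mul, ← Units.val_pow_eq_pow_val, hs, Units.val_one]
          have e3 : s * (s * s) = 1 := by rw [← hs3]; ring
          simp [pow_succ, smul_smul, e3]
        have hd : orderOf x ∣ 6 := orderOf_dvd_of_pow_eq_one h6
        refine Nat.Coprime.coprime_dvd_left hd ?_
        refine Nat.Coprime.symm ((Nat.Prime.coprime_iff_not_dvd hpp).mpr fun h => ?_)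
        have := Nat.le_of_dvd (by norm_num) h
        have h4 : p = 5 ∨ p = 6 := by omega
        rcases h4 with rfl | rfl
        · omega
        · omega
      obtain ⟨g, hg, hgx⟩ := conj_of_GL_conj hF hx.1 hTm hord hG
      exact ⟨g, hg, by rw [hgx]; exact hN⟩
    · have hs' : (x : Matrix (Fin 3) (Fin 3) F) * x * x = s • 1 := by
        rw [← hs, pow_succ, pow_two]
        rfl
      have hs3 : s * s * s = 1 := by
        have h1 := congrArg Matrix.det hs'
        rw [Matrix.det_mul, Matrix.det_mul, hdet x hx.2, Matrix.det_smul, Matrix.det_one] at h1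
        simp only [Fintype.card_fin] at h1
        linear_combination -h1
      obtain ⟨w, hw0, hw, hwn⟩ := exists_cube_root' hF (by omega) h9 hs3
      obtain ⟨G, c, D, hc, ⟨c₀, c₁, c₂, hc₀, hc₁, hc₂, hD⟩, hG⟩ := conj_three' hFr h3 x hw0 hw hs'
      have hDU : D ∈ Cfsg.GU 3 F p := by
        change Preserves p (D : Matrix (Fin 3) (Fin 3) F)
        rw [hD]
        apply preserves_diagonal
        intro k
        fin_cases k
        · exact hcub _ hc₀
        · exact hcub _ hc₁
        · exact hcub _ hc₂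
      have hcU : c ∈ Cfsg.GU 3 F p := by
        change Preserves p (c : Matrix (Fin 3) (Fin 3) F)
        rw [hc]
        exact scalar_preserves hwn
      have hTm : c * (P * D * P⁻¹) ∈ Cfsg.GU 3 F p :=
        (Cfsg.GU 3 F p).mul_mem hcU ((Cfsg.GU 3 F p).mul_mem ((Cfsg.GU 3 F p).mul_mem hPU hDU) ((Cfsg.GU 3 F p).inv_mem hPU))
      have hN : c * (P * D * P⁻¹) ∈ Cfsg.Geo.subgroupNormalizer R :=
        Subgroup.mul_mem _ (hFr.scalar_norm c hc) (hFr.diag_norm hc₀ hc₁ hc₂ D hD)
      have hord : (orderOf x).Coprime p := by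
        have h6 : x ^ 9 = 1 := by
          apply Units.ext
          rw [Units.val_pow_eq_pow_val, show (9 : ℕ) = 3 * 3 by norm_num, pow_mul, ← Units.val_pow_eq_pow_val, hs, Units.val_one]
          have e3 : s * (s * s) = 1 := by rw [← hs3]; ring
          simp [pow_succ, smul_smul, e3]
        have hd : orderOf x ∣ 3 ^ 2 := by
          have := orderOf_dvd_of_pow_eq_one h6
          simpa using this
        refine Nat.Coprime.coprime_dvd_left hd ?_
        refine Nat.Coprime.symm (Nat.Coprime.pow_right _ ((Nat.Prime.coprime_iff_not_dvd hpp).mpr fun h => ?_))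
        have := Nat.le_of_dvd (by norm_num) h
        omega
      obtain ⟨g, hg, hgx⟩ := conj_of_GL_conj hF hx.1 hTm hord hG
      exact ⟨g, hg, by rw [hgx]; exact hN⟩

end Cfsg.Agent.S5999
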