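import Cfsg.Statements.S6000
import Cfsg.Agent.Lib.TwoSix.Neg

set_option autoImplicit false
open scoped MatrixGroups
open Cfsg

namespace Cfsg.Agent.S6000

open Cfsg.Agent.Lib.TwoSix

/-- The group and its frame from the hypotheses. -/
theorem exists_frame {F : Type*} [Field F] [Fintype F] (h2 : (2 : F) ≠ 0)
    (R : Subgroup (GL (Fin 4) F)) (hR : Cfsg.Geo.IsLinearSymplecticTypeData 2 R) (hR6 : Nat.card R = 2 ^ 6) :
    ∃ (i : F) (ι u v g h P : GL (Fin 4) F), Pauli R i ι u v g h P := by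
  have hZ : Nat.card (Subgroup.center R) = 4 := by
    obtain ⟨q, e, hne, hmin, hcases⟩ := hR.field
    rcases hcases with ⟨h, _⟩ | ⟨_, _, h, _⟩ | ⟨_, _, hc, _⟩
    · exact absurd h (by decide)
    · exact h
    · simp at hc
  exact exists_pauli h2 R hR.symplecticType hR.absIrred.2 hR6 hZ

/-- Fifth roots of unity and square roots of five. -/
theorem exists_golden {F : Type*} [Field F] [Fintype F] {p : ℕ} [Fact p.Prime] [CharP F p] (h2 : (2 : F) ≠ 0) (hp5 : p ≠ 5)
    (hord : (p : ZMod 5) = 1 ∨ (p : ZMod 5) = 4) : ∃ t : F, t * t + t - 1 = 0 := by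
  have hp : p.Prime := Fact.out
  haveI : Fact (Nat.Prime 5) := ⟨by norm_num⟩
  have hp2 : p ≠ 2 := by
    rintro rfl
    apply h2
    have := CharP.cast_eq_zero F 2
    exact_mod_cast this
  have hsq : IsSquare (p : ZMod 5) := by
    rcases hord with h | h
    · rw [h]
      exact ⟨1, by rw [one_mul]⟩
    · rw [h]
      exact ⟨2, by norm_num⟩
  obtain ⟨a, ha⟩ := (ZMod.exists_sq_eq_prime_iff_of_mod_four_eq_one (p := 5) (q := p) (by norm_num) hp2).1 hsq
  let φ : ZMod p →+* F := ZMod.castHom (dvd_refl p) F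
  have hb : φ a * φ a = 5 := by
    rw [← map_mul, ← ha]
    simp [map_ofNat]
  have ha' : (2 : F) * 2⁻¹ = 1 := mul_inv_cancel₀ h2
  refine ⟨(φ a - 1) * 2⁻¹, ?_⟩
  generalize (2 : F)⁻¹ = c at ha' ⊢
  generalize φ a = b at hb ⊢
  linear_combination c ^ 2 * hb + ((3 - b) * c + 1) * ha'

/-- Order three: an element which is not moved into the normalizer. -/
theorem neg_three {F : Type*} [Field F] [Fintype F] {p : ℕ} [Fact p.Prime] [CharP F p] (hF : Fintype.card F = p)
    (h2 : (2 : F) ≠ 0) (hp3 : p % 3 = 1) {R : Subgroup (GL (Fin 4) F)} {i : F} {ι u v g h P : GL (Fin 4) F}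
    (hFr : Pauli R i ι u v g h P)
    (hL : ∀ x ∈ Cfsg.Geo.specialLinear (Fin 4) F, (∃ z : F, ((x ^ 3 : GL (Fin 4) F) : Matrix (Fin 4) (Fin 4) F) = z • (1 : Matrix (Fin 4) (Fin 4) F)) →
      (∀ z : F, (x : Matrix (Fin 4) (Fin 4) F) ≠ z • (1 : Matrix (Fin 4) (Fin 4) F)) →
      ∃ g ∈ Cfsg.Geo.specialLinear (Fin 4) F, g⁻¹ * x * g ∈ Cfsg.Geo.subgroupNormalizer R) : False := by
  classical
  have hp : p.Prime := Fact.out
  have hp2 := hp.two_le
  have h3 : (3 : F) ≠ 0 := by
    intro h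
    have h1 : ((3 : ℕ) : F) = 0 := by exact_mod_cast h
    rw [CharP.cast_eq_zero_iff F p] at h1
    have := (Nat.prime_dvd_prime_iff_eq hp Nat.prime_three).mp h1
    subst this
    omega
  -- a cube root of unity
  obtain ⟨ω, hω⟩ : ∃ ω : F, ω * ω + ω + 1 = 0 := by
    haveI : Fact (Nat.Prime 3) := ⟨Nat.prime_three⟩
    have hd : 3 ∣ Fintype.card Fˣ := by
      rw [Fintype.card_units, hF]
      omega
    obtain ⟨ζ, hζ⟩ := exists_prime_orderOf_dvd_card 3 hd
    refine ⟨ζ, ?_⟩
    have h1 : (ζ : F) ^ 3 = 1 := by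
      have := congrArg Units.val (hζ ▸ pow_orderOf_eq_one ζ)
      simpa using this
    have h4 : (ζ : F) ≠ 1 := by
      intro h5
      have : ζ = 1 := Units.ext h5
      rw [this, orderOf_one] at hζ
      norm_num at hζ
    have h5 : ((ζ : F) - 1) * ((ζ : F) * ζ + ζ + 1) = 0 := by linear_combination h1
    exact (mul_eq_zero.mp h5).resolve_left (sub_ne_zero.mpr h4)
  have hω1 : ω ≠ 1 := by
    rintro rfl
    apply h3
    linear_combination hω
  have hω3 : ω * ω * ω = 1 := by linear_combination (ω - 1) * hω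
  obtain ⟨x, hx, hxi⟩ := exists_x3 hω
  have hx3 : x ^ 3 = 1 := by
    apply Units.ext
    rw [Units.val_pow_eq_pow_val, hx, Units.val_one, Matrix.diagonal_pow, ← Matrix.diagonal_one]
    congr 1
    ext j
    fin_cases j <;> simp [pow_three, mul_assoc] <;> linear_combination hω3
  have hdet : x ∈ Cfsg.Geo.specialLinear (Fin 4) F := by
    change Matrix.GeneralLinearGroup.det x = 1
    apply Units.ext
    change (x : Matrix (Fin 4) (Fin 4) F).det = 1
    rw [hx, Matrix.det_diagonal, Fin.prod_univ_four]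
    simp
    exact hω3
  have hns : ∀ z : F, (x : Matrix (Fin 4) (Fin 4) F) ≠ z • (1 : Matrix (Fin 4) (Fin 4) F) := by
    intro z hz
    rw [hx] at hz
    have h0 := congrFun (congrFun hz 0) 0
    have h3' := congrFun (congrFun hz 3) 3
    simp at h0 h3'
    exact hω1 (by rw [h0, h3'])
  obtain ⟨g₀, _, hg⟩ := hL x hdet ⟨1, by rw [hx3]; simp⟩ hns
  have hy3 := Pauli.conj_pow_eq_one g₀ x hx3
  have htr : Matrix.trace ((g₀⁻¹ * x * g₀ : GL (Fin 4) F) : Matrix (Fin 4) (Fin 4) F) *
      Matrix.trace (((g₀⁻¹ * x * g₀)⁻¹ : GL (Fin 4) F) : Matrix (Fin 4) (Fin 4) F) = 7 := by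
    rw [Pauli.trace_conj, Pauli.trace_conj_inv, hx, hxi]
    simp [Matrix.trace, Fin.sum_univ_four]
    linear_combination (9 * (ω - 1) + 3) * hω
  obtain ⟨c, hc⟩ := hFr.scalar_of_three h2 h3 hg hy3 htr
  exact hns c (Pauli.scalar_of_conj hc)

/-- Order five, characteristic different from five. -/
theorem neg_five {F : Type*} [Field F] {R : Subgroup (GL (Fin 4) F)} {i : F} {ι u v g h P : GL (Fin 4) F}
    (hFr : Pauli R i ι u v g h P) (h2 : (2 : F) ≠ 0) (h5 : (5 : F) ≠ 0) {t : F} (hq : t * t + t - 1 = 0)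
    (hL : ∀ x ∈ Cfsg.Geo.specialLinear (Fin 4) F, (∃ z : F, ((x ^ 5 : GL (Fin 4) F) : Matrix (Fin 4) (Fin 4) F) = z • (1 : Matrix (Fin 4) (Fin 4) F)) →
      (∀ z : F, (x : Matrix (Fin 4) (Fin 4) F) ≠ z • (1 : Matrix (Fin 4) (Fin 4) F)) →
      ∃ g ∈ Cfsg.Geo.specialLinear (Fin 4) F, g⁻¹ * x * g ∈ Cfsg.Geo.subgroupNormalizer R) : False := by
  classical
  obtain ⟨x, hx, hxi, hx5⟩ := exists_x5 hq
  have hdet : x ∈ Cfsg.Geo.specialLinear (Fin 4) F := by
    change Matrix.GeneralLinearGroup.det x = 1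
    apply Units.ext
    change (x : Matrix (Fin 4) (Fin 4) F).det = 1
    rw [hx, A5_det]
  have hns : ∀ z : F, (x : Matrix (Fin 4) (Fin 4) F) ≠ z • (1 : Matrix (Fin 4) (Fin 4) F) := by
    intro z hz
    rw [hx] at hz
    have h0 := congrFun (congrFun hz 0) 1
    have h3' := congrFun (congrFun hz 0) 0
    have h4 := congrFun (congrFun hz 3) 3
    simp [A5] at h0 h3' h4
  obtain ⟨g₀, _, hg⟩ := hL x hdet ⟨1, by rw [hx5]; simp⟩ hns
  have hy5 := Pauli.conj_pow_eq_one g₀ x hx5
  have htr : Matrix.trace ((g₀⁻¹ * x * g₀ : GL (Fin 4) F) : Matrix (Fin 4) (Fin 4) F) *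
      Matrix.trace (((g₀⁻¹ * x * g₀)⁻¹ : GL (Fin 4) F) : Matrix (Fin 4) (Fin 4) F) = 3 * t + 5 := by
    rw [Pauli.trace_conj, Pauli.trace_conj_inv, hx, hxi]
    simp [Matrix.trace, Fin.sum_univ_four, A5, B5]
    linear_combination hq
  obtain ⟨c, hc⟩ := hFr.scalar_of_five h2 h5 hg hy5 hq htr
  exact hns c (Pauli.scalar_of_conj hc)

/-- Order five in characteristic five: transvections. -/
theorem neg_transvection {F : Type*} [Field F] {R : Subgroup (GL (Fin 4) F)} {i : F} {ι u v g h P : GL (Fin 4) F}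
    (hFr : Pauli R i ι u v g h P) (h2 : (2 : F) ≠ 0) (h5 : (5 : F) = 0)
    (hL : ∀ x ∈ Cfsg.Geo.specialLinear (Fin 4) F, (∃ z : F, ((x ^ 5 : GL (Fin 4) F) : Matrix (Fin 4) (Fin 4) F) = z • (1 : Matrix (Fin 4) (Fin 4) F)) →
      (∀ z : F, (x : Matrix (Fin 4) (Fin 4) F) ≠ z • (1 : Matrix (Fin 4) (Fin 4) F)) →
      ∃ g ∈ Cfsg.Geo.specialLinear (Fin 4) F, g⁻¹ * x * g ∈ Cfsg.Geo.subgroupNormalizer R) : False := by
  classical
  obtain ⟨x, a, b, hx, hxi, hdot, ha, hb⟩ := exists_transvection (F := F)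
  have hN : Matrix.vecMulVec a b * Matrix.vecMulVec a b = 0 := by
    rw [Matrix.vecMulVec_mul_vecMulVec, hdot]
    simp
  have hpow : ∀ k : ℕ, (x ^ k : GL (Fin 4) F).val = 1 + (k : F) • Matrix.vecMulVec a b := by
    intro k
    induction k with
    | zero => simp
    | succ k ih =>
      rw [pow_succ, Units.val_mul, ih, hx]
      simp only [Matrix.mul_add, Matrix.add_mul, Matrix.mul_one, Matrix.one_mul, Matrix.smul_mul, hN]
      push_cast
      module
  have hx5 : x ^ 5 = 1 := by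
    apply Units.ext
    rw [hpow]
    push_cast
    rw [h5]
    simp
  have hdet : x ∈ Cfsg.Geo.specialLinear (Fin 4) F := by
    change Matrix.GeneralLinearGroup.det x = 1
    apply Units.ext
    change (x : Matrix (Fin 4) (Fin 4) F).det = 1
    rw [hx, Matrix.vecMulVec_eq Unit, Matrix.det_one_add_replicateCol_mul_replicateRow, hdot, add_zero]
  have hns : ∀ z : F, (x : Matrix (Fin 4) (Fin 4) F) ≠ z • (1 : Matrix (Fin 4) (Fin 4) F) := by
    intro z hz
    rw [hx] at hz
    have h0 := congrFun (congrFun hz 0) 1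
    have h1 := congrFun (congrFun hz 0) 0
    have h2' := congrFun (congrFun hz 1) 1
    simp [Matrix.vecMulVec_apply, Matrix.one_apply] at h0 h1 h2'
    rcases h0 with h0 | h0
    · exact ha h0
    · exact hb h0
  obtain ⟨g₀, _, hg⟩ := hL x hdet ⟨1, by rw [hx5]; simp⟩ hns
  have hgg' : ((g₀⁻¹ : GL (Fin 4) F) : Matrix (Fin 4) (Fin 4) F) * (g₀ : Matrix (Fin 4) (Fin 4) F) = 1 := by
    rw [← Units.val_mul, inv_mul_cancel, Units.val_one]
  have hv : ((g₀⁻¹ : GL (Fin 4) F) : Matrix (Fin 4) (Fin 4) F) * Matrix.vecMulVec a b * (g₀ : Matrix (Fin 4) (Fin 4) F) =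
      Matrix.vecMulVec (((g₀⁻¹ : GL (Fin 4) F) : Matrix (Fin 4) (Fin 4) F).mulVec a) (Matrix.vecMul b (g₀ : Matrix (Fin 4) (Fin 4) F)) := by
    rw [Matrix.mul_vecMulVec, Matrix.vecMulVec_mul]
  have hy1 : ((g₀⁻¹ * x * g₀ : GL (Fin 4) F) : Matrix (Fin 4) (Fin 4) F) = 1 + Matrix.vecMulVec (((g₀⁻¹ : GL (Fin 4) F) : Matrix (Fin 4) (Fin 4) F).mulVec a) (Matrix.vecMul b (g₀ : Matrix (Fin 4) (Fin 4) F)) := by
    rw [Units.val_mul, Units.val_mul, hx, Matrix.mul_add, Matrix.add_mul, Matrix.mul_one, hgg', hv]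
  have hy2 : (((g₀⁻¹ * x * g₀)⁻¹ : GL (Fin 4) F) : Matrix (Fin 4) (Fin 4) F) = 1 - Matrix.vecMulVec (((g₀⁻¹ : GL (Fin 4) F) : Matrix (Fin 4) (Fin 4) F).mulVec a) (Matrix.vecMul b (g₀ : Matrix (Fin 4) (Fin 4) F)) := by
    have e : (g₀⁻¹ * x * g₀)⁻¹ = g₀⁻¹ * x⁻¹ * g₀ := by group
    rw [e, Units.val_mul, Units.val_mul, hxi, Matrix.mul_sub, Matrix.sub_mul, Matrix.mul_one, hgg', hv]
  obtain ⟨c, hc⟩ := hFr.scalar_of_rank_one h2 hg hy1 hy2
  exact hns c (Pauli.scalar_of_conj hc)

theorem orderOf_two_five : orderOf (2 : ZMod 5) = 4 := by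
  haveI : Fact (Nat.Prime 2) := ⟨Nat.prime_two⟩
  have := orderOf_eq_prime_pow (p := 2) (n := 1) (x := (2 : ZMod 5)) (by decide) (by decide)
  simpa using this

theorem orderOf_three_five : orderOf (3 : ZMod 5) = 4 := by
  haveI : Fact (Nat.Prime 2) := ⟨Nat.prime_two⟩
  have := orderOf_eq_prime_pow (p := 2) (n := 1) (x := (3 : ZMod 5)) (by decide) (by decide)
  simpa using this

/-- Elements of prime order of PSL_4(p), p ≡ 1 (mod 4), and the normalizer of a 2-group of symplectic type of order 2⁶. Here `T = PSL_4(F)` for the field `F` with `p` elements, `p` a prime with `p ≡ 1 (mod 4)`; `R` is an absolutely irreducible subgroup of GL_4(F) of order 2⁶ that is a 2-group of symplectic type of exponent 4 with centre of order 4 (the central product of the scalars of order 4 with an extraspecial group 2^{1+4}), and `H` is the subgroup of matrices of determinant 1 normalizing `R` — a subgroup of type 2⁴.Sp₄(2) (maximality is not assumed). Ω is the set of cosets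 of `H` in `T`, so an element of `T` of prime order `r` (a matrix `x` of determinant 1 with `x^r` scalar, `x` not scalar) fixes a point of Ω exactly when some conjugate of `x` by a matrix of determinant 1 normalizes `R`. Let `r` be a prime dividing the index of `H`. Then every element of `T` of order `r` fixes a point of Ω if and only if `r = 2`, or `r = 3` and `p ≡ 2 (mod 3)`, or `r = 5` and `p ≡ ±2 (mod 5)` (`p` has multiplicative order 4 modulo 5). -/
theorem result {F : Type*} [Field F] [Fintype F] {p : ℕ} [Fact p.Prime] [CharP F p] (hF : Fintype.card F = p) (hp4 : p % 4 = 1)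
    (R : Subgroup (GL (Fin 4) F)) (hR : Cfsg.Geo.IsLinearSymplecticTypeData 2 R) (hR6 : Nat.card R = 2 ^ 6)
    (r : ℕ) [Fact r.Prime]
    (hΩ : r ∣ (Cfsg.Geo.subgroupNormalizer R).relIndex (Cfsg.Geo.specialLinear (Fin 4) F)) :
    (∀ x ∈ Cfsg.Geo.specialLinear (Fin 4) F, (∃ z : F, ((x ^ r : GL (Fin 4) F) : Matrix (Fin 4) (Fin 4) F) = z • (1 : Matrix (Fin 4) (Fin 4) F)) →
      (∀ z : F, (x : Matrix (Fin 4) (Fin 4) F) ≠ z • (1 : Matrix (Fin 4) (Fin 4) F)) →
      ∃ g ∈ Cfsg.Geo.specialLinear (Fin 4) F, g⁻¹ * x * g ∈ Cfsg.Geo.subgroupNormalizer R) ↔ (r = 2 ∨ (r = 3 ∧ p % 3 = 2) ∨ (r = 5 ∧ orderOf (p : ZMod 5) = 4)) := by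
  classical
  have hp : p.Prime := Fact.out
  have hp2 := hp.two_le
  have hpo : p ≠ 2 := by
    rintro rfl
    omega
  have h2 : (2 : F) ≠ 0 := by
    intro h
    have h1 : ((2 : ℕ) : F) = 0 := by exact_mod_cast h
    rw [CharP.cast_eq_zero_iff F p] at h1
    exact hpo ((Nat.prime_dvd_prime_iff_eq hp Nat.prime_two).mp h1)
  obtain ⟨i, ι, u, v, g, h, P, hFr⟩ := exists_frame h2 R hR hR6
  have hdet : ∀ x ∈ Cfsg.Geo.specialLinear (Fin 4) F, (x : Matrix (Fin 4) (Fin 4) F).det = 1 := by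
    intro x hx
    have h1 : Matrix.GeneralLinearGroup.det x = 1 := hx
    have := congrArg Units.val h1
    simpa using this
  have hmem : ∀ x : GL (Fin 4) F, (x : Matrix (Fin 4) (Fin 4) F).det = 1 → x ∈ Cfsg.Geo.specialLinear (Fin 4) F := by
    intro x hx
    change Matrix.GeneralLinearGroup.det x = 1
    apply Units.ext
    simpa using hx
  constructor
  · intro hL
    by_contra hcon
    push Not at hcon
    obtain ⟨hr2, hr3, hr5⟩ := hcon
    by_cases h3 : r = 3
    · subst h3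
      have hp3 : p % 3 = 1 := by
        have h3' := hr3 rfl
        have h0 : p % 3 ≠ 0 := by
          intro h0
          have := (Nat.prime_dvd_prime_iff_eq Nat.prime_three hp).mp (Nat.dvd_of_mod_eq_zero h0)
          omega
        omega
      exact neg_three hF h2 hp3 hFr hL
    by_cases h5 : r = 5
    · subst h5
      have hord := hr5 rfl
      by_cases hp5 : p = 5
      · subst hp5
        apply neg_transvection hFr h2 _ hL
        exact_mod_cast CharP.cast_eq_zero F 5
      · have h5' : (5 : F) ≠ 0 := by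
          intro h
          have h1 : ((5 : ℕ) : F) = 0 := by exact_mod_cast h
          rw [CharP.cast_eq_zero_iff F p] at h1
          exact hp5 ((Nat.prime_dvd_prime_iff_eq hp (by norm_num)).mp h1)
        have hcases : (p : ZMod 5) = 1 ∨ (p : ZMod 5) = 4 := by
          have h0 : p % 5 ≠ 0 := by
            intro h0
            exact hp5 ((Nat.prime_dvd_prime_iff_eq (by norm_num) hp).mp (Nat.dvd_of_mod_eq_zero h0)).symm
          have hlt : p % 5 < 5 := Nat.mod_lt _ (by norm_num)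
          have e : (p : ZMod 5) = ((p % 5 : ℕ) : ZMod 5) := (ZMod.natCast_mod p 5).symm
          have hc : p % 5 = 1 ∨ p % 5 = 2 ∨ p % 5 = 3 ∨ p % 5 = 4 := by omega
          rcases hc with hc | hc | hc | hc
          · left
            rw [e, hc]
            rfl
          · exfalso
            apply hord
            rw [e, hc]
            exact orderOf_two_five
          · exfalso
            apply hord
            rw [e, hc]
            exact orderOf_three_five
          · right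
            rw [e, hc]
            rfl
        obtain ⟨t, ht⟩ := exists_golden (F := F) h2 hp5 hcases
        exact neg_five hFr h2 h5' ht hL
    · have hdvd : r ∣ Nat.card (Cfsg.Geo.specialLinear (Fin 4) F) := hΩ.trans (Subgroup.relIndex_dvd_card _ _)
      obtain ⟨x, hx⟩ := exists_prime_orderOf_dvd_card' r hdvd
      have hxr : x ^ r = 1 := by rw [← hx]; exact pow_orderOf_eq_one x
      have hX : (x : GL (Fin 4) F) ^ r = 1 := by
        have := congrArg Subtype.val hxr
        simpa using this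
      have hns : ∀ c : F, ((x : GL (Fin 4) F) : Matrix (Fin 4) (Fin 4) F) ≠ c • 1 := by
        intro c hc
        have hd := hdet x x.2
        rw [hc, Matrix.det_smul, Matrix.det_one] at hd
        simp only [Fintype.card_fin, mul_one] at hd
        have h1 : (x : GL (Fin 4) F) ^ 4 = 1 := by
          apply Units.ext
          rw [Units.val_pow_eq_pow_val, hc, smul_pow, hd]
          simp
        have h4 : x ^ 4 = 1 := by
          apply Subtype.ext
          simpa using h1
        have h6 : r ∣ 4 := by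
          rw [← hx]
          exact orderOf_dvd_of_pow_eq_one h4
        have h7 : r ∣ 2 := by
          have : (4 : ℕ) = 2 ^ 2 := by norm_num
          rw [this] at h6
          exact (Fact.out : r.Prime).dvd_of_dvd_pow h6
        exact hr2 ((Nat.prime_dvd_prime_iff_eq Fact.out Nat.prime_two).mp h7)
      obtain ⟨g₀, hg, hy⟩ := hL x x.2 ⟨1, by rw [hX]; simp⟩ hns
      have hyr := Pauli.conj_pow_eq_one g₀ (x : GL (Fin 4) F) hX
      obtain ⟨c, hc⟩ := hFr.scalar_of_norm h2 hr2 h3 h5 hy hyr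
      exact hns c (Pauli.scalar_of_conj hc)
  · rintro (rfl | ⟨rfl, hp3⟩ | ⟨rfl, hord⟩) x hx ⟨s, hs⟩ hns
    · obtain ⟨g₀, hg1, hg2⟩ := hFr.conj_two h2 x (hdet x hx) (s := s) (by
        rw [← hs, pow_two]
        rfl)
      exact ⟨g₀, hmem g₀ hg1, hg2⟩
    · obtain ⟨g₀, hg1, hg2⟩ := hFr.conj_three hF h2 hp3 x hs hns
      exact ⟨g₀, hmem g₀ hg1, hg2⟩
    · obtain ⟨g₀, hg1, hg2⟩ := hFr.conj_five hF h2 hord x hs hns
      exact ⟨g₀, hmem g₀ hg1, hg2⟩

end Cfsg.Agent.S6000
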