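import Cfsg.Statements.S6001
import Cfsg.Agent.Lib.TwoSix.UNeg

set_option autoImplicit false
open scoped MatrixGroups Matrix
open Cfsg
open Cfsg.Agent.Lib.Classical.Herm.Basic Cfsg.Agent.Lib.Classical.Herm.Form
open Cfsg.Agent.Lib.Classical.Herm.GU Cfsg.Agent.Lib.Classical.Herm.SU

namespace Cfsg.Agent.S6001

open Cfsg.Agent.Lib.TwoSix

variable {F : Type*} [Field F] [Fintype F] {p : ℕ}

/-- Square roots of five modulo `p` when `p` is a square modulo five, moved into `F`. -/
theorem exists_golden' [Fact p.Prime] [CharP F p] (h2 : (2 : F) ≠ 0) (hp5 : p ≠ 5) (hp2 : p ≠ 2)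
    (hord : (p : ZMod 5) = 1 ∨ (p : ZMod 5) = 4) : ∃ t : F, t * t + t - 1 = 0 ∧ t ^ p = t := by
  haveI : Fact (Nat.Prime 5) := ⟨by norm_num⟩
  have hsq : IsSquare (p : ZMod 5) := by
    rcases hord with h | h
    · rw [h]
      exact ⟨1, by rw [one_mul]⟩
    · rw [h]
      exact ⟨2, by norm_num⟩
  obtain ⟨a, ha⟩ := (ZMod.exists_sq_eq_prime_iff_of_mod_four_eq_one (p := 5) (q := p) (by norm_num) hp2).1 hsq
  let φ : ZMod p →+* F := ZMod.castHom (dvd_refl p) F
  have hb : φ a * φ a = 5 := by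
    rw [← map_mul, ← ha]
    simp [map_ofNat]
  have hbp : (φ a) ^ p = φ a := by
    rw [← map_pow, ZMod.pow_card]
  have ha' : (2 : F) * 2⁻¹ = 1 := mul_inv_cancel₀ h2
  refine ⟨(φ a - 1) * 2⁻¹, ?_, ?_⟩
  · generalize (2 : F)⁻¹ = c at ha' ⊢
    generalize φ a = b at hb ⊢
    linear_combination c ^ 2 * hb + ((3 - b) * c + 1) * ha'
  · rw [mul_pow, two_inv_pow, sub_eq_add_neg, add_pow_char, hbp, (Nat.Prime.odd_of_ne_two Fact.out hp2).neg_pow, one_pow]

theorem orderOf_two_five' : orderOf (2 : ZMod 5) = 4 := by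
  haveI : Fact (Nat.Prime 2) := ⟨Nat.prime_two⟩
  have := orderOf_eq_prime_pow (p := 2) (n := 1) (x := (2 : ZMod 5)) (by decide) (by decide)
  simpa using this

theorem orderOf_three_five' : orderOf (3 : ZMod 5) = 4 := by
  haveI : Fact (Nat.Prime 2) := ⟨Nat.prime_two⟩
  have := orderOf_eq_prime_pow (p := 2) (n := 1) (x := (3 : ZMod 5)) (by decide) (by decide)
  simpa using this

theorem orderOf_one_five' : orderOf (1 : ZMod 5) = 1 := orderOf_one

theorem orderOf_four_five' : orderOf (4 : ZMod 5) = 2 := by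
  haveI : Fact (Nat.Prime 2) := ⟨Nat.prime_two⟩
  have := orderOf_eq_prime_pow (p := 2) (n := 0) (x := (4 : ZMod 5)) (by decide) (by decide)
  simpa using this

section Neg

variable {R : Subgroup (GL (Fin 4) F)} {i : F} {ι u v g h P : GL (Fin 4) F}

theorem neg_three' [Fact p.Prime] [CharP F p] (hF : Fintype.card F = p ^ 2) (hp4 : p % 4 = 3) (hp3 : p % 3 = 2)
    (h2 : (2 : F) ≠ 0) (hFr : Pauli R i ι u v g h P)
    (hL : ∀ x ∈ Cfsg.GU 4 F p ⊓ Cfsg.Geo.specialLinear (Fin 4) F, (∃ z : F, ((x ^ 3 : GL (Fin 4) F) : Matrix (Fin 4) (Fin 4) F) = z • (1 : Matrix (Fin 4) (Fin 4) F)) →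
      (∀ z : F, (x : Matrix (Fin 4) (Fin 4) F) ≠ z • (1 : Matrix (Fin 4) (Fin 4) F)) →
      ∃ g ∈ Cfsg.GU 4 F p ⊓ Cfsg.Geo.specialLinear (Fin 4) F, g⁻¹ * x * g ∈ Cfsg.Geo.subgroupNormalizer R) : False := by
  classical
  have hp : p.Prime := Fact.out
  have h3 : (3 : F) ≠ 0 := by
    intro h
    have h1 : ((3 : ℕ) : F) = 0 := by exact_mod_cast h
    rw [CharP.cast_eq_zero_iff F p] at h1
    have := (Nat.prime_dvd_prime_iff_eq hp Nat.prime_three).mp h1
    subst this
    omega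
  obtain ⟨m, hm⟩ : ∃ m, p + 1 = 3 * m := ⟨(p + 1) / 3, by omega⟩
  obtain ⟨ω, hω, hωp⟩ : ∃ ω : F, ω * ω + ω + 1 = 0 ∧ ω ^ (p + 1) = 1 := by
    haveI : Fact (Nat.Prime 3) := ⟨Nat.prime_three⟩
    have hd : 3 ∣ Fintype.card Fˣ := by
      rw [Fintype.card_units, hF]
      have hp1 : p ^ 2 - 1 = (p + 1) * (p - 1) := by
        have := hp.one_le
        obtain ⟨k, rfl⟩ : ∃ k, p = k + 1 := ⟨p - 1, by omega⟩
        simp only [Nat.add_sub_cancel]
        have e : (k + 1) ^ 2 = (k + 1 + 1) * k + 1 := by ring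
        omega
      rw [hp1, hm]
      exact Dvd.dvd.mul_right (Dvd.intro _ rfl) _
    obtain ⟨ζ, hζ⟩ := exists_prime_orderOf_dvd_card 3 hd
    have h1 : (ζ : F) ^ 3 = 1 := by
      have := congrArg Units.val (hζ ▸ pow_orderOf_eq_one ζ)
      simpa using this
    refine ⟨ζ, ?_, ?_⟩
    · have h4 : (ζ : F) ≠ 1 := by
        intro h5
        have : ζ = 1 := Units.ext h5
        rw [this, orderOf_one] at hζ
        norm_num at hζ
      have h5 : ((ζ : F) - 1) * ((ζ : F) * ζ + ζ + 1) = 0 := by linear_combination h1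
      exact (mul_eq_zero.mp h5).resolve_left (sub_ne_zero.mpr h4)
    · rw [hm, pow_mul, h1, one_pow]
  have hω1 : ω ≠ 1 := by
    rintro rfl
    apply h3
    linear_combination hω
  have hω3 : ω * ω * ω = 1 := by linear_combination (ω - 1) * hω
  obtain ⟨x, hx, hxi⟩ := exists_x3 hω
  have hx3 : x ^ 3 = 1 := by
    apply Units.ext
    rw [Units.val_pow_eq_pow_val, hx, Units.val_one, Matrix.diagonal_pow, ← Matrix.diagonal_one]
    congr 1
    ext j
    fin_cases j <;> simp [pow_three, mul_assoc] <;> linear_combination hω3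
  have hdet : x ∈ Cfsg.Geo.specialLinear (Fin 4) F := by
    change Matrix.GeneralLinearGroup.det x = 1
    apply Units.ext
    change (x : Matrix (Fin 4) (Fin 4) F).det = 1
    rw [hx, Matrix.det_diagonal, Fin.prod_univ_four]
    simp
    exact hω3
  have hxU : x ∈ Cfsg.GU 4 F p := by
    change Preserves p (x : Matrix (Fin 4) (Fin 4) F)
    rw [hx]
    apply preserves_diagonal
    intro k
    fin_cases k <;> simp [hωp]
  have hns : ∀ z : F, (x : Matrix (Fin 4) (Fin 4) F) ≠ z • (1 : Matrix (Fin 4) (Fin 4) F) := by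
    intro z hz
    rw [hx] at hz
    have h0 := congrFun (congrFun hz 0) 0
    have h3' := congrFun (congrFun hz 3) 3
    simp at h0 h3'
    exact hω1 (by rw [h0, h3'])
  obtain ⟨g₀, _, hg⟩ := hL x ⟨hxU, hdet⟩ ⟨1, by rw [hx3]; simp⟩ hns
  have hy3 := Pauli.conj_pow_eq_one g₀ x hx3
  have htr : Matrix.trace ((g₀⁻¹ * x * g₀ : GL (Fin 4) F) : Matrix (Fin 4) (Fin 4) F) *
      Matrix.trace (((g₀⁻¹ * x * g₀)⁻¹ : GL (Fin 4) F) : Matrix (Fin 4) (Fin 4) F) = 7 := by
    rw [Pauli.trace_conj, Pauli.trace_conj_inv, hx, hxi]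
    simp [Matrix.trace, Fin.sum_univ_four]
    linear_combination (9 * (ω - 1) + 3) * hω
  obtain ⟨c, hc⟩ := hFr.scalar_of_three h2 h3 hg hy3 htr
  exact hns c (Pauli.scalar_of_conj hc)

theorem neg_three_char [Fact p.Prime] [CharP F p] (hF : Fintype.card F = p ^ 2) (hp4 : p % 4 = 3) (hp3 : p = 3)
    (h2 : (2 : F) ≠ 0) (hFr : Pauli R i ι u v g h P)
    (hL : ∀ x ∈ Cfsg.GU 4 F p ⊓ Cfsg.Geo.specialLinear (Fin 4) F, (∃ z : F, ((x ^ 3 : GL (Fin 4) F) : Matrix (Fin 4) (Fin 4) F) = z • (1 : Matrix (Fin 4) (Fin 4) F)) →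
      (∀ z : F, (x : Matrix (Fin 4) (Fin 4) F) ≠ z • (1 : Matrix (Fin 4) (Fin 4) F)) →
      ∃ g ∈ Cfsg.GU 4 F p ⊓ Cfsg.Geo.specialLinear (Fin 4) F, g⁻¹ * x * g ∈ Cfsg.Geo.subgroupNormalizer R) : False := by
  classical
  have h3 : (3 : F) = 0 := by
    subst hp3
    exact_mod_cast CharP.cast_eq_zero F 3
  have hi := hFr.hi
  have hi0 : i ≠ 0 := by
    rintro rfl
    have : (1 : F) = 0 := by linear_combination hi
    exact one_ne_zero this
  set a : Fin 4 → F := ![1, 1, 1, 0] with ha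
  set b : Fin 4 → F := ![i, i, i, 0] with hb
  have hdot : b ⬝ᵥ a = 0 := by
    simp [ha, hb, dotProduct, Fin.sum_univ_four]
    linear_combination i * h3
  have hN : Matrix.vecMulVec a b * Matrix.vecMulVec a b = 0 := by
    rw [Matrix.vecMulVec_mul_vecMulVec, hdot]
    simp
  let x : GL (Fin 4) F := ⟨1 + Matrix.vecMulVec a b, 1 - Matrix.vecMulVec a b,
    by simp only [Matrix.mul_sub, Matrix.add_mul, Matrix.one_mul, Matrix.mul_one, hN]; abel,
    by simp only [Matrix.sub_mul, Matrix.mul_add, Matrix.one_mul, Matrix.mul_one, hN]; abel⟩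
  have hx : (x : Matrix (Fin 4) (Fin 4) F) = 1 + Matrix.vecMulVec a b := rfl
  have hxi : ((x⁻¹ : GL (Fin 4) F) : Matrix (Fin 4) (Fin 4) F) = 1 - Matrix.vecMulVec a b := rfl
  have hpow : ∀ k : ℕ, (x ^ k : GL (Fin 4) F).val = 1 + (k : F) • Matrix.vecMulVec a b := by
    intro k
    induction k with
    | zero => simp
    | succ k ih =>
      rw [pow_succ, Units.val_mul, ih, hx]
      simp only [Matrix.mul_add, Matrix.add_mul, Matrix.mul_one, Matrix.one_mul, Matrix.smul_mul, hN]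
      push_cast
      module
  have hx3 : x ^ 3 = 1 := by
    apply Units.ext
    rw [hpow]
    push_cast
    rw [h3]
    simp
  have hdet : x ∈ Cfsg.Geo.specialLinear (Fin 4) F := by
    change Matrix.GeneralLinearGroup.det x = 1
    apply Units.ext
    change (x : Matrix (Fin 4) (Fin 4) F).det = 1
    rw [hx, Matrix.vecMulVec_eq Unit, Matrix.det_one_add_replicateCol_mul_replicateRow, hdot, add_zero]
  have hxU : x ∈ Cfsg.GU 4 F p := by
    change Preserves p (x : Matrix (Fin 4) (Fin 4) F)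
    rw [hx, ha, hb, ← M3_eq]
    exact M3_preserves hF hp4 h3 hi
  have hns : ∀ z : F, (x : Matrix (Fin 4) (Fin 4) F) ≠ z • (1 : Matrix (Fin 4) (Fin 4) F) := by
    intro z hz
    rw [hx] at hz
    have h0 := congrFun (congrFun hz 0) 1
    simp [Matrix.vecMulVec_apply, Matrix.one_apply, ha, hb] at h0
    exact hi0 h0
  obtain ⟨g₀, _, hg⟩ := hL x ⟨hxU, hdet⟩ ⟨1, by rw [hx3]; simp⟩ hns
  obtain ⟨c, hc⟩ := hFr.not_conj_transvection h2 hx hxi hg
  exact hns c hc

theorem neg_five' [Fact p.Prime] [CharP F p] (hF : Fintype.card F = p ^ 2) (hp4 : p % 4 = 3)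
    (h2 : (2 : F) ≠ 0) (h5 : (5 : F) ≠ 0) (hFr : Pauli R i ι u v g h P) {t : F} (hq : t * t + t - 1 = 0) (htp : t ^ p = t)
    (hL : ∀ x ∈ Cfsg.GU 4 F p ⊓ Cfsg.Geo.specialLinear (Fin 4) F, (∃ z : F, ((x ^ 5 : GL (Fin 4) F) : Matrix (Fin 4) (Fin 4) F) = z • (1 : Matrix (Fin 4) (Fin 4) F)) →
      (∀ z : F, (x : Matrix (Fin 4) (Fin 4) F) ≠ z • (1 : Matrix (Fin 4) (Fin 4) F)) →
      ∃ g ∈ Cfsg.GU 4 F p ⊓ Cfsg.Geo.specialLinear (Fin 4) F, g⁻¹ * x * g ∈ Cfsg.Geo.subgroupNormalizer R) : False := by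
  classical
  have hneg := neg_pow_p (F := F) hp4
  have hp0 : p ≠ 0 := (Fact.out : p.Prime).ne_zero
  have ha' : (2 : F) * 2⁻¹ = 1 := mul_inv_cancel₀ h2
  set a : F := t * 2⁻¹ with ha
  have haa : a + a = t := by
    rw [ha]
    linear_combination t * ha'
  have hap : a ^ p = a := by
    rw [ha, mul_pow, htp, two_inv_pow]
  have h1a : (1 - a * a) ≠ 0 := by
    intro h
    have h4 : t * t = 4 := by
      rw [← haa]
      linear_combination -4 * h
    have h6 : (t - 2) * (t + 2) = 0 := by linear_combination h4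
    rcases mul_eq_zero.mp h6 with h7 | h7
    · apply h5
      have h8 : t = 2 := by linear_combination h7
      rw [h8] at hq
      linear_combination hq
    · have h8 : t = -2 := by linear_combination h7
      rw [h8] at hq
      exact one_ne_zero (by linear_combination hq : (1 : F) = 0)
  have h1ap : (1 - a * a) ^ p = 1 - a * a := by
    rw [sub_eq_add_neg, add_pow_char, hneg, one_pow, mul_pow, hap]
  obtain ⟨b, hb⟩ := exists_norm_eq hF _ h1a h1ap
  have hbpp : (b ^ p) ^ p = b := pow_q_pow_q hF b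
  have hbb : b * b ^ p = 1 - a * a := by
    rw [← hb, pow_succ, mul_comm]
  have hdet' : a * a - b * (-b ^ p) = 1 := by
    linear_combination hbb
  have hq' : (a + a) * (a + a) + (a + a) - 1 = 0 := by
    rw [haa]
    exact hq
  let x : GL (Fin 4) F := ⟨A5g a b (-b ^ p) a, B5g a b (-b ^ p) a, A5g_mul_B5g hdet', B5g_mul_A5g hdet'⟩
  have hx : (x : Matrix (Fin 4) (Fin 4) F) = A5g a b (-b ^ p) a := rfl
  have hxi : ((x⁻¹ : GL (Fin 4) F) : Matrix (Fin 4) (Fin 4) F) = B5g a b (-b ^ p) a := rfl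
  have hx5 : x ^ 5 = 1 := by
    apply Units.ext
    rw [Units.val_pow_eq_pow_val, Units.val_one, hx]
    have := A5g_five hdet' hq'
    simpa [pow_succ] using this
  have hdet : x ∈ Cfsg.Geo.specialLinear (Fin 4) F := by
    change Matrix.GeneralLinearGroup.det x = 1
    apply Units.ext
    change (x : Matrix (Fin 4) (Fin 4) F).det = 1
    rw [hx, A5g_det hdet']
  have hxU : x ∈ Cfsg.GU 4 F p := by
    change Preserves p (x : Matrix (Fin 4) (Fin 4) F)
    rw [hx]
    have e : A5g a b (-b ^ p) a = (1 : F) • A5g a b (-b ^ p) a := (one_smul _ _).symm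
    rw [e]
    refine preserves_smul hF (k := 1) ?_ (by simp)
    intro c d
    fin_cases c <;> fin_cases d <;> simp [A5g, Fin.sum_univ_four, hap, hneg, hbpp, zero_pow hp0] <;>
      first
        | ring1
        | linear_combination hbb
        | linear_combination hbb + (0 : F) * hbpp
  have hns : ∀ z : F, (x : Matrix (Fin 4) (Fin 4) F) ≠ z • (1 : Matrix (Fin 4) (Fin 4) F) := by
    intro z hz
    rw [hx] at hz
    have h0 := congrFun (congrFun hz 0) 0
    have h3' := congrFun (congrFun hz 3) 3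
    have h1' := congrFun (congrFun hz 0) 1
    simp [A5g] at h0 h3' h1'
    -- `a = 1` and `b = 0`
    have h4 : a = 1 := by rw [h0, h3']
    apply h1a
    rw [h4]
    ring
  obtain ⟨g₀, _, hg⟩ := hL x ⟨hxU, hdet⟩ ⟨1, by rw [hx5]; simp⟩ hns
  have hy5 := Pauli.conj_pow_eq_one g₀ x hx5
  have htr : Matrix.trace ((g₀⁻¹ * x * g₀ : GL (Fin 4) F) : Matrix (Fin 4) (Fin 4) F) *
      Matrix.trace (((g₀⁻¹ * x * g₀)⁻¹ : GL (Fin 4) F) : Matrix (Fin 4) (Fin 4) F) = 3 * t + 5 := by
    rw [Pauli.trace_conj, Pauli.trace_conj_inv, hx, hxi]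
    simp [Matrix.trace, Fin.sum_univ_four, A5g, B5g]
    have e : a + a + 1 + 1 = t + 2 := by rw [haa]; ring
    rw [e]
    linear_combination hq
  obtain ⟨c, hc⟩ := hFr.scalar_of_five h2 h5 hg hy5 hq htr
  exact hns c (Pauli.scalar_of_conj hc)

end Neg

/-- Elements of prime order of PSU_4(p), p ≡ 3 (mod 4), and the normalizer of a 2-group of symplectic type of order 2⁶. Here `T = PSU_4(p)` for a prime `p ≡ 3 (mod 4)`, realised through `SU_4(p)`, the matrices of determinant 1 over the field `F` with `p²` elements preserving the hermitian form `f = Σ uᵢvᵢ^p`; `R` is an absolutely irreducible subgroup of the full unitary group of `f` of order 2⁶ that is a 2-group of symplectic type of exponent 4 with centre of order 4, and `H` is the subgroup of `SU_4(p)` normalizing `R` — a subgroup of type 2⁴.Sp₄(2) (maximality is not assumed). Ω is the set of cosets of `H`, so an element of `T` of prime order `r` (`x ∈ SU_4(p)` with `x^r` scalar, `x` not scalar) fixes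 a point of Ω exactly when some `SU_4(p)`-conjugate of `x` normalizes `R`. Let `r` be a prime dividing the index of `H`. Then every element of `T` of order `r` fixes a point of Ω if and only if `r = 2`, or `r = 3` and `p ≡ 1 (mod 3)`, or `r = 5` and `p ≡ ±2 (mod 5)` (`p` has multiplicative order 4 modulo 5). -/
theorem result {F : Type*} [Field F] [Fintype F] {p : ℕ} [Fact p.Prime] [CharP F p] (hF : Fintype.card F = p ^ 2) (hp4 : p % 4 = 3)
    (R : Subgroup (GL (Fin 4) F)) (hRs : Cfsg.Geo.IsSymplecticTypeGroup 2 R) (hRi : Cfsg.Geo.ActsAbsolutelyIrreducibly (Cfsg.Geo.matrixSet R))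
    (hRU : R ≤ Cfsg.GU 4 F p) (hR6 : Nat.card R = 2 ^ 6) (hRZ : Nat.card (Subgroup.center R) = 4)
    (r : ℕ) [Fact r.Prime]
    (hΩ : r ∣ (Cfsg.Geo.subgroupNormalizer R).relIndex (Cfsg.GU 4 F p ⊓ Cfsg.Geo.specialLinear (Fin 4) F)) :
    (∀ x ∈ Cfsg.GU 4 F p ⊓ Cfsg.Geo.specialLinear (Fin 4) F, (∃ z : F, ((x ^ r : GL (Fin 4) F) : Matrix (Fin 4) (Fin 4) F) = z • (1 : Matrix (Fin 4) (Fin 4) F)) →
      (∀ z : F, (x : Matrix (Fin 4) (Fin 4) F) ≠ z • (1 : Matrix (Fin 4) (Fin 4) F)) →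
      ∃ g ∈ Cfsg.GU 4 F p ⊓ Cfsg.Geo.specialLinear (Fin 4) F, g⁻¹ * x * g ∈ Cfsg.Geo.subgroupNormalizer R) ↔ (r = 2 ∨ (r = 3 ∧ p % 3 = 1) ∨ (r = 5 ∧ orderOf (p : ZMod 5) = 4)) := by
  classical
  have hp : p.Prime := Fact.out
  have hp2 := hp.two_le
  have hpo : p ≠ 2 := by
    rintro rfl
    omega
  have hp5' : p ≠ 5 := by
    rintro rfl
    omega
  have h2 : (2 : F) ≠ 0 := by
    intro h
    have h1 : ((2 : ℕ) : F) = 0 := by exact_mod_cast h
    rw [CharP.cast_eq_zero_iff F p] at h1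
    exact hpo ((Nat.prime_dvd_prime_iff_eq hp Nat.prime_two).mp h1)
  have h5 : (5 : F) ≠ 0 := by
    intro h
    have h1 : ((5 : ℕ) : F) = 0 := by exact_mod_cast h
    rw [CharP.cast_eq_zero_iff F p] at h1
    exact hp5' ((Nat.prime_dvd_prime_iff_eq hp (by norm_num)).mp h1)
  obtain ⟨i, ι, u, v, g, h, P₀, hFr₀⟩ := exists_pauli h2 R hRs hRi.2 hR6 hRZ
  obtain ⟨P, hFr, hPU⟩ := hFr₀.exists_unitary hF hpo h2 hRU
  have hdet : ∀ x ∈ Cfsg.Geo.specialLinear (Fin 4) F, (x : Matrix (Fin 4) (Fin 4) F).det = 1 := by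
    intro x hx
    have h1 : Matrix.GeneralLinearGroup.det x = 1 := hx
    have := congrArg Units.val h1
    simpa using this
  have h5mod : p % 5 ≠ 0 := by
    intro h0
    exact hp5' ((Nat.prime_dvd_prime_iff_eq (by norm_num) hp).mp (Nat.dvd_of_mod_eq_zero h0)).symm
  have he5 : (p : ZMod 5) = ((p % 5 : ℕ) : ZMod 5) := (ZMod.natCast_mod p 5).symm
  constructor
  · intro hL
    by_contra hcon
    push Not at hcon
    obtain ⟨hr2, hr3, hr5⟩ := hcon
    by_cases h3 : r = 3
    · subst h3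
      have h3' := hr3 rfl
      by_cases hp3 : p = 3
      · exact neg_three_char hF hp4 hp3 h2 hFr hL
      · have h0 : p % 3 ≠ 0 := by
          intro h0
          exact hp3 ((Nat.prime_dvd_prime_iff_eq Nat.prime_three hp).mp (Nat.dvd_of_mod_eq_zero h0)).symm
        exact neg_three' hF hp4 (by omega) h2 hFr hL
    by_cases h5r : r = 5
    · subst h5r
      have hord := hr5 rfl
      have hcases : (p : ZMod 5) = 1 ∨ (p : ZMod 5) = 4 := by
        have hlt : p % 5 < 5 := Nat.mod_lt _ (by norm_num)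
        have hc : p % 5 = 1 ∨ p % 5 = 2 ∨ p % 5 = 3 ∨ p % 5 = 4 := by omega
        rcases hc with hc | hc | hc | hc
        · left
          rw [he5, hc]
          rfl
        · exfalso
          apply hord
          rw [he5, hc]
          exact orderOf_two_five'
        · exfalso
          apply hord
          rw [he5, hc]
          exact orderOf_three_five'
        · right
          rw [he5, hc]
          rfl
      obtain ⟨t, ht, htp⟩ := exists_golden' (F := F) h2 hp5' hpo hcases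
      exact neg_five' hF hp4 h2 h5 hFr ht htp hL
    · have hdvd : r ∣ Nat.card (Cfsg.GU 4 F p ⊓ Cfsg.Geo.specialLinear (Fin 4) F : Subgroup (GL (Fin 4) F)) := hΩ.trans (Subgroup.relIndex_dvd_card _ _)
      obtain ⟨x, hx⟩ := exists_prime_orderOf_dvd_card' r hdvd
      have hxr : x ^ r = 1 := by rw [← hx]; exact pow_orderOf_eq_one x
      have hX : (x : GL (Fin 4) F) ^ r = 1 := by
        have := congrArg Subtype.val hxr
        simpa using this
      have hns : ∀ c : F, ((x : GL (Fin 4) F) : Matrix (Fin 4) (Fin 4) F) ≠ c • 1 := by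
        intro c hc
        have hd := hdet x x.2.2
        rw [hc, Matrix.det_smul, Matrix.det_one] at hd
        simp only [Fintype.card_fin, mul_one] at hd
        have h1 : (x : GL (Fin 4) F) ^ 4 = 1 := by
          apply Units.ext
          rw [Units.val_pow_eq_pow_val, hc, smul_pow, hd]
          simp
        have h4 : x ^ 4 = 1 := by
          apply Subtype.ext
          simpa using h1
        have h6 : r ∣ 4 := by
          rw [← hx]
          exact orderOf_dvd_of_pow_eq_one h4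
        have h7 : r ∣ 2 := by
          have : (4 : ℕ) = 2 ^ 2 := by norm_num
          rw [this] at h6
          exact (Fact.out : r.Prime).dvd_of_dvd_pow h6
        exact hr2 ((Nat.prime_dvd_prime_iff_eq Fact.out Nat.prime_two).mp h7)
      obtain ⟨g₀, hg, hy⟩ := hL x x.2 ⟨1, by rw [hX]; simp⟩ hns
      have hyr := Pauli.conj_pow_eq_one g₀ (x : GL (Fin 4) F) hX
      obtain ⟨c, hc⟩ := hFr.scalar_of_norm h2 hr2 h3 h5r hy hyr
      exact hns c (Pauli.scalar_of_conj hc)
  · rintro (rfl | ⟨rfl, hp3⟩ | ⟨rfl, hord⟩) x hx ⟨s, hs⟩ hns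
    · exact hFr.conj_two_U hPU hF hp4 h2 x hx.1 (hdet x hx.2) (s := s) (by
        rw [← hs, pow_two]
        rfl)
    · exact hFr.conj_three_U hPU hF hp4 hp3 h2 x hx.1 hs hns
    · have h52 : p % 5 = 2 ∨ p % 5 = 3 := by
        have hlt : p % 5 < 5 := Nat.mod_lt _ (by norm_num)
        have hc : p % 5 = 1 ∨ p % 5 = 2 ∨ p % 5 = 3 ∨ p % 5 = 4 := by omega
        rcases hc with hc | hc | hc | hc
        · exfalso
          rw [he5, hc] at hord
          have e : ((1 : ℕ) : ZMod 5) = 1 := rfl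
          rw [e, orderOf_one] at hord
          norm_num at hord
        · exact Or.inl hc
        · exact Or.inr hc
        · exfalso
          rw [he5, hc] at hord
          have e : ((4 : ℕ) : ZMod 5) = 4 := rfl
          rw [e, orderOf_four_five'] at hord
          norm_num at hord
      exact hFr.conj_five_U hPU hF hp4 h52 h2 x hx.1 hs hns

end Cfsg.Agent.S6001
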