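import Cfsg.Statements.S6002
import Cfsg.Agent.Lib.TwoSix.Five32
import Cfsg.Agent.S6000

set_option autoImplicit false
open scoped MatrixGroups
open Cfsg

namespace Cfsg.Agent.S6002

open Cfsg.Agent.Lib.TwoSix

/-- Elements of prime order of PSp_4(p), p odd, and the normalizer of an extraspecial 2-group of order 2⁵ of minus type. Here `T = PSp_4(F)` for the field `F` with `p` elements, `p` an odd prime, realised through the matrices preserving the standard alternating form `f`; `R` is an absolutely irreducible subgroup of `T` (it preserves `f`) that is a 2-group of symplectic type of exponent 4, order 2⁵ and centre of order 2, of minus type (no elementary abelian subgroup of order 2³), and `H` is the subgroup of `T` normalizing `R` — a subgroup of type 2^{1+4}.O₄⁻(2) (maximality is not assumed). Ω is the set of cosets of `H` in `T`, so an element of `T` of prime order `r` (`x ∈ T` with `x^r` scalar, `x` not scalar) fixes a point of Ω exactly when some `T`-conjugate of `x` normalizes `R`. Let `r` be a prime dividing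 the index of `H`. Then every element of `T` of order `r` fixes a point of Ω if and only if `r = 2`, or `r = 5` and `p` has multiplicative order 4 modulo 5. -/
theorem result {F : Type*} [Field F] [Fintype F] {p : ℕ} [Fact p.Prime] [CharP F p] (hF : Fintype.card F = p) (hodd : Odd p)
    (R : Subgroup (GL (Fin 2 ⊕ Fin 2) F)) (hRs : Cfsg.Geo.IsSymplecticTypeGroup 2 R) (hRi : Cfsg.Geo.ActsAbsolutelyIrreducibly (Cfsg.Geo.matrixSet R))
    (hRf : R ≤ Cfsg.spGL 2 F) (hR5 : Nat.card R = 2 ^ 5) (hRZ : Nat.card (Subgroup.center R) = 2) (hRm : Cfsg.Geo.IsOfMinusType 2 R)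
    (r : ℕ) [Fact r.Prime]
    (hΩ : r ∣ (Cfsg.Geo.subgroupNormalizer R).relIndex (Cfsg.spGL 2 F)) :
    (∀ x ∈ Cfsg.spGL 2 F, (∃ z : F, ((x ^ r : GL (Fin 2 ⊕ Fin 2) F) : Matrix (Fin 2 ⊕ Fin 2) (Fin 2 ⊕ Fin 2) F) = z • (1 : Matrix (Fin 2 ⊕ Fin 2) (Fin 2 ⊕ Fin 2) F)) →
      (∀ z : F, (x : Matrix (Fin 2 ⊕ Fin 2) (Fin 2 ⊕ Fin 2) F) ≠ z • (1 : Matrix (Fin 2 ⊕ Fin 2) (Fin 2 ⊕ Fin 2) F)) →
      ∃ g ∈ Cfsg.spGL 2 F, g⁻¹ * x * g ∈ Cfsg.Geo.subgroupNormalizer R) ↔ (r = 2 ∨ (r = 5 ∧ orderOf (p : ZMod 5) = 4)) := by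
  classical
  have hp : p.Prime := Fact.out
  have hpo : p ≠ 2 := by
    rintro rfl
    exact absurd hodd (by decide)
  have h2 : (2 : F) ≠ 0 := by
    intro h
    have h1 : ((2 : ℕ) : F) = 0 := by exact_mod_cast h
    rw [CharP.cast_eq_zero_iff F p] at h1
    exact hpo ((Nat.prime_dvd_prime_iff_eq hp Nat.prime_two).mp h1)
  have hcodd : Fintype.card F % 2 = 1 := by
    rw [hF]
    exact Nat.odd_iff.mp hodd
  obtain ⟨a, b, c, d, hFr⟩ := exists_extra h2 R hRs hRi.2 hR5 hRZ hRm
  constructor
  · intro hL
    by_contra hcon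
    push Not at hcon
    obtain ⟨hr2, hr5⟩ := hcon
    by_cases h3 : r = 3
    · subst h3
      by_cases h3' : (3 : F) = 0
      · exact Extra.neg_transvection hFr h2 (r := 3) (by exact_mod_cast h3') hL
      · exact Extra.neg_three hFr h2 h3' hL
    by_cases h5 : r = 5
    · subst h5
      have hord := hr5 rfl
      by_cases hp5 : p = 5
      · subst hp5
        apply Extra.neg_transvection hFr h2 (r := 5) _ hL
        exact_mod_cast CharP.cast_eq_zero F 5
      · have h5' : (5 : F) ≠ 0 := by
          intro h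
          have h1 : ((5 : ℕ) : F) = 0 := by exact_mod_cast h
          rw [CharP.cast_eq_zero_iff F p] at h1
          exact hp5 ((Nat.prime_dvd_prime_iff_eq hp (by norm_num)).mp h1)
        have hcases : (p : ZMod 5) = 1 ∨ (p : ZMod 5) = 4 := by
          have h0 : p % 5 ≠ 0 := by
            intro h0
            exact hp5 ((Nat.prime_dvd_prime_iff_eq (by norm_num) hp).mp (Nat.dvd_of_mod_eq_zero h0)).symm
          have hlt : p % 5 < 5 := Nat.mod_lt _ (by norm_num)
          have e : (p : ZMod 5) = ((p % 5 : ℕ) : ZMod 5) := (ZMod.natCast_mod p 5).symm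
          have hc : p % 5 = 1 ∨ p % 5 = 2 ∨ p % 5 = 3 ∨ p % 5 = 4 := by omega
          rcases hc with hc | hc | hc | hc
          · left
            rw [e, hc]
            rfl
          · exfalso
            apply hord
            rw [e, hc]
            exact Cfsg.Agent.S6000.orderOf_two_five
          · exfalso
            apply hord
            rw [e, hc]
            exact Cfsg.Agent.S6000.orderOf_three_five
          · right
            rw [e, hc]
            rfl
        obtain ⟨t, ht⟩ := Cfsg.Agent.S6000.exists_golden (F := F) h2 hp5 hcases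
        exact Extra.neg_five hFr h2 h5' ht hL
    · exact Extra.neg_big hFr h2 hr2 h3 h5 (hΩ.trans (Subgroup.relIndex_dvd_card _ _)) hL
  · rintro (rfl | ⟨rfl, hord⟩) x hx ⟨s, hs⟩ hns
    · exact hFr.conj_two hRf hcodd h2 hx (s := s) (by
        rw [← hs, pow_two]
        rfl) hns
    · exact hFr.conj_five hRf hF h2 hord hx hs

end Cfsg.Agent.S6002
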